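import Cfsg.Statements.S0719
import Cfsg.Agent.Chars.Apps.PermMult
import Mathlib.GroupTheory.GroupAction.Primitive
import Mathlib.GroupTheory.Perm.Cycle.Type
import Cfsg.Agent.Eq.Def_Characters

set_option autoImplicit false
open Cfsg

namespace Cfsg.Agent.S0719

open CfsgLib.Chars

/-- The arithmetic of a rank three group of degree `2m`. -/
theorem arith {m k : ℕ} {s t : ℤ} (hm : 2 ≤ m) (hk : 2 ≤ k) (hk' : k + 3 ≤ 2 * m)
    (F1 : (k : ℤ) + ((m : ℤ) - 1) * s + (m : ℤ) * t = 0)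
    (F2 : (k : ℤ) ^ 2 + ((m : ℤ) - 1) * s ^ 2 + (m : ℤ) * t ^ 2 = 2 * (m : ℤ) * k) :
    ∃ a : ℕ, 0 < a ∧ m = 2 * a ^ 2 + 2 * a + 1 ∧ (k = a * (2 * a + 1) ∨ k = (a + 1) * (2 * a + 1)) := by
  obtain ⟨j, rfl⟩ : ∃ j, s = j - t := ⟨s + t, by ring⟩
  have hk0 : (k : ℤ) = j - t - (m : ℤ) * j := by linear_combination F1
  have hkey : 2 * t * (t + 1) + ((m : ℤ) - 1) * (j ^ 2 + 2 * j) = 0 := by
    have hm0 : (m : ℤ) ≠ 0 := by positivity
    refine mul_left_cancel₀ hm0 ?_
    rw [mul_zero]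
    rw [hk0] at F2
    linear_combination F2
  have ht : 0 ≤ t * (t + 1) := by
    rcases le_or_gt 0 t with h | h
    · positivity
    · nlinarith
  have hj1 : -2 ≤ j := by nlinarith
  have hj2 : j ≤ 0 := by nlinarith
  interval_cases j
  · exfalso
    have h1 : t * (t + 1) = 0 := by linarith
    rcases mul_eq_zero.1 h1 with h | h <;> omega
  · have hm' : (m : ℤ) = 2 * t ^ 2 + 2 * t + 1 := by linarith
    rcases le_or_gt 0 t with h | h
    · obtain ⟨a, rfl⟩ := Int.eq_ofNat_of_zero_le h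
      refine ⟨a, Nat.pos_of_ne_zero fun h0 => ?_, by exact_mod_cast hm', Or.inl ?_⟩
      · subst h0; push_cast at hm'; omega
      · apply Nat.cast_injective (R := ℤ)
        push_cast
        rw [hk0, hm']; ring
    · obtain ⟨a, ha⟩ := Int.eq_ofNat_of_zero_le (show 0 ≤ -1 - t by omega)
      obtain rfl : t = -1 - (a : ℤ) := by omega
      refine ⟨a, Nat.pos_of_ne_zero fun h0 => ?_, ?_, Or.inr ?_⟩
      · subst h0; push_cast at hm'; omega
      · apply Nat.cast_injective (R := ℤ)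
        push_cast
        rw [hm']; ring
      · apply Nat.cast_injective (R := ℤ)
        push_cast
        rw [hk0, hm']; ring
  · exfalso
    have h1 : t * (t + 1) = 0 := by linarith
    rcases mul_eq_zero.1 h1 with h | h <;> omega

/-- Groups of Wielandt type: if a primitive group of degree `2m` has rank 3 and permutation character `1 + χ₁ + χ₂` with irreducible `χ₁, χ₂` of degrees `m - 1` and `m`, then `m = 2a² + 2a + 1` for some positive integer `a` and the two non-trivial subdegrees are `a(2a+1)` and `(a+1)(2a+1)`. -/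
theorem result {G : Type*} [Group G] [Fintype G] {Ω : Type*} [Fintype Ω] [MulAction G Ω] (hprim : MulAction.IsPreprimitive G Ω) {m : ℕ} (hm : Fintype.card Ω = 2 * m) (a₀ : Ω) (hrank : Nat.card (MulAction.orbitRel.Quotient (MulAction.stabilizer G a₀) Ω) = 3) (χ₁ χ₂ : G → ℂ) (h₁ : Cfsg.IsIrrCharacter G χ₁) (h₂ : Cfsg.IsIrrCharacter G χ₂) (hπ : (fun g : G => (Nat.card (MulAction.fixedBy Ω g) : ℂ)) = fun g => 1 + χ₁ g + χ₂ g) (hd₁ : χ₁ 1 = (m : ℂ) - 1) (hd₂ : χ₂ 1 = m) : ∃ a : ℕ, 0 < a ∧ m = 2 * a ^ 2 + 2 * a + 1 ∧ ∀ b : Ω, b ≠ a₀ → Nat.card (MulAction.orbit (MulAction.stabilizer G a₀) b) = a * (2 * a + 1) ∨ Nat.card (MulAction.orbit (MulAction.stabilizer G a₀) b) = (a + 1) * (2 * a + 1) := by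
  classical
  have htrans : MulAction.IsPretransitive G Ω := hprim.toIsPretransitive
  set H := MulAction.stabilizer G a₀
  have hnΩ : Nat.card Ω = 2 * m := by rw [Nat.card_eq_fintype_card, hm]
  have hn3 : 3 ≤ Fintype.card Ω := by
    rw [← hrank, ← Nat.card_eq_fintype_card]
    exact Nat.card_le_card_of_surjective (Quotient.mk _) Quotient.mk_surjective
  have hm2 : 2 ≤ m := by omega
  have hntriv : Nontrivial Ω := Fintype.one_lt_card_iff_nontrivial.1 (by omega)
  -- the three constituents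
  set c₁ : IrrCharacter G := ⟨χ₁, h₁⟩
  set c₂ : IrrCharacter G := ⟨χ₂, h₂⟩
  have hπ' : Apps.fixChar G Ω = (fun g => 1 + χ₁ g + χ₂ g) := hπ
  have hsum : (Apps.fixChar G Ω) = (oneChar G : G → ℂ) + (c₁ : G → ℂ) + (c₂ : G → ℂ) := by
    rw [hπ']; funext g; simp [c₁, c₂, oneChar_apply]
  have h12 : c₁ ≠ c₂ := fun h => by
    have h' := congrArg (fun c : IrrCharacter G => (c : G → ℂ) 1) h
    simp only [c₁, c₂, hd₁, hd₂] at h'
    norm_num at h'
  have hmult : ∀ ψ : IrrCharacter G, classInner (Apps.fixChar G Ω) (ψ : G → ℂ) =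
      (if oneChar G = ψ then 1 else 0) + (if c₁ = ψ then 1 else 0) + (if c₂ = ψ then 1 else 0) :=
    fun ψ => by rw [hsum, classInner_add_left, classInner_add_left, classInner_irr, classInner_irr,
      classInner_irr]
  have h01 : oneChar G ≠ c₁ ∧ oneChar G ≠ c₂ := by
    have h := hmult (oneChar G)
    rw [show (oneChar G : G → ℂ) = fun _ => 1 from funext oneChar_apply,
      Apps.classInner_fixChar_one a₀, if_pos rfl] at h
    constructor
    · intro e
      rw [if_pos e.symm] at h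
      split_ifs at h <;> norm_num at h
    · intro e
      rw [if_pos e.symm] at h
      split_ifs at h <;> norm_num at h
  let tr : IrrCharacter G → (G → ℂ) → ℂ := fun ψ f =>
    (Nat.card H : ℂ)⁻¹ * ∑ g, f g * (ψ : G → ℂ) g
  -- the regular character
  have hreg : ∀ f : G → ℂ, Apps.IsBiInv H f →
      tr (oneChar G) f + ((m : ℂ) - 1) * tr c₁ f + (m : ℂ) * tr c₂ f = 2 * (m : ℂ) * f 1 := by
    intro f hf
    have h := Apps.sum_map_one_mul_heckeTrace f H
    rw [← Finset.sum_subset (Finset.subset_univ ({oneChar G, c₁, c₂} : Finset (IrrCharacter G)))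
      fun ψ _ hψ => ?_] at h
    · rw [Finset.sum_insert (by simp [h01.1, h01.2]), Finset.sum_pair h12] at h
      have hG : (Nat.card G : ℂ) = (Nat.card H : ℂ) * (2 * (m : ℂ)) := by
        rw [← Apps.card_stabilizer_mul a₀, hm]; push_cast; rfl
      rw [hG, show (oneChar G : G → ℂ) 1 = 1 from oneChar_apply 1, one_mul,
        show (c₁ : G → ℂ) 1 = (m : ℂ) - 1 from hd₁, show (c₂ : G → ℂ) 1 = (m : ℂ) from hd₂,
        ← mul_assoc (Nat.card H : ℂ)⁻¹, ← mul_assoc (Nat.card H : ℂ)⁻¹,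
        inv_mul_cancel₀ Apps.card_ne_zeroH, one_mul, ← add_assoc] at h
      exact h
    · simp only [Finset.mem_insert, Finset.mem_singleton, not_or] at hψ
      obtain ⟨n, ρ, -, hρ⟩ := ψ.2
      rw [← hρ, ← Apps.trace_hecke, Apps.hecke_eq_zero ρ hf (by
        rw [← Apps.classInner_fixChar_eq a₀, hρ, hmult, if_neg (Ne.symm hψ.1),
          if_neg (Ne.symm hψ.2.1), if_neg (Ne.symm hψ.2.2)]
        norm_num), map_zero, mul_zero]
  have hone : ∀ ψ : IrrCharacter G, ψ = oneChar G ∨ ψ = c₁ ∨ ψ = c₂ →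
      classInner (Apps.fixChar G Ω) (ψ : G → ℂ) = 1 := by
    rintro ψ (rfl | rfl | rfl) <;> rw [hmult] <;>
      simp [h01.1, h01.2, h12, h01.1.symm, h01.2.symm, h12.symm]
  -- sets of points
  have horb : ∀ x : Ω, ∀ h ∈ H, ∀ y : Ω, h • y ∈ MulAction.orbit H x ↔ y ∈ MulAction.orbit H x := by
    intro x h hh y
    show (⟨h, hh⟩ : H) • y ∈ MulAction.orbit H x ↔ y ∈ MulAction.orbit H x
    exact ⟨fun h1 => by
      have := MulAction.mem_orbit_of_mem_orbit (⟨h, hh⟩ : H)⁻¹ h1
      rwa [inv_smul_smul] at this, fun h1 => MulAction.mem_orbit_of_mem_orbit _ h1⟩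
  have ha₀ : MulAction.orbit H a₀ = {a₀} := by
    refine Set.eq_singleton_iff_unique_mem.2 ⟨MulAction.mem_orbit_self _, ?_⟩
    rintro _ ⟨h, rfl⟩
    exact h.2
  have hnoFix : ∀ x, x ≠ a₀ → Nat.card (MulAction.orbit H x) ≠ 1 := by
    intro x hx h1
    rw [Nat.card_coe_set_eq, Set.ncard_eq_one] at h1
    obtain ⟨y, hy⟩ := h1
    have hxy : ∀ h ∈ H, h • x = x := fun h hh => by
      have e1 : x ∈ ({y} : Set Ω) := hy ▸ MulAction.mem_orbit_self x
      have e2 : h • x ∈ ({y} : Set Ω) := hy ▸ MulAction.mem_orbit x (⟨h, hh⟩ : H)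
      rw [Set.mem_singleton_iff] at e1 e2
      rw [e2, ← e1]
    obtain ⟨k, hk⟩ := MulAction.exists_smul_eq G a₀ x
    have hle : H ≤ MulAction.stabilizer G x := fun h hh => hxy h hh
    have heq : H = MulAction.stabilizer G x := by
      refine Subgroup.eq_of_le_of_card_ge hle (le_of_eq ?_)
      exact (Nat.card_congr (MulAction.stabilizerEquivStabilizer hk.symm).toEquiv).symm
    rw [← hk, MulAction.stabilizer_smul_eq_stabilizer_map_conj] at heq
    have hkN : k ∈ Subgroup.normalizer (H : Set G) := by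
      rw [Subgroup.mem_normalizer_iff]
      intro g
      constructor
      · intro hg
        rw [heq]
        exact ⟨g, hg, rfl⟩
      · intro hg
        rw [heq] at hg
        obtain ⟨g', hg', e⟩ := hg
        rw [show g = g' from (mul_left_cancel (mul_right_cancel e)).symm]
        exact hg'
    have hco := MulAction.IsPreprimitive.isCoatom_stabilizer_of_isPreprimitive (G := G) a₀
    rcases eq_or_lt_of_le (Subgroup.le_normalizer : H ≤ Subgroup.normalizer (H : Set G)) with h2 | h2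
    · rw [← h2] at hkN
      exact hx (hk.symm.trans hkN)
    · have h3 := hco.2 _ h2
      have hfix : ∀ z : Ω, ∀ h ∈ H, h • z = z := by
        intro z h hh
        obtain ⟨l, rfl⟩ := MulAction.exists_smul_eq G a₀ z
        have hl : l⁻¹ ∈ Subgroup.normalizer (H : Set G) := h3 ▸ Subgroup.mem_top _
        have h4 := (Subgroup.mem_normalizer_iff.1 hl h).1 hh
        rw [inv_inv] at h4
        have h5 : (l⁻¹ * h * l) • a₀ = a₀ := h4
        calc h • l • a₀ = l • (l⁻¹ * h * l) • a₀ := by rw [smul_smul, smul_smul]; congr 1; group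
          _ = l • a₀ := by rw [h5]
      have h6 : Nat.card (MulAction.orbitRel.Quotient H Ω) = Nat.card Ω := by
        refine (Nat.card_congr (Equiv.ofBijective (Quotient.mk _) ⟨fun y z hyz => ?_,
          Quotient.mk_surjective⟩)).symm
        obtain ⟨h, rfl⟩ := Quotient.exact hyz
        exact hfix z _ h.2
      omega
  suffices key : ∀ b : Ω, b ≠ a₀ → ∃ a : ℕ, 0 < a ∧ m = 2 * a ^ 2 + 2 * a + 1 ∧
      (Nat.card (MulAction.orbit H b) = a * (2 * a + 1) ∨
        Nat.card (MulAction.orbit H b) = (a + 1) * (2 * a + 1)) by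
    obtain ⟨b₀, hb₀⟩ := exists_ne a₀
    obtain ⟨a, ha, hma, -⟩ := key b₀ hb₀
    refine ⟨a, ha, hma, fun b hb => ?_⟩
    obtain ⟨a', -, hma', h⟩ := key b hb
    obtain rfl : a = a' := by nlinarith
    exact h
  intro b hb
  -- the third suborbit
  obtain ⟨c, hc, hcb⟩ : ∃ c, c ≠ a₀ ∧ c ∉ MulAction.orbit H b := by
    by_contra hno
    push Not at hno
    have h2 : Nat.card (MulAction.orbitRel.Quotient H Ω) ≤ Nat.card (Fin 2) := by
      refine Nat.card_le_card_of_surjective (fun i : Fin 2 => Quotient.mk _ (if i = 0 then a₀ else b))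
        fun q => ?_
      induction q using Quotient.inductionOn with
      | h y =>
        rcases eq_or_ne y a₀ with rfl | hy
        · exact ⟨0, by simp⟩
        · exact ⟨1, by simpa using (Quotient.sound (hno y hy)).symm⟩
    rw [Nat.card_fin] at h2
    omega
  have hcover : ∀ y, y ≠ a₀ → y ∉ MulAction.orbit H b → y ∈ MulAction.orbit H c := by
    intro y hy hyb
    by_contra hyc
    have h4 : Nat.card (Fin 4) ≤ Nat.card (MulAction.orbitRel.Quotient H Ω) := by
      refine Nat.card_le_card_of_injective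
        (fun i : Fin 4 => Quotient.mk _ (![a₀, b, c, y] i)) fun i j hij => ?_
      have hij' : ![a₀, b, c, y] i ∈ MulAction.orbit H (![a₀, b, c, y] j) := Quotient.exact hij
      have hij'' : ![a₀, b, c, y] j ∈ MulAction.orbit H (![a₀, b, c, y] i) :=
        MulAction.mem_orbit_symm.1 hij'
      fin_cases i <;> fin_cases j <;>
        simp_all [Matrix.cons_val_zero, Matrix.cons_val_one]
    rw [Nat.card_fin] at h4
    omega
  -- self-pairing
  obtain ⟨w, hw, hswap⟩ : ∃ w : G, w • a₀ ≠ a₀ ∧ w • w • a₀ = a₀ := by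
    have hdvd : 2 ∣ Nat.card (MulAction.toPermHom G Ω).range := by
      refine dvd_trans ⟨m, hnΩ⟩ ?_
      have : MulAction.IsPretransitive (MulAction.toPermHom G Ω).range Ω := ⟨fun x y => by
        obtain ⟨g, hg⟩ := MulAction.exists_smul_eq G x y
        exact ⟨⟨_, g, rfl⟩, hg⟩⟩
      rw [← MulAction.index_stabilizer_of_transitive (MulAction.toPermHom G Ω).range a₀]
      exact Subgroup.index_dvd_card _
    have : Fact (Nat.Prime 2) := ⟨Nat.prime_two⟩
    obtain ⟨⟨σ, g, rfl⟩, hσ⟩ := exists_prime_orderOf_dvd_card' 2 hdvd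
    have hσ2 : MulAction.toPermHom G Ω g * MulAction.toPermHom G Ω g = 1 := by
      have h := congrArg Subtype.val (pow_orderOf_eq_one
        (⟨_, g, rfl⟩ : (MulAction.toPermHom G Ω).range))
      rw [hσ, pow_two] at h
      exact h
    obtain ⟨x, hx⟩ : ∃ x : Ω, g • x ≠ x := by
      by_contra hno
      push Not at hno
      have h1 : (⟨_, g, rfl⟩ : (MulAction.toPermHom G Ω).range) = 1 :=
        Subtype.ext (Equiv.ext hno)
      rw [h1, orderOf_one] at hσ
      omega
    obtain ⟨k, rfl⟩ := MulAction.exists_smul_eq G a₀ x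
    refine ⟨k⁻¹ * g * k, fun h => hx ?_, ?_⟩
    · rw [mul_smul, mul_smul, inv_smul_eq_iff] at h
      exact h
    · simp only [mul_smul, smul_inv_smul]
      rw [show g • g • k • a₀ = k • a₀ from congr($hσ2 (k • a₀)), inv_smul_smul]
  have hpair : ∀ g : G, g • a₀ ∈ MulAction.orbit H (w • a₀) →
      g⁻¹ • a₀ ∈ MulAction.orbit H (w • a₀) := by
    rintro g ⟨⟨h, hh⟩, hgh⟩
    have h1 : (h * w)⁻¹ * g ∈ H := by
      show ((h * w)⁻¹ * g) • a₀ = a₀
      rw [mul_smul, inv_smul_eq_iff, mul_smul]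
      exact hgh.symm
    have h2 : w⁻¹ • a₀ = w • a₀ := by rw [inv_smul_eq_iff]; exact hswap.symm
    refine ⟨(⟨(h * w)⁻¹ * g, h1⟩ : H)⁻¹, ?_⟩
    show ((h * w)⁻¹ * g)⁻¹ • w • a₀ = g⁻¹ • a₀
    rw [mul_inv_rev, inv_inv, mul_smul, mul_smul, hswap, show h • a₀ = a₀ from hh]
  have hsymS : ∀ g : G, g • a₀ ∈ MulAction.orbit H b → g⁻¹ • a₀ ∈ MulAction.orbit H b := by
    intro g hg
    by_cases hwb : w • a₀ ∈ MulAction.orbit H b
    · rw [← MulAction.orbit_eq_iff.2 hwb] at hg ⊢
      exact hpair g hg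
    · have he := MulAction.orbit_eq_iff.2 (hcover _ hw hwb)
      have hga : g⁻¹ • a₀ ≠ a₀ := fun h => by
        rw [inv_smul_eq_iff] at h
        rw [← h] at hg
        exact hb (Set.mem_singleton_iff.1 (ha₀ ▸ MulAction.mem_orbit_symm.1 hg))
      by_contra hgb
      have h1 := hpair g⁻¹ (he ▸ hcover _ hga hgb)
      rw [inv_inv, he] at h1
      exact hcb (MulAction.orbit_eq_iff.1
        ((MulAction.orbit_eq_iff.2 h1).symm.trans (MulAction.orbit_eq_iff.2 hg)))
  -- bi-invariant functions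
  set S := MulAction.orbit H b
  set S' := MulAction.orbit H c
  set z := Apps.pointInd (G := G) a₀ S
  have hz : Apps.IsBiInv H z := Apps.isBiInv_pointInd a₀ (horb b)
  set f : G → ℂ := fun g => (z g : ℂ)
  set f' : G → ℂ := fun g => (Apps.pointInd (G := G) a₀ S' g : ℂ)
  have hcast : ∀ {y : G → ℤ}, Apps.IsBiInv H y → Apps.IsBiInv H (fun g => (y g : ℂ)) :=
    fun hy h hh g => ⟨congrArg Int.cast (hy h hh g).1, congrArg Int.cast (hy h hh g).2⟩
  have hfb : Apps.IsBiInv H f := hcast hz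
  set k := Nat.card S
  set k' := Nat.card S'
  have hk1 : 2 ≤ k := by
    have : 0 < k := @Nat.card_pos _ ⟨⟨b, MulAction.mem_orbit_self b⟩⟩ _
    have : k ≠ 1 := hnoFix b hb
    omega
  have hk2 : 2 ≤ k' := by
    have : 0 < k' := @Nat.card_pos _ ⟨⟨c, MulAction.mem_orbit_self c⟩⟩ _
    have : k' ≠ 1 := hnoFix c hc
    omega
  have htri : ∀ g : G, g • a₀ = a₀ ∨ g • a₀ ∈ S ∨ g • a₀ ∈ S' := fun g => by
    rcases eq_or_ne (g • a₀) a₀ with h | h
    · exact Or.inl h
    · by_cases h' : g • a₀ ∈ S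
      · exact Or.inr (Or.inl h')
      · exact Or.inr (Or.inr (hcover _ h h'))
  have hab : a₀ ∉ S := fun h => hb (Set.mem_singleton_iff.1 (ha₀ ▸ MulAction.mem_orbit_symm.1 h))
  have hac : a₀ ∉ S' := fun h => hc (Set.mem_singleton_iff.1 (ha₀ ▸ MulAction.mem_orbit_symm.1 h))
  have hbc : ∀ y, y ∈ S → y ∉ S' := fun y hy hy' =>
    hcb (MulAction.orbit_eq_iff.1
      ((MulAction.orbit_eq_iff.2 hy').symm.trans (MulAction.orbit_eq_iff.2 hy)))
  have hpart : ∀ g : G, Apps.heckeOne H g + f g + f' g = 1 := by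
    intro g
    rcases htri g with h | h | h
    · have hgH : g ∈ H := h
      simp [Apps.heckeOne, f, f', z, Apps.pointInd, hgH, h, hab, hac]
    · have hgH : g ∉ H := fun h' => hab ((show g • a₀ = a₀ from h') ▸ h)
      simp [Apps.heckeOne, f, f', z, Apps.pointInd, hgH, h, hbc _ h]
    · have hgH : g ∉ H := fun h' => hac ((show g • a₀ = a₀ from h') ▸ h)
      have hgS : g • a₀ ∉ S := fun h' => hbc _ h' h
      simp [Apps.heckeOne, f, f', z, Apps.pointInd, hgH, h, hgS]
  have hkk : k + k' + 1 = 2 * m := by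
    have h := congrArg (fun e : G → ℂ => ∑ g, e g) (funext hpart :
      (fun g => Apps.heckeOne H g + f g + f' g) = fun _ => 1)
    simp only [Finset.sum_add_distrib, f, f', z, Apps.sum_pointInd, Finset.sum_const,
      Finset.card_univ, nsmul_eq_mul, mul_one] at h
    let _ := Fintype.ofFinite H
    have h1 : ∑ g, Apps.heckeOne H g = (Nat.card H : ℂ) := by
      simpa [Nat.card_eq_fintype_card] using Apps.sum_heckeOne_smul (H := H) (fun _ : G => (1 : ℂ))
    rw [h1, ← Nat.card_eq_fintype_card (α := G), ← Apps.card_stabilizer_mul (G := G) a₀, hm] at h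
    apply Nat.cast_injective (R := ℂ)
    push_cast at h ⊢
    refine mul_left_cancel₀ (Apps.card_ne_zeroH (H := H)) ?_
    linear_combination h
  -- the square of the orbital
  set u := Apps.convH H z z
  have hu : Apps.IsBiInv H u := hz.convH hz
  have hu1 : u 1 = k := by
    apply Int.cast_injective (α := ℂ)
    refine mul_left_cancel₀ (Apps.card_ne_zeroH (H := H)) ?_
    have h0 := Apps.sum_pointInd (G := G) a₀ S
    push_cast
    rw [← h0]
    simp only [u, Apps.convH, finsum_eq_sum_of_fintype, mul_one]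
    push_cast
    rw [Apps.sum_eq_card_mul_finsum (H := H) (F := fun g => (z g : ℂ)) fun g h hh => by
      rw [(hz h hh g).2], finsum_eq_sum_of_fintype]
    congr 1
    refine Finset.sum_congr rfl fun q _ => ?_
    simp only [z, Apps.pointInd]
    by_cases h : q.out • a₀ ∈ S
    · simp [h, hsymS _ h]
    · simp [h]
  obtain ⟨gb, hgb⟩ := MulAction.exists_smul_eq G a₀ b
  obtain ⟨gc, hgc⟩ := MulAction.exists_smul_eq G a₀ c
  have hconst : ∀ g g' : G, g • a₀ ∈ MulAction.orbit H (g' • a₀) → u g = u g' := by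
    rintro g g' ⟨⟨h, hh⟩, e⟩
    have e' : h • g' • a₀ = g • a₀ := e
    have h1 : (h * g')⁻¹ * g ∈ H := by
      show ((h * g')⁻¹ * g) • a₀ = a₀
      rw [mul_smul, inv_smul_eq_iff, mul_smul, e']
    have h2 := (hu _ h1 (h * g')).2
    rwa [mul_inv_cancel_left, (hu h hh g').1] at h2
  have hdec : ∀ g : G, (u g : ℂ) =
      (k : ℂ) * Apps.heckeOne H g + (u gb : ℂ) * f g + (u gc : ℂ) * f' g := by
    intro g
    rcases htri g with h | h | h
    · have hgH : g ∈ H := h
      rw [hconst g 1 (by rw [h, one_smul]; exact MulAction.mem_orbit_self _), hu1]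
      simp [Apps.heckeOne, f, f', z, Apps.pointInd, hgH, h, hab, hac]
    · have hgH : g ∉ H := fun h' => hab ((show g • a₀ = a₀ from h') ▸ h)
      rw [hconst g gb (by rw [hgb]; exact h)]
      simp [Apps.heckeOne, f, f', z, Apps.pointInd, hgH, h, hbc _ h]
    · have hgH : g ∉ H := fun h' => hac ((show g • a₀ = a₀ from h') ▸ h)
      have hgS : g • a₀ ∉ S := fun h' => hbc _ h' h
      rw [hconst g gc (by rw [hgc]; exact h)]
      simp [Apps.heckeOne, f, f', z, Apps.pointInd, hgH, h, hgS]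
  -- traces
  have hsq : ∀ ψ : IrrCharacter G, ψ = oneChar G ∨ ψ = c₁ ∨ ψ = c₂ →
      tr ψ (fun g => (u g : ℂ)) = tr ψ f ^ 2 ∧ tr ψ (Apps.heckeOne H) = 1 ∧
      IsIntegral ℤ (tr ψ f) := by
    intro ψ hψ
    obtain ⟨n, ρ, -, hρ⟩ := ψ.2
    have h1 : LinearMap.trace ℂ _ (Apps.avgOp ρ H) = 1 := by
      rw [← Apps.classInner_fixChar_eq a₀, hρ]; exact hone ψ hψ
    have htr : ∀ e : G → ℂ, tr ψ e = LinearMap.trace ℂ _ (Apps.hecke ρ H e) := fun e => by
      rw [Apps.trace_hecke, hρ]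
    refine ⟨?_, by rw [htr]; exact h1, by rw [htr]; exact Apps.isIntegral_trace_hecke ρ hz⟩
    have h2 : (fun g => (u g : ℂ)) = Apps.convH H f f := funext fun g => by
      simp only [u, Apps.convH, finsum_eq_sum_of_fintype, f]
      push_cast
      rfl
    rw [h2, htr, htr, ← Apps.hecke_mul_hecke ρ hfb hfb]
    conv_lhs => rw [Apps.hecke_eq_smul ρ hfb h1, smul_mul_smul_comm, Apps.avgOp_mul_avgOp ρ,
      map_smul, h1]
    rw [smul_eq_mul, mul_one, pow_two]
  have hlin : ∀ ψ : IrrCharacter G, tr ψ (fun g => (u g : ℂ)) =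
      (k : ℂ) * tr ψ (Apps.heckeOne H) + (u gb : ℂ) * tr ψ f + (u gc : ℂ) * tr ψ f' := by
    intro ψ
    simp only [tr]
    rw [Finset.sum_congr rfl fun g _ => congrArg (· * _) (hdec g)]
    simp only [add_mul, Finset.sum_add_distrib, mul_add, mul_assoc, ← Finset.mul_sum]
    ring
  have hflat : ∀ ψ : IrrCharacter G, ψ ≠ oneChar G →
      tr ψ (Apps.heckeOne H) + tr ψ f + tr ψ f' = 0 := by
    intro ψ hψ
    have h := classInner_of_ne hψ
    simp only [classInner, oneChar_apply, map_one, mul_one, mul_eq_zero, inv_eq_zero] at h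
    have h' := h.resolve_left natCard_ne_zero
    simp only [tr, ← mul_add, ← Finset.sum_add_distrib, ← add_mul, hpart, one_mul, h', mul_zero]
  set s := tr c₁ f
  set t := tr c₂ f
  have htk : tr (oneChar G) f = k := by
    simp only [tr, oneChar_apply, mul_one, f, z]
    rw [Apps.sum_pointInd, ← mul_assoc, inv_mul_cancel₀ Apps.card_ne_zeroH, one_mul]
  have E1 : (k : ℂ) + ((m : ℂ) - 1) * s + (m : ℂ) * t = 0 := by
    have h := hreg f hfb
    rw [htk, show f 1 = 0 by simp [f, z, Apps.pointInd, hab], mul_zero] at h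
    exact h
  have E2 : (k : ℂ) ^ 2 + ((m : ℂ) - 1) * s ^ 2 + (m : ℂ) * t ^ 2 = 2 * (m : ℂ) * k := by
    have h := hreg _ (hcast hu)
    rw [(hsq _ (Or.inl rfl)).1, (hsq _ (Or.inr (Or.inl rfl))).1, (hsq _ (Or.inr (Or.inr rfl))).1,
      htk, hu1] at h
    exact_mod_cast h
  have Q : ∀ ψ : IrrCharacter G, ψ = c₁ ∨ ψ = c₂ →
      tr ψ f ^ 2 = (k : ℂ) + (u gb : ℂ) * tr ψ f + (u gc : ℂ) * (-1 - tr ψ f) := by
    intro ψ hψ
    have hne : ψ ≠ oneChar G := by
      rcases hψ with rfl | rfl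
      · exact h01.1.symm
      · exact h01.2.symm
    have h := hlin ψ
    rw [(hsq ψ (Or.inr hψ)).1, (hsq ψ (Or.inr hψ)).2.1] at h
    have h' := hflat ψ hne
    rw [(hsq ψ (Or.inr hψ)).2.1] at h'
    linear_combination h + (u gc : ℂ) * h'
  have hst : s ≠ t := by
    intro hst
    have h1 : (k : ℂ) / ((2 * m - 1 : ℕ) : ℂ) = -s := by
      rw [div_eq_iff (Nat.cast_ne_zero.2 (by omega)), Nat.cast_sub (by omega)]
      push_cast
      rw [← hst] at E1
      linear_combination E1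
    have h2 : IsIntegral ℤ ((k : ℂ) / ((2 * m - 1 : ℕ) : ℂ)) :=
      h1 ▸ (hsq c₁ (Or.inr (Or.inl rfl))).2.2.neg
    have := Nat.le_of_dvd (by omega) (dvd_of_isIntegral_div (by omega) h2)
    omega
  have hβ : s + t = ((u gb - u gc : ℤ) : ℂ) := by
    refine mul_left_cancel₀ (sub_ne_zero.2 hst) ?_
    push_cast
    linear_combination Q c₁ (Or.inl rfl) - Q c₂ (Or.inr rfl)
  obtain ⟨t', ht'⟩ : ∃ t' : ℤ, t = (t' : ℂ) := ⟨-(k : ℤ) - ((m : ℤ) - 1) * (u gb - u gc), by
    push_cast at hβ ⊢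
    linear_combination E1 - ((m : ℂ) - 1) * hβ⟩
  obtain ⟨s', hs'⟩ : ∃ s' : ℤ, s = (s' : ℂ) := ⟨(u gb - u gc) - t', by
    push_cast at hβ ⊢
    linear_combination hβ - ht'⟩
  have F1 : (k : ℤ) + ((m : ℤ) - 1) * s' + (m : ℤ) * t' = 0 := by
    apply Int.cast_injective (α := ℂ)
    push_cast
    rw [← hs', ← ht']
    exact E1
  have F2 : (k : ℤ) ^ 2 + ((m : ℤ) - 1) * s' ^ 2 + (m : ℤ) * t' ^ 2 = 2 * (m : ℤ) * k := by
    apply Int.cast_injective (α := ℂ)
    push_cast
    rw [← hs', ← ht']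
    exact E2
  exact arith hm2 hk1 (by omega) F1 F2

end Cfsg.Agent.S0719
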