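import Cfsg.Statements.S2569


set_option autoImplicit false
open Cfsg

namespace Cfsg.Agent.S2569

/-- In GL_n over a finite field of characteristic p, the conjugacy class of a semisimple element (an element of order prime to p) under the special linear group is its whole GL-conjugacy class: for every such x and every invertible g there is h of determinant one with h x h⁻¹ = g x g⁻¹. -/
theorem result {F : Type*} [Field F] [Fintype F] {p : ℕ} [Fact p.Prime] [CharP F p] {n : ℕ} (x g : GL (Fin n) F) (hx : (orderOf x).Coprime p) : ∃ h : GL (Fin n) F, (h : Matrix (Fin n) (Fin n) F).det = 1 ∧ h * x * h⁻¹ = g * x * g⁻¹ := by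
  classical
  rcases Nat.eq_zero_or_pos n with rfl | hn
  · exact ⟨g, Matrix.det_isEmpty, rfl⟩
  let f : Module.End F (Fin n → F) := Matrix.toLin' (x : Matrix (Fin n) (Fin n) F)
  set r := orderOf x with hr
  have hrpos : 0 < r := orderOf_pos x
  have hfr : f ^ r = 1 := by
    rw [← Matrix.toLin'_pow, ← Units.val_pow_eq_pow_val, hr, pow_orderOf_eq_one, Units.val_one, Matrix.toLin'_one]
    rfl
  have hsep : Squarefree (Polynomial.X ^ r - 1 : Polynomial F) := by
    refine (Polynomial.separable_X_pow_sub_C (1 : F) ?_ one_ne_zero).squarefree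
    rw [Ne, CharP.cast_eq_zero_iff F p]
    exact fun h => (Fact.out : p.Prime).ne_one (Nat.dvd_one.1 (hx.gcd_eq_one ▸ Nat.dvd_gcd h dvd_rfl))
  have hss : f.IsSemisimple :=
    Module.End.isSemisimple_of_squarefree_aeval_eq_zero hsep (by simp [hfr])
  have hbij : Function.Bijective f := by
    have : IsUnit f := (Units.isUnit x).map (Matrix.toLinAlgEquiv' : _ ≃ₐ[F] Module.End F (Fin n → F))
    exact (Module.End.isUnit_iff f).1 this
  -- a minimal nonzero invariant subspace
  haveI : Nonempty (Fin n) := ⟨⟨0, hn⟩⟩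
  obtain ⟨W, ⟨hW0, hWinv⟩, hmin⟩ := exists_minimalFor_of_wellFoundedLT
    (fun W : Submodule F (Fin n → F) => W ≠ ⊥ ∧ ∀ v ∈ W, f v ∈ W) (fun W => Module.finrank F W)
    ⟨⊤, top_ne_bot, fun _ _ => trivial⟩
  obtain ⟨C, hC, hWC⟩ := Module.End.isSemisimple_iff.1 hss W hWinv
  let fW : Module.End F W := f.restrict hWinv
  let A : Subalgebra F (Module.End F W) := Algebra.adjoin F {fW}
  letI : CommRing A := Algebra.adjoinCommRingOfComm F (s := {fW})
    (fun a ha b hb => by rw [Set.mem_singleton_iff] at ha hb; rw [ha, hb])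
  have hcomm : ∀ a : A, Commute (a : Module.End F W) fW := fun a => (Algebra.commute_of_mem_adjoin_self a.2).symm
  obtain ⟨w, hw, hw0⟩ := Submodule.exists_mem_ne_zero_of_ne_bot hW0
  have hsub : ∀ (X : Submodule F W), X ≠ ⊥ → (∀ v ∈ X, fW v ∈ X) → X = ⊤ := by
    intro X hX hXinv
    have h1 : X.map W.subtype ≠ ⊥ := fun h => hX (by
      rw [eq_bot_iff]
      intro v hv
      have : (v : Fin n → F) ∈ X.map W.subtype := ⟨v, hv, rfl⟩
      rw [h, Submodule.mem_bot] at this
      exact Subtype.ext this)
    have h2 : ∀ v ∈ X.map W.subtype, f v ∈ X.map W.subtype := by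
      rintro _ ⟨v, hv, rfl⟩; exact ⟨fW v, hXinv v hv, rfl⟩
    have h3 : Module.finrank F W ≤ Module.finrank F (X.map W.subtype) := by
      rcases le_total (Module.finrank F W) (Module.finrank F (X.map W.subtype)) with h | h
      · exact h
      · exact hmin ⟨h1, h2⟩ h
    refine Submodule.eq_top_of_finrank_eq (le_antisymm (Submodule.finrank_le _) ?_)
    exact h3.trans (Submodule.finrank_map_le _ _)
  haveI : IsDomain A := by
    haveI : Nontrivial A := by
      refine ⟨⟨1, 0, fun h => hw0 ?_⟩⟩
      have := congrArg (fun a : A => (a : Module.End F W) ⟨w, hw⟩) h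
      exact congrArg Subtype.val this
    haveI : NoZeroDivisors A := by
      refine ⟨fun {a b} hab => ?_⟩
      by_cases hk : LinearMap.ker (a : Module.End F W) = ⊥
      · right
        apply Subtype.ext
        apply LinearMap.ext
        intro v
        have := congrArg (fun c : A => (c : Module.End F W) v) hab
        exact (LinearMap.ker_eq_bot.1 hk) (this.trans (map_zero (a : Module.End F W)).symm)
      · left
        apply Subtype.ext
        exact LinearMap.ker_eq_top.1 (hsub _ hk fun v hv => by
          rw [LinearMap.mem_ker] at hv ⊢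
          rw [← Module.End.mul_apply, (hcomm a).eq, Module.End.mul_apply, hv, map_zero])
    exact NoZeroDivisors.to_isDomain A
  haveI : Finite A := Finite.of_injective (fun a : A => ((a : Module.End F W) : W → W)) (fun a b h =>
    Subtype.ext (DFunLike.coe_injective h))
  letI : Field A := (Finite.isDomain_to_isField A).toField
  let ev : A →ₗ[F] W :=
    { toFun := fun a => (a : Module.End F W) ⟨w, hw⟩
      map_add' := fun _ _ => rfl
      map_smul' := fun _ _ => rfl }
  have hevb : Function.Bijective ev := by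
    constructor
    · rw [← LinearMap.ker_eq_bot, LinearMap.ker_eq_bot']
      intro a ha
      by_contra hne
      have h : ((a⁻¹ * a : A) : Module.End F W) ⟨w, hw⟩ = 0 := by
        change ((a⁻¹ : A) : Module.End F W) ((a : Module.End F W) ⟨w, hw⟩) = 0
        rw [show (a : Module.End F W) ⟨w, hw⟩ = 0 from ha, map_zero]
      rw [inv_mul_cancel₀ hne] at h
      exact hw0 (congrArg Subtype.val h)
    · rw [← LinearMap.range_eq_top]
      refine hsub _ (fun h => hw0 ?_) ?_
      · have : ev 1 ∈ LinearMap.range ev := LinearMap.mem_range_self _ _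
        rw [h, Submodule.mem_bot] at this
        exact congrArg Subtype.val this
      · rintro _ ⟨a, rfl⟩
        exact ⟨⟨fW, Algebra.self_mem_adjoin_singleton F fW⟩ * a, rfl⟩
  let c : F := ((g : Matrix (Fin n) (Fin n) F).det)⁻¹
  have hc : c ≠ 0 := inv_ne_zero ((Matrix.isUnit_iff_isUnit_det _).1 (Units.isUnit g)).ne_zero
  haveI : Module.Finite F A := Module.Finite.of_finite
  obtain ⟨a, ha⟩ := FiniteField.norm_surjective F A c
  rw [Algebra.norm_apply] at ha
  let e : A ≃ₗ[F] W := LinearEquiv.ofBijective ev hevb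
  have hconj : (a : Module.End F W) = e.conj (Algebra.lmul F A a) := by
    refine LinearMap.ext fun v => ?_
    obtain ⟨b, rfl⟩ := e.surjective v
    rw [LinearEquiv.conj_apply, LinearMap.comp_apply, LinearMap.comp_apply, LinearEquiv.coe_coe,
      LinearEquiv.coe_coe, LinearEquiv.symm_apply_apply]
    rfl
  have hdeta : LinearMap.det (a : Module.End F W) = c := by
    rw [hconj]
    exact (LinearMap.det_conj (Algebra.lmul F A a) e).trans ha
  let π := Submodule.prodEquivOfIsCompl W C hWC
  let z : Module.End F (Fin n → F) := π.conj ((a : Module.End F W).prodMap LinearMap.id)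
  have hz : LinearMap.det z = c := by
    rw [show z = (π : (↥W × ↥C) →ₗ[F] (Fin n → F)) ∘ₗ ((a : Module.End F W).prodMap LinearMap.id) ∘ₗ (π.symm : (Fin n → F) →ₗ[F] (↥W × ↥C)) from rfl]
    refine (LinearMap.det_conj _ π).trans ?_
    rw [LinearMap.det_prodMap, hdeta, LinearMap.det_id, mul_one]
  have hzc : ∀ v, z (f v) = f (z v) := by
    intro v
    obtain ⟨⟨v1, v2⟩, rfl⟩ := π.surjective v
    have hf : f (π (v1, v2)) = π (fW v1, ⟨f v2, hC v2.2⟩) := by
      simp [π, fW, Submodule.coe_prodEquivOfIsCompl', map_add]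
    have hzv : ∀ p, z (π p) = π ((a : Module.End F W) p.1, p.2) := fun p => by
      simp [z, LinearEquiv.conj_apply]
    rw [hf, hzv, hzv]
    show _ = f (π ((a : Module.End F W) v1, v2))
    rw [← Module.End.mul_apply, (hcomm a).eq]
    simp [π, fW, Submodule.coe_prodEquivOfIsCompl', map_add]
  let Z : GL (Fin n) F := Matrix.GeneralLinearGroup.mk'' (LinearMap.toMatrix' z)
    (by rw [LinearMap.det_toMatrix', hz]; exact IsUnit.mk0 _ hc)
  have hZx : Z * x = x * Z := by
    apply Units.ext
    refine Matrix.toLin'.injective ?_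
    show Matrix.toLin' (LinearMap.toMatrix' z * (x : Matrix (Fin n) (Fin n) F)) = Matrix.toLin' ((x : Matrix (Fin n) (Fin n) F) * LinearMap.toMatrix' z)
    rw [Matrix.toLin'_mul, Matrix.toLin'_mul, Matrix.toLin'_toMatrix']
    exact LinearMap.ext hzc
  refine ⟨g * Z, ?_, ?_⟩
  · show ((g : Matrix (Fin n) (Fin n) F) * LinearMap.toMatrix' z).det = 1
    rw [Matrix.det_mul, LinearMap.det_toMatrix', hz]
    exact mul_inv_cancel₀ ((Matrix.isUnit_iff_isUnit_det _).1 (Units.isUnit g)).ne_zero
  · calc g * Z * x * (g * Z)⁻¹ = g * (Z * x) * Z⁻¹ * g⁻¹ := by group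
      _ = g * x * g⁻¹ := by rw [hZx]; group

end Cfsg.Agent.S2569
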