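import Cfsg.Statements.S3794
import Mathlib
import Cfsg.Agent.FpfAut.OrderFour

set_option autoImplicit false
open Cfsg

namespace Cfsg.Agent.S3794

universe u

open CfsgLib.FpfAut in
/-- The induction step: `G'` centralizes a minimal invariant normal subgroup `W` once the derived
subgroup of the quotient by `W` is nilpotent. -/
theorem commutator_le_centralizer {G : Type u} [Group G] [Finite G] (σ : MulAut G) (h4 : σ ^ 4 = 1)
    (hfpf : ∀ g : G, σ g = g → g = 1) {q : ℕ} [Fact q.Prime] (W : Subgroup G) [W.Normal] (hWσ : W.map σ.toMonoidHom = W)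
    (hW : W ≠ ⊥) (hWab : ∀ a ∈ W, ∀ b ∈ W, a * b = b * a) (hWq : IsPGroup q W)
    (hmin : ∀ X : Subgroup G, X.Normal → X.map σ.toMonoidHom = X → X ≤ W → X = ⊥ ∨ X = W)
    (hnil : Group.IsNilpotent (commutator (G ⧸ W))) :
    commutator G ≤ Subgroup.centralizer (W : Set G) := by
  classical
  have hσ4 : ∀ g, σ (σ (σ (σ g))) = g := fun g => DFunLike.congr_fun (show σ * σ * σ * σ = 1 from by
    rw [← h4]; simp [pow_succ]) g
  have hσW : ∀ w ∈ W, σ w ∈ W := fun w hw => hWσ ▸ ⟨w, hw, rfl⟩
  letI : CommGroup W := { (inferInstance : Group W) with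
    mul_comm := fun a b => Subtype.ext (hWab a a.2 b b.2) }
  set C := Subgroup.centralizer (W : Set G) with hC
  haveI : C.Normal := Subgroup.normal_centralizer
  have hσC : C.map σ.toMonoidHom = C := by
    have hle : C.map σ.toMonoidHom ≤ C := by
      rintro _ ⟨c, hc, rfl⟩
      refine Subgroup.mem_centralizer_iff.2 fun w hw => ?_
      obtain ⟨w', hw', rfl⟩ := (hWσ.symm ▸ hw : w ∈ W.map σ.toMonoidHom)
      show σ w' * σ c = σ c * σ w'
      rw [← map_mul, ← map_mul, Subgroup.mem_centralizer_iff.1 hc w' hw']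
    exact Subgroup.eq_of_le_of_card_ge hle (Subgroup.card_map_of_injective (f := σ.toMonoidHom) σ.injective).ge
  let σ' : MulAut (G ⧸ C) := QuotientGroup.congr C C σ hσC
  have hσ' : ∀ g : G, σ' g = ((σ g : G) : G ⧸ C) := fun g => rfl
  let act : G →* MulAut W := MulAut.conjNormal
  have hker : ∀ c ∈ C, act c = 1 := fun c hc => by
    refine MulEquiv.ext fun w => Subtype.ext ?_
    show c * (w : G) * c⁻¹ = w
    rw [← Subgroup.mem_centralizer_iff.1 hc w w.2]; group
  let act' : G ⧸ C →* MulAut W := QuotientGroup.lift C act hker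
  have hact : ∀ (g : G) (w : W), ((act' (g : G ⧸ C) w : W) : G) = g * w * g⁻¹ := fun g w => rfl
  letI : DistribMulAction (G ⧸ C) (Additive W) :=
    { smul := fun h w => Additive.ofMul (act' h w.toMul)
      one_smul := fun w => by
        show Additive.ofMul (act' 1 w.toMul) = w
        simp
      mul_smul := fun a b w => by
        show Additive.ofMul (act' (a * b) w.toMul) = Additive.ofMul (act' a (act' b w.toMul))
        simp
      smul_zero := fun a => by
        show Additive.ofMul (act' a 1) = 0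
        simp
      smul_add := fun a x y => by
        show Additive.ofMul (act' a (x.toMul * y.toMul)) = _
        rw [map_mul]; rfl }
  have hsmul : ∀ (h : G ⧸ C) (w : Additive W), h • w = Additive.ofMul (act' h w.toMul) := fun h w => rfl
  let s : Additive W →+ Additive W :=
    MonoidHom.toAdditive ((σ.toMonoidHom.comp W.subtype).codRestrict W fun w => hσW w w.2)
  have hsv : ∀ w : Additive W, (((s w).toMul : W) : G) = σ (w.toMul : W) := fun w => rfl
  have hext : ∀ a b : Additive W, ((a.toMul : W) : G) = (b.toMul : W) → a = b := fun a b h =>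
    Additive.toMul.injective (Subtype.ext h)
  have hfpf' : ∀ h : G ⧸ C, σ' h = h → h = 1 := by
    intro h hh
    obtain ⟨g, rfl⟩ := QuotientGroup.mk_surjective h
    rw [hσ', eq_comm, QuotientGroup.eq] at hh
    exact (QuotientGroup.eq_one_iff g).2 (mem_of_commutator_mem σ hfpf
      (fun c hc => hσC ▸ ⟨c, hc, rfl⟩) hh)
  have h4' : ∀ h : G ⧸ C, σ' (σ' (σ' (σ' h))) = h := by
    intro h
    obtain ⟨g, rfl⟩ := QuotientGroup.mk_surjective h
    rw [hσ', hσ', hσ', hσ', hσ4]
  have hodd : Odd (Nat.card (G ⧸ C)) :=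
    Odd.of_dvd_nat (odd_card σ h4 hfpf) (Subgroup.card_quotient_dvd_card C)
  have hs : ∀ (h : G ⧸ C) (w : Additive W), s (h • w) = σ' h • s w := by
    intro h w
    obtain ⟨g, rfl⟩ := QuotientGroup.mk_surjective h
    apply hext
    rw [hsv, hσ', hsmul, hsmul, toMul_ofMul, toMul_ofMul, hact, hact, hsv, map_mul, map_mul, map_inv]
  have hs4 : ∀ w, s (s (s (s w))) = w := fun w => hext _ _ (by rw [hsv, hsv, hsv, hsv, hσ4])
  have hsf : ∀ w, s w = w → w = 0 := fun w hw => by
    apply hext
    have h1 := congrArg (fun a : Additive W => ((a.toMul : W) : G)) hw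
    simp only [hsv] at h1
    simpa using hfpf _ h1
  have hfaith : ∀ h : G ⧸ C, (∀ w : Additive W, h • w = w) → h = 1 := by
    intro h hh
    obtain ⟨g, rfl⟩ := QuotientGroup.mk_surjective h
    refine (QuotientGroup.eq_one_iff g).2 (Subgroup.mem_centralizer_iff.2 fun w hw => ?_)
    have h1 := congrArg (fun a : Additive W => ((a.toMul : W) : G)) (hh (Additive.ofMul ⟨w, hw⟩))
    simp only [hsmul, toMul_ofMul, hact] at h1
    calc w * g = g * w * g⁻¹ * g := by rw [h1]
      _ = g * w := by group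
  have hirr : ∀ U : AddSubgroup (Additive W), (∀ (h : G ⧸ C), ∀ u ∈ U, h • u ∈ U) → (∀ u ∈ U, s u ∈ U) →
      U = ⊥ ∨ U = ⊤ := by
    intro U hU hUs
    let X : Subgroup G := (AddSubgroup.toSubgroup' U).map W.subtype
    have hXn : X.Normal := ⟨by
      rintro _ ⟨w, hw, rfl⟩ g
      exact ⟨((g : G ⧸ C) • Additive.ofMul w).toMul, hU (g : G ⧸ C) (Additive.ofMul w) hw, rfl⟩⟩
    have hXσ : X.map σ.toMonoidHom = X := by
      have hle : X.map σ.toMonoidHom ≤ X := by
        rintro _ ⟨_, ⟨w, hw, rfl⟩, rfl⟩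
        exact ⟨(s (Additive.ofMul w)).toMul, hUs _ hw, rfl⟩
      exact Subgroup.eq_of_le_of_card_ge hle (Subgroup.card_map_of_injective (f := σ.toMonoidHom) σ.injective).ge
    rcases hmin X hXn hXσ (Subgroup.map_subtype_le _) with h | h
    · left
      rw [eq_bot_iff]
      intro w hw
      have h1 : ((w.toMul : W) : G) ∈ X := ⟨w.toMul, hw, rfl⟩
      rw [h, Subgroup.mem_bot] at h1
      exact AddSubgroup.mem_bot.2 (hext _ _ (by simpa using h1))
    · right
      rw [eq_top_iff]
      intro w _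
      have h1 : ((w.toMul : W) : G) ∈ X := h.symm.le (w.toMul).2
      obtain ⟨w', hw', he⟩ := h1
      have he' : w' = w.toMul := Subtype.ext he
      subst he'
      exact hw'
  -- the derived subgroup of `G ⧸ C` is nilpotent
  have hWC : W ≤ C := fun w hw => Subgroup.mem_centralizer_iff.2 fun v hv => hWab v hv w hw
  let π : G ⧸ W →* G ⧸ C := QuotientGroup.map W C (MonoidHom.id G) hWC
  have hπ : Function.Surjective π := fun h => by
    obtain ⟨g, rfl⟩ := QuotientGroup.mk_surjective h
    exact ⟨(g : G ⧸ W), rfl⟩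
  have hPimg : (commutator (G ⧸ W)).map π = commutator (G ⧸ C) := by
    rw [commutator_def, commutator_def, Subgroup.map_commutator, Subgroup.map_top_of_surjective π hπ]
  have hPnil : Group.IsNilpotent (commutator (G ⧸ C)) := by
    rw [← hPimg]
    exact Group.nilpotent_of_surjective _ (π.subgroupMap_surjective _)
  suffices hP : commutator (G ⧸ C) = ⊥ by
    intro x hx
    have h1 : (x : G ⧸ C) ∈ (commutator G).map (QuotientGroup.mk' C) := ⟨x, hx, rfl⟩
    rw [commutator_def, Subgroup.map_commutator, Subgroup.map_top_of_surjective _ (QuotientGroup.mk'_surjective C),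
      ← commutator_def, hP, Subgroup.mem_bot] at h1
    exact (QuotientGroup.eq_one_iff x).1 h1
  by_contra hP
  -- the centre of the derived subgroup
  set P := commutator (G ⧸ C)
  let R : Subgroup (G ⧸ C) := (Subgroup.center P).map P.subtype
  have hRn : R.Normal := inferInstance
  have hPσ : P.map σ'.toMonoidHom = P := by
    rw [show P = ⁅(⊤ : Subgroup (G ⧸ C)), ⊤⁆ from rfl, Subgroup.map_commutator,
      Subgroup.map_top_of_surjective σ'.toMonoidHom σ'.surjective]
  have hRσ : R.map σ'.toMonoidHom = R := by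
    have hle : R.map σ'.toMonoidHom ≤ R := by
      rintro _ ⟨_, ⟨r, hr, rfl⟩, rfl⟩
      refine ⟨⟨σ' r, hPσ.le ⟨r, r.2, rfl⟩⟩, Subgroup.mem_center_iff.2 fun y => ?_, rfl⟩
      obtain ⟨z, hz, hzy⟩ := hPσ.symm.le y.2
      have h1 := congrArg Subtype.val (Subgroup.mem_center_iff.1 hr ⟨z, hz⟩)
      apply Subtype.ext
      show (y : G ⧸ C) * σ' r = σ' r * y
      rw [← hzy]
      show σ' z * σ' r = σ' r * σ' z
      rw [← map_mul, ← map_mul]
      exact congrArg σ' h1
    exact Subgroup.eq_of_le_of_card_ge hle (Subgroup.card_map_of_injective (f := σ'.toMonoidHom) σ'.injective).ge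
  have hR : R ≠ ⊥ := by
    intro h
    rw [Subgroup.map_eq_bot_iff_of_injective _ P.subtype_injective] at h
    haveI : Nontrivial P := (Subgroup.nontrivial_iff_ne_bot P).2 hP
    exact Group.IsNilpotent.center_ne_bot (G := P) h
  have hRc : ∀ a ∈ R, ∀ b ∈ R, a * b = b * a := by
    rintro _ ⟨a, ha, rfl⟩ _ ⟨b, _, rfl⟩
    exact (congrArg Subtype.val (Subgroup.mem_center_iff.1 ha b)).symm
  obtain ⟨k, hk⟩ := IsPGroup.iff_card.1 hWq
  have hWcard : Nat.card (Additive W) = q ^ k := by rw [← hk]; exact Nat.card_congr Additive.toMul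
  have hcop : (Nat.card R).Coprime (Nat.card (Additive W)) := by
    rw [hWcard]
    refine Nat.Coprime.pow_right k (((Fact.out : q.Prime).coprime_iff_not_dvd).2 fun hd => ?_).symm
    let T : Subgroup (G ⧸ C) :=
      { carrier := {r | r ∈ R ∧ r ^ q = 1}
        one_mem' := ⟨one_mem R, one_pow q⟩
        mul_mem' := fun {a b} ha hb => ⟨mul_mem ha.1 hb.1, by
          rw [Commute.mul_pow (hRc a ha.1 b hb.1), ha.2, hb.2, one_mul]⟩
        inv_mem' := fun {a} ha => ⟨inv_mem ha.1, by rw [inv_pow, ha.2, inv_one]⟩ }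
    have hTn : T.Normal := ⟨fun r hr g => ⟨hRn.conj_mem r hr.1 g, by rw [conj_pow, hr.2]; group⟩⟩
    have hTσ : T.map σ'.toMonoidHom = T := by
      refine Subgroup.eq_of_le_of_card_ge ?_ (Subgroup.card_map_of_injective (f := σ'.toMonoidHom) σ'.injective).ge
      rintro _ ⟨r, hr, rfl⟩
      exact ⟨hRσ ▸ ⟨r, hr.1, rfl⟩, by simp [← map_pow, hr.2]⟩
    obtain ⟨⟨r, hr⟩, hrord⟩ := exists_prime_orderOf_dvd_card' q hd
    have hTne : T ≠ ⊥ := by
      intro h
      have h2 : (⟨r, hr⟩ : R) ^ q = 1 := hrord ▸ pow_orderOf_eq_one _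
      have h3 : r ∈ T := ⟨hr, congrArg Subtype.val h2⟩
      rw [h, Subgroup.mem_bot] at h3
      subst h3
      exact (Fact.out : q.Prime).one_lt.ne' (by rw [← hrord]; exact orderOf_one)
    have hTq : IsPGroup q T := fun x => ⟨1, Subtype.ext (by rw [pow_one]; exact x.2.2)⟩
    have hdW : q ∣ Nat.card (Additive W) := by
      rw [hWcard]
      refine dvd_pow_self q fun h0 => hW (Subgroup.card_eq_one.1 ?_)
      rw [hk, h0, pow_zero]
    obtain ⟨w, hw, hw0⟩ := hTq.exists_fixed_point_of_prime_dvd_card_of_fixed_point (Additive W) hdW (a := 0)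
      (fun t => smul_zero t)
    exact hw0 (eq_zero_of_fixed σ' s hs hfaith hirr hTn hTσ hTne fun t ht => hw ⟨t, ht⟩).symm
  have hab := comm_of_abelian_normal σ' h4' hfpf' hodd s hs hs4 hsf hfaith hirr hRn hRc hRσ hR hcop
  refine hP ?_
  rw [eq_bot_iff, show P = ⁅(⊤ : Subgroup (G ⧸ C)), ⊤⁆ from rfl, Subgroup.commutator_le]
  intro a _ b _
  rw [Subgroup.mem_bot, commutatorElement_eq_one_iff_mul_comm]
  exact hab a b

theorem derived_nilpotent (n : ℕ) : ∀ (G : Type u) [Group G] [Finite G], Nat.card G = n → Group.IsSolvable G →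
    ∀ σ : MulAut G, σ ^ 4 = 1 → (∀ g : G, σ g = g → g = 1) → Group.IsNilpotent (commutator G) := by
  induction n using Nat.strong_induction_on with
  | _ n ih =>
  intro G _ _ hn hsol σ h4 hfpf
  classical
  haveI := hsol
  subst hn
  rcases subsingleton_or_nontrivial G with hs | hnt
  · exact inferInstance
  obtain ⟨W, ⟨hWn, hWσ, hW⟩, hWmin⟩ := Set.Finite.exists_minimal
    (Set.toFinite {W : Subgroup G | W.Normal ∧ W.map σ.toMonoidHom = W ∧ W ≠ ⊥})
    ⟨⊤, inferInstance, Subgroup.map_top_of_surjective _ σ.surjective, top_ne_bot⟩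
  have hmin : ∀ X : Subgroup G, X.Normal → X.map σ.toMonoidHom = X → X ≤ W → X = ⊥ ∨ X = W := by
    intro X hX hXσ hXW
    by_cases hXb : X = ⊥
    · exact Or.inl hXb
    · exact Or.inr (le_antisymm hXW (hWmin ⟨hX, hXσ, hXb⟩ hXW))
  haveI : Nontrivial W := (Subgroup.nontrivial_iff_ne_bot W).2 hW
  have hlt : ⁅W, W⁆ ≠ W := by
    intro h
    have h1 := Group.IsSolvable.commutator_lt_top_of_nontrivial (G := W)
    refine h1.ne (Subgroup.map_injective W.subtype_injective ?_)
    rw [Subgroup.map_subtype_commutator, h, ← MonoidHom.range_eq_map, Subgroup.range_subtype]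
  have hWab : ∀ a ∈ W, ∀ b ∈ W, a * b = b * a := by
    rcases hmin ⁅W, W⁆ inferInstance (by rw [Subgroup.map_commutator, hWσ]) (Subgroup.commutator_le_self W) with h | h
    · intro a ha b hb
      have := Subgroup.commutator_mem_commutator ha hb
      rwa [h, Subgroup.mem_bot, commutatorElement_eq_one_iff_mul_comm] at this
    · exact absurd h hlt
  obtain ⟨q, hq, hqd⟩ := Nat.exists_prime_and_dvd (n := Nat.card W) (Finite.one_lt_card).ne'
  haveI : Fact q.Prime := ⟨hq⟩
  have hWq : IsPGroup q W := by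
    let T : Subgroup G :=
      { carrier := {r | r ∈ W ∧ r ^ q = 1}
        one_mem' := ⟨one_mem W, one_pow q⟩
        mul_mem' := fun {a b} ha hb => ⟨mul_mem ha.1 hb.1, by
          rw [Commute.mul_pow (hWab a ha.1 b hb.1), ha.2, hb.2, one_mul]⟩
        inv_mem' := fun {a} ha => ⟨inv_mem ha.1, by rw [inv_pow, ha.2, inv_one]⟩ }
    have hTn : T.Normal := ⟨fun r hr g => ⟨hWn.conj_mem r hr.1 g, by rw [conj_pow, hr.2]; group⟩⟩
    have hTσ : T.map σ.toMonoidHom = T := by
      refine Subgroup.eq_of_le_of_card_ge ?_ (Subgroup.card_map_of_injective (f := σ.toMonoidHom) σ.injective).ge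
      rintro _ ⟨r, hr, rfl⟩
      exact ⟨hWσ ▸ ⟨r, hr.1, rfl⟩, by simp [← map_pow, hr.2]⟩
    obtain ⟨⟨r, hr⟩, hrord⟩ := exists_prime_orderOf_dvd_card' q hqd
    have h2 : (⟨r, hr⟩ : W) ^ q = 1 := hrord ▸ pow_orderOf_eq_one _
    rcases hmin T hTn hTσ (fun x hx => hx.1) with h | h
    · exfalso
      have h3 : r ∈ T := ⟨hr, congrArg Subtype.val h2⟩
      rw [h, Subgroup.mem_bot] at h3
      subst h3
      exact hq.one_lt.ne' (by rw [← hrord]; exact orderOf_one)
    · intro x
      exact ⟨1, Subtype.ext (by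
        have h4 : (x : G) ∈ T := h.symm ▸ x.2
        rw [pow_one]; exact h4.2)⟩
  have hσW : ∀ w ∈ W, σ w ∈ W := fun w hw => hWσ ▸ ⟨w, hw, rfl⟩
  let σ' : MulAut (G ⧸ W) := QuotientGroup.congr W W σ hWσ
  have hfpf' : ∀ h : G ⧸ W, σ' h = h → h = 1 := by
    intro h hh
    obtain ⟨g, rfl⟩ := QuotientGroup.mk_surjective h
    have hh' : ((σ g : G) : G ⧸ W) = g := hh
    rw [eq_comm, QuotientGroup.eq] at hh'
    exact (QuotientGroup.eq_one_iff g).2 (CfsgLib.FpfAut.mem_of_commutator_mem σ hfpf hσW hh')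
  have h4' : σ' ^ 4 = 1 := by
    refine MulEquiv.ext fun h => ?_
    obtain ⟨g, rfl⟩ := QuotientGroup.mk_surjective h
    have h1 : σ (σ (σ (σ g))) = g := DFunLike.congr_fun (show σ * σ * σ * σ = 1 from by
      rw [← h4]; simp [pow_succ]) g
    show σ' (σ' (σ' (σ' (g : G ⧸ W)))) = (g : G ⧸ W)
    exact congrArg (QuotientGroup.mk (s := W)) h1
  have hcard : Nat.card (G ⧸ W) < Nat.card G := by
    have h1 := Subgroup.card_mul_index W
    have h2 : 1 < Nat.card W := Finite.one_lt_card
    have h3 : 0 < W.index := Nat.pos_of_ne_zero Subgroup.index_ne_zero_of_finite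
    show W.index < Nat.card G
    nlinarith
  haveI hnil := ih _ hcard (G ⧸ W) rfl inferInstance σ' h4' hfpf'
  have hcen := commutator_le_centralizer σ h4 hfpf W hWσ hW hWab hWq hmin hnil
  let f : commutator G →* commutator (G ⧸ W) :=
    ((QuotientGroup.mk' W).comp (commutator G).subtype).codRestrict _ fun x => by
      have h1 : (QuotientGroup.mk' W) (x : G) ∈ (commutator G).map (QuotientGroup.mk' W) := ⟨x, x.2, rfl⟩
      have e : (commutator G).map (QuotientGroup.mk' W) = commutator (G ⧸ W) := by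
        rw [commutator_def, commutator_def, Subgroup.map_commutator,
          Subgroup.map_top_of_surjective _ (QuotientGroup.mk'_surjective W)]
      exact e.le h1
  refine Subgroup.isNilpotent_of_ker_le_center f fun x hx => Subgroup.mem_center_iff.2 fun y => ?_
  have hxW : (x : G) ∈ W := (QuotientGroup.eq_one_iff (x : G)).1 (congrArg Subtype.val hx)
  exact Subtype.ext ((Subgroup.mem_centralizer_iff.1 (hcen y.2) x hxW).symm)

/-- Let G be a finite solvable group with an automorphism σ satisfying σ⁴ = 1 and fixing only the identity. Then the derived subgroup G' is nilpotent. -/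
theorem result {G : Type*} [Group G] [Finite G] (hG : Group.IsSolvable G) (σ : MulAut G) (hσ : σ ^ 4 = 1) (hfpf : ∀ g : G, σ g = g → g = 1) : Group.IsNilpotent (commutator G) := by
  exact derived_nilpotent _ G rfl hG σ hσ hfpf

end Cfsg.Agent.S3794
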