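import Cfsg.Statements.S0782
import Cfsg.Agent.Classical.Unitary.Parabolic
import Cfsg.Agent.Eq.Def_ClassicalGeometry

set_option autoImplicit false
open Cfsg

namespace Cfsg.Agent.S0782
open CfsgLib.Unitary

/-- Maximal parabolics of SU_n(q): if W is a k-dimensional subspace of F^n (n ≥ 1, |F| = q²) on which the Hermitian form vanishes, then (q + 1) times the order of its stabiliser in SU_n(q) equals q^(k(2n−3k)) · |GL_k(q²)| · |GU_(n−2k)(q)|, where |GU_m(q)| = q^(m(m−1)/2) Π_(i=1..m) (q^i − (−1)^i). -/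
theorem result {F : Type*} [Field F] [Fintype F] {q : ℕ} (hF : Fintype.card F = q ^ 2) (n k : ℕ) (hn : 1 ≤ n) (hk : 2 * k ≤ n) (W : Submodule F (Fin n → F)) (hWk : Module.finrank F W = k) (hW : ∀ u ∈ W, ∀ v ∈ W, Cfsg.hermForm n F q u v = 0) : (q + 1) * Nat.card ↥((Cfsg.stabilizing (Cfsg.slToMat n F) (W : Set (Fin n → F))).subgroupOf (Cfsg.SU n F q)) = q ^ (k * (2 * n - 3 * k)) * (∏ i : Fin k, ((q ^ 2) ^ k - (q ^ 2) ^ (i : ℕ))) * (q ^ ((n - 2 * k) * ((n - 2 * k) - 1) / 2) * ∏ i ∈ Finset.range (n - 2 * k), (if Even i then q ^ (i + 1) + 1 else q ^ (i + 1) - 1)) := by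
  classical
  rw [← card_GU hF (n - 2 * k), ← card_stab_TI hF hk hWk hW]
  set S := (Cfsg.stabilizing (Cfsg.glToMat (Fin n) F) (W : Set (Fin n → F))).subgroupOf (Cfsg.GU n F q)
  set T := (Cfsg.stabilizing (Cfsg.slToMat n F) (W : Set (Fin n → F))).subgroupOf (Cfsg.SU n F q)
  let δ : ↥S →* Fˣ := (detGU : ↥(Cfsg.GU n F q) →* Fˣ).comp S.subtype
  have hrange : δ.range = (powMonoidHom (q + 1) : Fˣ →* Fˣ).ker := by
    apply le_antisymm
    · rintro _ ⟨g, rfl⟩
      rw [← range_detGU hF hn]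
      exact ⟨_, rfl⟩
    · intro t ht
      obtain ⟨g, hg, hgt, hgW⟩ := exists_det_stab hF hn (W := W) (fun u hu v hv => hW u hu v hv) (t := (t : F))
        (by rw [← Units.val_pow_eq_pow_val, show t ^ (q + 1) = 1 from ht, Units.val_one])
      exact ⟨⟨⟨g, hg⟩, hgW⟩, Units.ext hgt⟩
  let φ : ↥T →* ↥S := ((suToGU : ↥(Cfsg.SU n F q) →* ↥(Cfsg.GU n F q)).comp T.subtype).codRestrict S (fun x => x.2)
  have hφinj : Function.Injective φ := fun a b h => Subtype.ext (suToGU_injective (congrArg Subtype.val h))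
  have hφ : φ.range = δ.ker := by
    apply le_antisymm
    · rintro _ ⟨x, rfl⟩
      show detGU (suToGU x.1) = 1
      have h : suToGU x.1 ∈ (detGU : ↥(Cfsg.GU n F q) →* Fˣ).ker := by rw [ker_detGU]; exact ⟨_, rfl⟩
      exact h
    · intro x hx
      obtain ⟨y, hy⟩ : x.1 ∈ (suToGU : ↥(Cfsg.SU n F q) →* ↥(Cfsg.GU n F q)).range := by
        rw [← ker_detGU]; exact hx
      refine ⟨⟨y, ?_⟩, Subtype.ext hy⟩
      have h := x.2
      rw [← hy] at h
      exact h
  rw [← Subgroup.card_mul_index δ.ker, Subgroup.index_ker, hrange, ← hφ,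
    Nat.card_congr (MonoidHom.ofInjective hφinj).symm.toEquiv, IsCyclic.card_powMonoidHom_ker, card_units_eq hF,
    Nat.gcd_eq_right (dvd_mul_left _ _), mul_comm]

end Cfsg.Agent.S0782
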