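import Cfsg.Statements.S2149
import Cfsg.Agent.UnitFive.Bound
import Cfsg.Agent.UnitFive.Subgroup
import Cfsg.Agent.Classical.Unitary.Simple

set_option autoImplicit false
open Cfsg

namespace Cfsg.Agent.S2149
open CfsgLib.UnitFive CfsgLib.Unitary

/-- Minimal index of a proper subgroup of PSU₃(5), realised over the field with 25 elements: every proper subgroup has index at least 50, and that index is attained. -/
theorem result {F : Type*} [Field F] [Fintype F] (hF : Fintype.card F = 25) : (∀ H : Subgroup (Cfsg.PSU 3 F 5), H ≠ ⊤ → 50 ≤ H.index) ∧ (∃ H : Subgroup (Cfsg.PSU 3 F 5), H.index = 50) := by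
  have hF' := card_F hF
  haveI := isPretransitive_isoLine hF
  haveI hsimp : IsSimpleGroup (Cfsg.PSU 3 F 5) :=
    isSimpleGroup_PSU hF' le_rfl (by norm_num)
  have hyp : Hyp ↥(Cfsg.SU 3 F 5) (IsoLine F) :=
    { card_group := card_SU_five hF
      card_center := card_center_five hF
      card_points := card_isoLine hF
      quasi := fun N hN => by
        haveI := hN
        exact le_center_or_eq_top hF' le_rfl (by norm_num) N
      fix_five := fun u j hu hu1 L M hL hM => isoLine_unique hF hu hu1 hL hM
      no_seven := fun y t hy ht => not_commute_seven hF hy ht }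
  set π := QuotientGroup.mk' (Subgroup.center ↥(Cfsg.SU 3 F 5)) with hπ
  have hπs : Function.Surjective π := QuotientGroup.mk'_surjective _
  have hbound : ∀ H : Subgroup (Cfsg.PSU 3 F 5), H ≠ ⊤ → 50 ≤ H.index := by
    intro H hH
    rw [← Subgroup.index_comap_of_surjective H hπs]
    refine hyp.fifty_le_index _ (fun z hz => ?_) fun h => hH ?_
    · rw [Subgroup.mem_comap, hπ, QuotientGroup.mk'_apply, (QuotientGroup.eq_one_iff z).mpr hz]
      exact one_mem H
    · rw [← Subgroup.map_comap_eq_self_of_surjective hπs H, h, Subgroup.map_top_of_surjective _ hπs]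
  refine ⟨hbound, ?_⟩
  obtain ⟨K, hK50, hKne⟩ := exists_proper_large hF
  refine ⟨K.map π, ?_⟩
  have hne : K.map π ≠ ⊤ := fun h => hKne (by
    have h1 := congrArg (Subgroup.comap π) h
    rwa [Subgroup.comap_map_eq, Subgroup.comap_top, hπ, QuotientGroup.ker_mk'] at h1)
  have h50 : (K.map π).index ∣ 50 := (Subgroup.index_map_dvd K hπs).trans hK50
  have := hbound _ hne
  have := Nat.le_of_dvd (by norm_num) h50
  omega

end Cfsg.Agent.S2149
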