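import Cfsg.Statements.S0414
import Cfsg.Agent.DesignUnique.Aut
-- import your own Cfsg.Agent.* helpers here

set_option autoImplicit false
open Cfsg

namespace Cfsg.Agent.S0414

/-- Aut of an S(3, 6, 22) has order 887040, is 3-transitive, and contains a simple subgroup of index 2. -/
theorem result {α : Type*} [Fintype α] [DecidableEq α] (hα : Fintype.card α = 22) {B : Set (Finset α)} (hB : Cfsg.IsSteinerSystem 3 6 B) : Nat.card (Cfsg.setSystemAut B) = 887040 ∧ MulAction.IsMultiplyPretransitive (Cfsg.setSystemAut B) α 3 ∧ ∃ H : Subgroup (Cfsg.setSystemAut B), H.index = 2 ∧ Cfsg.IsM22 H := by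
  obtain ⟨e, he⟩ := CfsgLib.DesignUnique.exists_equiv22 hα hB
  obtain ⟨f⟩ := CfsgLib.DesignUnique.aut_transport e he CfsgLib.DesignUnique.autEquiv22
  obtain ⟨H, hH, hH22⟩ := CfsgLib.DesignUnique.exists_simple_index_two
  refine ⟨(Nat.card_congr f.toEquiv).trans CfsgLib.DesignUnique.card_pairStab,
    CfsgLib.DesignUnique.pretransitive_transport e he CfsgLib.DesignUnique.trans22,
    H.comap f.toMonoidHom, (Subgroup.index_comap_of_surjective H f.surjective).trans hH, ?_⟩
  let g : H.comap f.toMonoidHom ≃* H :=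
    ((H.comap f.toMonoidHom).equivMapOfInjective f.toMonoidHom f.injective).trans
      (MulEquiv.subgroupCongr (Subgroup.map_comap_eq_self_of_surjective f.surjective H))
  haveI := hH22.1
  exact ⟨g.isSimpleGroup, (Nat.card_congr g.toEquiv).trans hH22.2⟩

end Cfsg.Agent.S0414
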