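import Cfsg.Statements.S0743
import Cfsg.Agent.Perm2.StabTrans

set_option autoImplicit false
open Cfsg

namespace Cfsg.Agent.S0743

open MulAction

/-- Gleason's Lemma: let `p` be a prime and `1 ≤ k < n`; if every `k`-subset of the `n` points is exactly the fixed-point set of some `p`-subgroup of `G`, then `G` is `k`-transitive. -/
theorem result {α : Type*} [Fintype α] [DecidableEq α] (G : Subgroup (Equiv.Perm α)) {p k : ℕ} (hp : p.Prime) (hk : 1 ≤ k) (hkn : k < Fintype.card α) (h : ∀ s : Finset α, s.card = k → ∃ P : Subgroup G, IsPGroup p P ∧ MulAction.fixedPoints P α = (s : Set α)) : MulAction.IsMultiplyPretransitive G α k := by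
  classical
  haveI : Fact p.Prime := ⟨hp⟩
  refine CfsgLib.Perm2.isMultiplyPretransitive_of_fixing k fun t ht a b ha hb => ?_
  by_contra hab
  set H : Subgroup G := fixingSubgroup G (t : Set α) with hH
  -- the orbit of `a` under the stabiliser of `t`
  set O : Set α := orbit H a with hO
  have hbO : b ∉ O := by
    rintro ⟨⟨g, hg⟩, hgb⟩
    exact hab ⟨g, fun x hx => (mem_fixingSubgroup_iff G).1 hg x hx, hgb⟩
  have haO : a ∈ O := mem_orbit_self a
  have hOt : ∀ x ∈ O, x ∉ t := by
    rintro x ⟨⟨g, hg⟩, rfl⟩ hx
    have h1 := (mem_fixingSubgroup_iff G).1 hg _ hx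
    exact ha ((MulAction.injective g h1) ▸ hx)
  -- key congruence
  have key : ∀ s : Finset α, t ⊆ s → s.card = k →
      (O.toFinset.card : ℕ) ≡ (O.toFinset ∩ s).card [MOD p] := by
    intro s hts hs
    obtain ⟨P, hP, hfix⟩ := h s hs
    have hPH : P ≤ H := fun g hg => (mem_fixingSubgroup_iff G).2 fun x hx => by
      have : x ∈ fixedPoints P α := by rw [hfix]; exact hts hx
      exact this ⟨g, hg⟩
    let S : SubMulAction P α :=
      { carrier := O
        smul_mem' := fun g x hx => by
          obtain ⟨u, rfl⟩ := hx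
          exact ⟨⟨g.1, hPH g.2⟩ * u, by simp only [mul_smul]; rfl⟩ }
    have := hP.card_modEq_card_fixedPoints S
    have e1 : Nat.card S = O.toFinset.card := (Nat.card_eq_card_toFinset O :)
    have e2 : Nat.card (fixedPoints P S) = (O.toFinset ∩ s).card := by
      rw [← Nat.card_eq_finsetCard]
      refine Nat.card_congr
        { toFun := fun x => ⟨x.1.1, ?_⟩
          invFun := fun x => ⟨⟨x.1, ?_⟩, ?_⟩
          left_inv := fun x => rfl
          right_inv := fun x => rfl }
      · have hx : (x.1.1 : α) ∈ fixedPoints P α := fun g => congrArg Subtype.val (x.2 g)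
        rw [hfix] at hx
        simpa [Finset.mem_inter] using And.intro x.1.2 hx
      · have := (Finset.mem_inter.1 x.2).1
        exact Set.mem_toFinset.1 this
      · intro g
        refine Subtype.ext ?_
        have hx : (x.1 : α) ∈ fixedPoints P α := by rw [hfix]; exact (Finset.mem_inter.1 x.2).2
        exact hx g
    rwa [e1, e2] at this
  have hab' : a ≠ b := fun e => hbO (e ▸ haO)
  have hne : ((insert a (insert b t))).card ≤ Fintype.card α := Finset.card_le_univ _
  rw [Finset.card_insert_of_notMem (by simp [ha, hab']), Finset.card_insert_of_notMem hb] at hne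
  obtain ⟨u, htu, hu, huc⟩ := Finset.exists_subsuperset_card_eq
    (s := t) (t := (Finset.univ.erase a).erase b) (n := k - 1)
    (fun x hx => by simp [ne_of_mem_of_not_mem hx ha, ne_of_mem_of_not_mem hx hb]) (by omega)
    (by simp [Finset.card_erase_of_mem, Ne.symm hab']; omega)
  have hau : a ∉ u := fun hx => by simpa using hu hx
  have hbu : b ∉ u := fun hx => by simpa using hu hx
  have k1 := key (insert a u) (htu.trans (Finset.subset_insert _ _))
    (by rw [Finset.card_insert_of_notMem hau]; omega)
  have k2 := key (insert b u) (htu.trans (Finset.subset_insert _ _))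
    (by rw [Finset.card_insert_of_notMem hbu]; omega)
  rw [Finset.inter_insert_of_mem (by simpa using haO),
    Finset.card_insert_of_notMem (by simp [hau])] at k1
  rw [Finset.inter_insert_of_notMem (by simpa using hbO)] at k2
  have h01 : (O.toFinset ∩ u).card + 1 ≡ (O.toFinset ∩ u).card + 0 [MOD p] := k1.symm.trans k2
  have h1 : 1 ≡ 0 [MOD p] := Nat.ModEq.add_left_cancel' _ h01
  rw [Nat.modEq_zero_iff_dvd] at h1
  exact hp.one_lt.ne' (Nat.dvd_one.1 h1)

end Cfsg.Agent.S0743
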