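import Cfsg.Statements.S0736
import Mathlib

set_option autoImplicit false
open Cfsg
open scoped Pointwise

namespace Cfsg.Agent.S0736

theorem not_dvd_choose_add {p e c : ℕ} (hp : p.Prime) :
    ∀ j, j < p ^ e → ¬ p ∣ (p ^ e * c + j).choose j := by
  intro j
  induction j with
  | zero => intro _; simpa using hp.one_lt.ne'
  | succ j ih =>
    intro hj
    have ih' := ih (by omega)
    intro hdvd
    obtain ⟨v, u, hu, hvu⟩ := Nat.exists_eq_pow_mul_and_not_dvd (n := j + 1) (by omega) p hp.ne_one
    have hv : v < e := by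
      by_contra hv
      have : p ^ e ∣ j + 1 := hvu ▸ dvd_mul_of_dvd_left (pow_dvd_pow p (by omega)) _
      exact absurd (Nat.le_of_dvd (by omega) this) (by omega)
    obtain ⟨w, hw⟩ := Nat.exists_eq_add_of_lt hv
    have hmul := Nat.add_one_mul_choose_eq (p ^ e * c + j) j
    have hfac : p ^ e * c + j + 1 = p ^ v * (p * (p ^ w * c) + u) := by
      rw [add_assoc, hvu, hw]; ring
    have hmul' : (p * (p ^ w * c) + u) * (p ^ e * c + j).choose j
        = u * (p ^ e * c + (j + 1)).choose (j + 1) := by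
      apply Nat.eq_of_mul_eq_mul_left (pow_pos hp.pos v)
      rw [← mul_assoc, ← hfac, hmul, ← mul_assoc, ← hvu, mul_comm (j + 1), add_assoc]
    have h2 : p ∣ (p * (p ^ w * c) + u) * (p ^ e * c + j).choose j :=
      hmul' ▸ dvd_mul_of_dvd_right hdvd u
    rcases hp.dvd_mul.1 h2 with h | h
    · exact hu ((Nat.dvd_add_right (dvd_mul_right p _)).1 h)
    · exact ih' h


/-- A `k`-homogeneous permutation group of degree `n`, `k ≥ 2`, with `k + q - 1 ≤ n` for every prime power `q` dividing `k`, is `(k-1)`-homogeneous. -/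
theorem result {α : Type*} [Fintype α] [DecidableEq α] (G : Subgroup (Equiv.Perm α)) {k : ℕ} (hk : 2 ≤ k) (hG : MulAction.IsPretransitive G (Set.powersetCard α k)) (hq : ∀ q : ℕ, IsPrimePow q → q ∣ k → k + q - 1 ≤ Fintype.card α) : MulAction.IsPretransitive G (Set.powersetCard α (k - 1)) := by
  classical
  haveI := hG
  have hkn : k ≤ Fintype.card α := by
    obtain ⟨r, hr, hrk⟩ := Nat.exists_prime_and_dvd (show k ≠ 1 by omega)
    have := hq r hr.isPrimePow hrk
    have := hr.one_lt
    omega
  constructor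
  intro s₀ s₁
  let O : Finset (Finset α) := Finset.univ.filter
    (fun S => ∃ g : G, g • (s₀ : Finset α) = S)
  have hOcard : ∀ S ∈ O, S.card = k - 1 := by
    intro S hS
    obtain ⟨g, rfl⟩ := (Finset.mem_filter.1 hS).2
    rw [Finset.card_smul_finset]; exact s₀.2
  have hinv : ∀ (g : G) (S : Finset α), g • S ∈ O ↔ S ∈ O := by
    intro g S
    simp only [O, Finset.mem_filter, Finset.mem_univ, true_and]
    constructor
    · rintro ⟨h, hh⟩; exact ⟨g⁻¹ * h, by rw [mul_smul, hh, inv_smul_smul]⟩
    · rintro ⟨h, rfl⟩; exact ⟨g * h, mul_smul _ _ _⟩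
  let lam : Finset α → ℕ := fun T => (O.filter (fun S => S ⊆ T)).card
  have hlam_inv : ∀ (g : G) (T : Finset α), lam (g • T) = lam T := by
    intro g T
    refine Finset.card_bij (fun S _ => g⁻¹ • S) ?_ ?_ ?_
    · intro S hS
      rw [Finset.mem_filter] at hS ⊢
      exact ⟨(hinv _ _).2 hS.1, by rw [← Finset.smul_finset_subset_smul_finset_iff (a := g), smul_inv_smul]; exact hS.2⟩
    · intro S _ S' _ h; exact smul_left_cancel _ h
    · intro S hS
      rw [Finset.mem_filter] at hS
      exact ⟨g • S, Finset.mem_filter.2 ⟨(hinv _ _).2 hS.1, Finset.smul_finset_subset_smul_finset hS.2⟩,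
        inv_smul_smul _ _⟩
  obtain ⟨T₀, hT₀sub, -, hT₀⟩ := Finset.exists_subsuperset_card_eq
    (Finset.subset_univ (s₀ : Finset α)) (n := k) (by rw [s₀.2]; omega)
    (by rwa [Finset.card_univ])
  have hconst : ∀ T : Finset α, T.card = k → lam T = lam T₀ := by
    intro T hT
    obtain ⟨g, hg⟩ := MulAction.exists_smul_eq G
      (⟨T₀, hT₀⟩ : Set.powersetCard α k) ⟨T, hT⟩
    have hg' : g • T₀ = T := congrArg Subtype.val hg
    rw [← hg', hlam_inv]
  have hpos : 0 < lam T₀ := Finset.card_pos.2 ⟨(s₀ : Finset α), Finset.mem_filter.2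
    ⟨Finset.mem_filter.2 ⟨Finset.mem_univ _, 1, one_smul _ _⟩, hT₀sub⟩⟩
  have hsubpow : ∀ T : Finset α, T.card = k → O.filter (fun S => S ⊆ T) ⊆ T.powersetCard (k - 1) := by
    intro T _ S hS
    rw [Finset.mem_filter] at hS
    exact Finset.mem_powersetCard.2 ⟨hS.2, hOcard S hS.1⟩
  have hchk : k.choose (k - 1) = k := by
    obtain ⟨j, rfl⟩ : ∃ j, k = j + 1 := ⟨k - 1, by omega⟩
    simp
  have hle : lam T₀ ≤ k := by
    calc lam T₀ ≤ (T₀.powersetCard (k - 1)).card := Finset.card_le_card (hsubpow T₀ hT₀)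
      _ = k := by rw [Finset.card_powersetCard, hT₀, hchk]
  have hdvd : k ∣ lam T₀ := by
    refine (Nat.dvd_iff_prime_pow_dvd_dvd _ _).2 fun r e hr hre => ?_
    rcases Nat.eq_zero_or_pos e with rfl | he
    · simp
    have hqn := hq (r ^ e) (hr.isPrimePow.pow he.ne') hre
    have hr1 : 1 ≤ r ^ e := Nat.one_le_pow _ _ hr.pos
    obtain ⟨U, -, hU⟩ := Finset.exists_subset_card_eq
      (s := (Finset.univ : Finset α)) (n := k + r ^ e - 1) (by rw [Finset.card_univ]; omega)
    have hcount := Finset.sum_card_bipartiteAbove_eq_sum_card_bipartiteBelow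
      (fun T S : Finset α => S ⊆ T) (s := U.powersetCard k) (t := O.filter (fun S => S ⊆ U))
    have h1 : ∀ T ∈ U.powersetCard k,
        (Finset.bipartiteAbove (fun T S : Finset α => S ⊆ T) (O.filter (fun S => S ⊆ U)) T).card
          = lam T₀ := by
      intro T hT
      rw [Finset.mem_powersetCard] at hT
      rw [← hconst T hT.2]
      congr 1
      rw [Finset.bipartiteAbove, Finset.filter_filter]
      exact Finset.filter_congr fun S _ => ⟨fun h => h.2, fun h => ⟨h.trans hT.1, h⟩⟩
    have h2 : ∀ S ∈ O.filter (fun S => S ⊆ U),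
        (Finset.bipartiteBelow (fun T S : Finset α => S ⊆ T) (U.powersetCard k) S).card = r ^ e := by
      intro S hS
      rw [Finset.mem_filter] at hS
      have hSc := hOcard S hS.1
      have : Finset.bipartiteBelow (fun T S : Finset α => S ⊆ T) (U.powersetCard k) S
          = (U \ S).image (fun x => insert x S) := by
        ext T
        simp only [Finset.bipartiteBelow, Finset.mem_filter, Finset.mem_powersetCard,
          Finset.mem_image, Finset.mem_sdiff]
        constructor
        · rintro ⟨⟨hTU, hTc⟩, hST⟩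
          obtain ⟨x, hx⟩ := Finset.card_eq_one.1
            (show (T \ S).card = 1 by rw [Finset.card_sdiff_of_subset hST]; omega)
          have hxm : x ∈ T \ S := hx ▸ Finset.mem_singleton_self x
          rw [Finset.mem_sdiff] at hxm
          refine ⟨x, ⟨hTU hxm.1, hxm.2⟩, Finset.eq_of_subset_of_card_le
            (Finset.insert_subset hxm.1 hST) ?_⟩
          rw [Finset.card_insert_of_notMem hxm.2]; omega
        · rintro ⟨x, ⟨hxU, hxS⟩, rfl⟩
          exact ⟨⟨Finset.insert_subset hxU hS.2, by rw [Finset.card_insert_of_notMem hxS]; omega⟩,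
            Finset.subset_insert _ _⟩
      rw [this, Finset.card_image_of_injOn ?_, Finset.card_sdiff_of_subset hS.2, hU, hSc]
      · omega
      · intro x hx y _ hxy
        simp only [Finset.coe_sdiff, Set.mem_sdiff, Finset.mem_coe] at hx
        have : x ∈ insert y S := (show insert x S = insert y S from hxy) ▸ Finset.mem_insert_self x S
        exact (Finset.mem_insert.1 this).resolve_right hx.2
    rw [Finset.sum_congr rfl h1, Finset.sum_congr rfl h2, Finset.sum_const, Finset.sum_const,
      smul_eq_mul, smul_eq_mul, Finset.card_powersetCard, hU] at hcount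
    have hdv : r ^ e ∣ (k + r ^ e - 1).choose k * lam T₀ := hcount ▸ dvd_mul_left _ _
    obtain ⟨c, hc⟩ := hre
    have hch : (k + r ^ e - 1).choose k = (r ^ e * c + (r ^ e - 1)).choose (r ^ e - 1) := by
      rw [Nat.choose_symm_of_eq_add (show k + r ^ e - 1 = k + (r ^ e - 1) by omega), ← hc]
      congr 1; omega
    refine (Nat.Coprime.pow_left e ?_).dvd_of_dvd_mul_left hdv
    rw [hr.coprime_iff_not_dvd, hch]
    exact not_dvd_choose_add hr _ (by omega)
  have hfull : lam T₀ = k := le_antisymm hle (Nat.le_of_dvd hpos hdvd)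
  obtain ⟨T₁, hT₁sub, -, hT₁⟩ := Finset.exists_subsuperset_card_eq
    (Finset.subset_univ (s₁ : Finset α)) (n := k) (by rw [s₁.2]; omega)
    (by rwa [Finset.card_univ])
  have heq : O.filter (fun S => S ⊆ T₁) = T₁.powersetCard (k - 1) := by
    refine Finset.eq_of_subset_of_card_le (hsubpow T₁ hT₁) ?_
    rw [Finset.card_powersetCard, hT₁, hchk]
    exact le_of_eq ((hfull.symm.trans (hconst T₁ hT₁).symm))
  have hmem : (s₁ : Finset α) ∈ T₁.powersetCard (k - 1) :=
    Finset.mem_powersetCard.2 ⟨hT₁sub, s₁.2⟩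
  rw [← heq, Finset.mem_filter] at hmem
  obtain ⟨g, hg⟩ := (Finset.mem_filter.1 hmem.1).2
  exact ⟨g, Subtype.ext hg⟩

end Cfsg.Agent.S0736
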