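import Cfsg.Statements.S5441
import Cfsg.Agent.LargeFischer85.Frame
import Cfsg.Agent.LargeFischer85.Orbits
import Cfsg.Agent.LargeFischer88.Conjugates

set_option autoImplicit false
open Cfsg

namespace Cfsg.Agent.S5441

/-- Let G be a finite group of large Fischer type at the involution z: the generalized Fitting subgroup Q of H = C_G(z) is extraspecial of order 2^13, H has normal subgroups Q ≤ H₁ ≤ H₂ with H₁/Q of order 3, H₂/H₁ the projective special unitary group of dimension 4 over the field with nine elements and H₂ of index 2 in H, and some conjugate of z other than z lies in Q. Then the conjugates of z lying in Q and different from z form a single orbit under conjugation by H. -/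
theorem result {G : Type*} [Group G] [Finite G] (z : G) (Q : Subgroup (Subgroup.centralizer ({z} : Set G))) [Q.Normal] (hF : Cfsg.IsOfLargeFischerTypeAt z Q) (s t : G) (hsQ : ∃ hsc : s ∈ Subgroup.centralizer ({z} : Set G), (⟨s, hsc⟩ : Subgroup.centralizer ({z} : Set G)) ∈ Q) (htQ : ∃ htc : t ∈ Subgroup.centralizer ({z} : Set G), (⟨t, htc⟩ : Subgroup.centralizer ({z} : Set G)) ∈ Q) (hs : IsConj z s) (ht : IsConj z t) (hs1 : s ≠ z) (ht1 : t ≠ z) : ∃ h ∈ Subgroup.centralizer ({z} : Set G), h * s * h⁻¹ = t := by
  obtain ⟨q, pr, act, hA⟩ := CfsgLib.LargeFischer85.exists_action hF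
  obtain ⟨Mb, Cb, φ, hfr⟩ := CfsgLib.LargeFischer85.exists_frame hF hA
  obtain ⟨k, hk⟩ := CfsgLib.LargeFischer85.exists_orbit_class hfr.group
  exact CfsgLib.LargeFischer88.conjugate_orbit hF hA hfr hk s t hsQ htQ hs ht hs1 ht1

end Cfsg.Agent.S5441
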