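import Cfsg.Statements.S5429
import Cfsg.Agent.LargeExtraspecial.Section
import Cfsg.Agent.LargeExtraspecial.Simple
-- import your own Cfsg.Agent.* helpers here

set_option autoImplicit false
open Cfsg CfsgLib.LargeExtraspecial

namespace Cfsg.Agent.S5429

/-- Let z be an involution of the finite group G with centralizer C whose generalized Fitting subgroup Q is extraspecial of width at least 3 (order 2^(2w+1), w ≥ 3); let g be an element of G with g z g⁻¹ in Q but outside the centre Z of Q, and t an involution lying in both Q and g Q g⁻¹ that is not conjugate to z; write P for the centralizer of t in Q and suppose that the elements of C acting trivially by conjugation on P modulo the subgroup generated by t and z are exactly the elements of Q. Then the image of P in the centralizer of t modulo the subgroup generated by t is a large extraspecial 2-subgroup there, and g z g⁻¹ is conjugate to z inside the subgroup generated by P and the centralizer of t in g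 Q g⁻¹. -/
theorem result {G : Type*} [Group G] [Finite G] (z : G) (hz : orderOf z = 2) (Q : Subgroup G) (hQC : Q ≤ Subgroup.centralizer ({z} : Set G)) (hF : (Cfsg.generalizedFittingSubgroup ↥(Subgroup.centralizer ({z} : Set G))).map (Subgroup.centralizer ({z} : Set G)).subtype = Q) (hQ : Cfsg.IsExtraspecial 2 ↥Q) (w : ℕ) (hw : 3 ≤ w) (hcard : Nat.card ↥Q = 2 ^ (2 * w + 1)) (g : G) (hgQ : g * z * g⁻¹ ∈ Q) (hgZ : g * z * g⁻¹ ∉ ((Subgroup.center ↥Q).map Q.subtype)) (t : G) (ht : orderOf t = 2) (htQ : t ∈ Q ⊓ (Q).map (MulAut.conj g).toMonoidHom) (htz : ¬ IsConj z t) (P : Subgroup G) (hP : P = Q ⊓ Subgroup.centralizer ({t} : Set G)) (hCP : ∀ c ∈ Subgroup.centralizer ({z} : Set G), (∀ x ∈ P, ∃ y ∈ Subgroup.closure ({t, z} : Set G), c * x * c⁻¹ = x * y) ↔ c ∈ Q) [hn : ((Subgroup.zpowers t).subgroupOf (Subgroup.centralizer ({t} : Set G))).Normal] : Cfsg.IsLargeExtraspecial ((P.subgroupOf (Subgroup.centralizer ({t} : Set G))).map (QuotientGroup.mk' ((Subgroup.zpowers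 t).subgroupOf (Subgroup.centralizer ({t} : Set G))))) ∧ ∃ x ∈ P ⊔ ((Q).map (MulAut.conj g).toMonoidHom ⊓ Subgroup.centralizer ({t} : Set G)), x * (g * z * g⁻¹) * x⁻¹ = z := by
  classical
  haveI : Fact (Nat.Prime 2) := ⟨Nat.prime_two⟩
  have h : Setting Q z := setting_of_generalizedFitting hz hQC hF hQ
  have h32 : 32 ≤ Nat.card ↥Q := by
    rw [hcard]
    calc 32 = 2 ^ (2 * 2 + 1) := by norm_num
      _ ≤ 2 ^ (2 * w + 1) := Nat.pow_le_pow_right (by norm_num) (by omega)
  have hgz : g * z * g⁻¹ ≠ z := fun e => hgZ (e.symm ▸ h.z_mem_zOf)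
  have hzU := mem_conj_of_conj_mem h h32 g hgQ hgz
  have hU := h.conj g
  set U := Q.map (MulAut.conj g).toMonoidHom with hUdef
  set s := g * z * g⁻¹ with hs
  obtain ⟨htQ, htU⟩ := htQ
  have ht1 : t ≠ 1 := by intro e; rw [e, orderOf_one] at ht; omega
  have htt : t * t = 1 := by rw [← pow_two, ← ht, pow_orderOf_eq_one]
  have htz' : ∀ c : G, c * z * c⁻¹ ≠ t := fun c e => htz (isConj_iff.2 ⟨c, e⟩)
  have hts' : ∀ c : G, c * s * c⁻¹ ≠ t := fun c e =>
    htz' (c * g) (by rw [← e, hs]; group)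
  have htz1 : t ≠ z := fun e => htz' 1 (by rw [e]; group)
  have hts1 : t ≠ s := fun e => hts' 1 (by rw [e]; group)
  have htZ : t ∉ zOf Q := h.not_mem_zOf ht1 htz1
  have htZU : t ∉ zOf U := hU.not_mem_zOf ht1 hts1
  obtain ⟨q₁, hq₁, hq₁t⟩ := exists_conj_eq_mul h.extraspecial h.mem_iff htQ htZ
  obtain ⟨u₁, hu₁, hu₁t⟩ := exists_conj_eq_mul hU.extraspecial hU.mem_iff htU htZU
  have hcz : ∀ c : G, c * z * c⁻¹ ≠ z * t := fun c e => htz' (q₁⁻¹ * c) (by
    calc q₁⁻¹ * c * z * (q₁⁻¹ * c)⁻¹ = q₁⁻¹ * (c * z * c⁻¹) * q₁ := by group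
      _ = q₁⁻¹ * (q₁ * t * q₁⁻¹) * q₁ := by rw [e, hq₁t]
      _ = t := by group)
  have hcs : ∀ c : G, c * s * c⁻¹ ≠ s * t := fun c e => hts' (u₁⁻¹ * c) (by
    calc u₁⁻¹ * c * s * (u₁⁻¹ * c)⁻¹ = u₁⁻¹ * (c * s * c⁻¹) * u₁ := by group
      _ = u₁⁻¹ * (u₁ * t * u₁⁻¹) * u₁ := by rw [e, hu₁t]
      _ = t := by group)
  set C := Subgroup.centralizer ({t} : Set G) with hCdef
  have htp : ∀ x : G, x ∈ Subgroup.zpowers t ↔ x = 1 ∨ x = t := by
    intro x
    constructor
    · intro hx
      obtain ⟨k, rfl⟩ := Subgroup.mem_zpowers_iff.1 hx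
      rw [zpow_mod_orderOf t k |>.symm, ht]
      rcases Int.emod_two_eq_zero_or_one k with e | e
      · left; simp [e]
      · right; simp [e]
    · rintro (rfl | rfl)
      exacts [Subgroup.one_mem _, Subgroup.mem_zpowers _]
  let mk : ↥C →* ↥C ⧸ (Subgroup.zpowers t).subgroupOf C := QuotientGroup.mk' _
  have mk_eq : ∀ x y : ↥C, mk x = mk y → (y : G) = x ∨ (y : G) = x * t := by
    intro x y e
    have e' : (x : G)⁻¹ * y ∈ Subgroup.zpowers t := Subgroup.mem_subgroupOf.1 (QuotientGroup.eq.1 e)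
    rcases (htp _).1 e' with e1 | e1
    · left; rw [← mul_inv_cancel_left (x : G) y, e1, mul_one]
    · right; rw [← e1, mul_inv_cancel_left]
  have mk_one : ∀ x : ↥C, mk x = 1 ↔ (x : G) = 1 ∨ (x : G) = t := fun x => by
    rw [← htp, ← Subgroup.mem_subgroupOf]
    exact QuotientGroup.eq_one_iff x
  have memC : ∀ {x : G}, x * t = t * x → x ∈ C := fun e => Subgroup.mem_centralizer_singleton_iff.2 e
  have hzC : z ∈ C := memC (h.comm htQ).symm
  have hsC : s ∈ C := memC (hU.comm htU).symm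
  have hsQ : s ∈ Q := hgQ
  have hst : s * t = t * s := (hU.comm htU).symm
  have hzt : z * t = t * z := (h.comm htQ).symm
  have hzP : z ∈ P := hP ▸ ⟨h.z_mem, hzC⟩
  have hsP : s ∈ P := hP ▸ ⟨hsQ, hsC⟩
  have hPQ : P ≤ Q := hP ▸ inf_le_left
  have hPC : P ≤ C := hP ▸ inf_le_right
  have hPmem : ∀ {x : G}, x ∈ Q → x * t = t * x → x ∈ P := fun hx e => hP ▸ ⟨hx, memC e⟩
  set Pb := (P.subgroupOf C).map mk with hPb
  set zb := mk ⟨z, hzC⟩ with hzb
  set sb := mk ⟨s, hsC⟩ with hsb
  have memPb : ∀ {x : G} (hx : x ∈ P), mk ⟨x, hPC hx⟩ ∈ Pb := fun hx => ⟨_, hx, rfl⟩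
  -- centre of `P`
  have hcenP : ∀ x ∈ P, (∀ p ∈ P, p * x = x * p) → x = 1 ∨ x = z ∨ x = t ∨ x = z * t := by
    intro x hx hall
    rw [hP] at hx
    rcases h.eq_of_comm_centralizer htQ htZ hx.1 (Subgroup.mem_centralizer_singleton_iff.1 hx.2)
        (fun p hp hpt => hall p (hPmem hp hpt)) with e | e <;> rcases (h.mem_iff _).1 e with e' | e'
    · exact Or.inl e'
    · exact Or.inr (Or.inl e')
    · exact Or.inr (Or.inr (Or.inl (mul_inv_eq_one.1 e')))
    · exact Or.inr (Or.inr (Or.inr (mul_inv_eq_iff_eq_mul.1 e')))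
  have hzQ : ∀ {x}, x ∈ zOf Q → x ∈ Subgroup.zpowers t → x = 1 := by
    intro x h1 h2
    rcases (htp x).1 h2 with e | e
    · exact e
    · exact absurd (e ▸ h1) htZ
  have hzbne : zb ≠ 1 := fun e => by
    rcases (mk_one _).1 e with e' | e'
    exacts [h.z_ne_one e', htz1 e'.symm]
  have hcen : ∀ x, x ∈ zOf Pb ↔ x = 1 ∨ x = zb := by
    intro x
    constructor
    · intro hx
      obtain ⟨hxP, hxc⟩ := mem_zOf.1 hx
      obtain ⟨a, ha, rfl⟩ := hxP
      have hall : ∀ p ∈ P, p * (a : G) = a * p := by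
        intro p hp
        have e := hxc _ (memPb hp)
        rw [← map_mul, ← map_mul] at e
        rcases mk_eq _ _ e with e' | e'
        · exact e'.symm
        · refine mul_inv_eq_iff_eq_mul.1 ?_
          have h1 := comm_mem h.extraspecial (hPQ hp) (hPQ ha)
          rcases mk_eq _ _ (e.symm) with e'' | e''
          · exact mul_inv_eq_iff_eq_mul.2 e''
          · have h2 : p * (a : G) * p⁻¹ * (a : G)⁻¹ ∈ Subgroup.zpowers t := by
              have e3 : p * (a : G) = a * p * t := e''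
              have e4 : p⁻¹ * t = t * p⁻¹ :=
                Commute.inv_left (Subgroup.mem_centralizer_singleton_iff.1 (hPC hp))
              have e5 : (a : G) * t = t * a := Subgroup.mem_centralizer_singleton_iff.1 a.2
              have : p * (a : G) * p⁻¹ * (a : G)⁻¹ = t := by
                calc p * (a : G) * p⁻¹ * (a : G)⁻¹ = a * p * (t * p⁻¹) * (a : G)⁻¹ := by rw [e3]; group
                  _ = (a * t) * (a : G)⁻¹ := by rw [← e4]; group
                  _ = t := by rw [e5, mul_inv_cancel_right]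
              rw [this]; exact Subgroup.mem_zpowers t
            exact mul_inv_eq_one.1 (hzQ h1 h2)
      rcases hcenP a ha hall with e | e | e | e
      · left; exact (mk_one a).2 (Or.inl e)
      · right; exact congrArg mk (Subtype.ext e)
      · left; exact (mk_one a).2 (Or.inr e)
      · right
        rw [show a = ⟨z, hzC⟩ * ⟨t, memC rfl⟩ from Subtype.ext e, map_mul,
          (mk_one ⟨t, memC rfl⟩).2 (Or.inr rfl), mul_one]
    · rintro (rfl | rfl)
      · exact Subgroup.one_mem _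
      · refine mem_zOf.2 ⟨memPb hzP, ?_⟩
        rintro _ ⟨a, ha, rfl⟩
        rw [hzb, ← map_mul, ← map_mul]
        exact congrArg mk (Subtype.ext (h.comm (hPQ ha)))
  have hzOf : ∀ {a : G} (ha : a ∈ C), a ∈ zOf Q → mk ⟨a, ha⟩ ∈ zOf Pb := by
    intro a ha haZ
    rcases (h.mem_iff a).1 haZ with rfl | rfl
    · exact (hcen _).2 (Or.inl ((mk_one _).2 (Or.inl rfl)))
    · exact (hcen _).2 (Or.inr rfl)
  have hsq : ∀ x ∈ Pb, x * x ∈ zOf Pb := by
    rintro _ ⟨a, ha, rfl⟩
    rw [← map_mul]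
    exact hzOf (C.mul_mem a.2 a.2) (sq_mem h.extraspecial (hPQ ha))
  have hna : ∃ a ∈ Pb, ∃ b ∈ Pb, a * b ≠ b * a := by
    obtain ⟨p, hp, q, hq, hpt, hqt, hpq⟩ := centralizer_nonabelian h h32 htQ htZ
    refine ⟨_, memPb (hPmem hp hpt), _, memPb (hPmem hq hqt), fun e => hzbne ?_⟩
    have : zb = mk ⟨p, hPC (hPmem hp hpt)⟩ * mk ⟨q, hPC (hPmem hq hqt)⟩ *
        (mk ⟨p, hPC (hPmem hp hpt)⟩)⁻¹ * (mk ⟨q, hPC (hPmem hq hqt)⟩)⁻¹ := by
      rw [hzb, ← map_inv, ← map_inv, ← map_mul, ← map_mul, ← map_mul]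
      exact congrArg mk (Subtype.ext hpq.symm)
    rw [this, e]; group
  have hPp : IsPGroup 2 ↥Pb := ((h.extraspecial.1.1).to_le hPQ).comap_subtype.map mk
  have hext := isExtraspecial_two_of hPp hzbne hcen hsq hna
  -- centralizers
  have hfixz : ∀ c : ↥C, mk c * zb = zb * mk c → (c : G) * z = z * c := by
    intro c e
    rw [hzb, ← map_mul, ← map_mul] at e
    rcases mk_eq _ _ e.symm with e' | e'
    · exact e'
    · exfalso
      refine hcz c ?_
      have e1 : (c : G) * z = z * c * t := e'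
      have e2 : (c : G)⁻¹ * t = t * (c : G)⁻¹ :=
        Commute.inv_left (Subgroup.mem_centralizer_singleton_iff.1 c.2)
      calc (c : G) * z * (c : G)⁻¹ = z * c * (t * (c : G)⁻¹) := by rw [e1]; group
        _ = z * t := by rw [← e2]; group
  have hCPb : Subgroup.centralizer (Pb : Set (↥C ⧸ (Subgroup.zpowers t).subgroupOf C)) = zOf Pb := by
    refine le_antisymm ?_ (zOf_le_centralizer _)
    intro x hx
    obtain ⟨c, rfl⟩ := QuotientGroup.mk'_surjective _ x
    have hall : ∀ p (hp : p ∈ P), mk ⟨p, hPC hp⟩ * mk c = mk c * mk ⟨p, hPC hp⟩ :=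
      fun p hp => Subgroup.mem_centralizer_iff.1 hx _ (memPb hp)
    have hczc := hfixz c (hall z hzP).symm
    have hcQ : (c : G) ∈ Q := by
      refine (hCP c (Subgroup.mem_centralizer_singleton_iff.2 hczc)).1 fun p hp => ?_
      have e := hall p hp
      rw [← map_mul, ← map_mul] at e
      have hc' : (c : G)⁻¹ * t = t * (c : G)⁻¹ :=
        Commute.inv_left (Subgroup.mem_centralizer_singleton_iff.1 c.2)
      rcases mk_eq _ _ e with e' | e'
      · refine ⟨1, Subgroup.one_mem _, ?_⟩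
        rw [mul_one, mul_inv_eq_iff_eq_mul]
        exact e'
      · refine ⟨t, Subgroup.subset_closure (Or.inl rfl), ?_⟩
        have e1 : (c : G) * p = p * c * t := e'
        calc (c : G) * p * (c : G)⁻¹ = p * c * (t * (c : G)⁻¹) := by rw [e1]; group
          _ = p * t := by rw [← hc']; group
    refine mem_zOf.2 ⟨memPb (hPmem hcQ (Subgroup.mem_centralizer_singleton_iff.1 c.2)), ?_⟩
    exact Subgroup.mem_centralizer_iff.1 hx
  have hzbZ : zb ∈ zOf Pb := (hcen _).2 (Or.inr rfl)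
  have hNPb : Subgroup.centralizer (zOf Pb : Set (↥C ⧸ (Subgroup.zpowers t).subgroupOf C)) ≤
      Subgroup.normalizer (Pb : Set (↥C ⧸ (Subgroup.zpowers t).subgroupOf C)) := by
    refine Subgroup.le_normalizer_iff.2 ?_
    rintro x hx _ ⟨p, hp, rfl⟩
    obtain ⟨c, rfl⟩ := QuotientGroup.mk'_surjective _ x
    have hczc := hfixz c (Subgroup.mem_centralizer_iff.1 hx zb hzbZ).symm
    refine ⟨c * p * c⁻¹, ?_, by rw [map_mul, map_mul, map_inv]⟩
    show (c : G) * p * (c : G)⁻¹ ∈ P
    rw [hP]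
    exact ⟨(h.normalized c hczc p).1 (hPQ hp), C.mul_mem (C.mul_mem c.2 p.2) (C.inv_mem c.2)⟩
  have hsbP : sb ∈ Pb := memPb hsP
  have hsne : ∀ {x}, x ∈ zOf Pb → x ≠ sb := by
    intro x hx e
    subst e
    rcases (hcen _).1 hx with e | e
    · rcases (mk_one _).1 e with e' | e'
      exacts [hU.z_ne_one e', hts1 e'.symm]
    · rcases mk_eq _ _ e.symm with e' | e'
      · exact hgz e'
      · exact hcz g e'
  have hsb2 : orderOf sb = 2 := by
    refine orderOf_eq_prime ?_ (fun e => hsne (Subgroup.one_mem _) e.symm)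
    rw [pow_two, hsb, ← map_mul]
    exact (mk_one _).2 (Or.inl hU.z_mul_z)
  have hlarge : IsLargeExtraspecial Pb := by
    refine isLarge_of_involution Pb hext hCPb hNPb sb hsbP (fun hx => hsne hx rfl) hsb2 ?_
    set N := ((U ⊓ C).subgroupOf C).map mk with hN
    have hNsub : N ≤ Subgroup.centralizer ({sb} : Set (↥C ⧸ (Subgroup.zpowers t).subgroupOf C)) := by
      rintro _ ⟨u, hu, rfl⟩
      rw [Subgroup.mem_centralizer_singleton_iff, hsb, ← map_mul, ← map_mul]
      exact congrArg mk (Subtype.ext (hU.comm hu.1))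
    refine le_trans ?_ (le_map_pCore hNsub ?_ ((hU.extraspecial.1.1).to_le inf_le_left |>.comap_subtype.map mk))
    · intro x hx
      rcases (hcen x).1 hx with rfl | rfl
      · exact Subgroup.one_mem _
      · exact ⟨⟨z, hzC⟩, ⟨hzU, hzC⟩, rfl⟩
    · rintro x hx _ ⟨u, hu, rfl⟩
      obtain ⟨c, rfl⟩ := QuotientGroup.mk'_surjective _ x
      have e := Subgroup.mem_centralizer_singleton_iff.1 hx
      rw [hsb, ← map_mul, ← map_mul] at e
      have hcsc : (c : G) * s = s * c := by
        rcases mk_eq _ _ e.symm with e' | e'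
        · exact e'
        · exfalso
          refine hcs c ?_
          have e1 : (c : G) * s = s * c * t := e'
          have e2 : (c : G)⁻¹ * t = t * (c : G)⁻¹ :=
            Commute.inv_left (Subgroup.mem_centralizer_singleton_iff.1 c.2)
          calc (c : G) * s * (c : G)⁻¹ = s * c * (t * (c : G)⁻¹) := by rw [e1]; group
            _ = s * t := by rw [← e2]; group
      refine ⟨c * u * c⁻¹, ⟨(hU.normalized c hcsc u).1 hu.1, (c * u * c⁻¹ : ↥C).2⟩,
        by rw [map_mul, map_mul, map_inv]⟩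
  refine ⟨hlarge, ?_⟩
  -- the conjugation
  have hsZ : s ∉ zOf Q := hgZ
  obtain ⟨q, hq, hqs⟩ : ∃ q ∈ P, q * s * q⁻¹ = z * s := by
    by_contra hne
    push Not at hne
    have hall : ∀ p ∈ P, p * s = s * p := fun p hp => by
      rcases conj_mem_two h.extraspecial h.mem_iff (hPQ hp) hsQ with e | e
      · exact mul_inv_eq_iff_eq_mul.1 e
      · exact absurd e (hne p hp)
    rcases hcenP s hsP hall with e | e | e | e
    exacts [hU.z_ne_one e, hgz e, hts1 e.symm, hcz g e]
  obtain ⟨u, hu, huz⟩ : ∃ u ∈ U ⊓ C, u * z * u⁻¹ = s * z := by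
    by_contra hne
    push Not at hne
    have hall : ∀ p ∈ U, p * t = t * p → p * z = z * p := fun p hp hpt => by
      rcases conj_mem_two hU.extraspecial hU.mem_iff hp hzU with e | e
      · exact mul_inv_eq_iff_eq_mul.1 e
      · exact absurd e (hne p ⟨hp, memC hpt⟩)
    rcases hU.eq_of_comm_centralizer htU htZU hzU hzt hall with e | e <;>
      rcases (hU.mem_iff _).1 e with e' | e'
    · exact h.z_ne_one e'
    · exact hgz e'.symm
    · exact htz1 (mul_inv_eq_one.1 e').symm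
    · exact hcs g⁻¹ (by rw [← mul_inv_eq_iff_eq_mul.1 e', hs]; group)
  refine ⟨u * q * u, ?_, swap_conj hU.z_mul_z (h.comm hsQ).symm hqs ?_ huz⟩
  · have hu' : u ∈ P ⊔ (U ⊓ C) := (le_sup_right : U ⊓ C ≤ P ⊔ (U ⊓ C)) hu
    exact Subgroup.mul_mem _ (Subgroup.mul_mem _ hu' ((le_sup_left : P ≤ P ⊔ (U ⊓ C)) hq)) hu'
  · rw [hU.comm hu.1, mul_inv_cancel_right]

end Cfsg.Agent.S5429
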