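import Cfsg.Statements.S0829
import Cfsg.Agent.Classical.Unitary.Parabolic

set_option autoImplicit false
open Cfsg

namespace Cfsg.Agent.S0829

/-- The unitary quadrangle of PSU_4(q): with |F| = q², the number of 2-dimensional subspaces of F^4 on which the Hermitian form Σ x_i y_i^q vanishes is (q + 1)(q³ + 1). -/
theorem result {F : Type*} [Field F] [Fintype F] {q : ℕ} (hF : Fintype.card F = q ^ 2) : Nat.card {W : Submodule F (Fin 4 → F) // Module.finrank F W = 2 ∧ ∀ u ∈ W, ∀ v ∈ W, Cfsg.hermForm 4 F q u v = 0} = (q + 1) * (q ^ 3 + 1) := by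
  classical
  have h1 := CfsgLib.Unitary.card_TIFrame_eq_mul (n := 4) hF 2
  have h2 := CfsgLib.Unitary.card_TIFrame_succ (n := 4) hF (k := 1) (by norm_num)
  rw [CfsgLib.Unitary.card_TIFrame_succ (n := 4) hF (k := 0) (by norm_num), CfsgLib.Unitary.card_TIFrame_zero, h1] at h2
  simp only [Fin.prod_univ_two, Fin.val_zero, Fin.val_one] at h2
  simp only [pow_zero, pow_one, mul_one, one_mul, Nat.sub_zero, mul_zero, Nat.reduceMul, Nat.reduceSub] at h2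
  have hq := CfsgLib.Unitary.two_le_q hF
  have ha := CfsgLib.Unitary.normCount_zero_eq hF 4
  have hb := CfsgLib.Unitary.normCount_zero_eq hF 2
  apply Nat.cast_injective (R := ℤ)
  set N := Nat.card {W : Submodule F (Fin 4 → F) // Module.finrank F W = 2 ∧ ∀ u ∈ W, ∀ v ∈ W, Cfsg.hermForm 4 F q u v = 0}
  have h0a : 0 < CfsgLib.Unitary.normCount 4 q (0 : F) := by
    haveI : Nonempty {v : Fin 4 → F // Cfsg.hermForm 4 F q v v = 0} := ⟨⟨0, CfsgLib.Unitary.herm_zero_left _⟩⟩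
    exact Nat.card_pos
  have h0b : 0 < CfsgLib.Unitary.normCount 2 q (0 : F) := by
    haveI : Nonempty {v : Fin 2 → F // Cfsg.hermForm 2 F q v v = 0} := ⟨⟨0, CfsgLib.Unitary.herm_zero_left _⟩⟩
    exact Nat.card_pos
  have hp1 : 1 ≤ (q ^ 2) ^ 2 := Nat.one_le_pow _ _ (by positivity)
  have hp2 : q ^ 2 ≤ (q ^ 2) ^ 2 := Nat.le_self_pow two_ne_zero _
  have h := congrArg (Nat.cast : ℕ → ℤ) h2
  push_cast [Nat.cast_sub h0a, Nat.cast_sub h0b, Nat.cast_sub hp1, Nat.cast_sub hp2] at h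
  push_cast
  have hq2 : (2 : ℤ) ≤ (q : ℤ) := by exact_mod_cast hq
  have hne : (((q : ℤ) ^ 2) ^ 2 - 1) * (((q : ℤ) ^ 2) ^ 2 - (q : ℤ) ^ 2) * ((q : ℤ) ^ 2) ≠ 0 := by
    have h4 : (4 : ℤ) ≤ (q : ℤ) ^ 2 := by nlinarith
    have h5 : (q : ℤ) ^ 2 < ((q : ℤ) ^ 2) ^ 2 := by nlinarith
    refine mul_ne_zero (mul_ne_zero ?_ ?_) ?_ <;> omega
  apply mul_left_cancel₀ hne
  linear_combination (q : ℤ) ^ 2 * h + ((q : ℤ) ^ 2) * (q * ((CfsgLib.Unitary.normCount 4 q (0 : F) : ℤ) - 1)) * hb + ((q : ℤ) ^ 2) * ((q : ℤ) ^ 2 * ((q : ℤ) ^ 2 + ((q : ℤ) - 1) * (-1) ^ 2) - q) * ha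

end Cfsg.Agent.S0829
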