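import Cfsg.Statements.S0556
import Cfsg.Agent.Coprime.Sylow
import Mathlib.GroupTheory.Transfer
import Cfsg.Agent.SolvableStructure.CoreFree


set_option autoImplicit false
open Cfsg

open scoped commutatorElement

namespace Cfsg.Agent.S0556

theorem isCyclic_of_coatom_normal {G : Type*} [Group G] (A : Subgroup G) [A.Normal] (hA : IsCoatom A) :
    IsCyclic (G ⧸ A) := by
  obtain ⟨g, hg⟩ : ∃ g, g ∉ A := by
    by_contra h
    push Not at h
    exact hA.1 (eq_top_iff.2 fun x _ => h x)
  rw [isCyclic_iff_exists_zpowers_eq_top]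
  refine ⟨QuotientGroup.mk' A g, ?_⟩
  rw [← MonoidHom.map_zpowers, ← Subgroup.map_top_of_surjective _ (QuotientGroup.mk'_surjective A),
    Subgroup.map_eq_map_iff, QuotientGroup.ker_mk', top_sup_eq, sup_comm]
  exact hA.2 _ (lt_of_le_of_ne le_sup_left fun e => hg (e ▸ Subgroup.mem_sup_right (Subgroup.mem_zpowers g)))

theorem coreFree {G : Type*} [Group G] [Finite G] (A : Subgroup G) [hab : IsMulCommutative A] (hA : IsCoatom A)
    (hAn : ¬ A.Normal) (hcore : A.normalCore = ⊥) : derivedSeries G 2 = ⊥ := by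
  have hNA : Subgroup.normalizer (A : Set G) = A :=
    ((hA.le_iff).1 Subgroup.le_normalizer).resolve_left fun h => hAn (Subgroup.normalizer_eq_top_iff.1 h)
  have hAcent : A ≤ Subgroup.centralizer (A : Set G) := Subgroup.le_centralizer_iff_isMulCommutative.2 hab
  have hburn : ∀ p : ℕ, p.Prime → p ∣ Nat.card A → ∃ P : Sylow p G, (P : Subgroup G) ≤ A ∧
      Subgroup.normalizer ((P : Subgroup G) : Set G) = A := by
    intro p hp hpd
    have := Fact.mk hp
    obtain ⟨T⟩ : Nonempty (Sylow p A) := inferInstance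
    set P0 := (T : Subgroup A).map A.subtype with hP0
    have hP0A : P0 ≤ A := Subgroup.map_subtype_le _
    have hne : P0 ≠ ⊥ := fun h => T.ne_bot_of_dvd_card hpd
      ((Subgroup.map_eq_bot_iff_of_injective _ A.subtype_injective).1 h)
    have hle : A ≤ Subgroup.normalizer (P0 : Set G) := fun a ha =>
      Subgroup.centralizer_le_normalizer _ (Subgroup.mem_centralizer_iff.2 fun y hy =>
        Subgroup.mem_centralizer_iff.1 (hAcent ha) y (hP0A hy))
    have hN : Subgroup.normalizer (P0 : Set G) = A := ((hA.le_iff).1 hle).resolve_left fun h =>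
      hne (CfsgLib.CoreFree.normal_le_eq_bot hcore (Subgroup.normalizer_eq_top_iff.1 h) hP0A)
    obtain ⟨S, hS⟩ := (T.2.map A.subtype).exists_le_sylow
    by_cases he : P0 = S
    · exact ⟨S, he ▸ hP0A, by rw [← he]; exact hN⟩
    exfalso
    haveI : Group.IsNilpotent (S : Subgroup G) := S.2.isNilpotent
    have hlt : P0.subgroupOf (S : Subgroup G) < ⊤ := lt_top_iff_ne_top.2 fun h =>
      he (le_antisymm hS (Subgroup.subgroupOf_eq_top.1 h))
    have h2 := Group.normalizerCondition_of_isNilpotent _ hlt
    obtain ⟨y, hy, hyP⟩ := SetLike.exists_of_lt h2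
    apply hyP
    rw [← Subgroup.subgroupOf_normalizer_eq hS, hN] at hy
    -- `y` lies in `A` and in `S`, hence in the Sylow subgroup `T` of `A`
    have hU : IsPGroup p (((S : Subgroup G) ⊓ A).subgroupOf A) :=
      (S.2.to_le inf_le_left).of_equiv (Subgroup.subgroupOfEquivOfLe inf_le_right).symm
    have hTU : (T : Subgroup A) ≤ ((S : Subgroup G) ⊓ A).subgroupOf A := fun t ht =>
      ⟨hS (Subgroup.mem_map_of_mem _ ht), t.2⟩
    have hyU : (⟨(y : G), hy⟩ : A) ∈ ((S : Subgroup G) ⊓ A).subgroupOf A := ⟨y.2, hy⟩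
    rw [T.3 hU hTU] at hyU
    exact ⟨_, hyU, rfl⟩
  have hker : ∀ p : ℕ, p.Prime → p ∣ Nat.card A → ∀ x ∈ commutator G, (orderOf x).Coprime p := by
    intro p hp hpd x hx
    have := Fact.mk hp
    obtain ⟨P, hPA, hN⟩ := hburn p hp hpd
    have hle : Subgroup.normalizer (P : Set G) ≤ Subgroup.centralizer (P : Set G) := fun y hy =>
      Subgroup.mem_centralizer_iff.2 fun z hz => by
        have hyA : y ∈ A := hN ▸ hy
        exact congrArg Subtype.val (hab.is_comm.comm ⟨z, hPA hz⟩ ⟨y, hyA⟩)
    have hc := MonoidHom.ker_transferSylow_isComplement' P hle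
    have hxk : x ∈ (MonoidHom.transferSylow P hle).ker := by
      refine (?_ : commutator G ≤ _) hx
      rw [commutator_def, Subgroup.commutator_le]
      intro a _ b _
      rw [MonoidHom.mem_ker, map_commutatorElement, commutatorElement_eq_one_iff_mul_comm]
      apply Subtype.ext
      simp only [Subgroup.coe_mul]
      exact (congrArg Subtype.val (hab.is_comm.comm
        ⟨_, hPA (MonoidHom.transferSylow P hle a).2⟩ ⟨_, hPA (MonoidHom.transferSylow P hle b).2⟩))
    refine Nat.Coprime.coprime_dvd_left ((MonoidHom.transferSylow P hle).ker.orderOf_dvd_natCard hxk) ?_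
    rw [← hc.index_eq_card]
    exact (hp.coprime_iff_not_dvd.2 P.not_dvd_index).symm
  set K := commutator G with hK
  haveI hKn : K.Normal := inferInstance
  have hcop : (Nat.card A).Coprime (Nat.card K) := by
    refine Nat.coprime_of_dvd fun p hp hpA hpK => ?_
    have := Fact.mk hp
    obtain ⟨x, hx⟩ := exists_prime_orderOf_dvd_card' (G := K) p hpK
    have := hker p hp hpA x x.2
    rw [Subgroup.orderOf_coe, hx, Nat.coprime_self] at this
    exact hp.ne_one this
  have hab' : IsMulCommutative K := by
    rcases eq_or_ne K ⊥ with hb | hb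
    · rw [hb]; infer_instance
    obtain ⟨q, hq, hqK⟩ := Nat.exists_prime_and_dvd ((Subgroup.one_lt_card_iff_ne_bot K).2 hb).ne'
    have := Fact.mk hq
    obtain ⟨Q, hQ⟩ := CfsgLib.Coprime.exists_invariant_sylow (p := q) (A := A) (G := K)
      (by rw [Subgroup.normalizer_eq_top]; exact le_top) hcop
      (Or.inl (CfsgLib.Coprime.isSolvable_of_isMulCommutative hab))
    set Q' := (Q : Subgroup K).map K.subtype with hQ'
    have hQ'K : Q' ≤ K := Subgroup.map_subtype_le _
    have hinfA : ∀ W : Subgroup G, W ≤ K → W ⊓ A = ⊥ := fun W hW =>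
      Subgroup.eq_bot_of_card_eq _ (Nat.eq_one_of_dvd_coprimes hcop
        (Subgroup.card_dvd_of_le inf_le_right) (Subgroup.card_dvd_of_le (inf_le_left.trans hW)))
    have hne : Q' ≠ ⊥ := fun h => Q.ne_bot_of_dvd_card hqK
      ((Subgroup.map_eq_bot_iff_of_injective _ K.subtype_injective).1 h)
    have hkey : ∀ W : Subgroup G, W ≤ K → A ≤ Subgroup.normalizer (W : Set G) → W ≠ ⊥ → K ≤ W := by
      intro W hW hWn hWne k hk
      have htop : A ⊔ W = ⊤ := hA.2 _ (lt_of_le_of_ne le_sup_left fun e => hWne
        (by rw [← inf_eq_left.2 (e ▸ le_sup_right : W ≤ A)]; exact hinfA W hW))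
      have hk' : k ∈ A ⊔ W := htop ▸ Subgroup.mem_top k
      rw [← SetLike.mem_coe, Subgroup.coe_mul_of_left_le_normalizer_right _ _ hWn] at hk'
      obtain ⟨a, ha, w, hw, rfl⟩ := hk'
      have : a = 1 := (Subgroup.eq_bot_iff_forall _).1 (hinfA K le_rfl) a
        ⟨by simpa using mul_mem hk (inv_mem (hW hw)), ha⟩
      show a * w ∈ W
      rw [this, one_mul]; exact hw
    have hKQ : K ≤ Q' := hkey Q' hQ'K hQ hne
    haveI : Group.IsNilpotent K := ((Q.2.map K.subtype).to_le hKQ).isNilpotent
    -- `K` is abelian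
    refine ⟨⟨fun a b => ?_⟩⟩
    by_contra hne'
    have hD : commutator K ≠ ⊥ := fun h => hne' (by
      have := Subgroup.commutator_mem_commutator (Subgroup.mem_top a) (Subgroup.mem_top b)
      rw [← commutator_def, h, Subgroup.mem_bot, commutatorElement_eq_one_iff_mul_comm] at this
      exact this)
    have h5 := hkey ((commutator K).map K.subtype) (Subgroup.map_subtype_le _) (by
      have hn : ((commutator K).map K.subtype).Normal := ConjAct.normal_of_characteristic_of_normal
      rw [Subgroup.normalizer_eq_top]; exact le_top)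
      (fun h => hD ((Subgroup.map_eq_bot_iff_of_injective _ K.subtype_injective).1 h))
    have h6 : commutator K = ⊤ := by
      rw [eq_top_iff]
      intro z _
      obtain ⟨w, hw, hwz⟩ := h5 z.2
      exact Subtype.ext hwz ▸ hw
    haveI : Nontrivial K := (Subgroup.nontrivial_iff_ne_bot K).2 hb
    exact (Group.IsSolvable.commutator_lt_top_of_nontrivial K).ne h6
  refine le_bot_iff.1 ?_
  show ⁅derivedSeries G 1, derivedSeries G 1⁆ ≤ ⊥
  rw [derivedSeries_one, Subgroup.commutator_eq_bot_iff_le_centralizer.2 (Subgroup.le_centralizer_iff_isMulCommutative.2 hab')]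


/-- If a finite group has a maximal subgroup that is abelian, then the third term of its derived series is trivial (so the group is solvable of derived length at most three). -/
theorem result {G : Type*} [Group G] [Finite G] (A : Subgroup G) (hA : IsCoatom A) [IsMulCommutative A] : derivedSeries G 3 = ⊥ := by
  by_cases hAn : A.Normal
  · haveI := hAn
    haveI : IsCyclic (G ⧸ A) := isCyclic_of_coatom_normal A hA
    have h1 : derivedSeries G 1 ≤ A := by
      rw [derivedSeries_one, commutator_def, Subgroup.commutator_le]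
      intro a _ b _
      rw [← QuotientGroup.eq_one_iff]
      show QuotientGroup.mk' A ⁅a, b⁆ = 1
      rw [map_commutatorElement, commutatorElement_eq_one_iff_mul_comm]
      exact IsCyclic.isMulCommutative.is_comm.comm _ _
    have h2 : derivedSeries G 2 = ⊥ := le_bot_iff.1 (by
      show ⁅derivedSeries G 1, derivedSeries G 1⁆ ≤ ⊥
      exact (Subgroup.commutator_mono h1 h1).trans
        (by rw [Subgroup.commutator_eq_bot_iff_le_centralizer.2 (Subgroup.le_centralizer_iff_isMulCommutative.2 inferInstance)]))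
    exact le_bot_iff.1 ((derivedSeries_antitone G (by norm_num : 2 ≤ 3)).trans h2.le)
  set C := A.normalCore with hC
  haveI : C.Normal := Subgroup.normalCore_normal A
  have hsurj := QuotientGroup.mk'_surjective C
  set A1 := A.map (QuotientGroup.mk' C) with hA1
  have hcomap : A1.comap (QuotientGroup.mk' C) = A := by
    rw [hA1, Subgroup.comap_map_eq, QuotientGroup.ker_mk', sup_eq_left.2 (Subgroup.normalCore_le A)]
  have hA1c : IsCoatom A1 := by
    constructor
    · intro h
      apply hA.1
      rw [← hcomap, h, Subgroup.comap_top]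
    · intro B hB
      have h1 : A < B.comap (QuotientGroup.mk' C) := by
        rw [← hcomap]; exact (Subgroup.comap_lt_comap_of_surjective hsurj).2 hB
      rw [← Subgroup.map_comap_eq_self_of_surjective hsurj B, hA.2 _ h1, Subgroup.map_top_of_surjective _ hsurj]
  haveI : IsMulCommutative A1 := by
    refine ⟨⟨?_⟩⟩
    rintro ⟨_, a, ha, rfl⟩ ⟨_, b, hb, rfl⟩
    apply Subtype.ext
    show QuotientGroup.mk' C a * QuotientGroup.mk' C b = QuotientGroup.mk' C b * QuotientGroup.mk' C a
    rw [← map_mul, ← map_mul]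
    exact congrArg _ (congrArg Subtype.val ((inferInstance : IsMulCommutative A).is_comm.comm ⟨a, ha⟩ ⟨b, hb⟩))
  have hA1core : A1.normalCore = ⊥ := by
    rw [Subgroup.eq_bot_iff_forall]
    intro z hz
    obtain ⟨g, rfl⟩ := hsurj z
    have h1 : A1.normalCore.comap (QuotientGroup.mk' C) ≤ C :=
      Subgroup.normal_le_normalCore.2 (by rw [← hcomap]; exact Subgroup.comap_mono (Subgroup.normalCore_le A1))
    exact (QuotientGroup.eq_one_iff g).2 (h1 hz)
  have hA1n : ¬ A1.Normal := fun h => hAn (hcomap ▸ h.comap _)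
  have h2 := coreFree A1 hA1c hA1n hA1core
  have h3 : derivedSeries G 2 ≤ C := by
    intro x hx
    have h4 : QuotientGroup.mk' C x ∈ derivedSeries (G ⧸ C) 2 :=
      map_derivedSeries_le_derivedSeries (QuotientGroup.mk' C) 2 (Subgroup.mem_map_of_mem _ hx)
    rw [h2, Subgroup.mem_bot] at h4
    exact (QuotientGroup.eq_one_iff x).1 h4
  refine le_bot_iff.1 ?_
  show ⁅derivedSeries G 2, derivedSeries G 2⁆ ≤ ⊥
  refine (Subgroup.commutator_mono (h3.trans (Subgroup.normalCore_le A)) (h3.trans (Subgroup.normalCore_le A))).trans ?_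
  rw [Subgroup.commutator_eq_bot_iff_le_centralizer.2 (Subgroup.le_centralizer_iff_isMulCommutative.2 inferInstance)]

end Cfsg.Agent.S0556
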