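import Cfsg.Statements.S2762
import Cfsg.Agent.Eq.Def_LocalEven
import Cfsg.Agent.Amalgam.CharPVertices

set_option autoImplicit false
open Cfsg

namespace Cfsg.Agent.S2762

open Matrix

variable {F : Type*} [Field F]

theorem row_two {M : SpecialLinearGroup (Fin 3) F} (hM : M ∈ Cfsg.qdOver F) :
    M.1 2 0 = 0 ∧ M.1 2 1 = 0 ∧ M.1 2 2 = 1 := by
  unfold Cfsg.qdOver at hM
  induction hM using Subgroup.closure_induction with
  | mem x hx => exact hx
  | one => simp
  | mul x y _ _ hx hy => simp [Matrix.mul_apply, Fin.sum_univ_three, hx, hy]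
  | inv x _ hx =>
    have h : x.1 * (x⁻¹).1 = 1 := congrArg Subtype.val (mul_inv_cancel x)
    have hj : ∀ j, (x⁻¹).1 2 j = (1 : Matrix (Fin 3) (Fin 3) F) 2 j := by
      intro j
      rw [← h]
      simp [Matrix.mul_apply, Fin.sum_univ_three, hx]
    simp [hj]

/-- The linear part. -/
def linHom : ↥(Cfsg.qdOver F) →* SpecialLinearGroup (Fin 2) F where
  toFun g := ⟨!![g.1.1 0 0, g.1.1 0 1; g.1.1 1 0, g.1.1 1 1], by
    obtain ⟨a, b, c⟩ := row_two g.2
    have hd := g.1.2
    rw [det_fin_three, a, b, c] at hd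
    rw [det_fin_two_of]
    linear_combination hd⟩
  map_one' := by
    apply Subtype.ext
    ext i j
    fin_cases i <;> fin_cases j <;> simp
  map_mul' g h := by
    obtain ⟨a, b, c⟩ := row_two h.2
    apply Subtype.ext
    show !![(g.1.1 * h.1.1) 0 0, (g.1.1 * h.1.1) 0 1; (g.1.1 * h.1.1) 1 0, (g.1.1 * h.1.1) 1 1] =
      !![g.1.1 0 0, g.1.1 0 1; g.1.1 1 0, g.1.1 1 1] * !![h.1.1 0 0, h.1.1 0 1; h.1.1 1 0, h.1.1 1 1]
    ext i j
    fin_cases i <;> fin_cases j <;> simp [Matrix.mul_apply, Fin.sum_univ_three, Fin.sum_univ_two, a, b]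

theorem linHom_val (g : ↥(Cfsg.qdOver F)) :
    (linHom g).1 = !![g.1.1 0 0, g.1.1 0 1; g.1.1 1 0, g.1.1 1 1] := rfl

theorem mem_ker_iff (g : ↥(Cfsg.qdOver F)) : g ∈ (linHom (F := F)).ker ↔
    g.1.1 0 0 = 1 ∧ g.1.1 0 1 = 0 ∧ g.1.1 1 0 = 0 ∧ g.1.1 1 1 = 1 := by
  rw [MonoidHom.mem_ker]
  constructor
  · intro h
    have e := fun i j => congrFun (congrFun (congrArg Subtype.val h) i) j
    exact ⟨by simpa [linHom_val] using e 0 0, by simpa [linHom_val] using e 0 1, by simpa [linHom_val] using e 1 0,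
      by simpa [linHom_val] using e 1 1⟩
  · rintro ⟨a, b, c, d⟩
    apply Subtype.ext
    ext i j
    fin_cases i <;> fin_cases j <;> simp [linHom_val, a, b, c, d]

/-- The block diagonal matrices. -/
def blockHom : SpecialLinearGroup (Fin 2) F →* ↥(Cfsg.qdOver F) where
  toFun g := ⟨⟨!![g.1 0 0, g.1 0 1, 0; g.1 1 0, g.1 1 1, 0; 0, 0, 1], by
    have := g.2
    rw [det_fin_two] at this
    simp [det_fin_three]
    linear_combination this⟩, Subgroup.subset_closure ⟨by simp, by simp, by simp⟩⟩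
  map_one' := by
    apply Subtype.ext; apply Subtype.ext
    ext i j
    fin_cases i <;> fin_cases j <;> simp
  map_mul' g h := by
    apply Subtype.ext; apply Subtype.ext
    show !![(g.1 * h.1) 0 0, (g.1 * h.1) 0 1, 0; (g.1 * h.1) 1 0, (g.1 * h.1) 1 1, 0; 0, 0, 1] =
      !![g.1 0 0, g.1 0 1, 0; g.1 1 0, g.1 1 1, 0; 0, 0, 1] * !![h.1 0 0, h.1 0 1, 0; h.1 1 0, h.1 1 1, 0; 0, 0, 1]
    ext i j
    fin_cases i <;> fin_cases j <;> simp [Matrix.mul_apply, Fin.sum_univ_three, Fin.sum_univ_two]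

theorem blockHom_val (g : SpecialLinearGroup (Fin 2) F) :
    (blockHom g).1.1 = !![g.1 0 0, g.1 0 1, 0; g.1 1 0, g.1 1 1, 0; 0, 0, 1] := rfl

theorem linHom_blockHom (g : SpecialLinearGroup (Fin 2) F) : linHom (blockHom g) = g := by
  apply Subtype.ext
  ext i j
  fin_cases i <;> fin_cases j <;> simp [linHom_val, blockHom_val]

theorem mem_range_blockHom (g : ↥(Cfsg.qdOver F)) : g ∈ (blockHom (F := F)).range ↔
    g.1.1 0 2 = 0 ∧ g.1.1 1 2 = 0 := by
  constructor
  · rintro ⟨x, rfl⟩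
    simp [blockHom_val]
  · rintro ⟨u, v⟩
    obtain ⟨a, b, c⟩ := row_two g.2
    refine ⟨linHom g, ?_⟩
    apply Subtype.ext; apply Subtype.ext
    ext i j
    fin_cases i <;> fin_cases j <;> simp [linHom_val, blockHom_val, u, v, a, b, c]

/-- The translations. -/
def trans : Multiplicative (Fin 2 → F) →* ↥(Cfsg.qdOver F) where
  toFun v := ⟨⟨!![1, 0, v.toAdd 0; 0, 1, v.toAdd 1; 0, 0, 1], by simp [det_fin_three]⟩,
    Subgroup.subset_closure ⟨by simp, by simp, by simp⟩⟩
  map_one' := by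
    apply Subtype.ext; apply Subtype.ext
    ext i j
    fin_cases i <;> fin_cases j <;> simp
  map_mul' g h := by
    apply Subtype.ext; apply Subtype.ext
    show !![1, 0, g.toAdd 0 + h.toAdd 0; 0, 1, g.toAdd 1 + h.toAdd 1; 0, 0, 1] =
      !![1, 0, g.toAdd 0; 0, 1, g.toAdd 1; 0, 0, 1] * !![1, 0, h.toAdd 0; 0, 1, h.toAdd 1; 0, 0, 1]
    ext i j
    fin_cases i <;> fin_cases j <;> simp [Matrix.mul_apply, Fin.sum_univ_three] <;> ring

theorem trans_val (v : Multiplicative (Fin 2 → F)) :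
    (trans v).1.1 = !![1, 0, v.toAdd 0; 0, 1, v.toAdd 1; 0, 0, 1] := rfl

theorem trans_injective : Function.Injective (trans (F := F)) := by
  intro v w h
  have e := congrArg (fun g : ↥(Cfsg.qdOver F) => g.1.1) h
  have e0 := congrFun (congrFun e 0) 2
  have e1 := congrFun (congrFun e 1) 2
  simp [trans_val] at e0 e1
  apply Multiplicative.toAdd.injective
  funext i
  fin_cases i <;> assumption

theorem ker_eq : (linHom (F := F)).ker = (trans (F := F)).range := by
  ext g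
  rw [mem_ker_iff]
  constructor
  · rintro ⟨u1, u2, u3, u4⟩
    obtain ⟨a, b, c⟩ := row_two g.2
    refine ⟨Multiplicative.ofAdd ![g.1.1 0 2, g.1.1 1 2], ?_⟩
    apply Subtype.ext; apply Subtype.ext
    ext i j
    fin_cases i <;> fin_cases j <;> simp [trans_val, u1, u2, u3, u4, a, b, c]
  · rintro ⟨v, rfl⟩
    simp [trans_val]

theorem block_trans (g : SpecialLinearGroup (Fin 2) F) (v : Fin 2 → F) :
    blockHom g * trans (Multiplicative.ofAdd v) = trans (Multiplicative.ofAdd (g.1.mulVec v)) * blockHom g := by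
  apply Subtype.ext; apply Subtype.ext
  ext i j
  fin_cases i <;> fin_cases j <;>
    simp [Subgroup.coe_mul, SpecialLinearGroup.coe_mul, blockHom_val, trans_val, Matrix.mul_apply, Fin.sum_univ_three, Matrix.mulVec, dotProduct, Fin.sum_univ_two]

variable [Fintype F] {p : ℕ} [Fact p.Prime] [CharP F p]

theorem normal_pgroup_eq_bot {N : Subgroup (SpecialLinearGroup (Fin 2) F)} (hN : N.Normal)
    (hp : IsPGroup p N) : N = ⊥ := by
  have tr : ∀ x ∈ N, x.1 0 0 + x.1 1 1 = 2 := by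
    intro x hx
    obtain ⟨k, hk⟩ := hp ⟨x, hx⟩
    have hk' : x.1 ^ p ^ k = 1 := by
      simpa using congrArg (fun y : ↥N => y.1.1) hk
    have h0 : IsNilpotent (x.1 - 1) := ⟨p ^ k, by
      rw [sub_pow_char_pow_of_commute _ _ (Commute.one_right _), one_pow, hk', sub_self]⟩
    have h1 := (Matrix.isNilpotent_trace_of_isNilpotent h0).eq_zero
    rw [trace_fin_two] at h1
    simp at h1
    linear_combination h1
  rw [eq_bot_iff]
  intro x hx
  have key : ∀ g : SpecialLinearGroup (Fin 2) F,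
      (g * x * g⁻¹ * x⁻¹).1 0 0 + (g * x * g⁻¹ * x⁻¹).1 1 1 = 2 := fun g =>
    tr _ (mul_mem (hN.conj_mem x hx g) (inv_mem hx))
  obtain ⟨gu, hgu⟩ : ∃ g : SpecialLinearGroup (Fin 2) F, g.1 = !![1, 1; 0, 1] :=
    ⟨⟨_, by simp [det_fin_two]⟩, rfl⟩
  obtain ⟨gl, hgl⟩ : ∃ g : SpecialLinearGroup (Fin 2) F, g.1 = !![1, 0; 1, 1] :=
    ⟨⟨_, by simp [det_fin_two]⟩, rfl⟩
  have ku : (gu.1 * x.1 * Matrix.adjugate gu.1 * Matrix.adjugate x.1) 0 0 +
      (gu.1 * x.1 * Matrix.adjugate gu.1 * Matrix.adjugate x.1) 1 1 = 2 := key gu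
  have kl : (gl.1 * x.1 * Matrix.adjugate gl.1 * Matrix.adjugate x.1) 0 0 +
      (gl.1 * x.1 * Matrix.adjugate gl.1 * Matrix.adjugate x.1) 1 1 = 2 := key gl
  have hd := x.2
  have ht := tr x hx
  obtain ⟨a, b, c, d, hX⟩ : ∃ a b c d : F, x.1 = !![a, b; c, d] :=
    ⟨_, _, _, _, Matrix.eta_fin_two _⟩
  rw [hgu, hX, Matrix.adjugate_fin_two_of, Matrix.adjugate_fin_two_of] at ku
  rw [hgl, hX, Matrix.adjugate_fin_two_of, Matrix.adjugate_fin_two_of] at kl
  simp [Matrix.mul_fin_two] at ku kl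
  simp [hX] at hd ht
  obtain rfl : c = 0 := mul_self_eq_zero.1 (by linear_combination ku - 2 * hd)
  obtain rfl : b = 0 := mul_self_eq_zero.1 (by linear_combination kl - 2 * hd)
  obtain rfl : a = 1 := sub_eq_zero.1 (mul_self_eq_zero.1 (by linear_combination a * ht - hd))
  obtain rfl : d = 1 := by linear_combination ht
  rw [Subgroup.mem_bot]
  apply Subtype.ext
  rw [hX]
  exact Matrix.one_fin_two.symm

theorem pCore_eq : Cfsg.pCore p ↥(Cfsg.qdOver F) = (linHom (F := F)).ker := by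
  apply le_antisymm
  · have h1 : ((Cfsg.pCore p ↥(Cfsg.qdOver F)).map linHom).Normal := by
      have : (Cfsg.pCore p ↥(Cfsg.qdOver F)).Normal := inferInstance
      exact this.map _ fun g => ⟨blockHom g, linHom_blockHom g⟩
    have h2 := normal_pgroup_eq_bot h1 ((CfsgLib.Amalgam.pCore_isPGroup p ↥(Cfsg.qdOver F)).map linHom)
    rwa [Subgroup.map_eq_bot_iff] at h2
  · refine le_sSup ⟨MonoidHom.normal_ker _, ?_⟩
    intro g
    refine ⟨1, ?_⟩
    obtain ⟨v, hv⟩ : (g : ↥(Cfsg.qdOver F)) ∈ (trans (F := F)).range := (ker_eq (F := F)) ▸ g.2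
    apply Subtype.ext
    rw [SubgroupClass.coe_pow, ← hv, ← map_pow, pow_one, OneMemClass.coe_one]
    have : v ^ p = 1 := by
      apply Multiplicative.toAdd.injective
      rw [toAdd_pow, toAdd_one]
      funext i
      simp [CharP.cast_eq_zero]
    rw [this, map_one]

/-- Structure of Qd over a finite field F of characteristic p (the affine subgroup of SL₃(F)): its largest normal p-subgroup is the group of translations (matrices with upper-left block the identity), the block-diagonal matrices form a complement isomorphic to SL₂(F), and the translation subgroup is a natural SL₂(F)-module for that complement. -/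
theorem result {F : Type*} [Field F] [Fintype F] {p : ℕ} [Fact p.Prime] [CharP F p] : (∀ M : ↥(Cfsg.qdOver F), M ∈ Cfsg.pCore p ↥(Cfsg.qdOver F) ↔ ((M : Matrix.SpecialLinearGroup (Fin 3) F) : Matrix (Fin 3) (Fin 3) F) 0 0 = 1 ∧ ((M : Matrix.SpecialLinearGroup (Fin 3) F) : Matrix (Fin 3) (Fin 3) F) 0 1 = 0 ∧ ((M : Matrix.SpecialLinearGroup (Fin 3) F) : Matrix (Fin 3) (Fin 3) F) 1 0 = 0 ∧ ((M : Matrix.SpecialLinearGroup (Fin 3) F) : Matrix (Fin 3) (Fin 3) F) 1 1 = 1) ∧ ∃ K : Subgroup ↥(Cfsg.qdOver F), (∀ M : ↥(Cfsg.qdOver F), M ∈ K ↔ ((M : Matrix.SpecialLinearGroup (Fin 3) F) : Matrix (Fin 3) (Fin 3) F) 0 2 = 0 ∧ ((M : Matrix.SpecialLinearGroup (Fin 3) F) : Matrix (Fin 3) (Fin 3) F) 1 2 = 0) ∧ K ⊓ Cfsg.pCore p ↥(Cfsg.qdOver F) = ⊥ ∧ K ⊔ Cfsg.pCore p ↥(Cfsg.qdOver F) = ⊤ ∧ Nonempty (↥K ≃* Matrix.SpecialLinearGroup (Fin 2) F) ∧ Cfsg.IsNaturalSL2Module F (Cfsg.pCore p ↥(Cfsg.qdOver F)) K := by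
  rw [pCore_eq]
  refine ⟨mem_ker_iff, (blockHom (F := F)).range, mem_range_blockHom, ?_, ?_, ?_, ?_⟩
  · rw [eq_bot_iff]
    rintro x ⟨⟨g, rfl⟩, hx⟩
    change blockHom g ∈ (linHom (F := F)).ker at hx
    rw [MonoidHom.mem_ker, linHom_blockHom] at hx
    simp [hx]
  · rw [eq_top_iff]
    intro g _
    have h : (blockHom (linHom g))⁻¹ * g ∈ (linHom (F := F)).ker := by
      rw [MonoidHom.mem_ker, map_mul, map_inv, linHom_blockHom, inv_mul_cancel]
    have := mul_mem (Subgroup.mem_sup_left (T := (linHom (F := F)).ker)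
      (⟨linHom g, rfl⟩ : blockHom (linHom g) ∈ (blockHom (F := F)).range))
      (Subgroup.mem_sup_right (S := (blockHom (F := F)).range) h)
    rwa [mul_inv_cancel_left] at this
  · exact ⟨(MonoidHom.ofInjective (f := blockHom (F := F))
      (fun a b e => by rw [← linHom_blockHom a, e, linHom_blockHom])).symm⟩
  · refine ⟨fun g _ => by rw [Subgroup.normalizer_eq_top]; trivial, ?_⟩
    let e : Multiplicative (Fin 2 → F) ≃* ↥(linHom (F := F)).ker :=
      (MonoidHom.ofInjective trans_injective).trans (MulEquiv.subgroupCongr ker_eq.symm)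
    refine ⟨linHom.comp (blockHom (F := F)).range.subtype, (MulEquiv.toAdditive e.symm).trans (AddEquiv.additiveMultiplicative _),
      fun g => ⟨⟨blockHom g, g, rfl⟩, linHom_blockHom g⟩, ?_, ?_⟩
    · ext ⟨l, g, rfl⟩
      rw [MonoidHom.mem_ker, MonoidHom.comp_apply, Subgroup.coe_subtype, linHom_blockHom,
        Subgroup.mem_subgroupOf, Subgroup.mem_centralizer_iff]
      constructor
      · rintro rfl
        simp
      · intro h
        apply Subtype.ext
        refine Matrix.ext_iff_mulVec.2 fun v => ?_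
        have h1 := h (trans (Multiplicative.ofAdd v)) (by rw [ker_eq]; exact ⟨_, rfl⟩)
        replace h1 : trans (Multiplicative.ofAdd v) * blockHom g = blockHom g * trans (Multiplicative.ofAdd v) := h1
        rw [block_trans] at h1
        have h2 := trans_injective (mul_right_cancel h1)
        simpa using (Multiplicative.ofAdd.injective h2).symm
    · rintro ⟨l, g, rfl⟩ v
      obtain ⟨x, rfl⟩ := e.surjective v
      refine ⟨e (Multiplicative.ofAdd (g.1.mulVec x.toAdd)), ?_, ?_⟩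
      · show trans _ = blockHom g * trans x * (blockHom g)⁻¹
        rw [← ofAdd_toAdd x, block_trans, mul_inv_cancel_right]
        rfl
      · simp [linHom_blockHom]

end Cfsg.Agent.S2762
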