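import Cfsg.Statements.S0264
import Cfsg.Agent.Classical.Linear.Generation
import Cfsg.Agent.Classical.Linear.Card

set_option autoImplicit false
open Cfsg

namespace Cfsg.Agent.S0264

/-- GL_n(F)' = SL_n(F) (as the kernel of det), for every field F and every n, except n = 2 over the field of two elements. -/
theorem result {F : Type*} [Field F] (n : ℕ) (h : n = 2 → ∃ a : F, a ≠ 0 ∧ a ≠ 1) : commutator (Matrix.GeneralLinearGroup (Fin n) F) = (Matrix.GeneralLinearGroup.det : Matrix.GeneralLinearGroup (Fin n) F →* Fˣ).ker := by
  refine le_antisymm (Abelianization.commutator_subset_ker _) ?_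
  rw [← CfsgLib.Classical.Linear.range_toGL_eq_ker_det]
  rintro _ ⟨g, rfl⟩
  have htop : (commutator (Matrix.GeneralLinearGroup (Fin n) F)).comap
      Matrix.SpecialLinearGroup.toGL = ⊤ := by
    by_cases hn : n = 2
    · subst hn
      obtain ⟨a, ha, ha1⟩ := h rfl
      refine CfsgLib.Classical.Linear.eq_top_of_transvection_mem fun i j hij c => ?_
      have hd : IsUnit (Matrix.diagonal (Function.update (1 : Fin 2 → F) i a)).det := by
        rw [Matrix.det_diagonal, Finset.prod_update_of_mem (Finset.mem_univ i)]
        simpa using ha
      let d : Matrix.GeneralLinearGroup (Fin 2) F := Matrix.GeneralLinearGroup.mk'' _ hd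
      let T : F → Matrix.GeneralLinearGroup (Fin 2) F := fun x =>
        Matrix.SpecialLinearGroup.toGL (Matrix.SpecialLinearGroup.transvection hij x)
      have hconj : ∀ x : F, d * T x = T (a * x) * d := by
        intro x
        apply Units.ext
        change Matrix.diagonal (Function.update (1 : Fin 2 → F) i a) *
            (Matrix.SpecialLinearGroup.transvection hij x : Matrix.SpecialLinearGroup (Fin 2) F).1 =
          (Matrix.SpecialLinearGroup.transvection hij (a * x) : Matrix.SpecialLinearGroup (Fin 2) F).1
            * Matrix.diagonal (Function.update (1 : Fin 2 → F) i a)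
        ext k l
        rw [Matrix.diagonal_mul, Matrix.mul_diagonal,
          CfsgLib.Classical.Linear.transvection_apply, CfsgLib.Classical.Linear.transvection_apply]
        fin_cases i <;> fin_cases j <;> fin_cases k <;> fin_cases l <;>
          first
          | exact absurd rfl hij
          | simp
      have hb : a * (c / (a - 1)) = c + c / (a - 1) := by
        field_simp [sub_ne_zero.2 ha1]
        ring
      have hadd : ∀ x y : F, T (x + y) = T x * T y := fun x y => by
        simp only [T, ← map_mul, Matrix.SpecialLinearGroup.transvection_add]
      have hkey : T c = d * T (c / (a - 1)) * d⁻¹ * (T (c / (a - 1)))⁻¹ := by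
        rw [hconj, mul_inv_cancel_right, hb, hadd, mul_inv_cancel_right]
      show T c ∈ commutator (Matrix.GeneralLinearGroup (Fin 2) F)
      rw [hkey, commutator_def]
      exact Subgroup.commutator_mem_commutator (Subgroup.mem_top _) (Subgroup.mem_top _)
    · rw [eq_top_iff, ← CfsgLib.Classical.Linear.commutator_sl_fin_eq_top (F := F) n (fun h2 => absurd h2 hn),
        ← Subgroup.map_le_iff_le_comap]
      simp only [commutator_def, Subgroup.map_commutator]
      exact Subgroup.commutator_mono le_top le_top
  exact (htop ▸ Subgroup.mem_top g : g ∈ Subgroup.comap _ _)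

end Cfsg.Agent.S0264
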