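import Cfsg.Statements.S4219

set_option autoImplicit false
open Cfsg

namespace Cfsg.Agent.S4219

open scoped Pointwise


/-- Let a finite group `G` act `t`-fold transitively on a finite set, let `H` be the stabilizer of `t` distinct points and `P` a Sylow `p`-subgroup of `H`. Then the normalizer of `P` in `G` is `t`-fold transitive on the fixed points of `P`: any `t` distinct fixed points of `P` can be carried to any other `t` distinct fixed points of `P` by an element normalizing `P`. -/
theorem result {G : Type*} [Group G] [Finite G] {α : Type*} [Fintype α] [MulAction G α] {t : ℕ} (hG : MulAction.IsMultiplyPretransitive G α t) (x : Fin t ↪ α) {p : ℕ} [Fact p.Prime] (P : Sylow p (MulAction.stabilizer G x)) (a b : Fin t ↪ α) (ha : ∀ i, a i ∈ MulAction.fixedPoints ((P : Subgroup (MulAction.stabilizer G x)).map (MulAction.stabilizer G x).subtype) α) (hb : ∀ i, b i ∈ MulAction.fixedPoints ((P : Subgroup (MulAction.stabilizer G x)).map (MulAction.stabilizer G x).subtype) α) : ∃ g ∈ Subgroup.normalizer ((((P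 : Subgroup (MulAction.stabilizer G x)).map (MulAction.stabilizer G x).subtype) : Subgroup G) : Set G), g • a = b := by
  set P' : Subgroup G := (P : Subgroup (MulAction.stabilizer G x)).map (MulAction.stabilizer G x).subtype with hP'
  haveI : MulAction.IsPretransitive G (Fin t ↪ α) := hG
  obtain ⟨g₀, hg₀⟩ := MulAction.exists_smul_eq G a b
  set T := MulAction.stabilizer G b with hT
  have hle1 : P' ≤ T := fun q hq => by
    rw [hT, MulAction.mem_stabilizer_iff]
    refine Function.Embedding.ext fun i => ?_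
    exact hb i ⟨q, hq⟩
  have hle2 : P'.map (MulAut.conj g₀).toMonoidHom ≤ T := by
    rintro _ ⟨q, hq, rfl⟩
    rw [hT, MulAction.mem_stabilizer_iff]
    have hqa : q • a = a := Function.Embedding.ext fun i => ha i ⟨q, hq⟩
    simp only [MulEquiv.toMonoidHom_eq_coe, MonoidHom.coe_coe, MulAut.conj_apply, mul_smul]
    rw [← hg₀, inv_smul_smul, hqa]
  obtain ⟨c, hc⟩ := MulAction.exists_smul_eq G x b
  have hTS : Nat.card T = Nat.card (MulAction.stabilizer G x) := by
    rw [hT]
    exact (Nat.card_congr (MulAction.stabilizerEquivStabilizer (G := G) hc.symm).toEquiv).symm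
  have hcard : ∀ R : Subgroup G, R ≤ T → Nat.card R = Nat.card P' →
      ∃ Q : Sylow p T, (Q : Subgroup T) = R.subgroupOf T := by
    intro R hR hRc
    refine ⟨Sylow.ofCard (R.subgroupOf T) ?_, rfl⟩
    rw [Nat.card_congr (Subgroup.subgroupOfEquivOfLe hR).toEquiv, hRc, hP',
      Subgroup.card_map_of_injective (MulAction.stabilizer G x).subtype_injective, P.card_eq_multiplicity, hTS]
  obtain ⟨Q1, hQ1⟩ := hcard P' hle1 rfl
  obtain ⟨Q2, hQ2⟩ := hcard _ hle2 (Subgroup.card_map_of_injective (MulAut.conj g₀).injective)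
  obtain ⟨h, hh⟩ := MulAction.exists_smul_eq T Q2 Q1
  refine ⟨(h : G) * g₀, ?_, by rw [mul_smul, hg₀]; exact h.2⟩
  have key : P'.map (MulAut.conj ((h : G) * g₀)).toMonoidHom = P' := by
    have h1 : ((h • Q2 : Sylow p T) : Subgroup T) = (Q1 : Subgroup T) := by rw [hh]
    rw [Sylow.coe_subgroup_smul, hQ1, hQ2] at h1
    have h2 := congrArg (Subgroup.map T.subtype) h1
    rw [Subgroup.map_subgroupOf_eq_of_le hle1] at h2
    refine Eq.trans ?_ h2
    ext y
    constructor
    · rintro ⟨q, hq, rfl⟩
      refine ⟨h * ⟨g₀ * q * g₀⁻¹, hle2 ⟨q, hq, by simp⟩⟩ * h⁻¹, ?_, by simp [mul_assoc]⟩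
      rw [SetLike.mem_coe, Subgroup.mem_pointwise_smul_iff_inv_smul_mem]
      simp [Subgroup.mem_subgroupOf, mul_assoc]
      exact hq
    · rintro ⟨z, hz, rfl⟩
      rw [SetLike.mem_coe, Subgroup.mem_pointwise_smul_iff_inv_smul_mem, Subgroup.mem_subgroupOf] at hz
      obtain ⟨q, hq, hqz⟩ := hz
      refine ⟨q, hq, ?_⟩
      simp only [MulEquiv.toMonoidHom_eq_coe, MonoidHom.coe_coe, MulAut.conj_apply] at hqz ⊢
      simp at hqz
      rw [Subgroup.coe_subtype, show (z : G) = (h : G) * ((h : G)⁻¹ * z * h) * (h : G)⁻¹ by group,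
        ← hqz]
      group
  rw [Subgroup.mem_normalizer_iff]
  intro y
  constructor
  · intro hy
    rw [← key]
    exact ⟨y, hy, by simp [mul_assoc]⟩
  · intro hy
    rw [← key] at hy
    obtain ⟨z, hz, hzy⟩ := hy
    have : z = y := (MulAut.conj ((h : G) * g₀)).injective (hzy.trans (by simp [mul_assoc]))
    exact this ▸ hz

end Cfsg.Agent.S4219
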