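import Cfsg.Statements.S0941
import Cfsg.Agent.Eq.Def_Blocks
import Cfsg.Agent.Blocks.Orth.Blocks
import Cfsg.Agent.Blocks.Orth.SecondMain
import Cfsg.Agent.Blocks.Basic.Principal
import Cfsg.Agent.Blocks.Covering.Basic

set_option autoImplicit false
open Cfsg

namespace Cfsg.Agent.S0941

open CfsgLib CfsgLib.Blocks
open scoped Classical

/-- Let P be a normal p-subgroup of the finite group G such that the index of C_G(P) is a power of p, and fix a maximal ideal M of the algebraic integers containing p. Then (i) two irreducible characters of G ⧸ P lie in the same block if and only if their inflations to G do, and (ii) every block of G contains the inflation of some irreducible character of G ⧸ P; so inflation induces a bijection between the blocks of G ⧸ P and the blocks of G. -/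
theorem result {G : Type*} [Group G] [Finite G] (p : ℕ) [Fact p.Prime] (M : Ideal Cfsg.AlgInt) (hM : Cfsg.IsPModular p M) (P : Subgroup G) [P.Normal] (hP : IsPGroup p P) (hC : ∃ k : ℕ, (Subgroup.centralizer (P : Set G)).index = p ^ k) : (∀ χ ψ : Cfsg.IrrCharacter (G ⧸ P), Cfsg.SameBlock M (χ : G ⧸ P → ℂ) (ψ : G ⧸ P → ℂ) ↔ Cfsg.SameBlock M ((χ : G ⧸ P → ℂ) ∘ QuotientGroup.mk) ((ψ : G ⧸ P → ℂ) ∘ QuotientGroup.mk)) ∧ ∀ B : Set (Cfsg.IrrCharacter G), Cfsg.IsPBlock M B → ∃ χ : Cfsg.IrrCharacter (G ⧸ P), ∃ θ ∈ B, (θ : G → ℂ) = (χ : G ⧸ P → ℂ) ∘ QuotientGroup.mk := by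
  have := Fintype.ofFinite G
  have := isMaximal_of_isPModular hM
  obtain ⟨kC, hkC⟩ := hC
  have hregC : ∀ s : G, ¬ p ∣ orderOf s → ∀ d ∈ P, d * s = s * d := fun s hs d hd =>
    Subgroup.mem_centralizer_iff.1 (CfsgLib.BlocksCover.mem_of_index_prime_pow hM.1
      (Subgroup.centralizer (P : Set G)) hkC s hs) d hd
  set N := P with hN
  have : Fintype (G ⧸ N) := Fintype.ofFinite _
  have hNp : IsPGroup p N := hP
  -- `p`-elements of `N` are singular unless trivial
  have hNreg : ∀ d ∈ N, ¬ p ∣ orderOf d → d = 1 := by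
    intro d hd hreg
    obtain ⟨k, hk⟩ := IsPGroup.iff_orderOf.1 hNp ⟨d, hd⟩
    rw [← Subgroup.orderOf_coe] at hk
    rcases Nat.eq_zero_or_pos k with rfl | hk0
    · exact orderOf_eq_one_iff.1 (by simpa using hk)
    · exact absurd (hk ▸ dvd_pow_self p hk0.ne') hreg
  refine ⟨fun χ ψ => ⟨fun h g => ?_, fun h => ?_⟩, fun B hB => ?_⟩
  · obtain ⟨m, hm⟩ := exists_centralChar_inflate N g
    show MemLocalIdeal M (centralChar (fun x : G => (χ : G ⧸ N → ℂ) (x : G ⧸ N)) g -
      centralChar (fun x : G => (ψ : G ⧸ N → ℂ) (x : G ⧸ N)) g)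
    rw [(hm _).1, (hm _).1, ← mul_sub]
    exact memLocalIdeal_mul_left (natCast_mem (localRing M) m) (h _)
  · -- the idempotent of the block of `χ` lifts to regular elements
    set B := blockOf M (χ : G ⧸ N → ℂ) with hBdef
    have hB : IsPBlock M B := ⟨χ, rfl⟩
    set a : G → ℂ := fun g => if p ∣ orderOf g then 0 else blockCoeff B (g : G ⧸ N) with ha
    have hamem : ofFun a ∈ centerO M G := by
      refine ⟨isCentralElt_ofFun fun g k => ?_, fun g => ?_⟩
      · have e : orderOf (k * g * k⁻¹) = orderOf g :=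
          orderOf_injective (MulAut.conj k).toMonoidHom (MulAut.conj k).injective g
        have e' : blockCoeff B ((k * g * k⁻¹ : G) : G ⧸ N) = blockCoeff B (g : G ⧸ N) := by
          simpa [setIdem] using isCentralElt_setIdem B (g : G ⧸ N) (k : G ⧸ N)
        simp only [ha, e, e']
      · simp only [coeff_ofFun, ha]
        split_ifs
        · exact (localRing M).zero_mem
        · exact memLocalRing_blockCoeff hB _
    have homega : ∀ η : IrrCharacter (G ⧸ N),
        omega (Chars.inflate N η : G → ℂ) (ofFun a) = omega (η : G ⧸ N → ℂ) (setIdem B) := by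
      intro η
      rw [omega_ofFun, setIdem, omega_ofFun,
        ← Finset.sum_fiberwise Finset.univ (fun g : G => (g : G ⧸ N))]
      refine Finset.sum_congr rfl fun q _ => ?_
      simp only [Chars.inflate_apply, QuotientGroup.mk_one, ha]
      by_cases hq : blockCoeff B q = 0
      · rw [Finset.sum_eq_zero fun g hg => ?_]
        · rw [hq, zero_mul, zero_div]
        · rw [(Finset.mem_filter.1 hg).2, hq, ite_self, zero_mul, zero_div]
      have hqreg : ¬ p ∣ orderOf q := fun h => hq (blockCoeff_eq_zero_of_singular hM hB h)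
      obtain ⟨y, hy⟩ := QuotientGroup.mk'_surjective N q
      obtain ⟨u, s, hus, hcom, hu, hs⟩ := exists_isPPart hM.1 y
      have hu1 : (QuotientGroup.mk' N) u = 1 := by
        obtain ⟨e, he⟩ := hu
        have hpq : (QuotientGroup.mk' N) u * (QuotientGroup.mk' N) s = q := by rw [← map_mul, hus, hy]
        obtain ⟨i, -, hi⟩ := (Nat.dvd_prime_pow hM.1).1 (he ▸ orderOf_map_dvd (QuotientGroup.mk' N) u)
        have hcop : Nat.Coprime (orderOf ((QuotientGroup.mk' N) u))
            (orderOf ((QuotientGroup.mk' N) s)) := by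
          rw [hi]
          exact (hM.1.coprime_iff_not_dvd.2 fun h => hs (h.trans (orderOf_map_dvd _ s))).pow_left i
        have ho := (hcom.map (QuotientGroup.mk' N)).orderOf_mul_eq_mul_orderOf_of_coprime hcop
        rw [hpq, hi] at ho
        rcases Nat.eq_zero_or_pos i with rfl | hi0
        · exact orderOf_eq_one_iff.1 (by simpa using hi)
        · exact absurd (ho ▸ dvd_mul_of_dvd_left (dvd_pow_self p hi0.ne') _) hqreg
      have hsq : (s : G ⧸ N) = q := by
        rw [← hy, ← hus, map_mul, hu1, one_mul]; rfl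
      have hsD : ∀ d ∈ N, d * s = s * d := hregC s hs
      rw [Finset.sum_eq_single_of_mem s (Finset.mem_filter.2 ⟨Finset.mem_univ _, hsq⟩)]
      · rw [if_neg hs, hsq]
      · intro g hg hgs
        rw [if_pos ?_, zero_mul, zero_div]
        by_contra hreg
        refine hgs ?_
        have hgq := (Finset.mem_filter.1 hg).2
        have hd : s⁻¹ * g ∈ N := QuotientGroup.eq.1 (hsq.trans hgq.symm)
        have hc : Commute s (s⁻¹ * g) := (hsD _ hd).symm
        have hord : ¬ p ∣ orderOf (s⁻¹ * g) := by
          intro hdvd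
          have hc2 : Commute s⁻¹ g := by
            have h2 := hc.inv_left
            have : Commute s⁻¹ (s * (s⁻¹ * g)) :=
              ((Commute.refl s).inv_left).mul_right h2
            rwa [mul_inv_cancel_left] at this
          rcases hM.1.dvd_mul.1 (hdvd.trans ((hc2.orderOf_mul_dvd_lcm).trans
            (Nat.lcm_dvd_mul _ _))) with h | h
          · exact hs (by rwa [orderOf_inv] at h)
          · exact hreg h
        have h1 := hNreg _ hd hord
        exact (inv_mul_eq_one.1 h1).symm
    have hc := congr_omega_of_sameBlock hamem (χ := Chars.inflate N χ) (ψ := Chars.inflate N ψ) h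
    rw [homega, homega, omega_setIdem, omega_setIdem, if_pos (self_mem_blockOf χ)] at hc
    by_cases hψ : ψ ∈ B
    · exact hψ
    · rw [if_neg hψ, Congr, sub_zero] at hc
      exact absurd hc not_memLocalIdeal_one
  · -- the idempotent of `B` does not die on `G ⧸ N`
    by_contra hno
    push Not at hno
    have h0 : ∀ χ : IrrCharacter (G ⧸ N),
        ∑ g : G, blockCoeff B g * (χ : G ⧸ N → ℂ) (g : G ⧸ N) = 0 := by
      intro χ
      have h : omega (Chars.inflate N χ : G → ℂ) (setIdem B) = 0 := by
        rw [omega_setIdem, if_neg fun h => hno χ _ h rfl]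
      rw [setIdem, omega_ofFun, ← Finset.sum_div, div_eq_zero_iff] at h
      exact h.resolve_right (Chars.map_one_ne_zero _)
    have hsum : ∑ χ : IrrCharacter (G ⧸ N), (χ : G ⧸ N → ℂ) 1 *
        ∑ g : G, blockCoeff B g * (χ : G ⧸ N → ℂ) (g : G ⧸ N) = 0 := by simp [h0]
    have e : ∀ g : G, (∑ χ : IrrCharacter (G ⧸ N), (χ : G ⧸ N → ℂ) 1 *
        (blockCoeff B g * (χ : G ⧸ N → ℂ) (g : G ⧸ N))) =
        blockCoeff B g * if (g : G ⧸ N) = 1 then (Nat.card (G ⧸ N) : ℂ) else 0 := fun g => by
      refine Eq.trans ?_ ((congrArg (blockCoeff B g * ·) (Chars.sum_irr_map_one_mul (g : G ⧸ N))).trans ?_)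
      · simp only [Finset.mul_sum]
        exact Finset.sum_congr rfl fun χ _ => by ring
      · congr 1
        split_ifs <;> rfl
    simp only [Finset.mul_sum] at hsum
    rw [Finset.sum_comm, Finset.sum_congr rfl fun g _ => e g,
      Finset.sum_eq_single_of_mem (1 : G) (Finset.mem_univ _)] at hsum
    · rw [QuotientGroup.mk_one, if_pos rfl] at hsum
      obtain ⟨χ, hχ⟩ := nonempty_of_isPBlock hB
      have hne : blockCoeff B 1 ≠ 0 := by
        rw [blockCoeff, finsum_block_eq_sum]
        refine mul_ne_zero (inv_ne_zero Chars.natCard_ne_zero) ?_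
        rw [Finset.sum_congr rfl (g := fun θ : IrrCharacter G =>
          ((charDegree (θ : G → ℂ) ^ 2 : ℕ) : ℂ)) fun θ _ => ?_, ← Nat.cast_sum, Nat.cast_ne_zero]
        · refine (Finset.sum_pos (fun θ _ => pow_pos (Chars.charDegree_pos θ) 2)
            ⟨χ, (Set.Finite.mem_toFinset _).2 hχ⟩).ne'
        · rw [Chars.conj_map_one (Chars.isCharacter_coe θ), Nat.cast_pow, Chars.coe_charDegree, sq]
      exact mul_ne_zero hne (Nat.cast_ne_zero.2 Nat.card_pos.ne') hsum
    · intro g _ hg
      by_cases hgN : (g : G ⧸ N) = 1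
      · rw [blockCoeff_eq_zero_of_singular hM hB (not_not.1 fun h =>
          hg (hNreg g ((QuotientGroup.eq_one_iff g).1 hgN) h)), zero_mul]
      · rw [if_neg hgN, mul_zero]

end Cfsg.Agent.S0941
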