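import Cfsg.Statements.S0002

set_option autoImplicit false
open Pointwise
open Cfsg

namespace Cfsg.Agent.S0002

open Subgroup MulAction MulOpposite in
theorem exists_stab {G : Type*} [Group G] [Finite G] (A : Subgroup G) [A.Normal] [IsMulCommutative A]
    (hA : (Nat.card A).Coprime A.index) (H : Subgroup G) (hH : Subgroup.IsComplement' A H) :
    ∃ α : A.QuotientDiff, stabilizer G α = H := by
  classical
  let t : A.LeftTransversal := ⟨(H : Set G), hH.symm⟩
  let α : A.QuotientDiff := Quotient.mk'' t
  have hle : H ≤ stabilizer G α := by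
    intro h hh
    show Quotient.mk'' (op h⁻¹ • t) = Quotient.mk'' t
    congr 1
    refine Subtype.ext ?_
    show op h⁻¹ • (H : Set G) = H
    ext x
    rw [Set.mem_smul_set_iff_inv_smul_mem]
    simp [mul_mem_cancel_right hh]
  refine ⟨α, (eq_of_le_of_card_ge hle ?_).symm⟩
  rw [← hH.symm.index_eq_card, ← (isComplement'_stabilizer_of_coprime hA (α := α)).symm.index_eq_card]

/-- Schur's Theorem, conjugacy part, for an abelian normal subgroup of coprime order and index: any two complements are conjugate by an element of the normal subgroup. -/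
theorem result {G : Type*} [Group G] [Finite G] (A : Subgroup G) [A.Normal] [IsMulCommutative A]
    (hA : (Nat.card A).Coprime A.index)
    (H K : Subgroup G) (hH : Subgroup.IsComplement' A H) (hK : Subgroup.IsComplement' A K) :
    ∃ a ∈ A, MulAut.conj a • H = K := by
  obtain ⟨α, rfl⟩ := exists_stab A hA H hH
  obtain ⟨β, rfl⟩ := exists_stab A hA K hK
  obtain ⟨a, ha⟩ := Subgroup.exists_smul_eq hA α β
  exact ⟨a, a.2, by rw [← ha]; exact (MulAction.stabilizer_smul_eq_stabilizer_map_conj (a : G) α).symm⟩

end Cfsg.Agent.S0002
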