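import Cfsg.Statements.S0007
import Mathlib

set_option autoImplicit false
open Cfsg

namespace Cfsg.Agent.S0007

/-- Subgroups of coprime index: the intersection has index equal to the product of the indices, and every element is a product of an element of the first subgroup and an element of the second. -/
theorem result {G : Type*} [Group G] [Finite G] (H K : Subgroup G)
    (h : H.index.Coprime K.index) :
    (H ⊓ K).index = H.index * K.index ∧ ∀ g : G, ∃ x ∈ H, ∃ y ∈ K, g = x * y := by
  classical
  have hle : (H ⊓ K).index ≤ H.index * K.index := Subgroup.index_inf_le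
  have hdvd : H.index * K.index ∣ (H ⊓ K).index :=
    h.mul_dvd_of_dvd_of_dvd (Subgroup.index_dvd_of_le inf_le_left) (Subgroup.index_dvd_of_le inf_le_right)
  have heq : (H ⊓ K).index = H.index * K.index :=
    le_antisymm hle (Nat.le_of_dvd (Nat.pos_of_ne_zero Subgroup.FiniteIndex.index_ne_zero) hdvd)
  refine ⟨heq, fun g => ?_⟩
  have hrel : K.relIndex H = K.index := by
    have h1 := Subgroup.relIndex_mul_index (H := H ⊓ K) (K := H) inf_le_left
    rw [heq, Subgroup.inf_relIndex_left, mul_comm H.index] at h1
    exact Nat.eq_of_mul_eq_mul_right (Nat.pos_of_ne_zero Subgroup.FiniteIndex.index_ne_zero) h1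
  have hst : MulAction.stabilizer H ((1 : G) : G ⧸ K) = K.subgroupOf H := by
    ext x
    rw [MulAction.mem_stabilizer_iff, Subgroup.mem_subgroupOf]
    show ((((x : G) * 1 : G)) : G ⧸ K) = _ ↔ _
    rw [QuotientGroup.eq, mul_one, mul_one, inv_mem_iff]
  have hcard : (MulAction.orbit H ((1 : G) : G ⧸ K)).ncard = Nat.card (G ⧸ K) := by
    rw [← MulAction.index_stabilizer, hst]
    exact hrel
  have huniv : MulAction.orbit H ((1 : G) : G ⧸ K) = Set.univ := by
    apply Set.eq_of_subset_of_ncard_le (Set.subset_univ _)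
    rw [hcard, Set.ncard_univ]
  obtain ⟨x, hx⟩ : (g : G ⧸ K) ∈ MulAction.orbit H ((1 : G) : G ⧸ K) := by rw [huniv]; trivial
  change ((((x : G) * 1 : G)) : G ⧸ K) = _ at hx
  rw [mul_one] at hx
  exact ⟨x, x.2, (x : G)⁻¹ * g, QuotientGroup.eq.1 hx, by group⟩

end Cfsg.Agent.S0007
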