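import Cfsg.Statements.S0009
import Mathlib
import Cfsg.Agent.Constrained.Fitting

set_option autoImplicit false
open Cfsg

namespace Cfsg.Agent.S0009

/-- The Fitting subgroup of a finite group is generated by the p-cores, p ranging over the primes. -/
theorem result {G : Type*} [Group G] [Finite G] :
    Cfsg.fittingSubgroup G = ⨆ p : Nat.Primes, Cfsg.pCore (p : ℕ) G := by
  rw [CfsgLib.Constrained.fitting_eq_iSup_pCore]
  refine le_antisymm (iSup_le fun p => iSup_le fun hp => ?_) (iSup_le fun p => ?_)
  · exact le_iSup (fun q : Nat.Primes => Cfsg.pCore (q : ℕ) G) ⟨p, hp⟩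
  · exact le_iSup₂ (f := fun (q : ℕ) (_ : q.Prime) => Cfsg.pCore q G) (p : ℕ) p.2

end Cfsg.Agent.S0009
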