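import Cfsg.Statements.S0011
import Mathlib

set_option autoImplicit false
open Cfsg

namespace Cfsg.Agent.S0011

/-- If the Frattini quotient of a finite group is nilpotent then the group is nilpotent. -/
theorem result {G : Type*} [Group G] [Finite G]
    (h : Group.IsNilpotent (G ⧸ frattini G)) : Group.IsNilpotent G := by
  refine (Group.isNilpotent_of_finite_tfae (G := G)).out 0 3 rfl rfl |>.mpr fun p _ P => ?_
  have hsur := QuotientGroup.mk'_surjective (frattini G)
  have hn : ((P.mapSurjective hsur : Sylow p (G ⧸ frattini G)) : Subgroup (G ⧸ frattini G)).Normal :=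
    (Group.isNilpotent_of_finite_tfae (G := G ⧸ frattini G)).out 0 3 rfl rfl |>.mp h p inferInstance _
  rw [Sylow.coe_mapSurjective] at hn
  have hN : ((P : Subgroup G) ⊔ frattini G).Normal := by
    have := hn.comap (QuotientGroup.mk' (frattini G))
    rwa [Subgroup.comap_map_eq, QuotientGroup.ker_mk'] at this
  have h1 := Sylow.normalizer_sup_eq_top' P (N := (P : Subgroup G) ⊔ frattini G) le_sup_left
  have hPle : (P : Subgroup G) ≤ Subgroup.normalizer ((P : Subgroup G) : Set G) := Subgroup.le_normalizer
  replace h1 : Subgroup.normalizer ((P : Subgroup G) : Set G) ⊔ frattini G = ⊤ :=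
    top_unique (h1.symm.le.trans (sup_le le_sup_left (sup_le (hPle.trans le_sup_left) le_sup_right)))
  exact Subgroup.normalizer_eq_top_iff.mp (frattini_nongenerating h1)

end Cfsg.Agent.S0011
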