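import Cfsg.Statements.S0013
import Mathlib

set_option autoImplicit false
open Cfsg

namespace Cfsg.Agent.S0013

/-- In a finite p-group the Frattini subgroup is the smallest normal subgroup with elementary abelian quotient: it lies below any normal subgroup containing all commutators and all p-th powers. -/
theorem result {G : Type*} [Group G] [Finite G] (p : ℕ) [Fact p.Prime]
    (hG : IsPGroup p G) (N : Subgroup G) [N.Normal] (hcomm : commutator G ≤ N) (hpow : ∀ x : G, x ^ p ∈ N) :
    frattini G ≤ N := by
  classical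
  intro x hx
  by_contra hxN
  obtain ⟨M, hNM, hM⟩ := Finite.exists_le_maximal (p := fun M : Subgroup G => x ∉ M) hxN
  have hMn : M.Normal := Subgroup.Normal.of_commutator_le G (hcomm.trans hNM)
  have hco : IsCoatom M := by
    refine ⟨fun h => hM.1 (h ▸ Subgroup.mem_top x), fun K hK => ?_⟩
    have hxK : x ∈ K := by
      by_contra h
      exact hK.not_ge (hM.2 h hK.le)
    refine eq_top_iff.2 fun y _ => ?_
    by_cases hy : y ∈ M
    · exact hK.le hy
    · have hxy : x ∈ M ⊔ Subgroup.zpowers y := by
        by_contra h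
        exact hy (hM.2 h le_sup_left (Subgroup.mem_sup_right (Subgroup.mem_zpowers y)))
      rw [← SetLike.mem_coe, Subgroup.normal_mul] at hxy
      obtain ⟨m, hm, _, ⟨k, rfl⟩, hmk⟩ := Set.mem_mul.mp hxy
      have hk : ¬ (p : ℤ) ∣ k := by
        rintro ⟨c, rfl⟩
        apply hM.1
        rw [← hmk]
        show m * y ^ ((p : ℤ) * c) ∈ M
        rw [zpow_mul, zpow_natCast]
        exact mul_mem hm (zpow_mem (hNM (hpow y)) _)
      have hcop : IsCoprime (p : ℤ) k :=
        (Nat.prime_iff_prime_int.mp Fact.out).coprime_iff_not_dvd.2 hk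
      obtain ⟨u, v, huv⟩ := hcop
      have hyk : y ^ k ∈ K := by
        have : y ^ k = m⁻¹ * x := by rw [← hmk]; group
        rw [this]; exact mul_mem (inv_mem (hK.le hm)) hxK
      have : y = (y ^ (p : ℤ)) ^ u * (y ^ k) ^ v := by
        rw [← zpow_mul, ← zpow_mul, ← zpow_add, mul_comm (p : ℤ) u, mul_comm k v, huv, zpow_one]
      rw [this]
      exact mul_mem (zpow_mem (by rw [zpow_natCast]; exact hK.le (hNM (hpow y))) _) (zpow_mem hyk _)
  exact hM.1 (frattini_le_coatom hco hx)

end Cfsg.Agent.S0013
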