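import Cfsg.Statements.S0014
import Mathlib
import Cfsg.Agent.PGroup.Frattini

set_option autoImplicit false
open Cfsg

namespace Cfsg.Agent.S0014

open scoped Pointwise
/-- Burnside's basis Theorem: in a finite p-group whose Frattini quotient has order p ^ n, every generating set contains n elements that already generate, and no set with fewer than n elements generates. -/
theorem result {G : Type*} [Group G] [Finite G] (p n : ℕ) [Fact p.Prime]
    (hG : IsPGroup p G) (hn : (frattini G).index = p ^ n) :
    (∀ S : Finset G, Subgroup.closure (S : Set G) = ⊤ → ∃ T : Finset G, T ⊆ S ∧ T.card = n ∧ Subgroup.closure (T : Set G) = ⊤) ∧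
    (∀ T : Finset G, Subgroup.closure (T : Set G) = ⊤ → n ≤ T.card) := by
  classical
  set f := QuotientGroup.mk' (frattini G) with hf
  have hVp : IsPGroup p (G ⧸ frattini G) := hG.to_quotient _
  have hcomm := CfsgLib.PGroup.frattini_quotient_comm hG
  have hexp := CfsgLib.PGroup.frattini_quotient_pow hG
  have hcardV : Nat.card (G ⧸ frattini G) = p ^ n := by rw [← Subgroup.index_eq_card, hn]
  let W : Finset G → Subgroup (G ⧸ frattini G) := fun s => Subgroup.closure (f '' (s : Set G))
  have hins : ∀ (t : G) (s : Finset G), W (insert t s) = Subgroup.zpowers (f t) ⊔ W s := by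
    intro t s
    simp only [W, Finset.coe_insert, Set.image_insert_eq,
      Subgroup.zpowers_eq_closure]
    rw [Set.insert_eq, Subgroup.closure_union]
  have hup : ∀ s : Finset G, Nat.card (W s) ≤ p ^ s.card := by
    intro s
    induction s using Finset.induction_on with
    | empty => simp [W]
    | insert t s hts ih =>
      rw [Finset.card_insert_of_notMem hts, hins, pow_succ']
      haveI : (W s).Normal := ⟨fun x hx g => by rw [hcomm g x, mul_inv_cancel_right]; exact hx⟩
      have h1 : ((Subgroup.zpowers (f t) ⊔ W s : Subgroup (G ⧸ frattini G)) : Set (G ⧸ frattini G)) =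
          (Subgroup.zpowers (f t) : Set (G ⧸ frattini G)) * (W s : Set (G ⧸ frattini G)) :=
        Subgroup.mul_normal _ _
      calc Nat.card ↥(Subgroup.zpowers (f t) ⊔ W s)
          = ((Subgroup.zpowers (f t) ⊔ W s : Subgroup (G ⧸ frattini G)) : Set (G ⧸ frattini G)).ncard :=
            Nat.card_coe_set_eq _
        _ ≤ Nat.card (Subgroup.zpowers (f t)) * Nat.card (W s) := by
            rw [h1, ← Nat.card_coe_set_eq]; exact Set.natCard_mul_le
        _ ≤ p * p ^ s.card := by
          refine Nat.mul_le_mul ?_ ih
          show Nat.card (Subgroup.zpowers (f t)) ≤ p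
          rw [Nat.card_zpowers]
          exact Nat.le_of_dvd (Fact.out (p := p.Prime)).pos (orderOf_dvd_of_pow_eq_one (hexp _))
  have htop : ∀ T : Finset G, Subgroup.closure (T : Set G) = ⊤ ↔ W T = ⊤ := fun T =>
    CfsgLib.PGroup.closure_eq_top_iff (P := G) _
  have hlow : ∀ T : Finset G, Subgroup.closure (T : Set G) = ⊤ → n ≤ T.card := by
    intro T hT
    have h := hup T
    rw [(htop T).1 hT, Subgroup.card_top, hcardV] at h
    exact (Nat.pow_le_pow_iff_right (Fact.out (p := p.Prime)).one_lt).1 h
  refine ⟨fun S hS => ?_, hlow⟩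
  obtain ⟨T, hTmem, hTmin⟩ := Finset.exists_min_image
    (S.powerset.filter fun T : Finset G => Subgroup.closure (T : Set G) = ⊤) Finset.card
    ⟨S, Finset.mem_filter.2 ⟨Finset.mem_powerset.2 le_rfl, hS⟩⟩
  rw [Finset.mem_filter, Finset.mem_powerset] at hTmem
  refine ⟨T, hTmem.1, le_antisymm ?_ (hlow T hTmem.2), hTmem.2⟩
  have hind : ∀ s : Finset G, s ⊆ T → p ^ s.card ≤ Nat.card (W s) := by
    intro s
    induction s using Finset.induction_on with
    | empty => intro _; simp [W]
    | insert t s hts ih =>
      intro hsub
      have hsT : s ⊆ T := (Finset.subset_insert t s).trans hsub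
      have hle : W s ≤ W (insert t s) := by rw [hins]; exact le_sup_right
      have hne : f t ∉ W s := by
        intro hmem
        have htT : t ∈ T := hsub (Finset.mem_insert_self t s)
        have hW : W (T.erase t) = ⊤ := by
          rw [eq_top_iff, ← (htop T).1 hTmem.2, ← Finset.insert_erase htT, hins]
          rw [Finset.insert_erase htT]
          refine sup_le ?_ le_rfl
          rw [Subgroup.zpowers_le]
          refine Subgroup.closure_mono (Set.image_mono ?_) hmem
          intro x hx
          simp only [Finset.coe_erase, Set.mem_diff, Set.mem_singleton_iff]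
          exact ⟨hsT hx, fun e => hts (e ▸ hx)⟩
        have := hTmin (T.erase t) (Finset.mem_filter.2
          ⟨Finset.mem_powerset.2 ((Finset.erase_subset _ _).trans hTmem.1), (htop _).2 hW⟩)
        rw [Finset.card_erase_of_mem htT] at this
        have := Finset.card_pos.2 ⟨t, htT⟩
        omega
      obtain ⟨a, ha⟩ := IsPGroup.iff_card.1 (hVp.to_subgroup (W s))
      obtain ⟨b, hb⟩ := IsPGroup.iff_card.1 (hVp.to_subgroup (W (insert t s)))
      have hab : a < b := by
        rw [← Nat.pow_lt_pow_iff_right (Fact.out (p := p.Prime)).one_lt, ← ha, ← hb]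
        refine lt_of_le_of_ne (Nat.card_mono (Set.toFinite _) hle) fun e => hne ?_
        rw [Subgroup.eq_of_le_of_card_ge hle e.ge, hins]
        exact Subgroup.mem_sup_left (Subgroup.mem_zpowers _)
      have h2 := ih hsT
      rw [ha] at h2
      have h3 := (Nat.pow_le_pow_iff_right (Fact.out (p := p.Prime)).one_lt).1 h2
      rw [Finset.card_insert_of_notMem hts, hb]
      exact Nat.pow_le_pow_right (Fact.out (p := p.Prime)).pos (by omega)
  have h := (hind T le_rfl).trans (Subgroup.card_le_card_group _)
  rw [hcardV] at h
  exact (Nat.pow_le_pow_iff_right (Fact.out (p := p.Prime)).one_lt).1 h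

end Cfsg.Agent.S0014
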