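import Cfsg.Statements.S0016
import Mathlib
import Cfsg.Agent.PGroup.UniqueOrderP
import Cfsg.Agent.TwoGroup.UniqueInvolution

set_option autoImplicit false
open Cfsg

namespace Cfsg.Agent.S0016

/-- A finite p-group in which only one subgroup has order p is either cyclic or (with p = 2) isomorphic to a generalized quaternion group. -/
theorem result {G : Type*} [Group G] [Finite G] (p : ℕ) [Fact p.Prime]
    (hG : IsPGroup p G) (huniq : ∀ H K : Subgroup G, Nat.card H = p → Nat.card K = p → H = K) :
    IsCyclic G ∨ (p = 2 ∧ ∃ n : ℕ, Nonempty (G ≃* QuaternionGroup (2 ^ n))) := by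
  rcases eq_or_ne p 2 with rfl | hp
  · have h : CfsgLib.TwoGroup.AtMostOneInvolution G := by
      intro x y hx hy
      have := huniq (Subgroup.zpowers x) (Subgroup.zpowers y) (by rw [Nat.card_zpowers, hx])
        (by rw [Nat.card_zpowers, hy])
      have hxy : x ∈ Subgroup.zpowers y := this ▸ Subgroup.mem_zpowers x
      have hc : Nat.card (Subgroup.zpowers y) = 2 := by rw [Nat.card_zpowers, hy]
      obtain ⟨k, rfl⟩ := Subgroup.mem_zpowers_iff.1 hxy
      rw [← zpow_mod_orderOf, hy] at hx ⊢
      rcases Int.emod_two_eq k with hk | hk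
      · simp [hk] at hx
      · simp [hk]
    rcases CfsgLib.TwoGroup.cyclic_or_quaternion hG h with hc | ⟨k, -, hk⟩
    · exact Or.inl hc
    · exact Or.inr ⟨rfl, k, hk⟩
  · refine Or.inl (CfsgLib.PGroup.isCyclic_of_unique_subgroup hp hG fun x y hx hy => ?_)
    rw [huniq (Subgroup.zpowers x) (Subgroup.zpowers y) (by rw [Nat.card_zpowers, hx])
      (by rw [Nat.card_zpowers, hy])]
    exact Subgroup.mem_zpowers y

end Cfsg.Agent.S0016
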