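import Cfsg.Statements.S0018
import Mathlib
import Cfsg.Agent.Involutions.SolvableCore
import Cfsg.Agent.Constrained.Basic

set_option autoImplicit false
open Cfsg

namespace Cfsg.Agent.S0018

/-- A finite solvable group whose Sylow p-subgroups are abelian has p-length one: a Sylow p-subgroup together with the largest normal subgroup of order prime to p generates a normal subgroup. -/
theorem result {G : Type*} [Group G] [Finite G] [Group.IsSolvable G]
    (p : ℕ) [Fact p.Prime] (P : Sylow p G) (hP : IsMulCommutative P) :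
    ((P : Subgroup G) ⊔ Cfsg.pPrimeCore p G).Normal := by
  haveI hn : (Cfsg.pPrimeCore p G).Normal := Subgroup.sSup_normal _ fun _ h => h.1
  set f := QuotientGroup.mk' (Cfsg.pPrimeCore p G)
  have hf := QuotientGroup.mk'_surjective (Cfsg.pPrimeCore p G)
  have hC := CfsgLib.SolvableCore.centralizer_pCore_le (G := G ⧸ Cfsg.pPrimeCore p G) (p := p)
    CfsgLib.Constrained.pPrimeCore_quotient_pPrimeCore
  set P' : Sylow p (G ⧸ Cfsg.pPrimeCore p G) := P.mapSurjective hf
  have hP' : (P' : Subgroup (G ⧸ Cfsg.pPrimeCore p G)) = (P : Subgroup G).map f := Sylow.coe_mapSurjective hf P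
  have hle : Cfsg.pCore p (G ⧸ Cfsg.pPrimeCore p G) ≤ (P : Subgroup G).map f :=
    hP' ▸ CfsgLib.Constrained.isPGroup_pCore.le_sylow_of_normal P'
  have hge : (P : Subgroup G).map f ≤ Cfsg.pCore p (G ⧸ Cfsg.pPrimeCore p G) := by
    refine le_trans (fun x hx => Subgroup.mem_centralizer_iff.2 fun y hy => ?_) hC
    obtain ⟨a, ha, rfl⟩ := hx
    obtain ⟨b, hb, rfl⟩ := hle hy
    rw [← map_mul, ← map_mul]
    exact congrArg f (congrArg Subtype.val (hP.is_comm.comm ⟨b, hb⟩ ⟨a, ha⟩))
  have he : (P : Subgroup G) ⊔ Cfsg.pPrimeCore p G = (Cfsg.pCore p (G ⧸ Cfsg.pPrimeCore p G)).comap f := by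
    rw [← le_antisymm hge hle, Subgroup.comap_map_eq, QuotientGroup.ker_mk']
  rw [he]
  exact (Subgroup.sSup_normal _ fun _ h => h.1).comap f

end Cfsg.Agent.S0018
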