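import Cfsg.Statements.S0020
import Mathlib
import Cfsg.Agent.Solvable.ComplementSystem

set_option autoImplicit false
open Pointwise
open Cfsg

namespace Cfsg.Agent.S0020

open scoped Pointwise
/-- A finite solvable group admits a Sylow system: Sylow subgroups, one for each prime, that pairwise permute as sets. -/
theorem result {G : Type*} [Group G] [Finite G] [Group.IsSolvable G] :
    ∃ S : (p : Nat.Primes) → Sylow (p : ℕ) G,
      ∀ p q : Nat.Primes, (S p : Set G) * (S q : Set G) = (S q : Set G) * (S p : Set G) := by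
  classical
  obtain ⟨K, hK⟩ := CfsgLib.Solvable.exists_complementSystem (G := G)
  set P := (Nat.card G).primeFactors with hP
  let K' : ℕ → Subgroup G := fun r => if hr : r.Prime then K ⟨r, hr⟩ else ⊤
  have hidx : ∀ r ∈ P, (K' r).index = r ^ (Nat.card G).factorization r := fun r hr => by
    have hrp := Nat.prime_of_mem_primeFactors hr
    simp only [K', dif_pos hrp]
    exact hK ⟨r, hrp⟩
  have hcard : ∀ s : Finset ℕ, Nat.card ((P \ s).inf K' : Subgroup G) =
      ∏ r ∈ P ∩ s, r ^ (Nat.card G).factorization r := by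
    intro s
    have h1 := ((P \ s).inf K').card_mul_index
    rw [CfsgLib.Solvable.index_finset_inf K' (P \ s) fun i hi j hj hij => by
      rw [hidx i (Finset.mem_sdiff.1 hi).1, hidx j (Finset.mem_sdiff.1 hj).1]
      exact Nat.Coprime.pow _ _ ((Nat.coprime_primes (Nat.prime_of_mem_primeFactors (Finset.mem_sdiff.1 hi).1)
        (Nat.prime_of_mem_primeFactors (Finset.mem_sdiff.1 hj).1)).2 hij),
      Finset.prod_congr rfl fun r hr => hidx r (Finset.mem_sdiff.1 hr).1] at h1
    have h2 : Nat.card G = (∏ r ∈ P ∩ s, r ^ (Nat.card G).factorization r) *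
        ∏ r ∈ P \ s, r ^ (Nat.card G).factorization r := by
      conv_lhs => rw [← Nat.prod_factorization_pow_eq_self (Nat.card_pos (α := G)).ne']
      exact (Finset.prod_inter_mul_prod_sdiff P s fun r => r ^ (Nat.card G).factorization r).symm
    conv_rhs at h1 => rw [h2]
    refine Nat.eq_of_mul_eq_mul_right (Finset.prod_pos fun r hr => ?_) h1
    exact pow_pos (Nat.prime_of_mem_primeFactors (Finset.mem_sdiff.1 hr).1).pos _
  have hone : ∀ p : Nat.Primes, Nat.card ((P \ {(p : ℕ)}).inf K' : Subgroup G) =
      (p : ℕ) ^ (Nat.card G).factorization (p : ℕ) := by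
    intro p
    rw [hcard]
    by_cases hp : (p : ℕ) ∈ P
    · rw [Finset.inter_eq_right.2 (Finset.singleton_subset_iff.2 hp), Finset.prod_singleton]
    · rw [Finset.inter_singleton_of_notMem hp, Finset.prod_empty,
        show (Nat.card G).factorization (p : ℕ) = 0 from Finsupp.notMem_support_iff.1 hp, pow_zero]
  let S : (p : Nat.Primes) → Sylow (p : ℕ) G := fun p =>
    haveI := Fact.mk p.2
    Sylow.ofCard ((P \ {(p : ℕ)}).inf K') (hone p)
  refine ⟨S, fun p q => ?_⟩
  by_cases hpq : p = q
  · subst hpq; rfl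
  set W := (P \ {(p : ℕ), (q : ℕ)}).inf K'
  have hWp : (S p : Subgroup G) ≤ W := by
    show (P \ {(p : ℕ)}).inf K' ≤ _
    exact Finset.inf_mono (Finset.sdiff_subset_sdiff (Finset.Subset.refl _) (by simp))
  have hWq : (S q : Subgroup G) ≤ W := by
    show (P \ {(q : ℕ)}).inf K' ≤ _
    exact Finset.inf_mono (Finset.sdiff_subset_sdiff (Finset.Subset.refl _) (by simp))
  have hpc : Nat.card (S p : Subgroup G) = (p : ℕ) ^ (Nat.card G).factorization (p : ℕ) := hone p
  have hqc : Nat.card (S q : Subgroup G) = (q : ℕ) ^ (Nat.card G).factorization (q : ℕ) := hone q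
  have hWc : Nat.card W = Nat.card (S p : Subgroup G) * Nat.card (S q : Subgroup G) := by
    rw [hpc, hqc, hcard]
    rw [← Finset.prod_pair (f := fun r => r ^ (Nat.card G).factorization r) (fun e => hpq (Subtype.ext e))]
    apply Finset.prod_subset Finset.inter_subset_right
    intro r hr hr'
    have : r ∉ P := fun h => hr' (Finset.mem_inter.2 ⟨h, hr⟩)
    rw [show (Nat.card G).factorization r = 0 from Finsupp.notMem_support_iff.1 this, pow_zero]
  have hd : Disjoint (S p : Subgroup G) (S q : Subgroup G) := by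
    apply CfsgLib.Solvable.disjoint_of_coprime_card
    rw [hpc, hqc]
    exact Nat.Coprime.pow _ _ ((Nat.coprime_primes p.2 q.2).2 fun e => hpq (Subtype.ext e))
  have main : ∀ A B : Subgroup G, A ≤ W → B ≤ W → Disjoint A B → Nat.card W = Nat.card A * Nat.card B →
      (A : Set G) * (B : Set G) = (W : Set G) := by
    intro A B hA hB hAB hc
    refine Set.eq_of_subset_of_ncard_le ?_ ?_ (Set.toFinite _)
    · exact Set.mul_subset_iff.2 fun a ha b hb => mul_mem (hA ha) (hB hb)
    · rw [show (W : Set G).ncard = Nat.card W from (Nat.card_coe_set_eq _).symm, hc]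
      have hinj : Function.Injective (fun x : A × B => ((x.1 : G) * (x.2 : G))) :=
        Subgroup.mul_injective_of_disjoint hAB
      have : ((A : Set G) * (B : Set G)) = Set.range (fun x : A × B => ((x.1 : G) * (x.2 : G))) := by
        ext z
        constructor
        · rintro ⟨a, ha, b, hb, rfl⟩; exact ⟨(⟨a, ha⟩, ⟨b, hb⟩), rfl⟩
        · rintro ⟨⟨a, b⟩, rfl⟩; exact Set.mul_mem_mul a.2 b.2
      rw [this, Set.ncard_range_of_injective hinj, Nat.card_prod]
  show ((S p : Subgroup G) : Set G) * ((S q : Subgroup G) : Set G) = ((S q : Subgroup G) : Set G) * ((S p : Subgroup G) : Set G)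
  rw [main _ _ hWp hWq hd hWc, main _ _ hWq hWp hd.symm (by rw [hWc, mul_comm])]

end Cfsg.Agent.S0020
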