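import Cfsg.Statements.S0021
import Mathlib
import Cfsg.Agent.Solvable.Wielandt

set_option autoImplicit false
open Pointwise
open Cfsg

namespace Cfsg.Agent.S0021

open scoped Pointwise
/-- A finite group with a family of pairwise permuting Sylow subgroups, one for each prime, is solvable (this direction rests on Burnside's two-prime Theorem). -/
theorem result {G : Type*} [Group G] [Finite G]
    (S : (p : Nat.Primes) → Sylow (p : ℕ) G)
    (hS : ∀ p q : Nat.Primes, (S p : Set G) * (S q : Set G) = (S q : Set G) * (S p : Set G)) :
    Group.IsSolvable G := by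
  classical
  refine CfsgLib.Solvable.isSolvable_of_complements fun p hp _ => ?_
  -- products of pairwise permuting subgroups
  have prod : ∀ s : Finset Nat.Primes, ∃ T : Subgroup G,
      Nat.card T = ∏ q ∈ s, (q : ℕ) ^ (Nat.card G).factorization q ∧
      ∀ r : Nat.Primes, r ∉ s → (T : Set G) * (S r : Set G) = (S r : Set G) * (T : Set G) := by
    intro s
    induction s using Finset.induction with
    | empty => exact ⟨⊥, by simp, fun r _ => by simp⟩
    | @insert a t hat ih =>
      obtain ⟨T, hTc, hT⟩ := ih
      have hperm := hT a hat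
      let U : Subgroup G :=
        { carrier := (T : Set G) * (S a : Set G)
          one_mem' := ⟨1, one_mem T, 1, one_mem (S a : Subgroup G), one_mul 1⟩
          mul_mem' := fun {x y} hx hy => by
            have h1 : x * y ∈ ((T : Set G) * (S a : Set G)) * ((T : Set G) * (S a : Set G)) :=
              Set.mul_mem_mul hx hy
            have e : ((T : Set G) * (S a : Set G)) * ((T : Set G) * (S a : Set G)) =
                (T : Set G) * (S a : Set G) := by
              rw [mul_assoc, ← mul_assoc (S a : Set G), ← hperm, mul_assoc, ← mul_assoc (T : Set G) (T : Set G),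
                coe_mul_coe, coe_mul_coe]
            rwa [e] at h1
          inv_mem' := fun {x} hx => by
            obtain ⟨u, hu, v, hv, rfl⟩ := hx
            rw [hperm]
            exact ⟨v⁻¹, inv_mem (s := (S a : Subgroup G)) hv, u⁻¹, inv_mem hu, (mul_inv_rev u v).symm⟩ }
      have hTU : T ≤ U := fun x hx => ⟨x, hx, 1, one_mem (S a : Subgroup G), mul_one x⟩
      refine ⟨U, ?_, fun r hr => ?_⟩
      · rw [Finset.prod_insert hat]
        haveI := Fact.mk a.2
        have hSc : Nat.card (S a : Subgroup G) = (a : ℕ) ^ (Nat.card G).factorization a :=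
          Sylow.card_eq_multiplicity (S a)
        have hSU : (S a : Subgroup G) ≤ U := fun x hx => ⟨1, one_mem T, x, hx, one_mul x⟩
        have hcopT : (Nat.card T).Coprime (Nat.card (S a : Subgroup G)) := by
          rw [hTc, hSc]
          exact Nat.Coprime.prod_left fun q hq => Nat.Coprime.pow _ _
            ((Nat.coprime_primes q.2 a.2).2 fun e => hat (Subtype.ext e ▸ hq))
        have hc : Subgroup.IsComplement' (T.subgroupOf U) ((S a : Subgroup G).subgroupOf U) := by
          refine Subgroup.isComplement'_of_disjoint_and_mul_eq_univ ?_ ?_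
          · apply CfsgLib.Solvable.disjoint_of_coprime_card
            rwa [Nat.card_congr (Subgroup.subgroupOfEquivOfLe hTU).toEquiv,
              Nat.card_congr (Subgroup.subgroupOfEquivOfLe hSU).toEquiv]
          · refine Set.eq_univ_of_forall fun z => ?_
            obtain ⟨u, hu, v, hv, e⟩ := z.2
            exact ⟨⟨u, hTU hu⟩, hu, ⟨v, hSU hv⟩, hv, Subtype.ext e⟩
        have := hc.card_mul
        rw [Nat.card_congr (Subgroup.subgroupOfEquivOfLe hTU).toEquiv,
          Nat.card_congr (Subgroup.subgroupOfEquivOfLe hSU).toEquiv, hTc, hSc] at this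
        rw [← this, mul_comm]
      · have hra : r ∉ t := fun h => hr (Finset.mem_insert_of_mem h)
        show ((T : Set G) * (S a : Set G)) * (S r : Set G) = (S r : Set G) * ((T : Set G) * (S a : Set G))
        rw [mul_assoc, hS a r, ← mul_assoc, hT r hra, mul_assoc]
  obtain ⟨T, hT, -⟩ := prod (((Nat.card G).primeFactors.erase p).subtype Nat.Prime)
  refine ⟨T, ?_⟩
  erw [Finset.prod_subtype_eq_prod_filter (fun q : ℕ => q ^ (Nat.card G).factorization q),
    Finset.filter_true_of_mem (fun q hq => Nat.prime_of_mem_primeFactors (Finset.mem_of_mem_erase hq))] at hT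
  have h1 := T.card_mul_index
  have h2 : Nat.card G = ∏ q ∈ (Nat.card G).primeFactors, q ^ (Nat.card G).factorization q :=
    (Nat.prod_factorization_pow_eq_self Nat.card_pos.ne').symm
  by_cases hpm : p ∈ (Nat.card G).primeFactors
  · rw [hT] at h1
    conv_rhs at h1 => rw [h2, ← Finset.prod_erase_mul _ _ hpm]
    exact Nat.eq_of_mul_eq_mul_left (hT ▸ Nat.card_pos) h1
  · rw [Finset.erase_eq_of_notMem hpm, ← h2] at hT
    have hz : (Nat.card G).factorization p = 0 := Finsupp.notMem_support_iff.1 hpm
    rw [hz, pow_zero, Subgroup.index_eq_one, ← Subgroup.card_eq_iff_eq_top, hT]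

end Cfsg.Agent.S0021
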