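import Cfsg.Statements.S0029
import Mathlib

set_option autoImplicit false
open Cfsg

namespace Cfsg.Agent.S0029

/-- An action that is trivial on the Frattini quotient and coprime on the Frattini subgroup is trivial: if A normalises K, the orders of A and of the Frattini subgroup of K are coprime, and every commutator of an element of A with an element of K lies in the Frattini subgroup of K, then A centralises K. -/
theorem result {G : Type*} [Group G] [Finite G] (A K : Subgroup G)
    (hAK : A ≤ Subgroup.normalizer (K : Set G))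
    (hcop : (Nat.card A).Coprime (Nat.card (frattini K)))
    (htriv : ∀ a ∈ A, ∀ k ∈ K, a * k * a⁻¹ * k⁻¹ ∈ (frattini K).map K.subtype) :
    A ≤ Subgroup.centralizer (K : Set G) := by
  classical
  have key : ∀ (q n : ℕ), q.Prime → ∀ a ∈ A, orderOf a = q ^ n → ∀ k ∈ K, a * k = k * a := by
    intro q n hq a ha ho
    haveI := Fact.mk hq
    by_cases hn : n = 0
    · intro k _
      have : a = 1 := orderOf_eq_one_iff.1 (by rw [ho, hn, pow_zero])
      simp [this]
    have hqA : q ∣ Nat.card A := by
      have h1 : q ^ n ∣ Nat.card A := ho ▸ A.orderOf_dvd_natCard ha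
      exact (dvd_pow_self q hn).trans h1
    have hqF : ¬ q ∣ Nat.card (frattini K) := fun h =>
      hq.ne_one (Nat.eq_one_of_dvd_coprimes hcop hqA h)
    have htop : (Subgroup.centralizer ({a} : Set G)).subgroupOf K = ⊤ := by
      apply frattini_nongenerating
      rw [eq_top_iff]
      intro k _
      set S : Set G := {x | x ∈ K ∧ (k : G)⁻¹ * x ∈ (frattini K).map K.subtype}
      have hconj : ∀ b ∈ A, ∀ x ∈ S, b * x * b⁻¹ ∈ S := by
        intro b hb x hx
        have hxK : b * x * b⁻¹ ∈ K := (Subgroup.mem_normalizer_iff.1 (hAK hb) x).1 hx.1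
        refine ⟨hxK, ?_⟩
        have e : (k : G)⁻¹ * (b * x * b⁻¹) = (k : G)⁻¹ * (b * x * b⁻¹ * x⁻¹) * k * ((k : G)⁻¹ * x) := by group
        rw [e]
        refine mul_mem ?_ hx.2
        obtain ⟨f, hf, hfe⟩ := htriv b hb x hx.1
        exact ⟨k⁻¹ * f * k, Subgroup.Normal.conj_mem' inferInstance f hf k, by rw [← hfe]; rfl⟩
      let act : MulAction (Subgroup.zpowers a) S :=
        { smul := fun b x => ⟨b * x * (b : G)⁻¹,
            hconj b ((Subgroup.zpowers_le.2 ha) b.2) x x.2⟩
          one_smul := fun x => Subtype.ext (by show (1 : G) * x * (1 : G)⁻¹ = x; group)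
          mul_smul := fun b c x => Subtype.ext (by
            show (b : G) * c * x * ((b : G) * c)⁻¹ = (b : G) * ((c : G) * x * (c : G)⁻¹) * (b : G)⁻¹
            group) }
      have hcard : Nat.card S = Nat.card (frattini K) := by
        refine Nat.card_congr (Equiv.ofBijective (fun f : frattini K => (⟨(k : G) * ((f : K) : G),
          mul_mem k.2 (f : K).2, ⟨(f : K), f.2, by simp⟩⟩ : S)) ⟨?_, ?_⟩).symm
        · intro f g hfg
          exact Subtype.ext (Subtype.ext (mul_left_cancel (congrArg Subtype.val hfg)))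
        · rintro ⟨x, hx, f, hf, hfx⟩
          exact ⟨⟨f, hf⟩, Subtype.ext (by show (k : G) * (f : G) = x; rw [show (f : G) = (k : G)⁻¹ * x from hfx]; group)⟩
      have hpg : IsPGroup q (Subgroup.zpowers a) := IsPGroup.of_card (n := n) (by rw [Nat.card_zpowers, ho])
      obtain ⟨x, hx⟩ := hpg.nonempty_fixed_point_of_prime_not_dvd_card S (hcard ▸ hqF)
      have hxa : a * x * a⁻¹ = x := congrArg Subtype.val (hx ⟨a, Subgroup.mem_zpowers a⟩)
      obtain ⟨f, hf, hfx⟩ := x.2.2
      have : k = ⟨(x : G), x.2.1⟩ * f⁻¹ := by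
        apply Subtype.ext
        show (k : G) = (x : G) * (f : G)⁻¹
        rw [show (f : G) = (k : G)⁻¹ * x from hfx]; group
      rw [this]
      refine Subgroup.mul_mem_sup ?_ (inv_mem hf)
      rw [Subgroup.mem_subgroupOf, Subgroup.mem_centralizer_iff]
      rintro y rfl
      exact eq_mul_inv_iff_mul_eq.1 hxa.symm |>.symm
    intro k hk
    have : (⟨k, hk⟩ : K) ∈ (Subgroup.centralizer ({a} : Set G)).subgroupOf K := by rw [htop]; trivial
    exact Subgroup.mem_centralizer_iff.1 this a rfl
  intro a ha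
  let D : Subgroup A := (Subgroup.centralizer (K : Set G)).subgroupOf A
  have hD : ∀ p : ℕ, ∀ (_ : Fact p.Prime) (P : Sylow p A), (P : Subgroup A) ≤ D := by
    intro p hp P b hb
    obtain ⟨n, hn⟩ := IsPGroup.iff_orderOf.1 P.isPGroup' ⟨b, hb⟩
    rw [Subgroup.orderOf_mk] at hn
    rw [Subgroup.mem_subgroupOf, Subgroup.mem_centralizer_iff]
    exact fun k hk => (key p n hp.out b b.2 (by rw [← hn, Subgroup.orderOf_coe]) k hk).symm
  have hDt : D = ⊤ := by
    rw [← Subgroup.card_eq_iff_eq_top]
    refine Nat.dvd_antisymm (Subgroup.card_subgroup_dvd_card D) ?_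
    rw [Nat.dvd_iff_prime_pow_dvd_dvd]
    intro p m hp hpm
    haveI := Fact.mk hp
    obtain ⟨P⟩ : Nonempty (Sylow p A) := inferInstance
    exact (P.pow_dvd_card_of_pow_dvd_card hpm).trans (Subgroup.card_dvd_of_le (hD p inferInstance P))
  exact (hDt.symm ▸ Subgroup.mem_top (⟨a, ha⟩ : A) : (⟨a, ha⟩ : A) ∈ D)

end Cfsg.Agent.S0029
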