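import Cfsg.Statements.S0030
import Mathlib
import Cfsg.Agent.Coprime.Basic

set_option autoImplicit false
open Cfsg

namespace Cfsg.Agent.S0030

/-- Under coprime action fixed points of a product of two invariant subgroups factor: if K = X Y with X and Y normalised by A then every A-fixed element of K is a product of an A-fixed element of X and an A-fixed element of Y. -/
theorem result {G : Type*} [Group G] [Finite G] (A K : Subgroup G) (hAK : A ≤ Subgroup.normalizer (K : Set G))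
    (hcop : (Nat.card A).Coprime (Nat.card K)) (hsolv : Group.IsSolvable A ∨ Group.IsSolvable K)
    (X Y : Subgroup G) (hX : X ≤ K) (hY : Y ≤ K) (hXA : A ≤ Subgroup.normalizer (X : Set G)) (hYA : A ≤ Subgroup.normalizer (Y : Set G))
    (hXY : ∀ k ∈ K, ∃ x ∈ X, ∃ y ∈ Y, k = x * y) (k : G) (hk : k ∈ K ⊓ Subgroup.centralizer (A : Set G)) :
    ∃ x ∈ X ⊓ Subgroup.centralizer (A : Set G), ∃ y ∈ Y ⊓ Subgroup.centralizer (A : Set G), k = x * y := by
  obtain ⟨x, hx, y, hy, rfl⟩ := hXY k hk.1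
  have hkc := Subgroup.mem_centralizer_iff.1 hk.2
  have hfix : ∀ a ∈ A, x⁻¹ * (a * x * a⁻¹) ∈ X ⊓ Y := by
    intro a ha
    refine ⟨X.mul_mem (X.inv_mem hx) (CfsgLib.Coprime.conj_mem_of_le_normalizer hXA ha hx), ?_⟩
    have e : a * (x * y) * a⁻¹ = x * y := by rw [hkc a ha, mul_inv_cancel_right]
    have e2 : x⁻¹ * (a * x * a⁻¹) = y * (a * y * a⁻¹)⁻¹ := by
      rw [eq_mul_inv_iff_mul_eq]
      calc x⁻¹ * (a * x * a⁻¹) * (a * y * a⁻¹) = x⁻¹ * (a * (x * y) * a⁻¹) := by group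
        _ = y := by rw [e]; group
    rw [e2]
    exact Y.mul_mem hy (Y.inv_mem (CfsgLib.Coprime.conj_mem_of_le_normalizer hYA ha hy))
  obtain ⟨d, hd, hc⟩ := CfsgLib.Coprime.exists_fixed_coset (CfsgLib.Coprime.le_normalizer_inf' hXA hYA)
    (CfsgLib.Coprime.coprime_of_le le_rfl (inf_le_left.trans hX) hcop)
    (hsolv.imp id (CfsgLib.Coprime.isSolvable_of_le (inf_le_left.trans hX))) hfix
  refine ⟨x * d, ⟨X.mul_mem hx hd.1, hc⟩, d⁻¹ * y, ⟨Y.mul_mem (Y.inv_mem hd.2) hy, ?_⟩, by group⟩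
  have : d⁻¹ * y = (x * d)⁻¹ * (x * y) := by group
  rw [this]
  exact (Subgroup.centralizer (A : Set G)).mul_mem ((Subgroup.centralizer (A : Set G)).inv_mem hc) hk.2

end Cfsg.Agent.S0030
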