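import Cfsg.Statements.S0031
import Mathlib

set_option autoImplicit false
open Cfsg

namespace Cfsg.Agent.S0031

open scoped Pointwise
/-- A fixed-point-free automorphism of a finite group maps some Sylow p-subgroup to itself. -/
theorem result {G : Type*} [Group G] [Finite G] (φ : G ≃* G)
    (hφ : MonoidHom.FixedPointFree (φ : G →* G)) (p : ℕ) [Fact p.Prime] :
    ∃ P : Sylow p G, (P : Subgroup G).map (φ : G →* G) = P := by
  obtain ⟨Q⟩ : Nonempty (Sylow p G) := inferInstance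
  let R : Sylow p G := Q.mapSurjective (f := (φ : G →* G)) φ.surjective
  obtain ⟨g, hg⟩ := MulAction.exists_smul_eq G Q R
  obtain ⟨y, hy⟩ := hφ.commutatorMap_surjective g⁻¹
  have hg' : g = φ y * y⁻¹ := by
    rw [← inv_inv g, ← hy, MonoidHom.commutatorMap_apply]
    simp [div_eq_mul_inv]
  refine ⟨y⁻¹ • Q, ?_⟩
  have hR : (Q : Subgroup G).map (φ : G →* G) = MulAut.conj g • (Q : Subgroup G) :=
    (congrArg (fun P : Sylow p G => (P : Subgroup G)) hg).symm
  rw [Sylow.coe_subgroup_smul]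
  have hm : (MulAut.conj y⁻¹ • (Q : Subgroup G)).map (φ : G →* G) = MulAut.conj (φ y⁻¹) • (Q : Subgroup G).map (φ : G →* G) := by
    ext z
    simp only [Subgroup.mem_map, Subgroup.mem_smul_pointwise_iff_exists]
    constructor
    · rintro ⟨_, ⟨s, hs, rfl⟩, rfl⟩
      exact ⟨φ s, ⟨s, hs, rfl⟩, by simp⟩
    · rintro ⟨_, ⟨s, hs, rfl⟩, rfl⟩
      exact ⟨_, ⟨s, hs, rfl⟩, by simp⟩
  rw [hm, hR, smul_smul, ← map_mul]
  congr 2
  rw [hg', map_inv, inv_mul_cancel_left]

end Cfsg.Agent.S0031
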