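import Cfsg.Statements.S0034
import Mathlib
import Cfsg.Agent.Frobenius.Basic

set_option autoImplicit false
open Cfsg

namespace Cfsg.Agent.S0034

/-- For a Frobenius complement H, the set of elements lying in no conjugate of H, together with 1, has exactly as many elements as the index of H, and that index is congruent to 1 modulo the order of H. -/
theorem result {G : Type*} [Group G] [Finite G] (H : Subgroup G) (hH : Cfsg.IsFrobeniusComplement H) :
    Nat.card (Cfsg.frobeniusKernel H) = H.index ∧ H.index % Nat.card H = 1 % Nat.card H := by
  refine ⟨?_, ?_⟩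
  · rw [Nat.card_coe_set_eq]
    exact CfsgLib.Frobenius.Count.ncard_frobeniusKernel hH
  · exact ((Nat.modEq_iff_dvd' (CfsgLib.Frobenius.one_lt_index hH).le).2
      (CfsgLib.Frobenius.card_dvd_index_sub_one hH)).symm

end Cfsg.Agent.S0034
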