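import Cfsg.Statements.S3383

import Cfsg.Agent.Frobenius52.Count
set_option autoImplicit false
open Cfsg

namespace Cfsg.Agent.S3383

open CfsgLib.Frobenius.Count

open scoped Pointwise


/-- Let H be a Frobenius complement in a finite group L and K the Frobenius kernel (as a subgroup). Then K is characteristic in L, and every normal subgroup of L either contains K or is contained in K. -/
theorem result {L : Type*} [Group L] [Finite L]
    (H : Subgroup L) (hH : Cfsg.IsFrobeniusComplement H)
    (K : Subgroup L) (hK : (K : Set L) = Cfsg.frobeniusKernel H) :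
    K.Characteristic ∧ ∀ N : Subgroup L, N.Normal → K ≤ N ∨ N ≤ K := by
  classical
  have hco := coprime_card_index hH
  have hcard : Nat.card K = H.index := by
    rw [← ncard_frobeniusKernel hH, ← hK, ← Nat.card_coe_set_eq]; rfl
  have hmemK : ∀ x : L, x ∈ K ↔ x ∉ conjHash H := by
    intro x; rw [← SetLike.mem_coe, hK, frobeniusKernel_eq_compl]; rfl
  have hKn : K.Normal := by
    refine ⟨fun x hx g => ?_⟩
    rw [hmemK] at hx ⊢
    rintro ⟨a, h, hh, h1, e⟩
    exact hx ⟨g⁻¹ * a, h, hh, h1, by
      rw [mul_inv_rev, inv_inv]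
      calc x = g⁻¹ * (g * x * g⁻¹) * g := by group
        _ = g⁻¹ * a * h * (a⁻¹ * g) := by rw [e]; group⟩
  have hindex : K.index = Nat.card H := by
    have h1 := K.card_mul_index
    rw [← H.card_mul_index, hcard, mul_comm] at h1
    exact Nat.eq_of_mul_eq_mul_right (Nat.pos_of_ne_zero H.index_ne_zero_of_finite) h1
  constructor
  · rw [Subgroup.characteristic_iff_map_le]
    rintro φ _ ⟨k, hk, rfl⟩
    rw [← QuotientGroup.eq_one_iff, ← orderOf_eq_one_iff]
    apply Nat.eq_one_of_dvd_coprimes hco
    · rw [← hindex, Subgroup.index_eq_card]; exact orderOf_dvd_natCard _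
    · rw [← hcard]
      refine (orderOf_map_dvd (QuotientGroup.mk' K) _).trans ?_
      rw [orderOf_injective φ.toMonoidHom φ.injective]
      exact Subgroup.orderOf_dvd_natCard K hk
  · intro N hN
    by_cases hle : N ≤ K
    · exact Or.inr hle
    left
    obtain ⟨x, hxN, hxK⟩ := SetLike.not_le_iff_exists.1 hle
    obtain ⟨a, h, hh, h1, rfl⟩ := not_not.1 (fun hh' => hxK ((hmemK _).2 hh'))
    let f : K → (K ⊓ N : Subgroup L) := fun k =>
      ⟨(k : L) * (a * h * a⁻¹) * (k : L)⁻¹ * (a * h * a⁻¹)⁻¹,
        by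
          have : (k : L) * ((a * h * a⁻¹) * (k : L)⁻¹ * (a * h * a⁻¹)⁻¹) ∈ K :=
            K.mul_mem k.2 (hKn.conj_mem _ (K.inv_mem k.2) _)
          simpa [mul_assoc] using this,
        N.mul_mem (hN.conj_mem _ hxN _) (N.inv_mem hxN)⟩
    have hf : Function.Injective f := by
      intro k k' e
      have e' : (k : L) * (a * h * a⁻¹) * (k : L)⁻¹ = (k' : L) * (a * h * a⁻¹) * (k' : L)⁻¹ :=
        mul_right_cancel (congrArg Subtype.val e)
      set u : L := (k' : L)⁻¹ * k with hu
      have huK : u ∈ K := K.mul_mem (K.inv_mem k'.2) k.2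
      have hux : u * (a * h * a⁻¹) * u⁻¹ = a * h * a⁻¹ := by
        rw [hu]
        calc _ = (k' : L)⁻¹ * ((k : L) * (a * h * a⁻¹) * (k : L)⁻¹) * k' := by group
          _ = _ := by rw [e']; group
      have hm : a⁻¹ * u * a ∈ H := by
        refine mem_of_conj_mem hH _ h hh h1 ?_
        have : a⁻¹ * u * a * h * (a⁻¹ * u * a)⁻¹ = h := by
          calc _ = a⁻¹ * (u * (a * h * a⁻¹) * u⁻¹) * a := by group
            _ = _ := by rw [hux]; group
        rw [this]; exact hh
      by_contra hne
      refine (hmemK u).1 huK ⟨a, a⁻¹ * u * a, hm, fun e1 => hne ?_, by group⟩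
      have : u = 1 := by simpa using (conj_eq_one_iff (a := a⁻¹) (b := u)).1 (by simpa using e1)
      rw [hu, inv_mul_eq_one] at this
      exact Subtype.ext this.symm
    have : Nat.card K ≤ Nat.card (K ⊓ N : Subgroup L) := Nat.card_le_card_of_injective f hf
    exact inf_eq_left.1 (Subgroup.eq_of_le_of_card_ge inf_le_left this)

end Cfsg.Agent.S3383
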