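import Cfsg.Statements.S0037

import Cfsg.Agent.Frobenius.Complement
import Cfsg.Agent.S3383
set_option autoImplicit false
open Pointwise
open Cfsg

namespace Cfsg.Agent.S0037

open CfsgLib.Frobenius


/-- Of two Frobenius complements in one finite group, the one of smaller (or equal) order is conjugate to a subgroup of the other. -/
theorem result {G : Type*} [Group G] [Finite G] (H H₀ : Subgroup G)
    (hH : Cfsg.IsFrobeniusComplement H) (hH₀ : Cfsg.IsFrobeniusComplement H₀) (hle : Nat.card H₀ ≤ Nat.card H) :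
    ∃ g : G, MulAut.conj g • H₀ ≤ H := by
  obtain ⟨K, hKn, hK⟩ := exists_kernel hH
  obtain ⟨K₀, hK₀n, hK₀⟩ := exists_kernel hH₀
  have hmul : Nat.card K * Nat.card H = Nat.card K₀ * Nat.card H₀ := by
    rw [kernel_card hH hK, kernel_card hH₀ hK₀, H.index_mul_card, H₀.index_mul_card]
  have hle' : Nat.card K ≤ Nat.card K₀ := by
    by_contra hlt
    push Not at hlt
    have h1 := Nat.card_pos (α := H)
    nlinarith
  have hinf : H₀ ⊓ K = ⊥ := by
    have hKle : K ≤ K₀ := by
      rcases (Cfsg.Agent.S3383.result H hH K hK).2 K₀ hK₀n with h | h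
      · exact h
      · exact (Subgroup.eq_of_le_of_card_ge h hle').ge
    rw [eq_bot_iff, ← kernel_inf hK₀, inf_comm]
    exact inf_le_inf_right _ hKle
  obtain ⟨g, hg⟩ := exists_le_conj hH H₀ fun x hx x1 =>
    mem_conjHash_of_not_mem_kernel hK fun hxK =>
      x1 (Subgroup.mem_bot.1 (hinf ▸ Subgroup.mem_inf.2 ⟨hx, hxK⟩))
  refine ⟨g⁻¹, ?_⟩
  rintro _ ⟨x, hx, rfl⟩
  simpa using hg x hx

end Cfsg.Agent.S0037
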