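import Cfsg.Statements.S0038

import Cfsg.Agent.Frobenius.Complement
import Cfsg.Agent.S0037
set_option autoImplicit false
open Pointwise
open Cfsg

namespace Cfsg.Agent.S0038

open Pointwise CfsgLib.Frobenius

theorem eq_of_le {G : Type*} [Group G] [Finite G] {H H₀ : Subgroup G}
    (hH : Cfsg.IsFrobeniusComplement H) (hH₀ : Cfsg.IsFrobeniusComplement H₀) (hle : H₀ ≤ H) :
    H₀ = H := by
  refine le_antisymm hle (by_contra fun hnot => ?_)
  have hsub := CfsgLib.Frobenius.subgroupOf hH₀ (B := H)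
    (by rw [inf_eq_left.2 hle]; exact hH₀.1) hnot
  obtain ⟨p, _, d, ρ, hd, -, hρ⟩ := exists_prime_rep hH
  have : Nonempty (Fin d) := ⟨⟨0, hd⟩⟩
  let e : H ≃* (⊤ : Subgroup H) := Subgroup.topEquiv.symm
  exact Linear.not_isFrobeniusComplement hρ ⊤ _ (map_mulEquiv hsub e)

theorem conj_complement {G : Type*} [Group G] {H : Subgroup G}
    (hH : Cfsg.IsFrobeniusComplement H) (g : G) :
    Cfsg.IsFrobeniusComplement (MulAut.conj g • H) :=
  map_mulEquiv hH (MulAut.conj g)


/-- All Frobenius complements of a finite group are conjugate to one another. -/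
theorem result {G : Type*} [Group G] [Finite G] (H H₀ : Subgroup G)
    (hH : Cfsg.IsFrobeniusComplement H) (hH₀ : Cfsg.IsFrobeniusComplement H₀) :
    ∃ g : G, MulAut.conj g • H₀ = H := by
  rcases le_total (Nat.card H₀) (Nat.card H) with hle | hle
  · obtain ⟨g, hg⟩ := Cfsg.Agent.S0037.result H H₀ hH hH₀ hle
    exact ⟨g, eq_of_le hH (conj_complement hH₀ g) hg⟩
  · obtain ⟨g, hg⟩ := Cfsg.Agent.S0037.result H₀ H hH₀ hH hle
    refine ⟨g⁻¹, ?_⟩
    rw [← eq_of_le hH₀ (conj_complement hH g) hg, smul_smul, ← map_mul, inv_mul_cancel, map_one,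
      one_smul]

end Cfsg.Agent.S0038
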