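import Cfsg.Statements.S0039
import Mathlib
import Cfsg.Agent.Frobenius.Basic

set_option autoImplicit false
open Cfsg

namespace Cfsg.Agent.S0039

/-- In a finite group that is a semidirect product of a normal subgroup K by a nontrivial subgroup H, H is a Frobenius complement exactly when each nonidentity element of H acts without nonidentity fixed points on K by conjugation. -/
theorem result {G : Type*} [Group G] [Finite G] (K H : Subgroup G) [K.Normal]
    (hc : Subgroup.IsComplement' K H) (hK : K ≠ ⊥) (hH : H ≠ ⊥) :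
    Cfsg.IsFrobeniusComplement H ↔ ∀ h ∈ H, h ≠ 1 → K ⊓ Subgroup.centralizer {h} = ⊥ := by
  rw [CfsgLib.Frobenius.isFrobeniusComplement_iff]
  constructor
  · rintro ⟨-, -, h⟩ x hx hx1
    rw [Subgroup.eq_bot_iff_forall]
    rintro k ⟨hk, hkc⟩
    have hkH : k ∈ H := by
      refine h k x hx hx1 ?_
      rw [← Subgroup.mem_centralizer_iff.1 hkc x rfl, mul_inv_cancel_right]
      exact hx
    exact Subgroup.disjoint_def.1 hc.disjoint hk hkH
  · intro h
    refine ⟨hH, fun e => hK ?_, fun g x hx hx1 hgx => ?_⟩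
    · have := hc.disjoint
      rwa [e, disjoint_top] at this
    · obtain ⟨⟨k, h₀⟩, hkh⟩ := hc.2 g
      simp only at hkh
      subst hkh
      have h1 : (h₀ : G) * x * (h₀ : G)⁻¹ ∈ H := mul_mem (mul_mem h₀.2 hx) (inv_mem h₀.2)
      set y := (h₀ : G) * x * (h₀ : G)⁻¹ with hy
      have hy1 : y ≠ 1 := fun e => hx1 (conj_eq_one_iff.1 e)
      have h2 : (k : G) * y * (k : G)⁻¹ ∈ H := by
        rwa [hy, show (k : G) * ((h₀ : G) * x * (h₀ : G)⁻¹) * (k : G)⁻¹ =
          (k : G) * h₀ * x * ((k : G) * h₀)⁻¹ by group]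
      have h3 : (k : G) * y * (k : G)⁻¹ * y⁻¹ ∈ K := by
        rw [mul_assoc, mul_assoc, ← mul_assoc y]
        exact mul_mem k.2 ((inferInstance : K.Normal).conj_mem _ (inv_mem k.2) y)
      have h4 := Subgroup.disjoint_def.1 hc.disjoint h3 (mul_mem h2 (inv_mem h1))
      have h5 : (k : G) ∈ K ⊓ Subgroup.centralizer {y} := by
        refine ⟨k.2, Subgroup.mem_centralizer_singleton_iff.2 ?_⟩
        exact mul_inv_eq_iff_eq_mul.1 (mul_inv_eq_one.1 h4)
      rw [h y h1 hy1, Subgroup.mem_bot] at h5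
      rw [h5, one_mul]
      exact h₀.2

end Cfsg.Agent.S0039
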