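import Cfsg.Statements.S0040

import Cfsg.Agent.Frobenius.Complement
set_option autoImplicit false
open Cfsg

namespace Cfsg.Agent.S0040

open CfsgLib.Frobenius


/-- Sylow subgroups of Frobenius complements: if H complements a nontrivial normal subgroup K and every nonidentity element of H has trivial centraliser in K, then each Sylow subgroup of H is cyclic or isomorphic to a generalized quaternion group. -/
theorem result {G : Type*} [Group G] [Finite G] (K H : Subgroup G) [K.Normal]
    (hc : Subgroup.IsComplement' K H) (hK : K ≠ ⊥) (hfpf : ∀ h ∈ H, h ≠ 1 → K ⊓ Subgroup.centralizer {h} = ⊥)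
    (p : ℕ) [Fact p.Prime] (P : Sylow p H) :
    IsCyclic P ∨ ∃ n : ℕ, Nonempty (P ≃* QuaternionGroup (2 ^ n)) := by
  have : Nontrivial K := (Subgroup.nontrivial_iff_ne_bot K).2 hK
  obtain ⟨r, _, d, ρ, hd, hρ⟩ := FPF.exists_prime_rep (FPF.conj_fpf_of_centralizer hfpf)
  have : Nonempty (Fin d) := ⟨⟨0, hd⟩⟩
  by_cases hp : p = 2
  · subst hp
    rcases Linear.cyclic_or_quaternion hρ (P : Subgroup H) P.2 with h | ⟨m, -, h⟩
    · exact Or.inl h
    · exact Or.inr ⟨m, h⟩
  · exact Or.inl (Linear.isCyclic_odd_pSubgroup hρ hp (P : Subgroup H) P.2)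

end Cfsg.Agent.S0040
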