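import Cfsg.Statements.S0041

import Cfsg.Agent.Frobenius.Complement
set_option autoImplicit false
open Cfsg

namespace Cfsg.Agent.S0041

open CfsgLib.Frobenius


/-- A group acting on a nontrivial abelian group so that no nonidentity element has a nonidentity fixed point is cyclic, provided it is abelian or its order is a product of two (possibly equal) primes. -/
theorem result {G : Type*} [Group G] [Finite G] (A V : Subgroup G) [IsMulCommutative V]
    (hV : V ≠ ⊥) (hAV : A ≤ Subgroup.normalizer (V : Set G)) (hfpf : ∀ a ∈ A, a ≠ 1 → V ⊓ Subgroup.centralizer {a} = ⊥)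
    (hA : IsMulCommutative A ∨ ∃ p q : ℕ, p.Prime ∧ q.Prime ∧ Nat.card A = p * q) : IsCyclic A := by
  have : Nontrivial V := (Subgroup.nontrivial_iff_ne_bot V).2 hV
  have hφ : ∀ a : A, a ≠ 1 → ∀ v : V,
      ((V.normalizerMonoidHom).comp (Subgroup.inclusion hAV)) a v = v → v = 1 := by
    intro a ha v e
    have e' : (a : G) * v * (a : G)⁻¹ = v := congrArg Subtype.val e
    have hv : (v : G) ∈ V ⊓ Subgroup.centralizer {(a : G)} :=
      Subgroup.mem_inf.2 ⟨v.2,
        Subgroup.mem_centralizer_singleton_iff.2 (mul_inv_eq_iff_eq_mul.1 e').symm⟩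
    rw [hfpf a a.2 (fun e => ha (Subtype.ext e)), Subgroup.mem_bot] at hv
    exact Subtype.ext hv
  obtain ⟨r, _, d, ρ, hd, hρ⟩ := FPF.exists_prime_rep hφ
  have : Nonempty (Fin d) := ⟨⟨0, hd⟩⟩
  rcases hA with h | ⟨p, q, hp, hq, hc⟩
  · exact Linear.isCyclic_of_comm hρ fun a b => h.is_comm.comm a b
  · exact Linear.isCyclic_of_card_eq_mul hρ hp hq hc

end Cfsg.Agent.S0041
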