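import Cfsg.Statements.S0043
import Mathlib

set_option autoImplicit false
open Cfsg

namespace Cfsg.Agent.S0043

/-- A minimal normal subgroup of a finite solvable group is abelian, and for some prime p all of its elements have order dividing p. -/
theorem result {G : Type*} [Group G] [Finite G] [Group.IsSolvable G]
    (N : Subgroup G) [N.Normal] (hN : N ≠ ⊥) (hmin : ∀ M : Subgroup G, M.Normal → M ≤ N → M = ⊥ ∨ M = N) :
    IsMulCommutative N ∧ ∃ p : ℕ, p.Prime ∧ ∀ x ∈ N, x ^ p = 1 := by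
  classical
  have hc : ⁅N, N⁆ = ⊥ := by
    refine (hmin _ inferInstance ?_).resolve_right (Group.IsSolvable.commutator_lt_of_ne_bot hN).ne
    exact (Group.IsSolvable.commutator_lt_of_ne_bot hN).le
  have comm : ∀ x ∈ N, ∀ y ∈ N, x * y = y * x := fun x hx y hy =>
    (Subgroup.mem_centralizer_iff.1 (Subgroup.commutator_eq_bot_iff_le_centralizer.1 hc hx) y hy).symm
  refine ⟨⟨⟨fun a b => Subtype.ext (comm a a.2 b b.2)⟩⟩, ?_⟩
  obtain ⟨a, ha, ha1⟩ := (Subgroup.bot_or_exists_ne_one N).resolve_left hN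
  obtain ⟨p, hp, hpd⟩ := Nat.exists_prime_and_dvd (mt orderOf_eq_one_iff.1 ha1)
  refine ⟨p, hp, ?_⟩
  let M : Subgroup G :=
    { carrier := {x | x ∈ N ∧ x ^ p = 1}
      one_mem' := ⟨one_mem N, one_pow p⟩
      mul_mem' := fun {x y} hx hy => ⟨mul_mem hx.1 hy.1, by
        rw [Commute.mul_pow (comm x hx.1 y hy.1), hx.2, hy.2, one_mul]⟩
      inv_mem' := fun {x} hx => ⟨inv_mem hx.1, by rw [inv_pow, hx.2, inv_one]⟩ }
  have hMn : M.Normal := ⟨fun x hx g => ⟨Subgroup.Normal.conj_mem inferInstance x hx.1 g, by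
    rw [conj_pow, hx.2, mul_one, mul_inv_cancel]⟩⟩
  have hne : M ≠ ⊥ := fun h => by
    have ho : orderOf (a ^ (orderOf a / p)) = p := orderOf_pow_orderOf_div (orderOf_pos a).ne' hpd
    have hb : a ^ (orderOf a / p) ∈ M := ⟨pow_mem ha _, by
      have := pow_orderOf_eq_one (a ^ (orderOf a / p)); rwa [ho] at this⟩
    rw [h, Subgroup.mem_bot] at hb
    rw [hb, orderOf_one] at ho
    exact hp.ne_one ho.symm
  have := (hmin M hMn fun x hx => hx.1).resolve_left hne
  exact fun x hx => (this.symm ▸ hx : x ∈ M).2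

end Cfsg.Agent.S0043
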