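import Cfsg.Statements.S0046
import Mathlib
import Cfsg.Agent.SolvableStructure.Schmidt

set_option autoImplicit false
open Cfsg

namespace Cfsg.Agent.S0046

/-- Schmidt's Theorem on minimal non-nilpotent groups: a finite group in which every maximal subgroup is nilpotent is solvable. -/
theorem result {G : Type*} [Group G] [Finite G]
    (h : ∀ M : Subgroup G, IsCoatom M → Group.IsNilpotent M) : Group.IsSolvable G := by
  classical
  by_cases hn : Group.IsNilpotent G
  · infer_instance
  have hmin : Cfsg.IsMinimalNonNilpotent G := ⟨hn, fun H hH => by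
    obtain ⟨M, hM, hHM⟩ := (eq_top_or_exists_le_coatom H).resolve_left hH
    haveI := h M hM
    exact Group.nilpotent_of_mulEquiv (Subgroup.subgroupOfEquivOfLe hHM)⟩
  obtain ⟨p, q, hp, hq, -, P, Q, hPc, hQn, hPQ, -⟩ := CfsgLib.Schmidt.exists_structure hmin
  haveI := Fact.mk hq
  haveI := hQn
  haveI : Group.IsNilpotent (Q : Subgroup G) := Q.isPGroup'.isNilpotent
  haveI : IsCyclic (P : Subgroup G) := hPc
  haveI : Group.IsSolvable (P : Subgroup G) :=
    Group.isSolvable_of_comm fun a b => (IsCyclic.isMulCommutative (α := (P : Subgroup G))).is_comm.comm a b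
  have hsurj : Function.Surjective ((QuotientGroup.mk' (Q : Subgroup G)).comp (P : Subgroup G).subtype) := by
    intro y
    obtain ⟨g, rfl⟩ := QuotientGroup.mk'_surjective (Q : Subgroup G) y
    have hg : g ∈ (P : Subgroup G) ⊔ Q := hPQ ▸ Subgroup.mem_top g
    rw [← SetLike.mem_coe, Subgroup.mul_normal] at hg
    obtain ⟨a, ha, b, hb, rfl⟩ := Set.mem_mul.1 hg
    refine ⟨⟨a, ha⟩, ?_⟩
    rw [map_mul, show QuotientGroup.mk' (Q : Subgroup G) b = 1 from (QuotientGroup.eq_one_iff b).2 hb,
      mul_one]
    rfl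
  haveI : Group.IsSolvable (G ⧸ (Q : Subgroup G)) := Group.isSolvable_of_surjective hsurj
  exact Group.isSolvable_of_ker_le_range (Q : Subgroup G).subtype (QuotientGroup.mk' (Q : Subgroup G))
    (by rw [QuotientGroup.ker_mk', Subgroup.range_subtype])

end Cfsg.Agent.S0046
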