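import Cfsg.Statements.S0047
import Mathlib

set_option autoImplicit false
open Cfsg

namespace Cfsg.Agent.S0047

open scoped commutatorElement
/-- A finite group which is the product AB of two abelian subgroups A and B is solvable. -/
theorem result {G : Type*} [Group G] [Finite G] (A B : Subgroup G)
    [IsMulCommutative A] [IsMulCommutative B] (hAB : ∀ g : G, ∃ a ∈ A, ∃ b ∈ B, g = a * b) :
    Group.IsSolvable G := by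
  classical
  have inv' : ∀ g : G, ∃ b ∈ B, ∃ a ∈ A, g = b * a := fun g => by
    obtain ⟨a, ha, b, hb, h⟩ := hAB g⁻¹
    exact ⟨b⁻¹, inv_mem hb, a⁻¹, inv_mem ha, by rw [← mul_inv_rev, ← h, inv_inv]⟩
  have cA : ∀ x ∈ A, ∀ y ∈ A, x * y = y * x := fun x hx y hy =>
    congrArg Subtype.val (mul_comm' (⟨x, hx⟩ : A) ⟨y, hy⟩)
  have cB : ∀ x ∈ B, ∀ y ∈ B, x * y = y * x := fun x hx y hy =>
    congrArg Subtype.val (mul_comm' (⟨x, hx⟩ : B) ⟨y, hy⟩)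
  -- conjugation by A moves only the right entry, conjugation by B only the left entry
  have conjA : ∀ a ∈ A, ∀ b ∈ B, ∀ a1 ∈ A, ∀ b2 ∈ B, ∀ a2 ∈ A, a1 * b * a1⁻¹ = b2 * a2 →
      a1 * ⁅a, b⁆ * a1⁻¹ = ⁅a, b2⁆ := by
    intro a ha b hb a1 ha1 b2 hb2 a2 ha2 e
    have e0 : a1 * a * a1⁻¹ = a := by rw [cA a1 ha1 a ha, mul_inv_cancel_right]
    calc a1 * ⁅a, b⁆ * a1⁻¹ = ⁅a1 * a * a1⁻¹, a1 * b * a1⁻¹⁆ := by group
      _ = ⁅a, b2 * a2⁆ := by rw [e0, e]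
      _ = a * b2 * (a2 * a⁻¹) * a2⁻¹ * b2⁻¹ := by group
      _ = a * b2 * (a⁻¹ * a2) * a2⁻¹ * b2⁻¹ := by rw [cA a2 ha2 a⁻¹ (inv_mem ha)]
      _ = ⁅a, b2⁆ := by group
  have conjB : ∀ a ∈ A, ∀ b ∈ B, ∀ b1 ∈ B, ∀ a3 ∈ A, ∀ b3 ∈ B, b1 * a * b1⁻¹ = a3 * b3 →
      b1 * ⁅a, b⁆ * b1⁻¹ = ⁅a3, b⁆ := by
    intro a ha b hb b1 hb1 a3 ha3 b3 hb3 e
    have e0 : b1 * b * b1⁻¹ = b := by rw [cB b1 hb1 b hb, mul_inv_cancel_right]
    calc b1 * ⁅a, b⁆ * b1⁻¹ = ⁅b1 * a * b1⁻¹, b1 * b * b1⁻¹⁆ := by group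
      _ = ⁅a3 * b3, b⁆ := by rw [e0, e]
      _ = a3 * (b3 * b) * b3⁻¹ * a3⁻¹ * b⁻¹ := by group
      _ = ⁅a3, b⁆ := by rw [cB b3 hb3 b hb]; group
  have commgen : ∀ a ∈ A, ∀ b ∈ B, ∀ a1 ∈ A, ∀ b1 ∈ B, Commute ⁅a, b⁆ ⁅a1, b1⁆ := by
    intro a ha b hb a1' ha1' b1' hb1'
    obtain ⟨b2, hb2, a2, ha2, e2⟩ := inv' (a1'⁻¹ * b * a1'⁻¹⁻¹)
    obtain ⟨a3, ha3, b3, hb3, e3⟩ := hAB (b1'⁻¹ * a * b1'⁻¹⁻¹)
    have h1 := conjA a ha b hb _ (inv_mem ha1') b2 hb2 a2 ha2 e2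
    have h2 := conjB a ha b2 hb2 _ (inv_mem hb1') a3 ha3 b3 hb3 e3
    have h3 := conjB a ha b hb _ (inv_mem hb1') a3 ha3 b3 hb3 e3
    have h4 := conjA a3 ha3 b hb _ (inv_mem ha1') b2 hb2 a2 ha2 e2
    rw [← h1] at h2
    rw [← h3] at h4
    rw [← h2] at h4
    have h5 : ⁅a1', b1'⁆ * ⁅a, b⁆ * ⁅a1', b1'⁆⁻¹ = ⁅a, b⁆ := by
      calc ⁅a1', b1'⁆ * ⁅a, b⁆ * ⁅a1', b1'⁆⁻¹
          = a1' * b1' * (a1'⁻¹ * (b1'⁻¹ * ⁅a, b⁆ * b1'⁻¹⁻¹) * a1'⁻¹⁻¹) * b1'⁻¹ * a1'⁻¹ := by group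
        _ = a1' * b1' * (b1'⁻¹ * (a1'⁻¹ * ⁅a, b⁆ * a1'⁻¹⁻¹) * b1'⁻¹⁻¹) * b1'⁻¹ * a1'⁻¹ := by rw [h4]
        _ = ⁅a, b⁆ := by group
    exact (mul_inv_eq_iff_eq_mul.1 h5).symm
  set S : Set G := {z | ∃ a ∈ A, ∃ b ∈ B, z = ⁅a, b⁆} with hS
  let K := Subgroup.closure S
  haveI hKn : K.Normal := by
    have step : ∀ g : G, (∀ z ∈ S, g * z * g⁻¹ ∈ K) → ∀ k ∈ K, g * k * g⁻¹ ∈ K := by
      intro g hg k hk
      have : K ≤ K.comap (MulAut.conj g).toMonoidHom := (Subgroup.closure_le _).2 hg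
      exact this hk
    refine ⟨fun k hk g => ?_⟩
    obtain ⟨a, ha, b, hb, rfl⟩ := hAB g
    have h1 : b * k * b⁻¹ ∈ K := step b (by
      rintro z ⟨a', ha', b', hb', rfl⟩
      obtain ⟨a3, ha3, b3, hb3, e⟩ := hAB (b * a' * b⁻¹)
      rw [conjB a' ha' b' hb' b hb a3 ha3 b3 hb3 e]
      exact Subgroup.subset_closure ⟨a3, ha3, b', hb', rfl⟩) k hk
    have h2 : a * (b * k * b⁻¹) * a⁻¹ ∈ K := step a (by
      rintro z ⟨a', ha', b', hb', rfl⟩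
      obtain ⟨b2, hb2, a2, ha2, e⟩ := inv' (a * b' * a⁻¹)
      rw [conjA a' ha' b' hb' a ha b2 hb2 a2 ha2 e]
      exact Subgroup.subset_closure ⟨a', ha', b2, hb2, rfl⟩) _ h1
    simpa [mul_assoc] using h2
  haveI hK : IsMulCommutative K := Subgroup.isMulCommutative_closure (by
    rintro x ⟨a, ha, b, hb, rfl⟩ y ⟨a1, ha1, b1, hb1, rfl⟩
    exact commgen a ha b hb a1 ha1 b1 hb1)
  have hq : ∀ x y : G ⧸ K, x * y = y * x := by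
    have hab : ∀ a ∈ A, ∀ b ∈ B, Commute (a : G ⧸ K) (b : G ⧸ K) := fun a ha b hb => by
      rw [← commutatorElement_eq_one_iff_commute]
      show ((⁅a, b⁆ : G) : G ⧸ K) = 1
      rw [QuotientGroup.eq_one_iff]
      exact Subgroup.subset_closure ⟨a, ha, b, hb, rfl⟩
    intro x y
    induction x using QuotientGroup.induction_on with | _ x => ?_
    induction y using QuotientGroup.induction_on with | _ y => ?_
    obtain ⟨a, ha, b, hb, rfl⟩ := hAB x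
    obtain ⟨c, hc, d, hd, rfl⟩ := hAB y
    have hac : Commute (a : G ⧸ K) (c : G ⧸ K) := congrArg (fun z : G => (z : G ⧸ K)) (cA a ha c hc)
    have hbd : Commute (b : G ⧸ K) (d : G ⧸ K) := congrArg (fun z : G => (z : G ⧸ K)) (cB b hb d hd)
    exact ((hac.mul_right (hab a ha d hd)).mul_left ((hab c hc b hb).symm.mul_right hbd)).eq
  haveI : Group.IsSolvable K := Group.isSolvable_of_comm fun x y => mul_comm' x y
  haveI : Group.IsSolvable (G ⧸ K) := Group.isSolvable_of_comm hq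
  exact Group.isSolvable_of_ker_le_range K.subtype (QuotientGroup.mk' K) (by simp)

end Cfsg.Agent.S0047
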