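import Cfsg.Statements.S0048
import Mathlib
import Cfsg.Agent.Solvable.MinNormal

set_option autoImplicit false
open Cfsg

namespace Cfsg.Agent.S0048

/-- In a finite solvable group every maximal subgroup has index a prime power. -/
theorem result {G : Type*} [Group G] [Finite G] [Group.IsSolvable G]
    (M : Subgroup G) (hM : IsCoatom M) : IsPrimePow M.index := by
  have key : ∀ (n : ℕ) (H : Type u_1) [Group H] [Finite H] [Group.IsSolvable H], Nat.card H = n →
      ∀ M : Subgroup H, IsCoatom M → IsPrimePow M.index := by
    intro n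
    induction n using Nat.strong_induction_on with
    | _ n ih =>
    intro H _ _ _ hn M hM
    haveI : Nontrivial H := by
      obtain ⟨x, hx⟩ : ∃ x, x ∉ M := by
        by_contra h
        push Not at h
        exact hM.1 (eq_top_iff.2 fun x _ => h x)
      exact ⟨⟨x, 1, fun e => hx (e ▸ one_mem M)⟩⟩
    obtain ⟨N, p, k, hNn, hN, hmin, hNa, hp, hk, hNc, -⟩ :=
      CfsgLib.Solvable.exists_minimal_normal_of_solvable (G := H)
    by_cases hle : N ≤ M
    · have hidx : (M.map (QuotientGroup.mk' N)).index = M.index := by
        rw [← Subgroup.index_comap_of_surjective _ (QuotientGroup.mk'_surjective N),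
          Subgroup.comap_map_eq, QuotientGroup.ker_mk', sup_eq_left.2 hle]
      rw [← hidx]
      refine ih _ (hn ▸ CfsgLib.Solvable.card_quotient_lt N hN) (H ⧸ N) rfl _ ⟨?_, fun K hK => ?_⟩
      · intro h
        rw [h, Subgroup.index_top, eq_comm, Subgroup.index_eq_one] at hidx
        exact hM.1 hidx
      · have h1 : M < K.comap (QuotientGroup.mk' N) := by
          refine lt_of_le_of_ne (Subgroup.map_le_iff_le_comap.1 hK.le) fun e => hK.ne ?_
          rw [e, Subgroup.map_comap_eq_self_of_surjective (QuotientGroup.mk'_surjective N)]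
        rw [← Subgroup.map_comap_eq_self_of_surjective (QuotientGroup.mk'_surjective N) K, hM.2 _ h1,
          Subgroup.map_top_of_surjective _ (QuotientGroup.mk'_surjective N)]
    · have htop : N ⊔ M = ⊤ := hM.2 _ (right_lt_sup.2 hle)
      have hd : M.index ∣ p ^ k := by
        have hc : Nat.card (N ⊔ M : Subgroup H) ∣ Nat.card N * Nat.card M := by
          haveI := hNn
          refine ⟨Nat.card (N ⊓ M : Subgroup H), ?_⟩
          have e1 := Subgroup.relIndex_mul_relIndex ⊥ (N ⊓ M) M bot_le inf_le_right
          rw [Subgroup.relIndex_bot_left, Subgroup.relIndex_bot_left, Subgroup.inf_relIndex_right] at e1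
          have e2 := Subgroup.relIndex_mul_relIndex ⊥ N (N ⊔ M) bot_le le_sup_left
          rw [Subgroup.relIndex_bot_left, Subgroup.relIndex_bot_left, sup_comm, Subgroup.relIndex_sup_right] at e2
          rw [sup_comm, ← e1, ← e2]; ring
        rw [htop, Subgroup.card_top, hNc, ← M.card_mul_index, mul_comm (p ^ k)] at hc
        exact (Nat.mul_dvd_mul_iff_left Nat.card_pos).1 hc
      obtain ⟨j, -, hj⟩ := (Nat.dvd_prime_pow hp).1 hd
      refine (isPrimePow_nat_iff _).2 ⟨p, j, hp, Nat.pos_of_ne_zero fun h0 => ?_, hj.symm⟩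
      rw [h0, pow_zero, Subgroup.index_eq_one] at hj
      exact hM.1 hj
  exact key _ G rfl M hM

end Cfsg.Agent.S0048
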