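import Cfsg.Statements.S0049
import Mathlib

set_option autoImplicit false
open Cfsg

namespace Cfsg.Agent.S0049

/-- A prime divisor of the order of a finite group also divides the index of the Frattini subgroup. -/
theorem result {G : Type*} [Group G] [Finite G] (p : ℕ) (hp : p.Prime) (hdvd : p ∣ Nat.card G) :
    p ∣ (frattini G).index := by
  haveI := Fact.mk hp
  by_contra hnd
  haveI : Group.IsNilpotent (frattini G) := frattini_nilpotent
  obtain ⟨Q⟩ : Nonempty (Sylow p (frattini G)) := inferInstance
  have hc : (Q : Subgroup (frattini G)).Characteristic := Q.characteristic_of_normal inferInstance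
  set M := (Q : Subgroup (frattini G)).map (frattini G).subtype with hM
  have hMn : M.Normal := ConjAct.normal_of_characteristic_of_normal
  have hidx : M.index = (Q : Subgroup (frattini G)).index * (frattini G).index :=
    Subgroup.index_map_subtype _
  have hcard : Nat.card M = Nat.card (Q : Subgroup (frattini G)) :=
    Nat.card_congr (Subgroup.equivMapOfInjective _ _ (Subgroup.subtype_injective _)).toEquiv.symm
  obtain ⟨n, hn⟩ := IsPGroup.iff_card.1 Q.isPGroup'
  have hndQ : ¬ p ∣ M.index := by
    rw [hidx]
    exact fun h => (hp.dvd_mul.1 h).elim Q.not_dvd_index hnd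
  have hcop : (Nat.card M).Coprime M.index := by
    rw [hcard, hn]
    exact (hp.coprime_iff_not_dvd.2 hndQ).pow_left n
  obtain ⟨H, hH⟩ := Subgroup.exists_right_complement'_of_coprime hcop
  have hMF : M ≤ frattini G := Subgroup.map_subtype_le _
  have hHtop : H = ⊤ := frattini_nongenerating
    (top_unique (hH.symm.sup_eq_top.symm.le.trans (sup_le_sup_left hMF H)))
  have hMb : M = ⊥ := by
    rw [eq_bot_iff]
    intro x hx
    exact hH.disjoint.le_bot ⟨hx, hHtop ▸ Subgroup.mem_top x⟩
  rw [hMb, Subgroup.index_bot] at hndQ
  exact hndQ hdvd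

end Cfsg.Agent.S0049
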