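import Cfsg.Statements.S0053
import Mathlib

set_option autoImplicit false
open Cfsg

namespace Cfsg.Agent.S0053

/-- An abelian minimal normal subgroup N of a finite group is complemented exactly when N is not inside the Frattini subgroup. -/
theorem result {G : Type*} [Group G] [Finite G]
    (N : Subgroup G) [N.Normal] [IsMulCommutative N] (hN : N ≠ ⊥)
    (hmin : ∀ M : Subgroup G, M.Normal → M ≤ N → M = ⊥ ∨ M = N) :
    (∃ H : Subgroup G, Subgroup.IsComplement' N H) ↔ ¬ N ≤ frattini G := by
  constructor
  · rintro ⟨H, hH⟩ hle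
    have h1 : H ⊔ N = ⊤ := hH.symm.sup_eq_top
    have h2 : H = ⊤ := frattini_nongenerating (top_unique (h1.symm.le.trans (sup_le_sup_left hle H)))
    apply hN
    rw [eq_bot_iff]
    intro n hn
    exact hH.disjoint.le_bot ⟨hn, h2 ▸ Subgroup.mem_top n⟩
  · intro hle
    obtain ⟨M, hM, hNM⟩ : ∃ M : Subgroup G, IsCoatom M ∧ ¬ N ≤ M := by
      by_contra h
      push Not at h
      exact hle (le_iInf₂ fun M hM => h M hM)
    have htop : N ⊔ M = ⊤ := hM.2 _ (right_lt_sup.2 hNM)
    have hn : (N ⊓ M).Normal := by
      rw [← Subgroup.normalizer_eq_top_iff, eq_top_iff, ← htop, sup_le_iff]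
      constructor
      · intro n hn
        rw [Subgroup.mem_normalizer_iff]
        intro x
        have comm : ∀ y ∈ N, n * y * n⁻¹ = y := fun y hy => by
          have : n * y = y * n := congrArg Subtype.val (mul_comm' (⟨n, hn⟩ : N) ⟨y, hy⟩)
          rw [this]; group
        constructor
        · intro hx
          show n * x * n⁻¹ ∈ N ⊓ M
          rw [comm x hx.1]; exact hx
        · intro hx
          have : x ∈ N := by
            have := mul_mem (mul_mem (inv_mem hn) hx.1) hn
            simpa [mul_assoc] using this
          have h2 := hx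
          rwa [show n * x * n⁻¹ = x from comm x this] at h2
      · intro m hm
        rw [Subgroup.mem_normalizer_iff]
        intro x
        show x ∈ N ⊓ M ↔ m * x * m⁻¹ ∈ N ⊓ M
        simp only [Subgroup.mem_inf, M.mul_mem_cancel_right (inv_mem hm), M.mul_mem_cancel_left hm]
        exact and_congr_left fun _ => ⟨fun h => Subgroup.Normal.conj_mem inferInstance x h m,
          fun h => by simpa [mul_assoc] using Subgroup.Normal.conj_mem inferInstance _ h m⁻¹⟩
    rcases hmin _ hn inf_le_left with h | h
    · refine ⟨M, Subgroup.isComplement'_of_disjoint_and_mul_eq_univ (disjoint_iff.2 h) ?_⟩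
      rw [← Subgroup.normal_mul, htop, Subgroup.coe_top]
    · exact absurd (h ▸ inf_le_right) hNM

end Cfsg.Agent.S0053
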