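import Cfsg.Statements.S0054
import Mathlib

set_option autoImplicit false
open Cfsg

namespace Cfsg.Agent.S0054

/-- A regular normal subgroup of a finite 2-transitive group is elementary abelian: it is commutative and all its elements have order dividing one prime. -/
theorem result {G : Type*} [Group G] [Finite G]
    {X : Type*} [Nonempty X] [MulAction G X] (h2 : MulAction.IsMultiplyPretransitive G X 2)
    (N : Subgroup G) [N.Normal] (htrans : MulAction.IsPretransitive N X) (hreg : ∀ x : X, MulAction.stabilizer N x = ⊥) :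
    IsMulCommutative N ∧ ∃ p : ℕ, p.Prime ∧ ∀ n ∈ N, n ^ p = 1 := by
  classical
  by_cases hN : N = ⊥
  · subst hN
    refine ⟨⟨⟨fun a b => Subsingleton.elim _ _⟩⟩, 2, Nat.prime_two, fun n hn => ?_⟩
    rw [Subgroup.mem_bot.1 hn, one_pow]
  obtain ⟨x⟩ := ‹Nonempty X›
  have free : ∀ n : G, n ∈ N → n • x = x → n = 1 := fun n hn h => by
    have : (⟨n, hn⟩ : N) ∈ MulAction.stabilizer N x := h
    rw [hreg, Subgroup.mem_bot] at this
    exact congrArg Subtype.val this
  have conj : ∀ a ∈ N, a ≠ 1 → ∀ b ∈ N, b ≠ 1 → ∃ g : G, g * a * g⁻¹ = b := by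
    intro a ha ha1 b hb hb1
    have h2t : ∀ {a b c d : X}, a ≠ b → c ≠ d → ∃ g : G, g • a = c ∧ g • b = d :=
      MulAction.is_two_pretransitive_iff.1 h2
    obtain ⟨g, hgx, hgb⟩ := h2t
      (a := x) (b := a • x) (c := x) (d := b • x)
      (fun h => ha1 (free a ha h.symm)) (fun h => hb1 (free b hb h.symm))
    refine ⟨g, ?_⟩
    have hga : g * a * g⁻¹ ∈ N := Subgroup.Normal.conj_mem inferInstance a ha g
    have h3 := free (b⁻¹ * (g * a * g⁻¹)) (mul_mem (inv_mem hb) hga) (by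
      rw [mul_smul, mul_smul, mul_smul, inv_smul_eq_iff.2 hgx.symm, hgb, inv_smul_smul])
    exact (inv_mul_eq_one.1 h3).symm
  obtain ⟨a, ha, ha1⟩ := (Subgroup.bot_or_exists_ne_one N).resolve_left hN
  obtain ⟨p, hp, hpd⟩ := Nat.exists_prime_and_dvd (mt orderOf_eq_one_iff.1 ha1)
  haveI := Fact.mk hp
  have hb := pow_mem ha (orderOf a / p)
  have hbo : orderOf (a ^ (orderOf a / p)) = p := orderOf_pow_orderOf_div (orderOf_pos a).ne' hpd
  have hb1 : a ^ (orderOf a / p) ≠ 1 := fun h => by rw [h, orderOf_one] at hbo; exact hp.ne_one hbo.symm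
  have hpow : ∀ n ∈ N, n ^ p = 1 := by
    intro n hn
    by_cases hn1 : n = 1
    · rw [hn1, one_pow]
    obtain ⟨g, rfl⟩ := conj _ hb hb1 n hn hn1
    have hbp := pow_orderOf_eq_one (a ^ (orderOf a / p))
    rw [hbo] at hbp
    rw [conj_pow, hbp, mul_one, mul_inv_cancel]
  refine ⟨?_, p, hp, hpow⟩
  have hpg : IsPGroup p N := fun n => ⟨1, Subtype.ext (by simpa using hpow n n.2)⟩
  haveI : Nontrivial N := (Subgroup.nontrivial_iff_ne_bot N).2 hN
  obtain ⟨⟨z, hz⟩, hz1⟩ := @exists_ne (Subgroup.center N) hpg.center_nontrivial 1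
  have hz' : (z : G) ≠ 1 := fun h => hz1 (Subtype.ext (Subtype.ext h))
  refine ⟨⟨fun u v => ?_⟩⟩
  by_cases hu : (u : G) = 1
  · rw [show u = 1 from Subtype.ext hu, one_mul, mul_one]
  · obtain ⟨g, hg⟩ := conj _ z.2 hz' u u.2 hu
    have h4 := congrArg Subtype.val (Subgroup.mem_center_iff.1 hz ⟨g⁻¹ * v * g, Subgroup.Normal.conj_mem' (H := N) inferInstance (v : G) v.2 g⟩)
    simp only [Subgroup.coe_mul] at h4
    apply Subtype.ext
    simp only [Subgroup.coe_mul, ← hg]
    calc g * z * g⁻¹ * v = g * ((z : G) * (g⁻¹ * v * g)) * g⁻¹ := by group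
      _ = g * ((g⁻¹ * v * g) * z) * g⁻¹ := by rw [h4]
      _ = v * (g * z * g⁻¹) := by group

end Cfsg.Agent.S0054
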