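import Cfsg.Statements.S0056
import Mathlib
import Cfsg.Agent.Coprime.Basic

set_option autoImplicit false
open Cfsg

namespace Cfsg.Agent.S0056

/-- A coprime action on an abelian group that fixes all elements of prime order is trivial. -/
theorem result {G : Type*} [Group G] [Finite G] (A V : Subgroup G) [IsMulCommutative V]
    (hAV : A ≤ Subgroup.normalizer (V : Set G)) (hcop : (Nat.card A).Coprime (Nat.card V))
    (hΩ : ∀ v ∈ V, (orderOf v).Prime → ∀ a ∈ A, a * v = v * a) : A ≤ Subgroup.centralizer (V : Set G) := by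
  have hV : IsMulCommutative V := inferInstance
  have h0 := CfsgLib.Coprime.commutator_inf_centralizer_eq_bot hV hAV hcop
  have hle := CfsgLib.Coprime.commutator_le_of_le_normalizer hAV
  rw [Subgroup.le_centralizer_iff, ← Subgroup.commutator_eq_bot_iff_le_centralizer]
  by_contra hne
  obtain ⟨v, hv, hv1⟩ := (Subgroup.bot_or_exists_ne_one _).resolve_left hne
  obtain ⟨p, hp, hpd⟩ := Nat.exists_prime_and_dvd (mt orderOf_eq_one_iff.1 hv1)
  have ho : orderOf (v ^ (orderOf v / p)) = p := orderOf_pow_orderOf_div (orderOf_pos v).ne' hpd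
  have hw : v ^ (orderOf v / p) ∈ ⁅V, A⁆ ⊓ Subgroup.centralizer (A : Set G) :=
    ⟨pow_mem hv _, fun a ha => hΩ _ (pow_mem (hle hv) _) (ho.symm ▸ hp) a ha⟩
  rw [h0, Subgroup.mem_bot] at hw
  rw [hw, orderOf_one] at ho
  exact hp.ne_one ho.symm

end Cfsg.Agent.S0056
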