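import Cfsg.Statements.S0057
import Mathlib
import Cfsg.Agent.Coprime.Sylow
import Cfsg.Agent.Coprime.Basic
import Cfsg.Agent.PGroup.Frattini

set_option autoImplicit false
open Cfsg

namespace Cfsg.Agent.S0057

open scoped commutatorElement Pointwise
/-- Under coprime action, if the centraliser of A in K has prime index p in K then the commutator subgroup [K, A] has order exactly p. -/
theorem result {G : Type*} [Group G] [Finite G] (A K : Subgroup G) (hAK : A ≤ Subgroup.normalizer (K : Set G))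
    (hcop : (Nat.card A).Coprime (Nat.card K)) (hsolv : Group.IsSolvable A ∨ Group.IsSolvable K)
    (p : ℕ) (hp : p.Prime) (hidx : (K ⊓ Subgroup.centralizer (A : Set G)).relIndex K = p) :
    Nat.card (⁅K, A⁆ : Subgroup G) = p := by
  classical
  haveI := Fact.mk hp
  have hKne : ¬ K ≤ Subgroup.centralizer (A : Set G) := fun hle => by
    rw [inf_eq_left.2 hle, Subgroup.relIndex_self] at hidx
    exact hp.one_lt.ne hidx
  obtain ⟨P, hP⟩ := CfsgLib.Coprime.exists_invariant_sylow (p := p) hAK hcop hsolv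
  set P' := (P : Subgroup K).map K.subtype with hP'
  have hP'K : P' ≤ K := Subgroup.map_subtype_le _
  have hP'p : IsPGroup p P' := P.isPGroup'.map _
  -- `P` meets every coset of the centraliser
  set C0 := (K ⊓ Subgroup.centralizer (A : Set G)).subgroupOf K with hC0
  have hC0i : C0.index = p := hidx
  have horb : MulAction.orbit (P : Subgroup K) ((1 : K) : K ⧸ C0) = Set.univ := by
    refine Set.eq_of_subset_of_ncard_le (Set.subset_univ _) ?_ (Set.toFinite _)
    rw [Set.ncard_univ, ← Subgroup.index_eq_card, hC0i,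
      ← MulAction.index_stabilizer (P : Subgroup K) ((1 : K) : K ⧸ C0)]
    obtain ⟨n, hn⟩ := IsPGroup.iff_card.1 P.isPGroup'
    obtain ⟨j, -, hj⟩ := (Nat.dvd_prime_pow hp).1
      (hn ▸ (MulAction.stabilizer (P : Subgroup K) ((1 : K) : K ⧸ C0)).index_dvd_card)
    rw [hj]
    rcases Nat.eq_zero_or_pos j with rfl | hj0
    · exfalso
      rw [pow_zero, Subgroup.index_eq_one] at hj
      refine P.not_dvd_index ((dvd_of_eq hC0i.symm).trans
        (Subgroup.index_dvd_of_le (H := (P : Subgroup K)) (K := C0) fun x hx => ?_))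
      have hst : (⟨x, hx⟩ : (P : Subgroup K)) ∈ MulAction.stabilizer (P : Subgroup K) ((1 : K) : K ⧸ C0) :=
        hj ▸ Subgroup.mem_top _
      rw [MulAction.mem_stabilizer_iff] at hst
      change ((x * 1 : K) : K ⧸ C0) = _ at hst
      rw [mul_one, QuotientGroup.eq, mul_one] at hst
      exact inv_mem_iff.1 hst
    · exact le_self_pow hp.one_lt.le hj0.ne'
  have hKA : ⁅K, A⁆ = ⁅P', A⁆ := by
    refine le_antisymm (Subgroup.commutator_le.2 fun k hk a ha => ?_)
      (Subgroup.commutator_mono hP'K le_rfl)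
    have h1 : (((⟨k, hk⟩ : K)) : K ⧸ C0) ∈ MulAction.orbit (P : Subgroup K) ((1 : K) : K ⧸ C0) :=
      horb ▸ Set.mem_univ _
    obtain ⟨⟨x, hx⟩, hxk⟩ := h1
    change ((x * 1 : K) : K ⧸ C0) = _ at hxk
    rw [mul_one, QuotientGroup.eq] at hxk
    obtain ⟨-, hc⟩ := Subgroup.mem_subgroupOf.1 hxk
    have hc' := Subgroup.mem_centralizer_iff.1 hc a ha
    have e : ⁅k, a⁆ = ⁅(x : G), a⁆ := by
      simp only [Subgroup.coe_mul, Subgroup.coe_inv] at hc'
      rw [commutatorElement_def, commutatorElement_def]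
      calc k * a * k⁻¹ * a⁻¹ = (x : G) * (((x : G)⁻¹ * k) * a) * k⁻¹ * a⁻¹ := by group
        _ = (x : G) * (a * ((x : G)⁻¹ * k)) * k⁻¹ * a⁻¹ := by rw [hc']
        _ = (x : G) * a * (x : G)⁻¹ * a⁻¹ := by group
    rw [e]
    exact Subgroup.commutator_mem_commutator ⟨x, hx, rfl⟩ ha
  set W := ⁅P', A⁆ with hW
  have hWP : W ≤ P' := CfsgLib.Coprime.commutator_le_of_le_normalizer hP
  have hWp : IsPGroup p W := hP'p.to_le hWP
  have hcopP : (Nat.card A).Coprime (Nat.card P') := CfsgLib.Coprime.coprime_of_le le_rfl hP'K hcop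
  have hP's : Group.IsSolvable P' := CfsgLib.Coprime.isSolvable_of_isPGroup hP'p
  have hWA : ⁅W, A⁆ = W := CfsgLib.Coprime.commutator_commutator_eq hP hcopP (Or.inr hP's)
  rw [hKA]
  set D := W ⊓ Subgroup.centralizer (A : Set G) with hD
  have hDW : D ≤ W := inf_le_left
  have hWC : ¬ W ≤ Subgroup.centralizer (A : Set G) := fun hle => by
    have h0 : W = ⊥ := hWA ▸ Subgroup.commutator_eq_bot_iff_le_centralizer.2 hle
    exact hKne (Subgroup.commutator_eq_bot_iff_le_centralizer.1 (hKA.trans h0))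
  have hDi : D.relIndex W = p := by
    have hle : D.relIndex W ≤ p := by
      rw [← hidx, hD, Subgroup.inf_relIndex_left, Subgroup.inf_relIndex_left]
      exact Subgroup.relIndex_le_of_le_right (hWP.trans hP'K) Subgroup.index_ne_zero_of_finite
    obtain ⟨n, hn⟩ := IsPGroup.iff_card.1 hWp
    obtain ⟨j, -, hj⟩ := (Nat.dvd_prime_pow hp).1 (hn ▸ D.relIndex_dvd_card W)
    rw [hj] at hle ⊢
    rcases Nat.eq_zero_or_pos j with rfl | hj0
    · rw [pow_zero, Subgroup.relIndex_eq_one] at hj
      exact absurd (hj.trans inf_le_right) hWC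
    · exact le_antisymm hle (le_self_pow hp.one_lt.le hj0.ne')
  have hWD : W ≤ Subgroup.normalizer (D : Set G) :=
    (Subgroup.normal_subgroupOf_iff_le_normalizer hDW).1
      (CfsgLib.PGroup.normal_of_coatom hWp (CfsgLib.PGroup.isCoatom_of_index_eq hDi))
  have hAD : ⁅A, D⁆ = ⊥ := by
    rw [Subgroup.commutator_comm]
    exact Subgroup.commutator_eq_bot_iff_le_centralizer.2 inf_le_right
  have hWD0 : ⁅W, D⁆ = ⊥ := by
    conv_lhs => rw [← hWA]
    refine Subgroup.commutator_commutator_eq_bot_of_rotate (by rw [hAD, Subgroup.commutator_bot_left]) ?_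
    rw [eq_bot_iff]
    calc ⁅⁅D, W⁆, A⁆ ≤ ⁅D, A⁆ :=
          Subgroup.commutator_mono (CfsgLib.Coprime.commutator_le_of_le_normalizer hWD) le_rfl
      _ ≤ ⊥ := by rw [Subgroup.commutator_comm, hAD]
  have hDWc : D ≤ Subgroup.centralizer (W : Set G) :=
    Subgroup.commutator_eq_bot_iff_le_centralizer.1 ((Subgroup.commutator_comm D W).trans hWD0)
  obtain ⟨w, hw, hwD⟩ : ∃ w ∈ W, w ∉ D := by
    by_contra hcon
    push Not at hcon
    exact hWC ((show W ≤ D from hcon).trans inf_le_right)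
  have hWgen : W ≤ D ⊔ Subgroup.zpowers w := by
    set M := D ⊔ Subgroup.zpowers w
    have hMW : M ≤ W := sup_le hDW (Subgroup.zpowers_le.2 hw)
    have h1 := Subgroup.relIndex_mul_relIndex D M W le_sup_left hMW
    rw [hDi] at h1
    rcases hp.eq_one_or_self_of_dvd _ ⟨_, h1.symm⟩ with h2 | h2
    · exact absurd ((Subgroup.relIndex_eq_one.1 h2) (Subgroup.mem_sup_right (Subgroup.mem_zpowers w))) hwD
    · rw [h2] at h1
      exact Subgroup.relIndex_eq_one.1 (Nat.eq_of_mul_eq_mul_left hp.pos (h1.trans (mul_one p).symm))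
  have hwc : W ≤ Subgroup.centralizer {w} := by
    refine hWgen.trans (sup_le (fun d hd => ?_) (Subgroup.zpowers_le.2 ?_))
    · exact Subgroup.mem_centralizer_singleton_iff.2 (Subgroup.mem_centralizer_iff.1 (hDWc hd) w hw).symm
    · exact Subgroup.mem_centralizer_singleton_iff.2 rfl
  have hWcomm : IsMulCommutative W := by
    refine ⟨⟨fun a b => Subtype.ext ?_⟩⟩
    have hle : W ≤ Subgroup.centralizer (W : Set G) := by
      refine hWgen.trans (sup_le hDWc (Subgroup.zpowers_le.2 (Subgroup.mem_centralizer_iff.2 ?_)))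
      exact fun x hx => Subgroup.mem_centralizer_singleton_iff.1 (hwc hx)
    exact (Subgroup.mem_centralizer_iff.1 (hle b.2) a a.2)
  have hD0 : D = ⊥ := by
    rw [hD]
    conv_lhs => rw [← hWA]
    exact CfsgLib.Coprime.commutator_inf_centralizer_eq_bot hWcomm
      (Subgroup.normalizer_commutator_ge_right P' A)
      (CfsgLib.Coprime.coprime_of_le le_rfl hWP hcopP)
  rw [← hDi, hD0, Subgroup.relIndex_bot_left]

end Cfsg.Agent.S0057
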