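import Cfsg.Statements.S0059
import Mathlib
import Cfsg.Agent.Coprime.Glauberman

set_option autoImplicit false
open Cfsg

namespace Cfsg.Agent.S0059

/-- Let a finite group act on a set on which a normal subgroup K of coprime order and index is transitive, with K or the quotient solvable. Then any complement H of K has a fixed point, and any two H-fixed points are interchanged by an element of K centralising H. -/
theorem result {G : Type*} [Group G] [Finite G] {X : Type*} [Nonempty X] [MulAction G X]
    (K H : Subgroup G) [K.Normal] (hc : Subgroup.IsComplement' K H) (hcop : (Nat.card K).Coprime K.index)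
    (hsolv : Group.IsSolvable K ∨ Group.IsSolvable (G ⧸ K)) (htrans : MulAction.IsPretransitive K X) :
    (∃ x : X, ∀ h ∈ H, h • x = x) ∧
    ∀ x y : X, (∀ h ∈ H, h • x = x) → (∀ h ∈ H, h • y = y) → ∃ k ∈ K ⊓ Subgroup.centralizer (H : Set G), k • x = y := by
  have hcopH : (Nat.card H).Coprime (Nat.card K) := by
    rw [← hc.symm.index_eq_card]
    exact hcop.symm
  have hsol' : Group.IsSolvable H ∨ Group.IsSolvable K := by
    rcases hsolv with h | h
    · exact Or.inr h
    · haveI := h
      exact Or.inl (Group.isSolvable_of_surjective (f := hc.symm.QuotientMulEquiv.toMonoidHom)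
        hc.symm.QuotientMulEquiv.surjective)
  have hHK : H ≤ Subgroup.normalizer (K : Set G) := by
    rw [Subgroup.normalizer_eq_top]; exact le_top
  refine ⟨?_, fun x y hx hy => ?_⟩
  · obtain ⟨s, -, hs⟩ := CfsgLib.Coprime.exists_fixed hHK hcopH hsol' (S := (Set.univ : Set X))
      Set.univ_nonempty (fun _ _ _ _ => trivial) (fun _ _ _ _ => trivial) (fun s _ t _ => by
        obtain ⟨k, hk⟩ := htrans.exists_smul_eq s t
        exact ⟨k, k.2, hk⟩)
    exact ⟨s, hs⟩
  · obtain ⟨k, hk⟩ := htrans.exists_smul_eq x y
    exact CfsgLib.Coprime.exists_centralizer_smul_eq hHK hcopH hsol' hx hy ⟨k, k.2, hk⟩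

end Cfsg.Agent.S0059
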