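import Cfsg.Statements.S0060
import Mathlib
import Cfsg.Agent.Solvable.SchurZassenhaus
import Cfsg.Agent.S0010

set_option autoImplicit false
open Pointwise
open Cfsg

namespace Cfsg.Agent.S0060

/-- Brodkey's Theorem: in a finite group with abelian Sylow p-subgroups and no nontrivial normal p-subgroup, some conjugate of a Sylow p-subgroup meets it trivially. -/
theorem result {G : Type*} [Group G] [Finite G] (p : ℕ) [Fact p.Prime]
    (S : Sylow p G) (hS : IsMulCommutative S) (hOp : Cfsg.pCore p G = ⊥) :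
    ∃ g : G, (S : Subgroup G) ⊓ MulAut.conj g • (S : Subgroup G) = ⊥ := by
  classical
  open scoped Pointwise in
  have key : ∃ D : Subgroup G, (∀ R : Sylow p G, D ≤ R) ∧ ∃ T : Sylow p G, D = (S : Subgroup G) ⊓ T := by
    obtain ⟨⟨S₁, T₁⟩, hmin⟩ := Finite.exists_min
      (fun ST : Sylow p G × Sylow p G => Nat.card ((ST.1 : Subgroup G) ⊓ ST.2 : Subgroup G))
    obtain ⟨g, rfl⟩ := MulAction.exists_smul_eq G S S₁
    set T : Sylow p G := g⁻¹ • T₁ with hT
    have hmin' : ∀ U V : Sylow p G, Nat.card ((S : Subgroup G) ⊓ T : Subgroup G) ≤ Nat.card ((U : Subgroup G) ⊓ V : Subgroup G) := by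
      intro U V
      refine le_trans (le_of_eq ?_) (hmin ⟨U, V⟩)
      rw [hT]
      simp only [Sylow.coe_subgroup_smul]
      rw [← CfsgLib.Solvable.card_conj_smul g, Subgroup.smul_inf, smul_smul, ← map_mul, mul_inv_cancel, map_one, one_smul]
    refine ⟨_, fun R => ?_, T, rfl⟩
    set D := (S : Subgroup G) ⊓ T
    have hab : ∀ U : Sylow p G, IsMulCommutative (U : Subgroup G) := by
      intro U
      obtain ⟨x, rfl⟩ := MulAction.exists_smul_eq G S U
      refine ⟨⟨fun a b => ?_⟩⟩
      have ha := a.2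
      have hb := b.2
      simp only [Sylow.coe_subgroup_smul, CfsgLib.Solvable.mem_conj_smul_iff] at ha hb
      have := congrArg Subtype.val (hS.is_comm.comm (⟨_, ha⟩ : (S : Subgroup G)) ⟨_, hb⟩)
      simp only [Subgroup.coe_mul] at this
      apply Subtype.ext
      simp only [Subgroup.coe_mul]
      calc (a : G) * b = x * (x⁻¹ * a * x * (x⁻¹ * b * x)) * x⁻¹ := by group
        _ = x * (x⁻¹ * b * x * (x⁻¹ * a * x)) * x⁻¹ := by rw [this]
        _ = b * a := by group
    set H := Subgroup.centralizer (D : Set G)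
    have hle : ∀ U : Sylow p G, D ≤ U → (U : Subgroup G) ≤ H := fun U hU u hu d hd =>
      congrArg Subtype.val ((hab U).is_comm.comm ⟨d, hU hd⟩ ⟨u, hu⟩)
    have hSH := hle S inf_le_left
    have hTH := hle T inf_le_right
    obtain ⟨Q, hQ⟩ := (R.isPGroup'.comap_subtype (K := H)).exists_le_sylow
    obtain ⟨h, hh⟩ := MulAction.exists_smul_eq H (S.subtype hSH) Q
    rw [← hh, Sylow.smul_subtype] at hQ
    have hD : MulAut.conj (h : G) • D = D := by
      ext x
      rw [CfsgLib.Solvable.mem_conj_smul_iff]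
      constructor
      · intro hx
        have e := Subgroup.mem_centralizer_iff.1 h.2 _ hx
        have : x = (h : G)⁻¹ * x * h := by
          calc x = (h : G) * ((h : G)⁻¹ * x * h) * (h : G)⁻¹ := by group
            _ = (h : G)⁻¹ * x * h * h * (h : G)⁻¹ := by rw [e]
            _ = _ := by group
        rwa [this]
      · intro hx
        have e := Subgroup.mem_centralizer_iff.1 h.2 _ hx
        have : (h : G)⁻¹ * x * h = x := by rw [mul_assoc, e]; group
        rwa [this]
    have hsub : (R : Subgroup G) ⊓ ((h : G) • T : Sylow p G) ≤ D := by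
      rintro x ⟨hxR, hxT⟩
      have hxH : x ∈ H := Sylow.smul_le hTH h hxT
      have hxS : x ∈ (((h : G) • S : Sylow p G) : Subgroup G) := hQ (x := (⟨x, hxH⟩ : H)) hxR
      rw [← hD, Subgroup.smul_inf]
      exact ⟨hxS, hxT⟩
    have heq := Subgroup.eq_of_le_of_card_ge hsub (hmin' R ((h : G) • T))
    exact heq.symm.le.trans inf_le_left
  obtain ⟨D, hD, T, rfl⟩ := key
  obtain ⟨g, rfl⟩ := MulAction.exists_smul_eq G S T
  refine ⟨g, le_bot_iff.1 ?_⟩
  rw [← hOp, Cfsg.Agent.S0010.result p]
  exact le_iInf hD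

end Cfsg.Agent.S0060
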