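import Cfsg.Statements.S0063
import Mathlib

set_option autoImplicit false
open Cfsg

namespace Cfsg.Agent.S0063

/-- A finite group of prime-power order p ^ m with m > 1 is nilpotent of class at most m - 1. -/
theorem result {G : Type*} [Group G] [Finite G] (p m : ℕ) [Fact p.Prime]
    (hG : Nat.card G = p ^ m) (hm : 1 < m) : Group.nilpotencyClass G ≤ m - 1 := by
  have key : ∀ (k : ℕ) (H : Type u_1) [Group H] [Finite H], Nat.card H = p ^ k → 1 < k →
      Group.nilpotencyClass H ≤ k - 1 := by
    intro k
    induction k using Nat.strong_induction_on with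
    | _ k ih =>
    intro H _ _ hH hk
    have hpg : IsPGroup p H := IsPGroup.of_card hH
    haveI := hpg.isNilpotent
    haveI : Nontrivial H := by
      rw [← Finite.one_lt_card_iff_nontrivial, hH]
      exact Nat.one_lt_pow (by omega) (Fact.out : p.Prime).one_lt
    rw [Group.nilpotencyClass_eq_quotient_center_plus_one]
    obtain ⟨j, hj⟩ := IsPGroup.iff_card.1 (hpg.to_quotient (Subgroup.center H))
    obtain ⟨i, hi⟩ := IsPGroup.iff_card.1 (hpg.to_subgroup (Subgroup.center H))
    have hsum : k = j + i := by
      apply Nat.pow_right_injective (Fact.out : p.Prime).two_le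
      show p ^ k = p ^ (j + i)
      rw [← hH, pow_add, ← hj, ← hi]
      exact Subgroup.card_eq_card_quotient_mul_card_subgroup _
    have hi0 : i ≠ 0 := by
      rintro rfl
      rw [pow_zero, Subgroup.card_eq_one] at hi
      exact Group.IsNilpotent.center_ne_bot (G := H) hi
    by_cases hj1 : j ≤ 1
    · rcases Nat.le_one_iff_eq_zero_or_eq_one.1 hj1 with rfl | rfl
      · haveI : Subsingleton (H ⧸ Subgroup.center H) := by
          rw [← Finite.card_le_one_iff_subsingleton, hj, pow_zero]
        rw [Group.nilpotencyClass_zero_iff_subsingleton.2 inferInstance]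
        omega
      · haveI := isCyclic_of_prime_card (p := p) (α := H ⧸ Subgroup.center H) (by rw [hj, pow_one])
        have hcomm := MonoidHom.isMulCommutative_of_isCyclic_of_ker_le_center (QuotientGroup.mk' (Subgroup.center H)) (by simp)
        have h1 : Group.nilpotencyClass H ≤ 1 := Group.IsNilpotent.nilpotencyClass_le_one_iff.2 hcomm
        rw [Group.nilpotencyClass_eq_quotient_center_plus_one] at h1
        omega
    · have := ih j (by omega) (H ⧸ Subgroup.center H) hj (by omega)
      omega
  exact key m G hG hm

end Cfsg.Agent.S0063
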