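import Cfsg.Statements.S0067
import Mathlib
import Cfsg.Agent.BaerSuzuki.Basic
import Cfsg.Agent.Fitting.Join
import Cfsg.Agent.LocalP.Basic

set_option autoImplicit false
open Pointwise
open Cfsg

namespace Cfsg.Agent.S0067

open scoped Pointwise
/-- A `p`-subgroup lies in a normal Sylow `p`-subgroup. -/
theorem le_of_normal_sylow {J : Type*} [Group J] [Finite J] {p : ℕ} [Fact p.Prime] {X : Subgroup J}
    (hX : IsPGroup p X) (S : Sylow p J) [(S : Subgroup J).Normal] : X ≤ S := by
  obtain ⟨T, hT⟩ := hX.exists_le_sylow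
  haveI := Sylow.unique_of_normal S inferInstance
  rwa [Subsingleton.elim T S] at hT

/-- If the join of a subgroup A with each of its conjugates is nilpotent, then A is subnormal in the finite group and contained in the Fitting subgroup. -/
theorem result {G : Type*} [Group G] [Finite G] (A : Subgroup G)
    (h : ∀ g : G, Group.IsNilpotent (A ⊔ MulAut.conj g • A : Subgroup G)) : A.IsSubnormal ∧ A ≤ Cfsg.fittingSubgroup G := by
  classical
  have hAn : Group.IsNilpotent A := by
    haveI := h 1
    exact Group.nilpotent_of_mulEquiv (Subgroup.subgroupOfEquivOfLe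
      (le_sup_left : A ≤ A ⊔ MulAut.conj (1 : G) • A))
  have hle : A ≤ Cfsg.fittingSubgroup G := by
    rw [← Subgroup.relIndex_eq_one]
    by_contra hne
    obtain ⟨p, hp, hpd⟩ := Nat.exists_prime_and_dvd hne
    haveI := Fact.mk hp
    obtain ⟨P⟩ : Nonempty (Sylow p A) := inferInstance
    set X := (P : Subgroup A).map A.subtype with hX
    have hXA : X ≤ A := Subgroup.map_subtype_le _
    have hXp : IsPGroup p X := P.isPGroup'.map _
    have hsub : X ≤ Cfsg.pCore p G := by
      refine CfsgLib.BaerSuzuki.subgroup_le_pCore X fun g => ?_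
      set J := A ⊔ MulAut.conj g • A with hJ
      haveI : Group.IsNilpotent J := h g
      obtain ⟨S⟩ : Nonempty (Sylow p J) := inferInstance
      haveI : (S : Subgroup J).Normal :=
        Sylow.normal_of_normalizerCondition Group.normalizerCondition_of_isNilpotent S
      have h1 : X ≤ J := hXA.trans le_sup_left
      have h2 : X.map (MulAut.conj g).toMonoidHom ≤ J :=
        le_trans (Subgroup.map_mono hXA) le_sup_right
      have h3 : X.subgroupOf J ≤ S :=
        le_of_normal_sylow (hXp.comap_of_injective J.subtype J.subtype_injective) S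
      have h4 : (X.map (MulAut.conj g).toMonoidHom).subgroupOf J ≤ S :=
        le_of_normal_sylow ((hXp.map _).comap_of_injective J.subtype J.subtype_injective) S
      refine ((S.isPGroup'.map J.subtype)).to_le (sup_le ?_ ?_)
      · exact fun x hx => ⟨⟨x, h1 hx⟩, h3 hx, rfl⟩
      · exact fun x hx => ⟨⟨x, h2 hx⟩, h4 hx, rfl⟩
    have hpF : X ≤ Cfsg.fittingSubgroup G := hsub.trans
      (CfsgLib.Fitting.pGroup_le_fittingSubgroup inferInstance CfsgLib.LocalP.isPGroup_pCore)
    have hPle : (P : Subgroup A) ≤ (Cfsg.fittingSubgroup G).subgroupOf A :=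
      fun x hx => hpF ⟨x, hx, rfl⟩
    exact P.not_dvd_index (hpd.trans (Subgroup.index_dvd_of_le hPle))
  refine ⟨?_, hle⟩
  haveI := CfsgLib.Fitting.fittingSubgroup_isNilpotent G
  exact Subgroup.IsSubnormal.trans hle (CfsgLib.Fitting.isSubnormal_of_isNilpotent _)
    (CfsgLib.Fitting.fittingSubgroup_normal G).isSubnormal

end Cfsg.Agent.S0067
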