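import Cfsg.Statements.S0068

import Cfsg.Agent.Frobenius.Complement
set_option autoImplicit false
open Cfsg

namespace Cfsg.Agent.S0068

open CfsgLib.Frobenius


/-- Frobenius complements of even order: if H complements a nontrivial normal subgroup K, each nonidentity element of H has trivial centraliser in K, and H has even order, then H contains a unique involution s, K is abelian, and s inverts every element of K. -/
theorem result {G : Type*} [Group G] [Finite G] (K H : Subgroup G) [K.Normal]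
    (hc : Subgroup.IsComplement' K H) (hK : K ≠ ⊥) (hfpf : ∀ h ∈ H, h ≠ 1 → K ⊓ Subgroup.centralizer {h} = ⊥)
    (heven : 2 ∣ Nat.card H) :
    (∃ s ∈ H, orderOf s = 2 ∧ (∀ t ∈ H, orderOf t = 2 → t = s) ∧ ∀ k ∈ K, s * k * s⁻¹ = k⁻¹) ∧ IsMulCommutative K := by
  have hφ := FPF.conj_fpf_of_centralizer (H := H) hfpf
  have : Nontrivial K := (Subgroup.nontrivial_iff_ne_bot K).2 hK
  have := Fact.mk Nat.prime_two
  obtain ⟨s, hs⟩ := exists_prime_orderOf_dvd_card' 2 heven
  have aux : ∀ x : H, orderOf x = 2 → x ≠ 1 ∧ x * x = 1 := fun x hx =>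
    ⟨by rintro rfl; simp at hx, by rw [← pow_two, ← hx]; exact pow_orderOf_eq_one x⟩
  refine ⟨⟨s, s.2, (Subgroup.orderOf_coe s).trans hs, fun t ht ht2 => ?_, fun k hk => ?_⟩, ⟨⟨?_⟩⟩⟩
  · obtain ⟨h1, h2⟩ := aux ⟨t, ht⟩ (by rw [← Subgroup.orderOf_coe]; exact ht2)
    exact congrArg Subtype.val (FPF.involution_unique hφ h1 h2 (aux s hs).1 (aux s hs).2)
  · have h := FPF.involution_inv hφ (aux s hs).1 (aux s hs).2 ⟨k, hk⟩
    exact (MulAut.conjNormal_apply (s : G) (⟨k, hk⟩ : K)).symm.trans (congrArg Subtype.val h)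
  · exact FPF.comm_of_even hφ heven

end Cfsg.Agent.S0068
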