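import Cfsg.Statements.S3379

set_option autoImplicit false
open Cfsg
open scoped commutatorElement

namespace Cfsg.Agent.S3379



/-- Let G be a finite group all of whose Sylow subgroups are cyclic. Then G is generated by two elements x and y of coprime orders n and m with x⁻¹yx = y^r, where gcd(r − 1, m) = 1 and r^n ≡ 1 (mod m). -/
theorem result {G : Type*} [Group G] [Finite G]
    (hZ : ∀ (p : ℕ) [Fact p.Prime] (P : Sylow p G), IsCyclic (P : Subgroup G)) :
    ∃ (x y : G) (n m r : ℕ), Subgroup.closure {x, y} = ⊤ ∧ orderOf x = n ∧ orderOf y = m ∧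
      x⁻¹ * y * x = y ^ r ∧ Nat.Coprime (r - 1) m ∧ Nat.Coprime n m ∧ 1 ≤ r ∧ r ^ n % m = 1 % m := by
  classical
  have hZG : IsZGroup G := ⟨fun p hp P => @hZ p ⟨hp⟩ P⟩
  have hC : IsCyclic (commutator G) := IsZGroup.isCyclic_commutator G
  obtain ⟨H, hH⟩ := Subgroup.exists_right_complement'_of_coprime hZG.coprime_commutator_index
  have hQ : IsCyclic (G ⧸ commutator G) := IsZGroup.isCyclic_abelianization
  have hHc : IsCyclic H :=
    isCyclic_of_surjective _ (hH.symm.QuotientMulEquiv).surjective
  obtain ⟨⟨y, hy⟩, hygen⟩ := hC.exists_generator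
  obtain ⟨⟨x, hx⟩, hxgen⟩ := hHc.exists_generator
  have hyz : Subgroup.zpowers y = commutator G := by
    refine le_antisymm (Subgroup.zpowers_le.2 hy) fun g hg => ?_
    obtain ⟨k, hk⟩ := hygen ⟨g, hg⟩
    exact ⟨k, congrArg Subtype.val hk⟩
  have hxz : Subgroup.zpowers x = H := by
    refine le_antisymm (Subgroup.zpowers_le.2 hx) fun g hg => ?_
    obtain ⟨k, hk⟩ := hxgen ⟨g, hg⟩
    exact ⟨k, congrArg Subtype.val hk⟩
  have hgen : Subgroup.closure {x, y} = ⊤ := by
    rw [eq_top_iff, ← hH.sup_eq_top, ← hyz, ← hxz, sup_le_iff, Subgroup.zpowers_le,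
      Subgroup.zpowers_le]
    exact ⟨Subgroup.subset_closure (by simp), Subgroup.subset_closure (by simp)⟩
  have hmem : x⁻¹ * y * x ∈ Subgroup.zpowers y := by
    rw [hyz]
    simpa using (inferInstance : (commutator G).Normal).conj_mem y hy x⁻¹
  rw [← mem_powers_iff_mem_zpowers] at hmem
  obtain ⟨r₀, hr₀ : y ^ r₀ = x⁻¹ * y * x⟩ := hmem
  set m := orderOf y with hm
  have hmpos : 0 < m := orderOf_pos y
  set r := r₀ + m with hrdef
  have hr : x⁻¹ * y * x = y ^ r := by
    rw [hrdef, pow_add, hm, pow_orderOf_eq_one, mul_one, hr₀]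
  have hr1 : 1 ≤ r := by omega
  -- the conjugation action on all powers of y
  have hconj : ∀ k : ℕ, x⁻¹ * y ^ k * x = (y ^ k) ^ r := by
    intro k
    have h : x⁻¹ * y ^ k * x = (x⁻¹ * y * x) ^ k := by
      have := map_pow (MulAut.conj x⁻¹).toMonoidHom y k
      simpa [MulAut.conj_apply] using this
    rw [h, hr, ← pow_mul, ← pow_mul, mul_comm]
  have hpw : ∀ n : ℕ, (x ^ n)⁻¹ * y * x ^ n = y ^ r ^ n := by
    intro n
    induction n with
    | zero => simp
    | succ n ih =>
      calc (x ^ (n + 1))⁻¹ * y * x ^ (n + 1) = x⁻¹ * ((x ^ n)⁻¹ * y * x ^ n) * x := by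
            rw [pow_succ, mul_inv_rev]; group
        _ = y ^ r ^ (n + 1) := by rw [ih, hconj, ← pow_mul, ← pow_succ]
  refine ⟨x, y, orderOf x, m, r, hgen, rfl, rfl, hr, ?_, ?_, hr1, ?_⟩
  · -- the derived subgroup is generated by y ^ (r - 1)
    set w := y ^ (r - 1) with hw
    have hwx : x⁻¹ * w * x = w ^ r := hconj _
    have hyw : x⁻¹ * y * x = y * w := by
      rw [hr, hw, ← pow_succ']; congr 1; omega
    have hxn : x⁻¹ ∈ Subgroup.normalizer (Subgroup.zpowers w : Set G) := by
      refine Subgroup.mem_normalizer_fintype (fun u hu => ?_)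
      obtain ⟨k, rfl⟩ := hu
      refine ⟨r * k, ?_⟩
      have h := map_zpow (MulAut.conj x⁻¹) w k
      simp only [MulAut.conj_apply, inv_inv] at h
      rw [inv_inv]
      show w ^ ((r : ℤ) * k) = x⁻¹ * w ^ k * x
      rw [h, hwx, ← zpow_natCast, ← zpow_mul]
    have hN : (Subgroup.zpowers w).Normal := by
      rw [← Subgroup.normalizer_eq_top_iff, eq_top_iff, ← hgen, Subgroup.closure_le]
      rintro g (rfl | rfl)
      · simpa using Subgroup.inv_mem _ hxn
      · have hc : Commute g w := (Commute.refl g).pow_right _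
        apply Subgroup.centralizer_le_normalizer
        rw [Subgroup.mem_centralizer_iff]
        rintro u ⟨k, rfl⟩
        exact ((hc.zpow_right k).eq).symm
    let q := QuotientGroup.mk' (Subgroup.zpowers w)
    have hqw : q w = 1 := (QuotientGroup.eq_one_iff w).2 (Subgroup.mem_zpowers w)
    have hc : Commute (q x) (q y) := by
      have h := congrArg q hyw
      simp only [map_mul, map_inv, hqw, mul_one] at h
      rw [mul_assoc, inv_mul_eq_iff_eq_mul] at h
      exact h.symm
    have hab : commutator G ≤ Subgroup.zpowers w := by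
      have hcen : ∀ a b : G, Commute (q a) (q b) := by
        have h1 : ∀ a : G, Commute (q a) (q x) ∧ Commute (q a) (q y) := by
          intro a
          have ha : a ∈ Subgroup.closure {x, y} := hgen ▸ Subgroup.mem_top a
          induction ha using Subgroup.closure_induction with
          | mem g hg =>
            rcases hg with rfl | rfl
            · exact ⟨Commute.refl _, hc⟩
            · exact ⟨hc.symm, Commute.refl _⟩
          | one => simp
          | mul a b _ _ iha ihb =>
            rw [map_mul]; exact ⟨iha.1.mul_left ihb.1, iha.2.mul_left ihb.2⟩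
          | inv a _ iha => rw [map_inv]; exact ⟨iha.1.inv_left, iha.2.inv_left⟩
        intro a b
        have ha : a ∈ Subgroup.closure {x, y} := hgen ▸ Subgroup.mem_top a
        induction ha using Subgroup.closure_induction with
        | mem g hg =>
          rcases hg with rfl | rfl
          · exact (h1 b).1.symm
          · exact (h1 b).2.symm
        | one => simp
        | mul a c _ _ iha ihc => rw [map_mul]; exact iha.mul_left ihc
        | inv a _ iha => rw [map_inv]; exact iha.inv_left
      rw [commutator_def, Subgroup.commutator_le]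
      intro a _ b _
      rw [← QuotientGroup.eq_one_iff]
      show q ⁅a, b⁆ = 1
      rw [map_commutatorElement, commutatorElement_eq_one_iff_commute]
      exact hcen a b
    have hzz : Subgroup.zpowers w = Subgroup.zpowers y :=
      le_antisymm (Subgroup.zpowers_le.2 ⟨((r - 1 : ℕ) : ℤ), by simp [hw]⟩)
        (hyz ▸ hab)
    have ho : orderOf w = m := by
      rw [← Nat.card_zpowers w, hzz, Nat.card_zpowers]
    rw [hw, orderOf_pow] at ho
    have hg : Nat.gcd m (r - 1) = 1 :=
      (Nat.div_eq_self.1 ho).resolve_left hmpos.ne'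
    exact Nat.coprime_comm.1 hg
  · have h := hZG.coprime_commutator_index
    rw [hH.symm.index_eq_card, ← hyz, ← hxz, Nat.card_zpowers, Nat.card_zpowers] at h
    exact h.symm
  · have h := hpw (orderOf x)
    rw [pow_orderOf_eq_one, inv_one, one_mul, mul_one] at h
    have := pow_eq_pow_iff_modEq.1 (h.symm.trans (pow_one y).symm)
    exact this

end Cfsg.Agent.S3379
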