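import Cfsg.Statements.S0069

import Cfsg.Agent.Frobenius.Complement
import Cfsg.Agent.S3379
set_option autoImplicit false
open Cfsg

namespace Cfsg.Agent.S0069

open CfsgLib.Frobenius

theorem exists_central {k A V : Type*} [Field k] [Group A] [Finite A] [Nontrivial A]
    [AddCommGroup V] [Module k V] [Nontrivial V] {ρ : Representation k A V}
    (hρ : ∀ a : A, a ≠ 1 → ∀ v : V, ρ a v = v → v = 0) :
    ∃ a : A, a ≠ 1 ∧ a ∈ Subgroup.center A := by
  by_cases h2 : 2 ∣ Nat.card A
  · have := Fact.mk Nat.prime_two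
    obtain ⟨s, hs⟩ := exists_prime_orderOf_dvd_card' 2 h2
    have hs1 : s ≠ 1 := by rintro rfl; simp at hs
    exact ⟨s, hs1, Linear.involution_mem_center hρ hs1
      (by rw [← pow_two, ← hs]; exact pow_orderOf_eq_one s)⟩
  have hZ := Linear.isZGroup_of_odd hρ h2
  obtain ⟨x, y, n, m, r, hgen, hx, hy, hxy, -, hnm, -, -⟩ :=
    Cfsg.Agent.S3379.result (G := A) fun p hp P => IsZGroup.isZGroup p hp.out P
  have hcen : ∀ a : A, Commute a x → Commute a y → a ∈ Subgroup.center A := by
    intro a hax hay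
    have : Subgroup.closure {x, y} ≤ Subgroup.centralizer {a} := by
      rw [Subgroup.closure_le]
      rintro u (rfl | rfl)
      · exact Subgroup.mem_centralizer_singleton_iff.2 hax.eq.symm
      · exact Subgroup.mem_centralizer_singleton_iff.2 hay.eq.symm
    rw [hgen] at this
    exact Subgroup.mem_center_iff.2 fun g =>
      Subgroup.mem_centralizer_singleton_iff.1 (this (Subgroup.mem_top g))
  by_cases hn : n = 1
  · have hx1 : x = 1 := orderOf_eq_one_iff.1 (hx.trans hn)
    have hy1 : y ≠ 1 := by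
      intro hy1
      rw [hx1, hy1, Set.pair_eq_singleton, Subgroup.closure_singleton_one] at hgen
      exact bot_ne_top hgen
    exact ⟨y, hy1, hcen y (hx1 ▸ Commute.one_right y) (Commute.refl y)⟩
  obtain ⟨p, hp, hpd⟩ := Nat.exists_prime_and_dvd hn
  have hbo : orderOf (x ^ (n / p)) = p := by
    rw [← hx] at hpd ⊢
    exact orderOf_pow_orderOf_div (orderOf_pos x).ne' hpd
  refine ⟨x ^ (n / p), fun e => by rw [e, orderOf_one] at hbo; exact hp.one_lt.ne hbo,
    hcen _ (Commute.pow_left (Commute.refl x) _) ?_⟩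
  refine Linear.commute_of_coprime hρ (hbo.symm ▸ hp) (by rw [hbo, hy]; exact hnm.coprime_dvd_left hpd) ?_
  have hN : x ∈ Subgroup.normalizer (Subgroup.zpowers y : Set A) := by
    rw [← Subgroup.inv_mem_iff]
    refine Subgroup.mem_normalizer_fintype fun u hu => ?_
    obtain ⟨i, rfl⟩ := hu
    show x⁻¹ * y ^ i * x⁻¹⁻¹ ∈ Subgroup.zpowers y
    rw [← conj_zpow, inv_inv, hxy]
    exact zpow_mem (pow_mem (Subgroup.mem_zpowers y) r) i
  exact (Subgroup.mem_normalizer_iff.1 (pow_mem hN _) y).1 (Subgroup.mem_zpowers y)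


/-- A Frobenius complement has nontrivial centre: if H ≠ 1 complements a nontrivial normal subgroup K and every nonidentity element of H has trivial centraliser in K, then the centre of H is nontrivial. -/
theorem result {G : Type*} [Group G] [Finite G] (K H : Subgroup G) [K.Normal]
    (hc : Subgroup.IsComplement' K H) (hK : K ≠ ⊥) (hH : H ≠ ⊥) (hfpf : ∀ h ∈ H, h ≠ 1 → K ⊓ Subgroup.centralizer {h} = ⊥) :
    Subgroup.center H ≠ ⊥ := by
  have : Nontrivial K := (Subgroup.nontrivial_iff_ne_bot K).2 hK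
  have : Nontrivial H := (Subgroup.nontrivial_iff_ne_bot H).2 hH
  obtain ⟨r, _, d, ρ, hd, hρ⟩ := FPF.exists_prime_rep (FPF.conj_fpf_of_centralizer hfpf)
  have : Nonempty (Fin d) := ⟨⟨0, hd⟩⟩
  obtain ⟨a, ha, hac⟩ := exists_central hρ
  intro h
  rw [h, Subgroup.mem_bot] at hac
  exact ha hac

end Cfsg.Agent.S0069
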