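import Cfsg.Statements.S0070
import Mathlib
import Cfsg.Agent.Fitting.Join

set_option autoImplicit false
open Cfsg

namespace Cfsg.Agent.S0070

/-- The Fitting subgroup commutes with passing to the Frattini quotient: the Fitting subgroup of G modulo its Frattini subgroup is the image of the Fitting subgroup of G. -/
theorem result {G : Type*} [Group G] [Finite G] :
    Cfsg.fittingSubgroup (G ⧸ frattini G) = (Cfsg.fittingSubgroup G).map (QuotientGroup.mk' (frattini G)) := by
  classical
  set f := QuotientGroup.mk' (frattini G) with hf
  have hfs := QuotientGroup.mk'_surjective (frattini G)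
  apply le_antisymm
  · haveI := CfsgLib.Fitting.fittingSubgroup_normal (G ⧸ frattini G)
    haveI := CfsgLib.Fitting.fittingSubgroup_isNilpotent (G ⧸ frattini G)
    set N := (Cfsg.fittingSubgroup (G ⧸ frattini G)).comap f with hN
    haveI : N.Normal := inferInstance
    have hnil : Group.IsNilpotent N := by
      refine ((Group.isNilpotent_of_finite_tfae (G := N)).out 0 3).2 ?_
      intro p hp P
      haveI := hp
      let g := f.subgroupComap (Cfsg.fittingSubgroup (G ⧸ frattini G))
      have hgs : Function.Surjective g := f.subgroupComap_surjective_of_surjective _ hfs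
      set Q := P.mapSurjective hgs with hQ
      haveI : (Q : Subgroup (Cfsg.fittingSubgroup (G ⧸ frattini G))).Characteristic := Q.characteristic_of_normal
        (Sylow.normal_of_normalizerCondition Group.normalizerCondition_of_isNilpotent Q)
      set P' := (P : Subgroup N).map N.subtype with hP'
      have hQmap : (Q : Subgroup (Cfsg.fittingSubgroup (G ⧸ frattini G))).map (Cfsg.fittingSubgroup (G ⧸ frattini G)).subtype = P'.map f := by
        rw [hQ, Sylow.coe_mapSurjective, hP', Subgroup.map_map, Subgroup.map_map]
        rfl
      haveI hn' : (P'.map f).Normal := hQmap ▸ inferInstance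
      set M := (P'.map f).comap f with hM
      haveI : M.Normal := inferInstance
      have hMN : M ≤ N := Subgroup.comap_mono (hQmap ▸ Subgroup.map_subtype_le _)
      have hPM : P' ≤ M := Subgroup.le_comap_map f P'
      have hPr : (P : Subgroup N) ≤ (Subgroup.inclusion hMN).range := fun x hx =>
        ⟨⟨(x : G), hPM ⟨x, hx, rfl⟩⟩, Subtype.ext rfl⟩
      set PM := P.comapOfInjective (Subgroup.inclusion hMN) (Subgroup.inclusion_injective hMN) hPr
      have hPMmap : (PM : Subgroup M).map M.subtype = P' := by
        have h1 : M.subtype = N.subtype.comp (Subgroup.inclusion hMN) := rfl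
        rw [Sylow.coe_comapOfInjective, h1, ← Subgroup.map_map, Subgroup.map_comap_eq_self hPr]
      have h2 := Sylow.normalizer_sup_eq_top PM
      rw [hPMmap, hM, Subgroup.comap_map_eq, QuotientGroup.ker_mk', ← sup_assoc,
        sup_eq_left.2 Subgroup.le_normalizer] at h2
      haveI hPn : P'.Normal := Subgroup.normalizer_eq_top_iff.1 (frattini_nongenerating h2)
      have h3 : (P : Subgroup N) = P'.subgroupOf N :=
        (Subgroup.comap_map_eq_self_of_injective N.subtype_injective _).symm
      rw [h3]
      exact inferInstanceAs (P'.comap N.subtype).Normal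
    rw [← Subgroup.map_comap_eq_self_of_surjective hfs (Cfsg.fittingSubgroup (G ⧸ frattini G))]
    exact Subgroup.map_mono (CfsgLib.Fitting.le_fittingSubgroup inferInstance hnil)
  · haveI := CfsgLib.Fitting.fittingSubgroup_normal G
    haveI := CfsgLib.Fitting.fittingSubgroup_isNilpotent G
    exact CfsgLib.Fitting.le_fittingSubgroup (Subgroup.Normal.map inferInstance f hfs)
      (Group.nilpotent_of_surjective (f.subgroupMap (Cfsg.fittingSubgroup G)) (f.subgroupMap_surjective _))

end Cfsg.Agent.S0070
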