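import Cfsg.Statements.S0073
import Mathlib
import Cfsg.Agent.Transfer.NormalPComplement
import Cfsg.Agent.PGroup.BurnsideCount

set_option autoImplicit false
open Cfsg

namespace Cfsg.Agent.S0073

/-- For a finite non-abelian simple group, either the cube of the least prime divisor of the order divides the order, or 12 does. -/
theorem result {G : Type*} [Group G] [Finite G] [IsSimpleGroup G] (hG : ∃ x y : G, x * y ≠ y * x) : (Nat.card G).minFac ^ 3 ∣ Nat.card G ∨ 12 ∣ Nat.card G := by
  classical
  obtain ⟨x₀, y₀, hxy⟩ := hG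
  haveI : Nontrivial G := ⟨⟨x₀, y₀, fun e => hxy (by rw [e])⟩⟩
  have h1 : Nat.card G ≠ 1 := (Finite.one_lt_card).ne'
  set p := (Nat.card G).minFac with hpdef
  have hp : p.Prime := Nat.minFac_prime h1
  haveI := Fact.mk hp
  by_cases h3 : p ^ 3 ∣ Nat.card G
  · exact Or.inl h3
  right
  obtain ⟨P⟩ : Nonempty (Sylow p G) := inferInstance
  have hPc := P.card_eq_multiplicity
  set n := (Nat.card G).factorization p with hn
  have hn1 : 1 ≤ n := hp.factorization_pos_of_dvd Nat.card_pos.ne' (Nat.minFac_dvd _)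
  have hn2 : n ≤ 2 := by
    by_contra hlt
    exact h3 ((pow_dvd_pow p (by omega : 3 ≤ n)).trans (Nat.ordProj_dvd _ _))
  have hnc : ¬ Cfsg.HasNormalPComplement p G := by
    intro h
    obtain ⟨N, hN, hc⟩ := CfsgLib.Transfer.exists_isComplement' h P
    rcases IsSimpleGroup.eq_bot_or_eq_top_of_normal N hN with hN' | hN'
    · subst hN'
      have h5 := hc.card_mul
      rw [Subgroup.card_bot, one_mul, hPc] at h5
      obtain ⟨z, hz⟩ : ∃ z : G, z ∈ Subgroup.center G ∧ z ≠ 1 := by
        haveI := (IsPGroup.of_card h5.symm).center_nontrivial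
        obtain ⟨z, hz⟩ := exists_ne (1 : Subgroup.center G)
        exact ⟨z, z.2, fun e => hz (Subtype.ext e)⟩
      rcases IsSimpleGroup.eq_bot_or_eq_top_of_normal (Subgroup.center G) inferInstance with hZ | hZ
      · exact hz.2 (Subgroup.mem_bot.1 (hZ ▸ hz.1))
      · exact hxy ((Subgroup.mem_center_iff.1 (hZ ▸ Subgroup.mem_top y₀)) x₀)
    · subst hN'
      have h5 := hc.card_mul
      rw [Subgroup.card_top, hPc] at h5
      have h6 : p ^ n = 1 := by
        refine Nat.eq_of_mul_eq_mul_left (Nat.card_pos (α := G)) ?_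
        rw [h5, mul_one]
      exact (Nat.one_lt_pow (by omega) hp.one_lt).ne' h6
  have hncyc : ¬ IsCyclic (P : Subgroup G) := fun h =>
    hnc (CfsgLib.Transfer.hasNormalPComplement_of_isCyclic_minFac rfl P h)
  have hn' : n = 2 := by
    by_contra hne
    refine hncyc (isCyclic_of_prime_card (p := p) ?_)
    rw [hPc, show n = 1 by omega, pow_one]
  obtain ⟨r, hr2, hr⟩ := (Nat.dvd_prime_pow hp).1 (hPc ▸ (frattini (P : Subgroup G)).index_dvd_card)
  have hr' : r = 2 := by
    by_contra hne
    refine hncyc (CfsgLib.PGroup.isCyclic_of_frattini_index (p := p) ?_)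
    rw [hr]
    exact (pow_dvd_pow p (by omega : r ≤ 1)).trans (pow_one p).dvd
  have haut := CfsgLib.PGroup.card_aut_dvd hPc hr
  rw [hn', hr', Finset.prod_range_succ, Finset.prod_range_one] at haut
  simp only [Nat.sub_self, mul_zero, pow_zero, one_mul, pow_one] at haut
  set C := Subgroup.centralizer ((P : Subgroup G) : Set G) with hC
  set N := Subgroup.normalizer ((P : Subgroup G) : Set G) with hN
  have hne : C.relIndex N ≠ 1 := fun e => hnc
    (CfsgLib.Transfer.hasNormalPComplement_of_normalizer_le_centralizer P (Subgroup.relIndex_eq_one.1 e))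
  obtain ⟨q, hq, hqd⟩ := Nat.exists_prime_and_dvd hne
  have hqG : q ∣ Nat.card G := hqd.trans ((C.relIndex_dvd_card N).trans N.card_subgroup_dvd_card)
  have hcomm : ∀ a b : (P : Subgroup G), a * b = b * a := by
    letI := IsPGroup.commGroupOfCardEqPrimeSq (p := p) (G := (P : Subgroup G)) (by rw [hPc, hn'])
    exact fun a b => mul_comm a b
  have hqp : q ≠ p := by
    rintro rfl
    refine P.not_dvd_index (hqd.trans ?_)
    have hPC : (P : Subgroup G) ≤ C := fun a ha => Subgroup.mem_centralizer_iff.2 fun b hb =>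
      congrArg Subtype.val (hcomm ⟨b, hb⟩ ⟨a, ha⟩)
    exact (Subgroup.relIndex_dvd_of_le_left N hPC).trans
      (Subgroup.relIndex_dvd_index_of_le Subgroup.le_normalizer)
  have hqgt : p < q := lt_of_le_of_ne (Nat.minFac_le_of_dvd hq.two_le hqG) (Ne.symm hqp)
  have hqaut : q ∣ (p ^ 2 - 1) * (p ^ 2 - p) := by
    refine hqd.trans (dvd_trans ?_ haut)
    have hker : (Subgroup.normalizerMonoidHom (P : Subgroup G)).ker = C.subgroupOf N :=
      Subgroup.normalizerMonoidHom_ker _
    show (C.subgroupOf N).index ∣ _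
    rw [← hker, Subgroup.index_ker]
    exact Subgroup.card_subgroup_dvd_card _
  have hp1 : 1 ≤ p := hp.one_lt.le
  have hq1 : q = p + 1 := by
    have e1 : p ^ 2 - 1 = (p + 1) * (p - 1) := by
      rw [Nat.sub_eq_iff_eq_add (Nat.one_le_pow _ _ hp.pos)]
      obtain ⟨m, hm⟩ := Nat.exists_eq_add_of_le hp1
      rw [hm, Nat.add_sub_cancel_left]
      ring
    have e2 : p ^ 2 - p = p * (p - 1) := by rw [Nat.mul_sub, mul_one, sq]
    rw [e1, e2] at hqaut
    have hnot : ¬ q ∣ p - 1 := fun hd => by
      have := Nat.le_of_dvd (by have := hp.two_le; omega) hd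
      omega
    rcases hq.dvd_mul.1 hqaut with hd | hd
    · rcases hq.dvd_mul.1 hd with hd | hd
      · have := Nat.le_of_dvd (by omega) hd; omega
      · exact absurd hd hnot
    · rcases hq.dvd_mul.1 hd with hd | hd
      · have := Nat.le_of_dvd hp.pos hd; omega
      · exact absurd hd hnot
  have hp2 : p = 2 := by
    rcases hp.eq_two_or_odd with h2 | h2
    · exact h2
    · have := hp.two_le; rcases hq.eq_two_or_odd with h4 | h4 <;> omega
  have h4 : 4 ∣ Nat.card G := by
    have h7 := Nat.ordProj_dvd (Nat.card G) p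
    rw [← hn, hn', hp2] at h7
    exact h7
  have h5 : 3 ∣ Nat.card G := by
    rw [hq1, hp2] at hqG
    exact hqG
  exact Nat.Coprime.mul_dvd_of_dvd_of_dvd (by norm_num : Nat.Coprime 4 3) h4 h5

end Cfsg.Agent.S0073
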