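import Cfsg.Statements.S0076
import Mathlib

set_option autoImplicit false
open Cfsg

namespace Cfsg.Agent.S0076

open scoped Pointwise
/-- Two P-invariant subsets of a Sylow p-subgroup P that are conjugate in G are conjugate under the normalizer of P. -/
theorem result {G : Type*} [Group G] [Finite G] {p : ℕ} [Fact p.Prime] (P : Sylow p G) (X Y : Set G) (hXP : X ⊆ P) (hYP : Y ⊆ P) (hX : ∀ x ∈ P, (fun y => x * y * x⁻¹) '' X = X) (hY : ∀ x ∈ P, (fun y => x * y * x⁻¹) '' Y = Y) (g : G) (hg : (fun y => g * y * g⁻¹) '' X = Y) : ∃ n ∈ Subgroup.normalizer (P : Set G), (fun y => n * y * n⁻¹) '' X = Y := by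
  classical
  let S : Subgroup G := Subgroup.normalizer Y
  have hmem : ∀ s, s ∈ S ↔ (fun y => s * y * s⁻¹) '' Y = Y := by
    intro s
    rw [Subgroup.mem_set_normalizer_iff]
    constructor
    · intro hs
      ext z
      constructor
      · rintro ⟨y, hy, rfl⟩; exact (hs y).1 hy
      · intro hz
        exact ⟨s⁻¹ * z * s, (hs _).2 (by simpa [mul_assoc] using hz), by simp [mul_assoc]⟩
    · intro hs z
      constructor
      · intro hz; exact hs.le ⟨z, hz, rfl⟩
      · intro hz
        obtain ⟨y, hy, he⟩ := hs.ge hz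
        obtain rfl : y = z := mul_left_cancel (mul_right_cancel he)
        exact hy
  have hP : (P : Subgroup G) ≤ S := fun x hx => (hmem x).2 (hY x hx)
  have hP' : ((g • P : Sylow p G) : Subgroup G) ≤ S := by
    intro x hx
    rw [Sylow.coe_subgroup_smul, Subgroup.mem_smul_pointwise_iff_exists] at hx
    obtain ⟨u, hu, rfl⟩ := hx
    rw [hmem]
    rw [← hg, Set.image_image]
    conv_rhs => rw [← hX u hu, Set.image_image]
    congr 1
    ext y
    simp [mul_assoc]
  obtain ⟨h, hh⟩ := MulAction.exists_smul_eq S ((g • P).subtype hP') (P.subtype hP)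
  rw [Sylow.smul_subtype] at hh
  have hh' : (h : G) • g • P = P := Sylow.subtype_injective hh
  refine ⟨h * g, ?_, ?_⟩
  · rw [← mul_smul, Sylow.smul_eq_iff_mem_normalizer] at hh'
    exact hh'
  · conv_rhs => rw [← (hmem h).1 h.2, ← hg, Set.image_image]
    congr 1
    ext y
    simp [mul_assoc]

end Cfsg.Agent.S0076
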