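import Cfsg.Statements.S0078
import Mathlib
import Cfsg.Agent.Eq.Def_Transfer
import Cfsg.Agent.Transfer.Control

set_option autoImplicit false
open Cfsg
open CfsgLib.Transfer

namespace Cfsg.Agent.S0078

/-- In a p-normal group, a Sylow p-subgroup P meets O^p(G) exactly where it meets O^p(V), for any subgroup V containing the normalizer of the centre of P. -/
theorem result {G : Type*} [Group G] [Finite G] {p : ℕ} [Fact p.Prime] (P : Sylow p G) (hn : ∀ Q : Sylow p G, (P : Subgroup G) ⊓ Subgroup.centralizer (P : Set G) ≤ (Q : Subgroup G) → (Q : Subgroup G) ⊓ Subgroup.centralizer (Q : Set G) = (P : Subgroup G) ⊓ Subgroup.centralizer (P : Set G)) (V : Subgroup G) (hV : Subgroup.normalizer (((P : Subgroup G) ⊓ Subgroup.centralizer (P : Set G) : Subgroup G) : Set G) ≤ V) : (P : Subgroup G) ⊓ Cfsg.pResidual p G = (P : Subgroup G) ⊓ (Cfsg.pResidual p V).map V.subtype := by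
  set Z := (P : Subgroup G) ⊓ Subgroup.centralizer (P : Set G) with hZ
  have hW : Cfsg.IsWeaklyClosed Z P := by
    refine ⟨inf_le_left, fun g hg => ?_⟩
    set R : Sylow p G := g⁻¹ • P with hR
    have hZR : Z ≤ (R : Subgroup G) := by
      intro z hz
      have h1 : g * z * g⁻¹ ∈ (P : Subgroup G) := hg (Subgroup.mem_map.mpr ⟨z, hz, rfl⟩)
      simpa [mul_assoc] using mem_smul_sylow g⁻¹ h1
    have hZZ := hn R hZR
    apply le_antisymm
    · rintro _ ⟨z, hz, rfl⟩
      have hz' : z ∈ (R : Subgroup G) ⊓ Subgroup.centralizer ((R : Subgroup G) : Set G) := hZZ.ge hz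
      have h1 : g * z * g⁻¹ ∈ (P : Subgroup G) := hg (Subgroup.mem_map.mpr ⟨z, hz, rfl⟩)
      refine ⟨h1, Subgroup.mem_centralizer_iff.mpr fun a ha => ?_⟩
      have h2 := Subgroup.mem_centralizer_iff.mp hz'.2 _ (mem_smul_sylow g⁻¹ ha)
      simp only [inv_inv] at h2
      show a * (g * z * g⁻¹) = g * z * g⁻¹ * a
      calc a * (g * z * g⁻¹) = g * (g⁻¹ * a * g * z) * g⁻¹ := by group
        _ = g * (z * (g⁻¹ * a * g)) * g⁻¹ := by rw [h2]
        _ = _ := by group
    · intro a ha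
      refine Subgroup.mem_map.mpr ⟨g⁻¹ * a * g, hZZ.le ⟨?_, ?_⟩, by simp [mul_assoc]⟩
      · have h4 := mem_smul_sylow g⁻¹ ha.1
        rw [inv_inv] at h4
        exact h4
      · refine Subgroup.mem_centralizer_iff.mpr fun b hb => ?_
        obtain ⟨c, hc, rfl⟩ := Subgroup.mem_map.mp hb
        have h2 := Subgroup.mem_centralizer_iff.mp ha.2 c hc
        show g⁻¹ * c * g⁻¹⁻¹ * (g⁻¹ * a * g) = g⁻¹ * a * g * (g⁻¹ * c * g⁻¹⁻¹)
        calc g⁻¹ * c * g⁻¹⁻¹ * (g⁻¹ * a * g) = g⁻¹ * (c * a) * g := by group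
          _ = g⁻¹ * (a * c) * g := by rw [h2]
          _ = _ := by group
  have hNV : Subgroup.normalizer (Z : Set G) ≤ V := hV
  have hPV : (P : Subgroup G) ≤ V :=
    ((Subgroup.le_centralizer_iff.mp (inf_le_right : Z ≤ _)).trans
      (Subgroup.centralizer_le_normalizer _)).trans hNV
  refine inf_pResidual_eq_of_control P V hPV ?_
  rw [commutator_inf_eq_of_central_weaklyClosed P Z inf_le_right hW]
  exact inf_le_left.trans (Subgroup.commutator_mono hNV hNV)

end Cfsg.Agent.S0078
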