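import Cfsg.Statements.S0079
import Cfsg.Agent.Transfer.NilpotentHall

set_option autoImplicit false
open Cfsg

namespace Cfsg.Agent.S0079

/-- A nilpotent Hall subgroup has a normal complement exactly when elements of it that are conjugate in the whole group are already conjugate inside it. -/
theorem result {G : Type*} [Group G] [Finite G] (H : Subgroup G) (hH : Group.IsNilpotent H) (hHall : Nat.Coprime (Nat.card H) H.index) : (∃ N : Subgroup G, N.Normal ∧ N.IsComplement' H) ↔ ∀ x ∈ H, ∀ y ∈ H, (∃ g : G, g * x * g⁻¹ = y) → ∃ h ∈ H, h * x * h⁻¹ = y := by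
  haveI := hH
  refine ⟨?_, fun h => CfsgLib.Transfer.exists_normal_complement_of_nilpotent_hall H hHall h⟩
  rintro ⟨N, hN, hc⟩ x hx y hy ⟨g, rfl⟩
  obtain ⟨⟨n, h⟩, hnh, -⟩ := Subgroup.IsComplement.existsUnique hc g
  refine ⟨h, h.2, ?_⟩
  set z := (h : G) * x * (h : G)⁻¹ with hz
  have hzH : z ∈ H := mul_mem (mul_mem h.2 hx) (inv_mem h.2)
  have hg : g * x * g⁻¹ = (n : G) * z * (n : G)⁻¹ := by
    rw [hz, ← show (n : G) * (h : G) = g from hnh]; group
  rw [hg] at hy
  have h1 : (n : G) * z * (n : G)⁻¹ * z⁻¹ ∈ N ⊓ H := by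
    refine ⟨?_, H.mul_mem hy (H.inv_mem hzH)⟩
    have := N.mul_mem n.2 (hN.conj_mem _ (N.inv_mem n.2) z)
    simpa [mul_assoc] using this
  rw [hc.disjoint.eq_bot, Subgroup.mem_bot] at h1
  rw [hg]
  exact (mul_inv_eq_one.mp h1).symm

end Cfsg.Agent.S0079
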