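import Cfsg.Statements.S0080
import Mathlib

set_option autoImplicit false
open Cfsg

namespace Cfsg.Agent.S0080

open scoped commutatorElement IsMulCommutative
/-- When the index of H is prime to the order of H/H', the focal subgroup of H is G' ∩ H, and H/(G' ∩ H) has a normal complement. -/
theorem result {G : Type*} [Group G] [Finite G] (H : Subgroup G) (h : Nat.Coprime H.index (⁅H, H⁆.relIndex H)) : Subgroup.focalSubgroup H = commutator G ⊓ H ∧ ∃ N : Subgroup G, N.Normal ∧ N ⊓ H = commutator G ⊓ H ∧ N ⊔ H = ⊤ := by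
  classical
  set F := Subgroup.focalSubgroupOf H with hF
  have hcop : (Nat.card (H ⧸ F)).Coprime H.index := by
    rw [← Subgroup.index_eq_card]
    refine h.symm.coprime_dvd_left (Subgroup.index_dvd_of_le ?_)
    exact fun x hx => Subgroup.commutator_le_focalSubgroup H hx
  let e := powCoprime hcop
  set T := Subgroup.transferFocal H with hT
  have hres : ∀ x : H, T x = (x : H ⧸ F) ^ H.index := Subgroup.transferFocal_eq_pow H
  have hker : T.ker ⊓ H = Subgroup.focalSubgroup H := by
    refine le_antisymm ?_ (le_inf ?_ (Subgroup.focalSubgroup_le H))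
    · rintro x ⟨hx, hxH⟩
      have h1 : e ((⟨x, hxH⟩ : H) : H ⧸ F) = 1 := (hres ⟨x, hxH⟩).symm.trans hx
      rw [← powCoprime_one hcop] at h1
      exact (QuotientGroup.eq_one_iff (⟨x, hxH⟩ : H)).1 (e.injective h1)
    · exact (Subgroup.focalSubgroup_le_commutator H).trans (Abelianization.commutator_subset_ker T)
  have hfoc : Subgroup.focalSubgroup H = commutator G ⊓ H := by
    refine le_antisymm (le_inf (Subgroup.focalSubgroup_le_commutator H) (Subgroup.focalSubgroup_le H)) ?_
    rw [← hker]
    exact inf_le_inf_right H (Abelianization.commutator_subset_ker T)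
  refine ⟨hfoc, T.ker, inferInstance, hker.trans hfoc, eq_top_iff.2 fun g _ => ?_⟩
  obtain ⟨x, hx⟩ := QuotientGroup.mk'_surjective F (e.symm (T g))
  have hxT : T x = T g := by
    rw [hres x, show (x : H ⧸ F) = e.symm (T g) from hx]
    exact e.apply_symm_apply (T g)
  rw [show g = (g * (x : G)⁻¹) * x by group]
  refine mul_mem (Subgroup.mem_sup_left ?_) (Subgroup.mem_sup_right x.2)
  rw [MonoidHom.mem_ker, map_mul, map_inv, hxT, mul_inv_cancel]

end Cfsg.Agent.S0080
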