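import Cfsg.Statements.S0082
import Mathlib
import Cfsg.Agent.Eq.Def_Transfer
import Cfsg.Agent.Transfer.Control
import Cfsg.Agent.Transfer.AbelianSylow

set_option autoImplicit false
open Cfsg
open CfsgLib.Transfer

namespace Cfsg.Agent.S0082

/-- With a cyclic Sylow p-subgroup, either there is a normal p-complement or the elements of order prime to p generate the whole group. -/
theorem result {G : Type*} [Group G] [Finite G] {p : ℕ} [Fact p.Prime] (P : Sylow p G) (hP : IsCyclic P) : Cfsg.HasNormalPComplement p G ∨ Cfsg.pResidual p G = ⊤ := by
  rcases normalizer_le_centralizer_or_eq_commutator P hP with h | h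
  · exact Or.inl (hasNormalPComplement_of_normalizer_le_centralizer P h)
  · right
    haveI : IsMulCommutative (P : Subgroup G) := IsCyclic.commutative
    rw [eq_top_iff, ← sylow_sup_pResidual P]
    refine sup_le ?_ le_rfl
    exact h.ge.trans ((inf_pResidual_eq_commutator_normalizer P).ge.trans inf_le_right)

end Cfsg.Agent.S0082
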