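import Cfsg.Statements.S0083
import Mathlib
import Cfsg.Agent.Eq.Def_Transfer
import Cfsg.Agent.Transfer.Control

set_option autoImplicit false
open Cfsg
open CfsgLib.Transfer

namespace Cfsg.Agent.S0083

/-- For an abelian Sylow p-subgroup P, a normal p-complement exists exactly when the normalizer of P is an internal direct product of P with some subgroup. -/
theorem result {G : Type*} [Group G] [Finite G] {p : ℕ} [Fact p.Prime] (P : Sylow p G) (hP : IsMulCommutative P) : Cfsg.HasNormalPComplement p G ↔ ∃ Q : Subgroup G, Q ≤ Subgroup.centralizer (P : Set G) ∧ Q ⊓ (P : Subgroup G) = ⊥ ∧ Q ⊔ (P : Subgroup G) = Subgroup.normalizer (P : Set G) := by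
  haveI := hP
  constructor
  · intro h
    set N := Subgroup.normalizer (P : Set G)
    have hPN : (P : Subgroup G) ≤ N := Subgroup.le_normalizer
    obtain ⟨K, hKn, hKc⟩ := exists_isComplement' (hasNormalPComplement_subgroup h N) (P.subtype hPN)
    rw [Sylow.coe_subtype] at hKc
    have hmapP : ((P : Subgroup G).subgroupOf N).map N.subtype = (P : Subgroup G) :=
      Subgroup.map_subgroupOf_eq_of_le hPN
    refine ⟨K.map N.subtype, ?_, ?_, ?_⟩
    · rintro _ ⟨k, hk, rfl⟩
      rw [Subgroup.mem_centralizer_iff]
      intro a ha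
      have hPn : ((P : Subgroup G).subgroupOf N).Normal := Subgroup.normal_in_normalizer
      exact congrArg Subtype.val (Subgroup.commute_of_normal_of_disjoint _ _ hPn hKn hKc.symm.disjoint
        ⟨a, hPN ha⟩ k ha hk).eq
    · conv_lhs => rw [← hmapP]
      rw [← Subgroup.map_inf _ _ _ N.subtype_injective, hKc.disjoint.eq_bot, Subgroup.map_bot]
    · conv_lhs => rw [← hmapP]
      rw [← Subgroup.map_sup, hKc.sup_eq_top, ← MonoidHom.range_eq_map, Subgroup.range_subtype]
  · rintro ⟨Q, hQ, -, hQP⟩
    refine hasNormalPComplement_of_normalizer_le_centralizer P ?_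
    change Subgroup.normalizer (P : Set G) ≤ Subgroup.centralizer (P : Set G)
    rw [← hQP]
    exact sup_le hQ (Subgroup.le_centralizer (P : Subgroup G))

end Cfsg.Agent.S0083
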