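import Cfsg.Statements.S0084
import Mathlib
import Cfsg.Agent.Eq.Def_Transfer
import Cfsg.Agent.Transfer.Control
import Cfsg.Agent.Transfer.AbelianSylow

set_option autoImplicit false
open Cfsg
open CfsgLib.Transfer

namespace Cfsg.Agent.S0084

/-- A group whose Sylow 2-subgroups are Klein four-groups and whose order is prime to 3 has a normal 2-complement. -/
theorem result {G : Type*} [Group G] [Finite G] (T : Sylow 2 G) (hT : IsKleinFour T) (h3 : ¬ 3 ∣ Nat.card G) : Cfsg.HasNormalPComplement 2 G := by
  haveI := hT
  haveI : IsMulCommutative (T : Subgroup G) := IsKleinFour.isMulCommutative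
  refine hasNormalPComplement_of_forall_not_dvd T (n := 2) (by simpa using hT.card_four) ?_
  intro q hq hq2 hqd j hj
  interval_cases j
  · show ¬ q ∣ 3
    intro h
    exact h3 (((Nat.prime_dvd_prime_iff_eq hq Nat.prime_three).mp h) ▸ hqd)
  · show ¬ q ∣ 2
    exact fun h => hq2 ((Nat.prime_dvd_prime_iff_eq hq Nat.prime_two).mp h)

end Cfsg.Agent.S0084
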