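import Cfsg.Statements.S0085
import Mathlib
import Cfsg.Agent.Eq.Def_Transfer
import Cfsg.Agent.Transfer.Control
import Cfsg.Agent.Transfer.AbelianSylow

set_option autoImplicit false
open Cfsg
open CfsgLib.Transfer

namespace Cfsg.Agent.S0085

theorem mul_comm_of_exponent_two' {M : Type*} [Group M] (he : ∀ x : M, x * x = 1) (a b : M) :
    a * b = b * a := by
  have hi : ∀ x : M, x⁻¹ = x := fun x => inv_eq_of_mul_eq_one_right (he x)
  calc a * b = (a * b)⁻¹ := (hi _).symm
    _ = b⁻¹ * a⁻¹ := mul_inv_rev a b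
    _ = b * a := by rw [hi, hi]

/-- A group whose Sylow 2-subgroups are elementary abelian of order 8 and whose order is prime to 3 and to 7 has a normal 2-complement. -/
theorem result {G : Type*} [Group G] [Finite G] (T : Sylow 2 G) (h8 : Nat.card T = 8) (he : ∀ x : T, x * x = 1) (h3 : ¬ 3 ∣ Nat.card G) (h7 : ¬ 7 ∣ Nat.card G) : Cfsg.HasNormalPComplement 2 G := by
  haveI : IsMulCommutative (T : Subgroup G) := ⟨⟨mul_comm_of_exponent_two' he⟩⟩
  refine hasNormalPComplement_of_forall_not_dvd T (n := 3) (by simpa using h8) ?_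
  intro q hq hq2 hqd j hj
  interval_cases j
  · show ¬ q ∣ 7
    intro h
    exact h7 (((Nat.prime_dvd_prime_iff_eq hq (by norm_num)).mp h) ▸ hqd)
  · show ¬ q ∣ 6
    intro h
    rcases (Nat.Prime.dvd_mul hq).mp (show q ∣ 2 * 3 from h) with h | h
    · exact hq2 ((Nat.prime_dvd_prime_iff_eq hq Nat.prime_two).mp h)
    · exact h3 (((Nat.prime_dvd_prime_iff_eq hq Nat.prime_three).mp h) ▸ hqd)
  · show ¬ q ∣ 4
    intro h
    exact hq2 ((Nat.prime_dvd_prime_iff_eq hq Nat.prime_two).mp (hq.dvd_of_dvd_pow (show q ∣ 2 ^ 2 from h)))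

end Cfsg.Agent.S0085
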