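import Cfsg.Statements.S0086
import Mathlib

set_option autoImplicit false
open Cfsg

namespace Cfsg.Agent.S0086

/-- A normal complement to a Sylow p-subgroup is exactly the set of elements of order prime to p. -/
theorem result {G : Type*} [Group G] [Finite G] {p : ℕ} [Fact p.Prime] (P : Sylow p G) (N : Subgroup G) [N.Normal] (hN : N.IsComplement' (P : Subgroup G)) (x : G) : x ∈ N ↔ Nat.Coprime (orderOf x) p := by
  constructor
  · intro hx
    have hd : orderOf x ∣ Nat.card N := N.orderOf_dvd_natCard hx
    rw [← hN.index_eq_card] at hd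
    exact Nat.Coprime.coprime_dvd_left hd ((Fact.out : p.Prime).coprime_iff_not_dvd.2 P.not_dvd_index).symm
  · intro hx
    rw [← QuotientGroup.eq_one_iff, ← orderOf_eq_one_iff]
    obtain ⟨n, hn⟩ := IsPGroup.iff_card.1 P.isPGroup'
    have h1 : orderOf (x : G ⧸ N) ∣ p ^ n := by
      rw [← hn, ← hN.symm.index_eq_card]
      exact orderOf_dvd_natCard _
    have h2 : orderOf (x : G ⧸ N) ∣ orderOf x := orderOf_map_dvd (QuotientGroup.mk' N) x
    exact Nat.eq_one_of_dvd_coprimes (hx.pow_right n) h2 h1

end Cfsg.Agent.S0086
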