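import Cfsg.Statements.S0088
import Mathlib
import Cfsg.Agent.TransferBasic.Central

set_option autoImplicit false
open Cfsg

namespace Cfsg.Agent.S0088

/-- An abelian Hall subgroup meets G' ∩ Z(G) trivially. -/
theorem result {G : Type*} [Group G] [Finite G] (H : Subgroup G) (hc : IsMulCommutative H) (hHall : Nat.Coprime (Nat.card H) H.index) : H ⊓ commutator G ⊓ Subgroup.center G = ⊥ := by
  rw [eq_bot_iff]
  rintro z ⟨⟨hzH, hzc⟩, hz⟩
  have h := CfsgLib.TransferBasic.central_mem_commutator_of_coprime H hHall z hz hzH hzc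
  have h0 : commutator H = ⊥ := by
    rw [commutator_eq_bot_iff_center_eq_top, eq_top_iff]
    exact fun a _ => Subgroup.mem_center_iff.2 fun b => hc.is_comm.comm b a
  rw [h0, Subgroup.mem_bot] at h
  exact congrArg Subtype.val h

end Cfsg.Agent.S0088
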