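import Cfsg.Statements.S0089
import Mathlib
import Cfsg.Agent.TransferBasic.Central

set_option autoImplicit false
open Cfsg

namespace Cfsg.Agent.S0089

/-- When all Sylow subgroups are abelian, the derived subgroup meets the centre trivially. -/
theorem result {G : Type*} [Group G] [Finite G] (h : ∀ p : ℕ, p.Prime → ∀ P : Sylow p G, IsMulCommutative P) : commutator G ⊓ Subgroup.center G = ⊥ := by
  rw [eq_bot_iff]
  intro z hz
  by_contra hz1
  obtain ⟨p, hp, hpd⟩ := Nat.exists_prime_and_dvd (mt orderOf_eq_one_iff.1 hz1)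
  haveI := Fact.mk hp
  have hw : orderOf (z ^ (orderOf z / p)) = p := orderOf_pow_orderOf_div (orderOf_pos z).ne' hpd
  have hwz := pow_mem hz (orderOf z / p)
  set w := z ^ (orderOf z / p)
  obtain ⟨P, hP⟩ := (IsPGroup.of_card (n := 1) (G := Subgroup.zpowers w)
    (by rw [Nat.card_zpowers, hw, pow_one])).exists_le_sylow
  have hwP : w ∈ (P : Subgroup G) := hP (Subgroup.mem_zpowers w)
  have hmem := CfsgLib.TransferBasic.central_mem_commutator_of_coprime (P : Subgroup G) P.card_coprime_index w hwz.2 hwP hwz.1
  have h0 : commutator (P : Subgroup G) = ⊥ := by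
    rw [commutator_eq_bot_iff_center_eq_top, eq_top_iff]
    exact fun a _ => Subgroup.mem_center_iff.2 fun b => (h p hp P).is_comm.comm b a
  rw [h0, Subgroup.mem_bot] at hmem
  have : w = 1 := congrArg Subtype.val hmem
  rw [this, orderOf_one] at hw
  exact hp.ne_one hw.symm

end Cfsg.Agent.S0089
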