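import Cfsg.Statements.S0090
import Mathlib
import Cfsg.Agent.Coprime.Basic

set_option autoImplicit false
open Cfsg

namespace Cfsg.Agent.S0090

open scoped commutatorElement
/-- An abelian normal Hall subgroup A splits as the internal direct product of G' ∩ A and Z(G) ∩ A, and [A, G] = G' ∩ A. -/
theorem result {G : Type*} [Group G] [Finite G] (A : Subgroup G) [A.Normal] (hc : IsMulCommutative A) (hHall : Nat.Coprime (Nat.card A) A.index) : ⁅A, (⊤ : Subgroup G)⁆ = commutator G ⊓ A ∧ (commutator G ⊓ A) ⊓ (Subgroup.center G ⊓ A) = ⊥ ∧ (commutator G ⊓ A) ⊔ (Subgroup.center G ⊓ A) = A := by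
  obtain ⟨H, hH⟩ := Subgroup.exists_right_complement'_of_coprime (N := A) hHall
  have hcop : (Nat.card H).Coprime (Nat.card A) := by
    rw [← hH.symm.index_eq_card]
    exact hHall.symm
  have hHA : H ≤ Subgroup.normalizer (A : Set G) := by rw [Subgroup.normalizer_eq_top]; exact le_top
  set N := ⁅A, (⊤ : Subgroup G)⁆ with hN
  have hNA : N ≤ A := Subgroup.commutator_le_left A ⊤
  haveI hn : (N ⊔ H).Normal := by
    rw [← Subgroup.normalizer_eq_top_iff, eq_top_iff, ← hH.sup_eq_top, sup_le_iff]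
    refine ⟨fun a ha => ?_, le_sup_right.trans Subgroup.le_normalizer⟩
    refine CfsgLib.Coprime.le_normalizer_of_conj_mem (A := A) (G := N ⊔ H) ?_ ha
    intro b hb g hg
    have h1 : b * g * b⁻¹ * g⁻¹ ∈ N := by
      have := Subgroup.commutator_mem_commutator hb (Subgroup.mem_top g)
      rwa [commutatorElement_def] at this
    have h2 := mul_mem (Subgroup.mem_sup_left (T := H) h1) hg
    rwa [inv_mul_cancel_right] at h2
  have hG'NH : commutator G ≤ N ⊔ H := by
    rw [commutator_def, Subgroup.commutator_le]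
    intro x _ y _
    rw [← QuotientGroup.eq_one_iff, ← QuotientGroup.mk'_apply, map_commutatorElement,
      commutatorElement_eq_one_iff_mul_comm]
    have hsurj : ∀ z : G, ∃ a ∈ A, QuotientGroup.mk' (N ⊔ H) z = QuotientGroup.mk' (N ⊔ H) a := by
      intro z
      obtain ⟨⟨a, h⟩, e⟩ := hH.2 z
      simp only at e
      subst e
      refine ⟨a, a.2, ?_⟩
      rw [map_mul, mul_eq_left, QuotientGroup.mk'_apply, QuotientGroup.eq_one_iff]
      exact Subgroup.mem_sup_right h.2
    obtain ⟨a, ha, ea⟩ := hsurj x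
    obtain ⟨b, hb, eb⟩ := hsurj y
    rw [ea, eb, ← map_mul, ← map_mul]
    exact congrArg _ (congrArg Subtype.val (hc.is_comm.comm (⟨a, ha⟩ : A) ⟨b, hb⟩))
  have hG'A : commutator G ⊓ A = N := by
    refine le_antisymm ?_ (le_inf ?_ hNA)
    · rintro x ⟨hx, hxA⟩
      have h1 := hG'NH hx
      rw [← SetLike.mem_coe, Subgroup.normal_mul] at h1
      obtain ⟨n, hn, h, hh, rfl⟩ := Set.mem_mul.1 h1
      have hA : h ∈ A := by
        have := mul_mem (inv_mem (hNA hn)) hxA
        rwa [inv_mul_cancel_left] at this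
      rw [Subgroup.disjoint_def.1 hH.disjoint hA hh, mul_one]
      exact hn
    · rw [commutator_def]; exact Subgroup.commutator_mono le_top le_rfl
  -- `[A, G] = [A, H]`
  have hAH : N = ⁅A, H⁆ := by
    refine le_antisymm ?_ (Subgroup.commutator_mono le_rfl le_top)
    rw [hN, Subgroup.commutator_le]
    intro a ha g _
    obtain ⟨⟨b, h⟩, e⟩ := hH.2 g
    simp only at e
    subst e
    have hcab : ∀ u v : G, u ∈ A → v ∈ A → u * v = v * u := fun u v hu hv =>
      congrArg Subtype.val (hc.is_comm.comm (⟨u, hu⟩ : A) ⟨v, hv⟩)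
    have h1 : ⁅a, (h : G)⁆ ∈ A := hNA (Subgroup.commutator_mem_commutator ha (Subgroup.mem_top _))
    have h2 : ⁅a, (b : G) * h⁆ = ⁅a, (h : G)⁆ := by
      have e1 : ⁅a, (b : G) * h⁆ = ⁅a, (b : G)⁆ * ((b : G) * ⁅a, (h : G)⁆ * (b : G)⁻¹) := by
        simp only [commutatorElement_def]; group
      rw [e1, commutatorElement_eq_one_iff_mul_comm.2 (hcab a b ha b.2), one_mul,
        hcab b _ b.2 h1, mul_inv_cancel_right]
    rw [h2]
    exact Subgroup.commutator_mem_commutator ha h.2
  have hZ : Subgroup.center G ⊓ A = A ⊓ Subgroup.centralizer (H : Set G) := by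
    refine le_antisymm (fun x hx => ⟨hx.2, Subgroup.mem_centralizer_iff.2 fun y _ =>
      Subgroup.mem_center_iff.1 hx.1 y⟩) ?_
    rintro x ⟨hxA, hxH⟩
    refine ⟨Subgroup.mem_center_iff.2 fun g => ?_, hxA⟩
    obtain ⟨⟨b, h⟩, e⟩ := hH.2 g
    simp only at e
    subst e
    rw [mul_assoc, Subgroup.mem_centralizer_iff.1 hxH h h.2, ← mul_assoc,
      show (b : G) * x = x * b from congrArg Subtype.val (hc.is_comm.comm b ⟨x, hxA⟩), mul_assoc]
  refine ⟨hG'A.symm, ?_, ?_⟩
  · rw [hG'A, hAH, hZ, eq_bot_iff]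
    rintro x ⟨h1, -, h2⟩
    exact (CfsgLib.Coprime.commutator_inf_centralizer_eq_bot hc hHA hcop).le ⟨h1, h2⟩
  · rw [hG'A, hAH, hZ]
    exact CfsgLib.Coprime.commutator_sup_centralizer_of_comm hc hHA hcop

end Cfsg.Agent.S0090
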