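import Cfsg.Statements.S0091
import Mathlib

set_option autoImplicit false
open Cfsg

namespace Cfsg.Agent.S0091

open scoped commutatorElement
/-- If a nontrivial Sylow p-subgroup controls its own fusion then it is not contained in the derived subgroup. -/
theorem result {G : Type*} [Group G] [Finite G] {p : ℕ} [Fact p.Prime] (P : Sylow p G) (hp : p ∣ Nat.card G) (h : ∀ x ∈ P, ∀ y ∈ P, (∃ g : G, g * x * g⁻¹ = y) → ∃ z ∈ P, z * x * z⁻¹ = y) : ¬ (P : Subgroup G) ≤ commutator G := by
  intro hle
  have h1 := Subgroup.commutator_inf_eq_focalSubgroup (P := P)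
  rw [inf_eq_right.2 hle] at h1
  have h2 : Subgroup.focalSubgroup (P : Subgroup G) ≤ ⁅(P : Subgroup G), (P : Subgroup G)⁆ := by
    rw [Subgroup.focalSubgroup_def, Subgroup.closure_le]
    rintro g ⟨hg, x, hx, u, rfl⟩
    have h3 : u * x⁻¹ * u⁻¹ ∈ (P : Subgroup G) := by
      have h' := mul_mem (inv_mem hx) hg
      simpa [commutatorElement_def, mul_assoc] using h'
    obtain ⟨z, hz, hzx⟩ := h x⁻¹ (inv_mem hx) _ h3 ⟨u, rfl⟩
    have : ⁅x, u⁆ = ⁅x, z⁆ := by
      calc ⁅x, u⁆ = x * (u * x⁻¹ * u⁻¹) := by group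
        _ = x * (z * x⁻¹ * z⁻¹) := by rw [hzx]
        _ = ⁅x, z⁆ := by group
    rw [this]
    exact Subgroup.commutator_mem_commutator hx hz
  haveI : Nontrivial (P : Subgroup G) := (Subgroup.nontrivial_iff_ne_bot _).2 (P.ne_bot_of_dvd_card hp)
  haveI : Group.IsNilpotent (P : Subgroup G) := P.isPGroup'.isNilpotent
  haveI : Group.IsSolvable (P : Subgroup G) := inferInstance
  have h4 := Group.IsSolvable.commutator_lt_top_of_nontrivial (P : Subgroup G)
  apply h4.ne
  apply Subgroup.map_injective (Subgroup.subtype_injective (P : Subgroup G))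
  rw [← MonoidHom.range_eq_map, Subgroup.range_subtype]
  refine le_antisymm (Subgroup.map_subtype_le _) ?_
  rw [commutator_def, Subgroup.map_commutator, ← MonoidHom.range_eq_map, Subgroup.range_subtype]
  exact h1.le.trans h2

end Cfsg.Agent.S0091
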