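import Cfsg.Statements.S0092
import Cfsg.Agent.Eq.Def_Transfer
import Cfsg.Agent.Transfer.AbelianFixed
import Cfsg.Agent.Transfer.NormalPComplement
import Cfsg.Agent.Solvable.SchurZassenhaus

set_option autoImplicit false
open Cfsg
open scoped Pointwise

namespace Cfsg.Agent.S0092

/-- If the Sylow p-subgroups of O^p(G) are abelian then G splits over O^p(G). -/
theorem result {G : Type*} [Group G] [Finite G] {p : ℕ} [Fact p.Prime] (h : ∀ Q : Sylow p (Cfsg.pResidual p G), IsMulCommutative Q) : ∃ K : Subgroup G, K.IsComplement' (Cfsg.pResidual p G) := by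
  set R := Cfsg.pResidual p G with hR
  haveI hRn : R.Normal := CfsgLib.CharP.pResidual_normal
  obtain ⟨Q0⟩ : Nonempty (Sylow p R) := inferInstance
  haveI hQ0c := h Q0
  set Q := (Q0 : Subgroup R).map R.subtype with hQ
  set N := Subgroup.normalizer (Q : Set G) with hN
  have hFrat : N ⊔ R = ⊤ := Q0.normalizer_sup_eq_top
  have hQR : Q ≤ R := Subgroup.map_subtype_le _
  have hQN : Q ≤ N := Subgroup.le_normalizer
  -- no element of `Q` is centralized by `R ⊓ N`
  have hfree : ∀ z ∈ Q, (∀ m ∈ R ⊓ N, m * z = z * m) → z = 1 := by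
    rintro _ ⟨z, hz, rfl⟩ hc
    have hno : ∀ H : Subgroup R, H.Normal → H.index ≠ p := by
      intro H hH hidx
      have hle : Cfsg.pResidual p R ≤ H := CfsgLib.CharP.pResidual_le_of_isPGroup_quotient H
        (IsPGroup.of_card (n := 1) (by rw [← H.index_eq_card, hidx, pow_one]))
      have h1 : R ≤ H.map R.subtype := by
        conv_lhs => rw [hR]
        unfold Cfsg.pResidual
        rw [Subgroup.closure_le]
        intro g hg
        have hgR : g ∈ R := CfsgLib.CharP.mem_pResidual_of_coprime hg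
        exact ⟨⟨g, hgR⟩, hle (CfsgLib.CharP.mem_pResidual_of_coprime (by rwa [Subgroup.orderOf_mk])), rfl⟩
      have h2 : H = ⊤ := by
        rw [eq_top_iff]
        intro x _
        obtain ⟨y, hy, hyx⟩ := h1 x.2
        rwa [← Subtype.ext hyx]
      rw [h2, Subgroup.index_top] at hidx
      exact (Fact.out : p.Prime).ne_one hidx.symm
    have h3 := CfsgLib.Transfer.eq_one_of_fixed_by_normalizer' hno Q0 hz fun n hn => by
      apply Subtype.ext
      refine hc (n : G) ⟨n.2, Subgroup.mem_normalizer_fintype ?_⟩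
      rintro _ ⟨q, hq, rfl⟩
      exact ⟨n * q * n⁻¹, (Subgroup.mem_normalizer_iff.mp hn q).mp hq, rfl⟩
    rw [h3]; rfl
  set M := R ⊓ N with hM
  have hQM : Q ≤ M := le_inf hQR hQN
  set Q' := Q.subgroupOf M with hQ'
  haveI hQ'n : Q'.Normal := by
    constructor
    intro x hx m
    exact (Subgroup.mem_normalizer_iff.mp m.2.2 x).mp hx
  have hidxQ : ¬ p ∣ Q'.index := by
    intro hd
    have h1 : Q'.index ∣ (Q0 : Subgroup R).index := by
      have h2 : (Q0 : Subgroup R).index = Q.relIndex R := by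
        rw [Subgroup.relIndex, hQ, Subgroup.subgroupOf,
          Subgroup.comap_map_eq_self_of_injective R.subtype_injective]
      rw [h2, ← Subgroup.relIndex_mul_relIndex Q M R hQM inf_le_left]
      exact dvd_mul_right _ _
    exact Q0.not_dvd_index (hd.trans h1)
  have hcop : (Nat.card Q').Coprime Q'.index := by
    have hQ'p : IsPGroup p Q' :=
      (Q0.2.map R.subtype).comap_of_injective M.subtype M.subtype_injective
    obtain ⟨t, ht⟩ := IsPGroup.iff_card.mp hQ'p
    rw [ht]
    exact Nat.Coprime.pow_left t ((Fact.out : p.Prime).coprime_iff_not_dvd.mpr hidxQ)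
  obtain ⟨A', hA'⟩ := Subgroup.exists_right_complement'_of_coprime hcop
  set A := A'.map M.subtype with hA
  set L := N ⊓ Subgroup.normalizer (A : Set G) with hL
  have hAM : A ≤ M := Subgroup.map_subtype_le _
  have hAcop : (Nat.card A).Coprime p := by
    rw [hA, Subgroup.card_map_of_injective M.subtype_injective, ← hA'.symm.index_eq_card]
    exact (((Fact.out : p.Prime).coprime_iff_not_dvd.mpr hidxQ)).symm
  have hQp : IsPGroup p Q := Q0.2.map R.subtype
  -- Frattini argument
  have hNL : ∀ n ∈ N, ∃ q ∈ Q, q⁻¹ * n ∈ L := by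
    intro n hn
    have hnM : ∀ m ∈ M, n * m * n⁻¹ ∈ M := fun m hm =>
      ⟨hRn.conj_mem m hm.1 n, N.mul_mem (N.mul_mem hn hm.2) (N.inv_mem hn)⟩
    set B := (A.map (MulAut.conj n).toMonoidHom).subgroupOf M with hB
    have hBle : A.map (MulAut.conj n).toMonoidHom ≤ M := by
      rintro _ ⟨a, ha, rfl⟩
      exact hnM a (hAM ha)
    have hBcard : Nat.card B = Nat.card A' := by
      rw [hB, Nat.card_congr (Subgroup.subgroupOfEquivOfLe hBle).toEquiv,
        Subgroup.card_map_of_injective (MulAut.conj n).injective, hA,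
        Subgroup.card_map_of_injective M.subtype_injective]
    have hBQ : B.IsComplement' Q' := by
      refine Subgroup.isComplement'_of_coprime ?_ ?_
      · rw [hBcard, mul_comm]; exact hA'.card_mul
      · rw [hBcard, ← hA'.symm.index_eq_card]; exact hcop.symm
    obtain ⟨q, hq, hqe⟩ := CfsgLib.Solvable.exists_conj_of_isComplement' Q' hcop
      (Or.inl (by
        haveI : Group.IsSolvable (Q0 : Subgroup R) :=
          Group.isSolvable_of_comm (fun a b => mul_comm' a b)
        haveI : Group.IsSolvable Q := solvable_of_surjective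
          (MonoidHom.subgroupMap_surjective R.subtype (Q0 : Subgroup R))
        exact solvable_of_surjective (f := (Subgroup.subgroupOfEquivOfLe hQM).symm.toMonoidHom)
          (Subgroup.subgroupOfEquivOfLe hQM).symm.surjective))
      A' B hA' hBQ.symm
    refine ⟨q, hq, N.mul_mem (N.inv_mem (hQN hq)) hn, Subgroup.mem_normalizer_fintype ?_⟩
    intro a ha
    have h1 : (⟨n * a * n⁻¹, hnM a (hAM ha)⟩ : M) ∈ B := ⟨a, ha, rfl⟩
    rw [← hqe] at h1
    obtain ⟨a', ha', hae⟩ := h1
    refine ⟨a', ha', ?_⟩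
    have h2 : (q : G) * (a' : G) * (q : G)⁻¹ = n * a * n⁻¹ := congrArg Subtype.val hae
    calc ((a' : M) : G) = (q : G)⁻¹ * ((q : G) * a' * (q : G)⁻¹) * q := by group
      _ = (q : G)⁻¹ * n * a * ((q : G)⁻¹ * n)⁻¹ := by rw [h2]; group
  have hQL : Q ⊓ L = ⊥ := by
    rw [eq_bot_iff]
    intro z hz
    rw [Subgroup.mem_bot]
    refine hfree z hz.1 fun m hm => ?_
    obtain ⟨⟨q, a⟩, hqa, -⟩ := Subgroup.IsComplement.existsUnique hA' ⟨m, hm⟩
    have h1 : z * ((a : M) : G) * z⁻¹ * ((a : M) : G)⁻¹ ∈ A ⊓ Q := by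
      have haA : ((a : M) : G) ∈ A := ⟨a, a.2, rfl⟩
      refine ⟨A.mul_mem ((Subgroup.mem_normalizer_iff.mp hz.2.2 _).mp haA) (A.inv_mem haA), ?_⟩
      have h2 := Q.mul_mem hz.1
        ((Subgroup.mem_normalizer_iff.mp (a : M).2.2 _).mp (Q.inv_mem hz.1))
      simpa [mul_assoc] using h2
    have h3 : z * ((a : M) : G) * z⁻¹ * ((a : M) : G)⁻¹ = 1 :=
      CfsgLib.Transfer.eq_one_of_mem_pGroup_of_coprime hQp h1.2
        (Nat.Coprime.coprime_dvd_left (Subgroup.orderOf_dvd_natCard A h1.1) hAcop)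
    have haz : Commute ((a : M) : G) z := (mul_inv_eq_iff_eq_mul.mp (mul_inv_eq_one.mp h3)).symm
    obtain ⟨z', hz', hzz⟩ := hz.1
    obtain ⟨q', hq', hqq⟩ : ((q : M) : G) ∈ Q := q.2
    have hqz : Commute ((q : M) : G) z := by
      rw [← hzz, ← hqq]
      exact congrArg (Subtype.val ∘ Subtype.val)
        (mul_comm' (⟨q', hq'⟩ : (Q0 : Subgroup R)) ⟨z', hz'⟩)
    have hm' : m = ((q : M) : G) * ((a : M) : G) := (congrArg Subtype.val hqa).symm
    rw [hm']
    exact (hqz.mul_left haz).eq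
  obtain ⟨T0⟩ : Nonempty (Sylow p L) := inferInstance
  set T := (T0 : Subgroup L).map L.subtype with hT
  have hTp : IsPGroup p T := T0.2.map L.subtype
  refine ⟨T, ?_⟩
  -- trivial intersection
  have hinter : T ⊓ R = ⊥ := by
    rw [eq_bot_iff]
    intro x hx
    rw [Subgroup.mem_bot]
    have hxL : x ∈ L := Subgroup.map_subtype_le _ hx.1
    have hxM : x ∈ M := ⟨hx.2, hxL.1⟩
    obtain ⟨j, hj⟩ := IsPGroup.iff_orderOf.mp hTp ⟨x, hx.1⟩
    rw [Subgroup.orderOf_mk] at hj
    have h2 : (QuotientGroup.mk' Q') (⟨x, hxM⟩ : M) = 1 := by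
      rw [← orderOf_eq_one_iff]
      refine CfsgLib.Transfer.eq_one_of_coprime_of_dvd_pow (k := j) ?_
        ((orderOf_map_dvd _ _).trans (by rw [Subgroup.orderOf_mk, hj]))
      refine Nat.Coprime.coprime_dvd_left (orderOf_dvd_natCard _) ?_
      rw [← Subgroup.index_eq_card]
      exact ((Fact.out : p.Prime).coprime_iff_not_dvd.mpr hidxQ).symm
    have h4 : x ∈ Q ⊓ L := ⟨(QuotientGroup.eq_one_iff (⟨x, hxM⟩ : M)).mp h2, hxL⟩
    rw [hQL] at h4
    exact Subgroup.mem_bot.mp h4
  -- `T` covers the quotient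
  set π := QuotientGroup.mk' R with hπ
  have hsurj : Function.Surjective (π.comp L.subtype) := by
    intro y
    obtain ⟨g, rfl⟩ := QuotientGroup.mk'_surjective R y
    have hg : g ∈ (N : Set G) * (R : Set G) := by
      rw [← Subgroup.mul_normal, hFrat]; trivial
    obtain ⟨n, hn, r, hr, rfl⟩ := Set.mem_mul.mp hg
    obtain ⟨q, hq, hql⟩ := hNL n hn
    refine ⟨⟨q⁻¹ * n, hql⟩, ?_⟩
    show π (q⁻¹ * n) = π (n * r)
    rw [map_mul, map_mul, map_inv, (QuotientGroup.eq_one_iff q).mpr (hQR hq) |> fun e => (show π q = 1 from e),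
      (show π r = 1 from (QuotientGroup.eq_one_iff r).mpr hr)]
    simp
  have hcover : (T0 : Subgroup L).map (π.comp L.subtype) = ⊤ := by
    rw [← Subgroup.index_eq_one]
    obtain ⟨a, ha⟩ := CfsgLib.Transfer.exists_index_eq_pow_of_isPGroup_quotient
      (N := R) (CfsgLib.CharP.isPGroup_quotient_pResidual (G := G) (p := p) _ le_rfl)
    refine Nat.eq_one_of_dvd_coprimes (Nat.Coprime.pow_left a
      ((Fact.out : p.Prime).coprime_iff_not_dvd.mpr T0.not_dvd_index)) ?_
      (Subgroup.index_map_dvd _ hsurj)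
    rw [← ha, Subgroup.index_eq_card (H := R)]
    exact Subgroup.index_dvd_card _
  refine Subgroup.isComplement'_of_disjoint_and_mul_eq_univ (disjoint_iff.mpr hinter) ?_
  rw [Set.eq_univ_iff_forall]
  intro g
  have h1 : π g ∈ (T0 : Subgroup L).map (π.comp L.subtype) := hcover ▸ Subgroup.mem_top _
  obtain ⟨t, ht, hte⟩ := h1
  refine Set.mem_mul.mpr ⟨t, ⟨t, ht, rfl⟩, (t : G)⁻¹ * g, ?_, mul_inv_cancel_left _ _⟩
  exact (QuotientGroup.eq (s := R)).mp hte

end Cfsg.Agent.S0092
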