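import Cfsg.Statements.S0094
import Mathlib
import Cfsg.Agent.S0012

set_option autoImplicit false
open Cfsg

namespace Cfsg.Agent.S0094

open scoped commutatorElement
/-- In a special p-group every central element has order dividing p. -/
theorem result {P : Type*} [Group P] [Finite P] {p : ℕ} [Fact p.Prime] (h : Cfsg.IsSpecial p P) (z : P) (hz : z ∈ Subgroup.center P) : z ^ p = 1 := by
  obtain ⟨hpg, hphi, hder⟩ := h
  have hcent : ∀ x y : P, ⁅x, y⁆ ∈ Subgroup.center P := fun x y => by
    rw [← hder]; exact Subgroup.commutator_mem_commutator (Subgroup.mem_top x) (Subgroup.mem_top y)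
  have hkey : ∀ (x y : P) (n : ℕ), ⁅x ^ n, y⁆ = ⁅x, y⁆ ^ n := by
    intro x y n
    induction n with
    | zero => simp
    | succ n ih =>
      calc ⁅x ^ (n + 1), y⁆ = x * ⁅x ^ n, y⁆ * x⁻¹ * ⁅x, y⁆ := by rw [pow_succ']; group
        _ = x * ⁅x, y⁆ ^ n * x⁻¹ * ⁅x, y⁆ := by rw [ih]
        _ = ⁅x, y⁆ ^ (n + 1) := by
          rw [Subgroup.mem_center_iff.1 (pow_mem (hcent x y) n) x, pow_succ]; group
  have hgen : ∀ x y : P, ⁅x, y⁆ ^ p = 1 := by
    intro x y
    rw [← hkey]
    have hxp : x ^ p ∈ Subgroup.center P := by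
      rw [← hphi]; exact (Cfsg.Agent.S0012.result p hpg).2 x
    rw [commutatorElement_eq_one_iff_mul_comm]
    exact (Subgroup.mem_center_iff.1 hxp y).symm
  have hz' : z ∈ Subgroup.closure (commutatorSet P) := by rwa [← commutator_eq_closure, hder]
  have main : z ∈ Subgroup.center P ∧ z ^ p = 1 := by
    clear hz
    induction hz' using Subgroup.closure_induction with
    | mem w hw => obtain ⟨x, y, rfl⟩ := hw; exact ⟨hcent x y, hgen x y⟩
    | one => exact ⟨one_mem _, one_pow p⟩
    | mul a b _ _ ha hb =>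
      exact ⟨mul_mem ha.1 hb.1, by
        rw [Commute.mul_pow (Subgroup.mem_center_iff.1 hb.1 a), ha.2, hb.2, one_mul]⟩
    | inv a _ ha => exact ⟨inv_mem ha.1, by rw [inv_pow, ha.2, inv_one]⟩
  exact main.2

end Cfsg.Agent.S0094
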