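import Cfsg.Statements.S0096
import Mathlib

set_option autoImplicit false
open Cfsg

namespace Cfsg.Agent.S0096

open scoped commutatorElement
/-- For odd p, in a p-group of class at most two the elements of order dividing p generate a subgroup of exponent dividing p. -/
theorem result {P : Type*} [Group P] [Finite P] {p : ℕ} [Fact p.Prime] (hp : p ≠ 2) (hP : IsPGroup p P) (h2 : ⁅commutator P, (⊤ : Subgroup P)⁆ = ⊥) (g : P) (hg : g ∈ Subgroup.closure {x : P | x ^ p = 1}) : g ^ p = 1 := by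
  have hcent : ∀ a b : P, ⁅a, b⁆ ∈ Subgroup.center P := by
    intro a b
    have := Subgroup.commutator_eq_bot_iff_le_centralizer.1 h2
      (Subgroup.commutator_mem_commutator (Subgroup.mem_top a) (Subgroup.mem_top b) : ⁅a, b⁆ ∈ commutator P)
    rwa [Subgroup.coe_top, Subgroup.centralizer_univ] at this
  have hpow : ∀ (a b : P) (n : ℕ), ⁅b, a⁆ ^ n = ⁅b ^ n, a⁆ := by
    intro a b n
    induction n with
    | zero => simp
    | succ n ih =>
      calc ⁅b, a⁆ ^ (n + 1) = b * ⁅b, a⁆ ^ n * b⁻¹ * ⁅b, a⁆ := by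
            rw [Subgroup.mem_center_iff.1 (pow_mem (hcent b a) n) b, pow_succ]; group
        _ = ⁅b ^ (n + 1), a⁆ := by rw [ih, pow_succ']; group
  have hmul : ∀ (a b : P) (n : ℕ), (a * b) ^ n = a ^ n * b ^ n * ⁅b, a⁆ ^ n.choose 2 := by
    intro a b n
    induction n with
    | zero => simp
    | succ n ih =>
      have e : b ^ n * a = a * b ^ n * ⁅b, a⁆ ^ n := by
        rw [hpow]
        calc b ^ n * a = ⁅b ^ n, a⁆ * (a * b ^ n) := by group
          _ = _ := (Subgroup.mem_center_iff.1 (hcent _ _) _).symm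
      have hc : ∀ (m : ℕ) (w : P), ⁅b, a⁆ ^ m * w = w * ⁅b, a⁆ ^ m := fun m w =>
        (Subgroup.mem_center_iff.1 (pow_mem (hcent b a) m) w).symm
      rw [pow_succ, ih, Nat.choose_succ_succ', Nat.choose_one_right, pow_add]
      calc a ^ n * b ^ n * ⁅b, a⁆ ^ n.choose 2 * (a * b)
          = a ^ n * b ^ n * (⁅b, a⁆ ^ n.choose 2 * (a * b)) := by group
        _ = a ^ n * (b ^ n * a) * b * ⁅b, a⁆ ^ n.choose 2 := by rw [hc]; group
        _ = a ^ n * (a * b ^ n) * (⁅b, a⁆ ^ n * b) * ⁅b, a⁆ ^ n.choose 2 := by rw [e]; group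
        _ = _ := by rw [hc n b, pow_succ, pow_succ]; group
  have hdvd : p ∣ p.choose 2 :=
    (Fact.out : p.Prime).dvd_choose_self (by norm_num) (lt_of_le_of_ne (Fact.out : p.Prime).two_le (Ne.symm hp))
  induction hg using Subgroup.closure_induction with
  | mem w hw => exact hw
  | one => exact one_pow p
  | mul a b _ _ ha hb =>
    obtain ⟨c, hc⟩ := hdvd
    rw [hmul, ha, hb, hc, pow_mul, hpow, hb, commutatorElement_one_left, one_pow, one_mul, mul_one]
  | inv a _ ha => rw [inv_pow, ha, inv_one]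

end Cfsg.Agent.S0096
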