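import Cfsg.Statements.S0097
import Mathlib
import Cfsg.Agent.PGroup.Extraspecial

set_option autoImplicit false
open Cfsg

namespace Cfsg.Agent.S0097

open scoped commutatorElement
/-- For odd p and E extraspecial, the subgroup generated by the elements of order dividing p has exponent dividing p and index at most p. -/
theorem result {E : Type*} [Group E] [Finite E] {p : ℕ} [Fact p.Prime] (hp : p ≠ 2) (h : Cfsg.IsExtraspecial p E) : (Subgroup.closure {x : E | x ^ p = 1}).index ≤ p ∧ ∀ g ∈ Subgroup.closure {x : E | x ^ p = 1}, g ^ p = 1 := by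
  classical
  have hodd : Odd p := (Fact.out : p.Prime).odd_of_ne_two hp
  have hmul : ∀ a b : E, (a * b) ^ p = a ^ p * b ^ p := fun a b =>
    CfsgLib.PGroup.mul_pow_of_odd' (CfsgLib.PGroup.extraspecial_comm_mem h) a b hodd
      (CfsgLib.PGroup.extraspecial_comm_pow h a b)
  let f : E →* Subgroup.center E :=
    { toFun := fun a => ⟨a ^ p, CfsgLib.PGroup.extraspecial_pow_mem h a⟩
      map_one' := Subtype.ext (one_pow p)
      map_mul' := fun a b => Subtype.ext (hmul a b) }
  have hf : Subgroup.closure {x : E | x ^ p = 1} = f.ker := by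
    refine le_antisymm ((Subgroup.closure_le _).2 fun x hx => Subtype.ext hx) fun x hx => ?_
    exact Subgroup.subset_closure (congrArg Subtype.val hx)
  refine ⟨?_, fun g hg => ?_⟩
  · rw [hf, Subgroup.index_ker]
    exact (Subgroup.card_le_card_group _).trans h.2.le
  · rw [hf] at hg
    exact congrArg Subtype.val hg

end Cfsg.Agent.S0097
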