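import Cfsg.Statements.S0098
import Cfsg.Agent.Eq.Def_Transfer
import Cfsg.Agent.ExtraspecialOdd.Frame
-- import your own Cfsg.Agent.* helpers here

set_option autoImplicit false
open Cfsg CfsgLib.ExtraspecialOdd

namespace Cfsg.Agent.S0098

/-- For odd p, extraspecial p-groups of exponent p are determined up to isomorphism by their order. -/
theorem result {E₁ : Type*} {E₂ : Type*} [Group E₁] [Group E₂] [Finite E₁] [Finite E₂] {p : ℕ} [Fact p.Prime] (hp : p ≠ 2) (h₁ : Cfsg.IsExtraspecial p E₁) (h₂ : Cfsg.IsExtraspecial p E₂) (he₁ : Monoid.exponent E₁ = p) (he₂ : Monoid.exponent E₂ = p) (hc : Nat.card E₁ = Nat.card E₂) : Nonempty (E₁ ≃* E₂) := by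
  have hx₁ : ∀ x : E₁, x ^ p = 1 := fun x => he₁ ▸ Monoid.pow_exponent_eq_one x
  have hx₂ : ∀ x : E₂, x ^ p = 1 := fun x => he₂ ▸ Monoid.pow_exponent_eq_one x
  obtain ⟨n, z₁, π₁, hs₁, ho₁, hk₁, hc₁, hb₁⟩ :=
    exists_frame h₁ fun x => by rw [hx₁]; exact Subgroup.one_mem _
  obtain ⟨m, z₂, π₂, hs₂, ho₂, hk₂, hc₂, hb₂⟩ :=
    exists_frame h₂ fun x => by rw [hx₂]; exact Subgroup.one_mem _
  obtain rfl : n = m := by
    have := Nat.pow_right_injective (Fact.out : p.Prime).two_le (hc₁.symm.trans (hc.trans hc₂))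
    omega
  exact exists_mulEquiv π₁ π₂ hs₁ hs₂ ho₁ ho₂ hk₁ hk₂ hx₁ hx₂ fun x y x' y' ex ey =>
    ⟨_, hb₁ x y, by rw [ex, ey]; exact hb₂ x' y'⟩

end Cfsg.Agent.S0098
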