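import Cfsg.Statements.S0099
import Cfsg.Agent.ExtraspecialTwo.Iso
-- import your own Cfsg.Agent.* helpers here

set_option autoImplicit false
open Cfsg CfsgLib.ExtraspecialTwo CfsgLib.F2Forms

namespace Cfsg.Agent.S0099

/-- Among three extraspecial 2-groups of equal order, some two are isomorphic. -/
theorem result {E₁ : Type*} {E₂ : Type*} {E₃ : Type*} [Group E₁] [Group E₂] [Group E₃] [Finite E₁] [Finite E₂] [Finite E₃] (h₁ : Cfsg.IsExtraspecial 2 E₁) (h₂ : Cfsg.IsExtraspecial 2 E₂) (h₃ : Cfsg.IsExtraspecial 2 E₃) (h12 : Nat.card E₁ = Nat.card E₂) (h23 : Nat.card E₂ = Nat.card E₃) : Nonempty (E₁ ≃* E₂) ∨ Nonempty (E₂ ≃* E₃) ∨ Nonempty (E₁ ≃* E₃) := by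
  obtain ⟨n, w₁, π₁, c₁, hn, e₁⟩ := exists_coord h₁
  obtain ⟨n₂, w₂, π₂, c₂, -, e₂⟩ := exists_coord h₂
  obtain ⟨n₃, w₃, π₃, c₃, -, e₃⟩ := exists_coord h₃
  obtain rfl : n = n₂ := by
    have := Nat.pow_right_injective (le_refl 2) (e₁.symm.trans (h12.trans e₂)); omega
  obtain rfl : n = n₃ := by
    have := Nat.pow_right_injective (le_refl 2) (e₂.symm.trans (h23.trans e₃)); omega
  have key : ∀ a b c : ZMod 2, a = b ∨ b = c ∨ a = c := by decide
  rcases key (quadFormPlus n (ZMod 2) w₁) (quadFormPlus n (ZMod 2) w₂) (quadFormPlus n (ZMod 2) w₃)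
    with e | e | e
  · exact Or.inl (c₁.nonempty_mulEquiv c₂ e)
  · exact Or.inr (Or.inl (c₂.nonempty_mulEquiv c₃ e))
  · exact Or.inr (Or.inr (c₁.nonempty_mulEquiv c₃ e))

end Cfsg.Agent.S0099
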