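import Cfsg.Statements.S0102
import Mathlib
import Cfsg.Agent.TransferBasic.Central

set_option autoImplicit false
open Cfsg

namespace Cfsg.Agent.S0102

open scoped commutatorElement
/-- A finite perfect group with cyclic Sylow p-subgroups has no perfect central extension whose kernel has order divisible by p. -/
theorem result {G : Type*} {H : Type*} [Group G] [Group H] [Finite G] [Finite H] (hG : commutator G = ⊤) {p : ℕ} [Fact p.Prime] (hcyc : ∀ P : Sylow p G, IsCyclic P) (σ : H →* G) (hσ : Function.Surjective σ) (hz : σ.ker ≤ Subgroup.center H) (hH : commutator H = ⊤) : ¬ p ∣ Nat.card σ.ker := by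
  classical
  intro hdvd
  obtain ⟨P⟩ : Nonempty (Sylow p G) := inferInstance
  obtain ⟨z, hz1⟩ := exists_prime_orderOf_dvd_card' (G := σ.ker) p hdvd
  set L := (P : Subgroup G).comap σ with hL
  haveI : IsCyclic (P : Subgroup G) := hcyc P
  have hzL : (z : H) ∈ L := by
    rw [hL, Subgroup.mem_comap, show σ z = 1 from z.2]; exact one_mem _
  have hab : commutator L = ⊥ := by
    rw [commutator_def, eq_bot_iff, Subgroup.commutator_le]
    intro a _ b _
    rw [Subgroup.mem_bot, commutatorElement_eq_one_iff_mul_comm]
    refine commutative_of_cyclic_center_quotient (σ.subgroupComap (P : Subgroup G)) ?_ a b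
    intro x hx
    rw [Subgroup.mem_center_iff]
    intro y
    exact Subtype.ext (Subgroup.mem_center_iff.1 (hz (congrArg Subtype.val hx)) y)
  have h1 := CfsgLib.TransferBasic.central_pow_index_mem_commutator L (z : H) (hz z.2) hzL
    (hH ▸ Subgroup.mem_top _)
  have hi : L.index = (P : Subgroup G).index := Subgroup.index_comap_of_surjective _ hσ
  rw [hab, Subgroup.mem_bot, hi] at h1
  have h2 := congrArg Subtype.val h1
  simp only [Subgroup.coe_pow, Subgroup.coe_one] at h2
  have h3 := orderOf_dvd_of_pow_eq_one h2
  rw [Subgroup.orderOf_coe, hz1] at h3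
  exact P.not_dvd_index h3

end Cfsg.Agent.S0102
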