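import Cfsg.Statements.S0103
import Cfsg.Agent.Eq.Def_Transfer
import Mathlib.Tactic.Group

set_option autoImplicit false
open Cfsg

namespace Cfsg.Agent.S0103

/-- If a Sylow p-subgroup P intersects every distinct conjugate trivially, then its normalizer controls fusion in P. -/
theorem result {G : Type*} [Group G] [Finite G] {p : ℕ} [Fact p.Prime] (P : Sylow p G) (hTI : ∀ g : G, (P : Subgroup G).map (MulAut.conj g).toMonoidHom ≠ (P : Subgroup G) → (P : Subgroup G) ⊓ (P : Subgroup G).map (MulAut.conj g).toMonoidHom = ⊥) (x y : G) (hx : x ∈ P) (hy : y ∈ P) (hc : ∃ g : G, g * x * g⁻¹ = y) : ∃ n ∈ Subgroup.normalizer (P : Set G), n * x * n⁻¹ = y := by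
  obtain ⟨g, rfl⟩ := hc
  by_cases h : (P : Subgroup G).map (MulAut.conj g).toMonoidHom = (P : Subgroup G)
  · refine ⟨g, ?_, rfl⟩
    refine Subgroup.mem_normalizer_iff.mpr ?_
    intro a
    constructor
    · intro ha
      rw [← h]
      exact Subgroup.mem_map.mpr ⟨a, ha, rfl⟩
    · intro ha
      rw [← h] at ha
      obtain ⟨b, hb, hba⟩ := Subgroup.mem_map.mp ha
      have : b = a := by simpa using hba
      exact this ▸ hb
  · have h1 : g * x * g⁻¹ ∈ ((P : Subgroup G) ⊓ (P : Subgroup G).map (MulAut.conj g).toMonoidHom) :=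
      ⟨hy, Subgroup.mem_map.mpr ⟨x, hx, rfl⟩⟩
    rw [hTI g h, Subgroup.mem_bot] at h1
    have hx1 : x = 1 := by simpa using h1
    exact ⟨1, one_mem _, by simp [hx1]⟩

end Cfsg.Agent.S0103
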