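import Cfsg.Statements.S0104
import Cfsg.Agent.Eq.Def_Transfer
import Mathlib.Tactic.Group

set_option autoImplicit false
open Cfsg

namespace Cfsg.Agent.S0104

theorem mem_normalizer_of_map_eq {G : Type*} [Group G] {Z : Subgroup G} {g : G}
    (h : Z.map (MulAut.conj g).toMonoidHom = Z) : g ∈ Subgroup.normalizer (Z : Set G) := by
  refine Subgroup.mem_normalizer_iff.mpr ?_
  intro a
  constructor
  · intro ha
    rw [← h]
    exact Subgroup.mem_map.mpr ⟨a, ha, rfl⟩
  · intro ha
    rw [← h] at ha
    obtain ⟨b, hb, hba⟩ := Subgroup.mem_map.mp ha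
    have : b = a := by simpa using hba
    exact this ▸ hb

theorem map_eq_of_mem_normalizer {G : Type*} [Group G] {Z : Subgroup G} {g : G}
    (h : g ∈ Subgroup.normalizer (Z : Set G)) : Z.map (MulAut.conj g).toMonoidHom = Z := by
  ext a
  constructor
  · rintro ⟨b, hb, rfl⟩
    exact (Subgroup.mem_normalizer_iff.mp h b).mp hb
  · intro ha
    refine ⟨g⁻¹ * a * g, ?_, by simp [mul_assoc]⟩
    exact (Subgroup.mem_normalizer_iff''.mp h a).mp ha

/-- A subgroup Z of a Sylow p-subgroup P that is normalized by N_G(P) is weakly closed in P exactly when it is normal in every Sylow p-subgroup containing it. -/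
theorem result {G : Type*} [Group G] [Finite G] {p : ℕ} [Fact p.Prime] (P : Sylow p G) (Z : Subgroup G) (hZP : Z ≤ (P : Subgroup G)) (hZN : Subgroup.normalizer (P : Set G) ≤ Subgroup.normalizer (Z : Set G)) : Cfsg.IsWeaklyClosed Z P ↔ ∀ R : Sylow p G, Z ≤ (R : Subgroup G) → (R : Subgroup G) ≤ Subgroup.normalizer (Z : Set G) := by
  constructor
  · rintro ⟨-, hwc⟩ R hR
    obtain ⟨g, hg⟩ := MulAction.exists_smul_eq G R P
    have hmap : (R : Subgroup G).map (MulAut.conj g).toMonoidHom = (P : Subgroup G) := by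
      rw [← hg]; rfl
    have h1 : Z.map (MulAut.conj g).toMonoidHom ≤ (P : Subgroup G) :=
      hmap ▸ Subgroup.map_mono hR
    have hgN : g ∈ Subgroup.normalizer (Z : Set G) := mem_normalizer_of_map_eq (hwc g h1)
    intro r hr
    have : g * r * g⁻¹ ∈ Subgroup.normalizer (Z : Set G) := by
      apply hZN
      apply Subgroup.le_normalizer
      rw [← hmap]
      exact Subgroup.mem_map.mpr ⟨r, hr, rfl⟩
    have h2 := mul_mem (mul_mem (inv_mem hgN) this) hgN
    simpa [mul_assoc] using h2
  · intro hall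
    refine ⟨hZP, fun g hg => ?_⟩
    set N := Subgroup.normalizer (Z : Set G) with hNdef
    set R : Sylow p G := g⁻¹ • P with hRdef
    have hRco : (R : Subgroup G) = (P : Subgroup G).map (MulAut.conj g⁻¹).toMonoidHom := rfl
    have hZR : Z ≤ (R : Subgroup G) := by
      intro z hz
      rw [hRco]
      exact Subgroup.mem_map.mpr ⟨g * z * g⁻¹, hg (Subgroup.mem_map.mpr ⟨z, hz, rfl⟩), by simp [mul_assoc]⟩
    have hPN : (P : Subgroup G) ≤ N := hall P hZP
    have hRN : (R : Subgroup G) ≤ N := hall R hZR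
    obtain ⟨n, hn⟩ := MulAction.exists_smul_eq N (R.subtype hRN) (P.subtype hPN)
    have hn' : ((n : G) • R) = P := by
      rw [Sylow.smul_subtype hRN n] at hn
      exact Sylow.subtype_injective hn
    rw [hRdef, smul_smul, Sylow.smul_eq_iff_mem_normalizer] at hn'
    have h3 : (n : G) * g⁻¹ ∈ N := hZN hn'
    have h4 : g ∈ N := by
      have := mul_mem (inv_mem h3) n.2
      simpa using this
    exact map_eq_of_mem_normalizer h4

end Cfsg.Agent.S0104
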