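import Cfsg.Statements.S0105
import Cfsg.Agent.Eq.Def_Transfer
import Mathlib

set_option autoImplicit false
open Cfsg

namespace Cfsg.Agent.S0105

open scoped IsMulCommutative in
/-- The transfer into an abelian subgroup. -/
noncomputable def transferId {G : Type*} [Group G] (H : Subgroup G) [IsMulCommutative H] [H.FiniteIndex] :
    G →* H :=
  MonoidHom.transfer (MonoidHom.id H)

open scoped IsMulCommutative in
theorem transferId_eq_pow {G : Type*} [Group G] (H : Subgroup G) [IsMulCommutative H] [H.FiniteIndex]
    (y : H) (key : ∀ (k : ℕ) (g₀ : G), g₀⁻¹ * (y : G) ^ k * g₀ ∈ H →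
      g₀⁻¹ * (y : G) ^ k * g₀ = (y : G) ^ k) :
    transferId H (y : G) = y ^ H.index := by
  rw [transferId, MonoidHom.transfer_eq_pow _ _ key]
  exact Subtype.ext rfl

open scoped IsMulCommutative in
theorem normMap {G : Type*} [Group G] [Finite G] {p : ℕ} [Fact p.Prime] (P : Sylow p G)
    [IsMulCommutative (P : Subgroup G)] :
    ∃ φ : (P : Subgroup G) →* (P : Subgroup G),
      (∀ x, ((φ x : (P : Subgroup G)) : G) ∈ Subgroup.centralizer (Subgroup.normalizer (P : Set G) : Set G)) ∧
      ∃ m, ¬ p ∣ m ∧ ∀ x : (P : Subgroup G),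
        (x : G) ∈ Subgroup.centralizer (Subgroup.normalizer (P : Set G) : Set G) → φ x = x ^ m := by
  set N := Subgroup.normalizer (P : Set G)
  set P' := (P : Subgroup G).subgroupOf N
  letI : Fintype (N ⧸ P') := Fintype.ofFinite _
  have hwd : ∀ a b : N, a⁻¹ * b ∈ P' →
      Subgroup.normalizerMonoidHom (P : Subgroup G) a = Subgroup.normalizerMonoidHom (P : Subgroup G) b := by
    intro a b hab
    have : Subgroup.normalizerMonoidHom (P : Subgroup G) (a⁻¹ * b) = 1 := by
      rw [← MonoidHom.mem_ker, Subgroup.normalizerMonoidHom_ker, Subgroup.mem_subgroupOf]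
      exact Subgroup.le_centralizer (P : Subgroup G) hab
    rw [map_mul, map_inv, inv_mul_eq_one] at this
    exact this
  let f : N ⧸ P' → MulAut (P : Subgroup G) := fun q => Quotient.liftOn' q
    (Subgroup.normalizerMonoidHom (P : Subgroup G))
    (fun a b h => hwd a b (QuotientGroup.leftRel_apply.mp h))
  have hf : ∀ (n : N) (q : N ⧸ P'),
      f (n • q) = Subgroup.normalizerMonoidHom (P : Subgroup G) n * f q := by
    intro n q
    induction q using Quotient.inductionOn' with
    | h a => exact map_mul (Subgroup.normalizerMonoidHom (P : Subgroup G)) n a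
  refine ⟨∏ q : N ⧸ P', (f q).toMonoidHom, ?_, P'.index, ?_, ?_⟩
  · intro x
    rw [Subgroup.mem_centralizer_iff]
    intro n hn
    have h1 : Subgroup.normalizerMonoidHom (P : Subgroup G) ⟨n, hn⟩ (∏ q : N ⧸ P', f q x)
        = ∏ q : N ⧸ P', f q x := by
      rw [map_prod]
      refine Fintype.prod_equiv (MulAction.toPerm (⟨n, hn⟩ : N)) _ _ fun q => ?_
      simp [hf]
    have h2 := congrArg Subtype.val h1
    simp only [MonoidHom.finsetProd_apply, MulEquiv.coe_toMonoidHom]
    exact mul_inv_eq_iff_eq_mul.mp h2
  · exact (P.subtype Subgroup.le_normalizer).not_dvd_index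
  · intro x hx
    have : ∀ q, f q x = x := by
      intro q
      induction q using Quotient.inductionOn' with
      | h a =>
        apply Subtype.ext
        show (a : G) * x * (a : G)⁻¹ = x
        rw [Subgroup.mem_centralizer_iff.mp hx a a.2, mul_inv_cancel_right]
    simp [MonoidHom.finsetProd_apply, this, Subgroup.index_eq_card]

/-- With an abelian Sylow p-subgroup P, some quotient of G is isomorphic to the part of P central in N_G(P). -/
theorem result {G : Type*} [Group G] [Finite G] {p : ℕ} [Fact p.Prime] (P : Sylow p G) (hP : IsMulCommutative P) : ∃ (N : Subgroup G) (hN : N.Normal), Nonempty (G ⧸ N ≃* ((P : Subgroup G) ⊓ Subgroup.centralizer (Subgroup.normalizer (P : Set G) : Set G) : Subgroup G)) := by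
  classical
  haveI := hP
  set N := Subgroup.normalizer (P : Set G) with hN
  set K := (P : Subgroup G) ⊓ Subgroup.centralizer (N : Set G) with hK
  set T : G →* (P : Subgroup G) := transferId (P : Subgroup G) with hTdef
  obtain ⟨φ, hφ, hφK⟩ := normMap P
  set ψ := φ.comp T with hψ
  have hrange : ∀ y : (P : Subgroup G), y ∈ ψ.range ↔ (y : G) ∈ K := by
    intro y
    constructor
    · rintro ⟨g, rfl⟩
      exact ⟨(φ (T g)).2, hφ _⟩
    · intro hy
      obtain ⟨m, hm, hmK⟩ := hφK
      have hTy : T (y : G) = y ^ (P : Subgroup G).index := by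
        rw [hTdef]
        apply transferId_eq_pow
        intro k g₀ hk
        obtain ⟨n, hn, hn'⟩ := P.conj_eq_normalizer_conj_of_mem _ g₀ (pow_mem y.2 k) hk
        rw [hn']
        have := Subgroup.mem_centralizer_iff.mp (pow_mem hy.2 k) n hn
        calc n⁻¹ * (y : G) ^ k * n = n⁻¹ * ((y : G) ^ k * n) := by group
          _ = n⁻¹ * (n * (y : G) ^ k) := by rw [this]
          _ = _ := by group
      have hcop : ¬ p ∣ (P : Subgroup G).index * m := fun h =>
        (Fact.out : p.Prime).not_dvd_mul P.not_dvd_index hm h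
      set KP := K.subgroupOf (P : Subgroup G)
      obtain ⟨x, hx⟩ := ((P.2.to_subgroup KP).powEquiv' hcop).surjective ⟨y, hy⟩
      refine ⟨((x : (P : Subgroup G)) : G), ?_⟩
      have hx' : ((x : (P : Subgroup G))) ^ ((P : Subgroup G).index * m) = y := by
        have := congrArg Subtype.val hx
        simpa using this
      rw [← hx']
      have hxK : (((x : (P : Subgroup G))) : G) ∈ K := x.2
      have hTx : T (((x : (P : Subgroup G))) : G) = (x : (P : Subgroup G)) ^ (P : Subgroup G).index := by
        rw [hTdef]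
        apply transferId_eq_pow
        intro k g₀ hk
        obtain ⟨n, hn, hn'⟩ := P.conj_eq_normalizer_conj_of_mem _ g₀ (pow_mem (x : (P : Subgroup G)).2 k) hk
        rw [hn']
        have := Subgroup.mem_centralizer_iff.mp (pow_mem hxK.2 k) n hn
        calc n⁻¹ * (((x : (P : Subgroup G))) : G) ^ k * n = n⁻¹ * ((((x : (P : Subgroup G))) : G) ^ k * n) := by group
          _ = n⁻¹ * (n * (((x : (P : Subgroup G))) : G) ^ k) := by rw [this]
          _ = _ := by group
      rw [hψ, MonoidHom.comp_apply, hTx, map_pow, hmK _ hxK.2, ← pow_mul, mul_comm]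
  have hr : ψ.range = K.subgroupOf (P : Subgroup G) := Subgroup.ext hrange
  exact ⟨ψ.ker, inferInstance, ⟨(QuotientGroup.quotientKerEquivRange ψ).trans
    ((MulEquiv.subgroupCongr hr).trans (Subgroup.subgroupOfEquivOfLe inf_le_left))⟩⟩

end Cfsg.Agent.S0105
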