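import Cfsg.Statements.S0106
import Cfsg.Agent.Eq.Def_Transfer
import Cfsg.Agent.Transfer.TwoGenerator
import Cfsg.Agent.Transfer.QuaternionSection

set_option autoImplicit false
open Cfsg

namespace Cfsg.Agent.S0106

/-- A finite group with generalized quaternion Sylow 2-subgroups either has a normal 2-complement or has a section isomorphic to SL(2,3). -/
theorem result {G : Type*} [Group G] [Finite G] (T : Sylow 2 G) (n : ℕ) (hn : 1 ≤ n) (hT : Nonempty ((T : Subgroup G) ≃* QuaternionGroup (2 ^ n))) : Cfsg.HasNormalPComplement 2 G ∨ ∃ (H K : Subgroup G) (hK : (K.subgroupOf H).Normal), Nonempty ((H ⧸ K.subgroupOf H) ≃* Matrix.SpecialLinearGroup (Fin 2) (ZMod 3)) := by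
  obtain ⟨e⟩ := hT
  by_contra hcon
  push Not at hcon
  obtain ⟨hnpc, hsec⟩ := hcon
  apply hnpc
  set m := 2 ^ n with hm
  haveI : NeZero m := ⟨by positivity⟩
  set Z := Subgroup.zpowers (QuaternionGroup.a 1 : QuaternionGroup m) with hZ
  have hmemZ : ∀ i : ZMod (2 * m), (QuaternionGroup.a i : QuaternionGroup m) ∈ Z := by
    intro i
    have h : (QuaternionGroup.a i : QuaternionGroup m) = QuaternionGroup.a 1 ^ i.val := by
      rw [QuaternionGroup.a_one_pow, ZMod.natCast_val, ZMod.cast_id]
    rw [h]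
    exact pow_mem (Subgroup.mem_zpowers _) _
  have hZidx : Z.index = 2 := by
    have h1 := Z.card_mul_index
    rw [hZ, Nat.card_zpowers, QuaternionGroup.orderOf_a_one, Nat.card_eq_fintype_card,
      QuaternionGroup.card, ← hZ] at h1
    refine Nat.eq_of_mul_eq_mul_left (by positivity : 0 < 2 * m) (h1.trans ?_)
    ring
  haveI hZn : Z.Normal := Subgroup.normal_of_index_eq_two hZidx
  set A0 := Z.comap e.toMonoidHom with hA0
  have hA0idx : A0.index = 2 := by rw [hA0, Subgroup.index_comap_of_surjective _ e.surjective, hZidx]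
  haveI : A0.Normal := Subgroup.normal_of_index_eq_two hA0idx
  haveI hA0c : IsCyclic A0 := isCyclic_of_injective
    ((e.toMonoidHom.comp A0.subtype).codRestrict Z fun x => x.2)
    (fun x y h => Subtype.ext (e.injective (congrArg Subtype.val h)))
  haveI : IsCyclic ((T : Subgroup G) ⧸ A0) :=
    isCyclic_of_prime_card (p := 2) (by rw [← Subgroup.index_eq_card, hA0idx])
  set A := A0.map (T : Subgroup G).subtype with hA
  haveI : IsCyclic A := isCyclic_of_surjective _
    (MonoidHom.subgroupMap_surjective (T : Subgroup G).subtype A0)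
  have hmemA : ∀ (y : G) (hy : y ∈ (T : Subgroup G)), y ∈ A ↔ e ⟨y, hy⟩ ∈ Z := fun y hy =>
    ⟨by rintro ⟨y', hy', rfl⟩; exact hy', fun h => ⟨⟨y, hy⟩, h, rfl⟩⟩
  have hval : ∀ (c : G) (hc : c ∈ (T : Subgroup G)), c ∈ A →
      ∃ u, e ⟨c, hc⟩ = QuaternionGroup.a u := by
    intro c hc hcA
    obtain ⟨u, hu⟩ := (Submonoid.mem_powers_iff _ _).mp
      (mem_powers_iff_mem_zpowers.mpr ((hmemA c hc).mp hcA))
    exact ⟨u, hu.symm.trans (QuaternionGroup.a_one_pow u)⟩
  refine CfsgLib.Transfer.hasNormalPComplement_of_pLocal_centralizes fun Q hQ g hg hgc => ?_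
  refine CfsgLib.Transfer.mem_of_primePow_parts _ _ g rfl fun b hb q k hq hbk => ?_
  have hbN := Subgroup.zpowers_le.mpr hg hb
  rcases Nat.eq_zero_or_pos k with rfl | hk
  · rw [pow_zero, orderOf_eq_one_iff] at hbk
    rw [hbk]; exact one_mem _
  have hq2 : q ≠ 2 := by
    rintro rfl
    have h := Nat.Coprime.coprime_dvd_left
      (((dvd_pow_self 2 hk.ne').trans (dvd_of_eq hbk.symm)).trans (orderOf_dvd_of_mem_zpowers hb)) hgc
    simp at h
  haveI := Fact.mk hq
  obtain ⟨W, hW⟩ := hQ.exists_le_sylow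
  obtain ⟨y, hy⟩ := MulAction.exists_smul_eq G W T
  have hle : Q.map (MulAut.conj y).toMonoidHom ≤ (T : Subgroup G) := by
    rintro _ ⟨u, hu, rfl⟩
    rw [← hy]
    exact CfsgLib.Transfer.mem_smul_sylow y (hW hu)
  have hd := CfsgLib.Transfer.frattini_index_dvd_sq_of_le (p := 2) T.2 hle A0
  have hb' : MulAut.conj y b ∈ Subgroup.normalizer
      ((Q.map (MulAut.conj y).toMonoidHom : Subgroup G) : Set G) := by
    refine Subgroup.mem_normalizer_fintype ?_
    rintro _ ⟨u, hu, rfl⟩
    exact ⟨b * u * b⁻¹, (Subgroup.mem_normalizer_iff.mp hbN u).mp hu,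
      by simp only [MulEquiv.coe_toMonoidHom, map_mul, map_inv]⟩
  suffices key : MulAut.conj y b ∈
      Subgroup.centralizer ((Q.map (MulAut.conj y).toMonoidHom : Subgroup G) : Set G) by
    rw [Subgroup.mem_centralizer_iff] at key ⊢
    intro u hu
    have h2 := key _ ⟨u, hu, rfl⟩
    simp only [MulEquiv.coe_toMonoidHom, ← map_mul] at h2
    exact (MulAut.conj y).injective h2
  by_cases hq3 : q = 3
  · subst hq3
    by_contra hc
    refine absurd (CfsgLib.Transfer.sl_two_three_section_of_quaternion (A := A)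
      (z := ((e.symm (QuaternionGroup.a (m : ZMod (2 * m))) : (T : Subgroup G)) : G))
      T.2 (Subgroup.map_subtype_le _) ?_ ?_ ?_ ?_ hle hb' (k := k) ?_ hc) ?_
    · rw [Subgroup.relIndex, hA, Subgroup.subgroupOf,
        Subgroup.comap_map_eq_self_of_injective (T : Subgroup G).subtype_injective, hA0idx]
    · rw [ne_eq, OneMemClass.coe_eq_one, MulEquiv.map_eq_one_iff, QuaternionGroup.one_def,
        QuaternionGroup.a.injEq]
      intro h
      rw [ZMod.natCast_eq_zero_iff] at h
      exact absurd (Nat.le_of_dvd (Nat.pos_of_ne_zero (NeZero.ne m)) h)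
        (by have := Nat.pos_of_ne_zero (NeZero.ne m); omega)
    · intro c hcA hcc
      have hcT : c ∈ (T : Subgroup G) := Subgroup.map_subtype_le _ hcA
      obtain ⟨u, hu⟩ := hval c hcT hcA
      have h1 : e (⟨c, hcT⟩ * ⟨c, hcT⟩) = 1 := by
        rw [show (⟨c, hcT⟩ * ⟨c, hcT⟩ : (T : Subgroup G)) = 1 from Subtype.ext hcc, map_one]
      rw [map_mul, hu, QuaternionGroup.a_mul_a, QuaternionGroup.one_def, QuaternionGroup.a.injEq,
        ← ZMod.natCast_zmod_val u, ← Nat.cast_add, ZMod.natCast_eq_zero_iff] at h1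
      obtain ⟨t, ht⟩ := h1
      have hlt : u.val < 2 * m := ZMod.val_lt u
      have ht2 : t = 0 ∨ t = 1 := by
        rcases t with _ | _ | t
        · exact Or.inl rfl
        · exact Or.inr rfl
        · exfalso
          have h5 : 2 * m * 2 ≤ 2 * m * (t + 1 + 1) := Nat.mul_le_mul_left _ (by omega)
          omega
      rcases ht2 with rfl | rfl
      · left
        have h3 : u = 0 := by rw [← ZMod.natCast_zmod_val u, show u.val = 0 by omega, Nat.cast_zero]
        rw [h3, ← QuaternionGroup.one_def, MulEquiv.map_eq_one_iff] at hu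
        exact congrArg Subtype.val hu
      · right
        have h3 : u = (m : ZMod (2 * m)) := by
          rw [← ZMod.natCast_zmod_val u, show u.val = m by omega]
        have h4 : (⟨c, hcT⟩ : (T : Subgroup G)) = e.symm (QuaternionGroup.a (m : ZMod (2 * m))) := by
          rw [← h3, ← hu, e.symm_apply_apply]
        exact congrArg Subtype.val h4
    · intro w hwT hwA
      obtain ⟨v, hv⟩ : ∃ v, e ⟨w, hwT⟩ = QuaternionGroup.xa v := by
        rcases hev : e ⟨w, hwT⟩ with v | v
        · exact absurd ((hmemA w hwT).mpr (hev ▸ hmemZ v)) hwA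
        · exact ⟨v, rfl⟩
      refine ⟨?_, fun c hcA => ?_⟩
      · have h1 : (⟨w, hwT⟩ * ⟨w, hwT⟩ : (T : Subgroup G)) =
            e.symm (QuaternionGroup.a (m : ZMod (2 * m))) := by
          apply e.injective
          rw [map_mul, hv, e.apply_symm_apply, QuaternionGroup.xa_mul_xa]
          congr 1
          ring
        exact congrArg Subtype.val h1
      · have hcT : c ∈ (T : Subgroup G) := Subgroup.map_subtype_le _ hcA
        obtain ⟨u, hu⟩ := hval c hcT hcA
        have h1 : (⟨w, hwT⟩ * ⟨c, hcT⟩ * ⟨c, hcT⟩ : (T : Subgroup G)) * 1 =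
            (⟨w, hwT⟩ * ⟨c, hcT⟩ * ⟨c, hcT⟩ : (T : Subgroup G)) := mul_one _
        have h2 : (⟨c, hcT⟩ * (⟨w, hwT⟩ * ⟨c, hcT⟩) : (T : Subgroup G)) = ⟨w, hwT⟩ := by
          apply e.injective
          rw [map_mul, map_mul, hv, hu, QuaternionGroup.xa_mul_a, QuaternionGroup.a_mul_xa]
          congr 1
          ring
        have h3 : c * (w * c) = w := congrArg Subtype.val h2
        calc w * c * w⁻¹ = c⁻¹ * (c * (w * c)) * w⁻¹ := by group
          _ = c⁻¹ := by rw [h3]; group
    · rw [← map_pow, ← hbk, pow_orderOf_eq_one, map_one]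
    · rintro ⟨H, K, hK, hiso⟩
      exact (hsec H K hK).elim hiso.some
  · refine CfsgLib.Transfer.mem_centralizer_of_frattini_index (T.2.to_le hle) hb' hq2
      (k := k) (by rw [MulEquiv.orderOf_eq, hbk]) hd (fun i hi1 hi2 hdv => ?_)
    interval_cases i
    · exact hq.not_dvd_one (by simpa using hdv)
    · exact hq3 ((Nat.prime_dvd_prime_iff_eq hq Nat.prime_three).mp (by simpa using hdv))

end Cfsg.Agent.S0106
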