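import Cfsg.Statements.S0107
import Cfsg.Agent.Eq.Def_Transfer
import Cfsg.Agent.Transfer.ThompsonTransfer

set_option autoImplicit false
open Cfsg

namespace Cfsg.Agent.S0107

/-- A finite group with no nontrivial 2-group quotient and dihedral Sylow 2-subgroups of order at least 8 has a single class of involutions. -/
theorem result {G : Type*} [Group G] [Finite G] (T : Sylow 2 G) (n : ℕ) (hn : 2 ≤ n) (hT : Nonempty ((T : Subgroup G) ≃* DihedralGroup (2 ^ n))) (hO : Cfsg.pResidual 2 G = ⊤) (x y : G) (hx : orderOf x = 2) (hy : orderOf y = 2) : ∃ g : G, g * x * g⁻¹ = y := by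
  obtain ⟨e⟩ := hT
  have : NeZero (2 ^ n) := ⟨by positivity⟩
  set R : Subgroup (DihedralGroup (2 ^ n)) := Subgroup.zpowers (DihedralGroup.r 1) with hR
  set Q : Subgroup G := (R.comap e.toMonoidHom).map (T : Subgroup G).subtype with hQ
  have hQT : Q ≤ (T : Subgroup G) := Subgroup.map_subtype_le _
  have hRi : R.index = 2 := by
    have h1 := R.card_mul_index
    rw [hR, Nat.card_zpowers, DihedralGroup.orderOf_r_one, DihedralGroup.nat_card] at h1
    exact Nat.eq_of_mul_eq_mul_left (by positivity) (h1.trans (by ring))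
  have hQi : Q.relIndex (T : Subgroup G) = 2 := by
    rw [hQ, Subgroup.relIndex, Subgroup.subgroupOf,
      Subgroup.comap_map_eq_self_of_injective (Subgroup.subtype_injective _)]
    rw [Subgroup.index_comap_of_surjective R e.surjective, hRi]
  set z : G := ((e.symm (DihedralGroup.r ((2 ^ (n - 1) : ℕ) : ZMod (2 ^ n))) : (T : Subgroup G)) : G)
    with hz
  have hinvQ : ∀ w : G, orderOf w = 2 → w ∈ Q → w = z := by
    intro w hw hwQ
    obtain ⟨t, ht, rfl⟩ := Subgroup.mem_map.mp hwQ
    obtain ⟨i, hi⟩ := Subgroup.mem_zpowers_iff.mp (Subgroup.mem_comap.mp ht)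
    rw [DihedralGroup.r_one_zpow] at hi
    have ht2 : orderOf (e t) = 2 := by
      rw [MulEquiv.orderOf_eq]
      exact (orderOf_injective (T : Subgroup G).subtype (Subgroup.subtype_injective _) t).symm.trans hw
    have hi' : e t = DihedralGroup.r (i : ZMod (2 ^ n)) := hi.symm
    have key : (i : ZMod (2 ^ n)) = ((2 ^ (n - 1) : ℕ) : ZMod (2 ^ n)) := by
      set j := (i : ZMod (2 ^ n))
      have h2 : j + j = 0 := by
        have := pow_orderOf_eq_one (e t)
        rw [ht2, hi', pow_two, DihedralGroup.r_mul_r, DihedralGroup.one_def] at this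
        exact DihedralGroup.r.inj this
      have h0 : j ≠ 0 := by
        intro h
        rw [hi', h, ← DihedralGroup.one_def, orderOf_one] at ht2
        omega
      have hv : j.val ≠ 0 := fun h => h0 ((ZMod.val_eq_zero j).mp h)
      have hlt := ZMod.val_lt j
      have hdvd : 2 ^ n ∣ 2 * j.val := by
        rw [← ZMod.natCast_eq_zero_iff]
        push_cast
        rw [ZMod.natCast_zmod_val, two_mul, h2]
      obtain ⟨d, hd⟩ := hdvd
      have h4 : 2 ^ n = 2 * 2 ^ (n - 1) := by
        rw [← pow_succ', Nat.sub_add_cancel (by omega)]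
      have hd1 : d = 1 := by
        rcases Nat.lt_or_ge d 2 with h | h
        · interval_cases d <;> omega
        · nlinarith
      subst hd1
      have : j.val = 2 ^ (n - 1) := by omega
      rw [← this, ZMod.natCast_zmod_val]
    rw [hz, ← key, ← hi', e.symm_apply_apply]
    rfl
  have hodd : ∀ M : Subgroup G, M.index = 2 → M = ⊤ := by
    intro M hM
    rw [eq_top_iff, ← hO, Cfsg.pResidual, Subgroup.closure_le]
    intro g hg
    have hsq : g ^ 2 ∈ M := by
      rw [pow_two, Subgroup.mul_mem_iff_of_index_two hM]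
    obtain ⟨k, hk⟩ : Odd (orderOf g) := by
      rw [← Nat.not_even_iff_odd, even_iff_two_dvd]
      intro h2
      have := Nat.dvd_gcd h2 (dvd_refl 2)
      rw [Nat.Coprime.gcd_eq_one hg] at this
      omega
    have h1 := pow_orderOf_eq_one g
    rw [hk, pow_succ, pow_mul] at h1
    have : g = ((g ^ 2) ^ k)⁻¹ := (eq_inv_of_mul_eq_one_right h1)
    show g ∈ M
    rw [this]
    exact inv_mem (pow_mem hsq k)
  have hall : ∀ w : G, orderOf w = 2 → ∃ g : G, g * w * g⁻¹ = z := by
    intro w hw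
    obtain ⟨S, hS⟩ := (IsPGroup.of_card (n := 1) (by rw [Nat.card_zpowers, hw, pow_one]) :
      IsPGroup 2 (Subgroup.zpowers w)).exists_le_sylow
    obtain ⟨g, hg⟩ := MulAction.exists_smul_eq G S T
    have hv : g * w * g⁻¹ ∈ (T : Subgroup G) := by
      rw [← hg]
      exact Subgroup.mem_map.mpr ⟨w, hS (Subgroup.mem_zpowers w), rfl⟩
    have ho : ∀ (g v : G), orderOf (g * v * g⁻¹) = orderOf v := fun g v =>
      MulEquiv.orderOf_eq (MulAut.conj g) v
    by_cases hvQ : g * w * g⁻¹ ∈ Q
    · exact ⟨g, hinvQ _ (by rw [ho, hw]) hvQ⟩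
    · rcases CfsgLib.Transfer.thompsonTransferLemma T Q hQT hQi _ (by rw [ho, hw]) hv hvQ with
        ⟨M, _, hM, hnM⟩ | ⟨k, hk⟩
      · exact absurd (hodd M hM ▸ Subgroup.mem_top _) hnM
      · refine ⟨k * g, ?_⟩
        rw [← hinvQ _ (by rw [ho, ho, hw]) hk]
        group
  obtain ⟨a, ha⟩ := hall x hx
  obtain ⟨b, hb⟩ := hall y hy
  refine ⟨b⁻¹ * a, ?_⟩
  rw [← hb] at ha
  calc b⁻¹ * a * x * (b⁻¹ * a)⁻¹ = b⁻¹ * (a * x * a⁻¹) * b := by group
    _ = b⁻¹ * (b * y * b⁻¹) * b := by rw [ha]
    _ = y := by group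

end Cfsg.Agent.S0107
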