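import Cfsg.Statements.S0110
import Cfsg.Agent.Eq.Def_Transfer
import Cfsg.Agent.ExtraspecialOdd.Frame
-- import your own Cfsg.Agent.* helpers here

set_option autoImplicit false
open Cfsg CfsgLib CfsgLib.ExtraspecialOdd
open scoped commutatorElement

namespace Cfsg.Agent.S0110

/-- In a p-group G, an extraspecial subgroup E with [G, E] ≤ Z(E) satisfies G = E C_G(E). -/
theorem result {G : Type*} [Group G] [Finite G] {p : ℕ} [Fact p.Prime] (hG : IsPGroup p G) (E : Subgroup G) (hE : Cfsg.IsExtraspecial p E) (h : ⁅(⊤ : Subgroup G), E⁆ ≤ E ⊓ Subgroup.centralizer (E : Set G)) : E ⊔ Subgroup.centralizer (E : Set G) = ⊤ := by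
  classical
  have hcm : ∀ a b : ↥E, ⁅a, b⁆ ∈ Subgroup.center ↥E := fun a b =>
    hE.1.2.2 ▸ Subgroup.commutator_mem_commutator (Subgroup.mem_top a) (Subgroup.mem_top b)
  have hpow : ∀ x : ↥E, x ^ p ∈ Subgroup.center ↥E := fun x => Subgroup.mem_center_iff.2 fun y => by
    refine (commutatorElement_eq_one_iff_mul_comm.1 ?_).symm
    rw [PGroup.commutatorElement_pow_left' hcm]
    have hpc := congrArg Subtype.val
      (pow_card_eq_one' (x := (⟨⁅x, y⁆, hcm x y⟩ : ↥(Subgroup.center ↥E))))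
    rwa [hE.2] at hpc
  obtain ⟨n, z, π, hs, ho, hk, -, hb⟩ := exists_frame hE hpow
  have hzp : z ^ p = 1 := ho ▸ pow_orderOf_eq_one z
  have hcen : ∀ x, x ∈ Subgroup.center ↥E → ∃ k : ZMod p, x = zp z k := by
    intro x hx
    have hle : Subgroup.center ↥E ≤ Subgroup.zpowers z := by
      rw [← hE.1.2.2, commutator_def, Subgroup.commutator_le]
      intro a _ b _
      rw [hb]
      exact Subgroup.pow_mem _ (Subgroup.mem_zpowers z) _
    obtain ⟨k, rfl⟩ := Subgroup.mem_zpowers_iff.1 (hle hx)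
    refine ⟨((k % (p : ℤ)).toNat : ℕ), ?_⟩
    rw [pow_zp hzp, ← zpow_natCast, Int.toNat_of_nonneg (Int.emod_nonneg _
      (by exact_mod_cast (Fact.out : p.Prime).ne_zero)), ← ho, zpow_mod_orderOf]
  rw [eq_top_iff]
  intro g _
  have hmem : ∀ x : ↥E, ∃ k : ZMod p, g * x * g⁻¹ * (x : G)⁻¹ = ((zp z k : ↥E) : G) := by
    intro x
    have hm := h (Subgroup.commutator_mem_commutator (Subgroup.mem_top g) x.2)
    rw [commutatorElement_def] at hm
    obtain ⟨k, hk'⟩ := hcen ⟨_, hm.1⟩ (Subgroup.mem_center_iff.2 fun y =>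
      Subtype.ext (Subgroup.mem_centralizer_iff.1 hm.2 y y.2))
    exact ⟨k, congrArg Subtype.val hk'⟩
  choose ψ hψ using hmem
  have hzc : ∀ (k : ZMod p) (y : ↥E), y * zp z k = zp z k * y := by
    intro k y
    have hzc' : z ∈ Subgroup.center ↥E := by
      have hcard : Nat.card ↥(Subgroup.zpowers z) ≤ Nat.card ↥(Subgroup.center ↥E) := by
        rw [Nat.card_zpowers, ho, hE.2]
      have hle : Subgroup.center ↥E ≤ Subgroup.zpowers z := fun x hx => by
        obtain ⟨j, rfl⟩ := hcen x hx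
        exact Subgroup.pow_mem _ (Subgroup.mem_zpowers z) _
      rw [Subgroup.eq_of_le_of_card_ge hle hcard]
      exact Subgroup.mem_zpowers z
    exact Subgroup.mem_center_iff.1 (Subgroup.pow_mem _ hzc' _) y
  have hψmul : ∀ x y : ↥E, ψ (x * y) = ψ x + ψ y := by
    intro x y
    refine zp_injective ho (Subtype.ext ?_)
    rw [zp_add hzp]
    show ((zp z (ψ (x * y)) : ↥E) : G) = ((zp z (ψ x) : ↥E) : G) * ((zp z (ψ y) : ↥E) : G)
    rw [← hψ (x * y), Subgroup.coe_mul]
    have e1 : (x : G) * ((zp z (ψ y) : ↥E) : G) = ((zp z (ψ y) : ↥E) : G) * x := congrArg Subtype.val (hzc _ x)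
    calc g * ((x : G) * y) * g⁻¹ * ((x : G) * y)⁻¹
        = (g * x * g⁻¹ * (x : G)⁻¹) * ((x : G) * (g * y * g⁻¹ * (y : G)⁻¹)) * (x : G)⁻¹ := by group
      _ = ((zp z (ψ x) : ↥E) : G) * (((zp z (ψ y) : ↥E) : G) * x) * (x : G)⁻¹ := by rw [hψ, hψ, e1]
      _ = _ := by group
  have hψone : ψ 1 = 0 := by
    have := hψmul 1 1
    rw [one_mul] at this
    linear_combination -this
  have hψinv : ∀ x, ψ x⁻¹ = -ψ x := fun x => by
    have := hψmul x⁻¹ x
    rw [inv_mul_cancel, hψone] at this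
    linear_combination -this
  have hψc : ∀ c ∈ Subgroup.center ↥E, ψ c = 0 := by
    intro c hc
    rw [← hE.1.2.2, commutator_eq_closure] at hc
    induction hc using Subgroup.closure_induction with
    | mem w hw =>
      obtain ⟨a, b, rfl⟩ := hw
      rw [commutatorElement_def, hψmul, hψmul, hψmul, hψinv, hψinv]; ring
    | one => exact hψone
    | mul a b _ _ ha hb => rw [hψmul, ha, hb, add_zero]
    | inv a _ ha => rw [hψinv, ha, neg_zero]
  have hfib : ∀ x y : ↥E, π x = π y → ψ x = ψ y := by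
    intro x y e
    have hmem' : x⁻¹ * y ∈ Subgroup.center ↥E := by
      obtain ⟨k, hk'⟩ := Subgroup.mem_zpowers_iff.1 ((hk (x⁻¹ * y)).1 (by rw [map_mul, map_inv, e, inv_mul_cancel]))
      rw [← hk']
      refine Subgroup.mem_center_iff.2 fun w => ?_
      have : Commute w z := by
        have := hzc 1 w
        rwa [zp, ZMod.val_one, pow_one] at this
      exact this.zpow_right k
    have := hψc _ hmem'
    rw [hψmul, hψinv] at this
    linear_combination -this
  choose sec hsec using fun v : Vp p n => hs (Multiplicative.ofAdd v)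
  let lam : Vp p n →+ ZMod p := AddMonoidHom.mk' (fun v => ψ (sec v)) fun u v => by
    rw [← hψmul]
    exact hfib _ _ (by rw [map_mul, hsec, hsec, hsec, ofAdd_add])
  let w : Vp p n := Sum.elim (fun i => lam (Pi.single (.inr i) 1)) (fun i => -lam (Pi.single (.inl i) 1))
  obtain ⟨e, he⟩ := hs (Multiplicative.ofAdd w)
  have hlam : ∀ v, lam v = sb n w v := by
    intro v
    conv_lhs => rw [← Finset.univ_sum_single v]
    rw [map_sum, Fintype.sum_sum_type, sb, ← Finset.sum_add_distrib]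
    refine Finset.sum_congr rfl fun i _ => ?_
    have hsingle : ∀ j, lam (Pi.single j (v j)) = v j * lam (Pi.single j 1) := fun j => by
      rw [← smul_eq_mul, ← ZMod.map_smul lam, ← Pi.single_smul', smul_eq_mul, mul_one]
    rw [hsingle, hsingle]
    simp only [w, Sum.elim_inl, Sum.elim_inr]
    ring
  have hc : (e : G)⁻¹ * g ∈ Subgroup.centralizer (E : Set G) := by
    refine Subgroup.mem_centralizer_iff.2 fun x hx => ?_
    have h1 : ψ ⟨x, hx⟩ = sb n w (π ⟨x, hx⟩).toAdd := by
      rw [← hlam]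
      exact hfib _ _ (by rw [hsec, ofAdd_toAdd])
    have h2 := congrArg Subtype.val (hb e ⟨x, hx⟩)
    rw [he, toAdd_ofAdd, ← h1, ← hψ ⟨x, hx⟩, commutatorElement_def] at h2
    simp only [Subgroup.coe_mul, InvMemClass.coe_inv] at h2
    have h3 : (e : G) * x * (e : G)⁻¹ = g * x * g⁻¹ := mul_right_cancel h2
    calc x * ((e : G)⁻¹ * g) = (e : G)⁻¹ * ((e : G) * x * (e : G)⁻¹) * g := by group
      _ = (e : G)⁻¹ * g * x := by rw [h3]; group
  have := Subgroup.mul_mem _ ((le_sup_left : E ≤ E ⊔ Subgroup.centralizer (E : Set G)) e.2)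
    ((le_sup_right : Subgroup.centralizer (E : Set G) ≤ E ⊔ Subgroup.centralizer (E : Set G)) hc)
  simpa using this

end Cfsg.Agent.S0110
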