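import Cfsg.Statements.S0114
import Cfsg.Agent.TwoGroup.MaximalClass
import Cfsg.Agent.TwoGroup.UniqueInvolution
import Cfsg.Agent.TwoGroup.CentralQuotient
import Cfsg.Agent.Eq.Def_Transfer

set_option autoImplicit false
open Cfsg

namespace Cfsg.Agent.S0114

/-- The central quotient of a 2-group of maximal class is dihedral. -/
theorem result {X : Type*} [Group X] [Finite X] (n : ℕ) (hn : 3 ≤ n) (hX : Nat.card X = 2 ^ n) (hc : Group.nilpotencyClass X = n - 1) : Nonempty (X ⧸ Subgroup.center X ≃* DihedralGroup (2 ^ (n - 2))) := by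
  obtain ⟨m, r, s, hm, hr, ⟨F⟩⟩ :=
    (CfsgLib.TwoGroup.isMaxClassType_of_nilpotencyClass hX hn hc).exists_maxType_frame
  have hnm : n = m + 1 := Nat.pow_right_injective le_rfl
    (show 2 ^ n = 2 ^ (m + 1) by rw [← hX, F.card_eq, pow_succ'])
  subst hnm
  rw [show m + 1 - 2 = m - 1 by omega]
  exact F.nonempty_centralQuotient_dihedral hm hr

end Cfsg.Agent.S0114
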