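import Cfsg.Statements.S0119
import Mathlib
import Cfsg.Agent.Eq.Def_Transfer
import Cfsg.Agent.PGroup.Commutator
import Cfsg.Agent.PGroup.Frattini
import Cfsg.Agent.PGroup.Normal
-- import your own Cfsg.Agent.* helpers here

set_option autoImplicit false
open Cfsg
open scoped commutatorElement

namespace Cfsg.Agent.S0119

/-- If a p'-group A of automorphisms of a p-group G satisfies G = [G, A] and acts trivially on every characteristic abelian subgroup, then G is special with centre equal to the fixed points of A. -/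
theorem result {G : Type*} [Group G] [Finite G] {p : ℕ} [Fact p.Prime] (hG : IsPGroup p G) (A : Subgroup (MulAut G)) (hA : Nat.Coprime (Nat.card A) p) (hGA : Subgroup.closure {x : G | ∃ g : G, ∃ a ∈ A, x = g⁻¹ * a g} = ⊤) (hchar : ∀ H : Subgroup G, H.Characteristic → IsMulCommutative H → ∀ a ∈ A, ∀ h ∈ H, a h = h) : Cfsg.IsSpecial p G ∧ (∀ g : G, (g ∈ Subgroup.center G ↔ ∀ a ∈ A, a g = g)) := by
  classical
  have hcenA : ∀ z ∈ Subgroup.center G, ∀ a ∈ A, a z = z := fun z hz a ha =>
    hchar _ inferInstance inferInstance a ha z hz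
  -- characteristic subgroups fixed pointwise are central
  have hfix : ∀ D : Subgroup G, D.Normal → (∀ a ∈ A, ∀ d ∈ D, a d = d) → D ≤ Subgroup.center G := by
    intro D hD hA' d hd
    rw [Subgroup.mem_center_iff]
    intro w
    have hw : w ∈ Subgroup.closure {x : G | ∃ g : G, ∃ a ∈ A, x = g⁻¹ * a g} := hGA ▸ Subgroup.mem_top w
    induction hw using Subgroup.closure_induction with
    | mem x hx =>
      obtain ⟨g, a, ha, rfl⟩ := hx
      have h1 := hA' a ha _ (hD.conj_mem d hd g)
      rw [map_mul, map_mul, map_inv, hA' a ha d hd] at h1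
      calc g⁻¹ * a g * d = g⁻¹ * (a g * d * (a g)⁻¹) * a g := by group
        _ = d * (g⁻¹ * a g) := by rw [h1]; group
    | one => simp
    | mul x y _ _ ihx ihy => rw [mul_assoc, ihy, ← mul_assoc, ihx, mul_assoc]
    | inv x _ ihx => exact (Commute.inv_left (show Commute x d from ihx)).eq
  have hab : ∀ D : Subgroup G, D.Characteristic → (∀ u ∈ D, ∀ w ∈ D, u * w = w * u) →
      D ≤ Subgroup.center G := fun D hD hc => hfix D inferInstance
    (fun a ha d hd => hchar D hD (IsMulCommutative.of_comm fun u w => Subtype.ext (hc u u.2 w w.2))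
      a ha d hd)
  -- class two
  have hcomm : ∀ a b : G, ⁅a, b⁆ ∈ Subgroup.center G := by
    suffices hle : commutator G ≤ Subgroup.center G from fun a b =>
      hle (Subgroup.commutator_mem_commutator (Subgroup.mem_top a) (Subgroup.mem_top b))
    by_contra hnot
    have h1 : ⁅⁅Subgroup.upperCentralSeries G 2, (⊤ : Subgroup G)⁆, (⊤ : Subgroup G)⁆ = ⊥ := by
      rw [Subgroup.commutator_eq_bot_iff_le_centralizer]
      refine le_trans ?_ (Subgroup.center_le_centralizer _)
      rw [Subgroup.commutator_le, ← Subgroup.upperCentralSeries_one]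
      intro a ha b _
      exact Subgroup.mem_upperCentralSeries_succ_iff.1 ha b
    have h2 : ⁅⁅(⊤ : Subgroup G), Subgroup.upperCentralSeries G 2⁆, (⊤ : Subgroup G)⁆ = ⊥ := by
      rwa [Subgroup.commutator_comm (⊤ : Subgroup G) (Subgroup.upperCentralSeries G 2)]
    have h3 := Subgroup.commutator_commutator_eq_bot_of_rotate h2 h1
    have hD : Subgroup.upperCentralSeries G 2 ⊓ commutator G ≤ Subgroup.center G :=
      hab _ inferInstance fun u hu w hw => by
        rw [← commutatorElement_eq_one_iff_mul_comm, ← Subgroup.mem_bot, ← h3]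
        exact Subgroup.commutator_mem_commutator hu.2 hw.1
    have hne : (commutator G).map (QuotientGroup.mk' (Subgroup.center G)) ≠ ⊥ := fun hb => by
      rw [Subgroup.map_eq_bot_iff, QuotientGroup.ker_mk'] at hb
      exact hnot hb
    haveI : ((commutator G).map (QuotientGroup.mk' (Subgroup.center G))).Normal :=
      Subgroup.Normal.map inferInstance _ (QuotientGroup.mk'_surjective _)
    obtain ⟨q, hq, hq1⟩ := (Subgroup.bot_or_exists_ne_one _).resolve_left
      (CfsgLib.PGroup.inf_center_ne_bot (hG.to_quotient (Subgroup.center G)) _ hne)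
    obtain ⟨⟨d, hd, rfl⟩, hdc⟩ := Subgroup.mem_inf.1 hq
    refine hq1 ((QuotientGroup.eq_one_iff d).2 (hD ⟨?_, hd⟩))
    show d ∈ Subgroup.upperCentralSeries G (1 + 1)
    rw [Subgroup.mem_upperCentralSeries_succ_iff, Subgroup.upperCentralSeries_one]
    intro t
    rw [← QuotientGroup.eq_one_iff]
    change (QuotientGroup.mk' (Subgroup.center G)) ⁅d, t⁆ = 1
    rw [map_commutatorElement, commutatorElement_eq_one_iff_mul_comm]
    exact (Subgroup.mem_center_iff.1 hdc _).symm
  have hcZ : commutator G ≤ Subgroup.center G := by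
    rw [commutator_def, Subgroup.commutator_le]
    exact fun a _ b _ => hcomm a b
  -- fixed points lie in the commutator subgroup
  have hfixle : ∀ g : G, (∀ a ∈ A, a g = g) → g ∈ commutator G := by
    intro g hg
    letI : Fintype A := Fintype.ofFinite A
    let T : G →* Abelianization G :=
      MonoidHom.mk' (fun h => ∏ a : A, Abelianization.of ((a : MulAut G) h)) (fun u w => by
        simp only [map_mul, Finset.prod_mul_distrib])
    have hT : ∀ h ∈ Subgroup.closure {x : G | ∃ g : G, ∃ a ∈ A, x = g⁻¹ * a g}, T h = 1 := by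
      intro h hh
      induction hh using Subgroup.closure_induction with
      | mem x hx =>
        obtain ⟨u, b, hb, rfl⟩ := hx
        rw [map_mul, map_inv, inv_mul_eq_one]
        show ∏ a : A, Abelianization.of ((a : MulAut G) u) =
          ∏ a : A, Abelianization.of ((a : MulAut G) (b u))
        exact (Fintype.prod_equiv (Equiv.mulRight (⟨b, hb⟩ : A)) _ _ (fun a => rfl)).symm
      | one => exact map_one T
      | mul x y _ _ ihx ihy => rw [map_mul, ihx, ihy, one_mul]
      | inv x _ ihx => rw [map_inv, ihx, inv_one]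
    have h1 : Abelianization.of g ^ Nat.card A = 1 := by
      have h2 := hT g (hGA ▸ Subgroup.mem_top g)
      have h3 : T g = ∏ a : A, Abelianization.of g := Finset.prod_congr rfl fun a _ => by
        rw [hg a a.2]
      rw [h3, Finset.prod_const, Finset.card_univ, ← Nat.card_eq_fintype_card] at h2
      exact h2
    obtain ⟨k, hk⟩ := hG g
    have h2 : Abelianization.of g ^ p ^ k = 1 := by rw [← map_pow, hk, map_one]
    have h4 := pow_gcd_eq_one.2 ⟨h1, h2⟩
    rw [Nat.Coprime.pow_right k hA |>.gcd_eq_one, pow_one] at h4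
    rw [← Abelianization.ker_of G]
    exact h4
  have hZeq : commutator G = Subgroup.center G :=
    le_antisymm hcZ fun z hz => hfixle z (hcenA z hz)
  -- commutators have order dividing `p`
  have hexp : ∀ a b : G, ⁅a, b⁆ ^ p = 1 := by
    have hex : ∃ k, ∀ a b : G, ⁅a, b⁆ ^ p ^ k = 1 := by
      obtain ⟨n, hn⟩ := IsPGroup.iff_card.1 hG
      exact ⟨n, fun a b => by rw [← hn]; exact pow_card_eq_one'⟩
    have hk := Nat.find_spec hex
    rcases hkk : Nat.find hex with _ | _ | k
    · intro a b
      have := hk a b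
      rw [hkk, pow_zero, pow_one] at this
      rw [this, one_pow]
    · intro a b
      have := hk a b
      rwa [hkk, zero_add, pow_one] at this
    exfalso
    rw [hkk] at hk
    refine Nat.find_min hex (show k + 1 < Nat.find hex by omega) fun a b => ?_
    let n := p ^ (k + 1)
    have hpow : ∀ u w : G, ⁅u ^ n, w ^ n⁆ = 1 := by
      intro u w
      rw [CfsgLib.PGroup.commutatorElement_pow_left' hcomm,
        CfsgLib.PGroup.commutatorElement_pow_right' hcomm, ← pow_mul]
      obtain ⟨r, hr⟩ : p ^ (k + 1 + 1) ∣ n * n := by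
        rw [← pow_add]; exact pow_dvd_pow p (by omega)
      rw [hr, pow_mul, hk, one_pow]
    have hMchar : (Subgroup.closure (Set.range fun u : G => u ^ n)).Characteristic := by
      rw [Subgroup.characteristic_iff_map_le]
      intro φ
      rw [MonoidHom.map_closure, Subgroup.closure_le]
      rintro _ ⟨_, ⟨u, rfl⟩, rfl⟩
      exact Subgroup.subset_closure ⟨φ u, (map_pow φ u n).symm⟩
    have hM := hab _ hMchar fun u hu w hw => by
      refine (Subgroup.closure_le (Subgroup.centralizer {w})).2 ?_ hu |>
        Subgroup.mem_centralizer_singleton_iff.1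
      rintro _ ⟨r, rfl⟩
      rw [SetLike.mem_coe, Subgroup.mem_centralizer_singleton_iff]
      refine ((Subgroup.closure_le (Subgroup.centralizer {r ^ n})).2 ?_ hw |>
        Subgroup.mem_centralizer_singleton_iff.1).symm
      rintro _ ⟨t, rfl⟩
      rw [SetLike.mem_coe, Subgroup.mem_centralizer_singleton_iff,
        ← commutatorElement_eq_one_iff_mul_comm]
      exact hpow t r
    have hz : a ^ n ∈ Subgroup.center G := hM (Subgroup.subset_closure ⟨a, rfl⟩)
    rw [← CfsgLib.PGroup.commutatorElement_pow_left' hcomm, commutatorElement_eq_one_iff_mul_comm]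
    exact (Subgroup.mem_center_iff.1 hz b).symm
  have hpZ : ∀ x : G, x ^ p ∈ Subgroup.center G := fun x => by
    rw [Subgroup.mem_center_iff]
    intro y
    refine (commutatorElement_eq_one_iff_mul_comm.1 ?_).symm
    rw [CfsgLib.PGroup.commutatorElement_pow_left' hcomm, hexp]
  refine ⟨⟨hG, le_antisymm (CfsgLib.PGroup.frattini_le_of_elementary hcomm hpZ)
    (hZeq ▸ CfsgLib.PGroup.commutator_le_frattini hG), hZeq⟩, fun g => ⟨fun hg => hcenA g hg,
    fun hg => hcZ (hfixle g hg)⟩⟩

end Cfsg.Agent.S0119
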