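import Cfsg.Statements.S0120
import Mathlib
import Cfsg.Agent.Coprime.FixOrderP

set_option autoImplicit false
open Cfsg

namespace Cfsg.Agent.S0120

/-- For odd p, a p'-automorphism of a p-group acting trivially on the elements of order dividing p is trivial. -/
theorem result {G : Type*} [Group G] [Finite G] {p : ℕ} [Fact p.Prime] (hp : p ≠ 2) (hG : IsPGroup p G) (a : MulAut G) (ha : Nat.Coprime (orderOf a) p) (h : ∀ x : G, x ^ p = 1 → a x = x) : a = 1 := by
  let φ : Subgroup.zpowers a →* MulAut G := (Subgroup.zpowers a).subtype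
  let b : Subgroup.zpowers a := ⟨a, Subgroup.mem_zpowers a⟩
  haveI : Finite (G ⋊[φ] Subgroup.zpowers a) := Finite.of_equiv _ SemidirectProduct.equivProd.symm
  set R := (SemidirectProduct.inl : G →* G ⋊[φ] Subgroup.zpowers a).range with hR
  have hord : (orderOf (SemidirectProduct.inr b : G ⋊[φ] Subgroup.zpowers a)).Coprime p := by
    rw [orderOf_injective _ SemidirectProduct.inr_injective, Subgroup.orderOf_mk]
    exact ha
  have hN : (SemidirectProduct.inr b : G ⋊[φ] Subgroup.zpowers a) ∈
      Subgroup.normalizer (R : Set (G ⋊[φ] Subgroup.zpowers a)) := by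
    rw [hR, SemidirectProduct.range_inl_eq_ker_rightHom, Subgroup.normalizer_eq_top]
    exact Subgroup.mem_top _
  have hRp : IsPGroup p R := hG.of_equiv
    (MonoidHom.ofInjective (f := (SemidirectProduct.inl : G →* G ⋊[φ] Subgroup.zpowers a))
      SemidirectProduct.inl_injective)
  have key := CfsgLib.Coprime.fixes_of_fixes_order_p hp _ hord R hRp hN ?_
  · ext x
    have h1 := key (SemidirectProduct.inl x) ⟨x, rfl⟩
    have h2 := SemidirectProduct.inl_aut (φ := φ) b x
    rw [h1, mul_assoc, ← map_mul, mul_inv_cancel, map_one, mul_one] at h2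
    exact SemidirectProduct.inl_injective h2
  · rintro _ ⟨x, rfl⟩ hxp
    have hx : x ^ p = 1 := SemidirectProduct.inl_injective (by rw [map_pow, hxp, map_one])
    have h2 := SemidirectProduct.inl_aut (φ := φ) b x
    rw [show φ b x = x from h x hx] at h2
    calc (SemidirectProduct.inr b : G ⋊[φ] Subgroup.zpowers a) * SemidirectProduct.inl x
        = SemidirectProduct.inr b * SemidirectProduct.inl x * SemidirectProduct.inr b⁻¹ *
            SemidirectProduct.inr b := by
          rw [mul_assoc _ (SemidirectProduct.inr b⁻¹), ← map_mul, inv_mul_cancel, map_one, mul_one]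
      _ = SemidirectProduct.inl x * SemidirectProduct.inr b := by rw [← h2]

end Cfsg.Agent.S0120
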