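import Cfsg.Statements.S0123
import Cfsg.Agent.PGroup.ClassThree
open scoped commutatorElement

set_option autoImplicit false
open Cfsg

namespace Cfsg.Agent.S0123


/-- For a p-group of small class relative to p (class ≤ 2 with p odd, or class ≤ 3 with p > 3) whose derived subgroup is generated by elements of order dividing p, the p-th power map is multiplicative. -/
theorem result {R : Type*} [Group R] [Finite R] {p : ℕ} [Fact p.Prime] (hR : IsPGroup p R) (hcl : (p ≠ 2 ∧ ⁅commutator R, (⊤ : Subgroup R)⁆ = ⊥) ∨ (3 < p ∧ ⁅⁅commutator R, (⊤ : Subgroup R)⁆, (⊤ : Subgroup R)⁆ = ⊥)) (hder : commutator R ≤ Subgroup.closure {x : R | x ^ p = 1}) (x y : R) : (x * y) ^ p = x ^ p * y ^ p := by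
  have hprime : p.Prime := Fact.out
  have hp : p ≠ 2 := by rcases hcl with ⟨h, -⟩ | ⟨h, -⟩; exacts [h, by omega]
  have hcen : ∀ a ∈ ⁅commutator R, (⊤ : Subgroup R)⁆, ∀ g : R, a * g = g * a := by
    intro a ha g
    rcases hcl with ⟨-, h⟩ | ⟨-, h⟩
    · rw [h, Subgroup.mem_bot] at ha
      rw [ha, one_mul, mul_one]
    · rw [eq_bot_iff, Subgroup.commutator_le] at h
      exact commutatorElement_eq_one_iff_mul_comm.1
        (Subgroup.mem_bot.1 (h a ha g (Subgroup.mem_top g)))
  have h3 : p ∣ p.choose 3 ∨ ∀ a ∈ ⁅commutator R, (⊤ : Subgroup R)⁆, a = 1 := by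
    rcases hcl with ⟨-, h⟩ | ⟨h, -⟩
    · exact Or.inr fun a ha => Subgroup.mem_bot.1 (h ▸ ha)
    · exact Or.inl (hprime.dvd_choose_self (by norm_num) h)
  exact CfsgLib.PGroup.mul_pow_of_class_three hcen
    (CfsgLib.PGroup.dvd_choose_two_of_odd (hprime.odd_of_ne_two hp)) h3
    (CfsgLib.PGroup.pow_eq_one_of_mem_closure (hprime.odd_of_ne_two hp) hcen h3
      (hder (Subgroup.commutator_mem_commutator (Subgroup.mem_top _) (Subgroup.mem_top _))))

end Cfsg.Agent.S0123
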