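import Cfsg.Statements.S0125
import Cfsg.Agent.Eq.Def_Transfer
import Mathlib.Tactic.Group

set_option autoImplicit false
open Cfsg

namespace Cfsg.Agent.S0125

theorem pSubgroup_le {G : Type*} [Group G] [Finite G] {p : ℕ} [Fact p.Prime] (R : Sylow p G)
    (A : Subgroup G) (hAn : (R : Subgroup G) ≤ Subgroup.normalizer (A : Set G))
    (hC : (R : Subgroup G) ⊓ Subgroup.centralizer (A : Set G) = A)
    (S : Subgroup (Subgroup.centralizer (A : Set G))) (hS : IsPGroup p S) :
    S ≤ A.subgroupOf (Subgroup.centralizer (A : Set G)) := by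
  set C := Subgroup.centralizer (A : Set G)
  set N := Subgroup.normalizer (A : Set G)
  intro s hs
  rw [Subgroup.mem_subgroupOf]
  have hCN : C ≤ N := Subgroup.centralizer_le_normalizer _
  obtain ⟨T, hT⟩ := (hS.map (Subgroup.inclusion hCN)).exists_le_sylow
  obtain ⟨n, hn⟩ := MulAction.exists_smul_eq N T (R.subtype hAn)
  have hsT : Subgroup.inclusion hCN s ∈ (T : Subgroup N) :=
    hT (Subgroup.mem_map.mpr ⟨s, hs, rfl⟩)
  have hnsR : n * Subgroup.inclusion hCN s * n⁻¹ ∈ ((R.subtype hAn : Sylow p N) : Subgroup N) := by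
    rw [← hn]
    exact Subgroup.mem_map.mpr ⟨_, hsT, rfl⟩
  rw [Sylow.coe_subtype, Subgroup.mem_subgroupOf] at hnsR
  simp only [Subgroup.coe_mul, Subgroup.coe_inv, Subgroup.coe_inclusion] at hnsR
  have hcent : (n : G) * s * (n : G)⁻¹ ∈ C := by
    refine Subgroup.mem_centralizer_iff.mpr fun a ha => ?_
    have h2 : (n : G)⁻¹ * a * n ∈ A := (Subgroup.mem_normalizer_iff''.mp n.2 a).mp ha
    have h3 := Subgroup.mem_centralizer_iff.mp s.2 _ h2
    calc a * ((n : G) * s * (n : G)⁻¹) = n * (((n : G)⁻¹ * a * n) * s) * (n : G)⁻¹ := by group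
      _ = n * ((s : G) * ((n : G)⁻¹ * a * n)) * (n : G)⁻¹ := by rw [h3]
      _ = _ := by group
  have hA : (n : G) * s * (n : G)⁻¹ ∈ A := hC.le ⟨hnsR, hcent⟩
  exact (Subgroup.mem_normalizer_iff.mp n.2 _).mpr hA

/-- `A` as a Sylow subgroup of its centralizer. -/
noncomputable def sylowA {G : Type*} [Group G] [Finite G] {p : ℕ} [Fact p.Prime] (R : Sylow p G)
    (A : Subgroup G) (hAR : A ≤ (R : Subgroup G))
    (hAn : (R : Subgroup G) ≤ Subgroup.normalizer (A : Set G))
    (hC : (R : Subgroup G) ⊓ Subgroup.centralizer (A : Set G) = A) :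
    Sylow p (Subgroup.centralizer (A : Set G)) where
  toSubgroup := A.subgroupOf (Subgroup.centralizer (A : Set G))
  isPGroup' := (R.2.to_le hAR).comap_of_injective _ (Subgroup.subtype_injective _)
  is_maximal' := fun hS hle => le_antisymm (pSubgroup_le R A hAn hC _ hS) hle

/-- The centralizer of a self-centralizing normal subgroup A of a Sylow p-subgroup is the direct product of A with a normal p'-subgroup. -/
theorem result {G : Type*} [Group G] [Finite G] {p : ℕ} [Fact p.Prime] (R : Sylow p G) (A : Subgroup G) (hAR : A ≤ (R : Subgroup G)) (hAn : (R : Subgroup G) ≤ Subgroup.normalizer (A : Set G)) (hC : (R : Subgroup G) ⊓ Subgroup.centralizer (A : Set G) = A) : ∃ H : Subgroup G, H ≤ Subgroup.centralizer (A : Set G) ∧ Nat.Coprime (Nat.card H) p ∧ Subgroup.centralizer (A : Set G) ≤ Subgroup.normalizer (H : Set G) ∧ H ⊓ A = ⊥ ∧ H ⊔ A = Subgroup.centralizer (A : Set G) := by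
  set C := Subgroup.centralizer (A : Set G) with hCdef
  have hA_C : A ≤ C := hC ▸ inf_le_right
  set N := Subgroup.normalizer (A : Set G) with hNdef
  have hCN : C ≤ N := Subgroup.centralizer_le_normalizer _
  obtain ⟨Q, hQ⟩ : ∃ Q : Sylow p C, (Q : Subgroup C) = A.subgroupOf C :=
    ⟨sylowA R A hAR hAn hC, rfl⟩
  have hcen : Subgroup.normalizer (Q : Set C) ≤ Subgroup.centralizer (Q : Set C) := by
    intro c _
    rw [Subgroup.mem_centralizer_iff]
    intro z hz
    have hz' : z ∈ (Q : Subgroup C) := hz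
    rw [hQ, Subgroup.mem_subgroupOf] at hz'
    exact Subtype.ext (c.2 z hz')
  have hcop := MonoidHom.not_dvd_card_ker_transferSylow Q hcen
  have hcompl := MonoidHom.ker_transferSylow_isComplement' Q hcen
  obtain ⟨K, hKn, hK⟩ : ∃ K : Subgroup C, K.Normal ∧ (MonoidHom.transferSylow Q hcen).ker = K :=
    ⟨_, MonoidHom.normal_ker _, rfl⟩
  rw [hK] at hcop hcompl
  have hA' : ((Q : Subgroup C)).map C.subtype = A := by
    rw [hQ]; exact Subgroup.map_subgroupOf_eq_of_le hA_C
  refine ⟨K.map C.subtype, Subgroup.map_subtype_le K, ?_, ?_, ?_, ?_⟩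
  · rw [Subgroup.card_map_of_injective C.subtype_injective]
    rw [Nat.coprime_comm, Nat.Prime.coprime_iff_not_dvd Fact.out]
    exact hcop
  · intro c hc
    rw [Subgroup.mem_normalizer_iff]
    intro k
    constructor
    · rintro ⟨k', hk', rfl⟩
      exact ⟨⟨c, hc⟩ * k' * ⟨c, hc⟩⁻¹, hKn.conj_mem k' hk' _, rfl⟩
    · rintro ⟨k', hk', hkk⟩
      refine ⟨⟨c, hc⟩⁻¹ * k' * ⟨c, hc⟩, ?_, ?_⟩
      · simpa using hKn.conj_mem k' hk' (⟨c, hc⟩⁻¹)
      · simp only [Subgroup.coe_subtype] at hkk ⊢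
        simp [hkk, mul_assoc]
  · conv_lhs => rw [← hA']
    rw [← Subgroup.map_inf _ _ _ C.subtype_injective, hcompl.disjoint.eq_bot, Subgroup.map_bot]
  · conv_lhs => rw [← hA']
    rw [← Subgroup.map_sup, hcompl.sup_eq_top, ← MonoidHom.range_eq_map, Subgroup.range_subtype]

end Cfsg.Agent.S0125
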