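import Cfsg.Statements.S0129
import Cfsg.Agent.PGroup.Abelian
import Cfsg.Agent.PGroup.BurnsideCount

set_option autoImplicit false
open Cfsg

namespace Cfsg.Agent.S0129


/-- The order of a p-group is bounded by p^(a(a+1)/2) when it has a maximal normal abelian subgroup of order p^a. -/
theorem result {G : Type*} [Group G] [Finite G] {p : ℕ} [Fact p.Prime] (hG : IsPGroup p G) (A : Subgroup G) [A.Normal] (hA : IsMulCommutative A) (hmax : ∀ B : Subgroup G, B.Normal → IsMulCommutative B → A ≤ B → B = A) (a : ℕ) (ha : Nat.card A = p ^ a) : Nat.card G ≤ p ^ (a * (a + 1) / 2) := by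
  classical
  have hp : p.Prime := Fact.out
  have hC : Subgroup.centralizer (A : Set G) = A :=
    CfsgLib.PGroup.centralizer_eq_of_maximal_normal_abelian hG
      ⟨⟨inferInstance, hA⟩, fun B hB hAB => (hmax B hB.1 hB.2 hAB).le⟩
  let φ : G →* MulAut A := MulAut.conjNormal
  have hker : φ.ker = A := by
    conv_rhs => rw [← hC]
    ext g
    rw [MonoidHom.mem_ker, MulEquiv.ext_iff, Subgroup.mem_centralizer_iff]
    constructor
    · intro h b hb
      have := congrArg (fun z : A => (z : G)) (h ⟨b, hb⟩)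
      simp only [φ, MulAut.conjNormal_apply, MulAut.one_apply] at this
      exact (mul_inv_eq_iff_eq_mul.1 this).symm
    · intro h b
      refine Subtype.ext ?_
      simp only [φ, MulAut.conjNormal_apply, MulAut.one_apply]
      rw [mul_inv_eq_iff_eq_mul, h b b.2]
  obtain ⟨r, hr, hri⟩ := (Nat.dvd_prime_pow hp).1 (ha ▸ (frattini A).index_dvd_card)
  have hdvd : A.index ∣ p ^ (r * (a - r)) * ∏ i ∈ Finset.range r, (p ^ r - p ^ i) := by
    refine dvd_trans ?_ (CfsgLib.PGroup.card_aut_dvd ha hri)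
    conv_lhs => rw [← hker, Subgroup.index_ker]
    exact Subgroup.card_subgroup_dvd_card _
  obtain ⟨j, hj⟩ := IsPGroup.iff_card.1 hG
  obtain ⟨k, -, hk⟩ := (Nat.dvd_prime_pow hp).1 (hj ▸ A.index_dvd_card)
  have hfac : ∏ i ∈ Finset.range r, (p ^ r - p ^ i) =
      p ^ (∑ i ∈ Finset.range r, i) * ∏ i ∈ Finset.range r, (p ^ (r - i) - 1) := by
    rw [← Finset.prod_pow_eq_pow_sum, ← Finset.prod_mul_distrib]
    refine Finset.prod_congr rfl fun i hi => ?_
    rw [Nat.mul_sub_one, ← pow_add, Nat.add_sub_cancel' (Finset.mem_range.1 hi).le]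
  have hco : Nat.Coprime (p ^ k) (∏ i ∈ Finset.range r, (p ^ (r - i) - 1)) := by
    refine Nat.Coprime.pow_left _ (Nat.Coprime.prod_right fun i hi => ?_)
    rw [hp.coprime_iff_not_dvd]
    intro h
    have h1 : p ∣ p ^ (r - i) :=
      dvd_pow_self p (by have := Finset.mem_range.1 hi; omega)
    have h2 := Nat.dvd_sub h1 h
    rw [Nat.sub_sub_self (Nat.one_le_pow _ _ hp.pos)] at h2
    exact hp.not_dvd_one h2
  rw [hk, hfac, ← mul_assoc, ← pow_add] at hdvd
  have hle := (Nat.pow_le_pow_iff_right hp.one_lt).1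
    (Nat.le_of_dvd (pow_pos hp.pos _) (hco.dvd_of_dvd_mul_right hdvd))
  rw [← A.card_mul_index, ha, hk, ← pow_add]
  refine Nat.pow_le_pow_right hp.pos ?_
  have h2 : (∑ i ∈ Finset.range r, i) * 2 = r * (r - 1) := Finset.sum_range_id_mul_two r
  obtain ⟨d, rfl⟩ := Nat.exists_eq_add_of_le hr
  rw [Nat.add_sub_cancel_left] at hle
  rw [Nat.le_div_iff_mul_le two_pos]
  rcases r with _ | r <;> rcases d with _ | d <;> simp at h2 hle ⊢ <;> nlinarith

end Cfsg.Agent.S0129
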