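import Cfsg.Statements.S0130
import Cfsg.Agent.PGroup.NormalRank

set_option autoImplicit false
open Cfsg

namespace Cfsg.Agent.S0130


/-- If A is maximal among the normal abelian subgroups of exponent dividing p^n of a p-group (p^n ≠ 2), then A contains every element of order dividing p^n in its centralizer. -/
theorem result {G : Type*} [Group G] [Finite G] {p : ℕ} [Fact p.Prime] (hG : IsPGroup p G) (n : ℕ) (hn : p ^ n ≠ 2) (A : Subgroup G) [A.Normal] (hA : IsMulCommutative A) (hAe : ∀ a ∈ A, a ^ p ^ n = 1) (hmax : ∀ B : Subgroup G, B.Normal → IsMulCommutative B → (∀ b ∈ B, b ^ p ^ n = 1) → A ≤ B → B = A) (x : G) (hx : x ∈ Subgroup.centralizer (A : Set G)) (hxn : x ^ p ^ n = 1) : x ∈ A := by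
  haveI : Group.IsNilpotent G := hG.isNilpotent
  refine CfsgLib.PGroup.mem_of_maximal_normalAbelianExp' ?_
    (⟨⟨inferInstance, hA, hAe⟩, fun B hB hAB => (hmax B hB.1 hB.2.1 hB.2.2 hAB).le⟩ :
      Maximal (CfsgLib.PGroup.NormalAbelianExp (p ^ n)) A) hx hxn
  rcases (Fact.out : p.Prime).eq_two_or_odd' with rfl | hodd
  · rcases (show n = 0 ∨ n = 1 ∨ 2 ≤ n by omega) with rfl | rfl | h2
    · exact Or.inl (by norm_num)
    · exact absurd rfl hn
    · exact Or.inr (pow_dvd_pow 2 h2)
  · exact Or.inl hodd.pow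

end Cfsg.Agent.S0130
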