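import Cfsg.Statements.S0131
import Cfsg.Agent.Eq.Def_Transfer
import Mathlib.Tactic.Group

set_option autoImplicit false
open Cfsg
open scoped commutatorElement

namespace Cfsg.Agent.S0131

/-- P/P' has a normal complement in G exactly when the focal subgroup G' ∩ P is as small as possible, namely P'. -/
theorem result {G : Type*} [Group G] [Finite G] {p : ℕ} [Fact p.Prime] (P : Sylow p G) : (∃ N : Subgroup G, N.Normal ∧ N ⊓ (P : Subgroup G) = ⁅(P : Subgroup G), (P : Subgroup G)⁆ ∧ N ⊔ (P : Subgroup G) = ⊤) ↔ commutator G ⊓ (P : Subgroup G) = ⁅(P : Subgroup G), (P : Subgroup G)⁆ := by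
  constructor
  · rintro ⟨N, hN, hinf, hsup⟩
    apply le_antisymm
    · have hcomm : commutator G ≤ N ⊔ ⁅(P : Subgroup G), (P : Subgroup G)⁆ := by
        rw [commutator_def]
        refine Subgroup.commutator_le.mpr ?_
        intro a _ b _
        obtain ⟨n, hn, u, hu, rfl⟩ := Subgroup.mem_sup_of_normal_left.mp (hsup ▸ Subgroup.mem_top a)
        obtain ⟨m, hm, v, hv, rfl⟩ := Subgroup.mem_sup_of_normal_left.mp (hsup ▸ Subgroup.mem_top b)
        have huv : (⁅u, v⁆ : G) ∈ N :=
          (hinf.ge (Subgroup.commutator_mem_commutator hu hv)).1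
        apply Subgroup.mem_sup_left
        rw [← QuotientGroup.eq_one_iff]
        rw [← QuotientGroup.eq_one_iff] at huv hn hm
        simp only [commutatorElement_def, QuotientGroup.mk_mul, QuotientGroup.mk_inv] at huv ⊢
        simp [hn, hm, huv]
      have hN' : N ⊔ ⁅(P : Subgroup G), (P : Subgroup G)⁆ ≤ N :=
        sup_le le_rfl (hinf ▸ inf_le_left)
      exact (inf_le_inf_right _ (hcomm.trans hN')).trans hinf.le
    · exact le_inf (Subgroup.commutator_mono le_top le_top) (Subgroup.commutator_le_self _)
  · intro h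
    refine ⟨(P : Subgroup G).transferFocal.ker, inferInstance, ?_, ?_⟩
    · rw [Subgroup.ker_transferFocal_inf_eq_focalSubgroup, ← Subgroup.commutator_inf_eq_focalSubgroup, h]
    · rw [eq_top_iff]
      intro g _
      obtain ⟨q, hq⟩ := Subgroup.focalSubgroupOf.pow_index_surjective P ((P : Subgroup G).transferFocal g)
      obtain ⟨x, rfl⟩ := QuotientGroup.mk'_surjective _ q
      have hx : (P : Subgroup G).transferFocal (g * (x : G)⁻¹) = 1 := by
        rw [map_mul, map_inv, Subgroup.transferFocal_eq_pow]
        exact mul_inv_eq_one.mpr hq.symm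
      have : g = g * (x : G)⁻¹ * (x : G) := by group
      rw [this]
      exact Subgroup.mul_mem_sup hx x.2

end Cfsg.Agent.S0131
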