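import Cfsg.Statements.S0137
import Cfsg.Agent.Chars.Basic
import Cfsg.Agent.Eq.Def_Characters

set_option autoImplicit false
open Cfsg

namespace Cfsg.Agent.S0137

open CfsgLib.Chars

/-- A character value of a finite group has absolute value at most the degree of the representation. -/
theorem result {G : Type*} [Group G] [Finite G] {V : Type*} [AddCommGroup V] [Module ℂ V] [FiniteDimensional ℂ V] (ρ : Representation ℂ G V) (g : G) : ‖ρ.character g‖ ≤ (Module.finrank ℂ V : ℝ) := by
  refine (norm_apply_le (isCharacter_character ρ) g).trans_eq ?_
  simp

end Cfsg.Agent.S0137
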