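import Cfsg.Statements.S0138
import Cfsg.Agent.Chars.Basic
import Cfsg.Agent.Chars.Apps.RootSums
import Cfsg.Agent.Eq.Def_Characters

set_option autoImplicit false
open Cfsg

namespace Cfsg.Agent.S0138

open CfsgLib.Chars

/-- A character value has absolute value equal to the degree exactly when the group element acts by a scalar. -/
theorem result {G : Type*} [Group G] [Finite G] {V : Type*} [AddCommGroup V] [Module ℂ V] [FiniteDimensional ℂ V] (ρ : Representation ℂ G V) (g : G) : ‖ρ.character g‖ = (Module.finrank ℂ V : ℝ) ↔ ∃ ω : ℂ, ρ g = ω • (LinearMap.id : V →ₗ[ℂ] V) := by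
  set e := (Module.finBasis ℂ V).equivFun
  have hc : (transportRep ρ e).character = ρ.character := transportRep_character ρ e
  constructor
  · intro h
    obtain ⟨c, hc'⟩ := CfsgLib.Chars.Apps.exists_smul_of_norm_char_eq (transportRep ρ e) g
      (by rw [hc]; exact h)
    refine ⟨c, LinearMap.ext fun v => e.injective ?_⟩
    have := LinearMap.congr_fun hc' (e v)
    rw [transportRep_apply, e.symm_apply_apply] at this
    simpa using this
  · rintro ⟨ω, hω⟩
    have hn : ρ.character g = ω * (Module.finrank ℂ V : ℂ) := by
      simp [Representation.character, hω, LinearMap.map_smul]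
    rcases Nat.eq_zero_or_pos (Module.finrank ℂ V) with h0 | h0
    · simp [hn, h0]
    have : Nontrivial V := Module.nontrivial_of_finrank_pos h0
    obtain ⟨v, hv⟩ := exists_ne (0 : V)
    have hpow : ∀ k : ℕ, (ρ (g ^ k)) v = ω ^ k • v := by
      intro k
      induction k with
      | zero => simp
      | succ k ih =>
        rw [pow_succ', map_mul, Module.End.mul_apply, ih, map_smul, hω]
        simp [smul_smul, pow_succ]
    have h1 := hpow (orderOf g)
    rw [pow_orderOf_eq_one, map_one, Module.End.one_apply] at h1
    have h2 : ω ^ orderOf g = 1 := by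
      by_contra hne
      apply hv
      have h3 : (ω ^ orderOf g - 1) • v = 0 := by rw [sub_smul, one_smul, ← h1, sub_self]
      exact (smul_eq_zero.1 h3).resolve_left (sub_ne_zero.2 hne)
    rw [hn, norm_mul, norm_eq_one_of_pow_orderOf h2, one_mul, Complex.norm_natCast]

end Cfsg.Agent.S0138
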