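import Cfsg.Statements.S0139
import Cfsg.Agent.Chars.Basic
import Cfsg.Agent.Eq.Def_Characters

set_option autoImplicit false
open Cfsg

namespace Cfsg.Agent.S0139

open CfsgLib.Chars

/-- The kernel of a complex representation of a finite group is the set of elements where the character equals the degree. -/
theorem result {G : Type*} [Group G] [Finite G] {V : Type*} [AddCommGroup V] [Module ℂ V] [FiniteDimensional ℂ V] (ρ : Representation ℂ G V) (g : G) : ρ.character g = (Module.finrank ℂ V : ℂ) ↔ ρ g = LinearMap.id := by
  set e := (Module.finBasis ℂ V).equivFun
  have hc : (transportRep ρ e).character = ρ.character := transportRep_character ρ e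
  constructor
  · intro h
    have h' := rep_eq_one_of_character_eq (transportRep ρ e) (g := g) (by rw [hc, h]; simp)
    refine LinearMap.ext fun v => e.injective ?_
    have := LinearMap.congr_fun h' (e v)
    rw [transportRep_apply, e.symm_apply_apply] at this
    simpa using this
  · intro h
    simp [Representation.character, h]

end Cfsg.Agent.S0139
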