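import Cfsg.Statements.S0142
import Cfsg.Agent.Chars.Basic
import Cfsg.Agent.Chars.Apps.RootSums
import Cfsg.Agent.Eq.Def_Characters

set_option autoImplicit false
open Cfsg

namespace Cfsg.Agent.S0142

open CfsgLib.Chars

/-- If the degree of an irreducible complex representation of a finite group is coprime to the size of the conjugacy class of g, then the character at g is zero or has absolute value equal to the degree. -/
theorem result {G : Type*} [Group G] [Finite G] {V : Type*} [AddCommGroup V] [Module ℂ V] [FiniteDimensional ℂ V] (ρ : Representation ℂ G V) [ρ.IsIrreducible] (g : G) (hcop : Nat.Coprime (Module.finrank ℂ V) (Subgroup.centralizer ({g} : Set G)).index) : ρ.character g = 0 ∨ ‖ρ.character g‖ = (Module.finrank ℂ V : ℝ) := by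
  set e := (Module.finBasis ℂ V).equivFun
  have hc : (transportRep ρ e).character = ρ.character := transportRep_character ρ e
  have hI := isIntegral_centralChar ⟨ρ.character, isIrrCharacter_character ρ ‹_›⟩ g
  simp only [Cfsg.centralChar, Representation.char_one] at hI
  obtain ⟨a, b, hab⟩ := Int.isCoprime_iff_gcd_eq_one.2
    (show Int.gcd (Module.finrank ℂ V : ℤ) ((Subgroup.centralizer ({g} : Set G)).index : ℤ) = 1
      from hcop)
  have hn : (Module.finrank ℂ V : ℂ) ≠ 0 := by
    have := map_one_ne_zero ⟨ρ.character, isIrrCharacter_character ρ ‹_›⟩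
    simpa using this
  have hint : IsIntegral ℤ (ρ.character g / (Module.finrank ℂ V : ℂ)) := by
    have h1 : (a : ℂ) * (Module.finrank ℂ V : ℂ) +
        (b : ℂ) * ((Subgroup.centralizer ({g} : Set G)).index : ℂ) = 1 := by exact_mod_cast hab
    have h2 : ρ.character g / (Module.finrank ℂ V : ℂ) = (a : ℂ) * ρ.character g +
        (b : ℂ) * (((Subgroup.centralizer ({g} : Set G)).index : ℂ) * ρ.character g /
          (Module.finrank ℂ V : ℂ)) := by
      field_simp
      linear_combination (-ρ.character g) * h1
    rw [h2]
    exact (isIntegral_algebraMap.mul (isIntegral_apply (isCharacter_character ρ) g)).add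
      (isIntegral_algebraMap.mul hI)
  have h := CfsgLib.Chars.Apps.char_eq_zero_or_norm_eq (transportRep ρ e) g
    (by rw [hc]; exact hint)
  rwa [hc] at h

end Cfsg.Agent.S0142
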