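import Cfsg.Statements.S0149
import Mathlib
import Cfsg.Agent.Eq.Def_Characters
import Cfsg.Agent.Chars.Induced.Basic

set_option autoImplicit false
open Cfsg
open CfsgLib.Chars.Induced

namespace Cfsg.Agent.S0149

theorem indFun_eq_on_ti {G : Type*} [Group G] [Fintype G] (T : Set G) (N : Subgroup G)
    (hTI : ∀ g : G, g ∉ N → ∀ t ∈ T, g * t * g⁻¹ ∈ T → t = 1)
    (ψ : N → ℂ) (hψ : Cfsg.IsClassFunction N ψ)
    (hψT : ∀ x : N, (x : G) ∉ T → ψ x = 0) (t : N)
    (htT : (t : G) ∈ T) (ht1 : t ≠ 1) : Cfsg.indFun N ψ t = ψ t := by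
  classical
  have hterm : ∀ x : G, Cfsg.extendByZero N ψ (x⁻¹ * t * x) = if x ∈ N then ψ t else 0 := by
    intro x
    split_ifs with hx
    · have hm : x⁻¹ * t * x ∈ N := mul_mem (mul_mem (inv_mem hx) t.2) hx
      rw [extendByZero_mem ψ hm]
      exact classFun_inv_conj hψ ⟨x, hx⟩ t
    · by_cases hm : x⁻¹ * t * x ∈ N
      · rw [extendByZero_mem ψ hm]
        apply hψT
        intro hT'
        apply ht1
        apply Subtype.ext
        refine hTI x⁻¹ (fun h => hx (by simpa using inv_mem h)) t htT ?_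
        simpa using hT'
      · rw [extendByZero_notMem ψ hm]
  rw [Cfsg.indFun, Finset.sum_congr rfl (fun x _ => hterm x), Finset.sum_ite, Finset.sum_const_zero,
    add_zero, Finset.sum_const, nsmul_eq_mul]
  have hc : (Finset.univ.filter fun x => x ∈ N).card = Nat.card N := by
    rw [Nat.card_eq_fintype_card, Fintype.card_subtype]
  rw [hc]
  field_simp

/-- Let T be a subset of G meeting each of its conjugates by elements outside its normalizer N only in the identity, and let ψ be a class function of N vanishing on N away from T. Then the function induced from ψ agrees with ψ at every non-identity element of T. -/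
theorem result {G : Type*} [Group G] [Fintype G] (T : Set G) (hTI : ∀ g : G, g ∉ Subgroup.normalizer T → ∀ t ∈ T, g * t * g⁻¹ ∈ T → t = 1) (hTN : T ⊆ Subgroup.normalizer T) (ψ : Subgroup.normalizer T → ℂ) (hψ : Cfsg.IsClassFunction (Subgroup.normalizer T) ψ) (hψT : ∀ x : Subgroup.normalizer T, (x : G) ∉ T → ψ x = 0) (t : Subgroup.normalizer T) (htT : (t : G) ∈ T) (ht1 : t ≠ 1) : Cfsg.indFun (Subgroup.normalizer T) ψ t = ψ t := by
  exact indFun_eq_on_ti T _ hTI ψ hψ hψT t htT ht1

end Cfsg.Agent.S0149
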