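import Cfsg.Statements.S0157
import Cfsg.Agent.Chars.Basic
import Cfsg.Agent.Eq.Def_Characters

set_option autoImplicit false
open Cfsg
open scoped ComplexConjugate

namespace Cfsg.Agent.S0157

open CfsgLib.Chars

/-- For a transitive action of a finite group on a finite set with at least two points: the action is 2-transitive if and only if the function sending g to (number of fixed points of g) − 1 is an irreducible character. -/
theorem result {G : Type*} [Group G] [Finite G] (X : Type*) [MulAction G X] [Finite X] [MulAction.IsPretransitive G X] (hX : 2 ≤ Nat.card X) : Cfsg.IsIrrCharacter G (fun g => (Nat.card (MulAction.fixedBy X g) : ℂ) - 1) ↔ MulAction.IsMultiplyPretransitive G X 2 := by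
  classical
  cases nonempty_fintype G
  cases nonempty_fintype X
  set π : G → ℂ := fun g => (Nat.card (MulAction.fixedBy X g) : ℂ) with hπ
  have hperm : π = (permRep G X).character := by
    funext g
    rw [permRep_character, hπ]
    simp only [Nat.cast_inj]
    rw [Nat.card_eq_fintype_card, Fintype.card_subtype]
    rfl
  have hπc : Cfsg.IsCharacter G π := hperm ▸ isCharacter_character _
  have hconj : ∀ g, conj (π g) = π g := fun g => by simp [hπ]
  have hburn : ∀ (Y : Type _) [MulAction G Y] [Fintype Y],
      ∑ g : G, (Nat.card (MulAction.fixedBy Y g) : ℂ) =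
        (Nat.card (MulAction.orbitRel.Quotient G Y) : ℂ) * (Nat.card G : ℂ) := by
    intro Y _ _
    have h := MulAction.sum_card_fixedBy_eq_card_orbits_mul_card_group G Y
    simp only [← Nat.card_eq_fintype_card] at h
    exact_mod_cast h
  have h1 : Cfsg.classInner π (fun _ => (1 : ℂ)) = 1 := by
    have hone : Nat.card (MulAction.orbitRel.Quotient G X) = 1 := by
      have : Nonempty X := (Nat.card_pos_iff.1 (by omega)).1
      obtain ⟨x⟩ := this
      refine Nat.card_eq_one_iff_unique.2 ⟨⟨fun a b => ?_⟩, ⟨Quotient.mk'' x⟩⟩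
      induction a using Quotient.inductionOn'
      induction b using Quotient.inductionOn'
      exact Quotient.sound' (MulAction.exists_smul_eq G _ _)
    simp only [Cfsg.classInner, map_one, mul_one, hπ]
    rw [hburn X, hone, Nat.cast_one, one_mul, inv_mul_cancel₀ natCard_ne_zero]
  have h2 : Cfsg.classInner π π = (Nat.card (MulAction.orbitRel.Quotient G (X × X)) : ℂ) := by
    simp only [Cfsg.classInner, hconj]
    have hfix : ∀ g : G, π g * π g = (Nat.card (MulAction.fixedBy (X × X) g) : ℂ) := fun g => by
      rw [hπ]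
      simp only [← Nat.cast_mul, ← Nat.card_prod, Nat.cast_inj]
      exact Nat.card_congr ⟨fun y => ⟨(y.1.1, y.2.1), Prod.ext y.1.2 y.2.2⟩,
        fun y => (⟨y.1.1, congrArg Prod.fst y.2⟩, ⟨y.1.2, congrArg Prod.snd y.2⟩),
        fun y => rfl, fun y => rfl⟩
    simp only [hfix]
    rw [hburn (X × X), mul_comm (Nat.card (MulAction.orbitRel.Quotient G (X × X)) : ℂ), ← mul_assoc,
      inv_mul_cancel₀ natCard_ne_zero, one_mul]
  obtain ⟨φ, hφ, hπφ⟩ := exists_add_of_classInner_ne_zero hπc (oneChar G) (by
    rw [show (oneChar G : G → ℂ) = fun _ => 1 from funext oneChar_apply, h1]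
    exact one_ne_zero)
  have hsub : (fun g => (Nat.card (MulAction.fixedBy X g) : ℂ) - 1) = φ := by
    funext g
    have := congrFun hπφ g
    simp only [Pi.add_apply, oneChar_apply] at this
    exact sub_eq_of_eq_add' this
  have hnorm : Cfsg.classInner π π = Cfsg.classInner φ φ + 1 := by
    have e1 : Cfsg.classInner φ (oneChar G : G → ℂ) = 0 := by
      have h3 : Cfsg.classInner π (oneChar G : G → ℂ) = 1 := by
        rw [show (oneChar G : G → ℂ) = fun _ => 1 from funext oneChar_apply, h1]
      rw [hπφ, classInner_add_left, classInner_self] at h3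
      exact add_eq_left.1 h3
    have e2 : Cfsg.classInner (oneChar G : G → ℂ) φ = 0 := by
      rw [← classInner_conj_symm φ (oneChar G : G → ℂ), e1, map_zero]
    have e3 : ∀ f : G → ℂ, Cfsg.classInner f π =
        Cfsg.classInner f (oneChar G : G → ℂ) + Cfsg.classInner f φ := by
      intro f
      simp only [Cfsg.classInner, hπφ, Pi.add_apply, map_add, mul_add, Finset.sum_add_distrib]
    rw [e3, show Cfsg.classInner π (oneChar G : G → ℂ) = 1 from by
      rw [show (oneChar G : G → ℂ) = fun _ => 1 from funext oneChar_apply, h1]]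
    rw [hπφ, classInner_add_left, e2, zero_add, add_comm]
  rw [hsub, isIrrCharacter_iff, and_iff_right hφ, MulAction.is_two_pretransitive_iff]
  have key : Cfsg.classInner φ φ = 1 ↔
      Nat.card (MulAction.orbitRel.Quotient G (X × X)) = 2 := by
    rw [← Nat.cast_inj (R := ℂ), ← h2, hnorm, Nat.cast_ofNat]
    constructor
    · intro e; rw [e]; norm_num
    · intro e; linear_combination e
  rw [key]
  obtain ⟨x₀, x₁, hx⟩ : ∃ a b : X, a ≠ b := by
    have : Nontrivial X := Finite.one_lt_card_iff_nontrivial.1 (by omega)
    exact exists_pair_ne X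
  constructor
  · intro hcard a b c d hab hcd
    have hoff : ∀ u v : X, u ≠ v → (Quotient.mk'' (u, v) : MulAction.orbitRel.Quotient G (X × X)) ≠
        Quotient.mk'' (x₀, x₀) := by
      intro u v huv e
      obtain ⟨g, hg⟩ := Quotient.exact' e
      simp only [Prod.smul_mk, Prod.mk.injEq] at hg
      exact huv (hg.1.symm.trans hg.2)
    have huniv := (Nat.card_eq_two_iff' (Quotient.mk'' (x₀, x₀) :
      MulAction.orbitRel.Quotient G (X × X))).1 hcard
    obtain ⟨g, hg⟩ := Quotient.exact' (huniv.unique (hoff c d hcd) (hoff a b hab))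
    simp only [Prod.smul_mk, Prod.mk.injEq] at hg
    exact ⟨g, hg.1, hg.2⟩
  · intro htwo
    rw [Nat.card_eq_two_iff]
    refine ⟨Quotient.mk'' (x₀, x₀), Quotient.mk'' (x₀, x₁), fun e => ?_, ?_⟩
    · obtain ⟨g, hg⟩ := Quotient.exact' e
      simp only [Prod.smul_mk, Prod.mk.injEq] at hg
      exact hx (smul_left_cancel g (hg.1.trans hg.2.symm) : x₀ = x₁)
    · refine Set.eq_univ_of_forall fun q => ?_
      induction q using Quotient.inductionOn' with
      | _ y =>
        obtain ⟨u, v⟩ := y
        by_cases huv : u = v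
        · subst huv
          obtain ⟨g, hg⟩ := MulAction.exists_smul_eq G x₀ u
          exact Or.inl (Quotient.sound' ⟨g, Prod.ext hg hg⟩)
        · obtain ⟨g, hg, hg'⟩ := htwo hx huv
          exact Or.inr (Quotient.sound' ⟨g, Prod.ext hg hg'⟩)

end Cfsg.Agent.S0157
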