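import Cfsg.Statements.S0160
import Cfsg.Agent.Chars.Basic
import Cfsg.Agent.Chars.Exceptional.FixedPoints
import Cfsg.Agent.Eq.Def_Characters

set_option autoImplicit false
open Cfsg

namespace Cfsg.Agent.S0160

open CfsgLib.Chars

/-- A finite group has as many real-valued irreducible complex characters as conjugacy classes closed under taking inverses. -/
theorem result {G : Type*} [Group G] [Finite G] : Nat.card {χ : Cfsg.IrrCharacter G // ∀ g : G, ((χ : G → ℂ) g).im = 0} = Nat.card {C : ConjClasses G // ∀ g : G, ConjClasses.mk g = C → IsConj g g⁻¹} := by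
  classical
  cases nonempty_fintype G
  let π : Equiv.Perm (ConjClasses G) :=
    { toFun := Quotient.map' (fun g : G => g⁻¹) fun a b hab => by
        obtain ⟨c, hc⟩ := isConj_iff.1 hab
        exact isConj_iff.2 ⟨c, by rw [← hc]; group⟩
      invFun := Quotient.map' (fun g : G => g⁻¹) fun a b hab => by
        obtain ⟨c, hc⟩ := isConj_iff.1 hab
        exact isConj_iff.2 ⟨c, by rw [← hc]; group⟩
      left_inv := fun K => Quotient.inductionOn' K fun g => congrArg ConjClasses.mk (inv_inv g)
      right_inv := fun K => Quotient.inductionOn' K fun g => congrArg ConjClasses.mk (inv_inv g) }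
  have hπ : ∀ g : G, π (ConjClasses.mk g) = ConjClasses.mk g⁻¹ := fun g => rfl
  have h := CfsgLib.Chars.Exceptional.brauer_permutation conjChar π fun χ g g' hg => by
    rw [hπ, ConjClasses.mk_eq_mk_iff_isConj] at hg
    rw [eq_of_isConj (isClassFunction_coe _) hg, conjChar_apply,
      map_inv_eq_conj (isCharacter_coe χ), Complex.conj_conj]
  refine Eq.trans (Nat.card_congr (Equiv.subtypeEquivRight fun χ => ?_))
    (h.trans (Nat.card_congr (Equiv.subtypeEquivRight fun K => ?_)))
  · rw [Subtype.ext_iff, funext_iff]
    exact forall_congr' fun g => by rw [conjChar_apply, Complex.conj_eq_iff_im]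
  · obtain ⟨g, rfl⟩ := ConjClasses.mk_surjective K
    rw [hπ, ConjClasses.mk_eq_mk_iff_isConj]
    constructor
    · intro hg x hx
      rw [ConjClasses.mk_eq_mk_iff_isConj] at hx
      obtain ⟨c, hc⟩ := isConj_iff.1 hx
      exact hx.trans (hg.symm.trans (isConj_iff.2 ⟨c⁻¹, by rw [← hc]; group⟩))
    · exact fun hg => (hg g rfl).symm

end Cfsg.Agent.S0160
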