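import Cfsg.Statements.S0162
import Cfsg.Agent.Chars.Basic
import Cfsg.Agent.S0161
import Cfsg.Agent.Eq.Def_Characters

set_option autoImplicit false
open Cfsg

namespace Cfsg.Agent.S0162

open CfsgLib.Chars

/-- If a finite group has odd order, its order is congruent to its number of conjugacy classes modulo 16. -/
theorem result {G : Type*} [Group G] [Finite G] (hodd : Odd (Nat.card G)) : Nat.card G ≡ Nat.card (ConjClasses G) [MOD 16] := by
  classical
  cases nonempty_fintype G
  rw [← card_irrCharacter, ← sum_charDegree_sq (G := G), Nat.card_eq_fintype_card,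
    Fintype.card_eq_sum_ones, ← ZMod.natCast_eq_natCast_iff _ _ 16, ← sub_eq_zero, Nat.cast_sum,
    Nat.cast_sum, ← Finset.sum_sub_distrib]
  have hdodd : ∀ χ : Cfsg.IrrCharacter G, Odd (Cfsg.charDegree (χ : G → ℂ)) := fun χ =>
    Odd.of_dvd_nat hodd (charDegree_dvd_card χ)
  have hdeg : ∀ χ : Cfsg.IrrCharacter G,
      Cfsg.charDegree (conjChar χ : G → ℂ) = Cfsg.charDegree (χ : G → ℂ) := fun χ =>
    charDegree_eq_of_map_one (by
      rw [conjChar_apply, conj_map_one (isCharacter_coe χ), coe_charDegree])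
  refine Finset.sum_involution (fun χ _ => conjChar χ) (fun χ _ => ?_) (fun χ _ hχ => ?_)
    (fun _ _ => Finset.mem_univ _) (fun χ _ => conjChar_conjChar χ)
  · obtain ⟨k, hk⟩ := hdodd χ
    obtain ⟨j, hj⟩ := (Nat.even_mul_succ_self k)
    rw [hdeg, hk, show (2 * k + 1) ^ 2 = 8 * j + 1 by nlinarith]
    push_cast
    rw [show ((8 : ZMod 16) * (j : ZMod 16) + 1 - 1) + (8 * (j : ZMod 16) + 1 - 1) =
      (16 : ZMod 16) * (j : ZMod 16) by ring, show (16 : ZMod 16) = 0 from by decide, zero_mul]
  · intro he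
    apply hχ
    have hreal : ∀ g : G, ((χ : G → ℂ) g).im = 0 := fun g => by
      rw [← Complex.conj_eq_iff_im, ← conjChar_apply, he]
    rw [charDegree_eq_of_map_one (n := 1) (by
      rw [Cfsg.Agent.S0161.result hodd χ hreal, Nat.cast_one])]
    simp

end Cfsg.Agent.S0162
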