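import Cfsg.Statements.S0166
import Cfsg.Agent.SplitField32.Monomial
import Cfsg.Agent.S0163
import Cfsg.Agent.S0153

set_option autoImplicit false
open Cfsg

namespace Cfsg.Agent.S0166

/-- Brauer's splitting field Theorem: a complex representation of a finite group of exponent m is equivalent to a representation by matrices with entries in ℚ adjoined exp(2πi/m). -/
theorem result {G : Type*} [Group G] [Finite G] (n : ℕ) (ρ : Representation ℂ G (Fin n → ℂ)) : ∃ σ : Representation ℂ G (Fin n → ℂ), Nonempty (ρ.Equiv σ) ∧ ∀ g : G, ∀ i j : Fin n, LinearMap.toMatrix' (σ g) i j ∈ Algebra.adjoin ℚ ({Complex.exp (2 * Real.pi * Complex.I / (Monoid.exponent G : ℂ))} : Set ℂ) := by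
  classical
  have := Fintype.ofFinite G
  set m := Monoid.exponent G with hm
  have hm0 : m ≠ 0 := Monoid.exponent_ne_zero_of_finite
  set ζ : ℂ := Complex.exp (2 * Real.pi * Complex.I / (m : ℂ)) with hζdef
  have hζ : IsPrimitiveRoot ζ m := Complex.isPrimitiveRoot_exp m hm0
  have : NeZero m := ⟨hm0⟩
  let K : Subfield ℂ := (IntermediateField.adjoin ℚ ({ζ} : Set ℂ)).toSubfield
  have hirr : ∀ χ : G → ℂ, Cfsg.IsIrrCharacter G χ → CfsgLib.SplitField32.IsKChar K G χ := by
    intro χ hχ
    obtain ⟨l, -, hl⟩ := S0163.result χ (CfsgLib.Chars.isCharacter_of_isIrrCharacter hχ)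
    refine CfsgLib.SplitField32.isKChar_of_span hχ
      (l.map fun t => (Cfsg.indFun t.1 (fun e => (t.2.1 e : ℂ)), t.2.2)) ?_ ?_
    · intro t ht
      obtain ⟨u, -, rfl⟩ := List.mem_map.1 ht
      refine CfsgLib.SplitField32.isKChar_indFun u.1 u.2.1 fun e => ?_
      have he : ((u.2.1 e : ℂˣ) : ℂ) ^ m = 1 := by
        have h1 : (e : G) ^ m = 1 := Monoid.pow_exponent_eq_one _
        have h2 : e ^ m = 1 := Subtype.ext (by simpa using h1)
        rw [← Units.val_pow_eq_pow_val, ← map_pow, h2, map_one, Units.val_one]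
      obtain ⟨i, -, hi⟩ := hζ.eq_pow_of_pow_eq_one he
      rw [← hi]
      exact K.pow_mem (IntermediateField.mem_adjoin_simple_self ℚ ζ) i
    · rw [List.map_map]
      exact hl
  obtain ⟨s, hs⟩ := CfsgLib.Chars.exists_multiset_irr (χ := ρ.character) ⟨n, ρ, rfl⟩
  have hchar : CfsgLib.SplitField32.IsKChar K G ρ.character := by
    rw [hs]
    clear hs
    induction s using Multiset.induction with
    | empty => simpa using CfsgLib.SplitField32.isKChar_zero
    | cons x s ih =>
      rw [Multiset.map_cons, Multiset.sum_cons]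
      exact CfsgLib.SplitField32.isKChar_add (hirr _ x.2) ih
  obtain ⟨d, R, hR⟩ := hchar
  obtain rfl : d = n := by
    have h := congrFun hR 1
    simp only [CfsgLib.SplitField32.kChar, Representation.char_one] at h
    simpa using h
  let M : G →* Matrix (Fin d) (Fin d) ℂ :=
    (K.subtype.mapMatrix.toMonoidHom).comp
      ((LinearMap.toMatrixAlgEquiv' (R := K) (n := Fin d)).toMulEquiv.toMonoidHom.comp R)
  let σ : Representation ℂ G (Fin d → ℂ) :=
    (Matrix.toLinAlgEquiv' (R := ℂ) (n := Fin d)).toMulEquiv.toMonoidHom.comp M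
  have hσ : ∀ g, σ g = Matrix.toLin' (M g) := fun g => rfl
  refine ⟨σ, S0153.result ρ σ ?_, fun g i j => ?_⟩
  · rw [← hR]
    funext g
    simp only [CfsgLib.SplitField32.kChar, Representation.character, hσ, Matrix.trace_toLin'_eq]
    show ((LinearMap.trace K (Fin d → K) (R g) : K) : ℂ) =
      Matrix.trace ((LinearMap.toMatrix' (R g)).map K.subtype)
    rw [LinearMap.trace_eq_matrix_trace K (Pi.basisFun K (Fin d)),
      LinearMap.toMatrix_eq_toMatrix']
    simp [Matrix.trace]
  · rw [hσ, LinearMap.toMatrix'_toLin']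
    have hmem : M g i j ∈ (IntermediateField.adjoin ℚ ({ζ} : Set ℂ)).toSubalgebra :=
      ((LinearMap.toMatrix' (R g)) i j).2
    rw [IntermediateField.adjoin_simple_toSubalgebra_of_isAlgebraic
      ((hζ.isIntegral (Nat.pos_of_ne_zero hm0)).tower_top.isAlgebraic)] at hmem
    exact hmem

end Cfsg.Agent.S0166
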