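import Cfsg.Statements.S0167
import Cfsg.Agent.Chars.Basic
import Cfsg.Agent.Chars.Basic.Commutators
import Cfsg.Agent.Eq.Def_Characters

set_option autoImplicit false
open Cfsg
open scoped ComplexConjugate

namespace Cfsg.Agent.S0167

open CfsgLib.Chars

/-- An element g of a finite group is a commutator if and only if the sum over the irreducible characters χ of χ g / χ 1 is nonzero. -/
theorem result {G : Type*} [Group G] [Finite G] (g : G) : (∃ a b : G, g = a * b * a⁻¹ * b⁻¹) ↔ ∑ᶠ χ : Cfsg.IrrCharacter G, (χ : G → ℂ) g / (χ : G → ℂ) 1 ≠ 0 := by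
  classical
  cases nonempty_fintype G
  have hkey : ((Finset.univ.filter fun q : G × G => q.1 * q.2 * q.1⁻¹ * q.2⁻¹ * g⁻¹ = 1).card : ℂ) =
      (Nat.card G : ℂ) * ∑ χ : Cfsg.IrrCharacter G, (χ : G → ℂ) g⁻¹ / (χ : G → ℂ) 1 := by
    have h1 : ∑ a : G, ∑ b : G, ∑ χ : Cfsg.IrrCharacter G,
        (χ : G → ℂ) 1 * (χ : G → ℂ) (a * b * a⁻¹ * b⁻¹ * g⁻¹) =
        (Nat.card G : ℂ) *
          ((Finset.univ.filter fun q : G × G => q.1 * q.2 * q.1⁻¹ * q.2⁻¹ * g⁻¹ = 1).card : ℂ) := by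
      simp only [sum_irr_map_one_mul]
      rw [Finset.card_filter, Nat.cast_sum, Finset.mul_sum, Fintype.sum_prod_type]
      refine Finset.sum_congr rfl fun a _ => Finset.sum_congr rfl fun b _ => ?_
      split_ifs <;> simp_all
    have h2 : ∑ a : G, ∑ b : G, ∑ χ : Cfsg.IrrCharacter G,
        (χ : G → ℂ) 1 * (χ : G → ℂ) (a * b * a⁻¹ * b⁻¹ * g⁻¹) =
        ∑ χ : Cfsg.IrrCharacter G, (Nat.card G : ℂ) ^ 2 * ((χ : G → ℂ) g⁻¹ / (χ : G → ℂ) 1) := by
      rw [Finset.sum_congr rfl fun a _ => Finset.sum_comm, Finset.sum_comm]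
      refine Finset.sum_congr rfl fun χ _ => ?_
      simp only [← Finset.mul_sum]
      rw [sum_map_commutator_mul]
      field_simp [map_one_ne_zero χ]
    rw [h1, ← Finset.mul_sum, pow_two, mul_assoc] at h2
    exact mul_left_cancel₀ natCard_ne_zero h2
  have hconj : ∑ χ : Cfsg.IrrCharacter G, (χ : G → ℂ) g⁻¹ / (χ : G → ℂ) 1 =
      conj (∑ χ : Cfsg.IrrCharacter G, (χ : G → ℂ) g / (χ : G → ℂ) 1) := by
    rw [map_sum]
    refine Finset.sum_congr rfl fun χ _ => ?_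
    rw [map_div₀, conj_map_one (isCharacter_coe χ), map_inv_eq_conj (isCharacter_coe χ)]
  rw [finsum_irr_eq_sum]
  constructor
  · rintro ⟨a, b, rfl⟩ h0
    rw [hconj, h0, map_zero, mul_zero, Nat.cast_eq_zero, Finset.card_eq_zero] at hkey
    exact Finset.notMem_empty (a, b) (hkey ▸ by simp)
  · intro h0
    have hne : (Finset.univ.filter fun q : G × G =>
        q.1 * q.2 * q.1⁻¹ * q.2⁻¹ * g⁻¹ = 1).Nonempty := by
      rw [← Finset.card_ne_zero]
      intro hc
      rw [hc, Nat.cast_zero, eq_comm, mul_eq_zero, hconj] at hkey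
      exact h0 ((map_eq_zero _).1 (hkey.resolve_left natCard_ne_zero))
    obtain ⟨⟨a, b⟩, hab⟩ := hne
    exact ⟨a, b, (mul_inv_eq_one.1 (Finset.mem_filter.1 hab).2).symm⟩

end Cfsg.Agent.S0167
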