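import Cfsg.Statements.S0168
import Cfsg.Agent.Chars.Basic
import Mathlib.LinearAlgebra.Lagrange
import Cfsg.Agent.Eq.Def_Characters

set_option autoImplicit false
open Cfsg

namespace Cfsg.Agent.S0168

open CfsgLib.Chars

/-- The Burnside–Brauer Theorem. Let χ be the character of a faithful complex representation of a finite group, taking m distinct values. Then every irreducible character has nonzero inner product with χ ^ i for some i < m. -/
theorem result {G : Type*} [Group G] [Fintype G] {V : Type*} [AddCommGroup V] [Module ℂ V] [FiniteDimensional ℂ V] (ρ : Representation ℂ G V) (hfaithful : Function.Injective ρ) (ψ : G → ℂ) (hψ : Cfsg.IsIrrCharacter G ψ) : ∃ i : ℕ, i < Nat.card (Set.range ρ.character) ∧ Cfsg.classInner (fun g => ρ.character g ^ i) ψ ≠ 0 := by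
  classical
  by_contra! h
  set s : Finset ℂ := (Finset.univ.image ρ.character).erase (ρ.character 1) with hs
  have hcard : Nat.card (Set.range ρ.character) = (Finset.univ.image ρ.character).card := by
    rw [Nat.card_coe_set_eq, ← Set.ncard_coe_finset]
    simp
  set P : Polynomial ℂ := ∏ a ∈ s, (Polynomial.X - Polynomial.C a)
  have hdeg : P.natDegree < Nat.card (Set.range ρ.character) := by
    rw [hcard, Polynomial.natDegree_finsetProd_X_sub_C_eq_card, hs]
    exact Finset.card_erase_lt_of_mem (Finset.mem_image_of_mem _ (Finset.mem_univ 1))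
  have hzero : ∀ g : G, g ≠ 1 → P.eval (ρ.character g) = 0 := by
    intro g hg
    rw [Polynomial.eval_prod]
    refine Finset.prod_eq_zero (i := ρ.character g) (Finset.mem_erase.2 ⟨?_, ?_⟩) (by simp)
    · intro he
      apply hg
      apply hfaithful
      set e := (Module.finBasis ℂ V).equivFun
      have h1 := rep_eq_one_of_character_eq (transportRep ρ e) (g := g)
        (by rw [transportRep_character]; exact he)
      refine LinearMap.ext fun v => e.injective ?_
      have h2 := LinearMap.congr_fun h1 (e v)
      rw [transportRep_apply, e.symm_apply_apply] at h2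
      simpa using h2
    · exact Finset.mem_image_of_mem _ (Finset.mem_univ g)
  have hne : P.eval (ρ.character 1) ≠ 0 := by
    rw [Polynomial.eval_prod]
    refine Finset.prod_ne_zero_iff.2 fun a ha => ?_
    rw [Polynomial.eval_sub, Polynomial.eval_X, Polynomial.eval_C, sub_ne_zero]
    exact Ne.symm (Finset.mem_erase.1 ha).1
  have hsum : Cfsg.classInner (fun g => P.eval (ρ.character g)) ψ = 0 := by
    have he : (fun g => P.eval (ρ.character g)) = ∑ i ∈ Finset.range (P.natDegree + 1),
        P.coeff i • fun g : G => ρ.character g ^ i := by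
      funext g
      simp [Polynomial.eval_eq_sum_range, Finset.sum_apply]
    rw [he, classInner_sum_left]
    refine Finset.sum_eq_zero fun i hi => ?_
    rw [classInner_smul_left, h i (lt_of_le_of_lt (Nat.lt_succ_iff.1 (Finset.mem_range.1 hi)) hdeg),
      mul_zero]
  simp only [Cfsg.classInner] at hsum
  rw [Finset.sum_eq_single 1 (fun g _ hg => by rw [hzero g hg, zero_mul]) (by simp),
    mul_eq_zero, mul_eq_zero] at hsum
  rcases hsum with h1 | h1 | h1
  · exact natCard_ne_zero (inv_eq_zero.1 h1)
  · exact hne h1
  · exact map_one_ne_zero ⟨ψ, hψ⟩ ((map_eq_zero _).1 h1)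

end Cfsg.Agent.S0168
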