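import Cfsg.Statements.S0172
import Mathlib

set_option autoImplicit false
open Cfsg

namespace Cfsg.Agent.S0172

/-- Class number of a Frobenius group: if G = K H with K normal, K ⊓ H trivial and no non-identity element of H commuting with a non-identity element of K, then |H| * k(G) + 1 = |H| * k(H) + k(K), where k denotes the number of conjugacy classes. -/
theorem result {G : Type*} [Group G] [Finite G] (K H : Subgroup G) [K.Normal] (hKH : K ⊓ H = ⊥) (hKH' : K ⊔ H = ⊤) (hfpf : ∀ h ∈ H, h ≠ 1 → ∀ k ∈ K, h * k = k * h → k = 1) : Nat.card H * Nat.card (ConjClasses G) + 1 = Nat.card H * Nat.card (ConjClasses H) + Nat.card (ConjClasses K) := by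
  classical
  haveI hK : K.Normal := inferInstance
  -- elementary facts
  have hinf : ∀ x, x ∈ K → x ∈ H → x = 1 := fun x hx hx' =>
    Subgroup.mem_bot.mp (hKH ▸ (⟨hx, hx'⟩ : x ∈ K ⊓ H))
  have hdec : ∀ g : G, ∃ k ∈ K, ∃ h ∈ H, g = k * h := by
    intro g
    obtain ⟨k, hk, h, hh, e⟩ := Subgroup.mem_sup_of_normal_left.mp
      (show g ∈ K ⊔ H from hKH' ▸ Subgroup.mem_top g)
    exact ⟨k, hk, h, hh, e.symm⟩
  have hcent : ∀ h ∈ H, h ≠ 1 → ∀ y : G, Commute h y → y ∈ H := by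
    intro h hh hne y hy
    obtain ⟨k, hk, h', hh', rfl⟩ := hdec y
    have hu : h' * h * h'⁻¹ * h⁻¹ ∈ H :=
      mul_mem (mul_mem (mul_mem hh' hh) (inv_mem hh')) (inv_mem hh)
    have h1 : h * k * h' = k * h' * h := by rw [mul_assoc]; exact hy.eq
    have h2 : h' * h * h'⁻¹ * h⁻¹ = k⁻¹ * (h * k * h⁻¹) := by
      calc h' * h * h'⁻¹ * h⁻¹ = k⁻¹ * (k * h' * h) * h'⁻¹ * h⁻¹ := by group
        _ = k⁻¹ * (h * k * h') * h'⁻¹ * h⁻¹ := by rw [h1]
        _ = _ := by group
    have hu1 : h' * h * h'⁻¹ * h⁻¹ = 1 :=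
      hinf _ (h2 ▸ mul_mem (inv_mem hk) (hK.conj_mem k hk h)) hu
    have h3 : h * k = k * h := by
      have h4 : h * k * h⁻¹ = k := by
        have := h2.symm.trans hu1
        rwa [inv_mul_eq_one, eq_comm] at this
      exact mul_inv_eq_iff_eq_mul.mp h4
    rw [hfpf h hh hne k hk h3, one_mul]
    exact hh'
  have huniq : ∀ k ∈ K, ∀ k' ∈ K, ∀ h ∈ H, ∀ h' ∈ H, h ≠ 1 →
      k * h * k⁻¹ = k' * h' * k'⁻¹ → k = k' ∧ h = h' := by
    intro k hk k' hk' h hh h' hh' hne he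
    set c := k'⁻¹ * k with hc
    have hcK : c ∈ K := mul_mem (inv_mem hk') hk
    have h1 : c * h * c⁻¹ = h' := by
      calc c * h * c⁻¹ = k'⁻¹ * (k * h * k⁻¹) * k' := by rw [hc]; group
        _ = k'⁻¹ * (k' * h' * k'⁻¹) * k' := by rw [he]
        _ = h' := by group
    have h2 : h⁻¹ * h' = 1 := by
      refine hinf _ ?_ (mul_mem (inv_mem hh) hh')
      rw [← h1, show h⁻¹ * (c * h * c⁻¹) = (h⁻¹ * c * (h⁻¹)⁻¹) * c⁻¹ by group]
      exact mul_mem (hK.conj_mem c hcK h⁻¹) (inv_mem hcK)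
    have h3 : h = h' := inv_mul_eq_one.mp h2
    subst h3
    have h4 : c = 1 := hfpf h hh hne c hcK (mul_inv_eq_iff_eq_mul.mp h1).symm
    exact ⟨(inv_mul_eq_one.mp h4).symm, rfl⟩
  have hcardG : Nat.card G = Nat.card K * Nat.card H :=
    (Subgroup.isComplement'_of_disjoint_and_mul_eq_univ (disjoint_iff.mpr hKH)
      (by rw [← Subgroup.normal_mul, hKH', Subgroup.coe_top])).card_mul.symm
  have hcover : ∀ g : G, g ∉ K → ∃ k ∈ K, ∃ h ∈ H, h ≠ 1 ∧ g = k * h * k⁻¹ := by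
    intro g hg
    obtain ⟨k, hk, h, hh, rfl⟩ := hdec g
    have hne : h ≠ 1 := fun e => hg (by rw [e, mul_one]; exact hk)
    let f : K → K := fun a => ⟨a * (h * (a : G)⁻¹ * h⁻¹), mul_mem a.2 (hK.conj_mem _ (inv_mem a.2) h)⟩
    have hf : Function.Injective f := by
      intro a b hab
      have h1 : (a : G) * (h * (a : G)⁻¹ * h⁻¹) = b * (h * (b : G)⁻¹ * h⁻¹) := congrArg Subtype.val hab
      have h2 : (a : G) * h * (a : G)⁻¹ = b * h * (b : G)⁻¹ := by
        have := congrArg (· * h) h1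
        simpa [mul_assoc] using this
      exact Subtype.ext (huniq a a.2 b b.2 h hh h hh hne h2).1
    obtain ⟨a, ha⟩ := (Finite.injective_iff_surjective.mp hf) ⟨k, hk⟩
    refine ⟨a, a.2, h, hh, hne, ?_⟩
    have ha' : (a : G) * (h * (a : G)⁻¹ * h⁻¹) = k := congrArg Subtype.val ha
    rw [← ha']
    group
  -- the three sets of commuting pairs
  let CG := {p : G × G // Commute p.1 p.2}
  let CH := {q : {p : H × H // Commute p.1 p.2} // q.1 ≠ (1, 1)}
  have hcomm : ∀ (k : G) (q : {p : H × H // Commute p.1 p.2}),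
      Commute (k * (q.1.1 : G) * k⁻¹) (k * (q.1.2 : G) * k⁻¹) := fun k q =>
    ((q.2.map H.subtype).map (MulAut.conj k).toMonoidHom)
  let Φ : {p : K × K // Commute p.1 p.2} ⊕ K × CH → CG := fun s =>
    match s with
    | .inl p => ⟨((p.1.1 : G), (p.1.2 : G)), p.2.map K.subtype⟩
    | .inr (k, q) => ⟨((k : G) * q.1.1.1 * (k : G)⁻¹, (k : G) * q.1.1.2 * (k : G)⁻¹), hcomm k q.1⟩
  have hnotK : ∀ (k : K) (h : H), (k : G) * h * (k : G)⁻¹ ∈ K → h = 1 := by
    intro k h hm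
    have h1 := hK.conj_mem _ hm (k : G)⁻¹
    exact Subtype.ext (hinf _ (by simpa [mul_assoc] using h1) h.2)
  have hinj : Function.Injective Φ := by
    rintro (⟨⟨a, b⟩, hab⟩ | ⟨k, ⟨⟨⟨h₁, h₂⟩, hh⟩, hne⟩⟩) (⟨⟨a', b'⟩, hab'⟩ | ⟨k', ⟨⟨⟨h₁', h₂'⟩, hh'⟩, hne'⟩⟩) e
    · have e' : ((a : G), (b : G)) = ((a' : G), (b' : G)) := congrArg Subtype.val e
      rw [Prod.mk.injEq] at e'
      obtain rfl := Subtype.ext e'.1
      obtain rfl := Subtype.ext e'.2
      rfl
    · exfalso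
      have e' : ((a : G), (b : G)) = ((k' : G) * h₁' * (k' : G)⁻¹, (k' : G) * h₂' * (k' : G)⁻¹) :=
        congrArg Subtype.val e
      rw [Prod.mk.injEq] at e'
      exact hne' (Prod.ext (hnotK k' h₁' (e'.1 ▸ a.2)) (hnotK k' h₂' (e'.2 ▸ b.2)))
    · exfalso
      have e' : ((k : G) * h₁ * (k : G)⁻¹, (k : G) * h₂ * (k : G)⁻¹) = ((a' : G), (b' : G)) :=
        congrArg Subtype.val e
      rw [Prod.mk.injEq] at e'
      exact hne (Prod.ext (hnotK k h₁ (e'.1.symm ▸ a'.2)) (hnotK k h₂ (e'.2.symm ▸ b'.2)))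
    · have e' : ((k : G) * h₁ * (k : G)⁻¹, (k : G) * h₂ * (k : G)⁻¹) =
          ((k' : G) * h₁' * (k' : G)⁻¹, (k' : G) * h₂' * (k' : G)⁻¹) := congrArg Subtype.val e
      rw [Prod.mk.injEq] at e'
      have hk : k = k' := by
        apply Subtype.ext
        by_cases h1 : (h₁ : G) = 1
        · have h2 : (h₂ : G) ≠ 1 := fun h2 => hne (Prod.ext (Subtype.ext h1) (Subtype.ext h2))
          exact (huniq k k.2 k' k'.2 h₂ h₂.2 h₂' h₂'.2 h2 e'.2).1
        · exact (huniq k k.2 k' k'.2 h₁ h₁.2 h₁' h₁'.2 h1 e'.1).1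
      subst hk
      obtain rfl := Subtype.ext (mul_left_cancel (mul_right_cancel e'.1))
      obtain rfl := Subtype.ext (mul_left_cancel (mul_right_cancel e'.2))
      rfl
  have hsurj : Function.Surjective Φ := by
    rintro ⟨⟨a, b⟩, hab⟩
    have hab' : a * b = b * a := hab
    by_cases ha : a ∈ K
    · by_cases hb : b ∈ K
      · exact ⟨.inl ⟨(⟨a, ha⟩, ⟨b, hb⟩), Subtype.ext hab'⟩, rfl⟩
      · obtain ⟨k, hk, h, hh, hne, rfl⟩ := hcover b hb
        have hy : k⁻¹ * a * k ∈ H := by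
          refine hcent h hh hne _ ?_
          show h * (k⁻¹ * a * k) = k⁻¹ * a * k * h
          calc h * (k⁻¹ * a * k) = k⁻¹ * ((k * h * k⁻¹) * a) * k := by group
            _ = k⁻¹ * (a * (k * h * k⁻¹)) * k := by rw [hab']
            _ = _ := by group
        refine ⟨.inr (⟨k, hk⟩, ⟨⟨(⟨k⁻¹ * a * k, hy⟩, ⟨h, hh⟩), Subtype.ext ?_⟩, ?_⟩), ?_⟩
        · show k⁻¹ * a * k * h = h * (k⁻¹ * a * k)
          calc k⁻¹ * a * k * h = k⁻¹ * (a * (k * h * k⁻¹)) * k := by group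
            _ = k⁻¹ * ((k * h * k⁻¹) * a) * k := by rw [hab']
            _ = _ := by group
        · intro e
          exact hne (congrArg (fun p : H × H => (p.2 : G)) e)
        · exact Subtype.ext (Prod.ext (by simp [Φ, mul_assoc]) rfl)
    · obtain ⟨k, hk, h, hh, hne, rfl⟩ := hcover a ha
      have hy : k⁻¹ * b * k ∈ H := by
        refine hcent h hh hne _ ?_
        show h * (k⁻¹ * b * k) = k⁻¹ * b * k * h
        calc h * (k⁻¹ * b * k) = k⁻¹ * ((k * h * k⁻¹) * b) * k := by group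
          _ = k⁻¹ * (b * (k * h * k⁻¹)) * k := by rw [hab']
          _ = _ := by group
      refine ⟨.inr (⟨k, hk⟩, ⟨⟨(⟨h, hh⟩, ⟨k⁻¹ * b * k, hy⟩), Subtype.ext ?_⟩, ?_⟩), ?_⟩
      · show h * (k⁻¹ * b * k) = k⁻¹ * b * k * h
        calc h * (k⁻¹ * b * k) = k⁻¹ * ((k * h * k⁻¹) * b) * k := by group
          _ = k⁻¹ * (b * (k * h * k⁻¹)) * k := by rw [hab']
          _ = _ := by group
      · intro e
        exact hne (congrArg (fun p : H × H => (p.1 : G)) e)
      · exact Subtype.ext (Prod.ext rfl (by simp [Φ, mul_assoc]))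
  have hcount := Nat.card_congr (Equiv.ofBijective Φ ⟨hinj, hsurj⟩)
  rw [Nat.card_sum, Nat.card_prod, card_comm_eq_card_conjClasses_mul_card,
    card_comm_eq_card_conjClasses_mul_card] at hcount
  have hCH : Nat.card CH + 1 = Nat.card (ConjClasses H) * Nat.card H := by
    rw [← card_comm_eq_card_conjClasses_mul_card]
    let one : {p : H × H // Commute p.1 p.2} := ⟨(1, 1), Commute.one_left 1⟩
    have e : Nat.card CH = Nat.card {q : {p : H × H // Commute p.1 p.2} // ¬ q = one} :=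
      Nat.card_congr (Equiv.subtypeEquivRight fun q => by simp [one, Subtype.ext_iff])
    letI := Fintype.ofFinite {p : H × H // Commute p.1 p.2}
    haveI : Nonempty {p : H × H // Commute p.1 p.2} := ⟨one⟩
    rw [e, Nat.card_eq_fintype_card, Nat.card_eq_fintype_card, Fintype.card_subtype_compl,
      Fintype.card_subtype_eq, Nat.sub_add_cancel Fintype.card_pos]
  rw [hcardG] at hcount
  refine Nat.eq_of_mul_eq_mul_left (Nat.card_pos (α := K)) ?_
  calc Nat.card K * (Nat.card H * Nat.card (ConjClasses G) + 1)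
      = Nat.card (ConjClasses G) * (Nat.card K * Nat.card H) + Nat.card K := by ring
    _ = Nat.card (ConjClasses K) * Nat.card K + Nat.card K * Nat.card CH + Nat.card K := by rw [hcount]
    _ = Nat.card (ConjClasses K) * Nat.card K + Nat.card K * (Nat.card CH + 1) := by ring
    _ = Nat.card (ConjClasses K) * Nat.card K + Nat.card K * (Nat.card (ConjClasses H) * Nat.card H) := by
        rw [hCH]
    _ = _ := by ring

end Cfsg.Agent.S0172
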