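import Cfsg.Statements.S0173
import Cfsg.Agent.Chars.Exceptional.FixedPoints

set_option autoImplicit false
open Cfsg

namespace Cfsg.Agent.S0173

/-- Brauer's permutation lemma for a single automorphism: the number of conjugacy classes mapped to themselves equals the number of irreducible complex characters χ with χ ∘ α = χ. -/
theorem result {G : Type*} [Group G] [Finite G] (α : G ≃* G) : Nat.card {C : ConjClasses G // ConjClasses.map α.toMonoidHom C = C} = Nat.card {χ : Cfsg.IrrCharacter G // (χ : G → ℂ) ∘ α = (χ : G → ℂ)} := by
  let π : Equiv.Perm (ConjClasses G) :=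
    { toFun := ConjClasses.map α.toMonoidHom
      invFun := ConjClasses.map α.symm.toMonoidHom
      left_inv := fun C => by
        obtain ⟨a, rfl⟩ := ConjClasses.mk_surjective C
        exact congrArg ConjClasses.mk (α.symm_apply_apply a)
      right_inv := fun C => by
        obtain ⟨a, rfl⟩ := ConjClasses.mk_surjective C
        exact congrArg ConjClasses.mk (α.apply_symm_apply a) }
  let σ : Cfsg.IrrCharacter G → Cfsg.IrrCharacter G := fun χ =>
    ⟨(χ : G → ℂ) ∘ α.symm, CfsgLib.Chars.isIrrCharacter_comp χ.2 α.symm.toMonoidHom α.symm.surjective⟩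
  have h := CfsgLib.Chars.Exceptional.brauer_permutation σ π (fun χ g g' hg => by
    have hc : IsConj (α g) g' := (ConjClasses.mk_eq_mk_iff_isConj.mp hg.symm)
    show (χ : G → ℂ) (α.symm g') = (χ : G → ℂ) g
    have hc' := α.symm.toMonoidHom.map_isConj hc
    simp only [MulEquiv.coe_toMonoidHom, MulEquiv.symm_apply_apply] at hc'
    exact (CfsgLib.Chars.eq_of_isConj (CfsgLib.Chars.isClassFunction_coe χ) hc').symm)
  refine h.symm.trans (Nat.card_congr (Equiv.subtypeEquivRight fun χ => ?_))
  constructor
  · intro e
    funext g
    have := congrFun (congrArg Subtype.val e) (α g)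
    simpa [σ] using this.symm
  · intro e
    apply Subtype.ext
    funext g
    have := congrFun e (α.symm g)
    simpa [σ] using this.symm

end Cfsg.Agent.S0173
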