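import Cfsg.Statements.S0174
import Cfsg.Agent.Eq.Def_Characters
import Cfsg.Agent.Chars.Induced.Ito

set_option autoImplicit false
open Cfsg

namespace Cfsg.Agent.S0174

/-- The Clifford Theorem for characters: if θ is an irreducible character of a finite group G, N is a normal subgroup and χ is an irreducible character of N occurring in the restriction of θ, then θ restricted to N equals e times the sum of the distinct G-conjugates of χ, where e is the inner product of the restriction with χ. -/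
theorem result {G : Type*} [Group G] [Fintype G] (N : Subgroup G) [Fintype N] (hN : N.Normal) (θ : G → ℂ) (hθ : Cfsg.IsIrrCharacter G θ) (χ : N → ℂ) (hχ : Cfsg.IsIrrCharacter N χ) (hconst : Cfsg.classInner (fun n : N => θ n) χ ≠ 0) : (fun n : N => θ n) = Cfsg.classInner (fun n : N => θ n) χ • ∑ᶠ ψ ∈ {ψ : N → ℂ | ∃ g : G, ψ = fun n : N => χ ⟨g * n * g⁻¹, hN.conj_mem n n.2 g⟩}, ψ := by
  classical
  let χ' : IrrCharacter G := ⟨θ, hθ⟩
  let θ' : IrrCharacter N := ⟨χ, hχ⟩
  have := hN
  have hc := CfsgLib.Chars.isCharacter_restrict (CfsgLib.Chars.isCharacter_coe χ') N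
  have hm : CfsgLib.Chars.Induced.mult (fun n : N => (χ' : G → ℂ) n) (θ' : N → ℂ) ≠ 0 :=
    (CfsgLib.Chars.Induced.mult_ne_zero_iff hc θ').2 hconst
  have hcl := CfsgLib.Chars.Induced.clifford χ' θ' hm
  have hset : {ψ : N → ℂ | ∃ g : G, ψ = fun n : N => χ ⟨g * n * g⁻¹, hN.conj_mem n n.2 g⟩} =
      (fun η : IrrCharacter N => (η : N → ℂ)) ''
        Set.range (fun x : G => CfsgLib.Chars.Induced.conjIrr x θ') := by
    ext ψ
    simp only [Set.mem_ofPred_eq, Set.mem_image, Set.mem_range]
    constructor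
    · rintro ⟨g, rfl⟩
      refine ⟨_, ⟨g⁻¹, rfl⟩, funext fun n => ?_⟩
      rw [CfsgLib.Chars.Induced.conjIrr_coe, CfsgLib.Chars.Induced.conjFun_apply]
      exact congrArg χ (Subtype.ext (by simp))
    · rintro ⟨_, ⟨x, rfl⟩, rfl⟩
      refine ⟨x⁻¹, funext fun n => ?_⟩
      rw [CfsgLib.Chars.Induced.conjIrr_coe, CfsgLib.Chars.Induced.conjFun_apply]
      exact congrArg χ (Subtype.ext (by simp))
  rw [hset, finsum_mem_image Subtype.val_injective.injOn,
    finsum_mem_eq_finite_toFinset_sum _ (Set.finite_range _),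
    show Cfsg.classInner (fun n : N => θ n) χ =
      (CfsgLib.Chars.Induced.mult (fun n : N => θ n) χ : ℂ) from
      CfsgLib.Chars.Induced.classInner_eq_mult hc θ']
  exact hcl

end Cfsg.Agent.S0174
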