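import Cfsg.Statements.S0177
import Cfsg.Agent.Chars.Basic
import Cfsg.Agent.Chars.Induced.Rep
import Cfsg.Agent.Chars.Brauer.Span
import Cfsg.Agent.Eq.Def_Characters

set_option autoImplicit false
open Cfsg

namespace Cfsg.Agent.S0177

open CfsgLib.Chars

open CfsgLib.Chars.Brauer

/-- The order of the group at its generators, zero elsewhere. -/
noncomputable def thetaFun {A : Type*} [Group A] (B : Subgroup A) : B → ℂ :=
  open Classical in fun b => if Subgroup.zpowers (b : A) = B then (Nat.card B : ℂ) else 0

theorem thetaFun_eq_zero {A : Type*} [Group A] {B : Subgroup A} (hB : ¬ IsCyclic B) :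
    thetaFun B = 0 := by
  funext b
  rw [thetaFun, if_neg, Pi.zero_apply]
  intro h
  exact hB (h ▸ inferInstance)

theorem isCyclic_map_subtype {A : Type*} [Group A] {B : Subgroup A} (hB : IsCyclic B)
    (E : Subgroup B) : IsCyclic (E.map B.subtype) :=
  isCyclic_of_surjective (E.equivMapOfInjective B.subtype B.subtype_injective).toMonoidHom
    (E.equivMapOfInjective B.subtype B.subtype_injective).surjective

theorem sum_indFun_theta {G : Type*} [Group G] [Fintype G] :
    ∑ B : Subgroup G, Cfsg.indFun B (thetaFun B) = fun _ : G => (Nat.card G : ℂ) := by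
  classical
  funext g
  rw [Finset.sum_apply]
  have hB : ∀ B : Subgroup G, Cfsg.indFun B (thetaFun B) g =
      ∑ x : G, if Subgroup.zpowers (x⁻¹ * g * x) = B then (1 : ℂ) else 0 := by
    intro B
    simp only [Cfsg.indFun]
    rw [Finset.mul_sum]
    refine Finset.sum_congr rfl fun x _ => ?_
    by_cases hx : x⁻¹ * g * x ∈ B
    · rw [CfsgLib.Chars.Induced.extendByZero_mem _ hx, thetaFun]
      split_ifs
      · exact inv_mul_cancel₀ natCard_ne_zero
      · exact mul_zero _
    · rw [CfsgLib.Chars.Induced.extendByZero_notMem _ hx, mul_zero, if_neg]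
      exact fun e => hx (e ▸ Subgroup.mem_zpowers _)
  rw [Finset.sum_congr rfl fun B _ => hB B, Finset.sum_comm,
    Finset.sum_congr rfl fun x _ => Finset.sum_ite_eq Finset.univ _ _]
  simp [Nat.card_eq_fintype_card]

universe u

theorem theta_mem : ∀ (n : ℕ) {A : Type u} [Group A] [Fintype A] (B : Subgroup A) [Fintype B],
    IsCyclic B → Nat.card B = n → thetaFun B ∈ linMono (fun E : Subgroup B => IsCyclic E) := by
  intro n
  induction n using Nat.strong_induction_on with
  | _ n ih =>
  intro A _ _ B _ hB hn
  classical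
  have htop : IsCyclic (⊤ : Subgroup B) := inferInstance
  have h := sum_indFun_theta (G := B)
  rw [← Finset.add_sum_erase _ _ (Finset.mem_univ (⊤ : Subgroup B))] at h
  have hθ : Cfsg.indFun (⊤ : Subgroup B) (thetaFun (⊤ : Subgroup B)) = thetaFun B := by
    have hcl : Cfsg.IsClassFunction B (thetaFun B) := by
      letI := IsCyclic.commGroup (α := B)
      intro a b
      congr 1
      rw [mul_comm b a, mul_inv_cancel_right]
    refine indFun_top hcl fun b => ?_
    have hiff : Subgroup.zpowers (b : B) = ⊤ ↔ Subgroup.zpowers ((b : B) : A) = B := by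
      have hm : (Subgroup.zpowers (b : B)).map B.subtype = Subgroup.zpowers ((b : B) : A) :=
        MonoidHom.map_zpowers _ _
      rw [← hm]
      constructor
      · intro e; rw [e, ← MonoidHom.range_eq_map, Subgroup.range_subtype]
      · intro e
        apply Subgroup.map_injective B.subtype_injective
        rw [e, ← MonoidHom.range_eq_map, Subgroup.range_subtype]
    simp only [thetaFun, hiff, Subgroup.card_top]
  rw [hθ] at h
  rw [eq_sub_of_add_eq h]
  refine sub_mem ?_ (sum_mem fun E hE => ?_)
  · have h1 := nsmul_mem (one_mem_linMono_of_top (P := fun E : Subgroup B => IsCyclic E) htop)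
      (Nat.card B)
    rwa [show (fun _ : B => (Nat.card B : ℂ)) = Nat.card B • (fun _ : B => (1 : ℂ)) from
      funext fun b => by simp]
  · have hEc : IsCyclic E := inferInstance
    refine indFun_linMono (fun D _ => isCyclic_map_subtype hEc D) (ih (Nat.card E) ?_ E hEc rfl)
    rw [← hn]
    exact lt_of_le_of_ne (Subgroup.card_le_card_group E) fun e =>
      (Finset.mem_erase.1 hE).1 (Subgroup.eq_top_of_card_eq E e)

theorem exists_list {G : Type*} [Group G] [Fintype G] {f : G → ℂ}
    (hf : f ∈ linMono (fun A : Subgroup G => IsCyclic A)) :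
    ∃ l : List ((A : Subgroup G) × ((A →* ℂˣ) × ℤ)), (∀ t ∈ l, IsCyclic t.1) ∧
      f = (l.map fun t => (t.2.2 : ℂ) • Cfsg.indFun t.1 (fun a => (t.2.1 a : ℂ))).sum := by
  induction hf using AddSubgroup.closure_induction with
  | mem f hf =>
    obtain ⟨E, hE, μ, rfl⟩ := hf
    refine ⟨[⟨E, μ, 1⟩], by simpa using hE, ?_⟩
    simp only [List.map_cons, List.map_nil, List.sum_cons, List.sum_nil, add_zero, Int.cast_one,
      one_smul]
    rfl
  | zero => exact ⟨[], by simp, by simp⟩
  | add f g _ _ hf hg =>
    obtain ⟨l, hl, rfl⟩ := hf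
    obtain ⟨l', hl', rfl⟩ := hg
    refine ⟨l ++ l', fun t ht => (List.mem_append.1 ht).elim (hl t) (hl' t), ?_⟩
    rw [List.map_append, List.sum_append]
  | neg f _ hf =>
    obtain ⟨l, hl, rfl⟩ := hf
    refine ⟨l.map fun t => ⟨t.1, t.2.1, -t.2.2⟩, ?_, ?_⟩
    · intro t ht
      obtain ⟨s, hs, rfl⟩ := List.mem_map.1 ht
      exact hl s hs
    · rw [List.map_map, List.sum_neg, List.map_map]
      refine congrArg List.sum (List.map_congr_left fun t _ => ?_)
      simp only [Function.comp_apply]
      push_cast
      rw [neg_smul]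

/-- The Artin induction Theorem: for a character χ of a finite group, |G| • χ is a ℤ-linear combination of functions induced from homomorphisms of cyclic subgroups into ℂˣ. -/
theorem result {G : Type*} [Group G] [Fintype G] (χ : G → ℂ) (hχ : Cfsg.IsCharacter G χ) : ∃ l : List ((A : Subgroup G) × ((A →* ℂˣ) × ℤ)), (∀ t ∈ l, IsCyclic t.1) ∧ (Nat.card G : ℂ) • χ = (l.map fun t => (t.2.2 : ℂ) • Cfsg.indFun t.1 (fun a => (t.2.1 a : ℂ))).sum := by
  classical
  have hmem : (Nat.card G : ℂ) • χ ∈ linMono (fun A : Subgroup G => IsCyclic A) := by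
    have h1 : (fun _ : G => (Nat.card G : ℂ)) ∈ linMono (fun A : Subgroup G => IsCyclic A) := by
      rw [show (fun _ : G => (Nat.card G : ℂ)) = ∑ B : Subgroup G, Cfsg.indFun B (thetaFun B) from
        (sum_indFun_theta (G := G)).symm]
      refine sum_mem fun B _ => ?_
      by_cases hB : IsCyclic B
      · exact indFun_linMono (fun E _ => isCyclic_map_subtype hB E)
          (theta_mem _ B hB rfl)
      · rw [thetaFun_eq_zero hB, CfsgLib.Chars.Induced.indFun_zero]
        exact zero_mem _
    have h2 : (Nat.card G : ℂ) • χ = (fun _ : G => (Nat.card G : ℂ)) * χ := by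
      funext g; simp
    rw [h2]
    refine mul_mem_of_mem_linMono (isClassFunction_of_isCharacter hχ) (fun E hE μ => ?_) h1
    have := hE
    letI := IsCyclic.commGroup (α := E)
    have hc : Cfsg.IsCharacter E (fun e : E => linFun μ e * χ e) :=
      isCharacter_mul (isCharacter_coe (linChar μ)) (isCharacter_restrict hχ E)
    obtain ⟨c, hc', -⟩ := exists_nat_coeff hc
    rw [hc', CfsgLib.Chars.Induced.indFun_sum]
    refine sum_mem fun η _ => ?_
    rw [CfsgLib.Chars.Induced.indFun_smul, Nat.cast_smul_eq_nsmul]
    refine nsmul_mem ?_ _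
    obtain ⟨l, hl⟩ := exists_monoidHom_of_map_one_eq_one (isCharacter_coe η)
      (map_one_eq_one_of_isMulCommutative η)
    rw [show (η : E → ℂ) = linFun l from funext hl]
    exact indFun_mem_linMono hE l
  exact exists_list hmem

end Cfsg.Agent.S0177
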