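import Cfsg.Statements.S0179
import Cfsg.Agent.Eq.Def_Characters
import Cfsg.Agent.Chars.Induced.Ito

set_option autoImplicit false
open Cfsg

namespace Cfsg.Agent.S0179

/-- The degree of an irreducible complex representation of a finite group divides the index of the centre. -/
theorem result {G : Type*} [Group G] [Finite G] {V : Type*} [AddCommGroup V] [Module ℂ V] [FiniteDimensional ℂ V] (ρ : Representation ℂ G V) [ρ.IsIrreducible] : Module.finrank ℂ V ∣ (Subgroup.center G).index := by
  have hirr : Cfsg.IsIrrCharacter G ρ.character :=
    CfsgLib.Chars.isIrrCharacter_character ρ inferInstance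
  have h := CfsgLib.Chars.Induced.charDegree_dvd_index_center ⟨ρ.character, hirr⟩
  rwa [CfsgLib.Chars.charDegree_eq_of_map_one (n := Module.finrank ℂ V)
    (show ρ.character 1 = _ from Representation.char_one ρ)] at h

end Cfsg.Agent.S0179
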