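import Cfsg.Statements.S0180
import Cfsg.Agent.Chars.Basic
import Cfsg.Agent.Chars.Apps.RootSums
import Mathlib.RingTheory.Polynomial.Cyclotomic.Roots
import Cfsg.Agent.Eq.Def_Characters

set_option autoImplicit false
open Cfsg

namespace Cfsg.Agent.S0180

open CfsgLib.Chars

/-- Every irreducible complex character of a finite group takes only rational values if and only if g is conjugate to g ^ m for every element g and every m coprime to the group order. -/
theorem result {G : Type*} [Group G] [Finite G] : (∀ χ : Cfsg.IrrCharacter G, ∀ g : G, ∃ q : ℚ, (χ : G → ℂ) g = (q : ℂ)) ↔ ∀ m : ℕ, m.Coprime (Nat.card G) → ∀ g : G, IsConj g (g ^ m) := by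
  classical
  cases nonempty_fintype G
  have hN : 0 < Nat.card G := Nat.card_pos
  have hζ := Complex.isPrimitiveRoot_exp _ hN.ne'
  constructor
  · intro h m hm g
    refine isConj_iff_forall_eq.2 fun χ => ?_
    obtain ⟨n, ρ, -, hχ⟩ := χ.2
    obtain ⟨P, hP⟩ := CfsgLib.Chars.Apps.exists_char_poly ρ hζ g
    obtain ⟨q, hq⟩ := h χ g
    have hqi : IsIntegral ℤ q := by
      have := isIntegral_apply (isCharacter_coe χ) g
      rw [hq] at this
      exact (isIntegral_algebraMap_iff (A := ℚ) (B := ℂ) (algebraMap ℚ ℂ).injective).1 this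
    obtain ⟨z, hz⟩ := IsIntegrallyClosed.isIntegral_iff.1 hqi
    have h1 := hP 1
    rw [pow_one, pow_one, hχ, hq] at h1
    have h0 : Polynomial.aeval (Complex.exp (2 * Real.pi * Complex.I / (Nat.card G : ℕ)))
        (P - Polynomial.C z) = 0 := by
      rw [map_sub, ← h1, Polynomial.aeval_C, ← hz]
      simp
    have h2 := minpoly.isIntegrallyClosed_dvd (hζ.isIntegral hN) h0
    have hν := hζ.pow_of_coprime m hm
    rw [← Polynomial.cyclotomic_eq_minpoly hζ hN, Polynomial.cyclotomic_eq_minpoly hν hN] at h2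
    have h3 := Polynomial.aeval_eq_zero_of_dvd_aeval_eq_zero h2 (minpoly.aeval ℤ _)
    rw [map_sub, sub_eq_zero, Polynomial.aeval_C, ← hP m, hχ] at h3
    rw [hq, h3, ← hz]
    simp
  · intro h χ g
    obtain ⟨n, ρ, -, hχ⟩ := χ.2
    obtain ⟨P, hP⟩ := CfsgLib.Chars.Apps.exists_char_poly ρ hζ g
    set Q : Polynomial ℤ := P %ₘ Polynomial.cyclotomic (Nat.card G) ℤ
    have hval : ∀ μ ∈ primitiveRoots (Nat.card G) ℂ,
        Polynomial.aeval μ Q = (χ : G → ℂ) g := by
      intro μ hμ
      haveI : NeZero (Nat.card G) := ⟨hN.ne'⟩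
      obtain ⟨i, -, hi, rfl⟩ := hζ.isPrimitiveRoot_iff.1 ((mem_primitiveRoots hN).1 hμ)
      have h1 : Polynomial.aeval (Complex.exp (2 * Real.pi * Complex.I / (Nat.card G : ℕ)) ^ i)
          (Polynomial.cyclotomic (Nat.card G) ℤ) = 0 := by
        rw [Polynomial.cyclotomic_eq_minpoly (hζ.pow_of_coprime i hi) hN]
        exact minpoly.aeval ℤ _
      rw [Polynomial.aeval_modByMonic_eq_self_of_root h1, ← hP i, hχ]
      exact (eq_of_isConj (isClassFunction_coe χ) (h i hi g)).symm
    refine ⟨(Q.coeff 0 : ℚ), ?_⟩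
    set R : Polynomial ℂ := Q.map (algebraMap ℤ ℂ) - Polynomial.C ((χ : G → ℂ) g) with hR
    have hRdeg : R.natDegree < (primitiveRoots (Nat.card G) ℂ).card := by
      rw [hζ.card_primitiveRoots, hR, Polynomial.natDegree_sub_C,
        Polynomial.natDegree_map_eq_of_injective (algebraMap ℤ ℂ).injective_int]
      have h1 := Polynomial.natDegree_modByMonic_lt P (Polynomial.cyclotomic.monic (Nat.card G) ℤ)
        (fun e => by
          have := congrArg Polynomial.natDegree e
          rw [Polynomial.natDegree_cyclotomic, Polynomial.natDegree_one] at this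
          exact (Nat.totient_pos.2 hN).ne' this)
      rwa [Polynomial.natDegree_cyclotomic] at h1
    have hR0 : R = 0 := by
      refine Polynomial.eq_zero_of_natDegree_lt_card_of_eval_eq_zero' R _ (fun μ hμ => ?_) hRdeg
      rw [hR, Polynomial.eval_sub, Polynomial.eval_C, Polynomial.eval_map, ← Polynomial.aeval_def,
        hval μ hμ, sub_self]
    have h4 := congrArg (fun S : Polynomial ℂ => S.coeff 0) hR0
    simp only [hR, Polynomial.coeff_sub, Polynomial.coeff_map, Polynomial.coeff_C_zero,
      Polynomial.coeff_zero, sub_eq_zero, eq_intCast] at h4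
    rw [← h4]
    norm_cast

end Cfsg.Agent.S0180
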