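import Cfsg.Statements.S0181
import Mathlib

set_option autoImplicit false
open Cfsg

namespace Cfsg.Agent.S0181

/-- Let H be a normal subgroup of a finite group G and ρ an irreducible complex representation whose kernel does not contain H. If g commutes with no non-identity element of H, then the character of ρ vanishes at g. -/
theorem result {G : Type*} [Group G] [Finite G] {V : Type*} [AddCommGroup V] [Module ℂ V] [FiniteDimensional ℂ V] (ρ : Representation ℂ G V) [ρ.IsIrreducible] (H : Subgroup G) [H.Normal] (hker : ∃ h ∈ H, ρ h ≠ LinearMap.id) (g : G) (hg : ∀ h ∈ H, h * g = g * h → h = 1) : ρ.character g = 0 := by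
  classical
  haveI : Fintype H := Fintype.ofFinite _
  have hN : H.Normal := inferInstance
  set S : V →ₗ[ℂ] V := ∑ h : H, ρ h with hS
  let W : Subrepresentation ρ :=
    { toSubmodule := Representation.invariants (ρ.comp H.subtype)
      apply_mem_toSubmodule := fun a v hv h => by
        have h1 := hv ⟨a⁻¹ * h * a, by simpa using hN.conj_mem h h.2 a⁻¹⟩
        simp only [MonoidHom.coe_comp, Function.comp_apply, Subgroup.coe_subtype] at h1 ⊢
        rw [← Module.End.mul_apply, ← map_mul]
        conv_rhs => rw [← h1, ← Module.End.mul_apply, ← map_mul]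
        congr 2
        group }
  have hbot : Representation.invariants (ρ.comp H.subtype) = ⊥ := by
    rcases eq_bot_or_eq_top W with h | h
    · exact congrArg Subrepresentation.toSubmodule h
    · obtain ⟨k, hk, hk'⟩ := hker
      refine absurd (LinearMap.ext fun v => ?_) hk'
      have hv : v ∈ W.toSubmodule := by rw [h]; exact Submodule.mem_top
      exact hv ⟨k, hk⟩
  have hS0 : S = 0 := by
    apply LinearMap.ext
    intro v
    have : S v ∈ Representation.invariants (ρ.comp H.subtype) := by
      intro h
      simp only [hS, LinearMap.sum_apply, map_sum, MonoidHom.coe_comp, Function.comp_apply,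
        Subgroup.coe_subtype]
      refine Fintype.sum_equiv (Equiv.mulLeft h) _ _ fun k => ?_
      simp [← Module.End.mul_apply, ← map_mul]
    rw [hbot, Submodule.mem_bot] at this
    exact this
  let c : H → H := fun h => ⟨h * g * (h : G)⁻¹ * g⁻¹, by
    have h2 : (h : G) * g * (h : G)⁻¹ * g⁻¹ = (h : G) * (g * (h : G)⁻¹ * g⁻¹) := by group
    rw [h2]
    exact mul_mem h.2 (hN.conj_mem _ (inv_mem h.2) g)⟩
  have hcinj : Function.Injective c := by
    intro a b hab
    have h1 : (a : G) * g * (a : G)⁻¹ = (b : G) * g * (b : G)⁻¹ :=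
      mul_right_cancel (congrArg Subtype.val hab)
    have h2 : ((b⁻¹ * a : H) : G) * g = g * ((b⁻¹ * a : H) : G) := by
      simp only [Subgroup.coe_mul, Subgroup.coe_inv]
      calc (b : G)⁻¹ * a * g = (b : G)⁻¹ * ((a : G) * g * (a : G)⁻¹) * a := by group
        _ = (b : G)⁻¹ * ((b : G) * g * (b : G)⁻¹) * a := by rw [h1]
        _ = _ := by group
    exact (inv_mul_eq_one.mp (Subtype.ext (hg _ (b⁻¹ * a : H).2 h2))).symm
  have hcs : ∀ h : H, ρ.character ((h : G) * g) = ρ.character g := by
    intro h
    obtain ⟨a, rfl⟩ := (Finite.injective_iff_surjective.mp hcinj) h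
    rw [show ((c a : H) : G) * g = (a : G) * g * (a : G)⁻¹ from inv_mul_cancel_right _ _,
      Representation.char_conj]
  have htr : ∑ h : H, ρ.character ((h : G) * g) = 0 := by
    have : ∑ h : H, ρ.character ((h : G) * g) = LinearMap.trace ℂ V (S * ρ g) := by
      simp only [Representation.character, map_mul, hS, Finset.sum_mul, map_sum]
    rw [this, hS0, zero_mul, map_zero]
  rw [Finset.sum_congr rfl (fun h _ => hcs h), Finset.sum_const, Finset.card_univ, nsmul_eq_mul] at htr
  exact (mul_eq_zero.mp htr).resolve_left (Nat.cast_ne_zero.mpr Fintype.card_ne_zero)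

end Cfsg.Agent.S0181
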