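import Cfsg.Statements.S0184
import Cfsg.Agent.Chars.Basic
import Cfsg.Agent.Eq.Def_Characters

set_option autoImplicit false
open Cfsg

namespace Cfsg.Agent.S0184

open CfsgLib.Chars

/-- A finite p-group admits a faithful irreducible complex representation if and only if its centre is cyclic. -/
theorem result {G : Type*} [Group G] [Finite G] (p : ℕ) [Fact p.Prime] (hG : IsPGroup p G) : (∃ (n : ℕ) (ρ : Representation ℂ G (Fin n → ℂ)), ρ.IsIrreducible ∧ Function.Injective ρ) ↔ IsCyclic (Subgroup.center G) := by
  classical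
  cases nonempty_fintype G
  constructor
  · rintro ⟨n, ρ, hρ, hinj⟩
    set χ : Cfsg.IrrCharacter G := ⟨ρ.character, n, ρ, hρ, rfl⟩
    have hcx : ∀ z : Subgroup.center G, ∃ c : ℂ, ρ z = c • 1 := by
      intro z
      haveI := hρ
      obtain ⟨c, hc⟩ := (Representation.IsIrreducible.algebraMap_intertwiningMap_bijective_of_isAlgClosed
        (ρ := ρ)).2 (Representation.IntertwiningMap.centralMul ρ (z : G)
          (Submonoid.mem_center_iff.mpr (Subgroup.mem_center_iff.mp z.2)))
      refine ⟨c, ?_⟩
      have := congrArg Representation.IntertwiningMap.toLinearMap hc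
      simp [Representation.IntertwiningMap.centralMul] at this
      exact this.symm
    choose c hc using hcx
    have hn : 0 < n := by
      rcases Nat.eq_zero_or_pos n with rfl | h
      · exact absurd (show ρ.character 1 = 0 by rw [Representation.char_one]; simp)
          (map_one_ne_zero χ)
      · exact h
    have hsc : ∀ a b : ℂ, a • (1 : (Fin n → ℂ) →ₗ[ℂ] (Fin n → ℂ)) = b • 1 → a = b := by
      intro a b hab
      have := congrFun (LinearMap.congr_fun hab fun _ => 1) ⟨0, hn⟩
      simpa using this
    let F : Subgroup.center G →* ℂ :=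
      { toFun := c
        map_one' := hsc _ _ (by rw [← hc]; simp)
        map_mul' := fun a b => hsc _ _ (by
          rw [← hc, Subgroup.coe_mul, map_mul, hc, hc, smul_mul_assoc, one_mul, smul_smul]) }
    refine isCyclic_of_subgroup_isDomain F fun a b hab => ?_
    exact Subtype.ext (hinj (by rw [hc, hc]; exact congrArg (fun t => t • _) hab))
  · intro hcyc
    suffices ∃ χ : Cfsg.IrrCharacter G, charKer (χ : G → ℂ) = ⊥ by
      obtain ⟨χ, hχ⟩ := this
      obtain ⟨n, ρ, hρ, hc⟩ := χ.2
      refine ⟨n, ρ, hρ, fun a b hab => ?_⟩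
      have h1 : a * b⁻¹ ∈ charKer (χ : G → ℂ) := by
        rw [← hc, mem_charKer_iff_rep, map_mul, hab, ← map_mul, mul_inv_cancel, map_one]
      rw [hχ, Subgroup.mem_bot, mul_inv_eq_one] at h1
      exact h1
    by_contra! hall
    rcases subsingleton_or_nontrivial G with hG1 | hG1
    · exact hall (oneChar G) (Subsingleton.elim _ _)
    have := hG.center_nontrivial
    obtain ⟨k, hk⟩ := IsPGroup.iff_card.1 (hG.to_subgroup (Subgroup.center G))
    have hk0 : k ≠ 0 := by
      rintro rfl
      rw [pow_zero] at hk
      exact absurd hk (Finite.one_lt_card (α := Subgroup.center G)).ne'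
    obtain ⟨z, hz⟩ := exists_prime_orderOf_dvd_card' p (hk ▸ dvd_pow_self p hk0)
    have hzker : ∀ χ : Cfsg.IrrCharacter G, (z : G) ∈ charKer (χ : G → ℂ) := by
      intro χ
      set K := charKer (χ : G → ℂ) with hK
      let _ : MulAction G K :=
        { smul := fun s q => ⟨s * q.1 * s⁻¹, Subgroup.Normal.conj_mem inferInstance _ q.2 s⟩
          one_smul := fun q => Subtype.ext (show (1 : G) * q.1 * (1 : G)⁻¹ = q.1 by group)
          mul_smul := fun s t q => Subtype.ext
            (show s * t * q.1 * (s * t)⁻¹ = s * (t * q.1 * t⁻¹) * s⁻¹ by group) }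
      have hdvd : p ∣ Nat.card K := by
        obtain ⟨j, hj⟩ := IsPGroup.iff_card.1 (hG.to_subgroup K)
        rcases Nat.eq_zero_or_pos j with rfl | hj0
        · exact absurd (Subgroup.card_eq_one.1 (by simpa using hj)) (hall χ)
        · exact hj ▸ dvd_pow_self p hj0.ne'
      obtain ⟨w, hw, hw1⟩ := hG.exists_fixed_point_of_prime_dvd_card_of_fixed_point K hdvd
        (a := (1 : K)) (fun s => Subtype.ext (show s * (1 : G) * s⁻¹ = 1 by group))
      have hwc : (w : G) ∈ Subgroup.center G := Subgroup.mem_center_iff.2 fun s => by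
        have h2 : s * (w : G) * s⁻¹ = w := congrArg Subtype.val (hw s)
        calc s * (w : G) = s * (w : G) * s⁻¹ * s := by group
          _ = (w : G) * s := by rw [h2]
      set w' : Subgroup.center G := ⟨w, hwc⟩
      have hne : w' ≠ 1 := fun e =>
        hw1 (Subtype.ext (congrArg (fun t : Subgroup.center G => (t : G)) e).symm)
      obtain ⟨j, hj⟩ := IsPGroup.iff_orderOf.1 (hG.to_subgroup (Subgroup.center G)) w'
      have hzz : z ∈ Subgroup.zpowers w' := by
        rcases Nat.eq_zero_or_pos j with rfl | hj0
        · exact absurd (orderOf_eq_one_iff.1 (by simpa using hj)) hne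
        set y := w' ^ p ^ (j - 1)
        have hy : orderOf y = p := by
          rw [orderOf_pow, hj, Nat.gcd_eq_right (pow_dvd_pow p (Nat.sub_le j 1)),
            Nat.pow_div (Nat.sub_le j 1) (Fact.out : p.Prime).pos, Nat.sub_sub_self hj0, pow_one]
        set T := Finset.univ.filter (fun x : Subgroup.center G => x ^ p = 1)
        have hsub : (Subgroup.zpowers y : Set (Subgroup.center G)).toFinset ⊆ T := by
          intro x hx
          obtain ⟨i, rfl⟩ := Subgroup.mem_zpowers_iff.1 (Set.mem_toFinset.1 hx)
          refine Finset.mem_filter.2 ⟨Finset.mem_univ _, ?_⟩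
          rw [← zpow_natCast, ← zpow_mul, mul_comm, zpow_mul, zpow_natCast, ← hy,
            pow_orderOf_eq_one, one_zpow]
        have hcardy : (Subgroup.zpowers y : Set (Subgroup.center G)).toFinset.card = p := by
          rw [Set.toFinset_card, ← Nat.card_eq_fintype_card]
          exact (Nat.card_zpowers y).trans hy
        have hT : T.card ≤ p := IsCyclic.card_pow_eq_one_le (Fact.out : p.Prime).pos
        have hzT : z ∈ (Subgroup.zpowers y : Set (Subgroup.center G)).toFinset := by
          rw [Finset.eq_of_subset_of_card_le hsub (hT.trans hcardy.ge)]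
          refine Finset.mem_filter.2 ⟨Finset.mem_univ _, ?_⟩
          rw [← hz, pow_orderOf_eq_one]
        exact Subgroup.zpowers_le.2 (Subgroup.pow_mem _ (Subgroup.mem_zpowers w') _)
          (Set.mem_toFinset.1 hzT)
      obtain ⟨i, hi⟩ := Subgroup.mem_zpowers_iff.1 hzz
      rw [← hi, Subgroup.coe_zpow]
      exact Subgroup.zpow_mem _ w.2 i
    have h1 : (z : G) ∈ ⨅ χ : Cfsg.IrrCharacter G, charKer (χ : G → ℂ) := Subgroup.mem_iInf.2 hzker
    rw [iInf_charKer_eq_bot, Subgroup.mem_bot] at h1
    rw [show z = 1 from Subtype.ext h1, orderOf_one] at hz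
    exact (Fact.out : p.Prime).one_lt.ne hz

end Cfsg.Agent.S0184
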