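import Cfsg.Statements.S0185
import Cfsg.Agent.Chars.Basic
import Cfsg.Agent.Eq.Def_Characters

set_option autoImplicit false
open Cfsg

namespace Cfsg.Agent.S0185

open CfsgLib.Chars

/-- If a finite group has a faithful complex representation of degree less than the smallest prime dividing its order, the group is abelian. -/
theorem result {G : Type*} [Group G] [Finite G] {V : Type*} [AddCommGroup V] [Module ℂ V] [FiniteDimensional ℂ V] (ρ : Representation ℂ G V) (hfaithful : Function.Injective ρ) (hdeg : ∀ p : ℕ, p.Prime → p ∣ Nat.card G → Module.finrank ℂ V < p) (a b : G) : a * b = b * a := by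
  classical
  cases nonempty_fintype G
  have hch := isCharacter_character ρ
  obtain ⟨c, hc, -⟩ := exists_nat_coeff hch
  have hcomm : ∀ χ : Cfsg.IrrCharacter G, c χ ≠ 0 →
      (χ : G → ℂ) (a * b * a⁻¹ * b⁻¹) = (χ : G → ℂ) 1 := by
    intro χ hne
    have hle : c χ * Cfsg.charDegree (χ : G → ℂ) ≤ Module.finrank ℂ V := by
      have h1 : (Module.finrank ℂ V : ℂ) =
          ((∑ η : Cfsg.IrrCharacter G, c η * Cfsg.charDegree (η : G → ℂ) : ℕ) : ℂ) := by
        rw [← Representation.char_one (ρ := ρ), hc]
        push_cast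
        simp [Finset.sum_apply, coe_charDegree]
      rw [Nat.cast_inj.1 h1]
      exact Finset.single_le_sum (f := fun η => c η * Cfsg.charDegree (η : G → ℂ))
        (fun _ _ => Nat.zero_le _) (Finset.mem_univ χ)
    have h1 : Cfsg.charDegree (χ : G → ℂ) = 1 := by
      by_contra h1
      obtain ⟨p, hp, hpd⟩ := Nat.exists_prime_and_dvd h1
      have hge := Nat.le_of_dvd (charDegree_pos χ) hpd
      have h2 := hdeg p hp (hpd.trans (charDegree_dvd_card χ))
      have h3 := Nat.le_mul_of_pos_left (Cfsg.charDegree (χ : G → ℂ)) (Nat.pos_of_ne_zero hne)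
      omega
    obtain ⟨l, hl⟩ := exists_monoidHom_of_map_one_eq_one (isCharacter_coe χ)
      (by rw [← coe_charDegree χ, h1, Nat.cast_one])
    rw [hl, hl]
    congr 1
    simp only [map_mul, map_inv, map_one]
    rw [mul_comm (l a), mul_inv_cancel_right, mul_inv_cancel]
  have hval : ρ.character (a * b * a⁻¹ * b⁻¹) = ρ.character 1 := by
    rw [hc]
    simp only [Finset.sum_apply, Pi.smul_apply, smul_eq_mul]
    refine Finset.sum_congr rfl fun χ _ => ?_
    rcases eq_or_ne (c χ) 0 with h0 | h0
    · simp [h0]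
    · rw [hcomm χ h0]
  set e := (Module.finBasis ℂ V).equivFun
  have h1 := rep_eq_one_of_character_eq (transportRep ρ e) (g := a * b * a⁻¹ * b⁻¹)
    (by rw [transportRep_character]; exact hval)
  have h2 : ρ (a * b * a⁻¹ * b⁻¹) = 1 := LinearMap.ext fun v => e.injective (by
    have h3 := LinearMap.congr_fun h1 (e v)
    rw [transportRep_apply, e.symm_apply_apply] at h3
    simpa using h3)
  have h4 : a * b * a⁻¹ * b⁻¹ = 1 := hfaithful (h2.trans (map_one ρ).symm)
  rw [mul_inv_eq_one, mul_inv_eq_iff_eq_mul] at h4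
  exact h4

end Cfsg.Agent.S0185
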