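import Cfsg.Statements.S0186
import Cfsg.Agent.Chars.Induced.Clifford
import Cfsg.Agent.PGroup.Frattini
import Cfsg.Agent.Eq.Def_Characters

set_option autoImplicit false
open Cfsg

namespace Cfsg.Agent.S0186

open CfsgLib.Chars

/-- Let G be a finite simple group of order n and p a prime dividing n. If G has more than n / p^2 conjugacy classes, then every Sylow p-subgroup of G is abelian. -/
theorem result {G : Type*} [Group G] [Finite G] [IsSimpleGroup G] (p : ℕ) [Fact p.Prime] (hp : p ∣ Nat.card G) (hmany : Nat.card G < p ^ 2 * Nat.card (ConjClasses G)) (P : Sylow p G) (a b : G) (ha : a ∈ P) (hb : b ∈ P) : a * b = b * a := by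
  classical
  cases nonempty_fintype G
  by_contra hne
  have hcard : 1 < Nat.card G := Finite.one_lt_card
  have hPne : (P : Subgroup G) ≠ ⊥ := P.ne_bot_of_dvd_card hp
  obtain ⟨m, hm⟩ := IsPGroup.iff_card.1 P.2
  -- linear constituents on the Sylow subgroup
  let A : Cfsg.IrrCharacter G → ℕ := fun χ =>
    ∑ μ ∈ Finset.univ.filter (fun μ : Cfsg.IrrCharacter (P : Subgroup G) =>
      (μ : ↥(P : Subgroup G) → ℂ) 1 = 1),
      CfsgLib.Chars.Induced.mult (fun x : (P : Subgroup G) => (χ : G → ℂ) x) μ
  -- inequality for each non-principal character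
  have hineq : ∀ χ : Cfsg.IrrCharacter G, χ ≠ oneChar G →
      A χ + p ≤ Cfsg.charDegree (χ : G → ℂ) := by
    intro χ hχ
    have hres := isCharacter_restrict (isCharacter_coe χ) (P : Subgroup G)
    obtain ⟨s, hmem, hs⟩ := CfsgLib.Chars.Induced.exists_eq_sum_mult hres
    have hker : charKer (χ : G → ℂ) = ⊥ := by
      refine (IsSimpleGroup.eq_bot_or_eq_top_of_normal _ inferInstance).resolve_right fun h => hχ ?_
      obtain ⟨l, hl⟩ := exists_monoidHom_of_map_one_eq_one (isCharacter_coe χ) (by
        rw [← coe_charDegree χ]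
        have h1 := charDegree_dvd_index χ ⊤ h.ge
        rw [Subgroup.index_top, Nat.dvd_one] at h1
        rw [h1, Nat.cast_one])
      refine Subtype.ext (funext fun g => ?_)
      rw [oneChar_apply, map_eq_map_one_of_mem_charKer (show g ∈ charKer (χ : G → ℂ) from
        h ▸ Subgroup.mem_top g), hl, map_one, Units.val_one]
    have hsum : Cfsg.charDegree (χ : G → ℂ) =
        ∑ μ : Cfsg.IrrCharacter (P : Subgroup G),
          CfsgLib.Chars.Induced.mult (fun x : (P : Subgroup G) => (χ : G → ℂ) x) μ *
            Cfsg.charDegree (μ : ↥(P : Subgroup G) → ℂ) := by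
      apply Nat.cast_injective (R := ℂ)
      rw [coe_charDegree χ, Nat.cast_sum,
        ← Finset.sum_subset (Finset.subset_univ s) fun μ _ hμ => by
          rw [not_not.1 fun h => hμ ((hmem μ).2 h), zero_mul, Nat.cast_zero]]
      have h1 := congrFun hs 1
      simp only [OneMemClass.coe_one, Finset.sum_apply, Pi.smul_apply, smul_eq_mul] at h1
      rw [h1]
      exact Finset.sum_congr rfl fun μ _ => by rw [Nat.cast_mul, coe_charDegree μ]
    obtain ⟨μ, hμ, hμ1⟩ : ∃ μ ∈ s, (μ : ↥(P : Subgroup G) → ℂ) 1 ≠ 1 := by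
      by_contra! hall
      apply hne
      have h1 : a * b * a⁻¹ * b⁻¹ ∈ charKer (χ : G → ℂ) := by
        rw [mem_charKer_iff (isCharacter_coe χ)]
        set a' : (P : Subgroup G) := ⟨a, ha⟩
        set b' : (P : Subgroup G) := ⟨b, hb⟩
        have h2 := congrFun hs (a' * b' * a'⁻¹ * b'⁻¹)
        have h3 := congrFun hs 1
        simp only [Finset.sum_apply, Pi.smul_apply, smul_eq_mul] at h2 h3
        have h4 : ∀ μ ∈ s, (μ : ↥(P : Subgroup G) → ℂ) (a' * b' * a'⁻¹ * b'⁻¹) =
            (μ : ↥(P : Subgroup G) → ℂ) 1 := by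
          intro μ hμ
          obtain ⟨l, hl⟩ := exists_monoidHom_of_map_one_eq_one (isCharacter_coe μ) (hall μ hμ)
          rw [hl, hl]
          congr 1
          simp only [map_mul, map_inv, map_one]
          rw [mul_comm (l a'), mul_inv_cancel_right, mul_inv_cancel]
        rw [Finset.sum_congr rfl fun μ hμ => by rw [h4 μ hμ], ← h3] at h2
        simpa [a', b'] using h2
      rw [hker, Subgroup.mem_bot, mul_inv_eq_one, mul_inv_eq_iff_eq_mul] at h1
      exact h1
    have hdeg : p ≤ Cfsg.charDegree (μ : ↥(P : Subgroup G) → ℂ) := by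
      obtain ⟨k, -, hk⟩ := (Nat.dvd_prime_pow Fact.out).1 (hm ▸ charDegree_dvd_card μ)
      rcases Nat.eq_zero_or_pos k with rfl | hk0
      · exact absurd (by rw [← coe_charDegree μ, hk, pow_zero, Nat.cast_one]) hμ1
      · rw [hk]; exact Nat.le_self_pow hk0.ne' p
    rw [hsum, ← Finset.sum_filter_add_sum_filter_not Finset.univ
      (fun μ : Cfsg.IrrCharacter (P : Subgroup G) => (μ : ↥(P : Subgroup G) → ℂ) 1 = 1)]
    refine Nat.add_le_add (Finset.sum_le_sum fun ν hν => ?_) ?_
    · exact Nat.le_mul_of_pos_right _ (charDegree_pos ν)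
    · refine hdeg.trans ((Nat.le_mul_of_pos_left _ (Nat.pos_of_ne_zero ((hmem μ).1 hμ))).trans ?_)
      exact Finset.single_le_sum (f := fun μ : Cfsg.IrrCharacter (P : Subgroup G) =>
        CfsgLib.Chars.Induced.mult (fun x : (P : Subgroup G) => (χ : G → ℂ) x) μ *
          Cfsg.charDegree (μ : ↥(P : Subgroup G) → ℂ))
        (fun _ _ => Nat.zero_le _) (Finset.mem_filter.2 ⟨Finset.mem_univ _, hμ1⟩)
  -- the induced linear characters
  have hA : ∑ χ : Cfsg.IrrCharacter G, A χ * Cfsg.charDegree (χ : G → ℂ) =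
      (commutator (P : Subgroup G)).index * (P : Subgroup G).index := by
    simp only [A, Finset.sum_mul]
    rw [Finset.sum_comm, ← card_linear_irr, Nat.card_eq_fintype_card, Fintype.card_subtype,
      ← smul_eq_mul, ← Finset.sum_const]
    refine Finset.sum_congr rfl fun μ hμ => ?_
    obtain ⟨s, hmem, hs⟩ := CfsgLib.Chars.Induced.exists_eq_sum_mult
      (CfsgLib.Chars.Induced.isCharacter_indFun (P : Subgroup G) (isCharacter_coe μ))
    apply Nat.cast_injective (R := ℂ)
    have h1 := congrFun hs 1
    rw [CfsgLib.Chars.Induced.indFun_one_apply, (Finset.mem_filter.1 hμ).2, mul_one] at h1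
    simp only [Finset.sum_apply, Pi.smul_apply, smul_eq_mul] at h1
    rw [h1, Nat.cast_sum, ← Finset.sum_subset (Finset.subset_univ s) fun χ _ hχ => by
      rw [← CfsgLib.Chars.Induced.mult_indFun_irr, not_not.1 fun h => hχ ((hmem χ).2 h), zero_mul,
        Nat.cast_zero]]
    exact Finset.sum_congr rfl fun χ _ => by
      rw [Nat.cast_mul, coe_charDegree χ, CfsgLib.Chars.Induced.mult_indFun_irr]
  -- the derived subgroup has index at least `p ^ 2`
  have hp2 : p ^ 2 ≤ (commutator (P : Subgroup G)).index := by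
    obtain ⟨k, -, hk⟩ := (Nat.dvd_prime_pow Fact.out).1
      (hm ▸ Subgroup.index_dvd_card (commutator (P : Subgroup G)))
    rw [hk]
    refine Nat.pow_le_pow_right (Fact.out : p.Prime).pos ?_
    by_contra hk2
    apply hne
    have hdvd : (frattini (P : Subgroup G)).index ∣ p := by
      refine (Subgroup.index_dvd_of_le (CfsgLib.PGroup.commutator_le_frattini P.2)).trans ?_
      rw [hk]
      calc p ^ k ∣ p ^ 1 := pow_dvd_pow p (by omega)
        _ = p := pow_one p
    have := CfsgLib.PGroup.isCyclic_of_frattini_index hdvd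
    let := IsCyclic.commGroup (α := (P : Subgroup G))
    exact congrArg Subtype.val (mul_comm (⟨a, ha⟩ : (P : Subgroup G)) ⟨b, hb⟩)
  -- conclusion
  have hk := card_irrCharacter G
  rw [Nat.card_eq_fintype_card] at hk
  have htot := sum_charDegree_sq (G := G)
  rw [← Finset.add_sum_erase _ _ (Finset.mem_univ (oneChar G))] at htot hA
  have hone : Cfsg.charDegree (oneChar G : G → ℂ) = 1 :=
    charDegree_eq_of_map_one (by simp [oneChar_apply])
  rw [hone, one_pow] at htot
  rw [hone, mul_one] at hA
  have hA1 : A (oneChar G) ≤ 1 := by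
    have hres := isCharacter_restrict (isCharacter_coe (oneChar G)) (P : Subgroup G)
    refine le_of_eq_of_le (Finset.sum_eq_single (oneChar (P : Subgroup G)) ?_ ?_) ?_
    · intro μ _ hμ
      apply Nat.cast_injective (R := ℂ)
      rw [← CfsgLib.Chars.Induced.classInner_eq_mult hres, Nat.cast_zero,
        show (fun x : (P : Subgroup G) => (oneChar G : G → ℂ) x) =
          (oneChar (P : Subgroup G) : ↥(P : Subgroup G) → ℂ) from
          funext fun x => by simp [oneChar_apply]]
      exact classInner_of_ne (Ne.symm hμ)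
    · intro h
      exact absurd (Finset.mem_filter.2 ⟨Finset.mem_univ (oneChar (P : Subgroup G)), oneChar_apply (1 : (P : Subgroup G))⟩) h
    · rw [← Nat.cast_le (α := ℝ)]
      have : ((CfsgLib.Chars.Induced.mult (fun x : (P : Subgroup G) => (oneChar G : G → ℂ) x)
          (oneChar (P : Subgroup G)) : ℕ) : ℂ) = 1 := by
        rw [← CfsgLib.Chars.Induced.classInner_eq_mult hres,
          show (fun x : (P : Subgroup G) => (oneChar G : G → ℂ) x) =
            (oneChar (P : Subgroup G) : ↥(P : Subgroup G) → ℂ) from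
            funext fun x => by simp [oneChar_apply]]
        exact classInner_self _
      exact_mod_cast (le_of_eq (Nat.cast_eq_one.1 this))
  have hterm : ∑ χ ∈ Finset.univ.erase (oneChar G), (A χ * Cfsg.charDegree (χ : G → ℂ) + p ^ 2) ≤
      ∑ χ ∈ Finset.univ.erase (oneChar G), Cfsg.charDegree (χ : G → ℂ) ^ 2 :=
    Finset.sum_le_sum fun χ hχ => by
      have h1 := hineq χ (Finset.mem_erase.1 hχ).1
      nlinarith
  rw [Finset.sum_add_distrib, Finset.sum_const, smul_eq_mul,
    Finset.card_erase_of_mem (Finset.mem_univ _), Finset.card_univ, hk] at hterm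
  have hidx : 1 ≤ (P : Subgroup G).index := Nat.one_le_iff_ne_zero.2 Subgroup.index_ne_zero_of_finite
  have hkpos : 1 ≤ Nat.card (ConjClasses G) := Finite.card_pos
  obtain ⟨j, hj⟩ := Nat.exists_eq_add_of_le hkpos
  rw [hj, Nat.add_sub_cancel_left] at hterm
  rw [hj] at hmany
  nlinarith

end Cfsg.Agent.S0186
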