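import Cfsg.Statements.S0187
import Cfsg.Agent.Chars.Basic
import Cfsg.Agent.Eq.Def_Characters

set_option autoImplicit false
open Cfsg

namespace Cfsg.Agent.S0187

open CfsgLib.Chars

/-- A finite group is commutative if and only if every irreducible complex character has degree 1. -/
theorem result {G : Type*} [Group G] [Finite G] : (∀ a b : G, a * b = b * a) ↔ ∀ χ : Cfsg.IrrCharacter G, (χ : G → ℂ) 1 = 1 := by
  classical
  cases nonempty_fintype G
  constructor
  · intro h χ
    refine map_one_eq_one_of_commutator_eq_bot ?_ χ
    rw [commutator_eq_bot_iff_center_eq_top, eq_top_iff]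
    exact fun x _ => Subgroup.mem_center_iff.2 fun y => h y x
  · intro h a b
    have h1 : commutator G = ⊥ := commutator_eq_bot_iff.2 h
    have h2 : a * b * a⁻¹ * b⁻¹ = 1 := by
      rw [← Subgroup.mem_bot, ← h1, commutator_def]
      exact Subgroup.commutator_mem_commutator (Subgroup.mem_top a) (Subgroup.mem_top b)
    rw [mul_inv_eq_one, mul_inv_eq_iff_eq_mul] at h2
    exact h2

end Cfsg.Agent.S0187
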