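import Cfsg.Statements.S0190
import Mathlib
import Cfsg.Agent.Eq.Def_Characters
import Cfsg.Agent.Chars.Induced.Basic

set_option autoImplicit false
open Cfsg
open CfsgLib.Chars.Induced

namespace Cfsg.Agent.S0190

/-- For a transitive action of a finite group on X, the permutation character g ↦ (number of fixed points of g) is the function induced from the principal character of the stabilizer of any point. -/
theorem result {G : Type*} [Group G] [Fintype G] (X : Type*) [MulAction G X] [Finite X] [MulAction.IsPretransitive G X] (x : X) : (fun g : G => (Nat.card (MulAction.fixedBy X g) : ℂ)) = Cfsg.indFun (MulAction.stabilizer G x) (fun _ => 1) := by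
  classical
  funext g
  set H := MulAction.stabilizer G x with hH
  choose s hs using MulAction.exists_smul_eq G x
  let e : {y : G // g • y • x = y • x} ≃ MulAction.fixedBy X g × H :=
    { toFun := fun y => (⟨y.1 • x, y.2⟩, ⟨(s (y.1 • x))⁻¹ * y.1, by
        rw [hH, MulAction.mem_stabilizer_iff, mul_smul, inv_smul_eq_iff, hs]⟩)
      invFun := fun w => ⟨s w.1.1 * w.2.1, by
        have h2 : (w.2.1 : G) • x = x := w.2.2
        rw [mul_smul (s w.1.1), h2, hs]
        exact w.1.2⟩
      left_inv := fun y => Subtype.ext (by simp)
      right_inv := fun w => by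
        have h2 : (w.2.1 : G) • x = x := w.2.2
        have h3 : (s w.1.1 * w.2.1) • x = w.1.1 := by rw [mul_smul, h2, hs]
        refine Prod.ext (Subtype.ext h3) (Subtype.ext ?_)
        simp only [h3]
        group }
  have hsum : ∑ y : G, Cfsg.extendByZero H (fun _ => (1 : ℂ)) (y⁻¹ * g * y) =
      (Nat.card {y : G // g • y • x = y • x} : ℂ) := by
    have hterm : ∀ y : G, Cfsg.extendByZero H (fun _ => (1 : ℂ)) (y⁻¹ * g * y) =
        if g • y • x = y • x then 1 else 0 := by
      intro y
      have hiff : y⁻¹ * g * y ∈ H ↔ g • y • x = y • x := by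
        rw [hH, MulAction.mem_stabilizer_iff, mul_smul, mul_smul, inv_smul_eq_iff]
      split_ifs with h
      · rw [extendByZero_mem _ (hiff.mpr h)]
      · exact extendByZero_notMem _ (fun hm => h (hiff.mp hm))
    simp only [hterm, Finset.sum_boole, Nat.card_eq_fintype_card, Fintype.card_subtype]
  simp only [Cfsg.indFun]
  rw [hsum, Nat.card_congr e, Nat.card_prod, Nat.cast_mul]
  field_simp

end Cfsg.Agent.S0190
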