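import Cfsg.Statements.S0192
import Mathlib
import Cfsg.Agent.Eq.Def_Characters

set_option autoImplicit false
open Cfsg

namespace Cfsg.Agent.S0192

/-- Brauer's generation criterion. Let G be a finite simple group, H₁ and H₂ subgroups, and χ a non-principal irreducible character. If the multiplicity of the principal character in χ restricted to H₁ ⊓ H₂ is less than the sum of the corresponding multiplicities for H₁ and H₂, then H₁ and H₂ do not generate G. -/
theorem result {G : Type*} [Group G] [Fintype G] [IsSimpleGroup G] (H₁ H₂ : Subgroup G) [Fintype H₁] [Fintype H₂] [Fintype ↥(H₁ ⊓ H₂)] (χ : G → ℂ) (hχ : Cfsg.IsIrrCharacter G χ) (hχ1 : χ ≠ fun _ => 1) (hlt : (Cfsg.classInner (fun x : ↥(H₁ ⊓ H₂) => χ x) (fun _ => 1)).re < (Cfsg.classInner (fun x : H₁ => χ x) (fun _ => 1)).re + (Cfsg.classInner (fun x : H₂ => χ x) (fun _ => 1)).re) : H₁ ⊔ H₂ ≠ ⊤ := by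
  intro htop
  obtain ⟨n, ρ, hirr, rfl⟩ := hχ
  haveI := hirr
  have hdim : ∀ (H : Subgroup G) [Fintype H],
      (Cfsg.classInner (fun x : H => ρ.character x) (fun _ => 1)).re =
        (Module.finrank ℂ (Representation.invariants (ρ.comp H.subtype)) : ℝ) := by
    intro H _
    haveI : Invertible (Nat.card H : ℂ) :=
      invertibleOfNonzero (Nat.cast_ne_zero.mpr Nat.card_pos.ne')
    have key := Representation.card_inv_mul_sum_char_eq_finrank (k := ℂ) (ρ.comp H.subtype)
    have : Cfsg.classInner (fun x : H => ρ.character x) (fun _ => 1) =
        (Module.finrank ℂ (Representation.invariants (ρ.comp H.subtype)) : ℂ) := by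
      rw [← key, Cfsg.classInner]
      simp [Representation.character]
    rw [this, Complex.natCast_re]
  rw [hdim, hdim, hdim] at hlt
  set W₁ := Representation.invariants (ρ.comp H₁.subtype)
  set W₂ := Representation.invariants (ρ.comp H₂.subtype)
  set W := Representation.invariants (ρ.comp (H₁ ⊓ H₂).subtype)
  have hlt' : Module.finrank ℂ W < Module.finrank ℂ W₁ + Module.finrank ℂ W₂ := by exact_mod_cast hlt
  have h1 : W₁ ≤ W := fun v hv h => hv ⟨h, h.2.1⟩
  have h2 : W₂ ≤ W := fun v hv h => hv ⟨h, h.2.2⟩
  have hne : W₁ ⊓ W₂ ≠ ⊥ := by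
    intro h
    have := Submodule.finrank_sup_add_finrank_inf_eq W₁ W₂
    rw [h, finrank_bot, add_zero] at this
    have := Submodule.finrank_mono (sup_le h1 h2)
    omega
  obtain ⟨v, hv, hv0⟩ := Submodule.exists_mem_ne_zero_of_ne_bot hne
  have hfix : ∀ g : G, ρ g v = v := by
    intro g
    have hle : H₁ ⊔ H₂ ≤ ({ carrier := {g : G | ρ g v = v}
                            one_mem' := by simp
                            mul_mem' := fun {a b} ha hb => by
                              simp only [Set.mem_ofPred_eq, map_mul, Module.End.mul_apply] at *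
                              rw [hb, ha]
                            inv_mem' := fun {a} ha => by
                              simp only [Set.mem_ofPred_eq] at *
                              conv_lhs => rw [← ha]
                              rw [← Module.End.mul_apply, ← map_mul, inv_mul_cancel, map_one]
                              rfl } : Subgroup G) := by
      refine sup_le ?_ ?_
      · intro h hh
        exact hv.1 ⟨h, hh⟩
      · intro h hh
        exact hv.2 ⟨h, hh⟩
    exact hle (htop ▸ Subgroup.mem_top g)
  let L : Subrepresentation ρ :=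
    { toSubmodule := Submodule.span ℂ {v}
      apply_mem_toSubmodule := fun g w hw => by
        obtain ⟨c, rfl⟩ := Submodule.mem_span_singleton.mp hw
        rw [map_smul, hfix]
        exact hw }
  have hL : Submodule.span ℂ {v} = ⊤ := by
    rcases eq_bot_or_eq_top L with h | h
    · exact absurd ((Submodule.span_singleton_eq_bot).mp (congrArg Subrepresentation.toSubmodule h)) hv0
    · exact congrArg Subrepresentation.toSubmodule h
  apply hχ1
  funext g
  have hid : ρ g = LinearMap.id := by
    apply LinearMap.ext
    intro w
    obtain ⟨c, rfl⟩ := Submodule.mem_span_singleton.mp (hL ▸ Submodule.mem_top : w ∈ Submodule.span ℂ {v})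
    rw [map_smul, hfix, LinearMap.id_apply]
  have hn : Module.finrank ℂ (Fin n → ℂ) = 1 := by
    rw [← finrank_top, ← hL, finrank_span_singleton hv0]
  rw [Representation.character, hid, LinearMap.trace_id, hn, Nat.cast_one]

end Cfsg.Agent.S0192
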