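import Cfsg.Statements.S0194
import Cfsg.Agent.Chars.Induced.Clifford
import Cfsg.Agent.CentralizerFour.OddReal
import Cfsg.Agent.Eq.Def_Characters

set_option autoImplicit false
set_option maxHeartbeats 800000
open scoped ComplexConjugate
open Cfsg

namespace Cfsg.Agent.S0194

open CfsgLib.Chars

/-- Let G have odd order, H be a normal subgroup and θ a non-principal irreducible character of H. Then the function induced from θ is orthogonal to its complex conjugate. -/
theorem result {G : Type*} [Group G] [Fintype G] (hodd : Odd (Nat.card G)) (H : Subgroup G) [H.Normal] (θ : H → ℂ) (hθ : Cfsg.IsIrrCharacter H θ) (hθ1 : θ ≠ fun _ => 1) : Cfsg.classInner (fun g => conj (Cfsg.indFun H θ g)) (Cfsg.indFun H θ) = 0 := by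
  classical
  set θ' : Cfsg.IrrCharacter H := ⟨θ, hθ⟩
  have hne : ∀ η ∈ CfsgLib.Chars.Induced.conjOrbit θ', η ≠ conjChar θ' := by
    rintro η ⟨x, rfl⟩ he
    apply hθ1
    have hxx : x * x ∈ CfsgLib.Chars.Induced.inertia H θ := by
      rw [CfsgLib.Chars.Induced.mem_inertia, CfsgLib.Chars.Induced.conjFun_mul]
      have h1 : CfsgLib.Chars.Induced.conjFun H x θ = fun n => conj (θ n) := by
        have := congrArg (fun ξ : Cfsg.IrrCharacter H => (ξ : H → ℂ)) he
        simpa [CfsgLib.Chars.Induced.conjIrr_coe, funext_iff, θ'] using this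
      rw [h1]
      funext n
      have h2 := congrFun h1 n
      rw [CfsgLib.Chars.Induced.conjFun_apply] at h2 ⊢
      rw [h2, Complex.conj_conj]
    have hx : x ∈ CfsgLib.Chars.Induced.inertia H θ := by
      obtain ⟨k, hk⟩ := hodd
      have h2 : x = (x * x) ^ (k + 1) := by
        rw [← pow_two, ← pow_mul, show 2 * (k + 1) = Nat.card G + 1 by omega, pow_succ,
          pow_card_eq_one', one_mul]
      rw [h2]
      exact pow_mem hxx _
    have hoddH : Odd (Nat.card H) := Odd.of_dvd_nat hodd H.card_subgroup_dvd_card
    have h3 := CfsgLib.CentralizerFour.eq_one_of_real hoddH θ' fun n => by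
      have h1 := congrFun (CfsgLib.Chars.Induced.mem_inertia.1 hx) n
      have h2 := congrArg (fun ξ : Cfsg.IrrCharacter H => (ξ : H → ℂ) n) he
      simp only [CfsgLib.Chars.Induced.conjIrr_coe, conjChar_apply] at h2
      rw [h1] at h2
      exact h2.symm
    funext n
    exact (congrArg (fun ξ : Cfsg.IrrCharacter H => (ξ : H → ℂ) n) h3).trans (oneChar_apply n)
  rw [CfsgLib.Chars.Induced.classInner_indFun_right H θ
    (CfsgLib.Chars.Induced.isClassFunction_of_isCharacter (isCharacter_conj
      (CfsgLib.Chars.Induced.isCharacter_indFun H (isCharacter_coe θ'))))]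
  have hres : (fun h : H => conj (Cfsg.indFun H θ (h : G))) =
      ((Nat.card (CfsgLib.Chars.Induced.inertia H θ) : ℂ) / Nat.card H) •
        ∑ η ∈ (Set.finite_range fun x : G => CfsgLib.Chars.Induced.conjIrr x θ').toFinset,
          (conjChar η : H → ℂ) := by
    funext n
    have := CfsgLib.Chars.Induced.indFun_irr_normal_mem θ' n
    simp only [θ'] at this
    rw [this]
    simp [Finset.sum_apply, map_sum, map_mul, map_div₀, θ']
  rw [hres, classInner_smul_left, classInner_sum_left, Finset.sum_eq_zero, mul_zero]
  intro η hη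
  refine classInner_of_ne fun he : conjChar η = θ' => ?_
  exact hne η ((Set.Finite.mem_toFinset _).1 hη) (by rw [← he, conjChar_conjChar])

end Cfsg.Agent.S0194
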