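import Cfsg.Statements.S0196
import Mathlib

set_option autoImplicit false
open Cfsg

namespace Cfsg.Agent.S0196

/-- Let A be a subgroup of a finite group G that equals the centralizer of each of its non-identity elements, and let N be its normalizer. Then the index of A in N divides |A| − 1 (N/A permutes the non-identity elements of A in orbits of full length). -/
theorem result {G : Type*} [Group G] [Finite G] (A : Subgroup G) (hA : ∀ x ∈ A, x ≠ 1 → Subgroup.centralizer ({x} : Set G) = A) : (A.subgroupOf (Subgroup.normalizer (A : Set G))).index ∣ Nat.card A - 1 := by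
  classical
  set N := Subgroup.normalizer (A : Set G) with hN
  letI : MulAction N A := MulAction.compHom A (Subgroup.normalizerMonoidHom A)
  have hsmul : ∀ (n : N) (a : A), ((n • a : A) : G) = (n : G) * a * (n : G)⁻¹ := fun _ _ => rfl
  letI : Fintype A := Fintype.ofFinite _
  letI : Fintype (MulAction.orbitRel.Quotient N A) := Fintype.ofFinite _
  let ω₀ : MulAction.orbitRel.Quotient N A := Quotient.mk'' 1
  have h1 : (MulAction.stabilizer N ω₀.out).index = 1 := by
    have : ω₀.out = 1 := by
      obtain ⟨n, hn⟩ := Quotient.exact (Quotient.out_eq ω₀)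
      rw [← hn]
      apply Subtype.ext
      simp [hsmul]
    rw [this, Subgroup.index_eq_one, eq_top_iff]
    intro n _
    apply Subtype.ext
    simp [hsmul]
  have h2 : ∀ ω : MulAction.orbitRel.Quotient N A, ω ≠ ω₀ →
      (MulAction.stabilizer N ω.out).index = (A.subgroupOf N).index := by
    intro ω hω
    have hne : (ω.out : G) ≠ 1 := by
      intro h
      apply hω
      have : ω.out = 1 := Subtype.ext h
      rw [← Quotient.out_eq ω, this]
    congr 1
    ext n
    rw [Subgroup.mem_subgroupOf]
    conv_rhs => rw [← hA _ ω.out.2 hne, Subgroup.mem_centralizer_singleton_iff]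
    rw [MulAction.mem_stabilizer_iff, Subtype.ext_iff, hsmul, mul_inv_eq_iff_eq_mul]
  have hcard : Nat.card A = ∑ ω : MulAction.orbitRel.Quotient N A,
      (MulAction.stabilizer N ω.out).index := by
    rw [Nat.card_congr (MulAction.selfEquivSigmaOrbitsQuotientStabilizer N A), Nat.card_sigma]
    rfl
  rw [Fintype.sum_eq_add_sum_compl ω₀, h1,
    Finset.sum_congr rfl (fun ω hω => h2 ω (by simpa using hω)), Finset.sum_const, smul_eq_mul] at hcard
  rw [hcard, Nat.add_sub_cancel_left]
  exact dvd_mul_left _ _

end Cfsg.Agent.S0196
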