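import Cfsg.Statements.S0197
import Cfsg.Agent.GLTwoThree.Setup

set_option autoImplicit false
open Cfsg

namespace Cfsg.Agent.S0197

/-- If a finite simple group has an involution whose centralizer is isomorphic to the general linear group GL(2, 3), then the group has order 5616 or 7920. -/
theorem result {G : Type*} [Group G] [Finite G] [IsSimpleGroup G] (t : G) (ht : orderOf t = 2) (e : Subgroup.centralizer ({t} : Set G) ≃* Matrix.GeneralLinearGroup (Fin 2) (ZMod 3)) : Nat.card G = 5616 ∨ Nat.card G = 7920 := by
  have hidx : ∀ M : Subgroup G, M.Normal → M.index ≠ 2 := by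
    intro M hM h2
    rcases hM.eq_bot_or_eq_top with rfl | rfl
    · rw [Subgroup.index_bot] at h2
      have h := Subgroup.card_subgroup_dvd_card (Subgroup.centralizer ({t} : Set G))
      rw [Nat.card_congr e.toEquiv, h2, Nat.card_eq_fintype_card, CfsgLib.GLTwoThree.card_M23] at h
      exact absurd h (by norm_num)
    · rw [Subgroup.index_top] at h2
      omega
  obtain ⟨ι, h⟩ := CfsgLib.GLTwoThree.exists_hyp t ht e hidx
  exact h.card_eq

end Cfsg.Agent.S0197
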