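import Cfsg.Statements.S0200
import Cfsg.Agent.Involution.BaerSuzuki
import Cfsg.Agent.Involution.Dihedral

set_option autoImplicit false
open Cfsg

namespace Cfsg.Agent.S0200

/-- An involution lying in no normal 2-subgroup of a finite group inverts a nontrivial element of odd order (a consequence of the Baer–Suzuki Theorem). -/
theorem result {G : Type*} [Group G] [Finite G] (t : G) (ht : orderOf t = 2) (hO : ∀ N : Subgroup G, N.Normal → IsPGroup 2 N → t ∉ N) : ∃ h : G, h ≠ 1 ∧ Odd (orderOf h) ∧ t * h * t⁻¹ = h⁻¹ := by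
  by_contra hcon
  push Not at hcon
  suffices hp : ∀ g : G, IsPGroup 2 ↥(Subgroup.closure ({t, g * t * g⁻¹} : Set G)) by
    obtain ⟨N, hN, hNp, htN⟩ := CfsgLib.Involution.baerSuzuki_mem (p := 2) t hp
    exact hO N hN hNp htN
  intro g
  set v := g * t * g⁻¹ with hv
  have hv2 : orderOf v = 2 := by simpa using (MulEquiv.orderOf_eq (MulAut.conj g) t).trans ht
  obtain ⟨a, b, hb, hab⟩ := Nat.exists_eq_two_pow_mul_odd (orderOf_pos (t * v)).ne'
  have h1 : (t * v) ^ 2 ^ a = 1 := by
    by_contra hne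
    refine hcon _ hne (hb.of_dvd_nat (orderOf_dvd_of_pow_eq_one ?_)) ?_
    · rw [← pow_mul, ← hab, pow_orderOf_eq_one]
    · rw [← zpow_natCast, CfsgLib.Involution.mul_zpow_comm ht hv2, mul_inv_cancel_right, zpow_neg]
  rw [isPGroup_iff_pow_pow_eq_one]
  rintro ⟨d, hd⟩
  obtain ⟨i, rfl | rfl⟩ := CfsgLib.Involution.mem_closure_pair ht hv2 hd
  · refine ⟨a, Subtype.ext ?_⟩
    simp only [SubmonoidClass.coe_pow, OneMemClass.coe_one]
    rw [← zpow_natCast, ← zpow_mul, mul_comm i, zpow_mul, zpow_natCast, h1, one_zpow]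
  · refine ⟨1, Subtype.ext ?_⟩
    simp only [OneMemClass.coe_one, pow_one, pow_two, MulMemClass.coe_mul]
    rw [mul_assoc, ← mul_assoc ((t * v) ^ i), CfsgLib.Involution.zpow_mul_comm ht hv2,
      mul_assoc t, ← zpow_add, neg_add_cancel, zpow_zero, mul_one,
      CfsgLib.Involution.mul_self_of_orderOf_two ht]

end Cfsg.Agent.S0200
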