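import Cfsg.Statements.S0220
import Cfsg.Agent.BaerSuzuki.Classes

set_option autoImplicit false
open Cfsg

namespace Cfsg.Agent.S0220

/-- If x is an involution of a finite group G and a Sylow 2-subgroup of the centralizer of x is cyclic, then G has a subgroup of index 2; in particular G is not simple unless it has order 2. -/
theorem result {G : Type*} [Group G] [Finite G] (x : G) (hx : orderOf x = 2) (S : Sylow 2 ↥(Subgroup.centralizer ({x} : Set G))) (hS : IsCyclic (S : Subgroup ↥(Subgroup.centralizer ({x} : Set G)))) : ∃ H : Subgroup G, H.index = 2 := by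
  have hxC : x ∈ (Subgroup.centralizer ({x} : Set G)) := Subgroup.mem_centralizer_singleton_iff.mpr rfl
  have hxS : (⟨x, hxC⟩ : (Subgroup.centralizer ({x} : Set G))) ∈ (S : Subgroup (Subgroup.centralizer ({x} : Set G))) := by
    have hn : (Subgroup.zpowers (⟨x, hxC⟩ : (Subgroup.centralizer ({x} : Set G)))).Normal := by
      refine ⟨fun a ha g => ?_⟩
      obtain ⟨k, rfl⟩ := ha
      have hgc : Commute g (⟨x, hxC⟩ : (Subgroup.centralizer ({x} : Set G))) :=
        Subtype.ext (Subgroup.mem_centralizer_singleton_iff.mp g.2)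
      rw [(hgc.zpow_right k).eq, mul_inv_cancel_right]
      exact ⟨k, rfl⟩
    have hp : IsPGroup 2 ↥(Subgroup.zpowers (⟨x, hxC⟩ : (Subgroup.centralizer ({x} : Set G)))) :=
      IsPGroup.of_card (n := 1) (by rw [Nat.card_zpowers, Subgroup.orderOf_mk, hx, pow_one])
    exact hp.le_sylow_of_normal S (Subgroup.mem_zpowers _)
  obtain ⟨T, hT⟩ := (S.isPGroup'.map (Subgroup.centralizer ({x} : Set G)).subtype).exists_le_sylow
  have hmax : (T : Subgroup G).subgroupOf (Subgroup.centralizer ({x} : Set G)) = (S : Subgroup (Subgroup.centralizer ({x} : Set G))) :=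
    S.is_maximal' (T.isPGroup'.comap_subtype) fun s hs => hT ⟨s, hs, rfl⟩
  have hxT : x ∈ (T : Subgroup G) := hT ⟨_, hxS, rfl⟩
  have : Nontrivial (T : Subgroup G) :=
    ⟨⟨⟨x, hxT⟩, 1, fun e => CfsgLib.Involution.ne_one_of_orderOf_two hx (congrArg Subtype.val e)⟩⟩
  have hdvd : 2 ∣ Nat.card (Subgroup.center (T : Subgroup G)) := by
    have := T.isPGroup'.center_nontrivial
    rcases (T.isPGroup'.to_subgroup (Subgroup.center _)).card_eq_or_dvd with h | h
    · exact absurd h (Finite.one_lt_card_iff_nontrivial.mpr this).ne'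
    · exact h
  obtain ⟨⟨⟨z, hzT⟩, hzc⟩, hz⟩ :=
    exists_prime_orderOf_dvd_card' (G := Subgroup.center (T : Subgroup G)) 2 hdvd
  rw [Subgroup.orderOf_mk, Subgroup.orderOf_mk] at hz
  have hcomm : ∀ t ∈ (T : Subgroup G), t * z = z * t := fun t ht =>
    congrArg Subtype.val (Subgroup.mem_center_iff.mp hzc ⟨t, ht⟩)
  have hzC : z ∈ (Subgroup.centralizer ({x} : Set G)) := Subgroup.mem_centralizer_singleton_iff.mpr (hcomm x hxT).symm
  have hzS : (⟨z, hzC⟩ : (Subgroup.centralizer ({x} : Set G))) ∈ (S : Subgroup (Subgroup.centralizer ({x} : Set G))) := hmax ▸ hzT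
  have hzx : z = x := by
    obtain ⟨g, hg⟩ := hS.exists_generator
    have h1 : (⟨⟨z, hzC⟩, hzS⟩ : (S : Subgroup (Subgroup.centralizer ({x} : Set G)))) = ⟨⟨x, hxC⟩, hxS⟩ :=
      CfsgLib.BaerSuzuki.involution_unique_in_zpowers
        (by rw [Subgroup.orderOf_mk, Subgroup.orderOf_mk, hz])
        (by rw [Subgroup.orderOf_mk, Subgroup.orderOf_mk, hx]) (hg ⟨⟨z, hzC⟩, hzS⟩) (hg ⟨⟨x, hxC⟩, hxS⟩)
    exact congrArg (fun w : (S : Subgroup (Subgroup.centralizer ({x} : Set G))) => ((w : (Subgroup.centralizer ({x} : Set G))) : G)) h1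
  have hTC : (T : Subgroup G) ≤ (Subgroup.centralizer ({x} : Set G)) := fun t ht =>
    Subgroup.mem_centralizer_singleton_iff.mpr (hzx ▸ hcomm t ht)
  refine CfsgLib.BaerSuzuki.exists_index_two_of_cyclic ?_ T ?_
  · exact even_iff_two_dvd.mpr (hx ▸ orderOf_dvd_natCard x)
  · have : IsCyclic ((T : Subgroup G).subgroupOf (Subgroup.centralizer ({x} : Set G))) := by rw [hmax]; exact hS
    exact isCyclic_of_surjective (Subgroup.subgroupOfEquivOfLe hTC).toMonoidHom
      (Subgroup.subgroupOfEquivOfLe hTC).surjective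

end Cfsg.Agent.S0220
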