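import Cfsg.Statements.S0232
import Cfsg.Agent.BaerSuzuki.Classes

set_option autoImplicit false
open Cfsg

namespace Cfsg.Agent.S0232

/-- A finite group G of even order greater than 2 has a proper subgroup H with |G| < |H|^3. -/
theorem result {G : Type*} [Group G] [Finite G] (heven : Even (Nat.card G)) (hgt : 2 < Nat.card G) : ∃ H : Subgroup G, H ≠ ⊤ ∧ Nat.card G < (Nat.card H) ^ 3 := by
  exact CfsgLib.BaerSuzuki.exists_large_subgroup heven hgt

end Cfsg.Agent.S0232
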