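import Cfsg.Statements.S0254
import Cfsg.Agent.SmallIso.PSLTwo

set_option autoImplicit false
open Cfsg

namespace Cfsg.Agent.S0254

/-- PSL_2(9) is isomorphic to A_6. -/
theorem result {F : Type*} [Field F] [Fintype F] (hF : Fintype.card F = 9) : Nonempty (Matrix.ProjectiveSpecialLinearGroup (Fin 2) F ≃* alternatingGroup (Fin 6)) := by
  exact CfsgLib.SmallIso.psl_two_card_nine hF

end Cfsg.Agent.S0254
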