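import Cfsg.Statements.S0276
import Cfsg.Agent.SL2.Sylow

set_option autoImplicit false
open Cfsg

namespace Cfsg.Agent.S0276

/-- For q = 3 or 5 mod 8 the Sylow 2-subgroups of PSL_2(q) are elementary abelian of order 4. -/
theorem result {F : Type*} [Field F] [Fintype F] {q : ℕ} (hF : Fintype.card F = q) (hq : q % 8 = 3 ∨ q % 8 = 5) (P : Sylow 2 (Matrix.ProjectiveSpecialLinearGroup (Fin 2) F)) : IsKleinFour (P : Subgroup (Matrix.ProjectiveSpecialLinearGroup (Fin 2) F)) := by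
  classical
  subst hF
  obtain ⟨p, hp⟩ := CharP.exists F
  haveI : Fact p.Prime := ⟨CharP.char_is_prime F p⟩
  have hoddq : Odd (Fintype.card F) := Nat.odd_iff.2 (by omega)
  have h2 : (2 : F) ≠ 0 := CfsgLib.SL2.two_ne_zero_iff_odd.2 hoddq
  have hexp : ∀ x : Matrix.ProjectiveSpecialLinearGroup (Fin 2) F, x ^ 4 = 1 → x ^ 2 = 1 := by
    intro x hx
    obtain ⟨g, rfl⟩ := QuotientGroup.mk_surjective x
    rw [← QuotientGroup.mk_pow, QuotientGroup.eq_one_iff] at hx ⊢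
    have h8 : g ^ 8 = 1 := by
      rcases CfsgLib.SL2.mem_center_iff'.1 hx with e | e
      · rw [show (8 : ℕ) = 4 * 2 from rfl, pow_mul, e, one_pow]
      · rw [show (8 : ℕ) = 4 * 2 from rfl, pow_mul, e, neg_one_sq]
    have ho := orderOf_dvd_of_pow_eq_one h8
    have h4 : g ^ 4 = 1 := by
      refine orderOf_dvd_iff_pow_eq_one.1 ?_
      obtain ⟨k, hk, hke⟩ := (Nat.dvd_prime_pow Nat.prime_two).1 (show orderOf g ∣ 2 ^ 3 from ho)
      rw [hke]
      have hk3 : k ≠ 3 := by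
        rintro rfl
        rcases CfsgLib.SL2.orderOf_dvd_cases (p := p) g with h | h | h <;> rw [hke] at h
        · omega
        · omega
        · have hp2 : 2 ∣ p := by omega
          have : p = 2 := ((Nat.prime_dvd_prime_iff_eq Nat.prime_two (Fact.out : p.Prime)).1 hp2).symm
          subst this
          exact h2 CharTwo.two_eq_zero
      exact Nat.pow_dvd_pow 2 (show k ≤ 2 by omega)
    have h22 : g ^ 2 * g ^ 2 = 1 := by rw [← pow_add]; exact h4
    by_cases h1 : g ^ 2 = 1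
    · exact CfsgLib.SL2.mem_center_iff'.2 (Or.inl h1)
    · exact CfsgLib.SL2.mem_center_iff'.2 (Or.inr (CfsgLib.SL2.eq_neg_one_of_mul_self h2 h1 h22))
  obtain ⟨i, hi⟩ : ∃ i, Fintype.card F = 8 * i + 3 ∨ Fintype.card F = 8 * i + 5 :=
    ⟨Fintype.card F / 8, by omega⟩
  have hcard := CfsgLib.SL2.card_PSL_odd hoddq
  have h4 : 4 ∣ Nat.card (Matrix.ProjectiveSpecialLinearGroup (Fin 2) F) ∧
      ¬ 8 ∣ Nat.card (Matrix.ProjectiveSpecialLinearGroup (Fin 2) F) := by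
    obtain ⟨M, hM, hMo⟩ : ∃ M, Fintype.card F * (Fintype.card F ^ 2 - 1) = 8 * M ∧ Odd M := by
      rcases hi with e | e
      · refine ⟨(8 * i + 3) * (8 * i ^ 2 + 6 * i + 1), ?_, ?_⟩
        · have : (8 * i + 3) ^ 2 - 1 = 8 * (8 * i ^ 2 + 6 * i + 1) := by
            rw [Nat.sub_eq_iff_eq_add (Nat.one_le_pow _ _ (by omega))]; ring
          rw [e, this]; ring
        · exact Odd.mul ⟨4 * i + 1, by ring⟩ ⟨4 * i ^ 2 + 3 * i, by ring⟩
      · refine ⟨(8 * i + 5) * (8 * i ^ 2 + 10 * i + 3), ?_, ?_⟩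
        · have : (8 * i + 5) ^ 2 - 1 = 8 * (8 * i ^ 2 + 10 * i + 3) := by
            rw [Nat.sub_eq_iff_eq_add (Nat.one_le_pow _ _ (by omega))]; ring
          rw [e, this]; ring
        · exact Odd.mul ⟨4 * i + 2, by ring⟩ ⟨4 * i ^ 2 + 5 * i + 1, by ring⟩
    rw [hM] at hcard
    obtain ⟨m, hm⟩ := hMo
    omega
  have hP4 : Nat.card (P : Subgroup (Matrix.ProjectiveSpecialLinearGroup (Fin 2) F)) = 4 := by
    obtain ⟨m, hm⟩ := IsPGroup.iff_card.1 P.isPGroup'
    have ha : 2 ^ 2 ∣ 2 ^ m := hm ▸ P.pow_dvd_card_of_pow_dvd_card (n := 2) h4.1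
    have hb : m ≤ 2 := by
      by_contra hlt
      exact h4.2 ((show 2 ^ 3 ∣ 2 ^ m from Nat.pow_dvd_pow 2 (by omega)).trans
        (hm ▸ Subgroup.card_subgroup_dvd_card _))
    have hc : 2 ≤ m := (Nat.pow_dvd_pow_iff_le_right (by norm_num)).1 ha
    obtain rfl : m = 2 := by omega
    exact hm
  haveI : Nontrivial (P : Subgroup (Matrix.ProjectiveSpecialLinearGroup (Fin 2) F)) :=
    Finite.one_lt_card_iff_nontrivial.1 (by omega)
  refine ⟨hP4, ?_⟩
  refine (Monoid.exponent_eq_prime_iff Nat.prime_two).2 fun x hx => ?_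
  refine orderOf_eq_prime (Subtype.ext (hexp x ?_)) hx
  have h : x ^ 4 = 1 := hP4 ▸ pow_card_eq_one'
  exact congrArg Subtype.val h

end Cfsg.Agent.S0276
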