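import Cfsg.Statements.S0282
import Cfsg.Agent.Classical.Unitary.Center
import Cfsg.Agent.Chars.Apps.Burnside

set_option autoImplicit false
open Cfsg

namespace Cfsg.Agent.S0282

/-- PSU_3(2) is a solvable group of order 72. -/
theorem result {F : Type*} [Field F] [Fintype F] (hF : Fintype.card F = 4) : Nat.card (Cfsg.PSU 3 F 2) = 72 ∧ Group.IsSolvable (Cfsg.PSU 3 F 2) := by
  have h := CfsgLib.Unitary.card_PSU (n := 3) (q := 2) (F := F) (by rw [hF]; norm_num) (by norm_num)
  simp [Finset.prod_range_succ] at h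
  have hcard : Nat.card (Cfsg.PSU 3 F 2) = 72 := by
    norm_num at h ⊢
    omega
  exact ⟨hcard, CfsgLib.Chars.Apps.isSolvable_of_card_eq_pow_mul_pow _ (p := 2) (q := 3) (a := 3) (b := 2)
    Nat.prime_two Nat.prime_three (by rw [hcard]; norm_num)⟩

end Cfsg.Agent.S0282
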