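import Cfsg.Statements.S0285
import Cfsg.Agent.Classical.Unitary.Order

set_option autoImplicit false
open Cfsg

namespace Cfsg.Agent.S0285

/-- The standard Hermitian form on F^n, |F| = q^2, has exactly (q^n - (-1)^n)(q^(n-1) + (-1)^n) non-zero isotropic vectors; counting the zero vector too: -/
theorem result {F : Type*} [Field F] [Fintype F] {q : ℕ} (hF : Fintype.card F = q ^ 2) (n : ℕ) : Nat.card {v : Fin n → F // Cfsg.hermForm n F q v v = 0} = (if Even n then (q ^ n - 1) * (q ^ (n - 1) + 1) else (q ^ n + 1) * (q ^ (n - 1) - 1)) + 1 := by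
  have h := CfsgLib.Unitary.normCount_zero_eq hF n
  have hq := CfsgLib.Unitary.two_le_q hF
  show CfsgLib.Unitary.normCount n q (0 : F) = _
  rcases Nat.eq_zero_or_pos n with rfl | hn
  · classical
    rw [CfsgLib.Unitary.normCount_zero]
    simp
  obtain ⟨m, rfl⟩ : ∃ m, n = m + 1 := ⟨n - 1, by omega⟩
  rw [Nat.add_sub_cancel]
  have h1 : (CfsgLib.Unitary.normCount (m + 1) q (0 : F) : ℤ) =
      (q : ℤ) ^ m * ((q : ℤ) ^ (m + 1) + ((q : ℤ) - 1) * (-1) ^ (m + 1)) := by
    apply mul_left_cancel₀ (show (q : ℤ) ≠ 0 by exact_mod_cast (show q ≠ 0 by omega))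
    rw [h]; ring
  apply Nat.cast_injective (R := ℤ)
  split_ifs with he
  · rw [he.neg_one_pow] at h1
    rw [h1, Nat.cast_add, Nat.cast_mul, Nat.cast_sub (Nat.one_le_pow _ _ (by omega))]
    push_cast; ring
  · rw [(Nat.not_even_iff_odd.1 he).neg_one_pow] at h1
    rw [h1, Nat.cast_add, Nat.cast_mul, Nat.cast_sub (Nat.one_le_pow _ _ (by omega))]
    push_cast; ring

end Cfsg.Agent.S0285
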