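import Cfsg.Statements.S0304
import Cfsg.Agent.OrthTwo.OddDim

set_option autoImplicit false
open Cfsg

namespace Cfsg.Agent.S0304

/-- In characteristic 2, O_{2m+1}(q) is isomorphic to Sp_{2m}(q). -/
theorem result {F : Type*} [Field F] [Fintype F] [CharP F 2] (m : ℕ) : Nonempty (Cfsg.isometryGroup F (Cfsg.quadFormOdd m F) ≃* Matrix.symplecticGroup (Fin m) F) := by
  exact CfsgLib.OrthTwo.isometryGroup_quadFormOdd_equiv

end Cfsg.Agent.S0304
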