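import Cfsg.Statements.S0305
import Cfsg.Agent.Eq.Def_Classical

set_option autoImplicit false
open Cfsg

namespace Cfsg.Agent.S0305

open Matrix in
/-- `GO⁺₂(q)` is generated by the diagonal and antidiagonal matrices of determinant `±1`. -/
theorem plus_one_equiv_dihedral {F : Type*} [Field F] {n : ℕ} (e : Multiplicative (ZMod n) ≃* Fˣ) :
    Nonempty (Cfsg.isometryGroup F (Cfsg.quadFormPlus 1 F) ≃* DihedralGroup n) := by
  classical
  let D : Fˣ → Matrix (Fin 1 ⊕ Fin 1) (Fin 1 ⊕ Fin 1) F := fun u =>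
    fromBlocks ((u : F) • 1) 0 0 ((u⁻¹ : Fˣ) • 1)
  let S : Fˣ → Matrix (Fin 1 ⊕ Fin 1) (Fin 1 ⊕ Fin 1) F := fun u =>
    fromBlocks 0 ((u⁻¹ : Fˣ) • 1) ((u : F) • 1) 0
  let x : ZMod n → Fˣ := fun i => e (Multiplicative.ofAdd i)
  have xadd : ∀ i j, x (i + j) = x i * x j := fun i j => map_mul e _ _
  have xsub : ∀ i j, x (j - i) = (x i)⁻¹ * x j := fun i j => by
    rw [eq_inv_mul_iff_mul_eq, ← xadd, add_sub_cancel]
  have x0 : x 0 = 1 := map_one e
  let M : DihedralGroup n →* Matrix (Fin 1 ⊕ Fin 1) (Fin 1 ⊕ Fin 1) F :=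
    { toFun := fun d => match d with
        | DihedralGroup.r i => D (x i)
        | DihedralGroup.sr i => S (x i)
      map_one' := by
        show D (x 0) = 1
        simp [D, x0, fromBlocks_one]
      map_mul' := by
        rintro (i | i) (j | j)
        all_goals
          simp only [DihedralGroup.r_mul_r, DihedralGroup.r_mul_sr, DihedralGroup.sr_mul_r,
            DihedralGroup.sr_mul_sr, D, S, fromBlocks_multiply, xadd, xsub]
          simp [Units.smul_def, smul_smul, mul_comm] }
  have hM : ∀ d v, Cfsg.quadFormPlus 1 F (M d *ᵥ v) = Cfsg.quadFormPlus 1 F v := by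
    rintro (i | i) v <;>
      simp [M, D, S, Cfsg.quadFormPlus, fromBlocks_mulVec, Units.smul_def, Matrix.smul_mulVec] <;>
      field_simp
  let f : DihedralGroup n →* Cfsg.isometryGroup F (Cfsg.quadFormPlus 1 F) :=
    (MonoidHom.toHomUnits M).codRestrict _ fun d => fun v _ => hM d v
  have hinj : Function.Injective f := by
    intro c d h
    have h' : M c = M d := congrArg (fun g => ((g : Cfsg.isometryGroup F (Cfsg.quadFormPlus 1 F)) : GL (Fin 1 ⊕ Fin 1) F).val) h
    rcases c with i | i <;> rcases d with j | j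
    all_goals
      have h11 := congrFun (congrFun h' (Sum.inl 0)) (Sum.inl 0)
      have h21 := congrFun (congrFun h' (Sum.inr 0)) (Sum.inl 0)
      simp [M, D, S, x, Units.smul_def] at h11 h21 ⊢
      try first
        | exact Multiplicative.ofAdd.injective (e.injective (Units.ext h11))
        | exact Multiplicative.ofAdd.injective (e.injective (Units.ext h21))
  have hsurj : Function.Surjective f := by
    intro g
    have hg : ∀ v, Cfsg.quadFormPlus 1 F ((g : GL (Fin 1 ⊕ Fin 1) F).val *ᵥ v) = Cfsg.quadFormPlus 1 F v :=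
      fun v => g.2 v v
    obtain ⟨A, hA⟩ : ∃ A, A = (g : GL (Fin 1 ⊕ Fin 1) F).val := ⟨_, rfl⟩
    rw [← hA] at hg
    have e1 := hg (Sum.elim (fun _ => 1) (fun _ => 0))
    have e2 := hg (Sum.elim (fun _ => 0) (fun _ => 1))
    have e3 := hg (Sum.elim (fun _ => 1) (fun _ => 1))
    simp [Cfsg.quadFormPlus, Matrix.mulVec, dotProduct] at e1 e2 e3
    obtain ⟨a, ha⟩ : ∃ a, A (.inl 0) (.inl 0) = a := ⟨_, rfl⟩
    obtain ⟨b, hb⟩ : ∃ b, A (.inl 0) (.inr 0) = b := ⟨_, rfl⟩
    obtain ⟨c, hc⟩ : ∃ c, A (.inr 0) (.inl 0) = c := ⟨_, rfl⟩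
    obtain ⟨d, hd⟩ : ∃ d, A (.inr 0) (.inr 0) = d := ⟨_, rfl⟩
    rw [ha, hb, hc, hd] at e3
    rw [ha, hc] at e1
    rw [hb, hd] at e2
    have key : (∃ u : Fˣ, A = D u) ∨ (∃ u : Fˣ, A = S u) := by
      rcases e1 with rfl | rfl
      · right
        have hb0 : b ≠ 0 := fun h => by simp [h] at e3
        have hd0 : d = 0 := e2.resolve_left hb0
        rw [hd0] at e3
        have hbc : b * c = 1 := by linear_combination e3
        refine ⟨Units.mk0 c (right_ne_zero_of_mul_eq_one hbc), ?_⟩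
        ext i j
        rcases i with i | i <;> rcases j with j | j <;> fin_cases i <;> fin_cases j <;>
          simp [S, Units.smul_def, ha, hb, hc, hd, hd0, eq_inv_of_mul_eq_one_left hbc]
      · left
        have hd0 : d ≠ 0 := fun h => by simp [h] at e3
        have hb0 : b = 0 := e2.resolve_right hd0
        rw [hb0] at e3
        have had : d * a = 1 := by linear_combination e3
        refine ⟨Units.mk0 a (right_ne_zero_of_mul_eq_one had), ?_⟩
        ext i j
        rcases i with i | i <;> rcases j with j | j <;> fin_cases i <;> fin_cases j <;>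
          simp [D, Units.smul_def, ha, hb, hc, hd, hb0, eq_inv_of_mul_eq_one_left had]
    rcases key with ⟨u, hu⟩ | ⟨u, hu⟩
    · exact ⟨DihedralGroup.r (Multiplicative.toAdd (e.symm u)),
        Subtype.ext (Units.ext (by show D (e _) = _; rw [ofAdd_toAdd, e.apply_symm_apply, ← hu, hA]))⟩
    · exact ⟨DihedralGroup.sr (Multiplicative.toAdd (e.symm u)),
        Subtype.ext (Units.ext (by show S (e _) = _; rw [ofAdd_toAdd, e.apply_symm_apply, ← hu, hA]))⟩
  exact ⟨(MulEquiv.ofBijective f ⟨hinj, hsurj⟩).symm⟩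

/-- GO^+_2(q) is dihedral of order 2(q-1). -/
theorem result {F : Type*} [Field F] [Fintype F] {q : ℕ} (hF : Fintype.card F = q) : Nonempty (Cfsg.isometryGroup F (Cfsg.quadFormPlus 1 F) ≃* DihedralGroup (q - 1)) := by
  have hc : Nat.card Fˣ = q - 1 := by rw [Nat.card_units, Nat.card_eq_fintype_card, hF]
  exact plus_one_equiv_dihedral (hc ▸ zmodCyclicMulEquiv (inferInstance : IsCyclic Fˣ))

end Cfsg.Agent.S0305
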