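import Cfsg.Statements.S0306
import Cfsg.Agent.Eq.Def_Classical
import Cfsg.Agent.Classical.Orth.OrderStd
import Cfsg.Agent.Involution.Dihedral

set_option autoImplicit false
open Cfsg

namespace Cfsg.Agent.S0306

section
open scoped QuadraticAlgebra
variable {F : Type*} [Field F] {a b : F}

/-- The norm of the quadratic algebra with `ω² = -b + aω`. -/
def qnorm : QuadraticAlgebra F (-b) a →* F where
  toFun z := z.re ^ 2 + a * z.re * z.im + b * z.im ^ 2
  map_one' := by simp
  map_mul' z w := by simp only [QuadraticAlgebra.re_mul, QuadraticAlgebra.im_mul]; ring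

theorem qdomain (hab : ∀ z₁ z₂ : F, z₁ ^ 2 + a * z₁ * z₂ + b * z₂ ^ 2 = 0 → z₁ = 0 ∧ z₂ = 0) :
    IsDomain (QuadraticAlgebra F (-b) a) := by
  have h0 : ∀ z : QuadraticAlgebra F (-b) a, qnorm z = 0 → z = 0 := fun z hz => by
    obtain ⟨h1, h2⟩ := hab _ _ hz
    exact QuadraticAlgebra.ext h1 h2
  have : NoZeroDivisors (QuadraticAlgebra F (-b) a) := ⟨fun {z w} h => by
    have h1 : qnorm z * qnorm w = 0 := by rw [← map_mul, h]; simp [qnorm]
    exact (mul_eq_zero.1 h1).imp (h0 z) (h0 w)⟩
  exact NoZeroDivisors.to_isDomain _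

/-- Coordinates of `Fin 0 ⊕ Fin 0 ⊕ Fin 2`. -/
def coords : (Fin 0 ⊕ Fin 0) ⊕ Fin 2 ≃ Fin 2 := Equiv.emptySum _ _

/-- Multiplication by an element, as a matrix in the basis `1, ω`. -/
def mulMat : QuadraticAlgebra F (-b) a →*
    Matrix ((Fin 0 ⊕ Fin 0) ⊕ Fin 2) ((Fin 0 ⊕ Fin 0) ⊕ Fin 2) F where
  toFun z := Matrix.reindexAlgEquiv F F coords.symm !![z.re, -(b * z.im); z.im, z.re + a * z.im]
  map_one' := by
    rw [← map_one (Matrix.reindexAlgEquiv F F coords.symm)]
    congr 1
    ext i j
    fin_cases i <;> fin_cases j <;> simp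
  map_mul' z w := by
    rw [← map_mul]
    congr 1
    ext i j
    fin_cases i <;> fin_cases j <;>
      simp [Matrix.mul_apply, Fin.sum_univ_two, QuadraticAlgebra.re_mul, QuadraticAlgebra.im_mul] <;>
      ring

/-- The conjugation matrix. -/
def conjMat (a : F) : Matrix ((Fin 0 ⊕ Fin 0) ⊕ Fin 2) ((Fin 0 ⊕ Fin 0) ⊕ Fin 2) F :=
  Matrix.reindexAlgEquiv F F coords.symm !![1, a; 0, -1]

theorem quad_apply (v : (Fin 0 ⊕ Fin 0) ⊕ Fin 2 → F) :
    Cfsg.quadFormMinus 0 F a b v =
      v (.inr 0) ^ 2 + a * v (.inr 0) * v (.inr 1) + b * v (.inr 1) ^ 2 := by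
  simp [Cfsg.quadFormMinus]

theorem reindex_mulVec (A : Matrix (Fin 2) (Fin 2) F) (v : (Fin 0 ⊕ Fin 0) ⊕ Fin 2 → F)
    (i : Fin 2) : (Matrix.reindexAlgEquiv F F coords.symm A).mulVec v (.inr i) =
      A i 0 * v (.inr 0) + A i 1 * v (.inr 1) := by
  simp [Matrix.mulVec, dotProduct, Fintype.sum_sum_type, coords, Fin.sum_univ_two]

theorem conjMat_mul_self : conjMat a * conjMat a = 1 := by
  rw [conjMat, ← map_mul, ← map_one (Matrix.reindexAlgEquiv F F coords.symm)]
  congr 1
  ext i j
  fin_cases i <;> fin_cases j <;> simp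

theorem conj_mulMat (z : QuadraticAlgebra F (-b) a) :
    conjMat a * mulMat z * conjMat a =
      mulMat (⟨z.re + a * z.im, -z.im⟩ : QuadraticAlgebra F (-b) a) := by
  show Matrix.reindexAlgEquiv F F coords.symm _ * Matrix.reindexAlgEquiv F F coords.symm _ *
    Matrix.reindexAlgEquiv F F coords.symm _ = Matrix.reindexAlgEquiv F F coords.symm _
  rw [← map_mul, ← map_mul]
  congr 1
  ext i j
  fin_cases i <;> fin_cases j <;>
    simp [Matrix.mul_apply, Fin.sum_univ_two] <;> ring

end

open scoped QuadraticAlgebra in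
/-- GO^-_2(q) is dihedral of order 2(q+1). -/
theorem result {F : Type*} [Field F] [Fintype F] {q : ℕ} (hF : Fintype.card F = q) (a b : F) (hab : ∀ z₁ z₂ : F, z₁ ^ 2 + a * z₁ * z₂ + b * z₂ ^ 2 = 0 → z₁ = 0 ∧ z₂ = 0) : Nonempty (Cfsg.isometryGroup F (Cfsg.quadFormMinus 0 F a b) ≃* DihedralGroup (q + 1)) := by
  classical
  subst hF
  haveI := qdomain hab
  haveI : Finite (QuadraticAlgebra F (-b) a) := Finite.of_equiv _ (QuadraticAlgebra.equivProd _ _).symm
  letI := Fintype.ofFinite (QuadraticAlgebra F (-b) a)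
  set C : Subgroup (QuadraticAlgebra F (-b) a)ˣ :=
    ((qnorm (a := a) (b := b)).comp (Units.coeHom _)).ker with hC
  have hCmem : ∀ u, u ∈ C ↔ qnorm (u : QuadraticAlgebra F (-b) a) = 1 := fun u => Iff.rfl
  have hCcard : Nat.card C = Fintype.card F + 1 := by
    rw [← CfsgLib.Classical.Orth.card_conic a b hab]
    refine Nat.card_congr
      { toFun := fun u => ⟨![((u : (QuadraticAlgebra F (-b) a)ˣ) : QuadraticAlgebra F (-b) a).re,
          ((u : (QuadraticAlgebra F (-b) a)ˣ) : QuadraticAlgebra F (-b) a).im],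
          by simpa [CfsgLib.Classical.Orth.binForm, qnorm] using (hCmem _).1 u.2⟩
        invFun := fun v => ⟨⟨⟨v.1 0, v.1 1⟩, ⟨v.1 0 + a * v.1 1, -v.1 1⟩, ?_, ?_⟩, ?_⟩
        left_inv := fun u => Subtype.ext (Units.ext rfl)
        right_inv := fun v => Subtype.ext (by funext i; fin_cases i <;> rfl) }
    · have := v.2
      simp only [CfsgLib.Classical.Orth.binForm] at this
      ext <;> simp <;> first | linear_combination this | ring
    · have := v.2
      simp only [CfsgLib.Classical.Orth.binForm] at this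
      ext <;> simp <;> first | linear_combination this | ring
    · have := v.2
      simp only [CfsgLib.Classical.Orth.binForm] at this
      rw [hCmem]
      simpa [qnorm] using this
  obtain ⟨g, hg⟩ := IsCyclic.exists_ofOrder_eq_natCard (α := C)
  set O := Cfsg.isometryGroup F (Cfsg.quadFormMinus 0 F a b) with hO
  have hcardO : Nat.card O = 2 * (Fintype.card F + 1) := by
    rw [hO, CfsgLib.Classical.Orth.card_isometryGroup_minus a b hab 0]
    simp [CfsgLib.Classical.Orth.evenProd]
  let R : C →* O := ((Units.map mulMat).comp C.subtype).codRestrict O fun u v _ => by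
    show Cfsg.quadFormMinus 0 F a b ((mulMat _).mulVec v) = Cfsg.quadFormMinus 0 F a b v
    have h1 := (hCmem _).1 u.2
    simp only [qnorm, MonoidHom.coe_mk, OneHom.coe_mk] at h1
    rw [quad_apply, quad_apply]
    simp only [mulMat, MonoidHom.coe_mk, OneHom.coe_mk, reindex_mulVec]
    simp
    linear_combination
      (v (.inr 0) ^ 2 + a * v (.inr 0) * v (.inr 1) + b * v (.inr 1) ^ 2) * h1
  have hRinj : Function.Injective R := by
    intro u w h
    have h' : mulMat ((u : (QuadraticAlgebra F (-b) a)ˣ) : QuadraticAlgebra F (-b) a) =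
        mulMat ((w : (QuadraticAlgebra F (-b) a)ˣ) : QuadraticAlgebra F (-b) a) :=
      congrArg Units.val (congrArg Subtype.val h)
    simp only [mulMat, MonoidHom.coe_mk, OneHom.coe_mk] at h'
    have h'' := (Matrix.reindexAlgEquiv F F coords.symm).injective h'
    refine Subtype.ext (Units.ext (QuadraticAlgebra.ext ?_ ?_))
    · simpa using congrFun (congrFun h'' 0) 0
    · simpa using congrFun (congrFun h'' 1) 0
  let s : O := ⟨⟨conjMat a, conjMat a, conjMat_mul_self, conjMat_mul_self⟩, fun v _ => by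
    show Cfsg.quadFormMinus 0 F a b ((conjMat a).mulVec v) = Cfsg.quadFormMinus 0 F a b v
    rw [quad_apply, quad_apply]
    simp only [conjMat, reindex_mulVec]
    simp
    ring⟩
  have hs2 : s * s = 1 := Subtype.ext (Units.ext conjMat_mul_self)
  have hs1 : s ≠ 1 := by
    intro h
    have h' : conjMat a = 1 := congrArg Units.val (congrArg Subtype.val h)
    rw [conjMat, ← map_one (Matrix.reindexAlgEquiv F F coords.symm)] at h'
    have h'' := (Matrix.reindexAlgEquiv F F coords.symm).injective h'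
    have ha : a = 0 := by simpa using congrFun (congrFun h'' 0) 1
    have h2 : (2 : F) = 0 := by
      have := congrFun (congrFun h'' 1) 1
      simp at this
      linear_combination -this
    exact CfsgLib.Classical.Orth.four_mul_sub_sq_ne_zero hab (by rw [ha]; linear_combination (2 * b) * h2)
  set r : O := R g
  have hr : orderOf r = Fintype.card F + 1 := by
    rw [orderOf_injective R hRinj, hg, hCcard]
  have hsrs : s * r * s = r⁻¹ := by
    refine eq_inv_of_mul_eq_one_left (Subtype.ext (Units.ext ?_))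
    show conjMat a * mulMat ((g : (QuadraticAlgebra F (-b) a)ˣ) : QuadraticAlgebra F (-b) a) *
      conjMat a * mulMat ((g : (QuadraticAlgebra F (-b) a)ˣ) : QuadraticAlgebra F (-b) a) = 1
    rw [conj_mulMat, ← map_mul, ← map_one (mulMat (F := F) (a := a) (b := b))]
    congr 1
    have h1 := (hCmem _).1 g.2
    simp only [qnorm, MonoidHom.coe_mk, OneHom.coe_mk] at h1
    ext <;> simp <;> first | linear_combination h1 | ring
  have hsr2 : s * r * (s * r) = 1 := by rw [← mul_assoc, hsrs, inv_mul_cancel]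
  have hsr1 : s * r ≠ 1 := by
    intro h
    have h1 : r = s := by
      calc r = s * s * r := by rw [hs2, one_mul]
        _ = s := by rw [mul_assoc, h, mul_one]
    have h2 : orderOf r ≤ 2 := by
      rw [h1]; exact orderOf_le_of_pow_eq_one (by omega) (by rw [pow_two, hs2])
    have := Fintype.one_lt_card (α := F)
    omega
  have hxy : s * (s * r) = r := by rw [← mul_assoc, hs2, one_mul]
  obtain ⟨e⟩ := CfsgLib.Involution.nonempty_dihedral_equiv
    (CfsgLib.Involution.orderOf_two_of_mul_self hs2 hs1)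
    (CfsgLib.Involution.orderOf_two_of_mul_self hsr2 hsr1)
  rw [hxy, hr] at e
  have htop : Subgroup.closure ({s, s * r} : Set O) = ⊤ :=
    Subgroup.eq_top_of_card_eq _ (by rw [Nat.card_congr e.toEquiv, DihedralGroup.nat_card, hcardO])
  exact ⟨(Subgroup.topEquiv.symm.trans (MulEquiv.subgroupCongr htop.symm)).trans e⟩

end Cfsg.Agent.S0306
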