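import Cfsg.Statements.S0307

set_option autoImplicit false
open Cfsg

namespace Cfsg.Agent.S0307

/-- The determinant modulo `n`-th powers. -/
noncomputable def detPow (F : Type*) [Field F] (n : ℕ) :
    GL (Fin n) F →* Fˣ ⧸ (powMonoidHom n : Fˣ →* Fˣ).range :=
  (QuotientGroup.mk' _).comp Matrix.GeneralLinearGroup.det

/-- PSL_n(q) is normal in PGL_n(q) with cyclic quotient of order gcd(n, q-1): the image of the natural map PSL_n → PGL_n is the kernel of a surjective homomorphism onto the cyclic group of that order. -/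
theorem result {F : Type*} [Field F] [Fintype F] {q : ℕ} (hF : Fintype.card F = q) (n : ℕ) (hn : 1 ≤ n) : ∃ g : Matrix.ProjGenLinGroup (Fin n) F →* Multiplicative (ZMod (Nat.gcd n (q - 1))), Function.Surjective g ∧ g.ker = (Matrix.ProjectiveSpecialLinearGroup.toPGL : Matrix.ProjectiveSpecialLinearGroup (Fin n) F →* Matrix.ProjGenLinGroup (Fin n) F).range := by
  classical
  subst hF
  have hc : ∀ z ∈ Subgroup.center (GL (Fin n) F), detPow F n z = 1 := by
    intro z hz
    rw [Matrix.GeneralLinearGroup.center_eq_range_scalar] at hz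
    obtain ⟨a, rfl⟩ := hz
    refine (QuotientGroup.eq_one_iff _).mpr ⟨a, Units.ext ?_⟩
    simp [Matrix.GeneralLinearGroup.scalar]
  let ψ : Matrix.ProjGenLinGroup (Fin n) F →* Fˣ ⧸ (powMonoidHom n : Fˣ →* Fˣ).range :=
    QuotientGroup.lift _ (detPow F n) hc
  have hψ : ∀ g, ψ (Matrix.ProjGenLinGroup.mk g) = detPow F n g := fun g => rfl
  have hsurj : Function.Surjective ψ := by
    intro x
    induction x using QuotientGroup.induction_on with
    | H u =>
      haveI : Nonempty (Fin n) := ⟨⟨0, hn⟩⟩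
      let g : GL (Fin n) F := Matrix.GeneralLinearGroup.mkOfDetNeZero
        (Matrix.diagonal (Function.update 1 (⟨0, hn⟩ : Fin n) (u : F)))
        (by rw [Matrix.det_diagonal, Finset.prod_update_of_mem (Finset.mem_univ _)]; simp)
      refine ⟨Matrix.ProjGenLinGroup.mk g, ?_⟩
      rw [hψ]
      refine congrArg (QuotientGroup.mk' _) (Units.ext ?_)
      rw [Matrix.GeneralLinearGroup.val_det_apply]
      show (Matrix.diagonal (Function.update 1 (⟨0, hn⟩ : Fin n) (u : F))).det = u
      rw [Matrix.det_diagonal, Finset.prod_update_of_mem (Finset.mem_univ _)]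
      simp
  have hcard : Nat.card (Fˣ ⧸ (powMonoidHom n : Fˣ →* Fˣ).range) = Nat.gcd n (Fintype.card F - 1) := by
    rw [← Subgroup.index_eq_card, IsCyclic.index_powMonoidHom_range, Nat.card_units,
      Nat.card_eq_fintype_card, Nat.gcd_comm]
  have : IsCyclic (Fˣ ⧸ (powMonoidHom n : Fˣ →* Fˣ).range) :=
    isCyclic_of_surjective (QuotientGroup.mk' _) (QuotientGroup.mk'_surjective _)
  let e := (zmodCyclicMulEquiv this).symm
  let e' : Fˣ ⧸ (powMonoidHom n : Fˣ →* Fˣ).range ≃*
      Multiplicative (ZMod (Nat.gcd n (Fintype.card F - 1))) :=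
    e.trans (MulEquiv.cast (M := fun m => Multiplicative (ZMod m)) hcard)
  refine ⟨e'.toMonoidHom.comp ψ, e'.surjective.comp hsurj, ?_⟩
  ext x
  obtain ⟨g, rfl⟩ := Matrix.ProjGenLinGroup.mk_surjective x
  rw [MonoidHom.mem_ker, MonoidHom.comp_apply, MulEquiv.coe_toMonoidHom, EmbeddingLike.map_eq_one_iff, hψ]
  constructor
  · intro h
    obtain ⟨a, ha⟩ := (QuotientGroup.eq_one_iff _).mp h
    set g' : GL (Fin n) F := g * Matrix.GeneralLinearGroup.scalar (Fin n) a⁻¹ with hg'
    have hd : (g' : Matrix (Fin n) (Fin n) F).det = 1 := by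
      have ha' : (a : F) ^ n = (g : Matrix (Fin n) (Fin n) F).det := by
        simpa using congrArg Units.val ha
      simp [hg', Matrix.GeneralLinearGroup.scalar, ← ha']
    refine ⟨QuotientGroup.mk ⟨(g' : Matrix (Fin n) (Fin n) F), hd⟩, ?_⟩
    show Matrix.ProjGenLinGroup.mk (Matrix.SpecialLinearGroup.toGL ⟨(g' : Matrix (Fin n) (Fin n) F), hd⟩) = _
    rw [show Matrix.SpecialLinearGroup.toGL ⟨(g' : Matrix (Fin n) (Fin n) F), hd⟩ = g' from Units.ext rfl,
      hg', map_mul, show Matrix.ProjGenLinGroup.mk (Matrix.GeneralLinearGroup.scalar (Fin n) a⁻¹) = 1 from by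
        rw [Matrix.ProjGenLinGroup.mk_eq_one, Matrix.GeneralLinearGroup.center_eq_range_scalar]
        exact ⟨_, rfl⟩, mul_one]
  · rintro ⟨s, hs⟩
    induction s using QuotientGroup.induction_on with
    | H s =>
      have hs' : Matrix.ProjGenLinGroup.mk (Matrix.SpecialLinearGroup.toGL s) = Matrix.ProjGenLinGroup.mk g := hs
      rw [← hψ, ← hs', hψ]
      refine (QuotientGroup.eq_one_iff _).mpr ⟨1, Units.ext ?_⟩
      simp [Matrix.SpecialLinearGroup.toGL]

end Cfsg.Agent.S0307
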