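import Cfsg.Statements.S0323
import Cfsg.Agent.Eq.Def_LieExceptional

set_option autoImplicit false
open scoped Pointwise
open Cfsg

namespace Cfsg.Agent.S0323

/-- A doubly transitive action on a set with at least three points yields a (B,N)-pair of rank one:
`B` is the stabiliser of a point `x`, `N` the setwise stabiliser of a pair `{x, y}`. -/
theorem result {G Ω : Type*} [Group G] [MulAction G Ω]
    (h2 : MulAction.IsMultiplyPretransitive G Ω 2) {x y z : Ω} (hxy : x ≠ y) (hyz : y ≠ z) (hxz : x ≠ z) :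
    ∃ P : Cfsg.BNPair G, P.B = MulAction.stabilizer G x ∧
      P.N = MulAction.stabilizer G ({x, y} : Set Ω) ∧ P.rank = 1 := by
  obtain ⟨s, hsx, hsy⟩ := (MulAction.is_two_pretransitive_iff.1 h2) hxy hxy.symm
  have pair : ∀ {g : G}, g ∈ MulAction.stabilizer G ({x, y} : Set Ω) →
      (g • x = x ∧ g • y = y) ∨ (g • x = y ∧ g • y = x) := by
    intro g hg
    rw [MulAction.mem_stabilizer_iff] at hg
    have m : ∀ w ∈ ({x, y} : Set Ω), g • w = x ∨ g • w = y := by
      intro w hw
      have : g • w ∈ ({x, y} : Set Ω) := hg ▸ Set.smul_mem_smul_set hw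
      simpa using this
    have hne : g • x ≠ g • y := fun e => hxy (MulAction.injective g e)
    rcases m x (by simp) with h1 | h1 <;> rcases m y (by simp) with h2 | h2
    · exact absurd (h1.trans h2.symm) hne
    · exact Or.inl ⟨h1, h2⟩
    · exact Or.inr ⟨h1, h2⟩
    · exact absurd (h1.trans h2.symm) hne
  have mk : ∀ {g : G}, (g • x = x ∧ g • y = y) ∨ (g • x = y ∧ g • y = x) →
      g ∈ MulAction.stabilizer G ({x, y} : Set Ω) := by
    intro g hg
    rw [MulAction.mem_stabilizer_iff]
    show (fun w => g • w) '' ({x, y} : Set Ω) = {x, y}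
    rcases hg with ⟨a, b⟩ | ⟨a, b⟩
    · rw [Set.image_pair, a, b]
    · rw [Set.image_pair, a, b, Set.pair_comm]
  have hsx' : s⁻¹ • y = x := by rw [← hsx, inv_smul_smul]
  have cover : ∀ g : G, g • x = x ∨
      ∃ u ∈ MulAction.stabilizer G x, ∃ v ∈ MulAction.stabilizer G x, g = u * s * v := by
    intro g
    by_cases hg : g • x = x
    · exact Or.inl hg
    · obtain ⟨u, hux, huy⟩ := (MulAction.is_two_pretransitive_iff.1 h2) hxy (Ne.symm hg)
      refine Or.inr ⟨u, hux, (u * s)⁻¹ * g, ?_, by group⟩
      show ((u * s)⁻¹ * g) • x = x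
      have : g • x = (u * s) • x := by rw [mul_smul, hsx, huy]
      rw [mul_smul, this, inv_smul_smul]
  refine ⟨{ B := MulAction.stabilizer G x
            N := MulAction.stabilizer G ({x, y} : Set Ω)
            S := {s}
            sup_eq_top := ?_, conj_mem := ?_, subset := ?_, sq_mem := ?_, inj := ?_
            closure_sup := ?_, mul_mem_union := ?_, conj_ne := ?_ }, rfl, rfl, ?_⟩
  · refine top_unique fun g _ => ?_
    rcases cover g with hg | ⟨u, hu, v, hv, rfl⟩
    · exact Subgroup.mem_sup_left hg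
    · exact mul_mem (mul_mem (Subgroup.mem_sup_left hu)
        (Subgroup.mem_sup_right (mk (Or.inr ⟨hsx, hsy⟩)))) (Subgroup.mem_sup_left hv)
  · intro n hn t ht
    obtain ⟨htB, htN⟩ := Subgroup.mem_inf.1 ht
    have htx : t • x = x := htB
    have hty : t • y = y := by
      rcases pair htN with h | h
      · exact h.2
      · exact absurd (htx.symm.trans h.1) hxy
    show (n * t * n⁻¹) • x = x
    have hn' : n⁻¹ • x = x ∨ n⁻¹ • x = y := by
      rcases pair hn with h | h
      · left; conv_lhs => rw [← h.1, inv_smul_smul]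
      · right; conv_lhs => rw [← h.2, inv_smul_smul]
    have : t • (n⁻¹ • x) = n⁻¹ • x := by
      rcases hn' with h | h <;> rw [h] <;> assumption
    rw [mul_smul, mul_smul, this, smul_inv_smul]
  · exact Set.singleton_subset_iff.2 (mk (Or.inr ⟨hsx, hsy⟩))
  · rintro t rfl
    show (t * t) • x = x
    rw [mul_smul, hsx, hsy]
  · rintro t rfl t' rfl _
    rfl
  · refine le_antisymm (sup_le ?_ inf_le_right) fun n hn => ?_
    · exact (Subgroup.closure_le _).2 (Set.singleton_subset_iff.2 (mk (Or.inr ⟨hsx, hsy⟩)))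
    · rcases pair hn with h | h
      · exact Subgroup.mem_sup_right (Subgroup.mem_inf.2 ⟨h.1, hn⟩)
      · have h1 : s⁻¹ * n ∈ MulAction.stabilizer G x ⊓ MulAction.stabilizer G ({x, y} : Set Ω) := by
          refine Subgroup.mem_inf.2 ⟨?_, mul_mem (inv_mem (mk (Or.inr ⟨hsx, hsy⟩))) hn⟩
          show (s⁻¹ * n) • x = x
          rw [mul_smul, h.1, hsx']
        have h2' : s * (s⁻¹ * n) = n := mul_inv_cancel_left s n
        rw [← h2']
        exact mul_mem (Subgroup.mem_sup_left (Subgroup.subset_closure rfl)) (Subgroup.mem_sup_right h1)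
  · rintro t rfl n hn b hb
    by_cases hnx : n • x = x
    · refine Or.inl (DoubleCoset.mem_doubleCoset.2 ⟨1, one_mem _, n⁻¹ * b * n, ?_, by group⟩)
      exact mul_mem (mul_mem (inv_mem hnx) hb) hnx
    · have hny : n • x = y := by
        rcases pair hn with h | h
        · exact absurd h.1 hnx
        · exact h.1
      rcases cover (t * b * n) with hg | ⟨u, hu, v, hv, e⟩
      · refine Or.inl (DoubleCoset.mem_doubleCoset.2 ⟨t * b * n, hg, (t * n)⁻¹, ?_, by group⟩)
        refine inv_mem (show (t * n) • x = x from ?_)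
        rw [mul_smul, hny, hsy]
      · refine Or.inr (DoubleCoset.mem_doubleCoset.2 ⟨u, hu, n⁻¹ * t * v, ?_, ?_⟩)
        · refine mul_mem (show (n⁻¹ * t) • x = x from ?_) hv
          rw [mul_smul, hsx, ← hny, inv_smul_smul]
        · rw [e]; group
  · rintro t rfl heq
    obtain ⟨b, hbx, hby⟩ := (MulAction.is_two_pretransitive_iff.1 h2) hxy hxz
    have : t * b * t ∈ (MulAction.stabilizer G x : Set G) := heq ▸ Set.mem_image_of_mem _ hbx
    have h1 : (t * b * t) • x = x := this
    rw [mul_smul, mul_smul, hsx, hby] at h1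
    exact hyz (MulAction.injective t (h1.trans hsy.symm)).symm
  · show Nat.card ({s} : Set G) = 1
    simp

end Cfsg.Agent.S0323
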