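import Cfsg.Statements.S0326
import Cfsg.Agent.Eq.Def_LieExceptional

set_option autoImplicit false
open Cfsg

namespace Cfsg.Agent.S0326

/-- The Suzuki–Tits ovoid over a finite field with `q` elements has `q² + 1` points. -/
theorem result {F : Type*} [Field F] [Fintype F] (m : ℕ) :
    Nat.card (Cfsg.suzukiOvoid F m) = Fintype.card F ^ 2 + 1 := by
  have hv : ∀ x y : F,
      (![x * y + x ^ (2 ^ (m + 1) + 2) + y ^ (2 ^ (m + 1)), y, x, 1] : Fin 4 → F) ≠ 0 :=
    fun x y h => one_ne_zero (congrFun h 3)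
  have h0 : (![1, 0, 0, 0] : Fin 4 → F) ≠ 0 := fun h => one_ne_zero (congrFun h 0)
  let φ : Option (F × F) → ↥(Cfsg.suzukiOvoid F m) := fun o =>
    match o with
    | none => ⟨Projectivization.mk F ![1, 0, 0, 0] h0, _, h0, rfl, Or.inl rfl⟩
    | some (x, y) => ⟨Projectivization.mk F _ (hv x y), _, hv x y, rfl, Or.inr ⟨x, y, rfl⟩⟩
  have hφ : Function.Bijective φ := by
    constructor
    · rintro (_ | ⟨x, y⟩) (_ | ⟨x', y'⟩) h <;>
        have h' := congrArg Subtype.val h
      · rfl
      · obtain ⟨a, ha⟩ := (Projectivization.mk_eq_mk_iff' F _ _ _ _).1 h'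
        have h3 : a = 0 := by simpa using congrFun ha 3
        subst h3
        exact absurd (congrFun ha 0) (by simp)
      · obtain ⟨a, ha⟩ := (Projectivization.mk_eq_mk_iff' F _ _ _ _).1 h'
        exact absurd (congrFun ha 3) (by simp)
      · obtain ⟨a, ha⟩ := (Projectivization.mk_eq_mk_iff' F _ _ _ _).1 h'
        have h3 : a = 1 := by simpa using congrFun ha 3
        subst h3
        have e1 : y' = y := by simpa using congrFun ha 1
        have e2 : x' = x := by simpa using congrFun ha 2
        rw [e1, e2]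
    · rintro ⟨p, v, hv', rfl, rfl | ⟨x, y, rfl⟩⟩
      · exact ⟨none, rfl⟩
      · exact ⟨some (x, y), rfl⟩
  rw [← Nat.card_eq_of_bijective φ hφ, Nat.card_eq_fintype_card, Fintype.card_option,
    Fintype.card_prod, sq]

end Cfsg.Agent.S0326
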