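import Cfsg.Statements.S0327
import Cfsg.Agent.Suzuki.Bridge
import Cfsg.Agent.Suzuki.Simple

set_option autoImplicit false
open Cfsg

namespace Cfsg.Agent.S0327

/-- The Suzuki group (`m ≥ 1`) is a Zassenhaus group on the `q² + 1` points of the Suzuki–Tits ovoid. -/
theorem result {F : Type*} [Field F] [Fintype F] {m : ℕ} (hm : 1 ≤ m)
    (hF : Fintype.card F = 2 ^ (2 * m + 1)) :
    Cfsg.IsZassenhausGroup (Cfsg.Sz F m) (Cfsg.suzukiOvoid F m) := by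
  haveI := CfsgLib.Suzuki.charP_two hF
  have hT := CfsgLib.Suzuki.titsEndo_theta hm hF
  have hq : Nat.card F = 2 ^ (2 * m + 1) := by rw [Nat.card_eq_fintype_card, hF]
  have hG : Cfsg.Sz F m = CfsgLib.Suzuki.grp (CfsgLib.Suzuki.theta F m) := CfsgLib.Suzuki.sz_eq
  have hO : Cfsg.suzukiOvoid F m = CfsgLib.Suzuki.ovoid (CfsgLib.Suzuki.theta F m) :=
    CfsgLib.Suzuki.suzukiOvoid_eq
  have hmove : ∀ p ∈ Cfsg.suzukiOvoid F m, ∀ q ∈ Cfsg.suzukiOvoid F m, p ≠ q →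
      ∃ g ∈ Cfsg.Sz F m, g • p = CfsgLib.Suzuki.pInf ∧
        g • q = CfsgLib.Suzuki.pt (CfsgLib.Suzuki.theta F m) 0 0 := by
    intro p hp q hq hne
    rw [hO] at hp hq
    rw [hG]
    exact CfsgLib.Suzuki.exists_move_pair hT hp hq hne
  have hfaith : ∀ g : Cfsg.Sz F m, (∀ p : Cfsg.suzukiOvoid F m, g • p = p) → g = 1 := by
    intro g h
    refine Subtype.ext (CfsgLib.Suzuki.eq_one_of_fix_all hT (hG ▸ g.2) fun p hp => ?_)
    exact congrArg Subtype.val (h ⟨p, hO ▸ hp⟩)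
  refine ⟨⟨fun {g g'} h => ?_⟩, ?_, ?_, ?_, ?_⟩
  · refine (inv_mul_eq_one.1 (hfaith (g'⁻¹ * g) fun p => ?_)).symm
    rw [mul_smul, h p, inv_smul_smul]
  · rw [MulAction.is_two_pretransitive_iff]
    intro a b c d hab hcd
    obtain ⟨g, hg, hga, hgb⟩ := hmove _ a.2 _ b.2 fun e => hab (Subtype.ext e)
    obtain ⟨k, hk, hkc, hkd⟩ := hmove _ c.2 _ d.2 fun e => hcd (Subtype.ext e)
    refine ⟨⟨k⁻¹ * g, mul_mem (inv_mem hk) hg⟩, Subtype.ext ?_, Subtype.ext ?_⟩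
    · show (k⁻¹ * g) • a.1 = c.1
      rw [mul_smul, hga, ← hkc, inv_smul_smul]
    · show (k⁻¹ * g) • b.1 = d.1
      rw [mul_smul, hgb, ← hkd, inv_smul_smul]
  · intro g a b c hab hbc hac ha hb hc
    obtain ⟨k, hk, hka, hkb⟩ := hmove _ a.2 _ b.2 fun e => hab (Subtype.ext e)
    have hfix : ∀ p : Cfsg.suzukiOvoid F m, g • p = p → (k * g.1 * k⁻¹) • (k • p.1) = k • p.1 := by
      intro p hp
      rw [mul_smul, mul_smul, inv_smul_smul]
      exact congrArg (k • ·) (congrArg Subtype.val hp)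
    have h1 := hfix a ha
    have h2 := hfix b hb
    have h3 := hfix c hc
    rw [hka] at h1
    rw [hkb] at h2
    have hkg : k * g.1 * k⁻¹ ∈ Cfsg.Sz F m := mul_mem (mul_mem hk g.2) (inv_mem hk)
    obtain ⟨t, ht⟩ := CfsgLib.Suzuki.eq_tMat_of_fix hT (hG ▸ hkg) h1 h2
    have hkcmem : k • c.1 ∈ Cfsg.suzukiOvoid F m := (MulAction.mem_stabilizer_set.1 hk _).2 c.2
    have hkcmem' := hO.le hkcmem
    rcases (CfsgLib.Suzuki.mem_ovoid _).1 hkcmem' with hc' | ⟨x, y, hc'⟩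
    · exact absurd (MulAction.injective k (hc'.trans hka.symm)) fun e => hac (Subtype.ext e).symm
    · rw [hc', ht] at h3
      have hxy : ¬(x = 0 ∧ y = 0) := by
        rintro ⟨rfl, rfl⟩
        exact hbc (Subtype.ext (MulAction.injective k (hkb.trans hc'.symm)))
      rw [CfsgLib.Suzuki.eq_one_of_fix_three hT hxy h3] at ht
      refine Subtype.ext ?_
      have e1 : CfsgLib.Suzuki.tMat (CfsgLib.Suzuki.theta F m) 1 = 1 :=
        congrArg Subtype.val (CfsgLib.Suzuki.tElt_one hT)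
      rw [e1, mul_inv_eq_one, mul_eq_left] at ht
      exact ht
  · obtain ⟨z, hz0, hz1⟩ := hT.big
    refine ⟨⟨CfsgLib.Suzuki.tMat _ (Units.mk0 z hz0), hG ▸ CfsgLib.Suzuki.tMat_mem _ hT.sq _⟩,
      fun h => ?_, ⟨_, hO ▸ CfsgLib.Suzuki.pInf_mem _⟩, ⟨_, hO ▸ CfsgLib.Suzuki.pt_mem _ 0 0⟩,
      fun e => CfsgLib.Suzuki.pt_ne_pInf _ 0 0 (congrArg Subtype.val e).symm,
      Subtype.ext (CfsgLib.Suzuki.tMat_smul_pInf _ _),
      Subtype.ext (CfsgLib.Suzuki.tMat_smul_pt_zero hT _)⟩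
    have h1 : CfsgLib.Suzuki.tMat (CfsgLib.Suzuki.theta F m) (Units.mk0 z hz0) =
        CfsgLib.Suzuki.tMat (CfsgLib.Suzuki.theta F m) 1 :=
      (congrArg Subtype.val h).trans (congrArg Subtype.val (CfsgLib.Suzuki.tElt_one hT)).symm
    exact hz1 (congrArg Units.val (CfsgLib.Suzuki.tMat_injective h1))
  · intro N hN htr
    haveI : IsSimpleGroup (Cfsg.Sz F m) := hG ▸ CfsgLib.Suzuki.isSimpleGroup hT
    refine ⟨⟨_, hO ▸ CfsgLib.Suzuki.pInf_mem _⟩, ?_⟩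
    rcases hN.eq_bot_or_eq_top with rfl | rfl
    · exfalso
      obtain ⟨n, hn⟩ := MulAction.exists_smul_eq (⊥ : Subgroup (Cfsg.Sz F m))
        (⟨_, hO ▸ CfsgLib.Suzuki.pInf_mem _⟩ : Cfsg.suzukiOvoid F m)
        ⟨_, hO ▸ CfsgLib.Suzuki.pt_mem _ 0 0⟩
      rw [Subsingleton.elim n 1, one_smul] at hn
      exact CfsgLib.Suzuki.pt_ne_pInf _ 0 0 (congrArg Subtype.val hn).symm
    · obtain ⟨z, hz0, hz1⟩ := hT.big
      intro hbot
      have hmem : (⟨⟨CfsgLib.Suzuki.tMat _ (Units.mk0 z hz0),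
          hG ▸ CfsgLib.Suzuki.tMat_mem _ hT.sq _⟩, trivial⟩ : (⊤ : Subgroup (Cfsg.Sz F m))) ∈
          MulAction.stabilizer (⊤ : Subgroup (Cfsg.Sz F m))
            (⟨_, hO ▸ CfsgLib.Suzuki.pInf_mem _⟩ : Cfsg.suzukiOvoid F m) :=
        Subtype.ext (CfsgLib.Suzuki.tMat_smul_pInf _ _)
      rw [hbot, Subgroup.mem_bot] at hmem
      have h1 : CfsgLib.Suzuki.tMat (CfsgLib.Suzuki.theta F m) (Units.mk0 z hz0) =
          CfsgLib.Suzuki.tMat (CfsgLib.Suzuki.theta F m) 1 :=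
        (congrArg (fun g : (⊤ : Subgroup (Cfsg.Sz F m)) => g.1.1) hmem).trans
          (congrArg Subtype.val (CfsgLib.Suzuki.tElt_one hT)).symm
      exact hz1 (congrArg Units.val (CfsgLib.Suzuki.tMat_injective h1))

end Cfsg.Agent.S0327
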