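import Cfsg.Statements.S0333
import Cfsg.Agent.Suzuki.Partition
import Cfsg.Agent.Suzuki.Bridge

set_option autoImplicit false
open Cfsg

namespace Cfsg.Agent.S0333

/-- With `q = 2^(2m+1)` and `r = 2^m`, the Suzuki group has cyclic subgroups of orders `q + 2r + 1` and
`q - 2r + 1`; each is the centraliser of each of its non-identity elements and has index `4` in its normaliser. -/
theorem result {F : Type*} [Field F] [Fintype F] {m : ℕ} (hm : 1 ≤ m)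
    (hF : Fintype.card F = 2 ^ (2 * m + 1)) :
    ∀ k ∈ ({2 ^ (2 * m + 1) + 2 ^ (m + 1) + 1, 2 ^ (2 * m + 1) - 2 ^ (m + 1) + 1} : Set ℕ),
      ∃ U : Subgroup (Cfsg.Sz F m), IsCyclic U ∧ Nat.card U = k ∧
        (∀ u ∈ U, u ≠ 1 → Subgroup.centralizer {u} = U) ∧ Nat.card (Subgroup.normalizer (U : Set (Cfsg.Sz F m))) = 4 * k := by
  haveI := CfsgLib.Suzuki.charP_two hF
  rw [CfsgLib.Suzuki.sz_eq]
  obtain ⟨P, M, ⟨hP1, hP2, hP3, hP4⟩, ⟨hM1, hM2, hM3, hM4⟩, -⟩ :=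
    CfsgLib.Suzuki.exists_partition hm hF
  intro k hk
  rcases hk with rfl | rfl
  · exact ⟨P, hP1, hP2, hP3, hP2 ▸ hP4⟩
  · exact ⟨M, hM1, hM2, hM3, hM2 ▸ hM4⟩

end Cfsg.Agent.S0333
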