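import Cfsg.Statements.S0344
import Cfsg.Agent.ZassAbelian.OfEven
import Cfsg.Agent.ZassAbelian.SharpIndexTwo
import Cfsg.Agent.Eq.Def_Perm

set_option autoImplicit false
open Cfsg

namespace Cfsg.Agent.S0344


/-- A finite simple Zassenhaus group with a two-point stabiliser of even order is isomorphic to `PSL₂(F)` for a finite
field `F` with more than three elements. -/
theorem result {G Ω : Type*} [Group G] [Finite G] [MulAction G Ω] [Finite Ω]
    (hZ : Cfsg.IsZassenhausGroup G Ω) [IsSimpleGroup G]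
    {a b : Ω} (hab : a ≠ b) (heven : Even (Nat.card ↥(MulAction.stabilizer G a ⊓ MulAction.stabilizer G b))) :
    ∃ (F : Type) (_ : Field F) (_ : Fintype F), 3 < Fintype.card F ∧ Nonempty (G ≃* Matrix.ProjectiveSpecialLinearGroup (Fin 2) F) := by
  classical
  haveI := Fintype.ofFinite Ω
  haveI := Fintype.ofFinite G
  obtain ⟨hfaith, h2, h3, hg, hnoreg⟩ := hZ
  have hΩ : 3 ≤ Nat.card Ω := by
    obtain ⟨g, hg1, x, y, hxy, hx, hy⟩ := hg
    obtain ⟨z, hz⟩ : ∃ z : Ω, g • z ≠ z := by
      by_contra h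
      push Not at h
      exact hg1 (hfaith.eq_of_smul_eq_smul fun z => by rw [h z, one_smul])
    have h1 : ({x, y, z} : Finset Ω).card ≤ Nat.card Ω := by
      rw [Nat.card_eq_fintype_card]; exact Finset.card_le_univ _
    rw [Finset.card_insert_of_notMem, Finset.card_insert_of_notMem, Finset.card_singleton] at h1
    · omega
    · rw [Finset.mem_singleton]; rintro rfl; exact hz hy
    · simp only [Finset.mem_insert, Finset.mem_singleton, not_or]
      exact ⟨hxy, fun e => hz (e ▸ hx)⟩
  obtain ⟨D, hi, ho⟩ := CfsgLib.ZassAbelian.exists_setting_of_even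
    (fun x y z w hxy hzw => MulAction.is_two_pretransitive_iff.1 h2 hxy hzw) h3 hΩ hab heven
  have hev : Even (Nat.card D.H) := by
    rw [CfsgLib.ZassAbelian.Setting.H, hi, ho]; exact heven
  rcases CfsgLib.ZassAbelian.classify D with h | ⟨h, hinv⟩ | ⟨M, hMn, ht, hf⟩
  · exfalso
    obtain ⟨M, hM, hF, hne⟩ := D.exists_normal_ne_top h (D.odd_q_of_even_d hev)
    haveI := hM
    rcases hM.eq_bot_or_eq_top with e | e
    · rw [e, le_bot_iff] at hF
      have := D.two_le_q
      rw [hF, Subgroup.card_bot] at this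
      omega
    · exact hne e
  · obtain ⟨K, iF, iT, hK, -, hne⟩ := CfsgLib.ZassAbelian.psl_of_inverted D h hinv
    refine ⟨K, iF, iT, ?_, hne⟩
    have hpos : 0 < Nat.card D.H := Nat.card_pos
    rw [Nat.even_iff] at hev
    omega
  · exfalso
    haveI := CfsgLib.ZassAbelian.isPretransitive_of_exists ht
    obtain ⟨x, hx⟩ := hnoreg M hMn inferInstance
    exact hx (CfsgLib.ZassAbelian.stabilizer_of_free hf x)

end Cfsg.Agent.S0344
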