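import Cfsg.Statements.S0345
import Cfsg.Agent.ZassAbelian.SimpleEven
import Cfsg.Agent.Zassenhaus.OddStab

set_option autoImplicit false
open Cfsg

namespace Cfsg.Agent.S0345


/-- In a finite simple Zassenhaus group the stabiliser `H` of two points `a ≠ b` is cyclic, and some involution
interchanging `a` and `b` inverts every element of `H`. -/
theorem result {G Ω : Type*} [Group G] [Finite G] [MulAction G Ω] [Finite Ω]
    (hZ : Cfsg.IsZassenhausGroup G Ω) [IsSimpleGroup G]
    {a b : Ω} (hab : a ≠ b) :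
    IsCyclic ↥(MulAction.stabilizer G a ⊓ MulAction.stabilizer G b) ∧
      ∃ v : G, orderOf v = 2 ∧ v • a = b ∧ v • b = a ∧ ∀ h ∈ MulAction.stabilizer G a ⊓ MulAction.stabilizer G b, v * h * v⁻¹ = h⁻¹ := by
  classical
  haveI := Fintype.ofFinite Ω
  haveI := Fintype.ofFinite G
  rcases Nat.even_or_odd (Nat.card ↥(MulAction.stabilizer G a ⊓ MulAction.stabilizer G b)) with
    heven | hodd
  · obtain ⟨D, hi, ho, h, hinv⟩ := CfsgLib.ZassAbelian.simple_even_setting hZ hab heven
    have hH : MulAction.stabilizer G a ⊓ MulAction.stabilizer G b = D.H := by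
      rw [CfsgLib.ZassAbelian.Setting.H, hi, ho]
    obtain ⟨w, hw, hwi, hwo, hw'⟩ := hinv
    obtain ⟨K, iF, iT, hK, ⟨C⟩⟩ :=
      CfsgLib.ZassAbelian.coord_of D (D.commute_of_inverted hw') h.ge
    rw [hH]
    rw [hi, ho] at hwi hwo
    refine ⟨isCyclic_of_injective C.μ C.μinj, w, orderOf_eq_prime (by rw [pow_two, hw]) ?_,
      hwi, hwo, hw'⟩
    rintro rfl
    rw [one_smul] at hwi
    exact hab hwi
  · have hinv : ∀ t : G, t • a = b → t • b = a →
        ∀ x ∈ CfsgLib.Zassenhaus.pairStab G a b, t * x * t⁻¹ = x⁻¹ :=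
      fun t hta htb x hx => CfsgLib.Zassenhaus.inverts_pairStab hZ hab hodd hta htb hx
    obtain ⟨t, ht, hta, htb⟩ := CfsgLib.Zassenhaus.exists_swap_involution hZ hab hodd
    refine ⟨?_, t, ht, hta, htb, hinv t hta htb⟩
    haveI := (CfsgLib.Zassenhaus.isZGroup_and_card_dvd hZ hab hodd).1
    have hcomm : ∀ x y : ↥(CfsgLib.Zassenhaus.pairStab G a b), x * y = y * x := fun x y => by
      apply Subtype.ext
      have hi := hinv t hta htb
      have h1 := hi _ (mul_mem x.2 y.2)
      have h2 := hi _ x.2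
      have h3 := hi _ y.2
      have h4 : ((x : G) * y)⁻¹ = (x : G)⁻¹ * (y : G)⁻¹ := by
        rw [← h1, ← h2, ← h3]; group
      have h5 := congrArg (fun z => z⁻¹) h4
      simpa [mul_inv_rev] using h5
    letI : CommGroup ↥(CfsgLib.Zassenhaus.pairStab G a b) :=
      { (inferInstance : Group ↥(CfsgLib.Zassenhaus.pairStab G a b)) with mul_comm := hcomm }
    haveI : Group.IsNilpotent ↥(CfsgLib.Zassenhaus.pairStab G a b) := inferInstance
    exact (inferInstance : IsCyclic ↥(CfsgLib.Zassenhaus.pairStab G a b))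

end Cfsg.Agent.S0345
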