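import Cfsg.Statements.S1147
import Cfsg.Agent.SuzukiZassenhaus.Main
import Cfsg.Agent.S1138
import Cfsg.Agent.S1139

set_option autoImplicit false
open Cfsg

namespace Cfsg.Agent.S1147

/-- Let a finite simple Zassenhaus group `G` on `Ω` have a normal subgroup `U` of `G_a`, regular on `Ω` minus `a`, which is a non-abelian 2-group. Then `|Ω| = 2^(2n) + 1` with `n` odd, `n > 1`, a two-point stabiliser `G_a ⊓ G_b` is cyclic of order `2^n - 1`, and `U` is isomorphic to the type-A group over a field with `2^n` elements for some field automorphism `φ`. -/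
theorem result {G Ω : Type*} [Group G] [Finite G] [MulAction G Ω] [Finite Ω]
    (hZ : Cfsg.IsZassenhausGroup G Ω) [IsSimpleGroup G] {a b : Ω} (hab : a ≠ b)
    (U : Subgroup G) (hUle : U ≤ MulAction.stabilizer G a)
    (hUn : ∀ h ∈ MulAction.stabilizer G a, ∀ u ∈ U, h * u * h⁻¹ ∈ U)
    (hreg : ∀ c d : Ω, c ≠ a → d ≠ a → ∃! u : U, (u : G) • c = d)
    (hU2 : IsPGroup 2 U) (hUna : ∃ u ∈ U, ∃ v ∈ U, u * v ≠ v * u) :
    ∃ n : ℕ, Odd n ∧ 1 < n ∧ Nat.card Ω = 2 ^ (2 * n) + 1 ∧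
      IsCyclic ↥(MulAction.stabilizer G a ⊓ MulAction.stabilizer G b) ∧
      Nat.card ↥(MulAction.stabilizer G a ⊓ MulAction.stabilizer G b) = 2 ^ n - 1 ∧
      ∃ (F : Type) (_ : Field F) (_ : Fintype F) (φ : F ≃+* F), Fintype.card F = 2 ^ n ∧
        Nonempty (U ≃* Cfsg.suzukiTypeA F (φ : F →+* F)) := by
  classical
  have := Fintype.ofFinite Ω
  obtain ⟨v, S⟩ := CfsgLib.SuzukiZassenhaus.exists_setting hZ hab U hUle hUn hreg hU2 hUna
  obtain ⟨hsq, -, hcard, -⟩ := Cfsg.Agent.S1138.result S.isSuzukiTwo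
  obtain ⟨n, hn, hn1, hD, hZc, hU⟩ := S.parameters hsq hcard
  obtain ⟨F, iF, iT, φ, hF, -, -, e⟩ :=
    Cfsg.Agent.S1139.result S.isSuzukiTwo (by rw [hZc]; exact hU)
  refine ⟨n, hn, hn1, ?_, S.D_cyclic, hD, F, iF, iT, φ, hF.trans hZc, e⟩
  rw [Nat.card_eq_fintype_card, ← S.card_U, hU, ← pow_mul, mul_comm n 2]

end Cfsg.Agent.S1147
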