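import Cfsg.Statements.S0347
import Cfsg.Agent.S1147
import Cfsg.Agent.Zassenhaus.Counting

set_option autoImplicit false
open Cfsg

namespace Cfsg.Agent.S0347

/-- If in a finite simple Zassenhaus group the stabiliser of a point `x` has a normal `2`-subgroup `U` which is
non-abelian and acts regularly on the points other than `x`, then the group is simple of Suzuki order (order-level
predicate `IsSuzuki`). -/
theorem result {G Ω : Type*} [Group G] [Finite G] [MulAction G Ω] [Finite Ω]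
    (hZ : Cfsg.IsZassenhausGroup G Ω) [IsSimpleGroup G]
    (x : Ω) (U : Subgroup G) (hUle : U ≤ MulAction.stabilizer G x) (hUn : (U.subgroupOf (MulAction.stabilizer G x)).Normal)
    (hU2 : IsPGroup 2 U) (hUna : ∃ u v : U, u * v ≠ v * u)
    (hreg : ∀ y z : Ω, y ≠ x → z ≠ x → ∃! u : U, (u : G) • y = z) :
    Cfsg.IsSuzuki G := by
  classical
  have := Fintype.ofFinite Ω
  obtain ⟨y, hy⟩ : ∃ y : Ω, y ≠ x :=
    Fintype.exists_ne_of_one_lt_card (by have := CfsgLib.Zassenhaus.three_le_card hZ; omega) x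
  obtain ⟨u, v, huv⟩ := hUna
  obtain ⟨n, ⟨m, hm⟩, hn1, hΩ, -, hD, -⟩ := Cfsg.Agent.S1147.result hZ hy.symm U hUle
    (fun h hh w hw => hUn.conj_mem ⟨w, hUle hw⟩ hw ⟨h, hh⟩) hreg hU2
    ⟨u, u.2, v, v.2, fun h => huv (Subtype.ext h)⟩
  refine ⟨‹_›, m, by omega, ?_⟩
  rw [CfsgLib.Zassenhaus.card_eq hZ hy.symm, ← Nat.card_eq_fintype_card, hΩ, Nat.add_sub_cancel]
  show _ * Nat.card ↥(MulAction.stabilizer G x ⊓ MulAction.stabilizer G y) = _
  rw [hD, hm, ← pow_mul, mul_comm (2 * m + 1) 2]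
  ring

end Cfsg.Agent.S0347
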