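import Cfsg.Statements.S0354
import Cfsg.Agent.Steiner.Counting

set_option autoImplicit false
open Cfsg

namespace Cfsg.Agent.S0354

/-- In an S(5, 8, 24), each block is disjoint from exactly 30 blocks. -/
theorem result {α : Type*} [Fintype α] [DecidableEq α] (hα : Fintype.card α = 24) {B : Set (Finset α)} (hB : Cfsg.IsSteinerSystem 5 8 B) {b : Finset α} (hb : b ∈ B) : {c : Finset α | c ∈ B ∧ Disjoint b c}.ncard = 30 := by
  have h := (CfsgLib.Steiner.interCount_5_8_24 hα hB hb).1
  rw [Set.ncard_eq_toFinset_card _ (Set.toFinite _), ← h, CfsgLib.Steiner.interCount]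
  congr 1
  ext c
  simp only [Set.Finite.mem_toFinset, Set.mem_setOf_eq, Finset.mem_filter, Finset.mem_erase,
    CfsgLib.Steiner.mem_blocks, Finset.card_eq_zero, ← Finset.disjoint_iff_inter_eq_empty]
  constructor
  · rintro ⟨hc, hd⟩
    refine ⟨⟨?_, hc⟩, hd⟩
    rintro rfl
    have := hB.1 c hb
    rw [(Finset.disjoint_self_iff_empty _).1 hd, Finset.card_empty] at this
    omega
  · tauto

end Cfsg.Agent.S0354
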