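import Cfsg.Statements.S0357
import Cfsg.Agent.Steiner.Counting

set_option autoImplicit false
open Cfsg

namespace Cfsg.Agent.S0357

/-- In a Steiner system S(5, 6, 12), the complement of every block is again a block. -/
theorem result {α : Type*} [Fintype α] [DecidableEq α] (hα : Fintype.card α = 12) {B : Set (Finset α)} (hB : Cfsg.IsSteinerSystem 5 6 B) {b : Finset α} (hb : b ∈ B) : bᶜ ∈ B := by
  have h := (CfsgLib.Steiner.interCount_5_6_12 hα hB hb).1
  rw [CfsgLib.Steiner.interCount, Finset.card_eq_one] at h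
  obtain ⟨c, hc⟩ := h
  have := hc ▸ Finset.mem_singleton_self c
  obtain ⟨hc1, hc2⟩ := Finset.mem_filter.1 this
  obtain ⟨-, hcB⟩ := Finset.mem_erase.1 hc1
  rw [CfsgLib.Steiner.mem_blocks] at hcB
  have hd : Disjoint b c := Finset.disjoint_iff_inter_eq_empty.2 (Finset.card_eq_zero.1 hc2)
  have hsub : c ⊆ bᶜ := fun x hx => Finset.mem_compl.2 (Finset.disjoint_right.1 hd hx)
  have : c = bᶜ := Finset.eq_of_subset_of_card_le hsub
    (by rw [Finset.card_compl, hα, hB.1 b hb, hB.1 c hcB])
  exact this ▸ hcB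

end Cfsg.Agent.S0357
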