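import Cfsg.Statements.S0369
import Cfsg.Agent.Eq.Def_Sporadic_a
import Cfsg.Agent.Golay.Steiner
import Cfsg.Agent.Golay.Perm

set_option autoImplicit false
open Cfsg

open scoped Pointwise

namespace Cfsg.Agent.S0369

/-- The group of the length-24 code coincides with the automorphism group of its octad system. -/
theorem result : Cfsg.M24 = Cfsg.setSystemAut Cfsg.octads := by
  ext σ
  constructor
  · intro hσ
    refine MulAction.mem_stabilizer_iff.mpr
      (Set.eq_of_subset_of_ncard_le ?_ (by rw [Set.ncard_smul_set]) (Set.toFinite _))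
    rintro _ ⟨b, hb, rfl⟩
    exact CfsgLib.Golay.smul_mem_octads hσ hb
  · intro hσ
    refine CfsgLib.Golay.mem_M24_iff.mpr fun b hb => ?_
    have hw : ∀ b ∈ CfsgLib.Golay.basisMasks,
        CfsgLib.Golay.pop b = 8 ∧ CfsgLib.Golay.inCode b = true ∧ b < 2 ^ 24 := by decide +kernel
    obtain ⟨h8, hc, hlt⟩ := hw b hb
    have hoct : CfsgLib.Golay.ofMask b ∈ Cfsg.octads := by
      rw [CfsgLib.Golay.mem_octads_iff_mask, CfsgLib.Golay.toMask_ofMask hlt]
      exact ⟨hc, h8⟩
    have := Set.smul_mem_smul_set (a := σ) hoct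
    rw [MulAction.mem_stabilizer_iff.mp hσ] at this
    exact (CfsgLib.Golay.mem_octads_iff_mask.mp this).1

end Cfsg.Agent.S0369
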