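import Cfsg.Statements.S0371
import Cfsg.Agent.Eq.Def_Sporadic_a
import Cfsg.Agent.Golay.Perm

set_option autoImplicit false
open Cfsg

namespace Cfsg.Agent.S0371

open scoped Pointwise


/-- Multiplication by a nonzero square residue modulo 23, fixing the extra point, lies in the group of the length-24 code. -/
theorem result (u : (ZMod 23)ˣ) (hu : IsSquare u) : Equiv.optionCongr (Units.mulLeft u) ∈ Cfsg.M24 := by
  have key : ∀ u : (ZMod 23)ˣ, (∃ r, u = r * r) → ∀ b ∈ CfsgLib.Golay.basisMasks,
      CfsgLib.Golay.inCode (CfsgLib.Golay.toMask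
        ((Equiv.optionCongr (Units.mulLeft u) : Equiv.Perm Cfsg.GolayPt) •
          CfsgLib.Golay.ofMask b)) = true := by decide +kernel
  exact CfsgLib.Golay.mem_M24_iff.mpr (key u hu)

end Cfsg.Agent.S0371
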