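import Cfsg.Statements.S0375
import Cfsg.Agent.DesignUnique.Iso
-- import your own Cfsg.Agent.* helpers here

set_option autoImplicit false
open Cfsg

namespace Cfsg.Agent.S0375

/-- A doubly even self-dual binary code of length 24 with no words of weight 4 is equivalent to the length-24 code built from the squares modulo 23. -/
theorem result (C : Submodule (ZMod 2) (Fin 24 → ZMod 2)) (hdim : Module.finrank (ZMod 2) C = 12) (horth : ∀ v ∈ C, ∀ w ∈ C, ∑ i, v i * w i = 0) (h4 : ∀ w ∈ C, 4 ∣ hammingNorm w) (hno4 : ∀ w ∈ C, hammingNorm w ≠ 4) : ∃ e : Fin 24 ≃ Cfsg.GolayPt, ∀ w : Cfsg.GolayPt → ZMod 2, w ∈ Cfsg.golayCode ↔ (fun i => w (e i)) ∈ C := by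
  have hH : CfsgLib.SelfDual24.Hyp C := ⟨hdim, horth, fun w hw hw0 => by
    have h1 := h4 w hw
    have h2 := hno4 w hw
    have h3 : hammingNorm w ≠ 0 := by rw [Ne, hammingNorm_eq_zero]; exact hw0
    omega⟩
  obtain ⟨e, he⟩ := CfsgLib.DesignUnique.exists_equiv_golay hH
  refine ⟨e, fun w => ?_⟩
  rw [← CfsgLib.SelfDual24.supp_mem_sets, he, CfsgLib.Golay.mem_codeSets,
    CfsgLib.Golay.mem_supports_iff_wordOf, show (CfsgLib.SelfDual24.supp fun i => w (e i)).image e = Cfsg.support₂ w by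
      ext y
      obtain ⟨x, rfl⟩ := e.surjective y
      simp [Cfsg.support₂], CfsgLib.Golay.wordOf_support₂]

end Cfsg.Agent.S0375
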