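import Cfsg.Statements.S0379
import Cfsg.Agent.Mathieu.Simple

set_option autoImplicit false
open Cfsg

namespace Cfsg.Agent.S0379

/-- A two-point stabiliser in the group of the length-24 code is simple. -/
theorem result (p q : Cfsg.GolayPt) (hpq : p ≠ q) : IsSimpleGroup ↥(MulAction.stabilizer Cfsg.M24 p ⊓ MulAction.stabilizer Cfsg.M24 q) := by
  haveI := CfsgLib.Mathieu.isSimpleGroup_fixPair hpq
  exact (CfsgLib.Mathieu.equivOfMapEq (CfsgLib.Mathieu.map_inf_stabilizer Cfsg.M24 p q)).isSimpleGroup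

end Cfsg.Agent.S0379
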