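import Cfsg.Statements.S0384
import Cfsg.Agent.Mathieu.Small

set_option autoImplicit false
open scoped Pointwise
open Cfsg

namespace Cfsg.Agent.S0384

/-- A dodecad stabiliser is sharply 5-transitive on the dodecad. -/
theorem result (d : Finset Cfsg.GolayPt) (hd : d ∈ Cfsg.dodecads) (x y : Fin 5 ↪ Cfsg.GolayPt) (hx : ∀ i, x i ∈ d) (hy : ∀ i, y i ∈ d) : ∃! g : MulAction.stabilizer Cfsg.M24 d, ∀ i, ((g : Cfsg.M24) : Equiv.Perm Cfsg.GolayPt) (x i) = y i := by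
  obtain ⟨g, hg, h⟩ := CfsgLib.Mathieu.exists_map_five_dodecad hd (xs := List.ofFn x)
    (ys := List.ofFn y) List.length_ofFn (List.nodup_ofFn.2 x.injective)
    (List.forall_mem_ofFn_iff.2 hx) List.length_ofFn (List.nodup_ofFn.2 y.injective)
    (List.forall_mem_ofFn_iff.2 hy)
  rw [List.map_ofFn, List.ofFn_inj] at h
  refine ⟨⟨⟨g, hg.1⟩, hg.2⟩, congrFun h, fun k hk => ?_⟩
  refine Subtype.ext (Subtype.ext (inv_mul_eq_one.1 ?_).symm)
  refine CfsgLib.Mathieu.eq_one_of_fix_five_dodecad hd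
    (Subgroup.mul_mem _ (Subgroup.inv_mem _ hg) ⟨k.1.2, k.2⟩) (xs := List.ofFn x)
    List.length_ofFn (List.nodup_ofFn.2 x.injective)
    (List.forall_mem_ofFn_iff.2 hx) ?_
  rw [List.forall_mem_ofFn_iff]
  intro i
  have hgi : g (x i) = y i := congrFun h i
  rw [Equiv.Perm.mul_apply, hk i, ← hgi, Equiv.Perm.coe_inv, Equiv.symm_apply_apply]

end Cfsg.Agent.S0384
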