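import Cfsg.Statements.S0385
import Cfsg.Agent.Eq.Def_Sporadic_a
import Cfsg.Agent.Golay.Steiner

set_option autoImplicit false
open Cfsg

namespace Cfsg.Agent.S0385

/-- The 6-point intersections of octads with a fixed dodecad form a Steiner system S(5, 6, 12) on the dodecad. -/
theorem result (d : Finset Cfsg.GolayPt) (hd : d ∈ Cfsg.dodecads) : Cfsg.IsSteinerSystem 5 6 {h : Finset {p : Cfsg.GolayPt // p ∈ d} | ∃ o ∈ Cfsg.octads, (o ∩ d).card = 6 ∧ h = Finset.subtype (fun p => p ∈ d) o} := by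
  refine ⟨?_, fun s hs => ?_⟩
  · rintro h ⟨o, ho, h6, rfl⟩
    rw [Finset.card_subtype, ← h6, Finset.filter_mem_eq_inter]
  · set emb : {p : Cfsg.GolayPt // p ∈ d} ↪ Cfsg.GolayPt := Function.Embedding.subtype _ with hemb
    have hS : (s.map emb).card = 5 := by rw [Finset.card_map, hs]
    obtain ⟨o, ho, hso⟩ := CfsgLib.Golay.exists_octad_superset hS
    have hsd : s.map emb ⊆ o ∩ d := by
      intro p hp
      refine Finset.mem_inter.mpr ⟨hso hp, ?_⟩
      obtain ⟨q, -, rfl⟩ := Finset.mem_map.mp hp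
      exact q.2
    have h6 : (o ∩ d).card = 6 := by
      have := Finset.card_le_card hsd
      rcases CfsgLib.Golay.octad_inter_dodecad ho hd with h | h | h <;> omega
    refine ⟨Finset.subtype (fun p => p ∈ d) o, ⟨⟨o, ho, h6, rfl⟩, fun q hq => ?_⟩, ?_⟩
    · exact Finset.mem_subtype.mpr (hso (Finset.mem_map_of_mem emb hq))
    · rintro _ ⟨⟨o', ho', -, rfl⟩, hsub⟩
      rw [CfsgLib.Golay.octad_unique hS.ge ho ho' hso fun p hp => ?_]
      obtain ⟨q, hq, rfl⟩ := Finset.mem_map.mp hp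
      exact Finset.mem_subtype.mp (hsub hq)

end Cfsg.Agent.S0385
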