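import Cfsg.Statements.S0412
import Cfsg.Agent.DesignUnique.Aut
-- import your own Cfsg.Agent.* helpers here

set_option autoImplicit false
open Cfsg

namespace Cfsg.Agent.S0412

/-- Aut of an S(5, 8, 24) is simple of order 244823040 and 5-transitive on points. -/
theorem result {α : Type*} [Fintype α] [DecidableEq α] (hα : Fintype.card α = 24) {B : Set (Finset α)} (hB : Cfsg.IsSteinerSystem 5 8 B) : Cfsg.IsM24 (Cfsg.setSystemAut B) ∧ MulAction.IsMultiplyPretransitive (Cfsg.setSystemAut B) α 5 := by
  obtain ⟨e, he⟩ := CfsgLib.DesignUnique.exists_equiv24 hα hB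
  obtain ⟨f⟩ := CfsgLib.DesignUnique.aut_transport e he (MulEquiv.subgroupCongr CfsgLib.DesignUnique.aut_octads)
  haveI := CfsgLib.Mathieu.isSimpleGroup_M24
  refine ⟨⟨f.isSimpleGroup, (Nat.card_congr f.toEquiv).trans CfsgLib.Mathieu.card_M24⟩,
    CfsgLib.DesignUnique.pretransitive_transport e he fun x y => ?_⟩
  rw [CfsgLib.DesignUnique.aut_octads]
  exact CfsgLib.Mathieu.exists_map_five_fun x.injective y.injective

end Cfsg.Agent.S0412
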