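import Cfsg.Statements.S0413
import Cfsg.Agent.DesignUnique.Aut
-- import your own Cfsg.Agent.* helpers here

set_option autoImplicit false
open Cfsg

namespace Cfsg.Agent.S0413

/-- Aut of an S(4, 7, 23) is simple of order 10200960 and 4-transitive. -/
theorem result {α : Type*} [Fintype α] [DecidableEq α] (hα : Fintype.card α = 23) {B : Set (Finset α)} (hB : Cfsg.IsSteinerSystem 4 7 B) : Cfsg.IsM23 (Cfsg.setSystemAut B) ∧ MulAction.IsMultiplyPretransitive (Cfsg.setSystemAut B) α 4 := by
  obtain ⟨e, he⟩ := CfsgLib.DesignUnique.exists_equiv23 hα hB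
  obtain ⟨f⟩ := CfsgLib.DesignUnique.aut_transport e he CfsgLib.DesignUnique.autEquiv23
  haveI := CfsgLib.Mathieu.isSimpleGroup_fixPt (none : Cfsg.GolayPt)
  exact ⟨⟨f.isSimpleGroup, (Nat.card_congr f.toEquiv).trans (CfsgLib.Mathieu.card_fixPt none)⟩,
    CfsgLib.DesignUnique.pretransitive_transport e he CfsgLib.DesignUnique.trans23⟩

end Cfsg.Agent.S0413
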