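import Cfsg.Statements.S0427
import Cfsg.Agent.Steiner.Disjoint322

set_option autoImplicit false
open Cfsg

namespace Cfsg.Agent.S0427

open CfsgLib.Steiner Finset

/-- The block graph (adjacent = disjoint) of an S(3, 6, 22) is strongly regular with parameters (77, 16, 0, 4). -/
theorem result {α : Type*} [Fintype α] (hα : Fintype.card α = 22) {B : Set (Finset α)} (hB : Cfsg.IsSteinerSystem 3 6 B) [Fintype B] [DecidableRel (Cfsg.blockGraph B).Adj] : (Cfsg.blockGraph B).IsSRGWith 77 16 0 4 := by
  classical
  have hcount : ∀ (P : Finset α → Prop) (S : Set B) [Fintype S], (∀ d : B, d ∈ S ↔ P (d : Finset α)) →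
      Fintype.card S = ((blocks B).filter P).card := by
    intro P S _ hS
    rw [← Nat.card_eq_fintype_card, Nat.card_coe_set_eq, ← Set.ncard_coe_finset,
      ← Set.ncard_image_of_injective S Subtype.val_injective]
    congr 1
    ext d
    simp only [Set.mem_image, Finset.coe_filter, mem_blocks, Set.mem_setOf_eq]
    exact ⟨fun ⟨x, hx, e⟩ => e ▸ ⟨x.2, (hS x).1 hx⟩, fun h => ⟨⟨d, h.1⟩, (hS _).2 h.2, rfl⟩⟩
  have hadj : ∀ b c : B, (blockGraph B).Adj b c ↔ Disjoint (b : Finset α) (c : Finset α) := by
    intro b c
    rw [blockGraph, SimpleGraph.fromRel_adj]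
    constructor
    · rintro ⟨-, h | h⟩
      · exact h
      · exact h.symm
    · intro h
      refine ⟨?_, Or.inl h⟩
      rintro rfl
      have h' := disjoint_self.mp h
      have := hB.1 _ b.2
      rw [h'] at this
      simp at this
  refine ⟨?_, ?_, ?_, ?_⟩
  · rw [← Nat.card_eq_fintype_card, Nat.card_coe_set_eq, ncard_eq_card_blocks]
    have h := blocksThrough_card_mul hB (s := (∅ : Finset α)) (by simp)
    have he : blocksThrough B (∅ : Finset α) = blocks B := by simp [blocksThrough]
    rw [he, hα, card_empty, show Nat.choose (6 - 0) (3 - 0) = 20 by decide,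
      show Nat.choose (22 - 0) (3 - 0) = 1540 by decide] at h
    omega
  · intro b
    rw [← card_avoiding_322 hα hB b.2, ← SimpleGraph.card_neighborSet_eq_degree]
    exact (hcount (Disjoint (b : Finset α)) ((blockGraph B).neighborSet b) fun d => hadj b d).trans (congrArg Finset.card (by ext; simp [avoiding]))
  · intro b c h
    rw [hcount (fun d => Disjoint (b : Finset α) d ∧ Disjoint (c : Finset α) d) ((blockGraph B).commonNeighbors b c) fun d => by
      rw [SimpleGraph.mem_commonNeighbors, hadj, hadj]]
    refine (congrArg Finset.card (?_ : _ = (avoiding B (b : Finset α)).filter (Disjoint (c : Finset α) ·))).trans (card_eq_zero.2 (avoiding_inter_of_disjoint hα hB b.2 c.2 ((hadj b c).1 h)))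
    ext; simp [avoiding, and_assoc]
  · intro b c hne h
    rw [hcount (fun d => Disjoint (b : Finset α) d ∧ Disjoint (c : Finset α) d) ((blockGraph B).commonNeighbors b c) fun d => by
      rw [SimpleGraph.mem_commonNeighbors, hadj, hadj]]
    refine (congrArg Finset.card (?_ : _ = (avoiding B (b : Finset α)).filter (Disjoint (c : Finset α) ·))).trans (avoiding_inter_of_meet hα hB b.2 c.2 (fun e => hne (Subtype.ext e)) (fun hd => h ((hadj b c).2 hd)))
    ext; simp [avoiding, and_assoc]

end Cfsg.Agent.S0427
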