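import Cfsg.Statements.S0431
import Cfsg.Agent.HSGraph.Simple

set_option autoImplicit false
open Cfsg

namespace Cfsg.Agent.S0431

/-- Aut of the point-block graph of an S(3, 6, 22) contains a simple subgroup of order 44352000. -/
theorem result {α : Type*} [Fintype α] (hα : Fintype.card α = 22) {B : Set (Finset α)} (hB : Cfsg.IsSteinerSystem 3 6 B) : ∃ H : Subgroup (Cfsg.pointBlockGraph B ≃g Cfsg.pointBlockGraph B), Cfsg.IsHS H := by
  classical
  obtain ⟨f⟩ := CfsgLib.HSGraph.exists_aut_equiv hα hB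
  have hs := CfsgLib.HSGraph.isSimpleGroup_evenAut
  let e := f.symm.subgroupMap CfsgLib.HSGraph.evenAut
  refine ⟨CfsgLib.HSGraph.evenAut.map f.symm.toMonoidHom, ?_, ?_⟩
  · exact MulEquiv.isSimpleGroup e.symm
  · exact (Nat.card_congr e.toEquiv).symm.trans CfsgLib.HSGraph.card_evenAut

end Cfsg.Agent.S0431
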