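import Cfsg.Statements.S0432
import Cfsg.Agent.Eq.Def_Sporadic_a
-- import your own Cfsg.Agent.* helpers here

set_option autoImplicit false
open Cfsg

namespace Cfsg.Agent.S0432

open scoped Pointwise in
theorem perm_mem {σ : Equiv.Perm Cfsg.GolayPt} (hσ : σ ∈ Cfsg.M24) {x : Cfsg.GolayPt → ℤ}
    (hx : x ∈ Cfsg.leechSet) : (fun i => x (σ i)) ∈ Cfsg.leechSet := by
  obtain ⟨m, h1, h2, h3⟩ := hx
  refine ⟨m, fun i => h1 (σ i), ?_, fun k => ?_⟩
  · rwa [Equiv.sum_comp σ x]
  · have hi : σ⁻¹ ∈ Cfsg.M24 := inv_mem hσ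
    have h := Set.smul_mem_smul_set (a := σ⁻¹) (h3 k)
    rw [MulAction.mem_stabilizer_iff.mp hi] at h
    convert h using 1
    ext i
    rw [Finset.mem_inv_smul_finset_iff]
    simp


/-- Coordinate permutations from the code's group preserve the lattice. -/
theorem result (σ : Equiv.Perm Cfsg.GolayPt) (hσ : σ ∈ Cfsg.M24) (x : Cfsg.GolayPt → ℤ) (hx : x ∈ Cfsg.leechLattice) : (fun i => x (σ i)) ∈ Cfsg.leechLattice := by
  induction hx using AddSubgroup.closure_induction with
  | mem x hx => exact AddSubgroup.subset_closure (perm_mem hσ hx)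
  | zero => exact zero_mem _
  | add x y _ _ ihx ihy => exact add_mem ihx ihy
  | neg x _ ih => exact neg_mem ih

end Cfsg.Agent.S0432
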