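import Cfsg.Statements.S0439
import Cfsg.Agent.Eq.Def_SporadicB
-- import your own Cfsg.Agent.* helpers here

set_option autoImplicit false
open Cfsg

namespace Cfsg.Agent.S0439

open Equiv in
theorem swap_mul_swap {α : Type*} [Fintype α] [DecidableEq α] {x y z w : α} (hxy : x ≠ y)
    (hzw : z ≠ w) : (swap x y * swap z w) ^ 2 = 1 ∨ (swap x y * swap z w) ^ 3 = 1 := by
  have three : ∀ {a b c : α}, a ≠ b → a ≠ c → b ≠ c → (swap a b * swap a c) ^ 3 = 1 :=
    fun h1 h2 h3 => by
      rw [← (Perm.isThreeCycle_swap_mul_swap_same h1 h2 h3).orderOf, pow_orderOf_eq_one]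
  by_cases hxz : x = z
  · subst hxz
    by_cases hyw : y = w
    · subst hyw; left; simp
    · exact .inr (three hxy hzw hyw)
  by_cases hxw : x = w
  · subst hxw
    by_cases hyz : y = z
    · subst hyz; left; simp [swap_comm]
    · right; rw [swap_comm z x]; exact three hxy (Ne.symm hzw) hyz
  by_cases hyz : y = z
  · subst hyz
    right; rw [swap_comm x y]; exact three (Ne.symm hxy) hzw hxw
  by_cases hyw : y = w
  · subst hyw
    right; rw [swap_comm x y, swap_comm z y]; exact three (Ne.symm hxy) (Ne.symm hzw) hxz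
  left
  have hd : Perm.Disjoint (swap x y) (swap z w) := by
    intro v
    by_cases hvx : v = x
    · subst hvx; exact .inr (swap_apply_of_ne_of_ne hxz hxw)
    by_cases hvy : v = y
    · subst hvy; exact .inr (swap_apply_of_ne_of_ne hyz hyw)
    exact .inl (swap_apply_of_ne_of_ne hvx hvy)
  rw [hd.commute.mul_pow, pow_two, pow_two, swap_mul_self, swap_mul_self, one_mul]


/-- In the symmetric group of degree n ≥ 2, the set of transpositions is a conjugacy class of 3-transpositions which generates the group. -/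
theorem result (n : ℕ) (hn : 2 ≤ n) : Cfsg.IsThreeTranspositionClass {σ : Equiv.Perm (Fin n) | σ.IsSwap} := by
  refine ⟨⟨?_, ?_⟩, ?_, Equiv.Perm.closure_isSwap⟩
  · rintro d ⟨x, y, hxy, rfl⟩
    exact orderOf_eq_prime (by rw [pow_two, Equiv.swap_mul_self])
      (fun h => hxy (Equiv.swap_eq_refl_iff.mp h))
  · rintro d ⟨x, y, hxy, rfl⟩ e ⟨z, w, hzw, rfl⟩
    exact swap_mul_swap hxy hzw
  · let i : Fin n := ⟨0, by omega⟩
    let j : Fin n := ⟨1, by omega⟩
    have hij : i ≠ j := by simp [i, j, Fin.ext_iff]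
    refine ⟨Equiv.swap i j, ⟨i, j, hij, rfl⟩, Set.ext fun σ => ⟨?_, ?_⟩⟩
    · rintro ⟨x, y, hxy, rfl⟩
      exact Equiv.Perm.isConj_swap hij hxy
    · intro hσ
      obtain ⟨c, hc⟩ := isConj_iff.mp (show IsConj (Equiv.swap i j) σ from hσ)
      exact ⟨c i, c j, c.injective.ne hij, by rw [← hc, ← Equiv.swap_apply_apply]⟩

end Cfsg.Agent.S0439
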