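import Cfsg.Statements.S0440
import Cfsg.Agent.Eq.Def_SporadicB
import Cfsg.Agent.Classical.Symp.Centralizer

set_option autoImplicit false
open Cfsg

namespace Cfsg.Agent.S0440

open Matrix CfsgLib.Classical.Symp

private theorem eq_one_of_ne_zero_zmod_two : ∀ c : ZMod 2, c ≠ 0 → c = 1 := by decide

private theorem rank_spT_sub_one {n : ℕ} {w : Fin n ⊕ Fin n → ZMod 2} (hw : w ≠ 0) :
    ((spT w 1 : Matrix (Fin n ⊕ Fin n) (Fin n ⊕ Fin n) (ZMod 2)) - 1).rank = 1 := by
  obtain ⟨z, hz⟩ := exists_form_eq_one hw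
  have hz' : Cfsg.sympForm n (ZMod 2) z w = -1 := by rw [form_swap, hz]
  have hmv : ∀ x, ((spT w 1 : Matrix (Fin n ⊕ Fin n) (Fin n ⊕ Fin n) (ZMod 2)) - 1) *ᵥ x =
      Cfsg.sympForm n (ZMod 2) x w • w := fun x => by
    rw [sub_mulVec, one_mulVec, spT_mulVec, one_mul, add_sub_cancel_left]
  have hrange : LinearMap.range ((spT w 1 : Matrix (Fin n ⊕ Fin n) (Fin n ⊕ Fin n) (ZMod 2)) - 1).mulVecLin =
      Submodule.span (ZMod 2) {w} := by
    apply le_antisymm
    · rintro _ ⟨x, rfl⟩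
      rw [Matrix.mulVecLin_apply, hmv]
      exact Submodule.smul_mem _ _ (Submodule.mem_span_singleton_self w)
    · rw [Submodule.span_singleton_le_iff_mem]
      refine ⟨-z, ?_⟩
      rw [Matrix.mulVecLin_apply, hmv, form_neg_left, hz', neg_neg, one_smul]
  rw [Matrix.rank, hrange, finrank_span_singleton hw]

private theorem mem_iff_exists {n : ℕ} (g : Matrix.symplecticGroup (Fin n) (ZMod 2)) :
    ((g : Matrix (Fin n ⊕ Fin n) (Fin n ⊕ Fin n) (ZMod 2)) - 1).rank = 1 ↔ ∃ w, w ≠ 0 ∧ spT w 1 = g := by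
  constructor
  · intro h
    obtain ⟨w, c, hw, hc, rfl⟩ := exists_spT_of_rank_eq_one g h
    exact ⟨w, hw, by rw [eq_one_of_ne_zero_zmod_two c hc]⟩
  · rintro ⟨w, hw, rfl⟩
    exact rank_spT_sub_one hw


/-- In the symplectic group in dimension 2n ≥ 2 over the field with two elements, the elements g for which g - 1 has rank one (the symplectic transvections) form a conjugacy class of 3-transpositions generating the group. -/
theorem result (n : ℕ) (hn : 1 ≤ n) : Cfsg.IsThreeTranspositionClass {g : Matrix.symplecticGroup (Fin n) (ZMod 2) | ((g : Matrix (Fin n ⊕ Fin n) (Fin n ⊕ Fin n) (ZMod 2)) - 1).rank = 1} := by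
  have hsq : ∀ w : Fin n ⊕ Fin n → ZMod 2, spT w 1 * spT w 1 = 1 := fun w => by
    rw [← spT_add, show (1 : ZMod 2) + 1 = 0 from by decide, spT_zero]
  have hne : ∀ w : Fin n ⊕ Fin n → ZMod 2, w ≠ 0 → spT w 1 ≠ 1 := fun w hw e => by
    have := rank_spT_sub_one hw
    rw [e, Submonoid.coe_one, sub_self, Matrix.rank_zero] at this
    exact zero_ne_one this
  refine ⟨⟨?_, ?_⟩, ?_, ?_⟩
  · intro d hd
    obtain ⟨w, hw, rfl⟩ := (mem_iff_exists d).mp hd
    exact orderOf_eq_prime (by rw [sq, hsq]) (hne w hw)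
  · intro d hd e he
    obtain ⟨u, hu, rfl⟩ := (mem_iff_exists d).mp hd
    obtain ⟨v, hv, rfl⟩ := (mem_iff_exists e).mp he
    by_cases h : Cfsg.sympForm n (ZMod 2) u v = 0
    · left
      rw [sq, mul_assoc, ← mul_assoc (spT v 1), spT_commute (form_eq_zero_comm.mp h), mul_assoc (spT u 1),
        hsq, mul_one, hsq]
    · right
      have h1 : Cfsg.sympForm n (ZMod 2) u v = 1 := eq_one_of_ne_zero_zmod_two _ h
      have h2 : Cfsg.sympForm n (ZMod 2) v u = 1 := by rw [form_swap, h1]; decide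
      have inv1 : ∀ w : Fin n ⊕ Fin n → ZMod 2, (spT w 1)⁻¹ = spT w 1 := fun w =>
        inv_eq_of_mul_eq_one_right (hsq w)
      have c1 : spT u 1 * spT v 1 * spT u 1 = spT (v + u) 1 := by
        have := conj_spT (spT u 1) v 1
        rwa [inv1, spT_mulVec, h2, one_mul, one_smul] at this
      have c2 : spT v 1 * spT u 1 * spT v 1 = spT (u + v) 1 := by
        have := conj_spT (spT v 1) u 1
        rwa [inv1, spT_mulVec, h1, one_mul, one_smul] at this
      calc (spT u 1 * spT v 1) ^ 3 = (spT u 1 * spT v 1 * spT u 1) * (spT v 1 * spT u 1 * spT v 1) := by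
            simp only [pow_succ, pow_zero, one_mul, mul_assoc]
        _ = 1 := by rw [c1, c2, add_comm v u, hsq]
  · have he : stdE (F := ZMod 2) (⟨0, hn⟩ : Fin n) ≠ 0 := fun e => by
      simpa [stdE] using congrFun e (Sum.inr ⟨0, hn⟩)
    refine ⟨spT (stdE ⟨0, hn⟩) 1, rank_spT_sub_one he, Set.ext fun g => ?_⟩
    rw [Set.mem_setOf_eq, mem_iff_exists, conjugatesOf, Set.mem_setOf_eq, isConj_iff]
    constructor
    · rintro ⟨w, hw, rfl⟩
      obtain ⟨k, hk⟩ := exists_symp_mulVec_eq he hw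
      exact ⟨k, by rw [conj_spT, hk]⟩
    · rintro ⟨k, rfl⟩
      exact ⟨_, mulVec_ne_zero k he, (conj_spT k _ 1).symm⟩
  · rw [eq_top_iff]
    intro g _
    refine symp_induction (P := fun x => x ∈ Subgroup.closure _) (Subgroup.one_mem _) (fun v c => ?_)
      (fun _ _ => Subgroup.mul_mem _) g
    by_cases hc : c = 0
    · rw [hc, spT_zero]; exact Subgroup.one_mem _
    by_cases hv : v = 0
    · rw [hv, spT_zero_left]; exact Subgroup.one_mem _
    rw [eq_one_of_ne_zero_zmod_two c hc]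
    exact Subgroup.subset_closure (rank_spT_sub_one hv)

end Cfsg.Agent.S0440
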