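import Cfsg.Statements.S0442
-- import your own Cfsg.Agent.* helpers here

set_option autoImplicit false
open Cfsg

namespace Cfsg.Agent.S0442

/-- A standard trick for producing elements of an involution centraliser: for an involution a and an element g, let b be the conjugate g⁻¹ * a * g. If a * b has odd order 2m + 1 then g * (a * b) ^ m commutes with a; if a * b has even order 2m then (a * b) ^ m and (a * (g * a * g⁻¹)) ^ m commute with a. -/
theorem result {G : Type*} [Group G] (a g : G) (ha : orderOf a = 2) : (∀ m : ℕ, orderOf (a * (g⁻¹ * a * g)) = 2 * m + 1 → Commute (g * (a * (g⁻¹ * a * g)) ^ m) a) ∧ (∀ m : ℕ, orderOf (a * (g⁻¹ * a * g)) = 2 * m → Commute ((a * (g⁻¹ * a * g)) ^ m) a ∧ Commute ((a * (g * a * g⁻¹)) ^ m) a) := by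
  have sa : a * a = 1 := by have := pow_orderOf_eq_one a; rwa [ha, pow_two] at this
  have a' : a⁻¹ = a := inv_eq_of_mul_eq_one_right sa
  set b := g⁻¹ * a * g with hb
  have b' : b⁻¹ = b := by rw [hb, mul_inv_rev, mul_inv_rev, inv_inv, a', mul_assoc]
  have flip : ∀ (y : G), a * y * a = y⁻¹ → ∀ m : ℕ, a * y ^ m = (y ^ m)⁻¹ * a := by
    intro y hy m
    have : a * y ^ m * a⁻¹ = (y ^ m)⁻¹ := by
      rw [← conj_pow, a', hy, inv_pow]
    rw [← this, inv_mul_cancel_right]
  have hinv : a * (a * b) * a = (a * b)⁻¹ := by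
    rw [← mul_assoc, sa, one_mul, mul_inv_rev, b', a']
  refine ⟨fun m hm => ?_, fun m hm => ?_⟩
  · set x := a * b with hx
    have h1 : x ^ (m + 1) = (x ^ m)⁻¹ := by
      refine eq_inv_of_mul_eq_one_left ?_
      rw [← pow_add, show m + 1 + m = 2 * m + 1 by omega, ← hm, pow_orderOf_eq_one]
    have h2 : b = a * x := by rw [hx, ← mul_assoc, sa, one_mul]
    have h3 : x ^ m * a = a * (x ^ m)⁻¹ := by
      have := flip x hinv m
      calc x ^ m * a = x ^ m * (a * x ^ m) * (x ^ m)⁻¹ := by
            rw [mul_assoc, mul_assoc a, mul_inv_cancel, mul_one]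
        _ = a * (x ^ m)⁻¹ := by rw [this, mul_inv_cancel_left]
    show g * x ^ m * a = a * (g * x ^ m)
    calc g * x ^ m * a = g * (a * x ^ (m + 1)) := by rw [mul_assoc, h3, h1]
      _ = g * (b * x ^ m) := by rw [pow_succ', ← mul_assoc a x, ← h2]
      _ = a * (g * x ^ m) := by rw [hb]; simp only [mul_assoc, mul_inv_cancel_left]
  · have key : ∀ y : G, a * y * a = y⁻¹ → y ^ (2 * m) = 1 → Commute (y ^ m) a := by
      intro y hy hy2
      have h1 : (y ^ m)⁻¹ = y ^ m := by
        refine inv_eq_of_mul_eq_one_right ?_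
        rw [← pow_add, ← two_mul, hy2]
      show y ^ m * a = a * y ^ m
      rw [flip y hy, h1]
    refine ⟨key _ hinv (by rw [← hm, pow_orderOf_eq_one]), key _ ?_ ?_⟩
    · rw [← mul_assoc, sa, one_mul, mul_inv_rev, mul_inv_rev, mul_inv_rev, inv_inv, a']
      simp only [mul_assoc]
    · have hyx : a * (g * a * g⁻¹) = g * (a * b)⁻¹ * g⁻¹ := by
        rw [mul_inv_rev, b', a', hb]
        simp only [mul_assoc, mul_inv_cancel_left]
      rw [hyx, conj_pow, inv_pow, ← hm, pow_orderOf_eq_one, inv_one, mul_one, mul_inv_cancel]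

end Cfsg.Agent.S0442
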