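import Cfsg.Statements.S0458
import Cfsg.Agent.JankoThree.InSU
import Cfsg.Agent.JankoThree.Perm6156
-- import your own Cfsg.Agent.* helpers here

set_option autoImplicit false
open Cfsg

namespace Cfsg.Agent.S0458

/-- Janko's third group exists as a transitive permutation group of degree 6156 with point stabiliser of order 8160: a simple group of order 50232960. -/
theorem result : ∃ H : Subgroup (Equiv.Perm (Fin 6156)), Cfsg.IsJ3 H ∧ MulAction.IsPretransitive H (Fin 6156) ∧ Nat.card (MulAction.stabilizer H (0 : Fin 6156)) = 8160 := by
  letI : Fintype (GaloisField 2 2) := Fintype.ofFinite _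
  have hF : Fintype.card (GaloisField 2 2) = 4 := by
    rw [← Nat.card_eq_fintype_card, GaloisField.card 2 2 (by norm_num)]; norm_num
  obtain ⟨ω, hω⟩ := CfsgLib.JankoThree.exists_omega (GaloisField 2 2) hF
  exact CfsgLib.JankoThree.permutation_realization hF hω

end Cfsg.Agent.S0458
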