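import Cfsg.Statements.S0460
import Cfsg.Agent.Eq.Def_Sporadic
import Cfsg.Agent.CosetEnum.ON.SubON

set_option autoImplicit false
open Cfsg

namespace Cfsg.Agent.S0460

/-- The O'Nan group exists as a transitive permutation group of degree 122760: simple of order 460815505920, point stabiliser of order 3753792, and containing simple subgroups of orders 175560 and 7920. -/
theorem result : ∃ H : Subgroup (Equiv.Perm (Fin 122760)), Cfsg.IsON H ∧ MulAction.IsPretransitive H (Fin 122760) ∧ Nat.card (MulAction.stabilizer H (0 : Fin 122760)) = 3753792 ∧ (∃ K : Subgroup H, Cfsg.IsJ1 K) ∧ (∃ K : Subgroup H, Cfsg.IsM11 K) := by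
  exact ⟨CfsgLib.CosetEnum.ON.pi.range, CfsgLib.CosetEnum.ON.isON_range,
    CfsgLib.CosetEnum.ON.transitive_range, CfsgLib.CosetEnum.ON.card_stab_range,
    CfsgLib.CosetEnum.ON.exists_janko, CfsgLib.CosetEnum.ON.exists_mathieu⟩

end Cfsg.Agent.S0460
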