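import Cfsg.Statements.S0461
import Cfsg.Agent.J4Main61.Main

set_option autoImplicit false
open Cfsg

namespace Cfsg.Agent.S0461

/-- Janko's fourth group exists as a group of 112 × 112 matrices over the field with two elements: GL(112, 2) has a simple subgroup of order 86775571046077562880. -/
theorem result : ∃ H : Subgroup (GL (Fin 112) (ZMod 2)), Cfsg.IsJ4 H := by
  have h := CfsgLib.J4Main61.glHom_injective CfsgLib.J4Main61.faithful
  refine ⟨CfsgLib.J4Main61.glHom.range, ?_⟩
  obtain ⟨hs, hc⟩ := CfsgLib.J4Main61.isJ4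
  have e := MonoidHom.ofInjective h
  haveI := hs
  haveI := e.symm.toEquiv.nontrivial
  exact ⟨IsSimpleGroup.isSimpleGroup_of_surjective e.toMonoidHom e.surjective,
    (Nat.card_congr e.toEquiv).symm.trans hc⟩

end Cfsg.Agent.S0461
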