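import Cfsg.Statements.S0477
import Cfsg.Agent.LyThree47.Node
import Cfsg.Agent.Ly95.Final

set_option autoImplicit false
open Cfsg

namespace Cfsg.Agent.S0477

/-- In some simple group of the Lyons group's order there is an element of order 3 whose centraliser has centre of order 3 with quotient by the centre simple of order 898128000 (a triple cover of a group of McLaughlin's order). -/
theorem result : ∃ (G : Type) (_ : Group G) (_ : Finite G), Cfsg.IsLy G ∧ ∃ x : G, orderOf x = 3 ∧ Nat.card (Subgroup.center (Subgroup.centralizer ({x} : Set G))) = 3 ∧ Cfsg.IsMcL ((Subgroup.centralizer ({x} : Set G)) ⧸ Subgroup.center (Subgroup.centralizer ({x} : Set G))) := by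
  exact CfsgLib.LyThree47.exists_three CfsgLib.Ly95.ly_main.2 CfsgLib.Ly95.ly_main.1

end Cfsg.Agent.S0477
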