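import Cfsg.Statements.S0481
import Cfsg.Agent.TwoGroups.Central

set_option autoImplicit false
open Cfsg

namespace Cfsg.Agent.S0481

/-- Large extraspecial subgroups: let z be an involution of a finite group G whose centraliser C contains a normal 2-subgroup Q with centre of order 2 and all squares central, such that every element of G centralising Q lies in Q. Then C contains a Sylow 2-subgroup of G, and any involution of G whose centraliser contains a Sylow 2-subgroup of G is conjugate to z. -/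
theorem result {G : Type*} [Group G] [Finite G] (z : G) (hz : orderOf z = 2) (Q : Subgroup G) (hQC : Q ≤ Subgroup.centralizer ({z} : Set G)) (hQn : ∀ g ∈ Subgroup.centralizer ({z} : Set G), ∀ q ∈ Q, g * q * g⁻¹ ∈ Q) (hQ2 : IsPGroup 2 Q) (hZ : Nat.card (Subgroup.center Q) = 2) (hsq : ∀ x : Q, x ^ 2 ∈ Subgroup.center Q) (hlarge : Subgroup.centralizer (Q : Set G) ≤ Q) : (∃ P : Sylow 2 G, (P : Subgroup G) ≤ Subgroup.centralizer ({z} : Set G)) ∧ ∀ u : G, orderOf u = 2 → (∃ P : Sylow 2 G, (P : Subgroup G) ≤ Subgroup.centralizer ({u} : Set G)) → IsConj z u := by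
  have hcen : ∀ q ∈ Q, Commute q z := fun q hq =>
    Subgroup.mem_centralizer_singleton_iff.mp (hQC hq)
  have hz1 : z ≠ 1 := fun h => by simp [h] at hz
  have mem : ∀ s : G, (∀ q ∈ Q, Commute q s) →
      ∃ hs : s ∈ Q, (⟨s, hs⟩ : Q) ∈ Subgroup.center Q := fun s h =>
    ⟨hlarge (Subgroup.mem_centralizer_iff.mpr fun q hq => (h q hq).eq),
      Subgroup.mem_center_iff.mpr fun q => Subtype.ext (h q q.2).eq⟩
  obtain ⟨hzQ, hzc⟩ := mem z hcen
  have key : ∀ t : G, orderOf t = 2 → (∀ q ∈ Q, Commute q t) → t = z := by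
    intro t ht htc
    obtain ⟨htQ, htz⟩ := mem t htc
    obtain ⟨u, -, huniq⟩ := (Nat.card_eq_two_iff' (1 : Subgroup.center Q)).mp hZ
    have hzne : (⟨_, hzc⟩ : Subgroup.center Q) ≠ 1 := fun e =>
      hz1 (congrArg (fun v : Subgroup.center Q => ((v : Q) : G)) e)
    have hne : (⟨_, htz⟩ : Subgroup.center Q) ≠ 1 := fun e => by
      have e' : t = 1 := congrArg (fun v : Subgroup.center Q => ((v : Q) : G)) e
      simp [e'] at ht
    exact congrArg (fun v : Subgroup.center Q => ((v : Q) : G)) ((huniq _ hne).trans (huniq _ hzne).symm)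
  have h2 : 2 ∣ Nat.card G := hz ▸ orderOf_dvd_natCard z
  obtain ⟨P0, hP0⟩ := hQ2.exists_le_sylow
  obtain ⟨t0, ht0, -, ht0c⟩ := CfsgLib.TwoGroups.exists_involution_commute h2 P0
  have ht0z : t0 = z := key t0 ht0 fun q hq => ht0c q (hP0 hq)
  subst ht0z
  refine ⟨⟨P0, fun s hs => Subgroup.mem_centralizer_singleton_iff.mpr (ht0c s hs)⟩, ?_⟩
  rintro u hu ⟨P, hP⟩
  obtain ⟨g, hg⟩ := MulAction.exists_smul_eq G P P0
  refine isConj_iff.mpr ⟨g⁻¹, ?_⟩
  have hu' : g * u * g⁻¹ = t0 := by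
    refine key _ (by rw [← hu]; exact (SemiconjBy.conj_mk g u).orderOf_eq.symm) ?_
    intro q hq
    have hsm : g⁻¹ * q * g ∈ (P : Subgroup G) := by
      have h' : q ∈ ((g • P : Sylow 2 G) : Subgroup G) := by rw [hg]; exact hP0 hq
      rw [Sylow.coe_subgroup_smul, Subgroup.mem_pointwise_smul_iff_inv_smul_mem] at h'
      simpa [MulAut.smul_def] using h'
    have h : Commute (g⁻¹ * q * g) u := Subgroup.mem_centralizer_singleton_iff.mp (hP hsm)
    calc q * (g * u * g⁻¹) = g * ((g⁻¹ * q * g) * u) * g⁻¹ := by group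
      _ = g * (u * (g⁻¹ * q * g)) * g⁻¹ := by rw [h.eq]
      _ = g * u * g⁻¹ * q := by group
  rw [← hu']; group

end Cfsg.Agent.S0481
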