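import Cfsg.Statements.S0499
import Cfsg.Agent.Eq.Def_Transfer
import Cfsg.Agent.Transfer.SmallRank

set_option autoImplicit false
open Cfsg

namespace Cfsg.Agent.S0499

/-- A non-abelian finite simple group of even order has order divisible by 12, 16 or 56. -/
theorem result {G : Type*} [Group G] [Finite G] [IsSimpleGroup G]
    (hG : ¬ IsMulCommutative G) (h2 : Even (Nat.card G)) :
    12 ∣ Nat.card G ∨ 16 ∣ Nat.card G ∨ 56 ∣ Nat.card G := by
  haveI : Fact (Nat.Prime 2) := ⟨Nat.prime_two⟩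
  by_contra hcon
  push Not at hcon
  obtain ⟨h12, h16, h56⟩ := hcon
  have hnpc : Cfsg.HasNormalPComplement 2 G := by
    refine CfsgLib.Transfer.hasNormalPComplement_of_pLocal_centralizes fun Q hQ g hg hgc => ?_
    refine CfsgLib.Transfer.mem_of_primePow_parts _ _ g rfl fun b hb q k hq hbk => ?_
    have hbN := Subgroup.zpowers_le.mpr hg hb
    rcases Nat.eq_zero_or_pos k with rfl | hk
    · rw [pow_zero, orderOf_eq_one_iff] at hbk
      rw [hbk]; exact one_mem _
    have hqG : q ∣ Nat.card G :=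
      ((dvd_pow_self q hk.ne').trans (dvd_of_eq hbk.symm)).trans (orderOf_dvd_natCard b)
    have hq2 : q ≠ 2 := by
      rintro rfl
      have h := Nat.Coprime.coprime_dvd_left
        (((dvd_pow_self 2 hk.ne').trans (dvd_of_eq hbk.symm)).trans (orderOf_dvd_of_mem_zpowers hb)) hgc
      simp at h
    haveI := Fact.mk hq
    obtain ⟨d, hd⟩ := IsPGroup.iff_card.mp hQ
    have hQG : 2 ^ d ∣ Nat.card G := hd ▸ Subgroup.card_subgroup_dvd_card Q
    have hd3 : d ≤ 3 := by
      by_contra h
      exact h16 ((Nat.pow_dvd_pow 2 (show 4 ≤ d by omega)).trans hQG)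
    refine CfsgLib.Transfer.mem_centralizer_of_frattini_index hQ hbN hq2 (dvd_of_eq hbk)
      ((Subgroup.index_dvd_card _).trans (dvd_of_eq hd)) fun i hi1 hi2 hdv => ?_
    have h3 : q = 3 → 4 ∣ 2 ^ d → False := fun e h4 =>
      h12 (Nat.Coprime.mul_dvd_of_dvd_of_dvd (by norm_num : Nat.Coprime 4 3) (h4.trans hQG) (e ▸ hqG))
    have hi : i ≤ 3 := hi2.trans hd3
    interval_cases i
    · exact hq.not_dvd_one (by simpa using hdv)
    · exact h3 ((Nat.prime_dvd_prime_iff_eq hq Nat.prime_three).mp (by simpa using hdv))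
        (Nat.pow_dvd_pow 2 hi2)
    · exact h56 (Nat.Coprime.mul_dvd_of_dvd_of_dvd (by norm_num : Nat.Coprime 8 7)
        ((Nat.pow_dvd_pow 2 hi2).trans hQG)
        (((Nat.prime_dvd_prime_iff_eq hq (by norm_num : Nat.Prime 7)).mp (by simpa using hdv)) ▸ hqG))
  obtain ⟨N, hN, hc, k, hk⟩ := CfsgLib.Transfer.hasNormalPComplement_iff_exists.mp hnpc
  rcases hN.eq_bot_or_eq_top with h | h
  · -- then `G` is a simple 2-group
    have hp : IsPGroup 2 G := IsPGroup.of_card (n := k) (by rw [← hk, h, Subgroup.index_bot])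
    haveI := hp.isNilpotent
    haveI : Group.IsSolvable G := inferInstance
    exact hG ⟨⟨IsSimpleGroup.comm_iff_isSolvable.mpr ‹Group.IsSolvable G›⟩⟩
  · rw [h, Subgroup.card_top] at hc
    exact CfsgLib.Transfer.not_dvd_of_coprime hc (even_iff_two_dvd.mp h2)

end Cfsg.Agent.S0499
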