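import Cfsg.Statements.S0493
import Cfsg.Agent.S0499
import Cfsg.Agent.SmallSimple.Basic
import Cfsg.Agent.Chars.Apps.Burnside

set_option autoImplicit false
open Cfsg

namespace Cfsg.Agent.S0493

theorem small_cases : ∀ n < 101, n < 2 ∨ n = 60 ∨ n = 84 ∨
    (n % 2 = 0 ∧ n % 12 ≠ 0 ∧ n % 16 ≠ 0 ∧ n % 56 ≠ 0) ∨
    ∃ p ∈ List.range 98, ∃ q ∈ List.range 98, p.Prime ∧ q.Prime ∧
      ∀ r < 101, r ∣ n → r.Prime → r = p ∨ r = q := by
  intro n hn
  by_cases h : n = 60 ∨ n = 84 ∨ n < 2 ∨ (n % 2 = 0 ∧ n % 12 ≠ 0 ∧ n % 16 ≠ 0 ∧ n % 56 ≠ 0)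
  · tauto
  refine Or.inr (Or.inr (Or.inr (Or.inr ?_)))
  have key : ∀ n < 101, ¬ (n = 60 ∨ n = 84 ∨ n < 2 ∨ (n % 2 = 0 ∧ n % 12 ≠ 0 ∧ n % 16 ≠ 0 ∧ n % 56 ≠ 0)) →
      n.primeFactors.card ≤ 2 := by decide +kernel
  have hc := key n hn h
  push Not at h
  have hp := Nat.minFac_prime (show n ≠ 1 by omega)
  have hmem : n.minFac ∈ n.primeFactors :=
    Nat.mem_primeFactors.mpr ⟨hp, Nat.minFac_dvd n, by omega⟩
  have hlt : ∀ r, r.Prime → r ∣ n → r < 98 := fun r hr hd => by
    by_contra hr'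
    have h1 := Nat.le_of_dvd (by omega) hd
    have h2 : r ≤ 100 := by omega
    have h3 : 98 ≤ r := by omega
    interval_cases r <;> norm_num at hr
  by_cases hall : ∀ r ∈ n.primeFactors, r = n.minFac
  · exact ⟨n.minFac, List.mem_range.mpr (hlt _ hp (Nat.minFac_dvd n)), n.minFac,
      List.mem_range.mpr (hlt _ hp (Nat.minFac_dvd n)), hp, hp, fun r _ hd hr =>
        Or.inl (hall r (Nat.mem_primeFactors.mpr ⟨hr, hd, by omega⟩))⟩
  · push Not at hall
    obtain ⟨q, hq, hqne⟩ := hall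
    obtain ⟨hqp, hqd, -⟩ := Nat.mem_primeFactors.mp hq
    refine ⟨n.minFac, List.mem_range.mpr (hlt _ hp (Nat.minFac_dvd n)), q,
      List.mem_range.mpr (hlt _ hqp hqd), hp, hqp, fun r _ hd hr => ?_⟩
    by_contra hne
    push Not at hne
    have h3 := Finset.card_le_card (show {n.minFac, q, r} ⊆ n.primeFactors by
      intro a ha
      simp only [Finset.mem_insert, Finset.mem_singleton] at ha
      rcases ha with rfl | rfl | rfl
      exacts [hmem, hq, Nat.mem_primeFactors.mpr ⟨hr, hd, by omega⟩])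
    rw [Finset.card_eq_three.mpr ⟨_, _, _, hqne.symm, hne.1.symm, hne.2.symm, rfl⟩] at h3
    omega

/-- A finite simple group of order at most 100 that is not cyclic has order 60. -/
theorem result {G : Type*} [Group G] [Finite G] [IsSimpleGroup G]
    (hG : ¬ IsCyclic G) (h : Nat.card G ≤ 100) : Nat.card G = 60 := by
  have hnc : ¬ IsMulCommutative G := by
    intro hc
    letI : CommGroup G := { (inferInstance : Group G) with mul_comm := hc.is_comm.comm }
    have hp : (Nat.card G).Prime := IsSimpleGroup.prime_card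
    haveI := Fact.mk hp
    exact hG (isCyclic_of_prime_card rfl)
  have h1 : 1 < Nat.card G := by
    have : Nontrivial G := IsSimpleGroup.toNontrivial
    exact Finite.one_lt_card
  rcases small_cases _ (show Nat.card G < 101 by omega) with h2 | h2 | h2 | ⟨he, h12, h16, h56⟩ |
      ⟨p, -, q, -, hp, hq, hpq⟩
  · omega
  · exact h2
  · exfalso
    have : Fact (Nat.Prime 7) := ⟨by norm_num⟩
    obtain ⟨hd, hm, -⟩ := CfsgLib.SmallSimple.card_sylow_constraints (G := G) 7 12 (k := 1)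
      (by rw [h2]; norm_num) (by norm_num)
    have hne := CfsgLib.SmallSimple.card_sylow_ne_one hnc 7 (by rw [h2]; norm_num)
    have := Nat.le_of_dvd (by norm_num) hd
    interval_cases hk : Nat.card (Sylow 7 G) <;> omega
  · exfalso
    rcases Cfsg.Agent.S0499.result hnc (Nat.even_iff.mpr he) with hd | hd | hd <;> omega
  · exfalso
    have := CfsgLib.Chars.Apps.isSolvable_of_primeFactors_subset G hp hq fun r hr hd =>
      hpq r (by have := Nat.le_of_dvd (by omega) hd; omega) hd hr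
    exact hnc ⟨⟨fun a b => (IsSimpleGroup.comm_iff_isSolvable.mpr this) a b⟩⟩

end Cfsg.Agent.S0493
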