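import Cfsg.Statements.S0501
import Cfsg.Agent.Eq.Def_CaseTheorems
import Cfsg.Agent.FourGen42.Bound

set_option autoImplicit false
open Cfsg

namespace Cfsg.Agent.S0501

/-- A finite 2-group in which every normal elementary abelian subgroup has order at most 4 has sectional rank at most
4: every quotient of every subgroup has no elementary abelian subgroup of order exceeding 16. -/
theorem result {P : Type*} [Group P] [Finite P] (hP : IsPGroup 2 P)
    (h : ∀ A : Subgroup P, A.Normal → IsMulCommutative A → (∀ a ∈ A, a ^ 2 = 1) → Nat.card A ≤ 4) :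
    Cfsg.SectionalPRankLE 2 4 P := by
  intro H N hN B hBc hB
  set T : Subgroup H := B.comap (QuotientGroup.mk' N)
  have hsq : ∀ t ∈ T, t ^ 2 ∈ N := by
    intro t ht
    rw [← QuotientGroup.eq_one_iff (N := N), QuotientGroup.mk_pow]
    exact hB _ ht
  have hNT : N ≤ T := by
    intro n hn
    show (n : H ⧸ N) ∈ B
    rw [(QuotientGroup.eq_one_iff n).mpr hn]
    exact one_mem B
  have hle := CfsgLib.FourGen42.relIndex_le_sixteen hP h (H := T.map H.subtype)
    (J := N.map H.subtype) (Subgroup.map_mono hNT) (by
      rintro _ ⟨t, ht, rfl⟩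
      exact ⟨t ^ 2, hsq t ht, map_pow _ _ _⟩)
  rw [Subgroup.relIndex_map_map_of_injective _ _ H.subtype_injective] at hle
  have hcard : Nat.card B = N.relIndex T := by
    have e := Subgroup.relIndex_ker (QuotientGroup.mk' N) (K := T)
    rw [QuotientGroup.ker_mk', Subgroup.map_comap_eq_self_of_surjective
      (QuotientGroup.mk'_surjective N)] at e
    exact e.symm
  rw [hcard]
  exact le_trans hle (by norm_num)

end Cfsg.Agent.S0501
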