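import Cfsg.Statements.S0505
import Cfsg.Agent.Eq.Def_CaseTheorems
import Cfsg.Agent.Involutions.SolvableCore
import Cfsg.Agent.GlaubermanZJ.AxB

set_option autoImplicit false
open Cfsg

namespace Cfsg.Agent.S0505

/-- Let G be a finite group of even order in which the centralizer of every involution is solvable and has trivial
core (no nontrivial normal subgroup of odd order). Then G is of characteristic 2 type. -/
theorem result {G : Type*} [Group G] [Finite G]
    (h2 : Even (Nat.card G))
    (hs : ∀ t : G, orderOf t = 2 → Group.IsSolvable (Subgroup.centralizer ({t} : Set G)))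
    (hc : ∀ t : G, orderOf t = 2 → Cfsg.oddCore (Subgroup.centralizer ({t} : Set G)) = ⊥) :
    Cfsg.IsCharacteristicTwoType G := by
  refine ⟨h2, fun T hT hTne => ?_⟩
  have : Fact (Nat.Prime 2) := ⟨Nat.prime_two⟩
  have hnT : Nontrivial T := (Subgroup.nontrivial_iff_ne_bot T).2 hTne
  have := hT.center_nontrivial
  obtain ⟨z, hz⟩ := exists_prime_orderOf_dvd_card' (G := Subgroup.center T) 2 (by
    obtain ⟨k, hk⟩ := IsPGroup.iff_card.1 (hT.to_subgroup (Subgroup.center T))
    rw [hk]
    refine dvd_pow_self 2 fun h => ?_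
    have := Finite.one_lt_card (α := Subgroup.center T)
    simp [hk, h] at this)
  set t : G := ((z : T) : G) with htdef
  have ht : orderOf t = 2 := by rw [htdef, Subgroup.orderOf_coe, Subgroup.orderOf_coe, hz]
  have htT : ∀ a ∈ T, a * t = t * a := fun a ha =>
    congrArg Subtype.val (Subgroup.mem_center_iff.1 z.2 ⟨a, ha⟩)
  set C : Subgroup G := Subgroup.centralizer ({t} : Set G) with hC
  have : Group.IsSolvable C := hs t ht
  have hTC : T ≤ C := fun a ha => Subgroup.mem_centralizer_singleton_iff.2 (htT a ha)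
  have hCchar := CfsgLib.SolvableCore.centralizer_pCore_le (G := C) (p := 2) (hc t ht)
  have hCTp : IsPGroup 2 (T.subgroupOf C) := hT.comap_of_injective _ C.subtype_injective
  have hL := CfsgLib.GlaubermanZJ.charP_centralizer hCchar hCTp
  set L : Subgroup C := Subgroup.centralizer ((T.subgroupOf C : Subgroup C) : Set C) with hLdef
  set NT : Subgroup G := Subgroup.normalizer (T : Set G) with hNT
  refine CfsgLib.LocalP.centralizer_pCore_le (G := NT) fun x hx hcop => ?_
  have hTpc : T.subgroupOf NT ≤ Cfsg.pCore 2 NT :=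
    CfsgLib.LocalP.le_pCore Subgroup.normal_in_normalizer (hT.comap_of_injective _ NT.subtype_injective)
  have hxT : ∀ a ∈ T, (x : G) * a = a * x := fun a ha =>
    (congrArg Subtype.val (Subgroup.mem_centralizer_iff.1 hx
      (⟨a, Subgroup.le_normalizer ha⟩ : NT) (hTpc ha))).symm
  have hxC : (x : G) ∈ C := Subgroup.mem_centralizer_singleton_iff.2 (hxT t (z : T).2)
  have hxL : (⟨x, hxC⟩ : C) ∈ L := Subgroup.mem_centralizer_iff.2 fun a ha =>
    Subtype.ext (hxT a ha).symm
  -- `O₂(C_G(T))` lies in `O₂(N_G(T))`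
  set R : Subgroup G := ((Cfsg.pCore 2 L).map L.subtype).map C.subtype with hR
  have hLmap : L.map C.subtype = Subgroup.centralizer (T : Set G) := by
    ext y
    constructor
    · rintro ⟨w, hw, rfl⟩
      exact Subgroup.mem_centralizer_iff.2 fun a ha => congrArg Subtype.val
        (Subgroup.mem_centralizer_iff.1 hw ⟨a, hTC ha⟩ ha)
    · intro hy
      have hyC : y ∈ C := Subgroup.mem_centralizer_singleton_iff.2
        (Subgroup.mem_centralizer_iff.1 hy t (z : T).2).symm
      exact ⟨⟨y, hyC⟩, Subgroup.mem_centralizer_iff.2 fun a ha =>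
        Subtype.ext (Subgroup.mem_centralizer_iff.1 hy a ha), rfl⟩
  have hRNT : ∀ r ∈ Cfsg.pCore 2 L, (((r : C)) : G) ∈ NT := fun r _ =>
    Subgroup.centralizer_le_normalizer _ (hLmap ▸ Subgroup.mem_map_of_mem _ r.2)
  have hRpc : R.subgroupOf NT ≤ Cfsg.pCore 2 NT := by
    refine CfsgLib.LocalP.le_pCore ⟨fun y hy g => ?_⟩
      (((CfsgLib.LocalP.isPGroup_pCore (G := L) (p := 2)).map _).map _ |>.comap_of_injective _
        NT.subtype_injective)
    obtain ⟨_, ⟨r, hr, rfl⟩, hry⟩ := (Subgroup.mem_subgroupOf.1 hy : (y : G) ∈ R)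
    have hgc : ∀ w ∈ Subgroup.centralizer (T : Set G),
        (g : G) * w * (g : G)⁻¹ ∈ Subgroup.centralizer (T : Set G) := by
      intro w hw
      refine Subgroup.mem_centralizer_iff.2 fun a ha => ?_
      have ha' : (g : G)⁻¹ * a * g ∈ T := (Subgroup.mem_normalizer_iff''.1 g.2 a).1 ha
      have h1 : ((g : G)⁻¹ * a * g) * w = w * ((g : G)⁻¹ * a * g) :=
        Subgroup.mem_centralizer_iff.1 hw _ ha'
      calc a * ((g : G) * w * (g : G)⁻¹) = g * (((g : G)⁻¹ * a * g) * w) * (g : G)⁻¹ := by group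
        _ = _ := by rw [h1]; group
    -- conjugation by `g` induces an automorphism of `L`
    have hgc' : ∀ w : L, ∃ v : L, ((v : C) : G) = g * ((w : C) : G) * (g : G)⁻¹ := by
      intro w
      have h1 := hgc _ (hLmap ▸ Subgroup.mem_map_of_mem C.subtype w.2)
      rw [← hLmap] at h1
      obtain ⟨v, hv, hve⟩ := h1
      exact ⟨⟨v, hv⟩, hve⟩
    choose φ hφ using hgc'
    let φhom : L →* L := MonoidHom.mk' φ fun a b => by
      apply Subtype.ext; apply Subtype.ext
      rw [hφ, Subgroup.coe_mul, Subgroup.coe_mul, Subgroup.coe_mul, Subgroup.coe_mul, hφ, hφ]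
      group
    have hinj : Function.Injective φhom := by
      intro a b hab
      have h2 := congrArg (fun v : L => ((v : C) : G)) hab
      simp only [φhom, MonoidHom.mk'_apply, hφ] at h2
      exact Subtype.ext (Subtype.ext (mul_left_cancel (mul_right_cancel h2)))
    have hsurj : Function.Surjective φhom := Finite.surjective_of_injective hinj
    have hmem : φhom r ∈ Cfsg.pCore 2 L :=
      CfsgLib.LocalP.le_pCore ((Cfsg.pCore_normal 2 L).map φhom hsurj)
        ((CfsgLib.LocalP.isPGroup_pCore (G := L) (p := 2)).map φhom) (Subgroup.mem_map_of_mem _ hr)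
    refine Subgroup.mem_subgroupOf.2 ⟨_, ⟨_, hmem, rfl⟩, ?_⟩
    simp only [φhom, MonoidHom.mk'_apply, Subgroup.coe_subtype, hφ, Subgroup.coe_mul,
      InvMemClass.coe_inv]
    rw [← hry]; rfl
  have hone : (⟨⟨x, hxC⟩, hxL⟩ : L) = 1 := by
    refine CfsgLib.LocalP.eq_one_of_centralizes_pCore hL ?_ fun r hr => ?_
    · rwa [← Subgroup.orderOf_coe, ← Subgroup.orderOf_coe, Subgroup.orderOf_coe x]
    · apply Subtype.ext; apply Subtype.ext
      exact (congrArg Subtype.val (Subgroup.mem_centralizer_iff.1 hx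
        (⟨_, hRNT r hr⟩ : NT) (hRpc (show (((r : C)) : G) ∈ R from ⟨_, ⟨r, hr, rfl⟩, rfl⟩)))).symm
  exact Subtype.ext (congrArg (fun v : L => ((v : C) : G)) hone)

end Cfsg.Agent.S0505
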