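import Cfsg.Statements.S0520
import Cfsg.Agent.S0502
import Cfsg.Agent.Eq.Def_CaseTheorems
import Mathlib.GroupTheory.Sylow
import Mathlib.GroupTheory.Nilpotent

set_option autoImplicit false
open Cfsg

namespace Cfsg.Agent.S0520

open scoped Pointwise

section Aux

variable {X Y : Type*} [Group X] [Group Y]

theorem klein_of_equiv {U : Subgroup X} {V : Subgroup Y} (e : U ≃* V) (h : IsKleinFour U) :
    IsKleinFour V :=
  ⟨by rw [← Nat.card_congr e.toEquiv]; exact h.card_four,
   by rw [← Monoid.exponent_eq_of_mulEquiv e]; exact h.exponent_two⟩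

theorem exists_four {Q : Subgroup X} [Finite X] (h : ¬ Cfsg.PRankLE 2 1 Q) :
    ∃ V : Subgroup X, IsKleinFour V ∧ V ≤ Q := by
  simp only [Cfsg.PRankLE] at h
  push Not at h
  obtain ⟨A, hAc, hA2, hA⟩ := h
  haveI := hAc
  have hne : (Subgroup.map Q.subtype A) ≠ ⊥ := by
    intro e
    have := Subgroup.card_map_of_injective (K := A) Q.subtype_injective
    rw [e, Subgroup.card_bot] at this
    omega
  obtain ⟨x, hx, hx1⟩ := Subgroup.bot_or_exists_ne_one (Subgroup.map Q.subtype A) |>.resolve_left hne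
  obtain ⟨a, ha, rfl⟩ := hx
  have ha1 : a ≠ 1 := fun e => hx1 (by simp [e])
  obtain ⟨b, hb, hb1⟩ : ∃ b ∈ A, b ∉ Subgroup.zpowers a := by
    by_contra hcon
    push Not at hcon
    have h1 := Subgroup.card_le_of_le (show A ≤ Subgroup.zpowers a from hcon)
    rw [Nat.card_zpowers, orderOf_eq_prime (p := 2) (hA2 a ha) ha1] at h1
    omega
  have hb1' : b ≠ 1 := fun e => hb1 (e ▸ one_mem _)
  have hab : a ≠ b := fun e => hb1 (e ▸ Subgroup.mem_zpowers a)
  have hcomm : Commute a b :=
    congrArg Subtype.val (mul_comm' (⟨a, ha⟩ : A) ⟨b, hb⟩)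
  refine ⟨(Subgroup.closure {a, b}).map Q.subtype, klein_of_equiv
    (Subgroup.equivMapOfInjective _ _ Q.subtype_injective)
    (Cfsg.Agent.S0502.klein (hA2 a ha) (hA2 b hb) hcomm ha1 hb1' hab), ?_⟩
  exact Subgroup.map_subtype_le _

theorem not_prankLE_of_four {Q V : Subgroup X} (hV : IsKleinFour V) (hVQ : V ≤ Q) :
    ¬ Cfsg.PRankLE 2 1 Q := by
  intro h
  haveI := hV
  have h1 := h (V.subgroupOf Q) ⟨⟨fun a b => Subtype.ext (Subtype.ext (by
      have h2 : (⟨_, Subgroup.mem_subgroupOf.1 a.2⟩ : V) * ⟨_, Subgroup.mem_subgroupOf.1 b.2⟩ =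
          ⟨_, Subgroup.mem_subgroupOf.1 b.2⟩ * ⟨_, Subgroup.mem_subgroupOf.1 a.2⟩ :=
        mul_comm_of_exponent_two (IsKleinFour.exponent_two) _ _
      simpa using congrArg Subtype.val h2))⟩⟩ (fun a ha => Subtype.ext (by
      have h2 : (⟨(a : X), Subgroup.mem_subgroupOf.1 ha⟩ : V) ^ 2 = 1 := by
        rw [← IsKleinFour.exponent_two (G := V)]; exact Monoid.pow_exponent_eq_one _
      simpa using congrArg Subtype.val h2))
  rw [Nat.card_congr (Subgroup.subgroupOfEquivOfLe hVQ).toEquiv, IsKleinFour.card_four] at h1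
  omega

/-- Connection of two four-subgroups. -/
abbrev Conn (U V : Subgroup X) : Prop :=
  Relation.ReflTransGen
    (fun A B : Subgroup X => IsKleinFour A ∧ IsKleinFour B ∧ ∀ a ∈ A, ∀ b ∈ B, a * b = b * a) U V

theorem Conn.map {f : X →* Y} (hf : Function.Injective f) {U V : Subgroup X} (h : Conn U V) :
    Conn (U.map f) (V.map f) := by
  refine Relation.ReflTransGen.lift (Subgroup.map f) ?_ _ _ h
  rintro A B ⟨hA, hB, hc⟩
  refine ⟨klein_of_equiv (A.equivMapOfInjective f hf) hA,
    klein_of_equiv (B.equivMapOfInjective f hf) hB, ?_⟩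
  rintro _ ⟨a, ha, rfl⟩ _ ⟨b, hb, rfl⟩
  rw [← map_mul, ← map_mul, hc a ha b hb]

theorem Conn.symm {U V : Subgroup X} (h : Conn U V) : Conn V U := by
  induction h with
  | refl => exact .refl
  | tail _ h2 ih => exact .head ⟨h2.2.1, h2.1, fun a ha b hb => (h2.2.2 b hb a ha).symm⟩ ih

theorem conn_of_le {S : Subgroup X} (hS : Cfsg.IsFourConnected S) {U V : Subgroup X}
    (hU : IsKleinFour U) (hV : IsKleinFour V) (hUS : U ≤ S) (hVS : V ≤ S) : Conn U V := by
  have h := Conn.map S.subtype_injective (hS (U.subgroupOf S) (V.subgroupOf S)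
    (klein_of_equiv (Subgroup.subgroupOfEquivOfLe hUS).symm hU)
    (klein_of_equiv (Subgroup.subgroupOfEquivOfLe hVS).symm hV))
  rwa [Subgroup.map_subgroupOf_eq_of_le hUS, Subgroup.map_subgroupOf_eq_of_le hVS] at h

end Aux


/-- Let G be a finite group of 2-rank at least 2 and S a Sylow 2-subgroup whose commuting graph of Klein four-subgroups is
connected. Then the commuting graph of Klein four-subgroups of G is disconnected if and only if the 2-generated core — the
subgroup generated by the normalizers N_G(Q) of the subgroups Q of S that contain a Klein four-group — is a proper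
subgroup of G. -/
theorem result {G : Type*} [Group G] [Finite G] (h2 : ¬ Cfsg.PRankLE 2 1 G)
    (S : Sylow 2 G) (hS : Cfsg.IsFourConnected (S : Subgroup G)) :
    ¬ Cfsg.IsFourConnected G ↔
      (⨆ Q : {Q : Subgroup G // Q ≤ (S : Subgroup G) ∧ ¬ Cfsg.PRankLE 2 1 Q},
          Subgroup.normalizer ((Q : Subgroup G) : Set G)) ≠ ⊤ := by
  set M := ⨆ Q : {Q : Subgroup G // Q ≤ (S : Subgroup G) ∧ ¬ Cfsg.PRankLE 2 1 Q},
    Subgroup.normalizer ((Q : Subgroup G) : Set G) with hM
  have hNM : ∀ Q : Subgroup G, Q ≤ (S : Subgroup G) → (∃ V : Subgroup G, IsKleinFour V ∧ V ≤ Q) →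
      Subgroup.normalizer (Q : Set G) ≤ M := fun Q hQ ⟨V, hV, hVQ⟩ =>
    le_iSup (fun Q : {Q : Subgroup G // Q ≤ (S : Subgroup G) ∧ ¬ Cfsg.PRankLE 2 1 Q} =>
      Subgroup.normalizer ((Q : Subgroup G) : Set G)) ⟨Q, hQ, not_prankLE_of_four hV hVQ⟩
  -- a four-subgroup of `G` inside `S`
  obtain ⟨U₀, hU₀, hU₀S⟩ : ∃ U : Subgroup G, IsKleinFour ↥U ∧ U ≤ (S : Subgroup G) := by
    obtain ⟨V, hV, -⟩ := exists_four (Q := (⊤ : Subgroup G)) (fun h => h2 fun A hA hA2 => by
      haveI := hA
      have := h (A.comap (⊤ : Subgroup G).subtype) ⟨⟨fun a b => Subtype.ext (Subtype.ext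
        (by
          have e : ((a : (⊤ : Subgroup G)) : G) * ((b : (⊤ : Subgroup G)) : G) = (b : (⊤ : Subgroup G)) * ((a : (⊤ : Subgroup G)) : G) :=
            congrArg Subtype.val (mul_comm' (⟨_, a.2⟩ : A) ⟨_, b.2⟩)
          exact e))⟩⟩
        (fun a ha => Subtype.ext (by simpa using hA2 _ ha))
      rwa [← Nat.card_congr (Subgroup.subgroupOfEquivOfLe (le_top : A ≤ ⊤)).toEquiv])
    obtain ⟨T, hT⟩ := (IsPGroup.of_card (n := 2) (by rw [hV.card_four]; norm_num) :
      IsPGroup 2 V).exists_le_sylow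
    obtain ⟨g, hg⟩ := MulAction.exists_smul_eq G T S
    refine ⟨MulAut.conj g • V, klein_of_equiv (Subgroup.equivSMul (MulAut.conj g) V) hV, ?_⟩
    rw [← hg, Sylow.coe_subgroup_smul]
    exact Subgroup.pointwise_smul_le_pointwise_smul_iff.2 hT
  have hconj : ∀ (g : G) (V : Subgroup G), IsKleinFour V →
      IsKleinFour ↥(MulAut.conj g • V) := fun g V hV =>
    klein_of_equiv (Subgroup.equivSMul (MulAut.conj g) V) hV
  -- Sylow subgroups with a common four-subgroup
  have claim : ∀ (n : ℕ) (g : G) (V : Subgroup G), IsKleinFour V → V ≤ (S : Subgroup G) →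
      V ≤ MulAut.conj g • (S : Subgroup G) →
      Nat.card (S : Subgroup G) ≤
        Nat.card ((S : Subgroup G) ⊓ MulAut.conj g • (S : Subgroup G) : Subgroup G) + n → g ∈ M := by
    intro n
    induction n using Nat.strong_induction_on with
    | _ n ih =>
    intro g V hV hVS hVg hn
    set S' : Subgroup G := MulAut.conj g • (S : Subgroup G) with hS'
    set D := (S : Subgroup G) ⊓ S' with hD
    have hND : Subgroup.normalizer (D : Set G) ≤ M :=
      hNM D inf_le_left ⟨V, hV, le_inf hVS hVg⟩
    have hcS' : Nat.card S' = Nat.card (S : Subgroup G) :=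
      (Nat.card_congr (Subgroup.equivSMul (MulAut.conj g) (S : Subgroup G)).toEquiv).symm
    by_cases hDS : D = (S : Subgroup G)
    · have hSS' : S' = (S : Subgroup G) :=
        (Subgroup.eq_of_le_of_card_ge (hDS ▸ inf_le_right) hcS'.le).symm
      refine hNM _ le_rfl ⟨V, hV, hVS⟩ ?_
      exact Sylow.smul_eq_iff_mem_normalizer.1 (Sylow.ext (P := g • S) (Q := S) hSS')
    have grow : ∀ R : Subgroup G, IsPGroup 2 R → D < R →
        D < R ⊓ Subgroup.normalizer (D : Set G) := by
      intro R hR hlt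
      haveI : Group.IsNilpotent ↥R := hR.isNilpotent
      have hlt' : D.subgroupOf R < ⊤ :=
        lt_top_iff_ne_top.2 fun e => hlt.not_ge (Subgroup.subgroupOf_eq_top.1 e)
      obtain ⟨x, hx, hxD⟩ := SetLike.exists_of_lt
        (Group.normalizerCondition_of_isNilpotent (G := ↥R) _ hlt')
      refine lt_of_le_of_ne (le_inf hlt.le Subgroup.le_normalizer) fun e => hxD ?_
      have h1 : x ∈ Subgroup.normalizer ((D.subgroupOf R) : Set ↥R) := hx
      have h3 := Subgroup.le_normalizer_map R.subtype ⟨x, h1, rfl⟩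
      rw [Subgroup.map_subgroupOf_eq_of_le hlt.le] at h3
      have : (x : G) ∈ R ⊓ Subgroup.normalizer (D : Set G) := ⟨x.2, h3⟩
      rwa [← e] at this
    have hS'p : IsPGroup 2 S' := S.2.map _
    have hltS : D < (S : Subgroup G) := lt_of_le_of_ne inf_le_left hDS
    have hltS' : D < S' := by
      refine lt_of_le_of_ne inf_le_right fun e => hDS ?_
      exact Subgroup.eq_of_le_of_card_ge inf_le_left (by rw [e, hcS'])
    set A := (S : Subgroup G) ⊓ Subgroup.normalizer (D : Set G)
    set B := S' ⊓ Subgroup.normalizer (D : Set G)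
    set N := Subgroup.normalizer (D : Set G)
    obtain ⟨T, hT⟩ := ((S.2.to_le (inf_le_left : A ≤ _)).comap_of_injective N.subtype
      N.subtype_injective).exists_le_sylow (P := A.subgroupOf N)
    obtain ⟨T', hT'⟩ := ((hS'p.to_le (inf_le_left : B ≤ _)).comap_of_injective N.subtype
      N.subtype_injective).exists_le_sylow (P := B.subgroupOf N)
    obtain ⟨x, hx⟩ := MulAction.exists_smul_eq N T' T
    obtain ⟨T₁, hT₁⟩ := (T.2.map N.subtype).exists_le_sylow
    obtain ⟨h, hh⟩ := MulAction.exists_smul_eq G S T₁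
    have hT₁' : (T₁ : Subgroup G) = MulAut.conj h • (S : Subgroup G) := by
      rw [← hh, Sylow.coe_subgroup_smul]
    have hA : A ≤ MulAut.conj h • (S : Subgroup G) := by
      intro a ha
      rw [← hT₁']
      exact hT₁ ⟨⟨a, ha.2⟩, hT ha, rfl⟩
    have hB : MulAut.conj (x : G) • B ≤ MulAut.conj h • (S : Subgroup G) := by
      intro a ha
      rw [Subgroup.mem_pointwise_smul_iff_inv_smul_mem] at ha
      rw [← hT₁']
      have hbN : (MulAut.conj (x : G))⁻¹ • a ∈ N := ha.2
      refine hT₁ ⟨MulAut.conj x ⟨_, hbN⟩, ?_, by simp [mul_assoc]⟩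
      rw [SetLike.mem_coe, ← hx, Sylow.coe_subgroup_smul]
      exact Subgroup.smul_mem_pointwise_smul _ _ _ (hT' ha)
    have hA' : Nat.card D < Nat.card A := lt_of_not_ge fun hle =>
      (grow _ S.2 hltS).ne (Subgroup.eq_of_le_of_card_ge (grow _ S.2 hltS).le hle)
    have hB' : Nat.card D < Nat.card B := lt_of_not_ge fun hle =>
      (grow _ hS'p hltS').ne (Subgroup.eq_of_le_of_card_ge (grow _ hS'p hltS').le hle)
    have hhM : h ∈ M := by
      have hle : Nat.card A ≤ Nat.card ((S : Subgroup G) ⊓ MulAut.conj h • (S : Subgroup G) : Subgroup G) :=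
        Subgroup.card_le_of_le (le_inf (inf_le_left : A ≤ _) hA)
      have hn0 : Nat.card (S : Subgroup G) ≤ Nat.card D + n := hn
      have hDlt : Nat.card D < Nat.card (S : Subgroup G) := lt_of_not_ge fun hle =>
        hDS (Subgroup.eq_of_le_of_card_ge inf_le_left hle)
      refine ih (n - 1) (by omega) h V hV hVS ?_ (by omega)
      exact le_trans (le_inf hVS ((le_inf hVS hVg).trans Subgroup.le_normalizer)) hA
    have hgM : h⁻¹ * (x : G) * g ∈ M := by
      set k := h⁻¹ * (x : G) * g with hk
      have hB2 : MulAut.conj (h⁻¹ * (x : G)) • B ≤ (S : Subgroup G) ⊓ MulAut.conj k • (S : Subgroup G) := by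
        refine le_inf ?_ ?_
        · rw [map_mul, mul_smul, map_inv]
          rw [Subgroup.pointwise_smul_subset_iff, inv_inv]
          exact hB
        · rw [hk, map_mul (MulAut.conj) (h⁻¹ * (x : G)) g, mul_smul]
          exact Subgroup.pointwise_smul_le_pointwise_smul_iff.2 inf_le_left
      have hn0 : Nat.card (S : Subgroup G) ≤ Nat.card D + n := hn
      have hDlt : Nat.card D < Nat.card (S : Subgroup G) := lt_of_not_ge fun hle =>
        hDS (Subgroup.eq_of_le_of_card_ge inf_le_left hle)
      have hle : Nat.card (MulAut.conj (h⁻¹ * (x : G)) • B : Subgroup G) ≤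
          Nat.card ((S : Subgroup G) ⊓ MulAut.conj k • (S : Subgroup G) : Subgroup G) :=
        Subgroup.card_le_of_le hB2
      rw [← Nat.card_congr (Subgroup.equivSMul (MulAut.conj (h⁻¹ * (x : G))) B).toEquiv] at hle
      have hVB : V ≤ B := le_inf hVg ((le_inf hVS hVg).trans Subgroup.le_normalizer)
      have h4 := (Subgroup.pointwise_smul_le_pointwise_smul_iff
        (a := MulAut.conj (h⁻¹ * (x : G)))).2 hVB |>.trans hB2
      exact ih (n - 1) (by omega) k _ (hconj _ V hV) (h4.trans inf_le_left)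
        (h4.trans inf_le_right) (by omega)
    have e : g = (x : G)⁻¹ * (h * (h⁻¹ * (x : G) * g)) := by group
    rw [e]
    exact M.mul_mem (M.inv_mem (hND x.2)) (M.mul_mem hhM hgM)
  have claim' : ∀ (g : G) (V : Subgroup G), IsKleinFour V → V ≤ (S : Subgroup G) →
      V ≤ MulAut.conj g • (S : Subgroup G) → g ∈ M := fun g V hV h1 h3 =>
    claim _ g V hV h1 h3 (Nat.le_add_left _ _)
  constructor
  · intro hdis htop
    refine hdis fun U V hU hV => ?_
    have key : ∀ W : Subgroup G, IsKleinFour W → Conn U₀ W := by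
      intro W hW
      obtain ⟨T, hT⟩ := (IsPGroup.of_card (n := 2) (by rw [hW.card_four]; norm_num) :
        IsPGroup 2 W).exists_le_sylow
      obtain ⟨g, hg⟩ := MulAction.exists_smul_eq G S T
      have hW' : MulAut.conj g⁻¹ • W ≤ (S : Subgroup G) := by
        rw [map_inv, Subgroup.pointwise_smul_subset_iff, inv_inv, ← Sylow.coe_subgroup_smul, hg]
        exact hT
      -- the stabiliser of the component of `U₀`
      let H : Subgroup G :=
        { carrier := {k | Conn U₀ (MulAut.conj k • U₀)}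
          one_mem' := by simpa using Relation.ReflTransGen.refl
          mul_mem' := fun {a b} ha hb => by
            have := Conn.map (f := (MulAut.conj a).toMonoidHom) (MulAut.conj a).injective hb
            refine Relation.ReflTransGen.trans ha ?_
            rw [map_mul, mul_smul]
            exact this
          inv_mem' := fun {a} ha => by
            have := (Conn.map (f := (MulAut.conj a⁻¹).toMonoidHom) (MulAut.conj a⁻¹).injective ha).symm
            change Conn (MulAut.conj a⁻¹ • (MulAut.conj a • U₀)) (MulAut.conj a⁻¹ • U₀) at this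
            rwa [← mul_smul, ← map_mul, inv_mul_cancel, map_one, one_smul] at this }
      have hMH : M ≤ H := iSup_le fun Q k hk => by
        obtain ⟨V', hV', hV'Q⟩ := exists_four Q.2.2
        have h1 : MulAut.conj k • V' ≤ (S : Subgroup G) := by
          refine le_trans ?_ Q.2.1
          refine (Subgroup.pointwise_smul_le_pointwise_smul_iff.2 hV'Q).trans (le_of_eq ?_)
          ext y
          rw [Subgroup.mem_pointwise_smul_iff_inv_smul_mem]
          exact (Subgroup.mem_normalizer_iff''.1 hk y).symm.trans Iff.rfl |>.trans Iff.rfl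
        refine Relation.ReflTransGen.trans (conn_of_le hS hU₀ (hconj k _ hV') hU₀S h1) ?_
        exact (Conn.map (f := (MulAut.conj k).toMonoidHom) (MulAut.conj k).injective
          (conn_of_le hS hU₀ hV' hU₀S (hV'Q.trans Q.2.1))).symm
      have hgH : g ∈ H := hMH (htop ▸ Subgroup.mem_top g)
      have h5 := Conn.map (f := (MulAut.conj g).toMonoidHom) (MulAut.conj g).injective
        (conn_of_le hS hU₀ (hconj g⁻¹ _ hW) hU₀S hW')
      change Conn (MulAut.conj g • U₀) (MulAut.conj g • (MulAut.conj g⁻¹ • W)) at h5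
      rw [← mul_smul, ← map_mul, mul_inv_cancel, map_one, one_smul] at h5
      exact Relation.ReflTransGen.trans hgH h5
    exact Relation.ReflTransGen.trans (key U hU).symm (key V hV)
  · intro hne hcon
    refine hne (eq_top_iff.2 fun g _ => ?_)
    have key : ∀ W : Subgroup G, Conn U₀ W → IsKleinFour W ∧
        ∀ k : G, W ≤ MulAut.conj k • (S : Subgroup G) → k ∈ M := by
      intro W hW
      induction hW with
      | refl => exact ⟨hU₀, fun k hk => claim' k _ hU₀ hU₀S hk⟩
      | @tail A B _ hAB ih =>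
        obtain ⟨hA, hB, hc⟩ := hAB
        refine ⟨hB, fun k hk => ?_⟩
        have hp : ∀ W : Subgroup G, IsKleinFour W → IsPGroup 2 W := fun W hW =>
          IsPGroup.of_card (n := 2) (by rw [hW.card_four]; norm_num)
        have hle : A ≤ Subgroup.normalizer (B : Set G) := fun a ha =>
          Subgroup.centralizer_le_normalizer (B : Set G) (fun b hb => (hc a ha b hb).symm)
        obtain ⟨T, hT⟩ := ((hp A hA).to_sup_of_normal_right' (hp B hB) hle).exists_le_sylow
        obtain ⟨h, hh⟩ := MulAction.exists_smul_eq G S T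
        rw [← hh, Sylow.coe_subgroup_smul] at hT
        have hhM : h ∈ M := ih.2 h (le_sup_left.trans hT)
        have h6 : h⁻¹ * k ∈ M := by
          refine claim' _ _ (hconj h⁻¹ B hB) ?_ ?_
          · rw [map_inv, Subgroup.pointwise_smul_subset_iff, inv_inv]
            exact le_sup_right.trans hT
          · rw [map_mul (MulAut.conj) h⁻¹ k, mul_smul]
            exact Subgroup.pointwise_smul_le_pointwise_smul_iff.2 hk
        have := M.mul_mem hhM h6
        rwa [mul_inv_cancel_left] at this
    exact (key _ (hcon U₀ _ hU₀ (hconj g U₀ hU₀))).2 g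
      (Subgroup.pointwise_smul_le_pointwise_smul_iff.2 hU₀S)

end Cfsg.Agent.S0520
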