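import Cfsg.Statements.S0521
import Cfsg.Agent.Constrained.Basic
import Cfsg.Agent.Constrained.Fitting
import Cfsg.Agent.LocalP.Basic
import Cfsg.Agent.PGroup.Frattini
import Cfsg.Agent.BaerSuzuki.Basic
import Cfsg.Agent.Coprime.Basic
import Cfsg.Agent.SolvableStructure.Transvection
import Mathlib.FieldTheory.Finite.Basic


set_option autoImplicit false
open Cfsg

namespace Cfsg.Agent.S0521

open scoped commutatorElement

theorem core {X : Type*} [Group X] [Finite X] [Group.IsSolvable X] (hX : Odd (Nat.card X)) {p : ℕ} [Fact p.Prime]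
    (hO : Cfsg.pPrimeCore p X = ⊥) (S : Sylow p X) (hS : IsCyclic (commutator (S : Subgroup X))) :
    (S : Subgroup X) ≤ Cfsg.pCore p X := by
  have hp : p.Prime := Fact.out
  by_cases hpd : p ∣ Nat.card X
  swap
  · have : (S : Subgroup X) = ⊥ := by
      rw [← Subgroup.card_eq_one, S.card_eq_multiplicity, Nat.factorization_eq_zero_of_not_dvd hpd, pow_zero]
    rw [this]; exact bot_le
  have hp2 : p ≠ 2 := by
    rintro rfl
    exact (Nat.not_even_iff_odd.2 hX) (even_iff_two_dvd.2 hpd)
  set F := Cfsg.pCore p X with hFdef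
  haveI hFn : F.Normal := Cfsg.pCore_normal p X
  have hFp : IsPGroup p F := CfsgLib.LocalP.isPGroup_pCore
  have hFS : F ≤ (S : Subgroup X) := by
    obtain ⟨Q, hQ⟩ := hFp.exists_le_sylow
    obtain ⟨g, rfl⟩ := MulAction.exists_smul_eq X Q S
    rw [Sylow.coe_subgroup_smul, ← Subgroup.Normal.conj_smul_eq_self g F]
    exact Subgroup.pointwise_smul_le_pointwise_smul_iff.2 hQ
  have hCF : Subgroup.centralizer (F : Set X) ≤ F := by
    rw [hFdef, ← CfsgLib.Constrained.fitting_eq_pCore hO]
    exact CfsgLib.Constrained.centralizer_fitting_le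
  let _ : CommGroup (F ⧸ frattini F) := CfsgLib.Transvection.frattiniCommGroup hFp
  have hz0 : ∀ w : Additive (F ⧸ frattini F), p • w = 0 := fun w =>
    Additive.toMul.injective (CfsgLib.PGroup.frattini_quotient_pow hFp (Additive.toMul w))
  let _ : Module (ZMod p) (Additive (F ⧸ frattini F)) :=
    AddCommGroup.zmodModule (n := p) (G := Additive (F ⧸ frattini F)) hz0
  let ρ : X →* Module.End (ZMod p) (Additive (F ⧸ frattini F)) :=
    { toFun := fun g => AddMonoidHom.toZModLinearMap p (MonoidHom.toAdditive (CfsgLib.Transvection.quotAction F g))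
      map_one' := LinearMap.ext fun w => congrArg Additive.ofMul
        (CfsgLib.Transvection.quotAction_one F (Additive.toMul w))
      map_mul' := fun g h => LinearMap.ext fun w => congrArg Additive.ofMul
        (CfsgLib.Transvection.quotAction_mul F g h (Additive.toMul w)) }
  -- the kernel is a `p`-group
  have hker : ∀ g : X, ρ g = 1 → ∃ k : ℕ, g ^ p ^ k = 1 := by
    intro g hg
    obtain ⟨m, hm0, k, hk⟩ : ∃ m, ¬ p ∣ m ∧ ∃ k, orderOf g = m * p ^ k := by
      exact ⟨orderOf g / p ^ (orderOf g).factorization p, Nat.not_dvd_ordCompl hp (orderOf_pos g).ne',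
        (orderOf g).factorization p, (Nat.div_mul_cancel (Nat.ordProj_dvd (orderOf g) p)).symm⟩
    refine ⟨k, ?_⟩
    set h := g ^ p ^ k with hh
    have hordh : orderOf h ∣ m := orderOf_dvd_of_pow_eq_one (by
      rw [hh, ← pow_mul, mul_comm, ← hk, pow_orderOf_eq_one])
    have hcop : (orderOf h).Coprime p := ((hp.coprime_iff_not_dvd.2 hm0).symm).coprime_dvd_left hordh
    have hρh : ρ h = 1 := by rw [hh, map_pow, hg, one_pow]
    have hcent : F ≤ Subgroup.centralizer (Subgroup.zpowers h : Set X) := by
      refine CfsgLib.Coprime.le_centralizer_of_frattini (by rw [Subgroup.normalizer_eq_top]; exact le_top) ?_ ?_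
      · rw [Nat.card_zpowers]
        obtain ⟨i, hi⟩ := IsPGroup.iff_card.1 hFp
        rw [hi]; exact hcop.pow_right i
      · rw [Subgroup.commutator_le]
        intro f hf z hz
        have hρz : ρ z = 1 := by
          obtain ⟨i, rfl⟩ := Subgroup.mem_zpowers_iff.1 hz
          have : ρ.toHomUnits h = 1 := Units.ext hρh
          have h2 : ρ.toHomUnits (h ^ i) = 1 := by rw [map_zpow, this, one_zpow]
          exact congrArg Units.val h2
        have h3 : QuotientGroup.mk (MulAut.conjNormal z (⟨f, hf⟩ : F)) = (QuotientGroup.mk ⟨f, hf⟩ : F ⧸ frattini F) :=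
          congrArg Additive.toMul (DFunLike.congr_fun hρz
            (Additive.ofMul ((QuotientGroup.mk (⟨f, hf⟩ : F)) : F ⧸ frattini F)))
        have h4 : (⟨f, hf⟩ : F) * (MulAut.conjNormal z (⟨f, hf⟩ : F))⁻¹ ∈ frattini F := by
          rw [← QuotientGroup.eq_one_iff]
          show (QuotientGroup.mk ⟨f, hf⟩ : F ⧸ frattini F) * (QuotientGroup.mk (MulAut.conjNormal z (⟨f, hf⟩ : F)))⁻¹ = 1
          rw [h3, mul_inv_cancel]
        refine ⟨_, h4, ?_⟩
        simp only [map_mul, map_inv, Subgroup.coe_subtype, MulAut.conjNormal_apply, commutatorElement_def]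
        group
    have hh1 : h ∈ F := hCF (Subgroup.mem_centralizer_iff.2 fun f hf =>
      (Subgroup.mem_centralizer_iff.1 (hcent hf) h (Subgroup.mem_zpowers h)).symm)
    obtain ⟨j, hj⟩ := IsPGroup.iff_orderOf.1 hFp ⟨h, hh1⟩
    rw [Subgroup.orderOf_mk] at hj
    rw [hj] at hcop
    rcases j with _ | j
    · rw [pow_zero] at hj
      exact orderOf_eq_one_iff.1 hj
    · rw [Nat.coprime_pow_left_iff j.succ_pos, Nat.coprime_self] at hcop
      exact absurd hcop hp.ne_one
  -- elements of `S` act as transvections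
  obtain ⟨d, hd⟩ : ∃ d : F, ∀ x ∈ (S : Subgroup X), ∀ f : F,
      ∃ c : ℤ, CfsgLib.Transvection.commElt F x f = d ^ c := by
    set D : Subgroup F := ((commutator (S : Subgroup X)).map (S : Subgroup X).subtype).subgroupOf F
    have hDc : IsCyclic D := by
      have h1 : IsCyclic ((commutator (S : Subgroup X)).map (S : Subgroup X).subtype) :=
        isCyclic_of_surjective _ (MonoidHom.subgroupMap_surjective (S : Subgroup X).subtype (commutator (S : Subgroup X)))
      exact isCyclic_of_injective ((F.subtype.subgroupComap _) : D →* _)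
        (by intro a b hab; apply Subtype.ext; apply F.subtype_injective; have h := congrArg Subtype.val hab; exact h)
    obtain ⟨⟨d, hdD⟩, hgen⟩ := IsCyclic.exists_generator (α := D)
    refine ⟨d, fun x hx f => ?_⟩
    have hmem : CfsgLib.Transvection.commElt F x f ∈ D := by
      refine ⟨⁅(⟨x, hx⟩ : (S : Subgroup X)), ⟨(f : X), hFS f.2⟩⁆,
        Subgroup.commutator_mem_commutator (Subgroup.mem_top _) (Subgroup.mem_top _), rfl⟩
    obtain ⟨c, hc⟩ := Subgroup.mem_zpowers_iff.1 (hgen ⟨_, hmem⟩)
    exact ⟨c, by simpa using (congrArg Subtype.val hc).symm⟩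
  intro x hx
  refine CfsgLib.BaerSuzuki.mem_pCore x fun g => ?_
  have hρx : CfsgLib.Transvection.RankOne ρ x := by
    set v : Additive (F ⧸ frattini F) := Additive.ofMul (QuotientGroup.mk d) with hv
    have hval : ∀ f : F, ∃ c : ℤ, (ρ x - 1) (Additive.ofMul (QuotientGroup.mk f)) = c • v := by
      intro f
      obtain ⟨c, hc⟩ := hd x hx f
      refine ⟨c, Additive.toMul.injective ?_⟩
      show QuotientGroup.mk (MulAut.conjNormal x f) / QuotientGroup.mk f = (QuotientGroup.mk d : F ⧸ frattini F) ^ c
      rw [← QuotientGroup.mk_zpow, ← hc, ← QuotientGroup.mk_div]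
      congr 1
      apply Subtype.ext
      simp only [CfsgLib.Transvection.commElt, Subgroup.coe_mul, Subgroup.coe_inv, div_eq_mul_inv, MulAut.conjNormal_apply,
        commutatorElement_def]
    have hw : ∀ w, ∃ c : ZMod p, (ρ x - 1) w = c • v := by
      intro w
      obtain ⟨f, hf⟩ := QuotientGroup.mk_surjective (Additive.toMul w)
      obtain ⟨c, hc⟩ := hval f
      refine ⟨(c : ZMod p), ?_⟩
      rw [Int.cast_smul_eq_zsmul, ← hc, hf]
      rfl
    refine ⟨v, ?_, hw⟩
    obtain ⟨c, hc⟩ := hw v
    by_cases hv0 : v = 0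
    · rw [hv0, map_zero]
    have hxv : ρ x v = (1 + c) • v := by
      rw [add_smul, one_smul, ← hc]; simp
    have hit : ∀ i : ℕ, ρ (x ^ i) v = ((1 + c) ^ i) • v := by
      intro i
      induction i with
      | zero => simp
      | succ i hi => rw [pow_succ', map_mul, Module.End.mul_apply, hi, map_smul, hxv, smul_smul, ← pow_succ]
    obtain ⟨k, hk⟩ := S.2 ⟨x, hx⟩
    have h1 : x ^ p ^ k = 1 := congrArg Subtype.val hk
    have h2 := hit (p ^ k)
    rw [h1, map_one, Module.End.one_apply, ZMod.pow_card_pow] at h2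
    have h3 : c • v = 0 := by
      rw [add_smul, one_smul] at h2
      exact left_eq_add.1 h2
    rw [hc, h3]
  have hρy := CfsgLib.Transvection.rank_one_conj (ρ := ρ) g hρx
  intro z
  have hsub := CfsgLib.Transvection.pow_p_eq_one hX hp2 (ρ := ρ) hρx hρy z.2
  obtain ⟨k, hk⟩ := hker ((z : X) ^ p) (by rw [map_pow]; exact hsub)
  exact ⟨k + 1, Subtype.ext (by
    rw [SubmonoidClass.coe_pow, pow_succ', pow_mul]; exact hk)⟩


/-- Let X be a finite solvable group of odd order, p a prime and S a Sylow p-subgroup of X whose commutator subgroup is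
cyclic. Then the product of the largest normal subgroup of X of order prime to p with S is a normal subgroup of X. -/
theorem result {X : Type*} [Group X] [Finite X] [Group.IsSolvable X]
    (hX : Odd (Nat.card X)) (p : ℕ) [Fact p.Prime] (S : Sylow p X) (hS : IsCyclic (commutator (S : Subgroup X))) :
    (Cfsg.pPrimeCore p X ⊔ (S : Subgroup X)).Normal := by
  have hp : p.Prime := Fact.out
  set O := Cfsg.pPrimeCore p X with hO
  haveI : O.Normal := Cfsg.pPrimeCore_normal p X
  have hsurj := QuotientGroup.mk'_surjective O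
  set T := S.mapSurjective hsurj with hT
  have hTc : IsCyclic (commutator (T : Subgroup (X ⧸ O))) := by
    have hf := (QuotientGroup.mk' O).subgroupMap_surjective (S : Subgroup X)
    have he : commutator ((S : Subgroup X).map (QuotientGroup.mk' O)) =
        (commutator (S : Subgroup X)).map ((QuotientGroup.mk' O).subgroupMap (S : Subgroup X)) := by
      rw [commutator_def, commutator_def, Subgroup.map_commutator, Subgroup.map_top_of_surjective _ hf]
    have hc : IsCyclic (commutator ((S : Subgroup X).map (QuotientGroup.mk' O))) := by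
      rw [he]
      exact isCyclic_of_surjective _ (MonoidHom.subgroupMap_surjective _ _)
    exact hc
  have hodd : Odd (Nat.card (X ⧸ O)) := Odd.of_dvd_nat hX (Subgroup.card_quotient_dvd_card O)
  have hkey := core hodd CfsgLib.Constrained.pPrimeCore_quotient_pPrimeCore T hTc
  have hTn : (T : Subgroup (X ⧸ O)).Normal := by
    have he : (T : Subgroup (X ⧸ O)) = Cfsg.pCore p (X ⧸ O) :=
      (T.3 CfsgLib.LocalP.isPGroup_pCore hkey).symm
    rw [he]; exact Cfsg.pCore_normal p _
  have := hTn.comap (QuotientGroup.mk' O)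
  rwa [hT, Sylow.coe_mapSurjective, Subgroup.comap_map_eq, QuotientGroup.ker_mk', sup_comm] at this

end Cfsg.Agent.S0521
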