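import Cfsg.Statements.S1480
import Cfsg.Agent.Eq.Def_Local
import Cfsg.Agent.Eq.Def_OddOrderLocal
import Cfsg.Agent.Eq.Def_CaseTheorems
import Cfsg.Agent.Signalizer.Bender
import Cfsg.Agent.Signalizer.Transitivity
import Cfsg.Agent.Constrained.PiCore

set_option autoImplicit false
open Cfsg

namespace Cfsg.Agent.S1480

open scoped commutatorElement

open CfsgLib.Constrained

/-- Let G be a finite group and p a prime such that the normalizer of every nontrivial p-subgroup of G is p-constrained; if p = 2 assume also that the Sylow 2-subgroups of G have nilpotency class at most 2. Let E be an abelian p-subgroup containing an elementary abelian subgroup of order p ^ 3 and containing every element of p-power order of C_G(E). Then for every prime q ≠ p, any two maximal E-invariant q-subgroups of G are conjugate by an element of O_{p'}(C_G(E)). -/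
theorem result {G : Type*} [Group G] [Finite G] (p : ℕ) [Fact p.Prime]
    (hloc : ∀ T : Subgroup G, IsPGroup p T → T ≠ ⊥ → Cfsg.IsPConstrained p ↥(Subgroup.normalizer (T : Set G)))
    (h2 : p = 2 → ∀ S : Sylow p G, Group.IsNilpotent (S : Subgroup G) ∧ Group.nilpotencyClass (S : Subgroup G) ≤ 2)
    (E : Subgroup G) (hEp : IsPGroup p E) (hEc : IsMulCommutative E) (hE3 : ¬ Cfsg.PRankLE p 2 E)
    (hEfull : ∀ x ∈ Subgroup.centralizer (E : Set G), IsPGroup p (Subgroup.zpowers x) → x ∈ E)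
    (q : ℕ) [Fact q.Prime] (hqp : q ≠ p) :
    ∀ Q₁ ∈ Cfsg.maxInvSubgroups ⊤ E {q}, ∀ Q₂ ∈ Cfsg.maxInvSubgroups ⊤ E {q},
        ∃ k ∈ Cfsg.piCoreOf (Cfsg.primesNotDvd p) (Subgroup.centralizer (E : Set G)), Q₂ = Q₁.map (MulAut.conj k).toMonoidHom := by
  have hp : p.Prime := Fact.out
  have hq : q.Prime := Fact.out
  -- `Z`: an elementary abelian subgroup of order at least `p ^ 3`
  obtain ⟨A₀, hA₀c, hA₀p, hA₀card⟩ : ∃ A : Subgroup E, IsMulCommutative A ∧ (∀ a ∈ A, a ^ p = 1) ∧
      p ^ 2 < Nat.card A := by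
    simp only [PRankLE, not_forall, not_le] at hE3
    obtain ⟨A, h1, h2', h3⟩ := hE3
    exact ⟨A, h1, h2', h3⟩
  obtain ⟨n, hn⟩ := IsPGroup.iff_card.mp (hEp.to_subgroup A₀)
  have hA₀3 : p ^ 3 ≤ Nat.card A₀ := by
    rw [hn] at hA₀card ⊢
    exact Nat.pow_le_pow_right hp.pos ((Nat.pow_lt_pow_iff_right hp.one_lt).mp hA₀card)
  set Z := A₀.map E.subtype with hZdef
  have hZE : Z ≤ E := Subgroup.map_subtype_le _
  have hEcomm : ∀ x ∈ E, ∀ y ∈ E, x * y = y * x := fun x hx y hy =>
    congrArg Subtype.val (hEc.1.comm ⟨x, hx⟩ ⟨y, hy⟩)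
  have hEZ : E ≤ Subgroup.centralizer (Z : Set G) := fun x hx =>
    Subgroup.mem_centralizer_iff.mpr fun z hz => hEcomm z (hZE hz) x hx
  have hZp : ∀ a ∈ Z, a ^ p = 1 := by
    rintro _ ⟨a, ha, rfl⟩
    rw [← map_pow, hA₀p a ha, map_one]
  have hZ3 : p ^ 3 ≤ Nat.card Z := by
    rw [hZdef, CfsgLib.Constrained.card_map_of_injective _ E.subtype_injective]
    exact hA₀3
  -- class two transferred to commutators
  have hcl : p = 2 → ∀ S : Sylow p G, ∀ a ∈ (S : Subgroup G), ∀ b ∈ (S : Subgroup G),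
      ∀ c ∈ (S : Subgroup G), Commute ⁅a, b⁆ c := by
    intro hp2 S a ha b hb c hc
    obtain ⟨hnil, hcls⟩ := h2 hp2 S
    have := hnil
    have hb2 := Subgroup.lowerCentralSeries_eq_bot_of_nilpotencyClass_le (S := (S : Subgroup G)) hcls
    have hmem : ⁅⁅a, b⁆, c⁆ ∈ (S : Subgroup G).lowerCentralSeries 2 :=
      Subgroup.commutator_mem_commutator (Subgroup.commutator_mem_commutator ha hb) hc
    rw [hb2, Subgroup.mem_bot, commutatorElement_eq_one_iff_mul_comm] at hmem
    exact hmem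
  -- the family and the signalizers
  have hcopq : ∀ {Q : Subgroup G}, IsPGroup q Q → ¬ p ∣ Nat.card Q := fun {Q} hQ hd => by
    obtain ⟨m, hm⟩ := IsPGroup.iff_card.mp hQ
    rw [hm] at hd
    exact hqp ((Nat.prime_dvd_prime_iff_eq hp hq).mp (hp.dvd_of_dvd_pow hd)).symm
  have hθA : ∀ a ∈ Z, a ≠ 1 → E ≤ Subgroup.centralizer ({a} : Set G) := fun a ha _ =>
    hEZ.trans (Subgroup.centralizer_le (Set.singleton_subset_iff.mpr ha))
  have hθcopr : ∀ a : G, (Nat.card (centralizerPPrimeCore p a)).Coprime p := fun a => by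
    rw [centralizerPPrimeCore, CfsgLib.Constrained.card_map_of_injective _ (Subgroup.subtype_injective _)]
    exact (hp.coprime_iff_not_dvd.mpr pPrimeCore_not_dvd).symm
  have hθnorm : ∀ a : G, ∀ x ∈ Subgroup.centralizer ({a} : Set G),
      x ∈ Subgroup.normalizer (centralizerPPrimeCore p a : Set G) := fun a x hx => by
    refine Subgroup.le_normalizer_map _ ⟨⟨x, hx⟩, ?_, rfl⟩
    rw [Subgroup.normalizer_eq_top]
    exact Subgroup.mem_top _
  have hθfix : ∀ a ∈ Z, a ≠ 1 → centralizerPPrimeCore p a ⊓ Subgroup.centralizer (E : Set G) ≤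
      piCoreOf (primesNotDvd p) (Subgroup.centralizer (E : Set G)) := by
    intro a ha ha1
    have hCE : Subgroup.centralizer (E : Set G) ≤ Subgroup.centralizer ({a} : Set G) :=
      Subgroup.centralizer_le (Set.singleton_subset_iff.mpr (hZE ha))
    set C := Subgroup.centralizer (E : Set G)
    intro x hx
    refine ⟨⟨x, hx.2⟩, le_piCore (N := (centralizerPPrimeCore p a).subgroupOf C) ?_ ?_
      (show x ∈ centralizerPPrimeCore p a from hx.1), rfl⟩
    · refine ⟨fun y hy g => ?_⟩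
      exact (Subgroup.mem_normalizer_iff.mp (hθnorm a g (hCE g.2)) _).mp hy
    · intro r hr hd
      refine ⟨hr, fun hrp => ?_⟩
      rw [(Nat.prime_dvd_prime_iff_eq hr hp).mp hrp] at hd
      exact (hp.coprime_iff_not_dvd.mp (hθcopr a).symm) (hd.trans
        (Subgroup.card_comap_dvd_of_injective _ _ C.subtype_injective))
  have hFθ : ∀ Q : Subgroup G, IsPGroup q Q → E ≤ Subgroup.normalizer (Q : Set G) → ∀ a ∈ Z, a ≠ 1 →
      Q ⊓ Subgroup.centralizer {a} ≤ centralizerPPrimeCore p a := by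
    intro Q hQ hEQ a ha ha1
    have hTp : IsPGroup p (Subgroup.zpowers a) := hEp.to_le (Subgroup.zpowers_le_of_mem (hZE ha))
    have hC := hloc _ hTp (by simpa [Subgroup.zpowers_eq_bot] using ha1)
    set N := Subgroup.normalizer (Subgroup.zpowers a : Set G) with hN
    have hCN : Subgroup.centralizer ({a} : Set G) ≤ N := by
      intro x hx
      refine Subgroup.centralizer_le_normalizer _ (Subgroup.mem_centralizer_iff.mpr fun y hy => ?_)
      obtain ⟨i, rfl⟩ := Subgroup.mem_zpowers_iff.mp hy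
      exact ((show Commute a x from Subgroup.mem_centralizer_iff.mp hx a rfl).zpow_left i).eq
    have hEN : E ≤ N := (hθA a ha ha1).trans hCN
    have hEQC : E ≤ Subgroup.normalizer ((Q ⊓ Subgroup.centralizer {a} : Subgroup G) : Set G) :=
      CfsgLib.Coprime.le_normalizer_inf' hEQ ((hθA a ha ha1).trans Subgroup.le_normalizer)
    have hle := CfsgLib.Signalizer.le_pPrimeCore_of_full (p := p) hC (E := E.subgroupOf N)
      (Q := (Q ⊓ Subgroup.centralizer {a}).subgroupOf N)
      (hEp.comap_of_injective N.subtype N.subtype_injective)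
      (fun x hx hxp => hEfull x
        (Subgroup.mem_centralizer_iff.mpr fun e he =>
          congrArg Subtype.val (Subgroup.mem_centralizer_iff.mp hx ⟨e, hEN he⟩ he))
        (by
          have h := hxp.map N.subtype
          rwa [MonoidHom.map_zpowers] at h))
      (fun hp2 T b hb c hc d hd => by
        obtain ⟨S, hS⟩ := (T.isPGroup'.map N.subtype).exists_le_sylow
        have h := (hcl hp2 S b (hS ⟨b, hb, rfl⟩) c (hS ⟨c, hc, rfl⟩) d (hS ⟨d, hd, rfl⟩)).eq
        exact Subtype.ext h)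
      (fun hd => hcopq (hQ.to_le inf_le_left)
        (hd.trans (Subgroup.card_comap_dvd_of_injective _ _ N.subtype_injective)))
      (fun e he => Subgroup.mem_normalizer_iff.mpr fun g =>
        Subgroup.mem_normalizer_iff.mp (hEQC he) (g : G))
    -- `O_{p'}(N(⟨a⟩))` is a normal `p'`-subgroup of `C(a)`
    have hON : (pPrimeCore p N).map N.subtype ≤ Subgroup.centralizer ({a} : Set G) :=
      (map_pPrimeCore_normalizer_le_centralizer hTp).trans (Subgroup.centralizer_le
        (Set.singleton_subset_iff.mpr (Subgroup.mem_zpowers a)))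
    intro x hx
    have hxO : x ∈ (pPrimeCore p N).map N.subtype :=
      ⟨⟨x, hCN hx.2⟩, hle (show (⟨x, hCN hx.2⟩ : N) ∈ (Q ⊓ Subgroup.centralizer {a}).subgroupOf N
        from hx), rfl⟩
    set C := Subgroup.centralizer ({a} : Set G)
    refine ⟨⟨x, hx.2⟩, le_pPrimeCore (N := ((pPrimeCore p N).map N.subtype).subgroupOf C) ?_ ?_ hxO,
      rfl⟩
    · refine ⟨?_⟩
      rintro y ⟨z, hz, hzy⟩ g
      refine ⟨⟨g, hCN g.2⟩ * z * ⟨g, hCN g.2⟩⁻¹, Subgroup.Normal.conj_mem inferInstance z hz _, ?_⟩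
      simp only [map_mul, map_inv, hzy]
      rfl
    · refine Nat.Coprime.coprime_dvd_left
        (Subgroup.card_comap_dvd_of_injective _ _ C.subtype_injective) ?_
      rw [CfsgLib.Constrained.card_map_of_injective _ N.subtype_injective]
      exact (hp.coprime_iff_not_dvd.mpr pPrimeCore_not_dvd).symm
  -- maximal invariant subgroups
  rintro Q₁ ⟨hQ₁, hm₁⟩ Q₂ ⟨hQ₂, hm₂⟩
  have hmem : ∀ {Q : Subgroup G}, Q ∈ invSubgroups ⊤ E {q} ↔
      IsPGroup q Q ∧ E ≤ Subgroup.normalizer (Q : Set G) := by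
    intro Q
    refine ⟨fun h => ⟨?_, h.2.2⟩, fun h => ⟨le_top, fun r hr hd => ?_, h.2⟩⟩
    · refine IsPGroup.iff_card.mpr ⟨(Nat.card Q).primeFactorsList.length, ?_⟩
      exact Nat.eq_prime_pow_of_unique_prime_dvd Nat.card_pos.ne' fun {r} hr hd => h.2.1 r hr hd
    · obtain ⟨m, hm⟩ := IsPGroup.iff_card.mp h.1
      rw [hm] at hd
      exact (Nat.prime_dvd_prime_iff_eq hr hq).mp (hr.dvd_of_dvd_pow hd)
  have hKC : piCoreOf (primesNotDvd p) (Subgroup.centralizer (E : Set G)) ≤
      Subgroup.centralizer (E : Set G) := Subgroup.map_subtype_le _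
  refine CfsgLib.Signalizer.transitivity (p := p) (q := q) hqp hZE hEZ hZp hZ3
    (invSubgroups ⊤ E {q}) (fun Q hQ => (hmem.mp hQ).1) (fun Q hQ => (hmem.mp hQ).2)
    (fun Q hQ R hR hER => hmem.mpr ⟨(hmem.mp hQ).1.to_le hR, hER⟩)
    (fun Q hQ k hk => hmem.mpr ⟨(hmem.mp hQ).1.map _, fun e he => ?_⟩)
    (fun a => centralizerPPrimeCore p a)
    (fun a ha ha1 e he => hθnorm a e (hθA a ha ha1 he))
    (fun a ha ha1 => ?_) (Or.inl (CfsgLib.Coprime.isSolvable_of_isMulCommutative hEc)) hθfix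
    (fun Q hQ => hFθ Q (hmem.mp hQ).1 (hmem.mp hQ).2)
    (fun D hD a ha ha1 S _ hSD hES hS => hmem.mpr ⟨?_, ?_⟩) hQ₁ hQ₂ hm₁ hm₂
  · have hcm : e * k = k * e := Subgroup.mem_centralizer_iff.mp (hKC hk) e he
    have hkek : k⁻¹ * e * k = e := by rw [mul_assoc, hcm, inv_mul_cancel_left]
    refine Subgroup.le_normalizer_map _ ⟨e, (hmem.mp hQ).2 he, ?_⟩
    show k * e * k⁻¹ = e
    rw [← hcm, mul_inv_cancel_right]
  · obtain ⟨m, hm⟩ := IsPGroup.iff_card.mp hEp
    rw [hm]
    exact Nat.Coprime.pow_left m (hθcopr a).symm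
  · exact sup_comm D S ▸ hS.to_sup_of_normal_right' (hmem.mp hD).1 hSD
  · exact CfsgLib.Signalizer.le_normalizer_sup (hmem.mp hD).2 hES

end Cfsg.Agent.S1480
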