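import Cfsg.Statements.S0522
import Cfsg.Agent.S1480
import Cfsg.Agent.Constrained.SelfCentralNormal

set_option autoImplicit false
open Cfsg

namespace Cfsg.Agent.S0522

/-- Transitivity Theorem (odd-order setting). Let X be a finite group of odd order in which the normalizer of every
nontrivial p-subgroup is solvable, P a Sylow p-subgroup, and B an abelian subgroup of P, normalized by P, with
C_P(B) = B and containing an elementary abelian subgroup of order p^3. Then for every prime q ≠ p, any two q-subgroups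
that are maximal among the q-subgroups normalized by B are conjugate by an element of the centralizer of B. -/
theorem result {X : Type*} [Group X] [Finite X] (hX : Odd (Nat.card X)) (p : ℕ)
    [Fact p.Prime] (hloc : ∀ T : Subgroup X, IsPGroup p T → T ≠ ⊥ → Group.IsSolvable (Subgroup.normalizer (T : Set X)))
    (P : Sylow p X) (B : Subgroup X) (hBP : B ≤ (P : Subgroup X))
    (hBn : ∀ x ∈ (P : Subgroup X), ∀ b ∈ B, x * b * x⁻¹ ∈ B) (hBa : IsMulCommutative B)
    (hBc : (P : Subgroup X) ⊓ Subgroup.centralizer (B : Set X) = B)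
    (hB3 : ∃ E : Subgroup X, E ≤ B ∧ (∀ e ∈ E, e ^ p = 1) ∧ p ^ 3 ≤ Nat.card E)
    (q : ℕ) [Fact q.Prime] (hqp : q ≠ p) (Q₁ Q₂ : Subgroup X)
    (h₁ : IsPGroup q Q₁ ∧ B ≤ Subgroup.normalizer (Q₁ : Set X) ∧
      ∀ R : Subgroup X, IsPGroup q R → B ≤ Subgroup.normalizer (R : Set X) → Q₁ ≤ R → R = Q₁)
    (h₂ : IsPGroup q Q₂ ∧ B ≤ Subgroup.normalizer (Q₂ : Set X) ∧
      ∀ R : Subgroup X, IsPGroup q R → B ≤ Subgroup.normalizer (R : Set X) → Q₂ ≤ R → R = Q₂) :
    ∃ c ∈ Subgroup.centralizer (B : Set X), Q₂ = Q₁.map (MulAut.conj c).toMonoidHom := by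
  have hpp : p.Prime := Fact.out
  obtain ⟨E, hEB, hEp, hE3⟩ := hB3
  have hp2 : p ≠ 2 := by
    intro h2
    subst h2
    obtain ⟨n, hn⟩ := IsPGroup.iff_card.mp (show IsPGroup 2 E from fun e => ⟨1, Subtype.ext (by simpa using hEp e e.2)⟩)
    refine hX.not_two_dvd_nat (Dvd.dvd.trans ?_ (Subgroup.card_subgroup_dvd_card E))
    rw [hn] at hE3 ⊢
    exact dvd_pow_self 2 fun h0 => by rw [h0] at hE3; norm_num at hE3
  have hBp : IsPGroup p B := P.isPGroup'.to_le hBP
  have hn : (P : Subgroup X) ≤ Subgroup.normalizer (B : Set X) :=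
    CfsgLib.Coprime.le_normalizer_of_conj_mem hBn
  have hrk : ¬ Cfsg.PRankLE p 2 B := by
    intro h
    have h1 := h (E.subgroupOf B) ⟨⟨fun a b => Subtype.ext (hBa.is_comm.comm (a : B) b)⟩⟩
      (fun a ha => Subtype.ext (by simpa using hEp a ha))
    rw [Nat.card_congr (Subgroup.subgroupOfEquivOfLe hEB).toEquiv] at h1
    exact absurd (hE3.trans h1) (not_le.mpr (Nat.pow_lt_pow_right hpp.one_lt (by norm_num)))
  have hmem : ∀ {Q : Subgroup X}, (IsPGroup q Q ∧ B ≤ Subgroup.normalizer (Q : Set X) ∧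
      ∀ R : Subgroup X, IsPGroup q R → B ≤ Subgroup.normalizer (R : Set X) → Q ≤ R → R = Q) →
      Q ∈ Cfsg.maxInvSubgroups ⊤ B {q} := by
    intro Q hQ
    have key : ∀ R : Subgroup X, R ∈ Cfsg.invSubgroups ⊤ B {q} ↔
        IsPGroup q R ∧ B ≤ Subgroup.normalizer (R : Set X) := by
      intro R
      refine ⟨fun h => ⟨?_, h.2.2⟩, fun h => ⟨le_top, fun r hr hd => ?_, h.2⟩⟩
      · refine IsPGroup.iff_card.mpr ⟨(Nat.card R).primeFactorsList.length, ?_⟩
        exact Nat.eq_prime_pow_of_unique_prime_dvd Nat.card_pos.ne' fun {r} hr hd => h.2.1 r hr hd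
      · obtain ⟨m, hm⟩ := IsPGroup.iff_card.mp h.1
        rw [hm] at hd
        exact (Nat.prime_dvd_prime_iff_eq hr Fact.out).mp (hr.dvd_of_dvd_pow hd)
    exact ⟨(key Q).mpr ⟨hQ.1, hQ.2.1⟩, fun R hR hle => hQ.2.2 R ((key R).mp hR).1 ((key R).mp hR).2 hle⟩
  obtain ⟨k, hk, he⟩ := Cfsg.Agent.S1480.result p
    (fun T hT hT1 => by
      haveI := hloc T hT hT1
      exact CfsgLib.Constrained.isPConstrained_of_isSolvable)
    (fun h => absurd h hp2) B hBp hBa hrk
    (fun x hx hxp => CfsgLib.Constrained.mem_of_selfCentral_normal P hn hBc hx hxp)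
    q hqp Q₁ (hmem h₁) Q₂ (hmem h₂)
  exact ⟨k, Subgroup.map_subtype_le _ hk, he⟩

end Cfsg.Agent.S0522
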