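import Cfsg.Statements.S0527
import Cfsg.Agent.SolvableStructure.Supersolvable
import Mathlib.GroupTheory.GroupAction.Quotient
import Mathlib.Tactic.Ring

set_option autoImplicit false
open Cfsg
open scoped commutatorElement

namespace Cfsg.Agent.S0527

theorem index_prime_of_zpowers {Q : Type*} [Group Q] [Finite Q] {z : Q}
    (hn : (Subgroup.zpowers z).Normal) {M : Subgroup Q} (hM : IsCoatom M) (hz : z ∉ M) :
    M.index.Prime := by
  have htop : Subgroup.zpowers z ⊔ M = ⊤ :=
    hM.2 _ (lt_of_le_of_ne le_sup_right fun e => hz (e ▸ Subgroup.mem_sup_left (Subgroup.mem_zpowers z)))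
  set d := Function.minimalPeriod (z • ·) ((1 : Q) : Q ⧸ M) with hd
  have hmem : ∀ k : ℤ, z ^ k ∈ M ↔ (d : ℤ) ∣ k := by
    intro k
    rw [hd, ← MulAction.zpow_smul_eq_iff_minimalPeriod_dvd, MulAction.Quotient.smul_coe,
      QuotientGroup.eq]
    simp
  have horb : MulAction.orbit (Subgroup.zpowers z) ((1 : Q) : Q ⧸ M) = Set.univ := by
    refine Set.eq_univ_of_forall fun c => ?_
    induction c using QuotientGroup.induction_on with
    | _ x =>
      obtain ⟨w, hw, m, hm, rfl⟩ := Subgroup.mem_sup_of_normal_left.1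
        (show x ∈ Subgroup.zpowers z ⊔ M from htop ▸ Subgroup.mem_top x)
      refine ⟨⟨w, hw⟩, ?_⟩
      change w • ((1 : Q) : Q ⧸ M) = _
      rw [MulAction.Quotient.smul_coe, QuotientGroup.eq]
      simpa using hm
  have hidx : M.index = d := by
    rw [hd, ← Nat.card_zmod (Function.minimalPeriod (z • ·) ((1 : Q) : Q ⧸ M))]
    rw [← Nat.card_congr (MulAction.orbitZPowersEquiv z ((1 : Q) : Q ⧸ M))]
    exact (Nat.card_congr ((Equiv.setCongr horb).trans (Equiv.Set.univ _))).symm
  rw [hidx]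
  have hd1 : d ≠ 1 := fun h => hz (by simpa [h] using (hmem 1).2 (by simp [h]))
  by_contra hnp
  obtain ⟨a, had, ha1, had'⟩ :=
    Nat.exists_dvd_of_not_prime2 (by
      have : d ≠ 0 := hidx ▸ Subgroup.index_ne_zero_of_finite
      omega) hnp
  have hna : (Subgroup.zpowers (z ^ (a : ℤ))).Normal := by
    constructor
    intro x hx c
    obtain ⟨k, rfl⟩ := Subgroup.mem_zpowers_iff.1 hx
    obtain ⟨m, hm⟩ := Subgroup.mem_zpowers_iff.1 (hn.conj_mem z (Subgroup.mem_zpowers z) c)
    refine Subgroup.mem_zpowers_iff.2 ⟨m * k, ?_⟩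
    rw [← zpow_mul, ← zpow_mul, ← conj_zpow, ← hm, ← zpow_mul]
    ring_nf
  have haM : z ^ (a : ℤ) ∉ M := by
    rw [hmem]
    intro h
    have := Nat.le_of_dvd (by omega) (Int.natCast_dvd_natCast.1 h)
    omega
  have htop' : Subgroup.zpowers (z ^ (a : ℤ)) ⊔ M = ⊤ :=
    hM.2 _ (lt_of_le_of_ne le_sup_right fun e => haM (e ▸ Subgroup.mem_sup_left (Subgroup.mem_zpowers _)))
  obtain ⟨w, hw, m, hm, hwm⟩ := Subgroup.mem_sup_of_normal_left.1
    (show z ∈ Subgroup.zpowers (z ^ (a : ℤ)) ⊔ M from htop' ▸ Subgroup.mem_top z)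
  obtain ⟨k, rfl⟩ := Subgroup.mem_zpowers_iff.1 hw
  have h1 : z ^ (1 - (a : ℤ) * k) ∈ M := by
    have h2 : z ^ (1 - (a : ℤ) * k) = m := by
      have : m = (z ^ ((a : ℤ) * k))⁻¹ * z := by rw [zpow_mul]; exact eq_inv_mul_of_mul_eq hwm
      rw [this, zpow_sub, zpow_one]
      exact (Commute.self_zpow z _).inv_right.eq
    rwa [h2]
  have h3 : (a : ℤ) ∣ 1 - a * k := (Int.natCast_dvd_natCast.2 had).trans ((hmem _).1 h1)
  have h4 : (a : ℤ) ∣ 1 := by
    have := dvd_add h3 (dvd_mul_right (a : ℤ) k)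
    simpa using this
  have := Int.natCast_dvd_natCast.1 (by exact_mod_cast h4 : ((a : ℕ) : ℤ) ∣ ((1 : ℕ) : ℤ))
  have := Nat.le_of_dvd one_pos this
  omega


/-- In a finite supersolvable group the index of any maximal subgroup is a prime number. -/
theorem result {G : Type*} [Group G] [Finite G] (hG : Cfsg.IsSupersolvable G) (M : Subgroup G) (hM : IsCoatom M) : M.index.Prime := by
  rw [CfsgLib.Supersolvable.isSupersolvable_iff] at hG
  suffices h : ∀ A : Subgroup G, CfsgLib.Supersolvable.CycReach A → A ≤ M ∨ M.index.Prime from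
    (h ⊤ hG).resolve_left fun h' => hM.1 (top_le_iff.1 h')
  intro A hA
  induction hA with
  | bot => exact Or.inl bot_le
  | step A g hA hn ih =>
    rcases ih with hAM | h
    swap
    · exact Or.inr h
    by_cases hgM : g ∈ M
    · exact Or.inl (sup_le hAM (Subgroup.zpowers_le.2 hgM))
    refine Or.inr ?_
    have := hA.normal
    have hsurj := QuotientGroup.mk'_surjective A
    have hker : (QuotientGroup.mk' A).ker ≤ M := by rwa [QuotientGroup.ker_mk']
    have hcm : (M.map (QuotientGroup.mk' A)).comap (QuotientGroup.mk' A) = M :=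
      Subgroup.comap_map_eq_self hker
    rw [← hcm, Subgroup.index_comap_of_surjective _ hsurj]
    refine index_prime_of_zpowers (z := QuotientGroup.mk' A g) ?_ ?_ ?_
    · have h1 : (A ⊔ Subgroup.zpowers g).map (QuotientGroup.mk' A) =
          Subgroup.zpowers (QuotientGroup.mk' A g) := by
        rw [Subgroup.map_sup, QuotientGroup.map_mk'_self, bot_sup_eq, MonoidHom.map_zpowers]
      exact h1 ▸ hn.map _ hsurj
    · refine ⟨fun h => hM.1 (by rw [← hcm, h, Subgroup.comap_top]), fun K hK => ?_⟩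
      have h1 : M < K.comap (QuotientGroup.mk' A) := by
        have := (Subgroup.comap_lt_comap_of_surjective hsurj).2 hK
        rwa [hcm] at this
      have h2 := hM.2 _ h1
      rw [← Subgroup.map_comap_eq_self_of_surjective hsurj K, h2, Subgroup.map_top_of_surjective _ hsurj]
    · intro h
      exact hgM (hcm ▸ (Subgroup.mem_comap.2 h))

end Cfsg.Agent.S0527
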