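import Cfsg.Statements.S0530
import Mathlib.Tactic.Group
import Mathlib.Tactic.Positivity
import Cfsg.Agent.Subnormal.SupersolvableTower
import Mathlib.GroupTheory.PGroup
import Mathlib.GroupTheory.IndexNormal

set_option autoImplicit false
open Cfsg

namespace Cfsg.Agent.S0530

theorem subsingleton_case (G : Type*) [Group G] [Subsingleton G] : Cfsg.IsSupersolvable G :=
  ⟨0, fun _ => ⊥, rfl, Subsingleton.elim _ _, fun _ => inferInstance, fun i => i.elim0⟩

theorem aux (m : ℕ) (G : Type*) [Group G] [Finite G] (hm : Nat.card G ≤ m) (p n : ℕ)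
    (hp : p.Prime) (hG : Nat.card G = 2 * p ^ n) : Cfsg.IsSupersolvable G := by
  induction n generalizing G with
  | zero =>
    have : Fact (Nat.Prime 2) := ⟨Nat.prime_two⟩
    have : IsCyclic G := isCyclic_of_prime_card (p := 2) (by simpa using hG)
    exact CfsgLib.Supersolvable.isSupersolvable_iff.2
      (have : IsCyclic (⊤ : Subgroup G) :=
        isCyclic_of_surjective (Subgroup.topEquiv (G := G)).symm.toMonoidHom
          (Subgroup.topEquiv (G := G)).symm.surjective
      CfsgLib.Supersolvable.cycReach_of_isCyclic ⊤)
  | succ n ih =>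
    have := Fact.mk hp
    obtain ⟨z, hz, hzn⟩ : ∃ z : G, orderOf z = p ∧ (Subgroup.zpowers z).Normal := by
      by_cases h2 : p = 2
      · subst h2
        have hpg : IsPGroup 2 G := IsPGroup.of_card (n := n + 2) (by rw [hG]; ring)
        have : Nontrivial G := Finite.one_lt_card_iff_nontrivial.1 (by
          rw [hG]
          exact lt_of_lt_of_le one_lt_two (Nat.le_mul_of_pos_right 2 (by positivity)))
        have := hpg.center_nontrivial
        obtain ⟨z, hz⟩ := exists_prime_orderOf_dvd_card' (G := Subgroup.center G) 2 (by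
          obtain ⟨k, hk⟩ := IsPGroup.iff_card.1 (hpg.to_subgroup (Subgroup.center G))
          rw [hk]
          refine dvd_pow_self 2 fun h => ?_
          have := Finite.one_lt_card (α := Subgroup.center G)
          simp [hk, h] at this)
        refine ⟨(z : G), by rw [Subgroup.orderOf_coe, hz], ⟨fun x hx g => ?_⟩⟩
        have hxc : x ∈ Subgroup.center G := Subgroup.zpowers_le.2 z.2 hx
        rwa [Subgroup.mem_center_iff.1 hxc g, mul_inv_cancel_right]
      obtain ⟨P⟩ : Nonempty (Sylow p G) := inferInstance
      have hc2 : p.Coprime 2 := (Nat.coprime_primes hp Nat.prime_two).2 h2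
      have hPc : Nat.card (P : Subgroup G) = p ^ (n + 1) := by
        rw [P.card_eq_multiplicity, hG, Nat.factorization_mul (by norm_num) (pow_ne_zero _ hp.ne_zero),
          Finsupp.add_apply, Nat.factorization_pow, Finsupp.smul_apply, hp.factorization,
          Nat.Prime.factorization Nat.prime_two, Finsupp.single_eq_same,
          Finsupp.single_eq_of_ne h2]
        simp
      have hidx : (P : Subgroup G).index = 2 := by
        have h := (P : Subgroup G).card_mul_index
        rw [hPc, hG, mul_comm 2] at h
        exact Nat.eq_of_mul_eq_mul_left (pow_pos hp.pos _) h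
      have hPn : (P : Subgroup G).Normal := Subgroup.normal_of_index_eq_two hidx
      have : Nontrivial (P : Subgroup G) := Finite.one_lt_card_iff_nontrivial.1 (by
        rw [hPc]; exact Nat.one_lt_pow n.succ_ne_zero hp.one_lt)
      have := P.2.center_nontrivial
      obtain ⟨y, hy⟩ := exists_prime_orderOf_dvd_card' (G := Subgroup.center (P : Subgroup G)) p (by
        obtain ⟨k, hk⟩ := IsPGroup.iff_card.1 (P.2.to_subgroup (Subgroup.center (P : Subgroup G)))
        rw [hk]
        refine dvd_pow_self p fun h => ?_
        have := Finite.one_lt_card (α := Subgroup.center (P : Subgroup G))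
        simp [hk, h] at this)
      set z : G := ((y : (P : Subgroup G)) : G) with hzdef
      have hzP : z ∈ (P : Subgroup G) := (y : (P : Subgroup G)).2
      have hzo : orderOf z = p := by rw [hzdef, Subgroup.orderOf_coe, Subgroup.orderOf_coe, hy]
      have hcent : ∀ a ∈ (P : Subgroup G), a * z = z * a := fun a ha =>
        congrArg Subtype.val (Subgroup.mem_center_iff.1 y.2 ⟨a, ha⟩)
      obtain ⟨t, ht⟩ : ∃ t : G, t ∉ (P : Subgroup G) := by
        by_contra h
        push Not at h
        rw [Subgroup.index_eq_one.2 (eq_top_iff.2 fun x _ => h x)] at hidx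
        exact absurd hidx (by norm_num)
      set z' : G := t * z * t⁻¹ with hz'def
      have hcent' : ∀ a ∈ (P : Subgroup G), a * z' = z' * a := by
        intro a ha
        have h1 := hcent (t⁻¹ * a * t) (hPn.conj_mem' a ha t)
        rw [hz'def]
        calc a * (t * z * t⁻¹) = t * ((t⁻¹ * a * t) * z) * t⁻¹ := by group
          _ = _ := by rw [h1]; group
      have ht2 : t * t ∈ (P : Subgroup G) := by
        rw [Subgroup.mul_mem_iff_of_index_two hidx]
      have htz' : t * z' * t⁻¹ = z := by
        have h1 := hcent (t * t) ht2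
        rw [hz'def]
        calc t * (t * z * t⁻¹) * t⁻¹ = (t * t) * z * (t * t)⁻¹ := by group
          _ = z := by rw [h1]; group
      have hnorm : ∀ u : G, (∀ a ∈ (P : Subgroup G), a * u = u * a) →
          (∃ k : ℤ, t * u * t⁻¹ = u ^ k) → (Subgroup.zpowers u).Normal := by
        rintro u hu ⟨k, hk⟩
        constructor
        intro x hx g
        obtain ⟨i, rfl⟩ := Subgroup.mem_zpowers_iff.1 hx
        rw [← conj_zpow]
        refine Subgroup.zpow_mem _ ?_ i
        by_cases hg : g ∈ (P : Subgroup G)
        · rw [hu g hg, mul_inv_cancel_right]; exact Subgroup.mem_zpowers u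
        · have hgt : g * t⁻¹ ∈ (P : Subgroup G) := by
            rw [Subgroup.mul_mem_iff_of_index_two hidx, inv_mem_iff]
            exact iff_of_false hg ht
          have e : g * u * g⁻¹ = (g * t⁻¹) * (u ^ k) * (g * t⁻¹)⁻¹ := by rw [← hk]; group
          rw [e, ← conj_zpow, hu _ hgt, mul_inv_cancel_right]
          exact Subgroup.zpow_mem _ (Subgroup.mem_zpowers u) k
      have hzz : Commute z z' := hcent' z hzP
      by_cases hw : z * z' = 1
      · refine ⟨z, hzo, hnorm z hcent ⟨-1, ?_⟩⟩
        rw [zpow_neg_one]
        exact (eq_inv_of_mul_eq_one_right hw)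
      · refine ⟨z * z', orderOf_eq_prime ?_ hw, hnorm _ (fun a ha => ?_) ⟨1, ?_⟩⟩
        · rw [hzz.mul_pow, hz'def, conj_pow, ← hzo, pow_orderOf_eq_one]
          group
        · calc a * (z * z') = (a * z) * z' := by group
            _ = z * (a * z') := by rw [hcent a ha]; group
            _ = _ := by rw [hcent' a ha]; group
        · rw [zpow_one]
          calc t * (z * z') * t⁻¹ = (t * z * t⁻¹) * (t * z' * t⁻¹) := by group
            _ = z' * z := by rw [htz']
            _ = _ := hzz.eq.symm
    refine CfsgLib.Supersolvable.isSupersolvable_of_cyclic_normal (Subgroup.zpowers z) ?_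
    have hlag := Subgroup.card_eq_card_quotient_mul_card_subgroup (Subgroup.zpowers z)
    rw [Nat.card_zpowers, hz, hG] at hlag
    have hQ : Nat.card (G ⧸ Subgroup.zpowers z) = 2 * p ^ n := by
      apply Nat.eq_of_mul_eq_mul_right hp.pos
      rw [← hlag]; ring
    exact ih _ (le_trans (Nat.le_of_dvd Nat.card_pos (Subgroup.card_quotient_dvd_card _)) hm) hQ


/-- A finite group whose order is twice a prime power is supersolvable. -/
theorem result {G : Type*} [Group G] [Finite G] (p n : ℕ) (hp : p.Prime) (hG : Nat.card G = 2 * p ^ n) : Cfsg.IsSupersolvable G := by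
  exact aux (Nat.card G) G le_rfl p n hp hG

end Cfsg.Agent.S0530
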