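import Cfsg.Statements.S0532
import Mathlib.GroupTheory.IndexNormal
import Mathlib.GroupTheory.Sylow
import Cfsg.Agent.Eq.Def_SolvableStructure

set_option autoImplicit false
open Cfsg

namespace Cfsg.Agent.S0532

theorem aux (n : ℕ) (G : Type*) [Group G] [Finite G] (hn : Nat.card G ≤ n)
    (h : ∀ H : Subgroup G, Cfsg.HasSubgroupOfEveryOrder H) (p : ℕ) [Fact p.Prime]
    (hmax : ∀ q : ℕ, q.Prime → q ∣ Nat.card G → q ≤ p) (P : Sylow p G) :
    (P : Subgroup G).Normal := by
  induction n using Nat.strong_induction_on generalizing G with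
  | _ n ih =>
  have hp : p.Prime := Fact.out
  rcases eq_or_ne (Nat.card G) 1 with h1 | h1
  · have : Subsingleton G := (Nat.card_eq_one_iff_unique.1 h1).1
    exact ⟨fun x hx g => by rwa [Subsingleton.elim (g * x * g⁻¹) x]⟩
  have hr : (Nat.card G).minFac.Prime := Nat.minFac_prime h1
  set r := (Nat.card G).minFac with hrdef
  rcases eq_or_ne r p with hrp | hrp
  · have hpg : IsPGroup p G := by
      apply IsPGroup.of_card (n := (Nat.card G).factorization p)
      refine Nat.eq_pow_of_factorization_eq_single Nat.card_pos.ne' ?_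
      ext q
      rcases eq_or_ne q p with rfl | hqp
      · simp
      · rw [Finsupp.single_eq_of_ne hqp]
        by_contra hne
        have hq := Nat.prime_of_mem_primeFactors
          (by rwa [← Nat.support_factorization, Finsupp.mem_support_iff] : q ∈ (Nat.card G).primeFactors)
        have hqd : q ∣ Nat.card G := Nat.dvd_of_factorization_pos hne
        exact hqp (le_antisymm (hmax q hq hqd) (hrp ▸ Nat.minFac_le_of_dvd hq.two_le hqd))
    have : (P : Subgroup G) = ⊤ :=
      (P.3 (Q := ⊤) (hpg.to_subgroup ⊤) le_top).symm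
    rw [this]; infer_instance
  obtain ⟨K, hK⟩ := h ⊤ (Nat.card G / r) (by
    rw [Nat.card_congr Subgroup.topEquiv.toEquiv]
    exact Nat.div_dvd_of_dvd (Nat.minFac_dvd _))
  set N : Subgroup G := K.map (⊤ : Subgroup G).subtype with hN
  have hNcard : Nat.card N = Nat.card G / r := by
    rw [hN, Subgroup.card_subtype, hK]
  have hidx : N.index = r := by
    have hmul := Subgroup.card_mul_index N
    rw [hNcard] at hmul
    have h2 : Nat.card G / r * r = Nat.card G := Nat.div_mul_cancel (Nat.minFac_dvd _)
    exact Nat.eq_of_mul_eq_mul_left (Nat.div_pos (Nat.minFac_le Nat.card_pos) hr.pos)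
      (hmul.trans h2.symm)
  have hNn : N.Normal := Subgroup.normal_of_index_eq_minFac_card hidx
  have hPN : (P : Subgroup G) ≤ N := by
    intro x hx
    rw [← QuotientGroup.eq_one_iff]
    obtain ⟨k, hk⟩ := P.2 ⟨x, hx⟩
    have h2 : orderOf (x : G ⧸ N) ∣ p ^ k := by
      apply orderOf_dvd_of_pow_eq_one
      rw [← QuotientGroup.mk_pow, show x ^ p ^ k = 1 from congrArg Subtype.val hk]; rfl
    have h3 : orderOf (x : G ⧸ N) ∣ r := by
      have h5 : orderOf (x : G ⧸ N) ∣ Nat.card (G ⧸ N) := orderOf_dvd_natCard _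
      exact h5.trans (dvd_of_eq hidx)
    have h4 : Nat.Coprime (p ^ k) r :=
      ((Nat.coprime_primes hp hr).2 (Ne.symm hrp)).pow_left _
    exact orderOf_eq_one_iff.1 (Nat.eq_one_of_dvd_coprimes h4 h2 h3)
  have hlt : Nat.card N < n := by
    rw [hNcard]; exact lt_of_lt_of_le (Nat.div_lt_self Nat.card_pos hr.one_lt) hn
  have hsub : ∀ H : Subgroup N, Cfsg.HasSubgroupOfEveryOrder H := by
    intro H d hd
    have e := H.equivMapOfInjective N.subtype N.subtype_injective
    obtain ⟨L, hL⟩ := h (H.map N.subtype) d (by rwa [← Nat.card_congr e.toEquiv])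
    exact ⟨L.map e.symm.toMonoidHom, by
      rw [Subgroup.card_map_of_injective e.symm.injective, hL]⟩
  have hPn := ih _ hlt N le_rfl hsub
    (fun q hq hqd => hmax q hq (hqd.trans (Subgroup.card_subgroup_dvd_card N))) (P.subtype hPN)
  have := Sylow.characteristic_of_normal _ hPn
  have h6 : ((P.subtype hPN : Subgroup N).map N.subtype).Normal :=
    ConjAct.normal_of_characteristic_of_normal
  rwa [Sylow.coe_subtype, Subgroup.map_subgroupOf_eq_of_le hPN] at h6


/-- If each subgroup of a finite group satisfies the converse of Lagrange's theorem, then a Sylow subgroup for the largest prime dividing the group order is normal. -/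
theorem result {G : Type*} [Group G] [Finite G] (h : ∀ H : Subgroup G, Cfsg.HasSubgroupOfEveryOrder H) (p : ℕ) [Fact p.Prime] (hdvd : p ∣ Nat.card G) (hmax : ∀ q : ℕ, q.Prime → q ∣ Nat.card G → q ≤ p) (P : Sylow p G) : (P : Subgroup G).Normal := by
  exact aux (Nat.card G) G le_rfl h p hmax P

end Cfsg.Agent.S0532
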