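import Cfsg.Statements.S0533
import Cfsg.Agent.SolvableStructure.Huppert
import Cfsg.Agent.S0532


set_option autoImplicit false
open Cfsg

namespace Cfsg.Agent.S0533

open CfsgLib.Supersolvable in
theorem central_step (n : ℕ) : ∀ (G : Type*) [Group G] [Finite G], Nat.card G ≤ n →
    ∀ {p : ℕ} [Fact p.Prime] {P R H : Subgroup G}, R.Normal → IsPGroup p P → P.Normal → R ≤ P → R ≤ H →
    P ⊔ H = ⊤ → Cfsg.IsSupersolvable H → Cfsg.IsSupersolvable (G ⧸ (⊥ : Subgroup G)) ∨
      (∀ [R.Normal], Cfsg.IsSupersolvable (G ⧸ R)) → Cfsg.IsSupersolvable G := by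
  induction n with
  | zero => intro G _ _ hn; exact absurd hn (by have := Nat.card_pos (α := G); omega)
  | succ n ih =>
    intro G _ _ hn p _ P R H hRn hP hPn hRP hRH hPH hH hGR
    rcases hGR with hG | hGR
    · exact isSupersolvable_of_equiv hG QuotientGroup.quotientBot
    by_cases hR : R = ⊥
    · subst hR
      exact isSupersolvable_of_equiv hGR QuotientGroup.quotientBot
    obtain ⟨N, hNR, hNn, hNne, hNmin⟩ := CfsgLib.Solvable.exists_minimal_normal_le R hR
    haveI := hNn
    have hNP : N ≤ P := hNR.trans hRP
    have hcent : ∀ a ∈ P, ∀ x ∈ N, Commute a x := by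
      haveI := hPn
      have hint : (Subgroup.center P).map P.subtype ⊓ N = N := by
        refine (hNmin _ ?_ inf_le_right).resolve_left ?_
        · exact @Subgroup.normal_inf_normal _ _ _ _
            (@ConjAct.normal_of_characteristic_of_normal _ _ _ hPn _ inferInstance) inferInstance
        · intro hbot
          have hN' : N.subgroupOf P ≠ ⊥ := by
            rw [Ne, Subgroup.subgroupOf_eq_bot]
            intro hd
            exact hNne (disjoint_self.1 (hd.mono_right hNP))
          obtain ⟨z, hz2, hz1⟩ := (Subgroup.bot_or_exists_ne_one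
            ((N.subgroupOf P) ⊓ Subgroup.center P)).resolve_left (CfsgLib.PGroup.inf_center_ne_bot hP _ hN')
          exact hz1 (Subtype.ext ((Subgroup.eq_bot_iff_forall _).1 hbot z ⟨⟨z, hz2.2, rfl⟩, hz2.1⟩))
      intro a ha x hx
      obtain ⟨⟨z, hz, rfl⟩, -⟩ := hint.symm ▸ hx
      exact congrArg Subtype.val (Subgroup.mem_center_iff.1 hz ⟨a, ha⟩)
    have hNH : N ≤ H := hNR.trans hRH
    have hminH : ∀ L : Subgroup H, L.Normal → L ≤ N.subgroupOf H → L = ⊥ ∨ L = N.subgroupOf H := by
      intro L hL hLN
      have hLN' : L.map H.subtype ≤ N := by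
        refine (Subgroup.map_mono hLN).trans ?_
        rw [Subgroup.subgroupOf_map_subtype]; exact inf_le_left
      have hLn : (L.map H.subtype).Normal := by
        rw [← Subgroup.normalizer_eq_top_iff, eq_top_iff, ← hPH]
        refine sup_le ?_ ?_
        · intro a ha
          refine Subgroup.centralizer_le_normalizer _ (Subgroup.mem_centralizer_iff.2 fun c hc => ?_)
          exact (hcent a ha c (hLN' hc)).symm.eq
        · intro a ha
          have := Subgroup.le_normalizer_map (f := H.subtype) (H := L)
          refine this ⟨⟨a, ha⟩, ?_, rfl⟩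
          rw [Subgroup.normalizer_eq_top]; exact Subgroup.mem_top _
      rcases hNmin _ hLn hLN' with h | h
      · left
        exact (Subgroup.map_eq_bot_iff_of_injective _ H.subtype_injective).1 h
      · right
        apply Subgroup.map_injective H.subtype_injective
        rw [h, Subgroup.subgroupOf_map_subtype, inf_eq_left.2 hNH]
    have hNprime : (Nat.card N).Prime := by
      rw [← Nat.card_congr (Subgroup.subgroupOfEquivOfLe hNH).toEquiv]
      refine card_minimalNormal_prime hH inferInstance (fun h => hNne ?_) hminH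
      rw [Subgroup.subgroupOf_eq_bot] at h
      exact disjoint_self.1 (h.mono_right hNH)
    haveI := Fact.mk hNprime
    haveI : IsCyclic N := isCyclic_of_prime_card rfl
    refine isSupersolvable_of_cyclic_normal N ?_
    have hsurj := QuotientGroup.mk'_surjective N
    refine ih (G ⧸ N) (by have := CfsgLib.Solvable.card_quotient_lt N hNne; omega)
      (P := P.map (QuotientGroup.mk' N)) (R := R.map (QuotientGroup.mk' N)) (H := H.map (QuotientGroup.mk' N))
      (hRn.map _ hsurj) (hP.map _) (hPn.map _ hsurj) (Subgroup.map_mono hRP) (Subgroup.map_mono hRH)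
      (by rw [← Subgroup.map_sup, hPH, Subgroup.map_top_of_surjective _ hsurj])
      (isSupersolvable_of_surjective hH (f := ((QuotientGroup.mk' N).comp H.subtype).codRestrict _
        (fun x => ⟨x, x.2, rfl⟩)) (by rintro ⟨_, y, hy, rfl⟩; exact ⟨⟨y, hy⟩, rfl⟩)) (Or.inr ?_)
    intro _
    exact isSupersolvable_of_equiv hGR (QuotientGroup.quotientQuotientEquivQuotient N R hNR).symm

open CfsgLib.Supersolvable in
theorem aux (n : ℕ) : ∀ (G : Type*) [Group G] [Finite G], Nat.card G ≤ n →
    (∀ H : Subgroup G, Cfsg.HasSubgroupOfEveryOrder H) → Cfsg.IsSupersolvable G := by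
  induction n with
  | zero => intro G _ _ hn; exact absurd hn (by have := Nat.card_pos (α := G); omega)
  | succ n ih =>
    intro G _ _ hn h
    rcases subsingleton_or_nontrivial G with hsub | hnt
    · exact isSupersolvable_iff.2 (by
        rw [Subsingleton.elim (⊤ : Subgroup G) ⊥]; exact cycReach_of_isCyclic ⊥)
    obtain ⟨p, hp, hpd, hpmax⟩ := exists_max_prime_dvd _ (Finite.one_lt_card (α := G))
    have := Fact.mk hp
    obtain ⟨P⟩ : Nonempty (Sylow p G) := inferInstance
    have hPn : (P : Subgroup G).Normal := Cfsg.Agent.S0532.result h p hpd hpmax P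
    obtain ⟨H0, hH0⟩ := h ⊤ (Nat.card G / p) (by
      rw [Nat.card_congr Subgroup.topEquiv.toEquiv]; exact Nat.div_dvd_of_dvd hpd)
    set H : Subgroup G := H0.map (⊤ : Subgroup G).subtype with hHdef
    have hHcard : Nat.card H = Nat.card G / p := by rw [hHdef, Subgroup.card_subtype, hH0]
    have hidx : H.index = p := by
      have hmul := Subgroup.card_mul_index H
      rw [hHcard] at hmul
      exact Nat.eq_of_mul_eq_mul_left (Nat.div_pos (Nat.le_of_dvd Nat.card_pos hpd) hp.pos)
        (hmul.trans (Nat.div_mul_cancel hpd).symm)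
    have hHlt : Nat.card H ≤ n := by
      have := Nat.div_lt_self (Nat.card_pos (α := G)) hp.one_lt
      omega
    have hHss : Cfsg.IsSupersolvable H := by
      refine ih H hHlt fun L d hd => ?_
      have e := L.equivMapOfInjective H.subtype H.subtype_injective
      obtain ⟨U, hU⟩ := h (L.map H.subtype) d (by rwa [← Nat.card_congr e.toEquiv])
      exact ⟨U.map e.symm.toMonoidHom, by rw [Subgroup.card_map_of_injective e.symm.injective, hU]⟩
    have hPH : (P : Subgroup G) ⊔ H = ⊤ := by
      by_contra hne
      have h1 : H ≤ (P : Subgroup G) ⊔ H := le_sup_right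
      have h2 : ((P : Subgroup G) ⊔ H).index ∣ p := (Subgroup.index_dvd_of_le h1).trans hidx.dvd
      rcases (Nat.dvd_prime hp).1 h2 with h3 | h3
      · exact hne (Subgroup.index_eq_one.1 h3)
      · exact P.not_dvd_index (h3.symm.dvd.trans (Subgroup.index_dvd_of_le le_sup_left))
    set R : Subgroup G := (P : Subgroup G) ⊓ H with hR
    have hrel : R.relIndex (P : Subgroup G) = p := by
      haveI := hPn
      have h1 : (P : Subgroup G).relIndex H = (P : Subgroup G).index := by
        rw [← Subgroup.relIndex_sup_right H (P : Subgroup G), sup_comm, hPH, Subgroup.relIndex_top_right]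
      have h2 : R.relIndex (P : Subgroup G) * (P : Subgroup G).index = R.relIndex H * H.index := by
        rw [Subgroup.relIndex_mul_index inf_le_left, Subgroup.relIndex_mul_index inf_le_right]
      rw [hidx, show R.relIndex H = (P : Subgroup G).relIndex H from Subgroup.inf_relIndex_right _ _, h1,
        mul_comm (P : Subgroup G).index p] at h2
      exact Nat.eq_of_mul_eq_mul_right (Nat.pos_of_ne_zero (P : Subgroup G).index_ne_zero_of_finite) h2
    have hRn : R.Normal := by
      rw [← Subgroup.normalizer_eq_top_iff, eq_top_iff, ← hPH]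
      refine sup_le ?_ ?_
      · have hn1 : (R.subgroupOf (P : Subgroup G)).Normal := by
          apply Subgroup.normal_of_index_eq_minFac_card
          show R.relIndex (P : Subgroup G) = _
          obtain ⟨k, hk⟩ := IsPGroup.iff_card.1 P.2
          rw [hrel, hk, Nat.pow_minFac ?_, hp.minFac_eq]
          rintro rfl
          exact P.ne_bot_of_dvd_card hpd (Subgroup.card_eq_one.1 (by rw [hk, pow_zero]))
        exact (Subgroup.normal_subgroupOf_iff_le_normalizer inf_le_left).1 hn1
      · intro a ha
        rw [Subgroup.mem_normalizer_iff]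
        intro c
        constructor
        · exact fun hc => ⟨hPn.conj_mem c hc.1 a, H.mul_mem (H.mul_mem ha hc.2) (H.inv_mem ha)⟩
        · intro hc
          have e1 : a⁻¹ * (a * c * a⁻¹) * a⁻¹⁻¹ = c := by group
          exact e1 ▸ ⟨hPn.conj_mem _ hc.1 a⁻¹, H.mul_mem (H.mul_mem (H.inv_mem ha) hc.2) (H.inv_mem (H.inv_mem ha))⟩
    refine central_step (Nat.card G) G le_rfl (p := p) (P := (P : Subgroup G)) (R := R) (H := H)
      hRn P.2 hPn inf_le_left inf_le_right hPH hHss (Or.inr ?_)
    intro _
    set C := (P : Subgroup G).map (QuotientGroup.mk' R) with hC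
    haveI : C.Normal := hPn.map _ (QuotientGroup.mk'_surjective R)
    have hCcard : Nat.card C = p := by
      refine Eq.trans ?_ hrel
      rw [hC, ← MonoidHom.domRestrict_range, ← Subgroup.index_ker, MonoidHom.ker_domRestrict,
        QuotientGroup.ker_mk']
      rfl
    haveI : IsCyclic C := isCyclic_of_prime_card hCcard
    refine isSupersolvable_of_cyclic_normal C ?_
    refine isSupersolvable_of_surjective hHss
      (f := ((QuotientGroup.mk' C).comp (QuotientGroup.mk' R)).comp H.subtype) ?_
    intro z
    obtain ⟨y, rfl⟩ := QuotientGroup.mk_surjective z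
    obtain ⟨x, rfl⟩ := QuotientGroup.mk_surjective y
    haveI := hPn
    obtain ⟨a, ha, b, hb, rfl⟩ := Subgroup.mem_sup_of_normal_left.1 (hPH ▸ Subgroup.mem_top x)
    refine ⟨⟨b, hb⟩, ?_⟩
    show QuotientGroup.mk' C (QuotientGroup.mk' R b) = QuotientGroup.mk' C (QuotientGroup.mk' R (a * b))
    rw [map_mul, map_mul, (QuotientGroup.eq_one_iff _).2 (Subgroup.mem_map_of_mem _ ha) |> fun h => (h : QuotientGroup.mk' C (QuotientGroup.mk' R a) = 1), one_mul]


/-- If every subgroup of a finite group has subgroups of all orders dividing its order, then the group is supersolvable. -/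
theorem result {G : Type*} [Group G] [Finite G] (h : ∀ H : Subgroup G, Cfsg.HasSubgroupOfEveryOrder H) : Cfsg.IsSupersolvable G := by
  exact aux (Nat.card G) G le_rfl h

end Cfsg.Agent.S0533
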