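import Cfsg.Statements.S0534
import Cfsg.Agent.Solvable.Hall
import Cfsg.Agent.Solvable.MinNormal
import Cfsg.Agent.Eq.Def_SolvableStructure


set_option autoImplicit false
open Cfsg

namespace Cfsg.Agent.S0534

theorem exists_card_eq (n : ℕ) : ∀ (A : Type*) [CommGroup A] [Finite A], Nat.card A ≤ n →
    ∀ e : ℕ, e ∣ Nat.card A → ∃ B : Subgroup A, Nat.card B = e := by
  induction n with
  | zero => intro A _ _ hn; exact absurd hn (by have := Nat.card_pos (α := A); omega)
  | succ n ih =>
    intro A _ _ hn e he
    by_cases he1 : e = 1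
    · exact ⟨⊥, by rw [Subgroup.card_bot, he1]⟩
    obtain ⟨p, hp, hpe⟩ := Nat.exists_prime_and_dvd he1
    have := Fact.mk hp
    obtain ⟨x, hx⟩ := exists_prime_orderOf_dvd_card' (G := A) p (hpe.trans he)
    set N := Subgroup.zpowers x
    have hN : Nat.card N = p := by rw [Nat.card_zpowers, hx]
    have hNne : N ≠ ⊥ := fun h => hp.ne_one (by rw [← hN, h, Subgroup.card_bot])
    have hdiv : e / p ∣ Nat.card (A ⧸ N) := by
      apply Nat.dvd_of_mul_dvd_mul_right hp.pos
      rw [Nat.div_mul_cancel hpe, ← hN, ← Subgroup.card_eq_card_quotient_mul_card_subgroup]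
      exact he
    obtain ⟨B, hB⟩ := ih (A ⧸ N) (by have := CfsgLib.Solvable.card_quotient_lt N hNne; omega) (e / p) hdiv
    refine ⟨B.comap (QuotientGroup.mk' N), ?_⟩
    have h1 := (B.comap (QuotientGroup.mk' N)).card_mul_index
    rw [Subgroup.index_comap_of_surjective _ (QuotientGroup.mk'_surjective N),
      Subgroup.card_eq_card_quotient_mul_card_subgroup N, ← B.card_mul_index, hB, hN, mul_right_comm] at h1
    rw [Nat.eq_of_mul_eq_mul_right (Nat.pos_of_ne_zero Subgroup.index_ne_zero_of_finite) h1,
      Nat.div_mul_cancel hpe]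


/-- Let G be a finite solvable group and A a finite abelian group such that every prime dividing the order of A divides the order of G and, for each prime p dividing the order of G, the exponent of p in the order of A is one less than its exponent in the order of G. Then G × A has a subgroup of every order dividing its order. -/
theorem result {G A : Type*} [Group G] [CommGroup A] [Finite G] [Finite A] [Group.IsSolvable G] (hA : ∀ p : ℕ, p.Prime → p ∣ Nat.card A → p ∣ Nat.card G) (hexp : ∀ p : ℕ, p.Prime → p ∣ Nat.card G → (Nat.card A).factorization p + 1 = (Nat.card G).factorization p) : Cfsg.HasSubgroupOfEveryOrder (G × A) := by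
  intro d hd
  obtain ⟨H, hH, hH'⟩ := CfsgLib.Solvable.exists_piHall (G := G)
    {p | (Nat.card G).factorization p ≤ d.factorization p}
  have hd0 : d ≠ 0 := by
    rintro rfl
    exact (Nat.mul_ne_zero Nat.card_pos.ne' Nat.card_pos.ne') (Nat.card_prod G A ▸ zero_dvd_iff.1 hd)
  rw [Nat.card_prod] at hd
  have hfac : ∀ p : ℕ, p.Prime → (Nat.card H).factorization p =
      if (Nat.card G).factorization p ≤ d.factorization p then (Nat.card G).factorization p else 0 := by
    intro p hp
    split_ifs with h
    · have h2 : H.index.factorization p = 0 := Nat.factorization_eq_zero_of_not_dvd (hH' p hp h)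
      rw [← H.card_mul_index, Nat.factorization_mul Nat.card_pos.ne' Subgroup.index_ne_zero_of_finite,
        Finsupp.add_apply, h2, add_zero]
    · exact Nat.factorization_eq_zero_of_not_dvd fun hpd => h (hH p hp hpd)
  have hHd : Nat.card H ∣ d := by
    rw [← Nat.factorization_le_iff_dvd Nat.card_pos.ne' hd0]
    intro p
    by_cases hp : p.Prime
    · rw [hfac p hp]; split_ifs <;> omega
    · simp [Nat.factorization_eq_zero_of_not_prime _ hp]
  obtain ⟨e, he⟩ := hHd
  have he0 : e ≠ 0 := by rintro rfl; exact hd0 (by rw [he, mul_zero])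
  have heA : e ∣ Nat.card A := by
    rw [← Nat.factorization_le_iff_dvd he0 Nat.card_pos.ne']
    intro p
    by_cases hp : p.Prime
    swap
    · simp [Nat.factorization_eq_zero_of_not_prime _ hp]
    have h1 : d.factorization p = (Nat.card H).factorization p + e.factorization p := by
      rw [he, Nat.factorization_mul Nat.card_pos.ne' he0, Finsupp.add_apply]
    have h2 : d.factorization p ≤ (Nat.card G).factorization p + (Nat.card A).factorization p := by
      have := (Nat.factorization_le_iff_dvd hd0 (Nat.mul_ne_zero Nat.card_pos.ne' Nat.card_pos.ne')).2 hd p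
      rwa [Nat.factorization_mul Nat.card_pos.ne' Nat.card_pos.ne', Finsupp.add_apply] at this
    rw [hfac p hp] at h1
    by_cases hpG : p ∣ Nat.card G
    · have h3 := hexp p hp hpG
      split_ifs at h1 <;> omega
    · have h3 := Nat.factorization_eq_zero_of_not_dvd hpG
      split_ifs at h1 <;> omega
  obtain ⟨B, hB⟩ := exists_card_eq (Nat.card A) A le_rfl e heA
  exact ⟨H.prod B, by rw [Nat.card_congr (Subgroup.prodEquiv H B).toEquiv, Nat.card_prod, hB, he]⟩

end Cfsg.Agent.S0534
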