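import Cfsg.Statements.S0535
import Cfsg.Agent.SolvableStructure.Product
import Cfsg.Agent.Chars.Apps.Burnside


set_option autoImplicit false
open Cfsg

namespace Cfsg.Agent.S0535

theorem aux (n : ℕ) : ∀ (G : Type*) [Group G] [Finite G], Nat.card G ≤ n →
    (∀ H : Subgroup G, H ≠ ⊥ → ∀ p : ℕ, p.Prime → p ∣ Nat.card H → ∃ K : Subgroup H, K ≠ ⊤ ∧ ∃ k : ℕ, K.index = p ^ k) →
    Group.IsSolvable G := by
  induction n with
  | zero => intro G _ _ hn; exact absurd hn (by have := Nat.card_pos (α := G); omega)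
  | succ n ih =>
    intro G _ _ hn h
    rcases subsingleton_or_nontrivial G with hsub | hnt
    · infer_instance
    have hsolv : ∀ L : Subgroup G, L ≠ ⊤ → Group.IsSolvable L := by
      intro L hL
      refine ih L ?_ fun H hH p hp hpd => ?_
      · have h1 : Nat.card L < Nat.card G :=
          lt_of_le_of_ne (Subgroup.card_le_card_group L) fun e => hL (Subgroup.eq_top_of_card_eq L e)
        omega
      have e := H.equivMapOfInjective L.subtype L.subtype_injective
      obtain ⟨K, hK, k, hk⟩ := h (H.map L.subtype)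
        (fun he => hH ((Subgroup.map_eq_bot_iff_of_injective _ L.subtype_injective).1 he)) p hp
        (by rwa [← Nat.card_congr e.toEquiv])
      refine ⟨K.comap e.toMonoidHom, fun he => hK ?_, k, ?_⟩
      · rw [← Subgroup.map_comap_eq_self_of_surjective (f := e.toMonoidHom) e.surjective K]
        show (K.comap e.toMonoidHom).map e.toMonoidHom = ⊤
        rw [he, Subgroup.map_top_of_surjective _ e.surjective]
      · rw [Subgroup.index_comap_of_surjective _ e.surjective, hk]
    have hex : ∀ p : ℕ, p.Prime → p ∣ Nat.card G → ∃ K : Subgroup G, Group.IsSolvable K ∧ ∃ k : ℕ, K.index = p ^ k := by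
      intro p hp hpd
      obtain ⟨K, hK, k, hk⟩ := h ⊤ top_ne_bot p hp (by rwa [Nat.card_congr Subgroup.topEquiv.toEquiv])
      refine ⟨K.map (⊤ : Subgroup G).subtype, hsolv _ fun he => hK ?_, k, ?_⟩
      · apply Subgroup.map_injective (⊤ : Subgroup G).subtype_injective
        rw [he, ← MonoidHom.range_eq_map, Subgroup.range_subtype]
      · rw [Subgroup.index_map_subtype, hk, Subgroup.index_top, mul_one]
    obtain ⟨p, hp, hpd⟩ := Nat.exists_prime_and_dvd (Finite.one_lt_card (α := G)).ne'
    by_cases h2 : ∃ q : ℕ, q.Prime ∧ q ∣ Nat.card G ∧ q ≠ p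
    · obtain ⟨q, hq, hqd, hqp⟩ := h2
      by_cases h3 : ∃ r : ℕ, r.Prime ∧ r ∣ Nat.card G ∧ r ≠ p ∧ r ≠ q
      · obtain ⟨r, hr, hrd, hrp, hrq⟩ := h3
        obtain ⟨A, hA, a, ha⟩ := hex p hp hpd
        obtain ⟨B, hB, b, hb⟩ := hex q hq hqd
        obtain ⟨C, hC, c, hc⟩ := hex r hr hrd
        refine CfsgLib.Product.isSolvable_of_three (Nat.card G) le_rfl A B C hA hB hC ?_ ?_ ?_
        · rw [ha, hb]; exact Nat.Coprime.pow _ _ ((Nat.coprime_primes hp hq).2 hqp.symm)
        · rw [hb, hc]; exact Nat.Coprime.pow _ _ ((Nat.coprime_primes hq hr).2 hrq.symm)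
        · rw [ha, hc]; exact Nat.Coprime.pow _ _ ((Nat.coprime_primes hp hr).2 hrp.symm)
      · refine CfsgLib.Chars.Apps.isSolvable_of_primeFactors_subset G hp hq fun r hr hrd => ?_
        by_contra hcon
        push Not at hcon
        exact h3 ⟨r, hr, hrd, hcon.1, hcon.2⟩
    · refine CfsgLib.Chars.Apps.isSolvable_of_primeFactors_subset G hp hp fun r hr hrd => ?_
      left
      by_contra hcon
      exact h2 ⟨r, hr, hrd, hcon⟩


/-- Suppose that for every nontrivial subgroup H of a finite group and every prime p dividing the order of H there is a proper subgroup of H whose index in H is a power of p. Then the group is solvable. -/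
theorem result {G : Type*} [Group G] [Finite G] (h : ∀ H : Subgroup G, H ≠ ⊥ → ∀ p : ℕ, p.Prime → p ∣ Nat.card H → ∃ K : Subgroup H, K ≠ ⊤ ∧ ∃ k : ℕ, K.index = p ^ k) : Group.IsSolvable G := by
  exact aux (Nat.card G) G le_rfl h

end Cfsg.Agent.S0535
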