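import Cfsg.Statements.S0537
import Cfsg.Agent.SolvableStructure.Schmidt
import Cfsg.Agent.Coprime.Basic
import Cfsg.Agent.Eq.Def_Transfer
import Mathlib.Tactic.Group


set_option autoImplicit false
open Cfsg

namespace Cfsg.Agent.S0537

/-- A finite non-abelian group in which every proper subgroup is abelian is either of prime-power order, or is generated by a cyclic Sylow p-subgroup and a normal Sylow q-subgroup that is elementary abelian, for distinct primes p and q. -/
theorem result {G : Type*} [Group G] [Finite G] (hna : ¬ IsMulCommutative G) (h : ∀ H : Subgroup G, H ≠ ⊤ → IsMulCommutative H) : (∃ p : ℕ, p.Prime ∧ IsPGroup p G) ∨ ∃ p q : ℕ, p.Prime ∧ q.Prime ∧ p ≠ q ∧ ∃ (P : Sylow p G) (Q : Sylow q G), IsCyclic P ∧ (Q : Subgroup G).Normal ∧ Cfsg.IsElementaryAbelian q (Q : Subgroup G) ∧ (P : Subgroup G) ⊔ Q = ⊤ := by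
  by_cases hnil : Group.IsNilpotent G
  · left
    by_contra hcon
    push Not at hcon
    apply hna
    refine ⟨⟨fun x y => ?_⟩⟩
    have hkey : Subgroup.center G = ⊤ := by
      refine CfsgLib.Constrained.eq_top_of_forall_sylow_le _ fun q hq => ?_
      have := Fact.mk hq
      obtain ⟨Q⟩ : Nonempty (Sylow q G) := inferInstance
      refine ⟨Q, fun a ha => ?_⟩
      have hCtop : Subgroup.centralizer ({a} : Set G) = ⊤ := by
        refine CfsgLib.Constrained.eq_top_of_forall_sylow_le _ fun r hr => ?_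
        have := Fact.mk hr
        obtain ⟨R⟩ : Nonempty (Sylow r G) := inferInstance
        by_cases hrq : r = q
        · subst hrq
          refine ⟨Q, fun b hb => ?_⟩
          have hQt : (Q : Subgroup G) ≠ ⊤ := fun ht =>
            hcon r hr (Q.2.of_equiv ((MulEquiv.subgroupCongr ht).trans Subgroup.topEquiv))
          rw [Subgroup.mem_centralizer_singleton_iff]
          exact congrArg Subtype.val ((h _ hQt).is_comm.comm ⟨b, hb⟩ ⟨a, ha⟩)
        · refine ⟨R, fun b hb => ?_⟩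
          rw [Subgroup.mem_centralizer_singleton_iff]
          obtain ⟨i, hi⟩ := IsPGroup.iff_orderOf.1 Q.2 ⟨a, ha⟩
          obtain ⟨j, hj⟩ := IsPGroup.iff_orderOf.1 R.2 ⟨b, hb⟩
          rw [Subgroup.orderOf_mk] at hi hj
          exact (CfsgLib.Schmidt.commute_of_nilpotent' hq hi
            (hj ▸ ((Nat.coprime_primes hr hq).2 hrq).pow_left _)).symm.eq
      rw [Subgroup.mem_center_iff]
      intro g
      have hg : g ∈ Subgroup.centralizer ({a} : Set G) := hCtop ▸ Subgroup.mem_top g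
      exact Subgroup.mem_centralizer_singleton_iff.1 hg
    exact (Subgroup.mem_center_iff.1 (hkey ▸ Subgroup.mem_top y) x)
  right
  obtain ⟨p, q, hp, hq, hpq, P, Q, hc, hQn, hPQ, hPc⟩ := CfsgLib.Schmidt.exists_structure
    (G := G) ⟨hnil, fun H hH => CfsgLib.Schmidt.isNilpotent_of_isMulCommutative (h H hH)⟩
  refine ⟨p, q, hp, hq, hpq, P, Q, hc, hQn, ?_, hPQ⟩
  have := Fact.mk hp
  have := Fact.mk hq
  have hd : Disjoint (P : Subgroup G) (Q : Subgroup G) := IsPGroup.disjoint_of_ne p q hpq _ _ P.2 Q.2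
  have hQt : (Q : Subgroup G) ≠ ⊤ := by
    intro ht
    apply hPc
    have hb : (P : Subgroup G) = ⊥ := by rw [ht, disjoint_top] at hd; exact hd
    rw [hb]; exact bot_le
  have hQc := h _ hQt
  refine ⟨hQc, ?_⟩
  let Ω : Subgroup G :=
    { carrier := {x | x ∈ (Q : Subgroup G) ∧ x ^ q = 1}
      one_mem' := ⟨one_mem _, one_pow _⟩
      inv_mem' := fun {x} hx => ⟨inv_mem hx.1, by rw [inv_pow, hx.2, inv_one]⟩
      mul_mem' := fun {x y} hx hy => ⟨mul_mem hx.1 hy.1, by
        have hcm : Commute x y := congrArg Subtype.val (hQc.is_comm.comm ⟨x, hx.1⟩ ⟨y, hy.1⟩)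
        rw [hcm.mul_pow, hx.2, hy.2, one_mul]⟩ }
  have hΩn : Ω.Normal := ⟨fun x hx g => ⟨hQn.conj_mem x hx.1 g, by rw [conj_pow, hx.2]; simp⟩⟩
  by_cases hΩP : (P : Subgroup G) ⊔ Ω = ⊤
  · intro a ha
    obtain ⟨k, hk, w, hw, hkw⟩ := Subgroup.mem_sup_of_normal_right.1
      (show a ∈ (P : Subgroup G) ⊔ Ω from hΩP ▸ Subgroup.mem_top a)
    have hkQ : k ∈ (Q : Subgroup G) := by
      have : k = a * w⁻¹ := by rw [← hkw]; group
      rw [this]; exact mul_mem ha (inv_mem hw.1)
    have hk1 : k = 1 := (Subgroup.eq_bot_iff_forall _).1 hd.eq_bot k ⟨hk, hkQ⟩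
    rw [← hkw, hk1, one_mul]; exact hw.2
  · exfalso
    have hcomm := h _ hΩP
    have hcop : (Nat.card (P : Subgroup G)).Coprime (Nat.card (Q : Subgroup G)) :=
      IsPGroup.coprime_card_of_ne p q hpq _ _ P.2 Q.2
    have hAV : (P : Subgroup G) ≤ Subgroup.normalizer ((Q : Subgroup G) : Set G) := by
      rw [Subgroup.normalizer_eq_top]; exact le_top
    have hbot := CfsgLib.Coprime.commutator_inf_centralizer_eq_bot hQc hAV hcop
    apply hPc
    rw [Subgroup.le_centralizer_iff, ← Subgroup.commutator_eq_bot_iff_le_centralizer]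
    by_contra hne
    have hle : ⁅(Q : Subgroup G), (P : Subgroup G)⁆ ≤ Q := Subgroup.commutator_le_left _ _
    obtain ⟨z, hz⟩ := exists_prime_orderOf_dvd_card' (G := (⁅(Q : Subgroup G), (P : Subgroup G)⁆ : Subgroup G)) q (by
      obtain ⟨i, hi⟩ := IsPGroup.iff_card.1 (Q.2.to_le hle)
      have hi0 : i ≠ 0 := fun h0 => hne (Subgroup.card_eq_one.1 (by rw [hi, h0, pow_zero]))
      rw [hi]; exact dvd_pow_self q hi0)
    have hzq : (z : G) ^ q = 1 := by
      have := pow_orderOf_eq_one (z : G); rwa [Subgroup.orderOf_coe, hz] at this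
    have hzΩ : (z : G) ∈ Ω := ⟨hle z.2, hzq⟩
    have hz1 : (z : G) ∈ (⊥ : Subgroup G) := hbot ▸ ⟨z.2, Subgroup.mem_centralizer_iff.2 fun b hb =>
      congrArg Subtype.val (hcomm.is_comm.comm ⟨b, Subgroup.mem_sup_left hb⟩ ⟨z, Subgroup.mem_sup_right hzΩ⟩)⟩
    rw [Subgroup.mem_bot] at hz1
    rw [← Subgroup.orderOf_coe, hz1, orderOf_one] at hz
    exact hq.ne_one hz.symm

end Cfsg.Agent.S0537
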