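import Cfsg.Statements.S0541
import Cfsg.Agent.Subnormal.Zipper
import Mathlib.GroupTheory.Nilpotent
import Mathlib.GroupTheory.Sylow

set_option autoImplicit false
open Pointwise
open Cfsg

namespace Cfsg.Agent.S0541

/-- Let Z and Y be subgroups of a finite group G and p a prime. Suppose that for every g in G the subgroup generated by the conjugates of g Z g⁻¹ under Y is a p-group. Then there is a Sylow p-subgroup P of G such that Y normalizes the subgroup generated by all conjugates of Z contained in P. -/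
theorem result {G : Type*} [Group G] [Finite G] (p : ℕ) [Fact p.Prime] (Z Y : Subgroup G) (h : ∀ g : G, IsPGroup p ↥(⨆ y ∈ Y, MulAut.conj (y * g) • Z)) : ∃ P : Sylow p G, Y ≤ Subgroup.normalizer ((⨆ g ∈ {g : G | MulAut.conj g • Z ≤ (P : Subgroup G)}, MulAut.conj g • Z : Subgroup G) : Set G) := by
  classical
  set gen : Subgroup G → Subgroup G :=
    fun X => ⨆ g ∈ {g : G | MulAut.conj g • Z ≤ X}, MulAut.conj g • Z with hgen
  have hgen_le : ∀ X, gen X ≤ X := fun X => iSup₂_le fun g hg => hg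
  have hgen_mono : ∀ X X', X ≤ X' → gen X ≤ gen X' := fun X X' h' =>
    iSup₂_le fun g hg => le_iSup₂_of_le g (le_trans hg h') le_rfl
  obtain ⟨X, ⟨hXp, hXY, hXg⟩, hmax⟩ := wellFounded_gt.has_min
    {X : Subgroup G | IsPGroup p X ∧ Y ≤ Subgroup.normalizer (X : Set G) ∧ gen X = X}
    ⟨⊥, IsPGroup.of_bot, by
      rw [Subgroup.normalizer_eq_top_iff.2 (inferInstance : (⊥ : Subgroup G).Normal)]; exact le_top,
      le_bot_iff.1 (hgen_le ⊥)⟩
  obtain ⟨P, hXP⟩ := hXp.exists_le_sylow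
  refine ⟨P, ?_⟩
  change Y ≤ Subgroup.normalizer ((gen (P : Subgroup G) : Subgroup G) : Set G)
  suffices heq : gen (P : Subgroup G) = X by rw [heq]; exact hXY
  refine le_antisymm ?_ (hXg.symm.le.trans (hgen_mono X (P : Subgroup G) hXP))
  by_contra hne
  set W : Subgroup G := gen (P : Subgroup G) with hW
  have hWp : IsPGroup p W := P.2.to_le (hgen_le _)
  have hXW : X ≤ W := hXg.symm.le.trans (hgen_mono X (P : Subgroup G) hXP)
  let S : Set (Subgroup G) := {V | ∃ g : G, V = MulAut.conj g • Z ∧ MulAut.conj g • Z ≤ W}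
  let S₀ : Set (Subgroup G) := {V | ∃ g : G, V = MulAut.conj g • Z ∧ MulAut.conj g • Z ≤ X}
  have hS₀ : sSup S₀ = X := by
    refine le_antisymm (sSup_le (by rintro _ ⟨g, rfl, hg⟩; exact hg)) ?_
    conv_lhs => rw [← hXg]
    exact iSup₂_le fun g hg => le_sSup ⟨g, rfl, hg⟩
  have hss : S₀ ⊂ S := by
    refine ⟨fun V ⟨g, hV, hg⟩ => ⟨g, hV, hg.trans hXW⟩, fun hsub => hne ?_⟩
    refine iSup₂_le fun g hg => ?_
    have hgW : MulAut.conj g • Z ≤ W := le_iSup₂_of_le g hg le_rfl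
    obtain ⟨g', he, hg'⟩ := hsub ⟨g, rfl, hgW⟩
    exact he ▸ hg'
  have hWnil : Group.IsNilpotent W := hWp.isNilpotent
  obtain ⟨V, ⟨g, rfl, hgW⟩, hVn, hVN⟩ :=
    CfsgLib.Subnormal.exists_not_mem_le_normalizer_sSup_of_le (H := W) (S := S)
      (by rintro _ ⟨g, rfl, hg⟩; exact hg)
      (fun V _ => CfsgLib.Subnormal.subgroupOf_of_isNilpotent hWnil V)
      (by
        rintro _ ⟨g, rfl, hg⟩ w hw
        refine ⟨w * g, by rw [map_mul, mul_smul], ?_⟩
        rw [map_mul, mul_smul]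
        exact le_of_le_of_eq (Subgroup.pointwise_smul_le_pointwise_smul_iff.2 hg)
          (Subgroup.conj_smul_eq_self_of_mem hw)) hss
  rw [hS₀] at hVN
  set Z' : Subgroup G := ⨆ y ∈ Y, MulAut.conj (y * g) • Z with hZ'
  have hYX : ∀ y ∈ Y, MulAut.conj y • X = X := fun y hy =>
    Subgroup.mem_normalizer_iff_map_conj_eq.1 (hXY hy)
  have hZ'N : Z' ≤ Subgroup.normalizer (X : Set G) := by
    refine iSup₂_le fun y hy => ?_
    intro z hz
    rw [map_mul, mul_smul] at hz
    obtain ⟨v, hv, rfl⟩ := hz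
    have hvN := hVN hv
    rw [MulDistribMulAction.toMonoidEnd_apply] at *
    exact Subgroup.mul_mem _ (Subgroup.mul_mem _ (hXY hy) hvN) (Subgroup.inv_mem _ (hXY hy))
  have hX'p : IsPGroup p (Z' ⊔ X : Subgroup G) := (h g).to_sup_of_normal_right' hXp hZ'N
  have hYconj : ∀ y ∈ Y, MulAut.conj y • Z' ≤ Z' := by
    intro y hy
    rw [Subgroup.pointwise_smul_subset_iff]
    refine iSup₂_le fun y' hy' => ?_
    rw [← Subgroup.pointwise_smul_subset_iff, smul_smul, ← map_mul, ← mul_assoc]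
    exact le_iSup₂_of_le (y * y') (mul_mem hy hy') le_rfl
  have hY' : Y ≤ Subgroup.normalizer ((Z' ⊔ X : Subgroup G) : Set G) := by
    intro y hy
    refine CfsgLib.Subnormal.mem_normalizer_of_conj_le ?_
    rw [Subgroup.pointwise_smul_subset_iff]
    refine sup_le ?_ ?_
    · rw [← Subgroup.pointwise_smul_subset_iff]; exact (hYconj y hy).trans le_sup_left
    · rw [← Subgroup.pointwise_smul_subset_iff, hYX y hy]; exact le_sup_right
  refine hmax (Z' ⊔ X) ⟨hX'p, hY', le_antisymm (hgen_le _) (sup_le ?_ ?_)⟩ ?_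
  · exact iSup₂_le fun y hy => le_iSup₂_of_le (y * g)
      (show MulAut.conj (y * g) • Z ≤ Z' ⊔ X from le_sup_of_le_left (le_iSup₂_of_le y hy le_rfl)) le_rfl
  · exact hXg.symm.le.trans (hgen_mono X _ le_sup_right)
  · refine lt_of_le_of_ne le_sup_right fun e => hVn ⟨g, rfl, ?_⟩
    rw [e]
    refine le_sup_of_le_left (le_iSup₂_of_le 1 (one_mem Y) ?_)
    rw [one_mul]

end Cfsg.Agent.S0541
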