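import Cfsg.Statements.S0544
import Cfsg.Agent.Eq.Def_SolvableStructure
import Cfsg.Agent.Constrained.Fitting

set_option autoImplicit false
open Cfsg
open scoped commutatorElement

namespace Cfsg.Agent.S0544

/-- In a finite solvable group the intersection of the normalizers of the members of a Hall complement system is a nilpotent subgroup. -/
theorem result {G : Type*} [Group G] [Finite G] [Group.IsSolvable G] (K : Nat.Primes → Subgroup G) (hK : Cfsg.IsComplementSystem K) : Group.IsNilpotent (Cfsg.systemNormalizer K) := by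
  have hmem : ∀ (r : Nat.Primes) (p : ℕ), p.Prime → (r : ℕ) ≠ p → ∀ x : G,
      x ∈ Subgroup.normalizer (K r : Set G) → (∃ k, x ^ p ^ k = 1) → x ∈ K r := by
    intro r p hp hrp x hx ⟨k, hk⟩
    set N : Subgroup G := Subgroup.normalizer (K r : Set G)
    have h1 : orderOf ((⟨x, hx⟩ : N) : N ⧸ (K r).subgroupOf N) ∣ p ^ k := by
      apply orderOf_dvd_of_pow_eq_one
      rw [← QuotientGroup.mk_pow, show (⟨x, hx⟩ : N) ^ p ^ k = 1 from Subtype.ext hk]; rfl
    have h2 : orderOf ((⟨x, hx⟩ : N) : N ⧸ (K r).subgroupOf N) ∣ (K r).index :=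
      (orderOf_dvd_natCard _).trans (Subgroup.relIndex_dvd_index_of_le Subgroup.le_normalizer)
    rw [hK r] at h2
    exact (QuotientGroup.eq_one_iff (N := (K r).subgroupOf N) (⟨x, hx⟩ : N)).1 (orderOf_eq_one_iff.1
      (Nat.eq_one_of_dvd_coprimes (((Nat.coprime_primes r.2 hp).2 hrp).symm.pow _ _) h1 h2))
  have hbot : ∀ z : G, (∀ r : Nat.Primes, z ∈ K r) → z = 1 := by
    intro z hz
    by_contra hne
    obtain ⟨r, hr, hrd⟩ := Nat.exists_prime_and_dvd (fun h => hne (orderOf_eq_one_iff.1 h))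
    have h1 : r ∣ Nat.card (K ⟨r, hr⟩) := hrd.trans (Subgroup.orderOf_dvd_natCard _ (hz _))
    have h2 := (K ⟨r, hr⟩).card_mul_index
    rw [hK ⟨r, hr⟩] at h2
    have h3 : r ^ ((Nat.card G).factorization r + 1) ∣ Nat.card G := by
      rw [pow_succ']
      exact (Nat.mul_dvd_mul_right h1 _).trans h2.dvd
    have := (Nat.Prime.pow_dvd_iff_le_factorization hr Nat.card_pos.ne').1 h3
    omega
  set D : Subgroup G := Cfsg.systemNormalizer K with hD
  have hDle : ∀ r : Nat.Primes, D ≤ Subgroup.normalizer (K r : Set G) := fun r => iInf_le _ r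
  refine ((Group.isNilpotent_of_finite_tfae (G := D)).out 0 3).2 ?_
  intro p hp P
  rw [← Subgroup.normalizer_eq_top_iff]
  refine CfsgLib.Constrained.eq_top_of_forall_sylow_le _ ?_
  intro q hq
  have := Fact.mk hq
  by_cases hqp : q = p
  · subst hqp
    exact ⟨P, Subgroup.le_normalizer⟩
  obtain ⟨Q⟩ : Nonempty (Sylow q D) := inferInstance
  refine ⟨Q, le_trans (fun y hy => Subgroup.mem_centralizer_iff.2 fun x hx => ?_)
    (Subgroup.centralizer_le_normalizer _)⟩
  obtain ⟨i, hi⟩ := P.2 ⟨x, hx⟩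
  obtain ⟨j, hj⟩ := Q.2 ⟨y, hy⟩
  have hxi : (x : G) ^ p ^ i = 1 := congrArg (fun w : (P : Subgroup D) => ((w : D) : G)) hi
  have hyj : (y : G) ^ q ^ j = 1 := congrArg (fun w : (Q : Subgroup D) => ((w : D) : G)) hj
  apply Subtype.ext
  suffices h : ⁅(x : G), (y : G)⁆ = 1 by
    exact (commutatorElement_eq_one_iff_mul_comm.1 h)
  refine hbot _ fun r => ?_
  have hxN := hDle r x.2
  have hyN := hDle r y.2
  rw [commutatorElement_def]
  by_cases hrp : (r : ℕ) = p
  · have hyr : (y : G) ∈ K r :=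
      hmem r q hq (fun h => hqp (h.symm.trans hrp)) _ hyN ⟨j, hyj⟩
    exact (K r).mul_mem ((Subgroup.mem_normalizer_iff.1 hxN _).1 hyr) ((K r).inv_mem hyr)
  · have hxr : (x : G) ∈ K r := hmem r p hp.out hrp _ hxN ⟨i, hxi⟩
    have h1 := (Subgroup.mem_normalizer_iff.1 hyN _).1 ((K r).inv_mem hxr)
    simpa [mul_assoc] using (K r).mul_mem hxr h1

end Cfsg.Agent.S0544
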