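import Cfsg.Statements.S0546
import Mathlib
import Cfsg.Agent.Solvable.Carter

set_option autoImplicit false
open Cfsg

namespace Cfsg.Agent.S0546

/-- The normal closure of a system normalizer of a finite solvable group is the whole group. -/
theorem result {G : Type*} [Group G] [Finite G] [Group.IsSolvable G] (K : Nat.Primes → Subgroup G) (hK : Cfsg.IsComplementSystem K) : Subgroup.normalClosure ((Cfsg.systemNormalizer K : Subgroup G) : Set G) = ⊤ := by
  set M := Subgroup.normalClosure ((Cfsg.systemNormalizer K : Subgroup G) : Set G) with hM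
  have hsol : Group.IsSolvable (G ⧸ M) := inferInstance
  set W := commutator (G ⧸ M) with hW
  haveI : Group.IsNilpotent ((G ⧸ M) ⧸ W) :=
    letI : CommGroup ((G ⧸ M) ⧸ W) := { (inferInstance : Group ((G ⧸ M) ⧸ W)) with
      mul_comm := fun a b => (Subgroup.Normal.quotient_commutative_iff_commutator_le (N := W)).2 le_rfl |>.is_comm.comm a b }
    inferInstance
  have h1 := CfsgLib.Solvable.complementSystem_map hK M
  have h2 := CfsgLib.Solvable.systemNormalizer_eq_top_of_nilpotent
    (CfsgLib.Solvable.complementSystem_map h1 W)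
  rw [CfsgLib.Solvable.systemNormalizer_map h1 W, CfsgLib.Solvable.systemNormalizer_map hK M,
    (Subgroup.map_eq_bot_iff (f := QuotientGroup.mk' M) _).2 (by rw [QuotientGroup.ker_mk']; exact Subgroup.le_normalClosure),
    Subgroup.map_bot] at h2
  have hWtop : W = ⊤ := by
    rw [eq_top_iff]
    intro x _
    have h3 : QuotientGroup.mk' W x ∈ (⊥ : Subgroup ((G ⧸ M) ⧸ W)) := h2 ▸ Subgroup.mem_top _
    exact (QuotientGroup.eq_one_iff x).1 (Subgroup.mem_bot.1 h3)
  by_contra hne
  haveI : Nontrivial (G ⧸ M) := QuotientGroup.nontrivial_iff.2 hne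
  exact (Group.IsSolvable.commutator_lt_top_of_nontrivial (G ⧸ M)).ne hWtop

end Cfsg.Agent.S0546
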