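import Cfsg.Statements.S0547
import Cfsg.Agent.MinNormal.Primitive

set_option autoImplicit false
open Cfsg

namespace Cfsg.Agent.S0547

open MulAction CfsgLib.MinNormal


/-- Let a finite solvable group G act faithfully and primitively on a set, and let M be a minimal normal subgroup of G. Then M is transitive with trivial point stabilizers, and the number of points equals the order of M, which is a prime power p ^ d with d ≥ 1. -/
theorem result {G : Type*} [Group G] [Finite G] [Group.IsSolvable G] {Ω : Type*} [Nonempty Ω] [MulAction G Ω] [FaithfulSMul G Ω] (hprim : MulAction.IsPreprimitive G Ω) (M : Subgroup G) [M.Normal] (hM : M ≠ ⊥) (hmin : ∀ K : Subgroup G, K.Normal → K ≤ M → K = ⊥ ∨ K = M) : MulAction.IsPretransitive M Ω ∧ (∀ ω : Ω, MulAction.stabilizer M ω = ⊥) ∧ ∃ p d : ℕ, p.Prime ∧ 0 < d ∧ Nat.card Ω = p ^ d ∧ Nat.card M = p ^ d := by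
  haveI := hprim
  have h : IsMinNormal M := ⟨inferInstance, hM, hmin⟩
  haveI ht := isPretransitive_of_normal (X := Ω) h.normal h.ne_bot
  obtain ⟨p, hp, hab, hpg, -⟩ := h.exists_elementary_of_isSolvable inferInstance
  have hstab := fun ω => stabilizer_eq_bot_of_commutative (N := M) hab (ω : Ω)
  obtain ⟨a⟩ := ‹Nonempty Ω›
  have hcard : Nat.card Ω = Nat.card M := by
    rw [← index_stabilizer_of_transitive M a, hstab a, Subgroup.index_bot]
  haveI := Fact.mk hp
  obtain ⟨d, hd⟩ := IsPGroup.iff_card.1 hpg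
  refine ⟨ht, hstab, p, d, hp, Nat.pos_of_ne_zero fun e => hM ?_, hcard.trans hd, hd⟩
  rw [e, pow_zero] at hd
  exact Subgroup.eq_bot_of_card_eq M hd

end Cfsg.Agent.S0547
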