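import Cfsg.Statements.S0548
import Cfsg.Agent.SolvableStructure.CoreFree
import Mathlib.GroupTheory.GroupAction.Primitive


set_option autoImplicit false
open Cfsg

namespace Cfsg.Agent.S0548

/-- Let a finite solvable group G act faithfully and primitively on a set, let M be a minimal normal subgroup and H the stabilizer of a point. Then H is a complement to M, no non-identity element of H centralizes M, and the only subgroups of M normalized by H are the trivial subgroup and M. -/
theorem result {G : Type*} [Group G] [Finite G] [Group.IsSolvable G] {Ω : Type*} [MulAction G Ω] [FaithfulSMul G Ω] (hprim : MulAction.IsPreprimitive G Ω) (M : Subgroup G) [M.Normal] (hM : M ≠ ⊥) (hmin : ∀ K : Subgroup G, K.Normal → K ≤ M → K = ⊥ ∨ K = M) (ω : Ω) : Subgroup.IsComplement' M (MulAction.stabilizer G ω) ∧ MulAction.stabilizer G ω ⊓ Subgroup.centralizer (M : Set G) = ⊥ ∧ ∀ K : Subgroup G, K ≤ M → MulAction.stabilizer G ω ≤ Subgroup.normalizer (K : Set G) → K = ⊥ ∨ K = M := by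
  have hN : M.Normal := inferInstance
  haveI := hprim
  rcases subsingleton_or_nontrivial Ω with hsub | hnt
  · exfalso
    apply hM
    rw [Subgroup.eq_bot_iff_forall]
    intro x _
    exact eq_of_smul_eq_smul fun y : Ω => Subsingleton.elim _ _
  set H := MulAction.stabilizer G ω with hH
  have hU : IsCoatom H := MulAction.IsPreprimitive.isCoatom_stabilizer_of_isPreprimitive G ω
  have hc : H.normalCore = ⊥ := by
    rw [Subgroup.eq_bot_iff_forall]
    intro x hx
    refine eq_of_smul_eq_smul fun y : Ω => ?_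
    obtain ⟨g, rfl⟩ := MulAction.exists_smul_eq G ω y
    have h1 : g⁻¹ * x * g⁻¹⁻¹ ∈ H.normalCore := (Subgroup.normalCore_normal H).conj_mem x hx g⁻¹
    have h2 : (g⁻¹ * x * g⁻¹⁻¹) • ω = ω := Subgroup.normalCore_le H h1
    rw [inv_inv, mul_smul, mul_smul, inv_smul_eq_iff] at h2
    rw [h2, one_smul]
  have hab : IsMulCommutative M :=
    (CfsgLib.Solvable.minimal_normal_elementary M inferInstance hM hmin).1
  obtain ⟨hC, hcompl⟩ := CfsgLib.CoreFree.abelian_normal hU hc hN hM hab
  refine ⟨hcompl, ?_, fun K hK hKn => ?_⟩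
  · rw [inf_comm]; exact CfsgLib.CoreFree.centralizer_inf_eq_bot hU hc hN hM
  · refine hmin K (CfsgLib.CoreFree.normal_of_sup_eq_top (CfsgLib.CoreFree.sup_eq_top hU hc hN hM) ?_ hKn) hK
    intro m hm
    refine Subgroup.centralizer_le_normalizer _ (Subgroup.mem_centralizer_iff.2 fun k hk => ?_)
    exact congrArg Subtype.val (hab.is_comm.comm ⟨k, hK hk⟩ ⟨m, hm⟩)

end Cfsg.Agent.S0548
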