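import Cfsg.Statements.S0549
import Mathlib.Tactic.Group
import Mathlib.Algebra.Group.Subgroup.Finite

set_option autoImplicit false
open Cfsg
open scoped commutatorElement

namespace Cfsg.Agent.S0549

/-- Let U be a maximal subgroup of a finite group G whose normal core is trivial, and N a nontrivial normal subgroup with centralizer C. Then C ∩ U = 1, and either C = 1 or C is a minimal normal subgroup of G. -/
theorem result {G : Type*} [Group G] [Finite G] (U : Subgroup G) (hU : IsCoatom U) (hcore : U.normalCore = ⊥) (N : Subgroup G) [N.Normal] (hN : N ≠ ⊥) : Subgroup.centralizer (N : Set G) ⊓ U = ⊥ ∧ (Subgroup.centralizer (N : Set G) = ⊥ ∨ (Subgroup.centralizer (N : Set G) ≠ ⊥ ∧ ∀ K : Subgroup G, K.Normal → K ≤ Subgroup.centralizer (N : Set G) → K = ⊥ ∨ K = Subgroup.centralizer (N : Set G))) := by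
  have hsup : ∀ K : Subgroup G, K.Normal → K ≠ ⊥ → K ⊔ U = ⊤ := by
    intro K hKn hK
    refine hU.2 _ (lt_of_le_of_ne le_sup_right (fun e => hK ?_))
    have h1 : K ≤ U := e ▸ le_sup_left
    exact le_bot_iff.1 (hcore ▸ Subgroup.normal_le_normalCore.2 h1)
  set C : Subgroup G := Subgroup.centralizer (N : Set G) with hC
  have hCn : C.Normal := by rw [hC]; infer_instance
  have h1 : C ⊓ U = ⊥ := by
    have hnor : (C ⊓ U).Normal := by
      constructor
      intro x hx g
      obtain ⟨n, hn, u, hu, rfl⟩ := Subgroup.mem_sup_of_normal_left.1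
        (show g ∈ N ⊔ U from (hsup N inferInstance hN) ▸ Subgroup.mem_top g)
      have hy : u * x * u⁻¹ ∈ C ⊓ U :=
        ⟨hCn.conj_mem x hx.1 u, U.mul_mem (U.mul_mem hu hx.2) (U.inv_mem hu)⟩
      have hc : n * (u * x * u⁻¹) = u * x * u⁻¹ * n := Subgroup.mem_centralizer_iff.1 hy.1 n hn
      have he : n * u * x * (n * u)⁻¹ = u * x * u⁻¹ := by
        calc n * u * x * (n * u)⁻¹ = n * (u * x * u⁻¹) * n⁻¹ := by group
          _ = u * x * u⁻¹ := by rw [hc]; group
      rw [he]; exact hy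
    exact le_bot_iff.1 (hcore ▸ Subgroup.normal_le_normalCore.2 inf_le_right)
  refine ⟨h1, ?_⟩
  by_cases hbot : C = ⊥
  · exact Or.inl hbot
  refine Or.inr ⟨hbot, fun K hKn hKC => ?_⟩
  by_cases hK : K = ⊥
  · exact Or.inl hK
  refine Or.inr (le_antisymm hKC fun c hc => ?_)
  obtain ⟨k, hk, u, hu, rfl⟩ := Subgroup.mem_sup_of_normal_left.1
    (show c ∈ K ⊔ U from (hsup K hKn hK) ▸ Subgroup.mem_top c)
  have hu' : u ∈ C ⊓ U := ⟨by simpa using C.mul_mem (C.inv_mem (hKC hk)) hc, hu⟩
  rw [h1, Subgroup.mem_bot] at hu'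
  simpa [hu'] using hk

end Cfsg.Agent.S0549
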