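import Cfsg.Statements.S0550
import Cfsg.Agent.SolvableStructure.CoreFree


set_option autoImplicit false
open Cfsg

namespace Cfsg.Agent.S0550

theorem equiv_inf {G : Type*} [Group G] (U A B : Subgroup G) [B.Normal] (hinf : A ⊓ B = ⊥) (hBU : B ⊓ U = ⊥)
    (hsup : B ⊔ U = ⊤) : Nonempty (A ≃* ↥((A ⊔ B) ⊓ U)) := by
  let f := (QuotientGroup.mk' B).comp A.subtype
  let g := (QuotientGroup.mk' B).comp ((A ⊔ B) ⊓ U).subtype
  have hf : Function.Injective f := by
    refine (injective_iff_map_eq_one f).2 fun a ha => Subtype.ext ?_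
    exact (Subgroup.eq_bot_iff_forall _).1 hinf a ⟨a.2, (QuotientGroup.eq_one_iff _).1 ha⟩
  have hg : Function.Injective g := by
    refine (injective_iff_map_eq_one g).2 fun d hd => Subtype.ext ?_
    exact (Subgroup.eq_bot_iff_forall _).1 hBU d ⟨(QuotientGroup.eq_one_iff _).1 hd, d.2.2⟩
  have hr : f.range = g.range := by
    apply le_antisymm
    · rintro _ ⟨a, rfl⟩
      obtain ⟨b, hb, u, hu, hbu⟩ := Subgroup.mem_sup_of_normal_left.1 (hsup.symm ▸ Subgroup.mem_top (a : G))
      have hu' : u ∈ A ⊔ B := by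
        have e : u = b⁻¹ * (a : G) := by rw [← hbu]; group
        rw [e]; exact mul_mem (Subgroup.mem_sup_right (inv_mem hb)) (Subgroup.mem_sup_left a.2)
      refine ⟨⟨u, hu', hu⟩, ?_⟩
      show QuotientGroup.mk' B u = QuotientGroup.mk' B (a : G)
      rw [← hbu, map_mul, (QuotientGroup.eq_one_iff b).2 hb |> fun h => (h : QuotientGroup.mk' B b = 1), one_mul]
    · rintro _ ⟨d, rfl⟩
      obtain ⟨a, ha, b, hb, hab⟩ := Subgroup.mem_sup_of_normal_right.1 d.2.1
      refine ⟨⟨a, ha⟩, ?_⟩
      show QuotientGroup.mk' B a = QuotientGroup.mk' B (d : G)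
      rw [← hab, map_mul, (QuotientGroup.eq_one_iff b).2 hb |> fun h => (h : QuotientGroup.mk' B b = 1), mul_one]
  exact ⟨(MonoidHom.ofInjective hf).trans ((MulEquiv.subgroupCongr hr).trans (MonoidHom.ofInjective hg).symm)⟩


/-- Let U be a maximal subgroup with trivial normal core in a finite group G, and A ≠ B two minimal normal subgroups. Then A is the centralizer of B and B that of A, U complements each of them, A and B are non-abelian, and A, B and (A ⊔ B) ∩ U are pairwise isomorphic. -/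
theorem result {G : Type*} [Group G] [Finite G] (U : Subgroup G) (hU : IsCoatom U) (hcore : U.normalCore = ⊥) (A B : Subgroup G) [A.Normal] [B.Normal] (hA : A ≠ ⊥) (hB : B ≠ ⊥) (hAmin : ∀ K : Subgroup G, K.Normal → K ≤ A → K = ⊥ ∨ K = A) (hBmin : ∀ K : Subgroup G, K.Normal → K ≤ B → K = ⊥ ∨ K = B) (hAB : A ≠ B) : Subgroup.centralizer (B : Set G) = A ∧ Subgroup.centralizer (A : Set G) = B ∧ Subgroup.IsComplement' A U ∧ Subgroup.IsComplement' B U ∧ ¬ IsMulCommutative A ∧ Nonempty (A ≃* B) ∧ Nonempty (A ≃* ↥((A ⊔ B) ⊓ U)) := by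
  have hinf : A ⊓ B = ⊥ := (hAmin _ inferInstance inf_le_left).resolve_right fun e => by
    rcases hBmin A inferInstance (e ▸ inf_le_right) with h | h
    exacts [hA h, hAB h]
  have hcomm : ∀ a ∈ A, ∀ b ∈ B, Commute a b := fun a ha b hb =>
    Subgroup.commute_of_normal_of_disjoint A B inferInstance inferInstance (disjoint_iff.2 hinf) a b ha hb
  have hAle : A ≤ Subgroup.centralizer (B : Set G) := fun a ha =>
    Subgroup.mem_centralizer_iff.2 fun b hb => (hcomm a ha b hb).symm.eq
  have hBle : B ≤ Subgroup.centralizer (A : Set G) := fun b hb =>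
    Subgroup.mem_centralizer_iff.2 fun a ha => (hcomm a ha b hb).eq
  have hCB := CfsgLib.CoreFree.centralizer_eq_of_le hU hcore inferInstance hB inferInstance hA hAle
  have hCA := CfsgLib.CoreFree.centralizer_eq_of_le hU hcore inferInstance hA inferInstance hB hBle
  have hAU : A ⊓ U = ⊥ := le_bot_iff.1 ((inf_le_inf_right U hAle).trans
    (CfsgLib.CoreFree.centralizer_inf_eq_bot hU hcore inferInstance hB).le)
  have hBU : B ⊓ U = ⊥ := le_bot_iff.1 ((inf_le_inf_right U hBle).trans
    (CfsgLib.CoreFree.centralizer_inf_eq_bot hU hcore inferInstance hA).le)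
  have hsupA := CfsgLib.CoreFree.sup_eq_top hU hcore (inferInstance : A.Normal) hA
  have hsupB := CfsgLib.CoreFree.sup_eq_top hU hcore (inferInstance : B.Normal) hB
  refine ⟨hCB, hCA, CfsgLib.CoreFree.isComplement'_of_inf hU hcore inferInstance hA hAU,
    CfsgLib.CoreFree.isComplement'_of_inf hU hcore inferInstance hB hBU, ?_, ?_, ?_⟩
  · intro hab
    exact hAB ((CfsgLib.CoreFree.abelian_normal hU hcore inferInstance hA hab).1.symm.trans hCA)
  · obtain ⟨e1⟩ := equiv_inf U A B hinf hBU hsupB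
    obtain ⟨e2⟩ := equiv_inf U B A (inf_comm A B ▸ hinf) hAU hsupA
    rw [sup_comm B A] at e2
    exact ⟨e1.trans e2.symm⟩
  · exact equiv_inf U A B hinf hBU hsupB

end Cfsg.Agent.S0550
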