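import Cfsg.Statements.S0551
import Cfsg.Agent.SolvableStructure.CoreFree


set_option autoImplicit false
open Pointwise
open Cfsg

namespace Cfsg.Agent.S0551

/-- In a finite solvable group all core-free maximal subgroups are conjugate. -/
theorem result {G : Type*} [Group G] [Finite G] [Group.IsSolvable G] (U V : Subgroup G) (hU : IsCoatom U) (hV : IsCoatom V) (hUc : U.normalCore = ⊥) (hVc : V.normalCore = ⊥) : ∃ g : G, MulAut.conj g • U = V := by
  rcases subsingleton_or_nontrivial G with hsub | hnt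
  · exact ⟨1, by rw [Subsingleton.elim U V]; simp⟩
  obtain ⟨N, p, k, hNn, hNne, hNmin, hab, hp, hk, hcard, -⟩ :=
    CfsgLib.Solvable.exists_minimal_normal_of_solvable (G := G)
  haveI := hNn
  haveI := Fact.mk hp
  obtain ⟨hC, hcU⟩ := CfsgLib.CoreFree.abelian_normal hU hUc hNn hNne hab
  obtain ⟨-, hcV⟩ := CfsgLib.CoreFree.abelian_normal hV hVc hNn hNne hab
  by_cases hN : N = ⊤
  · have hbot : ∀ W : Subgroup G, Subgroup.IsComplement' N W → W = ⊥ := fun W hW => by
      have := hW.disjoint
      rwa [hN, top_disjoint] at this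
    exact ⟨1, by rw [hbot U hcU, hbot V hcV, Subgroup.smul_bot]⟩
  haveI : Nontrivial (G ⧸ N) := QuotientGroup.nontrivial_iff.2 hN
  obtain ⟨Lq, r, i, hLn, hLne, -, -, hr, hi, hLcard, -⟩ :=
    CfsgLib.Solvable.exists_minimal_normal_of_solvable (G := G ⧸ N)
  haveI := Fact.mk hr
  haveI := hLn
  set L := Lq.comap (QuotientGroup.mk' N) with hL
  haveI hLn' : L.Normal := hLn.comap _
  have hNL : N ≤ L := by
    intro x hx
    show QuotientGroup.mk' N x ∈ Lq
    rw [(QuotientGroup.eq_one_iff x).2 hx |> fun h => (h : QuotientGroup.mk' N x = 1)]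
    exact one_mem _
  have hcardL : Nat.card L = r ^ i * p ^ k := by
    have h1 := L.card_mul_index
    rw [hL, Subgroup.index_comap_of_surjective _ (QuotientGroup.mk'_surjective N),
      Subgroup.card_eq_card_quotient_mul_card_subgroup N, ← Lq.card_mul_index, hLcard, hcard] at h1
    refine Nat.eq_of_mul_eq_mul_right (Nat.pos_of_ne_zero Lq.index_ne_zero_of_finite) ?_
    rw [hL, h1]; ring
  have hrp : r ≠ p := by
    rintro rfl
    have hLp : IsPGroup r L := IsPGroup.of_card (n := i + k) (by rw [hcardL, pow_add])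
    have h2 := CfsgLib.CoreFree.commute_of_minimal hLn' hLp hNn hNne hNL hNmin
    rw [hC] at h2
    have h3 : Nat.card L = Nat.card N := by rw [le_antisymm h2 hNL]
    rw [hcardL, hcard] at h3
    have h4 : r ^ i = 1 := (Nat.mul_eq_right (pow_pos hr.pos k).ne').1 h3
    exact absurd h4 (Nat.one_lt_pow hi.ne' hr.one_lt).ne'
  have hcop : (Nat.card (N.subgroupOf L)).Coprime (N.subgroupOf L).index := by
    have h1 := (N.subgroupOf L).card_mul_index
    rw [Nat.card_congr (Subgroup.subgroupOfEquivOfLe hNL).toEquiv, hcardL, hcard, mul_comm (r ^ i)] at h1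
    rw [Nat.card_congr (Subgroup.subgroupOfEquivOfLe hNL).toEquiv, hcard,
      Nat.eq_of_mul_eq_mul_left (pow_pos hp.pos k) h1]
    exact Nat.Coprime.pow _ _ ((Nat.coprime_primes hp hr).2 hrp.symm)
  have hsub : ∀ W : Subgroup G, Subgroup.IsComplement' N W →
      Subgroup.IsComplement' (N.subgroupOf L) (W.subgroupOf L) := by
    intro W hW
    refine Subgroup.isComplement'_of_disjoint_and_mul_eq_univ ?_ ?_
    · rw [disjoint_iff, Subgroup.eq_bot_iff_forall]
      intro x hx
      exact Subtype.ext ((Subgroup.eq_bot_iff_forall _).1 (disjoint_iff.1 hW.disjoint) x hx)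
    · refine Set.eq_univ_of_forall fun x => ?_
      obtain ⟨n, hn, w, hw, hnw⟩ := Subgroup.mem_sup_of_normal_left.1 (hW.sup_eq_top ▸ Subgroup.mem_top (x : G))
      have hwL : w ∈ L := by
        have e : w = n⁻¹ * (x : G) := by rw [← hnw]; group
        rw [e]; exact mul_mem (inv_mem (hNL hn)) x.2
      exact ⟨⟨n, hNL hn⟩, hn, ⟨w, hwL⟩, hw, Subtype.ext hnw⟩
  obtain ⟨n, -, hn⟩ := CfsgLib.Solvable.exists_conj_of_isComplement' (N.subgroupOf L) hcop
    (Or.inl (Group.isSolvable_of_isSolvable_injective (f := (N.subgroupOf L).subtype) Subtype.val_injective))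
    _ _ (hsub U hcU) (hsub V hcV)
  refine ⟨(n : G), ?_⟩
  have hnorm : ∀ W : Subgroup G, IsCoatom W → W.normalCore = ⊥ → Subgroup.IsComplement' N W →
      Subgroup.normalizer ((L ⊓ W : Subgroup G) : Set G) = W := by
    intro W hW hWc hcW
    have hle := CfsgLib.CoreFree.le_normalizer_inf_of_le hLn' (W := W) Subgroup.le_normalizer
    refine ((hW.le_iff).1 hle).resolve_left fun htop => ?_
    have hb : L ⊓ W = ⊥ := CfsgLib.CoreFree.normal_le_eq_bot hWc (Subgroup.normalizer_eq_top_iff.1 htop) inf_le_right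
    have hLN : L ≤ N := by
      intro x hx
      obtain ⟨a, ha, w, hw, hnw⟩ := Subgroup.mem_sup_of_normal_left.1 (hcW.sup_eq_top ▸ Subgroup.mem_top x)
      have hwL : w ∈ L := by
        have e : w = a⁻¹ * x := by rw [← hnw]; group
        rw [e]; exact mul_mem (inv_mem (hNL ha)) hx
      have : w = 1 := (Subgroup.eq_bot_iff_forall _).1 hb w ⟨hwL, hw⟩
      rw [← hnw, this, mul_one]; exact ha
    have h3 : Nat.card L = Nat.card N := by rw [le_antisymm hLN hNL]
    rw [hcardL, hcard] at h3
    exact absurd ((Nat.mul_eq_right (pow_pos hp.pos k).ne').1 h3)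
      (Nat.one_lt_pow hi.ne' hr.one_lt).ne'
  have hmap : (L ⊓ U).map (MulAut.conj (n : G)).toMonoidHom = L ⊓ V := by
    have h5 := congrArg (Subgroup.map L.subtype) hn
    rw [Subgroup.subgroupOf_map_subtype, inf_comm V L] at h5
    rw [← h5, inf_comm L U, ← Subgroup.subgroupOf_map_subtype, Subgroup.map_map,
      CfsgLib.Solvable.conj_smul_eq_map, Subgroup.map_map]
    rfl
  have hfin : (Subgroup.normalizer ((L ⊓ U : Subgroup G) : Set G)).map (MulAut.conj (n : G)).toMonoidHom =
      Subgroup.normalizer ((L ⊓ V : Subgroup G) : Set G) := by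
    rw [← hmap]
    exact Subgroup.map_equiv_normalizer_eq _ _
  rw [hnorm U hU hUc hcU, hnorm V hV hVc hcV] at hfin
  exact (CfsgLib.Solvable.conj_smul_eq_map _ _).trans hfin

end Cfsg.Agent.S0551
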