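import Cfsg.Statements.S0552
import Cfsg.Agent.Constrained.Fitting

set_option autoImplicit false
open Cfsg

namespace Cfsg.Agent.S0552

/-- Let σ be an automorphism of a finite solvable group G fixing every element of the Fitting subgroup. If σ is not the identity then the order of σ and the order of G have a common prime factor. -/
theorem result {G : Type*} [Group G] [Finite G] [Group.IsSolvable G] (σ : G ≃* G) (hσ : ∀ x ∈ Cfsg.fittingSubgroup G, σ x = x) (hne : σ ≠ MulEquiv.refl G) : ¬ (orderOf σ).Coprime (Nat.card G) := by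
  intro hcop
  apply hne
  ext x
  set c := x⁻¹ * σ x with hc
  have hcF : c ∈ fittingSubgroup G := by
    refine CfsgLib.Constrained.centralizer_fitting_le ?_
    rw [Subgroup.mem_centralizer_iff]
    intro f hf
    have h1 : x * f * x⁻¹ ∈ fittingSubgroup G :=
      Subgroup.Normal.conj_mem CfsgLib.Constrained.instNormalFitting f hf x
    have h2 := hσ _ h1
    rw [map_mul, map_mul, map_inv, hσ f hf] at h2
    calc f * c = x⁻¹ * (x * f * x⁻¹) * σ x := by rw [hc]; group
      _ = x⁻¹ * (σ x * f * (σ x)⁻¹) * σ x := by rw [h2]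
      _ = c * f := by rw [hc]; group
  have hcfix : σ c = c := hσ c hcF
  have hσx : σ x = x * c := by rw [hc]; group
  have hpow : ∀ k : ℕ, (σ ^ k : MulAut G) x = x * c ^ k := by
    intro k
    induction k with
    | zero => simp
    | succ k ih =>
      rw [pow_succ', MulAut.mul_apply, ih, map_mul, map_pow, hcfix, hσx, pow_succ', mul_assoc]
  have h3 := hpow (orderOf σ)
  rw [show (σ ^ orderOf σ : MulAut G) = 1 from pow_orderOf_eq_one (σ : MulAut G)] at h3
  have h4 : c ^ orderOf σ = 1 := by simpa using h3
  have h5 : orderOf c = 1 := Nat.eq_one_of_dvd_coprimes hcop (orderOf_dvd_of_pow_eq_one h4)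
    (orderOf_dvd_natCard c)
  rw [orderOf_eq_one_iff.mp h5, mul_one] at hσx
  simpa using hσx

end Cfsg.Agent.S0552
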