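import Cfsg.Statements.S0553
import Cfsg.Agent.SolvableStructure.CoreFree


set_option autoImplicit false
open Cfsg

namespace Cfsg.Agent.S0553

theorem aux (n : ℕ) : ∀ (G : Type*) [Group G] [Finite G], Nat.card G ≤ n → ∀ [Group.IsSolvable G] [Nontrivial G],
    (∀ M : Subgroup G, IsCoatom M → (Nat.card M).Coprime M.index) →
    ∃ p : ℕ, p.Prime ∧ p ∣ Nat.card G ∧ ∀ P : Sylow p G, (P : Subgroup G).Normal := by
  induction n with
  | zero => intro G _ _ hn; exact absurd hn (by have := Nat.card_pos (α := G); omega)
  | succ n ih =>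
    intro G _ _ hn _ _ h
    obtain ⟨N, p, k, hNn, hNne, hNmin, hab, hp, hk, hcard, -⟩ :=
      CfsgLib.Solvable.exists_minimal_normal_of_solvable (G := G)
    haveI := hNn
    haveI := Fact.mk hp
    have hpd : p ∣ Nat.card G := (dvd_pow_self p hk.ne').trans (hcard ▸ N.card_subgroup_dvd_card)
    by_cases hNp : ¬ p ∣ N.index
    · refine ⟨p, hp, hpd, fun P => ?_⟩
      let Q : Sylow p G := (IsPGroup.of_card hcard).toSylow hNp
      haveI : (Q : Subgroup G).Normal := hNn
      have := Sylow.unique_of_normal Q hNn
      rw [Subsingleton.elim P Q]; exact hNn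
    push Not at hNp
    haveI : Nontrivial (G ⧸ N) := QuotientGroup.nontrivial_iff.2 fun htop => by
      rw [htop, Subgroup.index_top] at hNp
      exact hp.not_dvd_one hNp
    obtain ⟨r, hr, hrd, hrn⟩ := ih (G ⧸ N) (by have := CfsgLib.Solvable.card_quotient_lt N hNne; omega)
      (fun M hM => by
        have hcoat := Subgroup.isCoatom_comap_of_surjective (QuotientGroup.mk'_surjective N) hM
        have hi := Subgroup.index_comap_of_surjective M (QuotientGroup.mk'_surjective N)
        refine Nat.Coprime.coprime_dvd_left ?_ (hi ▸ h _ hcoat)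
        exact Subgroup.card_dvd_of_surjective ((QuotientGroup.mk' N).subgroupComap M)
          ((QuotientGroup.mk' N).subgroupComap_surjective_of_surjective M (QuotientGroup.mk'_surjective N)))
    haveI := Fact.mk hr
    have hrG : r ∣ Nat.card G := hrd.trans (Subgroup.card_quotient_dvd_card N)
    refine ⟨r, hr, hrG, fun P => ?_⟩
    have h1 := hrn (P.mapSurjective (QuotientGroup.mk'_surjective N))
    haveI h2 : ((P : Subgroup G) ⊔ N).Normal := by
      have := h1.comap (QuotientGroup.mk' N)
      rwa [Sylow.coe_mapSurjective, Subgroup.comap_map_eq, QuotientGroup.ker_mk'] at this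
    by_cases hrp : r = p
    · subst hrp
      obtain ⟨Q, hQ⟩ := (IsPGroup.of_card hcard).exists_le_sylow
      obtain ⟨g, rfl⟩ := MulAction.exists_smul_eq G Q P
      have hle : N ≤ ((g • Q : Sylow r G) : Subgroup G) := by
        rw [Sylow.coe_subgroup_smul, ← Subgroup.Normal.conj_smul_eq_self g N]
        exact Subgroup.pointwise_smul_le_pointwise_smul_iff.2 hQ
      rwa [sup_eq_left.2 hle] at h2
    rw [← Subgroup.normalizer_eq_top_iff]
    by_contra hne
    obtain ⟨M, hM, hle⟩ := (eq_top_or_exists_le_coatom _).resolve_left hne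
    have h3 := (Sylow.subtype P (le_sup_left : (P : Subgroup G) ≤ (P : Subgroup G) ⊔ N)).normalizer_sup_eq_top
    rw [Sylow.coe_subtype, Subgroup.subgroupOf_map_subtype,
      inf_eq_left.2 (le_sup_left : (P : Subgroup G) ≤ (P : Subgroup G) ⊔ N)] at h3
    have hsup : M ⊔ N = ⊤ := by
      rw [eq_top_iff, ← h3]
      exact sup_le (hle.trans le_sup_left) (sup_le ((Subgroup.le_normalizer.trans hle).trans le_sup_left) le_sup_right)
    have hinf : (N ⊓ M).Normal := CfsgLib.CoreFree.normal_of_sup_eq_top hsup
      (CfsgLib.CoreFree.le_normalizer_inf_of_le hNn Subgroup.le_normalizer)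
      (fun x hx => Subgroup.centralizer_le_normalizer _ (Subgroup.mem_centralizer_iff.2 fun c hc =>
        congrArg Subtype.val (hab.is_comm.comm ⟨c, hc.1⟩ ⟨x, hx⟩)))
    have hb : N ⊓ M = ⊥ := (hNmin _ hinf inf_le_left).resolve_right fun e => by
      have hNM : N ≤ M := e ▸ inf_le_right
      rw [sup_eq_left.2 hNM] at hsup
      exact hM.1 hsup
    have hcompl : Subgroup.IsComplement' N M := Subgroup.isComplement'_of_disjoint_and_mul_eq_univ
      (disjoint_iff.2 hb) (by rw [← Subgroup.normal_mul, sup_comm, hsup, Subgroup.coe_top])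
    have hcop := h M hM
    rw [hcompl.index_eq_card, ← hcompl.symm.index_eq_card, hcard] at hcop
    exact hp.ne_one (Nat.eq_one_of_dvd_coprimes hcop hNp (dvd_pow_self p hk.ne'))


/-- Let G be a nontrivial finite solvable group in which every maximal subgroup has order coprime to its index. Then for some prime p dividing the order of G the Sylow p-subgroups of G are normal. -/
theorem result {G : Type*} [Group G] [Finite G] [Group.IsSolvable G] [Nontrivial G] (h : ∀ M : Subgroup G, IsCoatom M → (Nat.card M).Coprime M.index) : ∃ p : ℕ, p.Prime ∧ p ∣ Nat.card G ∧ ∀ P : Sylow p G, (P : Subgroup G).Normal := by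
  exact aux (Nat.card G) G le_rfl h

end Cfsg.Agent.S0553
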