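import Cfsg.Statements.S0554
import Cfsg.Agent.SolvableStructure.CoreFree


set_option autoImplicit false
open Cfsg

namespace Cfsg.Agent.S0554

theorem push {G : Type*} [Group G] {N : Subgroup G} [hN : N.Normal] (t : ℕ) :
    ∀ (s : Fin t → G) (j : Fin t) (n : G), n ∈ N →
      ∃ m ∈ N, (List.ofFn s).prod * n = (List.ofFn (Function.update s j (s j * m))).prod := by
  induction t with
  | zero => intro s j; exact j.elim0
  | succ t ih =>
    intro s j n hn
    rw [List.ofFn_succ, List.prod_cons]
    induction j using Fin.cases with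
    | zero =>
      refine ⟨(List.ofFn fun i => s i.succ).prod * n * ((List.ofFn fun i => s i.succ).prod)⁻¹,
        hN.conj_mem n hn _, ?_⟩
      rw [List.ofFn_succ, List.prod_cons, Function.update_self]
      have e : (fun i : Fin t => Function.update s 0
          (s 0 * ((List.ofFn fun i => s i.succ).prod * n * ((List.ofFn fun i => s i.succ).prod)⁻¹)) i.succ) =
          fun i => s i.succ :=
        funext fun i => Function.update_of_ne (Fin.succ_ne_zero i) _ _
      rw [e]
      group
    | succ j =>
      obtain ⟨m, hm, he⟩ := ih (fun i => s i.succ) j n hn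
      refine ⟨m, hm, ?_⟩
      rw [List.ofFn_succ, List.prod_cons, Function.update_of_ne (Fin.succ_ne_zero j).symm, mul_assoc, he]
      congr 3
      funext i
      by_cases hij : i = j
      · subst hij; simp
      · rw [Function.update_of_ne hij, Function.update_of_ne (fun e => hij (Fin.succ_injective _ e))]

theorem aux (n : ℕ) : ∀ (G : Type*) [Group G] [Finite G], Nat.card G ≤ n → ∀ [Group.IsSolvable G],
    ∀ (t : ℕ) (p : Fin t → ℕ), (∀ i, (p i).Prime) → Function.Injective p →
    (∀ q : ℕ, q.Prime → q ∣ Nat.card G → ∃ i, p i = q) → ∀ S : (i : Fin t) → Sylow (p i) G,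
    ∀ g : G, ∃ s : (i : Fin t) → G, (∀ i, s i ∈ (S i : Subgroup G)) ∧ g = (List.ofFn s).prod := by
  induction n with
  | zero => intro G _ _ hn; exact absurd hn (by have := Nat.card_pos (α := G); omega)
  | succ n ih =>
    intro G _ _ hn _ t p hp hinj hall S g
    rcases subsingleton_or_nontrivial G with hsub | hnt
    · exact ⟨fun _ => 1, fun i => one_mem _, Subsingleton.elim _ _⟩
    obtain ⟨N, q, k, hNn, hNne, -, -, hq, hk, hcard, -⟩ :=
      CfsgLib.Solvable.exists_minimal_normal_of_solvable (G := G)
    haveI := hNn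
    obtain ⟨j, rfl⟩ := hall q hq ((dvd_pow_self q hk.ne').trans (hcard ▸ N.card_subgroup_dvd_card))
    haveI : ∀ i, Fact (p i).Prime := fun i => ⟨hp i⟩
    have hNS : N ≤ (S j : Subgroup G) := by
      obtain ⟨Q, hQ⟩ := (IsPGroup.of_card hcard).exists_le_sylow
      obtain ⟨x, hx⟩ := MulAction.exists_smul_eq G Q (S j)
      rw [← hx, Sylow.coe_subgroup_smul, ← Subgroup.Normal.conj_smul_eq_self x N]
      exact Subgroup.pointwise_smul_le_pointwise_smul_iff.2 hQ
    obtain ⟨s, hs, hg⟩ := ih (G ⧸ N) (by have := CfsgLib.Solvable.card_quotient_lt N hNne; omega) t p hp hinj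
      (fun r hr hrd => hall r hr (hrd.trans (Subgroup.card_quotient_dvd_card N)))
      (fun i => (S i).mapSurjective (QuotientGroup.mk'_surjective N)) (QuotientGroup.mk' N g)
    choose u hu hus using fun i => Subgroup.mem_map.1 (hs i)
    have h1 : QuotientGroup.mk' N (List.ofFn u).prod = QuotientGroup.mk' N g := by
      rw [map_list_prod, List.map_ofFn, hg]
      congr 2
      funext i
      exact hus i
    obtain ⟨z, hz, hgz⟩ := QuotientGroup.mk'_eq_mk' N |>.1 h1
    obtain ⟨m, hm, he⟩ := push t u j z hz
    refine ⟨Function.update u j (u j * m), fun i => ?_, by rw [← he, hgz]⟩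
    by_cases hij : i = j
    · subst hij; rw [Function.update_self]; exact mul_mem (hu i) (hNS hm)
    · rw [Function.update_of_ne hij]; exact hu i


/-- Let G be a finite solvable group and let S assign to each of t distinct primes, including every prime divisor of the order of G, a Sylow subgroup of G. Then every element of G is a product s_0 s_1 ⋯ s_(t-1) with s_i in S i, the factors taken in the given order. -/
theorem result {G : Type*} [Group G] [Finite G] [Group.IsSolvable G] (t : ℕ) (p : Fin t → ℕ) (hp : ∀ i, (p i).Prime) (hinj : Function.Injective p) (hall : ∀ q : ℕ, q.Prime → q ∣ Nat.card G → ∃ i, p i = q) (S : (i : Fin t) → Sylow (p i) G) : ∀ g : G, ∃ s : (i : Fin t) → G, (∀ i, s i ∈ (S i : Subgroup G)) ∧ g = (List.ofFn s).prod := by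
  exact aux (Nat.card G) G le_rfl t p hp hinj hall S

end Cfsg.Agent.S0554
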