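import Cfsg.Statements.S0555
import Cfsg.Agent.SolvableStructure.Supersolvable

set_option autoImplicit false
open Cfsg
open scoped commutatorElement

namespace Cfsg.Agent.S0555

/-- Let i ≥ 1. If in the derived series of a group the quotient of the i-th term by the (i+1)-st and the quotient of the (i+1)-st by the (i+2)-nd are both cyclic, then the (i+1)-st and (i+2)-nd terms coincide. -/
theorem result {G : Type*} [Group G] (i : ℕ) (hi : 1 ≤ i) (h₁ : IsCyclic (↥(derivedSeries G i) ⧸ (derivedSeries G (i + 1)).subgroupOf (derivedSeries G i))) (h₂ : IsCyclic (↥(derivedSeries G (i + 1)) ⧸ (derivedSeries G (i + 2)).subgroupOf (derivedSeries G (i + 1)))) : derivedSeries G (i + 1) = derivedSeries G (i + 2) := by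
  obtain ⟨j, rfl⟩ : ∃ j, i = j + 1 := ⟨i - 1, by omega⟩
  set A := derivedSeries G (j + 1) with hA
  set B := derivedSeries G (j + 1 + 1) with hB
  set C := derivedSeries G (j + 1 + 2) with hC
  have hCB : C ≤ B := derivedSeries_antitone G (by omega)
  have hBA : B ≤ A := derivedSeries_antitone G (by omega)
  refine le_antisymm ?_ hCB
  let π := QuotientGroup.mk' C
  obtain ⟨⟨β, hβ⟩⟩ := h₂
  induction β using QuotientGroup.induction_on with
  | _ β =>
  have hgenB : ∀ b ∈ B, ∃ k : ℤ, π b = π (β : G) ^ k := by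
    intro b hb
    obtain ⟨k, hk⟩ := Subgroup.mem_zpowers_iff.1 (hβ (⟨b, hb⟩ : B))
    refine ⟨k, ?_⟩
    rw [← QuotientGroup.mk_zpow, QuotientGroup.eq] at hk
    rw [← map_zpow, eq_comm, QuotientGroup.mk'_apply, QuotientGroup.mk'_apply, QuotientGroup.eq]
    exact hk
  have hBmap : B.map π = Subgroup.zpowers (π (β : G)) := by
    refine le_antisymm ?_ (Subgroup.zpowers_le.2 (Subgroup.mem_map_of_mem _ β.2))
    rintro _ ⟨b, hb, rfl⟩
    obtain ⟨k, hk⟩ := hgenB b hb
    exact hk ▸ Subgroup.zpow_mem_zpowers _ k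
  have hzn : (Subgroup.zpowers (π (β : G))).Normal :=
    hBmap ▸ (derivedSeries_normal G (j + 1 + 1)).map π (QuotientGroup.mk'_surjective C)
  have hAc : A.map π ≤ Subgroup.centralizer {π (β : G)} := by
    refine le_trans ?_ (CfsgLib.Supersolvable.commutator_le_centralizer_of_normal_zpowers hzn)
    refine (Subgroup.map_mono (derivedSeries_antitone G (by omega : 1 ≤ j + 1))).trans ?_
    rw [derivedSeries_one, commutator_def, commutator_def, Subgroup.map_commutator]
    exact Subgroup.commutator_mono le_top le_top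
  obtain ⟨⟨α, hα⟩⟩ := h₁
  induction α using QuotientGroup.induction_on with
  | _ α =>
  have hgenA : ∀ a ∈ A, ∃ k l : ℤ, π a = π (α : G) ^ k * π (β : G) ^ l := by
    intro a ha
    obtain ⟨k, hk⟩ := Subgroup.mem_zpowers_iff.1 (hα (⟨a, ha⟩ : A))
    rw [← QuotientGroup.mk_zpow, QuotientGroup.eq, Subgroup.mem_subgroupOf] at hk
    obtain ⟨l, hl⟩ := hgenB _ hk
    refine ⟨k, l, ?_⟩
    rw [← hl, ← map_zpow, ← map_mul]
    simp
  have hab : Commute (π (α : G)) (π (β : G)) :=
    Subgroup.mem_centralizer_singleton_iff.1 (hAc (Subgroup.mem_map_of_mem _ α.2))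
  change derivedSeries G (j + 1 + 1) ≤ C
  rw [derivedSeries_succ, Subgroup.commutator_le]
  intro a ha b hb
  obtain ⟨k, l, hkl⟩ := hgenA a ha
  obtain ⟨k', l', hkl'⟩ := hgenA b hb
  have hcomm : Commute (π a) (π b) := by
    rw [hkl, hkl']
    exact (((Commute.refl _).zpow_zpow k k').mul_right (hab.zpow_zpow k l')).mul_left
      ((hab.symm.zpow_zpow l k').mul_right ((Commute.refl _).zpow_zpow l l'))
  rw [← QuotientGroup.eq_one_iff]
  change π _ = 1
  rw [map_commutatorElement]
  exact commutatorElement_eq_one_iff_commute.2 hcomm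

end Cfsg.Agent.S0555
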