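import Cfsg.Statements.S0558
import Cfsg.Agent.SolvableStructure.FocalSeries
import Mathlib.GroupTheory.Nilpotent
import Mathlib.Tactic.Linarith

set_option autoImplicit false
open Cfsg
open scoped commutatorElement Pointwise

namespace Cfsg.Agent.S0558

/-- Let H be a subgroup of a finite group G that is not a Sylow subgroup of G for any prime, and suppose that for every prime p dividing the order of H and every Sylow p-subgroup P of H the normalizer of P in G is exactly H. Then some normal subgroup of G is a complement to H. -/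
theorem result {G : Type*} [Group G] [Finite G] (H : Subgroup G) (hnot : ∀ p : ℕ, p.Prime → ∀ P : Sylow p G, (P : Subgroup G) ≠ H) (hnorm : ∀ p : ℕ, p.Prime → p ∣ Nat.card H → ∀ P : Sylow p H, Subgroup.normalizer (((P : Subgroup H).map H.subtype : Subgroup G) : Set G) = H) : ∃ N : Subgroup G, N.Normal ∧ Subgroup.IsComplement' N H := by
  classical
  have hbig : ∀ p : ℕ, p.Prime → p ∣ Nat.card H → ∀ P : Sylow p H,
      ∃ R : Sylow p G, (R : Subgroup G) = (P : Subgroup H).map H.subtype := by
    intro p hp hpd P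
    have := Fact.mk hp
    obtain ⟨R, hR⟩ := (P.2.map H.subtype).exists_le_sylow
    refine ⟨R, (le_antisymm hR ?_).symm⟩
    by_contra hne
    set Q : Subgroup G := (P : Subgroup H).map H.subtype with hQ
    have hlt : Q.subgroupOf (R : Subgroup G) < ⊤ := by
      rw [lt_top_iff_ne_top, Ne, Subgroup.subgroupOf_eq_top]
      exact hne
    have : Group.IsNilpotent (R : Subgroup G) := R.2.isNilpotent
    have h1 := Group.normalizerCondition_of_isNilpotent (G := (R : Subgroup G)) _ hlt
    obtain ⟨x, hxN, hxQ⟩ := SetLike.exists_of_lt h1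
    rw [← Subgroup.subgroupOf_normalizer_eq hR, Subgroup.mem_subgroupOf, hnorm p hp hpd P] at hxN
    have hle : (P : Subgroup H) ≤ (R : Subgroup G).subgroupOf H := by
      intro y hy
      exact hR (Subgroup.mem_map_of_mem _ hy)
    have heq := P.3 (R.2.comap_of_injective H.subtype H.subtype_injective) hle
    refine hxQ ⟨⟨x, hxN⟩, ?_, rfl⟩
    rw [← heq]; exact x.2
  have hPn : ∀ p : ℕ, p.Prime → p ∣ Nat.card H → ∀ P : Sylow p H, (P : Subgroup H).Normal := by
    intro p hp hpd P
    constructor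
    intro x hx h
    have hh : (h : G) ∈ Subgroup.normalizer (((P : Subgroup H).map H.subtype : Subgroup G) : Set G) :=
      (hnorm p hp hpd P).symm ▸ h.2
    obtain ⟨y, hy, hye⟩ := (Subgroup.mem_normalizer_iff.1 hh (x : G)).1 ⟨x, hx, rfl⟩
    rwa [show h * x * h⁻¹ = y from Subtype.ext hye.symm]
  have hcompl : ∀ p : ℕ, p.Prime → p ∣ Nat.card H →
      ∃ N : Subgroup G, N.Normal ∧ ¬ p ∣ Nat.card N ∧ N.index = p ^ (Nat.card H).factorization p := by
    intro p hp hpd
    have := Fact.mk hp
    obtain ⟨P⟩ : Nonempty (Sylow p H) := inferInstance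
    obtain ⟨R, hR⟩ := hbig p hp hpd P
    -- a second prime
    obtain ⟨q, hq, hqd, hqp⟩ : ∃ q : ℕ, q.Prime ∧ q ∣ Nat.card H ∧ q ≠ p := by
      by_contra hcon
      push Not at hcon
      refine hnot p hp R (le_antisymm ?_ ?_)
      · rw [hR]; exact Subgroup.map_subtype_le _
      · have hHp : IsPGroup p H := IsPGroup.of_card (n := (Nat.card H).primeFactorsList.length)
          (Nat.eq_prime_pow_of_unique_prime_dvd Nat.card_pos.ne' fun {q} hq' hd => hcon q hq' hd)
        have htop : (P : Subgroup H) = ⊤ := (P.3 (hHp.to_subgroup ⊤) le_top).symm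
        rw [hR, htop, ← MonoidHom.range_eq_map, Subgroup.range_subtype]
    have := Fact.mk hq
    obtain ⟨Q⟩ : Nonempty (Sylow q H) := inferInstance
    obtain ⟨RQ, hRQ⟩ := hbig q hq hqd Q
    have hPQ : ∀ y ∈ (P : Subgroup H), ∀ z ∈ (Q : Subgroup H), z * y = y * z := fun y hy z hz =>
      ((Subgroup.commute_of_normal_of_disjoint _ _ (hPn p hp hpd P) (hPn q hq hqd Q)
        (IsPGroup.disjoint_of_ne p q (Ne.symm hqp) _ _ P.2 Q.2) y z hy hz).eq).symm
    -- `H` controls fusion in `P`
    have hfus : ∀ y₁ ∈ (P : Subgroup H), ∀ y₂ ∈ (P : Subgroup H), ∀ g : G,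
        (y₂ : G) = g * y₁ * g⁻¹ → ∃ h : H, y₂ = h * y₁ * h⁻¹ := by
      intro y₁ hy₁ y₂ hy₂ g hg
      set C : Subgroup G := Subgroup.centralizer ({(y₂ : G)} : Set G) with hC
      have h1 : (RQ : Subgroup G) ≤ C := by
        rw [hRQ]
        rintro _ ⟨z, hz, rfl⟩
        exact Subgroup.mem_centralizer_singleton_iff.2 (congrArg Subtype.val (hPQ y₂ hy₂ z hz))
      have h2 : ((g • RQ : Sylow q G) : Subgroup G) ≤ C := by
        rw [Sylow.coe_subgroup_smul, hRQ]
        intro x hx
        rw [Subgroup.mem_pointwise_smul_iff_inv_smul_mem] at hx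
        obtain ⟨z, hz, hzx⟩ := hx
        have hx' : x = g * z * g⁻¹ := by
          have : (MulAut.conj g)⁻¹ • x = (z : G) := hzx.symm
          rw [← map_inv, MulAut.smul_def, MulAut.conj_apply, inv_inv] at this
          rw [← this]; group
        have h3 : (z : G) * y₁ = y₁ * z := congrArg Subtype.val (hPQ y₁ hy₁ z hz)
        rw [Subgroup.mem_centralizer_singleton_iff, hx', hg]
        calc g * z * g⁻¹ * (g * y₁ * g⁻¹) = g * ((z : G) * y₁) * g⁻¹ := by group
          _ = _ := by rw [h3]; group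
      obtain ⟨c, hc⟩ := MulAction.exists_smul_eq C ((g • RQ).subtype h2) (RQ.subtype h1)
      rw [Sylow.smul_subtype] at hc
      have hc' : (c : G) • g • RQ = RQ := Sylow.subtype_injective hc
      rw [← mul_smul, Sylow.smul_eq_iff_mem_normalizer] at hc'
      change (c : G) * g ∈ Subgroup.normalizer ((RQ : Subgroup G) : Set G) at hc'
      rw [hRQ, hnorm q hq hqd Q] at hc'
      refine ⟨⟨_, hc'⟩, Subtype.ext ?_⟩
      simp only [Subgroup.coe_mul, InvMemClass.coe_inv]
      have h4 : (c : G) * y₂ = y₂ * c := Subgroup.mem_centralizer_singleton_iff.1 c.2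
      calc (y₂ : G) = (c : G) * y₂ * (c : G)⁻¹ := by rw [h4]; group
        _ = _ := by rw [hg]; group
    have hsup : (P : Subgroup H) ⊔ Subgroup.centralizer ((P : Subgroup H) : Set H) = ⊤ := by
      refine Subgroup.eq_top_of_card_eq _ (Nat.dvd_antisymm (Subgroup.card_subgroup_dvd_card _) ?_)
      rw [← Nat.factorization_prime_le_iff_dvd Nat.card_pos.ne' Nat.card_pos.ne']
      intro r hr
      by_cases hrd : r ∣ Nat.card H
      · have := Fact.mk hr
        obtain ⟨T⟩ : Nonempty (Sylow r H) := inferInstance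
        have hT : (T : Subgroup H) ≤ (P : Subgroup H) ⊔ Subgroup.centralizer ((P : Subgroup H) : Set H) := by
          by_cases hrp : r = p
          · subst hrp
            have := Sylow.unique_of_normal P (hPn r hp hpd P)
            rw [Subsingleton.elim T P]; exact le_sup_left
          · refine le_sup_of_le_right fun z hz => Subgroup.mem_centralizer_iff.2 fun y hy => ?_
            exact (Subgroup.commute_of_normal_of_disjoint _ _ (hPn p hp hpd P) (hPn r hr hrd T)
              (IsPGroup.disjoint_of_ne p r (Ne.symm hrp) _ _ P.2 T.2) y z hy hz).eq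
        have h5 := T.card_eq_multiplicity ▸ Subgroup.card_dvd_of_le hT
        exact (Nat.Prime.pow_dvd_iff_le_factorization hr Nat.card_pos.ne').1 h5
      · rw [Nat.factorization_eq_zero_of_not_dvd hrd]; exact Nat.zero_le _
    have hiter : ∀ i, (fun K : Subgroup G => Subgroup.focalSubgroup K)^[i] (R : Subgroup G) ≤
        (R : Subgroup G).lowerCentralSeries i := by
      intro i
      induction i with
      | zero => exact le_rfl
      | succ i ih =>
        rw [Function.iterate_succ_apply', Subgroup.lowerCentralSeries_succ]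
        refine (CfsgLib.FocalSeries.focalSubgroup_mono ih).trans ?_
        rw [Subgroup.focalSubgroup_def, Subgroup.closure_le]
        rintro z ⟨hz, x, hx, u, rfl⟩
        have hle : (R : Subgroup G).lowerCentralSeries i ≤ (R : Subgroup G) :=
          (Subgroup.lowerCentralSeries_antitone _ (Nat.zero_le i)).trans le_rfl
        obtain ⟨y₁, hy₁, hy₁e⟩ := (hR ▸ (Subgroup.inv_mem _ (hle hx) : x⁻¹ ∈ (R : Subgroup G)) :
          x⁻¹ ∈ (P : Subgroup H).map H.subtype)
        have hu : u * x⁻¹ * u⁻¹ ∈ (R : Subgroup G) := by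
          have he : u * x⁻¹ * u⁻¹ = x⁻¹ * ⁅x, u⁆ := by rw [commutatorElement_def]; group
          rw [he]
          exact Subgroup.mul_mem _ (Subgroup.inv_mem _ (hle hx)) (hle hz)
        obtain ⟨y₂, hy₂, hy₂e⟩ := (hR ▸ hu : u * x⁻¹ * u⁻¹ ∈ (P : Subgroup H).map H.subtype)
        rw [Subgroup.coe_subtype] at hy₁e hy₂e
        obtain ⟨h, hh⟩ := hfus y₁ hy₁ y₂ hy₂ u (by rw [hy₁e, hy₂e])
        obtain ⟨a, ha, hae⟩ := CfsgLib.FocalSeries.conj_eq_of_sup_centralizer (hPn p hp hpd P) hsup h
        rw [hae y₁ hy₁] at hh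
        have h6 : u * x⁻¹ * u⁻¹ = (a : G) * x⁻¹ * (a : G)⁻¹ := by
          rw [← hy₂e, ← hy₁e, hh]; rfl
        have haR : (a : G) ∈ (R : Subgroup G) := hR ▸ Subgroup.mem_map_of_mem _ ha
        have he : ⁅x, u⁆ = ⁅x, (a : G)⁆ := by
          rw [commutatorElement_def, commutatorElement_def]
          calc x * u * x⁻¹ * u⁻¹ = x * (u * x⁻¹ * u⁻¹) := by group
            _ = _ := by rw [h6]; group
        rw [he]
        exact Subgroup.commutator_mem_commutator hx haR
    obtain ⟨n, hn⟩ := (Subgroup.isNilpotent_iff_lowerCentralSeries (R : Subgroup G)).1 R.2.isNilpotent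
    obtain ⟨N, hNn, hNc⟩ := CfsgLib.FocalSeries.exists_normal_complement (n := n) R.card_coprime_index
      (le_bot_iff.1 (hn ▸ hiter n))
    refine ⟨N, hNn, ?_, ?_⟩
    · rw [← hNc.index_eq_card]; exact R.not_dvd_index
    · rw [hNc.symm.index_eq_card, hR, Subgroup.card_subtype, P.card_eq_multiplicity]
  choose! N hNn hNd hNi using hcompl
  set ι := (Nat.card H).primeFactors with hι
  refine ⟨⨅ p : ι, N p, ?_, ?_⟩
  · refine Subgroup.normal_iInf_normal fun p => ?_
    have := Nat.mem_primeFactors.1 p.2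
    exact hNn p this.1 this.2.1
  set M : Subgroup G := ⨅ p : ι, N p with hM
  have hdisj : M ⊓ H = ⊥ := by
    rw [← Subgroup.card_eq_one]
    by_contra hne
    obtain ⟨p, hp, hpd⟩ := Nat.exists_prime_and_dvd hne
    have hpH : p ∣ Nat.card H := hpd.trans (Subgroup.card_dvd_of_le inf_le_right)
    exact hNd p hp hpH (hpd.trans (Subgroup.card_dvd_of_le (inf_le_left.trans
      (iInf_le (fun q : ι => N q) ⟨p, Nat.mem_primeFactors.2 ⟨hp, hpH, Nat.card_pos.ne'⟩⟩))))
  have hle : M.index ≤ Nat.card H := by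
    refine (Subgroup.index_iInf_le _).trans (le_of_eq ?_)
    rw [Finset.prod_congr rfl fun (p : ι) _ => hNi p (Nat.mem_primeFactors.1 p.2).1
      (Nat.mem_primeFactors.1 p.2).2.1]
    rw [Finset.prod_coe_sort ι (fun p => p ^ (Nat.card H).factorization p)]
    exact Nat.factorization_prod_pow_eq_self Nat.card_pos.ne'
  have hMn : M.Normal := Subgroup.normal_iInf_normal fun p =>
    hNn p (Nat.mem_primeFactors.1 p.2).1 (Nat.mem_primeFactors.1 p.2).2.1
  have h8 : M.relIndex H = Nat.card H := by
    rw [← Subgroup.inf_relIndex_right, hdisj, Subgroup.relIndex_bot_left]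
  have h9 : M.relIndex H = M.relIndex (H ⊔ M) := (Subgroup.relIndex_sup_right (H := H) (K := M)).symm
  have h10 : M.relIndex (H ⊔ M) * (H ⊔ M).index = M.index := Subgroup.relIndex_mul_index le_sup_right
  rw [← h9, h8] at h10
  refine Subgroup.isComplement'_of_disjoint_and_mul_eq_univ (disjoint_iff.2 hdisj) ?_
  rw [← Subgroup.normal_mul, sup_comm, ← Subgroup.coe_top, SetLike.coe_set_eq, ← Subgroup.index_eq_one]
  have hpos : 0 < (H ⊔ M).index := Nat.pos_of_ne_zero Subgroup.index_ne_zero_of_finite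
  have hHpos : 0 < Nat.card H := Nat.card_pos
  nlinarith

end Cfsg.Agent.S0558
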