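import Cfsg.Statements.S0559
import Mathlib.Tactic.Group
import Mathlib.Algebra.Group.Subgroup.Finite

set_option autoImplicit false
open Pointwise
open Cfsg
open scoped commutatorElement

namespace Cfsg.Agent.S0559

/-- Let G = HK be a finite group (every element a product of an element of H and an element of K), and let A and B be conjugates of H and K. Then every element is a product of an element of A and one of B, and there is g with A = gHg⁻¹ and B = gKg⁻¹ simultaneously. -/
theorem result {G : Type*} [Group G] [Finite G] (H K A B : Subgroup G) (hHK : ∀ g : G, ∃ h ∈ H, ∃ k ∈ K, g = h * k) (hA : ∃ x : G, A = MulAut.conj x • H) (hB : ∃ y : G, B = MulAut.conj y • K) : (∀ g : G, ∃ a ∈ A, ∃ b ∈ B, g = a * b) ∧ ∃ g : G, A = MulAut.conj g • H ∧ B = MulAut.conj g • K := by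
  obtain ⟨x, rfl⟩ := hA
  obtain ⟨y, rfl⟩ := hB
  obtain ⟨h, hh, k, hk, hxy⟩ := hHK (x⁻¹ * y)
  have hy : y = x * h * k := by rw [mul_assoc, ← hxy]; group
  have hA' : MulAut.conj x • H = MulAut.conj (x * h) • H := by
    rw [map_mul, mul_smul, Subgroup.conj_smul_eq_self_of_mem hh]
  have hB' : MulAut.conj y • K = MulAut.conj (x * h) • K := by
    rw [hy, map_mul, mul_smul, Subgroup.conj_smul_eq_self_of_mem hk]
  refine ⟨fun z => ?_, x * h, hA', hB'⟩
  obtain ⟨h', hh', k', hk', hz⟩ := hHK ((x * h)⁻¹ * z * (x * h))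
  refine ⟨x * h * h' * (x * h)⁻¹, ?_, x * h * k' * (x * h)⁻¹, ?_, ?_⟩
  · rw [hA']
    exact ⟨h', hh', by simp [mul_assoc]⟩
  · rw [hB']
    exact ⟨k', hk', by simp [mul_assoc]⟩
  · calc z = (x * h) * ((x * h)⁻¹ * z * (x * h)) * (x * h)⁻¹ := by group
      _ = _ := by rw [hz]; group

end Cfsg.Agent.S0559
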