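import Cfsg.Statements.S0560
import Cfsg.Agent.SolvableStructure.Product


set_option autoImplicit false
open Pointwise
open Cfsg
open scoped commutatorElement Pointwise

namespace Cfsg.Agent.S0560

/-- Let the finite group G be the product HK of two subgroups and p a prime. Then there are Sylow p-subgroups P of H and Q of K and a Sylow p-subgroup R of G whose underlying set is the product set of P and Q. -/
theorem result {G : Type*} [Group G] [Finite G] (H K : Subgroup G) (hHK : ∀ g : G, ∃ h ∈ H, ∃ k ∈ K, g = h * k) (p : ℕ) [Fact p.Prime] : ∃ (P : Sylow p H) (Q : Sylow p K) (R : Sylow p G), ((R : Subgroup G) : Set G) = (((P : Subgroup H).map H.subtype : Subgroup G) : Set G) * (((Q : Subgroup K).map K.subtype : Subgroup G) : Set G) := by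
  have hp : p.Prime := Fact.out
  obtain ⟨P0⟩ : Nonempty (Sylow p H) := inferInstance
  obtain ⟨R0, hR0⟩ := (P0.2.map H.subtype).exists_le_sylow
  obtain ⟨Q0⟩ : Nonempty (Sylow p K) := inferInstance
  obtain ⟨S, hS⟩ := (Q0.2.map K.subtype).exists_le_sylow
  obtain ⟨x, hx⟩ := MulAction.exists_smul_eq G S R0
  obtain ⟨h, hh, k, hk, hxe⟩ := hHK x
  set R : Sylow p G := h⁻¹ • R0 with hR
  set P : Sylow p H := (⟨h, hh⟩ : H)⁻¹ • P0 with hP
  set Q : Sylow p K := (⟨k, hk⟩ : K) • Q0 with hQ
  set P' := (P : Subgroup H).map H.subtype with hP'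
  set Q' := (Q : Subgroup K).map K.subtype with hQ'
  have hPR : P' ≤ (R : Subgroup G) := by
    rintro _ ⟨y, hy, rfl⟩
    rw [hP, SetLike.mem_coe, Sylow.coe_subgroup_smul, Subgroup.mem_pointwise_smul_iff_inv_smul_mem] at hy
    rw [hR, Sylow.coe_subgroup_smul, Subgroup.mem_pointwise_smul_iff_inv_smul_mem]
    have := hR0 (Subgroup.mem_map_of_mem _ hy)
    simpa [MulAut.smul_def, mul_assoc] using this
  have hQR : Q' ≤ (R : Subgroup G) := by
    rintro _ ⟨y, hy, rfl⟩
    rw [hQ, SetLike.mem_coe, Sylow.coe_subgroup_smul, Subgroup.mem_pointwise_smul_iff_inv_smul_mem] at hy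
    have := hS (Subgroup.mem_map_of_mem _ hy)
    rw [hR, ← hx, smul_smul, Sylow.coe_subgroup_smul, Subgroup.mem_pointwise_smul_iff_inv_smul_mem,
      show h⁻¹ * x = k by rw [hxe, inv_mul_cancel_left]]
    simpa [MulAut.smul_def, mul_assoc] using this
  refine ⟨P, Q, R, ?_⟩
  have hkey : Q'.relIndex (R : Subgroup G) ≤ Q'.relIndex P' := by
    have hc0 : Nat.card (P' ⊓ Q' : Subgroup G) ≤ p ^ (Nat.card (H ⊓ K : Subgroup G)).factorization p := by
      obtain ⟨i, hi⟩ := IsPGroup.iff_card.1 ((P.2.map H.subtype).to_le (inf_le_left : P' ⊓ Q' ≤ P'))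
      rw [hi]
      refine Nat.pow_le_pow_right hp.pos ?_
      rw [← hp.pow_dvd_iff_le_factorization Nat.card_pos.ne', ← hi]
      exact Subgroup.card_dvd_of_le (inf_le_inf (Subgroup.map_subtype_le _) (Subgroup.map_subtype_le _))
    have hcP : Nat.card P' = p ^ (Nat.card H).factorization p := by
      rw [hP', Subgroup.card_subtype, P.card_eq_multiplicity]
    have hcQ : Nat.card Q' = p ^ (Nat.card K).factorization p := by
      rw [hQ', Subgroup.card_subtype, Q.card_eq_multiplicity]
    have h1 : Nat.card (H ⊓ K : Subgroup G) * K.index = Nat.card H := by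
      rw [← CfsgLib.Product.relIndex_eq_index_of_mul hHK, ← Subgroup.inf_relIndex_left]
      rw [← Nat.card_congr (Subgroup.subgroupOfEquivOfLe (inf_le_left : H ⊓ K ≤ H)).toEquiv]
      exact Subgroup.card_mul_index _
    have hG : (Nat.card G).factorization p + (Nat.card (H ⊓ K : Subgroup G)).factorization p =
        (Nat.card H).factorization p + (Nat.card K).factorization p := by
      rw [← h1, ← K.card_mul_index, Nat.factorization_mul Nat.card_pos.ne' Subgroup.index_ne_zero_of_finite,
        Nat.factorization_mul Nat.card_pos.ne' Subgroup.index_ne_zero_of_finite]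
      simp only [Finsupp.add_apply]
      omega
    have hrelR : Nat.card Q' * Q'.relIndex (R : Subgroup G) = Nat.card (R : Subgroup G) := by
      rw [← Nat.card_congr (Subgroup.subgroupOfEquivOfLe hQR).toEquiv]
      exact Subgroup.card_mul_index _
    have hrelP : Nat.card (P' ⊓ Q' : Subgroup G) * Q'.relIndex P' = Nat.card P' := by
      rw [← Subgroup.inf_relIndex_left, ← Nat.card_congr (Subgroup.subgroupOfEquivOfLe (inf_le_left : P' ⊓ Q' ≤ P')).toEquiv]
      exact Subgroup.card_mul_index _
    rw [hcQ, R.card_eq_multiplicity] at hrelR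
    rw [hcP] at hrelP
    have h2 : p ^ (Nat.card H).factorization p * p ^ (Nat.card K).factorization p ≤
        p ^ (Nat.card (H ⊓ K : Subgroup G)).factorization p * p ^ (Nat.card K).factorization p * Q'.relIndex P' := by
      rw [← hrelP, mul_right_comm]
      exact Nat.mul_le_mul_right _ (Nat.mul_le_mul_right _ hc0)
    rw [← pow_add, ← hG, pow_add, ← hrelR] at h2
    refine Nat.le_of_mul_le_mul_left ?_ (Nat.mul_pos (pow_pos hp.pos _) (pow_pos hp.pos _) :
      0 < p ^ (Nat.card (H ⊓ K : Subgroup G)).factorization p * p ^ (Nat.card K).factorization p)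
    calc _ = _ := by ring
      _ ≤ _ := h2
  ext y
  constructor
  · intro hy
    obtain ⟨a, ha, b, hb, rfl⟩ := CfsgLib.Product.exists_mul_of_relIndex_le hPR hkey y hy
    exact Set.mul_mem_mul ha hb
  · rintro ⟨a, ha, b, hb, rfl⟩
    exact mul_mem (hPR ha) (hQR hb)

end Cfsg.Agent.S0560
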