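import Cfsg.Statements.S0561
import Cfsg.Agent.S0559
import Cfsg.Agent.SolvableStructure.Product
import Cfsg.Agent.Solvable.Hall


set_option autoImplicit false
open Pointwise
open Cfsg

namespace Cfsg.Agent.S0561

open scoped Pointwise
open CfsgLib.Solvable

variable {G : Type*} [Group G] [Finite G]

theorem normal_hall_unique {H A A' : Subgroup G} (hA : A ≤ H) (hAn : (A.subgroupOf H).Normal)
    (hAh : (Nat.card A).Coprime A.index) (hA' : A' ≤ H) (hc : Nat.card A' = Nat.card A) : A' = A := by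
  refine Subgroup.eq_of_le_of_card_ge (fun a ha => ?_) hc.ge
  have h1 : orderOf ((⟨a, hA' ha⟩ : H) : H ⧸ A.subgroupOf H) ∣ orderOf (⟨a, hA' ha⟩ : H) :=
    orderOf_map_dvd (QuotientGroup.mk' _) _
  rw [Subgroup.orderOf_mk] at h1
  have h2 : orderOf ((⟨a, hA' ha⟩ : H) : H ⧸ A.subgroupOf H) ∣ A.index :=
    (orderOf_dvd_natCard _).trans (Dvd.intro _ (Subgroup.relIndex_mul_index hA))
  have h3 := Nat.eq_one_of_dvd_coprimes hAh ((h1.trans (A'.orderOf_dvd_natCard ha)).trans hc.dvd) h2
  have h4 : (⟨a, hA' ha⟩ : H) ∈ A.subgroupOf H := (QuotientGroup.eq_one_iff _).1 (orderOf_eq_one_iff.1 h3)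
  exact h4

theorem conj_hall_eq {H A : Subgroup G} (hA : A ≤ H) (hAn : (A.subgroupOf H).Normal)
    (hAh : (Nat.card A).Coprime A.index) {x g : G} (h : MulAut.conj x • H = MulAut.conj g • H) :
    MulAut.conj x • A = MulAut.conj g • A := by
  have h1 : MulAut.conj g⁻¹ • MulAut.conj x • A = A := by
    refine normal_hall_unique hA hAn hAh ?_ (by rw [card_conj_smul, card_conj_smul])
    calc MulAut.conj g⁻¹ • MulAut.conj x • A ≤ MulAut.conj g⁻¹ • MulAut.conj x • H :=
          Subgroup.pointwise_smul_le_pointwise_smul_iff.2 (Subgroup.pointwise_smul_le_pointwise_smul_iff.2 hA)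
      _ = H := by rw [h, map_inv, inv_smul_smul]
  rw [map_inv, inv_smul_eq_iff] at h1
  exact h1

theorem exists_perm [Group.IsSolvable G] (H K A B : Subgroup G) (hHK : ∀ g : G, ∃ h ∈ H, ∃ k ∈ K, g = h * k)
    (hA : A ≤ H) (hAn : (A.subgroupOf H).Normal) (hB : B ≤ K) (hBn : (B.subgroupOf K).Normal)
    (hAh : (Nat.card A).Coprime A.index) (hBh : (Nat.card B).Coprime B.index) :
    ∃ S : Subgroup G, (S : Set G) = (A : Set G) * (B : Set G) := by
  set σ : Set ℕ := {p | p ∣ Nat.card A ∨ p ∣ Nat.card B} with hσ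
  obtain ⟨U, hAU, hU, hU'⟩ := exists_piHall_ge σ A (fun p _ hpd => Or.inl hpd)
  obtain ⟨g, hg⟩ := exists_le_conj_piHall σ U B hU hU' (fun p _ hpd => Or.inr hpd)
  set B' : Subgroup G := MulAut.conj g⁻¹ • B with hB'
  have hB'U : B' ≤ U := by
    rw [hB', map_inv, Subgroup.pointwise_smul_subset_iff, inv_inv]; exact hg
  have hB'i : B'.index = B.index := by
    rw [hB', conj_smul_eq_map, Subgroup.index_map_of_bijective (MulAut.conj g⁻¹).bijective]
  have hcop : (A.relIndex U).Coprime (B'.relIndex U) := by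
    refine Nat.coprime_of_dvd fun p hp h1 h2 => ?_
    have hpU : p ∣ Nat.card U := h1.trans (Subgroup.index_dvd_card _)
    rcases hU p hp hpU with h | h
    · exact hp.ne_one (Nat.eq_one_of_dvd_coprimes hAh h
        (h1.trans (Dvd.intro _ (Subgroup.relIndex_mul_index hAU))))
    · exact hp.ne_one (Nat.eq_one_of_dvd_coprimes hBh h
        (hB'i ▸ h2.trans (Dvd.intro _ (Subgroup.relIndex_mul_index hB'U))))
  have hprod : ∀ u ∈ U, ∃ a ∈ A, ∃ b ∈ B', u = a * b := by
    intro u hu
    obtain ⟨a, ha, b, hb, hab⟩ := CfsgLib.Product.exists_mul_of_coprime_index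
      (H := A.subgroupOf U) (K := B'.subgroupOf U) hcop ⟨u, hu⟩
    exact ⟨a, ha, b, hb, congrArg Subtype.val hab⟩
  obtain ⟨h, hh, k, hk, hgk⟩ := hHK g⁻¹
  have hkB : MulAut.conj k • B = B := by
    refine normal_hall_unique hB hBn hBh ?_ (card_conj_smul k B)
    calc MulAut.conj k • B ≤ MulAut.conj k • K := Subgroup.pointwise_smul_le_pointwise_smul_iff.2 hB
      _ = K := Subgroup.conj_smul_eq_self_of_mem hk
  have hhA : MulAut.conj h • A = A := by
    refine normal_hall_unique hA hAn hAh ?_ (card_conj_smul h A)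
    calc MulAut.conj h • A ≤ MulAut.conj h • H := Subgroup.pointwise_smul_le_pointwise_smul_iff.2 hA
      _ = H := Subgroup.conj_smul_eq_self_of_mem hh
  have hB'h : B' = MulAut.conj h • B := by rw [hB', hgk, map_mul, mul_smul, hkB]
  refine ⟨MulAut.conj h⁻¹ • U, ?_⟩
  have hset : (U : Set G) = (A : Set G) * (B' : Set G) := by
    refine Set.Subset.antisymm (fun u hu => ?_) (Set.mul_subset_iff.2 fun a ha b hb => mul_mem (hAU ha) (hB'U hb))
    obtain ⟨a, ha, b, hb, rfl⟩ := hprod u hu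
    exact Set.mul_mem_mul ha hb
  have hA1 : MulAut.conj h⁻¹ • A = A := by rw [map_inv, inv_smul_eq_iff, hhA]
  have hB1 : MulAut.conj h⁻¹ • B' = B := by rw [hB'h, map_inv, inv_smul_smul]
  rw [Subgroup.coe_pointwise_smul, hset, smul_mul', ← Subgroup.coe_pointwise_smul, ← Subgroup.coe_pointwise_smul, hA1, hB1]


/-- Let the finite solvable group G be the product HK of subgroups, and let A be normal in H and B normal in K, where A and B are Hall subgroups of G (order coprime to index). Then for all x, y the product set of xAx⁻¹ and yBy⁻¹ is a subgroup of G. -/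
theorem result {G : Type*} [Group G] [Finite G] [Group.IsSolvable G] (H K A B : Subgroup G) (hHK : ∀ g : G, ∃ h ∈ H, ∃ k ∈ K, g = h * k) (hA : A ≤ H) (hAn : (A.subgroupOf H).Normal) (hB : B ≤ K) (hBn : (B.subgroupOf K).Normal) (hAh : (Nat.card A).Coprime A.index) (hBh : (Nat.card B).Coprime B.index) (x y : G) : ∃ S : Subgroup G, (S : Set G) = ((MulAut.conj x • A : Subgroup G) : Set G) * ((MulAut.conj y • B : Subgroup G) : Set G) := by
  obtain ⟨-, g, hgH, hgK⟩ := Cfsg.Agent.S0559.result H K (MulAut.conj x • H) (MulAut.conj y • K) hHK ⟨x, rfl⟩ ⟨y, rfl⟩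
  have hA' := conj_hall_eq hA hAn hAh hgH
  have hB' := conj_hall_eq hB hBn hBh hgK
  obtain ⟨S, hS⟩ := exists_perm H K A B hHK hA hAn hB hBn hAh hBh
  refine ⟨MulAut.conj g • S, ?_⟩
  rw [hA', hB', Subgroup.coe_pointwise_smul, Subgroup.coe_pointwise_smul, Subgroup.coe_pointwise_smul, hS, smul_mul']

end Cfsg.Agent.S0561
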