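import Cfsg.Statements.S0562
import Mathlib.Tactic.Group
import Mathlib.Algebra.Group.Subgroup.Finite

set_option autoImplicit false
open Cfsg
open scoped commutatorElement

namespace Cfsg.Agent.S0562

/-- Let the finite group G be the product HK of subgroups, A normal in H, B normal in K, and L the normalizer of the subgroup generated by A and B. Then every element of L is a product of an element of L ∩ H and an element of L ∩ K. -/
theorem result {G : Type*} [Group G] [Finite G] (H K A B : Subgroup G) (hHK : ∀ g : G, ∃ h ∈ H, ∃ k ∈ K, g = h * k) (hA : A ≤ H) (hAn : (A.subgroupOf H).Normal) (hB : B ≤ K) (hBn : (B.subgroupOf K).Normal) : ∀ g ∈ Subgroup.normalizer ((A ⊔ B : Subgroup G) : Set G), ∃ h ∈ Subgroup.normalizer ((A ⊔ B : Subgroup G) : Set G) ⊓ H, ∃ k ∈ Subgroup.normalizer ((A ⊔ B : Subgroup G) : Set G) ⊓ K, g = h * k := by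
  intro g hg
  obtain ⟨h, hh, k, hk, hgk⟩ := hHK g
  have hkN : k⁻¹ ∈ Subgroup.normalizer ((A ⊔ B : Subgroup G) : Set G) := by
    apply Subgroup.mem_normalizer_fintype
    have key : A ⊔ B ≤ (A ⊔ B).comap (MulAut.conj k⁻¹).toMonoidHom := by
      refine sup_le (fun a ha => ?_) (fun b hb => ?_)
      · simp only [Subgroup.mem_comap, MulEquiv.coe_toMonoidHom, MulAut.conj_apply, inv_inv]
        have h1 : h * a * h⁻¹ ∈ A := hAn.conj_mem ⟨a, hA ha⟩ ha ⟨h, hh⟩
        have h2 := (Subgroup.mem_normalizer_iff''.1 hg (h * a * h⁻¹)).1 (Subgroup.mem_sup_left h1)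
        convert h2 using 1
        rw [hgk]; group
      · simp only [Subgroup.mem_comap, MulEquiv.coe_toMonoidHom, MulAut.conj_apply, inv_inv]
        have h1 : k⁻¹ * b * k⁻¹⁻¹ ∈ B := hBn.conj_mem ⟨b, hB hb⟩ hb ⟨k⁻¹, K.inv_mem hk⟩
        exact Subgroup.mem_sup_right (by simpa using h1)
    intro n hn
    have := key hn
    simpa using this
  have hkN' : k ∈ Subgroup.normalizer ((A ⊔ B : Subgroup G) : Set G) := by
    simpa using Subgroup.inv_mem _ hkN
  refine ⟨h, ⟨?_, hh⟩, k, ⟨hkN', hk⟩, hgk⟩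
  have : h = g * k⁻¹ := by rw [hgk]; group
  rw [this]
  exact Subgroup.mul_mem _ hg hkN

end Cfsg.Agent.S0562
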