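import Cfsg.Statements.S0567
import Mathlib.Tactic.Group
import Mathlib.Algebra.Group.Subgroup.Finite

set_option autoImplicit false
open Cfsg
open scoped commutatorElement

namespace Cfsg.Agent.S0567

/-- A subgroup H of a group G is subnormal exactly when, for some m, the subgroup obtained from G by taking the commutator with H m times in succession is contained in H. -/
theorem result {G : Type*} [Group G] (H : Subgroup G) : H.IsSubnormal ↔ ∃ m : ℕ, (fun K : Subgroup G => ⁅K, H⁆)^[m] ⊤ ≤ H := by
  set f : Subgroup G → Subgroup G := fun K => ⁅K, H⁆ with hf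
  constructor
  · intro hH
    suffices ∀ K : Subgroup G, K.IsSubnormal → H ≤ K → ∃ m, f^[m] ⊤ ≤ K from this H hH le_rfl
    intro K hK
    induction hK with
    | top => exact fun _ => ⟨0, le_top⟩
    | step K L hle _ hN ih =>
      intro hHK
      obtain ⟨m, hm⟩ := ih (hHK.trans hle)
      refine ⟨m + 1, ?_⟩
      rw [Function.iterate_succ_apply']
      refine (Subgroup.commutator_mono hm hHK).trans (Subgroup.commutator_le.2 fun a ha b hb => ?_)
      have h1 : a * b * a⁻¹ ∈ K := hN.conj_mem ⟨b, hle hb⟩ hb ⟨a, ha⟩
      rw [commutatorElement_def]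
      exact K.mul_mem h1 (K.inv_mem hb)
  · rintro ⟨m, hm⟩
    have hnorm : ∀ n, ∀ h ∈ H, ∀ x ∈ f^[n] ⊤, h * x * h⁻¹ ∈ f^[n] ⊤ := by
      intro n
      induction n with
      | zero => intros; exact Subgroup.mem_top _
      | succ n ih =>
        intro h hh x hx
        rw [Function.iterate_succ_apply'] at hx ⊢
        suffices ⁅f^[n] ⊤, H⁆ ≤ (⁅f^[n] ⊤, H⁆).comap (MulAut.conj h).toMonoidHom by
          simpa using this hx
        refine Subgroup.commutator_le.2 fun a ha b hb => ?_
        simp only [Subgroup.mem_comap, MulEquiv.coe_toMonoidHom, map_commutatorElement,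
          MulAut.conj_apply]
        exact Subgroup.commutator_mem_commutator (ih h hh a ha)
          (H.mul_mem (H.mul_mem hh hb) (H.inv_mem hh))
    have hself : ∀ n, ∀ c ∈ f^[n] ⊤, ∀ x ∈ f^[n + 1] ⊤, c * x * c⁻¹ ∈ f^[n + 1] ⊤ := by
      intro n c hc x hx
      rw [Function.iterate_succ_apply'] at hx ⊢
      suffices ⁅f^[n] ⊤, H⁆ ≤ (⁅f^[n] ⊤, H⁆).comap (MulAut.conj c).toMonoidHom by
        simpa using this hx
      refine Subgroup.commutator_le.2 fun a ha b hb => ?_
      simp only [Subgroup.mem_comap, MulEquiv.coe_toMonoidHom, MulAut.conj_apply]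
      have he : c * ⁅a, b⁆ * c⁻¹ = ⁅c * a, b⁆ * ⁅c, b⁆⁻¹ := by
        simp only [commutatorElement_def]; group
      rw [he]
      exact Subgroup.mul_mem _ (Subgroup.commutator_mem_commutator (Subgroup.mul_mem _ hc ha) hb)
        (Subgroup.inv_mem _ (Subgroup.commutator_mem_commutator hc hb))
    have key : ∀ n, (f^[n] ⊤ ⊔ H).IsSubnormal := by
      intro n
      induction n with
      | zero => simp
      | succ n ih =>
        have hgen : ∀ c ∈ f^[n] ⊤, ∀ h ∈ H, c * h * c⁻¹ ∈ f^[n + 1] ⊤ ⊔ H := by
          intro c hc h hh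
          have he : c * h * c⁻¹ = ⁅c, h⁆ * h := by simp only [commutatorElement_def]; group
          rw [he]
          refine Subgroup.mul_mem _ (Subgroup.mem_sup_left ?_) (Subgroup.mem_sup_right hh)
          rw [Function.iterate_succ_apply']
          exact Subgroup.commutator_mem_commutator hc hh
        have hle : f^[n + 1] ⊤ ⊔ H ≤ f^[n] ⊤ ⊔ H := by
          refine sup_le ?_ le_sup_right
          rw [Function.iterate_succ_apply']
          refine Subgroup.commutator_le.2 fun a ha b hb => ?_
          rw [commutatorElement_def]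
          have ha' : a ∈ f^[n] ⊤ ⊔ H := Subgroup.mem_sup_left ha
          have hb' : b ∈ f^[n] ⊤ ⊔ H := Subgroup.mem_sup_right hb
          exact mul_mem (mul_mem (mul_mem ha' hb') (inv_mem ha')) (inv_mem hb')
        refine Subgroup.IsSubnormal.step _ _ hle ih ?_
        set T : Subgroup G := f^[n + 1] ⊤ ⊔ H with hT
        have hle' : f^[n] ⊤ ⊔ H ≤ Subgroup.normalizer (T : Set G) := by
          have haux : ∀ S : Subgroup G,
              (∀ x ∈ S, T ≤ T.comap (MulAut.conj x).toMonoidHom) →
                S ≤ Subgroup.normalizer (T : Set G) := by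
            intro S hS x hx
            rw [Subgroup.mem_normalizer_iff]
            refine fun y => ⟨fun hy => by simpa using hS x hx hy, fun hy => ?_⟩
            have := hS x⁻¹ (S.inv_mem hx) hy
            simpa [mul_assoc] using this
          refine sup_le (haux _ fun c hc => sup_le (fun y hy => ?_) (fun y hy => ?_))
            ((le_sup_right : H ≤ T).trans Subgroup.le_normalizer)
          · exact Subgroup.mem_sup_left (T := H) (by simpa using hself n c hc y hy)
          · simpa using hgen c hc y hy
        rw [Subgroup.normal_subgroupOf_iff hle]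
        exact fun h x hh hx => (Subgroup.mem_normalizer_iff.1 (hle' hx) h).1 hh
    have h2 := key m
    rwa [sup_eq_right.2 hm] at h2

end Cfsg.Agent.S0567
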