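import Cfsg.Statements.S0568
import Mathlib
import Cfsg.Agent.Solvable.ComplementSystem
import Cfsg.Agent.S0065

set_option autoImplicit false
open Cfsg

namespace Cfsg.Agent.S0568

/-- Let D be the system normalizer of a Hall complement system of a finite solvable group G, and let A < B be normal subgroups with no normal subgroup of G strictly between them (a chief factor). If G centralizes B modulo A then B ≤ A ⊔ D (D covers the factor); otherwise B ∩ D ≤ A (D avoids it). -/
theorem result {G : Type*} [Group G] [Finite G] [Group.IsSolvable G] (K : Nat.Primes → Subgroup G) (hK : Cfsg.IsComplementSystem K) (A B : Subgroup G) [A.Normal] [B.Normal] (hAB : A < B) (hchief : ∀ N : Subgroup G, N.Normal → A ≤ N → N ≤ B → N = A ∨ N = B) : (⁅B, (⊤ : Subgroup G)⁆ ≤ A → B ≤ A ⊔ Cfsg.systemNormalizer K) ∧ (¬ ⁅B, (⊤ : Subgroup G)⁆ ≤ A → B ⊓ Cfsg.systemNormalizer K ≤ A) := by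
  classical
  set f := QuotientGroup.mk' A with hf
  have hfs := QuotientGroup.mk'_surjective A
  have hker : f.ker = A := QuotientGroup.ker_mk' A
  haveI hBn : (B.map f).Normal := Subgroup.Normal.map inferInstance f hfs
  have hcom : (B.map f).comap f = B := by rw [Subgroup.comap_map_eq, hker, sup_eq_left.2 hAB.le]
  constructor
  · intro hc x hx
    have hcen : f x ∈ Cfsg.systemNormalizer (fun p => (K p).map f) := by
      rw [CfsgLib.Solvable.mem_systemNormalizer]
      intro p
      ext y
      rw [CfsgLib.Solvable.mem_conj_smul_iff]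
      have hcy : (f x)⁻¹ * y * f x = y := by
        obtain ⟨w, rfl⟩ := hfs y
        rw [← map_inv, ← map_mul, ← map_mul, eq_comm, ← div_eq_one, ← map_div, QuotientGroup.mk'_apply,
          QuotientGroup.eq_one_iff]
        have h1 := hc (Subgroup.commutator_mem_commutator (inv_mem hx) (Subgroup.mem_top w))
        rw [commutatorElement_def] at h1
        have h2 := inv_mem h1
        simpa [div_eq_mul_inv, mul_assoc] using h2
      rw [hcy]
    rw [CfsgLib.Solvable.systemNormalizer_map hK A] at hcen
    have := Subgroup.mem_comap.2 hcen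
    rwa [Subgroup.comap_map_eq, hker, sup_comm] at this
  · intro hnc
    rintro x ⟨hxB, hxD⟩
    rw [← hker, MonoidHom.mem_ker]
    by_contra hx1
    have hne : B.map f ≠ ⊥ := fun h => by
      have := Subgroup.mem_map_of_mem f hxB
      rw [h, Subgroup.mem_bot] at this
      exact hx1 this
    have hmin : ∀ N : Subgroup (G ⧸ A), N.Normal → N ≤ B.map f → N = ⊥ ∨ N = B.map f := by
      intro N hN hle
      have h1 : A ≤ N.comap f := fun a ha => by
        rw [Subgroup.mem_comap, show f a = 1 from (QuotientGroup.eq_one_iff a).2 ha]; exact one_mem N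
      have h2 : N.comap f ≤ B := hcom ▸ Subgroup.comap_mono hle
      rcases hchief _ (hN.comap f) h1 h2 with h | h
      · left
        rw [← Subgroup.map_comap_eq_self_of_surjective hfs N, h, Subgroup.map_eq_bot_iff, hker]
      · right
        rw [← Subgroup.map_comap_eq_self_of_surjective hfs N, h]
    obtain ⟨hBa, p, hp, -, k, hk, hBc⟩ := CfsgLib.Solvable.minimal_normal_elementary (B.map f) inferInstance hne hmin
    haveI := Fact.mk hp
    set C := Subgroup.centralizer ((B.map f : Subgroup (G ⧸ A)) : Set (G ⧸ A)) with hC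
    haveI hCn : C.Normal := inferInstanceAs (Subgroup.centralizer ((B.map f : Subgroup (G ⧸ A)) : Set (G ⧸ A))).Normal
    have key : ∀ (M : Subgroup (G ⧸ A)) (y : G ⧸ A), M.Normal → y ∈ B.map f → y ≠ 1 →
        M ≤ Subgroup.centralizer {y} → M ≤ C := by
      intro M y hM hy hy1 hle
      haveI := hM
      rcases hmin (B.map f ⊓ Subgroup.centralizer (M : Set (G ⧸ A))) inferInstance inf_le_left with h | h
      · exfalso
        apply hy1
        rw [← Subgroup.mem_bot (G := G ⧸ A), ← h]
        exact ⟨hy, Subgroup.mem_centralizer_iff.2 fun m hm =>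
          ((Subgroup.mem_centralizer_iff.1 (hle hm)) y rfl).symm⟩
      · exact Subgroup.le_centralizer_iff.1 (h ▸ inf_le_right)
    have hCtop : C ≠ ⊤ := fun h => by
      apply hnc
      rw [Subgroup.commutator_le]
      intro b hb g _
      rw [← hker, MonoidHom.mem_ker, map_commutatorElement, commutatorElement_eq_one_iff_mul_comm]
      exact Subgroup.mem_centralizer_iff.1 (h ▸ Subgroup.mem_top (f g) : f g ∈ C) (f b) ⟨b, hb, rfl⟩
    -- the `p`-complement centralises `f x`
    set pp : Nat.Primes := ⟨p, hp⟩
    have hKx : (K pp).map f ≤ Subgroup.centralizer {f x} := by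
      rintro _ ⟨c, hc, rfl⟩
      rw [Subgroup.mem_centralizer_iff]
      rintro _ rfl
      rw [← commutatorElement_eq_one_iff_mul_comm]
      have hd : Disjoint (B.map f) ((K pp).map f) := by
        apply CfsgLib.Solvable.disjoint_of_coprime_card
        rw [hBc]
        exact (hp.coprime_iff_not_dvd.2
          (CfsgLib.Solvable.complementSystem_not_dvd (CfsgLib.Solvable.complementSystem_map hK A) pp)).pow_left k
      refine hd.le_bot ⟨?_, ?_⟩
      · rw [commutatorElement_def, mul_assoc, mul_assoc, ← mul_assoc (f c)]
        exact mul_mem (Subgroup.mem_map_of_mem f hxB)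
          (hBn.conj_mem _ (inv_mem (Subgroup.mem_map_of_mem f hxB)) (f c))
      · rw [← map_commutatorElement]
        refine Subgroup.mem_map_of_mem f ?_
        rw [commutatorElement_def]
        exact mul_mem ((Subgroup.mem_normalizer_iff.1
          (Subgroup.mem_iInf.1 hxD pp) c).1 hc) (inv_mem hc)
    -- a minimal normal subgroup above `C`
    set q := QuotientGroup.mk' C
    haveI : Nontrivial ((G ⧸ A) ⧸ C) := QuotientGroup.nontrivial_iff.2 hCtop
    obtain ⟨R, r, j, hRn, hR, -, -, hr, hj, hRc, -⟩ := CfsgLib.Solvable.exists_minimal_normal_of_solvable (G := (G ⧸ A) ⧸ C)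
    haveI := Fact.mk hr
    have hRC : ¬ R.comap q ≤ C := fun h => hR (by
      rw [← Subgroup.map_comap_eq_self_of_surjective (QuotientGroup.mk'_surjective C) R,
        Subgroup.map_eq_bot_iff, QuotientGroup.ker_mk']
      exact h)
    by_cases hrp : r = p
    · subst hrp
      obtain ⟨S⟩ : Nonempty (Sylow r (G ⧸ A)) := inferInstance
      have hBS : B.map f ≤ S := (IsPGroup.of_card hBc).le_sylow_of_normal S
      have hRS : R.comap q ≤ (S : Subgroup (G ⧸ A)) ⊔ C := by
        have h1 : R ≤ (S : Subgroup (G ⧸ A)).map q := by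
          have := (IsPGroup.of_card hRc).le_sylow_of_normal (S.mapSurjective (QuotientGroup.mk'_surjective C))
          rwa [Sylow.coe_mapSurjective] at this
        refine (Subgroup.comap_mono h1).trans ?_
        rw [Subgroup.comap_map_eq, QuotientGroup.ker_mk']
      -- a fixed point of `S` on `B.map f`
      haveI : Nontrivial ((B.map f).subgroupOf (S : Subgroup (G ⧸ A))) := by
        rw [← Finite.one_lt_card_iff_nontrivial, Nat.card_congr (Subgroup.subgroupOfEquivOfLe hBS).toEquiv, hBc]
        exact Nat.one_lt_pow hk.ne' hr.one_lt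
      haveI := S.isPGroup'.isNilpotent
      obtain ⟨⟨y, hyS⟩, ⟨hyB, hyc⟩, hy1⟩ := (Subgroup.bot_or_exists_ne_one _).resolve_left
        (Cfsg.Agent.S0065.result ((B.map f).subgroupOf (S : Subgroup (G ⧸ A))) ((Subgroup.nontrivial_iff_ne_bot _).1 inferInstance))
      refine hRC (key _ y (hRn.comap q) hyB (fun e => hy1 (Subtype.ext e)) (hRS.trans (sup_le ?_ ?_)))
      · intro s hs
        rw [Subgroup.mem_centralizer_iff]
        intro z hz
        rw [Set.mem_singleton_iff] at hz
        subst hz
        exact (congrArg Subtype.val (Subgroup.mem_center_iff.1 hyc ⟨s, hs⟩)).symm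
      · intro c hc
        rw [Subgroup.mem_centralizer_iff]
        intro z hz
        rw [Set.mem_singleton_iff] at hz
        subst hz
        exact Subgroup.mem_centralizer_iff.1 hc _ hyB
    · have hRK : R ≤ ((K pp).map f).map q := by
        intro z hz
        have h1 : ((((K pp).map f).map q)).index ∣ p ^ (Nat.card G).factorization p := by
          refine (Subgroup.index_map_dvd _ (QuotientGroup.mk'_surjective C)).trans ?_
          refine (Subgroup.index_map_dvd _ hfs).trans ?_
          rw [hK pp]
        have h2 : ((((K pp).map f).map q)).relIndex R = 1 := by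
          refine Nat.eq_one_of_dvd_coprimes ?_
            ((CfsgLib.Solvable.relIndex_dvd_index_right R _).trans h1) (Subgroup.relIndex_dvd_card _ R)
          rw [hRc]
          exact Nat.Coprime.pow _ _ ((Nat.coprime_primes hp hr).2 (Ne.symm hrp))
        exact Subgroup.relIndex_eq_one.1 h2 hz
      have hle : R.comap q ≤ (K pp).map f ⊔ C := by
        refine (Subgroup.comap_mono hRK).trans ?_
        rw [Subgroup.comap_map_eq, QuotientGroup.ker_mk']
      refine hRC (key _ (f x) (hRn.comap q) (Subgroup.mem_map_of_mem f hxB) hx1 (hle.trans (sup_le hKx ?_)))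
      intro c hc
      rw [Subgroup.mem_centralizer_iff]
      rintro _ rfl
      exact Subgroup.mem_centralizer_iff.1 hc (f x) (Subgroup.mem_map_of_mem f hxB)

end Cfsg.Agent.S0568
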