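import Cfsg.Statements.S0569
import Mathlib
import Cfsg.Agent.Solvable.Carter

set_option autoImplicit false
open Cfsg

namespace Cfsg.Agent.S0569

open scoped Pointwise
/-- In a finite solvable group: each nilpotent self-normalizing subgroup contains the system normalizer of some Hall complement system, and the system normalizer of any Hall complement system lies in some nilpotent self-normalizing subgroup. -/
theorem result {G : Type*} [Group G] [Finite G] [Group.IsSolvable G] : (∀ C : Subgroup G, Cfsg.IsCarterSubgroup C → ∃ K : Nat.Primes → Subgroup G, Cfsg.IsComplementSystem K ∧ Cfsg.systemNormalizer K ≤ C) ∧ ∀ K : Nat.Primes → Subgroup G, Cfsg.IsComplementSystem K → ∃ C : Subgroup G, Cfsg.IsCarterSubgroup C ∧ Cfsg.systemNormalizer K ≤ C := by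
  refine ⟨fun C hC => ?_, fun K hK => ?_⟩
  · obtain ⟨K, hK, hred⟩ := CfsgLib.Solvable.exists_complementSystem_reducing hC.1
    exact ⟨K, hK, CfsgLib.Solvable.systemNormalizer_le_carter hK hC hred⟩
  · obtain ⟨C, hC⟩ := CfsgLib.Solvable.exists_carter (G := G)
    obtain ⟨L, hL, hred⟩ := CfsgLib.Solvable.exists_complementSystem_reducing hC.1
    obtain ⟨g, hg⟩ := CfsgLib.Solvable.exists_conj_complementSystem hL hK
    refine ⟨MulAut.conj g • C, CfsgLib.Solvable.isCarter_conj hC g, ?_⟩
    rw [show K = fun p => MulAut.conj g • L p from funext fun p => (hg p).symm,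
      CfsgLib.Solvable.systemNormalizer_conj]
    exact Subgroup.pointwise_smul_le_pointwise_smul_iff.2
      (CfsgLib.Solvable.systemNormalizer_le_carter hL hC hred)

end Cfsg.Agent.S0569
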