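import Cfsg.Statements.S0570
import Mathlib
import Cfsg.Agent.Solvable.Carter

set_option autoImplicit false
open Cfsg

namespace Cfsg.Agent.S0570

open scoped Pointwise
/-- Let G be a finite group with a nilpotent normal subgroup F such that G modulo F is nilpotent (nilpotent length at most two). Then a subgroup of G is a Carter subgroup if and only if it is the system normalizer of some Hall complement system. -/
theorem result {G : Type*} [Group G] [Finite G] (F : Subgroup G) [F.Normal] (hF : Group.IsNilpotent F) (hGF : Group.IsNilpotent (G ⧸ F)) (C : Subgroup G) : Cfsg.IsCarterSubgroup C ↔ ∃ K : Nat.Primes → Subgroup G, Cfsg.IsComplementSystem K ∧ C = Cfsg.systemNormalizer K := by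
  haveI := hF
  haveI := hGF
  haveI hsol : Group.IsSolvable G :=
    Group.isSolvable_of_ker_le_range F.subtype (QuotientGroup.mk' F) (by simp)
  set f := QuotientGroup.mk' F with hf
  have key : ∀ (C : Subgroup G) (K : Nat.Primes → Subgroup G), Cfsg.IsCarterSubgroup C →
      Cfsg.IsComplementSystem K → (∀ r : Nat.Primes, ∀ x ∈ C, (orderOf x).Coprime r → x ∈ K r) →
      C = Cfsg.systemNormalizer K := by
    intro C K hC hK hred
    refine le_antisymm ?_ (CfsgLib.Solvable.systemNormalizer_le_carter hK hC hred)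
    have htop : C.map f = ⊤ := CfsgLib.Solvable.carter_eq_top
      (CfsgLib.Solvable.isCarter_map hC (QuotientGroup.mk'_surjective F))
    refine le_iInf fun r => CfsgLib.Solvable.le_normalizer_of_forall_conj_mem fun x hx y hy => ?_
    have hyco : (orderOf y).Coprime r := (r.2.coprime_iff_not_dvd.2 fun h =>
      CfsgLib.Solvable.complementSystem_not_dvd hK r (h.trans ((K r).orderOf_dvd_natCard hy))).symm
    obtain ⟨c₀, hc₀, hc₀y⟩ : f y ∈ C.map f := htop ▸ Subgroup.mem_top _
    obtain ⟨c, hc, hcco, hcy⟩ := CfsgLib.Solvable.exists_lift_coprime r.2 f hc₀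
      (hc₀y ▸ hyco.coprime_dvd_left (orderOf_map_dvd f y))
    have hcK : c ∈ K r := hred r c hc hcco
    have hdF : c⁻¹ * y ∈ F := by
      rw [← QuotientGroup.eq_one_iff]
      show f (c⁻¹ * y) = 1
      rw [map_mul, map_inv, hcy, hc₀y, inv_mul_cancel]
    have hdK : c⁻¹ * y ∈ K r := mul_mem (inv_mem hcK) hy
    have h1 : x * c * x⁻¹ ∈ K r := hred r _ (mul_mem (mul_mem hx hc) (inv_mem hx))
      (by rwa [CfsgLib.Solvable.orderOf_conj])
    have h2 : x * (c⁻¹ * y) * x⁻¹ ∈ K r := by
      refine CfsgLib.Solvable.mem_of_nilpotent_of_relIndex r.2 hF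
        ((CfsgLib.Solvable.relIndex_dvd_index_right F (K r)).trans (dvd_of_eq (hK r)))
        ((inferInstance : F.Normal).conj_mem _ hdF x) ?_
      rw [CfsgLib.Solvable.orderOf_conj]
      exact (r.2.coprime_iff_not_dvd.2 fun h =>
        CfsgLib.Solvable.complementSystem_not_dvd hK r (h.trans ((K r).orderOf_dvd_natCard hdK))).symm
    have h3 := mul_mem h1 h2
    rwa [show x * c * x⁻¹ * (x * (c⁻¹ * y) * x⁻¹) = x * y * x⁻¹ by group] at h3
  constructor
  · intro hC
    obtain ⟨K, hK, hred⟩ := CfsgLib.Solvable.exists_complementSystem_reducing hC.1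
    exact ⟨K, hK, key C K hC hK hred⟩
  · rintro ⟨K, hK, rfl⟩
    obtain ⟨C', hC'⟩ := CfsgLib.Solvable.exists_carter (G := G)
    obtain ⟨L, hL, hred⟩ := CfsgLib.Solvable.exists_complementSystem_reducing hC'.1
    obtain ⟨g, hg⟩ := CfsgLib.Solvable.exists_conj_complementSystem hL hK
    rw [show K = fun p => MulAut.conj g • L p from funext fun p => (hg p).symm,
      CfsgLib.Solvable.systemNormalizer_conj, ← key C' L hC' hL hred]
    exact CfsgLib.Solvable.isCarter_conj hC' g

end Cfsg.Agent.S0570
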