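import Cfsg.Statements.S0571
import Cfsg.Agent.SolvableStructure.AbelianFactors
import Cfsg.Agent.SolvableStructure.Supersolvable

set_option autoImplicit false
open Cfsg

namespace Cfsg.Agent.S0571

theorem aux (n : ℕ) (G : Type*) [Group G] [Finite G] (hn : Nat.card G ≤ n) (A B : Subgroup G)
    [IsCyclic A] [IsCyclic B] (hAB : ∀ g : G, ∃ a ∈ A, ∃ b ∈ B, g = a * b) : Cfsg.IsSupersolvable G := by
  induction n using Nat.strong_induction_on generalizing G with
  | _ n ih =>
  rcases subsingleton_or_nontrivial G with hs | hs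
  · exact ⟨0, fun _ => ⊥, rfl, Subsingleton.elim _ _, fun _ => inferInstance, fun i => i.elim0⟩
  obtain ⟨N, hN, hN1, hor⟩ := CfsgLib.AbelianFactors.exists_normal_le_factor hAB
  have : IsCyclic N := by
    rcases hor with h | h
    · exact Subgroup.isCyclic_of_le h
    · exact Subgroup.isCyclic_of_le h
  refine CfsgLib.Supersolvable.isSupersolvable_of_cyclic_normal N ?_
  have hlt : Nat.card (G ⧸ N) < n := by
    refine lt_of_lt_of_le ?_ hn
    rw [Subgroup.card_eq_card_quotient_mul_card_subgroup N]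
    refine lt_mul_of_one_lt_right Nat.card_pos ?_
    exact Nat.one_lt_iff_ne_zero_and_ne_one.2 ⟨Nat.card_pos.ne', fun h => hN1 (N.card_eq_one.1 h)⟩
  have : IsCyclic (A.map (QuotientGroup.mk' N)) :=
    isCyclic_of_surjective _ ((QuotientGroup.mk' N).subgroupMap_surjective A)
  have : IsCyclic (B.map (QuotientGroup.mk' N)) :=
    isCyclic_of_surjective _ ((QuotientGroup.mk' N).subgroupMap_surjective B)
  refine ih _ hlt (G ⧸ N) le_rfl (A.map (QuotientGroup.mk' N)) (B.map (QuotientGroup.mk' N)) fun q => ?_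
  obtain ⟨g, rfl⟩ := QuotientGroup.mk'_surjective N q
  obtain ⟨a, ha, b, hb, rfl⟩ := hAB g
  exact ⟨_, Subgroup.mem_map_of_mem _ ha, _, Subgroup.mem_map_of_mem _ hb, map_mul _ a b⟩


/-- If a finite group G is the product AB of two cyclic subgroups (every element is a product ab), then G is supersolvable. -/
theorem result {G : Type*} [Group G] [Finite G] (A B : Subgroup G) [IsCyclic A] [IsCyclic B] (hAB : ∀ g : G, ∃ a ∈ A, ∃ b ∈ B, g = a * b) : Cfsg.IsSupersolvable G := by
  exact aux (Nat.card G) G le_rfl A B hAB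

end Cfsg.Agent.S0571
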