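import Cfsg.Statements.S0576
import Cfsg.Agent.SolvableStructure.FrattiniLift
import Mathlib.Tactic.Group

set_option autoImplicit false
open Cfsg

namespace Cfsg.Agent.S0576

/-- Let H be a normal subgroup of a finite group G with H contained in the Frattini subgroup of G. Then the group of inner automorphisms of H is contained in the Frattini subgroup of the automorphism group of H. -/
theorem result {G : Type*} [Group G] [Finite G] (H : Subgroup G) [H.Normal] (hH : H ≤ frattini G) : (MulAut.conj : ↥H →* MulAut ↥H).range ≤ frattini (MulAut ↥H) := by
  refine CfsgLib.FrattiniLift.normal_le_frattini_of_le (X := (MulAut.conjNormal : G →* MulAut H).range) ?_ ?_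
  · constructor
    rintro _ ⟨h, rfl⟩ f
    refine ⟨f h, ?_⟩
    ext x
    simp [MulAut.conj_apply]
  · rintro _ ⟨h, rfl⟩
    refine ⟨(MulAut.conjNormal : G →* MulAut H).rangeRestrict (h : G),
      frattini_le_comap_frattini_of_surjective
        (MonoidHom.rangeRestrict_surjective _) (hH h.2), ?_⟩
    ext x
    simp [MulAut.conjNormal_apply, MulAut.conj_apply]

end Cfsg.Agent.S0576
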