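import Cfsg.Statements.S0577
import Cfsg.Agent.SolvableStructure.Schmidt
import Cfsg.Agent.Coprime.Basic
import Cfsg.Agent.PGroup.Frattini


set_option autoImplicit false
open Cfsg

namespace Cfsg.Agent.S0577

open scoped commutatorElement


/-- Let G be a finite minimal non-nilpotent group and Q a normal Sylow q-subgroup of G, and let D be the commutator subgroup of Q regarded in G (a normal subgroup). Then G modulo D is non-abelian and all its proper subgroups are abelian. -/
theorem result {G : Type*} [Group G] [Finite G] (hG : Cfsg.IsMinimalNonNilpotent G) (q : ℕ) [Fact q.Prime] (hq : q ∣ Nat.card G) (Q : Sylow q G) (hQ : (Q : Subgroup G).Normal) (D : Subgroup G) [D.Normal] (hD : D = (commutator ↥(Q : Subgroup G)).map (Q : Subgroup G).subtype) : ¬ IsMulCommutative (G ⧸ D) ∧ ∀ K : Subgroup (G ⧸ D), K ≠ ⊤ → IsMulCommutative K := by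
  obtain ⟨p, r, hp, hr, hpr, P, R, hc, hRn, hPR, hPc⟩ := CfsgLib.Schmidt.exists_structure hG
  have := Fact.mk hp
  have := Fact.mk hr
  have hq' : q.Prime := Fact.out
  have hcard : Nat.card G ∣ Nat.card (P : Subgroup G) * Nat.card (R : Subgroup G) :=
    (Subgroup.isComplement'_of_disjoint_and_mul_eq_univ (IsPGroup.disjoint_of_ne p r hpr _ _ P.2 R.2)
      (by rw [← Subgroup.mul_normal, hPR, Subgroup.coe_top])).card_mul_card.symm.dvd
  have hqr : q = r := by
    obtain ⟨i, hi⟩ := IsPGroup.iff_card.1 P.2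
    obtain ⟨j, hj⟩ := IsPGroup.iff_card.1 R.2
    rw [hi, hj] at hcard
    rcases hq'.dvd_mul.1 (hq.trans hcard) with h | h
    · exfalso
      obtain rfl := (Nat.prime_dvd_prime_iff_eq hq' hp).1 (hq'.dvd_of_dvd_pow h)
      have := Sylow.unique_of_normal Q hQ
      obtain rfl : P = Q := Subsingleton.elim _ _
      apply hPc
      intro x hx
      exact Subgroup.mem_centralizer_iff.2 fun y hy => (Subgroup.commute_of_normal_of_disjoint _ _ hRn hQ
        (IsPGroup.disjoint_of_ne r q hpr.symm _ _ R.2 P.2) y x hy hx).eq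
    · exact (Nat.prime_dvd_prime_iff_eq hq' hr).1 (hq'.dvd_of_dvd_pow h)
  subst hqr
  have := Sylow.unique_of_normal Q hQ
  obtain rfl : R = Q := Subsingleton.elim _ _
  have hcop : (Nat.card (P : Subgroup G)).Coprime (Nat.card (R : Subgroup G)) :=
    IsPGroup.coprime_card_of_ne p q hpr _ _ P.2 R.2
  constructor
  · intro hab
    apply hPc
    rw [Subgroup.le_centralizer_iff]
    refine CfsgLib.Coprime.le_centralizer_of_frattini (by rw [Subgroup.normalizer_eq_top]; exact le_top) hcop ?_
    refine le_trans ?_ (Subgroup.map_mono (CfsgLib.PGroup.commutator_le_frattini R.2))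
    rw [← hD, Subgroup.commutator_le]
    intro x _ y _
    rw [← QuotientGroup.eq_one_iff]
    show (QuotientGroup.mk' D) ⁅x, y⁆ = 1
    rw [map_commutatorElement, commutatorElement_eq_one_iff_mul_comm]
    exact hab.is_comm.comm _ _
  intro K hK
  set L := K.comap (QuotientGroup.mk' D) with hL
  have hLt : L ≠ ⊤ := fun h => hK (by
    rw [← Subgroup.map_comap_eq_self_of_surjective (QuotientGroup.mk'_surjective D) K, ← hL, h,
      Subgroup.map_top_of_surjective _ (QuotientGroup.mk'_surjective D)])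
  have := hG.2 L hLt
  obtain ⟨S⟩ : Nonempty (Sylow p L) := inferInstance
  have hScomm : IsMulCommutative (S : Subgroup L) := by
    obtain ⟨P', hP'⟩ := (S.2.map L.subtype).exists_le_sylow
    have : IsCyclic (P' : Subgroup G) := (P'.equiv P).isCyclic.2 hc
    refine ⟨⟨fun a b => Subtype.ext (L.subtype_injective ?_)⟩⟩
    simp only [Subgroup.coe_mul, map_mul]
    exact congrArg Subtype.val ((IsCyclic.isMulCommutative (α := (P' : Subgroup G))).is_comm.comm
      ⟨_, hP' ⟨a, a.2, rfl⟩⟩ ⟨_, hP' ⟨b, b.2, rfl⟩⟩)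
  have hpair : ∀ a ∈ (((R : Subgroup G).subgroupOf L : Subgroup L) : Set L) ∪ ((S : Subgroup L) : Set L),
      ∀ b ∈ (((R : Subgroup G).subgroupOf L : Subgroup L) : Set L) ∪ ((S : Subgroup L) : Set L),
      Commute (QuotientGroup.mk' D (a : G)) (QuotientGroup.mk' D (b : G)) := by
    have hRR : ∀ a b : G, a ∈ (R : Subgroup G) → b ∈ (R : Subgroup G) →
        Commute (QuotientGroup.mk' D a) (QuotientGroup.mk' D b) := by
      intro a b ha hb
      rw [commute_iff_eq, ← commutatorElement_eq_one_iff_mul_comm, ← map_commutatorElement,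
        QuotientGroup.mk'_apply, QuotientGroup.eq_one_iff, hD]
      exact ⟨⁅(⟨a, ha⟩ : (R : Subgroup G)), ⟨b, hb⟩⁆,
        Subgroup.commutator_mem_commutator (Subgroup.mem_top _) (Subgroup.mem_top _), rfl⟩
    have hRS : ∀ a b : L, (a : G) ∈ (R : Subgroup G) → b ∈ (S : Subgroup L) →
        Commute (QuotientGroup.mk' D (a : G)) (QuotientGroup.mk' D (b : G)) := by
      intro a b ha hb
      obtain ⟨i, hi⟩ := IsPGroup.iff_orderOf.1 S.2 ⟨b, hb⟩
      obtain ⟨j, hj⟩ := IsPGroup.iff_orderOf.1 R.2 ⟨a, ha⟩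
      rw [Subgroup.orderOf_mk] at hi hj
      rw [Subgroup.orderOf_coe] at hj
      exact ((CfsgLib.Schmidt.commute_of_nilpotent' hp hi
        (hj ▸ ((Nat.coprime_primes hq' hp).2 hpr.symm).pow_left _)).symm.map L.subtype).map _
    rintro a (ha | ha) b (hb | hb)
    · exact hRR _ _ ha hb
    · exact hRS _ _ ha hb
    · exact (hRS _ _ hb ha).symm
    · have hab : Commute a b := congrArg Subtype.val (hScomm.is_comm.comm ⟨a, ha⟩ ⟨b, hb⟩)
      exact (hab.map L.subtype).map _
  have htop : (R : Subgroup G).subgroupOf L ⊔ (S : Subgroup L) = ⊤ := by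
    refine CfsgLib.Constrained.eq_top_of_forall_sylow_le _ fun s hs => ?_
    have := Fact.mk hs
    by_cases hsp : s = p
    · subst hsp; exact ⟨S, le_sup_right⟩
    obtain ⟨T⟩ : Nonempty (Sylow s L) := inferInstance
    refine ⟨T, le_trans ?_ le_sup_left⟩
    obtain ⟨T', hT'⟩ := (T.2.map L.subtype).exists_le_sylow
    intro t ht
    rw [Subgroup.mem_subgroupOf]
    have ht' := hT' ⟨t, ht, rfl⟩
    by_cases hsq : s = q
    · subst hsq
      have : T' = R := Subsingleton.elim _ _
      exact this ▸ ht'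
    have h1 : (T' : Subgroup G) = ⊥ := by
      rw [← Subgroup.card_eq_one, T'.card_eq_multiplicity, Nat.factorization_eq_zero_of_not_dvd, pow_zero]
      intro hd
      obtain ⟨i, hi⟩ := IsPGroup.iff_card.1 P.2
      obtain ⟨j, hj⟩ := IsPGroup.iff_card.1 R.2
      rw [hi, hj] at hcard
      rcases hs.dvd_mul.1 (hd.trans hcard) with h | h
      · exact hsp ((Nat.prime_dvd_prime_iff_eq hs hp).1 (hs.dvd_of_dvd_pow h))
      · exact hsq ((Nat.prime_dvd_prime_iff_eq hs hr).1 (hs.dvd_of_dvd_pow h))
    rw [h1, Subgroup.mem_bot] at ht'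
    rw [show ((t : L) : G) = 1 from ht']
    exact one_mem _
  refine ⟨⟨?_⟩⟩
  rintro ⟨u, hu⟩ ⟨v, hv⟩
  obtain ⟨u', rfl⟩ := QuotientGroup.mk'_surjective D u
  obtain ⟨v', rfl⟩ := QuotientGroup.mk'_surjective D v
  apply Subtype.ext
  have key : ∀ a b : L, Commute (QuotientGroup.mk' D (a : G)) (QuotientGroup.mk' D (b : G)) := by
    intro a b
    have ha : a ∈ Subgroup.closure ((((R : Subgroup G).subgroupOf L : Subgroup L) : Set L) ∪ ((S : Subgroup L) : Set L)) := by
      rw [Subgroup.closure_union, Subgroup.closure_eq, Subgroup.closure_eq, htop]; exact Subgroup.mem_top a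
    have hb : b ∈ Subgroup.closure ((((R : Subgroup G).subgroupOf L : Subgroup L) : Set L) ∪ ((S : Subgroup L) : Set L)) := by
      rw [Subgroup.closure_union, Subgroup.closure_eq, Subgroup.closure_eq, htop]; exact Subgroup.mem_top b
    induction ha, hb using Subgroup.closure_induction₂ with
    | mem x y hx hy => exact hpair x hx y hy
    | one_left x _ => simp
    | one_right x _ => simp
    | mul_left x y z _ _ _ h1 h2 => simpa using h1.mul_left h2
    | mul_right y z x _ _ _ h1 h2 => simpa using h1.mul_right h2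
    | inv_left x y _ _ h1 => simpa using h1.inv_left
    | inv_right x y _ _ h1 => simpa using h1.inv_right
  exact key ⟨u', hu⟩ ⟨v', hv⟩

end Cfsg.Agent.S0577
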