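import Cfsg.Statements.S0578
import Mathlib.GroupTheory.Transfer
import Mathlib.GroupTheory.Nilpotent
import Mathlib.Tactic.Group

set_option autoImplicit false
open Cfsg
open scoped commutatorElement

namespace Cfsg.Agent.S0578

/-- If in a finite group the normalizer of each abelian subgroup coincides with its centralizer, then the group is abelian. -/
theorem result {G : Type*} [Group G] [Finite G] (h : ∀ A : Subgroup G, IsMulCommutative A → Subgroup.normalizer (A : Set G) = Subgroup.centralizer (A : Set G)) : IsMulCommutative G := by
  classical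
  have hPab : ∀ (p : ℕ) [Fact p.Prime] (P : Sylow p G), ∀ a ∈ (P : Subgroup G), ∀ b ∈ (P : Subgroup G),
      a * b = b * a := by
    intro p hp P
    have : Group.IsNilpotent (P : Subgroup G) := P.2.isNilpotent
    obtain ⟨n, hn⟩ := Group.IsNilpotent.nilpotent (P : Subgroup G)
    have key : ∀ k, Subgroup.upperCentralSeries (P : Subgroup G) k ≤ Subgroup.center (P : Subgroup G) := by
      intro k
      induction k with
      | zero => simp
      | succ k ih =>
        intro x hx
        rw [Subgroup.mem_upperCentralSeries_succ_iff] at hx
        set A' : Subgroup (P : Subgroup G) := Subgroup.zpowers x ⊔ Subgroup.center (P : Subgroup G) with hA'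
        set A : Subgroup G := A'.map (P : Subgroup G).subtype with hA
        have hA'c : IsMulCommutative A' := by
          rw [hA', ← Subgroup.closure_eq (Subgroup.center (P : Subgroup G)),
            Subgroup.zpowers_eq_closure, ← Subgroup.closure_union]
          refine Subgroup.isMulCommutative_closure ?_
          rintro u (hu | hu) v (hv | hv)
          · rw [Set.mem_singleton_iff.1 hu, Set.mem_singleton_iff.1 hv]
          · exact Subgroup.mem_center_iff.1 hv u
          · exact (Subgroup.mem_center_iff.1 hu v).symm
          · exact (Subgroup.mem_center_iff.1 hu v).symm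
        have hAc : IsMulCommutative A := by rw [hA]; infer_instance
        have hA'n : A'.Normal := by
          constructor
          intro z hz g
          suffices A' ≤ A'.comap (MulAut.conj g).toMonoidHom by simpa using this hz
          refine sup_le (Subgroup.zpowers_le.2 ?_) (fun w hw => ?_)
          · simp only [Subgroup.mem_comap, MulEquiv.coe_toMonoidHom, MulAut.conj_apply]
            have h2 : g * x * g⁻¹ = (x * g * x⁻¹ * g⁻¹)⁻¹ * x := by group
            rw [h2]
            exact mul_mem (inv_mem (Subgroup.mem_sup_right (ih (hx g))))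
              (Subgroup.mem_sup_left (Subgroup.mem_zpowers x))
          · simp only [Subgroup.mem_comap, MulEquiv.coe_toMonoidHom, MulAut.conj_apply]
            exact Subgroup.mem_sup_right (Subgroup.Normal.conj_mem inferInstance w hw g)
        refine Subgroup.mem_center_iff.2 fun g => ?_
        have hg : (g : G) ∈ Subgroup.normalizer (A : Set G) := by
          rw [Subgroup.mem_normalizer_iff]
          intro z
          constructor
          · rintro ⟨w, hw, rfl⟩
            exact ⟨_, hA'n.conj_mem w hw g, rfl⟩
          · rintro ⟨w, hw, hwz⟩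
            refine ⟨g⁻¹ * w * g, hA'n.conj_mem' w hw g, ?_⟩
            simp only [Subgroup.coe_subtype] at hwz
            simp [hwz, mul_assoc]
        rw [h A hAc] at hg
        exact Subtype.ext (Subgroup.mem_centralizer_iff.1 hg (x : G)
          ⟨x, Subgroup.mem_sup_left (Subgroup.mem_zpowers x), rfl⟩).symm
    intro a ha b hb
    have hz : (⟨a, ha⟩ : (P : Subgroup G)) ∈ Subgroup.center (P : Subgroup G) :=
      key n (hn ▸ Subgroup.mem_top _)
    exact (congrArg Subtype.val (Subgroup.mem_center_iff.1 hz ⟨b, hb⟩)).symm
  refine ⟨⟨fun a b => ?_⟩⟩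
  rw [← commutatorElement_eq_one_iff_mul_comm]
  by_contra hne
  obtain ⟨p, hp, hpd⟩ := Nat.exists_prime_and_dvd (fun h1 => hne (orderOf_eq_one_iff.1 h1))
  have := Fact.mk hp
  obtain ⟨P⟩ : Nonempty (Sylow p G) := inferInstance
  have hc : IsMulCommutative (P : Subgroup G) :=
    ⟨⟨fun u v => Subtype.ext (hPab p P u u.2 v v.2)⟩⟩
  have hN : Subgroup.normalizer (P : Set G) ≤ Subgroup.centralizer (P : Set G) :=
    (h (P : Subgroup G) hc).le
  have hmem : ⁅a, b⁆ ∈ (MonoidHom.transferSylow P hN).ker := by
    rw [MonoidHom.mem_ker, map_commutatorElement, commutatorElement_eq_one_iff_mul_comm]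
    exact hc.1.1 _ _
  exact MonoidHom.not_dvd_card_ker_transferSylow P hN
    (hpd.trans (Subgroup.orderOf_dvd_natCard _ hmem))

end Cfsg.Agent.S0578
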