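import Cfsg.Statements.S0579
import Cfsg.Agent.SolvableStructure.Huppert


set_option autoImplicit false
open Cfsg

namespace Cfsg.Agent.S0579

open CfsgLib.Supersolvable in
theorem aux (n : ℕ) : ∀ (G : Type*) [Group G] [Finite G], Nat.card G ≤ n →
    (∀ M : Subgroup G, IsCoatom M → M.index.Prime) → Cfsg.IsSupersolvable G := by
  induction n with
  | zero => intro G _ _ hn; exact absurd hn (by have := Nat.card_pos (α := G); omega)
  | succ n ih =>
    intro G _ _ hn h
    have hquot : ∀ (N : Subgroup G) [N.Normal], N ≠ ⊥ → Cfsg.IsSupersolvable (G ⧸ N) := by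
      intro N _ hN
      refine ih _ (by have := CfsgLib.Solvable.card_quotient_lt N hN; omega) fun M hM => ?_
      rw [← Subgroup.index_comap_of_surjective _ (QuotientGroup.mk'_surjective N)]
      exact h _ (Subgroup.isCoatom_comap_of_surjective (QuotientGroup.mk'_surjective N) hM)
    rcases subsingleton_or_nontrivial G with hsub | hnt
    · exact isSupersolvable_iff.2 (by
        rw [Subsingleton.elim (⊤ : Subgroup G) ⊥]; exact cycReach_of_isCyclic ⊥)
    by_cases hΦ : frattini G = ⊥
    swap
    · exact isSupersolvable_of_frattini (hquot _ hΦ)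
    obtain ⟨p, hp, hpd, hpmax⟩ := exists_max_prime_dvd _ (Finite.one_lt_card (α := G))
    have := Fact.mk hp
    obtain ⟨P⟩ : Nonempty (Sylow p G) := inferInstance
    have hPn : (P : Subgroup G).Normal := by
      rw [← Subgroup.normalizer_eq_top_iff]
      by_contra hne
      obtain ⟨M, hM, hle⟩ := (eq_top_or_exists_le_coatom _).resolve_left hne
      have hq := h M hM
      have hPM : (P : Subgroup G) ≤ M := Subgroup.le_normalizer.trans hle
      have h1 : Nat.card (Sylow p G) ≡ 1 [MOD p] := card_sylow_modEq_one _ _
      have h2 : Nat.card (Sylow p M) ≡ 1 [MOD p] := card_sylow_modEq_one _ _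
      rw [P.card_eq_index_normalizer, ← Subgroup.relIndex_mul_index (show Subgroup.normalizer (P : Set G) ≤ M from hle)] at h1
      have h3 : (Subgroup.normalizer (P : Set G)).relIndex M = Nat.card (Sylow p M) := by
        rw [(P.subtype hPM).card_eq_index_normalizer]
        show _ = (Subgroup.normalizer (((P : Subgroup G).subgroupOf M : Subgroup M) : Set M)).index
        rw [← Subgroup.subgroupOf_normalizer_eq hPM]
        rfl
      rw [h3] at h1
      have h4 : M.index % p = 1 % p := by
        have h4' : Nat.card (Sylow p M) * M.index ≡ 1 * M.index [MOD p] := h2.mul_right _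
        rw [one_mul] at h4'
        exact h4'.symm.trans h1
      have hle' := hpmax _ hq M.index_dvd_card
      rcases lt_or_eq_of_le hle' with hlt | heq
      · rw [Nat.mod_eq_of_lt hlt, Nat.mod_eq_of_lt hp.one_lt] at h4
        exact hq.ne_one h4
      · rw [heq, Nat.mod_self, Nat.mod_eq_of_lt hp.one_lt] at h4
        exact zero_ne_one h4
    obtain ⟨N, hNP, hNn, hNne, hNmin⟩ := CfsgLib.Solvable.exists_minimal_normal_le (P : Subgroup G) (P.ne_bot_of_dvd_card hpd)
    haveI := hNn
    haveI : Group.IsNilpotent N := (P.2.to_le hNP).isNilpotent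
    obtain ⟨hab, -⟩ := CfsgLib.Solvable.minimal_normal_elementary N inferInstance hNne hNmin
    obtain ⟨M, hM, hNM⟩ : ∃ M : Subgroup G, IsCoatom M ∧ ¬ N ≤ M := by
      by_contra hcon
      push Not at hcon
      apply hNne
      rw [← le_bot_iff, ← hΦ]
      simp only [frattini, Order.radical, le_iInf_iff]
      exact fun M hM => hcon M hM
    have hsup : N ⊔ M = ⊤ := hM.2 _ (lt_of_le_of_ne le_sup_right fun e => hNM (e ▸ le_sup_left))
    have hinf : N ⊓ M = ⊥ := by
      refine (hNmin _ ?_ inf_le_left).resolve_right fun e => hNM (e ▸ inf_le_right)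
      rw [← Subgroup.normalizer_eq_top_iff, eq_top_iff, ← hsup]
      refine sup_le ?_ ?_
      · intro x hx
        refine Subgroup.centralizer_le_normalizer _ (Subgroup.mem_centralizer_iff.2 fun c hc => ?_)
        exact congrArg Subtype.val (hab.is_comm.comm ⟨c, hc.1⟩ ⟨x, hx⟩)
      · intro m hm
        rw [Subgroup.mem_normalizer_iff]
        intro c
        constructor
        · intro hc
          exact ⟨hNn.conj_mem c hc.1 m, M.mul_mem (M.mul_mem hm hc.2) (M.inv_mem hm)⟩
        · intro hc
          have e1 : m⁻¹ * (m * c * m⁻¹) * m⁻¹⁻¹ = c := by group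
          exact e1 ▸ ⟨hNn.conj_mem _ hc.1 m⁻¹, M.mul_mem (M.mul_mem (M.inv_mem hm) hc.2) (M.inv_mem (M.inv_mem hm))⟩
    have hcompl : Subgroup.IsComplement' N M :=
      Subgroup.isComplement'_of_disjoint_and_mul_eq_univ (disjoint_iff.2 hinf)
        (by rw [← Subgroup.normal_mul, hsup, Subgroup.coe_top])
    have hprime : (Nat.card N).Prime := hcompl.index_eq_card ▸ h M hM
    haveI := Fact.mk hprime
    haveI : IsCyclic N := isCyclic_of_prime_card rfl
    exact isSupersolvable_of_cyclic_normal N (hquot N hNne)


/-- Huppert's supersolvability criterion: if every maximal subgroup of a finite group has prime index, then the group is supersolvable. -/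
theorem result {G : Type*} [Group G] [Finite G] (h : ∀ M : Subgroup G, IsCoatom M → M.index.Prime) : Cfsg.IsSupersolvable G := by
  exact aux (Nat.card G) G le_rfl h

end Cfsg.Agent.S0579
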