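import Cfsg.Statements.S0580
import Mathlib.GroupTheory.Sylow
import Mathlib.GroupTheory.Nilpotent

set_option autoImplicit false
open Cfsg

namespace Cfsg.Agent.S0580

theorem aux (n : ℕ) (G : Type*) [Group G] [Finite G] (hn : Nat.card G ≤ n)
    (h : ∀ M : Subgroup G, IsCoatom M → M.index.Prime) : Group.IsSolvable G := by
  induction n using Nat.strong_induction_on generalizing G with
  | _ n ih =>
  rcases subsingleton_or_nontrivial G with hs | hs
  · infer_instance
  obtain ⟨p, hp, hpd, hmax⟩ : ∃ p, p.Prime ∧ p ∣ Nat.card G ∧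
      ∀ q, q.Prime → q ∣ Nat.card G → q ≤ p := by
    have hne : (Nat.card G).primeFactors.Nonempty :=
      Nat.nonempty_primeFactors.2 Finite.one_lt_card
    refine ⟨(Nat.card G).primeFactors.max' hne, ?_⟩
    have hm := Nat.mem_primeFactors.1 (Finset.max'_mem _ hne)
    exact ⟨hm.1, hm.2.1, fun q hq hqd => Finset.le_max' _ q
      (Nat.mem_primeFactors.2 ⟨hq, hqd, Nat.card_pos.ne'⟩)⟩
  have : Fact p.Prime := ⟨hp⟩
  obtain ⟨P⟩ : Nonempty (Sylow p G) := inferInstance
  have hPn : (P : Subgroup G).Normal := by
    rw [← Subgroup.normalizer_eq_top_iff]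
    by_contra hne
    obtain ⟨M, hM, hle⟩ := (eq_top_or_exists_le_coatom
      (Subgroup.normalizer ((P : Subgroup G) : Set G))).resolve_left hne
    have hPM : (P : Subgroup G) ≤ M := Subgroup.le_normalizer.trans hle
    have hq := h M hM
    have h1 : Nat.card (Sylow p G) ≡ 1 [MOD p] := card_sylow_modEq_one _ _
    have h2 : Nat.card (Sylow p M) ≡ 1 [MOD p] := card_sylow_modEq_one _ _
    rw [Sylow.card_eq_index_normalizer P] at h1
    rw [Sylow.card_eq_index_normalizer (P.subtype hPM)] at h2
    change (Subgroup.normalizer (((P : Subgroup G).subgroupOf M : Subgroup M) : Set M)).index ≡ 1 [MOD p] at h2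
    rw [← Subgroup.subgroupOf_normalizer_eq hPM] at h2
    change (Subgroup.normalizer ((P : Subgroup G) : Set G)).index ≡ 1 [MOD p] at h1
    rw [← Subgroup.relIndex_mul_index hle] at h1
    have h3 : M.index ≡ 1 [MOD p] := by
      have h4 := Nat.ModEq.mul_right M.index h2
      rw [one_mul] at h4
      exact h4.symm.trans h1
    have hle' := hmax _ hq (Subgroup.index_dvd_card M)
    rcases lt_or_eq_of_le hle' with hlt | heq
    · have := Nat.ModEq.eq_of_lt_of_lt h3 hlt hp.one_lt
      exact hq.ne_one this
    · rw [heq, Nat.ModEq, Nat.mod_self, Nat.mod_eq_of_lt hp.one_lt] at h3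
      exact zero_ne_one h3
  have : Group.IsNilpotent (P : Subgroup G) := P.2.isNilpotent
  have hP1 : 1 < Nat.card (P : Subgroup G) :=
    lt_of_lt_of_le hp.one_lt (Nat.le_of_dvd Nat.card_pos (Sylow.dvd_card_of_dvd_card P hpd))
  have hcard : Nat.card (G ⧸ (P : Subgroup G)) < n := by
    refine lt_of_lt_of_le ?_ hn
    rw [Subgroup.card_eq_card_quotient_mul_card_subgroup (P : Subgroup G)]
    exact lt_mul_of_one_lt_right Nat.card_pos hP1
  have hq : Group.IsSolvable (G ⧸ (P : Subgroup G)) := by
    refine ih _ hcard _ le_rfl fun M hM => ?_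
    rw [← Subgroup.index_comap_of_surjective M (QuotientGroup.mk'_surjective (P : Subgroup G))]
    exact h _ (Subgroup.isCoatom_comap_of_surjective (QuotientGroup.mk'_surjective _) hM)
  exact (Group.isSolvable_iff_subgroup_quotient (P : Subgroup G)).2 ⟨inferInstance, hq⟩


/-- If every maximal subgroup of a finite group has prime index, then the group is solvable. -/
theorem result {G : Type*} [Group G] [Finite G] (h : ∀ M : Subgroup G, IsCoatom M → M.index.Prime) : Group.IsSolvable G := by
  exact aux (Nat.card G) G le_rfl h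

end Cfsg.Agent.S0580
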