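import Cfsg.Statements.S0582
import Cfsg.Agent.Subnormal.SupersolvableTower


set_option autoImplicit false
open Pointwise
open Cfsg

namespace Cfsg.Agent.S0582

open Pointwise CfsgLib.Supersolvable in
theorem aux.{v} (n : ℕ) : ∀ {G : Type v} [Group G] [Finite G] (H K : Subgroup G), Nat.card H = n →
    Cfsg.IsSupersolvable H → Cfsg.IsSupersolvable K → Nat.card H = Nat.card K →
    (Nat.card H).Coprime H.index → ∃ x : G, MulAut.conj x • H = K := by
  induction n using Nat.strong_induction_on with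
  | _ n ih =>
  intro G _ _ H K hn hH hK hcard hHall
  have hKidx : K.index = H.index := Nat.eq_of_mul_eq_mul_left Nat.card_pos
    ((K.card_mul_index.trans (H.card_mul_index).symm).trans (by rw [hcard]))
  by_cases h1 : Nat.card H = 1
  · refine ⟨1, ?_⟩
    have e1 : H = ⊥ := Subgroup.card_eq_one.1 h1
    have e2 : K = ⊥ := Subgroup.card_eq_one.1 (hcard.symm.trans h1)
    rw [e1, e2, Subgroup.smul_bot]
  obtain ⟨p, hp, hpd, hpmax⟩ := exists_max_prime_dvd (Nat.card H) (by have := Nat.card_pos (α := H); omega)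
  have := Fact.mk hp
  have hpidx : ¬ p ∣ H.index := fun hd => hp.ne_one (Nat.eq_one_of_dvd_coprimes hHall hpd hd)
  have hsyl : ∀ L : Subgroup G, Cfsg.IsSupersolvable L → Nat.card L = Nat.card H → L.index = H.index →
      ∃ S : Sylow p G, (S : Subgroup G) ≤ L ∧ L ≤ Subgroup.normalizer ((S : Subgroup G) : Set G) := by
    intro L hL hLc hLi
    obtain ⟨T⟩ : Nonempty (Sylow p L) := inferInstance
    have hTn : (T : Subgroup L).Normal := sylow_normal_max_prime hL (fun r hr hrd => hpmax r hr (hLc ▸ hrd)) T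
    have hidx : ¬ p ∣ ((T : Subgroup L).map L.subtype).index := by
      intro hd
      rw [Subgroup.index_map_subtype] at hd
      rcases hp.dvd_mul.1 hd with h | h
      exacts [T.not_dvd_index h, hpidx (hLi ▸ h)]
    refine ⟨(T.2.map L.subtype).toSylow hidx, Subgroup.map_subtype_le _, ?_⟩
    intro l hl
    refine Subgroup.le_normalizer_map (f := L.subtype) (H := (T : Subgroup L)) ⟨⟨l, hl⟩, ?_, rfl⟩
    rw [Subgroup.normalizer_eq_top]; exact Subgroup.mem_top _
  obtain ⟨S, hSH, hHS⟩ := hsyl H hH rfl rfl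
  obtain ⟨T, hTK, hKT⟩ := hsyl K hK hcard.symm hKidx
  obtain ⟨g, hg⟩ := MulAction.exists_smul_eq G S T
  suffices h : ∃ x : G, MulAut.conj x • (MulAut.conj g • H) = K by
    obtain ⟨x, hx⟩ := h
    exact ⟨x * g, by rw [map_mul, mul_smul, hx]⟩
  set N := Subgroup.normalizer ((T : Subgroup G) : Set G) with hN
  set H1 : Subgroup G := MulAut.conj g • H with hH1
  have hTH1 : (T : Subgroup G) ≤ H1 := by
    rw [← hg, Sylow.coe_subgroup_smul]
    exact Subgroup.pointwise_smul_le_pointwise_smul_iff.2 hSH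
  have hH1N : H1 ≤ N := by
    intro y hy
    rw [hH1, Subgroup.mem_pointwise_smul_iff_inv_smul_mem] at hy
    have h2 := hHS hy
    rw [hN, Subgroup.mem_normalizer_iff]
    intro z
    have h3 := (Subgroup.mem_normalizer_iff.1 h2) ((MulAut.conj g)⁻¹ • z)
    rw [← hg, Sylow.coe_subgroup_smul, Subgroup.mem_pointwise_smul_iff_inv_smul_mem,
      Subgroup.mem_pointwise_smul_iff_inv_smul_mem]
    simp only [MulAut.smul_def, map_mul, map_inv] at h3 ⊢
    exact h3
  have hH1card : Nat.card H1 = Nat.card H := (Nat.card_congr (Subgroup.equivSMul (MulAut.conj g) H).toEquiv).symm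
  have hH1idx : H1.index = H.index := Nat.eq_of_mul_eq_mul_left Nat.card_pos
    ((H1.card_mul_index.trans (H.card_mul_index).symm).trans (by rw [hH1card]))
  set M : Subgroup N := (T : Subgroup G).subgroupOf N with hM
  haveI : M.Normal := Subgroup.normal_in_normalizer
  have hMne : M ≠ ⊥ := by
    rw [hM, Ne, Subgroup.subgroupOf_eq_bot]
    intro hd
    exact T.ne_bot_of_dvd_card (hpd.trans H.card_subgroup_dvd_card) (disjoint_self.1 (hd.mono_right Subgroup.le_normalizer))
  set HQ : Subgroup (N ⧸ M) := (H1.subgroupOf N).map (QuotientGroup.mk' M) with hHQ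
  set KQ : Subgroup (N ⧸ M) := (K.subgroupOf N).map (QuotientGroup.mk' M) with hKQ
  have hcq : ∀ L : Subgroup G, (T : Subgroup G) ≤ L → L ≤ N →
      Nat.card ((L.subgroupOf N).map (QuotientGroup.mk' M)) * Nat.card M = Nat.card L := by
    intro L hTL hLN
    rw [← Nat.card_congr (Subgroup.subgroupOfEquivOfLe hLN).toEquiv, ← MonoidHom.domRestrict_range,
      ← Subgroup.index_ker, MonoidHom.ker_domRestrict, QuotientGroup.ker_mk', mul_comm]
    have hML : M ≤ L.subgroupOf N := Subgroup.comap_mono hTL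
    rw [← Nat.card_congr (Subgroup.subgroupOfEquivOfLe hML).toEquiv]
    exact Subgroup.card_mul_index _
  have hlt : Nat.card HQ < n := by
    have := hcq H1 hTH1 hH1N
    rw [hH1card, hn] at this
    rw [← this]
    exact lt_mul_of_one_lt_right Nat.card_pos ((Subgroup.one_lt_card_iff_ne_bot M).2 hMne)
  have hss : ∀ L : Subgroup G, Cfsg.IsSupersolvable L → L ≤ N →
      Cfsg.IsSupersolvable ((L.subgroupOf N).map (QuotientGroup.mk' M)) := by
    intro L hL hLN
    exact isSupersolvable_of_surjective (isSupersolvable_of_equiv hL (Subgroup.subgroupOfEquivOfLe hLN).symm)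
      (f := (QuotientGroup.mk' M).subgroupMap (L.subgroupOf N)) ((QuotientGroup.mk' M).subgroupMap_surjective _)
  have hH1ss : Cfsg.IsSupersolvable H1 := isSupersolvable_of_equiv hH (Subgroup.equivSMul (MulAut.conj g) H)
  have hHallQ : (Nat.card HQ).Coprime HQ.index := by
    have ha : Nat.card HQ ∣ Nat.card H := hH1card ▸ Dvd.intro _ (hcq H1 hTH1 hH1N)
    have hb : HQ.index ∣ H.index := by
      rw [← hH1idx]
      refine dvd_trans ?_ (Dvd.intro _ (Subgroup.relIndex_mul_index hH1N))
      exact Subgroup.index_map_dvd _ (QuotientGroup.mk'_surjective M)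
    exact (hHall.coprime_dvd_left ha).coprime_dvd_right hb
  obtain ⟨z, hz⟩ := ih _ hlt HQ KQ rfl (hss H1 hH1ss hH1N) (hss K hK hKT)
    (Nat.eq_of_mul_eq_mul_right Nat.card_pos ((hcq H1 hTH1 hH1N).trans
      ((hH1card.trans hcard).trans (hcq K hTK hKT).symm))) hHallQ
  obtain ⟨x, rfl⟩ := QuotientGroup.mk_surjective z
  refine ⟨x, ?_⟩
  have hle : MulAut.conj (x : G) • H1 ≤ K := by
    intro y hy
    rw [Subgroup.mem_pointwise_smul_iff_inv_smul_mem] at hy
    have hw := hH1N hy
    have h5 : (QuotientGroup.mk' M) (x * ⟨_, hw⟩ * x⁻¹) ∈ KQ := by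
      rw [← hz, Subgroup.mem_pointwise_smul_iff_inv_smul_mem]
      refine ⟨⟨_, hw⟩, hy, ?_⟩
      simp [MulAut.smul_def, mul_assoc]
    obtain ⟨k, hk, hke⟩ := h5
    rw [QuotientGroup.mk'_eq_mk'] at hke
    obtain ⟨t, ht, hkt⟩ := hke
    have h6 : ((k : N) : G) * (t : G) ∈ K := K.mul_mem hk (hTK ht)
    rw [← Subgroup.coe_mul, hkt] at h6
    simpa [MulAut.smul_def, mul_assoc] using h6
  refine Subgroup.eq_of_le_of_card_ge hle ?_
  rw [← Nat.card_congr (Subgroup.equivSMul (MulAut.conj (x : G)) H1).toEquiv, hH1card, hcard]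


/-- Let H and K be supersolvable subgroups of a finite group G of the same order, that order being coprime to their index. Then H and K are conjugate in G. -/
theorem result {G : Type*} [Group G] [Finite G] (H K : Subgroup G) (hH : Cfsg.IsSupersolvable H) (hK : Cfsg.IsSupersolvable K) (hcard : Nat.card H = Nat.card K) (hHall : (Nat.card H).Coprime H.index) : ∃ x : G, MulAut.conj x • H = K := by
  exact aux (Nat.card H) H K rfl hH hK hcard hHall

end Cfsg.Agent.S0582
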