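import Cfsg.Statements.S0583
import Mathlib.GroupTheory.Nilpotent

set_option autoImplicit false
open Cfsg

namespace Cfsg.Agent.S0583

/-- In a finite group the Fitting subgroup is contained in the centralizer of each minimal normal subgroup. -/
theorem result {G : Type*} [Group G] [Finite G] (M : Subgroup G) [M.Normal] (hM : M ≠ ⊥) (hmin : ∀ K : Subgroup G, K.Normal → K ≤ M → K = ⊥ ∨ K = M) : Cfsg.fittingSubgroup G ≤ Subgroup.centralizer (M : Set G) := by
  refine sSup_le ?_
  rintro N ⟨hNn, hNnil⟩
  rcases hmin (M ⊓ N) inferInstance inf_le_left with h | h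
  · intro n hn
    rw [Subgroup.mem_centralizer_iff]
    intro m hm
    exact (Subgroup.commute_of_normal_of_disjoint M N inferInstance hNn (disjoint_iff.2 h) m n hm hn).eq
  · have hMN : M ≤ N := inf_eq_left.1 h
    rcases hmin ⁅M, N⁆ inferInstance (Subgroup.commutator_le_left M N) with h' | h'
    · intro n hn
      rw [Subgroup.mem_centralizer_iff]
      intro m hm
      exact commutatorElement_eq_one_iff_mul_comm.1
        ((Subgroup.eq_bot_iff_forall _).1 h' _ (Subgroup.commutator_mem_commutator hm hn))
    · exfalso
      obtain ⟨n, hn⟩ := Subgroup.nilpotent_iff_lowerCentralSeries.1 hNnil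
      have : ∀ k, M ≤ ((Subgroup.lowerCentralSeries (⊤ : Subgroup N)) k).map N.subtype := by
        intro k
        induction k with
        | zero => simpa [← MonoidHom.range_eq_map] using hMN
        | succ k ih =>
          rw [Subgroup.lowerCentralSeries_succ, Subgroup.map_commutator,
            ← MonoidHom.range_eq_map, Subgroup.range_subtype]
          exact h'.symm.le.trans (Subgroup.commutator_mono ih le_rfl)
      exact hM (le_bot_iff.1 (by simpa [hn] using this n))

end Cfsg.Agent.S0583
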