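import Cfsg.Statements.S0585
import Cfsg.Agent.SolvableStructure.FrattiniLift
import Mathlib.Tactic.Group

set_option autoImplicit false
open Cfsg

namespace Cfsg.Agent.S0585

/-- If the Frattini subgroup of a finite group G is trivial, then every abelian normal subgroup of G has a complement in G. -/
theorem result {G : Type*} [Group G] [Finite G] (hΦ : frattini G = ⊥) (A : Subgroup G) [A.Normal] [IsMulCommutative A] : ∃ H : Subgroup G, Subgroup.IsComplement' A H := by
  classical
  have : WellFoundedLT (Subgroup G) := Finite.to_wellFoundedLT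
  obtain ⟨H, hH, hmin⟩ := wellFounded_lt.has_min {H : Subgroup G | A ⊔ H = ⊤} ⟨⊤, by simp⟩
  refine ⟨H, ?_⟩
  have hK : (A ⊓ H).Normal := by
    constructor
    intro x hx g
    obtain ⟨a, ha, h, hh, rfl⟩ := Subgroup.mem_sup_of_normal_left.1
      (show g ∈ A ⊔ H from hH ▸ Subgroup.mem_top g)
    have hy : h * x * h⁻¹ ∈ A ⊓ H :=
      ⟨Subgroup.Normal.conj_mem inferInstance x hx.1 h, H.mul_mem (H.mul_mem hh hx.2) (H.inv_mem hh)⟩
    have hc : a * (h * x * h⁻¹) = h * x * h⁻¹ * a := setLike_mul_comm ha hy.1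
    have he : a * h * x * (a * h)⁻¹ = h * x * h⁻¹ := by
      calc a * h * x * (a * h)⁻¹ = a * (h * x * h⁻¹) * a⁻¹ := by group
        _ = h * x * h⁻¹ := by rw [hc]; group
    rw [he]; exact hy
  have hle : A ⊓ H ≤ (frattini ↥H).map H.subtype := by
    intro x hx
    refine ⟨⟨x, hx.2⟩, ?_, rfl⟩
    simp only [frattini, Order.radical, SetLike.mem_coe, Subgroup.mem_iInf]
    intro M hM
    by_contra hxM
    have hlt : M.map H.subtype < H := by
      refine lt_of_le_of_ne (Subgroup.map_subtype_le M) fun e => hM.1 ?_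
      apply Subgroup.map_injective H.subtype_injective
      rw [e, ← MonoidHom.range_eq_map, Subgroup.range_subtype]
    refine hmin (M.map H.subtype) ?_ hlt
    have h1 : M ⊔ (A ⊓ H).subgroupOf H = ⊤ := by
      refine hM.2 _ (lt_of_le_of_ne le_sup_left fun e => hxM ?_)
      exact e ▸ Subgroup.mem_sup_right (show (⟨x, hx.2⟩ : H) ∈ (A ⊓ H).subgroupOf H from hx)
    have h2 := congrArg (Subgroup.map H.subtype) h1
    rw [Subgroup.map_sup, ← MonoidHom.range_eq_map, Subgroup.range_subtype,
      Subgroup.map_subgroupOf_eq_of_le inf_le_right] at h2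
    show A ⊔ M.map H.subtype = ⊤
    rw [eq_top_iff, ← hH]
    refine sup_le le_sup_left ?_
    calc H = M.map H.subtype ⊔ A ⊓ H := h2.symm
      _ ≤ _ := sup_le le_sup_right (inf_le_left.trans le_sup_left)
  have hbot : A ⊓ H = ⊥ :=
    le_bot_iff.1 (hΦ ▸ CfsgLib.FrattiniLift.normal_le_frattini_of_le hK hle)
  apply Subgroup.isComplement'_of_disjoint_and_mul_eq_univ (disjoint_iff.2 hbot)
  rw [← Subgroup.normal_mul, hH, Subgroup.coe_top]

end Cfsg.Agent.S0585
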