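import Cfsg.Statements.S0586
import Cfsg.Agent.Eq.Def_Solvable
import Cfsg.Agent.Fitting.Join
import Cfsg.Agent.MinNormal.Basic
import Cfsg.Agent.SolvableStructure.FrattiniLift
import Cfsg.Agent.S0585

set_option autoImplicit false
open Cfsg
open scoped commutatorElement

namespace Cfsg.Agent.S0586

open scoped IsMulCommutative in
theorem isNilpotent_of_comm {G : Type*} [Group G] {N : Subgroup G} (h : IsMulCommutative N) :
    Group.IsNilpotent N := by infer_instance

/-- If the Frattini subgroup of a finite group G is trivial, then the Fitting subgroup of G equals the join of all abelian minimal normal subgroups of G. -/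
theorem result {G : Type*} [Group G] [Finite G] (hΦ : frattini G = ⊥) : Cfsg.fittingSubgroup G = sSup {N : Subgroup G | N.Normal ∧ N ≠ ⊥ ∧ IsMulCommutative N ∧ ∀ K : Subgroup G, K.Normal → K ≤ N → K = ⊥ ∨ K = N} := by
  classical
  set F := Cfsg.fittingSubgroup G with hF
  set Soc := sSup {N : Subgroup G | N.Normal ∧ N ≠ ⊥ ∧ IsMulCommutative N ∧
    ∀ K : Subgroup G, K.Normal → K ≤ N → K = ⊥ ∨ K = N} with hSoc
  have hFn : F.Normal := CfsgLib.Fitting.fittingSubgroup_normal G
  have hFnil : Group.IsNilpotent F := CfsgLib.Fitting.fittingSubgroup_isNilpotent G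
  have hFab : IsMulCommutative F := by
    have hfr : (frattini ↥F).map F.subtype = ⊥ := le_bot_iff.1 (hΦ ▸
      CfsgLib.FrattiniLift.normal_le_frattini_of_le ConjAct.normal_of_characteristic_of_normal le_rfl)
    rw [Subgroup.map_eq_bot_iff_of_injective _ F.subtype_injective] at hfr
    have hc : commutator F ≤ frattini F := by
      simp only [frattini, Order.radical, le_iInf_iff]
      intro M hM
      have hMn : M.Normal := by
        rw [← Subgroup.normalizer_eq_top_iff]
        exact hM.2 _ (Group.normalizerCondition_of_isNilpotent (G := F) M (lt_top_iff_ne_top.2 hM.1))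
      by_contra hle
      have htop : commutator F ⊔ M = ⊤ :=
        hM.2 _ (lt_of_le_of_ne le_sup_right fun e => hle (e ▸ le_sup_left))
      have : Nontrivial (F ⧸ M) := QuotientGroup.nontrivial_iff.2 hM.1
      have h1 := Group.IsSolvable.commutator_lt_top_of_nontrivial (F ⧸ M)
      refine h1.ne ?_
      have h2 := congrArg (Subgroup.map (QuotientGroup.mk' M)) htop
      rw [Subgroup.map_sup, QuotientGroup.map_mk'_self, sup_bot_eq, commutator_def,
        Subgroup.map_commutator, Subgroup.map_top_of_surjective _ (QuotientGroup.mk'_surjective M)] at h2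
      exact h2
    rw [hfr, le_bot_iff] at hc
    exact ⟨⟨fun a b => commutatorElement_eq_one_iff_mul_comm.1 ((Subgroup.eq_bot_iff_forall _).1 hc _
      (Subgroup.commutator_mem_commutator (Subgroup.mem_top a) (Subgroup.mem_top b)))⟩⟩
  have hSocn : Soc.Normal := Subgroup.sSup_normal _ fun _ h => h.1
  have hle : Soc ≤ F := sSup_le fun N hN =>
    CfsgLib.Fitting.le_fittingSubgroup hN.1 (isNilpotent_of_comm hN.2.2.1)
  have : IsMulCommutative Soc :=
    ⟨⟨fun a b => Subtype.ext (setLike_mul_comm (hle a.2) (hle b.2))⟩⟩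
  obtain ⟨H, hH⟩ := Cfsg.Agent.S0585.result hΦ Soc
  refine le_antisymm (fun f hf => ?_) hle
  have hX : (F ⊓ H).Normal := by
    constructor
    intro x hx g
    obtain ⟨s, hs, h, hh, rfl⟩ := Subgroup.mem_sup_of_normal_left.1
      (show g ∈ Soc ⊔ H from hH.sup_eq_top ▸ Subgroup.mem_top g)
    have hy : h * x * h⁻¹ ∈ F ⊓ H :=
      ⟨hFn.conj_mem x hx.1 h, H.mul_mem (H.mul_mem hh hx.2) (H.inv_mem hh)⟩
    have hc : s * (h * x * h⁻¹) = h * x * h⁻¹ * s := setLike_mul_comm (hle hs) hy.1
    have he : s * h * x * (s * h)⁻¹ = h * x * h⁻¹ := by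
      calc s * h * x * (s * h)⁻¹ = s * (h * x * h⁻¹) * s⁻¹ := by group
        _ = _ := by rw [hc]; group
    rw [he]; exact hy
  have hXbot : F ⊓ H = ⊥ := by
    by_contra hne
    obtain ⟨M, hM⟩ := CfsgLib.MinNormal.exists_isMinNormal_le hX hne
    have hMab : IsMulCommutative M :=
      ⟨⟨fun a b => Subtype.ext (setLike_mul_comm (hM.2 a.2).1 (hM.2 b.2).1)⟩⟩
    have hMS : M ≤ Soc := le_sSup ⟨hM.1.normal, hM.1.ne_bot, hMab, hM.1.eq_or_eq⟩
    exact hM.1.ne_bot (le_bot_iff.1 ((le_inf hMS (hM.2.trans inf_le_right)).trans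
      (hH.disjoint.eq_bot).le))
  obtain ⟨s, hs, h, hh, rfl⟩ := Subgroup.mem_sup_of_normal_left.1
    (show f ∈ Soc ⊔ H from hH.sup_eq_top ▸ Subgroup.mem_top f)
  have hh' : h ∈ F ⊓ H := ⟨by simpa using F.mul_mem (F.inv_mem (hle hs)) hf, hh⟩
  rw [hXbot, Subgroup.mem_bot] at hh'
  rwa [hh', mul_one]

end Cfsg.Agent.S0586
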