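import Cfsg.Statements.S0587
import Cfsg.Agent.SolvableStructure.CoreFree
import Cfsg.Agent.LocalP.Basic
import Cfsg.Agent.Eq.Def_Local


set_option autoImplicit false
open Cfsg

namespace Cfsg.Agent.S0587

/-- Let G be a finite group whose largest normal p-subgroup L is nontrivial, and M a maximal subgroup of G with trivial normal core. Then L is elementary abelian, M is a complement to L, L is a minimal normal subgroup of G, the centralizer of L is L, and for every prime q such that the largest normal q-subgroup of M is nontrivial, the order of L is congruent to 1 modulo q and q ≠ p. -/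
theorem result {G : Type*} [Group G] [Finite G] (p : ℕ) [Fact p.Prime] (hL : Cfsg.pCore p G ≠ ⊥) (M : Subgroup G) (hM : IsCoatom M) (hcore : M.normalCore = ⊥) : Cfsg.IsElementaryAbelian p (Cfsg.pCore p G) ∧ Subgroup.IsComplement' (Cfsg.pCore p G) M ∧ (∀ K : Subgroup G, K.Normal → K ≤ Cfsg.pCore p G → K = ⊥ ∨ K = Cfsg.pCore p G) ∧ Subgroup.centralizer ((Cfsg.pCore p G : Subgroup G) : Set G) = Cfsg.pCore p G ∧ ∀ (q : ℕ) [Fact q.Prime], Cfsg.pCore q ↥M ≠ ⊥ → Nat.card (Cfsg.pCore p G) % q = 1 % q ∧ q ≠ p := by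
  obtain ⟨N, hNL, hNn, hNne, hNmin⟩ := CfsgLib.Solvable.exists_minimal_normal_le (hN := Cfsg.pCore_normal p G) _ hL
  haveI := hNn
  have hLp : IsPGroup p (Cfsg.pCore p G) := CfsgLib.LocalP.isPGroup_pCore
  have hLn : (Cfsg.pCore p G).Normal := Cfsg.pCore_normal p G
  haveI : Group.IsNilpotent N := (hLp.to_le hNL).isNilpotent
  obtain ⟨hab, r, hr, hexp, k, hk, hcard⟩ := CfsgLib.Solvable.minimal_normal_elementary N inferInstance hNne hNmin
  have hrp : r = p := by
    obtain ⟨i, hi⟩ := IsPGroup.iff_card.1 (hLp.to_le hNL)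
    exact (Nat.prime_dvd_prime_iff_eq hr Fact.out).1 (hr.dvd_of_dvd_pow (hi ▸ hcard ▸ dvd_pow_self r hk.ne'))
  subst hrp
  obtain ⟨hC, hcompl⟩ := CfsgLib.CoreFree.abelian_normal hM hcore hNn hNne hab
  have hLN : Cfsg.pCore r G = N := le_antisymm
    ((CfsgLib.CoreFree.commute_of_minimal hLn hLp hNn hNne hNL hNmin).trans hC.le) hNL
  rw [hLN]
  refine ⟨⟨hab, hexp⟩, hcompl, hNmin, hC, ?_⟩
  intro q hq hQ
  set Q : Subgroup G := (Cfsg.pCore q M).map M.subtype with hQdef
  have hQM : Q ≤ M := Subgroup.map_subtype_le _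
  have hQne : Q ≠ ⊥ := fun h => hQ ((Subgroup.map_eq_bot_iff_of_injective _ M.subtype_injective).1 h)
  have hQp : IsPGroup q Q := (CfsgLib.LocalP.isPGroup_pCore (G := M)).map _
  have hMQ : M ≤ Subgroup.normalizer (Q : Set G) := fun m hm => by
    refine Subgroup.le_normalizer_map (f := M.subtype) (H := Cfsg.pCore q M) ⟨⟨m, hm⟩, ?_, rfl⟩
    haveI := Cfsg.pCore_normal q M
    rw [Subgroup.normalizer_eq_top]; exact Subgroup.mem_top _
  have hsup : N ⊔ M = ⊤ := hcompl.sup_eq_top
  have hqr : q ≠ r := by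
    rintro rfl
    have hQN : N ⊔ Q ≤ Cfsg.pCore q G := by
      refine CfsgLib.LocalP.le_pCore ?_ ((hLp.to_le hNL).to_sup_of_normal_left hQp)
      refine CfsgLib.CoreFree.normal_of_sup_eq_top hsup (le_sup_left.trans Subgroup.le_normalizer) ?_
      intro m hm
      rw [Subgroup.mem_normalizer_iff_map_conj_eq]
      rw [Subgroup.map_sup, Subgroup.mem_normalizer_iff_map_conj_eq.1 (hMQ hm),
        Subgroup.mem_normalizer_iff_map_conj_eq.1 (by rw [Subgroup.normalizer_eq_top]; exact Subgroup.mem_top m)]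
    rw [hLN] at hQN
    exact hQne (le_bot_iff.1 ((le_inf (le_sup_right.trans hQN) hQM).trans (disjoint_iff.1 hcompl.disjoint).le))
  refine ⟨?_, hqr⟩
  letI : MulAction Q N := MulAction.compHom N ((MulAut.conjNormal (H := N)).comp Q.subtype)
  have hmod := hQp.card_modEq_card_fixedPoints N
  have hfix : MulAction.fixedPoints Q N = {(1 : N)} := by
    have hC0 : (N ⊓ Subgroup.centralizer (Q : Set G)).Normal := by
      refine CfsgLib.CoreFree.normal_of_sup_eq_top hsup ?_ (CfsgLib.CoreFree.le_normalizer_inf_of_le hNn ?_)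
      · intro x hx
        refine Subgroup.centralizer_le_normalizer _ (Subgroup.mem_centralizer_iff.2 fun c hc => ?_)
        exact congrArg Subtype.val (hab.is_comm.comm ⟨c, hc.1⟩ ⟨x, hx⟩)
      · intro m hm
        rw [Subgroup.mem_normalizer_iff]
        intro c
        have hmQ := Subgroup.mem_normalizer_iff.1 (hMQ hm)
        constructor
        · intro hc
          refine Subgroup.mem_centralizer_iff.2 fun y hy => ?_
          have hy' : m⁻¹ * y * m ∈ Q := (hmQ _).2 (by simpa [mul_assoc] using hy)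
          calc y * (m * c * m⁻¹) = m * ((m⁻¹ * y * m) * c) * m⁻¹ := by group
            _ = m * (c * (m⁻¹ * y * m)) * m⁻¹ := by rw [Subgroup.mem_centralizer_iff.1 hc _ hy']
            _ = m * c * m⁻¹ * y := by group
        · intro hc
          refine Subgroup.mem_centralizer_iff.2 fun y hy => ?_
          have h5 := Subgroup.mem_centralizer_iff.1 hc _ ((hmQ y).1 hy)
          calc y * c = m⁻¹ * ((m * y * m⁻¹) * (m * c * m⁻¹)) * m := by group
            _ = m⁻¹ * ((m * c * m⁻¹) * (m * y * m⁻¹)) * m := by rw [h5]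
            _ = c * y := by group
    have hb : N ⊓ Subgroup.centralizer (Q : Set G) = ⊥ := by
      refine (hNmin _ hC0 inf_le_left).resolve_right fun e => hQne ?_
      have h1 : Q ≤ N := by
        rw [← hC]
        exact Subgroup.le_centralizer_iff.1 (e ▸ inf_le_right)
      exact le_bot_iff.1 ((le_inf h1 hQM).trans (disjoint_iff.1 hcompl.disjoint).le)
    ext x
    constructor
    · intro hx
      refine Subtype.ext ((Subgroup.eq_bot_iff_forall _).1 hb x ⟨x.2, Subgroup.mem_centralizer_iff.2 fun y hy => ?_⟩)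
      have h1 := congrArg Subtype.val (hx ⟨y, hy⟩)
      rw [show ((⟨y, hy⟩ : Q) • x : N) = MulAut.conjNormal y x from rfl, MulAut.conjNormal_apply] at h1
      exact mul_inv_eq_iff_eq_mul.1 h1
    · rintro rfl y
      exact map_one (MulAut.conjNormal (H := N) (y : G))
  rw [hfix, Nat.card_coe_set_eq, Set.ncard_singleton] at hmod
  exact hmod

end Cfsg.Agent.S0587
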