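import Cfsg.Statements.S0588
import Mathlib.GroupTheory.Sylow
import Mathlib.GroupTheory.PGroup

set_option autoImplicit false
open Cfsg
open scoped commutatorElement

namespace Cfsg.Agent.S0588

/-- If a subgroup H of a finite group G contains the centralizer of every non-identity element of H, then the order of H is coprime to its index. -/
theorem result {G : Type*} [Group G] [Finite G] (H : Subgroup G) (h : ∀ x ∈ H, x ≠ 1 → Subgroup.centralizer ({x} : Set G) ≤ H) : (Nat.card H).Coprime H.index := by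
  classical
  refine Nat.coprime_of_dvd fun p hp hpH hpI => ?_
  have : Fact p.Prime := ⟨hp⟩
  obtain ⟨P⟩ : Nonempty (Sylow p H) := inferInstance
  have hP1 : (P : Subgroup H) ≠ ⊥ := P.ne_bot_of_dvd_card hpH
  set P' : Subgroup G := (P : Subgroup H).map H.subtype with hP'
  have hPp : IsPGroup p P' := P.isPGroup'.map _
  obtain ⟨S, hS⟩ := hPp.exists_le_sylow
  obtain ⟨x, hx⟩ := (Subgroup.ne_bot_iff_exists_ne_one).1 hP1
  have hxG : ((x : H) : G) ∈ P' := ⟨x, x.2, rfl⟩
  have hx1 : ((x : H) : G) ≠ 1 := fun e => hx (Subtype.ext (Subtype.ext e))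
  haveI : Nontrivial (S : Subgroup G) :=
    ⟨⟨⟨_, hS hxG⟩, 1, fun e => hx1 (congrArg Subtype.val e)⟩⟩
  haveI := S.isPGroup'.center_nontrivial
  obtain ⟨z, hz⟩ := exists_ne (1 : Subgroup.center (S : Subgroup G))
  have hz1 : ((z : (S : Subgroup G)) : G) ≠ 1 := fun e => hz (Subtype.ext (Subtype.ext e))
  have hzH : ((z : (S : Subgroup G)) : G) ∈ H := by
    refine h _ (x : H).2 hx1 ?_
    rw [Subgroup.mem_centralizer_iff]
    intro y hy
    rw [Set.mem_singleton_iff] at hy
    subst hy
    exact congrArg Subtype.val (Subgroup.mem_center_iff.1 z.2 ⟨_, hS hxG⟩)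
  have hSH : (S : Subgroup G) ≤ H := fun g hg => h _ hzH hz1 (by
    rw [Subgroup.mem_centralizer_iff]
    intro y hy
    rw [Set.mem_singleton_iff] at hy
    subst hy
    exact (congrArg Subtype.val (Subgroup.mem_center_iff.1 z.2 ⟨g, hg⟩)).symm)
  exact S.not_dvd_index (hpI.trans (Subgroup.index_dvd_of_le hSH))

end Cfsg.Agent.S0588
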