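import Cfsg.Statements.S0589
import Cfsg.Agent.Frobenius.Complement
-- import your own Cfsg.Agent.* helpers here

set_option autoImplicit false
open Pointwise
open Cfsg

namespace Cfsg.Agent.S0589

/-- Let H be a Frobenius complement in a finite group G and L a subgroup of G whose order divides the order of H. Then L is contained in some conjugate of H. -/
theorem result {G : Type*} [Group G] [Finite G] (H : Subgroup G) (hH : Cfsg.IsFrobeniusComplement H) (L : Subgroup G) (hL : Nat.card L ∣ Nat.card H) : ∃ x : G, L ≤ MulAut.conj x • H := by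
  obtain ⟨K, hKn, hK⟩ := CfsgLib.Frobenius.exists_kernel hH
  obtain ⟨g, hg⟩ := CfsgLib.Frobenius.exists_le_conj hH L fun x hx h1 => by
    refine CfsgLib.Frobenius.mem_conjHash_of_not_mem_kernel hK fun hxK => h1 (orderOf_eq_one_iff.1 ?_)
    exact Nat.eq_one_of_dvd_coprimes (CfsgLib.Frobenius.kernel_coprime hH hK)
      (Subgroup.orderOf_dvd_natCard _ hxK) ((Subgroup.orderOf_dvd_natCard _ hx).trans hL)
  exact ⟨g, fun x hx => ⟨g⁻¹ * x * g, hg x hx, by show g * (g⁻¹ * x * g) * g⁻¹ = x; group⟩⟩

end Cfsg.Agent.S0589
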