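import Cfsg.Statements.S0590
import Cfsg.Agent.Eq.Def_Transfer

set_option autoImplicit false
open Cfsg
open scoped commutatorElement

namespace Cfsg.Agent.S0590

/-- Quadratic action on an elementary abelian p-group forces the acting group modulo the kernel of the action to be elementary abelian. -/
theorem result {G : Type*} [Group G] [Finite G] {p : ℕ} [Fact p.Prime] (V H : Subgroup G) (hV : Cfsg.IsElementaryAbelian p V) (hHV : H ≤ Subgroup.normalizer (V : Set G)) (hq : ⁅⁅V, H⁆, H⁆ = ⊥) : ⁅H, H⁆ ≤ Subgroup.centralizer (V : Set G) ∧ ∀ a ∈ H, a ^ p ∈ Subgroup.centralizer (V : Set G) := by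
  classical
  obtain ⟨hVc, hVp⟩ := hV
  have hcm : ∀ x ∈ V, ∀ y ∈ V, x * y = y * x := fun x hx y hy =>
    congrArg Subtype.val (mul_comm' (⟨x, hx⟩ : V) ⟨y, hy⟩)
  have hn : ∀ a ∈ H, ∀ v ∈ V, a * v * a⁻¹ ∈ V := fun a ha v hv =>
    (Subgroup.mem_normalizer_iff.1 (hHV ha) v).1 hv
  have hfix : ∀ a ∈ H, ∀ v ∈ V, ∀ b ∈ H, b * ⁅v, a⁆ * b⁻¹ = ⁅v, a⁆ := by
    intro a ha v hv b hb
    have := Subgroup.commutator_mem_commutator (Subgroup.commutator_mem_commutator hv ha) hb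
    rw [hq, Subgroup.mem_bot, commutatorElement_eq_one_iff_mul_comm] at this
    rw [← this, mul_inv_cancel_right]
  have hdel : ∀ a ∈ H, ∀ v ∈ V, a * v * a⁻¹ = ⁅v, a⁆⁻¹ * v := by
    intro a ha v hv
    have h1 : ⁅v, a⁆ ∈ V := by
      rw [commutatorElement_def, show v * a * v⁻¹ * a⁻¹ = v * (a * v⁻¹ * a⁻¹) by group]
      exact mul_mem hv (hn a ha _ (inv_mem hv))
    have h2 : a * v * a⁻¹ = (a * v⁻¹ * a⁻¹)⁻¹ := by group
    have h3 : a * v⁻¹ * a⁻¹ = v⁻¹ * ⁅v, a⁆ := by rw [commutatorElement_def]; group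
    rw [h2, h3, mul_inv_rev, inv_inv]
  have hmemV : ∀ a ∈ H, ∀ v ∈ V, ⁅v, a⁆ ∈ V := by
    intro a ha v hv
    rw [commutatorElement_def, show v * a * v⁻¹ * a⁻¹ = v * (a * v⁻¹ * a⁻¹) by group]
    exact mul_mem hv (hn a ha _ (inv_mem hv))
  -- action of a product
  have hprod : ∀ a ∈ H, ∀ b ∈ H, ∀ v ∈ V,
      (a * b) * v * (a * b)⁻¹ = ⁅v, b⁆⁻¹ * ⁅v, a⁆⁻¹ * v := by
    intro a ha b hb v hv
    calc (a * b) * v * (a * b)⁻¹ = a * (b * v * b⁻¹) * a⁻¹ := by group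
      _ = a * (⁅v, b⁆⁻¹ * v) * a⁻¹ := by rw [hdel b hb v hv]
      _ = (a * ⁅v, b⁆ * a⁻¹)⁻¹ * (a * v * a⁻¹) := by group
      _ = ⁅v, b⁆⁻¹ * ⁅v, a⁆⁻¹ * v := by rw [hfix b hb v hv a ha, hdel a ha v hv, mul_assoc]
  constructor
  · rw [Subgroup.commutator_le]
    intro a ha b hb
    rw [Subgroup.mem_centralizer_iff]
    intro v hv
    have key : (a * b) * v * (a * b)⁻¹ = (b * a) * v * (b * a)⁻¹ := by
      rw [hprod a ha b hb v hv, hprod b hb a ha v hv,
        hcm _ (inv_mem (hmemV b hb v hv)) _ (inv_mem (hmemV a ha v hv))]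
    have key2 : ⁅a, b⁆ * ((b * a) * v * (b * a)⁻¹) * ⁅a, b⁆⁻¹ = (a * b) * v * (a * b)⁻¹ := by
      rw [commutatorElement_def]; group
    rw [key] at key2
    -- every element of `V` is of the form `(b a) v (b a)⁻¹`
    set w := (b * a)⁻¹ * v * (b * a) with hw
    have hwV : w ∈ V := by
      have := hn (b * a)⁻¹ (inv_mem (mul_mem hb ha)) v hv
      simpa [hw] using this
    have key' : (a * b) * w * (a * b)⁻¹ = (b * a) * w * (b * a)⁻¹ := by
      rw [hprod a ha b hb w hwV, hprod b hb a ha w hwV,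
        hcm _ (inv_mem (hmemV b hb w hwV)) _ (inv_mem (hmemV a ha w hwV))]
    have h4 : (b * a) * w * (b * a)⁻¹ = v := by rw [hw]; group
    have h5 : ⁅a, b⁆ * v * ⁅a, b⁆⁻¹ = v := by
      have : ⁅a, b⁆ * ((b * a) * w * (b * a)⁻¹) * ⁅a, b⁆⁻¹ = (a * b) * w * (a * b)⁻¹ := by
        rw [commutatorElement_def]; group
      rw [key', h4] at this
      exact this
    exact (mul_inv_eq_iff_eq_mul.1 h5).symm
  · intro a ha
    rw [Subgroup.mem_centralizer_iff]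
    intro v hv
    have hpow : ∀ n : ℕ, a ^ n * v * (a ^ n)⁻¹ = (⁅v, a⁆⁻¹) ^ n * v := by
      intro n
      induction n with
      | zero => simp
      | succ n ih =>
        calc a ^ (n + 1) * v * (a ^ (n + 1))⁻¹ = a * (a ^ n * v * (a ^ n)⁻¹) * a⁻¹ := by
              rw [pow_succ']; group
          _ = a * ((⁅v, a⁆⁻¹) ^ n * v) * a⁻¹ := by rw [ih]
          _ = (a * ⁅v, a⁆⁻¹ * a⁻¹) ^ n * (a * v * a⁻¹) := by rw [conj_pow]; group
          _ = (⁅v, a⁆⁻¹) ^ n * (⁅v, a⁆⁻¹ * v) := by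
              rw [← conj_inv, hfix a ha v hv a ha,
                hdel a ha v hv]
          _ = _ := by rw [← mul_assoc, pow_succ]
    have := hpow p
    rw [hVp _ (inv_mem (hmemV a ha v hv)), one_mul] at this
    exact (mul_inv_eq_iff_eq_mul.1 this).symm

end Cfsg.Agent.S0590
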