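import Cfsg.Statements.S0591
import Cfsg.Agent.Eq.Def_Transfer

set_option autoImplicit false
open Cfsg
open scoped commutatorElement

namespace Cfsg.Agent.S0591

/-- For a quadratically acting element a on an elementary abelian p-group V, the fixed points C_V(a) have order at least the square root of the order of V. -/
theorem result {G : Type*} [Group G] [Finite G] {p : ℕ} [Fact p.Prime] (V : Subgroup G) (hV : Cfsg.IsElementaryAbelian p V) (a : G) (ha : a ∈ Subgroup.normalizer (V : Set G)) (hq : ⁅⁅V, Subgroup.zpowers a⁆, Subgroup.zpowers a⁆ = ⊥) : Nat.card V ≤ Nat.card ↥(V ⊓ Subgroup.centralizer (Subgroup.zpowers a : Set G)) ^ 2 := by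
  classical
  obtain ⟨hVc, -⟩ := hV
  set C := V ⊓ Subgroup.centralizer (Subgroup.zpowers a : Set G) with hC
  have hn : ∀ v ∈ V, a * v * a⁻¹ ∈ V := fun v hv =>
    (Subgroup.mem_normalizer_iff.1 ha v).1 hv
  let f : V → V := fun v =>
    ⟨⁅(v : G), a⁆, by
      rw [commutatorElement_def, show (v : G) * a * (v : G)⁻¹ * a⁻¹ = v * (a * (v : G)⁻¹ * a⁻¹) by group]
      exact mul_mem v.2 (hn _ (inv_mem v.2))⟩
  have hmul : ∀ u v : V, f (u * v) = f u * f v := by
    intro u v
    apply Subtype.ext
    have hc : (u : G) * ⁅(v : G), a⁆ = ⁅(v : G), a⁆ * u :=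
      congrArg Subtype.val (mul_comm' u (f v))
    calc ⁅((u * v : V) : G), a⁆ = (u : G) * ⁅(v : G), a⁆ * (u : G)⁻¹ * ⁅(u : G), a⁆ := by
            simp only [commutatorElement_def, Subgroup.coe_mul]; group
      _ = ⁅(v : G), a⁆ * ⁅(u : G), a⁆ := by rw [hc, mul_inv_cancel_right]
      _ = ((f u * f v : V) : G) := congrArg Subtype.val (mul_comm' (f v) (f u))
  let φ : V →* V := MonoidHom.mk' f hmul
  have hker : Nat.card φ.ker ≤ Nat.card C := by
    refine Nat.card_le_card_of_injective
      (fun v => (⟨((v : V) : G), Subgroup.mem_inf.2 ⟨(v : V).2, ?_⟩⟩ : C)) ?_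
    · have h1 : ⁅((v : V) : G), a⁆ = 1 := congrArg Subtype.val (show f v = 1 from v.2)
      rw [Subgroup.mem_centralizer_iff]
      rintro y ⟨k, rfl⟩
      exact ((commutatorElement_eq_one_iff_mul_comm.1 h1).symm |> fun (e : Commute a _) =>
        (e.zpow_left k).eq)
    · intro u v e
      exact Subtype.ext (Subtype.ext (congrArg (fun c : C => (c : G)) e))
  have hrange : Nat.card φ.range ≤ Nat.card C := by
    refine Nat.card_le_card_of_injective
      (fun v => (⟨((v : V) : G), Subgroup.mem_inf.2 ⟨(v : V).2, ?_⟩⟩ : C)) ?_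
    · obtain ⟨u, hu⟩ := v.2
      rw [Subgroup.mem_centralizer_iff]
      intro y hy
      have := Subgroup.commutator_mem_commutator
        (Subgroup.commutator_mem_commutator u.2 (Subgroup.mem_zpowers a)) hy
      rw [hq, Subgroup.mem_bot, commutatorElement_eq_one_iff_mul_comm] at this
      rw [← hu]
      exact this.symm
    · intro u v e
      exact Subtype.ext (Subtype.ext (congrArg (fun c : C => (c : G)) e))
  calc Nat.card V = φ.ker.index * Nat.card φ.ker := (Subgroup.index_mul_card _).symm
    _ = Nat.card φ.range * Nat.card φ.ker := by rw [Subgroup.index_ker]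
    _ ≤ Nat.card C * Nat.card C := Nat.mul_le_mul hrange hker
    _ = _ := (sq _).symm

end Cfsg.Agent.S0591
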