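import Cfsg.Statements.S0592
import Cfsg.Agent.QuadraticSL2.FiniteField

set_option autoImplicit false
open Cfsg

namespace Cfsg.Agent.S0592

/-- Two quadratically acting generators of a linear group that is not a p-group, with the p'-part of the order of their product dividing q - 1, give a homomorphism onto a subgroup of SL(2, q) that is not a p-group. -/
theorem result {K : Type*} [Field K] [Fintype K] {p : ℕ} [Fact p.Prime] [CharP K p] {W : Type*} [AddCommGroup W] [Module K W] [FiniteDimensional K W] [Finite W] [Nontrivial W] (H : Subgroup (W ≃ₗ[K] W)) (a b : W ≃ₗ[K] W) (hH : H = Subgroup.closure {a, b}) (ha : ∀ w : W, a (a w - w) = a w - w) (hb : ∀ w : W, b (b w - w) = b w - w) (hnp : ¬ IsPGroup p H) (hk : ∃ e k : ℕ, orderOf (a * b) = p ^ e * k ∧ k ∣ Fintype.card K - 1) : ∃ φ : H →* Matrix.SpecialLinearGroup (Fin 2) K, ¬ IsPGroup p φ.range := by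
  subst hH
  let ι : (W ≃ₗ[K] W) →* Module.End K W :=
    { toFun := fun e => e.toLinearMap, map_one' := rfl, map_mul' := fun _ _ => rfl }
  have hι : Function.Injective ι := LinearEquiv.toLinearMap_injective
  have : Finite (W ≃ₗ[K] W) :=
    Finite.of_injective (fun e : W ≃ₗ[K] W => (e : W → W)) DFunLike.coe_injective
  let a' : Subgroup.closure {a, b} := ⟨a, Subgroup.subset_closure (Set.mem_insert _ _)⟩
  let b' : Subgroup.closure {a, b} := ⟨b, Subgroup.subset_closure (Set.mem_insert_of_mem _ rfl)⟩
  have hgen : Subgroup.closure ({a', b'} : Set _) = ⊤ := by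
    apply Subgroup.map_injective (Subgroup.subtype_injective (Subgroup.closure {a, b}))
    rw [MonoidHom.map_closure, Set.image_pair, ← MonoidHom.range_eq_map, Subgroup.range_subtype]
    rfl
  have hquad : ∀ c : W ≃ₗ[K] W, (∀ w : W, c (c w - w) = c w - w) → (ι c - 1) * (ι c - 1) = 0 :=
    fun c hc => LinearMap.ext fun w => by
      show c (c w - w) - (c w - w) = 0
      rw [hc, sub_self]
  obtain ⟨e, k, he, hk⟩ := hk
  obtain ⟨φ, -, -, hφ⟩ := CfsgLib.QuadraticSL2.exists_sl2_of_finite_field (p := p) (a := a') (b := b') hgen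
    (e := e) (k := k) (by rw [← he]; exact (Subgroup.orderOf_coe (a' * b')).symm) hk
    (ι.comp (Subgroup.closure {a, b}).subtype) (hquad a ha) (hquad b hb)
    (fun h => hnp fun x => (h x).imp fun n hn => Subtype.ext (hι (hn.trans (map_one ι).symm)))
  exact ⟨φ, fun h => hφ fun x => (h ⟨φ x, x, rfl⟩).imp fun n hn => by
    rw [map_pow]; exact congrArg Subtype.val hn⟩

end Cfsg.Agent.S0592
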