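import Cfsg.Statements.S0593
import Cfsg.Agent.QdSection.Stability
import Cfsg.Agent.Eq.Def_PLocal

set_option autoImplicit false
open Cfsg

namespace Cfsg.Agent.S0593

open Matrix in
theorem exists_nonabelian_two_subgroup {p : ℕ} [Fact p.Prime] (hp : p ≠ 2) :
    ∃ A : Subgroup (SpecialLinearGroup (Fin 2) (ZMod p)), IsPGroup 2 A ∧ ¬ IsMulCommutative A := by
  haveI : Fact (Nat.Prime 2) := ⟨Nat.prime_two⟩
  obtain ⟨x, y, hxy⟩ := ZMod.sq_add_sq p (-1)
  set i : SpecialLinearGroup (Fin 2) (ZMod p) := ⟨!![0, 1; -1, 0], by simp [det_fin_two]⟩ with hi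
  set j : SpecialLinearGroup (Fin 2) (ZMod p) := ⟨!![x, y; y, -x], by
    rw [det_fin_two]; simp; linear_combination -hxy⟩ with hj
  have hii : i ^ 4 = 1 := by
    rw [show (4 : ℕ) = 2 * 2 from rfl, pow_mul, pow_two, pow_two]
    apply Subtype.ext
    show i.1 * i.1 * (i.1 * i.1) = 1
    rw [hi]
    ext a b
    fin_cases a <;> fin_cases b <;> simp [Matrix.mul_apply, Fin.sum_univ_two]
  have hj2 : j.1 * j.1 = -1 := by
    rw [hj]
    ext a b
    fin_cases a <;> fin_cases b <;> simp [Matrix.mul_apply, Fin.sum_univ_two] <;>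
      first | ring1 | linear_combination hxy
  have hjj : j ^ 4 = 1 := by
    rw [show (4 : ℕ) = 2 * 2 from rfl, pow_mul, pow_two, pow_two]
    apply Subtype.ext
    show j.1 * j.1 * (j.1 * j.1) = 1
    rw [hj2]
    simp
  have hij : i * j * i⁻¹ = j⁻¹ := by
    rw [mul_inv_eq_iff_eq_mul, eq_inv_mul_iff_mul_eq]
    apply Subtype.ext
    show j.1 * (i.1 * j.1) = i.1
    rw [hi, hj]
    ext a b
    fin_cases a <;> fin_cases b <;> simp [Matrix.mul_apply, Fin.sum_univ_two] <;>
      first | ring1 | linear_combination -hxy | linear_combination hxy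
  have hz : ∀ g : SpecialLinearGroup (Fin 2) (ZMod p), g ^ 4 = 1 → IsPGroup 2 (Subgroup.zpowers g) := by
    rintro g hg ⟨z, n, rfl⟩
    refine ⟨2, Subtype.ext ?_⟩
    show (g ^ n) ^ 2 ^ 2 = 1
    rw [← zpow_natCast, zpow_comm, zpow_natCast, show 2 ^ 2 = 4 from rfl, hg, _root_.one_zpow]
  refine ⟨Subgroup.zpowers i ⊔ Subgroup.zpowers j, (hz i hii).to_sup_of_normal_right' (hz j hjj) ?_, ?_⟩
  · rw [Subgroup.zpowers_le]
    exact Subgroup.mem_normalizer_iff.mpr fun z => by
      constructor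
      · rintro ⟨n, rfl⟩
        refine ⟨-n, ?_⟩
        show j ^ (-n) = i * j ^ n * i⁻¹
        rw [← conj_zpow, hij, _root_.inv_zpow, ← _root_.zpow_neg]
      · rintro ⟨n, hn⟩
        refine ⟨-n, ?_⟩
        show j ^ (-n) = z
        have h1 : j ^ (-n) = i⁻¹ * j ^ n * i := by
          rw [show i⁻¹ * j ^ n * i = i⁻¹ * (j⁻¹) ^ (-n) * i by rw [_root_.inv_zpow, ← _root_.zpow_neg, neg_neg],
            ← hij, conj_zpow]
          group
        rw [h1, show j ^ n = i * z * i⁻¹ from hn]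
        group
  · intro h
    have hc : i * j = j * i := congrArg Subtype.val (h.is_comm.comm
      ⟨i, Subgroup.mem_sup_left (Subgroup.mem_zpowers i)⟩ ⟨j, Subgroup.mem_sup_right (Subgroup.mem_zpowers j)⟩)
    have hc' : i.1 * j.1 = j.1 * i.1 := congrArg Subtype.val hc
    have h00 := congrFun (congrFun hc' 0) 0
    have h01 := congrFun (congrFun hc' 0) 1
    simp [hi, hj, Matrix.mul_apply, Fin.sum_univ_two] at h00 h01
    have h2 : (2 : ZMod p) ≠ 0 := fun h2 => CfsgLib.QdSection.neg_one_ne_one_zmod hp (by linear_combination -h2)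
    have hy : y = 0 := (mul_eq_zero.mp (show (2 : ZMod p) * y = 0 by linear_combination h00)).resolve_left h2
    have hx : x = 0 := (mul_eq_zero.mp (show (2 : ZMod p) * x = 0 by linear_combination -h01)).resolve_left h2
    rw [hx, hy] at hxy
    simp at hxy



/-- For odd p, a faithful group on an elementary abelian p-group generated by two quadratically acting elements is a p-group or has non-abelian Sylow 2-subgroups. -/
theorem result {G : Type*} [Group G] [Finite G] {p : ℕ} [Fact p.Prime] (hp : p ≠ 2) (V H : Subgroup G) (hV : Cfsg.IsElementaryAbelian p V) (hHV : H ≤ Subgroup.normalizer (V : Set G)) (hf : H ⊓ Subgroup.centralizer (V : Set G) = ⊥) (a b : G) (hab : H = Subgroup.closure {a, b}) (ha : ⁅⁅V, Subgroup.zpowers a⁆, Subgroup.zpowers a⁆ = ⊥) (hb : ⁅⁅V, Subgroup.zpowers b⁆, Subgroup.zpowers b⁆ = ⊥) (hnp : ¬ IsPGroup p H) (T : Sylow 2 H) : ¬ IsMulCommutative T := by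
  intro hT
  subst hab
  obtain ⟨s⟩ := CfsgLib.QdSection.exists_conjSection hp V _ hV hHV (a := a) (b := b)
    (Subgroup.subset_closure (Set.mem_insert _ _)) (Subgroup.subset_closure (Set.mem_insert_of_mem _ rfl))
    (CfsgLib.QdSection.commutator_eq_one_of_zpowers ha) (CfsgLib.QdSection.commutator_eq_one_of_zpowers hb)
    (fun hall => hnp fun g => by
      obtain ⟨k, hk⟩ := hall g g.2
      refine ⟨k, Subtype.ext ?_⟩
      have h2 : (g : G) ^ p ^ k ∈ Subgroup.closure {a, b} ⊓ Subgroup.centralizer (V : Set G) :=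
        ⟨pow_mem g.2 _, hk⟩
      rw [hf, Subgroup.mem_bot] at h2
      simpa using h2)
  haveI : Fact (Nat.Prime 2) := ⟨Nat.prime_two⟩
  have hall : ∀ T' : Sylow 2 ↥(Subgroup.closure ({a, b} : Set G)), IsMulCommutative T' := by
    intro T'
    obtain ⟨g, hg⟩ := MulAction.exists_smul_eq ↥(Subgroup.closure ({a, b} : Set G)) T T'
    refine ⟨⟨fun x y => Subtype.ext ?_⟩⟩
    have hmem : ∀ z : T', ∃ t : T, (z : ↥(Subgroup.closure ({a, b} : Set G))) = g * t * g⁻¹ := by
      intro z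
      have hz : (z : ↥(Subgroup.closure ({a, b} : Set G))) ∈ (g • T : Sylow 2 _) := hg.symm ▸ z.2
      rw [← SetLike.mem_coe, Sylow.coe_smul] at hz
      obtain ⟨t, ht, he⟩ := hz
      exact ⟨⟨t, ht⟩, he.symm⟩
    obtain ⟨s', hs⟩ := hmem x
    obtain ⟨t', ht⟩ := hmem y
    show (x : ↥(Subgroup.closure ({a, b} : Set G))) * y = y * x
    rw [hs, ht]
    have hc := congrArg Subtype.val (hT.is_comm.comm s' t')
    calc g * s' * g⁻¹ * (g * t' * g⁻¹) = g * (s' * t' : ↥(Subgroup.closure ({a, b} : Set G))) * g⁻¹ := by group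
      _ = g * (t' * s' : ↥(Subgroup.closure ({a, b} : Set G))) * g⁻¹ := by
          rw [show ((s' : ↥(Subgroup.closure ({a, b} : Set G))) * t') = t' * s' from hc]
      _ = _ := by group
  obtain ⟨A, hA, hAn⟩ := exists_nonabelian_two_subgroup hp
  refine hAn (CfsgLib.GlaubermanZJ.forall_isMulCommutative_range (fun B hB => ?_) s.toSL s.toSL_surj A hA)
  have hBH := CfsgLib.GlaubermanZJ.forall_isMulCommutative_of_sylow hall
    (hB.map (Subgroup.inclusion s.acting_le))
  refine ⟨⟨fun x y => Subtype.ext (Subgroup.inclusion_injective s.acting_le ?_)⟩⟩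
  simp only [Subgroup.coe_mul, map_mul]
  exact CfsgLib.GlaubermanZJ.comm_apply hBH ⟨x, x.2, rfl⟩ ⟨y, y.2, rfl⟩

end Cfsg.Agent.S0593
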