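import Cfsg.Statements.S0594
import Cfsg.Agent.QdSection.Faithful
import Cfsg.Agent.Constrained.PSolvable

set_option autoImplicit false
open Cfsg

namespace Cfsg.Agent.S0594

/-- For odd p, two quadratic generators of a faithful group that is not a p-group, one of which acts nontrivially on a normal subgroup of order prime to p, force p = 3 and a section isomorphic to SL(2,3). -/
theorem result {G : Type*} [Group G] [Finite G] {p : ℕ} [Fact p.Prime] (hp : p ≠ 2) (V H : Subgroup G) (hV : Cfsg.IsElementaryAbelian p V) (hHV : H ≤ Subgroup.normalizer (V : Set G)) (hf : H ⊓ Subgroup.centralizer (V : Set G) = ⊥) (a b : G) (hab : H = Subgroup.closure {a, b}) (ha : ⁅⁅V, Subgroup.zpowers a⁆, Subgroup.zpowers a⁆ = ⊥) (hb : ⁅⁅V, Subgroup.zpowers b⁆, Subgroup.zpowers b⁆ = ⊥) (hnp : ¬ IsPGroup p H) (Q : Subgroup G) (hQH : Q ≤ H) (hQn : H ≤ Subgroup.normalizer (Q : Set G)) (hQ : (Nat.card Q).Coprime p) (hQa : ⁅Q, Subgroup.zpowers a⁆ ≠ ⊥) : p = 3 ∧ ∃ (K L : Subgroup G) (hL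 : (L.subgroupOf K).Normal), K ≤ H ∧ Nonempty ((K ⧸ L.subgroupOf K) ≃* Matrix.SpecialLinearGroup (Fin 2) (ZMod 3)) := by
  haveI : Finite H := inferInstance
  have haH : a ∈ H := hab ▸ Subgroup.subset_closure (Set.mem_insert _ _)
  set X := Q ⊔ Subgroup.zpowers a with hX
  have hXH : X ≤ H := sup_le hQH (Subgroup.zpowers_le.mpr haH)
  have hXQ : X ≤ Subgroup.normalizer (Q : Set G) := hXH.trans hQn
  have haX : a ∈ X := Subgroup.mem_sup_right (Subgroup.mem_zpowers a)
  haveI : (Q.subgroupOf X).Normal := Subgroup.normal_subgroupOf_of_le_normalizer hXQ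
  have hQX : (Nat.card (Q.subgroupOf X)).Coprime p := by
    rwa [Nat.card_congr (Subgroup.subgroupOfEquivOfLe (le_sup_left : Q ≤ X)).toEquiv]
  -- `Q` is the `p'`-part, so `a` lies outside `O_p(X)`
  have hna : a ∉ (Cfsg.pCore p X).map X.subtype := by
    rintro ⟨a', ha', hae⟩
    apply hQa
    rw [Subgroup.commutator_eq_bot_iff_le_centralizer]
    intro x hx
    refine Subgroup.mem_centralizer_iff.mpr ?_
    rintro _ ⟨n, rfl⟩
    obtain rfl : a' = ⟨a, haX⟩ := Subtype.ext hae
    have h1 := CfsgLib.Constrained.commute_pCore_pPrimeCore ha'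
      (CfsgLib.Constrained.le_pPrimeCore (p := p) inferInstance hQX
        (show (⟨x, Subgroup.mem_sup_left hx⟩ : X) ∈ Q.subgroupOf X from hx))
    exact (Commute.zpow_left (show Commute a x from congrArg Subtype.val h1) n).eq
  have hsep : Cfsg.IsPSolvable p X := by
    refine CfsgLib.Constrained.isPSolvable_of_extension (Q.subgroupOf X)
      (CfsgLib.Constrained.isPSolvable_of_not_dvd ?_) ?_
    · exact fun h => Nat.Prime.not_dvd_one Fact.out (hQX ▸ Nat.dvd_gcd h dvd_rfl)
    · haveI : Group.IsSolvable (X ⧸ Q.subgroupOf X) := by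
        have hcyc : ∀ y : X ⧸ Q.subgroupOf X, y ∈ Subgroup.zpowers (QuotientGroup.mk (⟨a, haX⟩ : X) : X ⧸ Q.subgroupOf X) := by
          intro y
          obtain ⟨⟨x, hx⟩, rfl⟩ := QuotientGroup.mk_surjective y
          rw [hX, ← SetLike.mem_coe, Subgroup.coe_mul_of_right_le_normalizer_left _ _
            ((Subgroup.zpowers_le.mpr haH).trans hQn)] at hx
          obtain ⟨q, hq, z, ⟨n, rfl⟩, hz⟩ := Set.mem_mul.mp hx
          refine ⟨n, ?_⟩
          show (QuotientGroup.mk (⟨a, haX⟩ : X) : X ⧸ Q.subgroupOf X) ^ n = _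
          rw [← QuotientGroup.mk_zpow, QuotientGroup.eq]
          show ((a ^ n)⁻¹ * x) ∈ Q
          rw [← hz, ← mul_assoc]
          exact (Subgroup.mem_normalizer_iff''.mp (Subgroup.zpow_mem _ ((Subgroup.zpowers_le.mpr haH).trans hQn (Subgroup.mem_zpowers a)) n) q).mp hq
        haveI : IsCyclic (X ⧸ Q.subgroupOf X) := ⟨⟨_, hcyc⟩⟩
        letI : CommGroup (X ⧸ Q.subgroupOf X) := IsCyclic.commGroup
        infer_instance
      exact CfsgLib.Constrained.isPSolvable_of_isSolvable
  have hf' : X ⊓ Subgroup.centralizer (V : Set G) = ⊥ :=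
    le_bot_iff.mp ((inf_le_inf_right _ hXH).trans hf.le)
  have h := CfsgLib.QdSection.exists_sl_two_section_of_faithful hp V X hV (hXH.trans hHV) hf' haX ha hna
  obtain rfl := CfsgLib.QdSection.eq_three_of_sl_two_section hp X hsep h
  obtain ⟨K, L, hL, hKX, he⟩ := h
  exact ⟨rfl, K, L, hL, hKX.trans hXH, he⟩

end Cfsg.Agent.S0594
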