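import Cfsg.Statements.S0595
import Cfsg.Agent.QdSection.Faithful

set_option autoImplicit false
open Cfsg

namespace Cfsg.Agent.S0595

/-- For odd p, a faithful action on an elementary abelian p-group that is not p-stable forces non-abelian Sylow 2-subgroups. -/
theorem result {G : Type*} [Group G] [Finite G] {p : ℕ} [Fact p.Prime] (hp : p ≠ 2) (V H : Subgroup G) (hV : Cfsg.IsElementaryAbelian p V) (hHV : H ≤ Subgroup.normalizer (V : Set G)) (hf : H ⊓ Subgroup.centralizer (V : Set G) = ⊥) (a : G) (haH : a ∈ H) (hq : ⁅⁅V, Subgroup.zpowers a⁆, Subgroup.zpowers a⁆ = ⊥) (hna : a ∉ (Cfsg.pCore p H).map H.subtype) (T : Sylow 2 H) : ¬ IsMulCommutative T := by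
  intro hT
  refine CfsgLib.QdSection.no_sl_two_section_of_abelian hp H (fun A hA => ?_)
    (CfsgLib.QdSection.exists_sl_two_section_of_faithful hp V H hV hHV hf haH hq hna)
  haveI : Fact (Nat.Prime 2) := ⟨Nat.prime_two⟩
  refine CfsgLib.GlaubermanZJ.forall_isMulCommutative_of_sylow (fun T' => ?_) hA
  obtain ⟨g, hg⟩ := MulAction.exists_smul_eq H T T'
  rw [← hg]
  refine ⟨⟨?_⟩⟩
  rintro ⟨_, x, hx, rfl⟩ ⟨_, y, hy, rfl⟩
  apply Subtype.ext
  show MulAut.conj g x * MulAut.conj g y = MulAut.conj g y * MulAut.conj g x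
  rw [← map_mul, ← map_mul]
  exact congrArg _ (congrArg Subtype.val (hT.is_comm.comm ⟨x, hx⟩ ⟨y, hy⟩))

end Cfsg.Agent.S0595
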