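import Cfsg.Statements.S0597
import Cfsg.Agent.LocalP.ThompsonJ
import Cfsg.Agent.Subnormal.Basic
import Cfsg.Agent.LocalCharP.Residual
import Cfsg.Agent.Eq.Def_Solvable

set_option autoImplicit false
open Cfsg
open scoped commutatorElement

namespace Cfsg.Agent.S0597

/-- If two subnormal subgroups of a faithful group on an elementary abelian p-group satisfy [V, E₁, E₂] = 1, then their commutator lies in the largest normal p-subgroup. -/
theorem result {G : Type*} [Group G] [Finite G] {p : ℕ} [Fact p.Prime] (V H : Subgroup G) (hV : Cfsg.IsElementaryAbelian p V) (hHV : H ≤ Subgroup.normalizer (V : Set G)) (hf : H ⊓ Subgroup.centralizer (V : Set G) = ⊥) (E₁ E₂ : Subgroup G) (h₁ : E₁ ≤ H) (h₂ : E₂ ≤ H) (hs₁ : (E₁.subgroupOf H).IsSubnormal) (hs₂ : (E₂.subgroupOf H).IsSubnormal) (hc : ⁅⁅V, E₁⁆, E₂⁆ = ⊥) : ⁅E₁, E₂⁆ ≤ (Cfsg.pCore p H).map H.subtype := by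
  set W := ⁅V, E₁⁆ with hW
  set E := E₁ ⊔ E₂ with hE
  have hEH : E ≤ H := sup_le h₁ h₂
  have conjV : ∀ g ∈ H, ∀ v ∈ V, g * v * g⁻¹ ∈ V := fun g hg v hv =>
    (Subgroup.mem_normalizer_iff.mp (hHV hg) v).mp hv
  have hWV : W ≤ V := Subgroup.commutator_le.mpr fun v hv g hg => by
    simpa [commutatorElement_def, mul_assoc] using mul_mem hv (conjV g (h₁ hg) _ (inv_mem hv))
  have hcE : ∀ y ∈ E₂, ∀ w ∈ W, w * y = y * w := fun y hy w hw =>
    (Subgroup.mem_centralizer_iff.mp (Subgroup.commutator_eq_bot_iff_le_centralizer.mp hc hw) y hy).symm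
  have hWn : ∀ g ∈ E, ∀ w ∈ W, g * w * g⁻¹ ∈ W := by
    have hle : E ≤ Subgroup.normalizer (W : Set G) := by
      refine sup_le (fun g hg => ?_) (le_trans (show E₂ ≤ Subgroup.centralizer (W : Set G) from fun y hy =>
        Subgroup.mem_centralizer_iff.mpr fun w hw => hcE y hy w hw)
        (Subgroup.centralizer_le_normalizer _))
      have key : ∀ g ∈ E₁, W ≤ W.comap (MulAut.conj g).toMonoidHom := fun g hg =>
        Subgroup.commutator_le.mpr fun v hv x hx => by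
          show g * ⁅v, x⁆ * g⁻¹ ∈ W
          have e : g * ⁅v, x⁆ * g⁻¹ = ⁅g * v * g⁻¹, g * x * g⁻¹⁆ := by
            simp only [commutatorElement_def]; group
          rw [e]
          exact Subgroup.commutator_mem_commutator (conjV g (h₁ hg) v hv)
            (mul_mem (mul_mem hg hx) (inv_mem hg))
      rw [Subgroup.mem_normalizer_iff]
      exact fun w => ⟨fun h => key g hg h, fun h => by
        simpa [mul_assoc] using (key g⁻¹ (inv_mem hg) h : g⁻¹ * (g * w * g⁻¹) * g⁻¹⁻¹ ∈ W)⟩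
    exact fun g hg w hw => (Subgroup.mem_normalizer_iff.mp (hle hg) w).mp hw
  let P : Subgroup G :=
    { carrier := {g | g ∈ E ∧ (∀ w ∈ W, g * w * g⁻¹ = w) ∧ ∀ v ∈ V, g * v * g⁻¹ * v⁻¹ ∈ W}
      one_mem' := ⟨one_mem _, fun w _ => by group, fun v _ => by simp⟩
      mul_mem' := by
        rintro g k ⟨hg, hg1, hg2⟩ ⟨hk, hk1, hk2⟩
        refine ⟨mul_mem hg hk, fun w hw => ?_, fun v hv => ?_⟩
        · calc g * k * w * (g * k)⁻¹ = g * (k * w * k⁻¹) * g⁻¹ := by group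
            _ = w := by rw [hk1 w hw, hg1 w hw]
        · have e : g * k * v * (g * k)⁻¹ * v⁻¹ =
              g * (k * v * k⁻¹ * v⁻¹) * g⁻¹ * (g * v * g⁻¹ * v⁻¹) := by group
          rw [e, hg1 _ (hk2 v hv)]
          exact mul_mem (hk2 v hv) (hg2 v hv)
      inv_mem' := by
        rintro g ⟨hg, hg1, hg2⟩
        refine ⟨inv_mem hg, fun w hw => ?_, fun v hv => ?_⟩
        · calc g⁻¹ * w * g⁻¹⁻¹ = g⁻¹ * (g * w * g⁻¹) * g⁻¹⁻¹ := by rw [hg1 w hw]
            _ = w := by group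
        · have h := inv_mem (hg2 _ (conjV g⁻¹ (inv_mem (hEH hg)) v hv))
          convert h using 1
          group }
  have hpow : ∀ g ∈ P, g ^ p = 1 := by
    rintro g ⟨hg, hg1, hg2⟩
    have key : ∀ v ∈ V, ∀ n : ℕ, g ^ n * v * (g ^ n)⁻¹ = (g * v * g⁻¹ * v⁻¹) ^ n * v := by
      intro v hv n
      induction n with
      | zero => simp
      | succ n ih =>
        calc g ^ (n + 1) * v * (g ^ (n + 1))⁻¹ = g * (g ^ n * v * (g ^ n)⁻¹) * g⁻¹ := by
              rw [pow_succ']; group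
          _ = (g * (g * v * g⁻¹ * v⁻¹) ^ n * g⁻¹) * (g * v * g⁻¹) := by rw [ih]; group
          _ = (g * v * g⁻¹ * v⁻¹) ^ n * ((g * v * g⁻¹ * v⁻¹) * v) := by
            rw [← conj_pow, hg1 _ (hg2 v hv)]; group
          _ = _ := by rw [← mul_assoc, ← pow_succ]
    refine Subgroup.mem_bot.mp (hf ▸ Subgroup.mem_inf.mpr ⟨pow_mem (hEH hg) p,
      Subgroup.mem_centralizer_iff.mpr fun v hv => ?_⟩)
    have h := key v hv p
    rw [(CfsgLib.LocalP.isElementaryAbelian_iff.mp hV).2 _ (hWV (hg2 v hv)), one_mul] at h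
    exact (mul_inv_eq_iff_eq_mul.mp h).symm
  have hPp : IsPGroup p P := fun x => ⟨1, Subtype.ext (by simpa using hpow x x.2)⟩
  have hcomm : ⁅E₁, E₂⁆ ≤ P := Subgroup.commutator_le.mpr fun x hx y hy => by
    have hxE : x ∈ E := Subgroup.mem_sup_left hx
    have hyE : y ∈ E := Subgroup.mem_sup_right hy
    have hyW : ∀ w ∈ W, y * w * y⁻¹ = w := fun w hw =>
      mul_inv_eq_iff_eq_mul.mpr (hcE y hy w hw).symm
    have hxV : ∀ g ∈ E₁, ∀ v ∈ V, g * v * g⁻¹ * v⁻¹ ∈ W := fun g hg v hv => by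
      have h := inv_mem (Subgroup.commutator_mem_commutator hv hg : ⁅v, g⁆ ∈ W)
      rwa [commutatorElement_inv] at h
    refine ⟨mul_mem (mul_mem (mul_mem hxE hyE) (inv_mem hxE)) (inv_mem hyE), fun w hw => ?_,
      fun v hv => ?_⟩
    · have hw' : x⁻¹ * w * x ∈ W := by simpa using hWn x⁻¹ (inv_mem hxE) w hw
      have hy' : y⁻¹ * w * y = w := by
        calc y⁻¹ * w * y = y⁻¹ * (y * w * y⁻¹) * y := by rw [hyW w hw]
          _ = w := by group
      calc ⁅x, y⁆ * w * ⁅x, y⁆⁻¹ = x * (y * (x⁻¹ * (y⁻¹ * w * y) * x) * y⁻¹) * x⁻¹ := by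
            rw [commutatorElement_def]; group
        _ = x * (x⁻¹ * w * x) * x⁻¹ := by rw [hy', hyW _ hw']
        _ = w := by group
    · set v₁ := y⁻¹ * v * y with hv₁
      have hv₁V : v₁ ∈ V := by simpa using conjV y⁻¹ (inv_mem (h₂ hy)) v hv
      set w₁ := x⁻¹ * v₁ * x * v₁⁻¹ with hw₁
      have hw₁W : w₁ ∈ W := by simpa using hxV x⁻¹ (inv_mem hx) v₁ hv₁V
      have e : ⁅x, y⁆ * v * ⁅x, y⁆⁻¹ * v⁻¹ = x * w₁ * x⁻¹ * (x * v * x⁻¹ * v⁻¹) := by
        calc ⁅x, y⁆ * v * ⁅x, y⁆⁻¹ * v⁻¹ = x * ((y * w₁ * y⁻¹) * v) * x⁻¹ * v⁻¹ := by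
              rw [commutatorElement_def, hw₁, hv₁]; group
          _ = _ := by rw [hyW _ hw₁W]; group
      rw [e]
      exact mul_mem (hWn x hxE _ hw₁W) (hxV x hx v hv)
  have hPE : P ≤ E := fun g hg => hg.1
  have hsn : (P.subgroupOf H).IsSubnormal := by
    refine Subgroup.IsSubnormal.step _ (E.subgroupOf H) (Subgroup.comap_mono hPE)
      (CfsgLib.Subnormal.subgroupOf_sup_isSubnormal h₁ h₂ hs₁ hs₂) ⟨?_⟩
    rintro g ⟨hg, hg1, hg2⟩ e
    have he : ((e : ↥H) : G) ∈ E := e.2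
    refine ⟨mul_mem (mul_mem he hg) (inv_mem he), fun w hw => ?_, fun v hv => ?_⟩
    · have hw' : ((e : ↥H) : G)⁻¹ * w * ((e : ↥H) : G) ∈ W := by
        simpa using hWn _ (inv_mem he) w hw
      simp only [Subgroup.subtype_apply, Subgroup.coe_mul, InvMemClass.coe_inv] at hg1 ⊢
      calc _ = ((e : ↥H) : G) * (((g : ↥H) : G) * (((e : ↥H) : G)⁻¹ * w * ((e : ↥H) : G)) *
            ((g : ↥H) : G)⁻¹) * ((e : ↥H) : G)⁻¹ := by group
        _ = w := by rw [hg1 _ hw']; group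
    · have hv' : ((e : ↥H) : G)⁻¹ * v * ((e : ↥H) : G) ∈ V := by
        simpa using conjV _ (inv_mem (e : ↥H).2) v hv
      simp only [Subgroup.subtype_apply, Subgroup.coe_mul, InvMemClass.coe_inv] at hg2 ⊢
      convert hWn _ he _ (hg2 _ hv') using 1
      group
  intro z hz
  exact ⟨⟨z, hEH (hcomm hz).1⟩, CfsgLib.LocalCharP.le_pCore_of_isSubnormal hsn
    (hPp.of_equiv (Subgroup.subgroupOfEquivOfLe (hPE.trans hEH)).symm)
    (hcomm hz), rfl⟩

end Cfsg.Agent.S0597
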