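import Cfsg.Statements.S0603
import Cfsg.Agent.LocalP.ThompsonJ
import Cfsg.Agent.Eq.Def_PLocal

set_option autoImplicit false
open Cfsg

namespace Cfsg.Agent.S0603

/-- The Thompson subgroup of any subgroup containing J(G) is J(G) itself. -/
theorem result {G : Type*} [Group G] [Finite G] {p : ℕ} [Fact p.Prime] (U : Subgroup G) (hU : Cfsg.thompsonSubgroup p G ≤ U) : Cfsg.thompsonSubgroupOf p U = Cfsg.thompsonSubgroup p G := by
  rw [← CfsgLib.LocalP.thompsonSubgroupOf_top (p := p) G] at hU ⊢
  exact CfsgLib.LocalP.thompsonSubgroupOf_eq_of_le le_top hU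

end Cfsg.Agent.S0603
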