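import Cfsg.Statements.S0609
import Cfsg.Agent.Constrained.HallHigman
import Cfsg.Agent.LocalP.ThompsonJ
import Cfsg.Agent.PGroup.Omega
import Cfsg.Agent.Eq.Def_PLocal


set_option autoImplicit false
open Cfsg

namespace Cfsg.Agent.S0609

open scoped commutatorElement

theorem images {G : Type*} [Group G] [Finite G] {p : ℕ} [Fact p.Prime] (N : Subgroup G) [N.Normal]
    (hN : ¬ p ∣ Nat.card N) (S : Sylow p G) :
    (Subgroup.centralizer (Cfsg.omegaOne p (((S.mapSurjective (QuotientGroup.mk'_surjective N)) : Subgroup (G ⧸ N)) ⊓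
        Subgroup.centralizer (((S.mapSurjective (QuotientGroup.mk'_surjective N)) : Subgroup (G ⧸ N)) : Set (G ⧸ N))) : Set (G ⧸ N)) =
      (Subgroup.centralizer (Cfsg.omegaOne p ((S : Subgroup G) ⊓ Subgroup.centralizer ((S : Subgroup G) : Set G)) : Set G)).map
        (QuotientGroup.mk' N) ∧ True) ∧
    Subgroup.normalizer (Cfsg.thompsonSubgroupOf p ((S.mapSurjective (QuotientGroup.mk'_surjective N)) : Subgroup (G ⧸ N)) : Set (G ⧸ N)) =
      (Subgroup.normalizer (Cfsg.thompsonSubgroupOf p (S : Subgroup G) : Set G)).map (QuotientGroup.mk' N) := by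
  set f := (QuotientGroup.mk' N).comp (S : Subgroup G).subtype with hf
  have hfi : Function.Injective f := by
    refine (injective_iff_map_eq_one f).2 fun a ha => ?_
    have hd := CfsgLib.Constrained.disjoint_of_isPGroup_of_not_dvd S.2 hN
    exact Subtype.ext ((Subgroup.eq_bot_iff_forall _).1 hd a ⟨a.2, (QuotientGroup.eq_one_iff _).1 ha⟩)
  have hrange : f.range = ((S.mapSurjective (QuotientGroup.mk'_surjective N)) : Subgroup (G ⧸ N)) := by
    rw [hf, MonoidHom.range_comp, Subgroup.range_subtype, Sylow.coe_mapSurjective]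
  have hcen : ((S.mapSurjective (QuotientGroup.mk'_surjective N)) : Subgroup (G ⧸ N)) ⊓
      Subgroup.centralizer (((S.mapSurjective (QuotientGroup.mk'_surjective N)) : Subgroup (G ⧸ N)) : Set (G ⧸ N)) =
      (Subgroup.center (S : Subgroup G)).map f := by
    rw [← hrange]
    ext y
    constructor
    · rintro ⟨⟨a, rfl⟩, hy⟩
      refine ⟨a, Subgroup.mem_center_iff.2 fun b => hfi ?_, rfl⟩
      rw [map_mul, map_mul]
      exact Subgroup.mem_centralizer_iff.1 hy (f b) ⟨b, rfl⟩
    · rintro ⟨a, ha, rfl⟩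
      refine ⟨⟨a, rfl⟩, Subgroup.mem_centralizer_iff.2 ?_⟩
      rintro _ ⟨b, rfl⟩
      rw [← map_mul, ← map_mul, Subgroup.mem_center_iff.1 ha b]
  have hcenG : (S : Subgroup G) ⊓ Subgroup.centralizer ((S : Subgroup G) : Set G) =
      (Subgroup.center (S : Subgroup G)).map (S : Subgroup G).subtype := by
    ext y
    constructor
    · rintro ⟨hy1, hy2⟩
      exact ⟨⟨y, hy1⟩, Subgroup.mem_center_iff.2 fun b => Subtype.ext (Subgroup.mem_centralizer_iff.1 hy2 b b.2), rfl⟩
    · rintro ⟨a, ha, rfl⟩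
      exact ⟨a.2, Subgroup.mem_centralizer_iff.2 fun b hb => congrArg Subtype.val (Subgroup.mem_center_iff.1 ha ⟨b, hb⟩)⟩
  have hp1 : IsPGroup p (Cfsg.omegaOne p ((S : Subgroup G) ⊓ Subgroup.centralizer ((S : Subgroup G) : Set G))) :=
    S.2.to_le ((Subgroup.closure_le _).2 fun x hx => hx.1.1)
  refine ⟨⟨?_, trivial⟩, ?_⟩
  · rw [CfsgLib.Constrained.map_centralizer_eq N hN _ hp1, hcen, hcenG,
      ← CfsgLib.PGroup.omegaOne_map f hfi, ← CfsgLib.PGroup.omegaOne_map _ (S : Subgroup G).subtype_injective,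
      Subgroup.map_map]
  · rw [CfsgLib.Constrained.map_normalizer_eq N hN _ (S.2.to_le (CfsgLib.LocalP.thompsonSubgroupOf_le _)),
      ← hrange, ← CfsgLib.LocalP.thompsonSubgroup_map f hfi, Cfsg.thompsonSubgroupOf, Subgroup.map_map]


/-- Thompson factorizability passes to and from the quotient by the largest normal subgroup of order prime to p. -/
theorem result {G : Type*} [Group G] [Finite G] {p : ℕ} [Fact p.Prime] : Cfsg.IsThompsonFactorizable p G ↔ Cfsg.IsThompsonFactorizable p (G ⧸ Cfsg.pPrimeCore p G) := by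
  have hp : p.Prime := Fact.out
  set N := Cfsg.pPrimeCore p G with hNdef
  haveI : N.Normal := Cfsg.pPrimeCore_normal p G
  have hN : ¬ p ∣ Nat.card N := CfsgLib.Constrained.pPrimeCore_not_dvd
  have hsurj := QuotientGroup.mk'_surjective N
  have hcore : Cfsg.pPrimeCore p (G ⧸ N) = ⊥ := CfsgLib.Constrained.pPrimeCore_quotient_pPrimeCore
  constructor
  · intro h T y
    obtain ⟨S, rfl⟩ := Sylow.mapSurjective_surjective hsurj p T
    obtain ⟨g, rfl⟩ := hsurj y
    obtain ⟨x, hx, c, hc, n, hn, rfl⟩ := h S g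
    obtain ⟨hZ, hJ⟩ := images N hN S
    refine ⟨1, one_mem _, QuotientGroup.mk' N c, ?_, QuotientGroup.mk' N n, ?_, ?_⟩
    · rw [hZ.1]; exact Subgroup.mem_map_of_mem _ hc
    · rw [hJ]; exact Subgroup.mem_map_of_mem _ hn
    · rw [map_mul, map_mul, (QuotientGroup.eq_one_iff x).2 hx |> fun h => (h : QuotientGroup.mk' N x = 1)]
  · intro h S g
    obtain ⟨x, hx, c, hc, n, hn, hg⟩ := h (S.mapSurjective hsurj) (QuotientGroup.mk' N g)
    rw [hcore, Subgroup.mem_bot] at hx
    obtain ⟨hZ, hJ⟩ := images N hN S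
    rw [hZ.1] at hc
    rw [hJ] at hn
    obtain ⟨c', hc', rfl⟩ := hc
    obtain ⟨n', hn', rfl⟩ := hn
    refine ⟨g * (c' * n')⁻¹, ?_, c', hc', n', hn', by group⟩
    rw [← QuotientGroup.eq_one_iff]
    show QuotientGroup.mk' N (g * (c' * n')⁻¹) = 1
    rw [map_mul, map_inv, map_mul, hg, hx, one_mul, mul_inv_cancel]

end Cfsg.Agent.S0609
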