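import Cfsg.Statements.S0611
import Cfsg.Agent.FFModule.Pair

set_option autoImplicit false
open Cfsg

namespace Cfsg.Agent.S0611

/-- Minimal nontrivially-acting best offenders in such a faithful group have order p, commutator [V, B] of order p and fixed points of index p. -/
theorem result {G : Type*} [Group G] [Finite G] {p : ℕ} [Fact p.Prime] (V H : Subgroup G) (hV : Cfsg.IsElementaryAbelian p V) (hHV : H ≤ Subgroup.normalizer (V : Set G)) (hf : H ⊓ Subgroup.centralizer (V : Set G) = ⊥) (hS1 : Subgroup.centralizer (Cfsg.pPrimeCore p ↥H : Set ↥H) ≤ Cfsg.pPrimeCore p ↥H) (hS3 : H = ⨆ A : {A : Subgroup G // A ≤ H ∧ Cfsg.IsBestOffenderOn p V A}, (A : Subgroup G)) (hH1 : H ≠ ⊥) (A : Subgroup G) (hAH : A ≤ H) (hA : Cfsg.IsBestOffenderOn p V A) (hAV : ⁅V, A⁆ ≠ ⊥) (hmin : ∀ B : Subgroup G, B ≤ A → Cfsg.IsBestOffenderOn p V B → ⁅V, B⁆ ≠ ⊥ → B = A) : Nat.card A = p ∧ Nat.card ↥(⁅V, A⁆) = p ∧ ((V ⊓ Subgroup.centralizer (A : Set G))).relIndex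 V = p := by
  have S := CfsgLib.FFModule.Setting.of_pPrimeCore hV hHV hf hS1
  have hoff := S.offender_iff.mpr ⟨hAH, hA⟩
  have hne := (S.commutator_ne_bot_iff hAH).mp hAV
  have hc : Nat.card A = p := S.card_eq_of_minimal hoff hne fun B hB hBo hB1 =>
    hmin B hB (S.offender_iff.mp hBo).2 ((S.commutator_ne_bot_iff (hB.trans hAH)).mpr hB1)
  obtain ⟨-, hel, hcard⟩ := hoff
  obtain ⟨a, ha, ha1⟩ := (Subgroup.bot_or_exists_ne_one A).resolve_left hne
  have hA' : A = Subgroup.zpowers a := (Subgroup.eq_of_le_of_card_ge (Subgroup.zpowers_le.mpr ha)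
    (by rw [hc, Nat.card_zpowers, orderOf_eq_prime
      ((CfsgLib.LocalP.isElementaryAbelian_iff.mp hel).2 a ha) ha1])).symm
  have hidx : ((V ⊓ Subgroup.centralizer (A : Set G))).relIndex V = p := by
    have h := Subgroup.relIndex_mul_relIndex ⊥ (CfsgLib.FFModule.fixedPts V A) V bot_le inf_le_left
    rw [Subgroup.relIndex_bot_left, Subgroup.relIndex_bot_left, ← hcard, hc, mul_comm p] at h
    exact Nat.eq_of_mul_eq_mul_left Nat.card_pos h
  refine ⟨hc, ?_, hidx⟩
  have ht : CfsgLib.FFModule.IsTransvection p V H a :=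
    ⟨hAH ha, (CfsgLib.LocalP.isElementaryAbelian_iff.mp hel).2 a ha, ha1,
      by rw [← hA', ← hcard, hc]⟩
  obtain ⟨u, hu, hu1, hup, hcen⟩ := ht.exists_center S
  rw [hA', CfsgLib.FFModule.commutator_zpowers_eq S ht hu hu1 hup hcen, Nat.card_zpowers,
    orderOf_eq_prime hup hu1]

end Cfsg.Agent.S0611
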