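import Cfsg.Statements.S0612
import Cfsg.Agent.FFModule.Basic

set_option autoImplicit false
open Cfsg

namespace Cfsg.Agent.S0612

/-- In such a faithful group every nontrivial best offender decomposes as a direct product of minimal nontrivially-acting best offenders. -/
theorem result {G : Type*} [Group G] [Finite G] {p : ℕ} [Fact p.Prime] (V H : Subgroup G) (hV : Cfsg.IsElementaryAbelian p V) (hHV : H ≤ Subgroup.normalizer (V : Set G)) (hf : H ⊓ Subgroup.centralizer (V : Set G) = ⊥) (hS1 : Subgroup.centralizer (Cfsg.pPrimeCore p ↥H : Set ↥H) ≤ Cfsg.pPrimeCore p ↥H) (hS3 : H = ⨆ A : {A : Subgroup G // A ≤ H ∧ Cfsg.IsBestOffenderOn p V A}, (A : Subgroup G)) (hH1 : H ≠ ⊥) (A : Subgroup G) (hAH : A ≤ H) (hA : Cfsg.IsBestOffenderOn p V A) (hA1 : A ≠ ⊥) : ∃ (k : ℕ) (B : Fin k → Subgroup G), (∀ i, B i ≤ A ∧ Cfsg.IsBestOffenderOn p V (B i) ∧ ⁅V, B i⁆ ≠ ⊥ ∧ ∀ C : Subgroup G, C ≤ B i →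 Cfsg.IsBestOffenderOn p V C → ⁅V, C⁆ ≠ ⊥ → C = B i) ∧ iSupIndep B ∧ ⨆ i, B i = A := by
  have S := CfsgLib.FFModule.Setting.of_pPrimeCore hV hHV hf hS1
  obtain ⟨k, L, hL, hind, hsup⟩ := S.exists_decomposition (S.offender_iff.mpr ⟨hAH, hA⟩)
  refine ⟨k, L, fun i => ?_, hind, hsup⟩
  obtain ⟨hLA, hLo, hLc⟩ := hL i
  have hne : L i ≠ ⊥ := fun h => by
    rw [h, Subgroup.card_bot] at hLc
    exact (Fact.out : p.Prime).ne_one hLc.symm
  refine ⟨hLA, (S.offender_iff.mp hLo).2, (S.commutator_ne_bot_iff hLo.1).mpr hne, fun C hC hCo hC1 => ?_⟩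
  refine Subgroup.eq_of_le_of_card_ge hC ?_
  rw [hLc]
  obtain ⟨m, hm⟩ := Subgroup.card_dvd_of_le hC
  rcases (Nat.dvd_prime (Fact.out : p.Prime)).mp (⟨m, hLc ▸ hm⟩ : Nat.card C ∣ p) with h | h
  · exact absurd (Subgroup.eq_bot_of_card_eq C h) ((S.commutator_ne_bot_iff (hC.trans hLo.1)).mp hC1)
  · exact h.ge

end Cfsg.Agent.S0612
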