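import Cfsg.Statements.S0619
import Mathlib
import Cfsg.Agent.FFModule.OffenderBound
import Cfsg.Agent.Eq.Def_PLocal
import Cfsg.Agent.Eq.Def_Transfer

set_option autoImplicit false
open Cfsg
open scoped commutatorElement

namespace Cfsg.Agent.S0619

/-- For a p-separable group and a normal elementary abelian p-subgroup V with no nontrivial normal p-subgroup modulo its centralizer C, the Thompson subgroup J(G) moves Ω₁(Z(J(C))) only inside V. -/
theorem result {G : Type*} [Group G] [Finite G] {p : ℕ} [Fact p.Prime] (hsep : Cfsg.IsPSolvable p G) (V : Subgroup G) [V.Normal] (hV : Cfsg.IsElementaryAbelian p V) (hO : Cfsg.pCore p (G ⧸ Subgroup.centralizer (V : Set G)) = ⊥) : ⁅Cfsg.omegaOne p (Cfsg.centerThompsonOf p (Subgroup.centralizer (V : Set G))), Cfsg.thompsonSubgroup p G⁆ ≤ V := by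
  classical
  set C := Subgroup.centralizer (V : Set G) with hC
  have hVC : V ≤ C := Subgroup.le_centralizer_iff_isMulCommutative.2 hV.1
  rw [Subgroup.commutator_le]
  intro w hw a ha
  -- it is enough to treat the generators of `J(G)`
  suffices hgen : ∀ A ∈ maxElementaryAbelianSubgroups p G, ∀ a ∈ A, ∀ w ∈ omegaOne p (centerThompsonOf p C),
      QuotientGroup.mk' V a * QuotientGroup.mk' V w = QuotientGroup.mk' V w * QuotientGroup.mk' V a by
    have hle : thompsonSubgroup p G ≤ (Subgroup.centralizer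
        ((omegaOne p (centerThompsonOf p C)).map (QuotientGroup.mk' V) : Set (G ⧸ V))).comap (QuotientGroup.mk' V) :=
      sSup_le fun A hA b hb => Subgroup.mem_centralizer_iff.2 (by
        rintro _ ⟨u, hu, rfl⟩
        exact (hgen A hA b hb u hu).symm)
    rw [← QuotientGroup.eq_one_iff]
    show QuotientGroup.mk' V ⁅w, a⁆ = 1
    rw [map_commutatorElement, commutatorElement_eq_one_iff_mul_comm]
    exact Subgroup.mem_centralizer_iff.1 (hle ha) _ ⟨w, hw, rfl⟩
  clear hw ha w a
  intro A hA a ha w hw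
  obtain ⟨hAel, hAmax⟩ := hA
  have hAc := CfsgLib.LocalP.isElementaryAbelian_iff.1 hAel
  have hVel := CfsgLib.LocalP.isElementaryAbelian_iff.1 hV
  -- `X = (A ∩ C) V` is elementary abelian of largest order
  set X := (A ⊓ C) ⊔ V with hX
  have hXel : IsElementaryAbelian p X :=
    CfsgLib.LocalP.isElementaryAbelian_sup (CfsgLib.LocalP.isElementaryAbelian_mono hAel inf_le_left) hV
      fun b hb v hv => (Subgroup.mem_centralizer_iff.1 hb.2 v hv).symm
  have hXC : X ≤ C := sup_le inf_le_right hVC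
  have hXcard : Nat.card A ≤ Nat.card X := by
    have h1 := CfsgLib.FFModule.card_mul_fixed_le_of_pSolvable hsep V hV hO A hAel
    have h2 := CfsgLib.LocalP.card_mul_le_card_sup_mul_card_inf (A ⊓ C) V
    have h3 : Nat.card ↥((A ⊓ C) ⊓ V) ≤ Nat.card ↥(V ⊓ Subgroup.centralizer (A : Set G)) :=
      Subgroup.card_le_of_le fun x hx =>
        ⟨hx.2, Subgroup.mem_centralizer_iff.2 fun b hb => hAc.1 b hb x hx.1.1⟩
    exact Nat.le_of_mul_le_mul_right (h1.trans (h2.trans (Nat.mul_le_mul_left _ h3))) Nat.card_pos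
  have hXmax : ∀ B : Subgroup G, IsElementaryAbelian p B → Nat.card B ≤ Nat.card X :=
    fun B hB => (hAmax B hB).trans hXcard
  -- `X` is generated inside `J(C)`
  have hXJ : X ≤ thompsonSubgroupOf p C := by
    have h1 : X.subgroupOf C ∈ maxElementaryAbelianSubgroups p ↥C := by
      refine ⟨CfsgLib.LocalP.isElementaryAbelian_iff.2 ⟨?_, ?_⟩, fun B hB => ?_⟩
      · intro b hb c hc
        exact Subtype.ext ((CfsgLib.LocalP.isElementaryAbelian_iff.1 hXel).1 b hb c hc)
      · intro b hb
        exact Subtype.ext ((CfsgLib.LocalP.isElementaryAbelian_iff.1 hXel).2 b hb)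
      · rw [Nat.card_congr (Subgroup.subgroupOfEquivOfLe hXC).toEquiv,
          ← Subgroup.card_map_of_injective (K := B) C.subtype_injective]
        exact hXmax _ (CfsgLib.LocalP.isElementaryAbelian_map _ hB)
    have h2 := Subgroup.map_mono (f := C.subtype) (le_sSup h1 : X.subgroupOf C ≤ thompsonSubgroup p ↥C)
    rwa [Subgroup.map_subgroupOf_eq_of_le hXC] at h2
  have hWX : omegaOne p (centerThompsonOf p C) ≤ X := by
    rw [omegaOne, Subgroup.closure_le]
    rintro u ⟨hu, hup⟩
    have hel : IsElementaryAbelian p (X ⊔ Subgroup.zpowers u) := by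
      refine CfsgLib.LocalP.isElementaryAbelian_sup hXel ?_ fun b hb c hc => ?_
      · refine CfsgLib.LocalP.isElementaryAbelian_iff.2 ⟨?_, ?_⟩
        · rintro _ ⟨i, rfl⟩ _ ⟨k, rfl⟩
          exact ((Commute.refl u).zpow_zpow i k).eq
        · rintro _ ⟨i, rfl⟩
          show (u ^ i) ^ p = 1
          rw [← zpow_natCast, ← zpow_mul, mul_comm, zpow_mul, zpow_natCast, hup, one_zpow]
      · obtain ⟨i, rfl⟩ := hc
        exact ((show Commute b u from Subgroup.mem_centralizer_iff.1 hu.2 b (hXJ hb)).zpow_right i).eq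
    have heq := Subgroup.eq_of_le_of_card_ge (le_sup_left : X ≤ X ⊔ Subgroup.zpowers u) (hXmax _ hel)
    exact heq.symm ▸ (le_sup_right : Subgroup.zpowers u ≤ X ⊔ Subgroup.zpowers u) (Subgroup.mem_zpowers u)
  have hmap : X.map (QuotientGroup.mk' V) ≤ A.map (QuotientGroup.mk' V) := by
    rw [hX, Subgroup.map_sup, QuotientGroup.map_mk'_self, sup_bot_eq]
    exact Subgroup.map_mono inf_le_left
  obtain ⟨b, hb, hbw⟩ := hmap ⟨w, hWX hw, rfl⟩
  rw [← hbw, ← map_mul, ← map_mul, hAc.1 a ha b hb]

end Cfsg.Agent.S0619
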