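import Cfsg.Statements.S0627
import Cfsg.Agent.StableClosure.ActionStable
import Cfsg.Agent.StableClosure.Normal
import Cfsg.Agent.SectionFunctors.Basic
import Cfsg.Agent.Constrained.HallHigman
import Cfsg.Agent.Transfer.NormalPComplement

set_option autoImplicit false
open Cfsg

namespace Cfsg.Agent.S0627

/-- In a p-separable group with p at least 5, the normalizer of W(S) supplements the largest normal subgroup of order prime to p. -/
theorem result {G : Type*} [Group G] [Finite G] {p : ℕ} [Fact p.Prime] (hp : 5 ≤ p) (hsep : Cfsg.IsPSolvable p G) (S : Sylow p G) : Cfsg.pPrimeCore p G ⊔ Subgroup.normalizer (((Cfsg.stableNormalClosure p ↥(S : Subgroup G)).map (S : Subgroup G).subtype) : Set G) = ⊤ := by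
  set f := QuotientGroup.mk' (Cfsg.pPrimeCore p G) with hf
  have hfs : Function.Surjective f := QuotientGroup.mk'_surjective _
  have hst := CfsgLib.StableClosure.isActionPStable_of_noSL2Section (G := G ⧸ Cfsg.pPrimeCore p G)
    ((CfsgLib.GlaubermanZJ.noSL2Section_of_isPSolvable (by omega) hsep (Or.inl hp)).of_surjective f hfs)
  have hn := CfsgLib.StableClosure.normal_of_isActionPStable hst
    (CfsgLib.Constrained.centralizer_pCore_quotient_le hsep) (S.mapSurjective hfs)
  have hdisj : ∀ x ∈ (S : Subgroup G), f x = 1 → x = 1 := fun x hx h1 =>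
    CfsgLib.Transfer.eq_one_of_mem_pGroup_of_coprime S.2 hx
      (CfsgLib.Constrained.pPrimeCore_coprime.coprime_dvd_left
        (Subgroup.orderOf_dvd_natCard _ ((QuotientGroup.eq_one_iff x).1 h1)))
  let η : ↥(S : Subgroup G) ≃* ↥((S : Subgroup G).map f) := MulEquiv.ofBijective (f.subgroupMap _)
    ⟨(injective_iff_map_eq_one _).2 fun a ha => Subtype.ext (hdisj a a.2 (congrArg Subtype.val ha)),
      MonoidHom.subgroupMap_surjective f _⟩
  have hW : ((Cfsg.stableNormalClosure p ↥(S : Subgroup G)).map (S : Subgroup G).subtype).map f =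
      (Cfsg.stableNormalClosure p ↥((S : Subgroup G).map f)).map ((S : Subgroup G).map f).subtype := by
    rw [← CfsgLib.StableClosure.map_equiv η, Subgroup.map_map, Subgroup.map_map]
    rfl
  have hn' : (((Cfsg.stableNormalClosure p ↥(S : Subgroup G)).map (S : Subgroup G).subtype).map f).Normal := by
    rw [hW]; exact hn
  refine eq_top_iff.2 fun g _ => ?_
  obtain ⟨n, hn2, hng⟩ := CfsgLib.SectionFunctors.normalizer_map_le f hfs
    (by rw [hf, QuotientGroup.ker_mk']; exact CfsgLib.Constrained.pPrimeCore_coprime)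
    (S.2.to_le (Subgroup.map_subtype_le _))
    (show f g ∈ Subgroup.normalizer _ from Subgroup.normalizer_eq_top_iff.2 hn' ▸ Subgroup.mem_top _)
  have h3 : g * n⁻¹ ∈ Cfsg.pPrimeCore p G := by
    rw [← QuotientGroup.eq_one_iff]
    show f (g * n⁻¹) = 1
    rw [map_mul, map_inv, hng, mul_inv_cancel]
  have h4 : g = (g * n⁻¹) * n := by group
  rw [h4]
  exact Subgroup.mul_mem_sup h3 hn2

end Cfsg.Agent.S0627
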