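import Cfsg.Statements.S0628
import Cfsg.Agent.StableClosure.ActionStable
import Cfsg.Agent.StableClosure.Normal
import Cfsg.Agent.SectionFunctors.Thompson
import Cfsg.Agent.Constrained.MaximalSylow
import Cfsg.Agent.Eq.Def_PLocal

set_option autoImplicit false
open Cfsg


namespace Cfsg.Agent.S0628

/-- The normal p-complement Theorem of Thompson in the form with W(S): for odd p, G has a normal p-complement as soon as the normalizer of the characteristic subgroup W(S) of a Sylow p-subgroup S has one. -/
theorem result {G : Type*} [Group G] [Finite G] {p : ℕ} [Fact p.Prime] (hp : p ≠ 2) (S : Sylow p G) (hN : Cfsg.HasNormalPComplement p ↥(Subgroup.normalizer (((Cfsg.stableNormalClosure p ↥(S : Subgroup G)).map (S : Subgroup G).subtype) : Set G))) : Cfsg.HasNormalPComplement p G := by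
  refine CfsgLib.SectionFunctors.hasNormalPComplement_of_normalInMaximalSections
    (fun X _ => Cfsg.stableNormalClosure p X) ⟨?_, ?_⟩ _ G rfl ?_ S hN
  · intro X _ _ hX hne
    haveI := hne
    exact CfsgLib.StableClosure.ne_bot hX
  · intro X Y _ _ _ _ φ
    exact CfsgLib.StableClosure.map_equiv φ
  · intro K R _ hc hnpc T hT
    exact CfsgLib.StableClosure.normal_of_isActionPStable
      (CfsgLib.StableClosure.isActionPStable_of_noSL2Section
        (CfsgLib.Constrained.noSL2Section_of_maximal_sylow hp hnpc T hT).2) hc T

end Cfsg.Agent.S0628
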