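import Cfsg.Statements.S0632
import Cfsg.Agent.GlaubermanZJ.SectionsPStable
import Cfsg.Agent.Transfer.NormalPComplement
import Cfsg.Agent.Eq.Def_Local

set_option autoImplicit false
open Cfsg

namespace Cfsg.Agent.S0632

open CfsgLib.Constrained in
/-- The images of the elements of `A` in `O_p(N(P)/C(P))`, in elementwise form, are unchanged modulo `O_{p'}`. -/
theorem transfer_iff {G : Type*} [Group G] [Finite G] {p : ℕ} [Fact p.Prime] {P : Subgroup G} (hP : IsPGroup p P)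
    {a : G} (ha : a ∈ Subgroup.normalizer (P : Set G))
    (ha' : (a : G ⧸ Cfsg.pPrimeCore p G) ∈ Subgroup.normalizer
      ((P.map (QuotientGroup.mk' (Cfsg.pPrimeCore p G)) : Subgroup _) : Set (G ⧸ Cfsg.pPrimeCore p G))) :
    ((⟨a, ha⟩ : ↥(Subgroup.normalizer (P : Set G))) :
        ↥(Subgroup.normalizer (P : Set G)) ⧸
          (Subgroup.centralizer (P : Set G)).subgroupOf (Subgroup.normalizer (P : Set G))) ∈ Cfsg.pCore p _ ↔
    ((⟨(a : G ⧸ Cfsg.pPrimeCore p G), ha'⟩ : ↥(Subgroup.normalizer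
        ((P.map (QuotientGroup.mk' (Cfsg.pPrimeCore p G)) : Subgroup _) : Set (G ⧸ Cfsg.pPrimeCore p G)))) :
      ↥(Subgroup.normalizer ((P.map (QuotientGroup.mk' (Cfsg.pPrimeCore p G)) : Subgroup _) : Set (G ⧸ Cfsg.pPrimeCore p G))) ⧸
        (Subgroup.centralizer ((P.map (QuotientGroup.mk' (Cfsg.pPrimeCore p G)) : Subgroup _) : Set (G ⧸ Cfsg.pPrimeCore p G))).subgroupOf
          (Subgroup.normalizer ((P.map (QuotientGroup.mk' (Cfsg.pPrimeCore p G)) : Subgroup _) : Set (G ⧸ Cfsg.pPrimeCore p G)))) ∈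
      Cfsg.pCore p _ := by
  set f := QuotientGroup.mk' (Cfsg.pPrimeCore p G) with hf
  set N := Subgroup.normalizer (P : Set G) with hN
  set N' := Subgroup.normalizer ((P.map f : Subgroup _) : Set (G ⧸ Cfsg.pPrimeCore p G)) with hN'
  set C' := (Subgroup.centralizer ((P.map f : Subgroup _) : Set (G ⧸ Cfsg.pPrimeCore p G))).subgroupOf N' with hC'
  let ψ : ↥N →* ↥N' ⧸ C' := (QuotientGroup.mk' C').comp
    ((f.comp N.subtype).codRestrict N' fun x => Subgroup.le_normalizer_map f ⟨x, x.2, rfl⟩)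
  have hψ : Function.Surjective ψ := fun y => by
    obtain ⟨y, rfl⟩ := QuotientGroup.mk'_surjective _ y
    obtain ⟨x, hx, hxy⟩ := CfsgLib.SectionFunctors.normalizer_map_le f (QuotientGroup.mk'_surjective _)
      (by rw [hf, QuotientGroup.ker_mk']; exact pPrimeCore_coprime) hP y.2
    exact ⟨⟨x, hx⟩, congrArg (QuotientGroup.mk' C') (Subtype.ext hxy)⟩
  have hker : ψ.ker = (Subgroup.centralizer (P : Set G)).subgroupOf N := by
    ext x
    show (QuotientGroup.mk _ : ↥N' ⧸ C') = 1 ↔ _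
    rw [QuotientGroup.eq_one_iff]
    show f (x : G) ∈ Subgroup.centralizer _ ↔ (x : G) ∈ Subgroup.centralizer _
    simp only [Subgroup.mem_centralizer_iff, Subgroup.coe_map, Set.forall_mem_image]
    refine forall₂_congr fun y hy => ⟨fun h => ?_, fun h => by rw [← map_mul, ← map_mul, h]⟩
    have h1 : (y * (x : G))⁻¹ * ((x : G) * y) ∈ P := by
      have h2 : (x : G)⁻¹ * y⁻¹ * (x : G) ∈ P := (Subgroup.mem_normalizer_iff''.1 x.2 _).1 (P.inv_mem hy)
      simpa [mul_assoc] using P.mul_mem h2 hy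
    refine inv_mul_eq_one.1 (CfsgLib.Transfer.eq_one_of_mem_pGroup_of_coprime hP h1
      (pPrimeCore_coprime.coprime_dvd_left (Subgroup.orderOf_dvd_natCard _ ?_)))
    exact (QuotientGroup.eq (s := Cfsg.pPrimeCore p G)).1 (show f (y * x) = f (x * y) by rw [map_mul, map_mul, h])
  let φ := (QuotientGroup.quotientMulEquivOfEq hker.symm).trans (QuotientGroup.quotientKerEquivOfSurjective ψ hψ)
  rw [← CfsgLib.Constrained.pCore_map φ p]
  exact (Subgroup.mem_map_iff_mem φ.injective).symm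


/-- For a group with a nontrivial normal p-subgroup, p-stability passes to and from the quotient by the largest normal subgroup of order prime to p. -/
theorem result {G : Type*} [Group G] [Finite G] {p : ℕ} [Fact p.Prime] (hO : Cfsg.pCore p G ≠ ⊥) : Cfsg.IsPStable p G ↔ Cfsg.IsPStable p (G ⧸ Cfsg.pPrimeCore p G) := by
  set f := QuotientGroup.mk' (Cfsg.pPrimeCore p G) with hf
  have hfs : Function.Surjective f := QuotientGroup.mk'_surjective _
  have hk0 : Cfsg.pPrimeCore p (G ⧸ Cfsg.pPrimeCore p G) = ⊥ := CfsgLib.Constrained.pPrimeCore_quotient_pPrimeCore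
  have hPP : ∀ x : G ⧸ Cfsg.pPrimeCore p G, x ∈ Cfsg.pCore p (G ⧸ Cfsg.pPrimeCore p G) ↔
      x ∈ Cfsg.pPrimePCore p (G ⧸ Cfsg.pPrimeCore p G) := by
    intro x
    let e := (QuotientGroup.quotientMulEquivOfEq hk0).trans QuotientGroup.quotientBot
    show _ ↔ QuotientGroup.mk' _ x ∈ Cfsg.pCore p _
    rw [← CfsgLib.Constrained.pCore_map e.symm p]
    exact (Subgroup.mem_map_iff_mem (f := e.symm.toMonoidHom) (x := x) e.symm.injective).symm
  have hdisj : ∀ {P : Subgroup G}, IsPGroup p P → ∀ x ∈ P, f x = 1 → x = 1 := fun hP x hx h1 =>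
    CfsgLib.Transfer.eq_one_of_mem_pGroup_of_coprime hP hx
      (CfsgLib.Constrained.pPrimeCore_coprime.coprime_dvd_left
        (Subgroup.orderOf_dvd_natCard _ ((QuotientGroup.eq_one_iff x).1 h1)))
  constructor
  · rintro ⟨hodd, -, h⟩
    refine ⟨hodd, fun h0 => hO ?_, ?_⟩
    · rw [eq_bot_iff]
      intro x hx
      refine Subgroup.mem_bot.2 (hdisj CfsgLib.Constrained.isPGroup_pCore x hx ?_)
      exact Subgroup.mem_bot.1 (h0 ▸ CfsgLib.Constrained.map_pCore_le f hfs ⟨x, hx, rfl⟩)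
    intro A' P' hA' hP' hnorm hle hn hq
    rw [hk0, bot_sup_eq] at hn
    obtain ⟨P, hP, hPP', hNP⟩ := CfsgLib.GlaubermanZJ.exists_lift_pgroup_normalizer f hfs hP'
    set N := Subgroup.normalizer (P : Set G) with hN
    have hsurj : Function.Surjective (f.comp N.subtype) := fun y => by
      obtain ⟨x, hx, hxy⟩ : y ∈ N.map f := by
        rw [hNP, Subgroup.normalizer_eq_top_iff.2 hn]; trivial
      exact ⟨⟨x, hx⟩, hxy⟩
    obtain ⟨A0, hA0, hAA, -⟩ := CfsgLib.GlaubermanZJ.exists_lift_pgroup_normalizer (f.comp N.subtype) hsurj hA'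
    set A := A0.map N.subtype with hA
    have hAN : A ≤ N := Subgroup.map_subtype_le _
    have hAmap : A.map f = A' := by rw [hA, Subgroup.map_map, hAA]
    have hq' : ⁅⁅P, A⁆, A⁆ = ⊥ := by
      have h1 : ⁅⁅P, A⁆, A⁆ ≤ P := (Subgroup.commutator_mono
        (Subgroup.le_normalizer_iff_commutator_le_left.1 hAN) le_rfl).trans
        (Subgroup.le_normalizer_iff_commutator_le_left.1 hAN)
      rw [eq_bot_iff]
      intro x hx
      refine Subgroup.mem_bot.2 (hdisj hP x (h1 hx) ?_)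
      have : f x ∈ (⊥ : Subgroup (G ⧸ Cfsg.pPrimeCore p G)) := by
        rw [← hq, ← hPP', ← hAmap, ← Subgroup.map_commutator, ← Subgroup.map_commutator]
        exact ⟨x, hx, rfl⟩
      exact this
    have hres := h A P (hA0.map _) hP (fun a ha x hx => (Subgroup.mem_normalizer_iff.1 (hAN ha) x).1 hx)
      (fun x hx => (hPP _).2 (hle (hPP' ▸ ⟨x, hx, rfl⟩ : f x ∈ P'))) (by
        have he : Cfsg.pPrimeCore p G ⊔ P = P'.comap f := by
          rw [← hPP', Subgroup.comap_map_eq, hf, QuotientGroup.ker_mk', sup_comm]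
        rw [he]; exact hn.comap f) hq'
    subst hPP'
    rintro _ ⟨⟨b, hbN⟩, hb, rfl⟩
    obtain ⟨a, ha, rfl⟩ : b ∈ A.map f := by rw [hAmap]; exact hb
    exact (transfer_iff hP (hAN ha) hbN).1 (hres ⟨⟨a, hAN ha⟩, ha, rfl⟩)
  · rintro ⟨hodd, -, h⟩
    refine ⟨hodd, hO, ?_⟩
    intro A P hA hP hnorm hle hn hq
    have hres := h (A.map f) (P.map f) (hA.map f) (hP.map f) (by
        rintro _ ⟨a, ha, rfl⟩ _ ⟨x, hx, rfl⟩
        exact ⟨a * x * a⁻¹, hnorm a ha x hx, by simp⟩)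
      (by rintro _ ⟨x, hx, rfl⟩; exact (hPP _).1 (hle hx))
      (by
        rw [hk0, bot_sup_eq]
        have := hn.map f hfs
        rwa [Subgroup.map_sup, (Subgroup.map_eq_bot_iff _).2 (by rw [hf, QuotientGroup.ker_mk']), bot_sup_eq] at this)
      (by rw [← Subgroup.map_commutator, ← Subgroup.map_commutator, hq, Subgroup.map_bot])
    rintro _ ⟨⟨a, haN⟩, ha, rfl⟩
    have haN' : f a ∈ Subgroup.normalizer ((P.map f : Subgroup _) : Set (G ⧸ Cfsg.pPrimeCore p G)) :=
      Subgroup.le_normalizer_map f ⟨a, haN, rfl⟩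
    exact (transfer_iff hP haN haN').2 (hres ⟨⟨f a, haN'⟩, ⟨a, ha, rfl⟩, rfl⟩)

end Cfsg.Agent.S0632
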