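import Cfsg.Statements.S0633
import Mathlib
import Cfsg.Agent.HallHigmanB.Linear
import Cfsg.Agent.Eq.Def_Local

set_option autoImplicit false
open Cfsg

namespace Cfsg.Agent.S0633

/-- Theorem B of Hall and Higman on the minimal polynomial of a p-element of order p^n in a p-solvable linear group on a nonzero vector space in characteristic p with no nontrivial normal p-subgroup: its degree is p^n, except when some p^n₀ - 1 (n₀ ≤ n) is a power of a prime q for which the Sylow q-subgroups are non-abelian, in which case the degree is at least p^(n-n₀)(p^n₀ - 1). -/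
theorem result {F : Type*} [Field F] {p : ℕ} [Fact p.Prime] [CharP F p] {V : Type*} [AddCommGroup V] [Module F V] [FiniteDimensional F V] [Nontrivial V] (H : Subgroup (V ≃ₗ[F] V)) [Finite H] (hsol : Cfsg.IsPSolvable p H) (hOp : Cfsg.pCore p H = ⊥) (x : V ≃ₗ[F] V) (hx : x ∈ H) (n : ℕ) (hn : orderOf x = p ^ n) (r : ℕ) (hr : minpoly F (x : Module.End F V) = (Polynomial.X - 1) ^ r) : r = p ^ n ∨ ∃ n₀ q m : ℕ, 1 ≤ n₀ ∧ n₀ ≤ n ∧ q.Prime ∧ 1 ≤ m ∧ p ^ n₀ - 1 = q ^ m ∧ (∀ Q : Sylow q H, ¬ IsMulCommutative Q) ∧ p ^ (n - n₀) * (p ^ n₀ - 1) ≤ r := by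
  have hxP : x ^ (p ^ n) = 1 := hn ▸ pow_orderOf_eq_one x
  have hxend : (x : Module.End F V) ^ (p ^ n) = 1 := by
    have h := congrArg (LinearEquiv.automorphismGroup.toLinearMapMonoidHom (R := F) (M := V)) hxP
    rw [map_pow, map_one] at h
    exact h
  haveI := charP_of_injective_algebraMap (algebraMap F (Module.End F V)).injective p
  have hXp : Polynomial.aeval (x : Module.End F V) ((Polynomial.X - 1 : Polynomial F) ^ (p ^ n)) = 0 := by
    rw [map_pow, map_sub, Polynomial.aeval_X, map_one,
      sub_pow_char_pow_of_commute _ _ (Commute.one_right _), one_pow, hxend, sub_self]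
  have hdeg : ∀ k : ℕ, ((Polynomial.X - 1 : Polynomial F) ^ k).natDegree = k := fun k => by
    rw [Polynomial.natDegree_pow, ← Polynomial.C_1, Polynomial.natDegree_X_sub_C, mul_one]
  have hne : (Polynomial.X - 1 : Polynomial F) ^ (p ^ n) ≠ 0 := by
    rw [← Polynomial.C_1]
    exact pow_ne_zero _ (Polynomial.X_sub_C_ne_zero 1)
  have hle : r ≤ p ^ n := by
    have h := Polynomial.natDegree_le_of_dvd (minpoly.dvd F _ hXp) hne
    rwa [hr, hdeg, hdeg] at h
  have hr0 : ((x : Module.End F V) - 1) ^ r = 0 := by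
    have h := minpoly.aeval F (x : Module.End F V)
    rwa [hr, map_pow, map_sub, Polynomial.aeval_X, map_one] at h
  have hr1 : 1 ≤ r := by
    rcases Nat.eq_zero_or_pos r with rfl | h
    · rw [pow_zero] at hr0
      exact absurd hr0 one_ne_zero
    · exact h
  rcases Nat.eq_zero_or_pos n with rfl | hn1
  · left
    rw [pow_zero] at hle ⊢
    omega
  let ρ : H →* Module.End F V := (LinearEquiv.automorphismGroup.toLinearMapMonoidHom (R := F) (M := V)).comp H.subtype
  have hρ : Function.Injective ρ := fun a b hab => Subtype.ext (LinearEquiv.toLinearMap_injective hab)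
  have hord : orderOf (⟨x, hx⟩ : H) = p ^ n := by
    rw [← Subgroup.orderOf_coe]
    exact hn
  rcases CfsgLib.HallHigmanB.theorem_b ρ hρ hsol hOp ⟨x, hx⟩ n hn1 hord r hr0 with h | h
  · exact Or.inl (le_antisymm hle h)
  · exact Or.inr h

end Cfsg.Agent.S0633
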