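import Cfsg.Statements.S0635
import Cfsg.Agent.Constrained.PLength

set_option autoImplicit false
open Cfsg

namespace Cfsg.Agent.S0635

universe u

theorem pLengthLE_of_class_le {p : ℕ} [Fact p.Prime] (c : ℕ) :
    ∀ (G : Type u) [Group G] [Finite G], IsPSolvable p G → ∀ (S : Sylow p G)
      [Group.IsNilpotent ↥(S : Subgroup G)],
      Group.nilpotencyClass ↥(S : Subgroup G) ≤ c → PLengthLE p c G := by
  induction c with
  | zero =>
    intro G _ _ _ S _ hc
    rw [CfsgLib.Constrained.pLengthLE_zero_iff]
    haveI : Subsingleton ↥(S : Subgroup G) :=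
      Group.nilpotencyClass_zero_iff_subsingleton.mp (Nat.le_zero.mp hc)
    intro h
    have := S.not_dvd_index
    rw [Subgroup.eq_bot_of_subsingleton (S : Subgroup G), Subgroup.index_bot] at this
    exact this h
  | succ c ih =>
    intro G _ _ hsol S _ hc
    refine CfsgLib.Constrained.pLengthLE_succ_of_quotient ?_
    set q := QuotientGroup.mk' (pPrimePCore p G) with hq
    let T := S.mapSurjective (QuotientGroup.mk'_surjective (pPrimePCore p G))
    let f : ↥(S : Subgroup G) →* ↥(T : Subgroup (G ⧸ pPrimePCore p G)) :=
      q.subgroupMap (S : Subgroup G)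
    have hf : Function.Surjective f := q.subgroupMap_surjective (S : Subgroup G)
    -- the centre of `S` lies in `O_{p',p}(G)`
    have hcen : ∀ z : ↥(S : Subgroup G), z ∈ Subgroup.center ↥(S : Subgroup G) →
        f z = 1 := by
      intro z hz
      apply Subtype.ext
      show q z = 1
      rw [hq, QuotientGroup.mk'_apply, QuotientGroup.eq_one_iff]
      show QuotientGroup.mk' (pPrimeCore p G) z ∈ pCore p (G ⧸ pPrimeCore p G)
      refine CfsgLib.Constrained.centralizer_pCore_quotient_le hsol ?_
      rw [Subgroup.mem_centralizer_iff]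
      intro r hr
      obtain ⟨s, hs, rfl⟩ := CfsgLib.Constrained.isPGroup_pCore.le_sylow_of_normal
        (S.mapSurjective (QuotientGroup.mk'_surjective (pPrimeCore p G))) hr
      rw [← map_mul, ← map_mul]
      exact congrArg _ (congrArg Subtype.val (Subgroup.mem_center_iff.mp hz ⟨s, hs⟩))
    let g := QuotientGroup.lift (Subgroup.center ↥(S : Subgroup G)) f hcen
    have hg : Function.Surjective g := by
      intro y
      obtain ⟨x, rfl⟩ := hf y
      exact ⟨QuotientGroup.mk x, rfl⟩
    haveI : Group.IsNilpotent ↥(T : Subgroup (G ⧸ pPrimePCore p G)) := T.isPGroup'.isNilpotent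
    refine ih (G ⧸ pPrimePCore p G) (CfsgLib.Constrained.IsPSolvable.quotient hsol _) T ?_
    refine (Group.nilpotencyClass_le_of_surjective g hg).trans ?_
    have := Group.nilpotencyClass_quotient_center (G := ↥(S : Subgroup G))
    omega


/-- The p-length of a p-soluble group is at most the nilpotency class of its Sylow p-subgroups. -/
theorem result {G : Type*} [Group G] [Finite G] {p : ℕ} [Fact p.Prime] (hsol : Cfsg.IsPSolvable p G) (S : Sylow p G) : Cfsg.PLengthLE p (Group.nilpotencyClass ↥(S : Subgroup G)) G := by
  haveI : Group.IsNilpotent ↥(S : Subgroup G) := S.isPGroup'.isNilpotent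
  exact pLengthLE_of_class_le _ G hsol S le_rfl

end Cfsg.Agent.S0635
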