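import Cfsg.Statements.S0636
import Cfsg.Agent.PGroup.UniqueOrderP
-- import your own Cfsg.Agent.* helpers here

set_option autoImplicit false
set_option maxHeartbeats 400000
open Cfsg

open scoped commutatorElement

namespace Cfsg.Agent.S0636

theorem commutator_mem_center {P : Type*} [Group P] [Finite P] {p : ℕ} [Fact p.Prime]
    (hP : IsPGroup p P) (E : Subgroup P) [hEn : E.Normal] (hEc : Nat.card E = p ^ 2) {x : P}
    (hx : x ∈ E) (y : P) : x * y * x⁻¹ * y⁻¹ ∈ Subgroup.center P := by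
  obtain ⟨z, ⟨hzE, hzc⟩, hz1⟩ := (Subgroup.bot_or_exists_ne_one _).resolve_left
    (CfsgLib.PGroup.inf_center_ne_bot hP E (by
      intro h
      rw [h, Subgroup.card_bot] at hEc
      exact absurd (Nat.one_lt_pow two_ne_zero (Fact.out : p.Prime).one_lt) (by omega)))
  let f : P →* P ⧸ Subgroup.center P := QuotientGroup.mk' (Subgroup.center P)
  have hcen : f x ∈ Subgroup.center (P ⧸ Subgroup.center P) := by
    by_cases h1 : f x = 1
    · rw [h1]; exact one_mem _
    haveI : (E.map f).Normal := hEn.map f (QuotientGroup.mk'_surjective _)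
    refine CfsgLib.PGroup.le_center_of_card_eq (hP.to_quotient _) (E.map f) ?_ ⟨x, hx, rfl⟩
    obtain ⟨k, hk, hkc⟩ := (Nat.dvd_prime_pow Fact.out).1
      (hEc ▸ Subgroup.card_map_dvd E f : Nat.card (E.map f) ∣ p ^ 2)
    rcases (show k = 0 ∨ k = 1 ∨ k = 2 by omega) with rfl | rfl | rfl
    · exfalso
      rw [pow_zero, Subgroup.card_eq_one] at hkc
      exact h1 ((Subgroup.eq_bot_iff_forall _).1 hkc _ ⟨x, hx, rfl⟩)
    · rw [hkc, pow_one]
    · exfalso
      let φ : E → E.map f := fun e => ⟨f e, e, e.2, rfl⟩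
      have hsurj : Function.Surjective φ := by
        rintro ⟨_, e, he, rfl⟩; exact ⟨⟨e, he⟩, rfl⟩
      have hinj := ((Nat.bijective_iff_surjective_and_card φ).2 ⟨hsurj, hEc.trans hkc.symm⟩).1
      have hfz : f z = f 1 := (QuotientGroup.eq_one_iff z).2 hzc |>.trans (map_one f).symm
      exact hz1 (congrArg Subtype.val (hinj (a₁ := ⟨z, hzE⟩) (a₂ := 1) (Subtype.ext hfz)))
  have h2 : f (x * y * x⁻¹ * y⁻¹) = 1 := by
    rw [map_mul, map_mul, map_mul, map_inv, map_inv, ← Subgroup.mem_center_iff.1 hcen (f y)]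
    group
  exact (QuotientGroup.eq_one_iff _).1 h2


/-- For odd p, every non-cyclic normal subgroup of a p-group contains a normal elementary abelian subgroup of the whole group of order p². -/
theorem result {R : Type*} [Group R] [Finite R] {p : ℕ} [Fact p.Prime] (hp : p ≠ 2) (hR : IsPGroup p R) (S : Subgroup R) [S.Normal] (hS : ¬ IsCyclic S) : ∃ A : Subgroup R, A ≤ S ∧ A.Normal ∧ Cfsg.IsElementaryAbelian p A ∧ Nat.card A = p ^ 2 := by
  have hodd : Odd p := (Fact.out : p.Prime).odd_of_ne_two hp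
  have hpS := hR.to_subgroup S
  obtain ⟨E, hEn, hEe, hEc⟩ := CfsgLib.PGroup.exists_normal_elementary_sq hp hpS hS
  haveI := hEn
  -- the second centre of `S`, inside `R`
  set Z2 := Subgroup.upperCentralSeries S 2 with hZ2
  haveI : Z2.Characteristic := inferInstance
  set M := Z2.map S.subtype with hM
  haveI hMn : M.Normal := inferInstance
  have hstep : ∀ x : S, x ∈ Z2 ↔ ∀ y : S, x * y * x⁻¹ * y⁻¹ ∈ Subgroup.center S := fun x => by
    rw [hZ2, Subgroup.mem_upperCentralSeries_succ_iff, Subgroup.upperCentralSeries_one]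
    simp only [commutatorElement_def]
  have hMc : ∀ a ∈ M, ∀ b ∈ M, Commute ⁅a, b⁆ a := by
    rintro _ ⟨a, ha, rfl⟩ _ ⟨b, -, rfl⟩
    exact congrArg Subtype.val (Subgroup.mem_center_iff.1 ((hstep a).1 ha b) a).symm
  have hE2 : E ≤ Z2 := fun x hx => (hstep x).2 (commutator_mem_center hpS E hEc hx)
  set O := Cfsg.omegaOne p M with hO
  haveI : O.Normal := CfsgLib.PGroup.omegaOne_normal
  have hEO : E.map S.subtype ≤ O := by
    rintro _ ⟨x, hx, rfl⟩
    exact CfsgLib.PGroup.mem_omegaOne ⟨x, hE2 hx, rfl⟩ (congrArg Subtype.val (hEe.2 x hx))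
  have hbig : p ^ 2 ∣ Nat.card O := by
    rw [← hEc, Nat.card_congr (Subgroup.equivMapOfInjective E _ S.subtype_injective).toEquiv]
    exact Subgroup.card_dvd_of_le hEO
  obtain ⟨A, hAn, hAle, hAc⟩ := CfsgLib.PGroup.exists_normal_card_pow hR O hbig
  exact ⟨A, (hAle.trans (CfsgLib.PGroup.omegaOne_le M)).trans (Subgroup.map_subtype_le _), hAn,
    ⟨IsPGroup.isMulCommutative_of_card_eq_prime_sq hAc,
      fun a ha => CfsgLib.PGroup.pow_eq_one_of_mem_omegaOne hodd hMc (hAle ha)⟩, hAc⟩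

end Cfsg.Agent.S0636
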