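import Cfsg.Statements.S0637
import Cfsg.Agent.PGroup.Omega
import Cfsg.Agent.PGroup.Normal
import Cfsg.Agent.PGroup.Small
import Cfsg.Agent.PGroup.ClassThree
import Cfsg.Agent.PGroup.UniqueOrderP

set_option autoImplicit false
open Cfsg

namespace Cfsg.Agent.S0637

section Helpers

open scoped commutatorElement

universe u

variable {p : ℕ} [Fact p.Prime]

omit [Fact p.Prime] in
/-- No subgroup of order `p ^ 3` and exponent `p`. -/
def NoExpCube (p : ℕ) (R : Type*) [Group R] : Prop :=
  ∀ S : Subgroup R, Nat.card S = p ^ 3 → (∀ x ∈ S, x ^ p = 1) → False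

theorem card_comap_mk {R : Type*} [Group R] [Finite R] (N : Subgroup R) [N.Normal]
    (H : Subgroup (R ⧸ N)) :
    Nat.card ↥(H.comap (QuotientGroup.mk' N)) = Nat.card N * Nat.card H := by
  set K := H.comap (QuotientGroup.mk' N)
  let f : K →* R ⧸ N := (QuotientGroup.mk' N).comp K.subtype
  rw [← Subgroup.card_mul_index f.ker, Subgroup.index_ker]
  congr 1
  · exact Nat.card_congr
      { toFun := fun x => ⟨x.1.1, (QuotientGroup.eq_one_iff _).1 x.2⟩
        invFun := fun x => ⟨⟨x.1, show QuotientGroup.mk' N x.1 ∈ H by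
          rw [show QuotientGroup.mk' N x.1 = 1 from (QuotientGroup.eq_one_iff _).2 x.2]
          exact H.one_mem⟩, (QuotientGroup.eq_one_iff _).2 x.2⟩
        left_inv := fun _ => rfl
        right_inv := fun _ => rfl }
  · rw [MonoidHom.range_comp, Subgroup.range_subtype,
      Subgroup.map_comap_eq_self_of_surjective (QuotientGroup.mk'_surjective N)]

theorem noExpCube_of_card {R : Type*} [Group R] [Finite R]
    (h : Nat.card ↥(Cfsg.omegaOne p (⊤ : Subgroup R)) ≤ p ^ 2) : NoExpCube p R := by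
  intro S hS hexp
  have hle : S ≤ Cfsg.omegaOne p (⊤ : Subgroup R) := fun x hx =>
    CfsgLib.PGroup.mem_omegaOne (Subgroup.mem_top x) (hexp x hx)
  have := (hS ▸ Subgroup.card_le_of_le hle).trans h
  exact absurd this (not_le.2 (Nat.pow_lt_pow_right (Fact.out : p.Prime).one_lt (by norm_num)))

theorem noExpCube_congr {R R' : Type*} [Group R] [Group R'] (e : R ≃* R')
    (h : NoExpCube p R) : NoExpCube p R' := by
  intro S hS hexp
  refine h (S.map e.symm.toMonoidHom) ?_ ?_
  · rw [Subgroup.card_map_of_injective e.symm.injective, hS]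
  · rintro _ ⟨x, hx, rfl⟩
    rw [← map_pow, hexp x hx, map_one]

/-- Elements of a group of order `p ^ 3` have central commutators. -/
theorem commutator_central_of_card_cube {H : Type*} [Group H] [Finite H]
    (hH : Nat.card H = p ^ 3) (a b g : H) : g * ⁅a, b⁆ = ⁅a, b⁆ * g := by
  have h2 := CfsgLib.PGroup.card_lowerCentralSeries_le hH 1
  rw [show 3 - (1 + 2) = 0 from rfl, pow_zero] at h2
  have h3 := Subgroup.eq_bot_of_card_le _ h2
  have hm : ⁅⁅a, b⁆, g⁆ ∈ Subgroup.lowerCentralSeries (⊤ : Subgroup H) 2 := by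
    rw [Subgroup.lowerCentralSeries_succ, Subgroup.lowerCentralSeries_succ,
      Subgroup.lowerCentralSeries_zero]
    exact Subgroup.commutator_mem_commutator
      (Subgroup.commutator_mem_commutator (Subgroup.mem_top a) (Subgroup.mem_top b))
      (Subgroup.mem_top g)
  rw [h3, Subgroup.mem_bot, commutatorElement_eq_one_iff_mul_comm] at hm
  exact hm.symm

theorem card_omega_le_of_noExpCube {R : Type u} [Group R] [Finite R] (hp : p ≠ 2)
    (hR : IsPGroup p R) (h : NoExpCube p R) :
    Nat.card ↥(Cfsg.omegaOne p (⊤ : Subgroup R)) ≤ p ^ 2 := by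
  have hpp : p.Prime := Fact.out
  by_cases hc : IsCyclic R
  · classical
    have : Fintype R := Fintype.ofFinite R
    have hcomm : ∀ a ∈ (⊤ : Subgroup R), ∀ b ∈ (⊤ : Subgroup R), Commute a b := fun a _ b _ =>
      @mul_comm R (IsCyclic.commGroup).toCommMonoid.toCommSemigroup.toCommMagma a b
    have h1 := IsCyclic.card_pow_eq_one_le (α := R) hpp.pos
    refine le_trans ?_ (Nat.le_self_pow (by norm_num) p)
    refine le_trans (le_of_eq ?_) h1
    rw [← Fintype.card_subtype, ← Nat.card_eq_fintype_card]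
    refine Nat.card_congr (Equiv.subtypeEquivRight fun x => ?_)
    rw [CfsgLib.PGroup.omegaOne_of_abelian_mem_iff hcomm]
    exact and_iff_right (Subgroup.mem_top x)
  obtain ⟨E, hEn, hE, hEc⟩ := CfsgLib.PGroup.exists_normal_elementary_sq hp hR hc
  have hall : Cfsg.omegaOne p (⊤ : Subgroup R) ≤ E := by
    refine (Subgroup.closure_le _).2 fun x hx => ?_
    by_contra hxE
    set q := QuotientGroup.mk' E
    have hord : orderOf (q x) = p := orderOf_eq_prime (by rw [← map_pow, hx.2, map_one])
      fun h1 => hxE ((QuotientGroup.eq_one_iff x).1 h1)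
    set H : Subgroup R := (Subgroup.zpowers (q x)).comap q with hH
    have hHc : Nat.card H = p ^ 3 := by
      rw [hH, card_comap_mk, hEc, Nat.card_zpowers, hord]; ring
    have hHgen : H = E ⊔ Subgroup.zpowers x := by
      rw [hH, ← MonoidHom.map_zpowers, Subgroup.comap_map_eq, QuotientGroup.ker_mk', sup_comm]
    refine h H hHc fun y hy => ?_
    have hmem : y ∈ Cfsg.omegaOne p H := by
      have hle : E ⊔ Subgroup.zpowers x ≤ Cfsg.omegaOne p H :=
        sup_le (fun e he => CfsgLib.PGroup.mem_omegaOne (hHgen ▸ Subgroup.mem_sup_left he)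
            (hE.2 e he))
          (Subgroup.zpowers_le.2 (CfsgLib.PGroup.mem_omegaOne
            (hHgen ▸ Subgroup.mem_sup_right (Subgroup.mem_zpowers x)) hx.2))
      exact hle (hHgen ▸ hy)
    refine CfsgLib.PGroup.pow_eq_one_of_mem_omegaOne (hpp.odd_of_ne_two hp) ?_ hmem
    intro a ha b hb
    have := commutator_central_of_card_cube hHc ⟨a, ha⟩ ⟨b, hb⟩ ⟨a, ha⟩
    exact (congrArg Subtype.val this).symm
  exact (Subgroup.card_le_of_le hall).trans hEc.le

/-- Factoring out a central subgroup of order `p`. -/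
theorem noExpCube_quotient_central {R : Type*} [Group R] [Finite R] (hp : 3 < p)
    (Z : Subgroup R) [Z.Normal] (hZ : Z ≤ Subgroup.center R) (hZc : Nat.card Z = p)
    (h : NoExpCube p R) : NoExpCube p (R ⧸ Z) := by
  have hpp : p.Prime := Fact.out
  have hodd : Odd p := hpp.odd_of_ne_two (by omega)
  intro Sb hSb hexp
  set q := QuotientGroup.mk' Z
  set S : Subgroup R := Sb.comap q with hS
  have hSc : Nat.card S = p * p ^ 3 := by rw [hS, card_comap_mk, hZc, hSb]
  have hZpow : ∀ z : R, z ∈ Z → z ^ p = 1 := fun z hz => by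
    have := pow_card_eq_one' (G := Z) (x := ⟨z, hz⟩)
    rw [hZc] at this
    exact congrArg Subtype.val this
  have hzc : ∀ z : R, z ∈ Z → ∀ g : R, Commute z g := fun z hz g =>
    (Subgroup.mem_center_iff.1 (hZ hz) g).symm
  have hpowZ : ∀ x ∈ S, x ^ p ∈ Z := fun x hx => by
    rw [← QuotientGroup.eq_one_iff]
    exact (map_pow q x p).trans (hexp _ hx)
  have htriple : ∀ a ∈ S, ∀ b ∈ S, ∀ g ∈ S, ⁅⁅a, b⁆, g⁆ ∈ Z := fun a ha b hb g hg => by
    have h1 := commutator_central_of_card_cube hSb (⟨q a, ha⟩ : Sb) ⟨q b, hb⟩ ⟨q g, hg⟩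
    have h2 : q g * ⁅q a, q b⁆ = ⁅q a, q b⁆ * q g := congrArg Subtype.val h1
    rw [← QuotientGroup.eq_one_iff]
    show q ⁅⁅a, b⁆, g⁆ = 1
    rw [map_commutatorElement, map_commutatorElement, commutatorElement_eq_one_iff_mul_comm]
    exact h2.symm
  have hcomm : ∀ a ∈ S, ∀ b ∈ S, ⁅a, b⁆ ^ p = 1 := by
    intro a ha b hb
    set d := a⁻¹ * (b * a * b⁻¹) with hd
    have e : d = ⁅a⁻¹, b⁆ := by rw [hd, commutatorElement_def]; group
    suffices d ^ p = 1 by
      have hconj : ⁅a, b⁆ = a * d⁻¹ * a⁻¹ := by rw [hd, commutatorElement_def]; group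
      rw [hconj, conj_pow, inv_pow, this]; group
    have hdS : d ∈ S := S.mul_mem (S.inv_mem ha) (S.mul_mem (S.mul_mem hb ha) (S.inv_mem hb))
    have hcZ : ⁅a, d⁆ ∈ Z := by
      rw [← commutatorElement_inv d a]
      exact Z.inv_mem (e ▸ htriple a⁻¹ (S.inv_mem ha) b hb a ha)
    have h1 := CfsgLib.PGroup.mul_pow_of_odd (hzc _ hcZ a) (hzc _ hcZ d) hodd (hZpow _ hcZ)
    have h2 : (a * d) ^ p = b * a ^ p * b⁻¹ := by rw [hd, mul_inv_cancel_left, conj_pow]
    have h3 : b * a ^ p * b⁻¹ = a ^ p := by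
      rw [(hzc _ (hpowZ a ha) b).symm.eq, mul_inv_cancel_right]
    rw [h2, h3] at h1
    exact left_eq_mul.1 h1
  -- the power map is a homomorphism on `S`
  have hcl : ∀ x ∈ ⁅commutator S, (⊤ : Subgroup S)⁆, ∀ g : S, x * g = g * x := by
    intro x hx
    have hle : ⁅commutator S, (⊤ : Subgroup S)⁆ ≤ Z.comap S.subtype := by
      rw [Subgroup.commutator_le]
      intro c hc g _
      let M : Subgroup (R ⧸ Z) := Subgroup.centralizer {q (g : R)}
      have hcle : commutator S ≤ M.comap (q.comp S.subtype) := by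
        rw [commutator_def, Subgroup.commutator_le]
        intro a _ b _
        rw [Subgroup.mem_comap]
        have h1 := commutator_central_of_card_cube hSb (⟨q a, a.2⟩ : Sb) ⟨q b, b.2⟩ ⟨q g, g.2⟩
        have h2 : q g * ⁅q a, q b⁆ = ⁅q a, q b⁆ * q g := congrArg Subtype.val h1
        rw [map_commutatorElement, Subgroup.mem_centralizer_singleton_iff]
        exact h2.symm
      have := hcle hc
      rw [Subgroup.mem_comap, Subgroup.mem_centralizer_singleton_iff] at this
      rw [Subgroup.mem_comap, map_commutatorElement, ← QuotientGroup.eq_one_iff]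
      show q ⁅(c : R), (g : R)⁆ = 1
      rw [map_commutatorElement, commutatorElement_eq_one_iff_mul_comm]
      exact this
    intro g
    exact Subtype.ext (hzc _ (hle hx) g).eq
  have h2 : p ∣ p.choose 2 := hpp.dvd_choose_self (by norm_num) (by omega)
  have h3 : p ∣ p.choose 3 := hpp.dvd_choose_self (by norm_num) (by omega)
  let f : S →* S := MonoidHom.mk' (fun x => x ^ p) fun x y =>
    CfsgLib.PGroup.mul_pow_of_class_three hcl h2 (Or.inl h3)
      (Subtype.ext (hcomm _ (S.inv_mem y.2) _ (S.inv_mem x.2)))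
  have hrange : Nat.card f.range ≤ p := by
    rw [← Subgroup.card_map_of_injective (f := S.subtype) Subtype.val_injective, ← hZc]
    refine Subgroup.card_le_of_le ?_
    rintro _ ⟨_, ⟨x, rfl⟩, rfl⟩
    exact hpowZ x x.2
  have hker : p ^ 3 ∣ Nat.card f.ker := by
    obtain ⟨k, hk⟩ := IsPGroup.iff_card.1 ((IsPGroup.of_card (n := 4)
      (show Nat.card S = p ^ 4 by rw [hSc]; ring)).to_subgroup f.ker)
    have h5 : Nat.card f.ker * Nat.card f.range = p * p ^ 3 := by
      rw [← Subgroup.index_ker, Subgroup.card_mul_index, hSc]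
    rw [hk] at h5 ⊢
    refine pow_dvd_pow p ?_
    by_contra hlt
    push Not at hlt
    have : p ^ k * Nat.card f.range ≤ p ^ 2 * p :=
      Nat.mul_le_mul (Nat.pow_le_pow_right hpp.pos (by omega)) hrange
    rw [h5, show p * p ^ 3 = p ^ 4 by ring, show p ^ 2 * p = p ^ 3 by ring] at this
    exact absurd this (not_le.2 (Nat.pow_lt_pow_right hpp.one_lt (by norm_num)))
  obtain ⟨K, hK⟩ := Sylow.exists_subgroup_card_pow_prime p hker
  refine h ((K.map f.ker.subtype).map S.subtype) ?_ ?_
  · rw [Subgroup.card_map_of_injective Subtype.val_injective,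
      Subgroup.card_map_of_injective Subtype.val_injective, hK]
  · rintro _ ⟨_, ⟨x, -, rfl⟩, rfl⟩
    exact congrArg Subtype.val (show f x.1 = 1 from x.2)

theorem noExpCube_quotient (hp : 3 < p) : ∀ (n : ℕ) (R : Type u) [Group R] [Finite R],
    IsPGroup p R → NoExpCube p R → ∀ (T : Subgroup R) [T.Normal], Nat.card T ≤ n →
      NoExpCube p (R ⧸ T) := by
  intro n
  induction n with
  | zero =>
    intro R _ _ _ _ T _ hT
    exact absurd hT (not_le.2 Nat.card_pos)
  | succ n ih =>
    intro R _ _ hR h T hTn hT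
    have hpp : p.Prime := Fact.out
    by_cases hT1 : T = ⊥
    · subst hT1
      exact noExpCube_congr (QuotientGroup.quotientBot (G := R)).symm h
    have hne := CfsgLib.PGroup.inf_center_ne_bot hR T hT1
    obtain ⟨k, hk⟩ := IsPGroup.iff_card.1 (hR.to_subgroup (T ⊓ Subgroup.center R))
    have hdvd : p ∣ Nat.card ↥(T ⊓ Subgroup.center R) := by
      rw [hk]
      refine dvd_pow_self p fun h0 => hne (Subgroup.eq_bot_of_card_eq _ ?_)
      rw [hk, h0, pow_zero]
    obtain ⟨z, hz⟩ := exists_prime_orderOf_dvd_card' (G := ↥(T ⊓ Subgroup.center R)) p hdvd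
    set Z : Subgroup R := Subgroup.zpowers (z : R) with hZdef
    have hZle : Z ≤ T ⊓ Subgroup.center R := Subgroup.zpowers_le.2 z.2
    have hZc : Nat.card Z = p := by rw [hZdef, Nat.card_zpowers, orderOf_submonoid, hz]
    haveI hZn : Z.Normal := ⟨fun y hy g => by
      rw [Subgroup.mem_center_iff.1 (hZle hy).2 g, mul_inv_cancel_right]; exact hy⟩
    have h' := noExpCube_quotient_central hp Z (hZle.trans inf_le_right) hZc h
    have hZT : Z ≤ T := hZle.trans inf_le_left
    haveI : (T.map (QuotientGroup.mk' Z)).Normal :=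
      hTn.map _ (QuotientGroup.mk'_surjective Z)
    refine noExpCube_congr (QuotientGroup.quotientQuotientEquivQuotient Z T hZT)
      (ih (R ⧸ Z) (hR.to_quotient Z) h' (T.map (QuotientGroup.mk' Z)) ?_)
    have h1 : Nat.card T = p * Nat.card ↥(T.map (QuotientGroup.mk' Z)) := by
      rw [← hZc, ← card_comap_mk, Subgroup.comap_map_eq, QuotientGroup.ker_mk',
        sup_eq_left.2 hZT]
    have h2 : 0 < Nat.card ↥(T.map (QuotientGroup.mk' Z)) := Nat.card_pos
    have h3 : 2 * Nat.card ↥(T.map (QuotientGroup.mk' Z)) ≤ Nat.card T := by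
      rw [h1]; exact Nat.mul_le_mul_right _ hpp.two_le
    omega

end Helpers


/-- For p greater than 3, the bound p² on the order of the subgroup generated by the elements of order dividing p passes from a p-group to all its quotients. -/
theorem result {R : Type*} [Group R] [Finite R] {p : ℕ} [Fact p.Prime] (hp : 3 < p) (hR : IsPGroup p R) (hO : Nat.card ↥(Cfsg.omegaOne p (⊤ : Subgroup R)) ≤ p ^ 2) (T : Subgroup R) [T.Normal] : Nat.card ↥(Cfsg.omegaOne p (⊤ : Subgroup (R ⧸ T))) ≤ p ^ 2 := by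
  exact card_omega_le_of_noExpCube (by omega) (hR.to_quotient T)
    (noExpCube_quotient hp _ R hR (noExpCube_of_card hO) T le_rfl)

end Cfsg.Agent.S0637
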