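import Cfsg.Statements.S0638
import Cfsg.Agent.Eq.Def_PLocal
import Cfsg.Agent.MetacyclicP.Split

set_option autoImplicit false
open Cfsg

namespace Cfsg.Agent.S0638

/-- For odd p, in a non-cyclic metacyclic p-group the elements of order dividing p generate an elementary abelian subgroup of order p². -/
theorem result {R : Type*} [Group R] [Finite R] {p : ℕ} [Fact p.Prime] (hp : p ≠ 2) (hR : IsPGroup p R) (hm : Cfsg.IsMetacyclic R) (hnc : ¬ IsCyclic R) : Cfsg.IsElementaryAbelian p (Cfsg.omegaOne p (⊤ : Subgroup R)) ∧ Nat.card ↥(Cfsg.omegaOne p (⊤ : Subgroup R)) = p ^ 2 := by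
  obtain ⟨D⟩ := CfsgLib.MetacyclicP.exists_gens hR hm
  obtain ⟨E, hEc, hE, hmem⟩ := D.omega_spec hp hR hnc
  have hΩ : Cfsg.omegaOne p (⊤ : Subgroup R) = E := by
    apply le_antisymm
    · rw [Cfsg.omegaOne, Subgroup.closure_le]
      exact fun x hx => (hmem x).mpr hx.2
    · exact fun x hx => Subgroup.subset_closure ⟨Subgroup.mem_top x, (hmem x).mp hx⟩
  rw [hΩ]
  exact ⟨⟨hEc, fun x hx => (hmem x).mp hx⟩, hE⟩

end Cfsg.Agent.S0638
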