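import Cfsg.Statements.S0641
import Cfsg.Agent.Eq.Def_PLocal

set_option autoImplicit false
open Cfsg

namespace Cfsg.Agent.S0641

/-- Regularity of a p-group passes to quotient groups. -/
theorem result {G : Type*} [Group G] {p : ℕ} [Fact p.Prime] (hG : Cfsg.IsRegularPGroup p G) (N : Subgroup G) [N.Normal] : Cfsg.IsRegularPGroup p (G ⧸ N) := by
  obtain ⟨hp, hreg⟩ := hG
  refine ⟨hp.to_quotient N, fun a b n => ?_⟩
  obtain ⟨a, rfl⟩ := QuotientGroup.mk'_surjective N a
  obtain ⟨b, rfl⟩ := QuotientGroup.mk'_surjective N b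
  obtain ⟨c, hc, h⟩ := hreg a b n
  refine ⟨QuotientGroup.mk' N c, ?_, by simp only [← map_pow, ← map_mul, h]⟩
  have hK : ⁅Subgroup.closure ({QuotientGroup.mk' N a, QuotientGroup.mk' N b} : Set (G ⧸ N)),
      Subgroup.closure ({QuotientGroup.mk' N a, QuotientGroup.mk' N b} : Set (G ⧸ N))⁆ =
      (⁅Subgroup.closure ({a, b} : Set G), Subgroup.closure ({a, b} : Set G)⁆).map
        (QuotientGroup.mk' N) := by
    rw [Subgroup.map_commutator, MonoidHom.map_closure, Set.image_pair]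
  have hle : (powerClosure p n ⁅Subgroup.closure ({a, b} : Set G), Subgroup.closure ({a, b} : Set G)⁆).map
      (QuotientGroup.mk' N) ≤ powerClosure p n ⁅Subgroup.closure
        ({QuotientGroup.mk' N a, QuotientGroup.mk' N b} : Set (G ⧸ N)), Subgroup.closure
        ({QuotientGroup.mk' N a, QuotientGroup.mk' N b} : Set (G ⧸ N))⁆ := by
    rw [powerClosure, MonoidHom.map_closure]
    refine Subgroup.closure_mono ?_
    rintro _ ⟨y, ⟨x, hx, rfl⟩, rfl⟩
    exact ⟨QuotientGroup.mk' N x, by rw [hK]; exact ⟨x, hx, rfl⟩, map_pow _ _ _⟩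
  exact hle ⟨c, hc, rfl⟩

end Cfsg.Agent.S0641
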