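import Cfsg.Statements.S0642
import Mathlib.GroupTheory.PGroup
import Mathlib.GroupTheory.Frattini
import Mathlib.GroupTheory.Nilpotent
import Cfsg.Agent.Eq.Def_PLocal

set_option autoImplicit false
open Cfsg
open scoped commutatorElement

namespace Cfsg.Agent.S0642

/-- Among finite 2-groups the regular ones are exactly the abelian ones. -/
theorem result {G : Type*} [Group G] [Finite G] (hG : IsPGroup 2 G) : Cfsg.IsRegularPGroup 2 G ↔ ∀ a b : G, a * b = b * a := by
  constructor
  · rintro ⟨-, hreg⟩ a b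
    set K := ⁅Subgroup.closure ({a, b} : Set G), Subgroup.closure ({a, b} : Set G)⁆ with hK
    have hle : K ≤ powerClosure 2 1 K := by
      rw [hK, Subgroup.commutator_le]
      intro u hu v hv
      have hx : u⁻¹ * v⁻¹ * u ∈ Subgroup.closure ({a, b} : Set G) :=
        mul_mem (mul_mem (inv_mem hu) (inv_mem hv)) hu
      obtain ⟨c, hc, hab⟩ := hreg (u⁻¹ * v⁻¹ * u) u⁻¹ 1
      have hce : c = ⁅u, v⁆ := by
        rw [pow_one, pow_two, pow_two, pow_two] at hab
        calc c = (u⁻¹ * v⁻¹ * u * (u⁻¹ * v⁻¹ * u) * (u⁻¹ * u⁻¹))⁻¹ *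
            (u⁻¹ * v⁻¹ * u * (u⁻¹ * v⁻¹ * u) * (u⁻¹ * u⁻¹) * c) := by group
          _ = (u⁻¹ * v⁻¹ * u * (u⁻¹ * v⁻¹ * u) * (u⁻¹ * u⁻¹))⁻¹ *
            (u⁻¹ * v⁻¹ * u * u⁻¹ * (u⁻¹ * v⁻¹ * u * u⁻¹)) := by rw [hab]
          _ = _ := by rw [commutatorElement_def]; group
      rw [← hce]
      have hsub : Subgroup.closure ({u⁻¹ * v⁻¹ * u, u⁻¹} : Set G) ≤ Subgroup.closure {a, b} := by
        rw [Subgroup.closure_le]
        rintro _ (rfl | rfl)
        · exact hx
        · exact inv_mem hu
      refine (Subgroup.closure_mono ?_ : _ ≤ powerClosure 2 1 _) hc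
      rintro _ ⟨x, hx', rfl⟩
      exact ⟨x, Subgroup.commutator_mono hsub hsub hx', rfl⟩
    have hbot : K = ⊥ := by
      by_contra hne
      have hKp : IsPGroup 2 K := hG.to_subgroup K
      obtain ⟨k, hk⟩ := IsPGroup.iff_card.1 hKp
      have hk0 : k ≠ 0 := fun h0 => hne (Subgroup.card_eq_one.1 (by rw [hk, h0, pow_zero]))
      obtain ⟨M, hM⟩ := Sylow.exists_subgroup_card_pow_prime (G := K) (n := k - 1) 2
        (by rw [hk]; exact pow_dvd_pow 2 (Nat.sub_le k 1))
      have hidx : M.index = 2 := by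
        have h1 := M.card_mul_index
        rw [hM, hk] at h1
        have h2 : 2 ^ k = 2 ^ (k - 1) * 2 := by rw [← pow_succ]; congr 1; omega
        rw [h2] at h1
        exact Nat.eq_of_mul_eq_mul_left (by positivity) h1
      have hsub : K ≤ M.map K.subtype := by
        refine hle.trans ?_
        rw [powerClosure, Subgroup.closure_le]
        rintro _ ⟨x, hx, rfl⟩
        exact ⟨⟨x, hx⟩ ^ 2 ^ 1, by simpa using Subgroup.sq_mem_of_index_two hidx ⟨x, hx⟩, rfl⟩
      have : Nat.card K ≤ Nat.card M := by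
        rw [← Subgroup.card_map_of_injective (f := K.subtype) K.subtype_injective (K := M)]
        exact Subgroup.card_le_of_le hsub
      rw [hk, hM] at this
      have := Nat.pow_lt_pow_right (a := 2) (by norm_num) (show k - 1 < k by omega)
      omega
    have hmem : ⁅a, b⁆ ∈ K := Subgroup.commutator_mem_commutator
      (Subgroup.subset_closure (Set.mem_insert a ({b} : Set G)))
      (Subgroup.subset_closure (Set.mem_insert_of_mem a (Set.mem_singleton b)))
    rw [hbot, Subgroup.mem_bot, commutatorElement_eq_one_iff_mul_comm] at hmem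
    exact hmem
  · intro h
    refine ⟨hG, fun a b n => ⟨1, one_mem _, ?_⟩⟩
    rw [mul_one, Commute.mul_pow (h a b)]

end Cfsg.Agent.S0642
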