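import Cfsg.Statements.S0644
import Cfsg.Agent.Eq.Def_PLocal
import Cfsg.Agent.PGroup.Frattini
import Mathlib

set_option autoImplicit false
open Cfsg

namespace Cfsg.Agent.S0644

open scoped commutatorElement

variable {G : Type*} [Group G]

/-- The defining identity of regularity for a single exponent. -/
def GoodExp (p n : ℕ) (G : Type*) [Group G] : Prop :=
  ∀ a b : G, ∃ c ∈ Cfsg.powerClosure p n ⁅Subgroup.closure ({a, b} : Set G), Subgroup.closure ({a, b} : Set G)⁆,
    (a * b) ^ (p ^ n) = a ^ (p ^ n) * b ^ (p ^ n) * c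

theorem powerClosure_mono {p n : ℕ} {H K : Subgroup G} (h : H ≤ K) :
    Cfsg.powerClosure p n H ≤ Cfsg.powerClosure p n K :=
  Subgroup.closure_mono fun _ ⟨x, hx, e⟩ => ⟨x, h hx, e⟩

theorem powerClosure_le {p n : ℕ} (H : Subgroup G) : Cfsg.powerClosure p n H ≤ H :=
  (Subgroup.closure_le _).mpr fun _ ⟨x, hx, e⟩ => e ▸ H.pow_mem hx _

theorem closure_pair_le {a b : G} {H : Subgroup G} (ha : a ∈ H) (hb : b ∈ H) :
    Subgroup.closure ({a, b} : Set G) ≤ H :=
  (Subgroup.closure_le _).mpr (by rintro z (rfl | rfl) <;> assumption)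

/-- Under the identity for `n`, the `p ^ n`-th powers of a subgroup form a subgroup. -/
theorem exists_pow_eq [Finite G] {p n : ℕ} [Fact p.Prime] (hp : IsPGroup p G) (hG : GoodExp p n G) :
    ∀ (H : Subgroup G) (y : G), y ∈ Cfsg.powerClosure p n H → ∃ x ∈ H, y = x ^ p ^ n := by
  intro H
  induction H using WellFoundedLT.induction with
  | _ H ih =>
    intro y hy
    induction hy using Subgroup.closure_induction with
    | mem z hz => exact hz
    | one => exact ⟨1, H.one_mem, (one_pow _).symm⟩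
    | inv z _ h => obtain ⟨x, hx, rfl⟩ := h; exact ⟨x⁻¹, H.inv_mem hx, (inv_pow _ _).symm⟩
    | mul z w _ _ hz hw =>
      obtain ⟨a, ha, rfl⟩ := hz
      obtain ⟨b, hb, rfl⟩ := hw
      set K := Subgroup.closure ({a, b} : Set G) with hK
      have hKH : K ≤ H := closure_pair_le ha hb
      have hab : a * b ∈ K := K.mul_mem (Subgroup.subset_closure (by simp)) (Subgroup.subset_closure (by simp))
      obtain ⟨c, hc, he⟩ := hG a b
      set L := Subgroup.zpowers (a * b) ⊔ ⁅K, K⁆ with hL
      have hLK : L ≤ K := sup_le (Subgroup.zpowers_le.mpr hab) (Subgroup.commutator_le_self K)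
      by_cases hLt : L = K
      · -- then the pair generates an abelian group
        have hcyc : K = Subgroup.zpowers (a * b) := by
          haveI : Finite K := inferInstance
          have hsup : (Subgroup.zpowers (a * b)).subgroupOf K ⊔ frattini K = ⊤ := by
            rw [eq_top_iff]
            have h1 : (⊤ : Subgroup K) = (Subgroup.zpowers (a * b)).subgroupOf K ⊔ (⁅K, K⁆).subgroupOf K := by
              rw [← Subgroup.subgroupOf_sup (Subgroup.zpowers_le.mpr hab) (Subgroup.commutator_le_self K),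
                ← hL, hLt, Subgroup.subgroupOf_self]
            rw [h1]
            refine sup_le_sup_left ?_ _
            have h2 : (⁅K, K⁆).subgroupOf K = commutator K := by
              rw [← Subgroup.map_subtype_commutator, ← Subgroup.comap_subtype,
                Subgroup.comap_map_eq_self_of_injective K.subtype_injective]
            rw [h2]
            exact CfsgLib.PGroup.commutator_le_frattini (hp.to_subgroup K)
          have := frattini_nongenerating hsup
          exact le_antisymm (Subgroup.subgroupOf_eq_top.mp this) (Subgroup.zpowers_le.mpr hab)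
        have hbot : ⁅K, K⁆ = ⊥ := by
          rw [hcyc, Subgroup.commutator_eq_bot_iff_le_centralizer]
          rintro u ⟨i, rfl⟩ w ⟨j, rfl⟩
          exact ((Commute.refl (a * b)).zpow_zpow j i).eq
        have hc1 : c = 1 := by
          have := powerClosure_le _ hc
          rwa [hbot, Subgroup.mem_bot] at this
        refine ⟨a * b, hKH hab, ?_⟩
        rw [he, hc1, mul_one]
      · have hLlt : L < H := (lt_of_le_of_ne hLK hLt).trans_le hKH
        obtain ⟨d, hd, hd'⟩ := ih ⁅K, K⁆ ((le_sup_right : ⁅K, K⁆ ≤ L).trans_lt hLlt) c⁻¹ (inv_mem hc)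
        have hprod : a ^ p ^ n * b ^ p ^ n = (a * b) ^ p ^ n * d ^ p ^ n := by
          rw [← hd', he, mul_inv_cancel_right]
        obtain ⟨x, hx, hxe⟩ := ih L hLlt (a ^ p ^ n * b ^ p ^ n) (hprod ▸ mul_mem
          (Subgroup.subset_closure ⟨a * b, (le_sup_left : _ ≤ L) (Subgroup.mem_zpowers _), rfl⟩)
          (Subgroup.subset_closure ⟨d, (le_sup_right : _ ≤ L) hd, rfl⟩))
        exact ⟨x, hLlt.le hx, hxe⟩

/-- `⁅x ^ (p ^ n), y⁆` lies in the power subgroup of the derived group. -/
theorem commutator_pow_mem {p n : ℕ} (hG : GoodExp p n G) {H : Subgroup G} {x y : G} (hx : x ∈ H) (hy : y ∈ H) :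
    ⁅x ^ p ^ n, y⁆ ∈ Cfsg.powerClosure p n ⁅H, H⁆ := by
  obtain ⟨c, hc, he⟩ := hG x (y * x⁻¹ * y⁻¹)
  have h1 : x * (y * x⁻¹ * y⁻¹) = ⁅x, y⁆ := by simp [commutatorElement_def, mul_assoc]
  have h2 : x ^ p ^ n * (y * x⁻¹ * y⁻¹) ^ p ^ n = ⁅x ^ p ^ n, y⁆ := by
    rw [conj_pow, inv_pow]; simp [commutatorElement_def, mul_assoc]
  rw [h1, h2] at he
  have hle : Subgroup.closure ({x, y * x⁻¹ * y⁻¹} : Set G) ≤ H :=
    closure_pair_le hx (H.mul_mem (H.mul_mem hy (H.inv_mem hx)) (H.inv_mem hy))
  rw [show ⁅x ^ p ^ n, y⁆ = ⁅x, y⁆ ^ p ^ n * c⁻¹ by rw [he, mul_inv_cancel_right]]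
  exact mul_mem (Subgroup.subset_closure ⟨_, Subgroup.commutator_mem_commutator hx hy, rfl⟩)
    (inv_mem (powerClosure_mono (Subgroup.commutator_mono hle hle) hc))

theorem goodExp_of_regular {p : ℕ} (h : Cfsg.IsRegularPGroup p G) (n : ℕ) : GoodExp p n G :=
  fun a b => h.2 a b n

/-- In a regular p-group the p^n-th powers of the elements of any subgroup H form a subgroup, whose derived subgroup is contained in the subgroup generated by the p^n-th powers of elements of the derived subgroup of H. -/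
theorem result {G : Type*} [Group G] [Finite G] {p : ℕ} [Fact p.Prime] (hG : Cfsg.IsRegularPGroup p G) (H : Subgroup G) (n : ℕ) : {y : G | ∃ x ∈ H, y = x ^ (p ^ n)} = (Cfsg.powerClosure p n H : Set G) ∧ ⁅Cfsg.powerClosure p n H, Cfsg.powerClosure p n H⁆ ≤ Cfsg.powerClosure p n ⁅H, H⁆ := by
  have hg := goodExp_of_regular hG n
  refine ⟨Set.ext fun y => ⟨fun ⟨x, hx, e⟩ => Subgroup.subset_closure ⟨x, hx, e⟩,
    fun hy => exists_pow_eq hG.1 hg H y hy⟩, ?_⟩
  rw [Subgroup.commutator_le]
  intro u hu v hv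
  obtain ⟨x, hx, rfl⟩ := exists_pow_eq hG.1 hg H u hu
  exact commutator_pow_mem hg hx (powerClosure_le H hv)

end Cfsg.Agent.S0644
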