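import Cfsg.Statements.S0643
import Cfsg.Agent.Eq.Def_PLocal
import Cfsg.Agent.S0644
import Mathlib

set_option autoImplicit false
open Cfsg

namespace Cfsg.Agent.S0643

open scoped commutatorElement
open Cfsg.Agent.S0644

/-- The derived group of a pair lies in any subgroup containing the commutator and normalised by the pair. -/
theorem pair_derived_le {G : Type*} [Group G] {x y : G} {N : Subgroup G} (h : ⁅x, y⁆ ∈ N)
    (hx : x ∈ Subgroup.normalizer (N : Set G)) (hy : y ∈ Subgroup.normalizer (N : Set G)) :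
    ⁅Subgroup.closure ({x, y} : Set G), Subgroup.closure ({x, y} : Set G)⁆ ≤ N := by
  rw [Subgroup.commutator_le]
  have hn : Subgroup.closure ({x, y} : Set G) ≤ Subgroup.normalizer (N : Set G) := closure_pair_le hx hy
  have hconj : ∀ g ∈ Subgroup.closure ({x, y} : Set G), ∀ z ∈ N, g * z * g⁻¹ ∈ N := fun g hg z hz =>
    (Subgroup.mem_normalizer_iff.mp (hn hg) z).mp hz
  intro g hg g' hg'
  induction hg using Subgroup.closure_induction with
  | mem g hg =>
    induction hg' using Subgroup.closure_induction with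
    | mem g' hg' =>
      rcases hg with rfl | rfl <;> rcases hg' with rfl | rfl
      · rw [commutatorElement_self]; exact N.one_mem
      · exact h
      · rw [← commutatorElement_inv]; exact N.inv_mem h
      · rw [commutatorElement_self]; exact N.one_mem
    | one => rw [commutatorElement_one_right]; exact N.one_mem
    | mul v w hv hw ihv ihw =>
      have hr : ⁅g, v * w⁆ = ⁅g, v⁆ * (v * ⁅g, w⁆ * v⁻¹) := by simp [commutatorElement_def, mul_assoc]
      rw [hr]; exact N.mul_mem ihv (hconj v hv _ ihw)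
    | inv v hv ih =>
      have hr : ⁅g, v⁻¹⁆ = v⁻¹ * ⁅g, v⁆⁻¹ * (v⁻¹)⁻¹ := by simp [commutatorElement_def, mul_assoc]
      rw [hr]; exact hconj _ (inv_mem hv) _ (N.inv_mem ih)
  | one => rw [commutatorElement_one_left]; exact N.one_mem
  | mul u v hu hv ihu ihv =>
    have hl : ⁅u * v, g'⁆ = u * ⁅v, g'⁆ * u⁻¹ * ⁅u, g'⁆ := by simp [commutatorElement_def, mul_assoc]
    rw [hl]; exact N.mul_mem (hconj u hu _ ihv) ihu
  | inv u hu ih =>
    have hl : ⁅u⁻¹, g'⁆ = u⁻¹ * ⁅u, g'⁆⁻¹ * (u⁻¹)⁻¹ := by simp [commutatorElement_def, mul_assoc]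
    rw [hl]; exact hconj _ (inv_mem hu) _ (N.inv_mem ih)

/-- Kemhadze's criterion: a finite p-group is regular exactly when (ab)^p = a^p b^p c^p always holds for some c in the derived subgroup of the subgroup generated by a and b. -/
theorem result {G : Type*} [Group G] [Finite G] {p : ℕ} [Fact p.Prime] (hG : IsPGroup p G) : Cfsg.IsRegularPGroup p G ↔ ∀ a b : G, ∃ c ∈ ⁅Subgroup.closure ({a, b} : Set G), Subgroup.closure ({a, b} : Set G)⁆, (a * b) ^ p = a ^ p * b ^ p * c ^ p := by
  constructor
  · intro h a b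
    obtain ⟨c, hc, he⟩ := h.2 a b 1
    obtain ⟨x, hx, rfl⟩ := exists_pow_eq hG (goodExp_of_regular h 1) _ c hc
    exact ⟨x, hx, by simpa using he⟩
  · intro h
    have h1 : GoodExp p 1 G := fun a b => by
      obtain ⟨c, hc, he⟩ := h a b
      exact ⟨c ^ p ^ 1, Subgroup.subset_closure ⟨c, hc, rfl⟩, by simpa using he⟩
    refine ⟨hG, fun a b n => ?_⟩
    induction n generalizing a b with
    | zero => exact ⟨1, Subgroup.one_mem _, by simp⟩
    | succ n ih =>
      set K := Subgroup.closure ({a, b} : Set G) with hK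
      have ha : a ∈ K := Subgroup.subset_closure (by simp)
      have hb : b ∈ K := Subgroup.subset_closure (by simp)
      set N := Cfsg.powerClosure p 1 ⁅K, K⁆ with hN
      have hKN : K ≤ Subgroup.normalizer (N : Set G) := by
        have hc : ∀ g ∈ K, ∀ z ∈ N, g * z * g⁻¹ ∈ N := by
          intro g hg z hz
          obtain ⟨x, hx, rfl⟩ := exists_pow_eq hG h1 _ z hz
          refine Subgroup.subset_closure ⟨g * x * g⁻¹, ?_, conj_pow.symm⟩
          have : g * x * g⁻¹ = ⁅g, x⁆ * x := by simp [commutatorElement_def, mul_assoc]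
          rw [this]
          exact mul_mem (Subgroup.commutator_mem_commutator hg (Subgroup.commutator_le_self K hx)) hx
        intro g hg
        rw [Subgroup.mem_normalizer_iff]
        exact fun z => ⟨hc g hg z, fun hz => by simpa [mul_assoc] using hc g⁻¹ (K.inv_mem hg) _ hz⟩
      -- the power subgroup of `N` is small
      have hpow : ∀ x ∈ N, x ^ p ^ n ∈ Cfsg.powerClosure p (n + 1) ⁅K, K⁆ := by
        intro x hx
        obtain ⟨y, hy, rfl⟩ := exists_pow_eq hG h1 _ x hx
        exact Subgroup.subset_closure ⟨y, hy, by rw [← pow_mul, pow_one, ← pow_succ']⟩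
      have hsmall : Cfsg.powerClosure p n N ≤ Cfsg.powerClosure p (n + 1) ⁅K, K⁆ :=
        (Subgroup.closure_le _).mpr fun _ ⟨x, hx, e⟩ => e ▸ hpow x hx
      obtain ⟨c, hc, he⟩ := h a b
      set u := a ^ p
      set v := b ^ p
      set w := c ^ p
      have hu : u ∈ K := K.pow_mem ha p
      have hv : v ∈ K := K.pow_mem hb p
      have hw : w ∈ N := Subgroup.subset_closure ⟨c, hc, by rw [pow_one]⟩
      have hwK : w ∈ K := K.pow_mem (Subgroup.commutator_le_self K hc) p
      have huv : ⁅u, v⁆ ∈ N := by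
        have := commutator_pow_mem h1 ha hv
        rwa [pow_one] at this
      have huvw : ⁅u * v, w⁆ ∈ N := by
        rw [commutatorElement_def]
        exact N.mul_mem ((Subgroup.mem_normalizer_iff.mp (hKN (K.mul_mem hu hv)) w).mp hw) (N.inv_mem hw)
      obtain ⟨c₁, hc₁, he₁⟩ := ih (u * v) w
      obtain ⟨c₂, hc₂, he₂⟩ := ih u v
      have hc₁' := hsmall (powerClosure_mono (pair_derived_le huvw (hKN (K.mul_mem hu hv)) (hKN hwK)) hc₁)
      have hc₂' := hsmall (powerClosure_mono (pair_derived_le huv (hKN hu) (hKN hv)) hc₂)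
      refine ⟨c₂ * w ^ p ^ n * c₁, mul_mem (mul_mem hc₂' (hpow w hw)) hc₁', ?_⟩
      rw [pow_succ', pow_mul, pow_mul, pow_mul, he, he₁, he₂]
      simp only [mul_assoc, u, v, w]

end Cfsg.Agent.S0643
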