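import Cfsg.Statements.S0645
import Cfsg.Agent.TwoGroup.CyclicNormalPrime
import Cfsg.Agent.PGroup.UniqueOrderP

set_option autoImplicit false
open Cfsg

namespace Cfsg.Agent.S0645

/-- Classification of p-groups with a cyclic maximal subgroup, odd p: a non-abelian one of order p^n has generators a of order p^(n-1) and b of order p, b outside the cyclic subgroup generated by a, with b a b⁻¹ = a^(1 + p^(n-2)). -/
theorem result {G : Type*} [Group G] [Finite G] {p : ℕ} [Fact p.Prime] (hp : p ≠ 2) (n : ℕ) (hn : 3 ≤ n) (hG : Nat.card G = p ^ n) (C : Subgroup G) (hC : IsCyclic C) (hCi : C.index = p) (hna : ∃ x y : G, x * y ≠ y * x) : ∃ a b : G, orderOf a = p ^ (n - 1) ∧ orderOf b = p ∧ b ∉ Subgroup.zpowers a ∧ b * a * b⁻¹ = a ^ (1 + p ^ (n - 2)) := by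
  have hp' : p.Prime := Fact.out
  obtain ⟨m, rfl⟩ : ∃ m, n = m + 3 := ⟨n - 3, by omega⟩
  rw [show m + 3 - 1 = m + 1 + 1 by omega, show m + 3 - 2 = m + 1 by omega]
  have hG2 : IsPGroup p G := IsPGroup.of_card hG
  have hCn : C.Normal := CfsgLib.PGroup.normal_of_coatom hG2 (CfsgLib.PGroup.isCoatom_of_index_eq hCi)
  have hCc : Nat.card C = p ^ (m + 1 + 1) := by
    have := C.card_mul_index
    rw [hCi, hG, show m + 3 = m + 1 + 1 + 1 by omega, pow_succ p (m + 1 + 1)] at this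
    exact Nat.eq_of_mul_eq_mul_right hp'.pos this
  obtain ⟨u₀, hu₀⟩ := hC.exists_generator
  obtain ⟨u, hCu⟩ : ∃ u : G, C = Subgroup.zpowers u :=
    ⟨u₀, le_antisymm (fun a ha => by
      obtain ⟨k, hk⟩ := hu₀ ⟨a, ha⟩
      exact ⟨k, by simpa using congrArg Subtype.val hk⟩) (Subgroup.zpowers_le.2 u₀.2)⟩
  clear hu₀ u₀
  subst hCu
  rw [Nat.card_zpowers] at hCc
  obtain ⟨ψ, hψ, hker⟩ := CfsgLib.TwoGroup.exists_cyclicAction hCc hCn
  have hnc : ¬ IsCyclic G := fun h => by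
    obtain ⟨x, y, hxy⟩ := hna
    exact hxy ((IsCyclic.commGroup (α := G)).mul_comm x y)
  obtain ⟨hE, hEc⟩ := CfsgLib.PGroup.omega_of_cyclic_index hp hG2 hnc _ hC hCi
  obtain ⟨b, hbE, hbC⟩ : ∃ b ∈ Subgroup.closure {x : G | x ^ p = 1}, b ∉ Subgroup.zpowers u := by
    by_contra hcon
    simp only [not_exists, not_and, not_not] at hcon
    haveI : IsCyclic ↥(Subgroup.closure {x : G | x ^ p = 1}) :=
      isCyclic_of_injective (Subgroup.inclusion hcon) (Subgroup.inclusion_injective _)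
    have hd := Monoid.exponent_dvd_of_forall_pow_eq_one (G := ↥(Subgroup.closure {x : G | x ^ p = 1}))
      (n := p) fun a => Subtype.ext (by simpa using hE.2 a a.2)
    rw [IsCyclic.exponent_eq_card, hEc] at hd
    have := Nat.le_of_dvd hp'.pos hd
    nlinarith [hp'.two_le]
  have hbp : b ^ p = 1 := hE.2 b hbE
  have hb1 : ψ b ≠ 1 := by
    intro h
    have hbc : b ∈ Subgroup.centralizer (Subgroup.zpowers u : Set G) := hker ▸ MonoidHom.mem_ker.2 h
    have htop : Subgroup.closure ({u, b} : Set G) = ⊤ := by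
      refine (CfsgLib.PGroup.isCoatom_of_index_eq (P := G) hCi).2 _ (lt_of_le_of_ne ?_ fun he => hbC ?_)
      · exact Subgroup.zpowers_le.2 (Subgroup.subset_closure (Set.mem_insert u _))
      · rw [he]; exact Subgroup.subset_closure (Set.mem_insert_of_mem u rfl)
    have hub : u * b = b * u := Subgroup.mem_centralizer_iff.1 hbc u (Subgroup.mem_zpowers u)
    obtain ⟨x, y, hxy⟩ := hna
    have hcomm := Subgroup.isMulCommutative_closure (k := ({u, b} : Set G)) (by
      rintro a (rfl | rfl) c (rfl | rfl) <;> first | rfl | exact hub | exact hub.symm)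
    exact hxy (congrArg Subtype.val (hcomm.is_comm.comm
      ⟨x, htop ▸ Subgroup.mem_top x⟩ ⟨y, htop ▸ Subgroup.mem_top y⟩))
  obtain ⟨c, hc, ec⟩ := CfsgLib.TwoGroup.exists_mul_pow_of_prime_mul_eq_zero hp'
    (CfsgLib.TwoGroup.prime_mul_sub_one_eq_zero hp' hp (x := (ψ b : ZMod (p ^ (m + 1 + 1))))
      (by rw [← Units.val_pow_eq_pow_val, ← map_pow, hbp, map_one, Units.val_one]))
  have hc0 : ¬ p ∣ c := by
    intro h
    rcases Nat.eq_zero_or_pos c with rfl | hpos
    · exact hb1 (Units.ext (by rw [Units.val_one]; linear_combination (norm := (push_cast; ring)) ec))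
    · exact absurd (Nat.le_of_dvd hpos h) (not_le.2 hc)
  obtain ⟨j, hj⟩ : ∃ j : ℕ, c * j ≡ 1 [MOD p] := by
    obtain ⟨j, -, hj⟩ := Nat.exists_mul_mod_eq_one_of_coprime ((hp'.coprime_iff_not_dvd.2 hc0).symm) hp'.one_lt
    exact ⟨j, by rw [Nat.ModEq, hj, Nat.one_mod_eq_one.2 hp'.one_lt.ne']⟩
  have hj0 : ¬ p ∣ j := by
    intro h
    have := hj.symm.trans (Nat.modEq_zero_iff_dvd.2 (Dvd.dvd.mul_left h c))
    rw [Nat.modEq_zero_iff_dvd, Nat.dvd_one] at this
    exact hp'.one_lt.ne' this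
  refine ⟨u, b ^ j, hCc, ?_, ?_, ?_⟩
  · refine orderOf_eq_prime (by rw [← pow_mul, mul_comm, pow_mul, hbp, one_pow]) fun h => ?_
    have hbo : orderOf b = p := orderOf_eq_prime hbp fun h1 => hbC (h1 ▸ one_mem _)
    exact hj0 (hbo ▸ orderOf_dvd_of_pow_eq_one h)
  · intro h
    obtain ⟨x, hx⟩ := exists_pow_eq_self_of_coprime (n := j) (x := b) (by
      rw [orderOf_eq_prime hbp fun h1 => hbC (h1 ▸ one_mem _)]
      exact (hp'.coprime_iff_not_dvd.2 hj0).symm)
    exact hbC (hx ▸ pow_mem h x)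
  · have hpow : ∀ i : ℕ, (1 + (p : ZMod (p ^ (m + 1 + 1))) ^ (m + 1) * c) ^ i =
        1 + (p : ZMod (p ^ (m + 1 + 1))) ^ (m + 1) * (c * i : ℕ) := by
      have hz : (p : ZMod (p ^ (m + 1 + 1))) ^ (m + 1) * (p : ZMod (p ^ (m + 1 + 1))) ^ (m + 1) = 0 := by
        rw [← pow_add, ← Nat.cast_pow, ZMod.natCast_eq_zero_iff]
        exact pow_dvd_pow p (by omega)
      intro i
      induction i with
      | zero => simp
      | succ i ih =>
        rw [pow_succ _ i, ih]; push_cast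
        linear_combination (c : ZMod (p ^ (m + 1 + 1))) * (c : ZMod (p ^ (m + 1 + 1))) * i * hz
    have hval : (ψ (b ^ j) : ZMod (p ^ (m + 1 + 1))) = ((1 + p ^ (m + 1) : ℕ) : ℤ) := by
      rw [map_pow, Units.val_pow_eq_pow_val, show (ψ b : ZMod (p ^ (m + 1 + 1))) =
        1 + (p : ZMod (p ^ (m + 1 + 1))) ^ (m + 1) * c by linear_combination ec, hpow,
        Int.cast_natCast]
      have h1 : (((p ^ (m + 1)) * (c * j) : ℕ) : ZMod (p ^ (m + 1 + 1))) = ((p ^ (m + 1) * 1 : ℕ) : _) := by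
        rw [ZMod.natCast_eq_natCast_iff, pow_succ p (m + 1)]
        exact hj.mul_left' _
      push_cast at h1 ⊢
      linear_combination h1
    rw [(hψ _ _).1 hval, zpow_natCast]

end Cfsg.Agent.S0645
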