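import Cfsg.Statements.S0646
import Cfsg.Agent.TwoGroup.CyclicIndexTwo
-- import your own Cfsg.Agent.* helpers here

set_option autoImplicit false
open Cfsg

namespace Cfsg.Agent.S0646

/-- Classification of non-abelian 2-groups with a cyclic maximal subgroup: dihedral, generalized quaternion, and for order at least 16 the modular group and the semidihedral group, each given by generators a (of index 2) and b with the stated relations. -/
theorem result {G : Type*} [Group G] [Finite G] (n : ℕ) (hn : 3 ≤ n) (hG : Nat.card G = 2 ^ n) (C : Subgroup G) (hC : IsCyclic C) (hCi : C.index = 2) (hna : ∃ x y : G, x * y ≠ y * x) : ∃ a b : G, orderOf a = 2 ^ (n - 1) ∧ b ∉ Subgroup.zpowers a ∧ ((b ^ 2 = 1 ∧ b * a * b⁻¹ = a⁻¹) ∨ (b ^ 2 = a ^ (2 ^ (n - 2)) ∧ b * a * b⁻¹ = a⁻¹) ∨ (4 ≤ n ∧ b ^ 2 = 1 ∧ b * a * b⁻¹ = a ^ (1 + 2 ^ (n - 2))) ∨ (4 ≤ n ∧ b ^ 2 = 1 ∧ b * a * b⁻¹ = a ^ (2 ^ (n - 2) - 1))) := by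
  obtain ⟨g, hg⟩ := IsCyclic.exists_generator (α := C)
  have hgo : orderOf (g : G) = 2 ^ (n - 1) := by
    rw [Subgroup.orderOf_coe, orderOf_eq_card_of_forall_mem_zpowers hg]
    have h := C.card_mul_index
    rw [hCi, hG, show 2 ^ n = 2 ^ (n - 1) * 2 by rw [← pow_succ, Nat.sub_add_cancel (by omega)]] at h
    exact Nat.eq_of_mul_eq_mul_right two_pos h
  have hnc : ¬ IsMulCommutative G := fun h => by
    obtain ⟨x, y, hxy⟩ := hna
    exact hxy (mul_comm' x y)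
  obtain ⟨hn2, r, s, F, -, hrs⟩ := CfsgLib.TwoGroup.classify_cyclic_index_two (n := n - 1) (g : G)
    hgo (by rw [hG, Nat.sub_add_cancel (by omega)]) hnc
  have hb : F.y ∉ Subgroup.zpowers (F.e 1) := by
    rw [← F.rot_eq_zpowers]; exact F.y_notMem_rot
  have hconj : F.y * F.e 1 * F.y⁻¹ = F.e r := by rw [mul_inv_eq_iff_eq_mul, F.conj_y, mul_one]
  have hsq : F.y ^ 2 = F.e s := by rw [pow_two, F.y_sq]
  have hpow : ∀ k : ℕ, F.e 1 ^ k = F.e (k : ZMod (2 ^ (n - 1))) := fun k => by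
    rw [← F.map_nsmul, mul_one]
  have hhalf : F.e 1 ^ (2 ^ (n - 2)) = F.e (CfsgLib.TwoGroup.half (n - 1)) := by
    rw [hpow, CfsgLib.TwoGroup.half, show n - 1 - 1 = n - 2 by omega]; push_cast; rfl
  refine ⟨F.e 1, F.y, F.orderOf_e_one, hb, ?_⟩
  rcases hrs with ⟨hr, hs⟩ | ⟨hr, hs⟩ | ⟨h3, hr, hs⟩ | ⟨h3, hr, hs⟩
  · exact Or.inl ⟨by rw [hsq, congrArg F.e hs, F.map_zero], by rw [hconj, congrArg F.e hr, F.map_neg]⟩
  · exact Or.inr (Or.inl ⟨by rw [hsq, congrArg F.e hs, hhalf], by rw [hconj, congrArg F.e hr, F.map_neg]⟩)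
  · refine Or.inr (Or.inr (Or.inr ⟨by omega, by rw [hsq, congrArg F.e hs, F.map_zero], ?_⟩))
    rw [hconj, congrArg F.e hr, hpow, Nat.cast_sub Nat.one_le_two_pow]
    congr 1
    rw [CfsgLib.TwoGroup.half, show n - 1 - 1 = n - 2 by omega]; push_cast; ring
  · refine Or.inr (Or.inr (Or.inl ⟨by omega, by rw [hsq, congrArg F.e hs, F.map_zero], ?_⟩))
    rw [hconj, congrArg F.e hr, hpow]
    congr 1
    rw [CfsgLib.TwoGroup.half, show n - 1 - 1 = n - 2 by omega]; push_cast; rfl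

end Cfsg.Agent.S0646
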