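import Cfsg.Statements.S0656
import Cfsg.Agent.QdSection.Stability
import Cfsg.Agent.Eq.Def_PLocal

set_option autoImplicit false
open Cfsg

namespace Cfsg.Agent.S0656


/-- For odd p, a faithful group on an elementary abelian p-group with no nontrivial normal p-subgroup in which some nontrivial p-element acts quadratically has a section isomorphic to SL(2, p). -/
theorem result {G : Type*} [Group G] [Finite G] {p : ℕ} [Fact p.Prime] (hp : p ≠ 2) (V H : Subgroup G) (hV : Cfsg.IsElementaryAbelian p V) (hHV : H ≤ Subgroup.normalizer (V : Set G)) (hf : H ⊓ Subgroup.centralizer (V : Set G) = ⊥) (hO : Cfsg.pCore p ↥H = ⊥) (x : G) (hxH : x ∈ H) (hx1 : x ≠ 1) (hxp : ∃ k : ℕ, orderOf x = p ^ k) (hq : ⁅⁅V, Subgroup.zpowers x⁆, Subgroup.zpowers x⁆ = ⊥) : ∃ (K L : Subgroup G) (hL : (L.subgroupOf K).Normal), K ≤ H ∧ Nonempty ((K ⧸ L.subgroupOf K) ≃* Matrix.SpecialLinearGroup (Fin 2) (ZMod p)) := by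
  have hquad := CfsgLib.QdSection.commutator_eq_one_of_zpowers hq
  by_contra hno
  -- all conjugate pairs generate `p`-groups
  have hmem : (⟨x, hxH⟩ : H) ∈ Cfsg.pCore p H := by
    refine CfsgLib.BaerSuzuki.mem_pCore _ fun g => ?_
    by_contra hnp
    obtain ⟨s⟩ : Nonempty (CfsgLib.QdSection.ConjSection p V H) := by
      refine CfsgLib.QdSection.exists_conjSection hp V H hV hHV (a := x) (b := (g : G) * x * (g : G)⁻¹) hxH
        (mul_mem (mul_mem g.2 hxH) (inv_mem g.2)) hquad
        (CfsgLib.QdSection.conj_quadratic_mem (hHV g.2) hquad) fun hall => hnp ?_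
      intro t
      have ht : ((t : H) : G) ∈ Subgroup.closure ({x, (g : G) * x * (g : G)⁻¹} : Set G) := by
        have h1 : ((t : H) : G) ∈ (Subgroup.closure ({(⟨x, hxH⟩ : H), g * ⟨x, hxH⟩ * g⁻¹} : Set H)).map
            H.subtype := ⟨t, t.2, rfl⟩
        rw [MonoidHom.map_closure, Set.image_pair] at h1
        exact h1
      obtain ⟨k, hk⟩ := hall _ ht
      refine ⟨k, Subtype.ext (Subtype.ext ?_)⟩
      have h2 : ((t : H) : G) ^ p ^ k ∈ H ⊓ Subgroup.centralizer (V : Set G) :=
        ⟨pow_mem (t : H).2 _, hk⟩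
      rw [hf, Subgroup.mem_bot] at h2
      simpa using h2
    exact hno s.sl_two_section
  rw [hO, Subgroup.mem_bot] at hmem
  exact hx1 (congrArg Subtype.val hmem)

end Cfsg.Agent.S0656
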