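import Cfsg.Statements.S0657
import Cfsg.Agent.QdSection.Stability
import Cfsg.Agent.Eq.Def_Local

set_option autoImplicit false
open Cfsg

namespace Cfsg.Agent.S0657


/-- For odd p, a group that fails to be p-stable modulo its largest normal subgroup of order prime to p, and whose upper p-series does not stop there, has a section isomorphic to SL(2, p). -/
theorem result {G : Type*} [Group G] [Finite G] {p : ℕ} [Fact p.Prime] (hp : p ≠ 2) (hO : Cfsg.pPrimeCore p G < Cfsg.pPrimePCore p G) (hns : ¬ Cfsg.IsPStable p (G ⧸ Cfsg.pPrimeCore p G)) : ∃ (K L : Subgroup G) (hL : (L.subgroupOf K).Normal), K ≤ ⊤ ∧ Nonempty ((K ⧸ L.subgroupOf K) ≃* Matrix.SpecialLinearGroup (Fin 2) (ZMod p)) := by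
  suffices h : Cfsg.Involves (Cfsg.qd p) G by
    obtain ⟨K, L, hL, he⟩ := CfsgLib.QdSection.sl_two_section_of_involves_qd h
    exact ⟨K, L, hL, le_top, he⟩
  refine CfsgLib.QdSection.involves_of_surjective (QuotientGroup.mk' (Cfsg.pPrimeCore p G))
    (QuotientGroup.mk'_surjective _) ?_
  by_contra hfree
  refine hns ⟨(Fact.out : p.Prime).odd_of_ne_two hp, ?_, fun A P hA hP hnorm _ _ hq => ?_⟩
  · intro h
    refine hO.ne ?_
    rw [Cfsg.pPrimePCore, h, MonoidHom.comap_bot, QuotientGroup.ker_mk']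
  · rintro _ ⟨⟨a, haN⟩, haA, rfl⟩
    have haA' : a ∈ A := haA
    refine CfsgLib.QdSection.isNormalizerPStable_of_qdFree hp hfree P hP a haN (eq_bot_iff.mpr ?_)
    rw [← hq]
    exact Subgroup.commutator_mono (Subgroup.commutator_mono le_rfl (Subgroup.zpowers_le.mpr haA'))
      (Subgroup.zpowers_le.mpr haA')

end Cfsg.Agent.S0657
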