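import Cfsg.Statements.S0660
-- import your own Cfsg.Agent.* helpers here

set_option autoImplicit false
open Cfsg

namespace Cfsg.Agent.S0660

/-- Under a coprime action on an abelian group, an invariant subgroup that is complemented admits an invariant complement. -/
theorem result {G : Type*} [Group G] [Finite G] (V A U : Subgroup G) (hVab : IsMulCommutative V) (hAV : A ≤ Subgroup.normalizer (V : Set G)) (hcop : (Nat.card A).Coprime (Nat.card V)) (hUV : U ≤ V) (hAU : A ≤ Subgroup.normalizer (U : Set G)) (W : Subgroup G) (hWV : W ≤ V) (hUW : U ⊓ W = ⊥) (hUWV : U ⊔ W = V) : ∃ W' : Subgroup G, W' ≤ V ∧ A ≤ Subgroup.normalizer (W' : Set G) ∧ U ⊓ W' = ⊥ ∧ U ⊔ W' = V := by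
  classical
  letI : CommGroup V := { (inferInstance : Group V) with mul_comm := hVab.is_comm.comm }
  haveI := Fintype.ofFinite A
  -- the projection onto `U` along `W`
  have hdec : ∀ v : V, ∃ u ∈ U, ∃ w ∈ W, (v : G) = u * w := by
    intro v
    have hv : (v : G) ∈ ((U ⊔ W : Subgroup G) : Set G) := by rw [hUWV]; exact v.2
    rw [Subgroup.coe_mul_of_right_le_normalizer_left U W ?_] at hv
    · obtain ⟨u, hu, w, hw, e⟩ := hv
      exact ⟨u, hu, w, hw, e.symm⟩
    · intro w hw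
      refine Subgroup.centralizer_le_normalizer _ (Subgroup.mem_centralizer_iff.2 fun u hu => ?_)
      exact congrArg Subtype.val (hVab.is_comm.comm ⟨u, hUV hu⟩ ⟨w, hWV hw⟩)
  choose f hf g hg hfg using hdec
  have hcm : ∀ x ∈ V, ∀ y ∈ V, x * y = y * x := fun x hx y hy =>
    congrArg Subtype.val (hVab.is_comm.comm ⟨x, hx⟩ ⟨y, hy⟩)
  have huniq : ∀ (v : V) (u : G), u ∈ U → u⁻¹ * v ∈ W → f v = u := by
    intro v u hu hw
    have h1 : (f v)⁻¹ * u ∈ U ⊓ W := by
      refine Subgroup.mem_inf.2 ⟨mul_mem (inv_mem (hf v)) hu, ?_⟩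
      have h2 : (f v)⁻¹ * u = g v * (u⁻¹ * v)⁻¹ := by rw [hfg v]; group
      rw [h2]
      exact mul_mem (hg v) (inv_mem hw)
    rw [hUW, Subgroup.mem_bot, inv_mul_eq_one] at h1
    exact h1
  let π : V →* V := MonoidHom.mk' (fun v => ⟨f v, hUV (hf v)⟩) (fun x y => Subtype.ext (by
    refine huniq _ _ (mul_mem (hf x) (hf y)) ?_
    have h2 : (f x * f y)⁻¹ * ((x * y : V) : G) = g x * g y := by
      rw [Subgroup.coe_mul, hfg x, hfg y]
      calc (f x * f y)⁻¹ * (f x * g x * (f y * g y)) = (f y)⁻¹ * (g x * f y) * g y := by group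
        _ = (f y)⁻¹ * (f y * g x) * g y := by rw [hcm _ (hWV (hg x)) _ (hUV (hf y))]
        _ = g x * g y := by group
    show (f x * f y)⁻¹ * ((x * y : V) : G) ∈ W
    rw [h2]
    exact mul_mem (hg x) (hg y)))
  have hπU : ∀ v : V, (v : G) ∈ U → π v = v := fun v hv => Subtype.ext (huniq v v hv (by simp))
  let c : A →* MulAut V := V.normalizerMonoidHom.comp (Subgroup.inclusion hAV)
  have hc : ∀ (a : A) (v : V), ((c a v : V) : G) = (a : G) * v * (a : G)⁻¹ := fun _ _ => rfl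
  let N : V →* V := ∏ a : A, (c a).toMonoidHom.comp (π.comp (c a⁻¹).toMonoidHom)
  have hN : ∀ v, N v = ∏ a : A, c a (π (c a⁻¹ v)) := fun v => by simp [N, MonoidHom.finsetProd_apply]
  have hNinv : ∀ (b : A) (v : V), N (c b v) = c b (N v) := by
    intro b v
    rw [hN, hN, map_prod, ← Equiv.prod_comp (Equiv.mulLeft b)]
    refine Finset.prod_congr rfl fun a _ => ?_
    rw [Equiv.coe_mulLeft, map_mul c b a, MulAut.mul_apply, mul_inv_rev, map_mul c, MulAut.mul_apply,
      map_inv c b, MulAut.inv_apply_self]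
  have hNU : ∀ v, ((N v : V) : G) ∈ U := by
    intro v
    show N v ∈ U.subgroupOf V
    rw [hN]
    exact Subgroup.prod_mem _ fun a _ => (Subgroup.mem_normalizer_iff.1 (hAU a.2) _).1 (hf _)
  have hNfix : ∀ v : V, (v : G) ∈ U → N v = v ^ Nat.card A := by
    intro v hv
    rw [hN, Finset.prod_congr rfl fun a _ => ?_, Finset.prod_const, Finset.card_univ, Nat.card_eq_fintype_card]
    rw [hπU _ ((Subgroup.mem_normalizer_iff.1 (hAU (inv_mem a.2)) _).1 hv), ← MulAut.mul_apply, ← map_mul,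
      mul_inv_cancel, map_one, MulAut.one_apply]
  refine ⟨N.ker.map V.subtype, Subgroup.map_subtype_le _, ?_, ?_, ?_⟩
  · intro a ha
    rw [Subgroup.mem_normalizer_iff_map_conj_eq]
    refine Subgroup.eq_of_le_of_card_ge ?_ (Subgroup.card_map_of_injective (MulAut.conj a).injective).ge
    rintro _ ⟨_, ⟨v, hv, rfl⟩, rfl⟩
    refine ⟨c ⟨a, ha⟩ v, MonoidHom.mem_ker.2 ?_, hc _ _⟩
    rw [hNinv, MonoidHom.mem_ker.1 hv, map_one]
  · rw [eq_bot_iff]
    rintro _ ⟨hu, v, hv, rfl⟩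
    have h1 := hNfix v hu
    rw [MonoidHom.mem_ker.1 hv] at h1
    have h2 : v = 1 := orderOf_eq_one_iff.1 (Nat.eq_one_of_dvd_coprimes hcop
      (orderOf_dvd_of_pow_eq_one h1.symm) (orderOf_dvd_natCard v))
    rw [h2]
    exact Subgroup.mem_bot.2 rfl
  · refine le_antisymm (sup_le hUV (Subgroup.map_subtype_le _)) fun v hv => ?_
    obtain ⟨k, hk⟩ := exists_pow_eq_self_of_coprime (n := Nat.card A)
      (x := N ⟨v, hv⟩) (hcop.coprime_dvd_right (orderOf_dvd_natCard _))
    rw [← pow_mul, mul_comm, pow_mul] at hk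
    set w : V := N ⟨v, hv⟩ ^ k with hw
    have hwU : (w : G) ∈ U := by rw [hw, SubmonoidClass.coe_pow]; exact pow_mem (hNU _) k
    have hker : w⁻¹ * ⟨v, hv⟩ ∈ N.ker := by
      rw [MonoidHom.mem_ker, map_mul, map_inv, hNfix w hwU, hk, inv_mul_cancel]
    have hm : ((w⁻¹ * ⟨v, hv⟩ : V) : G) ∈ N.ker.map V.subtype := Subgroup.mem_map_of_mem V.subtype hker
    have := Subgroup.mul_mem_sup hwU hm
    rwa [Subgroup.coe_mul, Subgroup.coe_inv, mul_inv_cancel_left] at this

end Cfsg.Agent.S0660
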