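import Cfsg.Statements.S0663
import Cfsg.Agent.Eq.Def_PLocal
import Cfsg.Agent.S0599
import Mathlib

set_option autoImplicit false
open Cfsg

namespace Cfsg.Agent.S0663

open scoped commutatorElement

variable {L : Type*} [Group L]

theorem iter_mono (N : Subgroup L) {A B : Subgroup L} (h : A ≤ B) :
    ∀ i, Cfsg.iterCommutator N A i ≤ Cfsg.iterCommutator N B i
  | 0 => le_rfl
  | i + 1 => Subgroup.commutator_mono (iter_mono N h i) h

theorem iter_le {N A : Subgroup L} (h : A ≤ Subgroup.normalizer (N : Set L)) :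
    ∀ i, Cfsg.iterCommutator N A i ≤ N
  | 0 => le_rfl
  | i + 1 => (Subgroup.commutator_mono (iter_le h i) le_rfl).trans
      (Subgroup.le_normalizer_iff_commutator_le_left.mp h)

theorem iter_normalized {N A : Subgroup L} (h : A ≤ Subgroup.normalizer (N : Set L)) :
    ∀ i, A ≤ Subgroup.normalizer (Cfsg.iterCommutator N A i : Set L)
  | 0 => h
  | i + 1 => by
    have ih := iter_normalized h i
    have hc : ∀ a ∈ A, ∀ x ∈ ⁅Cfsg.iterCommutator N A i, A⁆, a * x * a⁻¹ ∈ ⁅Cfsg.iterCommutator N A i, A⁆ := by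
      intro a ha
      have hle : ⁅Cfsg.iterCommutator N A i, A⁆ ≤
          (⁅Cfsg.iterCommutator N A i, A⁆).comap (MulAut.conj a).toMonoidHom := by
        rw [Subgroup.commutator_le]
        intro x hx y hy
        rw [Subgroup.mem_comap]
        show a * ⁅x, y⁆ * a⁻¹ ∈ _
        rw [show a * ⁅x, y⁆ * a⁻¹ = ⁅a * x * a⁻¹, a * y * a⁻¹⁆ by simp [commutatorElement_def, mul_assoc]]
        exact Subgroup.commutator_mem_commutator ((Subgroup.mem_normalizer_iff.mp (ih ha) x).mp hx)
          (A.mul_mem (A.mul_mem ha hy) (A.inv_mem ha))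
      exact fun x hx => hle hx
    intro a ha
    rw [Subgroup.mem_normalizer_iff]
    intro x
    show x ∈ ⁅Cfsg.iterCommutator N A i, A⁆ ↔ a * x * a⁻¹ ∈ ⁅Cfsg.iterCommutator N A i, A⁆
    exact ⟨hc a ha x, fun hx => by simpa [mul_assoc] using hc a⁻¹ (A.inv_mem ha) _ hx⟩

/-- In a `p`-group, `⁅H, A⁆` has index at least `p` in `H`. -/
theorem card_mul_le [Finite L] {p : ℕ} [hp : Fact p.Prime] {P H A : Subgroup L} (hP : IsPGroup p P)
    (hHP : H ≤ P) (hAP : A ≤ P) (hn : A ≤ Subgroup.normalizer (H : Set L)) (hne : H ≠ ⊥) :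
    Nat.card ↥⁅H, A⁆ * p ≤ Nat.card H := by
  have hle : ⁅H, A⁆ ≤ H := Subgroup.le_normalizer_iff_commutator_le_left.mp hn
  have hlt : ⁅H, A⁆ ≠ H := fun h => hne (Cfsg.Agent.S0599.eq_bot_of_le_commutator hP hHP
    (h.ge.trans (Subgroup.commutator_mono le_rfl hAP)))
  obtain ⟨a, ha⟩ := IsPGroup.iff_card.mp (hP.to_le (hle.trans hHP))
  obtain ⟨b, hb⟩ := IsPGroup.iff_card.mp (hP.to_le hHP)
  have h1 : Nat.card ↥⁅H, A⁆ < Nat.card H :=
    lt_of_le_of_ne (Subgroup.card_le_of_le hle) fun h => hlt (Subgroup.eq_of_le_of_card_ge hle h.ge)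
  rw [ha, hb] at h1 ⊢
  rw [← pow_succ]
  exact Nat.pow_le_pow_right hp.out.pos ((Nat.pow_lt_pow_iff_right hp.out.one_lt).mp h1)

theorem card_iter_le [Finite L] {p : ℕ} [hp : Fact p.Prime] {P N A : Subgroup L} (hP : IsPGroup p P)
    (hNP : N ≤ P) (hAP : A ≤ P) (hn : A ≤ Subgroup.normalizer (N : Set L)) {n : ℕ} (hN : Nat.card N = p ^ n) :
    ∀ i, Cfsg.iterCommutator N A i = ⊥ ∨ (i < n ∨ i = 0) ∧ Nat.card ↥(Cfsg.iterCommutator N A i) ≤ p ^ (n - i) := by
  intro i
  induction i with
  | zero => exact Or.inr ⟨Or.inr rfl, hN.le⟩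
  | succ i ih =>
    by_cases h0 : Cfsg.iterCommutator N A (i + 1) = ⊥
    · exact Or.inl h0
    have hne : Cfsg.iterCommutator N A i ≠ ⊥ := fun h => h0 (by
      show ⁅Cfsg.iterCommutator N A i, A⁆ = ⊥
      rw [h, Subgroup.commutator_bot_left])
    obtain ⟨-, hcard⟩ := ih.resolve_left hne
    have h1 : Nat.card ↥(Cfsg.iterCommutator N A (i + 1)) * p ≤ p ^ (n - i) :=
      (card_mul_le hP ((iter_le hn i).trans hNP) hAP (iter_normalized hn i) hne).trans hcard
    have h2 : 1 < Nat.card ↥(Cfsg.iterCommutator N A (i + 1)) :=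
      (Subgroup.one_lt_card_iff_ne_bot _).mpr h0
    have h3 : i + 1 < n := by
      by_contra hge
      have : p ^ (n - i) ≤ p := by
        calc p ^ (n - i) ≤ p ^ 1 := Nat.pow_le_pow_right hp.out.pos (by omega)
          _ = p := pow_one p
      have h4 := h1.trans this
      have := Nat.le_of_mul_le_mul_right (le_of_le_of_eq h4 (one_mul p).symm) hp.out.pos
      omega
    refine Or.inr ⟨Or.inl h3, ?_⟩
    rw [show n - i = n - (i + 1) + 1 by omega, pow_succ] at h1
    exact Nat.le_of_mul_le_mul_right h1 hp.out.pos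

/-- A p-group acts uniserially on a p-group N of order p^n exactly when the iterated commutator chain from N has length n; in that case the chain terms are all the invariant subgroups of N and they are normal in N. -/
theorem result {L : Type*} [Group L] [Finite L] {p : ℕ} [Fact p.Prime] (N G : Subgroup L) (hN : IsPGroup p N) (hG : IsPGroup p G) (hGN : G ≤ Subgroup.normalizer (N : Set L)) (n : ℕ) (hn : Nat.card N = p ^ n) : ((∀ H : Subgroup L, H ≤ N → G ≤ Subgroup.normalizer (H : Set L) → H ≠ ⊥ → (⁅H, G⁆).relIndex H = p) ↔ Cfsg.iterCommutator N G (n - 1) ≠ ⊥ ∨ n = 0) ∧ ((∀ H : Subgroup L, H ≤ N → G ≤ Subgroup.normalizer (H : Set L) → H ≠ ⊥ → (⁅H, G⁆).relIndex H = p) → ∀ H : Subgroup L, H ≤ N → G ≤ Subgroup.normalizer (H : Set L) → (∃ i ≤ n, H = Cfsg.iterCommutator N G i) ∧ N ≤ Subgroup.normalizer (H : Set L)) := by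
  have hp : p.Prime := Fact.out
  set P := N ⊔ G with hPdef
  have hP : IsPGroup p P := by
    have := hG.to_sup_of_normal_right' hN hGN
    rwa [sup_comm] at this
  have hNP : N ≤ P := le_sup_left
  have hGP : G ≤ P := le_sup_right
  have hPN : P ≤ Subgroup.normalizer (N : Set L) := sup_le Subgroup.le_normalizer hGN
  -- orders when every step has index `p`
  have huni : (∀ H : Subgroup L, H ≤ N → G ≤ Subgroup.normalizer (H : Set L) → H ≠ ⊥ → (⁅H, G⁆).relIndex H = p) →
      ∀ i, i ≤ n → Nat.card ↥(Cfsg.iterCommutator N G i) = p ^ (n - i) := by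
    intro hu i
    induction i with
    | zero => intro _; exact hn
    | succ i ih =>
      intro hi
      have hc := ih (by omega)
      have hne : Cfsg.iterCommutator N G i ≠ ⊥ := by
        intro h
        rw [h, Subgroup.card_bot] at hc
        exact absurd hc (Nat.one_lt_pow (by omega) hp.one_lt).ne
      have h1 := hu _ (iter_le hGN i) (iter_normalized hGN i) hne
      have h2 := Subgroup.relIndex_mul_relIndex ⊥ ⁅Cfsg.iterCommutator N G i, G⁆ (Cfsg.iterCommutator N G i) bot_le
        (Subgroup.le_normalizer_iff_commutator_le_left.mp (iter_normalized hGN i))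
      rw [Subgroup.relIndex_bot_left, Subgroup.relIndex_bot_left, h1, hc,
        show n - i = n - (i + 1) + 1 by omega, pow_succ] at h2
      exact Nat.eq_of_mul_eq_mul_right hp.pos h2
  -- consequences of a long chain
  have hlong : Cfsg.iterCommutator N G (n - 1) ≠ ⊥ ∨ n = 0 →
      (∀ i, i ≤ n → Nat.card ↥(Cfsg.iterCommutator N G i) = p ^ (n - i) ∧
        Cfsg.iterCommutator N P i = Cfsg.iterCommutator N G i) := by
    intro hch i hi
    have hub : ∀ j, Nat.card ↥(Cfsg.iterCommutator N P j) ≤ p ^ (n - j) := fun j => by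
      rcases card_iter_le hP hNP le_rfl hPN hn j with h | ⟨-, h⟩
      · rw [h, Subgroup.card_bot]; exact Nat.one_le_pow _ _ hp.pos
      · exact h
    have hlb : ∀ d, d ≤ n → p ^ d ≤ Nat.card ↥(Cfsg.iterCommutator N G (n - d)) := by
      intro d
      induction d with
      | zero => intro _; rw [pow_zero]; exact Nat.card_pos
      | succ d ih =>
        intro hd
        have hch' := hch.resolve_right (by omega)
        have hne : Cfsg.iterCommutator N G (n - (d + 1)) ≠ ⊥ := by
          intro h0
          have hdown : ∀ e, Cfsg.iterCommutator N G (n - (d + 1) + e) = ⊥ := by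
            intro e
            induction e with
            | zero => exact h0
            | succ e ihe =>
              show ⁅Cfsg.iterCommutator N G (n - (d + 1) + e), G⁆ = ⊥
              rw [ihe, Subgroup.commutator_bot_left]
          have := hdown d
          rw [show n - (d + 1) + d = n - 1 by omega] at this
          exact hch' this
        have h1 := card_mul_le hP ((iter_le hGN _).trans hNP) hGP (iter_normalized hGN _) hne
        have h2 : ⁅Cfsg.iterCommutator N G (n - (d + 1)), G⁆ = Cfsg.iterCommutator N G (n - d) := by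
          show Cfsg.iterCommutator N G (n - (d + 1) + 1) = _
          congr 1; omega
        rw [h2] at h1
        rw [pow_succ]
        exact (Nat.mul_le_mul_right p (ih (by omega))).trans h1
    have h1 : p ^ (n - i) ≤ Nat.card ↥(Cfsg.iterCommutator N G i) := by
      have := hlb (n - i) (by omega)
      rwa [show n - (n - i) = i by omega] at this
    have h2 := iter_mono N hGP i
    have h3 := Subgroup.eq_of_le_of_card_ge h2 ((hub i).trans h1)
    exact ⟨le_antisymm (h3 ▸ hub i) h1, h3.symm⟩
  -- invariant subgroups are terms of the chain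
  have hclass : Cfsg.iterCommutator N G (n - 1) ≠ ⊥ ∨ n = 0 → ∀ H : Subgroup L, H ≤ N →
      G ≤ Subgroup.normalizer (H : Set L) → ∃ i ≤ n, H = Cfsg.iterCommutator N G i := by
    intro hch H hHN hGH
    have hfact := hlong hch
    have hbot : Cfsg.iterCommutator N G n = ⊥ := Subgroup.card_eq_one.mp (by
      rw [(hfact n le_rfl).1, Nat.sub_self, pow_zero])
    by_cases hH : H = ⊥
    · exact ⟨n, le_rfl, hH.trans hbot.symm⟩
    classical
    have hex : ∃ i, i ≤ n ∧ ¬ H ≤ Cfsg.iterCommutator N G i :=
      ⟨n, le_rfl, fun h => hH (le_bot_iff.mp (hbot ▸ h))⟩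
    obtain ⟨hi, hnot⟩ := Nat.find_spec hex
    obtain ⟨i, hi'⟩ : ∃ i, Nat.find hex = i + 1 := by
      refine ⟨Nat.find hex - 1, ?_⟩
      have : Nat.find hex ≠ 0 := fun h => hnot (h ▸ hHN)
      omega
    rw [hi'] at hi hnot
    have hHi : H ≤ Cfsg.iterCommutator N G i := by
      by_contra h
      exact Nat.find_min hex (show i < Nat.find hex by omega) ⟨by omega, h⟩
    refine ⟨i, by omega, le_antisymm hHi ?_⟩
    -- `[N_j, N]` lies one step lower
    have hNj : ∀ j, j + 1 ≤ n → ⁅Cfsg.iterCommutator N G j, N⁆ ≤ Cfsg.iterCommutator N G (j + 1) := fun j hj => by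
      rw [← (hfact j (by omega)).2, ← (hfact (j + 1) hj).2]
      exact Subgroup.commutator_mono le_rfl hNP
    have hnorm : ∀ j, j + 1 ≤ n → ∀ u ∈ H ⊔ Cfsg.iterCommutator N G j, ∀ w ∈ H ⊔ Cfsg.iterCommutator N G (j + 1),
        u * w * u⁻¹ ∈ H ⊔ Cfsg.iterCommutator N G (j + 1) := by
      intro j hj u hu w hw
      set X := H ⊔ Cfsg.iterCommutator N G (j + 1)
      have hXN : X ≤ N := sup_le hHN (iter_le hGN _)
      have hle : H ⊔ Cfsg.iterCommutator N G j ≤ Subgroup.normalizer (X : Set L) := by
        refine sup_le ((le_sup_left : H ≤ X).trans Subgroup.le_normalizer) ?_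
        intro x hx
        have hc : ∀ y ∈ Cfsg.iterCommutator N G j, ∀ v ∈ X, y * v * y⁻¹ ∈ X := by
          intro y hy v hv
          have : y * v * y⁻¹ = ⁅y, v⁆ * v := by simp [commutatorElement_def, mul_assoc]
          rw [this]
          exact X.mul_mem ((le_sup_right : _ ≤ X) (hNj j hj (Subgroup.commutator_mem_commutator hy (hXN hv)))) hv
        rw [Subgroup.mem_normalizer_iff]
        exact fun v => ⟨hc x hx v, fun hv => by simpa [mul_assoc] using hc x⁻¹ (inv_mem hx) _ hv⟩
      exact (Subgroup.mem_normalizer_iff.mp (hle hu) w).mp hw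
    have hcomm : ∀ j, j + 1 ≤ n → ⁅H ⊔ Cfsg.iterCommutator N G j, G⁆ ≤ H ⊔ Cfsg.iterCommutator N G (j + 1) := by
      intro j hj
      rw [Subgroup.commutator_le]
      intro u hu g hg
      rw [Subgroup.sup_eq_closure] at hu
      induction hu using Subgroup.closure_induction with
      | mem u hu =>
        rcases hu with hu | hu
        · exact (le_sup_left : H ≤ _) (Subgroup.le_normalizer_iff_commutator_le_left.mp hGH
            (Subgroup.commutator_mem_commutator hu hg))
        · exact (le_sup_right : _ ≤ H ⊔ Cfsg.iterCommutator N G (j + 1))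
            (Subgroup.commutator_mem_commutator hu hg)
      | one => rw [commutatorElement_one_left]; exact one_mem _
      | mul u v hu hv ihu ihv =>
        rw [← Subgroup.sup_eq_closure] at hu
        rw [show ⁅u * v, g⁆ = u * ⁅v, g⁆ * u⁻¹ * ⁅u, g⁆ by simp [commutatorElement_def, mul_assoc]]
        exact mul_mem (hnorm j hj u hu _ ihv) ihu
      | inv u hu ih =>
        rw [← Subgroup.sup_eq_closure] at hu
        rw [show ⁅u⁻¹, g⁆ = u⁻¹ * ⁅u, g⁆⁻¹ * (u⁻¹)⁻¹ by simp [commutatorElement_def, mul_assoc]]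
        exact hnorm j hj _ (inv_mem hu) _ (inv_mem ih)
    have hstep : ∀ e, i + e + 1 ≤ n →
        Cfsg.iterCommutator N G (i + e) ≤ H ⊔ Cfsg.iterCommutator N G (i + e + 1) := by
      intro e
      induction e with
      | zero =>
        intro he
        obtain ⟨c, hc⟩ := IsPGroup.iff_card.mp (hN.to_le (sup_le hHN (iter_le hGN (i + 1))))
        have hXle : H ⊔ Cfsg.iterCommutator N G (i + 1) ≤ Cfsg.iterCommutator N G i :=
          sup_le hHi (Subgroup.le_normalizer_iff_commutator_le_left.mp (iter_normalized hGN i))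
        have h1 : Nat.card ↥(Cfsg.iterCommutator N G (i + 1)) <
            Nat.card ↥(H ⊔ Cfsg.iterCommutator N G (i + 1)) := by
          refine lt_of_le_of_ne (Subgroup.card_le_of_le le_sup_right) fun h => hnot ?_
          rw [Subgroup.eq_of_le_of_card_ge le_sup_right h.ge]
          exact le_sup_left
        rw [(hfact (i + 1) he).1, hc] at h1
        refine (Subgroup.eq_of_le_of_card_ge hXle ?_).ge
        rw [hc, (hfact i (by omega)).1]
        have := (Nat.pow_lt_pow_iff_right hp.one_lt).mp h1
        exact Nat.pow_le_pow_right hp.pos (by omega)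
      | succ e ih =>
        intro he
        exact (Subgroup.commutator_mono (ih (by omega)) le_rfl).trans (hcomm (i + e + 1) he)
    have hdesc : ∀ e, i + e ≤ n → Cfsg.iterCommutator N G i ≤ H ⊔ Cfsg.iterCommutator N G (i + e) := by
      intro e
      induction e with
      | zero => intro _; exact le_sup_right
      | succ e ih =>
        intro he
        exact (ih (by omega)).trans (sup_le le_sup_left (hstep e he))
    have := hdesc (n - i) (by omega)
    rwa [show i + (n - i) = n by omega, hbot, sup_bot_eq] at this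
  refine ⟨⟨fun hu => ?_, fun hch H hHN hGH hne => ?_⟩, fun hu H hHN hGH => ?_⟩
  · rcases Nat.eq_zero_or_pos n with h | h
    · exact Or.inr h
    refine Or.inl fun h0 => ?_
    have := huni hu (n - 1) (by omega)
    rw [h0, Subgroup.card_bot] at this
    exact absurd this (Nat.one_lt_pow (by omega) hp.one_lt).ne
  · obtain ⟨i, hi, rfl⟩ := hclass hch H hHN hGH
    have hin : i < n := by
      refine lt_of_le_of_ne hi fun h => hne (Subgroup.card_eq_one.mp ?_)
      rw [(hlong hch i hi).1, h, Nat.sub_self, pow_zero]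
    show (Cfsg.iterCommutator N G (i + 1)).relIndex _ = p
    have h2 := Subgroup.relIndex_mul_relIndex ⊥ (Cfsg.iterCommutator N G (i + 1)) (Cfsg.iterCommutator N G i) bot_le
      (Subgroup.le_normalizer_iff_commutator_le_left.mp (iter_normalized hGN i))
    rw [Subgroup.relIndex_bot_left, Subgroup.relIndex_bot_left, (hlong hch i hi).1, (hlong hch (i + 1) hin).1,
      show n - i = n - (i + 1) + 1 by omega, pow_succ] at h2
    exact Nat.eq_of_mul_eq_mul_left (pow_pos hp.pos _) h2
  · have hch : Cfsg.iterCommutator N G (n - 1) ≠ ⊥ ∨ n = 0 := by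
      rcases Nat.eq_zero_or_pos n with h | h
      · exact Or.inr h
      refine Or.inl fun h0 => ?_
      have := huni hu (n - 1) (by omega)
      rw [h0, Subgroup.card_bot] at this
      exact absurd this (Nat.one_lt_pow (by omega) hp.one_lt).ne
    obtain ⟨i, hi, rfl⟩ := hclass hch H hHN hGH
    refine ⟨⟨i, hi, rfl⟩, ?_⟩
    rw [← (hlong hch i hi).2]
    exact hNP.trans (iter_normalized hPN i)

end Cfsg.Agent.S0663
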