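import Cfsg.Statements.S0666
import Cfsg.Agent.Chars.Apps.FrobeniusKernel
-- import your own Cfsg.Agent.* helpers here

set_option autoImplicit false
open Cfsg

namespace Cfsg.Agent.S0666

open scoped Pointwise

/-- A Frobenius group acting on a nontrivial abelian group of order prime to that of its kernel, with the kernel acting without nontrivial fixed points, has a complement with a nontrivial fixed point. -/
theorem result {G : Type*} [Group G] [Finite G] (V F : Subgroup G) (hVab : IsMulCommutative V) (hV1 : V ≠ ⊥) (hFV : F ≤ Subgroup.normalizer (V : Set G)) (H : Subgroup ↥F) (hH : Cfsg.IsFrobeniusComplement H) (hcop : (Nat.card V).Coprime (Nat.card (Cfsg.frobeniusKernel H))) (hCK : V ⊓ Subgroup.centralizer (Subtype.val '' Cfsg.frobeniusKernel H : Set G) = ⊥) : V ⊓ Subgroup.centralizer ((H.map F.subtype : Subgroup G) : Set G) ≠ ⊥ := by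
  classical
  haveI := Fintype.ofFinite G
  obtain ⟨K, hK, hset, hKcard, hKH, hcompl⟩ := CfsgLib.Chars.Apps.frobenius_kernel_theorem hH
  intro hbot
  letI : CommGroup V := { (inferInstance : Group V) with mul_comm := fun a b => mul_comm' a b }
  obtain ⟨v₀, hv₀, hv₀1⟩ := (Subgroup.ne_bot_iff_exists_ne_one).mp hV1 |>.elim
    (fun v hv => (⟨v.1, v.2, fun e => hv (Subtype.ext e)⟩ : ∃ v ∈ V, v ≠ 1))
  apply hv₀1
  set v : V := ⟨v₀, hv₀⟩ with hvdef
  have hmemV : ∀ (x : F) (w : V), (x : G) * w * (x : G)⁻¹ ∈ V := fun x w =>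
    (Subgroup.mem_normalizer_iff.mp (hFV x.2) w).mp w.2
  let act : F → (V →* V) := fun x =>
    { toFun := fun w => ⟨(x : G) * w * (x : G)⁻¹, hmemV x w⟩
      map_one' := Subtype.ext (by simp)
      map_mul' := fun a b => Subtype.ext (by simp [mul_assoc]) }
  have hact : ∀ x y w, act x (act y w) = act (x * y) w := fun x y w =>
    Subtype.ext (by simp [act, mul_assoc])
  -- a product over a subgroup is fixed by it
  have hfix : ∀ (X : Finset F) (y : F), X.image (fun x => y * x) = X →
      act y (∏ x ∈ X, act x v) = ∏ x ∈ X, act x v := by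
    intro X y hy
    conv_rhs => rw [← hy, Finset.prod_image fun a _ b _ h => mul_left_cancel h]
    rw [map_prod]
    exact Finset.prod_congr rfl fun x _ => hact y x v
  have hclosed : ∀ (X : Subgroup F) (y : F), y ∈ X →
      (Finset.univ.filter (· ∈ X)).image (fun x => y * x) = Finset.univ.filter (· ∈ X) := by
    intro X y hy
    ext z
    simp only [Finset.mem_image, Finset.mem_filter, Finset.mem_univ, true_and]
    exact ⟨fun ⟨a, ha, e⟩ => e ▸ X.mul_mem hy ha,
      fun hz => ⟨y⁻¹ * z, X.mul_mem (X.inv_mem hy) hz, by group⟩⟩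
  have hone : ∀ (w : V), (∀ x ∈ K, act x w = w) → w = 1 := by
    intro w hw
    have hw' : (w : G) ∈ V ⊓ Subgroup.centralizer (Subtype.val '' Cfsg.frobeniusKernel H : Set G) := by
      refine ⟨w.2, Subgroup.mem_centralizer_iff.mpr ?_⟩
      rintro _ ⟨x, hx, rfl⟩
      have := congrArg Subtype.val (hw x (by rw [← SetLike.mem_coe, hset]; exact hx))
      exact eq_mul_inv_iff_mul_eq.mp this.symm |>.symm
    rw [hCK, Subgroup.mem_bot] at hw'
    exact Subtype.ext hw'
  have honeH : ∀ (w : V), (∀ x ∈ H, act x w = w) → w = 1 := by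
    intro w hw
    have hw' : (w : G) ∈ V ⊓ Subgroup.centralizer ((H.map F.subtype : Subgroup G) : Set G) := by
      refine ⟨w.2, Subgroup.mem_centralizer_iff.mpr ?_⟩
      rintro _ ⟨x, hx, rfl⟩
      exact eq_mul_inv_iff_mul_eq.mp (congrArg Subtype.val (hw x hx)).symm |>.symm
    rw [hbot, Subgroup.mem_bot] at hw'
    exact Subtype.ext hw'
  set KS := Finset.univ.filter (· ∈ K) with hKS
  set HS := Finset.univ.filter (· ∈ H) with hHS
  have hKprod : ∏ x ∈ KS, act x v = 1 :=
    hone _ fun y hy => hfix _ y (hclosed K y hy)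
  have hFprod : ∏ x : F, act x v = 1 :=
    hone _ fun y _ => hfix _ y (by
      ext z
      simp only [Finset.mem_image, Finset.mem_univ, true_and, iff_true]
      exact ⟨y⁻¹ * z, by group⟩)
  have hcomplprod : ∏ x ∈ Finset.univ.filter (· ∉ K), act x v = 1 := by
    have := Finset.prod_filter_mul_prod_filter_not Finset.univ (· ∈ K) (fun x => act x v)
    rw [hFprod, ← hKS, hKprod, one_mul] at this
    exact this
  have hHk : ∀ k : F, ∏ h ∈ HS, act (k * h * k⁻¹) v = 1 := by
    intro k
    have h1 : ∀ w : V, ∏ h ∈ HS, act h w = 1 := fun w => honeH _ fun y hy => by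
      have hh : ∀ x : F, act x w = act x w := fun x => rfl
      conv_rhs => rw [hHS, ← hclosed H y hy, Finset.prod_image fun a _ b _ h => mul_left_cancel h]
      rw [map_prod]
      exact Finset.prod_congr rfl fun x _ => hact y x w
    calc ∏ h ∈ HS, act (k * h * k⁻¹) v = ∏ h ∈ HS, act k (act h (act k⁻¹ v)) :=
          Finset.prod_congr rfl fun h _ => by rw [hact, hact, mul_assoc]
      _ = 1 := by rw [← map_prod, h1, map_one]
  -- `K × (H \ {1})` parametrises the complement of `K`
  have hH1 : (1 : F) ∈ HS := by simp [hHS, H.one_mem]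
  have hinjOn : Set.InjOn (fun z : F × F => z.1 * z.2 * z.1⁻¹) ↑(KS ×ˢ HS.erase 1) := by
    rintro ⟨k, h⟩ hz ⟨k', h'⟩ hz' e
    simp only [hKS, hHS, Finset.coe_product, Set.mem_prod, Finset.mem_coe, Finset.mem_filter,
      Finset.mem_univ, true_and, Finset.mem_erase] at hz hz'
    simp only at e
    have e1 : (k'⁻¹ * k) * h * (k'⁻¹ * k)⁻¹ = h' := by
      calc (k'⁻¹ * k) * h * (k'⁻¹ * k)⁻¹ = k'⁻¹ * (k * h * k⁻¹) * k' := by group
        _ = h' := by rw [e]; group
    have e2 : k'⁻¹ * k ∈ K ⊓ H := ⟨K.mul_mem (K.inv_mem hz'.1) hz.1,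
      CfsgLib.Frobenius.Count.mem_of_conj_mem hH _ _ hz.2.2 hz.2.1 (e1 ▸ hz'.2.2)⟩
    rw [hKH, Subgroup.mem_bot, inv_mul_eq_one] at e2
    subst e2
    simpa using e
  have hKScard : KS.card = Nat.card K := by
    rw [Nat.card_eq_fintype_card, Fintype.card_subtype]
  have hHScard : HS.card = Nat.card H := by
    rw [Nat.card_eq_fintype_card, Fintype.card_subtype]
  have himg : (KS ×ˢ HS.erase 1).image (fun z : F × F => z.1 * z.2 * z.1⁻¹) =
      Finset.univ.filter (· ∉ K) := by
    refine Finset.eq_of_subset_of_card_le ?_ ?_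
    · intro y hy
      simp only [Finset.mem_image, Finset.mem_product, Finset.mem_erase, hKS, hHS, Finset.mem_filter,
        Finset.mem_univ, true_and] at hy ⊢
      obtain ⟨⟨k, h⟩, ⟨hk, h1, hh⟩, rfl⟩ := hy
      intro hyK
      have : h ∈ K ⊓ H := ⟨by simpa [mul_assoc] using hK.conj_mem _ hyK k⁻¹, hh⟩
      rw [hKH, Subgroup.mem_bot] at this
      exact h1 this
    · rw [Finset.card_image_of_injOn hinjOn, Finset.card_product, Finset.card_erase_of_mem hH1,
        hKScard, hHScard]
      have h1 := Finset.card_filter_add_card_filter_not (s := (Finset.univ : Finset F)) (· ∈ K)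
      rw [← hKS, hKScard, Finset.card_univ, ← Nat.card_eq_fintype_card,
        ← Subgroup.index_mul_card H, ← hKcard] at h1
      rw [Nat.mul_sub_one]
      omega
  have hpow : v ^ Nat.card K = 1 := by
    have h1 : ∏ k ∈ KS, ∏ h ∈ HS, act (k * h * k⁻¹) v = 1 :=
      Finset.prod_eq_one fun k _ => hHk k
    rw [Finset.prod_congr rfl fun k _ => (Finset.mul_prod_erase HS _ hH1).symm,
      Finset.prod_mul_distrib, ← Finset.prod_product',
      ← Finset.prod_image (f := fun y => act y v) hinjOn, himg, hcomplprod, mul_one] at h1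
    have h2 : ∀ k : F, act (k * 1 * k⁻¹) v = v := fun k => Subtype.ext (by simp [act])
    rw [Finset.prod_congr rfl fun k _ => h2 k, Finset.prod_const, hKScard] at h1
    exact h1
  have hcop' : (Nat.card V).Coprime (Nat.card K) := by
    have : Nat.card (Cfsg.frobeniusKernel H) = Nat.card K := by rw [← hset]; rfl
    rwa [this] at hcop
  have : v = 1 := orderOf_eq_one_iff.mp (Nat.dvd_one.mp (hcop' ▸ Nat.dvd_gcd
    (orderOf_dvd_natCard v) (orderOf_dvd_of_pow_eq_one hpow)))
  exact congrArg Subtype.val this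

end Cfsg.Agent.S0666
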