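import Cfsg.Statements.S0668
import Mathlib

set_option autoImplicit false
open Cfsg

namespace Cfsg.Agent.S0668


/-- The equivariant linear maps between the permutation modules of two finite `G`-sets form a space whose dimension is the number of `G`-orbits on the product of the two sets. -/
theorem result {G : Type*} [Group G] {K : Type*} [Field K] {Ω₁ Ω₂ : Type*} [Fintype Ω₁] [Fintype Ω₂] [MulAction G Ω₁] [MulAction G Ω₂] : Module.finrank K ((Cfsg.permRep K G Ω₁).linHom (Cfsg.permRep K G Ω₂)).invariants = Nat.card (MulAction.orbitRel.Quotient G (Ω₁ × Ω₂)) := by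
  classical
  set Q := MulAction.orbitRel.Quotient G (Ω₁ × Ω₂)
  set ρ := (Cfsg.permRep K G Ω₁).linHom (Cfsg.permRep K G Ω₂)
  have hsingle : ∀ (g : G) (x : Ω₁),
      Cfsg.permRep K G Ω₁ g (Pi.single x 1) = Pi.single (g • x) (1 : K) := by
    intro g x
    funext y
    change Pi.single (M := fun _ => K) x 1 (g⁻¹ • y) = _
    rw [Pi.single_apply, Pi.single_apply]
    simp only [inv_smul_eq_iff]
  have hequiv : ∀ f ∈ ρ.invariants, ∀ (g : G) (x : Ω₁) (y : Ω₂),
      f (Pi.single (g • x) 1) (g • y) = f (Pi.single x 1) y := by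
    intro f hf g x y
    have h1 := LinearMap.congr_fun (hf g) (Pi.single (g • x) 1)
    simp only [ρ, Representation.linHom_apply, LinearMap.comp_apply, hsingle, inv_smul_smul] at h1
    rw [← congrFun h1 (g • y)]
    change f (Pi.single x 1) (g⁻¹ • g • y) = _
    rw [inv_smul_smul]
  let toFun : ρ.invariants →ₗ[K] (Q → K) :=
    { toFun := fun f => Quotient.lift (fun z : Ω₁ × Ω₂ => (f : (Ω₁ → K) →ₗ[K] (Ω₂ → K)) (Pi.single z.1 1) z.2)
        (fun z w h => by
          obtain ⟨g, hg⟩ := (MulAction.orbitRel_apply.1 h : z ∈ MulAction.orbit G w)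
          rw [← hg]
          exact hequiv f f.2 g w.1 w.2)
      map_add' := fun f₁ f₂ => funext fun q => Quotient.inductionOn q fun z => rfl
      map_smul' := fun c f => funext fun q => Quotient.inductionOn q fun z => rfl }
  have hbij : Function.Bijective toFun := by
    constructor
    · intro f₁ f₂ h
      refine Subtype.ext (LinearMap.pi_ext' fun x => LinearMap.ext_ring (funext fun y => ?_))
      exact congrFun h (Quotient.mk _ (x, y))
    · intro φ
      let M : Ω₁ → Ω₂ → K := fun x y => φ (Quotient.mk _ (x, y))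
      let f : (Ω₁ → K) →ₗ[K] (Ω₂ → K) :=
        { toFun := fun v y => ∑ x, v x * M x y
          map_add' := fun v w => funext fun y => by simp [add_mul, Finset.sum_add_distrib]
          map_smul' := fun c v => funext fun y => by simp [Finset.mul_sum, mul_assoc] }
      have hM : ∀ (g : G) x y, M (g • x) (g • y) = M x y := fun g x y =>
        congrArg φ (Quotient.sound (MulAction.orbitRel_apply.2 ⟨g, rfl⟩))
      have hf : f ∈ ρ.invariants := by
        intro g
        refine LinearMap.ext fun v => funext fun y => ?_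
        change (∑ x, v (g⁻¹⁻¹ • x) * M x (g⁻¹ • y)) = ∑ x, v x * M x y
        refine Fintype.sum_equiv (MulAction.toPerm g) _ _ fun x => ?_
        simp only [inv_inv, MulAction.toPerm_apply]
        rw [← hM g x (g⁻¹ • y), smul_inv_smul]
      refine ⟨⟨f, hf⟩, funext fun q => Quotient.inductionOn q fun z => ?_⟩
      change (∑ x, Pi.single (M := fun _ => K) z.1 (1 : K) x * M x z.2) = _
      rw [Finset.sum_eq_single z.1 (fun b _ hb => by rw [Pi.single_eq_of_ne hb, zero_mul]) (by simp),
        Pi.single_eq_same, one_mul]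
  haveI : Fintype Q := Fintype.ofFinite _
  rw [(LinearEquiv.ofBijective toFun hbij).finrank_eq, Module.finrank_fintype_fun_eq_card,
    Nat.card_eq_fintype_card]

end Cfsg.Agent.S0668
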