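import Cfsg.Statements.S0669
-- import your own Cfsg.Agent.* helpers here

set_option autoImplicit false
open Cfsg

namespace Cfsg.Agent.S0669

/-- The rank of a transitive action: orbits on ordered pairs correspond to orbits of a point stabiliser. -/
theorem result {G : Type*} [Group G] {Ω : Type*} [Finite Ω] [MulAction G Ω] [MulAction.IsPretransitive G Ω] (a : Ω) : Nat.card (MulAction.orbitRel.Quotient G (Ω × Ω)) = Nat.card (MulAction.orbitRel.Quotient (MulAction.stabilizer G a) Ω) := by
  symm
  refine Nat.card_eq_of_bijective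
    (Quotient.map' (fun x => ((a, x) : Ω × Ω)) ?_) ⟨?_, ?_⟩
  · intro x y h
    rw [MulAction.orbitRel_apply, MulAction.mem_orbit_iff] at h ⊢
    obtain ⟨g, rfl⟩ := h
    exact ⟨(g : G), Prod.ext g.2 rfl⟩
  · intro q r
    induction q using Quotient.inductionOn' with | h x => ?_
    induction r using Quotient.inductionOn' with | h y => ?_
    intro h
    rw [Quotient.map'_mk'', Quotient.map'_mk''] at h
    have h' := Quotient.exact' h
    rw [MulAction.orbitRel_apply, MulAction.mem_orbit_iff] at h'
    obtain ⟨g, hg⟩ := h'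
    apply Quotient.sound'
    rw [MulAction.orbitRel_apply, MulAction.mem_orbit_iff]
    exact ⟨⟨g, (congrArg Prod.fst hg : g • a = a)⟩, (congrArg Prod.snd hg : g • y = x)⟩
  · intro q
    induction q using Quotient.inductionOn' with | h z => ?_
    obtain ⟨g, hg⟩ := MulAction.exists_smul_eq G z.1 a
    refine ⟨Quotient.mk'' (g • z.2), ?_⟩
    rw [Quotient.map'_mk'']
    apply Quotient.sound'
    rw [MulAction.orbitRel_apply, MulAction.mem_orbit_iff]
    exact ⟨g, Prod.ext hg rfl⟩

end Cfsg.Agent.S0669
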