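import Cfsg.Statements.S0670
import Mathlib
import Cfsg.Agent.Eq.Def_Perm
import Cfsg.Agent.PermGroups.Basic

set_option autoImplicit false
open Cfsg

namespace Cfsg.Agent.S0670


/-- In characteristic `p`, the permutation module of a transitive action of degree `p ^ f` has the line of constant functions as its only irreducible submodule: every non-zero subrepresentation contains it. -/
theorem result {G : Type*} [Group G] [Finite G] {K : Type*} [Field K] {p f : ℕ} [Fact p.Prime] [CharP K p] {Ω : Type*} [Fintype Ω] [MulAction G Ω] [MulAction.IsPretransitive G Ω] (hf : 1 ≤ f) (hcard : Fintype.card Ω = p ^ f) (W : Subrepresentation (Cfsg.permRep K G Ω)) (hW : W.toSubmodule ≠ ⊥) : (Cfsg.permConstants K G Ω).toSubmodule ≤ W.toSubmodule := by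
  classical
  have hp := (Fact.out : p.Prime)
  have hn : Nat.card Ω = p ^ f := by rw [Nat.card_eq_fintype_card, hcard]
  obtain ⟨P⟩ : Nonempty (Sylow p G) := inferInstance
  have hne : Nonempty Ω := Fintype.card_pos_iff.1 (by rw [hcard]; exact pow_pos hp.pos _)
  obtain ⟨a⟩ := hne
  haveI := CfsgLib.PermGroups.isPretransitive_sylow_of_card_eq_prime_pow hn P
  have htr : MulAction.orbit (P : Subgroup G) a = Set.univ := MulAction.orbit_eq_univ _ a
  obtain ⟨v, hv, hv0⟩ := Submodule.exists_mem_ne_zero_of_ne_bot hW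
  let ι : ZMod p →+* K := ZMod.castHom dvd_rfl K
  haveI := Fintype.ofFinite ↥(P : Subgroup G)
  let ρ := Cfsg.permRep K G Ω
  let comb : (↥(P : Subgroup G) → ZMod p) →+ (Ω → K) :=
    AddMonoidHom.mk' (fun c => ∑ h, ι (c h) • ρ (h : G) v) (fun c d => by
      simp [add_smul, Finset.sum_add_distrib])
  have hρ : ∀ (h k : G) (u : Ω → K), ρ h (ρ k u) = ρ (h * k) u := by
    intro h k u; rw [map_mul]; rfl
  have hact : ∀ (h : (P : Subgroup G)) (u : Ω → K), u ∈ comb.range → ρ (h : G) u ∈ comb.range := by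
    rintro h _ ⟨c, rfl⟩
    refine ⟨fun k => c (h⁻¹ * k), ?_⟩
    simp only [comb, AddMonoidHom.mk'_apply, map_sum, map_smul, hρ]
    refine Fintype.sum_equiv (Equiv.mulLeft h⁻¹) _ _ fun k => ?_
    simp [← mul_assoc]
  letI : MulAction (P : Subgroup G) comb.range :=
    { smul := fun h u => ⟨ρ (h : G) u, hact h u u.2⟩
      one_smul := fun u => Subtype.ext (by change ρ 1 (u : Ω → K) = u; rw [map_one]; rfl)
      mul_smul := fun h k u => Subtype.ext (hρ h k u).symm }
  haveI : Finite comb.range := Finite.of_surjective comb.rangeRestrict comb.rangeRestrict_surjective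
  have hvmem : v ∈ comb.range := ⟨Pi.single 1 1, by
    change (∑ h, ι ((Pi.single (M := fun _ => ZMod p) (1 : (P : Subgroup G)) 1) h) • ρ (h : G) v) = v
    rw [Finset.sum_eq_single 1]
    · simp [Pi.single_eq_same]
    · intro b _ hb; simp [Pi.single_eq_of_ne hb]
    · simp⟩
  have hpdvd : p ∣ Nat.card comb.range := by
    have h1 : addOrderOf (⟨v, hvmem⟩ : comb.range) = p := by
      apply addOrderOf_eq_prime
      · exact Subtype.ext (funext fun x => by simp [CharP.cast_eq_zero])
      · exact fun h => hv0 (congrArg Subtype.val h)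
    rw [← Nat.card_zmultiples] at h1
    exact dvd_trans (dvd_of_eq h1.symm) (AddSubgroup.card_addSubgroup_dvd_card _)
  have hzero : (0 : comb.range) ∈ MulAction.fixedPoints (P : Subgroup G) comb.range :=
    fun h => Subtype.ext (map_zero (ρ (h : G)))
  obtain ⟨u, hu, hu0⟩ := P.isPGroup'.exists_fixed_point_of_prime_dvd_card_of_fixed_point comb.range hpdvd hzero
  have hconst : ∀ x : Ω, (u : Ω → K) x = (u : Ω → K) a := by
    intro x
    obtain ⟨h, rfl⟩ := (htr.symm ▸ Set.mem_univ x : x ∈ MulAction.orbit (P : Subgroup G) a)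
    have h1 : (u : Ω → K) ((((h⁻¹ : (P : Subgroup G)) : G))⁻¹ • a) = (u : Ω → K) a :=
      congrFun (congrArg Subtype.val (hu h⁻¹)) a
    simp only [InvMemClass.coe_inv, inv_inv] at h1
    exact h1
  have huW : (u : Ω → K) ∈ W.toSubmodule := by
    obtain ⟨c, hc⟩ := u.2
    rw [← hc]
    exact Submodule.sum_mem _ fun h _ => Submodule.smul_mem _ _ (W.apply_mem_toSubmodule (h : G) hv)
  have hua : (u : Ω → K) a ≠ 0 := fun h0 => hu0 (Subtype.ext (funext fun x => by
    rw [hconst x, h0]; rfl))
  refine (Submodule.span_singleton_le_iff_mem _ _).2 ?_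
  have : (fun _ => 1 : Ω → K) = ((u : Ω → K) a)⁻¹ • (u : Ω → K) := funext fun x => by
    rw [Pi.smul_apply, hconst x, smul_eq_mul, inv_mul_cancel₀ hua]
  rw [this]
  exact Submodule.smul_mem _ _ huW

end Cfsg.Agent.S0670
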