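import Cfsg.Statements.S0679
import Cfsg.Agent.PermGroups.DegreeElevenCases
import Cfsg.Agent.S0676
import Cfsg.Agent.S0498

set_option autoImplicit false
open Cfsg

namespace Cfsg.Agent.S0679

open MulAction Equiv Equiv.Perm in
open CfsgLib.PermGroups in
open CfsgLib.PermGroups.Eleven in
/-- An even group of order `660` is simple. -/
theorem simple_of_card {α : Type*} [Fintype α] [DecidableEq α] {G : Subgroup (Equiv.Perm α)}
    (S : Eleven.Setting G) (hev : G ≤ alternatingGroup α) (hG : Nat.card G = 660) :
    IsSimpleGroup G := by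
  haveI : Fact (Nat.Prime 11) := ⟨by norm_num⟩
  haveI := S.htr
  have hX : Nat.card α = 11 := by rw [Nat.card_eq_fintype_card, S.hα]
  haveI : Nontrivial G := Finite.one_lt_card_iff_nontrivial.1 (by rw [hG]; norm_num)
  refine ⟨fun N hN => ?_⟩
  by_cases hb : N = ⊥
  · exact Or.inl hb
  right
  haveI := hN
  haveI hNt : IsPretransitive N α := isPretransitive_normal_prime_degree hX hb
  have hNsol : ¬ Group.IsSolvable N := by
    intro hs
    haveI := hs
    obtain ⟨Q⟩ : Nonempty (Sylow 11 N) := inferInstance
    obtain ⟨P⟩ : Nonempty (Sylow 11 G) := inferInstance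
    have hQn : (Q : Subgroup N).Normal := sylow_normal_of_isSolvable hX hs Q
    haveI : Unique (Sylow 11 N) := Sylow.unique_of_normal Q hQn
    haveI : (Q : Subgroup N).Characteristic := Sylow.characteristic_of_normal Q hQn
    have hQG : ((Q : Subgroup N).map N.subtype).Normal := inferInstance
    have hle : ∀ R : Sylow 11 G, (R : Subgroup G) = (Q : Subgroup N).map N.subtype := by
      intro R
      have h1 : (R : Subgroup G) ≤ N := sylow_le_normal_prime_degree hX hb R
      have h2 := Subsingleton.elim (R.subtype h1) Q
      rw [← h2, Sylow.coe_subtype, Subgroup.subgroupOf_map_subtype, inf_eq_left.2 h1]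
    exact S.hsol (isSolvable_of_sylow_normal hX P ((hle P).symm ▸ hQG))
  let e := N.equivMapOfInjective G.subtype G.subtype_injective
  have S' : Eleven.Setting (N.map G.subtype) := by
    refine ⟨S.hα, ⟨fun a b => ?_⟩, fun h => hNsol ?_, fun h => S.hA (h.trans (Subgroup.map_subtype_le N))⟩
    · obtain ⟨g, hg⟩ := exists_smul_eq N a b
      exact ⟨⟨_, Subgroup.mem_map_of_mem G.subtype g.2⟩, hg⟩
    · haveI := h
      exact Group.isSolvable_of_isSolvable_injective (f := e.toMonoidHom) e.injective
  have hle := Subgroup.card_le_card_group N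
  have hcard := Subgroup.card_map_of_injective (K := N) G.subtype_injective
  refine Subgroup.eq_top_of_card_eq N ?_
  rcases S'.card_cases ((Subgroup.map_subtype_le N).trans hev) with h | h | h <;> omega

open MulAction Equiv Equiv.Perm in
open CfsgLib.PermGroups in
open CfsgLib.PermGroups.Eleven in
/-- A group containing an even subgroup of the critical order is that subgroup. -/
theorem even_of_setting {α : Type*} [Fintype α] [DecidableEq α] {G : Subgroup (Equiv.Perm α)}
    (S : Eleven.Setting G) : G ≤ alternatingGroup α := by
  classical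
  by_contra hne
  haveI : Fact (Nat.Prime 11) := ⟨by norm_num⟩
  haveI : Fact (Nat.Prime 2) := ⟨Nat.prime_two⟩
  haveI := S.htr
  haveI : Nontrivial α := Fintype.one_lt_card_iff_nontrivial.1 (by rw [S.hα]; norm_num)
  have hX : Nat.card α = 11 := by rw [Nat.card_eq_fintype_card, S.hα]
  set K := G ⊓ alternatingGroup α with hK
  haveI hKn : (K.subgroupOf G).Normal := by
    rw [hK, Subgroup.inf_subgroupOf_left]
    infer_instance
  have hKidx : (K.subgroupOf G).index = 2 := by
    rw [hK, Subgroup.inf_subgroupOf_left]
    have h1 : ((alternatingGroup α).subgroupOf G).index ∣ (alternatingGroup α).index :=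
      Subgroup.relIndex_dvd_index_of_normal _ _
    rw [alternatingGroup.index_eq_two] at h1
    rcases (Nat.dvd_prime Nat.prime_two).1 h1 with h | h
    · exact absurd (Subgroup.relIndex_eq_one.1 h) hne
    · exact h
  have hcardG : Nat.card G = 2 * Nat.card K := by
    have h := (K.subgroupOf G).card_mul_index
    rw [hKidx, Nat.card_congr (Subgroup.subgroupOfEquivOfLe (inf_le_left : K ≤ G)).toEquiv] at h
    linarith
  let eK := Subgroup.subgroupOfEquivOfLe (inf_le_left : K ≤ G)
  have hKsol : ¬ Group.IsSolvable K := fun h => S.hsol (by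
    haveI := h
    haveI : Group.IsSolvable (K.subgroupOf G) :=
      Group.isSolvable_of_isSolvable_injective (f := eK.toMonoidHom) eK.injective
    haveI : IsCyclic (G ⧸ K.subgroupOf G) := isCyclic_of_prime_card (p := 2)
      (by rw [← Subgroup.index_eq_card]; exact hKidx)
    exact Group.isSolvable_of_ker_le_range (K.subgroupOf G).subtype
      (QuotientGroup.mk' (K.subgroupOf G))
      (by rw [Subgroup.range_subtype, QuotientGroup.ker_mk']))
  haveI hKt : IsPretransitive K α := by
    have hb : K.subgroupOf G ≠ ⊥ := fun h => by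
      rw [h, Subgroup.index_bot] at hKidx
      exact hKsol (by
        haveI : Subsingleton K := Finite.card_le_one_iff_subsingleton.1 (by omega)
        infer_instance)
    haveI := isPretransitive_normal_prime_degree (G := G) (X := α) hX hb
    exact ⟨fun a b => by
      obtain ⟨g, hg⟩ := exists_smul_eq (K.subgroupOf G) a b
      exact ⟨eK g, hg⟩⟩
  have SK : Eleven.Setting K :=
    ⟨S.hα, hKt, hKsol, fun h => S.hA (h.trans inf_le_left)⟩
  have hKe : K ≤ alternatingGroup α := inf_le_right
  rcases SK.card_cases hKe with h660 | h7920 | h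
  · -- the Sylow normaliser would be even, hence three-transitivity
    have hcard : Nat.card G = 1320 := by omega
    obtain ⟨P⟩ : Nonempty (Sylow 11 G) := inferInstance
    have hn1 : Nat.card (Sylow 11 G) ≠ 1 := fun h1 => by
      haveI := (Nat.card_eq_one_iff_unique.1 h1).1
      exact S.hsol (isSolvable_of_sylow_normal hX P P.normal_of_subsingleton)
    have hmod : Nat.card (Sylow 11 G) % 11 = 1 % 11 := card_sylow_modEq_one 11 G
    have hdvd := Sylow.card_dvd_index P
    have hPi := (P : Subgroup G).card_mul_index
    rw [card_sylow_prime_degree hX P, hcard] at hPi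
    rw [show (P : Subgroup G).index = 120 by omega] at hdvd
    have h12 : Nat.card (Sylow 11 G) = 12 := by
      have hle := Nat.le_of_dvd (by norm_num) hdvd
      interval_cases hn : Nat.card (Sylow 11 G) <;> omega
    have hN : Nat.card (Subgroup.normalizer ((P : Subgroup G) : Set G)) = 110 := by
      have h := Subgroup.card_mul_index (Subgroup.normalizer ((P : Subgroup G) : Set G))
      rw [P.card_eq_index_normalizer] at h12
      rw [hcard] at h
      have h12' : (Subgroup.normalizer ((P : Subgroup G) : Set G)).index = 12 := h12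
      rw [h12'] at h
      omega
    haveI h3 := Cfsg.Agent.S0676.result (α := α) (p := 11) S.hα G S.hsol P (by rw [hN]; decide)
    obtain ⟨r⟩ : Nonempty (Fin 3 ↪ α) := Function.Embedding.nonempty_of_card_le (by simp [S.hα])
    have := card_stabilizer_mul (G := G) 3 r
    rw [S.hα, show (11 : ℕ).descFactorial 3 = 990 by rfl, hcard] at this
    omega
  · -- an odd involution fixing four points
    have hcard : Nat.card G = 15840 := by omega
    obtain ⟨x⟩ : Nonempty (Fin 4 ↪ α) := Function.Embedding.nonempty_of_card_le (by simp [S.hα])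
    have hfreeK : ∀ y : Fin 4 ↪ α, ∀ g ∈ K, g • y = y → g = 1 := fun y g hg hy => by
      have h : (⟨g, hg⟩ : K) ∈ stabilizer K y := hy
      rw [SK.free_four hKe h7920 y, Subgroup.mem_bot] at h
      exact congrArg Subtype.val h
    have hsurj : Function.Surjective (fun g : K => g • x) := by
      have hinj : Function.Injective (fun g : K => g • x) := fun a b h => by
        have : (b⁻¹ * a) ∈ stabilizer K x := by
          rw [mem_stabilizer_iff]
          exact (mul_smul _ _ _).trans ((congrArg (b⁻¹ • ·) h).trans (inv_smul_smul b x))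
        rw [SK.free_four hKe h7920 x, Subgroup.mem_bot, inv_mul_eq_one] at this
        exact this.symm
      refine ((Nat.bijective_iff_injective_and_card _).2 ⟨hinj, ?_⟩).2
      rw [h7920, Nat.card_eq_fintype_card, Fintype.card_embedding_eq, S.hα, Fintype.card_fin]
      rfl
    haveI h4 : IsMultiplyPretransitive G α 4 := by
      rw [MulAction.isMultiplyPretransitive_iff]
      intro y z
      obtain ⟨a, ha⟩ := hsurj y
      obtain ⟨b, hb⟩ := hsurj z
      refine ⟨⟨b, b.2.1⟩ * ⟨a, a.2.1⟩⁻¹, ?_⟩
      simp only at ha hb
      ext i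
      rw [← ha, ← hb]
      simp [Function.Embedding.smul_apply, Subgroup.smul_def]
    set W : Set G := {g | orderOf g = 2 ∧ (g : Equiv.Perm α).support.card = 6} with hW
    have hWc : ∀ a : G, ∀ v ∈ W, a * v * a⁻¹ ∈ W := fun a v hv => by
      refine ⟨?_, ?_⟩
      · rw [show a * v * a⁻¹ = MulAut.conj a v from rfl, MulEquiv.orderOf_eq]; exact hv.1
      · rw [Subgroup.coe_mul, Subgroup.coe_mul, Subgroup.coe_inv, Equiv.Perm.card_support_conj]
        exact hv.2
    have hst := card_stabilizer_mul (G := G) 4 x
    rw [S.hα, show (11 : ℕ).descFactorial 4 = 7920 by rfl, hcard] at hst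
    have hone : Nat.card {v : G // v ∈ W ∧ v • x = x} = 1 := by
      obtain ⟨⟨w, hwx⟩, hw⟩ := exists_prime_orderOf_dvd_card' (G := stabilizer G x) 2 (by omega)
      rw [← Subgroup.orderOf_coe] at hw
      change orderOf w = 2 at hw
      have hwo : (w : Equiv.Perm α) ∉ alternatingGroup α := fun hm => by
        have hwy : (w : Equiv.Perm α) • x = x := mem_stabilizer_iff.1 hwx
        have : (w : Equiv.Perm α) = 1 := hfreeK x _ (Subgroup.mem_inf.2 ⟨w.2, hm⟩) hwy
        rw [show w = 1 from Subtype.ext this, orderOf_one] at hw
        omega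
      have hs7 : (w : Equiv.Perm α).support.card ≤ 7 := by
        have h2 : Finset.univ.map x ⊆ (w : Equiv.Perm α).supportᶜ := by
          intro z hz
          obtain ⟨i, -, rfl⟩ := Finset.mem_map.1 hz
          rw [Finset.mem_compl, Equiv.Perm.mem_support, not_not]
          exact congrArg (fun d : Fin 4 ↪ α => d i) (mem_stabilizer_iff.1 hwx)
        have := Finset.card_le_card h2
        rw [Finset.card_map, Finset.card_univ, Fintype.card_fin, Finset.card_compl, S.hα] at this
        omega
      have hwW : w ∈ W := ⟨hw, by rcases S.support_two_odd w hw hwo with h | h <;> omega⟩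
      rw [Nat.card_eq_one_iff_exists]
      refine ⟨⟨w, hwW, mem_stabilizer_iff.1 hwx⟩, fun v => Subtype.ext ?_⟩
      have h2 : Nat.card (stabilizer G x) = 2 := by omega
      haveI : IsCyclic (stabilizer G x) := isCyclic_of_prime_card h2
      by_contra hvw
      have hv1 : (v : G) ≠ 1 := fun h => by
        have := v.2.1.1
        rw [h, orderOf_one] at this
        omega
      obtain ⟨y, hy, hy2⟩ := (Nat.card_eq_two_iff' (1 : stabilizer G x)).1 h2
      have e1 := hy2 ⟨v, mem_stabilizer_iff.2 v.2.2⟩ (fun h => hv1 (congrArg Subtype.val h))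
      have e2 := hy2 ⟨w, hwx⟩ (fun h => by
        have := congrArg Subtype.val h
        simp only [Subgroup.coe_one] at this
        rw [this, orderOf_one] at hw
        omega)
      exact hvw (congrArg (fun z : stabilizer G x => (z : G)) (e1.trans e2.symm))
    have hc := count_fix 4 W hWc 6 (fun v hv => hv.2) x
    rw [S.hα, show (11 - 6 : ℕ).descFactorial 4 = 120 by rfl,
      show (11 : ℕ).descFactorial 4 = 7920 by rfl, hone] at hc
    obtain ⟨m, hm⟩ := S.dvd_fiftyFive (by rw [hcard]; norm_num) W hWc fun v hv => Or.inr hv.2
    omega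
  · exact SK.card_ne_large h

/-- A non-solvable transitive permutation group on 11 points that does not contain the alternating group is either sharply 4-transitive (of order 7920) or isomorphic to the projective special linear group of degree 2 over the field with 11 elements. -/
theorem result {α : Type*} [Fintype α] [DecidableEq α] (hα : Fintype.card α = 11) (G : Subgroup (Equiv.Perm α)) [MulAction.IsPretransitive G α] (hG : ¬ Group.IsSolvable G) (hA : ¬ alternatingGroup α ≤ G) : (MulAction.IsMultiplyPretransitive G α 4 ∧ ∀ x : Fin 4 ↪ α, MulAction.stabilizer G x = ⊥) ∨ Nonempty (G ≃* Matrix.ProjectiveSpecialLinearGroup (Fin 2) (ZMod 11)) := by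
  classical
  have S : CfsgLib.PermGroups.Eleven.Setting G := ⟨hα, inferInstance, hG, hA⟩
  have hev := even_of_setting S
  haveI : Fact (Nat.Prime 11) := ⟨by norm_num⟩
  rcases S.card_cases hev with h | h | h
  · right
    haveI := simple_of_card S hev h
    exact Cfsg.Agent.S0498.result 11 (Or.inl rfl) (by rw [h]; norm_num) (ZMod.card 11)
  · left
    refine ⟨?_, S.free_four hev h⟩
    rw [MulAction.isMultiplyPretransitive_iff]
    intro y z
    have hinj : Function.Injective (fun g : G => g • y) := fun a b hab => by
      have : (b⁻¹ * a) ∈ MulAction.stabilizer G y := by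
        rw [MulAction.mem_stabilizer_iff]
        exact (mul_smul _ _ _).trans ((congrArg (b⁻¹ • ·) hab).trans (inv_smul_smul b y))
      rw [S.free_four hev h y, Subgroup.mem_bot, inv_mul_eq_one] at this
      exact this.symm
    exact ((Nat.bijective_iff_injective_and_card _).2 ⟨hinj, by
      rw [h, Nat.card_eq_fintype_card, Fintype.card_embedding_eq, hα, Fintype.card_fin]; rfl⟩).2 z
  · exact absurd h S.card_ne_large

end Cfsg.Agent.S0679
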