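import Cfsg.Statements.S0680
import Cfsg.Agent.PermGroups.SharplyTwo

set_option autoImplicit false
open Cfsg

namespace Cfsg.Agent.S0680


/-- A finite sharply doubly transitive permutation group has degree a prime power `p ^ j`; a Sylow `p`-subgroup is normal, elementary abelian and regular, and consists of the identity together with the elements without fixed points. (Frobenius' Theorem is not needed.) -/
theorem result {α : Type*} [Fintype α] [DecidableEq α] (G : Subgroup (Equiv.Perm α)) [MulAction.IsMultiplyPretransitive G α 2] (hsharp : ∀ x : Fin 2 ↪ α, MulAction.stabilizer G x = ⊥) (h2 : 2 ≤ Fintype.card α) : ∃ p j : ℕ, p.Prime ∧ 1 ≤ j ∧ Fintype.card α = p ^ j ∧ ∀ (hp : Fact p.Prime) (P : Sylow p G), (P : Subgroup G).Normal ∧ IsMulCommutative (P : Subgroup G) ∧ (∀ x ∈ (P : Subgroup G), x ^ p = 1) ∧ MulAction.IsPretransitive (P : Subgroup G) α ∧ (∀ a : α, MulAction.stabilizer (P : Subgroup G) a = ⊥) ∧ ∀ g : G, g ∈ (P : Subgroup G) ↔ g = 1 ∨ ∀ a : α, g • a ≠ a := by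
  have h2' : 2 ≤ Nat.card α := by rwa [Nat.card_eq_fintype_card]
  obtain ⟨K, p, j, hp, hj, hn, hKn, hKab, hKp, hKtr, hKreg, hKcard, hmem⟩ :=
    CfsgLib.PermGroups.exists_regular_normal_of_sharply_two ‹_› hsharp h2'
  refine ⟨p, j, hp, hj, by rwa [← Nat.card_eq_fintype_card], fun hpf P => ?_⟩
  haveI := hpf
  haveI : MulAction.IsPretransitive G α := MulAction.isPretransitive_of_is_two_pretransitive (h2 := ‹_›)
  obtain ⟨a⟩ : Nonempty α := Fintype.card_pos_iff.1 (by omega)
  have hfac : (Nat.card G).factorization p = j := by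
    rw [← CfsgLib.PermGroups.card_mul_card_stabilizer (G := G) a,
      CfsgLib.PermGroups.card_stabilizer_of_sharply_two ‹_› hsharp h2' a, hn,
      Nat.factorization_mul (pow_ne_zero _ hp.ne_zero) (by rw [← hn]; omega), Finsupp.add_apply,
      hp.factorization_pow, Finsupp.single_eq_same,
      Nat.factorization_eq_zero_of_not_dvd, add_zero]
    intro h
    have h1 : p ∣ p ^ j := dvd_pow_self p (by omega)
    have h2 := Nat.dvd_sub h1 h
    rw [show p ^ j - (p ^ j - 1) = 1 by have := hn ▸ h2'; omega, Nat.dvd_one] at h2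
    exact hp.ne_one h2
  have hPK : (P : Subgroup G) = K := by
    have hKc : Nat.card K = p ^ (Nat.card G).factorization p := by rw [hfac, hKcard, hn]
    haveI := hKn
    haveI : Subsingleton (Sylow p G) := by
      refine Sylow.unique_of_normal (Sylow.ofCard K hKc) hKn |> fun h => ?_
      exact @Unique.instSubsingleton _ h
    rw [show P = Sylow.ofCard K hKc from Subsingleton.elim _ _]
    rfl
  rw [hPK]
  exact ⟨hKn, hKab, hKp, hKtr, hKreg, hmem⟩

end Cfsg.Agent.S0680
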