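import Cfsg.Statements.S0681
import Mathlib

set_option autoImplicit false
open Cfsg

namespace Cfsg.Agent.S0681


/-- The affine maps `x ↦ x * a + b`, `a ≠ 0`, of a near-field form a sharply doubly transitive permutation group. -/
theorem result {F : Type*} [Cfsg.NearField F] : ∃ H : Subgroup (Equiv.Perm F), (∀ σ : Equiv.Perm F, σ ∈ H ↔ ∃ a b : F, a ≠ 0 ∧ ∀ x : F, σ x = x * a + b) ∧ MulAction.IsMultiplyPretransitive H F 2 ∧ ∀ x : Fin 2 ↪ F, MulAction.stabilizer H x = ⊥ := by
  have hzm : ∀ a : F, (0 : F) * a = 0 := by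
    intro a
    have h := Cfsg.NearField.right_distrib (0 : F) 0 a
    rw [add_zero] at h
    simpa using h
  have hneg : ∀ x a : F, (-x) * a = -(x * a) := by
    intro x a
    apply eq_neg_of_add_eq_zero_left
    rw [← Cfsg.NearField.right_distrib, neg_add_cancel, hzm]
  have hmz : ∀ a b : F, a ≠ 0 → b ≠ 0 → a * b ≠ 0 := by
    intro a b ha hb h
    obtain ⟨c, hc, -⟩ := Cfsg.NearField.exists_inv b hb
    apply ha
    rw [← mul_one a, ← hc, ← mul_assoc, h, hzm]
  let H : Subgroup (Equiv.Perm F) :=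
    { carrier := {σ | ∃ a b : F, a ≠ 0 ∧ ∀ x : F, σ x = x * a + b}
      one_mem' := ⟨1, 0, Cfsg.NearField.zero_ne_one.symm, fun x => by simp⟩
      mul_mem' := by
        rintro σ τ ⟨a, b, ha, hσ⟩ ⟨c, d, hc, hτ⟩
        refine ⟨c * a, d * a + b, hmz c a hc ha, fun x => ?_⟩
        simp only [Equiv.Perm.mul_apply, hσ, hτ, Cfsg.NearField.right_distrib, mul_assoc, add_assoc]
      inv_mem' := by
        rintro σ ⟨a, b, ha, hσ⟩
        obtain ⟨c, hac, hca⟩ := Cfsg.NearField.exists_inv a ha
        have hc0 : c ≠ 0 := fun h => by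
          rw [h, hzm] at hca; exact Cfsg.NearField.zero_ne_one hca
        refine ⟨c, -(b * c), hc0, fun x => σ.injective ?_⟩
        rw [Equiv.Perm.inv_def, Equiv.apply_symm_apply, hσ, Cfsg.NearField.right_distrib, hneg,
          mul_assoc, mul_assoc, hca, mul_one, mul_one, neg_add_cancel_right] }
  refine ⟨H, fun σ => Iff.rfl, ?_, ?_⟩
  · rw [MulAction.is_two_pretransitive_iff]
    intro p q r s hpq hrs
    have hne : p + -q ≠ 0 := fun h => hpq (by rw [add_neg_eq_zero] at h; exact h)
    obtain ⟨u, hu1, hu2⟩ := Cfsg.NearField.exists_inv _ hne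
    let a := u * (r + -s)
    have hrs' : r + -s ≠ 0 := fun h => hrs (by rw [add_neg_eq_zero] at h; exact h)
    have hu0 : u ≠ 0 := fun h => by
      rw [h, hzm] at hu2; exact Cfsg.NearField.zero_ne_one hu2
    have ha : a ≠ 0 := hmz _ _ hu0 hrs'
    have key : (p + -q) * a = r + -s := by
      simp only [a]; rw [← mul_assoc, hu1, one_mul]
    let b := -(q * a) + s
    obtain ⟨c, hac, hca⟩ := Cfsg.NearField.exists_inv a ha
    let σ : Equiv.Perm F :=
      { toFun := fun x => x * a + b
        invFun := fun x => (x + -b) * c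
        left_inv := fun x => by simp [mul_assoc, hac]
        right_inv := fun x => by simp [mul_assoc, hca] }
    refine ⟨⟨σ, a, b, ha, fun x => rfl⟩, ?_, ?_⟩
    · change p * a + b = r
      simp only [b]
      rw [← add_assoc, ← hneg, ← Cfsg.NearField.right_distrib, key, neg_add_cancel_right]
    · change q * a + b = s
      simp only [b]
      rw [add_neg_cancel_left]
  · intro x
    refine (Subgroup.eq_bot_iff_forall _).2 ?_
    rintro ⟨σ, hσmem⟩ hfix
    obtain ⟨a, b, ha, hσ⟩ := id hσmem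
    have h0 : σ (x 0) = x 0 := congrArg (fun e : Fin 2 ↪ F => e 0) hfix
    have h1 : σ (x 1) = x 1 := congrArg (fun e : Fin 2 ↪ F => e 1) hfix
    rw [hσ] at h0 h1
    have hne : x 0 + -(x 1) ≠ 0 := fun h => by
      rw [add_neg_eq_zero] at h; exact absurd (x.injective h) (by decide)
    have e1 : (x 0 + -(x 1)) * a = x 0 + -(x 1) := by
      rw [Cfsg.NearField.right_distrib, hneg]
      calc x 0 * a + -(x 1 * a) = (x 0 * a + b) + -(x 1 * a + b) := by simp [add_assoc, neg_add_rev]
        _ = _ := by rw [h0, h1]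
    obtain ⟨u, hu1, hu2⟩ := Cfsg.NearField.exists_inv _ hne
    have ha1 : a = 1 := by
      calc a = (u * (x 0 + -(x 1))) * a := by rw [hu2, one_mul]
        _ = u * ((x 0 + -(x 1)) * a) := mul_assoc _ _ _
        _ = 1 := by rw [e1, hu2]
    subst ha1
    have hb : b = 0 := by rw [mul_one] at h0; exact add_eq_left.1 h0
    exact Subtype.ext (Equiv.Perm.ext fun y => by simp [hσ, hb])

end Cfsg.Agent.S0681
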