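import Cfsg.Statements.S0682
import Mathlib

set_option autoImplicit false
open Cfsg

namespace Cfsg.Agent.S0682


/-- A finite near-field has prime-power order; its additive group is commutative of prime exponent. -/
theorem result {F : Type*} [Cfsg.NearField F] [Finite F] : ∃ p j : ℕ, p.Prime ∧ 1 ≤ j ∧ Nat.card F = p ^ j ∧ (∀ x y : F, x + y = y + x) ∧ ∀ x : F, p • x = 0 := by
  have hzm : ∀ a : F, (0 : F) * a = 0 := by
    intro a
    have h := Cfsg.NearField.right_distrib (0 : F) 0 a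
    rw [add_zero] at h
    simpa using h
  let R : F → F →+ F := fun a => AddMonoidHom.mk' (fun x => x * a) (fun x y => Cfsg.NearField.right_distrib x y a)
  have hRinj : ∀ a : F, a ≠ 0 → Function.Injective (R a) := by
    intro a ha x y h
    obtain ⟨b, hb, -⟩ := Cfsg.NearField.exists_inv a ha
    have h' : x * a = y * a := h
    simpa [mul_assoc, hb] using congrArg (· * b) h'
  have hRsurj : ∀ a : F, a ≠ 0 → Function.Surjective (R a) :=
    fun a ha => (Finite.injective_iff_surjective).1 (hRinj a ha)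
  have htrans : ∀ x y : F, x ≠ 0 → y ≠ 0 → ∃ a : F, a ≠ 0 ∧ R a x = y := by
    intro x y hx hy
    obtain ⟨b, hb, -⟩ := Cfsg.NearField.exists_inv x hx
    refine ⟨b * y, fun h => hy ?_, ?_⟩
    · have : x * (b * y) = y := by rw [← mul_assoc, hb, one_mul]
      rw [← this, h]; exact Cfsg.NearField.mul_zero x
    · change x * (b * y) = y
      rw [← mul_assoc, hb, one_mul]
  haveI : Nontrivial F := ⟨⟨0, 1, Cfsg.NearField.zero_ne_one⟩⟩
  have hcard : 1 < Nat.card F := Finite.one_lt_card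
  obtain ⟨p, hp, hpdvd⟩ := Nat.exists_prime_and_dvd (show Nat.card F ≠ 1 by omega)
  haveI : Fact p.Prime := ⟨hp⟩
  obtain ⟨x₀, hx₀⟩ := exists_prime_addOrderOf_dvd_card' p hpdvd
  have hx0 : x₀ ≠ 0 := fun h => by rw [h, addOrderOf_zero] at hx₀; exact hp.one_lt.ne hx₀
  have hexp : ∀ x : F, p • x = 0 := by
    intro x
    rcases eq_or_ne x 0 with rfl | hx
    · exact nsmul_zero _
    obtain ⟨a, -, rfl⟩ := htrans x₀ x hx0 hx
    rw [← map_nsmul, ← hx₀, addOrderOf_nsmul_eq_zero, map_zero]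
  have hpg : IsPGroup p (Multiplicative F) := fun g => ⟨1, by
    rw [pow_one]; exact congrArg Multiplicative.ofAdd (hexp g.toAdd)⟩
  obtain ⟨j, hj⟩ := IsPGroup.iff_card.1 hpg
  have hj' : Nat.card F = p ^ j := hj
  refine ⟨p, j, hp, ?_, hj', ?_, hexp⟩
  · rcases Nat.eq_zero_or_pos j with h0 | h0
    · rw [h0, pow_zero] at hj'; omega
    · exact h0
  have hcn := hpg.center_nontrivial
  obtain ⟨⟨z, hz⟩, hzne⟩ := exists_ne (1 : Subgroup.center (Multiplicative F))
  have hz0 : z.toAdd ≠ 0 := fun h => hzne (Subtype.ext (Multiplicative.toAdd.injective h))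
  have hzc : ∀ y : F, y + z.toAdd = z.toAdd + y := fun y =>
    congrArg Multiplicative.toAdd (Subgroup.mem_center_iff.1 hz (Multiplicative.ofAdd y))
  intro x y
  rcases eq_or_ne x 0 with rfl | hx
  · simp
  obtain ⟨a, ha, rfl⟩ := htrans z.toAdd x hz0 hx
  obtain ⟨y', rfl⟩ := hRsurj a ha y
  rw [← map_add, ← map_add, hzc]

end Cfsg.Agent.S0682
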