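import Cfsg.Statements.S0683
import Cfsg.Agent.PermGroups.SharplyTwo
import Cfsg.Agent.Eq.Def_Perm

set_option autoImplicit false
open Cfsg

namespace Cfsg.Agent.S0683


/-- A finite sharply doubly transitive permutation group is the affine group of a near-field: the permuted set carries a near-field structure for which the group consists exactly of the maps `x ↦ x * a + b` with `a ≠ 0`. -/
theorem result {α : Type*} [Fintype α] [DecidableEq α] (H : Subgroup (Equiv.Perm α)) [MulAction.IsMultiplyPretransitive H α 2] (hsharp : ∀ x : Fin 2 ↪ α, MulAction.stabilizer H x = ⊥) (h2 : 2 ≤ Fintype.card α) : ∃ _ : Cfsg.NearField α, ∀ σ : Equiv.Perm α, σ ∈ H ↔ ∃ a b : α, a ≠ 0 ∧ ∀ x : α, σ x = x * a + b := by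
  classical
  have h2' : 2 ≤ Nat.card α := by rwa [Nat.card_eq_fintype_card]
  have h2t : MulAction.IsMultiplyPretransitive H α 2 := ‹_›
  obtain ⟨K, p, j, hp, hj, hn, hKn, hKab, hKp, hKtr, hKreg, hKcard, hmem⟩ :=
    CfsgLib.PermGroups.exists_regular_normal_of_sharply_two h2t hsharp h2'
  haveI := hKn
  haveI := hKtr
  have hfix : ∀ {g : H} {a b : α}, a ≠ b → g • a = a → g • b = b → g = 1 :=
    fun hab ha hb => CfsgLib.PermGroups.eq_one_of_fix_two_of_sharp hsharp hab ha hb
  obtain ⟨o, e, hoe⟩ := Fintype.exists_pair_of_one_lt_card (show 1 < Fintype.card α by omega)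
  let eK : K ≃ α := Equiv.ofBijective (fun k : K => k • o)
    (CfsgLib.PermGroups.orbitMap_bijective (hKreg o))
  let kk : α → K := fun x => eK.symm x
  have hkk : ∀ x, (kk x : H) • o = x := fun x => eK.apply_symm_apply x
  have hkk_uniq : ∀ (k : K) x, (k : H) • o = x → kk x = k := fun k x h => by
    rw [← h]; exact eK.symm_apply_apply k
  have hh : ∀ a : α, a ≠ o → ∃ g : H, g • o = o ∧ g • e = a := fun a ha =>
    CfsgLib.PermGroups.exists_stabilizer_smul_eq h2t hoe.symm ha
  choose hmap hmo hme using hh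
  have huniq : ∀ (g : H) (a : α) (ha : a ≠ o), g • o = o → g • e = a → hmap a ha = g := by
    intro g a ha hgo hge
    refine (inv_mul_eq_one.1 (hfix (g := (hmap a ha)⁻¹ * g) hoe ?_ ?_))
    · rw [mul_smul, hgo, inv_smul_eq_iff, hmo]
    · rw [mul_smul, hge, inv_smul_eq_iff, hme]
  let M : α → α → α := fun x a => if ha : a = o then o else hmap a ha • x
  have hM0 : ∀ x, M x o = o := fun x => dif_pos rfl
  have hM : ∀ x a (ha : a ≠ o), M x a = hmap a ha • x := fun x a ha => dif_neg ha
  have hMo : ∀ a, M o a = o := by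
    intro a
    by_cases ha : a = o
    · subst ha; exact hM0 _
    · rw [hM _ _ ha, hmo]
  have hMne : ∀ x a, x ≠ o → a ≠ o → M x a ≠ o := by
    intro x a hx ha h
    rw [hM _ _ ha] at h
    exact hx (smul_left_cancel _ (h.trans (hmo a ha).symm))
  have hone : hmap e hoe.symm = 1 := huniq 1 e hoe.symm (one_smul _ _) (one_smul _ _)
  have hassoc : ∀ x a b, M (M x a) b = M x (M a b) := by
    intro x a b
    by_cases hb : b = o
    · subst hb; rw [hM0, hM0, hM0]
    by_cases ha : a = o
    · subst ha; rw [hM0, hMo, hM0]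
    rw [hM _ b hb, hM _ a ha, hM x (M a b) (hMne a b ha hb),
      huniq (hmap b hb * hmap a ha) (M a b) _ (by rw [mul_smul, hmo, hmo])
        (by rw [mul_smul, hme, hM _ _ hb]), mul_smul]
  letI addgrp : AddGroup α :=
    { zero := o
      add := fun x y => (kk x : H) • y
      neg := fun x => (((kk x)⁻¹ : K) : H) • o
      nsmul := @nsmulRec α ⟨o⟩ ⟨fun x y => (kk x : H) • y⟩
      zsmul := @zsmulRec α ⟨o⟩ ⟨fun x y => (kk x : H) • y⟩ ⟨fun x => (((kk x)⁻¹ : K) : H) • o⟩
        (@nsmulRec α ⟨o⟩ ⟨fun x y => (kk x : H) • y⟩)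
      add_assoc := fun x y z => by
        change (kk ((kk x : H) • y) : H) • z = (kk x : H) • (kk y : H) • z
        rw [hkk_uniq (kk x * kk y) _ (by rw [Subgroup.coe_mul, mul_smul, hkk]), Subgroup.coe_mul,
          mul_smul]
      zero_add := fun x => by
        change (kk o : H) • x = x
        rw [hkk_uniq 1 o (one_smul _ _), Subgroup.coe_one, one_smul]
      add_zero := fun x => hkk x
      neg_add_cancel := fun x => by
        change (kk ((((kk x)⁻¹ : K) : H) • o) : H) • x = o
        rw [hkk_uniq (kk x)⁻¹ _ rfl, Subgroup.coe_inv, inv_smul_eq_iff]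
        exact (hkk x).symm }
  letI mon : Monoid α :=
    { one := e
      mul := M
      mul_assoc := hassoc
      one_mul := fun a => by
        change M e a = a
        by_cases ha : a = o
        · subst ha; exact hM0 _
        · rw [hM _ _ ha, hme]
      mul_one := fun a => by
        change M a e = a
        rw [hM _ _ hoe.symm, hone, one_smul] }
  have hdist : ∀ x y c : α, (x + y) * c = x * c + y * c := by
    intro x y c
    change M ((kk x : H) • y) c = (kk (M x c) : H) • M y c
    by_cases hc : c = o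
    · rw [hc, hM0, hM0, hM0, hkk_uniq 1 o (one_smul _ _), Subgroup.coe_one, one_smul]
    rw [hM _ _ hc, hM _ _ hc, hM _ _ hc,
      hkk_uniq ⟨hmap c hc * kk x * (hmap c hc)⁻¹, hKn.conj_mem _ (kk x).2 _⟩ (hmap c hc • x)
        (by rw [mul_smul, mul_smul, inv_smul_eq_iff.2 (hmo c hc).symm, hkk])]
    simp [mul_smul]
  let NF : Cfsg.NearField α :=
    { addgrp, mon with
      right_distrib := hdist
      mul_zero := fun a => hM0 a
      zero_ne_one := hoe
      exists_inv := fun a ha => by
        have hb : (hmap a ha)⁻¹ • e ≠ o := fun h => hoe.symm (by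
          rw [inv_smul_eq_iff, hmo] at h; exact h)
        refine ⟨(hmap a ha)⁻¹ • e, ?_, ?_⟩
        · change M a _ = e
          rw [hM _ _ hb, huniq (hmap a ha)⁻¹ _ hb (by rw [inv_smul_eq_iff, hmo]) rfl,
            inv_smul_eq_iff, hme]
        · change M _ a = e
          rw [hM _ _ ha, smul_inv_smul] }
  have hcomm : ∀ x y : α, (kk x : H) • y = (kk y : H) • x := by
    intro x y
    conv_lhs => rw [← hkk y, smul_smul]
    conv_rhs => rw [← hkk x, smul_smul]
    rw [congrArg Subtype.val (hKab.is_comm.comm (kk x) (kk y)) |> fun h =>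
      (show (kk x : H) * kk y = kk y * kk x from h)]
  refine ⟨NF, fun σ => ⟨fun hσ => ?_, ?_⟩⟩
  · let g : H := ⟨σ, hσ⟩
    let b := g • o
    let g' := (kk b : H)⁻¹ * g
    have hg'o : g' • o = o := by
      rw [mul_smul, inv_smul_eq_iff]; exact (hkk b).symm
    have ha : g' • e ≠ o := fun h => hoe.symm (smul_left_cancel g' (h.trans hg'o.symm))
    refine ⟨g' • e, b, ha, fun x => ?_⟩
    change g • x = (kk (M x (g' • e)) : H) • b
    rw [hcomm, hM _ _ ha, huniq g' _ ha hg'o rfl, smul_smul, mul_inv_cancel_left]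
  · rintro ⟨a, b, ha, hσ⟩
    have heq : σ = (((kk b : H) * hmap a ha : H) : Equiv.Perm α) := Equiv.ext fun x => by
      rw [hσ]
      change (kk (M x a) : H) • b = ((kk b : H) * hmap a ha) • x
      rw [hcomm, hM _ _ ha, mul_smul]
    rw [heq]
    exact SetLike.coe_mem _

end Cfsg.Agent.S0683
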