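import Cfsg.Statements.S0684
import Cfsg.Agent.PermGroups.FPFLinear

set_option autoImplicit false
open Cfsg

namespace Cfsg.Agent.S0684

open CfsgLib.PermGroups.FPFLinear in
theorem exists_reducible_vector {p : ℕ} [Fact p.Prime] {V : Type*} [AddCommGroup V]
    [Module (ZMod p) V] [Finite V] (H : Subgroup (V ≃ₗ[ZMod p] V))
    (hI : ∀ A : Subgroup H, A.Normal → IsCyclic A → ∃ W : Submodule (ZMod p) V, W ≠ ⊥ ∧ W ≠ ⊤ ∧ ∀ a ∈ A, ∀ v ∈ W, ((a : H) : V ≃ₗ[ZMod p] V) v ∈ W)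
    (A : Subgroup H) [A.Normal] (hAc : IsMulCommutative A) :
    ∃ v : V, v ≠ 0 ∧ cyc A v ≠ ⊤ := by
  haveI : Nontrivial V := by
    obtain ⟨W, hW, -, -⟩ := hI ⊥ inferInstance inferInstance
    obtain ⟨v, -, hv⟩ := Submodule.exists_mem_ne_zero_of_ne_bot hW
    exact ⟨v, 0, hv⟩
  by_contra hirr
  push Not at hirr
  haveI := isDomain_algOf_of_commute (M := A) (N := A)
    (fun m hm n hn => congrArg Subtype.val (hAc.is_comm.comm (⟨m, hm⟩ : A) ⟨n, hn⟩)) hirr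
  obtain ⟨W, hW0, hWtop, hWinv⟩ := hI A inferInstance (isCyclic_of_isDomain A)
  obtain ⟨v, hv, hv0⟩ := Submodule.exists_mem_ne_zero_of_ne_bot hW0
  exact hWtop (eq_top_iff.2 (hirr v hv0 ▸ cyc_le hWinv hv))


/-- Point stabiliser of a sharply doubly transitive group not of semilinear type: a maximal normal abelian subgroup `A` of a linear group `H` that is regular on non-zero vectors and has no irreducible cyclic normal subgroup is cyclic and reducible, and the order of `A` divides `p ^ k - 1` for `k` the dimension of a minimal `A`-invariant subspace. -/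
theorem result {p : ℕ} [Fact p.Prime] {V : Type*} [AddCommGroup V] [Module (ZMod p) V] [Finite V] (H : Subgroup (V ≃ₗ[ZMod p] V)) (hreg : ∀ v w : V, v ≠ 0 → w ≠ 0 → ∃! h : H, (h : V ≃ₗ[ZMod p] V) v = w) (hI : ∀ A : Subgroup H, A.Normal → IsCyclic A → ∃ W : Submodule (ZMod p) V, W ≠ ⊥ ∧ W ≠ ⊤ ∧ ∀ a ∈ A, ∀ v ∈ W, ((a : H) : V ≃ₗ[ZMod p] V) v ∈ W) (A : Subgroup H) (hAn : A.Normal) (hAc : IsMulCommutative A) (hAmax : ∀ B : Subgroup H, B.Normal → IsMulCommutative B → A ≤ B → B = A) : IsCyclic A ∧ ∃ W : Submodule (ZMod p) V, W ≠ ⊥ ∧ W ≠ ⊤ ∧ (∀ a ∈ A, ∀ v ∈ W, ((a : H) : V ≃ₗ[ZMod p] V) v ∈ W) ∧ (∀ W' : Submodule (ZMod p) V, W' ≤ W → (∀ a ∈ A, ∀ v ∈ W', ((a : H) : V ≃ₗ[ZMod p] V) v ∈ W') → W' = ⊥ ∨ W' = W) ∧ Nat.card A ∣ p ^ Module.finrank (ZMod p) W - 1 := by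
  open CfsgLib.PermGroups.FPFLinear in
  obtain ⟨ht, -⟩ := trans_free_of_regular hreg
  haveI := hAn
  have hred := exists_reducible_vector H hI A hAc
  obtain ⟨v, hv0, hv⟩ := id hred
  refine ⟨CfsgLib.PermGroups.FPFLinear.isCyclic_of_reducible ht hred,
    CfsgLib.PermGroups.FPFLinear.cyc A v, ?_, hv, CfsgLib.PermGroups.FPFLinear.cyc_inv A v, ?_, ?_⟩
  · intro h
    exact hv0 ((Submodule.mem_bot _).1 (h ▸ CfsgLib.PermGroups.FPFLinear.self_mem_cyc A v))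
  · intro W' hle hinv
    exact CfsgLib.PermGroups.FPFLinear.cyc_minimal ht hv0 hinv hle
  · have h := CfsgLib.PermGroups.FPFLinear.card_dvd_of_reducible ht hred hv0
    rwa [Module.natCard_eq_pow_finrank (K := ZMod p) (V := CfsgLib.PermGroups.FPFLinear.cyc A v), Nat.card_zmod] at h

end Cfsg.Agent.S0684
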