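import Cfsg.Statements.S0685
import Cfsg.Agent.S0684

set_option autoImplicit false
open Cfsg

namespace Cfsg.Agent.S0685


/-- In a linear group over the prime field that is regular on non-zero vectors and has no irreducible cyclic normal subgroup, a maximal normal abelian subgroup is properly contained in its centraliser, which is non-abelian. -/
theorem result {p : ℕ} [Fact p.Prime] {V : Type*} [AddCommGroup V] [Module (ZMod p) V] [Finite V] (H : Subgroup (V ≃ₗ[ZMod p] V)) (hreg : ∀ v w : V, v ≠ 0 → w ≠ 0 → ∃! h : H, (h : V ≃ₗ[ZMod p] V) v = w) (hI : ∀ A : Subgroup H, A.Normal → IsCyclic A → ∃ W : Submodule (ZMod p) V, W ≠ ⊥ ∧ W ≠ ⊤ ∧ ∀ a ∈ A, ∀ v ∈ W, ((a : H) : V ≃ₗ[ZMod p] V) v ∈ W) (A : Subgroup H) (hAn : A.Normal) (hAc : IsMulCommutative A) (hAmax : ∀ B : Subgroup H, B.Normal → IsMulCommutative B → A ≤ B → B = A) : A < Subgroup.centralizer (A : Set H) ∧ ¬ IsMulCommutative (Subgroup.centralizer (A : Set H)) := by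
  open CfsgLib.PermGroups.FPFLinear in
  obtain ⟨ht, hf⟩ := trans_free_of_regular hreg
  haveI := hAn
  haveI : Subgroup.Normal (Subgroup.centralizer (A : Set H)) := inferInstance
  have hred := Cfsg.Agent.S0684.exists_reducible_vector H hI A hAc
  have hle : A ≤ Subgroup.centralizer (A : Set H) := fun a ha =>
    Subgroup.mem_centralizer_iff.2 fun b hb =>
      congrArg Subtype.val (hAc.is_comm.comm (⟨b, hb⟩ : A) ⟨a, ha⟩)
  have hlt : A < Subgroup.centralizer (A : Set H) := by
    refine lt_of_le_of_ne hle fun heq => ?_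
    obtain ⟨u, hu0, hu⟩ := id hred
    set W := CfsgLib.PermGroups.FPFLinear.cyc A u
    have hindex := CfsgLib.PermGroups.FPFLinear.index_le_of_self_centralizing ht hred heq.ge hu0
    have hdvd := CfsgLib.PermGroups.FPFLinear.card_dvd_of_reducible ht hred hu0
    rw [Module.natCard_eq_pow_finrank (K := ZMod p) (V := W), Nat.card_zmod] at hdvd
    have hp := (Fact.out : p.Prime)
    set k := Module.finrank (ZMod p) W
    have hk : 0 < k := Module.finrank_pos_iff.2 ⟨⟨⟨u, CfsgLib.PermGroups.FPFLinear.self_mem_cyc A u⟩, 0,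
      fun h => hu0 (congrArg Subtype.val h)⟩⟩
    obtain ⟨w, hw⟩ : ∃ w, w ∉ W := by
      by_contra hall
      push Not at hall
      exact hu (eq_top_iff.2 fun x _ => hall x)
    have hw0 : w ≠ 0 := fun h => hw (h ▸ zero_mem _)
    have hdisj : W ⊓ CfsgLib.PermGroups.FPFLinear.cyc A w = ⊥ := by
      have hinv0 : CfsgLib.PermGroups.FPFLinear.MInv A
          (W ⊓ CfsgLib.PermGroups.FPFLinear.cyc A w) := fun m hm x hx =>
        ⟨CfsgLib.PermGroups.FPFLinear.cyc_inv A u m hm x hx.1,
          CfsgLib.PermGroups.FPFLinear.cyc_inv A w m hm x hx.2⟩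
      refine (CfsgLib.PermGroups.FPFLinear.cyc_minimal ht hw0 hinv0 inf_le_right).resolve_right ?_
      intro h
      exact hw (inf_le_left (a := W) (h.symm ▸ CfsgLib.PermGroups.FPFLinear.self_mem_cyc A w))
    have hdimW : Module.finrank (ZMod p) (CfsgLib.PermGroups.FPFLinear.cyc A w) = k := by
      obtain ⟨h, hh⟩ := ht u w hu0 hw0
      have hinv : CfsgLib.PermGroups.FPFLinear.MInv A
          (W.map ((h : V ≃ₗ[ZMod p] V) : V →ₗ[ZMod p] V)) := by
        rintro m hm _ ⟨x, hx, rfl⟩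
        refine ⟨((h⁻¹ * m * h : H) : V ≃ₗ[ZMod p] V) x,
          CfsgLib.PermGroups.FPFLinear.cyc_inv A u _ (by simpa using hAn.conj_mem m hm h⁻¹) x hx, ?_⟩
        simp [LinearEquiv.mul_apply]
      have hinv' : CfsgLib.PermGroups.FPFLinear.MInv A
          ((CfsgLib.PermGroups.FPFLinear.cyc A w).map
            (((h⁻¹ : H) : V ≃ₗ[ZMod p] V) : V →ₗ[ZMod p] V)) := by
        rintro m hm _ ⟨x, hx, rfl⟩
        refine ⟨((h * m * h⁻¹ : H) : V ≃ₗ[ZMod p] V) x,
          CfsgLib.PermGroups.FPFLinear.cyc_inv A w _ (hAn.conj_mem m hm h) x hx, ?_⟩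
        simp [LinearEquiv.mul_apply]
      refine le_antisymm ?_ ?_
      · exact (Submodule.finrank_mono (CfsgLib.PermGroups.FPFLinear.cyc_le hinv
          ⟨u, CfsgLib.PermGroups.FPFLinear.self_mem_cyc A u, hh⟩)).trans_eq
            (LinearEquiv.finrank_map_eq _ _)
      · exact (Submodule.finrank_mono (CfsgLib.PermGroups.FPFLinear.cyc_le hinv'
          ⟨w, CfsgLib.PermGroups.FPFLinear.self_mem_cyc A w, by simp [← hh]⟩)).trans_eq
            (LinearEquiv.finrank_map_eq _ _)
    have hdim : 2 * k ≤ Module.finrank (ZMod p) V := by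
      have h1 := Submodule.finrank_sup_add_finrank_inf_eq W (CfsgLib.PermGroups.FPFLinear.cyc A w)
      rw [hdisj, finrank_bot, hdimW] at h1
      have h2 := Submodule.finrank_le (W ⊔ CfsgLib.PermGroups.FPFLinear.cyc A w)
      omega
    classical
    haveI := Fintype.ofFinite V
    haveI : Finite H := CfsgLib.PermGroups.FPFLinear.finite_group
    have hcard : Nat.card H = Nat.card V - 1 := by
      rw [Nat.card_eq_fintype_card (α := V), ← Finset.card_univ,
        ← Finset.card_erase_of_mem (Finset.mem_univ (0 : V)), ← Fintype.card_coe,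
        ← Nat.card_eq_fintype_card]
      refine Nat.card_eq_of_bijective (fun h => ⟨(h : V ≃ₗ[ZMod p] V) u, Finset.mem_erase.2
        ⟨fun e => hu0 ((LinearEquiv.map_eq_zero_iff _).1 e), Finset.mem_univ _⟩⟩) ⟨?_, ?_⟩
      · intro h₁ h₂ e
        exact (hreg u _ hu0 (fun e' => hu0 ((LinearEquiv.map_eq_zero_iff _).1 e'))).unique
          (congrArg Subtype.val e) rfl
      · rintro ⟨x, hx⟩
        obtain ⟨h, hh⟩ := ht u x hu0 (Finset.ne_of_mem_erase hx)
        exact ⟨h, Subtype.ext hh⟩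
    rw [Module.natCard_eq_pow_finrank (K := ZMod p) (V := V), Nat.card_zmod,
      ← Subgroup.card_mul_index A] at hcard
    have hpk : 1 < p ^ k := Nat.one_lt_pow hk.ne' hp.one_lt
    have hA : Nat.card A ≤ p ^ k - 1 := Nat.le_of_dvd (by omega) hdvd
    have h1 : Nat.card A * A.index ≤ (p ^ k - 1) * k := Nat.mul_le_mul hA hindex
    have h2 : p ^ (2 * k) ≤ p ^ Module.finrank (ZMod p) V := Nat.pow_le_pow_right hp.pos hdim
    have h3 : k < p ^ k := Nat.lt_pow_self hp.one_lt
    obtain ⟨m, hm⟩ : ∃ m, p ^ k = m + 2 := ⟨p ^ k - 2, by omega⟩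
    rw [two_mul, pow_add, hm] at h2
    rw [hm, show m + 2 - 1 = m + 1 by omega] at h1
    have h4 : (m + 1) * k ≤ (m + 1) * (m + 1) := Nat.mul_le_mul_left _ (by omega)
    have h5 : (m + 2) * (m + 2) = (m + 1) * (m + 1) + (2 * m + 3) := by ring
    omega
  refine ⟨hlt, fun hC => hlt.ne ((hAmax _ inferInstance hC hle).symm)⟩

end Cfsg.Agent.S0685
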