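import Cfsg.Statements.S0687
import Cfsg.Agent.PermGroups.FPFLinear

set_option autoImplicit false
open Cfsg

namespace Cfsg.Agent.S0687


/-- In a linear group over the prime field that is regular on non-zero vectors and has no irreducible cyclic normal subgroup, a normal subgroup `N` minimal among the non-abelian normal subgroups centralising a maximal normal abelian subgroup `A` is irreducible on `V`, and its centraliser is `A`. -/
theorem result {p : ℕ} [Fact p.Prime] {V : Type*} [AddCommGroup V] [Module (ZMod p) V] [Finite V] (H : Subgroup (V ≃ₗ[ZMod p] V)) (hreg : ∀ v w : V, v ≠ 0 → w ≠ 0 → ∃! h : H, (h : V ≃ₗ[ZMod p] V) v = w) (hI : ∀ A : Subgroup H, A.Normal → IsCyclic A → ∃ W : Submodule (ZMod p) V, W ≠ ⊥ ∧ W ≠ ⊤ ∧ ∀ a ∈ A, ∀ v ∈ W, ((a : H) : V ≃ₗ[ZMod p] V) v ∈ W) (A : Subgroup H) (hAn : A.Normal) (hAc : IsMulCommutative A) (hAmax : ∀ B : Subgroup H, B.Normal → IsMulCommutative B → A ≤ B → B = A) (N : Subgroup H) (hNn : N.Normal) (hNle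 : N ≤ Subgroup.centralizer (A : Set H)) (hNna : ¬ IsMulCommutative N) (hNmin : ∀ M : Subgroup H, M.Normal → M ≤ N → ¬ IsMulCommutative M → M = N) : (∀ W : Submodule (ZMod p) V, (∀ n ∈ N, ∀ v ∈ W, ((n : H) : V ≃ₗ[ZMod p] V) v ∈ W) → W = ⊥ ∨ W = ⊤) ∧ Subgroup.centralizer (N : Set H) = A := by
  open CfsgLib.PermGroups.FPFLinear in
  obtain ⟨ht, -⟩ := trans_free_of_regular hreg
  haveI := hNn
  haveI := hAn
  haveI : Nontrivial V := by
    obtain ⟨W, hW, -, -⟩ := hI ⊥ inferInstance inferInstance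
    obtain ⟨v, -, hv⟩ := Submodule.exists_mem_ne_zero_of_ne_bot hW
    exact ⟨v, 0, hv⟩
  have hirr : ∀ u : V, u ≠ 0 → CfsgLib.PermGroups.FPFLinear.cyc N u = ⊤ := by
    intro u hu
    by_contra h
    exact hNna (CfsgLib.PermGroups.FPFLinear.isMulCommutative_of_reducible ht ⟨u, hu, h⟩)
  refine ⟨fun W hW => ?_, ?_⟩
  · refine or_iff_not_imp_left.2 fun hW0 => ?_
    obtain ⟨v, hv, hv0⟩ := Submodule.exists_mem_ne_zero_of_ne_bot hW0
    exact eq_top_iff.2 (hirr v hv0 ▸ CfsgLib.PermGroups.FPFLinear.cyc_le hW hv)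
  · haveI := CfsgLib.PermGroups.FPFLinear.isDomain_algOf_of_commute
      (M := Subgroup.centralizer (N : Set H)) (N := N)
      (fun m hm n hn => (Subgroup.mem_centralizer_iff.1 hm n hn).symm) hirr
    refine hAmax _ inferInstance
      (CfsgLib.PermGroups.FPFLinear.isMulCommutative_of_isDomain _) fun a ha => ?_
    exact Subgroup.mem_centralizer_iff.2 fun n hn =>
      (Subgroup.mem_centralizer_iff.1 (hNle hn) a ha).symm

end Cfsg.Agent.S0687
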