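import Cfsg.Statements.S0688
import Cfsg.Agent.RegularSolvable.Main
-- import your own Cfsg.Agent.* helpers here

set_option autoImplicit false
open Cfsg

namespace Cfsg.Agent.S0688

/-- Degrees of the soluble exceptional sharply doubly transitive groups: if a solvable linear group over the prime field is regular on the non-zero vectors of `V` and has no irreducible cyclic normal subgroup, then `V` has 25, 49, 121 or 529 elements. -/
theorem result {p : ℕ} [Fact p.Prime] {V : Type*} [AddCommGroup V] [Module (ZMod p) V] [Finite V] (H : Subgroup (V ≃ₗ[ZMod p] V)) (hreg : ∀ v w : V, v ≠ 0 → w ≠ 0 → ∃! h : H, (h : V ≃ₗ[ZMod p] V) v = w) (hI : ∀ A : Subgroup H, A.Normal → IsCyclic A → ∃ W : Submodule (ZMod p) V, W ≠ ⊥ ∧ W ≠ ⊤ ∧ ∀ a ∈ A, ∀ v ∈ W, ((a : H) : V ≃ₗ[ZMod p] V) v ∈ W) (hsolv : Group.IsSolvable H) : Nat.card V = 25 ∨ Nat.card V = 49 ∨ Nat.card V = 121 ∨ Nat.card V = 529 := by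
  
  obtain ⟨ht, hf⟩ := CfsgLib.PermGroups.FPFLinear.trans_free_of_regular hreg
  haveI : Nontrivial V := by
    obtain ⟨W, hW, -, -⟩ := hI ⊥ inferInstance inferInstance
    obtain ⟨v, -, hv⟩ := Submodule.exists_mem_ne_zero_of_ne_bot hW
    exact ⟨v, 0, hv⟩
  have hno : ¬ ∃ B : Subgroup H, CfsgLib.RegularSolvable.Good B := by
    rintro ⟨B, hBn, hBc, hBi⟩
    haveI := hBn
    haveI := CfsgLib.PermGroups.FPFLinear.isDomain_algOf_of_commute (M := B) (N := B)
      (fun m hm n hn => congrArg Subtype.val (hBc.is_comm.comm (⟨m, hm⟩ : B) ⟨n, hn⟩)) hBi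
    obtain ⟨W, hW0, hWtop, hWinv⟩ := hI B hBn (CfsgLib.PermGroups.FPFLinear.isCyclic_of_isDomain B)
    obtain ⟨v, hv, hv0⟩ := Submodule.exists_mem_ne_zero_of_ne_bot hW0
    exact hWtop (eq_top_iff.2 (hBi v hv0 ▸ CfsgLib.PermGroups.FPFLinear.cyc_le hWinv hv))
  rcases CfsgLib.RegularSolvable.exists_good_or_quaternion ht hf hsolv with h | ⟨h2, P, hP, ⟨e⟩, hC⟩
  · exact absurd h hno
  haveI := hP
  simpa [hno] using (CfsgLib.RegularSolvable.quaternion_case ht hf h2 P e hC).1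

end Cfsg.Agent.S0688
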