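import Cfsg.Statements.S0691
import Cfsg.Agent.RegularSolvable.Words
-- import your own Cfsg.Agent.* helpers here

set_option autoImplicit false
open Cfsg

namespace Cfsg.Agent.S0691

set_option maxHeartbeats 1000000

instance fact_prime : Fact (Nat.Prime 5) := ⟨by decide⟩

/-- An exceptional sharply doubly transitive group of degree 5^2: the listed matrices generate a subgroup of GL(2,5) of order 24 acting regularly on the non-zero vectors. -/
theorem result (A : Matrix.GeneralLinearGroup (Fin 2) (ZMod 5)) (B : Matrix.GeneralLinearGroup (Fin 2) (ZMod 5)) (C : Matrix.GeneralLinearGroup (Fin 2) (ZMod 5)) (hA : (A : Matrix (Fin 2) (Fin 2) (ZMod 5)) = !![2, 0; 0, -2]) (hB : (B : Matrix (Fin 2) (Fin 2) (ZMod 5)) = !![0, -1; 1, 0]) (hC : (C : Matrix (Fin 2) (Fin 2) (ZMod 5)) = !![1, 2; 1, -2]) : Nat.card (Subgroup.closure ({A, B, C} : Set (Matrix.GeneralLinearGroup (Fin 2) (ZMod 5)))) = 24 ∧ ∀ v w : Fin 2 → ZMod 5, v ≠ 0 → w ≠ 0 → ∃! h : Subgroup.closure ({A,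 B, C} : Set (Matrix.GeneralLinearGroup (Fin 2) (ZMod 5))), Matrix.mulVec ((h : Matrix.GeneralLinearGroup (Fin 2) (ZMod 5)) : Matrix (Fin 2) (Fin 2) (ZMod 5)) v = w := by
  
  have hset : ({A, B, C} : Set (Matrix.GeneralLinearGroup (Fin 2) (ZMod 5))) = Set.range ![A, B, C] := by
    ext x; simp [eq_comm]; tauto
  rw [hset]

  exact CfsgLib.RegularSolvable.regular_of_words (p := 5) (k := 3) ![A, B, C] (![!![2, 0; 0, 3], !![0, 4; 1, 0], !![1, 2; 1, 3]] : Fin 3 → Matrix (Fin 2) (Fin 2) (ZMod 5))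
    (by
      intro i
      fin_cases i
      · exact hA.trans (by decide +kernel)
      · exact hB.trans (by decide +kernel)
      · exact hC.trans (by decide +kernel))
    ([[], [0], [1], [2], [0, 0], [0, 1], [0, 2], [1, 0], [1, 2], [2, 0], [2, 2], [0, 0, 0], [0, 0, 1], [0, 0, 2], [0, 1, 2], [0, 2, 2], [1, 2, 0], [1, 2, 2], [2, 0, 1], [2, 0, 2], [0, 0, 2, 2], [0, 1, 2, 2], [1, 2, 0, 2], [2, 0, 1, 2]] : List (List (Fin 3))) (by decide +kernel) (by decide +kernel) (by decide +kernel) (by decide +kernel) (by decide +kernel)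

end Cfsg.Agent.S0691
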