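import Cfsg.Statements.S0693
import Cfsg.Agent.SharpTwo59.Check

set_option autoImplicit false
open Cfsg

namespace Cfsg.Agent.S0693

open CfsgLib.SharpTwo59

def toM (a : Q) : Matrix (Fin 2) (Fin 2) (ZMod 59) :=
  !![(a.1 : ZMod 59), (a.2.1 : ZMod 59); (a.2.2.1 : ZMod 59), (a.2.2.2 : ZMod 59)]

theorem toM_mul (a b : Q) : toM (mulQ a b) = toM a * toM b := by
  simp [toM, mulQ, ZMod.natCast_mod]

theorem toM_scale (c : ℕ) (a : Q) : toM (scaleQ c a) = (c : ZMod 59) • toM a := by
  simp [toM, scaleQ, ZMod.natCast_mod]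

theorem getL_mem (j : ℕ) (hj : j < 120) : getL j ∈ regL := by
  rw [getL, List.getD_eq_getElem _ _ (by rw [regL_length]; exact hj)]
  exact List.getElem_mem _

theorem main_regular (A B C : Matrix.GeneralLinearGroup (Fin 2) (ZMod 59))
    (hA : (A : Matrix (Fin 2) (Fin 2) (ZMod 59)) = !![0, -1; 1, 0])
    (hB : (B : Matrix (Fin 2) (Fin 2) (ZMod 59)) = !![9, 15; -10, -10])
    (hC : (C : Matrix (Fin 2) (Fin 2) (ZMod 59)) = !![4, 0; 0, 4]) :
    Nat.card (Subgroup.closure ({A, B, C} : Set (Matrix.GeneralLinearGroup (Fin 2) (ZMod 59)))) = 3480 ∧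
    ∀ v w : Fin 2 → ZMod 59, v ≠ 0 → w ≠ 0 →
      ∃! h : Subgroup.closure ({A, B, C} : Set (Matrix.GeneralLinearGroup (Fin 2) (ZMod 59))),
        Matrix.mulVec ((h : Matrix.GeneralLinearGroup (Fin 2) (ZMod 59)) : Matrix (Fin 2) (Fin 2) (ZMod 59)) v = w := by
  classical
  haveI : Fact (Nat.Prime 59) := ⟨by norm_num⟩
  set G := Subgroup.closure ({A, B, C} : Set (Matrix.GeneralLinearGroup (Fin 2) (ZMod 59))) with hG
  have hA' : (A : Matrix (Fin 2) (Fin 2) (ZMod 59)) = toM genA := by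
    rw [hA, toM, genA]; ext i j; fin_cases i <;> fin_cases j <;> decide
  have hB' : (B : Matrix (Fin 2) (Fin 2) (ZMod 59)) = toM genB := by
    rw [hB, toM, genB]; ext i j; fin_cases i <;> fin_cases j <;> decide
  have hC' : (C : Matrix (Fin 2) (Fin 2) (ZMod 59)) = (4 : ZMod 59) • 1 := by
    rw [hC]; ext i j; fin_cases i <;> fin_cases j <;> simp
  have hCpow : ∀ i : ℕ, ((C ^ i : Matrix.GeneralLinearGroup (Fin 2) (ZMod 59)) : Matrix (Fin 2) (Fin 2) (ZMod 59))
      = ((4 ^ i % 59 : ℕ) : ZMod 59) • 1 := by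
    intro i
    rw [Units.val_pow_eq_pow_val, hC', smul_pow, one_pow, ZMod.natCast_mod]
    simp
  let T : Set (Matrix.GeneralLinearGroup (Fin 2) (ZMod 59)) :=
    {g | ∃ i : ℕ, ∃ s ∈ regL, (g : Matrix (Fin 2) (Fin 2) (ZMod 59)) = ((4 ^ i % 59 : ℕ) : ZMod 59) • toM s}
  have hstep : ∀ x ∈ ({A, B, C} : Set (Matrix.GeneralLinearGroup (Fin 2) (ZMod 59))), ∀ g ∈ T, g * x ∈ T := by
    have hcl : ∀ s ∈ regL, mulQ s genA ∈ regL ∧ mulQ s genB ∈ regL := by
      intro s hs
      have := List.all_eq_true.mp checkClosed_true s hs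
      simpa [memQ, Bool.and_eq_true, List.any_eq_true] using this
    rintro x (rfl | rfl | rfl) g ⟨i, s, hs, hg⟩
    · exact ⟨i, _, (hcl s hs).1, by rw [Units.val_mul, hg, hA', toM_mul, Matrix.smul_mul]⟩
    · exact ⟨i, _, (hcl s hs).2, by rw [Units.val_mul, hg, hB', toM_mul, Matrix.smul_mul]⟩
    · refine ⟨i + 1, s, hs, ?_⟩
      rw [Units.val_mul, hg, hC', Matrix.mul_smul, mul_one, smul_smul, ZMod.natCast_mod, ZMod.natCast_mod]
      simp [pow_succ, mul_comm]
  have hsub : ∀ g ∈ G, g ∈ T := by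
    let K : Subgroup (Matrix.GeneralLinearGroup (Fin 2) (ZMod 59)) :=
      { carrier := {x | ∀ g, g ∈ T ↔ g * x ∈ T}
        one_mem' := fun g => by rw [mul_one]
        mul_mem' := fun {x y} hx hy g => by rw [← mul_assoc]; exact (hx g).trans (hy (g * x))
        inv_mem' := fun {x} hx g => by
          have := hx (g * x⁻¹)
          rw [inv_mul_cancel_right] at this
          exact this.symm }
    have hle : G ≤ K := by
      rw [hG, Subgroup.closure_le]
      intro x hx g
      refine ⟨hstep x hx g, fun h => ?_⟩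
      have himg : (fun y => y * x) '' T = T := Set.eq_of_subset_of_ncard_le
        (by rintro _ ⟨y, hy, rfl⟩; exact hstep x hx y hy)
        (by rw [Set.ncard_image_of_injective _ (mul_left_injective x)]) (Set.toFinite _)
      obtain ⟨y, hy, hyx⟩ : g * x ∈ (fun y => y * x) '' T := himg.symm ▸ h
      rwa [← mul_right_cancel hyx]
    intro g hg
    have h1 : (1 : Matrix.GeneralLinearGroup (Fin 2) (ZMod 59)) ∈ T := by
      refine ⟨0, (1, 0, 0, 1), ?_, ?_⟩
      · have h0 : getL 0 = (1, 0, 0, 1) := by decide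
        exact h0 ▸ getL_mem 0 (by norm_num)
      · ext i j; fin_cases i <;> fin_cases j <;> simp [toM]
    simpa using (hle hg 1).mp h1
  have hLmem : ∀ j, j < 120 → ∃ g ∈ G, (g : Matrix (Fin 2) (Fin 2) (ZMod 59)) = toM (getL j) := by
    intro j
    induction j using Nat.strong_induction_on with
    | _ j ih =>
      intro hj
      have hc := List.all_eq_true.mp checkParent_true j (List.mem_range.mpr hj)
      by_cases h0 : j = 0
      · rw [if_pos h0, decide_eq_true_eq] at hc
        subst h0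
        refine ⟨1, G.one_mem, ?_⟩
        rw [hc]; ext i j; fin_cases i <;> fin_cases j <;> simp [toM]
      · rw [if_neg h0, Bool.and_eq_true, decide_eq_true_eq, decide_eq_true_eq] at hc
        obtain ⟨g, hg, hge⟩ := ih _ hc.1 (lt_trans hc.1 hj)
        rw [hc.2, toM_mul]
        split
        · exact ⟨g * A, G.mul_mem hg (Subgroup.subset_closure (by simp)), by rw [Units.val_mul, hge, hA']⟩
        · exact ⟨g * B, G.mul_mem hg (Subgroup.subset_closure (by simp)), by rw [Units.val_mul, hge, hB']⟩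
  let e : Fin 2 → ZMod 59 := ![1, 0]
  have htrans : ∀ w : Fin 2 → ZMod 59, w ≠ 0 → ∃ h : G, Matrix.mulVec
      ((h : Matrix.GeneralLinearGroup (Fin 2) (ZMod 59)) : Matrix (Fin 2) (Fin 2) (ZMod 59)) e = w := by
    intro w hw
    have hc := List.all_eq_true.mp (List.all_eq_true.mp checkWit_true (w 0).val
      (List.mem_range.mpr (ZMod.val_lt _))) (w 1).val (List.mem_range.mpr (ZMod.val_lt _))
    rw [if_neg (fun h => hw (funext fun i => by
      fin_cases i
      · exact (ZMod.val_eq_zero (w 0)).mp h.1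
      · exact (ZMod.val_eq_zero (w 1)).mp h.2))] at hc
    simp only [Bool.and_eq_true, decide_eq_true_eq] at hc
    obtain ⟨⟨⟨-, hj⟩, h0⟩, h1⟩ := hc
    generalize (regW.getD (w 0).val []).getD (w 1).val (0, 0) = q at hj h0 h1
    obtain ⟨g, hg, hge⟩ := hLmem q.2 hj
    refine ⟨⟨C ^ q.1 * g, G.mul_mem (G.pow_mem (Subgroup.subset_closure (by simp)) _) hg⟩, ?_⟩
    rw [Units.val_mul, hge, hCpow, Matrix.smul_mul, one_mul, ← toM_scale]
    funext i
    fin_cases i
    · show Matrix.mulVec (toM _) e 0 = w 0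
      simp [toM, e, Matrix.mulVec, dotProduct]
      rw [h0, ZMod.natCast_zmod_val]
    · show Matrix.mulVec (toM _) e 1 = w 1
      simp [toM, e, Matrix.mulVec, dotProduct]
      rw [h1, ZMod.natCast_zmod_val]
  have hfree : ∀ g ∈ G, ∀ v : Fin 2 → ZMod 59, v ≠ 0 →
      Matrix.mulVec (g : Matrix (Fin 2) (Fin 2) (ZMod 59)) v = v → g = 1 := by
    intro g hg v hv hgv
    obtain ⟨i, s, hs, hge⟩ := hsub g hg
    have hper : 4 ^ i % 59 = 4 ^ (i % 29) % 59 := by
      have h29 : (4 ^ 29) % 59 = 1 := by decide +kernel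
      conv_lhs => rw [← Nat.mod_add_div i 29, pow_add, pow_mul, Nat.mul_mod, Nat.pow_mod (4 ^ 29), h29, one_pow]
      simp
    rw [← toM_scale] at hge
    have hsc : 4 ^ i % 59 ∈ scalars := by
      rw [hper]; exact List.mem_map.mpr ⟨i % 29, List.mem_range.mpr (Nat.mod_lt _ (by norm_num)), rfl⟩
    have hc := List.all_eq_true.mp (List.all_eq_true.mp checkFree_true _ hsc) s hs
    simp only [Bool.or_eq_true, decide_eq_true_eq] at hc
    generalize scaleQ (4 ^ i % 59) s = h at hge hc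
    rcases hc with hc | hc
    · apply Units.ext
      rw [hge, hc, Units.val_one]; ext i j; fin_cases i <;> fin_cases j <;> simp [toM]
    · exfalso
      apply hc
      have hz : (toM h - 1).det = 0 := by
        rw [← Matrix.exists_mulVec_eq_zero_iff]
        exact ⟨v, hv, by rw [Matrix.sub_mulVec, Matrix.one_mulVec, ← hge, hgv, sub_self]⟩
      rw [Matrix.det_fin_two] at hz
      simp [toM] at hz
      apply (ZMod.natCast_eq_natCast_iff' _ _ 59).mp
      push_cast
      have h58 : (58 : ZMod 59) = -1 := rfl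
      rw [h58]
      linear_combination hz
  have huniq : ∀ v w : Fin 2 → ZMod 59, v ≠ 0 → w ≠ 0 →
      ∃! h : G, Matrix.mulVec ((h : Matrix.GeneralLinearGroup (Fin 2) (ZMod 59)) : Matrix (Fin 2) (Fin 2) (ZMod 59)) v = w := by
    intro v w hv hw
    obtain ⟨a, ha⟩ := htrans v hv
    obtain ⟨b, hb⟩ := htrans w hw
    refine ⟨b * a⁻¹, ?_, fun h hh => ?_⟩
    · show Matrix.mulVec _ v = w
      rw [← ha, Subgroup.coe_mul, Units.val_mul, Matrix.mulVec_mulVec, Matrix.mul_assoc, Subgroup.coe_inv,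
        Units.inv_mul, Matrix.mul_one, hb]
    · have he : e ≠ 0 := fun h0 => one_ne_zero (α := ZMod 59) (by simpa [e] using congrFun h0 0)
      have hf := hfree ((b⁻¹ * h * a : G) : Matrix.GeneralLinearGroup (Fin 2) (ZMod 59)) (b⁻¹ * h * a : G).2 e he (by
        rw [Subgroup.coe_mul, Subgroup.coe_mul, Units.val_mul, Units.val_mul, ← Matrix.mulVec_mulVec, ha,
          ← Matrix.mulVec_mulVec, hh, ← hb, Matrix.mulVec_mulVec, Subgroup.coe_inv, Units.inv_mul, Matrix.one_mulVec])
      have : b⁻¹ * h * a = 1 := Subtype.ext hf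
      calc h = b * (b⁻¹ * h * a) * a⁻¹ := by group
        _ = b * a⁻¹ := by rw [this, mul_one]
  refine ⟨?_, huniq⟩
  have he : e ≠ 0 := fun h0 => one_ne_zero (α := ZMod 59) (by simpa [e] using congrFun h0 0)
  have hcard : Nat.card G = Nat.card {w : Fin 2 → ZMod 59 // w ≠ 0} := by
    refine Nat.card_eq_of_bijective (fun h : G => ⟨Matrix.mulVec ((h : Matrix.GeneralLinearGroup (Fin 2) (ZMod 59)) : Matrix (Fin 2) (Fin 2) (ZMod 59)) e, ?_⟩) ⟨?_, ?_⟩
    · intro h0
      apply he
      have := congrArg (Matrix.mulVec (((h : Matrix.GeneralLinearGroup (Fin 2) (ZMod 59))⁻¹ : Matrix.GeneralLinearGroup (Fin 2) (ZMod 59)) : Matrix (Fin 2) (Fin 2) (ZMod 59))) h0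
      rwa [Matrix.mulVec_mulVec, Units.inv_mul, Matrix.one_mulVec, Matrix.mulVec_zero] at this
    · intro a b hab
      have h1 := congrArg Subtype.val hab
      have hne : Matrix.mulVec ((b : Matrix.GeneralLinearGroup (Fin 2) (ZMod 59)) : Matrix (Fin 2) (Fin 2) (ZMod 59)) e ≠ 0 := by
        intro h0
        apply he
        have := congrArg (Matrix.mulVec (((b : Matrix.GeneralLinearGroup (Fin 2) (ZMod 59))⁻¹ : Matrix.GeneralLinearGroup (Fin 2) (ZMod 59)) : Matrix (Fin 2) (Fin 2) (ZMod 59))) h0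
        rwa [Matrix.mulVec_mulVec, Units.inv_mul, Matrix.one_mulVec, Matrix.mulVec_zero] at this
      exact ((huniq e _ he hne).unique h1 rfl)
    · rintro ⟨w, hw⟩
      obtain ⟨h, hh⟩ := htrans w hw
      exact ⟨h, Subtype.ext hh⟩
  rw [hcard, Nat.card_eq_fintype_card, Fintype.card_subtype_compl, Fintype.card_fun, ZMod.card, Fintype.card_fin,
    Fintype.card_subtype_eq]
  norm_num


/-- An exceptional sharply doubly transitive group of degree 59^2: the listed matrices generate a subgroup of GL(2,59) of order 3480 acting regularly on the non-zero vectors. -/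
theorem result (A : Matrix.GeneralLinearGroup (Fin 2) (ZMod 59)) (B : Matrix.GeneralLinearGroup (Fin 2) (ZMod 59)) (C : Matrix.GeneralLinearGroup (Fin 2) (ZMod 59)) (hA : (A : Matrix (Fin 2) (Fin 2) (ZMod 59)) = !![0, -1; 1, 0]) (hB : (B : Matrix (Fin 2) (Fin 2) (ZMod 59)) = !![9, 15; -10, -10]) (hC : (C : Matrix (Fin 2) (Fin 2) (ZMod 59)) = !![4, 0; 0, 4]) : Nat.card (Subgroup.closure ({A, B, C} : Set (Matrix.GeneralLinearGroup (Fin 2) (ZMod 59)))) = 3480 ∧ ∀ v w : Fin 2 → ZMod 59, v ≠ 0 → w ≠ 0 → ∃! h : Subgroup.closure ({A, B, C} : Set (Matrix.GeneralLinearGroup (Fin 2) (ZMod 59))), Matrix.mulVec ((h : Matrix.GeneralLinearGroup (Fin 2) (ZMod 59)) : Matrix (Fin 2) (Fin 2) (ZMod 59)) v = w := by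
  exact main_regular A B C hA hB hC

end Cfsg.Agent.S0693
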