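import Cfsg.Statements.S0694
import Mathlib

set_option autoImplicit false
open Cfsg

namespace Cfsg.Agent.S0694

theorem mul_pred_dvd_pow_sub_one (b : ℕ) (hb : 1 ≤ b) :
    ∀ m : ℕ, m ≠ 0 → (∀ r : ℕ, r.Prime → r ∣ m → r ∣ b - 1) → m * (b - 1) ∣ b ^ m - 1 := by
  intro m
  induction m using induction_on_primes with
  | zero => intro h; exact absurd rfl h
  | one => intro _ _; simp
  | prime_mul r a hr ih =>
    intro hne hall
    have h1 := ih (fun h => hne (by rw [h, mul_zero])) fun s hs hd => hall s hs (hd.mul_left r)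
    have hsum : r ∣ ∑ k ∈ Finset.range r, (b ^ a) ^ k := by
      rw [← ZMod.natCast_eq_zero_iff]
      have hb1 : (b : ZMod r) = 1 := by
        have := (ZMod.natCast_eq_zero_iff (b - 1) r).mpr (hall r hr (Dvd.intro a rfl))
        rwa [Nat.cast_sub hb, Nat.cast_one, sub_eq_zero] at this
      push_cast
      simp [hb1]
    have h2 := mul_dvd_mul hsum h1
    rw [mul_comm r a, pow_mul b a r, ← geom_sum_mul_of_one_le (Nat.one_le_pow _ _ hb) r]
    rw [show a * r * (b - 1) = r * (a * (b - 1)) by ring]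
    exact h2

theorem exists_small_exponent (q : ℕ) (hq : 2 ≤ q) : ∀ m : ℕ, m ≠ 0 → Nat.Coprime m q →
    ∃ i, 0 < i ∧ i ≤ m ∧ m * (q - 1) ∣ q ^ i - 1 ∧
      ((∃ s : ℕ, s.Prime ∧ s ∣ m ∧ ¬ s ∣ q - 1) → i < m) := by
  intro m
  induction m using Nat.recOnPosPrimePosCoprime with
  | zero => intro h; exact absurd rfl h
  | one =>
    intro _ _
    refine ⟨1, one_pos, le_rfl, by simp, fun ⟨s, hs, hd, _⟩ => absurd (Nat.dvd_one.mp hd) hs.ne_one⟩
  | prime_pow s k hs hk =>
    intro _ hco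
    by_cases hd : s ∣ q - 1
    · refine ⟨s ^ k, pow_pos hs.pos k, le_rfl, ?_, fun ⟨t, ht, htd, htn⟩ => ?_⟩
      · refine mul_pred_dvd_pow_sub_one q (by omega) _ (pow_pos hs.pos k).ne' fun r hr hrd => ?_
        rwa [(Nat.prime_dvd_prime_iff_eq hr hs).mp (hr.dvd_of_dvd_pow hrd)]
      · exact absurd ((Nat.prime_dvd_prime_iff_eq ht hs).mp (ht.dvd_of_dvd_pow htd) ▸ hd) htn
    · have hlt : (s ^ k).totient < s ^ k := Nat.totient_lt _ (Nat.one_lt_pow hk.ne' hs.one_lt)
      refine ⟨(s ^ k).totient, Nat.totient_pos.mpr (pow_pos hs.pos k), hlt.le, ?_, fun _ => hlt⟩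
      refine Nat.Coprime.mul_dvd_of_dvd_of_dvd (Nat.Coprime.pow_left k (hs.coprime_iff_not_dvd.mpr hd)) ?_ ?_
      · exact (Nat.modEq_iff_dvd' (Nat.one_le_pow _ _ (by omega))).mp (Nat.ModEq.pow_totient hco.symm).symm
      · simpa using Nat.sub_dvd_pow_sub_pow q 1 (s ^ k).totient
  | coprime a b ha hb hco iha ihb =>
    intro _ hcq
    obtain ⟨i, hi0, hia, hid, his⟩ := iha (by omega) (Nat.Coprime.coprime_mul_right hcq)
    obtain ⟨j, hj0, hjb, hjd, hjs⟩ := ihb (by omega) (Nat.Coprime.coprime_mul_left hcq)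
    refine ⟨i * j, Nat.mul_pos hi0 hj0, Nat.mul_le_mul hia hjb, ?_, fun ⟨s, hs, hd, hn⟩ => ?_⟩
    · rw [← hco.lcm_eq_mul, ← Nat.lcm_mul_right]
      refine Nat.lcm_dvd (hid.trans ?_) (hjd.trans ?_)
      · exact Nat.pow_sub_one_dvd_pow_sub_one _ (dvd_mul_right i j)
      · exact Nat.pow_sub_one_dvd_pow_sub_one _ (dvd_mul_left j i)
    · rcases hs.dvd_mul.mp hd with h | h
      · calc i * j < a * j := Nat.mul_lt_mul_of_pos_right (his ⟨s, hs, h, hn⟩) hj0
          _ ≤ a * b := Nat.mul_le_mul_left _ hjb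
      · calc i * j ≤ a * j := Nat.mul_le_mul_right _ hia
          _ < a * b := Nat.mul_lt_mul_of_pos_left (hjs ⟨s, hs, h, hn⟩) (by omega)

theorem padicValNat_le (q n i : ℕ) (hq : 2 ≤ q) (hn : n ≠ 0) (hi : 0 < i)
    (hall : ∀ r : ℕ, r.Prime → r ∣ n → r ∣ q - 1) (h4 : 4 ∣ n → 4 ∣ q - 1)
    (hd : n * (q - 1) ∣ q ^ i - 1) : n ∣ i := by
  rw [← Nat.factorization_le_iff_dvd hn hi.ne', Finsupp.le_def]
  intro r
  by_cases hr : r.Prime
  swap
  · simp [Nat.factorization_eq_zero_of_not_prime _ hr]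
  have := Fact.mk hr
  rw [Nat.factorization_def _ hr, Nat.factorization_def _ hr]
  by_cases hrn : r ∣ n
  swap
  · simp [padicValNat.eq_zero_of_not_dvd hrn]
  have hrq := hall r hr hrn
  have hq1 : q - 1 ≠ 0 := by omega
  have hqi : q ^ i - 1 ≠ 0 := by
    have : 1 < q ^ i := Nat.one_lt_pow hi.ne' hq
    omega
  have hle : padicValNat r n + padicValNat r (q - 1) ≤ padicValNat r (q ^ i - 1) := by
    rw [← padicValNat.mul hn hq1]
    exact (padicValNat_dvd_iff_le hqi).mp (pow_padicValNat_dvd.trans hd)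
  have hrq' : ¬ r ∣ q := fun h => by
    have := Nat.dvd_sub h hrq
    rw [Nat.sub_sub_self (by omega : 1 ≤ q)] at this
    exact hr.ne_one (Nat.dvd_one.mp this)
  rcases hr.eq_two_or_odd' with rfl | hodd
  · have hn2 : 1 ≤ padicValNat 2 n := (one_le_padicValNat_of_dvd hn hrn)
    by_cases hie : Even i
    · have h2 := padicValNat.pow_two_sub_one (x := q) (by omega) hrq' hi.ne' hie
      by_cases hn4 : 4 ∣ n
      · have h4q := h4 hn4
        have hv : padicValNat 2 (q + 1) = 1 := by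
          have h1 : q + 1 = 2 * ((q + 1) / 2) := by omega
          rw [h1, padicValNat.mul (by norm_num) (by omega), padicValNat.self (by norm_num),
            padicValNat.eq_zero_of_not_dvd (by omega)]
        omega
      · have : padicValNat 2 n < 2 := by
          by_contra h
          exact hn4 ((padicValNat_dvd_iff_le hn).mpr (not_lt.mp h) : 2 ^ 2 ∣ n)
        have := one_le_padicValNat_of_dvd (p := 2) hi.ne' hie.two_dvd
        omega
    · exfalso
      have hs : ¬ 2 ∣ ∑ k ∈ Finset.range i, q ^ k := by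
        rw [← ZMod.natCast_eq_zero_iff]
        have hq2 : (q : ZMod 2) = 1 := ZMod.natCast_eq_one_iff_odd.mpr (Nat.not_even_iff_odd.mp fun h => hrq' h.two_dvd)
        push_cast
        simp only [hq2, one_pow, Finset.sum_const, Finset.card_range, nsmul_eq_mul, mul_one]
        rw [ZMod.natCast_eq_zero_iff]
        exact fun h => hie (even_iff_two_dvd.mpr h)
      rw [← geom_sum_mul_of_one_le (by omega : 1 ≤ q) i, padicValNat.mul (fun h => hs (by rw [h]; exact dvd_zero 2)) hq1,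
        padicValNat.eq_zero_of_not_dvd hs] at hle
      omega
  · have h2 := padicValNat.pow_sub_pow (p := r) hodd (x := q) (y := 1) (by omega) hrq hrq' hi.ne'
    rw [one_pow] at h2
    omega

/-- The Dickson pair condition: for a prime power `q` and `n > 1`, (every prime factor of `n` divides `q - 1`, and `4 ∣ n → 4 ∣ q - 1`) holds exactly when `q ^ n ≡ 1` modulo `n * (q - 1)` but `q ^ i` is not, for `0 < i < n`. -/
theorem result (q n : ℕ) (hq : IsPrimePow q) (hn : 1 < n) : ((∀ r : ℕ, r.Prime → r ∣ n → r ∣ q - 1) ∧ (4 ∣ n → 4 ∣ q - 1)) ↔ (q ^ n ≡ 1 [MOD n * (q - 1)] ∧ ∀ i : ℕ, 0 < i → i < n → ¬ q ^ i ≡ 1 [MOD n * (q - 1)]) := by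
  have hq2 : 2 ≤ q := hq.two_le
  have hmod : ∀ i : ℕ, q ^ i ≡ 1 [MOD n * (q - 1)] ↔ n * (q - 1) ∣ q ^ i - 1 := fun i =>
    ⟨fun h => (Nat.modEq_iff_dvd' (Nat.one_le_pow _ _ (by omega))).mp h.symm,
      fun h => ((Nat.modEq_iff_dvd' (Nat.one_le_pow _ _ (by omega))).mpr h).symm⟩
  simp only [hmod]
  constructor
  · rintro ⟨hall, h4⟩
    refine ⟨mul_pred_dvd_pow_sub_one q (by omega) n (by omega) hall, fun i hi hin hd => ?_⟩
    exact absurd (Nat.le_of_dvd hi (padicValNat_le q n i hq2 (by omega) hi hall h4 hd)) (not_le.mpr hin)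
  · rintro ⟨hd, hmin⟩
    have hco : Nat.Coprime n q := Nat.coprime_of_dvd fun s hs h1 h2 => by
      have h3 := (h1.mul_right (q - 1)).trans hd
      have h4 := Nat.dvd_sub (dvd_pow h2 (by omega : n ≠ 0)) h3
      rw [Nat.sub_sub_self (Nat.one_le_pow _ _ (by omega))] at h4
      exact hs.ne_one (Nat.dvd_one.mp h4)
    have hall : ∀ r : ℕ, r.Prime → r ∣ n → r ∣ q - 1 := by
      intro r hr hrn
      by_contra h
      obtain ⟨i, hi0, -, hid, his⟩ := exists_small_exponent q hq2 n (by omega) hco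
      exact hmin i hi0 (his ⟨r, hr, hrn, h⟩) hid
    refine ⟨hall, fun h4 => ?_⟩
    by_contra h
    obtain ⟨m, rfl⟩ := h4
    have h2 : 2 ∣ q - 1 := hall 2 Nat.prime_two (dvd_mul_of_dvd_left (by norm_num) m)
    refine hmin (2 * m) (by omega) (by omega) ?_
    have hsq : q ^ 2 - 1 = (q + 1) * (q - 1) := by rw [← Nat.sq_sub_sq, one_pow]
    have h1 : m * (q ^ 2 - 1) ∣ (q ^ 2) ^ m - 1 :=
      mul_pred_dvd_pow_sub_one (q ^ 2) (Nat.one_le_pow _ _ (by omega)) m (by omega) fun r hr hrm =>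
        hsq ▸ (hall r hr (hrm.mul_left 4)).mul_left _
    rw [pow_mul]
    refine dvd_trans ?_ h1
    have h41 : 4 ∣ q + 1 := by omega
    rw [hsq, mul_comm 4 m, mul_assoc]
    exact mul_dvd_mul_left m (mul_dvd_mul_right h41 _)

end Cfsg.Agent.S0694
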