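import Cfsg.Statements.S0696
import Cfsg.Agent.PermGroups.RegularNormal

set_option autoImplicit false
open Cfsg

namespace Cfsg.Agent.S0696


/-- A triply primitive group of degree at least 3 having a regular normal subgroup has degree 3 or 4. -/
theorem result {G : Type*} [Group G] {X : Type*} [Fintype X] [MulAction G X] (hX : 3 ≤ Fintype.card X) (h3 : MulAction.IsMultiplyPreprimitive G X 3) (N : Subgroup G) [N.Normal] (htrans : MulAction.IsPretransitive N X) (hreg : ∀ x : X, MulAction.stabilizer N x = ⊥) : Fintype.card X = 3 ∨ Fintype.card X = 4 := by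
  haveI := htrans
  have := CfsgLib.PermGroups.card_of_three_primitive_regular_normal
    (show 3 ≤ Nat.card X by rwa [Nat.card_eq_fintype_card]) h3 N hreg
  simpa [Nat.card_eq_fintype_card] using this

end Cfsg.Agent.S0696
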