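import Cfsg.Statements.S0700
import Cfsg.Agent.PermGroups.MinimalNormal
import Cfsg.Agent.PermGroups.NormalSubgroup

set_option autoImplicit false
open Cfsg

namespace Cfsg.Agent.S0700


/-- Burnside's Theorem on doubly transitive groups: a minimal normal subgroup of a finite doubly transitive permutation group is elementary abelian and regular, or simple and primitive. -/
theorem result {α : Type*} [Fintype α] [DecidableEq α] (G : Subgroup (Equiv.Perm α)) (hG : MulAction.IsMultiplyPretransitive G α 2) (N : Subgroup G) [N.Normal] (hN : N ≠ ⊥) (hmin : ∀ M : Subgroup G, M.Normal → M ≤ N → M = ⊥ ∨ M = N) : (IsMulCommutative N ∧ (∃ p : ℕ, p.Prime ∧ ∀ n ∈ N, n ^ p = 1) ∧ ∀ a : α, MulAction.stabilizer N a = ⊥) ∨ (IsSimpleGroup N ∧ MulAction.IsPreprimitive N α) := by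
  classical
  open CfsgLib.PermGroups MulAction in
  have hX : 2 ≤ Nat.card α := by
    by_contra h
    rw [Nat.card_eq_fintype_card] at h
    haveI : Subsingleton α := Fintype.card_le_one_iff_subsingleton.1 (by omega)
    refine hN ((Subgroup.eq_bot_iff_forall N).2 fun n _ => ?_)
    exact Subtype.ext (Equiv.ext fun x => Subsingleton.elim _ _)
  open CfsgLib.PermGroups MulAction in
  haveI := isPretransitive_of_is_two_pretransitive (h2 := hG)
  open CfsgLib.PermGroups MulAction in
  haveI : IsPreprimitive G α := isPreprimitive_of_is_two_pretransitive hG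
  open CfsgLib.PermGroups MulAction in
  haveI : IsPretransitive N α := isPretransitive_normal (X := α) hN
  open CfsgLib.PermGroups MulAction in
  by_cases hreg : ∃ a : α, stabilizer N a = ⊥
  · obtain ⟨a, ha⟩ := hreg
    have hall := CfsgLib.PermGroups.stabilizer_eq_bot_of_normal ha
    obtain ⟨hc, p, j, hp, -, -, hexp⟩ :=
      CfsgLib.PermGroups.regular_normal_elementary_of_two_transitive hG hX N hall
    exact Or.inl ⟨hc, ⟨p, hp, hexp⟩, hall⟩
  · push Not at hreg
    haveI := CfsgLib.PermGroups.isPreprimitive_of_minimal_normal hG hX N hmin hreg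
    exact Or.inr ⟨CfsgLib.PermGroups.isSimpleGroup_of_minimal_normal hG hX N hN hmin hreg,
      inferInstance⟩

end Cfsg.Agent.S0700
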