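import Cfsg.Statements.S0701
import Mathlib

set_option autoImplicit false
open Cfsg

namespace Cfsg.Agent.S0701


/-- The centraliser in the full symmetric group of a transitive permutation group `G` is semiregular, and it is transitive if and only if `G` is regular. -/
theorem result {α : Type*} (G : Subgroup (Equiv.Perm α)) [MulAction.IsPretransitive G α] : (∀ c ∈ Subgroup.centralizer (G : Set (Equiv.Perm α)), ∀ a : α, c a = a → c = 1) ∧ (MulAction.IsPretransitive (Subgroup.centralizer (G : Set (Equiv.Perm α))) α ↔ ∀ a : α, MulAction.stabilizer G a = ⊥) := by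
  have hcomm : ∀ c ∈ Subgroup.centralizer (G : Set (Equiv.Perm α)), ∀ (g : G) (x : α),
      (g : Equiv.Perm α) (c x) = c ((g : Equiv.Perm α) x) := fun c hc g x =>
    Equiv.Perm.ext_iff.1 (Subgroup.mem_centralizer_iff.1 hc g g.2) x
  have hsr : ∀ c ∈ Subgroup.centralizer (G : Set (Equiv.Perm α)), ∀ a : α, c a = a → c = 1 := by
    intro c hc a ha
    refine Equiv.Perm.ext fun x => ?_
    obtain ⟨g, rfl⟩ := MulAction.exists_smul_eq G a x
    change c ((g : Equiv.Perm α) a) = (g : Equiv.Perm α) a
    rw [← hcomm c hc g a, ha]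
  refine ⟨hsr, fun htr a => ?_, fun hreg => ⟨fun a b => ?_⟩⟩
  · refine (Subgroup.eq_bot_iff_forall _).2 fun g hg => Subtype.ext (Equiv.Perm.ext fun x => ?_)
    obtain ⟨c, rfl⟩ := htr.exists_smul_eq a x
    change (g : Equiv.Perm α) ((c : Equiv.Perm α) a) = (c : Equiv.Perm α) a
    rw [hcomm c c.2 g a]
    exact congrArg _ hg
  · have hbij : ∀ y : α, Function.Bijective (fun g : G => g • y) := fun y =>
      ⟨fun g g' h => by
        have h' : g • y = g' • y := h
        have h2 : g'⁻¹ * g ∈ MulAction.stabilizer G y := by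
          rw [MulAction.mem_stabilizer_iff, mul_smul, h', inv_smul_smul]
        rw [hreg y, Subgroup.mem_bot, inv_mul_eq_one] at h2
        exact h2.symm,
       MulAction.surjective_smul G y⟩
    let σ : Equiv.Perm α := (Equiv.ofBijective _ (hbij a)).symm.trans (Equiv.ofBijective _ (hbij b))
    have hσ : ∀ g : G, σ (g • a) = g • b := by
      intro g
      have hg : (Equiv.ofBijective _ (hbij a)).symm (g • a) = g :=
        (Equiv.ofBijective _ (hbij a)).symm_apply_apply g
      simp only [σ, Equiv.trans_apply, hg]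
      rfl
    refine ⟨⟨σ, Subgroup.mem_centralizer_iff.2 fun g hg => Equiv.Perm.ext fun x => ?_⟩, ?_⟩
    · obtain ⟨k, rfl⟩ := MulAction.exists_smul_eq G a x
      change g (σ (k • a)) = σ (g (k • a))
      rw [show g (k • a) = ((⟨g, hg⟩ : G) * k) • a from (mul_smul (⟨g, hg⟩ : G) k a).symm, hσ, hσ, mul_smul]
      rfl
    · change σ a = b
      simpa using hσ 1

end Cfsg.Agent.S0701
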