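import Cfsg.Statements.S0703
import Mathlib

set_option autoImplicit false
open Cfsg

namespace Cfsg.Agent.S0703


/-- An abelian transitive minimal normal subgroup `M` of a permutation group on a finite set is self-centralising in the symmetric group, regular, elementary abelian, and is the unique minimal normal subgroup. -/
theorem result {α : Type*} [Finite α] (G : Subgroup (Equiv.Perm α)) (M : Subgroup G) [M.Normal] (hM : M ≠ ⊥) (hmin : ∀ L : Subgroup G, L.Normal → L ≤ M → L = ⊥ ∨ L = M) (hab : IsMulCommutative M) (htrans : MulAction.IsPretransitive M α) : Subgroup.centralizer ((M.map G.subtype : Subgroup (Equiv.Perm α)) : Set (Equiv.Perm α)) = M.map G.subtype ∧ (∀ a : α, MulAction.stabilizer M a = ⊥) ∧ (∃ p : ℕ, p.Prime ∧ ∀ m ∈ M, m ^ p = 1) ∧ ∀ L : Subgroup G, L.Normal → L ≠ ⊥ → (∀ L' : Subgroup G, L'.Normal → L' ≤ L → L' = ⊥ ∨ L' = L) → L = M := by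
  have hcom : ∀ m ∈ M, ∀ m' ∈ M, m * m' = m' * m := fun m hm m' hm' =>
    congrArg Subtype.val (hab.is_comm.comm (⟨m, hm⟩ : M) ⟨m', hm'⟩)
  have hreg : ∀ a : α, MulAction.stabilizer M a = ⊥ := by
    intro a
    refine (Subgroup.eq_bot_iff_forall _).2 fun m hm =>
      Subtype.ext (Subtype.ext (Equiv.Perm.ext fun x => ?_))
    obtain ⟨m', rfl⟩ := htrans.exists_smul_eq a x
    change ((m : G) : Equiv.Perm α) (((m' : G) : Equiv.Perm α) a) = ((m' : G) : Equiv.Perm α) a
    rw [show ((m : G) : Equiv.Perm α) (((m' : G) : Equiv.Perm α) a)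
      = (((m : G) * (m' : G) : G) : Equiv.Perm α) a from rfl, hcom m m.2 m' m'.2]
    exact congrArg ((m' : G) : Equiv.Perm α) hm
  have hcen : Subgroup.centralizer ((M.map G.subtype : Subgroup (Equiv.Perm α)) : Set (Equiv.Perm α))
      = M.map G.subtype := by
    refine le_antisymm (fun c hc => ?_) ?_
    · rcases isEmpty_or_nonempty α with h | ⟨⟨a⟩⟩
      · rw [show c = 1 from Equiv.Perm.ext fun x => h.elim x]; exact one_mem _
      obtain ⟨m, hm⟩ := htrans.exists_smul_eq a (c a)
      refine ⟨(m : G), m.2, Equiv.Perm.ext fun x => ?_⟩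
      obtain ⟨m', rfl⟩ := htrans.exists_smul_eq a x
      have hc' := Subgroup.mem_centralizer_iff.1 hc ((m' : G) : Equiv.Perm α) ⟨(m' : G), m'.2, rfl⟩
      have h1 : ((m' : G) : Equiv.Perm α) (c a) = c (((m' : G) : Equiv.Perm α) a) :=
        Equiv.Perm.ext_iff.1 hc' a
      change ((m : G) : Equiv.Perm α) (((m' : G) : Equiv.Perm α) a) = c (((m' : G) : Equiv.Perm α) a)
      rw [← h1, ← hm, show ((m : G) : Equiv.Perm α) (((m' : G) : Equiv.Perm α) a)
        = (((m : G) * (m' : G) : G) : Equiv.Perm α) a from rfl, hcom m m.2 m' m'.2]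
      rfl
    · rintro _ ⟨m, hm, rfl⟩
      rw [Subgroup.mem_centralizer_iff]
      rintro _ ⟨m', hm', rfl⟩
      exact congrArg Subtype.val (hcom m' hm' m hm)
  refine ⟨hcen, hreg, ?_, ?_⟩
  · have hMcard : Nat.card M ≠ 1 := fun h => hM (Subgroup.card_eq_one.1 h)
    obtain ⟨p, hp, hpdvd⟩ := Nat.exists_prime_and_dvd hMcard
    haveI : Fact p.Prime := ⟨hp⟩
    obtain ⟨x, hx⟩ := exists_prime_orderOf_dvd_card' p hpdvd
    let L : Subgroup G :=
      { carrier := {m | m ∈ M ∧ m ^ p = 1}
        one_mem' := ⟨one_mem M, one_pow p⟩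
        mul_mem' := fun {a b} ha hb => ⟨mul_mem ha.1 hb.1, by
          rw [Commute.mul_pow (hcom a ha.1 b hb.1), ha.2, hb.2, one_mul]⟩
        inv_mem' := fun {a} ha => ⟨inv_mem ha.1, by rw [inv_pow, ha.2, inv_one]⟩ }
    have hLn : L.Normal := ⟨fun m hm g => ⟨Subgroup.Normal.conj_mem ‹_› m hm.1 g, by
      rw [conj_pow, hm.2, mul_one, mul_inv_cancel]⟩⟩
    rcases hmin L hLn (fun m hm => hm.1) with h | h
    · exfalso
      have hxL : (x : G) ∈ L :=
        ⟨x.2, by rw [← SubgroupClass.coe_pow, ← hx, pow_orderOf_eq_one]; rfl⟩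
      rw [h, Subgroup.mem_bot] at hxL
      rw [show x = 1 from Subtype.ext hxL, orderOf_one] at hx
      exact hp.one_lt.ne hx
    · exact ⟨p, hp, fun m hm => ((h ▸ hm : m ∈ L)).2⟩
  · intro L hL hLne hLmin
    by_contra hLM
    haveI := hL
    have hdisj : L ⊓ M = ⊥ := by
      rcases hmin (L ⊓ M) inferInstance inf_le_right with h | h
      · exact h
      · rcases hLmin M ‹_› (h ▸ inf_le_left) with h' | h'
        · exact absurd h' hM
        · exact absurd h'.symm hLM
    have hLle : L ≤ M := by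
      intro l hl
      have hl' : (l : Equiv.Perm α) ∈ M.map G.subtype := by
        rw [← hcen, Subgroup.mem_centralizer_iff]
        rintro _ ⟨m, hm, rfl⟩
        exact congrArg Subtype.val (Subgroup.commute_of_normal_of_disjoint M L ‹_› hL
          (by rw [disjoint_iff, inf_comm, hdisj]) m l hm hl).eq
      obtain ⟨m, hm, hml⟩ := hl'
      rwa [← show m = l from Subtype.ext hml]
    rcases hmin L hL hLle with h | h
    · exact hLne h
    · exact hLM h

end Cfsg.Agent.S0703
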