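import Cfsg.Statements.S0704
import Cfsg.Agent.MinNormal.Primitive

set_option autoImplicit false
open Cfsg

namespace Cfsg.Agent.S0704

open MulAction CfsgLib.MinNormal


/-- Two distinct transitive minimal normal subgroups `M`, `N` of a permutation group are regular, non-abelian, isomorphic, each other's centraliser in the symmetric group, and the only minimal normal subgroups. -/
theorem result {α : Type*} (G : Subgroup (Equiv.Perm α)) (M N : Subgroup G) [M.Normal] [N.Normal] (hM : M ≠ ⊥) (hN : N ≠ ⊥) (hMmin : ∀ L : Subgroup G, L.Normal → L ≤ M → L = ⊥ ∨ L = M) (hNmin : ∀ L : Subgroup G, L.Normal → L ≤ N → L = ⊥ ∨ L = N) (hMN : M ≠ N) (hMt : MulAction.IsPretransitive M α) (hNt : MulAction.IsPretransitive N α) : (∀ a : α, MulAction.stabilizer M a = ⊥) ∧ (∀ a : α, MulAction.stabilizer N a = ⊥) ∧ ¬ IsMulCommutative M ∧ Nonempty (M ≃* N) ∧ Subgroup.centralizer ((M.map G.subtype : Subgroup (Equiv.Perm α)) : Set (Equiv.Perm α)) = N.map G.subtype ∧ Subgroup.centralizer ((N.map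 G.subtype : Subgroup (Equiv.Perm α)) : Set (Equiv.Perm α)) = M.map G.subtype ∧ ∀ L : Subgroup G, L.Normal → L ≠ ⊥ → (∀ L' : Subgroup G, L'.Normal → L' ≤ L → L' = ⊥ ∨ L' = L) → L = M ∨ L = N := by
  have hm : IsMinNormal M := ⟨inferInstance, hM, hMmin⟩
  have hn : IsMinNormal N := ⟨inferInstance, hN, hNmin⟩
  haveI : Nonempty α := by
    by_contra he
    rw [not_nonempty_iff] at he
    haveI := he
    exact hM (eq_bot_iff.2 fun x _ => Subgroup.mem_bot.2 (Subtype.ext (Subsingleton.elim _ _)))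
  have hMN' := hn.le_centralizer_of_ne hm hMN.symm
  have hNM' := hm.le_centralizer_of_ne hn hMN
  have key : ∀ A B : Subgroup G, IsPretransitive A α → IsPretransitive B α →
      B ≤ Subgroup.centralizer (A : Set G) →
      Subgroup.centralizer ((A.map G.subtype : Subgroup (Equiv.Perm α)) : Set (Equiv.Perm α)) =
        B.map G.subtype := by
    intro A B hA hB hBA
    haveI : IsPretransitive (A.map G.subtype) α := ⟨fun x y => by
      obtain ⟨n, hn⟩ := hA.exists_smul_eq x y
      exact ⟨⟨_, ⟨n.1, n.2, rfl⟩⟩, hn⟩⟩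
    refine le_antisymm (fun c hc => ?_) ?_
    · obtain ⟨a⟩ := ‹Nonempty α›
      obtain ⟨b, hb⟩ := hB.exists_smul_eq a (c • a)
      have hbc : ((b : G) : Equiv.Perm α)⁻¹ ∈
          Subgroup.centralizer ((A.map G.subtype : Subgroup (Equiv.Perm α)) : Set (Equiv.Perm α)) := by
        apply Subgroup.inv_mem
        rw [Subgroup.mem_centralizer_iff]
        rintro _ ⟨x, hx, rfl⟩
        exact congrArg (G.subtype) (Subgroup.mem_centralizer_iff.1 (hBA b.2) x hx)
      have h1 := eq_one_of_fixed_centralizer (N := A.map G.subtype) (Subgroup.mul_mem _ hbc hc)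
        (x := a) (by rw [mul_smul, inv_smul_eq_iff]; exact hb.symm)
      rw [← inv_mul_eq_one.1 h1]
      exact ⟨b, b.2, rfl⟩
    · rintro _ ⟨b, hb, rfl⟩
      rw [Subgroup.mem_centralizer_iff]
      rintro _ ⟨x, hx, rfl⟩
      exact congrArg (G.subtype) (Subgroup.mem_centralizer_iff.1 (hBA hb) x hx)
  have e1 := key M N hMt hNt hNM'
  have e2 := key N M hNt hMt hMN'
  have hnab : ¬ IsMulCommutative M := by
    intro hab
    have hle : M ≤ N := by
      refine (Subgroup.map_le_map_iff_of_injective G.subtype_injective).1 ?_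
      rw [← e1]
      rintro _ ⟨b, hb, rfl⟩
      rw [Subgroup.mem_centralizer_iff]
      rintro _ ⟨x, hx, rfl⟩
      exact congrArg (G.subtype) (congrArg Subtype.val (hab.is_comm.comm (⟨x, hx⟩ : M) ⟨b, hb⟩))
    exact hMN (hn.eq_of_le hm.normal hM hle)
  refine ⟨fun a => stabilizer_eq_bot_of_le_centralizer hMN' a,
    fun a => stabilizer_eq_bot_of_le_centralizer hNM' a, hnab,
    nonempty_mulEquiv_of_centralizing (X := α) hMN', e1, e2, fun L hLn hL hLmin => ?_⟩
  have hl : IsMinNormal L := ⟨hLn, hL, hLmin⟩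
  by_cases e : L = M
  · exact Or.inl e
  refine Or.inr (hn.eq_of_le hLn hL ((Subgroup.map_le_map_iff_of_injective G.subtype_injective).1 ?_))
  rw [← e1]
  rintro _ ⟨b, hb, rfl⟩
  rw [Subgroup.mem_centralizer_iff]
  rintro _ ⟨x, hx, rfl⟩
  exact congrArg (G.subtype) (hm.commute_of_ne hl (Ne.symm e) hx hb).eq

end Cfsg.Agent.S0704
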