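import Cfsg.Statements.S0705
import Mathlib

set_option autoImplicit false
open scoped Pointwise
open Cfsg

namespace Cfsg.Agent.S0705

theorem exists_extend {α : Type*} [Fintype α] [DecidableEq α] {G : Subgroup (Equiv.Perm α)}
    {k : ℕ} (hgen : ∀ s : Finset α, s.card = k + 1 → ∀ σ : Equiv.Perm ↥s, ∃ g ∈ G, ∀ x : ↥s, g (x : α) = σ x)
    {s : Finset α} (hs : s.card = k + 1) (π : Equiv.Perm α) (hπ : ∀ x, x ∈ s ↔ π x ∈ s) :
    ∃ g ∈ G, ∀ x ∈ s, g x = π x := by
  obtain ⟨g, hg, hgx⟩ := hgen s hs (π.subtypePerm (fun x => (hπ x).symm))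
  exact ⟨g, hg, fun x hx => hgx ⟨x, hx⟩⟩

theorem isKTransitive {α : Type*} [Fintype α] [DecidableEq α] (G : Subgroup (Equiv.Perm α)) {k : ℕ}
    (hk : k < Fintype.card α)
    (hgen : ∀ s : Finset α, s.card = k + 1 → ∀ σ : Equiv.Perm ↥s, ∃ g ∈ G, ∀ x : ↥s, g (x : α) = σ x) :
    MulAction.IsMultiplyPretransitive G α k := by
  refine ⟨fun x y => ?_⟩
  suffices h : ∀ j, j ≤ k → ∃ g : G, ∀ i : Fin k, (i : ℕ) < j → g • x i = y i by
    obtain ⟨g, hg⟩ := h k le_rfl
    exact ⟨g, Function.Embedding.ext fun i => hg i i.2⟩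
  intro j
  induction j with
  | zero => exact fun _ => ⟨1, fun i hi => absurd hi (by omega)⟩
  | succ j ih =>
    intro hj
    obtain ⟨g, hg⟩ := ih (by omega)
    set i₀ : Fin k := ⟨j, by omega⟩
    let z := g • x i₀
    have hc : (insert z (Finset.univ.image y)).card ≤ k + 1 :=
      (Finset.card_insert_le _ _).trans (Nat.succ_le_succ (Finset.card_image_le.trans (by simp)))
    obtain ⟨s, hss, -, hs⟩ := Finset.exists_subsuperset_card_eq
      (Finset.subset_univ _) hc (show k + 1 ≤ (Finset.univ : Finset α).card by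
        rw [Finset.card_univ]; omega)
    have hz : z ∈ s := hss (Finset.mem_insert_self _ _)
    have hy : ∀ i, y i ∈ s := fun i =>
      hss (Finset.mem_insert_of_mem (Finset.mem_image_of_mem _ (Finset.mem_univ i)))
    have hmem : ∀ w ∈ s, Equiv.swap z (y i₀) w ∈ s := fun w hw => by
      rw [Equiv.swap_apply_def]; split_ifs <;> [exact hy i₀; exact hz; exact hw]
    obtain ⟨g', hg', hgx⟩ := exists_extend hgen hs (Equiv.swap z (y i₀))
      (fun w => ⟨hmem w, fun hw => by simpa using hmem _ hw⟩)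
    refine ⟨⟨g', hg'⟩ * g, fun i hi => ?_⟩
    rw [mul_smul]
    change g' (g • x i) = y i
    rcases Nat.lt_succ_iff_lt_or_eq.1 hi with h | h
    · have hne : i ≠ i₀ := fun e => by simp [e, i₀] at h
      rw [hg i h, hgx _ (hy i), Equiv.swap_apply_of_ne_of_ne ?_ (y.injective.ne hne)]
      rw [← hg i h]
      exact fun e => hne (x.injective (smul_left_cancel g e))
    · obtain rfl : i = i₀ := Fin.ext h
      change g' z = y i₀
      rw [hgx _ hz, Equiv.swap_apply_left]

theorem same_orbit {α : Type*} [Fintype α] [DecidableEq α] (G : Subgroup (Equiv.Perm α)) {k : ℕ}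
    (hgen : ∀ s : Finset α, s.card = k + 1 → ∀ σ : Equiv.Perm ↥s, ∃ g ∈ G, ∀ x : ↥s, g (x : α) = σ x)
    {s : Finset α} (hs : s.card = k) {a : α} (ha : a ∉ s) {g : Equiv.Perm α} (hg : g ∈ G)
    (hgs : ∀ x, x ∈ s → g x ∈ s) : ∃ g' ∈ G, (∀ x ∈ s, g' x = x) ∧ g' a = g a := by
  have himg : s.image g = s :=
    Finset.eq_of_subset_of_card_le (fun y hy => by
      obtain ⟨x, hx, rfl⟩ := Finset.mem_image.1 hy; exact hgs x hx)
      (by rw [Finset.card_image_of_injective _ g.injective])
  have hinv : ∀ x, x ∈ s ↔ g⁻¹ x ∈ s := by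
    intro x
    constructor
    · intro hx
      rw [← himg] at hx
      obtain ⟨y, hy, rfl⟩ := Finset.mem_image.1 hx
      simpa using hy
    · intro hx
      have := hgs _ hx
      simpa using this
  let π : Equiv.Perm α := Equiv.Perm.ofSubtype ((g⁻¹).subtypePerm (p := fun x => x ∈ s)
    (fun x => (hinv x).symm))
  have hπs : ∀ x ∈ s, π x = g⁻¹ x := fun x hx => by
    simp [π, Equiv.Perm.ofSubtype_apply_of_mem, hx]
  have hπn : ∀ x, x ∉ s → π x = x := fun x hx => Equiv.Perm.ofSubtype_apply_of_not_mem _ hx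
  obtain ⟨h, hh, hhx⟩ := exists_extend hgen (s := insert a s)
    (by rw [Finset.card_insert_of_notMem ha, hs]) π (fun x => by
      by_cases hx : x ∈ s
      · exact iff_of_true (Finset.mem_insert_of_mem hx)
          (Finset.mem_insert_of_mem (by rw [hπs x hx]; exact (hinv x).1 hx))
      · simp [hπn x hx])
  refine ⟨g * h, mul_mem hg hh, fun x hx => ?_, ?_⟩
  · rw [Equiv.Perm.mul_apply, hhx x (Finset.mem_insert_of_mem hx), hπs x hx]; exact g.apply_symm_apply x
  · rw [Equiv.Perm.mul_apply, hhx a (Finset.mem_insert_self _ _), hπn a ha]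


/-- A generously `k`-transitive permutation group (every `(k+1)`-subset has its full symmetric group induced by the setwise stabiliser) of degree greater than `k` is `k`-transitive, and for a `k`-subset the setwise and pointwise stabilisers have the same orbits outside it. -/
theorem result {α : Type*} [Fintype α] [DecidableEq α] (G : Subgroup (Equiv.Perm α)) {k : ℕ} (hk : k < Fintype.card α) (hgen : ∀ s : Finset α, s.card = k + 1 → ∀ σ : Equiv.Perm ↥s, ∃ g ∈ G, ∀ x : ↥s, g (x : α) = σ x) : MulAction.IsMultiplyPretransitive G α k ∧ ∀ s : Finset α, s.card = k → ∀ a b : α, a ∉ s → b ∉ s → (∃ g ∈ G, g • s = s ∧ g a = b) → ∃ g ∈ G, (∀ x ∈ s, g x = x) ∧ g a = b := by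
  refine ⟨isKTransitive G hk hgen, fun s hs a b ha _ hg => ?_⟩
  obtain ⟨g, hg, hgs, rfl⟩ := hg
  exact same_orbit G hgen hs ha hg (fun x hx => by
    have : g • x ∈ g • s := Finset.smul_mem_smul_finset hx
    rwa [hgs] at this)

end Cfsg.Agent.S0705
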