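import Cfsg.Statements.S0706
import Cfsg.Agent.S0705
import Mathlib.GroupTheory.PGroup
import Mathlib.GroupTheory.Perm.Cycle.Concrete

set_option autoImplicit false
open Cfsg

namespace Cfsg.Agent.S0706


/-- In a generously `k`-transitive permutation group, for a prime `p ≤ k` and a `k`-set `Γ`, there are no `p` points outside `Γ` lying in distinct orbits of the pointwise stabiliser of `Γ` all of length prime to `p` (at most `p - 1` such orbits). -/
theorem result {α : Type*} [Fintype α] [DecidableEq α] (G : Subgroup (Equiv.Perm α)) {k : ℕ} (hk : k < Fintype.card α) (hgen : ∀ s : Finset α, s.card = k + 1 → ∀ σ : Equiv.Perm ↥s, ∃ g ∈ G, ∀ x : ↥s, g (x : α) = σ x) {p : ℕ} (hp : p.Prime) (hpk : p ≤ k) (Γ : Finset α) (hΓ : Γ.card = k) (f : Fin p → α) (hf : ∀ i, f i ∉ Γ) (hdist : ∀ i j, i ≠ j → f j ∉ MulAction.orbit (fixingSubgroup G (Γ : Set α)) (f i)) : ∃ i, p ∣ Nat.card (MulAction.orbit (fixingSubgroup G (Γ : Set α)) (f i)) := by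
  classical
  by_contra hcon
  push Not at hcon
  haveI := Fact.mk hp
  have hp0 := hp.two_le
  set L : Subgroup G := fixingSubgroup G (Γ : Set α) with hLdef
  obtain ⟨P, hPΓ, hP⟩ := Finset.exists_subset_card_eq (s := Γ) (n := p) (by omega)
  set R := Γ \ P with hRdef
  have hR : R.card = k - p := by rw [hRdef, Finset.card_sdiff_of_subset hPΓ, hΓ, hP]
  -- the subgroup fixing R pointwise and P setwise
  let M : Subgroup G :=
    { carrier := {g | (∀ x ∈ R, g • x = x) ∧ ∀ x, g • x ∈ P ↔ x ∈ P}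
      one_mem' := ⟨fun x _ => one_smul _ x, fun x => by rw [one_smul]⟩
      mul_mem' := fun {a b} ha hb => ⟨fun x hx => by rw [mul_smul, hb.1 x hx, ha.1 x hx],
        fun x => by rw [mul_smul, ha.2, hb.2]⟩
      inv_mem' := fun {a} ha => ⟨fun x hx => by rw [inv_smul_eq_iff, ha.1 x hx],
        fun x => by rw [← ha.2, smul_inv_smul]⟩ }
  have hMΓ : ∀ g ∈ M, ∀ x ∈ Γ, g • x ∈ Γ := by
    intro g hg x hx
    by_cases hxP : x ∈ P
    · exact hPΓ ((hg.2 x).2 hxP)
    · rw [hg.1 x (Finset.mem_sdiff.2 ⟨hx, hxP⟩)]; exact hx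
  have horb : ∀ g ∈ M, ∀ a, a ∉ Γ → g • a ∈ MulAction.orbit L a := by
    intro g hg a ha
    obtain ⟨g', hg', hfix, hga⟩ := Cfsg.Agent.S0705.same_orbit G hgen hΓ ha g.2 (hMΓ g hg)
    exact ⟨⟨⟨g', hg'⟩, (mem_fixingSubgroup_iff G).2 hfix⟩, hga⟩
  -- the action on P
  let φ : M →* Equiv.Perm P :=
    { toFun := fun g => Equiv.Perm.subtypePerm ((g : G) : Equiv.Perm α) (fun x => g.2.2 x)
      map_one' := Equiv.ext fun x => Subtype.ext rfl
      map_mul' := fun a b => Equiv.ext fun x => Subtype.ext rfl }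
  have hker : Nat.card φ.ker = Nat.card L := by
    refine Nat.card_eq_of_bijective (fun g => ⟨((g : M) : G), ?_⟩) ⟨?_, ?_⟩
    · refine (mem_fixingSubgroup_iff G).2 fun x hx => ?_
      by_cases hxP : x ∈ P
      · exact congrArg Subtype.val (Equiv.Perm.ext_iff.1 (MonoidHom.mem_ker.1 g.2) ⟨x, hxP⟩)
      · exact (g : M).2.1 x (Finset.mem_sdiff.2 ⟨hx, hxP⟩)
    · intro g g' h
      exact Subtype.ext (Subtype.ext (congrArg Subtype.val h :))
    · rintro ⟨l, hl⟩
      have hl' := (mem_fixingSubgroup_iff G).1 hl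
      refine ⟨⟨⟨l, fun x hx => hl' x (Finset.mem_sdiff.1 hx).1, fun x => ?_⟩,
        MonoidHom.mem_ker.2 (Equiv.ext fun x => Subtype.ext (hl' _ (hPΓ x.2)))⟩, rfl⟩
      constructor
      · intro hx
        have h2 := hl' _ (hPΓ hx)
        rwa [← smul_left_cancel l h2]
      · intro hx
        rwa [hl' x (hPΓ hx)]
  -- a p-cycle is induced
  have hrange : p ∣ Nat.card φ.range := by
    obtain ⟨a, ha⟩ : ∃ a, a ∉ Γ := by
      by_contra h
      push Not at h
      rw [Finset.eq_univ_of_forall h, Finset.card_univ] at hΓ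
      omega
    obtain ⟨π, hπ⟩ := exists_prime_orderOf_dvd_card' (G := Equiv.Perm P) p (by
      rw [Nat.card_perm, Nat.card_eq_fintype_card, Fintype.card_coe, hP]
      exact Nat.dvd_factorial hp.pos le_rfl)
    have hπmem : ∀ x, x ∈ P → Equiv.Perm.ofSubtype π x ∈ P := fun x hx => by
      rw [Equiv.Perm.ofSubtype_apply_of_mem _ hx]; exact (π ⟨x, hx⟩).2
    have hπid : ∀ x, x ∉ P → Equiv.Perm.ofSubtype π x = x := fun x hx =>
      Equiv.Perm.ofSubtype_apply_of_not_mem _ hx
    obtain ⟨g, hg, hgx⟩ := Cfsg.Agent.S0705.exists_extend hgen (s := insert a Γ)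
      (by rw [Finset.card_insert_of_notMem ha, hΓ]) (Equiv.Perm.ofSubtype π) (fun x => by
        by_cases hx : x ∈ P
        · simp [hPΓ hx, hPΓ (hπmem x hx)]
        · rw [hπid x hx])
    have hgP : ∀ x, x ∈ P → g x = Equiv.Perm.ofSubtype π x := fun x hx =>
      hgx x (Finset.mem_insert_of_mem (hPΓ hx))
    have hmemM : (⟨g, hg⟩ : G) ∈ M := by
      refine ⟨fun x hx => ?_, fun x => ⟨fun hx => ?_, fun hx => ?_⟩⟩
      · change g x = x
        rw [hgx x (Finset.mem_insert_of_mem (Finset.mem_sdiff.1 hx).1),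
          hπid x (Finset.mem_sdiff.1 hx).2]
      · change g x ∈ P at hx
        obtain ⟨y, hy⟩ := π.surjective ⟨g x, hx⟩
        have : g y = g x := by
          rw [hgP y y.2, Equiv.Perm.ofSubtype_apply_coe, hy]
        rw [← g.injective this]
        exact y.2
      · change g x ∈ P
        rw [hgP x hx]; exact hπmem x hx
    have hφg : φ ⟨⟨g, hg⟩, hmemM⟩ = π := Equiv.ext fun x => Subtype.ext (by
      change g x = π x
      rw [hgP x x.2, Equiv.Perm.ofSubtype_apply_coe])
    have h1 : π ∈ φ.range := ⟨_, hφg⟩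
    rw [← hπ, ← Subgroup.orderOf_mk π h1]
    exact orderOf_dvd_natCard _
  have hMcard : Nat.card M = Nat.card L * Nat.card φ.range := by
    rw [← Subgroup.card_mul_index φ.ker, hker, Subgroup.index_ker]
  obtain ⟨Q⟩ : Nonempty (Sylow p M) := inferInstance
  have hy : ∀ i, ∃ y ∈ MulAction.orbit L (f i), ∀ g : (Q : Subgroup M), ((g : M) : G) • y = y := by
    intro i
    have hout : ∀ y ∈ MulAction.orbit L (f i), y ∉ Γ := by
      rintro _ ⟨l, rfl⟩ hy
      have h1 : (l : G) • ((l : G) • f i) = (l : G) • f i := (mem_fixingSubgroup_iff G).1 l.2 _ hy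
      have h2 : (l : G) • f i = f i := smul_left_cancel (l : G) h1
      change (l : G) • f i ∈ Γ at hy
      rw [h2] at hy
      exact hf i hy
    letI : MulAction (Q : Subgroup M) (MulAction.orbit L (f i)) :=
      { smul := fun g y => ⟨((g : M) : G) • (y : α), by
          have h1 := horb _ (g : M).2 _ (hout y y.2)
          rwa [MulAction.orbit_eq_iff.2 y.2] at h1⟩
        one_smul := fun y => Subtype.ext (one_smul G _)
        mul_smul := fun a b y => Subtype.ext (mul_smul ((a : M) : G) ((b : M) : G) _) }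
    obtain ⟨y, hy⟩ := Q.isPGroup'.nonempty_fixed_point_of_prime_not_dvd_card
      (MulAction.orbit L (f i)) (hcon i)
    exact ⟨y, y.2, fun g => congrArg Subtype.val (hy g)⟩
  choose y hy hfix using hy
  have hyinj : Function.Injective y := by
    intro i j hij
    by_contra hne
    refine hdist i j hne ?_
    rw [← MulAction.orbit_eq_iff.2 (hy i), hij]
    exact MulAction.mem_orbit_symm.1 (hy j)
  have hyR : Disjoint R (Finset.univ.image y) := by
    rw [Finset.disjoint_left]
    intro x hx hx'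
    obtain ⟨i, -, rfl⟩ := Finset.mem_image.1 hx'
    obtain ⟨l, hl⟩ := hy i
    have h1 : (l : G) • y i = y i :=
      (mem_fixingSubgroup_iff G).1 l.2 _ (Finset.mem_sdiff.1 hx).1
    have hl' : (l : G) • f i = y i := hl
    have h2 : f i = y i := smul_left_cancel (l : G) (hl'.trans h1.symm)
    exact hf i (h2 ▸ (Finset.mem_sdiff.1 hx).1)
  set Δ := R ∪ Finset.univ.image y
  have hΔ : Δ.card = k := by
    rw [Finset.card_union_of_disjoint hyR, hR, Finset.card_image_of_injective _ hyinj,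
      Finset.card_univ, Fintype.card_fin]
    omega
  -- move Δ to Γ
  obtain ⟨c, hc⟩ : ∃ c : G, ∀ x ∈ Γ, c • x ∈ Δ := by
    obtain ⟨e⟩ : Nonempty (Γ ≃ Δ) := Finite.card_eq.1 (by simp [hΓ, hΔ])
    let eΓ : Fin k ≃ Γ := (Γ.equivFinOfCardEq hΓ).symm
    obtain ⟨c, hc⟩ := (Cfsg.Agent.S0705.isKTransitive G hk hgen).exists_smul_eq
      (⟨fun i => (eΓ i : α), Subtype.coe_injective.comp eΓ.injective⟩ : Fin k ↪ α)
      ⟨fun i => (e (eΓ i) : α), Subtype.coe_injective.comp (e.injective.comp eΓ.injective)⟩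
    refine ⟨c, fun x hx => ?_⟩
    have h1 := congrArg (fun d : Fin k ↪ α => d (eΓ.symm ⟨x, hx⟩)) hc
    simp only [Function.Embedding.smul_apply] at h1
    have h2 : c • x = ((e ⟨x, hx⟩ : Δ) : α) := by simpa using h1
    rw [h2]
    exact (e ⟨x, hx⟩).2
  have hQΔ : ∀ (g : (Q : Subgroup M)), ∀ x ∈ Δ, ((g : M) : G) • x = x := by
    intro g x hx
    rcases Finset.mem_union.1 hx with hx | hx
    · exact (g : M).2.1 x hx
    · obtain ⟨i, -, rfl⟩ := Finset.mem_image.1 hx
      exact hfix i g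
  let ψ : (Q : Subgroup M) →* L :=
    { toFun := fun g => ⟨c⁻¹ * ((g : M) : G) * c, (mem_fixingSubgroup_iff G).2 fun x hx => by
        rw [mul_smul, mul_smul, hQΔ g _ (hc x hx), inv_smul_smul]⟩
      map_one' := Subtype.ext (by simp)
      map_mul' := fun a b => Subtype.ext (by simp [mul_assoc]) }
  have hψ : Function.Injective ψ := fun a b h => by
    have h1 : c⁻¹ * ((a : M) : G) * c = c⁻¹ * ((b : M) : G) * c := congrArg Subtype.val h
    exact Subtype.ext (Subtype.ext (mul_left_cancel (mul_right_cancel h1)))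
  have h1 := Subgroup.card_dvd_of_injective ψ hψ
  rw [Q.card_eq_multiplicity, hMcard,
    hp.pow_dvd_iff_le_factorization Nat.card_pos.ne',
    Nat.factorization_mul Nat.card_pos.ne' Nat.card_pos.ne', Finsupp.add_apply] at h1
  have h2 := (hp.dvd_iff_one_le_factorization Nat.card_pos.ne').1 hrange
  omega

end Cfsg.Agent.S0706
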