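import Cfsg.Statements.S0707
import Mathlib

set_option autoImplicit false
open Cfsg
open scoped Pointwise

namespace Cfsg.Agent.S0707


/-- In a primitive permutation group, distinct points have distinct stabilisers unless the group is regular of prime degree. -/
theorem result {α : Type*} (G : Subgroup (Equiv.Perm α)) [MulAction.IsPreprimitive G α] (h : ¬ (Nat.card α).Prime ∨ ∃ a : α, MulAction.stabilizer G a ≠ ⊥) {a b : α} (hab : a ≠ b) : MulAction.stabilizer G a ≠ MulAction.stabilizer G b := by
  intro hst
  let B : Set α := {x | MulAction.stabilizer G x = MulAction.stabilizer G a}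
  have hconj : ∀ (g : G) (x y : α), MulAction.stabilizer G x = MulAction.stabilizer G y →
      MulAction.stabilizer G (g • x) = MulAction.stabilizer G (g • y) := by
    intro g x y h
    rw [MulAction.stabilizer_smul_eq_stabilizer_map_conj, MulAction.stabilizer_smul_eq_stabilizer_map_conj, h]
  have hB : MulAction.IsBlock G B := by
    rw [MulAction.isBlock_iff_smul_eq_of_nonempty]
    rintro g ⟨y, hy1, hy2⟩
    obtain ⟨x, hx, rfl⟩ := Set.mem_smul_set.1 hy1
    have hxa : MulAction.stabilizer G (g • a) = MulAction.stabilizer G a :=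
      (hconj g x a hx).symm.trans hy2
    ext z
    rw [Set.mem_smul_set_iff_inv_smul_mem]
    simp only [B, Set.mem_ofPred_eq]
    constructor
    · intro hz
      have h1 := hconj g _ _ hz
      rw [smul_inv_smul] at h1
      exact h1.trans hxa
    · intro hz
      exact (hconj g⁻¹ _ _ (hz.trans hxa.symm)).trans (by rw [inv_smul_smul])
  rcases hB.subsingleton_or_eq_univ with h1 | h1
  · exact hab (h1 rfl hst.symm)
  · have hbot : ∀ x : α, MulAction.stabilizer G x = ⊥ := by
      intro x
      refine (Subgroup.eq_bot_iff_forall _).2 fun g hg => Subtype.ext (Equiv.Perm.ext fun y => ?_)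
      have hx : x ∈ B := h1 ▸ Set.mem_univ x
      have hy : y ∈ B := h1 ▸ Set.mem_univ y
      have hg' : g ∈ MulAction.stabilizer G y := by rw [show MulAction.stabilizer G y = MulAction.stabilizer G x from Eq.trans hy hx.symm]; exact hg
      exact hg'
    rcases h with h | ⟨x, hx⟩
    swap
    · exact hx (hbot x)
    apply h
    haveI : Nontrivial α := ⟨a, b, hab⟩
    have hco : IsCoatom (⊥ : Subgroup G) := hbot a ▸ MulAction.IsPreprimitive.isCoatom_stabilizer_of_isPreprimitive (G := _) a
    have hall : ∀ g : G, g ≠ 1 → Subgroup.zpowers g = ⊤ :=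
      fun g hg => hco.2 _ (bot_lt_iff_ne_bot.2 (Subgroup.zpowers_ne_bot.2 hg))
    have hcardG : Nat.card α = Nat.card G := by
      refine (Nat.card_eq_of_bijective (fun g : G => g • a) ⟨?_, MulAction.surjective_smul G a⟩).symm
      intro g g' hgg
      have hgg' : g • a = g' • a := hgg
      have h2 : g'⁻¹ * g ∈ MulAction.stabilizer G a := by
        rw [MulAction.mem_stabilizer_iff, mul_smul, hgg', inv_smul_smul]
      rw [hbot a, Subgroup.mem_bot, inv_mul_eq_one] at h2
      exact h2.symm
    obtain ⟨g, hg⟩ : ∃ g : G, g ≠ 1 := by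
      obtain ⟨g, hg⟩ := MulAction.exists_smul_eq G a b
      exact ⟨g, fun h => hab (by simpa [h] using hg)⟩
    have hord : orderOf g = Nat.card G := orderOf_eq_card_of_forall_mem_zpowers (fun x => hall g hg ▸ Subgroup.mem_top x)
    rw [hcardG, ← hord]
    have hfin : orderOf g ≠ 0 := by
      intro h0
      have hg2 : g ^ 2 ≠ 1 := fun h2 => by
        have := orderOf_dvd_of_pow_eq_one h2
        rw [h0, zero_dvd_iff] at this; omega
      have : g ∈ Subgroup.zpowers (g ^ 2) := hall _ hg2 ▸ Subgroup.mem_top g
      obtain ⟨i, hi⟩ := this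
      have hi' : g ^ (2 * i) = g ^ (1 : ℤ) := by rw [zpow_one, zpow_mul]; exact_mod_cast hi
      have hz := injective_zpow_iff_not_isOfFinOrder.2 (orderOf_eq_zero_iff.1 h0) hi'
      omega
    refine Nat.prime_def_minFac.2 ⟨?_, ?_⟩
    · have : orderOf g ≠ 1 := fun h1 => hg (orderOf_eq_one_iff.1 h1)
      omega
    · set p := (orderOf g).minFac with hp
      have hp1 : orderOf g ≠ 1 := fun h1 => hg (orderOf_eq_one_iff.1 h1)
      have hpp : p.Prime := Nat.minFac_prime hp1
      have hdvd : p ∣ orderOf g := Nat.minFac_dvd _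
      have hx : orderOf (g ^ (orderOf g / p)) = p := orderOf_pow_orderOf_div hfin hdvd
      have hne : g ^ (orderOf g / p) ≠ 1 := fun h1 => by rw [h1, orderOf_one] at hx; exact hpp.one_lt.ne hx
      have h3 := orderOf_eq_card_of_forall_mem_zpowers (fun x => hall _ hne ▸ Subgroup.mem_top x)
      rw [hx, ← hord] at h3
      exact h3

end Cfsg.Agent.S0707
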