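import Cfsg.Statements.S0710
import Mathlib

set_option autoImplicit false
open Cfsg

namespace Cfsg.Agent.S0710


/-- No transitive permutation group on 13 points has order `13 * 12 * 11 * 10 * 9 * 8`. -/
theorem result {α : Type*} [Fintype α] [DecidableEq α] (hα : Fintype.card α = 13) (G : Subgroup (Equiv.Perm α)) [MulAction.IsPretransitive G α] : Nat.card G ≠ 13 * 12 * 11 * 10 * 9 * 8 := by
  intro hcard
  haveI : Fact (Nat.Prime 13) := ⟨by norm_num⟩
  obtain ⟨P⟩ : Nonempty (Sylow 13 G) := inferInstance
  have hP13 : Nat.card (P : Subgroup G) = 13 := by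
    rw [P.card_eq_multiplicity, hcard, Nat.factorization_def _ (Fact.out : Nat.Prime 13)]
    have h1 : padicValNat 13 (13 * 12 * 11 * 10 * 9 * 8) = 1 := by
      rw [show 13 * 12 * 11 * 10 * 9 * 8 = 13 * (12 * 11 * 10 * 9 * 8) by norm_num,
        padicValNat.mul (by norm_num) (by norm_num), padicValNat.self (by norm_num),
        padicValNat.eq_zero_of_not_dvd (by norm_num)]
    rw [h1, pow_one]
  have hdiv : ∀ x : α, Nat.card (MulAction.orbit (P : Subgroup G) x) = 1 ∨
      MulAction.orbit (P : Subgroup G) x = Set.univ := by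
    intro x
    have h1 : Nat.card (MulAction.orbit (P : Subgroup G) x) ∣ 13 := by
      refine dvd_trans ?_ (dvd_of_eq hP13)
      rw [Nat.card_congr (MulAction.orbitEquivQuotientStabilizer _ x)]
      exact Subgroup.card_quotient_dvd_card _
    rcases (Nat.dvd_prime (by norm_num : Nat.Prime 13)).1 h1 with h | h
    · exact Or.inl h
    · refine Or.inr ?_
      apply Set.eq_of_subset_of_ncard_le (Set.subset_univ _) ?_ (Set.toFinite _)
      rw [Set.ncard_univ, Nat.card_eq_fintype_card, hα, ← Nat.card_coe_set_eq, h]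
  have htr : ∃ a : α, MulAction.orbit (P : Subgroup G) a = Set.univ := by
    by_contra hne
    push Not at hne
    have hbot : (P : Subgroup G) = ⊥ := by
      refine (Subgroup.eq_bot_iff_forall _).2 fun g hg => Subtype.ext (Equiv.Perm.ext fun x => ?_)
      obtain ⟨h1, -⟩ := Nat.card_eq_one_iff_unique.1 ((hdiv x).resolve_right (hne x))
      exact congrArg Subtype.val
        (h1.elim ⟨(⟨g, hg⟩ : (P : Subgroup G)) • x, MulAction.mem_orbit _ _⟩
          ⟨x, MulAction.mem_orbit_self _⟩)
    rw [hbot] at hP13
    simp at hP13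
  obtain ⟨a, ha⟩ := htr
  set N := Subgroup.normalizer ((P : Subgroup G) : Set G) with hN
  set φ := Subgroup.normalizerMonoidHom (P : Subgroup G)
  have hker : Nat.card φ.ker ≤ 13 := by
    have hinj : Function.Injective (fun c : φ.ker => ((c : N) : G) • a) := by
      intro c d hcd
      have hc : ∀ e : φ.ker, ∀ h ∈ (P : Subgroup G), h * ((e : N) : G) = ((e : N) : G) * h := by
        intro e h hh
        have he : (e : N) ∈ (Subgroup.centralizer ((P : Subgroup G) : Set G)).subgroupOf N :=
          (Subgroup.normalizerMonoidHom_ker (P : Subgroup G)).le e.2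
        rw [Subgroup.mem_subgroupOf] at he
        exact Subgroup.mem_centralizer_iff.1 he h hh
      apply Subtype.ext; apply Subtype.ext
      refine Subtype.ext (Equiv.Perm.ext fun x => ?_)
      obtain ⟨h, rfl⟩ := MulAction.mem_orbit_iff.1 (ha.symm ▸ Set.mem_univ x : x ∈ MulAction.orbit (P : Subgroup G) a)
      change ((c : N) : G) • ((h : G) • a) = ((d : N) : G) • ((h : G) • a)
      rw [smul_smul, smul_smul, ← hc c h h.2, ← hc d h h.2, ← smul_smul, ← smul_smul]
      exact congrArg _ hcd
    have := Nat.card_le_card_of_injective _ hinj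
    rwa [Nat.card_eq_fintype_card (α := α), hα] at this
  have haut : Nat.card (MulAut (P : Subgroup G)) = 12 := by
    haveI : IsCyclic (P : Subgroup G) := isCyclic_of_prime_card hP13
    rw [IsCyclic.card_mulAut, hP13, Nat.totient_prime (by norm_num)]
  have hquot : φ.ker.index ∣ 12 := by
    rw [← haut, Subgroup.index_ker]
    exact Subgroup.card_subgroup_dvd_card _
  have hPN : 13 ∣ Nat.card φ.ker := by
    have hle : (P : Subgroup G).subgroupOf N ≤ φ.ker := by
      rw [Subgroup.normalizerMonoidHom_ker]
      haveI : IsCyclic (P : Subgroup G) := isCyclic_of_prime_card hP13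
      intro x hx
      rw [Subgroup.mem_subgroupOf] at hx ⊢
      rw [Subgroup.mem_centralizer_iff]
      intro y hy
      obtain ⟨g, hg⟩ := IsCyclic.exists_generator (α := (P : Subgroup G))
      obtain ⟨i, hi⟩ := Subgroup.mem_zpowers_iff.1 (hg ⟨x, hx⟩)
      obtain ⟨j, hj⟩ := Subgroup.mem_zpowers_iff.1 (hg ⟨y, hy⟩)
      exact congrArg Subtype.val (show (⟨y, hy⟩ : (P : Subgroup G)) * ⟨x, hx⟩ = ⟨x, hx⟩ * ⟨y, hy⟩ by
        rw [← hi, ← hj, zpow_mul_comm])
    have := Subgroup.card_dvd_of_le hle
    rwa [Nat.card_congr (Subgroup.subgroupOfEquivOfLe Subgroup.le_normalizer).toEquiv, hP13] at this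
  have hk : Nat.card φ.ker = 13 :=
    le_antisymm hker (Nat.le_of_dvd Nat.card_pos hPN)
  have hNcard : Nat.card N = 13 * φ.ker.index := by
    rw [← Subgroup.card_mul_index φ.ker, hk]
  have hidx : N.index * Nat.card N = 13 * 12 * 11 * 10 * 9 * 8 := by
    rw [Subgroup.index_mul_card, hcard]
  have hmod : N.index % 13 = 1 := by
    have := card_sylow_modEq_one 13 G
    rw [Sylow.card_eq_index_normalizer P] at this
    exact this
  have hpos : φ.ker.index ≤ 12 := Nat.le_of_dvd (by norm_num) hquot
  generalize φ.ker.index = d at *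
  generalize N.index = m at *
  rw [hNcard] at hidx
  interval_cases d <;> omega

end Cfsg.Agent.S0710
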