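import Cfsg.Statements.S0711
import Mathlib

set_option autoImplicit false
open Cfsg

namespace Cfsg.Agent.S0711

variable {α : Type*} [Fintype α] [DecidableEq α]

/-- Support bound for `g⁻¹ * (h g h⁻¹)`. -/
theorem support_bound (g h : Equiv.Perm α) (T U : Finset α) (hT : T ⊆ g.support)
    (hU : U ⊆ g.support) (hU' : ∀ u ∈ U, h⁻¹ u ∈ g.support)
    (hagree : ∀ y ∈ T, (h * g * h⁻¹) y = g y) :
    (g⁻¹ * (h * g * h⁻¹)).support.card + T.card + U.card ≤ 2 * g.support.card := by
  set S' := g.support.map h.toEmbedding with hS'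
  have hmem : ∀ y, y ∈ S' ↔ h⁻¹ y ∈ g.support := by
    intro y
    rw [hS', Finset.mem_map_equiv]
    rfl
  have h1 : (g⁻¹ * (h * g * h⁻¹)).support ⊆ (g.support ∪ S') \ T := by
    intro y hy
    rw [Equiv.Perm.mem_support, Equiv.Perm.mul_apply] at hy
    rw [Finset.mem_sdiff, Finset.mem_union]
    refine ⟨?_, fun hyT => hy (by rw [hagree y hyT]; simp)⟩
    by_contra hcon
    push Not at hcon
    obtain ⟨h2, h3⟩ := hcon
    rw [hmem, Equiv.Perm.notMem_support] at h3
    rw [Equiv.Perm.notMem_support] at h2
    apply hy
    rw [Equiv.Perm.mul_apply, Equiv.Perm.mul_apply, h3, show h (h⁻¹ y) = y by simp,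
      Equiv.Perm.inv_eq_iff_eq, h2]
  have h2 := Finset.card_le_card h1
  rw [Finset.card_sdiff_of_subset (hT.trans Finset.subset_union_left)] at h2
  have h3 : U.card ≤ (g.support ∩ S').card :=
    Finset.card_le_card fun u hu => Finset.mem_inter.2 ⟨hU hu, (hmem u).2 (hU' u hu)⟩
  have h4 := Finset.card_union_add_card_inter g.support S'
  have h5 : S'.card = g.support.card := by rw [hS', Finset.card_map]
  have h6 := Finset.card_le_card (hT.trans (Finset.subset_union_left (s₂ := S')))
  omega

theorem exists_fix_move (G : Subgroup (Equiv.Perm α)) {k : ℕ} (hkn : k ≤ Fintype.card α)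
    (hG : MulAction.IsMultiplyPretransitive G α k) (T : Finset α) (hT : T.card + 1 ≤ k)
    {a z : α} (ha : a ∉ T) (hz : z ∉ T) :
    ∃ h ∈ G, (∀ y ∈ T, h y = y) ∧ h a = z := by
  haveI : MulAction.IsMultiplyPretransitive G α k := hG
  haveI : MulAction.IsMultiplyPretransitive G α (T.card + 1) :=
    MulAction.isMultiplyPretransitive_of_le (n := k) hT (by rw [Nat.card_eq_fintype_card]; exact hkn)
  let e : Fin (T.card + 1) ≃ Option T := (finSuccEquiv _).trans (Equiv.optionCongr T.equivFin.symm)
  have emb : ∀ b, b ∉ T → Function.Injective (fun o : Option T => o.elim b (fun t => (t : α))) := by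
    intro b hb o o' hoo
    cases o with
    | none =>
      cases o' with
      | none => rfl
      | some t =>
        have : b = (t : α) := hoo
        exact absurd (this ▸ t.2) hb
    | some t =>
      cases o' with
      | none =>
        have : (t : α) = b := hoo
        exact absurd (this ▸ t.2) hb
      | some t' => exact congrArg some (Subtype.ext hoo)
  obtain ⟨h, hh⟩ := MulAction.exists_smul_eq G
    (⟨fun i => (e i).elim a (fun t => (t : α)), (emb a ha).comp e.injective⟩ : Fin (T.card + 1) ↪ α)
    ⟨fun i => (e i).elim z (fun t => (t : α)), (emb z hz).comp e.injective⟩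
  refine ⟨h, h.2, fun y hy => ?_, ?_⟩
  · have := congrArg (fun d : Fin (T.card + 1) ↪ α => d (e.symm (some ⟨y, hy⟩))) hh
    simpa [Function.Embedding.smul_apply, Subgroup.smul_def] using this
  · have := congrArg (fun d : Fin (T.card + 1) ↪ α => d (e.symm none)) hh
    simpa [Function.Embedding.smul_apply, Subgroup.smul_def] using this

theorem exists_arcs (g : Equiv.Perm α) :
    ∀ j, j ≤ g.support.card → ∃ T : Finset α, T ⊆ g.support ∧ T.card = j ∧
      ∀ y ∈ T, ∀ y' ∈ T, g y ∉ T → g y' ∉ T → y = y' := by
  intro j
  induction j with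
  | zero => exact fun _ => ⟨∅, by simp, by simp, by simp⟩
  | succ j ih =>
    intro hj
    obtain ⟨T, hTS, hTc, hT⟩ := ih (by omega)
    by_cases hex : ∃ y ∈ T, g y ∉ T
    · obtain ⟨y, hy, hgy⟩ := hex
      refine ⟨insert (g y) T, Finset.insert_subset (Equiv.Perm.apply_mem_support.2 (hTS hy)) hTS,
        by rw [Finset.card_insert_of_notMem hgy, hTc], ?_⟩
      have key : ∀ u ∈ insert (g y) T, g u ∉ insert (g y) T → u = g y := by
        intro u hu hgu
        rcases Finset.mem_insert.1 hu with rfl | hu'
        · rfl
        · exfalso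
          have h1 : g u ∉ T := fun h => hgu (Finset.mem_insert_of_mem h)
          obtain rfl := hT u hu' y hy h1 hgy
          exact hgu (Finset.mem_insert_self _ _)
      intro u hu u' hu' h h'
      rw [key u hu h, key u' hu' h']
    · push Not at hex
      obtain ⟨w, hw⟩ : (g.support \ T).Nonempty := by
        rw [← Finset.card_pos, Finset.card_sdiff_of_subset hTS]; omega
      obtain ⟨hwS, hwT⟩ := Finset.mem_sdiff.1 hw
      refine ⟨insert w T, Finset.insert_subset hwS hTS,
        by rw [Finset.card_insert_of_notMem hwT, hTc], ?_⟩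
      have key : ∀ u ∈ insert w T, g u ∉ insert w T → u = w := by
        intro u hu hgu
        rcases Finset.mem_insert.1 hu with rfl | hu'
        · rfl
        · exact absurd (Finset.mem_insert_of_mem (hex u hu')) hgu
      intro u hu u' hu' h h'
      rw [key u hu h, key u' hu' h']

theorem swap_mem_of_top (G : Subgroup (Equiv.Perm α)) {k : ℕ} (hkn : k ≤ Fintype.card α)
    (hk2 : 2 ≤ k) (hnk : Fintype.card α ≤ k) (hG : MulAction.IsMultiplyPretransitive G α k) :
    ∃ h, h ∈ G ∧ h ≠ 1 ∧ h.support.card ≤ 3 := by
  obtain ⟨a, z, haz⟩ := Fintype.exists_pair_of_one_lt_card (show 1 < Fintype.card α by omega)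
  obtain ⟨h, hh, hfix, hha⟩ := exists_fix_move G hkn hG ((Finset.univ.erase a).erase z)
    (by
      rw [Finset.card_erase_of_mem (by simp [haz.symm]), Finset.card_erase_of_mem (Finset.mem_univ _),
        Finset.card_univ]
      omega)
    (a := a) (z := z) (by simp) (by simp)
  refine ⟨h, hh, fun e => haz (by simpa [e] using hha), ?_⟩
  have h1 : h.support ⊆ {a, z} := by
    intro y hy
    rw [Equiv.Perm.mem_support] at hy
    by_contra hc
    simp only [Finset.mem_insert, Finset.mem_singleton, not_or] at hc
    exact hy (hfix y (by simp [hc.1, hc.2]))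
  exact (Finset.card_le_card h1).trans (Finset.card_le_two.trans (by omega))

theorem step (G : Subgroup (Equiv.Perm α)) {k : ℕ} (hkn : k ≤ Fintype.card α) (hk : 3 ≤ k)
    (hG : MulAction.IsMultiplyPretransitive G α k) (g : Equiv.Perm α) (hg : g ∈ G)
    (hm : 4 ≤ g.support.card) (hsupp : g.support.card < 2 * k - 2) :
    (∃ h, h ∈ G ∧ h ≠ 1 ∧ h.support.card ≤ 3) ∨
      ∃ x, x ∈ G ∧ x ≠ 1 ∧ x.support.card < g.support.card := by
  classical
  by_cases hnk : Fintype.card α ≤ k
  · exact Or.inl (swap_mem_of_top G hkn (by omega) hnk hG)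
  have build : ∀ h, h ∈ G → g⁻¹ * (h * g * h⁻¹) ∈ G := fun h hh =>
    mul_mem (inv_mem hg) (mul_mem (mul_mem hh hg) (inv_mem hh))
  have build' : ∀ h y, (h * g * h⁻¹) y ≠ g y → g⁻¹ * (h * g * h⁻¹) ≠ 1 := by
    intro h y hy e
    rw [inv_mul_eq_one] at e
    exact hy (by rw [← e])
  have conj_apply : ∀ h : Equiv.Perm α, ∀ y, (h * g * h⁻¹) (h y) = h (g y) := fun h y => by simp
  right
  by_cases hfull : g.support = Finset.univ
  · -- no fixed points
    have hmove : ∀ y, g y ≠ y := fun y => by
      rw [← Equiv.Perm.mem_support, hfull]; exact Finset.mem_univ _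
    obtain ⟨a⟩ : Nonempty α := Fintype.card_pos_iff.1 (by omega)
    suffices ∃ h ∈ G, (h * g * h⁻¹) a = g a ∧ ∃ y, (h * g * h⁻¹) y ≠ g y by
      obtain ⟨h, hh, ha, y, hy⟩ := this
      refine ⟨_, build h hh, build' h y hy, ?_⟩
      have : (g⁻¹ * (h * g * h⁻¹)).support ⊆ g.support.erase a := fun u hu => by
        rw [Finset.mem_erase, hfull]
        refine ⟨?_, Finset.mem_univ _⟩
        rintro rfl
        rw [Equiv.Perm.mem_support, Equiv.Perm.mul_apply, ha] at hu
        exact hu (by simp)
      exact lt_of_le_of_lt (Finset.card_le_card this)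
        (Finset.card_erase_lt_of_mem (hfull ▸ Finset.mem_univ a))
    by_cases h3 : g (g a) = a
    · obtain ⟨w, hw⟩ : (Finset.univ \ {a, g a} : Finset α).Nonempty := by
        rw [← Finset.card_pos, Finset.card_sdiff_of_subset (Finset.subset_univ _), Finset.card_univ]
        have := Finset.card_le_two (a := a) (b := g a)
        omega
      simp only [Finset.mem_sdiff, Finset.mem_univ, true_and, Finset.mem_insert,
        Finset.mem_singleton, not_or] at hw
      have hgw1 : g w ≠ a := fun e => hw.2 (g.injective (by rw [e, h3]))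
      have hgw2 : g w ≠ g a := fun e => hw.1 (g.injective e)
      have hc : 4 ≤ k := by omega
      obtain ⟨z, hz⟩ : (Finset.univ \ {a, g a, w, g w} : Finset α).Nonempty := by
        rw [← Finset.card_pos, Finset.card_sdiff_of_subset (Finset.subset_univ _), Finset.card_univ]
        have := Finset.card_le_four (a := a) (b := g a) (c := w) (d := g w)
        omega
      simp only [Finset.mem_sdiff, Finset.mem_univ, true_and, Finset.mem_insert,
        Finset.mem_singleton, not_or] at hz
      obtain ⟨h, hh, hfix, hha⟩ := exists_fix_move G hkn hG {a, g a, w}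
        (Nat.succ_le_of_lt (lt_of_le_of_lt Finset.card_le_three (by omega))) (a := g w) (z := z)
        (by simp [hgw1, hgw2, hmove w]) (by simp [hz.1, hz.2.1, hz.2.2.1])
      have f1 := hfix a (by simp)
      have f2 := hfix (g a) (by simp)
      have f3 := hfix w (by simp)
      refine ⟨h, hh, ?_, w, ?_⟩
      · have := conj_apply h a; rwa [f1, f2] at this
      · have := conj_apply h w; rw [f3, hha] at this
        rw [this]; exact hz.2.2.2
    · obtain ⟨z, hz⟩ : (Finset.univ \ {a, g a, g (g a)} : Finset α).Nonempty := by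
        rw [← Finset.card_pos, Finset.card_sdiff_of_subset (Finset.subset_univ _), Finset.card_univ]
        have := Finset.card_le_three (a := a) (b := g a) (c := g (g a))
        omega
      simp only [Finset.mem_sdiff, Finset.mem_univ, true_and, Finset.mem_insert,
        Finset.mem_singleton, not_or] at hz
      obtain ⟨h, hh, hfix, hha⟩ := exists_fix_move G hkn hG {a, g a}
        (Nat.succ_le_of_lt (lt_of_le_of_lt Finset.card_le_two (by omega))) (a := g (g a)) (z := z)
        (by simp [h3, hmove (g a)]) (by simp [hz.1, hz.2.1])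
      have f1 := hfix a (by simp)
      have f2 := hfix (g a) (by simp)
      refine ⟨h, hh, ?_, g a, ?_⟩
      · have := conj_apply h a; rwa [f1, f2] at this
      · have := conj_apply h (g a); rw [f2, hha] at this
        rw [this]; exact hz.2.2
  obtain ⟨out, hout⟩ : ∃ o, o ∉ g.support := by
    by_contra hc
    push Not at hc
    exact hfull (Finset.eq_univ_of_forall hc)
  set m := g.support.card with hmdef
  set j := min (k - 1) (m - 1) with hjdef
  obtain ⟨T, hTS, hTc, hT⟩ := exists_arcs g j (by omega)
  by_cases hex : ∃ y ∈ T, g y ∉ T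
  · obtain ⟨y, hy, hgy⟩ := hex
    have hgyS : g y ∈ g.support := Equiv.Perm.apply_mem_support.2 (hTS hy)
    -- the arcs inside `T`
    have hT0 : ∀ u ∈ T.erase y, g u ∈ T := fun u hu => by
      by_contra hc
      exact (Finset.mem_erase.1 hu).1 (hT u (Finset.mem_erase.1 hu).2 y hy hc hgy)
    have hy0 : (T.erase y).card = j - 1 := by rw [Finset.card_erase_of_mem hy, hTc]
    have main : ∀ z, z ∉ T → z ≠ g y → ∀ U : Finset α, U ⊆ g.support →
        (∀ u ∈ U, u ∈ T ∨ u = z) → 2 * m < U.card + (j - 1) + m →
        ∃ x, x ∈ G ∧ x ≠ 1 ∧ x.support.card < m := by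
      intro z hzT hzy U hUS hU hlt
      obtain ⟨h, hh, hfix, hha⟩ := exists_fix_move G hkn hG T (by omega) hgy hzT
      refine ⟨_, build h hh, build' h y ?_, ?_⟩
      · have := conj_apply h y; rw [hfix y hy, hha] at this
        rw [this]; exact hzy
      · have := support_bound g h (T.erase y) U ((Finset.erase_subset _ _).trans hTS) hUS
          (fun u hu => by
            rcases hU u hu with hu' | rfl
            · rw [show h⁻¹ u = u by rw [Equiv.Perm.inv_eq_iff_eq, hfix u hu']]
              exact hTS hu'
            · rw [show h⁻¹ u = g y by rw [Equiv.Perm.inv_eq_iff_eq, hha]]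
              exact hgyS)
          (fun u hu => by
            have := conj_apply h u
            rwa [hfix u (Finset.mem_erase.1 hu).2, hfix _ (hT0 u hu)] at this)
        omega
    by_cases hmk : m ≤ k
    · exact main out (fun e => hout (hTS e)) (fun e => hout (e ▸ hgyS)) T hTS
        (fun u hu => Or.inl hu) (by omega)
    · obtain ⟨z, hz⟩ : (g.support \ insert (g y) T).Nonempty := by
        rw [← Finset.card_pos, Finset.card_sdiff_of_subset (Finset.insert_subset hgyS hTS),
          Finset.card_insert_of_notMem hgy]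
        omega
      obtain ⟨hzS, hz'⟩ := Finset.mem_sdiff.1 hz
      rw [Finset.mem_insert, not_or] at hz'
      exact main z hz'.2 hz'.1 (insert z T) (Finset.insert_subset hzS hTS)
        (fun u hu => (Finset.mem_insert.1 hu).symm)
        (by rw [Finset.card_insert_of_notMem hz'.2]; omega)
  · push Not at hex
    obtain ⟨w, hw⟩ : (g.support \ T).Nonempty := by
      rw [← Finset.card_pos, Finset.card_sdiff_of_subset hTS]; omega
    obtain ⟨hwS, hwT⟩ := Finset.mem_sdiff.1 hw
    have himg : T.image g = T := Finset.eq_of_subset_of_card_le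
      (fun u hu => by obtain ⟨v, hv, rfl⟩ := Finset.mem_image.1 hu; exact hex v hv)
      (by rw [Finset.card_image_of_injective _ g.injective])
    have hgwT : g w ∉ T := fun e => by
      rw [← himg] at e
      obtain ⟨v, hv, hvw⟩ := Finset.mem_image.1 e
      exact hwT (g.injective hvw ▸ hv)
    -- so at least two points lie outside `T`
    have h2 : 2 ≤ (g.support \ T).card := by
      have : ({w, g w} : Finset α) ⊆ g.support \ T := by
        intro u hu
        rcases Finset.mem_insert.1 hu with rfl | hu
        · exact hw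
        · rw [Finset.mem_singleton.1 hu]
          exact Finset.mem_sdiff.2 ⟨Equiv.Perm.apply_mem_support.2 hwS, hgwT⟩
      have := Finset.card_le_card this
      rwa [Finset.card_pair (Equiv.Perm.mem_support.1 hwS).symm] at this
    rw [Finset.card_sdiff_of_subset hTS] at h2
    obtain ⟨h, hh, hfix, hha⟩ := exists_fix_move G hkn hG T (by omega) hwT
      (show out ∉ T from fun e => hout (hTS e))
    refine ⟨_, build h hh, build' h out ?_, ?_⟩
    · have := conj_apply h w
      rw [hha] at this
      rw [this, Equiv.Perm.notMem_support.1 hout, ← hha]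
      exact h.injective.ne (Equiv.Perm.mem_support.1 hwS)
    · have := support_bound g h T T hTS hTS
        (fun u hu => by
          rw [show h⁻¹ u = u by rw [Equiv.Perm.inv_eq_iff_eq, hfix u hu]]
          exact hTS hu)
        (fun u hu => by
          have := conj_apply h u
          rwa [hfix u hu, hfix _ (hex u hu)] at this)
      omega

/-- A `k`-transitive permutation group (`k ≥ 3`) with a non-identity element of support smaller than `2k - 2` contains a non-identity element of support at most 3, and therefore contains the alternating group. -/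
theorem result {α : Type*} [Fintype α] [DecidableEq α] (G : Subgroup (Equiv.Perm α)) {k : ℕ} (hk : 3 ≤ k) (hkn : k ≤ Fintype.card α) (hG : MulAction.IsMultiplyPretransitive G α k) (g : Equiv.Perm α) (hg : g ∈ G) (hg1 : g ≠ 1) (hsupp : g.support.card < 2 * k - 2) : (∃ h : Equiv.Perm α, h ∈ G ∧ h ≠ 1 ∧ h.support.card ≤ 3) ∧ alternatingGroup α ≤ G := by
  have key : ∀ m, ∀ g, g ∈ G → g ≠ 1 → g.support.card = m → m < 2 * k - 2 →
      ∃ h : Equiv.Perm α, h ∈ G ∧ h ≠ 1 ∧ h.support.card ≤ 3 := by
    intro m
    induction m using Nat.strong_induction_on with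
    | _ m ih =>
      intro g hg hg1 hgm hlt
      by_cases h3 : m ≤ 3
      · exact ⟨g, hg, hg1, by omega⟩
      rcases step G hkn hk hG g hg (by omega) (by omega) with h | ⟨x, hx, hx1, hxlt⟩
      · exact h
      · exact ih _ (hgm ▸ hxlt) x hx hx1 rfl (by omega)
  obtain ⟨h, hh, hh1, hh3⟩ := key _ g hg hg1 rfl hsupp
  refine ⟨⟨h, hh, hh1, hh3⟩, ?_⟩
  haveI : MulAction.IsMultiplyPretransitive G α k := hG
  have hprim : MulAction.IsPreprimitive G α := MulAction.isPreprimitive_of_is_two_pretransitive
    (MulAction.isMultiplyPretransitive_of_le (n := k) (by omega)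
      (by rw [Nat.card_eq_fintype_card]; exact hkn))
  have h2 : 2 ≤ h.support.card := Equiv.Perm.two_le_card_support_of_ne_one hh1
  rcases (show h.support.card = 2 ∨ h.support.card = 3 by omega) with e | e
  · rw [Equiv.Perm.subgroup_eq_top_of_isPreprimitive_of_isSwap_mem hprim h
      (Equiv.Perm.card_support_eq_two.1 e) hh]
    exact le_top
  · exact Equiv.Perm.alternatingGroup_le_of_isPreprimitive_of_isThreeCycle_mem hprim
      (card_support_eq_three_iff.1 e) hh

end Cfsg.Agent.S0711
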