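import Cfsg.Statements.S0712
import Cfsg.Agent.PermGroups.Basic
import Mathlib.GroupTheory.GroupAction.Jordan

set_option autoImplicit false
open Cfsg

namespace Cfsg.Agent.S0712


/-- Jordan: a primitive group in which the pointwise stabiliser of a set `s` is doubly transitive on the complement of `s` (which has at least 2 points) is `(|s| + 2)`-transitive. -/
theorem result {α : Type*} [Fintype α] [DecidableEq α] (G : Subgroup (Equiv.Perm α)) (hG : MulAction.IsPreprimitive G α) (s : Set α) {m : ℕ} (hsm : s.ncard = m) (hm : m + 2 ≤ Fintype.card α) (h2 : MulAction.IsMultiplyPretransitive (fixingSubgroup G s) (SubMulAction.ofFixingSubgroup G s) 2) : MulAction.IsMultiplyPretransitive G α (m + 2) := by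
  classical
  obtain ⟨e, he⟩ : ∃ e : Fin m ↪ α, Set.range e = s := by
    have hc : Nat.card (Fin m) = Nat.card s := by rw [Nat.card_fin, Nat.card_coe_set_eq, hsm]
    obtain ⟨φ⟩ := Finite.card_eq.1 hc
    exact ⟨φ.toEmbedding.trans (Function.Embedding.subtype _), Set.ext fun x =>
      ⟨fun ⟨i, hi⟩ => hi ▸ (φ i).2,
       fun hx => ⟨φ.symm ⟨x, hx⟩, congrArg Subtype.val (φ.apply_symm_apply _)⟩⟩⟩
  have hcα : Nat.card α = Fintype.card α := Nat.card_eq_fintype_card
  have htrm : MulAction.IsMultiplyPretransitive G α m := by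
    rcases m with _ | j
    · exact MulAction.is_zero_pretransitive
    have hp := hG.isMultiplyPreprimitive (s := s) (n := j) hsm (by omega)
      (MulAction.isPreprimitive_of_is_two_pretransitive h2)
    haveI := hp
    haveI : MulAction.IsMultiplyPretransitive G α (j + 2) :=
      MulAction.IsMultiplyPreprimitive.isMultiplyPretransitive G α (j + 2)
    exact MulAction.isMultiplyPretransitive_of_le (n := j + 2) (by omega)
      (by omega)
  constructor
  intro x y
  have hkey : ∀ z : Fin (m + 2) ↪ α, ∃ g : G, (∀ i : Fin m, g • z (Fin.castAdd 2 i) = e i) := by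
    intro z
    obtain ⟨g, hg⟩ := htrm.exists_smul_eq ((Fin.castAddEmb 2).trans z) e
    exact ⟨g, fun i => congrArg (fun f : Fin m ↪ α => f i) hg⟩
  obtain ⟨gx, hgx⟩ := hkey x
  obtain ⟨gy, hgy⟩ := hkey y
  have hout : ∀ (z : Fin (m + 2) ↪ α) (g : G), (∀ i : Fin m, g • z (Fin.castAdd 2 i) = e i) →
      ∀ j : Fin 2, g • z (Fin.natAdd m j) ∈ SubMulAction.ofFixingSubgroup G s := by
    intro z g hg j
    rw [SubMulAction.mem_ofFixingSubgroup_iff, ← he]
    rintro ⟨i, hi⟩
    rw [← hg i] at hi
    have := congrArg Fin.val (z.injective (smul_left_cancel g hi))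
    simp at this
    omega
  have h01 : ∀ (z : Fin (m + 2) ↪ α) (g : G), g • z (Fin.natAdd m 0) ≠ g • z (Fin.natAdd m 1) := by
    intro z g h
    have := congrArg Fin.val (z.injective (smul_left_cancel g h))
    simp at this
  rw [MulAction.is_two_pretransitive_iff] at h2
  obtain ⟨⟨k, hk⟩, hk0, hk1⟩ := @h2 ⟨_, hout x gx hgx 0⟩ ⟨_, hout x gx hgx 1⟩
    ⟨_, hout y gy hgy 0⟩ ⟨_, hout y gy hgy 1⟩
    (fun h => h01 x gx (congrArg Subtype.val h)) (fun h => h01 y gy (congrArg Subtype.val h))
  refine ⟨gy⁻¹ * k * gx, ?_⟩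
  ext i
  change (gy⁻¹ * k * gx) • x i = y i
  rw [mul_smul, mul_smul, inv_smul_eq_iff]
  refine Fin.addCases (fun i => ?_) (fun j => ?_) i
  · rw [hgx, hgy]
    exact (mem_fixingSubgroup_iff G).1 hk _ (he ▸ ⟨i, rfl⟩)
  · fin_cases j
    · exact congrArg Subtype.val hk0
    · exact congrArg Subtype.val hk1

end Cfsg.Agent.S0712
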