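import Cfsg.Statements.S0714
import Cfsg.Agent.Eq.Def_Perm
import Mathlib

set_option autoImplicit false
open Cfsg

namespace Cfsg.Agent.S0714

variable {α : Type*} [Fintype α] [DecidableEq α]

theorem exists_even_two (hα : 4 ≤ Fintype.card α) {a b x y : α} (hab : a ≠ b) (hxy : x ≠ y) :
    ∃ σ : alternatingGroup α, (σ : Equiv.Perm α) a = x ∧ (σ : Equiv.Perm α) b = y := by
  set π : Equiv.Perm α := Equiv.swap (Equiv.swap a x b) y * Equiv.swap a x with hπ
  have h1 : π a = x := by
    rw [hπ, Equiv.Perm.mul_apply, Equiv.swap_apply_left, Equiv.swap_apply_of_ne_of_ne ?_ hxy]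
    intro e
    have := congrArg (Equiv.swap a x) e
    simp at this
    exact hab this
  have h2 : π b = y := by rw [hπ, Equiv.Perm.mul_apply, Equiv.swap_apply_left]
  rcases Int.units_eq_one_or (Equiv.Perm.sign π) with hs | hs
  · exact ⟨⟨π, hs⟩, h1, h2⟩
  · obtain ⟨d, hd⟩ : (Finset.univ \ {x, y} : Finset α).Nonempty := by
      rw [← Finset.card_pos, Finset.card_sdiff_of_subset (Finset.subset_univ _), Finset.card_univ,
        Finset.card_pair hxy]
      omega
    obtain ⟨e, he⟩ : (Finset.univ \ {x, y, d} : Finset α).Nonempty := by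
      rw [← Finset.card_pos, Finset.card_sdiff_of_subset (Finset.subset_univ _), Finset.card_univ]
      have := Finset.card_le_three (a := x) (b := y) (c := d)
      omega
    simp only [Finset.mem_sdiff, Finset.mem_univ, true_and, Finset.mem_insert,
      Finset.mem_singleton, not_or] at hd he
    refine ⟨⟨Equiv.swap d e * π, ?_⟩, ?_, ?_⟩
    · change Equiv.Perm.sign _ = 1
      rw [map_mul, hs, Equiv.Perm.sign_swap (Ne.symm he.2.2)]; rfl
    · change (Equiv.swap d e * π) a = x
      rw [Equiv.Perm.mul_apply, h1, Equiv.swap_apply_of_ne_of_ne (Ne.symm hd.1) (Ne.symm he.1)]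
    · change (Equiv.swap d e * π) b = y
      rw [Equiv.Perm.mul_apply, h2, Equiv.swap_apply_of_ne_of_ne (Ne.symm hd.2) (Ne.symm he.2.1)]

theorem inv_coe_apply (σ : alternatingGroup α) (x : α) :
    (σ⁻¹ • x : α) = (σ : Equiv.Perm α)⁻¹ x := rfl

theorem exists_diff_mem {K : Type*} [Field K] (hα : 5 ≤ Fintype.card α) (W : Submodule K (α → K))
    (hW : ∀ σ : Equiv.Perm α, Equiv.Perm.sign σ = 1 → ∀ v ∈ W, (fun x => v (σ x)) ∈ W)
    (v : α → K) (hv : v ∈ W) {a b : α} (hab : v a ≠ v b) :
    ∃ p q : α, p ≠ q ∧ ∃ t : K, t ≠ 0 ∧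
      (fun x => if x = p then t else if x = q then -t else 0) ∈ W := by
  have hne : a ≠ b := fun e => hab (e ▸ rfl)
  obtain ⟨c, hc⟩ : (Finset.univ \ {a, b} : Finset α).Nonempty := by
    rw [← Finset.card_pos, Finset.card_sdiff_of_subset (Finset.subset_univ _), Finset.card_univ,
      Finset.card_pair hne]
    omega
  obtain ⟨d, hd⟩ : (Finset.univ \ {a, b, c} : Finset α).Nonempty := by
    rw [← Finset.card_pos, Finset.card_sdiff_of_subset (Finset.subset_univ _), Finset.card_univ]
    have := Finset.card_le_three (a := a) (b := b) (c := c)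
    omega
  obtain ⟨e, he⟩ : (Finset.univ \ {a, b, c, d} : Finset α).Nonempty := by
    rw [← Finset.card_pos, Finset.card_sdiff_of_subset (Finset.subset_univ _), Finset.card_univ]
    have := Finset.card_le_four (a := a) (b := b) (c := c) (d := d)
    omega
  simp only [Finset.mem_sdiff, Finset.mem_univ, true_and, Finset.mem_insert,
    Finset.mem_singleton, not_or] at hc hd he
  obtain ⟨hca, hcb⟩ := hc
  obtain ⟨hda, hdb, hdc⟩ := hd
  obtain ⟨hea, heb, hec, hed⟩ := he
  set u : α → K := fun x => v ((Equiv.swap a b * Equiv.swap b c) x) - v x with hu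
  have huW : u ∈ W := W.sub_mem (hW _ (by
    rw [map_mul, Equiv.Perm.sign_swap hne, Equiv.Perm.sign_swap (Ne.symm hcb)]; decide) v hv) hv
  have ua : u a = v b - v a := by
    simp [hu, Equiv.swap_apply_of_ne_of_ne hne (Ne.symm hca)]
  have ub : u b = v c - v b := by
    simp [hu, Equiv.swap_apply_of_ne_of_ne hca hcb]
  have uc : u c = v a - v c := by simp [hu]
  have u0 : ∀ x, x ≠ a → x ≠ b → x ≠ c → u x = 0 := fun x h1 h2 h3 => by
    simp [hu, Equiv.swap_apply_of_ne_of_ne h2 h3, Equiv.swap_apply_of_ne_of_ne h1 h2]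
  -- first attempt
  by_cases h1 : u b = u a
  swap
  · refine ⟨a, b, hne, u b - u a, sub_ne_zero.2 h1, ?_⟩
    convert W.sub_mem (hW (Equiv.swap a b * Equiv.swap d e) (by
      rw [map_mul, Equiv.Perm.sign_swap hne, Equiv.Perm.sign_swap (Ne.symm hed)]; decide) u huW)
      huW using 1
    funext x
    simp only [Pi.sub_apply, Equiv.Perm.mul_apply]
    by_cases hxa : x = a
    · subst hxa
      simp [Equiv.swap_apply_of_ne_of_ne (Ne.symm hda) (Ne.symm hea)]
    by_cases hxb : x = b
    · subst hxb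
      simp [Equiv.swap_apply_of_ne_of_ne (Ne.symm hdb) (Ne.symm heb), hxa]
    by_cases hxd : x = d
    · subst hxd
      simp [hxa, hxb, Equiv.swap_apply_of_ne_of_ne hea heb, u0 e hea heb hec, u0 x hda hdb hdc]
    by_cases hxe : x = e
    · subst hxe
      simp [hxa, hxb, Equiv.swap_apply_of_ne_of_ne hda hdb, u0 d hda hdb hdc, u0 x hea heb hec]
    simp [hxa, hxb, Equiv.swap_apply_of_ne_of_ne hxd hxe]
    simp [Equiv.swap_apply_of_ne_of_ne hxa hxb]
  by_cases h2 : u c = u a
  swap
  · refine ⟨a, c, Ne.symm hca, u c - u a, sub_ne_zero.2 h2, ?_⟩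
    convert W.sub_mem (hW (Equiv.swap a c * Equiv.swap d e) (by
      rw [map_mul, Equiv.Perm.sign_swap (Ne.symm hca), Equiv.Perm.sign_swap (Ne.symm hed)]; decide)
      u huW) huW using 1
    funext x
    simp only [Pi.sub_apply, Equiv.Perm.mul_apply]
    by_cases hxa : x = a
    · subst hxa
      simp [Equiv.swap_apply_of_ne_of_ne (Ne.symm hda) (Ne.symm hea)]
    by_cases hxc : x = c
    · subst hxc
      simp [Equiv.swap_apply_of_ne_of_ne (Ne.symm hdc) (Ne.symm hec), hxa]
    by_cases hxd : x = d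
    · subst hxd
      simp [hxa, hxc, Equiv.swap_apply_of_ne_of_ne hea hec, u0 e hea heb hec, u0 x hda hdb hdc]
    by_cases hxe : x = e
    · subst hxe
      simp [hxa, hxc, Equiv.swap_apply_of_ne_of_ne hda hdc, u0 d hda hdb hdc, u0 x hea heb hec]
    simp [hxa, hxc, Equiv.swap_apply_of_ne_of_ne hxd hxe, Equiv.swap_apply_of_ne_of_ne hxa hxc]
  -- all three values agree: move `c` outside
  have ua0 : u a ≠ 0 := by rw [ua]; exact sub_ne_zero.2 (Ne.symm hab)
  refine ⟨e, c, hec, u a, ua0, ?_⟩
  convert W.sub_mem (hW (Equiv.swap c d * Equiv.swap d e) (by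
    rw [map_mul, Equiv.Perm.sign_swap (Ne.symm hdc), Equiv.Perm.sign_swap (Ne.symm hed)]; decide)
    u huW) huW using 1
  funext x
  simp only [Pi.sub_apply, Equiv.Perm.mul_apply]
  by_cases hxe : x = e
  · subst hxe
    simp [h2, u0 x hea heb hec]
  by_cases hxc : x = c
  · subst hxc
    simp [hxe, Equiv.swap_apply_of_ne_of_ne (Ne.symm hdc) (Ne.symm hec), u0 d hda hdb hdc, h2]
  by_cases hxd : x = d
  · subst hxd
    simp [hxe, hxc, Equiv.swap_apply_of_ne_of_ne hec hed, u0 e hea heb hec, u0 x hda hdb hdc]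
  simp [hxe, hxc, Equiv.swap_apply_of_ne_of_ne hxd hxe, Equiv.swap_apply_of_ne_of_ne hxc hxd]

/-- Over any field, the permutation module of the alternating group of degree at least 5 has exactly four invariant subspaces: zero, the constant functions, the functions with coordinate sum zero, and everything. -/
theorem result {α : Type*} [Fintype α] [DecidableEq α] (hα : 5 ≤ Fintype.card α) {K : Type*} [Field K] (W : Subrepresentation (Cfsg.permRep K (alternatingGroup α) α)) : W.toSubmodule = ⊥ ∨ W = Cfsg.permConstants K (alternatingGroup α) α ∨ W = Cfsg.permSumZero K (alternatingGroup α) α ∨ W.toSubmodule = ⊤ := by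
  classical
  by_cases hconst : ∀ v ∈ W.toSubmodule, ∀ x y : α, v x = v y
  · by_cases hbot : W.toSubmodule = ⊥
    · exact Or.inl hbot
    refine Or.inr (Or.inl (Subrepresentation.toSubmodule_injective ?_))
    obtain ⟨v, hv, hv0⟩ := Submodule.exists_mem_ne_zero_of_ne_bot hbot
    obtain ⟨x, hx⟩ := Function.ne_iff.1 hv0
    apply le_antisymm
    · intro w hw
      exact Submodule.mem_span_singleton.2 ⟨w x, funext fun y => by simp [hconst w hw x y]⟩
    · refine Submodule.span_le.2 (Set.singleton_subset_iff.2 ?_)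
      have h1 : (fun _ : α => (1 : K)) = (v x)⁻¹ • v := funext fun y => by
        simp [← hconst v hv x y, inv_mul_cancel₀ hx]
      rw [h1]
      exact W.toSubmodule.smul_mem _ hv
  · push Not at hconst
    obtain ⟨v, hv, a, b, hab⟩ := hconst
    have hinv : ∀ σ : Equiv.Perm α, Equiv.Perm.sign σ = 1 → ∀ w ∈ W.toSubmodule,
        (fun x => w (σ x)) ∈ W.toSubmodule := by
      intro σ hσ w hw
      have := W.apply_mem_toSubmodule (⟨σ⁻¹, by
        change Equiv.Perm.sign σ⁻¹ = 1; rw [map_inv, hσ, inv_one]⟩ : alternatingGroup α) hw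
      convert this using 2
      change _ = w (((σ⁻¹ : Equiv.Perm α))⁻¹ _)
      rw [inv_inv]
    obtain ⟨p, q, hpq, t, ht, hmem⟩ := exists_diff_mem hα W.toSubmodule hinv v hv hab
    have hdiff : ∀ x y, x ≠ y → (Pi.single x (1 : K) - Pi.single y 1) ∈ W.toSubmodule := by
      intro x y hxy
      obtain ⟨σ, hσx, hσy⟩ := exists_even_two (show 4 ≤ Fintype.card α by omega) hxy hpq
      have := W.toSubmodule.smul_mem t⁻¹ (hinv (σ : Equiv.Perm α) σ.2 _ hmem)
      convert this using 1
      funext z
      simp only [Pi.sub_apply, Pi.smul_apply, smul_eq_mul]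
      by_cases hzx : z = x
      · subst hzx; simp [hσx, hxy, inv_mul_cancel₀ ht]
      by_cases hzy : z = y
      · subst hzy; simp [hσy, hpq.symm, hxy.symm, inv_mul_cancel₀ ht]
      have e1 : (σ : Equiv.Perm α) z ≠ p := fun e => hzx ((σ : Equiv.Perm α).injective (e.trans hσx.symm))
      have e2 : (σ : Equiv.Perm α) z ≠ q := fun e => hzy ((σ : Equiv.Perm α).injective (e.trans hσy.symm))
      simp [hzx, hzy, e1, e2]
    have hle : ∀ f : α → K, ∑ x, f x = 0 → f ∈ W.toSubmodule := by
      intro f hf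
      have h1 : f = ∑ x, f x • (Pi.single x (1 : K) - Pi.single a 1) := by
        simp only [smul_sub, Finset.sum_sub_distrib]
        rw [← Finset.sum_smul, hf, zero_smul, sub_zero]
        funext z
        simp [Finset.sum_apply, Pi.single_apply]
      rw [h1]
      refine Submodule.sum_mem _ fun x _ => W.toSubmodule.smul_mem _ ?_
      by_cases hxa : x = a
      · subst hxa; simp
      · exact hdiff x a hxa
    by_cases hsum : ∀ w ∈ W.toSubmodule, ∑ x, w x = 0
    · exact Or.inr (Or.inr (Or.inl (Subrepresentation.toSubmodule_injective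
        (le_antisymm (fun w hw => hsum w hw) (fun w hw => hle w hw)))))
    · push Not at hsum
      obtain ⟨w, hw, hw0⟩ := hsum
      refine Or.inr (Or.inr (Or.inr (eq_top_iff.2 fun f _ => ?_)))
      have h1 : f = ((∑ x, f x) / (∑ x, w x)) • w + (f - ((∑ x, f x) / (∑ x, w x)) • w) := by abel
      rw [h1]
      refine W.toSubmodule.add_mem (W.toSubmodule.smul_mem _ hw) (hle _ ?_)
      simp [Finset.sum_sub_distrib, ← Finset.mul_sum, div_mul_cancel₀ _ hw0]

end Cfsg.Agent.S0714
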