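import Cfsg.Statements.S0717
import Cfsg.Agent.Eq.Def_Characters
import Cfsg.Agent.Chars.PermChar.SelfPaired

set_option autoImplicit false
open Cfsg

namespace Cfsg.Agent.S0717

/-- All suborbits of a transitive group are self-paired (every pair of points is interchanged by some group element) if and only if the permutation character is multiplicity-free and each of its irreducible constituents is real-valued. -/
theorem result {G : Type*} [Group G] [Fintype G] {Ω : Type*} [Fintype Ω] [MulAction G Ω] [MulAction.IsPretransitive G Ω] : (∀ a b : Ω, ∃ g : G, g • a = b ∧ g • b = a) ↔ ∀ χ : G → ℂ, Cfsg.IsIrrCharacter G χ → Cfsg.classInner (fun g : G => (Nat.card (MulAction.fixedBy Ω g) : ℂ)) χ ≠ 0 → Cfsg.classInner (fun g : G => (Nat.card (MulAction.fixedBy Ω g) : ℂ)) χ = 1 ∧ ∀ g : G, (starRingEnd ℂ) (χ g) = χ g := by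
  classical
  constructor
  · intro hgen χ hχ hne
    have hsym : ∀ M : Matrix Ω Ω ℂ, CfsgLib.Chars.PermChar.IsInvariant G M →
        ∀ x y, M x y = M y x := fun M hM x y => by
      obtain ⟨g, hx, hy⟩ := hgen x y
      have := hM g x y
      rw [hx, hy] at this
      exact this.symm
    refine ⟨?_, CfsgLib.Chars.PermChar.real_of_symmetric hsym hχ hne⟩
    refine (CfsgLib.Chars.PermChar.multFree_of_commute (fun S T hS hT => ?_) χ hχ).resolve_left hne
    have inv : ∀ R : (Ω → ℂ) →ₗ[ℂ] Ω → ℂ,
        (∀ g, Cfsg.permRep ℂ G Ω g ∘ₗ R = R ∘ₗ Cfsg.permRep ℂ G Ω g) →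
        (LinearMap.toMatrix' R).transpose = LinearMap.toMatrix' R := fun R hR =>
      Matrix.ext fun x y => (hsym _ ((CfsgLib.Chars.PermChar.commute_permRep_iff _).1 fun g => by
        rw [Matrix.toLin'_toMatrix']; exact hR g) y x)
    apply LinearMap.toMatrix'.injective
    have hST := inv (S ∘ₗ T) fun g => by
      rw [← LinearMap.comp_assoc, hS g, LinearMap.comp_assoc, hT g, LinearMap.comp_assoc]
    rw [← hST, LinearMap.toMatrix'_comp, Matrix.transpose_mul, inv S hS, inv T hT,
      LinearMap.toMatrix'_comp]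
  · intro h a b
    have hmf : CfsgLib.Chars.PermChar.MultFree G Ω := fun χ hχ =>
      (em (Cfsg.classInner (CfsgLib.Chars.PermChar.fixChar G Ω) χ = 0)).imp id fun hne =>
        (h χ hχ hne).1
    have hs := CfsgLib.Chars.PermChar.symmetric_of_multFree_real hmf
      (fun χ hχ hne => (h χ hχ hne).2) (CfsgLib.Chars.PermChar.isInvariant_orbitalMatrix ℂ a b)
    have h1 : CfsgLib.Chars.PermChar.orbitalMatrix G ℂ a b b a = 1 := by
      rw [← CfsgLib.Chars.PermChar.orbitalMatrix_self (G := G) ℂ a b]
      exact congrFun (congrFun hs a) b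
    by_contra hno
    rw [show CfsgLib.Chars.PermChar.orbitalMatrix G ℂ a b b a = 0 from if_neg hno] at h1
    exact zero_ne_one h1

end Cfsg.Agent.S0717
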