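import Cfsg.Statements.S0720
import Cfsg.Agent.PrimitiveTwoP.Constituents
-- import your own Cfsg.Agent.* helpers here

set_option autoImplicit false
open Cfsg

set_option autoImplicit false

namespace Cfsg.Agent.S0720

/-- Wielandt's Theorem on primitive groups of degree `2p`: such a group is doubly transitive, or it has rank 3, `p = 2a² + 2a + 1`, and subdegrees `a(2a+1)` and `(a+1)(2a+1)`. -/
theorem result {α : Type*} [Fintype α] [DecidableEq α] {p : ℕ} (hp : p.Prime) (hα : Fintype.card α = 2 * p) (G : Subgroup (Equiv.Perm α)) (hG : MulAction.IsPreprimitive G α) (a₀ : α) : MulAction.IsMultiplyPretransitive G α 2 ∨ (Nat.card (MulAction.orbitRel.Quotient (MulAction.stabilizer G a₀) α) = 3 ∧ ∃ a : ℕ, 0 < a ∧ p = 2 * a ^ 2 + 2 * a + 1 ∧ ∀ b : α, b ≠ a₀ → Nat.card (MulAction.orbit (MulAction.stabilizer G a₀) b) = a * (2 * a + 1) ∨ Nat.card (MulAction.orbit (MulAction.stabilizer G a₀) b) = (a + 1) * (2 * a + 1)) := by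
  classical
  haveI := Fact.mk hp
  haveI : MulAction.IsPretransitive G α := hG.toIsPretransitive
  let _ : Fintype G := Fintype.ofFinite G
  have hp2' := hp.two_le
  -- rank two means doubly transitive
  have htwo : Nat.card (MulAction.orbitRel.Quotient (MulAction.stabilizer G a₀) α) = 2 →
      MulAction.IsMultiplyPretransitive G α 2 := by
    intro h2
    obtain ⟨q₁, q₂, hne, hpair⟩ := Nat.card_eq_two_iff.1 h2
    rw [MulAction.is_two_pretransitive_iff]
    intro a b c d hab hcd
    obtain ⟨g₁, hg₁⟩ := MulAction.exists_smul_eq G a a₀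
    obtain ⟨g₂, hg₂⟩ := MulAction.exists_smul_eq G c a₀
    have hsame : Quotient.mk (MulAction.orbitRel (MulAction.stabilizer G a₀) α) (g₁ • b) =
        Quotient.mk _ (g₂ • d) := by
      have hfix : ∀ y : α, Quotient.mk (MulAction.orbitRel (MulAction.stabilizer G a₀) α) y =
          Quotient.mk _ a₀ → y = a₀ := fun y hy => by
        obtain ⟨h, hh⟩ := Quotient.exact hy
        rw [← hh]
        exact h.2
      have hb : Quotient.mk (MulAction.orbitRel (MulAction.stabilizer G a₀) α) (g₁ • b) ≠
          Quotient.mk _ a₀ := fun h => hab (smul_left_cancel g₁ (hg₁.trans (hfix _ h).symm))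
      have hd : Quotient.mk (MulAction.orbitRel (MulAction.stabilizer G a₀) α) (g₂ • d) ≠
          Quotient.mk _ a₀ := fun h => hcd (smul_left_cancel g₂ (hg₂.trans (hfix _ h).symm))
      have hall : ∀ q, q = q₁ ∨ q = q₂ := fun q => by
        have : q ∈ ({q₁, q₂} : Set _) := hpair ▸ Set.mem_univ q
        simpa using this
      rcases hall (Quotient.mk _ a₀) with e | e <;>
        rcases hall (Quotient.mk _ (g₁ • b)) with e1 | e1 <;>
        rcases hall (Quotient.mk _ (g₂ • d)) with e2 | e2 <;> simp_all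
    obtain ⟨h, hh⟩ := Quotient.exact hsame
    have hh' : (h : G) • g₂ • d = g₁ • b := hh
    refine ⟨g₂⁻¹ * (h : G)⁻¹ * g₁, ?_, ?_⟩
    · rw [mul_smul, mul_smul, hg₁, inv_smul_eq_iff.2 (show a₀ = (h : G) • a₀ from h.2.symm), ← hg₂,
        inv_smul_smul]
    · rw [mul_smul, mul_smul, ← hh', inv_smul_smul, inv_smul_smul]
  by_cases hpfix : ∃ g ∈ G, orderOf g = p ∧ ∃ x, g x = x
  · obtain ⟨g, hg, hord, x, hx⟩ := hpfix
    exact Or.inl (CfsgLib.PrimitiveTwoP.two_pretransitive_of_fixed_point hp hα G hG hg hord hx)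
  push Not at hpfix
  have hdvd : 2 * p ∣ Nat.card G := by
    rw [← hα, ← Nat.card_eq_fintype_card, ← MulAction.index_stabilizer_of_transitive G a₀]
    exact Subgroup.index_dvd_card _
  haveI : Nontrivial α := Fintype.one_lt_card_iff_nontrivial.1 (by omega)
  rcases eq_or_ne p 2 with rfl | hp2
  · -- degree four: three divides the order
    left
    by_cases h3 : 3 ∣ Nat.card G
    · haveI := Fact.mk Nat.prime_three
      obtain ⟨⟨g, hg⟩, hord⟩ := exists_prime_orderOf_dvd_card' 3 h3
      rw [Subgroup.orderOf_mk] at hord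
      have h3c : g.IsThreeCycle := by
        obtain ⟨n, hn⟩ := Equiv.Perm.cycleType_prime_order (hord.symm ▸ Nat.prime_three)
        rw [hord] at hn
        have h1 : g.support.card = (n + 1) * 3 := by
          rw [← Equiv.Perm.sum_cycleType, hn, Multiset.sum_replicate, smul_eq_mul]
        have h2 : g.support.card ≤ 4 := by
          have := Finset.card_le_univ g.support
          omega
        obtain rfl : n = 0 := by omega
        rw [Equiv.Perm.IsThreeCycle, hn, Multiset.replicate_one]
      refine hG.is_two_pretransitive (s := ((g.support : Set α))ᶜ) (n := 0) ?_ ?_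
        (Equiv.Perm.isPretransitive_of_isCycle_mem h3c.isCycle hg)
      · rw [Set.ncard_compl, Set.ncard_coe_finset, h3c.card_support, Nat.card_eq_fintype_card, hα]
      · rw [Nat.card_eq_fintype_card, hα]; norm_num
    · exfalso
      have h4 : ∀ q : ℕ, q.Prime → q ∣ Nat.card G → q = 2 := fun q hq hqd => by
        have h24 : Nat.card G ∣ 24 := by
          have h := Subgroup.card_subgroup_dvd_card G
          rw [Nat.card_perm, Nat.card_eq_fintype_card (α := α), hα] at h
          exact h
        have h := hqd.trans h24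
        have hle := Nat.le_of_dvd (by norm_num) h
        interval_cases q <;> first | rfl | omega | (norm_num at hq) | exact (h3 hqd).elim
      have hG2 : IsPGroup 2 G := IsPGroup.of_card
        (Nat.eq_prime_pow_of_unique_prime_dvd Nat.card_pos.ne' fun {q} hq hqd => h4 q hq hqd)
      haveI := hG2.isNilpotent
      have hco := MulAction.IsPreprimitive.isCoatom_stabilizer_of_isPreprimitive (G := G) a₀
      exact CfsgLib.PrimitiveTwoP.not_normal_stabilizer
        (by rw [Nat.card_eq_fintype_card, hα]; norm_num) a₀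
        (((Group.isNilpotent_of_finite_tfae (G := G)).out 0 2 :).mp hG2.isNilpotent _ hco)
  have hfree : ∀ g : G, orderOf g = p → ∀ x : α, g • x ≠ x := fun g hg x hx =>
    hpfix g g.2 (by rw [Subgroup.orderOf_coe, hg]) x hx
  have hsq : ¬ p ^ 2 ∣ Nat.card G := fun h => by
    obtain ⟨g, hg, hord, hx⟩ :=
      CfsgLib.PrimitiveTwoP.exists_fixed_point_of_sq_dvd hp hp2 hα G h a₀
    exact hpfix g hg hord a₀ hx
  rcases CfsgLib.PrimitiveTwoP.rank_two_or_three hp2 hα a₀ ((dvd_mul_left p 2).trans hdvd) hsq hfree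
    with h | ⟨h3, χ₁, χ₂, hπ, h₁, h₂⟩
  · exact Or.inl (htwo h)
  · exact Or.inr ⟨h3, Cfsg.Agent.S0719.result hG hα a₀ h3 _ _ χ₁.2 χ₂.2 hπ h₁ h₂⟩

end Cfsg.Agent.S0720
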