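import Cfsg.Statements.S0723
import Cfsg.Agent.ONS54.SubPower
import Cfsg.Agent.MinNormal.Structure
import Cfsg.Agent.S0722

set_option autoImplicit false
open Cfsg

namespace Cfsg.Agent.S0723


/-- The core of the O'Nan–Scott Theorem. Let `H` be a primitive permutation group on a finite set whose unique minimal normal subgroup `N` is non-abelian, and `K` a point stabiliser. Then there are a non-abelian simple group `T` and an isomorphism `N ≃* T^m` (`m ≥ 1`) under which `K ⊓ N` becomes either a product `∏ K_i` of proper subgroups `K_i < T`, or the set of functions constant on each block of a partition of the index set into blocks of one common size `k ≥ 2`. -/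
theorem result {α : Type*} [Finite α] (H : Subgroup (Equiv.Perm α)) [MulAction.IsPreprimitive H α] (N : Subgroup H) [N.Normal] (hN : N ≠ ⊥) (hmin : ∀ M : Subgroup H, M.Normal → M ≤ N → M = ⊥ ∨ M = N) (huniq : ∀ L : Subgroup H, L.Normal → L ≠ ⊥ → (∀ M : Subgroup H, M.Normal → M ≤ L → M = ⊥ ∨ M = L) → L = N) (hnab : ¬ IsMulCommutative N) (a : α) : ∃ (T : Type) (_ : Group T) (m : ℕ) (e : N ≃* (Fin m → T)), IsSimpleGroup T ∧ ¬ IsMulCommutative T ∧ 0 < m ∧ ((∃ K : Fin m → Subgroup T, (∀ i, K i ≠ ⊤) ∧ ∀ n : N, (n : H) ∈ MulAction.stabilizer H a ↔ ∀ i, e n i ∈ K i) ∨ (∃ (k : ℕ) (c : Fin m → Fin m), 2 ≤ k ∧ (∀ j : Fin m, Nat.card {i : Fin m // c i = j} = k ∨ Nat.card {i : Fin m // c i = j} = 0) ∧ ∀ n : N, (n : H) ∈ MulAction.stabilizer H a ↔ ∀ i j : Fin m, c i = c j → e n i = e n j)) := by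
  classical
  obtain ⟨T, iT, m, hT, hm, hcomm, ⟨e⟩⟩ :=
    (CfsgLib.MinNormal.IsMinNormal.mk ‹N.Normal› hN hmin).exists_mulEquiv_pi
  letI := iT
  haveI := hT
  have hTnab : ¬ IsMulCommutative T := fun h => hnab (hcomm h)
  haveI : Nonempty (Fin m) := ⟨⟨0, hm⟩⟩
  haveI : Finite T := Finite.of_surjective (fun n : N => e n ⟨0, hm⟩) fun t => ⟨e.symm (Function.const _ t), by simp⟩
  set K := MulAction.stabilizer H a with hK
  haveI : Nontrivial α := by
    by_contra h
    rw [not_nontrivial_iff_subsingleton] at h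
    apply hN
    refine (Subgroup.eq_bot_iff_forall _).2 fun g _ => Subtype.ext (Equiv.Perm.ext fun x => ?_)
    exact Subsingleton.elim _ _
  -- `N` is not contained in the stabiliser
  have hNK : ¬ N ≤ K := by
    intro h
    apply hN
    refine (Subgroup.eq_bot_iff_forall _).2 fun n hn => Subtype.ext (Equiv.Perm.ext fun x => ?_)
    obtain ⟨g, rfl⟩ := MulAction.exists_smul_eq H a x
    have h1 : g⁻¹ * n * g ∈ K := h (by simpa using ‹N.Normal›.conj_mem n hn g⁻¹)
    rw [hK, MulAction.mem_stabilizer_iff, mul_smul, mul_smul, inv_smul_eq_iff] at h1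
    show n • g • a = g • a
    exact h1
  have hdec : ∀ h : H, ∃ k ∈ K, ∃ n : N, h = k * n := by
    intro h
    have hco : IsCoatom K := MulAction.IsPreprimitive.isCoatom_stabilizer_of_isPreprimitive (G := _) a
    have htop : K ⊔ N = ⊤ :=
      hco.2 _ (lt_of_le_of_ne le_sup_left fun h' => hNK (le_sup_right.trans h'.ge))
    have hh : h ∈ ((K ⊔ N : Subgroup H) : Set H) := by rw [htop]; trivial
    rw [Subgroup.coe_mul_of_left_le_normalizer_right K N
      (by rw [Subgroup.normalizer_eq_top]; exact le_top)] at hh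
    obtain ⟨k, hk, n, hn, rfl⟩ := hh
    exact ⟨k, hk, ⟨n, hn⟩, rfl⟩
  -- the action on the coordinates
  let act : H → (Fin m → T) ≃* (Fin m → T) := fun h => e.symm.trans ((MulAut.conjNormal h).trans e)
  have hact : ∀ (h : H) (n : N), act h (e n) = e (MulAut.conjNormal h n) := fun h n => by simp [act]
  have hactmul : ∀ (h h' : H) (f : Fin m → T), act (h * h') f = act h (act h' f) := fun h h' f => by
    simp [act, map_mul]
  let ev : Fin m → (Fin m → T) →* T := fun i => Pi.evalMonoidHom (fun _ : Fin m => T) i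
  have hev : ∀ i, Function.Surjective (ev i) := fun i t => ⟨Function.const _ t, rfl⟩
  have hgs : ∀ (h : H) (j : Fin m), Function.Surjective ((ev j).comp (act h).toMonoidHom) := fun h j =>
    (hev j).comp (act h).surjective
  choose tau htau using fun (h : H) (j : Fin m) => CfsgLib.ONS54.exists_factor hTnab _ (hgs h j)
  have htau' : ∀ (h : H) (j : Fin m) (f : Fin m → T), (act h f j = 1 ↔ f (tau h j) = 1) := fun h j f => by
    have := SetLike.ext_iff.mp (htau h j) f
    exact this
  have hne : ∀ i j : Fin m, (∀ f : Fin m → T, f i = 1 → f j = 1) → i = j := by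
    intro i j h
    by_contra hij
    obtain ⟨t, ht⟩ := exists_ne (1 : T)
    exact ht (by simpa using h (Pi.mulSingle j t) (Pi.mulSingle_eq_of_ne hij _))
  have htinj : ∀ h : H, Function.Injective (tau h) := fun h i j hij => by
    refine hne i j fun f hf => ?_
    obtain ⟨f, rfl⟩ := (act h).surjective f
    rw [htau' h j, ← hij, ← htau' h i]
    exact hf
  have htmul : ∀ (h h' : H) (j : Fin m), tau (h * h') j = tau h' (tau h j) := by
    intro h h' j
    refine (hne _ _ fun f hf => ?_).symm
    rw [← htau' (h * h') j, hactmul, htau' h j, htau' h']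
    exact hf
  have htN : ∀ (n : N) (j : Fin m), tau (n : H) j = j := by
    intro n j
    refine hne _ _ fun f hf => ?_
    obtain ⟨n', rfl⟩ := e.surjective f
    have h1 := (htau' (n : H) j (e n')).mpr hf
    rw [hact, show MulAut.conjNormal (n : H) n' = n * n' * n⁻¹ from Subtype.ext (by simp)] at h1
    simpa [mul_inv_eq_one] using h1
  -- transitivity on the coordinates
  have htrans : ∀ i j : Fin m, ∃ k ∈ K, tau k j = i := by
    intro i j
    set O : Set (Fin m) := {l | ∃ h : H, tau h j = l} with hO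
    have hOclosed : ∀ (h : H) (l : Fin m), tau h l ∈ O → l ∈ O := by
      rintro h l ⟨h₁, hh₁⟩
      refine ⟨h₁ * h⁻¹, ?_⟩
      rw [htmul, hh₁, ← htmul, mul_inv_cancel]
      exact htN 1 l
    let M : Subgroup H :=
      { carrier := {x | ∃ n : N, (n : H) = x ∧ ∀ l, l ∉ O → e n l = 1}
        one_mem' := ⟨1, rfl, fun l _ => by simp⟩
        mul_mem' := by
          rintro _ _ ⟨n, rfl, hn⟩ ⟨n', rfl, hn'⟩
          exact ⟨n * n', rfl, fun l hl => by simp [hn l hl, hn' l hl]⟩
        inv_mem' := by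
          rintro _ ⟨n, rfl, hn⟩
          exact ⟨n⁻¹, rfl, fun l hl => by simp [hn l hl]⟩ }
    have hMn : M.Normal := ⟨by
      rintro _ ⟨n, rfl, hn⟩ h
      refine ⟨MulAut.conjNormal h n, by simp, fun l hl => ?_⟩
      rw [← hact, htau' h l]
      refine hn _ fun hmem => hl (hOclosed h l hmem)⟩
    rcases hmin M hMn (by rintro _ ⟨n, rfl, -⟩; exact n.2) with h0 | h0
    · exfalso
      obtain ⟨t, ht⟩ := exists_ne (1 : T)
      have hj : j ∈ O := ⟨((1 : N) : H), htN 1 j⟩
      have hmem : ((e.symm (Pi.mulSingle j t) : N) : H) ∈ M := ⟨_, rfl, fun l hl => by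
        rw [e.apply_symm_apply]; exact Pi.mulSingle_eq_of_ne (fun h => hl (by rw [h]; exact hj)) _⟩
      rw [h0, Subgroup.mem_bot, OneMemClass.coe_eq_one] at hmem
      rw [EmbeddingLike.map_eq_one_iff, Pi.mulSingle_eq_one_iff] at hmem
      exact ht hmem
    · have hi : i ∈ O := by
        by_contra hi
        obtain ⟨t, ht⟩ := exists_ne (1 : T)
        obtain ⟨n, hn, hn'⟩ : ((e.symm (Pi.mulSingle i t) : N) : H) ∈ M := h0.symm ▸ (e.symm (Pi.mulSingle i t)).2
        rw [Subtype.ext hn] at hn'
        exact ht (by simpa using hn' i hi)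
      obtain ⟨h, hh⟩ := hi
      obtain ⟨k, hk, n, rfl⟩ := hdec h
      exact ⟨k, hk, by rwa [htmul, htN] at hh⟩
  -- the intersection with the socle
  let A : Subgroup (Fin m → T) := ((K.subgroupOf N)).map e.toMonoidHom
  have hA : ∀ n : N, (n : H) ∈ K ↔ e n ∈ A := fun n =>
    ⟨fun h => ⟨n, h, rfl⟩, fun ⟨n', hn', he⟩ => by rwa [← e.injective he]⟩
  have hAinv : ∀ k ∈ K, ∀ f ∈ A, act k f ∈ A := by
    intro k hk f hf
    obtain ⟨n, rfl⟩ := e.surjective f
    rw [hact, ← hA, MulAut.conjNormal_apply]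
    exact mul_mem (mul_mem hk ((hA n).mpr hf)) (inv_mem hk)
  have hAtop : A ≠ ⊤ := fun h => hNK fun n hn => (hA ⟨n, hn⟩).mpr (h ▸ Subgroup.mem_top _)
  by_cases hproj : ∀ i, A.map (ev i) = ⊤
  · -- diagonals
    let f : Fin m → A →* T := fun i => (ev i).comp A.subtype
    have hfs : ∀ i, Function.Surjective (f i) := fun i t => by
      obtain ⟨x, hx, hxt⟩ : t ∈ A.map (ev i) := (hproj i).symm ▸ Subgroup.mem_top t
      exact ⟨⟨x, hx⟩, hxt⟩
    let s : Setoid (Fin m) := ⟨fun i j => (f i).ker = (f j).ker,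
      ⟨fun i => rfl, fun h => h.symm, fun h h' => h.trans h'⟩⟩
    let c : Fin m → Fin m := fun i => (Quotient.mk s i).out
    have hc : ∀ i, (f (c i)).ker = (f i).ker := fun i => Quotient.mk_out (s := s) i
    have hcc : ∀ i j, (f i).ker = (f j).ker → c i = c j := fun i j h =>
      congrArg Quotient.out (Quotient.sound (s := s) h)
    choose phi hphi using fun i => CfsgLib.ONS54.exists_aut (hfs (c i)) (hfs i) (hc i)
    -- the kernels are permuted
    have hrel : ∀ k ∈ K, ∀ i j : Fin m, (f i).ker = (f j).ker → (f (tau k i)).ker = (f (tau k j)).ker := by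
      intro k hk i j hij
      ext x
      have hx := SetLike.ext_iff.mp hij ⟨act k x, hAinv k hk x x.2⟩
      simp only [MonoidHom.mem_ker, f, ev, MonoidHom.comp_apply, Subgroup.coe_subtype,
        Pi.evalMonoidHom_apply] at hx ⊢
      rw [← htau' k i, ← htau' k j]
      exact hx
    let cls : Fin m → ℕ := fun j => Nat.card {i : Fin m // (f i).ker = (f j).ker}
    have hcls : ∀ i j, cls i = cls j := by
      suffices hle : ∀ i j, cls i ≤ cls j from fun i j => le_antisymm (hle i j) (hle j i)
      intro i j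
      obtain ⟨k, hk, hkij⟩ := htrans j i
      refine Nat.card_le_card_of_injective
        (fun l => ⟨tau k l.1, by rw [← hkij]; exact hrel k hk _ _ l.2⟩) fun l l' h => ?_
      exact Subtype.ext (htinj k (congrArg Subtype.val h))
    have hfib : ∀ j, c j = j → Nat.card {i : Fin m // c i = j} = cls j := fun j hj =>
      Nat.card_congr (Equiv.subtypeEquivRight fun i =>
        ⟨fun h => by rw [← hc i, h], fun h => by rw [hcc i j h, hj]⟩)
    have hidem : ∀ i, c (c i) = c i := fun i => hcc _ _ (hc i)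
    have h2 : 2 ≤ cls ⟨0, hm⟩ := by
      by_contra hlt
      apply hAtop
      have hsing : ∀ i j, i ≠ j → (f i).ker ≠ (f j).ker := by
        intro i j hij h
        have : 1 < cls j := by
          have : Nontrivial {l : Fin m // (f l).ker = (f j).ker} :=
            ⟨⟨i, h⟩, ⟨j, rfl⟩, fun h' => hij (congrArg Subtype.val h')⟩
          exact Finite.one_lt_card
        have := hcls j ⟨0, hm⟩
        omega
      refine eq_top_iff.mpr fun x _ => ?_
      obtain ⟨y, hy⟩ := CfsgLib.ONS54.jointly_surjective hTnab f hfs hsing x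
      rw [show x = (y : Fin m → T) from funext fun i => (hy i).symm]
      exact y.2
    let e' : N ≃* (Fin m → T) := e.trans (MulEquiv.piCongrRight fun i => (phi i).symm)
    have he' : ∀ n i, e' n i = (phi i).symm (e n i) := fun n i => rfl
    refine ⟨T, iT, m, e', hT, hTnab, hm, Or.inr ⟨cls ⟨0, hm⟩, c, h2, fun j => ?_, fun n => ?_⟩⟩
    · by_cases hj : c j = j
      · exact Or.inl ((hfib j hj).trans (hcls _ _))
      · right
        rw [Nat.card_eq_zero]
        exact Or.inl ⟨fun i => hj (by rw [← i.2, hidem])⟩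
    · have hval : ∀ (x : A) (i : Fin m), (phi i).symm ((x : Fin m → T) i) = (x : Fin m → T) (c i) := fun x i => by
        rw [MulEquiv.symm_apply_eq]
        exact hphi i x
      constructor
      · intro hn i j hij
        rw [he', he']
        have hi := hval ⟨e n, (hA n).mp hn⟩
        rw [hi i, hi j, hij]
      · intro h
        -- realise the values on the representatives
        obtain ⟨y, hy⟩ := CfsgLib.ONS54.jointly_surjective hTnab
          (fun r : {i : Fin m // c i = i} => f r.1) (fun r => hfs r.1)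
          (fun r r' hne h' => hne (Subtype.ext (by rw [← r.2, ← r'.2]; exact hcc _ _ h')))
          (fun r => e' n r.1)
        apply (hA n).mpr
        suffices hey : e n = (y : Fin m → T) by rw [hey]; exact y.2
        funext i
        apply (phi i).symm.injective
        have hrep := hy ⟨c i, hidem i⟩
        simp only [f, ev, MonoidHom.comp_apply, Subgroup.coe_subtype, Pi.evalMonoidHom_apply] at hrep
        rw [hval y i, hrep, ← he', h i (c i) (hidem i).symm]
  · refine ⟨T, iT, m, e, hT, hTnab, hm, Or.inl ?_⟩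
    push_neg at hproj
    obtain ⟨i₀, hi₀⟩ := hproj
    have hproper : ∀ i, A.map (ev i) ≠ ⊤ := by
      intro i htop
      obtain ⟨k, hk, hki⟩ := htrans i₀ i
      apply hi₀
      refine eq_top_iff.mpr fun t _ => ?_
      obtain ⟨y, hy⟩ := (act k).surjective (Function.const _ (1 : T))
      obtain ⟨φ, hφ⟩ := CfsgLib.ONS54.exists_aut (hgs k i) (hev (tau k i)) (htau k i)
      obtain ⟨x, hx, hxt⟩ : φ.symm t ∈ A.map (ev i) := htop.symm ▸ Subgroup.mem_top _
      have hk' : k⁻¹ ∈ K := inv_mem hk
      refine ⟨act k⁻¹ x, hAinv _ hk' x hx, ?_⟩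
      have h2 := hφ (act k⁻¹ x)
      rw [hki] at h2
      show ev i₀ (act k⁻¹ x) = t
      rw [h2, MonoidHom.comp_apply, MulEquiv.coe_toMonoidHom, ← hactmul, mul_inv_cancel]
      have h3 : act 1 x = x := by simp [act]
      rw [h3, hxt, φ.apply_symm_apply]
    refine ⟨fun i => A.map (ev i), hproper, fun n => ⟨fun h i => ⟨e n, (hA n).mp h, rfl⟩, fun h => ?_⟩⟩
    -- the product is invariant
    let X : Subgroup H :=
      { carrier := {x | ∃ n : N, (n : H) = x ∧ ∀ i, e n i ∈ A.map (ev i)}
        one_mem' := ⟨1, rfl, fun i => by simp⟩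
        mul_mem' := by
          rintro _ _ ⟨n, rfl, hn⟩ ⟨n', rfl, hn'⟩
          exact ⟨n * n', rfl, fun i => by rw [map_mul]; exact mul_mem (hn i) (hn' i)⟩
        inv_mem' := by
          rintro _ ⟨n, rfl, hn⟩
          exact ⟨n⁻¹, rfl, fun i => by rw [map_inv]; exact inv_mem (hn i)⟩ }
    have hinv : ∀ k ∈ K, ∀ x ∈ X, k * x * k⁻¹ ∈ X := by
      rintro k hk _ ⟨n', rfl, hn'⟩
      refine ⟨MulAut.conjNormal k n', by simp, fun j => ?_⟩
      obtain ⟨y, hy, hyi⟩ := hn' (tau k j)
      have h2 : act k (e n') j = act k y j := by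
        rw [← mul_inv_eq_one]
        have h3 : act k (e n' * y⁻¹) j = 1 := (htau' k j _).mpr (by
          simp only [Pi.mul_apply, Pi.inv_apply]
          rw [show y (tau k j) = e n' (tau k j) from hyi, mul_inv_cancel])
        simpa using h3
      rw [← hact, h2]
      exact ⟨act k y, hAinv k hk y hy, rfl⟩
    have hX := Cfsg.Agent.S0722.result H N hN hmin a X (by rintro _ ⟨n', rfl, -⟩; exact n'.2)
      (fun x hx => ⟨⟨x, hx.2⟩, rfl, fun i => ⟨e ⟨x, hx.2⟩, (hA ⟨x, hx.2⟩).mp hx.1, rfl⟩⟩)
      (fun k hk => by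
        rw [Subgroup.mem_normalizer_iff]
        refine fun x => ⟨hinv k hk x, fun hx => ?_⟩
        simpa [mul_assoc] using hinv k⁻¹ (inv_mem hk) _ hx)
    have hnX : (n : H) ∈ X := ⟨n, rfl, h⟩
    rcases hX with h4 | h4
    · rw [h4] at hnX
      exact hnX.1
    · exfalso
      refine hproper i₀ (eq_top_iff.mpr fun t _ => ?_)
      obtain ⟨n', hn', hn''⟩ : ((e.symm (Pi.mulSingle i₀ t) : N) : H) ∈ X :=
        h4.symm ▸ (e.symm (Pi.mulSingle i₀ t)).2
      have := hn'' i₀
      rwa [Subtype.ext hn', e.apply_symm_apply, Pi.mulSingle_eq_same] at this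

end Cfsg.Agent.S0723
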