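import Cfsg.Statements.S0724
import Mathlib

set_option autoImplicit false
open Cfsg
open scoped Pointwise

namespace Cfsg.Agent.S0724


/-- Blichfeldt's Theorem: if a finite set `L` of natural numbers contains the number of fixed points of every non-identity element of a permutation group `G` of degree `n`, then the order of `G` divides `∏ (n - l)` over `l ∈ L`. -/
theorem result {α : Type*} [Fintype α] [DecidableEq α] (G : Subgroup (Equiv.Perm α)) (L : Finset ℕ) (hL : ∀ g ∈ G, g ≠ 1 → Nat.card (MulAction.fixedBy α g) ∈ L) : Nat.card G ∣ ∏ l ∈ L, (Fintype.card α - l) := by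
  classical
  let π : G → ℤ := fun g => (Nat.card (MulAction.fixedBy α g) : ℤ)
  have hpow : ∀ j : ℕ, (Nat.card G : ℤ) ∣ ∑ g : G, π g ^ j := by
    intro j
    have key := MulAction.sum_card_fixedBy_eq_card_orbits_mul_card_group G (Fin j → α)
    have h : ∀ g : G, Fintype.card (MulAction.fixedBy (Fin j → α) g)
        = Nat.card (MulAction.fixedBy α g) ^ j := by
      intro g
      rw [← Nat.card_eq_fintype_card,
        show Nat.card (MulAction.fixedBy α g) ^ j = Nat.card (Fin j → MulAction.fixedBy α g) by simp]
      refine Nat.card_congr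
        { toFun := fun x i => ⟨x.1 i, congrFun x.2 i⟩
          invFun := fun y => ⟨fun i => (y i).1, funext fun i => (y i).2⟩
          left_inv := fun x => rfl
          right_inv := fun y => rfl }
    rw [Finset.sum_congr rfl (fun g _ => h g)] at key
    refine ⟨(Fintype.card (Quotient (MulAction.orbitRel G (Fin j → α))) : ℤ), ?_⟩
    rw [Nat.card_eq_fintype_card, mul_comm]
    simp only [π]
    exact_mod_cast key
  by_cases hbig : ∀ l ∈ L, l ≤ Fintype.card α
  swap
  · push Not at hbig
    obtain ⟨l, hl, hlt⟩ := hbig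
    rw [Finset.prod_eq_zero hl (by omega)]
    exact dvd_zero _
  let F : Polynomial ℤ := ∏ l ∈ L, (Polynomial.X - Polynomial.C (l : ℤ))
  have hsum : (Nat.card G : ℤ) ∣ ∑ g : G, F.eval (π g) := by
    simp_rw [Polynomial.eval_eq_sum, Polynomial.sum_def]
    rw [Finset.sum_comm]
    refine Finset.dvd_sum fun i _ => ?_
    rw [← Finset.mul_sum]
    exact dvd_mul_of_dvd_right (hpow i) _
  have hone : ∀ g : G, g ≠ 1 → F.eval (π g) = 0 := by
    intro g hg
    have hmem := hL g g.2 (fun h => hg (Subtype.ext h))
    simp only [F, Polynomial.eval_prod]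
    exact Finset.prod_eq_zero hmem (by simp only [π, Polynomial.eval_sub, Polynomial.eval_X, Polynomial.eval_C]; exact sub_eq_zero.2 rfl)
  rw [Finset.sum_eq_single (1 : G) (fun g _ hg => hone g hg) (by simp)] at hsum
  have h1 : F.eval (π 1) = ((∏ l ∈ L, (Fintype.card α - l) : ℕ) : ℤ) := by
    simp only [F, Polynomial.eval_prod, Nat.cast_prod]
    refine Finset.prod_congr rfl fun l hl => ?_
    rw [Nat.cast_sub (hbig l hl)]
    simp [π]
  rw [h1] at hsum
  exact_mod_cast hsum

end Cfsg.Agent.S0724
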