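import Cfsg.Statements.S0726
import Mathlib

set_option autoImplicit false
open Cfsg
open scoped Pointwise

namespace Cfsg.Agent.S0726


/-- The left and right regular permutation representations of a group are each other's centralisers in the symmetric group: the centraliser of the left regular image is the right regular image, and a transitive subgroup centralising the left regular image is the whole right regular image. -/
theorem result {G : Type*} [Group G] : Subgroup.centralizer ((MulAction.toPermHom G G).range : Set (Equiv.Perm G)) = (MulAction.toPermHom Gᵐᵒᵖ G).range ∧ ∀ H : Subgroup (Equiv.Perm G), H ≤ Subgroup.centralizer ((MulAction.toPermHom G G).range : Set (Equiv.Perm G)) → MulAction.IsPretransitive H G → H = (MulAction.toPermHom Gᵐᵒᵖ G).range := by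
  have key : ∀ σ : Equiv.Perm G,
      σ ∈ Subgroup.centralizer ((MulAction.toPermHom G G).range : Set (Equiv.Perm G)) →
      MulAction.toPermHom Gᵐᵒᵖ G (MulOpposite.op (σ 1)) = σ := by
    intro σ hσ
    refine Equiv.Perm.ext fun x => ?_
    have h := Subgroup.mem_centralizer_iff.1 hσ (MulAction.toPermHom G G x) ⟨x, rfl⟩
    have h1 := Equiv.Perm.ext_iff.1 h 1
    simp only [Equiv.Perm.mul_apply, MulAction.toPermHom_apply, MulAction.toPerm_apply, smul_eq_mul, mul_one] at h1
    simpa using h1
  have hle : (MulAction.toPermHom Gᵐᵒᵖ G).range ≤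
      Subgroup.centralizer ((MulAction.toPermHom G G).range : Set (Equiv.Perm G)) := by
    rintro _ ⟨g, rfl⟩
    rw [Subgroup.mem_centralizer_iff]
    rintro _ ⟨h, rfl⟩
    exact Equiv.Perm.ext fun x => by simp [MulAction.toPerm_apply, mul_assoc]
  refine ⟨le_antisymm (fun σ hσ => ⟨_, key σ hσ⟩) hle, fun H hH htr => ?_⟩
  refine le_antisymm (fun σ hσ => ⟨_, key σ (hH hσ)⟩) ?_
  rintro _ ⟨g, rfl⟩
  obtain ⟨σ, hσ⟩ := htr.exists_smul_eq 1 g.unop
  have hk := key σ (hH σ.2)
  have : (σ : Equiv.Perm G) 1 = g.unop := hσ
  rw [this, MulOpposite.op_unop] at hk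
  rw [hk]
  exact σ.2

end Cfsg.Agent.S0726
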