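import Cfsg.Statements.S0727
import Cfsg.Agent.ZassAbelian.OfSharp

set_option autoImplicit false
open Cfsg

namespace Cfsg.Agent.S0727


/-- A sharply triply transitive permutation group of degree `2^f + 1` is isomorphic to the projective general linear group of degree 2 over the field with `2^f` elements. -/
theorem result {α : Type*} [Fintype α] [DecidableEq α] {f : ℕ} (hf : 1 ≤ f) (hα : Fintype.card α = 2 ^ f + 1) (G : Subgroup (Equiv.Perm α)) (h3 : MulAction.IsMultiplyPretransitive G α 3) (hsharp : ∀ x : Fin 3 ↪ α, MulAction.stabilizer G x = ⊥) : ∃ (F : Type) (_ : Field F) (_ : Fintype F), Fintype.card F = 2 ^ f ∧ Nonempty (G ≃* Matrix.ProjGenLinGroup (Fin 2) F) := by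
  classical
  have hcard : Nat.card α = 2 ^ f + 1 := by rw [Nat.card_eq_fintype_card, hα]
  have h2f : 2 ≤ 2 ^ f := le_self_pow₀ (by norm_num) (by omega)
  obtain ⟨a, b, hab⟩ : ∃ a b : α, a ≠ b := Fintype.exists_pair_of_one_lt_card (by omega)
  obtain ⟨D, p, j, -, -, -, -, -, hd, -⟩ :=
    CfsgLib.ZassAbelian.exists_setting_of_sharp_three h3 hsharp (by omega) hab
  have hF : Nat.card D.F = 2 ^ f := by have := D.card_Omega; omega
  have hqe : Even (Nat.card D.F) := by
    rw [hF]; exact Even.pow_of_ne_zero even_two (by omega)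
  obtain ⟨w, -, -, -, hw⟩ := D.inverted_of_numSwaps (D.even_q_facts hqe).1
  obtain ⟨K, iF, iT, hK, hne⟩ :=
    CfsgLib.ZassAbelian.pgl_of_commutative D hd (D.commute_of_inverted hw)
  exact ⟨K, iF, iT, hK.trans hF, hne⟩

end Cfsg.Agent.S0727
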