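import Cfsg.Statements.S0729
import Cfsg.Agent.ZassAbelian.OfSharp
import Cfsg.Agent.ZassAbelian.SharpIndexTwo

set_option autoImplicit false
open Cfsg

namespace Cfsg.Agent.S0729


/-- In a sharply triply transitive group of even degree at least 6, the two-point stabiliser `H = G_{a,b}` has a normal subgroup of index 2 that is normalised by the element `s` interchanging `a, b` and fixing a third point `c`. -/
theorem result {α : Type*} [Fintype α] [DecidableEq α] (heven : Even (Fintype.card α)) (h6 : 6 ≤ Fintype.card α) (G : Subgroup (Equiv.Perm α)) (h3 : MulAction.IsMultiplyPretransitive G α 3) (hsharp : ∀ x : Fin 3 ↪ α, MulAction.stabilizer G x = ⊥) {a b c : α} (hab : a ≠ b) (hac : a ≠ c) (hbc : b ≠ c) (s : G) (hsa : s • a = b) (hsb : s • b = a) (hsc : s • c = c) : ∃ N : Subgroup G, N ≤ MulAction.stabilizer G a ⊓ MulAction.stabilizer G b ∧ (N.subgroupOf (MulAction.stabilizer G a ⊓ MulAction.stabilizer G b)).Normal ∧ N.relIndex (MulAction.stabilizer G a ⊓ MulAction.stabilizer G b) = 2 ∧ ∀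 n ∈ N, s * n * s⁻¹ ∈ N := by
  classical
  have hcard : Nat.card α = Fintype.card α := Nat.card_eq_fintype_card
  obtain ⟨D, p, j, hi, ho, -, -, -, hd, -⟩ :=
    CfsgLib.ZassAbelian.exists_setting_of_sharp_three h3 hsharp (by omega) hab
  have hq : Odd (Nat.card D.F) := by
    have h1 := D.card_Omega
    rw [Nat.even_iff] at heven
    rw [Nat.odd_iff]; omega
  haveI := Fintype.ofFinite G
  obtain ⟨M, hM, hidx, hF⟩ := D.exists_index_two_of_sharp hd hq
  have hH : MulAction.stabilizer G a ⊓ MulAction.stabilizer G b = D.H := by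
    rw [CfsgLib.ZassAbelian.Setting.H, hi, ho]
  rw [hH]
  refine ⟨D.H ⊓ M, inf_le_left, ?_, ?_, fun n hn => ⟨?_, hM.conj_mem n hn.2 s⟩⟩
  · rw [Subgroup.inf_subgroupOf_left]
    infer_instance
  · rw [Subgroup.inf_relIndex_left]
    have h1 : M.relIndex D.H ∣ 2 := hidx ▸ Subgroup.relIndex_dvd_index_of_normal M D.H
    rcases (Nat.dvd_prime Nat.prime_two).1 h1 with h | h
    · exfalso
      rw [Subgroup.relIndex_eq_one] at h
      have htop : M = ⊤ := by
        rw [eq_top_iff]
        intro g _
        by_cases hg : g • D.i = D.i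
        · obtain ⟨u, hu, k, hk, rfl⟩ := D.exists_mul_H hg
          exact M.mul_mem (hF hu) (h hk)
        · obtain ⟨m, hm, -⟩ := (D.restrict M hM hF).pair D.i (g • D.i) (g • D.i) D.i
            (fun e => hg e.symm) hg
          have hm' : (m : G) • D.i = g • D.i := hm
          obtain ⟨u, hu, k, hk, e⟩ := D.exists_mul_H (n := (m : G)⁻¹ * g)
            (by rw [mul_smul, inv_smul_eq_iff, hm'])
          have h2 : g = (m : G) * ((m : G)⁻¹ * g) := by group
          rw [h2, e]
          exact M.mul_mem m.2 (M.mul_mem (hF hu) (h hk))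
      rw [htop, Subgroup.index_top] at hidx
      omega
    · exact h
  · obtain ⟨h1, h2⟩ := D.mem_H.1 hn.1
    rw [hi] at h1
    rw [ho] at h2
    have hsa' : s⁻¹ • b = a := by rw [inv_smul_eq_iff, hsa]
    have hsb' : s⁻¹ • a = b := by rw [inv_smul_eq_iff, hsb]
    refine D.mem_H.2 ⟨?_, ?_⟩
    · rw [hi, mul_smul, mul_smul, hsb', h2, hsb]
    · rw [ho, mul_smul, mul_smul, hsa', h1, hsa]

end Cfsg.Agent.S0729
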