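import Cfsg.Statements.S0730
import Cfsg.Agent.ZassAbelian.OfSharp
import Cfsg.Agent.ZassAbelian.OddExp

set_option autoImplicit false
open Cfsg

namespace Cfsg.Agent.S0730


/-- A sharply triply transitive group of degree `p^f + 1`, `p` an odd prime and `f` odd, is isomorphic to the projective general linear group of degree 2 over the field with `p^f` elements (for even `f` there is a second, twisted, group). -/
theorem result {α : Type*} [Fintype α] [DecidableEq α] {p f : ℕ} (hp : p.Prime) (hp2 : p ≠ 2) (hfo : Odd f) (hα : Fintype.card α = p ^ f + 1) (G : Subgroup (Equiv.Perm α)) (h3 : MulAction.IsMultiplyPretransitive G α 3) (hsharp : ∀ x : Fin 3 ↪ α, MulAction.stabilizer G x = ⊥) : ∃ (F : Type) (_ : Field F) (_ : Fintype F), Fintype.card F = p ^ f ∧ Nonempty (G ≃* Matrix.ProjGenLinGroup (Fin 2) F) := by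
  classical
  have hcard : Nat.card α = p ^ f + 1 := by rw [Nat.card_eq_fintype_card, hα]
  have hpf : 2 ≤ p ^ f := le_trans hp.two_le (le_self_pow₀ hp.one_lt.le hfo.pos.ne')
  obtain ⟨a, b, hab⟩ : ∃ a b : α, a ≠ b := Fintype.exists_pair_of_one_lt_card (by omega)
  obtain ⟨D, p', j, -, -, -, -, -, hd, -⟩ :=
    CfsgLib.ZassAbelian.exists_setting_of_sharp_three h3 hsharp (by omega) hab
  have hF : Nat.card D.F = p ^ f := by have := D.card_Omega; omega
  obtain ⟨K, iF, iT, hK, hne⟩ :=
    CfsgLib.ZassAbelian.pgl_of_commutative D hd (D.H_comm_of_odd_exponent hd hp hp2 hfo hF)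
  exact ⟨K, iF, iT, hK.trans hF, hne⟩

end Cfsg.Agent.S0730
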