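import Cfsg.Statements.S0735
import Cfsg.Agent.PermGroups.Homogeneous

set_option autoImplicit false
open Cfsg

namespace Cfsg.Agent.S0735


/-- A 2-homogeneous permutation group (transitive on 2-subsets) of even order is doubly transitive; a non-trivial 2-homogeneous group is primitive. -/
theorem result {α : Type*} [Fintype α] [DecidableEq α] (G : Subgroup (Equiv.Perm α)) (h2 : MulAction.IsPretransitive G (Set.powersetCard α 2)) (hα : 3 ≤ Fintype.card α) : (Even (Nat.card G) → MulAction.IsMultiplyPretransitive G α 2) ∧ (G ≠ ⊥ → MulAction.IsPreprimitive G α) := by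
  have h := CfsgLib.PermGroups.homogeneous_of_isPretransitive_powersetCard h2
  refine ⟨fun he => CfsgLib.PermGroups.two_transitive_of_homogeneous_even h he, fun hne => ?_⟩
  haveI : Nontrivial G := (Subgroup.nontrivial_iff_ne_bot G).2 hne
  refine CfsgLib.PermGroups.isPreprimitive_of_homogeneous h ?_
  obtain ⟨a, b, c, h1, h2, h3⟩ := Fintype.two_lt_card_iff.1 (show 2 < Fintype.card α by omega)
  exact ⟨a, b, c, h1, h2, h3⟩

end Cfsg.Agent.S0735
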