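import Cfsg.Statements.S0738
import Cfsg.Agent.Perm2.Zassenhaus

set_option autoImplicit false
open Cfsg

namespace Cfsg.Agent.S0738

/-- Let a finite Zassenhaus group of degree `n + 1` have two-point stabilisers of order `d` with `2d ≥ n - 1`. Then a normal subgroup of a point stabiliser acting regularly on the remaining points is elementary abelian, and the degree is a prime power plus one. -/
theorem result {G Ω : Type*} [Group G] [Finite G] [MulAction G Ω] [Fintype Ω] (hZ : Cfsg.IsZassenhausGroup G Ω) {a b : Ω} (hab : a ≠ b) (hd : Fintype.card Ω - 2 ≤ 2 * Nat.card ↥(MulAction.stabilizer G a ⊓ MulAction.stabilizer G b)) (F : Subgroup G) (hFle : F ≤ MulAction.stabilizer G a) (hFn : (F.subgroupOf (MulAction.stabilizer G a)).Normal) (hreg : ∀ y z : Ω, y ≠ a → z ≠ a → ∃! u : F, (u : G) • y = z) : IsMulCommutative F ∧ ∃ p f : ℕ, p.Prime ∧ (∀ u ∈ F, u ^ p = 1) ∧ Fintype.card Ω = p ^ f + 1 := by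
  classical
  obtain ⟨hfaith, h2t, hthree, ⟨g₁, hg₁, a₁, b₁, hab₁, hga₁, hgb₁⟩, -⟩ := id hZ
  haveI := hFn
  set A := MulAction.stabilizer G a with hA
  set H := MulAction.stabilizer G a ⊓ MulAction.stabilizer G b with hH
  have hb : b ≠ a := hab.symm
  -- H is nontrivial
  obtain ⟨h₀, hh₀, hh₀1⟩ : ∃ h ∈ H, h ≠ (1 : G) := by
    obtain ⟨g, hg1, hg2⟩ := MulAction.is_two_pretransitive_iff.1 h2t hab₁ hab
    refine ⟨g * g₁ * g⁻¹, Subgroup.mem_inf.2 ⟨?_, ?_⟩, fun h => hg₁ (conj_eq_one_iff.1 h)⟩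
    · rw [MulAction.mem_stabilizer_iff, mul_smul, mul_smul, ← hg1, inv_smul_smul, hga₁]
    · rw [MulAction.mem_stabilizer_iff, mul_smul, mul_smul, ← hg2, inv_smul_smul, hgb₁]
  have hne : ∀ u : G, u ∈ F → u • b ≠ a := fun u hu h => hb (MulAction.injective u (h.trans (hFle hu).symm))
  have hinjb : ∀ u v : G, u ∈ F → v ∈ F → u • b = v • b → u = v := fun u v hu hv h => by
    obtain ⟨w, -, hw⟩ := hreg b (v • b) hb (hne v hv)
    exact congrArg Subtype.val ((hw ⟨u, hu⟩ h).trans (hw ⟨v, hv⟩ rfl).symm)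
  have hconjF : ∀ h ∈ H, ∀ u ∈ F, h * u * h⁻¹ ∈ F := fun h hh u hu =>
    hFn.conj_mem ⟨u, hFle hu⟩ hu ⟨h, (Subgroup.mem_inf.1 hh).1⟩
  have hfpf : ∀ h ∈ H, ∀ u ∈ F, h * u * h⁻¹ = u → h ≠ 1 → u = 1 := by
    intro h hh u hu he h1
    by_contra hu1
    refine h1 (hthree h a b (u • b) hab ?_ (hne u hu).symm (Subgroup.mem_inf.1 hh).1
      (Subgroup.mem_inf.1 hh).2 ?_)
    · intro hbu
      exact hu1 (hinjb u 1 hu F.one_mem (by rw [one_smul, ← hbu]))
    · have hbfix : h • b = b := (Subgroup.mem_inf.1 hh).2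
      calc h • u • b = (h * u * h⁻¹) • (h • b) := by rw [mul_smul, mul_smul, inv_smul_smul]
        _ = u • b := by rw [he, hbfix]
  letI : Fintype G := Fintype.ofFinite G
  set O : G → Finset G := fun u => Finset.univ.filter fun v => ∃ h ∈ H, h * u * h⁻¹ = v with hO
  have hOc : ∀ u ∈ F, u ≠ 1 → (O u).card = Nat.card H := by
    intro u hu hu1
    rw [← Nat.card_eq_finsetCard]
    symm
    refine Nat.card_eq_of_bijective (fun h : H => (⟨h.1 * u * h.1⁻¹, by
      simp only [hO, Finset.mem_filter, Finset.mem_univ, true_and]; exact ⟨h, h.2, rfl⟩⟩ : O u)) ⟨?_, ?_⟩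
    · intro h k hhk
      have e : h.1 * u * h.1⁻¹ = k.1 * u * k.1⁻¹ := congrArg Subtype.val hhk
      by_contra hne'
      refine hu1 (hfpf (k.1⁻¹ * h.1) (H.mul_mem (H.inv_mem k.2) h.2) u hu ?_ fun h1 => hne' ?_)
      · rw [show k.1⁻¹ * h.1 * u * (k.1⁻¹ * h.1)⁻¹ = k.1⁻¹ * (h.1 * u * h.1⁻¹) * k.1 by group, e]
        group
      · exact Subtype.ext (inv_mul_eq_one.1 h1).symm
    · rintro ⟨v, hv⟩
      obtain ⟨h, hh, rfl⟩ := (Finset.mem_filter.1 hv).2
      exact ⟨⟨h, hh⟩, rfl⟩
  -- the number of non-identity elements of F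
  have hcardF : Nat.card F + 1 = Fintype.card Ω := by
    have e : Nat.card F = Nat.card {y : Ω // y ≠ a} := by
      refine Nat.card_eq_of_bijective (fun u : F => ⟨(u : G) • b, hne u u.2⟩) ⟨?_, ?_⟩
      · exact fun u v h => Subtype.ext (hinjb u v u.2 v.2 (congrArg Subtype.val h))
      · rintro ⟨y, hy⟩
        obtain ⟨u, hu, -⟩ := hreg b y hb hy
        exact ⟨u, Subtype.ext hu⟩
    have hpos : 0 < Fintype.card Ω := Fintype.card_pos_iff.2 ⟨a⟩
    rw [e, Nat.card_eq_fintype_card, Fintype.card_subtype_compl, Fintype.card_subtype_eq]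
    omega
  set N : Finset G := Finset.univ.filter fun v => v ∈ F ∧ v ≠ 1 with hN
  have hNc : N.card + 1 = Nat.card F := by
    have : N = (Finset.univ.filter fun v => v ∈ F).erase 1 := by
      ext v; simp [hN, and_comm]
    rw [this, Finset.card_erase_add_one (by simp [F.one_mem]), Nat.card_eq_fintype_card,
      Fintype.card_subtype]
  have hNle : N.card ≤ 2 * Nat.card H := by omega
  have hHpos : 0 < Nat.card H := Nat.card_pos
  have hsub : ∀ u ∈ F, u ≠ 1 → O u ⊆ N := by
    intro u hu hu1 v hv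
    obtain ⟨h, hh, rfl⟩ := (Finset.mem_filter.1 hv).2
    simp only [hN, Finset.mem_filter, Finset.mem_univ, true_and]
    exact ⟨hconjF h hh u hu, fun e => hu1 (conj_eq_one_iff.1 e)⟩
  have hdisj : ∀ x y : G, (∀ h ∈ H, h * x * h⁻¹ ≠ y) → Disjoint (O x) (O y) := by
    intro x y hxy
    rw [Finset.disjoint_left]
    intro v hv hv'
    obtain ⟨h, hh, rfl⟩ := (Finset.mem_filter.1 hv).2
    obtain ⟨k, hk, hke⟩ := (Finset.mem_filter.1 hv').2
    refine hxy (k⁻¹ * h) (H.mul_mem (H.inv_mem hk) hh) ?_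
    rw [show k⁻¹ * h * x * (k⁻¹ * h)⁻¹ = k⁻¹ * (h * x * h⁻¹) * k by group, ← hke]
    group
  have hthree' : ∀ x y z : G, x ∈ F → y ∈ F → z ∈ F → x ≠ 1 → y ≠ 1 → z ≠ 1 →
      (∀ h ∈ H, h * x * h⁻¹ ≠ y) → (∀ h ∈ H, h * x * h⁻¹ ≠ z) → ∃ h ∈ H, h * y * h⁻¹ = z := by
    intro x y z hx hy hz hx1 hy1 hz1 hxy hxz
    by_contra hyz
    push Not at hyz
    have h3 : ((O x ∪ O y) ∪ O z).card ≤ N.card :=
      Finset.card_le_card (Finset.union_subset (Finset.union_subset (hsub x hx hx1) (hsub y hy hy1))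
        (hsub z hz hz1))
    rw [Finset.card_union_of_disjoint (Finset.disjoint_union_left.2 ⟨hdisj x z hxz, hdisj y z hyz⟩),
      Finset.card_union_of_disjoint (hdisj x y hxy), hOc x hx hx1, hOc y hy hy1, hOc z hz hz1] at h3
    omega
  have hord : ∀ h x : G, orderOf (h * x * h⁻¹) = orderOf x := CfsgLib.Perm2.orderOf_conj_eq
  -- F is commutative
  have hcomm : ∀ x ∈ F, ∀ y ∈ F, x * y = y * x := by
    by_cases heven : 2 ∣ Nat.card H
    · haveI : Fact (Nat.Prime 2) := ⟨Nat.prime_two⟩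
      obtain ⟨t, ht⟩ := exists_prime_orderOf_dvd_card' 2 heven
      have ht2 : (t : G) * t = 1 := by
        have h := pow_orderOf_eq_one t
        rw [ht, sq] at h
        exact congrArg Subtype.val h
      have ht1 : (t : G) ≠ 1 := by
        intro h
        rw [(Subtype.ext h : t = 1), orderOf_one] at ht
        omega
      let f : F → F := fun v => ⟨(v : G)⁻¹ * (t * v * (t : G)⁻¹), F.mul_mem (F.inv_mem v.2) (hconjF t t.2 v v.2)⟩
      have hf : Function.Injective f := by
        intro v w h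
        have e : (v : G)⁻¹ * (t * v * (t : G)⁻¹) = (w : G)⁻¹ * (t * w * (t : G)⁻¹) := congrArg Subtype.val h
        have e' : (t : G) * ((v : G) * (w : G)⁻¹) * (t : G)⁻¹ = v * (w : G)⁻¹ := by
          calc (t : G) * ((v : G) * (w : G)⁻¹) * (t : G)⁻¹
              = v * ((v : G)⁻¹ * (t * v * (t : G)⁻¹)) * ((w : G)⁻¹ * (t * w * (t : G)⁻¹))⁻¹ * (w : G)⁻¹ := by group
            _ = v * (w : G)⁻¹ := by rw [e]; group
        have := hfpf t t.2 _ (F.mul_mem v.2 (F.inv_mem w.2)) e' ht1
        exact Subtype.ext (mul_inv_eq_one.1 this)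
      have hinv : ∀ u ∈ F, (t : G) * u * (t : G)⁻¹ = u⁻¹ := by
        intro u hu
        obtain ⟨v, hv⟩ := (Finite.injective_iff_surjective.1 hf) ⟨u, hu⟩
        have e : (v : G)⁻¹ * (t * v * (t : G)⁻¹) = u := congrArg Subtype.val hv
        have hti : (t : G)⁻¹ = t := inv_eq_of_mul_eq_one_right ht2
        rw [hti] at e ⊢
        rw [← e, mul_inv_rev, mul_inv_rev, mul_inv_rev, hti, inv_inv]
        calc (t : G) * ((v : G)⁻¹ * (t * v * t)) * t
            = t * (v : G)⁻¹ * t * v * (t * t) := by group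
          _ = t * ((v : G)⁻¹ * t) * v := by rw [ht2]; group
      intro x hx y hy
      have h := hinv (x * y) (F.mul_mem hx hy)
      rw [show (t : G) * (x * y) * (t : G)⁻¹ = ((t : G) * x * (t : G)⁻¹) * (t * y * (t : G)⁻¹) by group,
        hinv x hx, hinv y hy, mul_inv_rev] at h
      calc x * y = x * y * ((y⁻¹ * x⁻¹) * (y * x)) := by rw [← h]; group
        _ = y * x := by group
    · have hnot : ∀ x ∈ F, x * x ≠ 1 → ∀ h ∈ H, h * x * h⁻¹ ≠ x⁻¹ := by
        intro x hx hx2 h hh he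
        have e2 : (h * h) * x * (h * h)⁻¹ = x := by
          rw [show h * h * x * (h * h)⁻¹ = h * (h * x * h⁻¹) * h⁻¹ by group, he, ← conj_inv, he, inv_inv]
        have hhh : h * h = 1 := by
          by_contra h1
          exact hx2 (by rw [hfpf _ (H.mul_mem hh hh) x hx e2 h1, one_mul])
        have : h = 1 := by
          by_contra h1
          refine heven ?_
          have ho : orderOf (⟨h, hh⟩ : H) = 2 :=
            orderOf_eq_prime (Subtype.ext (by rw [Subgroup.coe_pow, sq, hhh]; rfl))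
              (fun e => h1 (congrArg Subtype.val e))
          exact ho ▸ orderOf_dvd_natCard _
        subst this
        simp only [one_mul, inv_one, mul_one] at he
        exact hx2 (mul_eq_one_iff_eq_inv.2 he)
      by_cases hexp : ∀ x ∈ F, x * x = 1
      · intro x hx y hy
        have h := hexp _ (F.mul_mem hx hy)
        calc x * y = (x * y)⁻¹ := eq_inv_of_mul_eq_one_left h
          _ = y * x := by rw [mul_inv_rev, ← eq_inv_of_mul_eq_one_left (hexp x hx),
            ← eq_inv_of_mul_eq_one_left (hexp y hy)]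
      · push Not at hexp
        obtain ⟨x₀, hx₀, hx₀2⟩ := hexp
        have hx₀1 : x₀ ≠ 1 := by rintro rfl; simp at hx₀2
        -- every non-identity element is conjugate to x₀ or to its inverse
        have hall : ∀ z ∈ F, z ≠ 1 → (∃ h ∈ H, h * x₀ * h⁻¹ = z) ∨ ∃ h ∈ H, h * x₀⁻¹ * h⁻¹ = z := by
          intro z hz hz1
          by_contra hc
          push Not at hc
          obtain ⟨h, hh, he⟩ := hthree' x₀ x₀⁻¹ z hx₀ (F.inv_mem hx₀) hz hx₀1 (inv_ne_one.2 hx₀1) hz1
            (hnot x₀ hx₀ hx₀2) hc.1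
          exact hc.2 h hh he
        have horder : ∀ z ∈ F, z ≠ 1 → orderOf z = orderOf x₀ := by
          intro z hz hz1
          rcases hall z hz hz1 with ⟨h, -, rfl⟩ | ⟨h, -, rfl⟩
          · rw [hord]
          · rw [hord, orderOf_inv]
        obtain ⟨r, hr, hrdvd⟩ := Nat.exists_prime_and_dvd (fun h => hx₀1 (orderOf_eq_one_iff.1 h))
        haveI : Fact r.Prime := ⟨hr⟩
        have hxr : orderOf x₀ = r := by
          have ho : orderOf (x₀ ^ (orderOf x₀ / r)) = r := orderOf_pow_orderOf_div (orderOf_pos x₀).ne' hrdvd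
          rw [← ho]
          exact (horder _ (F.pow_mem hx₀ _) (fun h => hr.one_lt.ne' (by rw [← ho, h, orderOf_one]))).symm
        have hP : IsPGroup r F := by
          intro z
          refine ⟨1, Subtype.ext ?_⟩
          rw [pow_one, Subgroup.coe_pow, Subgroup.coe_one]
          rcases eq_or_ne (z : G) 1 with h | h
          · rw [h, one_pow]
          · rw [← hxr, ← horder z z.2 h, pow_orderOf_eq_one]
        haveI : Nontrivial F := ⟨⟨⟨x₀, hx₀⟩, 1, fun h => hx₀1 (congrArg Subtype.val h)⟩⟩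
        haveI := hP.center_nontrivial
        obtain ⟨z, hz⟩ := exists_ne (1 : Subgroup.center F)
        have hz1 : ((z : F) : G) ≠ 1 := fun h => hz (Subtype.ext (Subtype.ext h))
        have hcent : ∀ h ∈ H, ∀ c : G, c ∈ F → (∀ w ∈ F, c * w = w * c) →
            ∀ w ∈ F, (h * c * h⁻¹) * w = w * (h * c * h⁻¹) := by
          intro h hh c _ hcw w hw
          have h1 := hcw (h⁻¹ * w * h) (by
            have := hconjF h⁻¹ (H.inv_mem hh) w hw
            rwa [inv_inv] at this)
          calc h * c * h⁻¹ * w = h * (c * (h⁻¹ * w * h)) * h⁻¹ := by group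
            _ = w * (h * c * h⁻¹) := by rw [h1]; group
        have hzc : ∀ w ∈ F, ((z : F) : G) * w = w * ((z : F) : G) := fun w hw =>
          congrArg Subtype.val ((Subgroup.mem_center_iff.1 z.2 ⟨w, hw⟩)).symm
        have hzc' : ∀ w ∈ F, ((z : F) : G)⁻¹ * w = w * ((z : F) : G)⁻¹ := fun w hw =>
          (show Commute ((z : F) : G) w from hzc w hw).inv_left.eq
        intro x hx y hy
        rcases eq_or_ne x 1 with rfl | hx1
        · simp
        have key : (∃ h ∈ H, h * ((z : F) : G) * h⁻¹ = x) ∨ ∃ h ∈ H, h * ((z : F) : G)⁻¹ * h⁻¹ = x := by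
          by_contra hc
          push Not at hc
          have hz2 : ((z : F) : G) * (z : F) ≠ 1 := by
            intro h
            have h2 := orderOf_dvd_of_pow_eq_one (n := 2) (by rw [sq, h] : ((z : F) : G) ^ 2 = 1)
            rw [horder _ (z : F).2 hz1, hxr, Nat.prime_dvd_prime_iff_eq hr Nat.prime_two] at h2
            refine hx₀2 ?_
            rw [← sq, ← h2, ← hxr, pow_orderOf_eq_one]
          obtain ⟨h, hh, he⟩ := hthree' _ _ x (z : F).2 (F.inv_mem (z : F).2) hx hz1 (inv_ne_one.2 hz1) hx1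
            (hnot _ (z : F).2 hz2) hc.1
          exact hc.2 h hh he
        rcases key with ⟨h, hh, rfl⟩ | ⟨h, hh, rfl⟩
        · exact hcent h hh _ (z : F).2 hzc y hy
        · exact hcent h hh _ (F.inv_mem (z : F).2) hzc' y hy
  refine ⟨⟨⟨fun x y => Subtype.ext (hcomm x x.2 y y.2)⟩⟩, ?_⟩
  -- exponent
  obtain ⟨v₀, hv₀, hv₀1⟩ : ∃ v ∈ F, v ≠ (1 : G) := by
    by_contra h
    push Not at h
    refine hh₀1 (hfaith.eq_of_smul_eq_smul fun y => ?_)
    rw [one_smul]
    rcases eq_or_ne y a with rfl | hy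
    · exact (Subgroup.mem_inf.1 hh₀).1
    · obtain ⟨u, hu, -⟩ := hreg b y hb hy
      rw [← hu, h u u.2, one_smul]
      exact (Subgroup.mem_inf.1 hh₀).2
  obtain ⟨p, hp, hpdvd⟩ := Nat.exists_prime_and_dvd (fun h => hv₀1 (orderOf_eq_one_iff.1 h))
  haveI : Fact p.Prime := ⟨hp⟩
  set x := v₀ ^ (orderOf v₀ / p) with hxdef
  have hxp : orderOf x = p := orderOf_pow_orderOf_div (orderOf_pos v₀).ne' hpdvd
  have hx : x ∈ F := F.pow_mem hv₀ _
  have hx1 : x ≠ 1 := fun h => hp.one_lt.ne' (by rw [← hxp, h, orderOf_one])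
  have hexp : ∀ u ∈ F, u ^ p = 1 := by
    intro y hy
    by_contra hyp
    have hy1 : y ≠ 1 := by rintro rfl; simp at hyp
    let P : Subgroup F :=
      { carrier := {u | (u : G) ^ p = 1}
        one_mem' := one_pow p
        mul_mem' := fun {u v} (hu : (u : G) ^ p = 1) (hv : (v : G) ^ p = 1) => by
          show ((u : G) * v) ^ p = 1
          rw [(show Commute (u : G) v from hcomm u u.2 v v.2).mul_pow, hu, hv, one_mul]
        inv_mem' := fun {u} (hu : (u : G) ^ p = 1) => by
          show ((u : G)⁻¹) ^ p = 1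
          rw [inv_pow, hu, inv_one] }
    have hxy : ∀ h ∈ H, h * x * h⁻¹ ≠ y := fun h _ he => hyp (by
      rw [← he, ← hxp, ← hord h x, pow_orderOf_eq_one])
    have hOx : ∀ v ∈ F, v ≠ 1 → v ^ p = 1 → v ∈ O x := by
      intro v hv hv1 hvp
      by_contra hc
      simp only [hO, Finset.mem_filter, Finset.mem_univ, true_and, not_exists, not_and] at hc
      obtain ⟨h, -, he⟩ := hthree' x y v hx hy hv hx1 hy1 hv1 hxy hc
      exact hyp (by
        have h' : (h * y * h⁻¹) ^ p = 1 := he ▸ hvp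
        rwa [conj_pow, conj_eq_one_iff] at h')
    have hPc : Nat.card P = Nat.card H + 1 := by
      rw [← hOc x hx hx1]
      have h1 : (1 : G) ∉ O x := fun h => by simpa [hN] using hsub x hx hx1 h
      rw [← Finset.card_insert_of_notMem h1, ← Nat.card_eq_finsetCard]
      refine Nat.card_congr
        { toFun := fun v => ⟨(v.1 : G), ?_⟩
          invFun := fun v => ⟨⟨v.1, ?_⟩, ?_⟩
          left_inv := fun v => rfl
          right_inv := fun v => rfl }
      · rw [Finset.mem_insert]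
        rcases eq_or_ne (v.1 : G) 1 with h | h
        · exact Or.inl h
        · exact Or.inr (hOx _ v.1.2 h v.2)
      · rcases Finset.mem_insert.1 v.2 with h | h
        · rw [h]; exact F.one_mem
        · exact (Finset.mem_filter.1 (hsub x hx hx1 h)).2.1
      · show (v.1 : G) ^ p = 1
        rcases Finset.mem_insert.1 v.2 with h | h
        · rw [h, one_pow]
        · obtain ⟨g, -, hg⟩ := (Finset.mem_filter.1 h).2
          rw [← hg, ← hxp, ← hord g x, pow_orderOf_eq_one]
    have hNc' : 2 * Nat.card H ≤ N.card := by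
      have := Finset.card_le_card (Finset.union_subset (hsub x hx hx1) (hsub y hy hy1))
      rwa [Finset.card_union_of_disjoint (hdisj x y hxy), hOc x hx hx1, hOc y hy hy1, ← two_mul] at this
    obtain ⟨c, hc⟩ := Subgroup.card_subgroup_dvd_card P
    rw [hPc, ← hNc, le_antisymm hNle hNc'] at hc
    rcases c with _ | _ | c
    · omega
    · omega
    · nlinarith
  have hPF : IsPGroup p F := fun u => ⟨1, Subtype.ext (by
    rw [pow_one, Subgroup.coe_pow, hexp u u.2]; rfl)⟩
  obtain ⟨f, hf⟩ := IsPGroup.iff_card.1 hPF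
  exact ⟨p, f, hp, hexp, by omega⟩

end Cfsg.Agent.S0738
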