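import Cfsg.Statements.S0740
import Cfsg.Agent.Perm2.Zassenhaus

set_option autoImplicit false
open Cfsg

namespace Cfsg.Agent.S0740

open MulAction CfsgLib.Perm2

/-- In a finite Zassenhaus group any two points `a ≠ b` are swapped by an involution; every such involution has exactly one fixed point when the degree is odd and 0 or 2 fixed points when the degree is even; and if the two-point stabiliser has even order, some such involution has exactly 2 fixed points. -/
theorem result {G Ω : Type*} [Group G] [Finite G] [MulAction G Ω] [Fintype Ω] (hZ : Cfsg.IsZassenhausGroup G Ω) {a b : Ω} (hab : a ≠ b) : (∃ s : G, orderOf s = 2 ∧ s • a = b ∧ s • b = a) ∧ (∀ s : G, orderOf s = 2 → s • a = b → s • b = a → (Odd (Fintype.card Ω) → Nat.card (MulAction.fixedBy Ω s) = 1) ∧ (Even (Fintype.card Ω) → Nat.card (MulAction.fixedBy Ω s) = 0 ∨ Nat.card (MulAction.fixedBy Ω s) = 2)) ∧ (Even (Fintype.card Ω) → Even (Nat.card ↥(MulAction.stabilizer G a ⊓ MulAction.stabilizer G b)) → ∃ s : G, orderOf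 s = 2 ∧ s • a = b ∧ s • b = a ∧ Nat.card (MulAction.fixedBy Ω s) = 2) := by
  classical
  haveI : Fact (Nat.Prime 2) := ⟨Nat.prime_two⟩
  refine ⟨?_, fun s hs _ _ => ?_, fun _ hd => ?_⟩
  · obtain ⟨t, ht⟩ := exists_prime_orderOf_dvd_card' 2 (zassenhaus_even_card hZ hab).two_dvd
    obtain ⟨g, h1, h2⟩ := zassenhaus_conj_swap hZ ht hab
    exact ⟨g * t * g⁻¹, (orderOf_conj_eq g t).trans ht, h1, h2⟩
  · have h1 : s ≠ 1 := by intro h; simp [h] at hs
    have hle := zassenhaus_card_fixedBy_le hZ h1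
    have hP : IsPGroup 2 (Subgroup.zpowers s) :=
      IsPGroup.of_card (n := 1) (by rw [Nat.card_zpowers, hs, pow_one])
    have hmod := hP.card_modEq_card_fixedPoints Ω
    have he : fixedPoints (Subgroup.zpowers s) Ω = fixedBy Ω s := by
      ext x
      refine ⟨fun h => h ⟨s, Subgroup.mem_zpowers s⟩, fun h g => ?_⟩
      obtain ⟨i, hi⟩ := Subgroup.mem_zpowers_iff.1 g.2
      rw [Subgroup.smul_def, ← hi]
      exact fixedBy_subset_fixedBy_zpow Ω s i h
    rw [he, Nat.card_eq_fintype_card (α := Ω)] at hmod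
    unfold Nat.ModEq at hmod
    refine ⟨fun ho => ?_, fun ho => ?_⟩
    · rw [Nat.odd_iff] at ho; omega
    · rw [Nat.even_iff] at ho; omega
  · obtain ⟨t, ht, hta, htb⟩ := zassenhaus_involution_pair hd
    have h1 : t ≠ 1 := by intro h; simp [h] at ht
    obtain ⟨g, h2, h3⟩ := zassenhaus_conj_swap hZ ht hab
    refine ⟨g * t * g⁻¹, (orderOf_conj_eq g t).trans ht, h2, h3, ?_⟩
    rw [fixedBy_conj_card, fixedBy_eq_pair hZ h1 hab hta htb, Nat.card_coe_set_eq, Set.ncard_pair hab]

end Cfsg.Agent.S0740
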