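import Cfsg.Statements.S0741
import Cfsg.Agent.Perm2.Zassenhaus

set_option autoImplicit false
open Cfsg

namespace Cfsg.Agent.S0741

open MulAction CfsgLib.Perm2

/-- If the two-point stabilisers of a finite Zassenhaus group of degree `n + 1` have even order `d`, then `2d ≥ n - 1`. -/
theorem result {G Ω : Type*} [Group G] [Finite G] [MulAction G Ω] [Fintype Ω] (hZ : Cfsg.IsZassenhausGroup G Ω) {a b : Ω} (hab : a ≠ b) (heven : Even (Nat.card ↥(MulAction.stabilizer G a ⊓ MulAction.stabilizer G b))) : Fintype.card Ω - 2 ≤ 2 * Nat.card ↥(MulAction.stabilizer G a ⊓ MulAction.stabilizer G b) := by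
  classical
  letI := Fintype.ofFinite G
  obtain ⟨t, ht, hta, htb⟩ := zassenhaus_involution_pair heven
  have ht1 : t ≠ 1 := by intro h; simp [h] at ht
  set n := Fintype.card Ω
  set d := Nat.card ↥(MulAction.stabilizer G a ⊓ MulAction.stabilizer G b)
  set D : Finset (Ω × Ω) := Finset.univ.offDiag with hD
  have hmemD : ∀ x : Ω × Ω, x ∈ D ↔ x.1 ≠ x.2 := fun x => by simp [hD]
  -- involutions with exactly two fixed points
  set J : Finset G := Finset.univ.filter fun s => orderOf s = 2 ∧ Nat.card (fixedBy Ω s) = 2 with hJ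
  have hJD : D.card ≤ 2 * J.card := by
    have : ∀ x : Ω × Ω, x.1 ≠ x.2 → ∃ s ∈ J, fixedBy Ω s = ({x.1, x.2} : Set Ω) := by
      intro x hx
      obtain ⟨g, h1, h2⟩ := is_two_pretransitive_iff.1 hZ.2.1 hab hx
      have hs1 : g * t * g⁻¹ ≠ 1 := by
        intro h; exact ht1 (conj_eq_one_iff.1 h)
      have hf : fixedBy Ω (g * t * g⁻¹) = ({x.1, x.2} : Set Ω) := by
        refine fixedBy_eq_pair hZ hs1 hx ?_ ?_
        · rw [mul_smul, mul_smul, ← h1, inv_smul_smul, hta]
        · rw [mul_smul, mul_smul, ← h2, inv_smul_smul, htb]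
      refine ⟨_, Finset.mem_filter.2 ⟨Finset.mem_univ _, (orderOf_conj_eq g t).trans ht, ?_⟩, hf⟩
      rw [hf, Nat.card_coe_set_eq, Set.ncard_pair hx]
    let F : Ω × Ω → G := fun x => if hx : x.1 ≠ x.2 then (this x hx).choose else 1
    refine Finset.card_le_mul_card_image_of_maps_to (f := F) (fun x hx => ?_) 2 fun s hs => ?_
    · simp only [F, dif_pos ((hmemD x).1 hx)]
      exact (this x ((hmemD x).1 hx)).choose_spec.1
    · have hsub : (D.filter fun x => F x = s) ⊆ ((fixedBy Ω s).toFinset).offDiag := by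
        intro x hx
        rw [Finset.mem_filter] at hx
        have hne := (hmemD x).1 hx.1
        have := (this x hne).choose_spec.2
        simp only [F, dif_pos hne] at hx
        rw [hx.2] at this
        simp only [Finset.mem_offDiag, Set.mem_toFinset, this]
        exact ⟨by simp, by simp, hne⟩
      refine (Finset.card_le_card hsub).trans ?_
      rw [Finset.offDiag_card, ← Nat.card_eq_card_toFinset, (Finset.mem_filter.1 hs).2.2]
  have hcount : J.card * (n - 2) ≤ D.card * d := by
    rw [show J.card * (n - 2) = ∑ _s ∈ J, (n - 2) by simp]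
    refine le_trans (Finset.sum_le_sum fun s hs => ?_)
      (le_trans (le_of_eq (Finset.sum_card_bipartiteAbove_eq_sum_card_bipartiteBelow
        (fun (s : G) (x : Ω × Ω) => s • x.1 = x.2 ∧ s • x.2 = x.1) (s := J) (t := D))) ?_)
    · -- each involution swaps at least n-2 ordered pairs
      obtain ⟨-, hs2, hsf⟩ := Finset.mem_filter.1 hs
      have e : n - 2 = (Finset.univ \ (fixedBy Ω s).toFinset).card := by
        rw [Finset.card_univ_diff, ← Nat.card_eq_card_toFinset, hsf]
      rw [e]
      refine Finset.card_le_card_of_injOn (fun c => (c, s • c)) (fun c hc => ?_)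
        (fun c _ c' _ h => (Prod.mk.injEq .. ▸ h).1)
      simp only [Finset.coe_sdiff, Set.mem_diff, Set.coe_toFinset, mem_fixedBy] at hc
      simp only [Finset.mem_coe, Finset.mem_bipartiteAbove, hmemD]
      exact ⟨Ne.symm hc.2, by simpa using smul_smul_of_orderOf_two hs2 c⟩
    · rw [← smul_eq_mul]
      refine Finset.sum_le_card_nsmul _ _ _ fun x hx => ?_
      have hne := (hmemD x).1 hx
      obtain ⟨g, h1, h2⟩ := is_two_pretransitive_iff.1 hZ.2.1 hab hne
      by_cases hemp : (Finset.bipartiteBelow (fun (s : G) (x : Ω × Ω) => s • x.1 = x.2 ∧ s • x.2 = x.1) J x).Nonempty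
      · obtain ⟨s0, hs0⟩ := hemp
        obtain ⟨-, h01, h02⟩ := (Finset.mem_bipartiteBelow _).1 hs0
        have : ∀ s ∈ Finset.bipartiteBelow (fun (s : G) (x : Ω × Ω) => s • x.1 = x.2 ∧ s • x.2 = x.1) J x,
            g⁻¹ * (s0⁻¹ * s) * g ∈ MulAction.stabilizer G a ⊓ MulAction.stabilizer G b := by
          intro s hs
          obtain ⟨-, h11, h12⟩ := (Finset.mem_bipartiteBelow _).1 hs
          refine Subgroup.mem_inf.2 ⟨?_, ?_⟩ <;> rw [mem_stabilizer_iff, mul_smul, mul_smul, inv_smul_eq_iff, mul_smul, inv_smul_eq_iff]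
          · rw [h1, h11, h01]
          · rw [h2, h12, h02]
        rw [← Nat.card_eq_finsetCard]
        refine Nat.card_le_card_of_injective (fun s => ⟨_, this s.1 s.2⟩) fun s s' h => ?_
        simp only [Subtype.mk.injEq] at h
        exact Subtype.ext (by simpa using h)
      · rw [Finset.not_nonempty_iff_eq_empty.1 hemp]; simp
  have hpos : 0 < D.card := Finset.card_pos.2 ⟨(a, b), (hmemD _).2 hab⟩
  have : D.card * (n - 2) ≤ D.card * (2 * d) :=
    calc D.card * (n - 2) ≤ 2 * J.card * (n - 2) := Nat.mul_le_mul_right _ hJD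
      _ ≤ 2 * (D.card * d) := by rw [mul_assoc]; exact Nat.mul_le_mul_left _ hcount
      _ = _ := by ring
  exact Nat.le_of_mul_le_mul_left this hpos

end Cfsg.Agent.S0741
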