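import Cfsg.Statements.S0744
import Cfsg.Agent.Perm2.StabTrans

set_option autoImplicit false
open Cfsg

namespace Cfsg.Agent.S0744

open MulAction

theorem dvd_card_of_orbits {H α : Type*} [Group H] [MulAction H α] [Finite α] (S : Set α) (r : ℕ)
    (hS : ∀ g : H, ∀ x ∈ S, g • x ∈ S) (hr : ∀ x ∈ S, Nat.card (orbit H x) = r) :
    r ∣ Nat.card S := by
  classical
  let T : SubMulAction H α := { carrier := S, smul_mem' := fun g x hx => hS g x hx }
  letI := Fintype.ofFinite (orbitRel.Quotient H T)
  have e := Nat.card_congr (selfEquivSigmaOrbits H T)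
  rw [Nat.card_sigma] at e
  have hT : Nat.card T = Nat.card S := rfl
  rw [← hT, e]
  refine Finset.dvd_sum fun q _ => ?_
  have : Nat.card (orbit H q.out) = r := by
    rw [← hr _ q.out.2, ← SubMulAction.val_image_orbit, Nat.card_image_of_injective Subtype.val_injective]
  exact this ▸ dvd_rfl

/-- If for some `k > 1` the pointwise stabilisers of all `(k-1)`-subsets have the same order `> 1` and those of all `k`-subsets have the same order, then the group is `(k-1)`-transitive. -/
theorem result {α : Type*} [Fintype α] [DecidableEq α] (G : Subgroup (Equiv.Perm α)) {k : ℕ} (hk : 1 < k) (hkn : k ≤ Fintype.card α) (l m : ℕ) (hl : 1 < l) (hkm1 : ∀ s : Finset α, s.card = k - 1 → Nat.card (fixingSubgroup G (s : Set α)) = l) (hkm : ∀ s : Finset α, s.card = k → Nat.card (fixingSubgroup G (s : Set α)) = m) : MulAction.IsMultiplyPretransitive G α (k - 1) := by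
  classical
  -- orbit length of the stabiliser of a (k-1)-set on any further point
  have horb : ∀ s : Finset α, s.card = k - 1 → ∀ c : α, c ∉ s →
      Nat.card (orbit (fixingSubgroup G (s : Set α)) c) * m = l := by
    intro s hs c hc
    set H := fixingSubgroup G (s : Set α)
    have h1 : Nat.card (stabilizer H c) = m := by
      rw [← hkm (insert c s) (by rw [Finset.card_insert_of_notMem hc]; omega)]
      refine Nat.card_congr
        { toFun := fun g => ⟨g.1.1, (mem_fixingSubgroup_iff G).2 ?_⟩
          invFun := fun g => ⟨⟨g.1, (mem_fixingSubgroup_iff G).2 ?_⟩, ?_⟩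
          left_inv := fun g => rfl
          right_inv := fun g => rfl }
      · intro x hx
        rcases Finset.mem_insert.1 hx with rfl | hx
        · exact g.2
        · exact (mem_fixingSubgroup_iff G).1 g.1.2 x hx
      · exact fun x hx => (mem_fixingSubgroup_iff G).1 g.2 x (Finset.mem_insert_of_mem hx)
      · exact (mem_fixingSubgroup_iff G).1 g.2 c (Finset.mem_insert_self _ _)
    rw [← h1, ← hkm1 s hs, ← Nat.card_prod]
    exact Nat.card_congr (orbitProdStabilizerEquivGroup H c)
  refine CfsgLib.Perm2.isMultiplyPretransitive_of_fixing (k - 1) fun t ht a b ha hb => ?_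
  by_contra hab
  have hab' : a ≠ b := by
    rintro rfl
    exact hab ⟨1, fun x _ => one_smul _ x, one_smul _ a⟩
  obtain ⟨u, htu, hu, huc⟩ := Finset.exists_subsuperset_card_eq
    (s := t) (t := (Finset.univ.erase a).erase b) (n := k - 2)
    (fun x hx => by simp [ne_of_mem_of_not_mem hx ha, ne_of_mem_of_not_mem hx hb]) (by omega)
    (by simp [Finset.card_erase_of_mem, Ne.symm hab']; omega)
  have hau : a ∉ u := fun hx => by simpa using hu hx
  have hbu : b ∉ u := fun hx => by simpa using hu hx
  set K := fixingSubgroup G (u : Set α) with hK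
  set O : Set α := orbit K a with hO
  have hbO : b ∉ O := by
    rintro ⟨⟨g, hg⟩, hgb⟩
    exact hab ⟨g, fun x hx => (mem_fixingSubgroup_iff G).1 hg x (htu hx), hgb⟩
  have hOu : ∀ x ∈ O, x ∉ u := by
    rintro x ⟨⟨g, hg⟩, rfl⟩ hx
    exact hau ((MulAction.injective g ((mem_fixingSubgroup_iff G).1 hg _ hx)) ▸ hx)
  have hsa : (insert a u).card = k - 1 := by rw [Finset.card_insert_of_notMem hau]; omega
  have hsb : (insert b u).card = k - 1 := by rw [Finset.card_insert_of_notMem hbu]; omega
  have hle : ∀ c : α, fixingSubgroup G ((insert c u : Finset α) : Set α) ≤ K := fun c =>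
    fixingSubgroup_antitone G α (by simp)
  set r := Nat.card (orbit (fixingSubgroup G ((insert b u : Finset α) : Set α)) a) with hr
  have habu : a ∉ insert b u := by simp [hab', hau]
  have hrm : r * m = l := horb _ hsb a habu
  have hm : 0 < m := Nat.pos_of_ne_zero fun h => by rw [h] at hrm; omega
  have hrall : ∀ s : Finset α, s.card = k - 1 → ∀ c : α, c ∉ s →
      Nat.card (orbit (fixingSubgroup G (s : Set α)) c) = r := fun s hs c hc =>
    Nat.eq_of_mul_eq_mul_right hm ((horb s hs c hc).trans hrm.symm)
  have hr1 : r ≠ 1 := by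
    intro h1
    have : fixingSubgroup G ((insert b u : Finset α) : Set α) = ⊥ := by
      refine eq_bot_iff.2 fun g hg => Subgroup.mem_bot.2 ?_
      refine Subtype.ext (Equiv.ext fun x => ?_)
      by_cases hx : x ∈ insert b u
      · exact (mem_fixingSubgroup_iff G).1 hg x hx
      · have hc := hrall _ hsb x hx
        rw [h1, Nat.card_eq_one_iff_unique] at hc
        exact congrArg Subtype.val (@Subsingleton.elim _ hc.1
          (⟨g • x, ⟨⟨g, hg⟩, rfl⟩⟩ : orbit _ x) ⟨x, mem_orbit_self x⟩)
    have hl' := hkm1 _ hsb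
    rw [this, Subgroup.card_bot] at hl'
    omega
  have d1 : r ∣ Nat.card O := dvd_card_of_orbits O r
    (fun g x hx => by
      obtain ⟨v, rfl⟩ := hx
      exact ⟨⟨g.1, hle b g.2⟩ * v, by simp only [mul_smul]; rfl⟩)
    (fun x hx => hrall _ hsb x (by
      simp only [Finset.mem_insert, not_or]
      exact ⟨fun e => hbO (e ▸ hx), hOu x hx⟩))
  have d2 : r ∣ Nat.card (O \ {a} : Set α) := dvd_card_of_orbits (O \ {a}) r
    (H := fixingSubgroup G ((insert a u : Finset α) : Set α))
    (fun g x hx => by
      obtain ⟨⟨v, rfl⟩, hxa⟩ := hx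
      refine ⟨⟨⟨g.1, hle a g.2⟩ * v, by simp only [mul_smul]; rfl⟩, fun e => hxa ?_⟩
      have hga : g • a = a :=
        (mem_fixingSubgroup_iff G).1 g.2 a (Finset.mem_insert_self _ _)
      exact MulAction.injective g ((Set.mem_singleton_iff.1 e).trans hga.symm))
    (fun x hx => hrall _ hsa x (by
      simp only [Finset.mem_insert, not_or]
      exact ⟨fun e => hx.2 (Set.mem_singleton_iff.2 e), hOu x hx.1⟩))
  have hc : Nat.card O = Nat.card (O \ {a} : Set α) + 1 := by
    rw [Nat.card_coe_set_eq, Nat.card_coe_set_eq]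
    exact (Set.ncard_diff_singleton_add_one (mem_orbit_self a)).symm
  rw [hc] at d1
  exact hr1 (Nat.dvd_one.1 ((Nat.dvd_add_right d2).1 d1))

end Cfsg.Agent.S0744
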