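import Cfsg.Statements.S0745
import Cfsg.Agent.LW54.Degree

set_option autoImplicit false
open Cfsg

namespace Cfsg.Agent.S0745


/-- Let `G` have degree `n` and `3 ≤ k ≤ n`; suppose `G` is `(k-2)`-transitive but not `(k-1)`-transitive, and is `(k-1)`-homogeneous and `k`-homogeneous. Then `k = n` and `G` is the alternating group, or `n = 5, k = 4, |G| = 20`, or `n = 6, k = 5, |G| = 120`, or `n = 9, k = 5, |G| ∈ {504, 1512}`. -/
theorem result {α : Type*} [Fintype α] [DecidableEq α] (G : Subgroup (Equiv.Perm α)) {k : ℕ} (hk : 3 ≤ k) (hkn : k ≤ Fintype.card α) (ht : MulAction.IsMultiplyPretransitive G α (k - 2)) (hnt : ¬ MulAction.IsMultiplyPretransitive G α (k - 1)) (hh1 : MulAction.IsPretransitive G (Set.powersetCard α (k - 1))) (hh : MulAction.IsPretransitive G (Set.powersetCard α k)) : (k = Fintype.card α ∧ G = alternatingGroup α) ∨ (Fintype.card α = 5 ∧ k = 4 ∧ Nat.card G = 20) ∨ (Fintype.card α = 6 ∧ k = 5 ∧ Nat.card G = 120)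 ∨ (Fintype.card α = 9 ∧ k = 5 ∧ (Nat.card G = 504 ∨ Nat.card G = 1512)) := by
  classical
  obtain ⟨j, rfl⟩ : ∃ j, k = j + 2 := ⟨k - 2, by omega⟩
  rw [Nat.add_sub_cancel] at ht
  rw [show j + 2 - 1 = j + 1 by omega] at hnt hh1
  have hK : CfsgLib.LW54.KT G α j := CfsgLib.LW54.kt_of_pretransitive ht (by omega)
  rcases CfsgLib.LW54.exceptions (by omega) hkn hK
      (fun h => hnt (CfsgLib.LW54.pretransitive_of_kt h))
      (CfsgLib.LW54.homog_of_pretransitive hh1) (CfsgLib.LW54.homog_of_pretransitive hh) with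
    h | ⟨a, b, c⟩ | ⟨a, b, c⟩ | ⟨a, b, c⟩
  · exact Or.inl h
  · exact Or.inr (Or.inl ⟨a, by omega, c⟩)
  · exact Or.inr (Or.inr (Or.inl ⟨a, by omega, c⟩))
  · exact Or.inr (Or.inr (Or.inr ⟨a, by omega, c⟩))

end Cfsg.Agent.S0745
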