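import Cfsg.Statements.S0747
import Cfsg.Agent.LW54.Induct

set_option autoImplicit false
open scoped Pointwise
open Cfsg

namespace Cfsg.Agent.S0747


/-- In a `k`-transitive permutation group with `4 ≤ k < n`, some `(k+1)`-subset `Δ` has the property that every even permutation of `Δ` is induced by an element of the group stabilising `Δ`. -/
theorem result {α : Type*} [Fintype α] [DecidableEq α] (G : Subgroup (Equiv.Perm α)) {k : ℕ} (hk : 4 ≤ k) (hkn : k < Fintype.card α) (hG : MulAction.IsMultiplyPretransitive G α k) : ∃ Δ : Finset α, Δ.card = k + 1 ∧ ∀ σ : Equiv.Perm ↥Δ, σ ∈ alternatingGroup ↥Δ → ∃ g ∈ G, ∀ x : ↥Δ, g (x : α) = σ x := by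
  classical
  obtain ⟨Δ, hΔ, hgood⟩ := CfsgLib.LW54.exists_good hk (Fintype.card α) G rfl hkn
    (CfsgLib.LW54.kt_of_pretransitive hG hkn.le)
  refine ⟨Δ, hΔ, fun σ hσ => ?_⟩
  obtain ⟨g, hg⟩ := CfsgLib.LW54.alternating_le_of_good hgood hσ
  exact ⟨g, g.2, fun x => hg x⟩

end Cfsg.Agent.S0747
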