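import Cfsg.Statements.S0754
-- import your own Cfsg.Agent.* helpers here

set_option autoImplicit false
open Cfsg

namespace Cfsg.Agent.S0754

/-- In a field F with q^2 elements, every non-zero μ with μ^q = μ (that is, μ in the subfield of order q) has exactly q + 1 solutions λ of λ^(q+1) = μ. -/
theorem result {F : Type*} [Field F] [Fintype F] {q : ℕ} (hF : Fintype.card F = q ^ 2) (μ : F) (hμ : μ ≠ 0) (hμq : μ ^ q = μ) : Nat.card {x : F // x ^ (q + 1) = μ} = q + 1 := by
  classical
  have hq : 0 < q := by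
    rcases Nat.eq_zero_or_pos q with rfl | h
    · simp at hF
    · exact h
  have hc : Nat.card Fˣ = (q + 1) * (q - 1) := by
    rw [Nat.card_units, Nat.card_eq_fintype_card, hF, ← Nat.sq_sub_sq, one_pow]
  obtain ⟨g, hg⟩ := IsCyclic.exists_generator (α := Fˣ)
  have ho : orderOf g = (q + 1) * (q - 1) := by rw [orderOf_eq_card_of_forall_mem_zpowers hg, hc]
  set m : Fˣ := Units.mk0 μ hμ
  have hm : m ^ (q - 1) = 1 := by
    refine mul_right_cancel (b := m) ?_
    rw [← pow_succ, Nat.sub_add_cancel hq, one_mul]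
    exact Units.ext (by simpa [m] using hμq)
  obtain ⟨j, hj⟩ := mem_powers_iff_mem_zpowers.2 (hg m)
  simp only at hj
  rw [← hj, ← pow_mul, ← orderOf_dvd_iff_pow_eq_one, ho] at hm
  have hq2 : 0 < q - 1 := by
    have := Fintype.one_lt_card (α := F)
    rw [hF] at this
    rcases Nat.lt_or_ge 1 q with h | h
    · omega
    · interval_cases q; omega
  obtain ⟨i, rfl⟩ := Nat.dvd_of_mul_dvd_mul_right hq2 hm
  let f : Fˣ →* Fˣ := powMonoidHom (q + 1)
  have hker : Nat.card f.ker = q + 1 := by
    rw [IsCyclic.card_powMonoidHom_ker, hc, Nat.gcd_mul_right_left]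
  have hl : ((g ^ i : Fˣ) : F) ^ (q + 1) = μ := by
    have := congrArg Units.val hj
    rw [mul_comm (q + 1) i, pow_mul] at this
    simpa [m] using this
  set l : Fˣ := g ^ i
  refine (Nat.card_congr ?_).trans hker
  exact
    { toFun := fun x => ⟨(Units.mk0 x.1 (fun h => hμ (by rw [← x.2, h]; simp))) / l, by
        simp only [f, MonoidHom.mem_ker, powMonoidHom_apply, div_pow, div_eq_one]
        exact Units.ext (by simp [x.2, hl])⟩
      invFun := fun z => ⟨((z.1 * l : Fˣ) : F), by
        have hz : z.1 ^ (q + 1) = 1 := z.2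
        rw [Units.val_mul, mul_pow, ← Units.val_pow_eq_pow_val, hz, Units.val_one, one_mul, hl]⟩
      left_inv := fun x => by simp
      right_inv := fun z => by ext; simp }

end Cfsg.Agent.S0754
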