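import Cfsg.Statements.S0757
-- import your own Cfsg.Agent.* helpers here

set_option autoImplicit false
open Cfsg

namespace Cfsg.Agent.S0757

/-- The two diagonal forms Σ x_i^2 and Σ_(i<n) x_i^2 + α x_n^2 on F^(n+1), with α a non-square and 2 ≠ 0 in F, are inequivalent quadratic forms (so over a finite field of odd order there are exactly two classes of non-singular symmetric bilinear forms in each dimension). -/
theorem result {F : Type*} [Field F] (h2 : (2 : F) ≠ 0) (n : ℕ) (α : F) (hα : ¬ IsSquare α) : ¬ (QuadraticMap.weightedSumSquares F (fun _ : Fin (n + 1) => (1 : F))).Equivalent (QuadraticMap.weightedSumSquares F (fun i : Fin (n + 1) => if i = Fin.last n then α else (1 : F))) := by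
  classical
  rintro ⟨e⟩
  haveI : Invertible (2 : F) := invertibleOfNonzero h2
  set w : Fin (n + 1) → F := fun i => if i = Fin.last n then α else (1 : F) with hw
  have hd : ∀ v : Fin (n + 1) → F,
      QuadraticForm.discr' (QuadraticMap.weightedSumSquares F v) = ∏ i, v i := by
    intro v
    have : QuadraticForm.toMatrix' (QuadraticMap.weightedSumSquares F v) = Matrix.diagonal v := by
      ext i j
      simp only [QuadraticForm.toMatrix', LinearMap.toMatrix₂'_apply, QuadraticMap.associated_apply,
        QuadraticMap.weightedSumSquares_apply, smul_eq_mul, ← Finset.sum_sub_distrib]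
      rw [Finset.sum_eq_single i]
      · rcases eq_or_ne i j with rfl | hij
        · simp only [Pi.add_apply, Pi.single_eq_same, Matrix.diagonal_apply_eq, Module.End.smul_def,
            QuadraticMap.half_moduleEnd_apply_eq_half_smul, smul_eq_mul]
          rw [invOf_mul_eq_iff_eq_mul_left]
          ring
        · simp [hij]
      · intro b _ hb
        simp [hb]
      · simp
    rw [QuadraticForm.discr', this, Matrix.det_diagonal]
  have hcomp : QuadraticMap.weightedSumSquares F (fun _ : Fin (n + 1) => (1 : F)) =
      (QuadraticMap.weightedSumSquares F w).comp e.toLinearEquiv.toLinearMap := by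
    refine QuadraticMap.ext fun x => ?_
    exact (e.map_app x).symm
  have := congrArg QuadraticForm.discr' hcomp
  have hwp : ∏ i, w i = α := by simp [hw]
  rw [QuadraticForm.discr'_comp, hd, hd, Finset.prod_const_one, hwp] at this
  set c := (LinearMap.toMatrix' e.toLinearEquiv.toLinearMap).det
  have hc : c ≠ 0 := by intro h; simp [h] at this
  exact hα ⟨c⁻¹, by field_simp; linear_combination -this⟩

end Cfsg.Agent.S0757
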