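import Cfsg.Statements.S0758
-- import your own Cfsg.Agent.* helpers here

set_option autoImplicit false
open Cfsg

namespace Cfsg.Agent.S0758

/-- For a finite field F of odd order q and a non-square α: the form x² + y² is isotropic iff q ≡ 1 mod 4, and the form x² + α y² is isotropic iff q ≡ 3 mod 4. -/
theorem result {F : Type*} [Field F] [Fintype F] (h2 : (2 : F) ≠ 0) (α : F) (hα : ¬ IsSquare α) : ((∃ x y : F, (x ≠ 0 ∨ y ≠ 0) ∧ x ^ 2 + y ^ 2 = 0) ↔ Fintype.card F % 4 = 1) ∧ ((∃ x y : F, (x ≠ 0 ∨ y ≠ 0) ∧ x ^ 2 + α * y ^ 2 = 0) ↔ Fintype.card F % 4 = 3) := by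
  classical
  have hodd : Fintype.card F % 2 = 1 := by
    refine FiniteField.odd_card_of_char_ne_two fun h => h2 ?_
    haveI : CharP F 2 := ringChar.of_eq h
    exact CharTwo.two_eq_zero
  have h1 := FiniteField.isSquare_neg_one_iff (F := F)
  have hα0 : α ≠ 0 := fun h => hα (h ▸ IsSquare.zero)
  constructor
  · constructor
    · rintro ⟨x, y, hxy, he⟩
      have hy : y ≠ 0 := by
        rintro rfl
        simp_all
      have : IsSquare (-1 : F) := ⟨x / y, by field_simp; linear_combination -he⟩
      have := h1.1 this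
      omega
    · intro h
      obtain ⟨i, hi⟩ := h1.2 (by omega)
      exact ⟨1, i, Or.inl one_ne_zero, by linear_combination -hi⟩
  · constructor
    · rintro ⟨x, y, hxy, he⟩
      have hy : y ≠ 0 := by
        rintro rfl
        simp_all
      by_contra h
      obtain ⟨i, hi⟩ := h1.2 h
      have hi0 : i ≠ 0 := by rintro rfl; simp at hi
      exact hα ⟨x / y / i, by field_simp; linear_combination α * y ^ 2 * (-hi) - he⟩
    · intro h
      have hn : ¬ IsSquare (-1 : F) := fun hs => h1.1 hs h
      have hq : ringChar F ≠ 2 := fun hc => h2 (by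
        haveI : CharP F 2 := ringChar.of_eq hc
        exact CharTwo.two_eq_zero)
      rw [← quadraticChar_neg_one_iff_not_isSquare] at hn
      rw [← quadraticChar_neg_one_iff_not_isSquare] at hα
      have hp : quadraticChar F ((-1 : F) * α) = 1 := by rw [map_mul, hn, hα]; norm_num
      obtain ⟨i, hi⟩ := (quadraticChar_one_iff_isSquare (mul_ne_zero (neg_ne_zero.2 one_ne_zero) hα0)).1 hp
      exact ⟨i, 1, Or.inr one_ne_zero, by linear_combination -hi⟩

end Cfsg.Agent.S0758
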