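import Cfsg.Statements.S0759
import Cfsg.Agent.LinAlg.Witt.Forms

set_option autoImplicit false
open Cfsg

namespace Cfsg.Agent.S0759

/-- Type of the orthonormal form: over a finite field of odd order q and for m ≥ 1, the quadratic form Σ_(i<2m) x_i² on F^(2m) admits an m-dimensional subspace on which it vanishes identically if and only if it is not the case that q ≡ 3 (mod 4) and m is odd. -/
theorem result {F : Type*} [Field F] [Fintype F] (h2 : (2 : F) ≠ 0) (m : ℕ) (hm : 1 ≤ m) : (∃ W : Submodule F (Fin (2 * m) → F), Module.finrank F W = m ∧ ∀ w ∈ W, ∑ i, w i ^ 2 = 0) ↔ ¬ (Fintype.card F % 4 = 3 ∧ Odd m) := by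
  classical
  have hodd : Fintype.card F % 2 = 1 := by
    refine FiniteField.odd_card_of_char_ne_two fun h => h2 ?_
    haveI : CharP F 2 := ringChar.of_eq h
    exact CharTwo.two_eq_zero
  let e : Fin m ⊕ Fin m ≃ Fin (2 * m) := finSumFinEquiv.trans (finCongr (two_mul m).symm)
  let R : (Fin m ⊕ Fin m → F) ≃ₗ[F] (Fin (2 * m) → F) := LinearEquiv.funCongrLeft F F e.symm
  have hR : ∀ x, ∑ i, (R x) i ^ 2 = ∑ j, x j ^ 2 := fun x =>
    Fintype.sum_equiv e.symm _ _ fun i => rfl
  constructor
  · rintro ⟨W, hWm, hW⟩ ⟨h3, hmo⟩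
    set W' : Submodule F (Fin m ⊕ Fin m → F) := W.map (R.symm : (Fin (2 * m) → F) →ₗ[F] _) with hW'
    have hWm' : Module.finrank F W' = m := by rw [hW', LinearEquiv.finrank_map_eq, hWm]
    have hsq : ∀ w ∈ W', w ⬝ᵥ w = 0 := by
      rintro _ ⟨w, hw, rfl⟩
      have := hR (R.symm w)
      rw [R.apply_symm_apply, hW w hw] at this
      rw [dotProduct]
      calc ∑ j, (R.symm w) j * (R.symm w) j = ∑ j, (R.symm w) j ^ 2 :=
            Finset.sum_congr rfl fun j _ => by ring
        _ = 0 := this.symm
    have hpol : ∀ u ∈ W', ∀ v ∈ W', u ⬝ᵥ v = 0 := by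
      intro u hu v hv
      have h := hsq (u + v) (W'.add_mem hu hv)
      rw [add_dotProduct, dotProduct_add, dotProduct_add, hsq u hu, hsq v hv, dotProduct_comm v u] at h
      exact (mul_eq_zero.1 (by linear_combination h : (2 : F) * (u ⬝ᵥ v) = 0)).resolve_left h2
    obtain ⟨U, hU⟩ := Submodule.exists_isCompl W'
    have hUm : Module.finrank F U = m := by
      have := Submodule.finrank_add_eq_of_isCompl hU
      rw [Module.finrank_fintype_fun_eq_card, hWm', Fintype.card_sum, Fintype.card_fin] at this
      omega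
    let b : Module.Basis (Fin m ⊕ Fin m) F (Fin m ⊕ Fin m → F) :=
      (((Module.finBasisOfFinrankEq F W' hWm').prod (Module.finBasisOfFinrankEq F U hUm)).map
        (Submodule.prodEquivOfIsCompl W' U hU))
    have hbl : ∀ i, b (Sum.inl i) ∈ W' := fun i => by simp [b]
    let P : Matrix (Fin m ⊕ Fin m) (Fin m ⊕ Fin m) F := (Pi.basisFun F _).toMatrix b
    have hP : P.det ≠ 0 := by
      have h := (Pi.basisFun F (Fin m ⊕ Fin m)).toMatrix_mul_toMatrix_flip b
      exact left_ne_zero_of_mul (a := P.det) (by rw [← Matrix.det_mul, h, Matrix.det_one]; exact one_ne_zero)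
    set A : Matrix (Fin m) (Fin m) F := Matrix.of fun i j => b (Sum.inl i) ⬝ᵥ b (Sum.inr j)
    set C : Matrix (Fin m) (Fin m) F := Matrix.of fun i j => b (Sum.inr i) ⬝ᵥ b (Sum.inr j)
    have hG : P.transpose * P = Matrix.fromBlocks 0 A A.transpose C := by
      have : ∀ i j, (P.transpose * P) i j = b i ⬝ᵥ b j := fun i j => by
        simp [P, Matrix.mul_apply, dotProduct, Module.Basis.toMatrix_apply]
      refine Matrix.ext fun i j => ?_
      rcases i with i | i <;> rcases j with j | j <;> rw [this]
      · simp [hpol _ (hbl i) _ (hbl j)]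
      · rfl
      · exact dotProduct_comm _ _
      · rfl
    set S : Matrix (Fin m ⊕ Fin m) (Fin m ⊕ Fin m) F := Matrix.fromBlocks 0 1 1 0
    have hS : S.det = (-1) ^ m := by
      have h1 : S * Matrix.fromBlocks 1 0 1 1 = Matrix.fromBlocks 1 1 1 0 := by
        simp [S, Matrix.fromBlocks_multiply]
      have h2' := congrArg Matrix.det h1
      rw [Matrix.det_mul, Matrix.det_fromBlocks_zero₁₂, Matrix.det_fromBlocks_one₁₁, Matrix.det_one,
        one_mul, mul_one, mul_one, zero_sub, Matrix.det_neg, Matrix.det_one, mul_one, Fintype.card_fin] at h2'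
      exact h2'
    have h4 : Matrix.fromBlocks 0 A A.transpose C * S = Matrix.fromBlocks A 0 C A.transpose := by
      simp [S, Matrix.fromBlocks_multiply]
    have h5 := congrArg Matrix.det h4
    rw [← hG, Matrix.det_mul, Matrix.det_mul, Matrix.det_transpose, hS, hmo.neg_one_pow,
      Matrix.det_fromBlocks_zero₁₂, Matrix.det_transpose] at h5
    have hns : ¬ IsSquare (-1 : F) := fun h => (FiniteField.isSquare_neg_one_iff.1 h) h3
    exact hns ⟨A.det / P.det, by field_simp; linear_combination h5⟩
  · intro h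
    obtain ⟨M, hM⟩ : ∃ M : Matrix (Fin m) (Fin m) F, M.transpose * M = -1 := by
      by_cases hs : IsSquare (-1 : F)
      · obtain ⟨i, hi⟩ := hs
        exact ⟨i • (1 : Matrix (Fin m) (Fin m) F), by
          rw [Matrix.transpose_smul, Matrix.transpose_one, smul_mul_smul_comm, ← hi, one_mul, neg_smul, one_smul]⟩
      · have h3 : Fintype.card F % 4 = 3 := by
          by_contra h3
          exact hs (FiniteField.isSquare_neg_one_iff.2 h3)
        obtain ⟨k, hk⟩ : Even m := Nat.not_odd_iff_even.1 fun ho => h ⟨h3, ho⟩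
        obtain ⟨p, hp⟩ := CharP.exists F
        obtain ⟨a, b, hab⟩ := FiniteField.exists_root_sum_quadratic (R := F)
          (f := Polynomial.X ^ 2) (g := Polynomial.X ^ 2 - Polynomial.C (-1 : F))
          (Polynomial.degree_X_pow 2) (Polynomial.degree_X_pow_sub_C (by norm_num) _) hodd
        simp only [Polynomial.eval_pow, Polynomial.eval_X, Polynomial.eval_sub, Polynomial.eval_C] at hab
        let e' : Fin k ⊕ Fin k ≃ Fin m := finSumFinEquiv.trans (finCongr hk.symm)
        refine ⟨Matrix.reindex e' e' (Matrix.fromBlocks (a • (1 : Matrix (Fin k) (Fin k) F)) (b • (1 : Matrix (Fin k) (Fin k) F)) (b • (1 : Matrix (Fin k) (Fin k) F)) ((-a) • (1 : Matrix (Fin k) (Fin k) F))), ?_⟩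
        rw [Matrix.reindex_apply, Matrix.transpose_submatrix, Matrix.submatrix_mul_equiv,
          Matrix.fromBlocks_transpose, Matrix.fromBlocks_multiply]
        simp only [Matrix.transpose_smul, Matrix.transpose_one, smul_mul_smul_comm, one_mul, ← add_smul]
        rw [show a * a + b * b = -1 by linear_combination hab,
          show a * b + b * -a = 0 by ring, show b * a + -a * b = 0 by ring,
          show b * b + -a * -a = -1 by linear_combination hab, zero_smul]
        have : Matrix.fromBlocks ((-1 : F) • (1 : Matrix (Fin k) (Fin k) F)) (0 : Matrix (Fin k) (Fin k) F) (0 : Matrix (Fin k) (Fin k) F) ((-1 : F) • (1 : Matrix (Fin k) (Fin k) F)) = -1 := by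
          rw [← Matrix.fromBlocks_one, Matrix.fromBlocks_neg, neg_smul, one_smul, neg_zero]
        rw [this]
        ext i j
        simp [Matrix.one_apply]
    let L : (Fin m → F) →ₗ[F] (Fin (2 * m) → F) :=
      R.toLinearMap ∘ₗ
        { toFun := fun c => Sum.elim c (M.mulVec c)
          map_add' := fun c d => by funext i; rcases i with i | i <;> simp [Matrix.mulVec_add]
          map_smul' := fun a c => by funext i; rcases i with i | i <;> simp [Matrix.mulVec_smul] }
    have hL : Function.Injective L := by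
      intro c d hcd
      have h' := R.injective hcd
      funext i
      exact congrFun h' (Sum.inl i)
    refine ⟨LinearMap.range L, ?_, ?_⟩
    · rw [LinearMap.finrank_range_of_inj hL, Module.finrank_fintype_fun_eq_card, Fintype.card_fin]
    · rintro _ ⟨c, rfl⟩
      show ∑ i, R (Sum.elim c (M.mulVec c)) i ^ 2 = 0
      rw [hR, Fintype.sum_sum_type]
      simp only [Sum.elim_inl, Sum.elim_inr, sq]
      have : M.mulVec c ⬝ᵥ M.mulVec c = -(c ⬝ᵥ c) := by
        calc M.mulVec c ⬝ᵥ M.mulVec c = c ⬝ᵥ (M.transpose * M).mulVec c := by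
              rw [← Matrix.mulVec_mulVec, Matrix.dotProduct_mulVec c, Matrix.vecMul_transpose]
          _ = _ := by rw [hM, Matrix.neg_mulVec, Matrix.one_mulVec, dotProduct_neg]
      show c ⬝ᵥ c + M.mulVec c ⬝ᵥ M.mulVec c = 0
      rw [this, add_neg_cancel]

end Cfsg.Agent.S0759
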