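import Cfsg.Statements.S0760
-- import your own Cfsg.Agent.* helpers here

set_option autoImplicit false
open Cfsg

namespace Cfsg.Agent.S0760

/-- Witt index is well defined: if Q is a quadratic form on a finite-dimensional space V over a finite field with non-degenerate polar form, and W₁, W₂ are subspaces on which Q vanishes that are maximal with this property, then W₁ and W₂ have the same dimension, and twice this dimension is at most dim V. -/
theorem result {F V : Type*} [Field F] [Finite F] [AddCommGroup V] [Module F V] [FiniteDimensional F V] (Q : QuadraticForm F V) (hQ : (QuadraticMap.polarBilin Q).Nondegenerate) (W₁ W₂ : Submodule F V) (h₁ : ∀ w ∈ W₁, Q w = 0) (h₂ : ∀ w ∈ W₂, Q w = 0) (hmax₁ : ∀ W : Submodule F V, W₁ ≤ W → (∀ w ∈ W, Q w = 0) → W = W₁) (hmax₂ : ∀ W : Submodule F V, W₂ ≤ W → (∀ w ∈ W, Q w = 0) → W = W₂) : Module.finrank F W₁ = Module.finrank F W₂ ∧ 2 * Module.finrank F W₁ ≤ Module.finrank F V := by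
  classical
  set B := QuadraticMap.polarBilin Q with hB
  have hBxy : ∀ x y : V, B x y = Q (x + y) - Q x - Q y := fun x y => rfl
  have key : ∀ W W' : Submodule F V, (∀ w ∈ W, Q w = 0) → (∀ w ∈ W', Q w = 0) →
      (∀ U : Submodule F V, W' ≤ U → (∀ w ∈ U, Q w = 0) → U = W') →
      Module.finrank F W ≤ Module.finrank F W' := by
    intro W W' hW hW' hmax
    let f : W →ₗ[F] (W' →ₗ[F] F) := LinearMap.domRestrict₁₂ B W W'
    let g : W' →ₗ[F] (W →ₗ[F] F) := f.flip
    have hker : (LinearMap.ker f).map W.subtype ≤ W' := by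
      intro x hx
      obtain ⟨k, hk, rfl⟩ := Submodule.mem_map.1 hx
      have hs : ∀ u ∈ W' ⊔ (F ∙ (k : V)), Q u = 0 := by
        intro u hu
        obtain ⟨a, ha, b, hb, rfl⟩ := Submodule.mem_sup.1 hu
        obtain ⟨c, rfl⟩ := Submodule.mem_span_singleton.1 hb
        have h0 : B (k : V) a = 0 := congrArg (fun φ : W' →ₗ[F] F => φ ⟨a, ha⟩) (LinearMap.mem_ker.1 hk)
        have h0' : QuadraticMap.polar Q a (k : V) = 0 := by
          rw [QuadraticMap.polar_comm]; exact h0
        rw [QuadraticMap.map_add (f := ⇑Q), hW' a ha, QuadraticMap.map_smul, hW _ k.2,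
          QuadraticMap.polar_smul_right, h0']
        simp
      have := hmax _ le_sup_left hs
      exact this ▸ Submodule.mem_sup_right (Submodule.mem_span_singleton_self _)
    -- the left radical of the pairing lies in the right one
    have hle : (LinearMap.ker f).map W.subtype ≤ (LinearMap.ker g).map W'.subtype := by
      intro x hx
      have hx' := hker hx
      obtain ⟨k, hk, rfl⟩ := Submodule.mem_map.1 hx
      refine Submodule.mem_map.2 ⟨⟨k, hx'⟩, LinearMap.mem_ker.2 (LinearMap.ext fun u => ?_), rfl⟩
      show B (u : V) (k : V) = 0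
      rw [hBxy, hW _ u.2, hW _ k.2, hW _ (add_mem u.2 k.2)]
      simp
    have h1 := LinearMap.finrank_range_add_finrank_ker f
    have h2 := LinearMap.finrank_range_add_finrank_ker g
    have h3 := Submodule.finrank_mono hle
    rw [Submodule.finrank_map_subtype_eq, Submodule.finrank_map_subtype_eq] at h3
    have h4 : Module.finrank F (LinearMap.range f) ≤ Module.finrank F (LinearMap.range g) := by
      have e : f = g.dualMap ∘ₗ (Module.Dual.eval F W) := by
        ext u v; rfl
      rw [← g.finrank_range_dualMap_eq_finrank_range]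
      refine Submodule.finrank_mono ?_
      rw [e]
      exact LinearMap.range_comp_le_range _ _
    omega
  refine ⟨le_antisymm (key _ _ h₁ h₂ hmax₂) (key _ _ h₂ h₁ hmax₁), ?_⟩
  have hle : W₁ ≤ LinearMap.BilinForm.orthogonal B W₁ := by
    intro x hx
    rw [LinearMap.BilinForm.mem_orthogonal_iff]
    intro y hy
    show B y x = 0
    rw [hBxy, h₁ _ hy, h₁ _ hx, h₁ _ (add_mem hy hx)]
    simp
  have h5 := Submodule.finrank_mono hle
  rw [LinearMap.BilinForm.finrank_orthogonal hQ] at h5
  omega

end Cfsg.Agent.S0760
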