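import Cfsg.Statements.S0761
-- import your own Cfsg.Agent.* helpers here

set_option autoImplicit false
open Cfsg

namespace Cfsg.Agent.S0761

/-- Hyperbolic partners: let B be a non-degenerate bilinear form on a finite-dimensional space, either alternating, or symmetric with 2 ≠ 0. If Z is a subspace on which B vanishes, x ∉ Z is isotropic and orthogonal to Z, then there is an isotropic y with B x y = 1 which is orthogonal to Z. -/
theorem result {F V : Type*} [Field F] [AddCommGroup V] [Module F V] [FiniteDimensional F V] (B : LinearMap.BilinForm F V) (hB : B.Nondegenerate) (hform : B.IsAlt ∨ (B.IsSymm ∧ (2 : F) ≠ 0)) (x : V) (Z : Submodule F V) (hxZ : x ∉ Z) (hx : B x x = 0) (hxz : ∀ z ∈ Z, B x z = 0) (hZ : ∀ z ∈ Z, ∀ z' ∈ Z, B z z' = 0) : ∃ y : V, B y y = 0 ∧ B x y = 1 ∧ ∀ z ∈ Z, B z y = 0 := by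
  classical
  have hnx : ∀ z ∈ Z, B z x = 0 := by
    intro z hz
    rcases hform with h | h
    · rw [← LinearMap.IsAlt.neg h x z, hxz z hz, neg_zero]
    · rw [h.1.eq, hxz z hz]
  obtain ⟨φ, hφx, hφZ⟩ : ∃ φ : Module.Dual F V, φ x = 1 ∧ ∀ z ∈ Z, φ z = 0 := by
    obtain ⟨φ, hφ, hle⟩ := Submodule.exists_le_ker_of_notMem hxZ
    exact ⟨(φ x)⁻¹ • φ, by simp [hφ], fun z hz => by simp [LinearMap.mem_ker.1 (hle hz)]⟩
  obtain ⟨y0, hy0⟩ : ∃ y0, ∀ v, B v y0 = φ v := by
    refine ⟨((B.flip).toDual (LinearMap.BilinForm.nondegenerate_flip_iff.2 hB)).symm φ, fun v => ?_⟩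
    exact LinearMap.BilinForm.apply_toDual_symm_apply (B := B.flip) φ v
  rcases hform with h | ⟨h, h2⟩
  · exact ⟨y0, h.self_eq_zero y0, by rw [hy0, hφx], fun z hz => by rw [hy0, hφZ z hz]⟩
  · refine ⟨y0 - ((B y0 y0) / 2) • x, ?_, ?_, fun z hz => ?_⟩
    · have e1 : B y0 x = 1 := by rw [h.eq, hy0, hφx]
      simp only [map_sub, map_smul, LinearMap.sub_apply, LinearMap.smul_apply, smul_eq_mul,
        hy0 x, hφx, e1, hx]
      field_simp
      ring
    · simp [hy0, hφx, hx]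
    · simp [hy0, hφZ z hz, hnx z hz]

end Cfsg.Agent.S0761
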