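import Cfsg.Statements.S0762
-- import your own Cfsg.Agent.* helpers here

set_option autoImplicit false
open Cfsg

namespace Cfsg.Agent.S0762

/-- In characteristic two over a finite field, a quadratic form on a space of dimension at least 3 vanishes on some non-zero vector. -/
theorem result {F V : Type*} [Field F] [Finite F] [CharP F 2] [AddCommGroup V] [Module F V] [FiniteDimensional F V] (Q : QuadraticForm F V) (h3 : 3 ≤ Module.finrank F V) : ∃ v : V, v ≠ 0 ∧ Q v = 0 := by
  classical
  set B := QuadraticMap.polarBilin Q with hB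
  haveI : Nontrivial V := Module.nontrivial_of_finrank_pos (R := F) (by omega)
  obtain ⟨v, hv⟩ := exists_ne (0 : V)
  let K := LinearMap.ker (B v)
  have hr := Submodule.finrank_le (LinearMap.range (B v))
  rw [Module.finrank_self] at hr
  have hsum := LinearMap.finrank_range_add_finrank_ker (B v)
  have hKdim : 1 < Module.finrank F K := by show 1 < Module.finrank F (LinearMap.ker (B v)); omega
  have hsub : ¬ K ≤ F ∙ v := fun h => by
    have := Submodule.finrank_mono h
    rw [finrank_span_singleton hv] at this
    omega
  obtain ⟨w, hwK, hw⟩ := SetLike.not_le_iff_exists.1 hsub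
  have hpol : QuadraticMap.polar Q v w = 0 := by simpa [K, hB] using hwK
  by_cases hQv : Q v = 0
  · exact ⟨v, hv, hQv⟩
  obtain ⟨s, hs⟩ := FiniteField.isSquare_of_char_two (ringChar.eq F 2) (Q w / Q v)
  refine ⟨w + s • v, ?_, ?_⟩
  · intro h
    refine hw (Submodule.mem_span_singleton.2 ⟨-s, ?_⟩)
    rw [neg_smul]; exact (eq_neg_of_add_eq_zero_left h).symm
  · rw [QuadraticMap.map_add (f := ⇑Q), QuadraticMap.map_smul, QuadraticMap.polar_smul_right,
      QuadraticMap.polar_comm, hpol, ← hs, smul_eq_mul, smul_zero, add_zero, div_mul_cancel₀ _ hQv]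
    exact CharTwo.add_self_eq_zero _

end Cfsg.Agent.S0762
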