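import Cfsg.Statements.S0764
import Cfsg.Agent.LinAlg.RankOneMat
import Cfsg.Agent.LinAlg.Witt.Std
import Cfsg.Agent.Classical.SympFormStd

set_option autoImplicit false
open Cfsg

namespace Cfsg.Agent.S0764

/-- Symplectic transvections are isometries: for every vector v and scalar c the matrix of x ↦ x + c f(x, v) v lies in the symplectic group. -/
theorem result {F : Type*} [Field F] (m : ℕ) (v : Fin m ⊕ Fin m → F) (c : F) : Cfsg.sympTransvection m v c ∈ Matrix.symplecticGroup (Fin m) F := by
  rw [CfsgLib.LinAlg.Witt.mem_symplecticGroup_iff_preserves]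
  intro x y
  have hf := CfsgLib.SympFormStd.isSymplecticForm m F
  simp only [CfsgLib.LinAlg.RankOneMat.sympTransvection_mulVec, hf.bilinear.add_left,
    hf.bilinear.add_right, hf.bilinear.smul_left, hf.bilinear.smul_right, hf.alternating, hf.skew v y]
  ring

end Cfsg.Agent.S0764
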