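import Cfsg.Statements.S0767
import Cfsg.Agent.LinAlg.RankOneMat
import Cfsg.Agent.LinAlg.Witt.Std
import Cfsg.Agent.Classical.SympFormStd

set_option autoImplicit false
open Cfsg

namespace Cfsg.Agent.S0767

/-- The root group of a point: T_v(c) T_v(d) = T_v(c + d), and for A in the symplectic group with A v = a v, the conjugate A T_v(c) A⁻¹ is again some T_v(d). -/
theorem result {F : Type*} [Field F] (m : ℕ) (v : Fin m ⊕ Fin m → F) : (∀ c d : F, Cfsg.sympTransvection m v c * Cfsg.sympTransvection m v d = Cfsg.sympTransvection m v (c + d)) ∧ ∀ (A : Matrix (Fin m ⊕ Fin m) (Fin m ⊕ Fin m) F) (a : F), A ∈ Matrix.symplecticGroup (Fin m) F → A.mulVec v = a • v → ∀ c : F, ∃ d : F, A * Cfsg.sympTransvection m v c * A⁻¹ = Cfsg.sympTransvection m v d := by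
  have hf := CfsgLib.SympFormStd.isSymplecticForm m F
  refine ⟨fun c d => Matrix.ext_of_mulVec_single fun i => ?_, fun A a hA hv c => ?_⟩
  · rw [← Matrix.mulVec_mulVec]
    simp only [CfsgLib.LinAlg.RankOneMat.sympTransvection_mulVec, hf.bilinear.add_left,
      hf.bilinear.smul_left, hf.alternating]
    module
  · have hp := (CfsgLib.LinAlg.Witt.mem_symplecticGroup_iff_preserves m A).1 hA
    have hdet : IsUnit A.det := SymplecticGroup.symplectic_det hA
    refine ⟨c * (a * a), Matrix.ext_of_mulVec_single fun i => ?_⟩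
    generalize (Pi.single i 1 : Fin m ⊕ Fin m → F) = x
    rw [← Matrix.mulVec_mulVec, ← Matrix.mulVec_mulVec]
    set y := A⁻¹.mulVec x with hy
    have hxy : A.mulVec y = x := by
      rw [hy, Matrix.mulVec_mulVec, Matrix.mul_nonsing_inv _ hdet, Matrix.one_mulVec]
    have h1 : a * Cfsg.sympForm m F x v = Cfsg.sympForm m F y v := by
      rw [← hp y v, hxy, hv, hf.bilinear.smul_right]
    simp only [CfsgLib.LinAlg.RankOneMat.sympTransvection_mulVec, Matrix.mulVec_add,
      Matrix.mulVec_smul, hxy, hv, smul_smul, ← h1]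
    module

end Cfsg.Agent.S0767
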