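import Cfsg.Statements.S0768
import Cfsg.Agent.LinAlg.Witt.Mat
import Cfsg.Agent.Classical.SympFormStd

set_option autoImplicit false
open scoped LinearAlgebra.Projectivization
open Cfsg
open scoped Pointwise

namespace Cfsg.Agent.S0768

/-- Primitivity: for m ≥ 1 and F finite, the symplectic group of the form sympForm (as a subgroup of the general linear group) acts primitively on the projective space of F^(2m). -/
theorem result {F : Type*} [Field F] [Finite F] (m : ℕ) (hm : 1 ≤ m) : MulAction.IsPreprimitive ↥(Cfsg.spGL m F) (ℙ F (Fin m ⊕ Fin m → F)) := by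
  classical
  have hf := CfsgLib.SympFormStd.isSymplecticForm m F
  set f := Cfsg.sympForm m F with hfdef
  have hzero : ∀ {x y : Fin m ⊕ Fin m → F}, f x y = 0 → f y x = 0 := fun h =>
    CfsgLib.AltFormTransv.orth_comm hf h
  have mv : ∀ (g : ↥(Cfsg.spGL m F)) (v : Fin m ⊕ Fin m → F) (hv : v ≠ 0) (w : Fin m ⊕ Fin m → F)
      (hw : w ≠ 0), ((g : Matrix.GeneralLinearGroup (Fin m ⊕ Fin m) F) : Matrix _ _ F).mulVec v = w →
      g • Projectivization.mk F v hv = Projectivization.mk F w hw := by
    intro g v hv w hw h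
    rw [Subgroup.smul_def]
    erw [Projectivization.smul_mk]
    rw [Projectivization.mk_eq_mk_iff']
    exact ⟨1, by rw [one_smul, ← h]; rfl⟩
  have fam : ∀ {κ : Type} [Fintype κ] {a b : κ → Fin m ⊕ Fin m → F}, LinearIndependent F a →
      LinearIndependent F b → (∀ i j, f (a i) (a j) = f (b i) (b j)) →
      ∃ g : ↥(Cfsg.spGL m F), ∀ i,
        ((g : Matrix.GeneralLinearGroup (Fin m ⊕ Fin m) F) : Matrix _ _ F).mulVec (a i) = b i := by
    intro κ _ a b ha hb hab
    obtain ⟨g, hg, hga⟩ := CfsgLib.LinAlg.Witt.exists_symplectic_family hf ha hb hab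
    exact ⟨⟨g, hg⟩, hga⟩
  have trans : ∀ {v w : Fin m ⊕ Fin m → F} (hv : v ≠ 0) (hw : w ≠ 0),
      ∃ g : ↥(Cfsg.spGL m F), g • Projectivization.mk F v hv = Projectivization.mk F w hw := by
    intro v w hv hw
    obtain ⟨g, hg⟩ := fam (a := ![v]) (b := ![w]) (by simpa using hv) (by simpa using hw)
      (fun i j => by simp [Fin.eq_zero i, Fin.eq_zero j, hf.alternating])
    exact ⟨g, mv g v hv w hw (hg 0)⟩
  haveI : MulAction.IsPretransitive ↥(Cfsg.spGL m F) (ℙ F (Fin m ⊕ Fin m → F)) := by
    refine ⟨fun x y => ?_⟩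
    induction x using Projectivization.ind with
    | h v hv =>
      induction y using Projectivization.ind with
      | h w hw => exact trans hv hw
  refine { toIsPretransitive := inferInstance, isTrivialBlock_of_isBlock := fun {Bk} hBk => ?_ }
  by_cases hs : Bk.Subsingleton
  · exact Or.inl hs
  rw [Set.not_subsingleton_iff] at hs
  obtain ⟨p, hp, p', hp', hpp'⟩ := hs
  refine Or.inr (Set.eq_univ_iff_forall.2 ?_)
  induction p using Projectivization.ind with
  | h u hu =>
  induction p' using Projectivization.ind with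
  | h v hv =>
  have hind : ∀ {x y : Fin m ⊕ Fin m → F} (hx : x ≠ 0) (hy : y ≠ 0),
      Projectivization.mk F x hx ≠ Projectivization.mk F y hy → LinearIndependent F ![x, y] := by
    intro x y hx hy h
    rw [LinearIndependent.pair_iff' hx]
    intro a ha
    exact h ((Projectivization.mk_eq_mk_iff' F x y hx hy).2 ⟨a⁻¹, by
      have ha0 : a ≠ 0 := fun h0 => hy (by rw [← ha, h0, zero_smul])
      rw [← ha, smul_smul, inv_mul_cancel₀ ha0, one_smul]⟩)
  have nonorth_ind : ∀ {x y : Fin m ⊕ Fin m → F}, f x y ≠ 0 → LinearIndependent F ![x, y] := by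
    intro x y h
    have hx : x ≠ 0 := fun h0 => h (by rw [h0]; exact CfsgLib.AltFormTransv.zero_left hf y)
    rw [LinearIndependent.pair_iff' hx]
    intro a ha
    rw [← ha, hf.bilinear.smul_right, hf.alternating, mul_zero] at h
    exact h rfl
  -- a point of the block moves the block partners of a fixed point
  have move : ∀ {x y z : Fin m ⊕ Fin m → F} (hx : x ≠ 0) (hy : y ≠ 0) (hz : z ≠ 0),
      Projectivization.mk F x hx ∈ Bk → Projectivization.mk F y hy ∈ Bk →
      LinearIndependent F ![x, y] → LinearIndependent F ![x, z] → f x y = f x z →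
      Projectivization.mk F z hz ∈ Bk := by
    intro x y z hx hy hz hxB hyB h1 h2 h3
    obtain ⟨g, hg⟩ := fam h1 h2 (fun i j => by
      fin_cases i <;> fin_cases j <;> simp [hf.alternating, h3, hf.skew y x, hf.skew z x])
    have hgB : g • Bk = Bk :=
      hBk.smul_eq_of_mem hxB (by rw [mv g x hx x hx (hg 0)]; exact hxB)
    rw [← hgB, ← mv g y hy z hz (hg 1)]
    exact Set.smul_mem_smul_set hyB
  have nonorth : ∀ {x y z : Fin m ⊕ Fin m → F} (hx : x ≠ 0) (hy : y ≠ 0) (hz : z ≠ 0),
      Projectivization.mk F x hx ∈ Bk → Projectivization.mk F y hy ∈ Bk →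
      f x y ≠ 0 → f x z ≠ 0 → Projectivization.mk F z hz ∈ Bk := by
    intro x y z hx hy hz hxB hyB h1 h2
    have hc : (f x y / f x z) ≠ 0 := div_ne_zero h1 h2
    have hz' : (f x y / f x z) • z ≠ 0 := smul_ne_zero hc hz
    have h3 : f x ((f x y / f x z) • z) = f x y := by
      rw [hf.bilinear.smul_right, div_mul_cancel₀ _ h2]
    have := move hx hy hz' hxB hyB (nonorth_ind h1) (nonorth_ind (by rw [h3]; exact h1)) h3.symm
    rwa [(Projectivization.mk_eq_mk_iff' F _ z hz' hz).2 ⟨_, rfl⟩] at this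
  obtain ⟨x, y, hx, hy, hxB, hyB, hxy⟩ : ∃ (x y : Fin m ⊕ Fin m → F) (hx : x ≠ 0) (hy : y ≠ 0),
      Projectivization.mk F x hx ∈ Bk ∧ Projectivization.mk F y hy ∈ Bk ∧ f x y ≠ 0 := by
    by_cases h : f u v = 0
    · have hli := hind hu hv hpp'
      have hu_not : u ∉ Submodule.span F {v} := by
        intro hu'
        obtain ⟨a, ha⟩ := Submodule.mem_span_singleton.1 hu'
        have := (LinearIndependent.pair_iff.1 hli) 1 (-a) (by rw [neg_smul, ha, one_smul, add_neg_cancel])
        exact one_ne_zero this.1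
      obtain ⟨c, hcv, hcu⟩ := CfsgLib.AltFormTransv.exists_sep hf hu_not
      have hc0 : c ≠ 0 := fun h0 => one_ne_zero (hcu.symm.trans (by rw [h0]; exact CfsgLib.AltFormTransv.zero_left hf u))
      have hvc : LinearIndependent F ![v, c] := by
        rw [LinearIndependent.pair_iff' hv]
        intro a ha
        rw [← ha, hf.bilinear.smul_left, hzero h, mul_zero] at hcu
        exact zero_ne_one hcu
      have hcB := move hv hu hc0 hp' hp
        (hind hv hu (Ne.symm hpp')) hvc (by rw [hzero h, hzero hcv])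
      exact ⟨u, c, hu, hc0, hp, hcB, fun h0 => one_ne_zero (hcu.symm.trans (hzero h0))⟩
    · exact ⟨u, v, hu, hv, hp, hp', h⟩
  intro q
  induction q using Projectivization.ind with
  | h w hw =>
  obtain ⟨z, hz1, hz2⟩ := CfsgLib.AltFormTransv.exists_common_nonorth hf hx hw
  have hz0 : z ≠ 0 := fun h0 => hz1 (by rw [h0]; exact CfsgLib.AltFormTransv.zero_right hf x)
  have hzB := nonorth hx hy hz0 hxB hyB hxy hz1
  exact nonorth hz0 hx hw hzB hxB (fun h => hz1 (hzero h)) (fun h => hz2 (hzero h))

end Cfsg.Agent.S0768
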