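import Cfsg.Statements.S0769


set_option autoImplicit false
open Cfsg

namespace Cfsg.Agent.S0769

/-- Order of the Borel subgroup of GL_n(q): the invertible lower-triangular n × n matrices over a field with q elements number q^(n(n-1)/2) (q-1)^n (unitriangular part times the diagonal torus). -/
theorem result {F : Type*} [Field F] [Fintype F] {q : ℕ} (hF : Fintype.card F = q) (n : ℕ) : Nat.card {g : Matrix.GeneralLinearGroup (Fin n) F // ∀ i j : Fin n, i < j → (g : Matrix (Fin n) (Fin n) F) i j = 0} = q ^ (n * (n - 1) / 2) * (q - 1) ^ n := by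
  classical
  let P := {p : Fin n × Fin n // p.2 < p.1}
  have hdet : ∀ M : Matrix (Fin n) (Fin n) F, (∀ i j : Fin n, i < j → M i j = 0) →
      M.det = ∏ i, M i i := fun M h => Matrix.det_of_isLowerTriangular _ fun i j hij => h i j hij
  have e : {g : Matrix.GeneralLinearGroup (Fin n) F // ∀ i j : Fin n, i < j → (g : Matrix (Fin n) (Fin n) F) i j = 0}
      ≃ (Fin n → {x : F // x ≠ 0}) × (P → F) :=
    { toFun := fun g => (fun i => ⟨(g.1 : Matrix (Fin n) (Fin n) F) i i, fun h => by
          have hu : ((g.1 : Matrix (Fin n) (Fin n) F)).det ≠ 0 :=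
            (Matrix.isUnits_det_units g.1).ne_zero
          rw [hdet _ g.2] at hu
          exact hu (Finset.prod_eq_zero (Finset.mem_univ i) h)⟩,
        fun p => (g.1 : Matrix (Fin n) (Fin n) F) p.1.1 p.1.2)
      invFun := fun d => ⟨Matrix.GeneralLinearGroup.mkOfDetNeZero
          (Matrix.of fun i j => if i = j then (d.1 i).1 else if h : j < i then d.2 ⟨(i, j), h⟩ else 0)
          (by
            rw [hdet _ fun i j hij => by simp [hij.ne, hij.le.not_gt]]
            exact Finset.prod_ne_zero_iff.2 fun i _ => by simpa using (d.1 i).2),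
        fun i j hij => by simp [Matrix.GeneralLinearGroup.mkOfDetNeZero, hij.ne, hij.le.not_gt]⟩
      left_inv := fun g => by
        refine Subtype.ext (Units.ext (Matrix.ext fun i j => ?_))
        rcases lt_trichotomy i j with h | rfl | h
        · simp [Matrix.GeneralLinearGroup.mkOfDetNeZero, h.ne, h.le.not_gt, g.2 i j h]
        · simp [Matrix.GeneralLinearGroup.mkOfDetNeZero]
        · simp [Matrix.GeneralLinearGroup.mkOfDetNeZero, h.ne', h]
      right_inv := fun d => by
        refine Prod.ext (funext fun i => Subtype.ext ?_) (funext fun p => ?_)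
        · simp [Matrix.GeneralLinearGroup.mkOfDetNeZero]
        · simp [Matrix.GeneralLinearGroup.mkOfDetNeZero, p.2.ne', p.2] }
  have hP : Nat.card P = n * (n - 1) / 2 := by
    have e' : P ≃ (i : Fin n) × Fin (i : ℕ) :=
      { toFun := fun p => ⟨p.1.1, ⟨(p.1.2 : ℕ), p.2⟩⟩
        invFun := fun s => ⟨(s.1, ⟨s.2, s.2.2.trans s.1.2⟩), s.2.2⟩
        left_inv := fun p => rfl
        right_inv := fun s => rfl }
    rw [Nat.card_congr e', Nat.card_sigma]
    simp only [Nat.card_fin]
    rw [Fin.sum_univ_eq_sum_range (fun i => i), Finset.sum_range_id]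
  rw [Nat.card_congr e, Nat.card_prod, Nat.card_fun, Nat.card_fun, Nat.card_fin, hP,
    Nat.card_eq_fintype_card (α := F), hF, mul_comm]
  congr 2
  rw [Nat.card_congr (unitsEquivNeZero (G₀ := F)).symm, Nat.card_units, Nat.card_eq_fintype_card, hF]

end Cfsg.Agent.S0769
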