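import Cfsg.Statements.S0770


set_option autoImplicit false
open Cfsg

namespace Cfsg.Agent.S0770

/-- For a field with at least 3 elements, an invertible matrix normalises the subgroup of invertible diagonal matrices of GL_n if and only if it is monomial (exactly one non-zero entry in each row). -/
theorem result {F : Type*} [Field F] (hF : ∃ a : F, a ≠ 0 ∧ a ≠ 1) (n : ℕ) (g : Matrix.GeneralLinearGroup (Fin n) F) : g ∈ Subgroup.normalizer ((Units.map (Matrix.diagonalRingHom (Fin n) F).toMonoidHom).range : Subgroup (Matrix.GeneralLinearGroup (Fin n) F)) ↔ ∀ i : Fin n, ∃! j : Fin n, (g : Matrix (Fin n) (Fin n) F) i j ≠ 0 := by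
  classical
  obtain ⟨a, ha0, ha1⟩ := hF
  set D := ((Units.map (Matrix.diagonalRingHom (Fin n) F).toMonoidHom).range :
    Subgroup (Matrix.GeneralLinearGroup (Fin n) F))
  let dg : (Fin n → Fˣ) → Matrix.GeneralLinearGroup (Fin n) F := fun d =>
    Units.map (Matrix.diagonalRingHom (Fin n) F).toMonoidHom (MulEquiv.piUnits.symm d)
  have hdg : ∀ d, dg d ∈ D := fun d => ⟨_, rfl⟩
  have hD : ∀ h ∈ D, ∃ d, dg d = h := by
    rintro _ ⟨u, rfl⟩
    exact ⟨MulEquiv.piUnits u, by simp [dg]⟩
  have hval : ∀ d, ((dg d : Matrix.GeneralLinearGroup (Fin n) F) : Matrix (Fin n) (Fin n) F) = Matrix.diagonal fun i => (d i : F) :=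
    fun d => rfl
  set M : Matrix (Fin n) (Fin n) F := (g : Matrix (Fin n) (Fin n) F) with hM
  have hdet : M.det ≠ 0 := (Matrix.isUnits_det_units g).ne_zero
  -- `g d g⁻¹ = d'` is an entrywise condition
  have hrel : ∀ d d', g * dg d * g⁻¹ = dg d' ↔ ∀ i j, M i j * (d j : F) = (d' i : F) * M i j := by
    intro d d'
    rw [mul_inv_eq_iff_eq_mul, Units.ext_iff, Units.val_mul, Units.val_mul, hval, hval,
      ← Matrix.ext_iff]
    simp only [Matrix.mul_diagonal, Matrix.diagonal_mul]
    exact Iff.rfl
  rw [Subgroup.mem_normalizer_iff]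
  constructor
  · intro hN i
    obtain ⟨j, hj⟩ : ∃ j, M i j ≠ 0 := by
      by_contra h
      push Not at h
      exact hdet (Matrix.det_eq_zero_of_row_eq_zero i h)
    refine ⟨j, hj, fun l hl => ?_⟩
    by_contra hlj
    obtain ⟨d', hd'⟩ := hD _ ((hN (dg (Pi.mulSingle j (Units.mk0 a ha0)))).1 (hdg _))
    have h1 := (hrel _ _).1 hd'.symm i j
    have h2 := (hrel _ _).1 hd'.symm i l
    rw [Pi.mulSingle_eq_same, Units.val_mk0, mul_comm] at h1
    rw [Pi.mulSingle_eq_of_ne hlj, Units.val_one, mul_one] at h2
    have e1 : a = (d' i : F) := mul_right_cancel₀ hj h1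
    have e2 : (d' i : F) = 1 := mul_right_cancel₀ hl (by rw [one_mul]; exact h2.symm)
    exact ha1 (e1.trans e2)
  · intro h
    choose p hp hp' using h
    have hz : ∀ i j, j ≠ p i → M i j = 0 := fun i j hne => by
      by_contra hc
      exact hne (hp' i j hc)
    have hsurj : Function.Surjective p := by
      intro j
      by_contra hc
      push Not at hc
      exact hdet (Matrix.det_eq_zero_of_column_eq_zero j fun i => hz i j (fun h => hc i h.symm))
    set π := Equiv.ofBijective p ⟨Finite.injective_iff_surjective.2 hsurj, hsurj⟩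
    have key : ∀ d, g * dg d * g⁻¹ = dg (d ∘ π) := by
      intro d
      refine (hrel _ _).2 fun i j => ?_
      by_cases hj : j = p i
      · subst hj; exact mul_comm _ _
      · rw [hz i j hj, mul_zero, zero_mul]
    intro x
    constructor
    · intro hx
      obtain ⟨d, rfl⟩ := hD x hx
      rw [key]; exact hdg _
    · intro hx
      obtain ⟨d, hd⟩ := hD _ hx
      have := key (d ∘ π.symm)
      rw [Function.comp_assoc, Equiv.symm_comp_self, Function.comp_id, hd] at this
      exact (mul_left_cancel (mul_right_cancel this)) ▸ hdg _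

end Cfsg.Agent.S0770
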