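import Cfsg.Statements.S0771
import Cfsg.Agent.Classical.FlagStab

set_option autoImplicit false
open Cfsg

namespace Cfsg.Agent.S0771

/-- Maximal parabolic of GL_n(q): the stabiliser of the coordinate subspace spanned by the first k basis vectors has order q^(k(n-k)) · |GL_k(q)| · |GL_(n-k)(q)| (unipotent radical of order q^(k(n-k)) and Levi complement GL_k × GL_(n-k)). -/
theorem result {F : Type*} [Field F] [Fintype F] {q : ℕ} (hF : Fintype.card F = q) (n k : ℕ) (hk : k ≤ n) : Nat.card ↥(Cfsg.stabilizing (Cfsg.glToMat (Fin n) F) {v : Fin n → F | ∀ i : Fin n, k ≤ (i : ℕ) → v i = 0}) = q ^ (k * (n - k)) * (∏ i : Fin k, (q ^ k - q ^ (i : ℕ))) * ∏ i : Fin (n - k), (q ^ (n - k) - q ^ (i : ℕ)) := by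
  classical
  obtain ⟨l, rfl⟩ := Nat.exists_eq_add_of_le hk
  rw [Nat.add_sub_cancel_left]
  let e : Fin k ⊕ Fin l ≃ Fin (k + l) := finSumFinEquiv
  have hel : ∀ i, ((e (Sum.inl i)) : ℕ) < k := fun i => by simp [e]
  have her : ∀ i, k ≤ ((e (Sum.inr i)) : ℕ) := fun i => by simp [e]
  have hdet : ∀ (A : Matrix.GeneralLinearGroup (Fin k) F) (B : Matrix (Fin k) (Fin l) F)
      (D : Matrix.GeneralLinearGroup (Fin l) F),
      (Matrix.reindex e e (Matrix.fromBlocks (A : Matrix (Fin k) (Fin k) F) B 0 (D : Matrix (Fin l) (Fin l) F))).det ≠ 0 := by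
    intro A B D
    rw [Matrix.det_reindex_self, Matrix.det_fromBlocks_zero₂₁]
    exact mul_ne_zero (Matrix.isUnits_det_units A).ne_zero (Matrix.isUnits_det_units D).ne_zero
  have key : ↥(Cfsg.stabilizing (Cfsg.glToMat (Fin (k + l)) F) {v : Fin (k + l) → F | ∀ i : Fin (k + l), k ≤ (i : ℕ) → v i = 0})
      ≃ (Matrix.GeneralLinearGroup (Fin k) F × Matrix.GeneralLinearGroup (Fin l) F) × Matrix (Fin k) (Fin l) F := by
    let blk : ↥(Cfsg.stabilizing (Cfsg.glToMat (Fin (k + l)) F) {v : Fin (k + l) → F | ∀ i : Fin (k + l), k ≤ (i : ℕ) → v i = 0}) →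
        Matrix (Fin k ⊕ Fin l) (Fin k ⊕ Fin l) F :=
      fun g => Matrix.reindex e.symm e.symm ((g : Matrix.GeneralLinearGroup (Fin (k + l)) F) : Matrix (Fin (k + l)) (Fin (k + l)) F)
    have h21 : ∀ g, (blk g).toBlocks₂₁ = 0 := fun g => by
      ext i j
      exact CfsgLib.Classical.FlagStab.mem_stab_iff.1 g.2 _ _ (her i) (hel j)
    have hblk : ∀ g, blk g = Matrix.fromBlocks (blk g).toBlocks₁₁ (blk g).toBlocks₁₂ 0 (blk g).toBlocks₂₂ := fun g => by
      rw [← h21 g, Matrix.fromBlocks_toBlocks]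
    have hd : ∀ g, (blk g).toBlocks₁₁.det ≠ 0 ∧ (blk g).toBlocks₂₂.det ≠ 0 := by
      intro g
      have hu : (blk g).det ≠ 0 := by
        rw [Matrix.det_reindex_self]
        exact (Matrix.isUnits_det_units (g : Matrix.GeneralLinearGroup (Fin (k + l)) F)).ne_zero
      rw [hblk g, Matrix.det_fromBlocks_zero₂₁] at hu
      exact ⟨left_ne_zero_of_mul hu, right_ne_zero_of_mul hu⟩
    exact
    { toFun := fun g => ((Matrix.GeneralLinearGroup.mkOfDetNeZero _ (hd g).1,
          Matrix.GeneralLinearGroup.mkOfDetNeZero _ (hd g).2), (blk g).toBlocks₁₂)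
      invFun := fun p => ⟨Matrix.GeneralLinearGroup.mkOfDetNeZero _ (hdet p.1.1 p.2 p.1.2), by
        rw [CfsgLib.Classical.FlagStab.mem_stab_iff]
        intro i j hi hj
        obtain ⟨i', rfl⟩ := e.surjective i
        obtain ⟨j', rfl⟩ := e.surjective j
        rcases i' with i' | i'
        · exact absurd (hel i') (by omega)
        rcases j' with j' | j'
        · simp [Matrix.GeneralLinearGroup.mkOfDetNeZero]
        · exact absurd (her j') (by omega)⟩
      left_inv := fun g => by
        refine Subtype.ext (Units.ext ?_)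
        show Matrix.reindex e e (Matrix.fromBlocks (blk g).toBlocks₁₁ (blk g).toBlocks₁₂ 0 (blk g).toBlocks₂₂) = _
        rw [← hblk g]
        ext i j
        simp [blk]
      right_inv := fun p => by
        have h : ∀ (M : Matrix (Fin k ⊕ Fin l) (Fin k ⊕ Fin l) F),
            Matrix.reindex e.symm e.symm (Matrix.reindex e e M) = M := fun M => by ext i j; simp
        refine Prod.ext (Prod.ext (Units.ext ?_) (Units.ext ?_)) ?_
        · show (Matrix.reindex e.symm e.symm (Matrix.reindex e e _)).toBlocks₁₁ = _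
          rw [h, Matrix.toBlocks_fromBlocks₁₁]
        · show (Matrix.reindex e.symm e.symm (Matrix.reindex e e _)).toBlocks₂₂ = _
          rw [h, Matrix.toBlocks_fromBlocks₂₂]
        · show (Matrix.reindex e.symm e.symm (Matrix.reindex e e _)).toBlocks₁₂ = _
          rw [h, Matrix.toBlocks_fromBlocks₁₂] }
  rw [Nat.card_congr key, Nat.card_prod, Nat.card_prod, Matrix.card_GL_field, Matrix.card_GL_field, hF]
  have : Nat.card (Matrix (Fin k) (Fin l) F) = q ^ (k * l) := by
    show Nat.card (Fin k → Fin l → F) = _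
    rw [Nat.card_fun, Nat.card_fun, Nat.card_fin, Nat.card_fin, Nat.card_eq_fintype_card (α := F), hF, ← pow_mul, mul_comm]
  rw [this]
  ring

end Cfsg.Agent.S0771
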