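import Cfsg.Statements.S0772
import Cfsg.Agent.Classical.Linear.Parabolic
import Cfsg.Agent.Eq.Def_ClassicalGeometry
-- import your own Cfsg.Agent.* helpers here

set_option autoImplicit false
open Cfsg

namespace Cfsg.Agent.S0772

/-- Maximal parabolics are maximal: over a finite field, for 0 < k < n the stabiliser in GL_n of the span of the first k coordinate vectors is a maximal proper subgroup. -/
theorem result {F : Type*} [Field F] [Finite F] (n k : ℕ) (hk0 : 0 < k) (hkn : k < n) : IsCoatom (Cfsg.stabilizing (Cfsg.glToMat (Fin n) F) {v : Fin n → F | ∀ i : Fin n, k ≤ (i : ℕ) → v i = 0}) := by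
  classical
  let W : Submodule F (Fin n → F) :=
    { carrier := {v | ∀ i : Fin n, k ≤ (i : ℕ) → v i = 0}
      add_mem' := fun ha hb i hi => by simp [ha i hi, hb i hi]
      zero_mem' := fun i _ => rfl
      smul_mem' := fun c x hx i hi => by simp [hx i hi] }
  let i0 : Fin n := ⟨0, by omega⟩
  let ik : Fin n := ⟨k, hkn⟩
  have hne : i0 ≠ ik := fun h => by simp [i0, ik] at h; omega
  have he0 : Pi.single i0 (1 : F) ∈ W := fun i hi => Pi.single_eq_of_ne
    (fun h => by subst h; simp [i0] at hi; omega) _
  have hW0 : W ≠ ⊥ := (Submodule.ne_bot_iff _).2 ⟨_, he0, by simp⟩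
  refine ⟨fun htop => ?_, fun M hM => ?_⟩
  · let t : GL (Fin n) F := Matrix.GeneralLinearGroup.mkOfDetNeZero
      (Matrix.transvection ik i0 1) (by rw [Matrix.det_transvection_of_ne _ _ hne.symm]; simp)
    have ht : ∀ v : Fin n → F, v ∈ W ↔ (t : Matrix (Fin n) (Fin n) F).mulVec v ∈ W := by
      have := (Subgroup.eq_top_iff' _).1 htop t
      exact this
    have h1 := (ht _).1 he0 ik le_rfl
    simp [t, Matrix.transvection, Matrix.add_mulVec, Matrix.mulVec_single, hne.symm] at h1
  · obtain ⟨g, hgM, hg⟩ := SetLike.exists_of_lt hM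
    have hSL := CfsgLib.Classical.Linear.specialLinear_le_of_stabilizer_le W hW0 M
      (fun x hx => hM.le hx.1) hgM hg
    refine (Subgroup.eq_top_iff' _).2 fun x => ?_
    set c := (x : Matrix (Fin n) (Fin n) F).det with hc
    have hc0 : c ≠ 0 := (Matrix.isUnit_iff_isUnit_det _).1 x.isUnit |>.ne_zero
    let w : Fin n → F := Function.update 1 i0 c
    have hw : ∀ i, w i ≠ 0 := fun i => by
      simp only [w, Function.update_apply]
      split <;> simp [hc0]
    let d : GL (Fin n) F := Matrix.GeneralLinearGroup.mkOfDetNeZero (Matrix.diagonal w)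
      (by rw [Matrix.det_diagonal]; exact Finset.prod_ne_zero_iff.2 fun i _ => hw i)
    have hd : d ∈ M := hM.le fun v => by
      refine forall_congr' fun i => imp_congr_right fun _ => ?_
      simp [d, Matrix.mulVec_diagonal, hw i]
    have hdc : (d : Matrix (Fin n) (Fin n) F).det = c := by
      simp [d, w, Finset.prod_update_of_mem]
    rw [← inv_mul_cancel_right x d]
    refine M.mul_mem (hSL ?_) hd
    rw [Cfsg.Geo.specialLinear, MonoidHom.mem_ker, Units.ext_iff,
      Matrix.GeneralLinearGroup.val_det_apply, Units.val_mul, Units.val_one, Matrix.det_mul, Matrix.coe_units_inv,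
      Matrix.det_nonsing_inv, hdc, ← hc, Ring.inverse_eq_inv', mul_inv_cancel₀ hc0]

end Cfsg.Agent.S0772
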