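import Cfsg.Statements.S0773
import Cfsg.Agent.Classical.FlagStab

set_option autoImplicit false
open Cfsg

namespace Cfsg.Agent.S0773

/-- The stabilisers in GL_n(F), F finite, of the coordinate subspaces of dimensions k and n − k are isomorphic groups, but when 2k ≠ n (and 0 < k < n) no element of GL_n conjugates one onto the other. -/
theorem result {F : Type*} [Field F] [Finite F] (n k : ℕ) (hk0 : 0 < k) (hkn : k < n) (h2 : 2 * k ≠ n) : Nonempty (↥(Cfsg.stabilizing (Cfsg.glToMat (Fin n) F) {v : Fin n → F | ∀ i : Fin n, k ≤ (i : ℕ) → v i = 0}) ≃* ↥(Cfsg.stabilizing (Cfsg.glToMat (Fin n) F) {v : Fin n → F | ∀ i : Fin n, n - k ≤ (i : ℕ) → v i = 0})) ∧ ∀ g : Matrix.GeneralLinearGroup (Fin n) F, (Cfsg.stabilizing (Cfsg.glToMat (Fin n) F) {v : Fin n → F | ∀ i : Fin n, k ≤ (i : ℕ) → v i = 0}).map (MulAut.conj g).toMonoidHom ≠ Cfsg.stabilizing (Cfsg.glToMat (Fin n) F) {v : Fin n → F | ∀ i : Fin n, n - k ≤ (i : ℕ) → v i = 0} := by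
  classical
  open CfsgLib.Classical.FlagStab in
  refine ⟨?_, fun g hg => ?_⟩
  · -- inverse transpose followed by reversal of the coordinates
    let r : Fin n ≃ Fin n := Fin.revPerm
    let θ : Matrix.GeneralLinearGroup (Fin n) F → Matrix.GeneralLinearGroup (Fin n) F := fun g =>
      ⟨((g⁻¹ : Matrix.GeneralLinearGroup (Fin n) F) : Matrix (Fin n) (Fin n) F).transpose.submatrix r r,
        (g : Matrix (Fin n) (Fin n) F).transpose.submatrix r r,
        by rw [Matrix.submatrix_mul_equiv, ← Matrix.transpose_mul, ← Units.val_mul, mul_inv_cancel,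
          Units.val_one, Matrix.transpose_one, Matrix.submatrix_one_equiv],
        by rw [Matrix.submatrix_mul_equiv, ← Matrix.transpose_mul, ← Units.val_mul, inv_mul_cancel,
          Units.val_one, Matrix.transpose_one, Matrix.submatrix_one_equiv]⟩
    have hθmul : ∀ a b, θ (a * b) = θ a * θ b := fun a b => Units.ext (by
      simp [θ, mul_inv_rev, Matrix.transpose_mul])
    have hθθ : ∀ a, θ (θ a) = a := fun a => Units.ext (Matrix.ext fun i j => by
      show ((θ a)⁻¹ : Matrix.GeneralLinearGroup (Fin n) F).val (r j) (r i) = _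
      simp [θ, r, Units.inv_mk])
    have hmap : ∀ (l l' : ℕ), l + l' = n → ∀ a : Matrix.GeneralLinearGroup (Fin n) F,
        a ∈ Cfsg.stabilizing (Cfsg.glToMat (Fin n) F) {v : Fin n → F | ∀ i : Fin n, l ≤ (i : ℕ) → v i = 0} →
        θ a ∈ Cfsg.stabilizing (Cfsg.glToMat (Fin n) F) {v : Fin n → F | ∀ i : Fin n, l' ≤ (i : ℕ) → v i = 0} := by
      intro l l' hll a ha
      rw [CfsgLib.Classical.FlagStab.mem_stab_iff]
      intro i j hi hj
      refine CfsgLib.Classical.FlagStab.mem_stab_iff.1 (inv_mem ha) (r j) (r i) ?_ ?_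
      · simp only [r, Fin.revPerm_apply, Fin.val_rev]; omega
      · simp only [r, Fin.revPerm_apply, Fin.val_rev]; omega
    exact ⟨{ toFun := fun a => ⟨θ a, hmap k (n - k) (by omega) a a.2⟩
             invFun := fun a => ⟨θ a, hmap (n - k) k (by omega) a a.2⟩
             left_inv := fun a => Subtype.ext (hθθ a)
             right_inv := fun a => Subtype.ext (hθθ a)
             map_mul' := fun a b => Subtype.ext (hθmul a b) }⟩
  · set l := n - k with hl
    -- the image of the first subspace is invariant under the second stabiliser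
    set U := (CfsgLib.Classical.FlagStab.firstCoords F n k).map (Matrix.toLin' (g : Matrix (Fin n) (Fin n) F)) with hU
    have hinvU : ∀ t ∈ Cfsg.stabilizing (Cfsg.glToMat (Fin n) F) {v : Fin n → F | ∀ i : Fin n, l ≤ (i : ℕ) → v i = 0},
        ∀ u ∈ U, (t : Matrix (Fin n) (Fin n) F).mulVec u ∈ U := by
      intro t ht u hu
      rw [← hg] at ht
      obtain ⟨s, hs, rfl⟩ := ht
      obtain ⟨v, hv, rfl⟩ := hu
      refine ⟨(s : Matrix (Fin n) (Fin n) F).mulVec v, (hs v).1 hv, ?_⟩
      show (g : Matrix (Fin n) (Fin n) F).mulVec ((s : Matrix (Fin n) (Fin n) F).mulVec v) =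
        ((g * s * g⁻¹ : Matrix.GeneralLinearGroup (Fin n) F) : Matrix (Fin n) (Fin n) F).mulVec
          ((g : Matrix (Fin n) (Fin n) F).mulVec v)
      rw [Matrix.mulVec_mulVec, Matrix.mulVec_mulVec, ← Units.val_mul, ← Units.val_mul, inv_mul_cancel_right]
    have hUk : Module.finrank F U = k := by
      have hinj : Function.Injective (Matrix.toLin' (g : Matrix (Fin n) (Fin n) F)) := fun u v e => by
        have := congrArg ((((g⁻¹ : Matrix.GeneralLinearGroup (Fin n) F)) : Matrix (Fin n) (Fin n) F).mulVec) e
        simpa [Matrix.mulVec_mulVec, ← Units.val_mul] using this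
      rw [hU, ← (Submodule.equivMapOfInjective _ hinj _).finrank_eq]
      let e : CfsgLib.Classical.FlagStab.firstCoords F n k ≃ₗ[F] (Fin k → F) :=
        { toFun := fun v i => v.1 (Fin.castLE hkn.le i)
          map_add' := fun _ _ => rfl
          map_smul' := fun _ _ => rfl
          invFun := fun w => ⟨fun j => if h : (j : ℕ) < k then w ⟨j, h⟩ else 0, fun j hj => dif_neg (by omega)⟩
          left_inv := fun v => Subtype.ext (funext fun j => by
            by_cases h : (j : ℕ) < k
            · simp [h]
            · simp [h, v.2 j (by omega)])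
          right_inv := fun w => funext fun i => by simp }
      rw [e.finrank_eq, Module.finrank_fintype_fun_eq_card, Fintype.card_fin]
    -- elementary transvections in the stabiliser
    have hel : ∀ i j : Fin n, i ≠ j → ¬(l ≤ (j : ℕ) ∧ (i : ℕ) < l) → ∀ u ∈ U, u i ≠ 0 →
        Pi.single j (1 : F) ∈ U := by
      intro i j hij hok u hu hui
      let t : Matrix.GeneralLinearGroup (Fin n) F := Matrix.GeneralLinearGroup.mkOfDetNeZero
        (Matrix.transvection j i 1) (by rw [Matrix.det_transvection_of_ne _ _ hij.symm]; exact one_ne_zero)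
      have ht : t ∈ Cfsg.stabilizing (Cfsg.glToMat (Fin n) F) {v : Fin n → F | ∀ i : Fin n, l ≤ (i : ℕ) → v i = 0} := by
        rw [CfsgLib.Classical.FlagStab.mem_stab_iff]
        intro a b ha hb
        have hab : a ≠ b := fun e => by subst e; omega
        show Matrix.transvection j i 1 a b = 0
        rw [Matrix.transvection, Matrix.add_apply, Matrix.one_apply_ne hab, zero_add,
          Matrix.single_apply, if_neg]
        rintro ⟨rfl, rfl⟩
        exact hok ⟨ha, hb⟩
      have h1 := U.sub_mem (hinvU t ht u hu) hu
      have h2 : (t : Matrix (Fin n) (Fin n) F).mulVec u - u = u i • Pi.single j (1 : F) := by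
        show (Matrix.transvection j i (1 : F)).mulVec u - u = _
        funext a
        simp [Matrix.transvection, Matrix.add_mulVec, Matrix.single_mulVec, Pi.single_apply, Function.update_apply]
      rw [h2] at h1
      have := U.smul_mem (u i)⁻¹ h1
      rwa [smul_smul, inv_mul_cancel₀ hui, one_smul] at this
    have hsingle : ∀ S : Set (Fin n), ∀ i ∈ S, ∀ u ∈ U, u i ≠ 0 → (∀ j ∉ S, u j = 0) →
        (∀ j ∈ S, j ≠ i → Pi.single j (1 : F) ∈ U) → ∀ j ∈ S, Pi.single j (1 : F) ∈ U := by
      intro S i hi u hu hui hout hothers j hj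
      by_cases hji : j = i
      · subst hji
        have h1 : u - ∑ a ∈ Finset.univ.erase j, u a • Pi.single a (1 : F) = u j • Pi.single j (1 : F) := by
          rw [sub_eq_iff_eq_add, Finset.add_sum_erase _ (fun a => u a • Pi.single a (1 : F)) (Finset.mem_univ j)]
          exact pi_eq_sum_univ' u
        have h2 : u j • Pi.single j (1 : F) ∈ U := by
          rw [← h1]
          refine U.sub_mem hu (Submodule.sum_mem _ fun a ha => ?_)
          by_cases haS : a ∈ S
          · exact U.smul_mem _ (hothers a haS (Finset.ne_of_mem_erase ha))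
          · rw [hout a haS, zero_smul]; exact U.zero_mem
        have := U.smul_mem (u j)⁻¹ h2
        rwa [smul_smul, inv_mul_cancel₀ hui, one_smul] at this
      · exact hothers j hj hji
    by_cases hout : ∃ u ∈ U, ∃ i : Fin n, l ≤ (i : ℕ) ∧ u i ≠ 0
    · obtain ⟨u, hu, i, hi, hui⟩ := hout
      have hall := hsingle Set.univ i trivial u hu hui (fun j hj => absurd trivial hj)
        (fun j _ hji => hel i j (Ne.symm hji) (by omega) u hu hui)
      have htop : U = ⊤ := eq_top_iff.2 fun v _ => by
        rw [pi_eq_sum_univ' v]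
        exact Submodule.sum_mem _ fun a _ => U.smul_mem _ (hall a trivial)
      rw [htop, finrank_top, Module.finrank_fintype_fun_eq_card, Fintype.card_fin] at hUk
      omega
    · push Not at hout
      have hle : U ≤ CfsgLib.Classical.FlagStab.firstCoords F n l := fun u hu i hi => hout u hu i hi
      haveI : Nontrivial U := Module.nontrivial_of_finrank_pos (R := F) (by omega)
      obtain ⟨⟨u, hu⟩, hu0⟩ := exists_ne (0 : U)
      obtain ⟨i, hui⟩ : ∃ i, u i ≠ 0 := by
        by_contra h
        push Not at h
        exact hu0 (Subtype.ext (funext h))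
      have hi : (i : ℕ) < l := by
        by_contra h
        exact hui (hout u hu i (by omega))
      have hall := hsingle {j | (j : ℕ) < l} i hi u hu hui (fun j hj => hout u hu j (by simpa using hj))
        (fun j (hj : (j : ℕ) < l) hji => hel i j (Ne.symm hji) (by omega) u hu hui)
      have heq : U = CfsgLib.Classical.FlagStab.firstCoords F n l := le_antisymm hle fun v hv => by
        rw [pi_eq_sum_univ' v]
        refine Submodule.sum_mem _ fun a _ => ?_
        by_cases ha : (a : ℕ) < l
        · exact U.smul_mem _ (hall a ha)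
        · rw [hv a (by omega), zero_smul]; exact U.zero_mem
      let e : CfsgLib.Classical.FlagStab.firstCoords F n l ≃ₗ[F] (Fin l → F) :=
        { toFun := fun v i => v.1 (Fin.castLE (by omega) i)
          map_add' := fun _ _ => rfl
          map_smul' := fun _ _ => rfl
          invFun := fun w => ⟨fun j => if h : (j : ℕ) < l then w ⟨j, h⟩ else 0, fun j hj => dif_neg (by omega)⟩
          left_inv := fun v => Subtype.ext (funext fun j => by
            by_cases h : (j : ℕ) < l
            · simp [h]
            · simp [h, v.2 j (by omega)])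
          right_inv := fun w => funext fun i => by simp }
      rw [heq, e.finrank_eq, Module.finrank_fintype_fun_eq_card, Fintype.card_fin] at hUk
      omega

end Cfsg.Agent.S0773
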