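import Cfsg.Statements.S0774
import Cfsg.Agent.Eq.Def_ClassicalGeometry
import Cfsg.Agent.Classical.Symp.Frames

set_option autoImplicit false
open Cfsg
open CfsgLib.Classical.Symp

namespace Cfsg.Agent.S0774

/-- Borel subgroup of the symplectic group: the elements of Sp_2m(q) stabilising each of the totally isotropic coordinate subspaces ⟨e_0, ..., e_k⟩ (k < m) form a subgroup of order q^(m²) (q − 1)^m. -/
theorem result {F : Type*} [Field F] [Fintype F] {q : ℕ} (hF : Fintype.card F = q) (m : ℕ) : Nat.card ↥(⨅ k : Fin m, Cfsg.stabilizing (Cfsg.spToMat m F) {v : Fin m ⊕ Fin m → F | (∀ i : Fin m, (k : ℕ) < (i : ℕ) → v (Sum.inl i) = 0) ∧ ∀ i : Fin m, v (Sum.inr i) = 0}) = q ^ (m ^ 2) * (q - 1) ^ m := by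
  classical
  subst hF
  set q := Fintype.card F
  let t : Fin m → Fin m ⊕ Fin m → F := fun i => Pi.single (Sum.inl i) 1
  -- allowed values of the `j`th image
  let good : Fin m → Fin m ⊕ Fin m → Set F := fun j => Sum.elim
    (fun i => if i < j then Set.univ else if i = j then {x | x ≠ 0} else {0}) (fun _ => {0})
  let T : Set (Fin m → Fin m ⊕ Fin m → F) := {u | ∀ j a, u j a ∈ good j a}
  set S := ⨅ k : Fin m, Cfsg.stabilizing (Cfsg.spToMat m F)
    {v : Fin m ⊕ Fin m → F | (∀ i : Fin m, (k : ℕ) < (i : ℕ) → v (Sum.inl i) = 0) ∧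
      ∀ i : Fin m, v (Sum.inr i) = 0} with hS
  let E : Fin m → Submodule F (Fin m ⊕ Fin m → F) := fun k =>
    { carrier := {v | (∀ i : Fin m, (k : ℕ) < (i : ℕ) → v (Sum.inl i) = 0) ∧
        ∀ i : Fin m, v (Sum.inr i) = 0}
      add_mem' := fun {a b} ha hb => ⟨fun i hi => by simp [ha.1 i hi, hb.1 i hi],
        fun i => by simp [ha.2 i, hb.2 i]⟩
      zero_mem' := ⟨fun i _ => rfl, fun i => rfl⟩
      smul_mem' := fun c a ha => ⟨fun i hi => by simp [ha.1 i hi], fun i => by simp [ha.2 i]⟩ }
  have hgood : ∀ u ∈ T, ∀ j : Fin m, u j ∈ E j ∧ u j (Sum.inl j) ≠ 0 := by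
    intro u hu j
    refine ⟨⟨fun i hi => ?_, fun i => by simpa [good] using hu j (Sum.inr i)⟩, ?_⟩
    · have h1 : ¬ i < j := not_lt.2 (Fin.le_def.2 hi.le)
      have h2 : i ≠ j := fun e => by subst e; omega
      simpa [good, h1, h2] using hu j (Sum.inl i)
    · simpa [good] using hu j (Sum.inl j)
  have htT : t ∈ T := by
    intro j a
    rcases a with i | i
    · by_cases h1 : i < j
      · simp [good, h1]
      · by_cases h2 : i = j
        · subst h2; simp [t, good]
        · simp [t, good, h1, h2]
    · simp [t, good]
  have hli : ∀ u ∈ T, LinearIndependent F u := by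
    intro u hu
    let A : Matrix (Fin m) (Fin m) F := Matrix.of fun j i => u j (Sum.inl i)
    have hA : IsUnit A := by
      rw [Matrix.isUnit_iff_isUnit_det, isUnit_iff_ne_zero,
        Matrix.det_of_lowerTriangular A (fun j i (h : j < i) => (hgood u hu j).1.1 i h)]
      exact Finset.prod_ne_zero_iff.2 fun j _ => (hgood u hu j).2
    exact LinearIndependent.of_comp (LinearMap.funLeft F F Sum.inl)
      (Matrix.linearIndependent_rows_iff_isUnit.2 hA)
  have hiso : ∀ u ∈ T, ∀ i j, Cfsg.sympForm m F (u i) (u j) = 0 := by
    intro u hu i j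
    rw [form_apply]
    exact Finset.sum_eq_zero fun l _ => by
      rw [(hgood u hu i).1.2 l, (hgood u hu j).1.2 l]; ring
  have hfr : Frames.IsFrame t := ⟨hli t htT, hiso t htT⟩
  have hmem : ∀ g : Matrix.symplecticGroup (Fin m) F, g ∈ S ↔
      (fun j => (g : Matrix (Fin m ⊕ Fin m) (Fin m ⊕ Fin m) F).mulVec (t j)) ∈ T := by
    intro g
    constructor
    · intro h j a
      rw [hS, Subgroup.mem_iInf] at h
      have hj := ((h j) (t j)).1 ⟨fun i hi => by
        simp [t, show i ≠ j from fun e => by subst e; omega], fun i => by simp [t]⟩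
      rcases a with i | i
      · by_cases h1 : i < j
        · simp [good, h1]
        · by_cases h2 : i = j
          · subst h2
            simp only [good, Sum.elim_inl, lt_self_iff_false, if_false, if_true]
            intro h0
            rcases Nat.eq_zero_or_pos (i : ℕ) with hi | hi
            · have hz : (g : Matrix (Fin m ⊕ Fin m) (Fin m ⊕ Fin m) F).mulVec (t i) = 0 := by
                funext b
                rcases b with b | b
                · rcases eq_or_ne b i with rfl | hb
                  · exact h0
                  · exact hj.1 b (by have := Fin.val_ne_of_ne hb; omega)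
                · exact hj.2 b
              exact mulVec_ne_zero g (fun e => by simpa [t] using congrFun e (Sum.inl i)) hz
            · let k : Fin m := ⟨(i : ℕ) - 1, by omega⟩
              have hk := ((h k) (t i)).2 ⟨fun b hb => by
                rcases eq_or_ne b i with rfl | hbi
                · exact h0
                · exact hj.1 b (by
                    have := Fin.val_ne_of_ne hbi
                    simp only [k] at hb
                    omega), hj.2⟩
              simpa [t] using hk.1 i (by simp only [k]; omega)
          · have h3 : (j : ℕ) < i := by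
              have := Fin.val_ne_of_ne h2
              simp only [Fin.lt_def] at h1
              omega
            simpa [good, h1, h2] using hj.1 i h3
      · simpa [good] using hj.2 i
    · intro h
      rw [hS, Subgroup.mem_iInf]
      intro k
      set L := Matrix.mulVecLin (g : Matrix (Fin m ⊕ Fin m) (Fin m ⊕ Fin m) F) with hL
      have hle : (E k).map L ≤ E k := by
        rintro _ ⟨v, hv, rfl⟩
        have hv' : v = ∑ j, v (Sum.inl j) • t j := by
          funext a
          rcases a with i | i
          · simp [t, Finset.sum_apply, Pi.single_apply]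
          · simp [t, Finset.sum_apply, hv.2 i]
        rw [hv', map_sum]
        refine Submodule.sum_mem _ fun j _ => ?_
        rw [map_smul]
        rcases Nat.lt_or_ge (k : ℕ) (j : ℕ) with hkj | hkj
        · rw [hv.1 j hkj, zero_smul]; exact Submodule.zero_mem _
        · refine Submodule.smul_mem _ _ ?_
          have hj := (hgood _ h j).1
          exact ⟨fun i hi => hj.1 i (by omega), hj.2⟩
      have heq : (E k).map L = E k := Submodule.eq_of_le_of_finrank_le hle
        (LinearEquiv.finrank_eq (Submodule.equivMapOfInjective L (mulVec_injective g) (E k))).le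
      refine fun v => ⟨fun hv => hle (Submodule.mem_map_of_mem (show v ∈ E k from hv)), fun hv => ?_⟩
      have hv' : (g : Matrix (Fin m ⊕ Fin m) (Fin m ⊕ Fin m) F).mulVec v ∈ (E k).map L := by
        rw [heq]; exact hv
      obtain ⟨y, hy, hyv⟩ := Submodule.mem_map.1 hv'
      exact mulVec_injective g hyv ▸ hy
  have hcard := Frames.card_eq_mul_fixing S (t := t)
    (fun g hg => (hmem g).2 (by
      rw [show (fun j => (g : Matrix (Fin m ⊕ Fin m) (Fin m ⊕ Fin m) F).mulVec (t j)) = t from
        funext (Frames.mem_fixing.1 hg)]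
      exact htT))
    T (fun g hg => (hmem g).1 hg)
    (fun u hu => by
      obtain ⟨g, hg⟩ := Frames.exists_mulVec_family (hli t htT) (hli u hu)
        (fun i j => by rw [hiso t htT, hiso u hu])
      exact ⟨g, (hmem g).2 (by rw [funext hg]; exact hu), hg⟩)
  have hT : Nat.card T = ∏ j : Fin m, q ^ (j : ℕ) * (q - 1) := by
    rw [Nat.card_congr (show T ≃ ∀ j : Fin m, ∀ a, good j a from
      { toFun := fun u j a => ⟨u.1 j a, u.2 j a⟩
        invFun := fun u => ⟨fun j a => (u j a : F), fun j a => (u j a).2⟩
        left_inv := fun u => rfl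
        right_inv := fun u => rfl }), Nat.card_pi]
    refine Finset.prod_congr rfl fun j _ => ?_
    rw [Nat.card_pi, Fintype.prod_sum_type,
      Finset.prod_eq_one (f := fun i => Nat.card (good j (Sum.inr i)))
        (fun i _ => by simp [good]), mul_one]
    have hne : Nat.card {x : F | x ≠ 0} = q - 1 := by
      rw [Nat.card_coe_set_eq, show {x : F | x ≠ 0} = {(0 : F)}ᶜ from rfl, Set.ncard_compl,
        Set.ncard_singleton, Nat.card_eq_fintype_card]
    have hc : ∀ i, Nat.card (good j (Sum.inl i)) =
        (if i < j then q else 1) * (if i = j then q - 1 else 1) := by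
      intro i
      simp only [good, Sum.elim_inl]
      by_cases h1 : i < j
      · rw [if_pos h1, if_pos h1, if_neg h1.ne, mul_one, Nat.card_univ, Nat.card_eq_fintype_card]
      · rw [if_neg h1, if_neg h1, one_mul]
        by_cases h2 : i = j
        · rw [if_pos h2, if_pos h2, hne]
        · rw [if_neg h2, if_neg h2]; simp
    rw [Finset.prod_congr rfl fun i _ => hc i, Finset.prod_mul_distrib, Fintype.prod_ite_eq',
      Finset.prod_ite, Finset.prod_const_one, mul_one, Finset.prod_const]
    congr 2
    rw [Finset.filter_gt_eq_Iio, Fin.card_Iio]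
  rw [hcard, hT, Frames.card_fixing hfr le_rfl, Finset.prod_mul_distrib, Finset.prod_const,
    Finset.card_univ, Fintype.card_fin, Finset.prod_pow_eq_pow_sum, Nat.sub_self,
    Finset.range_zero, Finset.prod_empty, Fin.sum_univ_eq_sum_range fun i => i, Finset.sum_range_id]
  have he : m * (m - 1) / 2 + m * (m + 1) / 2 = m ^ 2 := by
    obtain ⟨a, ha⟩ := (Nat.even_mul_pred_self m).two_dvd
    have hb : m * (m + 1) = m * (m - 1) + 2 * m := by
      rcases m with _ | m
      · simp
      · simp only [Nat.add_sub_cancel]; ring
    have hc : m ^ 2 = m * (m - 1) + m := by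
      rcases m with _ | m
      · simp
      · simp only [Nat.add_sub_cancel]; ring
    omega
  rw [← he, pow_add]
  ring

end Cfsg.Agent.S0774
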