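import Cfsg.Statements.S0775
import Cfsg.Agent.Eq.Def_ClassicalGeometry
import Cfsg.Agent.Classical.Symp.Frames

set_option autoImplicit false
open Cfsg
open CfsgLib.Classical.Symp

namespace Cfsg.Agent.S0775

/-- Maximal parabolics of the symplectic group: if W is a k-dimensional subspace of F^(2m) on which the symplectic form vanishes identically, its stabiliser in Sp_2m(q) has order q^(k(k+1)/2 + 2k(m−k)) · |Sp_(2m−2k)(q)| · |GL_k(q)|. -/
theorem result {F : Type*} [Field F] [Fintype F] {q : ℕ} (hF : Fintype.card F = q) (m k : ℕ) (hk : k ≤ m) (W : Submodule F (Fin m ⊕ Fin m → F)) (hWk : Module.finrank F W = k) (hW : ∀ u ∈ W, ∀ v ∈ W, Cfsg.sympForm m F u v = 0) : Nat.card ↥(Cfsg.stabilizing (Cfsg.spToMat m F) (W : Set (Fin m ⊕ Fin m → F))) = q ^ (k * (k + 1) / 2 + 2 * k * (m - k)) * (q ^ ((m - k) ^ 2) * ∏ i ∈ Finset.range (m - k), (q ^ (2 * (i + 1)) - 1)) * ∏ i : Fin k, (q ^ k - q ^ (i : ℕ)) := by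
  classical
  subst hF
  let e := Module.finBasisOfFinrankEq F W hWk
  set t : Fin k → Fin m ⊕ Fin m → F := fun i => (e i : Fin m ⊕ Fin m → F) with ht
  have htli : LinearIndependent F t := e.linearIndependent.map' W.subtype W.ker_subtype
  have hfr : Frames.IsFrame t := ⟨htli, fun i j => hW _ (e i).2 _ (e j).2⟩
  have hspan : Submodule.span F (Set.range t) = W := by
    rw [show Set.range t = W.subtype '' Set.range e by rw [← Set.range_comp]; rfl,
      Submodule.span_image, e.span_eq, Submodule.map_top, Submodule.range_subtype]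
  set S := Cfsg.stabilizing (Cfsg.spToMat m F) (W : Set (Fin m ⊕ Fin m → F)) with hS
  have hmem : ∀ g : Matrix.symplecticGroup (Fin m) F, g ∈ S ↔
      ∀ i, (g : Matrix (Fin m ⊕ Fin m) (Fin m ⊕ Fin m) F).mulVec (t i) ∈ W := by
    intro g
    refine ⟨fun h i => (h (t i)).1 (e i).2, fun h => ?_⟩
    set L := Matrix.mulVecLin (g : Matrix (Fin m ⊕ Fin m) (Fin m ⊕ Fin m) F) with hL
    have hle : W.map L ≤ W := by
      rw [← hspan, Submodule.map_span_le]
      rintro _ ⟨i, rfl⟩
      rw [hspan]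
      exact h i
    have heq : W.map L = W := Submodule.eq_of_le_of_finrank_le hle
      (LinearEquiv.finrank_eq (Submodule.equivMapOfInjective L (mulVec_injective g) W)).le
    refine fun v => ⟨fun hv => hle (Submodule.mem_map_of_mem hv), fun hv => ?_⟩
    rw [SetLike.mem_coe, ← heq] at hv
    obtain ⟨y, hy, hyv⟩ := Submodule.mem_map.1 hv
    exact mulVec_injective g hyv ▸ hy
  have hle : Frames.fixing t ≤ S := fun g hg => (hmem g).2 fun i => by
    rw [Frames.mem_fixing.1 hg i]; exact (e i).2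
  have hcard := Frames.card_eq_mul_fixing S hle
    {u | LinearIndependent F u ∧ ∀ i, u i ∈ W}
    (fun g hg => ⟨(Frames.isFrame_mulVec hfr g).1, fun i => (hmem g).1 hg i⟩)
    (fun u hu => by
      obtain ⟨g, hg⟩ := Frames.exists_mulVec_family htli hu.1 (fun i j => by
        rw [hfr.2, hW _ (hu.2 i) _ (hu.2 j)])
      exact ⟨g, (hmem g).2 fun i => by rw [hg i]; exact hu.2 i, hg⟩)
  have hT : Nat.card {u : Fin k → Fin m ⊕ Fin m → F // LinearIndependent F u ∧ ∀ i, u i ∈ W} =
      ∏ i : Fin k, (Fintype.card F ^ k - Fintype.card F ^ (i : ℕ)) := by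
    rw [Nat.card_congr
      ({ toFun := fun u => ⟨fun i => ⟨u.1 i, u.2.2 i⟩, LinearIndependent.of_comp W.subtype u.2.1⟩
         invFun := fun u => ⟨fun i => (u.1 i : Fin m ⊕ Fin m → F),
           u.2.map' W.subtype W.ker_subtype, fun i => (u.1 i).2⟩
         left_inv := fun u => rfl
         right_inv := fun u => rfl } :
        {u : Fin k → Fin m ⊕ Fin m → F // LinearIndependent F u ∧ ∀ i, u i ∈ W} ≃
          {u : Fin k → W // LinearIndependent F u}), card_linearIndependent hWk.ge, hWk]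
  rw [hcard, Frames.card_fixing hfr hk, show Nat.card ↑{u : Fin k → Fin m ⊕ Fin m → F |
    LinearIndependent F u ∧ ∀ i, u i ∈ W} = _ from hT]
  ring

end Cfsg.Agent.S0775
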