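import Cfsg.Statements.S0776
import Cfsg.Agent.LinAlg.Witt.Bases
import Cfsg.Agent.LinAlg.Witt.Mat
import Cfsg.Agent.Classical.Symp.Form
import Cfsg.Agent.Classical.SympFormStd

set_option autoImplicit false
open Cfsg

namespace Cfsg.Agent.S0776

/-- If W ≤ F^(2m) is a 2k-dimensional subspace on which the symplectic form is non-degenerate, then the stabiliser of W in Sp_2m(F) is isomorphic to Sp_2k(F) × Sp_(2m−2k)(F). -/
theorem result {F : Type*} [Field F] (m k : ℕ) (hk : k ≤ m) (W : Submodule F (Fin m ⊕ Fin m → F)) (hWk : Module.finrank F W = 2 * k) (hW : ∀ u ∈ W, (∀ v ∈ W, Cfsg.sympForm m F u v = 0) → u = 0) : Nonempty (↥(Cfsg.stabilizing (Cfsg.spToMat m F) (W : Set (Fin m ⊕ Fin m → F))) ≃* Matrix.symplecticGroup (Fin k) F × Matrix.symplecticGroup (Fin (m - k)) F) := by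
  classical
  have hf := CfsgLib.SympFormStd.isSymplecticForm m F
  set Bf := CfsgLib.LinAlg.Witt.bilinOfFun (Cfsg.sympForm m F) hf.bilinear with hBf
  have hBA : Bf.IsAlt := hf.alternating
  set W' := LinearMap.BilinForm.orthogonal Bf W with hW'
  have hmemW' : ∀ x, x ∈ W' ↔ ∀ w ∈ W, Cfsg.sympForm m F w x = 0 := fun x => by
    rw [hW', LinearMap.BilinForm.mem_orthogonal_iff]; exact Iff.rfl
  have hcross : ∀ w ∈ W, ∀ x ∈ W', Cfsg.sympForm m F w x = 0 := fun w hw x hx => (hmemW' x).1 hx w hw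
  have hcross' : ∀ w ∈ W, ∀ x ∈ W', Cfsg.sympForm m F x w = 0 := fun w hw x hx =>
    CfsgLib.AltFormTransv.orth_comm hf (hcross w hw x hx)
  have hker : LinearMap.ker Bf = ⊥ := (CfsgLib.LinAlg.Witt.isFormData_symplectic hf).2
  have hnd : Bf.Nondegenerate :=
    ⟨LinearMap.separatingLeft_iff_ker_eq_bot.2 hker, fun x hx => by
      have : x ∈ LinearMap.ker Bf := LinearMap.mem_ker.2 (LinearMap.ext fun y =>
        CfsgLib.AltFormTransv.orth_comm hf (hx y))
      rwa [hker, Submodule.mem_bot] at this⟩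
  have hcompl : IsCompl W W' := by
    refine (LinearMap.BilinForm.isCompl_orthogonal_iff_disjoint
      (fun x y h => CfsgLib.AltFormTransv.orth_comm hf h)).2 (Submodule.disjoint_def.2 fun x hx hx' => ?_)
    exact hW x hx fun v hv => hcross' v hv x hx'
  have hWk' : Module.finrank F W' = 2 * (m - k) := by
    rw [hW', LinearMap.BilinForm.finrank_orthogonal hnd, Module.finrank_fintype_fun_eq_card,
      Fintype.card_sum, Fintype.card_fin, hWk]
    omega
  -- symplectic coordinates on a nondegenerate subspace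
  have coord : ∀ (U : Submodule F (Fin m ⊕ Fin m → F)) (j : ℕ), Module.finrank F U = 2 * j →
      (∀ u ∈ U, (∀ v ∈ U, Cfsg.sympForm m F u v = 0) → u = 0) →
      ∃ φ : (Fin j ⊕ Fin j → F) ≃ₗ[F] U, ∀ x y,
        Cfsg.sympForm m F (φ x : Fin m ⊕ Fin m → F) (φ y) = Cfsg.sympForm j F x y := by
    intro U j hUj hU
    set BU : LinearMap.BilinForm F U := Bf.restrict U with hBU
    have hBU0 : LinearMap.ker BU = ⊥ := by
      rw [LinearMap.ker_eq_bot']
      intro u hu
      exact Subtype.ext (hU u u.2 fun v hv => LinearMap.congr_fun hu ⟨v, hv⟩)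
    obtain ⟨j', b, hj', hef, hee, hff⟩ :=
      CfsgLib.LinAlg.Witt.exists_symplectic_basis BU (fun u => hf.alternating _) hBU0
    obtain rfl : j' = j := by omega
    have hBUA : BU.IsAlt := fun u => hf.alternating _
    let φ := (Pi.basisFun F (Fin j' ⊕ Fin j')).equiv b (Equiv.sumComm _ _)
    refine ⟨φ, fun x y => ?_⟩
    have hj2 := CfsgLib.SympFormStd.isSymplecticForm j' F
    have hφ : ∀ i, φ (Pi.basisFun F _ i) = b (Equiv.sumComm _ _ i) := fun i => Module.Basis.equiv_apply _ _ _ _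
    have hext : BU.compl₁₂ φ.toLinearMap φ.toLinearMap =
        CfsgLib.LinAlg.Witt.bilinOfFun (Cfsg.sympForm j' F) hj2.bilinear := by
      refine (Pi.basisFun F _).ext fun i => (Pi.basisFun F _).ext fun l => ?_
      rw [LinearMap.compl₁₂_apply, LinearEquiv.coe_coe, hφ, hφ, Pi.basisFun_apply, Pi.basisFun_apply,
        CfsgLib.LinAlg.Witt.bilinOfFun_apply]
      rcases i with i | i <;> rcases l with l | l
      · exact (hff i l).trans (CfsgLib.Classical.Symp.form_stdF_stdF i l).symm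
      · refine Eq.trans ?_ (CfsgLib.Classical.Symp.form_stdF_stdE i l).symm
        refine (LinearMap.IsAlt.neg hBUA (b (Sum.inl l)) (b (Sum.inr i))).symm.trans ?_
        rw [hef l i]
        by_cases h : i = l
        · rw [if_pos h, if_pos h.symm]
        · rw [if_neg h, if_neg (Ne.symm h), neg_zero]
      · exact (hef i l).trans (CfsgLib.Classical.Symp.form_stdE_stdF i l).symm
      · exact (hee i l).trans (CfsgLib.Classical.Symp.form_stdE_stdE i l).symm
    exact LinearMap.congr_fun (LinearMap.congr_fun hext x) y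
  obtain ⟨φ₁, hφ₁⟩ := coord W k hWk hW
  obtain ⟨φ₂, hφ₂⟩ := coord W' (m - k) hWk' (fun u hu h => by
    have : u ∈ LinearMap.ker Bf := LinearMap.mem_ker.2 (LinearMap.ext fun y => by
      obtain ⟨w, hw, x, hx, rfl⟩ := Submodule.mem_sup.1 (hcompl.sup_eq_top ▸ Submodule.mem_top : y ∈ W ⊔ W')
      show Cfsg.sympForm m F u (w + x) = 0
      rw [hf.bilinear.add_right, hcross' w hw u hu, h x hx, add_zero])
    rwa [hker, Submodule.mem_bot] at this)
  let Φ : ((Fin k ⊕ Fin k → F) × (Fin (m - k) ⊕ Fin (m - k) → F)) ≃ₗ[F] (Fin m ⊕ Fin m → F) :=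
    (φ₁.prodCongr φ₂).trans (Submodule.prodEquivOfIsCompl W W' hcompl)
  have hΦa : ∀ x y, Φ (x, y) = (φ₁ x : Fin m ⊕ Fin m → F) + (φ₂ y : Fin m ⊕ Fin m → F) := fun x y => rfl
  have hΦ : ∀ p p', Cfsg.sympForm m F (Φ p) (Φ p') =
      Cfsg.sympForm k F p.1 p'.1 + Cfsg.sympForm (m - k) F p.2 p'.2 := by
    rintro ⟨x, y⟩ ⟨x', y'⟩
    rw [hΦa, hΦa, hf.bilinear.add_left, hf.bilinear.add_right, hf.bilinear.add_right,
      hcross _ (φ₁ x).2 _ (φ₂ y').2, hcross' _ (φ₁ x').2 _ (φ₂ y).2, hφ₁, hφ₂]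
    ring
  -- the embedding
  let op : Matrix.symplecticGroup (Fin k) F × Matrix.symplecticGroup (Fin (m - k)) F →
      (Fin m ⊕ Fin m → F) →ₗ[F] (Fin m ⊕ Fin m → F) := fun p =>
    Φ.toLinearMap ∘ₗ ((Matrix.toLin' p.1.1).prodMap (Matrix.toLin' p.2.1)) ∘ₗ Φ.symm.toLinearMap
  have hopΦ : ∀ p x y, op p (Φ (x, y)) = Φ (p.1.1.mulVec x, p.2.1.mulVec y) := fun p x y => by
    simp [op]
  have hmem : ∀ p, LinearMap.toMatrix' (op p) ∈ Matrix.symplecticGroup (Fin m) F := by
    intro p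
    rw [CfsgLib.Classical.Symp.mem_symplecticGroup_iff_form]
    intro u v
    obtain ⟨⟨x, y⟩, rfl⟩ := Φ.surjective u
    obtain ⟨⟨x', y'⟩, rfl⟩ := Φ.surjective v
    simp only [LinearMap.toMatrix'_mulVec, hopΦ, hΦ, CfsgLib.Classical.Symp.form_mulVec]
  let E : Matrix.symplecticGroup (Fin k) F × Matrix.symplecticGroup (Fin (m - k)) F →*
      Matrix.symplecticGroup (Fin m) F :=
    { toFun := fun p => ⟨_, hmem p⟩
      map_one' := CfsgLib.Classical.Symp.symp_ext fun u => by
        obtain ⟨⟨x, y⟩, rfl⟩ := Φ.surjective u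
        show (LinearMap.toMatrix' (op 1)).mulVec _ = (1 : Matrix _ _ F).mulVec _
        rw [LinearMap.toMatrix'_mulVec, hopΦ]
        simp
      map_mul' := fun p p' => CfsgLib.Classical.Symp.symp_ext fun u => by
        obtain ⟨⟨x, y⟩, rfl⟩ := Φ.surjective u
        show (LinearMap.toMatrix' (op (p * p'))).mulVec _ =
          (LinearMap.toMatrix' (op p) * LinearMap.toMatrix' (op p')).mulVec _
        rw [← Matrix.mulVec_mulVec, LinearMap.toMatrix'_mulVec, LinearMap.toMatrix'_mulVec,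
          LinearMap.toMatrix'_mulVec, hopΦ, hopΦ, hopΦ]
        simp [Matrix.mulVec_mulVec] }
  have hEΦ : ∀ p x y, (E p).1.mulVec (Φ (x, y)) = Φ (p.1.1.mulVec x, p.2.1.mulVec y) := fun p x y => by
    show (LinearMap.toMatrix' (op p)).mulVec _ = _
    rw [LinearMap.toMatrix'_mulVec, hopΦ]
  have hinj : Function.Injective E := by
    intro p p' h
    have h1 : ∀ x y, (p.1.1.mulVec x, p.2.1.mulVec y) = (p'.1.1.mulVec x, p'.2.1.mulVec y) :=
      fun x y => Φ.injective (by rw [← hEΦ, ← hEΦ, h])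
    exact Prod.ext (CfsgLib.Classical.Symp.symp_ext fun x => congrArg Prod.fst (h1 x 0))
      (CfsgLib.Classical.Symp.symp_ext fun y => congrArg Prod.snd (h1 0 y))
  have hrange : E.range = Cfsg.stabilizing (Cfsg.spToMat m F) (W : Set (Fin m ⊕ Fin m → F)) := by
    have hWΦ : ∀ x y, Φ (x, y) ∈ W ↔ y = 0 := by
      intro x y
      rw [hΦa, Submodule.add_mem_iff_right W (φ₁ x).2]
      refine ⟨fun h => ?_, fun h => by rw [h, map_zero]; exact W.zero_mem⟩
      exact φ₂.map_eq_zero_iff.1 (Subtype.ext (Submodule.disjoint_def.1 hcompl.disjoint _ h (φ₂ y).2))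
    apply le_antisymm
    · rintro _ ⟨p, rfl⟩ u
      obtain ⟨⟨x, y⟩, rfl⟩ := Φ.surjective u
      show Φ (x, y) ∈ W ↔ (E p).1.mulVec (Φ (x, y)) ∈ W
      rw [hEΦ, hWΦ, hWΦ]
      refine ⟨fun h => by rw [h, Matrix.mulVec_zero], fun h => ?_⟩
      exact CfsgLib.Classical.Symp.mulVec_injective p.2 (h.trans (Matrix.mulVec_zero _).symm)
    · intro s hs
      set L : ((Fin k ⊕ Fin k → F) × (Fin (m - k) ⊕ Fin (m - k) → F)) →ₗ[F]
          ((Fin k ⊕ Fin k → F) × (Fin (m - k) ⊕ Fin (m - k) → F)) :=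
        Φ.symm.toLinearMap ∘ₗ (Matrix.toLin' s.1) ∘ₗ Φ.toLinearMap with hL
      have hLs : ∀ p, Φ (L p) = s.1.mulVec (Φ p) := fun p => by simp [L]
      have hW2 : ∀ x, (L (x, 0)).2 = 0 := fun x => by
        have h1 : s.1.mulVec (Φ (x, 0)) ∈ W := (hs (Φ (x, 0))).1 ((hWΦ x 0).2 rfl)
        rw [← hLs] at h1
        exact (hWΦ _ _).1 h1
      have hW1 : ∀ y, (L (0, y)).1 = 0 := by
        intro y
        -- the image of the orthogonal complement is orthogonal to `W`
        have horth : ∀ x, Cfsg.sympForm k F x (L (0, y)).1 = 0 := by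
          intro x
          obtain ⟨⟨x₀, y₀⟩, h0⟩ := Φ.surjective
            ((s⁻¹ : Matrix.symplecticGroup (Fin m) F).1.mulVec (Φ (x, 0)))
          have hs' : (s⁻¹ : Matrix.symplecticGroup (Fin m) F).1.mulVec (Φ (x, 0)) ∈ W :=
            ((Subgroup.inv_mem _ hs) (Φ (x, 0))).1 ((hWΦ x 0).2 rfl)
          rw [← h0] at hs'
          obtain rfl := (hWΦ _ _).1 hs'
          have h1 := CfsgLib.Classical.Symp.form_mulVec s (Φ (x₀, 0)) (Φ (0, y))
          have h2 : s.1.mulVec (Φ (x₀, 0)) = Φ (x, 0) := by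
            rw [h0]; exact CfsgLib.Classical.Symp.mulVec_inv_cancel s _
          rw [h2, ← hLs, hΦ, hΦ] at h1
          simpa [CfsgLib.Classical.Symp.form_zero_left, CfsgLib.Classical.Symp.form_zero_right] using h1
        refine CfsgLib.Classical.Symp.eq_zero_of_form_eq_zero fun x => ?_
        rw [CfsgLib.Classical.Symp.form_swap, horth, neg_zero]
      set A := LinearMap.fst F _ _ ∘ₗ L ∘ₗ LinearMap.inl F _ _ with hA
      set D := LinearMap.snd F _ _ ∘ₗ L ∘ₗ LinearMap.inr F _ _ with hD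
      have hLxy : ∀ x y, L (x, y) = (A x, D y) := by
        intro x y
        rw [show ((x, y) : (Fin k ⊕ Fin k → F) × (Fin (m - k) ⊕ Fin (m - k) → F)) = (x, 0) + (0, y) by simp,
          map_add]
        exact Prod.ext (by simp [A, hW1]) (by simp [D, hW2])
      have hform : ∀ x y x' y', Cfsg.sympForm k F (A x) (A x') + Cfsg.sympForm (m - k) F (D y) (D y') =
          Cfsg.sympForm k F x x' + Cfsg.sympForm (m - k) F y y' := by
        intro x y x' y'
        have h := CfsgLib.Classical.Symp.form_mulVec s (Φ (x, y)) (Φ (x', y'))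
        rw [← hLs, ← hLs, hΦ, hΦ, hLxy, hLxy] at h
        exact h
      have hAm : LinearMap.toMatrix' A ∈ Matrix.symplecticGroup (Fin k) F := by
        rw [CfsgLib.Classical.Symp.mem_symplecticGroup_iff_form]
        intro u v
        simpa [LinearMap.toMatrix'_mulVec, CfsgLib.Classical.Symp.form_zero_left, CfsgLib.Classical.Symp.form_zero_right] using hform u 0 v 0
      have hDm : LinearMap.toMatrix' D ∈ Matrix.symplecticGroup (Fin (m - k)) F := by
        rw [CfsgLib.Classical.Symp.mem_symplecticGroup_iff_form]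
        intro u v
        simpa [LinearMap.toMatrix'_mulVec, CfsgLib.Classical.Symp.form_zero_left, CfsgLib.Classical.Symp.form_zero_right] using hform 0 u 0 v
      refine ⟨(⟨_, hAm⟩, ⟨_, hDm⟩), CfsgLib.Classical.Symp.symp_ext fun u => ?_⟩
      obtain ⟨⟨x, y⟩, rfl⟩ := Φ.surjective u
      rw [hEΦ, ← hLs, hLxy, LinearMap.toMatrix'_mulVec, LinearMap.toMatrix'_mulVec]
  exact ⟨((MonoidHom.ofInjective hinj).trans (MulEquiv.subgroupCongr hrange)).symm⟩

end Cfsg.Agent.S0776
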