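import Cfsg.Statements.S0777
import Cfsg.Agent.Eq.Def_ClassicalGeometry
import Cfsg.Agent.Classical.Symp.Form

set_option autoImplicit false
open Cfsg

namespace Cfsg.Agent.S0777

section
open Matrix CfsgLib.Classical.Symp

variable {F : Type*} [Field F] {m : ℕ}

/-- The signed permutation of coordinates. -/
def sperm (σ : Equiv.Perm (Fin m)) (s : Fin m → Bool) : Fin m ⊕ Fin m → Fin m ⊕ Fin m :=
  Sum.elim (fun i => if s i then Sum.inr (σ i) else Sum.inl (σ i))
    (fun i => if s i then Sum.inl (σ i) else Sum.inr (σ i))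

theorem sperm_injective (σ : Equiv.Perm (Fin m)) (s : Fin m → Bool) :
    Function.Injective (sperm σ s) := by
  rintro (i | i) (j | j) h <;>
    rcases hi : s i <;> rcases hj : s j <;> simp [sperm, hi, hj] at h <;>
    first
      | exact congrArg _ h
      | (subst h; simp_all)

/-- The nonzero entries of a monomial symplectic matrix. -/
def scoef (s : Fin m → Bool) (c : Fin m → Fˣ) : Fin m ⊕ Fin m → F :=
  Sum.elim (fun i => (c i : F)) (fun i => (if s i then -1 else 1) * ((c i)⁻¹ : Fˣ))

theorem scoef_ne_zero (s : Fin m → Bool) (c : Fin m → Fˣ) (a : Fin m ⊕ Fin m) :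
    scoef s c a ≠ 0 := by
  rcases a with i | i <;> simp only [scoef, Sum.elim_inl, Sum.elim_inr]
  · exact (c i).ne_zero
  · exact mul_ne_zero (by split_ifs <;> simp) (Units.ne_zero _)

/-- A monomial matrix. -/
def monoMat (σ : Equiv.Perm (Fin m)) (s : Fin m → Bool) (c : Fin m → Fˣ) :
    Matrix (Fin m ⊕ Fin m) (Fin m ⊕ Fin m) F :=
  Matrix.of fun a b => if a = sperm σ s b then scoef s c b else 0

theorem monoMat_mulVec (σ : Equiv.Perm (Fin m)) (s : Fin m → Bool) (c : Fin m → Fˣ)
    (x : Fin m ⊕ Fin m → F) (b : Fin m ⊕ Fin m) :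
    (monoMat σ s c *ᵥ x) (sperm σ s b) = scoef s c b * x b := by
  rw [Matrix.mulVec, dotProduct, Finset.sum_eq_single b]
  · simp [monoMat]
  · intro d _ hd
    simp [monoMat, (sperm_injective σ s).ne hd.symm]
  · simp

theorem monoMat_mem (σ : Equiv.Perm (Fin m)) (s : Fin m → Bool) (c : Fin m → Fˣ) :
    monoMat σ s c ∈ Matrix.symplecticGroup (Fin m) F := by
  rw [mem_symplecticGroup_iff_form]
  intro u v
  rw [form_apply, form_apply, ← Equiv.sum_comp σ]
  refine Finset.sum_congr rfl fun i _ => ?_
  have hu := monoMat_mulVec σ s c u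
  have hv := monoMat_mulVec σ s c v
  have h1 := hu (Sum.inl i)
  have h2 := hu (Sum.inr i)
  have h3 := hv (Sum.inl i)
  have h4 := hv (Sum.inr i)
  rcases hs : s i <;> simp [sperm, scoef, hs] at h1 h2 h3 h4 <;> rw [h1, h2, h3, h4] <;>
    field_simp <;> ring

theorem mem_torus_iff (g : Matrix.symplecticGroup (Fin m) F) :
    g ∈ (⨅ i : Fin m ⊕ Fin m, Cfsg.stabilizing (Cfsg.spToMat m F)
      ((Submodule.span F {(Pi.single i (1 : F) : Fin m ⊕ Fin m → F)} :
        Submodule F (Fin m ⊕ Fin m → F)) : Set (Fin m ⊕ Fin m → F))) ↔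
      ∀ a b : Fin m ⊕ Fin m, a ≠ b →
        (g : Matrix (Fin m ⊕ Fin m) (Fin m ⊕ Fin m) F) a b = 0 := by
  classical
  rw [Subgroup.mem_iInf]
  set M : Matrix (Fin m ⊕ Fin m) (Fin m ⊕ Fin m) F := (g : Matrix (Fin m ⊕ Fin m) (Fin m ⊕ Fin m) F)
  constructor
  · intro h a b hab
    have hb := (h b (Pi.single b 1)).1 (Submodule.mem_span_singleton_self _)
    obtain ⟨x, hx⟩ := Submodule.mem_span_singleton.1 hb
    have := congrFun hx a
    simpa [Matrix.mulVec_single, hab, M] using this.symm
  · intro h b
    have he : ∀ v, M *ᵥ v = fun a => M a a * v a := fun v => by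
      funext a
      rw [Matrix.mulVec, dotProduct, Finset.sum_eq_single a]
      · intro d _ hd; rw [h a d hd.symm, zero_mul]
      · simp
    have hne : ∀ a, M a a ≠ 0 := fun a ha => by
      have h0 : M *ᵥ Pi.single a 1 = 0 := by
        rw [he]; funext d
        rcases eq_or_ne d a with rfl | hd <;> simp [*]
      exact mulVec_ne_zero g (by simp) h0
    have hs : ∀ v : Fin m ⊕ Fin m → F,
        v ∈ Submodule.span F {(Pi.single b (1 : F) : Fin m ⊕ Fin m → F)} ↔
          ∀ a, a ≠ b → v a = 0 := by
      intro v
      rw [Submodule.mem_span_singleton]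
      refine ⟨?_, fun hv => ⟨v b, ?_⟩⟩
      · rintro ⟨x, rfl⟩ a ha; simp [ha]
      · funext a
        rcases eq_or_ne a b with rfl | ha
        · simp
        · simp [ha, hv a ha]
    intro v
    rw [SetLike.mem_coe, hs, SetLike.mem_coe, hs]
    show _ ↔ ∀ a, a ≠ b → (M *ᵥ v) a = 0
    rw [he]
    exact forall₂_congr fun a _ => by simp [hne a]

end

open Matrix CfsgLib.Classical.Symp in
/-- Weyl group of type C_m: for q ≥ 4 the diagonal matrices of Sp_2m(q) form a torus T ≅ (C_(q−1))^m (the elements stabilising every coordinate axis), and the normaliser of T in Sp_2m(q) has order 2^m · m! · (q − 1)^m. -/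
theorem result {F : Type*} [Field F] [Fintype F] {q : ℕ} (hF : Fintype.card F = q) (hq : 4 ≤ q) (m : ℕ) : Nat.card ↥(Subgroup.normalizer (⨅ i : Fin m ⊕ Fin m, Cfsg.stabilizing (Cfsg.spToMat m F) ((Submodule.span F {(Pi.single i (1 : F) : Fin m ⊕ Fin m → F)} : Submodule F (Fin m ⊕ Fin m → F)) : Set (Fin m ⊕ Fin m → F)) : Set (Matrix.symplecticGroup (Fin m) F))) = 2 ^ m * Nat.factorial m * (q - 1) ^ m := by
  classical
  subst hF
  set T := (⨅ i : Fin m ⊕ Fin m, Cfsg.stabilizing (Cfsg.spToMat m F)
      ((Submodule.span F {(Pi.single i (1 : F) : Fin m ⊕ Fin m → F)} :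
        Submodule F (Fin m ⊕ Fin m → F)) : Set (Fin m ⊕ Fin m → F))) with hT
  -- a field element different from its inverse
  obtain ⟨x, hx⟩ : ∃ x : Fˣ, (x : F) ≠ (x⁻¹ : Fˣ) := by
    by_contra h
    push Not at h
    have h1 : (Finset.univ : Finset F) ⊆ {0, 1, -1} := fun y _ => by
      rcases eq_or_ne y 0 with rfl | hy
      · simp
      · have h2 := h (Units.mk0 y hy)
        have h3 : y * y = 1 := by
          conv_lhs => rw [show y = ((Units.mk0 y hy : Fˣ) : F) from rfl]
          nth_rewrite 2 [h2]
          simp [hy]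
        rcases mul_self_eq_one_iff.1 h3 with e | e <;> simp [e]
    have := (Finset.card_le_card h1).trans Finset.card_le_three
    rw [Finset.card_univ] at this
    omega
  -- the torus separates coordinates
  have hsep : ∀ a b : Fin m ⊕ Fin m, a ≠ b → ∃ y ∈ T,
      (y : Matrix (Fin m ⊕ Fin m) (Fin m ⊕ Fin m) F) a a ≠
        (y : Matrix (Fin m ⊕ Fin m) (Fin m ⊕ Fin m) F) b b := by
    intro a b hab
    let i₀ : Fin m := Sum.elim id id a
    let c : Fin m → Fˣ := Function.update 1 i₀ x
    let y : Matrix.symplecticGroup (Fin m) F := ⟨_, monoMat_mem 1 (fun _ => false) c⟩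
    have hperm : ∀ d, sperm (1 : Equiv.Perm (Fin m)) (fun _ => false) d = d := by
      rintro (d | d) <;> simp [sperm]
    have hd : ∀ d, (y : Matrix (Fin m ⊕ Fin m) (Fin m ⊕ Fin m) F) d d =
        scoef (fun _ => false) c d := fun d => by
      show monoMat 1 (fun _ => false) c d d = _
      simp [monoMat, hperm]
    refine ⟨y, (mem_torus_iff y).2 fun d e hde => ?_, ?_⟩
    · show monoMat 1 (fun _ => false) c d e = 0
      simp [monoMat, hperm, hde]
    · rw [hd, hd]
      rcases a with i | i <;> rcases b with j | j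
      · have : j ≠ i := fun e => hab (by rw [e])
        simpa [scoef, c, i₀, Function.update_of_ne this] using fun e => hx (by simp [e])
      · rcases eq_or_ne j i with rfl | hji
        · simpa [scoef, c, i₀] using hx
        · simpa [scoef, c, i₀, Function.update_of_ne hji] using fun e => hx (by simp [e])
      · rcases eq_or_ne j i with rfl | hji
        · simpa [scoef, c, i₀] using fun e => hx (by simpa using e.symm)
        · simpa [scoef, c, i₀, Function.update_of_ne hji] using fun e => hx (by simp [e])
      · have : j ≠ i := fun e => hab (by rw [e])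
        simpa [scoef, c, i₀, Function.update_of_ne this] using fun e => hx (by simp [e])
  let φ : Equiv.Perm (Fin m) × (Fin m → Bool) × (Fin m → Fˣ) → Matrix.symplecticGroup (Fin m) F :=
    fun d => ⟨_, monoMat_mem d.1 d.2.1 d.2.2⟩
  have hinj : Function.Injective φ := by
    rintro ⟨σ, s, c⟩ ⟨σ', s', c'⟩ h
    have h' : monoMat σ s c = monoMat σ' s' c' := congrArg Subtype.val h
    have key : ∀ b, sperm σ s b = sperm σ' s' b ∧ scoef s c b = scoef s' c' b := by
      intro b
      have h1 := congrFun (congrFun h' (sperm σ s b)) b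
      simp only [monoMat, Matrix.of_apply, if_true] at h1
      split_ifs at h1 with e
      · exact ⟨e, h1⟩
      · exact (scoef_ne_zero _ _ _ h1).elim
    have hc : c = c' := funext fun i => Units.ext (key (Sum.inl i)).2
    have hσs : ∀ i, σ i = σ' i ∧ s i = s' i := fun i => by
      have := (key (Sum.inl i)).1
      rcases hs : s i <;> rcases hs' : s' i <;> simp [sperm, hs, hs'] at this ⊢ <;> exact this
    rw [hc, Equiv.ext fun i => (hσs i).1, funext fun i => (hσs i).2]
  have hrange : Set.range φ = (Subgroup.normalizer (T : Set (Matrix.symplecticGroup (Fin m) F)) :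
      Set (Matrix.symplecticGroup (Fin m) F)) := by
    apply Set.Subset.antisymm
    · rintro _ ⟨⟨σ, s, c⟩, rfl⟩
      set g := φ (σ, s, c)
      have hg : ∀ y ∈ T, g * y * g⁻¹ ∈ T := by
        intro y hy
        refine (mem_torus_iff _).2 fun a b hab => ?_
        obtain ⟨a', rfl⟩ := Finite.surjective_of_injective (sperm_injective σ s) a
        obtain ⟨b', rfl⟩ := Finite.surjective_of_injective (sperm_injective σ s) b
        have hb : (g : Matrix (Fin m ⊕ Fin m) (Fin m ⊕ Fin m) F).mulVec (Pi.single b' (1 : F)) =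
            scoef s c b' • Pi.single (sperm σ s b') 1 := by
          funext d
          show (monoMat σ s c).mulVec (Pi.single b' (1 : F)) d = _
          rw [Matrix.mulVec_single_one]
          simp [monoMat, Pi.single_apply]
        have hy' : (y : Matrix (Fin m ⊕ Fin m) (Fin m ⊕ Fin m) F).mulVec (Pi.single b' (1 : F)) =
            (y : Matrix (Fin m ⊕ Fin m) (Fin m ⊕ Fin m) F) b' b' • Pi.single b' 1 := by
          funext d
          rw [Matrix.mulVec_single_one]
          rcases eq_or_ne d b' with rfl | hd
          · simp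
          · simp [hd, (mem_torus_iff y).1 hy d b' hd]
        have h1 := congrArg
          ((((g * y * g⁻¹ : Matrix.symplecticGroup (Fin m) F)) :
            Matrix (Fin m ⊕ Fin m) (Fin m ⊕ Fin m) F).mulVec) hb
        rw [← mul_mulVec, inv_mul_cancel_right, mul_mulVec, hy', Matrix.mulVec_smul, hb,
          Matrix.mulVec_smul] at h1
        have h2 := congrFun h1 (sperm σ s a')
        rw [Matrix.mulVec_single_one] at h2
        simp only [Pi.smul_apply, smul_eq_mul, Matrix.col_apply, Pi.single_eq_of_ne hab, mul_zero]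
          at h2
        exact (mul_eq_zero.1 h2.symm).resolve_left (scoef_ne_zero s c b')
      rw [SetLike.mem_coe, Subgroup.mem_set_normalizer_iff]
      refine fun y => ⟨hg y, fun hy => ?_⟩
      let f : T → T := fun z => ⟨g * (z : Matrix.symplecticGroup (Fin m) F) * g⁻¹, hg _ z.2⟩
      have hfinj : Function.Injective f := fun z w e => Subtype.ext (by
        simpa [f] using congrArg Subtype.val e)
      obtain ⟨z, hz⟩ := Finite.surjective_of_injective hfinj ⟨_, hy⟩
      have : (z : Matrix.symplecticGroup (Fin m) F) = y := by simpa [f] using congrArg Subtype.val hz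
      exact this ▸ z.2
    · intro g hg
      rw [SetLike.mem_coe, Subgroup.mem_set_normalizer_iff] at hg
      set M : Matrix (Fin m ⊕ Fin m) (Fin m ⊕ Fin m) F :=
        (g : Matrix (Fin m ⊕ Fin m) (Fin m ⊕ Fin m) F) with hM
      have hcol : ∀ b, ∃ a, M a b ≠ 0 ∧ ∀ a', a' ≠ a → M a' b = 0 := by
        intro b
        obtain ⟨a, ha⟩ : ∃ a, M a b ≠ 0 := by
          by_contra h
          push Not at h
          exact mulVec_ne_zero g (x := Pi.single b 1) (by simp)
            (funext fun a => by rw [Matrix.mulVec_single_one]; exact h a)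
        refine ⟨a, ha, fun a' hne => ?_⟩
        by_contra h'
        obtain ⟨y, hy, hya⟩ := hsep a' a hne
        -- `y g = g (g⁻¹ y g)`
        have hy' : g⁻¹ * y * g ∈ T := by
          refine (hg (g⁻¹ * y * g)).2 ?_
          rwa [show g * (g⁻¹ * y * g) * g⁻¹ = y by group]
        set z := g⁻¹ * y * g
        have hyz : (y : Matrix (Fin m ⊕ Fin m) (Fin m ⊕ Fin m) F) * M =
            M * (z : Matrix (Fin m ⊕ Fin m) (Fin m ⊕ Fin m) F) := by
          have : y * g = g * z := by simp only [z]; group
          exact congrArg Subtype.val this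
        have hent : ∀ d, (y : Matrix (Fin m ⊕ Fin m) (Fin m ⊕ Fin m) F) d d * M d b =
            M d b * (z : Matrix (Fin m ⊕ Fin m) (Fin m ⊕ Fin m) F) b b := by
          intro d
          have h1 := congrFun (congrFun hyz d) b
          rw [Matrix.mul_apply, Matrix.mul_apply, Finset.sum_eq_single d,
            Finset.sum_eq_single b] at h1
          · exact h1
          · intro e _ he; rw [(mem_torus_iff z).1 hy' e b he, mul_zero]
          · simp
          · intro e _ he; rw [(mem_torus_iff y).1 hy d e (Ne.symm he), zero_mul]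
          · simp
        have ea := mul_right_cancel₀ ha ((hent a).trans (mul_comm _ _))
        have ea' := mul_right_cancel₀ h' ((hent a').trans (mul_comm _ _))
        exact hya (ea'.trans ea.symm)
      choose π hπ hπ0 using hcol
      have hMv : ∀ b, M.mulVec (Pi.single b 1) = M (π b) b • Pi.single (π b) (1 : F) := by
        intro b
        funext a
        rw [Matrix.mulVec_single_one]
        rcases eq_or_ne a (π b) with rfl | ha
        · simp
        · simp [ha, hπ0 b a ha]
      have hπinj : Function.Injective π := by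
        intro b b' e
        have h1 : M.mulVec (M (π b') b' • Pi.single b 1) =
            M.mulVec (M (π b) b • Pi.single b' 1) := by
          rw [Matrix.mulVec_smul, Matrix.mulVec_smul, hMv, hMv, e, smul_comm]
        have h2 := congrFun (mulVec_injective g h1) b
        by_contra hne
        simp [Pi.single_apply, hne] at h2
        exact hπ b' h2
      -- partners go to partners
      have hpart : ∀ i, ∃ j, (π (Sum.inl i) = Sum.inl j ∧ π (Sum.inr i) = Sum.inr j) ∨
          (π (Sum.inl i) = Sum.inr j ∧ π (Sum.inr i) = Sum.inl j) := by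
        intro i
        have h1 := form_mulVec g (Pi.single (Sum.inr i) (1 : F)) (Pi.single (Sum.inl i) 1)
        rw [hMv, hMv, form_smul_left, form_smul_right, form_single_inl] at h1
        rw [Pi.single_eq_same, mul_one] at h1
        rcases e₁ : π (Sum.inl i) with j | j <;> rcases e₂ : π (Sum.inr i) with j' | j' <;>
          rw [e₁, e₂] at h1
        · simp [form_single_inl, Pi.single_apply] at h1
        · refine ⟨j, Or.inl ⟨rfl, ?_⟩⟩
          rcases eq_or_ne j' j with rfl | hj
          · rfl
          · simp [form_single_inl, Pi.single_apply, hj, hj.symm] at h1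
        · refine ⟨j, Or.inr ⟨rfl, ?_⟩⟩
          rcases eq_or_ne j' j with rfl | hj
          · rfl
          · simp [form_single_inr, Pi.single_apply, hj, hj.symm] at h1
        · simp [form_single_inr, Pi.single_apply] at h1
      choose σ₀ hσ₀ using hpart
      let s : Fin m → Bool := fun i => (π (Sum.inl i)).isRight
      have hσinj : Function.Injective σ₀ := by
        intro i i' e
        rcases hσ₀ i with ⟨a, b⟩ | ⟨a, b⟩ <;> rcases hσ₀ i' with ⟨a', b'⟩ | ⟨a', b'⟩
        · exact Sum.inl_injective (hπinj (a.trans (e ▸ a'.symm)))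
        · exact absurd (hπinj (a.trans (e ▸ b'.symm))) (by simp)
        · exact absurd (hπinj (b.trans (e ▸ a'.symm))) (by simp)
        · exact Sum.inl_injective (hπinj (a.trans (e ▸ a'.symm)))
      let σ : Equiv.Perm (Fin m) := Equiv.ofBijective σ₀ hσinj.bijective_of_finite
      let c : Fin m → Fˣ := fun i => Units.mk0 (M (π (Sum.inl i)) (Sum.inl i)) (hπ _)
      have hperm : ∀ b, sperm σ s b = π b := by
        rintro (i | i) <;> rcases hσ₀ i with ⟨a, b⟩ | ⟨a, b⟩ <;> simp [sperm, s, σ, a, b]
      have hcoef : ∀ b, scoef s c b = M (π b) b := by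
        rintro (i | i)
        · rfl
        · have h1 := form_mulVec g (Pi.single (Sum.inr i) (1 : F)) (Pi.single (Sum.inl i) 1)
          rw [hMv, hMv, form_smul_left, form_smul_right, form_single_inl, Pi.single_eq_same,
            mul_one] at h1
          have hne := hπ (Sum.inl i)
          rcases hσ₀ i with ⟨a, b⟩ | ⟨a, b⟩ <;> rw [a, b] at h1 <;> rw [a] at hne <;>
            simp [form_single_inl, form_single_inr, Pi.single_apply] at h1 <;>
            simp [scoef, s, c, a, b] <;> field_simp <;> (first | linear_combination h1 | linear_combination -h1)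
      refine ⟨(σ, s, c), Subtype.ext (Matrix.ext fun a b => ?_)⟩
      show monoMat σ s c a b = M a b
      rw [monoMat, Matrix.of_apply, hperm]
      split_ifs with e
      · rw [hcoef, e]
      · exact (hπ0 b a e).symm
  rw [show (⨅ i : Fin m ⊕ Fin m, ((Cfsg.stabilizing (Cfsg.spToMat m F)
      ((Submodule.span F {(Pi.single i (1 : F) : Fin m ⊕ Fin m → F)} :
        Submodule F (Fin m ⊕ Fin m → F)) : Set (Fin m ⊕ Fin m → F)) :
      Subgroup (Matrix.symplecticGroup (Fin m) F)) : Set (Matrix.symplecticGroup (Fin m) F))) =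
    (T : Set (Matrix.symplecticGroup (Fin m) F)) by rw [hT, Subgroup.coe_iInf]; rfl,
    ← SetLike.coe_sort_coe, ← hrange, Nat.card_range_of_injective hinj, Nat.card_prod,
    Nat.card_prod, Nat.card_perm, Nat.card_fun, Nat.card_fun, Nat.card_units,
    Nat.card_eq_fintype_card, Nat.card_eq_fintype_card, Nat.card_eq_fintype_card, Fintype.card_fin,
    Fintype.card_bool]
  ring

end Cfsg.Agent.S0777
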