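import Cfsg.Statements.S0778
import Cfsg.Agent.Eq.Def_ClassicalGeometry

set_option autoImplicit false
open Cfsg
open scoped Matrix

namespace Cfsg.Agent.S0778

/-- The elements of Sp_2m(F) stabilising both W = ⟨e_1..e_m⟩ and U = ⟨f_1..f_m⟩ form a subgroup isomorphic to GL_m(F) (block-diagonal matrices diag(X, X^(−ᵀ)) up to the sign convention of J), for m ≥ 1 or m = 0 alike. -/
theorem result {F : Type*} [Field F] (m : ℕ) : Nonempty (↥(Cfsg.stabilizing (Cfsg.spToMat m F) {v : Fin m ⊕ Fin m → F | ∀ i : Fin m, v (Sum.inr i) = 0} ⊓ Cfsg.stabilizing (Cfsg.spToMat m F) {v : Fin m ⊕ Fin m → F | ∀ i : Fin m, v (Sum.inl i) = 0}) ≃* Matrix.GeneralLinearGroup (Fin m) F) := by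
  classical
  let ι := Fin m ⊕ Fin m
  have hblk : ∀ A : Matrix.GeneralLinearGroup (Fin m) F,
      Matrix.fromBlocks (A : Matrix (Fin m) (Fin m) F) 0 0
        ((A⁻¹ : Matrix.GeneralLinearGroup (Fin m) F) : Matrix (Fin m) (Fin m) F).transpose
        ∈ Matrix.symplecticGroup (Fin m) F := by
    intro A
    rw [SymplecticGroup.fromBlocks_mem_iff]
    refine ⟨by simp, by simp, ?_⟩
    rw [Matrix.transpose_zero, Matrix.zero_mul, sub_zero, ← Matrix.transpose_mul, ← Units.val_mul,
      inv_mul_cancel, Units.val_one, Matrix.transpose_one]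
  let g : Matrix.GeneralLinearGroup (Fin m) F →* Matrix.symplecticGroup (Fin m) F :=
    { toFun := fun A => ⟨_, hblk A⟩
      map_one' := Subtype.ext (by simp [Matrix.fromBlocks_one])
      map_mul' := fun A B => Subtype.ext (by
        simp [Matrix.fromBlocks_multiply, mul_inv_rev, Matrix.transpose_mul]) }
  have hmul : ∀ (A : Matrix.GeneralLinearGroup (Fin m) F) (v : Fin m ⊕ Fin m → F),
      Cfsg.spToMat m F (g A) *ᵥ v = Sum.elim ((A : Matrix (Fin m) (Fin m) F).mulVec (v ∘ Sum.inl))
        (((A⁻¹ : Matrix.GeneralLinearGroup (Fin m) F) : Matrix (Fin m) (Fin m) F).transpose.mulVec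
          (v ∘ Sum.inr)) := by
    intro A v
    show (Matrix.fromBlocks _ 0 0 _).mulVec v = _
    rw [Matrix.fromBlocks_mulVec]
    simp
  set K := Cfsg.stabilizing (Cfsg.spToMat m F) {v : Fin m ⊕ Fin m → F | ∀ i : Fin m, v (Sum.inr i) = 0} ⊓
    Cfsg.stabilizing (Cfsg.spToMat m F) {v : Fin m ⊕ Fin m → F | ∀ i : Fin m, v (Sum.inl i) = 0}
  have hz : ∀ (M : Matrix (Fin m) (Fin m) F) (w : Fin m → F) (N : Matrix (Fin m) (Fin m) F),
      M * N = 1 → N.mulVec w = 0 → M * N = 1 ∧ w = 0 := fun M w N h1 h2 =>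
    ⟨h1, by rw [← Matrix.one_mulVec w, ← h1, ← Matrix.mulVec_mulVec, h2, Matrix.mulVec_zero]⟩
  have hrange : g.range = K := by
    apply le_antisymm
    · rintro _ ⟨A, rfl⟩
      refine Subgroup.mem_inf.2 ⟨fun v => ?_, fun v => ?_⟩
      · rw [hmul]
        simp only [Set.mem_setOf_eq, Sum.elim_inr]
        constructor
        · intro h i
          rw [show v ∘ Sum.inr = 0 from funext h, Matrix.mulVec_zero]; rfl
        · intro h
          refine congrFun ((hz ((A : Matrix (Fin m) (Fin m) F).transpose) (v ∘ Sum.inr) _ ?_ (funext h)).2)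
          rw [← Matrix.transpose_mul, ← Units.val_mul, inv_mul_cancel, Units.val_one,
            Matrix.transpose_one]
      · rw [hmul]
        simp only [Set.mem_setOf_eq, Sum.elim_inl]
        constructor
        · intro h i
          rw [show v ∘ Sum.inl = 0 from funext h, Matrix.mulVec_zero]; rfl
        · intro h
          refine congrFun ((hz ((A⁻¹ : Matrix.GeneralLinearGroup (Fin m) F) : Matrix (Fin m) (Fin m) F) (v ∘ Sum.inl) _ ?_ (funext h)).2)
          rw [← Units.val_mul, inv_mul_cancel, Units.val_one]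
    · intro s hs
      obtain ⟨h1, h2⟩ := Subgroup.mem_inf.1 hs
      obtain ⟨M, hM⟩ := s
      obtain ⟨A, B, C, D, rfl⟩ : ∃ A B C D, M = Matrix.fromBlocks A B C D :=
        ⟨_, _, _, _, (Matrix.fromBlocks_toBlocks M).symm⟩
      have hC : C = 0 := by
        refine Matrix.ext fun i j => ?_
        have := (h1 (Pi.single (Sum.inl j) 1)).1 (by simp) i
        simpa [Matrix.mulVec_single] using this
      have hB : B = 0 := by
        refine Matrix.ext fun i j => ?_
        have := (h2 (Pi.single (Sum.inr j) 1)).1 (by simp) i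
        simpa [Matrix.mulVec_single] using this
      subst hC hB
      obtain ⟨-, -, h3⟩ := SymplecticGroup.fromBlocks_mem_iff.1 hM
      rw [Matrix.transpose_zero, Matrix.zero_mul, sub_zero] at h3
      have h4 : D.transpose * A = 1 := by
        have := congrArg Matrix.transpose h3
        rwa [Matrix.transpose_mul, Matrix.transpose_transpose, Matrix.transpose_one] at this
      let u : Matrix.GeneralLinearGroup (Fin m) F :=
        ⟨A, D.transpose, mul_eq_one_comm.1 h4, h4⟩
      refine ⟨u, Subtype.ext ?_⟩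
      show Matrix.fromBlocks A 0 0 D.transpose.transpose = _
      rw [Matrix.transpose_transpose]
  have hinj : Function.Injective g := by
    intro A B h
    have := congrArg (fun s : Matrix.symplecticGroup (Fin m) F => (s.1).toBlocks₁₁) h
    exact Units.ext (by simpa [g] using this)
  exact ⟨((MonoidHom.ofInjective hinj).trans (MulEquiv.subgroupCongr hrange)).symm⟩

end Cfsg.Agent.S0778
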