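import Cfsg.Statements.S0779


set_option autoImplicit false
open Cfsg

namespace Cfsg.Agent.S0779

/-- Unitary transvections: let |F| = q², h the standard Hermitian form Σ x_i y_i^q and v ≠ 0 with h(v, v) = 0. The linear map x ↦ x + c h(x, v) v is an isometry of h if and only if c = 0 or c^(q−1) = −1. -/
theorem result {F : Type*} [Field F] [Fintype F] {q : ℕ} (hF : Fintype.card F = q ^ 2) (n : ℕ) (v : Fin n → F) (hv : v ≠ 0) (hv0 : Cfsg.hermForm n F q v v = 0) (c : F) : (∀ x y : Fin n → F, Cfsg.hermForm n F q ((Cfsg.unitaryTransvection n q v c).mulVec x) ((Cfsg.unitaryTransvection n q v c).mulVec y) = Cfsg.hermForm n F q x y) ↔ (c = 0 ∨ c ^ (q - 1) = -1) := by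
  classical
  obtain ⟨p, hp⟩ := CharP.exists F
  obtain ⟨k, hpr, hk⟩ := FiniteField.card F p
  haveI : Fact p.Prime := ⟨hpr⟩
  obtain ⟨e, -, rfl⟩ := (Nat.dvd_prime_pow hpr).1
    (show q ∣ p ^ (k : ℕ) from (hF.symm.trans hk) ▸ dvd_pow_self q two_ne_zero)
  set σ : F →+* F := iterateFrobenius F p e with hσdef
  have hσ : ∀ x, σ x = x ^ p ^ e := fun x => rfl
  have hσ2 : ∀ x, σ (σ x) = x := fun x => by
    rw [hσ, hσ, ← pow_mul, ← sq, ← hF, FiniteField.pow_card]
  have hh : ∀ x y : Fin n → F, Cfsg.hermForm n F (p ^ e) x y = ∑ i, x i * σ (y i) := fun x y => rfl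
  have hconj : ∀ x y : Fin n → F, σ (∑ i, x i * σ (y i)) = ∑ i, y i * σ (x i) := fun x y => by
    simp [map_sum, map_mul, hσ2, mul_comm]
  have hT : ∀ x, (Cfsg.unitaryTransvection n (p ^ e) v c).mulVec x =
      x + (c * ∑ i, x i * σ (v i)) • v := by
    intro x
    rw [Cfsg.unitaryTransvection, Matrix.add_mulVec, Matrix.one_mulVec, Matrix.smul_mulVec,
      Matrix.vecMulVec_mulVec, op_smul_eq_smul, smul_smul]
    congr 3
    exact Finset.sum_congr rfl fun i _ => mul_comm _ _
  have hval : ∀ x y : Fin n → F,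
      Cfsg.hermForm n F (p ^ e) ((Cfsg.unitaryTransvection n (p ^ e) v c).mulVec x)
        ((Cfsg.unitaryTransvection n (p ^ e) v c).mulVec y) = Cfsg.hermForm n F (p ^ e) x y +
          (c + σ c) * ((∑ i, x i * σ (v i)) * σ (∑ i, y i * σ (v i))) := by
    intro x y
    rw [hT, hT, hh, hh]
    rw [hh] at hv0
    simp only [Pi.add_apply, Pi.smul_apply, smul_eq_mul, map_add, map_mul, mul_add, add_mul,
      Finset.sum_add_distrib]
    have hb' := hconj y v
    obtain ⟨a, ha⟩ : ∃ a, ∑ i, x i * σ (v i) = a := ⟨_, rfl⟩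
    rw [ha]
    generalize (∑ i, y i * σ (v i)) = b at hb' ⊢
    have e1 : ∑ i, c * a * v i * σ (y i) = c * a * σ b := by
      rw [hb', Finset.mul_sum]
      exact Finset.sum_congr rfl fun i _ => by ring
    have e2 : ∑ i, x i * (σ c * σ b * σ (v i)) = σ c * σ b * a := by
      rw [← ha, Finset.mul_sum]
      exact Finset.sum_congr rfl fun i _ => by ring
    have e3 : ∑ i, c * a * v i * (σ c * σ b * σ (v i)) = 0 := by
      rw [← mul_zero (c * a * (σ c * σ b)), ← hv0, Finset.mul_sum]
      exact Finset.sum_congr rfl fun i _ => by ring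
    rw [e1, e2, e3]
    ring
  constructor
  · intro h
    obtain ⟨j, hj⟩ := Function.ne_iff.1 hv
    rw [Pi.zero_apply] at hj
    have h1 := (hval (Pi.single j 1) (Pi.single j 1)).symm.trans (h _ _)
    rw [add_eq_left, mul_eq_zero, mul_eq_zero] at h1
    have hs : (∑ i, (Pi.single j 1 : Fin n → F) i * σ (v i)) ≠ 0 := by
      rw [Finset.sum_eq_single j (fun i _ hi => by simp [hi]) (by simp)]
      simpa using hj
    have h2 : c + σ c = 0 := by
      rcases h1 with h1 | h1 | h1
      · exact h1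
      · exact absurd h1 hs
      · exact absurd ((map_eq_zero σ).1 h1) hs
    rcases eq_or_ne c 0 with hc | hc
    · exact Or.inl hc
    · refine Or.inr (mul_right_cancel₀ hc ?_)
      rw [← pow_succ, Nat.sub_add_cancel (Nat.one_le_iff_ne_zero.2 (pow_ne_zero e hpr.ne_zero)),
        ← hσ]
      linear_combination h2
  · intro h x y
    have h2 : c + σ c = 0 := by
      rcases h with rfl | h
      · simp
      · rw [hσ, ← Nat.sub_add_cancel (Nat.one_le_iff_ne_zero.2 (pow_ne_zero e hpr.ne_zero)),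
          pow_succ, h]
        ring
    rw [hval, h2, zero_mul, add_zero]

end Cfsg.Agent.S0779
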