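import Cfsg.Statements.S0783
import Cfsg.Agent.Classical.Unitary.Center

set_option autoImplicit false
open Cfsg

namespace Cfsg.Agent.S0783

/-- PGU_n(q)/PSU_n(q) is cyclic of order (n, q+1): for n ≥ 2 and |F| = q² there is a surjective homomorphism from GU_n(q) onto the cyclic group of order gcd(n, q + 1) whose kernel is generated by the determinant-one elements together with the centre. -/
theorem result {F : Type*} [Field F] [Fintype F] {q : ℕ} (hF : Fintype.card F = q ^ 2) (n : ℕ) (hn : 2 ≤ n) : ∃ φ : ↥(Cfsg.GU n F q) →* Multiplicative (ZMod (Nat.gcd n (q + 1))), Function.Surjective φ ∧ φ.ker = (Matrix.GeneralLinearGroup.det : Matrix.GeneralLinearGroup (Fin n) F →* Fˣ).ker.subgroupOf (Cfsg.GU n F q) ⊔ Subgroup.center ↥(Cfsg.GU n F q) := by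
  classical
  have hcdvd : Nat.gcd n (q + 1) ∣ q + 1 := Nat.gcd_dvd_right _ _
  set g := Nat.gcd n (q + 1) with hg
  obtain ⟨e, he⟩ := hcdvd
  have hq1 : q + 1 ≠ 0 := Nat.succ_ne_zero q
  have hg0 : g ≠ 0 := fun h => hq1 (by rw [he, h, zero_mul])
  have he0 : e ≠ 0 := fun h => hq1 (by rw [he, h, mul_zero])
  let μ : Subgroup Fˣ := (powMonoidHom (q + 1) : Fˣ →* Fˣ).ker
  have hμcard : Nat.card μ = q + 1 := by
    show Nat.card (powMonoidHom (q + 1) : Fˣ →* Fˣ).ker = q + 1
    rw [IsCyclic.card_powMonoidHom_ker, CfsgLib.Unitary.card_units_eq hF]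
    exact Nat.gcd_eq_right (dvd_mul_left _ _)
  let δ : ↥(Cfsg.GU n F q) →* μ := CfsgLib.Unitary.detGU.codRestrict μ (fun x => by
    show _ ∈ (powMonoidHom (q + 1) : Fˣ →* Fˣ).ker
    rw [← CfsgLib.Unitary.range_detGU hF (by omega : 1 ≤ n)]; exact ⟨x, rfl⟩)
  have hδsurj : Function.Surjective δ := by
    rintro ⟨t, ht⟩
    change t ∈ (powMonoidHom (q + 1) : Fˣ →* Fˣ).ker at ht
    rw [← CfsgLib.Unitary.range_detGU hF (by omega : 1 ≤ n)] at ht
    obtain ⟨x, hx⟩ := ht
    exact ⟨x, Subtype.ext hx⟩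
  let P : μ →* μ := powMonoidHom e
  have hcyc : IsCyclic P.range := inferInstance
  have hPcard : Nat.card P.range = g := by
    show Nat.card (powMonoidHom e : μ →* μ).range = g
    rw [IsCyclic.card_powMonoidHom_range, hμcard, he, Nat.gcd_eq_right (dvd_mul_left _ _),
      Nat.mul_div_cancel _ (Nat.pos_of_ne_zero he0)]
  -- the kernel of `P` is the image of the scalar determinants
  have hker : P.ker = (powMonoidHom n : μ →* μ).range := by
    symm
    refine Subgroup.eq_of_le_of_card_ge ?_ ?_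
    · rintro _ ⟨y, rfl⟩
      show (y ^ n) ^ e = 1
      obtain ⟨m, hm⟩ := Nat.gcd_dvd_left n (q + 1)
      rw [← hg] at hm
      rw [← pow_mul, show n * e = (q + 1) * m by rw [he, hm]; ring, pow_mul,
        show y ^ (q + 1) = 1 from Subtype.ext y.2, one_pow]
    · show Nat.card (powMonoidHom e : μ →* μ).ker ≤ Nat.card (powMonoidHom n : μ →* μ).range
      rw [IsCyclic.card_powMonoidHom_ker, IsCyclic.card_powMonoidHom_range, hμcard, Nat.gcd_comm (q + 1) n, ← hg,
        he, Nat.gcd_eq_right (dvd_mul_left _ _), Nat.mul_div_cancel_left _ (Nat.pos_of_ne_zero hg0)]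
  refine ⟨((MulEquiv.cast (M := fun k => Multiplicative (ZMod k)) hPcard).toMonoidHom).comp
    ((zmodCyclicMulEquiv hcyc).symm.toMonoidHom.comp (P.rangeRestrict.comp δ)), ?_, ?_⟩
  · exact ((MulEquiv.cast (M := fun k => Multiplicative (ZMod k)) hPcard).surjective.comp
      ((zmodCyclicMulEquiv hcyc).symm.surjective.comp (P.rangeRestrict_surjective.comp hδsurj)))
  have hk0 : (((MulEquiv.cast (M := fun k => Multiplicative (ZMod k)) hPcard).toMonoidHom).comp
    ((zmodCyclicMulEquiv hcyc).symm.toMonoidHom.comp (P.rangeRestrict.comp δ))).ker = P.ker.comap δ := by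
    ext x
    simp only [MonoidHom.mem_ker, MonoidHom.comp_apply, MulEquiv.coe_toMonoidHom, MulEquiv.map_eq_one_iff, Subgroup.mem_comap]
    exact Subtype.ext_iff
  rw [hk0, hker]
  have hdetker : (Matrix.GeneralLinearGroup.det : Matrix.GeneralLinearGroup (Fin n) F →* Fˣ).ker.subgroupOf (Cfsg.GU n F q) = δ.ker := by
    rw [MonoidHom.ker_codRestrict]; rfl
  rw [hdetker]
  apply le_antisymm
  · intro x hx
    obtain ⟨y, hy⟩ := hx
    obtain ⟨A, hA, hAv⟩ : ∃ A ∈ Cfsg.GU n F q, (A : Matrix (Fin n) (Fin n) F) = Matrix.scalar (Fin n) ((y : Fˣ) : F) := by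
      have hy1 : (((y : Fˣ) : F)) ^ (q + 1) = 1 := by
        rw [← Units.val_pow_eq_pow_val, show (y : Fˣ) ^ (q + 1) = 1 from y.2, Units.val_one]
      exact ⟨(CfsgLib.Unitary.diagGU (fun _ => ((y : Fˣ) : F)) (fun _ => hy1)).1,
        (CfsgLib.Unitary.diagGU (fun _ => ((y : Fˣ) : F)) (fun _ => hy1)).2, by
        rw [CfsgLib.Unitary.diagGU_val]; rfl⟩
    have hc : (⟨A, hA⟩ : ↥(Cfsg.GU n F q)) ∈ Subgroup.center ↥(Cfsg.GU n F q) := by
      refine Subgroup.mem_center_iff.2 fun B => Subtype.ext (Units.ext ?_)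
      show _ * (A : Matrix (Fin n) (Fin n) F) = (A : Matrix (Fin n) (Fin n) F) * _
      rw [hAv]
      exact (Matrix.scalar_commute _ (fun r => Commute.all _ _) _).eq.symm
    have hd : δ ⟨A, hA⟩ = y ^ n := by
      apply Subtype.ext
      apply Units.ext
      show (A : Matrix (Fin n) (Fin n) F).det = _
      rw [hAv]
      simp [Matrix.det_diagonal]
    rw [← inv_mul_cancel_right x ⟨A, hA⟩]
    refine Subgroup.mul_mem_sup ?_ hc
    rw [MonoidHom.mem_ker, map_mul, map_inv, hd]
    exact mul_inv_eq_one.2 hy.symm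
  · refine sup_le ?_ ?_
    · intro x hx
      exact ⟨1, by simpa [MonoidHom.mem_ker.1 hx] using (map_one (powMonoidHom n : μ →* μ))⟩
    · intro x hx
      obtain ⟨c, hc⟩ := CfsgLib.Unitary.eq_scalar_of_commute_SU hF hn
        (((x : ↥(Cfsg.GU n F q)) : GL (Fin n) F) : Matrix (Fin n) (Fin n) F) (fun B hB => by
          have := Subgroup.mem_center_iff.1 hx ⟨Matrix.SpecialLinearGroup.toGL B, hB⟩
          exact (congrArg (fun z : ↥(Cfsg.GU n F q) => ((z : GL (Fin n) F) : Matrix (Fin n) (Fin n) F)) this).symm)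
      have hdet := CfsgLib.Unitary.det_pow_succ_eq_one hF x.2
      have hc0 : c ≠ 0 := by
        rintro rfl
        rw [hc] at hdet
        have : Nonempty (Fin n) := ⟨⟨0, by omega⟩⟩
        simp [Matrix.det_zero] at hdet
      have hc1 : c ^ (q + 1) = 1 := by
        have h := CfsgLib.Unitary.mem_GU.1 x.2 (Pi.single ⟨0, by omega⟩ 1) (Pi.single ⟨0, by omega⟩ 1)
        rw [hc, show (Matrix.scalar (Fin n) c).mulVec (Pi.single (⟨0, by omega⟩ : Fin n) 1)
          = c • Pi.single (⟨0, by omega⟩ : Fin n) 1 from by ext j; simp [Matrix.mulVec_diagonal],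
          CfsgLib.Unitary.herm_self_smul, CfsgLib.Unitary.herm_single_single hF, if_pos rfl, mul_one] at h
        exact h
      refine ⟨⟨Units.mk0 c hc0, Units.ext (by simpa using hc1)⟩, ?_⟩
      apply Subtype.ext
      apply Units.ext
      show c ^ n = (((x : ↥(Cfsg.GU n F q)) : GL (Fin n) F) : Matrix (Fin n) (Fin n) F).det
      rw [hc]
      simp [Matrix.det_diagonal]

end Cfsg.Agent.S0783
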