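import Cfsg.Statements.S0785
import Cfsg.Agent.LinAlg.RankOneMat

set_option autoImplicit false
open Cfsg

namespace Cfsg.Agent.S0785

/-- det(I) = {±1}: for a quadratic form on F^n whose polar form is non-degenerate, every element of the isometry group has determinant 1 or −1, and as soon as Q takes a non-zero value some isometry has determinant −1. -/
theorem result {F : Type*} [Field F] {n : ℕ} (Q : QuadraticForm F (Fin n → F)) (hQ : (QuadraticMap.polarBilin Q).Nondegenerate) : (∀ g : ↥(Cfsg.isometryGroup F ⇑Q), ((g : Matrix.GeneralLinearGroup (Fin n) F) : Matrix (Fin n) (Fin n) F).det = 1 ∨ ((g : Matrix.GeneralLinearGroup (Fin n) F) : Matrix (Fin n) (Fin n) F).det = -1) ∧ ((∃ v, Q v ≠ 0) → ∃ g : ↥(Cfsg.isometryGroup F ⇑Q), ((g : Matrix.GeneralLinearGroup (Fin n) F) : Matrix (Fin n) (Fin n) F).det = -1) := by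
  classical
  set A : Matrix (Fin n) (Fin n) F :=
    LinearMap.toMatrix₂' F (QuadraticMap.polarBilin Q) with hA
  have hA0 : A.det ≠ 0 := (LinearMap.separatingLeft_iff_det_ne_zero (Pi.basisFun F (Fin n))).1 hQ.1
  refine ⟨fun g => ?_, fun ⟨v, hv⟩ => ?_⟩
  · set M : Matrix (Fin n) (Fin n) F := ((g : Matrix.GeneralLinearGroup (Fin n) F) : Matrix (Fin n) (Fin n) F)
    have hpres : ∀ x, Q (M.mulVec x) = Q x := fun x => g.2 x 0
    have h : (QuadraticMap.polarBilin Q).compl₁₂ (Matrix.toLin' M) (Matrix.toLin' M) =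
        QuadraticMap.polarBilin Q := by
      refine LinearMap.ext fun x => LinearMap.ext fun y => ?_
      simp only [LinearMap.compl₁₂_apply, Matrix.toLin'_apply, QuadraticMap.polarBilin_apply_apply,
        QuadraticMap.polar, ← Matrix.mulVec_add, hpres]
    have h1 := congrArg (LinearMap.toMatrix₂' F) h
    rw [LinearMap.toMatrix₂'_compl₁₂, LinearMap.toMatrix'_toLin'] at h1
    have h2 := congrArg Matrix.det h1
    rw [Matrix.det_mul, Matrix.det_mul, Matrix.det_transpose, ← hA] at h2
    refine mul_self_eq_one_iff.1 (mul_right_cancel₀ hA0 ?_)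
    linear_combination h2
  · have hdet : (Cfsg.reflectionMatrix ⇑Q v).det = -1 :=
      CfsgLib.LinAlg.RankOneMat.reflectionMatrix_det Q hv
    refine ⟨⟨Matrix.GeneralLinearGroup.mkOfDetNeZero (Cfsg.reflectionMatrix ⇑Q v)
      (by rw [hdet]; exact neg_ne_zero.2 one_ne_zero), fun x _ => ?_⟩, hdet⟩
    show Q ((Cfsg.reflectionMatrix ⇑Q v).mulVec x) = Q x
    rw [CfsgLib.LinAlg.RankOneMat.reflectionMatrix_mulVec, sub_eq_add_neg, ← neg_smul,
      QuadraticMap.map_add (f := ⇑Q),
      QuadraticMap.map_smul, QuadraticMap.polar_smul_right, QuadraticMap.polar_comm (⇑Q) x v,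
      smul_eq_mul, smul_eq_mul]
    field_simp
    ring

end Cfsg.Agent.S0785
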