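import Cfsg.Statements.S0786
import Cfsg.Agent.Eq.Def_Classical
import Cfsg.Agent.Eq.Def_ClassicalGeometry
import Cfsg.Agent.Classical.Orth.Diag
import Cfsg.Agent.Classical.Orth.Pairs
import Cfsg.Agent.Classical.Orth.Forms

set_option autoImplicit false
open Cfsg

namespace Cfsg.Agent.S0786
open CfsgLib.Classical.Orth CfsgLib.OrthGeo


/-- Generation by reflections: if F is finite, Q is a quadratic form on F^n with non-degenerate polar form, and (|F|, n) ≠ (2, 4), then the isometry group of Q is generated by the reflections r_v, Q(v) ≠ 0. -/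
theorem result {F : Type*} [Field F] [Fintype F] {n : ℕ} (Q : QuadraticForm F (Fin n → F)) (hQ : (QuadraticMap.polarBilin Q).Nondegenerate) (h : Fintype.card F ≠ 2 ∨ n ≠ 4) : Subgroup.closure {g : ↥(Cfsg.isometryGroup F ⇑Q) | ∃ v : Fin n → F, Q v ≠ 0 ∧ ((g : Matrix.GeneralLinearGroup (Fin n) F) : Matrix (Fin n) (Fin n) F) = Cfsg.reflectionMatrix ⇑Q v} = ⊤ := by
  have hN := isNondegQF_of_quadraticForm Q hQ
  have hexc : ¬ (Nat.card F = 2 ∧ Fintype.card (Fin n) = 4) := by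
    rintro ⟨h1, h4⟩
    rw [Nat.card_eq_fintype_card] at h1
    rw [Fintype.card_fin] at h4
    rcases h with h | h <;> omega
  refine eq_top_iff.2 fun g _ => ?_
  obtain ⟨G, hG⟩ := g
  refine reflection_induction hN hexc (p := fun G => ∀ hG : G ∈ Cfsg.isometryGroup F ⇑Q,
    (⟨G, hG⟩ : ↥(Cfsg.isometryGroup F ⇑Q)) ∈ Subgroup.closure {g : ↥(Cfsg.isometryGroup F ⇑Q) |
      ∃ v : Fin n → F, Q v ≠ 0 ∧ ((g : Matrix.GeneralLinearGroup (Fin n) F) : Matrix (Fin n) (Fin n) F)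
        = Cfsg.reflectionMatrix ⇑Q v}) (fun _ => one_mem _) ?_ hG hG
  intro g v hv hg ih hG
  rw [show (⟨reflection hN hv * g, hG⟩ : ↥(Cfsg.isometryGroup F ⇑Q)) = refl hN hv * ⟨g, hg⟩ from rfl]
  exact mul_mem (Subgroup.subset_closure ⟨v, hv, refl_val hN hv⟩) (ih hg)

end Cfsg.Agent.S0786
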