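import Cfsg.Statements.S0787
import Cfsg.Agent.Eq.Def_Classical
import Cfsg.Agent.Eq.Def_ClassicalGeometry
import Cfsg.Agent.Classical.Orth.Diag
import Cfsg.Agent.Classical.Orth.Pairs
import Cfsg.Agent.Classical.Orth.Forms

set_option autoImplicit false
open Cfsg

namespace Cfsg.Agent.S0787
open CfsgLib.Classical.Orth CfsgLib.OrthGeo


/-- Existence and uniqueness of Ω: if F is finite, n ≥ 2, Q is a quadratic form on F^n with non-degenerate polar form and (|F|, n) ≠ (2, 4), then the group of isometries of determinant one has a unique subgroup of index 2. -/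
theorem result {F : Type*} [Field F] [Fintype F] {n : ℕ} (hn : 2 ≤ n) (Q : QuadraticForm F (Fin n → F)) (hQ : (QuadraticMap.polarBilin Q).Nondegenerate) (h : Fintype.card F ≠ 2 ∨ n ≠ 4) : ∃! H : Subgroup ↥(Cfsg.specialIsometryGroup F ⇑Q), H.index = 2 := by
  have hN := isNondegQF_of_quadraticForm Q hQ
  have hexc : ¬ (Nat.card F = 2 ∧ Fintype.card (Fin n) = 4) := by
    rintro ⟨h1, h4⟩
    rw [Nat.card_eq_fintype_card] at h1
    rw [Fintype.card_fin] at h4
    rcases h with h | h <;> omega
  have hdet : ∀ g : ↥(Cfsg.isometryGroup F ⇑Q), g ∈ Cfsg.specialIsometryGroup F ⇑Q ↔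
      ((g : Matrix.GeneralLinearGroup (Fin n) F) : Matrix (Fin n) (Fin n) F).det = 1 := fun g =>
    ⟨fun hg => congrArg Units.val (MonoidHom.mem_ker.1 hg), fun hg => MonoidHom.mem_ker.2 (Units.ext hg)⟩
  have hle : Cfsg.Omega F ⇑Q ≤ Cfsg.specialIsometryGroup F ⇑Q := fun g hg => (hdet g).2 (by
    rw [det_eq_neg_one_pow hN hexc g.2, ((mem_omega_iff hN hexc g).1 hg).1.neg_one_pow])
  have hpair : ∀ (u v : Fin n → F) (hu : Q u ≠ 0) (hv : Q v ≠ 0),
      refl hN hu * refl hN hv ∈ Cfsg.specialIsometryGroup F ⇑Q := fun u v hu hv => (hdet _).2 (by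
    rw [Subgroup.coe_mul, Units.val_mul, refl_val hN hu, refl_val hN hv, Matrix.det_mul,
      det_reflection hN hu, det_reflection hN hv]
    ring)
  have hidx : ((Cfsg.Omega F ⇑Q).subgroupOf (Cfsg.specialIsometryGroup F ⇑Q)).index = 2 := by
    have h1 := Subgroup.relIndex_mul_index hle
    rw [Subgroup.relIndex] at h1
    by_cases h2 : (2 : F) = 0
    · rw [index_omega_even hN h2 (by simp; omega) hexc] at h1
      have hsi : Cfsg.specialIsometryGroup F ⇑Q = ⊤ := eq_top_iff.2 fun g _ => (hdet g).2 (by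
        rw [det_eq_neg_one_pow hN hexc g.2, show (-1 : F) = 1 by linear_combination -h2, one_pow])
      rwa [Subgroup.index_eq_one.2 hsi, mul_one] at h1
    · rw [index_omega_odd hN h2 (by simpa using hn)] at h1
      have hsi : (Cfsg.specialIsometryGroup F ⇑Q).index = 2 := by
        obtain ⟨v, hv⟩ := exists_q_eq hN (by simpa using hn) one_ne_zero
        have hv0 : Q v ≠ 0 := by rw [hv]; exact one_ne_zero
        refine Subgroup.index_eq_two_iff_exists_notMem_and.2 ⟨refl hN hv0, fun hm => ?_, fun g => ?_⟩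
        · have := (hdet _).1 hm
          rw [refl_val hN hv0, det_reflection hN hv0] at this
          exact h2 (by linear_combination -this)
        · by_cases hg : g ∈ Cfsg.specialIsometryGroup F ⇑Q
          · exact Or.inr hg
          · refine Or.inl ((hdet _).2 ?_)
            rw [Subgroup.coe_mul, Units.val_mul, refl_val hN hv0, Matrix.det_mul, det_reflection hN hv0,
              det_eq_neg_one_pow hN hexc g.2]
            have ho : ¬ Even (Module.finrank F (residual (g : Matrix.GeneralLinearGroup (Fin n) F))) :=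
              fun he => hg ((hdet g).2 (by rw [det_eq_neg_one_pow hN hexc g.2, he.neg_one_pow]))
            rw [(Nat.not_even_iff_odd.1 ho).neg_one_pow]
            ring
      rw [hsi] at h1
      omega
  refine ⟨_, hidx, fun H hH => ?_⟩
  have hHn : H.Normal := Subgroup.normal_of_index_eq_two hH
  let S : Subgroup ↥(Cfsg.isometryGroup F ⇑Q) :=
    Subgroup.closure {x | ∃ u v : Fin n → F, ∃ (hu : Q u ≠ 0) (hv : Q v ≠ 0), x = (refl hN hu * refl hN hv) ^ 2}
  have hSn : S.Normal := by
    refine ⟨fun x hx g => ?_⟩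
    suffices S ≤ S.comap (MulAut.conj g).toMonoidHom from this hx
    rw [Subgroup.closure_le]
    rintro _ ⟨u, v, hu, hv, rfl⟩
    have hgQ : ∀ w : Fin n → F, Q ((g : Matrix.GeneralLinearGroup (Fin n) F).val.mulVec w) = Q w :=
      fun w => g.2 w w
    have hu' : Q ((g : Matrix.GeneralLinearGroup (Fin n) F).val.mulVec u) ≠ 0 := by rwa [hgQ]
    have hv' : Q ((g : Matrix.GeneralLinearGroup (Fin n) F).val.mulVec v) ≠ 0 := by rwa [hgQ]
    refine Subgroup.subset_closure ⟨_, _, hu', hv', ?_⟩
    rw [map_pow, map_mul]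
    have e : ∀ (w : Fin n → F) (hw : Q w ≠ 0)
        (hw' : Q ((g : Matrix.GeneralLinearGroup (Fin n) F).val.mulVec w) ≠ 0),
        (MulAut.conj g).toMonoidHom (refl hN hw) = refl hN hw' := fun w hw hw' => by
      apply Subtype.ext
      show (g : Matrix.GeneralLinearGroup (Fin n) F) * reflection hN hw * (g : Matrix.GeneralLinearGroup (Fin n) F)⁻¹ = _
      exact conj_reflection hN g.2 hw hw' rfl
    rw [e u hu hu', e v hv hv']
  have hS : Cfsg.Omega F ⇑Q ≤ S := omega_le_of_sq_pairs hN hexc S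
    fun u v hu hv => Subgroup.subset_closure ⟨u, v, hu, hv, rfl⟩
  have hSH : S ≤ H.map (Cfsg.specialIsometryGroup F ⇑Q).subtype := by
    rw [Subgroup.closure_le]
    rintro _ ⟨u, v, hu, hv, rfl⟩
    exact ⟨⟨_, hpair u v hu hv⟩ ^ 2, Subgroup.sq_mem_of_index_two hH _, rfl⟩
  have hsub : (Cfsg.Omega F ⇑Q).subgroupOf (Cfsg.specialIsometryGroup F ⇑Q) ≤ H := by
    intro x hx
    obtain ⟨y, hy, hyx⟩ := hSH (hS (Subgroup.mem_subgroupOf.1 hx))
    rwa [← Subtype.ext hyx]
  refine (le_antisymm hsub ?_).symm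
  have := Subgroup.relIndex_mul_index hsub
  rw [hidx, hH] at this
  exact Subgroup.relIndex_eq_one.1 (by omega)

end Cfsg.Agent.S0787
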