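import Cfsg.Statements.S0792
import Cfsg.Agent.Eq.Def_Classical
import Cfsg.Agent.Eq.Def_ClassicalGeometry
import Cfsg.Agent.Classical.Orth.Diag
import Cfsg.Agent.Classical.Orth.Pairs
import Cfsg.Agent.Classical.Orth.Forms

set_option autoImplicit false
open Cfsg

namespace Cfsg.Agent.S0792
open CfsgLib.Classical.Orth CfsgLib.OrthGeo


/-- For q odd and Q with non-degenerate polar form on F^n, the determinant-one isometries form the subgroup generated by all products r_u r_v of two reflections (Q(u), Q(v) ≠ 0). -/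
theorem result {F : Type*} [Field F] [Fintype F] (h2 : (2 : F) ≠ 0) {n : ℕ} (Q : QuadraticForm F (Fin n → F)) (hQ : (QuadraticMap.polarBilin Q).Nondegenerate) : Cfsg.specialIsometryGroup F ⇑Q = Subgroup.closure {g : ↥(Cfsg.isometryGroup F ⇑Q) | ∃ u v : Fin n → F, Q u ≠ 0 ∧ Q v ≠ 0 ∧ ((g : Matrix.GeneralLinearGroup (Fin n) F) : Matrix (Fin n) (Fin n) F) = Cfsg.reflectionMatrix ⇑Q u * Cfsg.reflectionMatrix ⇑Q v} := by
  have hN := isNondegQF_of_quadraticForm Q hQ
  have hexc : ¬ (Nat.card F = 2 ∧ Fintype.card (Fin n) = 4) := not_exc_of_two_ne_zero h2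
  apply le_antisymm
  · intro g hg
    refine mem_closure_pairs hN hexc g ?_
    have h1 : ((g : Matrix.GeneralLinearGroup (Fin n) F) : Matrix (Fin n) (Fin n) F).det = 1 :=
      congrArg Units.val (MonoidHom.mem_ker.1 hg)
    rw [det_eq_neg_one_pow hN hexc g.2] at h1
    rcases Nat.even_or_odd (Module.finrank F (residual (g : Matrix.GeneralLinearGroup (Fin n) F))) with he | ho
    · exact he
    · rw [ho.neg_one_pow] at h1
      exact absurd (by linear_combination -h1) h2
  · rw [Subgroup.closure_le]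
    rintro g ⟨u, v, hu, hv, hg⟩
    refine MonoidHom.mem_ker.2 (Units.ext ?_)
    show ((g : Matrix.GeneralLinearGroup (Fin n) F) : Matrix (Fin n) (Fin n) F).det = 1
    rw [hg, Matrix.det_mul, det_reflection hN hu, det_reflection hN hv]
    ring

end Cfsg.Agent.S0792
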