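import Cfsg.Statements.S0794
import Cfsg.Agent.Eq.Def_ClassicalGeometry
import Cfsg.Agent.OrthGeo.Siegel

set_option autoImplicit false
open Cfsg

namespace Cfsg.Agent.S0794

/-- For q odd, n ≥ 5 and Q with non-degenerate polar form: an isometry whose matrix is a Siegel transformation T_(u,v)(c) (u, v singular and orthogonal) is a commutator in the isometry group, so lies in Ω. -/
theorem result {F : Type*} [Field F] [Fintype F] (h2 : (2 : F) ≠ 0) {n : ℕ} (hn : 5 ≤ n) (Q : QuadraticForm F (Fin n → F)) (hQ : (QuadraticMap.polarBilin Q).Nondegenerate) (u v : Fin n → F) (hu : Q u = 0) (hv : Q v = 0) (huv : QuadraticMap.polar ⇑Q u v = 0) (c : F) (g : ↥(Cfsg.isometryGroup F ⇑Q)) (hg : ((g : Matrix.GeneralLinearGroup (Fin n) F) : Matrix (Fin n) (Fin n) F) = Cfsg.siegelMatrix ⇑Q u v c) : g ∈ commutatorSet ↥(Cfsg.isometryGroup F ⇑Q) ∧ g ∈ Cfsg.Omega F ⇑Q := by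
  have hQ' := CfsgLib.OrthGeo.isNondegenerateQuadraticForm_of_polarBilin Q hQ
  have hn' : 5 ≤ Fintype.card (Fin n) := by rw [Fintype.card_fin]; exact hn
  have hw : CfsgLib.OrthGeo.bform hQ' u (-(c • v)) = 0 := by
    rw [map_neg, map_smul, CfsgLib.OrthGeo.bform_apply hQ', huv, smul_zero, neg_zero]
  have hx : Q (-(c • v)) = 0 := by
    rw [CfsgLib.OrthGeo.q_neg hQ', CfsgLib.OrthGeo.q_smul hQ', hv, mul_zero]
  have hge : (g : Matrix.GeneralLinearGroup (Fin n) F) = CfsgLib.OrthGeo.eichler hQ' hu hw :=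
    Units.ext (hg.trans (CfsgLib.OrthGeo.siegelMatrix_eq_eichler hQ' c hu hv hw))
  obtain ⟨a, ha, b, hb, hab⟩ := CfsgLib.OrthGeo.eichler_singular_eq_commutator hQ' hn' hu hx hw
  refine ⟨⟨⟨a, CfsgLib.OrthGeo.omegaGL_le ha⟩, ⟨b, CfsgLib.OrthGeo.omegaGL_le hb⟩,
    Subtype.ext (hge.trans hab).symm⟩, ?_⟩
  obtain ⟨y, hy, hye⟩ := CfsgLib.OrthGeo.eichler_mem_omega hQ' hn' hu hw
  rwa [show g = y from Subtype.ext (hge.trans hye.symm)]

end Cfsg.Agent.S0794
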