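import Cfsg.Statements.S0795
import Cfsg.Agent.Eq.Def_ClassicalGeometry
import Cfsg.Agent.OrthGeo.Siegel

set_option autoImplicit false
open Cfsg

namespace Cfsg.Agent.S0795

/-- Generation of Ω by root elements: for q odd, n ≥ 5 and Q with non-degenerate polar form on F^n, the commutator subgroup of the isometry group equals the subgroup generated by the isometries whose matrices are Siegel transformations T_(u,v)(c) with u, v singular and orthogonal. -/
theorem result {F : Type*} [Field F] [Fintype F] (h2 : (2 : F) ≠ 0) {n : ℕ} (hn : 5 ≤ n) (Q : QuadraticForm F (Fin n → F)) (hQ : (QuadraticMap.polarBilin Q).Nondegenerate) : Cfsg.Omega F ⇑Q = Subgroup.closure {g : ↥(Cfsg.isometryGroup F ⇑Q) | ∃ (u v : Fin n → F) (c : F), Q u = 0 ∧ Q v = 0 ∧ QuadraticMap.polar ⇑Q u v = 0 ∧ ((g : Matrix.GeneralLinearGroup (Fin n) F) : Matrix (Fin n) (Fin n) F) = Cfsg.siegelMatrix ⇑Q u v c} := by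
  have hQ' := CfsgLib.OrthGeo.isNondegenerateQuadraticForm_of_polarBilin Q hQ
  have hn' : 5 ≤ Fintype.card (Fin n) := by rw [Fintype.card_fin]; exact hn
  apply le_antisymm
  · intro g hg
    have hgE : (g : Matrix.GeneralLinearGroup (Fin n) F) ∈ CfsgLib.OrthGeo.eichlerGroup hQ' :=
      CfsgLib.OrthGeo.omegaGL_eq_eichlerGroup hQ' hn' ▸ ⟨g, hg, rfl⟩
    rw [← Subgroup.mem_map_iff_mem (Cfsg.isometryGroup F ⇑Q).subtype_injective]
    refine (Subgroup.closure_le _).2 ?_ hgE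
    rintro _ ⟨u, w, hu, hw, rfl⟩
    refine CfsgLib.OrthGeo.eichler_mem_of_singular_pairs hQ' hn' _ (fun u x hu hx hux => ?_) hu hw
    have h1 : CfsgLib.OrthGeo.bform hQ' u (-((-1 : F) • x)) = 0 := by rw [neg_one_smul, neg_neg]; exact hux
    refine ⟨⟨_, CfsgLib.OrthGeo.eichler_mem_isometryGroup hQ' hu hux⟩,
      Subgroup.subset_closure ⟨u, x, -1, hu, hx, hux, ?_⟩, rfl⟩
    rw [CfsgLib.OrthGeo.siegelMatrix_eq_eichler hQ' (-1) hu hx h1]
    exact congrArg _ (CfsgLib.OrthGeo.eichler_congr hQ' hu hux h1 (by rw [neg_one_smul, neg_neg]))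
  · refine (Subgroup.closure_le _).2 ?_
    rintro g ⟨u, v, c, hu, hv, huv, hg⟩
    have hw : CfsgLib.OrthGeo.bform hQ' u (-(c • v)) = 0 := by
      rw [map_neg, map_smul, CfsgLib.OrthGeo.bform_apply hQ', huv, smul_zero, neg_zero]
    have hge : (g : Matrix.GeneralLinearGroup (Fin n) F) = CfsgLib.OrthGeo.eichler hQ' hu hw :=
      Units.ext (hg.trans (CfsgLib.OrthGeo.siegelMatrix_eq_eichler hQ' c hu hv hw))
    obtain ⟨y, hy, hye⟩ := CfsgLib.OrthGeo.eichler_mem_omega hQ' hn' hu hw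
    rwa [show g = y from Subtype.ext (hge.trans hye.symm)]

end Cfsg.Agent.S0795
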