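import Cfsg.Statements.S0796
-- import your own Cfsg.Agent.* helpers here

set_option autoImplicit false
open Cfsg

namespace Cfsg.Agent.S0796

/-- If G is finite and acts faithfully and primitively on X, H is the stabiliser of a point, A is a normal subgroup of H whose normal closure in G is G, then for every non-trivial normal subgroup K of G the quotient G ⧸ K is isomorphic to A ⧸ B for some normal subgroup B of A. -/
theorem result {G X : Type*} [Group G] [Finite G] [MulAction G X] [FaithfulSMul G X] (hprim : MulAction.IsPreprimitive G X) (x : X) (A : Subgroup G) (hA : A ≤ MulAction.stabilizer G x) (hAn : (A.subgroupOf (MulAction.stabilizer G x)).Normal) (hgen : Subgroup.normalClosure (A : Set G) = ⊤) (K : Subgroup G) [K.Normal] (hK : K ≠ ⊥) : ∃ (B : Subgroup A) (_ : B.Normal), Nonempty (G ⧸ K ≃* A ⧸ B) := by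
  classical
  haveI := hprim
  have hKt : MulAction.IsPretransitive K X := by
    refine MulAction.IsQuasiPreprimitive.isPretransitive_of_normal fun hfix => hK ?_
    refine eq_bot_iff.2 fun g hg => Subgroup.mem_bot.2 ?_
    refine FaithfulSMul.eq_of_smul_eq_smul (α := X) fun y => ?_
    rw [one_smul]
    exact (Set.eq_univ_iff_forall.1 hfix y) ⟨g, hg⟩
  have htop : A ⊔ K = ⊤ := by
    have hn : (A ⊔ K).Normal := by
      refine ⟨fun y hy g => ?_⟩
      obtain ⟨k, hk⟩ := MulAction.exists_smul_eq K x (g • x)
      set s : G := (k : G)⁻¹ * g with hs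
      have hs' : s ∈ MulAction.stabilizer G x := by
        rw [MulAction.mem_stabilizer_iff, hs, mul_smul, ← hk, Subgroup.smul_def, inv_smul_smul]
      obtain ⟨a, ha, c, hc, rfl⟩ := Subgroup.mem_sup_of_normal_right.1 hy
      have h1 : s * a * s⁻¹ ∈ A :=
        hAn.conj_mem ⟨a, hA ha⟩ ha ⟨s, hs'⟩
      have h2 : g * (a * c) * g⁻¹ =
          (k : G) * (s * a * s⁻¹) * (k : G)⁻¹ * (g * c * g⁻¹) := by
        rw [hs]; group
      rw [h2]
      refine mul_mem (mul_mem (mul_mem (Subgroup.mem_sup_right k.2) (Subgroup.mem_sup_left h1))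
        (inv_mem (Subgroup.mem_sup_right k.2))) (Subgroup.mem_sup_right ?_)
      exact Subgroup.Normal.conj_mem inferInstance c hc g
    refine top_le_iff.1 ?_
    rw [← hgen]
    exact Subgroup.normalClosure_le_normal (fun x hx => Subgroup.mem_sup_left hx)
  let f : A →* G ⧸ K := (QuotientGroup.mk' K).comp A.subtype
  have hf : Function.Surjective f := by
    intro q
    obtain ⟨g, rfl⟩ := QuotientGroup.mk'_surjective K q
    obtain ⟨a, ha, c, hc, rfl⟩ :=
      Subgroup.mem_sup_of_normal_right.1 (htop ▸ Subgroup.mem_top g : g ∈ A ⊔ K)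
    refine ⟨⟨a, ha⟩, ?_⟩
    simp [f, (QuotientGroup.eq_one_iff c).2 hc]
  exact ⟨f.ker, inferInstance, ⟨(QuotientGroup.quotientKerEquivOfSurjective f hf).symm⟩⟩

end Cfsg.Agent.S0796
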