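import Cfsg.Statements.S0797
import Cfsg.Agent.Eq.Def_Classical
import Cfsg.Agent.Eq.Def_ClassicalGeometry
import Cfsg.Agent.Classical.Orth.Diag
import Cfsg.Agent.Classical.Orth.Pairs
import Cfsg.Agent.Classical.Orth.Forms

set_option autoImplicit false
open Cfsg

namespace Cfsg.Agent.S0797
open CfsgLib.Classical.Orth CfsgLib.OrthGeo

theorem index_two_of_klein :
    ∀ z : Multiplicative (ZMod 2) × Multiplicative (ZMod 2), z * z = 1 := by decide


/-- O^ε_2m(q) ≅ Ω.2² for q odd: if F is finite of odd characteristic, n ≥ 2 is even and Q has non-degenerate polar form on F^n, the isometry group of Q has exactly three subgroups of index 2. -/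
theorem result {F : Type*} [Field F] [Fintype F] (h2 : (2 : F) ≠ 0) {n : ℕ} (hn : 2 ≤ n) (heven : Even n) (Q : QuadraticForm F (Fin n → F)) (hQ : (QuadraticMap.polarBilin Q).Nondegenerate) : Nat.card {H : Subgroup ↥(Cfsg.isometryGroup F ⇑Q) // H.index = 2} = 3 := by
  have hN := isNondegQF_of_quadraticForm Q hQ
  have hexc : ¬ (Nat.card F = 2 ∧ Fintype.card (Fin n) = 4) := not_exc_of_two_ne_zero h2
  classical
  let A := Multiplicative (ZMod 2) × Multiplicative (ZMod 2)
  let ψ : ↥(Cfsg.isometryGroup F ⇑Q) →* A := classHom hN hexc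
  have hsurj : Function.Surjective ψ := classHom_surjective hN h2 (by simpa using hn)
  have hK : ψ.ker = Cfsg.Omega F ⇑Q := ker_classHom hN hexc
  have hOle : ∀ H : Subgroup ↥(Cfsg.isometryGroup F ⇑Q), H.index = 2 → ψ.ker ≤ H := by
    intro H hH
    have hn' : H.Normal := Subgroup.normal_of_index_eq_two hH
    rw [hK]
    exact omega_le_of_sq_pairs hN hexc H fun u v hu hv => Subgroup.sq_mem_of_index_two hH _
  have e : {H : Subgroup ↥(Cfsg.isometryGroup F ⇑Q) // H.index = 2} ≃ {L : Subgroup A // L.index = 2} :=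
    { toFun := fun H => ⟨H.1.map ψ, by rw [Subgroup.index_map_eq _ hsurj (hOle H.1 H.2)]; exact H.2⟩
      invFun := fun L => ⟨L.1.comap ψ, by rw [Subgroup.index_comap_of_surjective _ hsurj]; exact L.2⟩
      left_inv := fun H => Subtype.ext (Subgroup.comap_map_eq_self (hOle H.1 H.2))
      right_inv := fun L => Subtype.ext (Subgroup.map_comap_eq_self_of_surjective hsurj L.1) }
  rw [Nat.card_congr e]
  have e2 : {L : Subgroup A // L.index = 2} ≃ {z : A // z ≠ 1} := by
    have hz : ∀ L : Subgroup A, L.index = 2 → ∃ z : A, z ≠ 1 ∧ L = Subgroup.zpowers z := by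
      intro L hL
      have hcard : Nat.card L = 2 := by
        have := L.card_mul_index
        rw [hL, show Nat.card A = 4 by rw [Nat.card_eq_fintype_card]; rfl] at this
        omega
      obtain ⟨z, hzL, hz⟩ := L.bot_or_exists_ne_one.resolve_left (fun h => by
        rw [h, Subgroup.card_bot] at hcard; omega)
      refine ⟨z, hz, (Subgroup.eq_of_le_of_card_ge (Subgroup.zpowers_le.2 hzL) ?_).symm⟩
      rw [hcard, Nat.card_zpowers, orderOf_eq_prime (p := 2) (by rw [sq]; exact index_two_of_klein z) hz]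
    have hord : ∀ z : A, z ≠ 1 → Nat.card (Subgroup.zpowers z) = 2 := fun z hz => by
      rw [Nat.card_zpowers, orderOf_eq_prime (p := 2) (by rw [sq]; exact index_two_of_klein z) hz]
    refine (Equiv.ofBijective (fun z : {z : A // z ≠ 1} =>
      (⟨Subgroup.zpowers z.1, by
        have := (Subgroup.zpowers z.1).card_mul_index
        rw [hord z.1 z.2, show Nat.card A = 4 by rw [Nat.card_eq_fintype_card]; rfl] at this
        omega⟩ : {L : Subgroup A // L.index = 2})) ⟨?_, ?_⟩).symm
    · rintro ⟨z, hz0⟩ ⟨w, hw0⟩ h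
      have h' : z ∈ Subgroup.zpowers w := by
        have := congrArg Subtype.val h
        simp only at this
        rw [← this]; exact Subgroup.mem_zpowers z
      obtain ⟨i, hi⟩ := Subgroup.mem_zpowers_iff.1 h'
      apply Subtype.ext
      show z = w
      rcases Int.even_or_odd i with ⟨j, rfl⟩ | ⟨j, rfl⟩
      · rw [zpow_add, index_two_of_klein] at hi; exact absurd hi.symm hz0
      · rw [zpow_add, zpow_one, two_mul, zpow_add, index_two_of_klein, one_mul] at hi; exact hi.symm
    · rintro ⟨L, hL⟩
      obtain ⟨z, hz0, rfl⟩ := hz L hL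
      exact ⟨⟨z, hz0⟩, rfl⟩
  rw [Nat.card_congr e2, Nat.card_eq_fintype_card]
  rfl

end Cfsg.Agent.S0797
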