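import Cfsg.Statements.S0798
import Cfsg.Agent.Eq.Def_Classical
import Cfsg.Agent.Eq.Def_ClassicalGeometry
import Cfsg.Agent.Classical.Orth.ReflClass
import Cfsg.Agent.Classical.Orth.Forms

set_option autoImplicit false
open Cfsg

namespace Cfsg.Agent.S0798
open CfsgLib.Classical.Orth CfsgLib.OrthGeo

/-- For q odd, n ≥ 2 even, Q with non-degenerate polar form (n, |F|) ≠ (4, 3), and a fixed c ≠ 0: the subgroup of the isometry group generated by the reflections r_v with Q(v) ∈ c·(F^×)² has index 2. -/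
theorem result {F : Type*} [Field F] [Fintype F] (h2 : (2 : F) ≠ 0) {n : ℕ} (hn : 2 ≤ n) (heven : Even n) (Q : QuadraticForm F (Fin n → F)) (hQ : (QuadraticMap.polarBilin Q).Nondegenerate) (h43 : ¬ (n = 4 ∧ Fintype.card F = 3)) (c : F) (hc : c ≠ 0) : (Subgroup.closure {g : ↥(Cfsg.isometryGroup F ⇑Q) | ∃ (v : Fin n → F) (t : F), t ≠ 0 ∧ Q v = c * t ^ 2 ∧ ((g : Matrix.GeneralLinearGroup (Fin n) F) : Matrix (Fin n) (Fin n) F) = Cfsg.reflectionMatrix ⇑Q v}).index = 2 := by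
  classical
  have hN := isNondegQF_of_quadraticForm Q hQ
  have hset : {g : ↥(Cfsg.isometryGroup F ⇑Q) | ∃ (v : Fin n → F) (t : F), t ≠ 0 ∧ Q v = c * t ^ 2 ∧
      ((g : Matrix.GeneralLinearGroup (Fin n) F) : Matrix (Fin n) (Fin n) F) = Cfsg.reflectionMatrix ⇑Q v} =
      {g : ↥(Cfsg.isometryGroup F ⇑Q) | ∃ v : Fin n → F, Q v = c ∧
      ((g : Matrix.GeneralLinearGroup (Fin n) F) : Matrix (Fin n) (Fin n) F) = Cfsg.reflectionMatrix ⇑Q v} := by
    ext g
    constructor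
    · rintro ⟨v, t, ht, hv, hg⟩
      have hv0 : Q v ≠ 0 := by rw [hv]; exact mul_ne_zero hc (pow_ne_zero _ ht)
      have hQ' : Q (t⁻¹ • v) = c := by rw [q_smul hN, hv]; field_simp
      refine ⟨t⁻¹ • v, hQ', hg.trans ?_⟩
      exact (congrArg (fun x : Matrix.GeneralLinearGroup (Fin n) F => (x : Matrix (Fin n) (Fin n) F))
        (reflection_smul hN (inv_ne_zero ht) hv0 (hQ'.symm ▸ hc))).symm
    · rintro ⟨v, hv, hg⟩
      exact ⟨v, 1, one_ne_zero, by rw [hv]; ring, hg⟩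
  rw [hset]
  refine index_reflGen hN h2 (by simpa using hn) ?_ hc
  have h1 : Fintype.card F % 2 = 1 := FiniteField.odd_card_of_char_ne_two (fun h => h2 (by
    have := ringChar.Nat.cast_ringChar (R := F)
    rw [h] at this
    exact_mod_cast this))
  have h3 : 1 < Fintype.card F := Fintype.one_lt_card
  obtain ⟨k, hk⟩ := heven
  rw [Fintype.card_fin, Nat.card_eq_fintype_card]
  omega

end Cfsg.Agent.S0798
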