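import Cfsg.Statements.S0800
import Cfsg.Agent.SL2.Sylow

set_option autoImplicit false
open Cfsg

namespace Cfsg.Agent.S0800

/-- Tori of SL_2(q): if g ∈ SL_2(q) has order coprime to the characteristic p, then the order of g divides q − 1 or q + 1. -/
theorem result {F : Type*} [Field F] [Fintype F] {q : ℕ} (hF : Fintype.card F = q) (p : ℕ) [Fact p.Prime] [CharP F p] (g : Matrix.SpecialLinearGroup (Fin 2) F) (hg : Nat.Coprime (orderOf g) p) : orderOf g ∣ q - 1 ∨ orderOf g ∣ q + 1 := by
  subst hF
  have hp := (Fact.out : p.Prime)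
  rcases CfsgLib.SL2.orderOf_dvd_cases (p := p) g with h | h | h
  · exact Or.inl h
  · exact Or.inr h
  · have h2 : orderOf g ∣ 2 := (Nat.Coprime.dvd_mul_right hg).1 h
    rcases (Nat.dvd_prime Nat.prime_two).1 h2 with h1 | h1
    · exact Or.inl (by rw [h1]; exact one_dvd _)
    · refine Or.inr ?_
      obtain ⟨n, -, hn⟩ := FiniteField.card F p
      have hodd : Odd p := hp.odd_of_ne_two (fun e => by
        rw [h1, e] at hg
        norm_num at hg)
      rw [h1, hn]
      exact (Odd.add_one (hodd.pow)).two_dvd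

end Cfsg.Agent.S0800
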