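import Cfsg.Statements.S0802
import Cfsg.Agent.Dickson.PSLExist

set_option autoImplicit false
open Cfsg
open CfsgLib.Dickson

namespace Cfsg.Agent.S0802

/-- PSL_2(p^n) has a subgroup isomorphic to A_4 if and only if it is not the case that p = 2 and n is odd. -/
theorem result {F : Type*} [Field F] [Fintype F] (p n : ℕ) [Fact p.Prime] [CharP F p] (hF : Fintype.card F = p ^ n) : (∃ H : Subgroup (Matrix.ProjectiveSpecialLinearGroup (Fin 2) F), Nonempty (H ≃* alternatingGroup (Fin 4))) ↔ ¬ (p = 2 ∧ Odd n) := by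
  classical
  have hn0 : n ≠ 0 := fun h => by
    rw [h, pow_zero] at hF
    exact Fintype.one_lt_card.ne' hF
  constructor
  · rintro ⟨H, ⟨e⟩⟩ ⟨rfl, hn⟩
    have h12 : Nat.card H = 12 := by
      rw [Nat.card_congr e.toEquiv, Nat.card_eq_fintype_card]; decide +kernel
    rcases classify_psl 2 H with ⟨x, hx⟩ | ⟨hc, -⟩ | ⟨k, -, hk, ⟨i⟩, -⟩ | ⟨h, -⟩ | ⟨h, -⟩ | ⟨h, -⟩ |
      ⟨L, m, -, ⟨⟨i⟩, -⟩ | ⟨h, -⟩⟩
    · have h1 : 3 ∣ Fintype.card F * (Fintype.card F - 1) := by
        rw [← card_pslStab x]
        exact Dvd.dvd.mul_right (dvd_trans (by rw [h12]; norm_num) (Subgroup.card_dvd_of_le hx)) _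
      rw [hF] at h1
      rcases Nat.prime_three.dvd_mul.mp h1 with h1 | h1
      · exact absurd (Nat.prime_three.dvd_of_dvd_pow h1) (by norm_num)
      · obtain ⟨j, rfl⟩ := hn
        rw [pow_succ, pow_mul] at h1
        have h4 : (2 ^ 2) ^ j % 3 = 1 := by simp [Nat.pow_mod]
        omega
    · have : IsCyclic (alternatingGroup (Fin 4)) := isCyclic_of_surjective e e.surjective
      have h := IsCyclic.commutative (α := alternatingGroup (Fin 4))
      revert h
      intro h
      let a : alternatingGroup (Fin 4) := ⟨Equiv.swap 0 1 * Equiv.swap 2 3,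
        Equiv.Perm.mem_alternatingGroup.mpr (by decide)⟩
      let b : alternatingGroup (Fin 4) := ⟨Equiv.swap 0 1 * Equiv.swap 1 2,
        Equiv.Perm.mem_alternatingGroup.mpr (by decide)⟩
      exact absurd (h.is_comm.comm a b) (by decide +kernel)
    · rw [Nat.card_congr i.toEquiv, DihedralGroup.nat_card] at h12
      omega
    · exact h (by norm_num)
    · exact h (by norm_num)
    · rcases h with h | h
      · exact h (by norm_num)
      · norm_num at h
    · rw [Nat.card_congr i.toEquiv, card_pgl2, ← Nat.card_eq_fintype_card] at h12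
      have h2 : 2 ≤ Nat.card L := Finite.one_lt_card
      rcases Nat.lt_or_ge (Nat.card L) 3 with h3 | h3
      · rw [show Nat.card L = 2 by omega] at h12; norm_num at h12
      · have h4 : (3 + 1) * (3 * 2) ≤ (Nat.card L + 1) * (Nat.card L * (Nat.card L - 1)) :=
          Nat.mul_le_mul (by omega) (Nat.mul_le_mul h3 (by omega))
        omega
    · exact h rfl
  · intro h
    by_cases hp : p = 2
    · subst hp
      exact exists_psl_a4_of_a5 (exists_psl_a5_of_four hF
        (Nat.not_odd_iff_even.mp fun ho => h ⟨rfl, ho⟩) hn0)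
    · exact exists_psl_a4_of_odd (CfsgLib.SL2.two_ne_zero_iff_odd.mpr ((odd_card_iff p).mpr hp))

end Cfsg.Agent.S0802
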