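import Cfsg.Statements.S0803
import Cfsg.Agent.Dickson.PSLExist

set_option autoImplicit false
open Cfsg
open CfsgLib.Dickson

namespace Cfsg.Agent.S0803

/-- PSL_2(q) has a subgroup isomorphic to S_4 iff q² ≡ 1 (mod 16). -/
theorem result {F : Type*} [Field F] [Fintype F] {q : ℕ} (hF : Fintype.card F = q) : (∃ H : Subgroup (Matrix.ProjectiveSpecialLinearGroup (Fin 2) F), Nonempty (H ≃* Equiv.Perm (Fin 4))) ↔ q ^ 2 % 16 = 1 := by
  classical
  obtain ⟨p, hp⟩ := CharP.exists F
  have : Fact p.Prime := ⟨CharP.char_is_prime F p⟩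
  subst hF
  have hq : 1 < Fintype.card F := Fintype.one_lt_card
  constructor
  · rintro ⟨H, ⟨e⟩⟩
    obtain ⟨g, hg⟩ : ∃ g : Equiv.Perm (Fin 4), orderOf g = 4 := by
      refine ⟨Equiv.swap 0 1 * Equiv.swap 1 2 * Equiv.swap 2 3, ?_⟩
      rw [orderOf_eq_iff (by norm_num)]
      exact ⟨by decide +kernel, fun m hm h0 => by interval_cases m <;> decide +kernel⟩
    set a := ((e.symm g : H) : Matrix.ProjectiveSpecialLinearGroup (Fin 2) F)
    have ha : orderOf a = 4 := by rw [Subgroup.orderOf_coe, MulEquiv.orderOf_eq, hg]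
    rcases gcd_two_pred (F := F) with ⟨he, hd⟩ | ⟨ho, hd⟩
    · exfalso
      have hp2 : p = 2 := by
        by_contra hp2
        exact Nat.not_even_iff_odd.mpr ((odd_card_iff p).mpr hp2) he
      obtain ⟨u, hu⟩ := he
      rcases psl_pow_eq_one_cases p a with h | h | h <;>
        · have := orderOf_dvd_of_pow_eq_one h
          rw [ha] at this
          simp only [hd, Nat.div_one, hp2] at this
          omega
    · have hp2 : p ≠ 2 := (odd_card_iff p).mp ho
      have h4 : ¬ p ∣ orderOf a := by
        rw [ha]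
        exact fun h => hp2 ((Nat.prime_dvd_prime_iff_eq Fact.out Nat.prime_two).mp
          ((Fact.out : p.Prime).dvd_of_dvd_pow (n := 2) h))
      obtain ⟨u, hu⟩ := ho
      have hmod : Fintype.card F % 8 = 1 ∨ Fintype.card F % 8 = 7 := by
        rcases psl_orderOf_dvd p a h4 with h | h <;> rw [ha, hd] at h <;> omega
      obtain ⟨r, hr⟩ : ∃ r, Fintype.card F = 8 * r + 1 ∨ Fintype.card F = 8 * r + 7 :=
        ⟨Fintype.card F / 8, by omega⟩
      rcases hr with hr | hr <;> rw [hr] <;> ring_nf <;> omega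
  · intro h
    have ho : Odd (Fintype.card F) := by
      rcases Nat.even_or_odd (Fintype.card F) with ⟨k, hk⟩ | ho
      · rw [hk] at h; ring_nf at h; omega
      · exact ho
    refine exists_psl_s4 (CfsgLib.SL2.two_ne_zero_iff_odd.mpr ho) (FiniteField.isSquare_two_iff.mpr ?_)
    constructor <;> intro h8 <;>
      · rw [Nat.pow_mod] at h
        have : Fintype.card F % 16 = Fintype.card F % 8 ∨
            Fintype.card F % 16 = Fintype.card F % 8 + 8 := by omega
        rw [h8] at this
        rcases this with e | e <;> rw [e] at h <;> norm_num at h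

end Cfsg.Agent.S0803
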