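import Cfsg.Statements.S0804
import Cfsg.Agent.Dickson.PSLExist

set_option autoImplicit false
open Cfsg
open CfsgLib.Dickson

namespace Cfsg.Agent.S0804

/-- PSL_2(q) has a subgroup isomorphic to A_5 iff 5 ∣ q(q² − 1). -/
theorem result {F : Type*} [Field F] [Fintype F] {q : ℕ} (hF : Fintype.card F = q) : (∃ H : Subgroup (Matrix.ProjectiveSpecialLinearGroup (Fin 2) F), Nonempty (H ≃* alternatingGroup (Fin 5))) ↔ 5 ∣ q * (q ^ 2 - 1) := by
  classical
  obtain ⟨p, hp⟩ := CharP.exists F
  have : Fact p.Prime := ⟨CharP.char_is_prime F p⟩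
  subst hF
  constructor
  · rintro ⟨H, ⟨e⟩⟩
    rw [← card_psl]
    refine Dvd.dvd.mul_right (dvd_trans ?_ (Subgroup.card_subgroup_dvd_card H)) _
    rw [Nat.card_congr e.toEquiv, Nat.card_eq_fintype_card]
    exact ⟨12, by decide +kernel⟩
  · intro h
    by_cases hp2 : p = 2
    · subst hp2
      obtain ⟨n, -, hn⟩ := FiniteField.card F 2
      refine exists_psl_a5_of_four hn ?_ n.pos.ne'
      rcases Nat.even_or_odd (n : ℕ) with he | ⟨j, hj⟩
      · exact he
      · exfalso
        rw [hn, hj] at h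
        rcases (Nat.Prime.dvd_mul (by norm_num)).mp h with h | h
        · exact absurd ((Nat.Prime.dvd_of_dvd_pow (by norm_num) h) : 5 ∣ 2) (by norm_num)
        · rw [← pow_mul, show (2 * j + 1) * 2 = 4 * j + 2 by ring, pow_add, pow_mul] at h
          have h4 : (2 ^ 4) ^ j % 5 = 1 := by simp [Nat.pow_mod]
          have hpos : 0 < (2 ^ 4) ^ j := by positivity
          omega
    · exact exists_psl_a5_of_odd (CfsgLib.SL2.two_ne_zero_iff_odd.mpr ((odd_card_iff p).mpr hp2)) h

end Cfsg.Agent.S0804
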