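import Cfsg.Statements.S0805
import Cfsg.Agent.Dickson.PSLExist

set_option autoImplicit false
open Cfsg
open CfsgLib.Dickson

namespace Cfsg.Agent.S0805

/-- Subfield subgroups: let F be a finite field of odd order q and K a finite field with |K|^m = q, m ≥ 1. Then PSL_2(F) has a subgroup isomorphic to PSL_2(K), and has a subgroup isomorphic to PGL_2(K) if and only if m is even. -/
theorem result {F K : Type*} [Field F] [Fintype F] [Field K] [Fintype K] {q : ℕ} (hF : Fintype.card F = q) (hodd : Odd q) (m : ℕ) (hm : 1 ≤ m) (hK : Fintype.card K ^ m = q) : (∃ H : Subgroup (Matrix.ProjectiveSpecialLinearGroup (Fin 2) F), Nonempty (H ≃* Matrix.ProjectiveSpecialLinearGroup (Fin 2) K)) ∧ ((∃ H : Subgroup (Matrix.ProjectiveSpecialLinearGroup (Fin 2) F), Nonempty (H ≃* Matrix.ProjGenLinGroup (Fin 2) K)) ↔ Even m) := by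
  classical
  subst hF
  obtain ⟨f⟩ := exists_ringHom_of_card_pow hK
  obtain ⟨H, -, hH⟩ := exists_psl_subfield f
  refine ⟨⟨H, hH⟩, ⟨?_, fun hm' => ?_⟩⟩
  · rintro ⟨H, ⟨e⟩⟩
    by_contra hm'
    have hdvd := Subgroup.card_subgroup_dvd_card H
    rw [Nat.card_congr e.toEquiv, card_pgl2] at hdvd
    have hd : Nat.gcd 2 (Fintype.card F - 1) = 2 := by
      rcases gcd_two_pred (F := F) with ⟨he, -⟩ | ⟨-, hd⟩
      · exact absurd hodd (Nat.not_odd_iff_even.mpr he)
      · exact hd
    have h2 := card_psl (F := F)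
    rw [hd, ← hK] at h2
    refine not_pgl_dvd_psl ((Nat.odd_pow_iff (by omega : m ≠ 0)).mp (hK ▸ hodd)) Fintype.one_lt_card
      (Nat.not_even_iff_odd.mp hm') ?_ hdvd
    rw [← h2]; ring
  · obtain ⟨H', -, hH'⟩ := exists_pgl_subfield f hodd hm' hK
    exact ⟨H', hH'⟩

end Cfsg.Agent.S0805
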