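import Cfsg.Statements.S0819
import Mathlib

set_option autoImplicit false
open Cfsg

namespace Cfsg.Agent.S0819

/-- No element of PSL_3(4) has order 15. -/
theorem result {F : Type*} [Field F] [Fintype F] (hF : Fintype.card F = 4) (g : Matrix.ProjectiveSpecialLinearGroup (Fin 3) F) : orderOf g ≠ 15 := by
  classical
  intro hord
  obtain ⟨g, rfl⟩ := QuotientGroup.mk_surjective g
  set M : Matrix (Fin 3) (Fin 3) F := (g : Matrix (Fin 3) (Fin 3) F) with hM
  haveI : CharP F 2 := by
    obtain ⟨p, hp⟩ := CharP.exists F
    obtain ⟨k, hpr, hk⟩ := FiniteField.card F p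
    rw [hF] at hk
    have : p = 2 := by
      have hd : p ∣ 2 ^ 2 := ⟨p ^ ((k : ℕ) - 1), by
        rw [← pow_succ', Nat.sub_add_cancel k.pos]; norm_num [← hk]⟩
      exact (Nat.prime_dvd_prime_iff_eq hpr Nat.prime_two).1 (hpr.dvd_of_dvd_pow hd)
    subst this; exact hp
  have hpow3 : ∀ c : F, c ≠ 0 → c ^ 3 = 1 := fun c hc => by
    have := FiniteField.pow_card_sub_one_eq_one c hc
    rwa [hF] at this
  -- a scalar power kills the image
  have hkill : ∀ (k : ℕ) (c : F), M ^ k = c • (1 : Matrix (Fin 3) (Fin 3) F) → ¬ 15 ∣ k →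
      False := by
    intro k c hk hnd
    refine hnd (hord ▸ orderOf_dvd_of_pow_eq_one ?_)
    rw [← QuotientGroup.mk_pow, QuotientGroup.eq_one_iff, Matrix.SpecialLinearGroup.mem_center_iff]
    refine ⟨c, ?_, ?_⟩
    · have := congrArg Matrix.det hk
      rw [Matrix.det_pow, g.2, one_pow, Matrix.det_smul, Matrix.det_one, mul_one] at this
      exact this.symm
    · rw [Matrix.SpecialLinearGroup.coe_pow, Matrix.scalar_apply, ← Matrix.smul_one_eq_diagonal]
      exact hk.symm
  -- `M ^ 45 = 1`
  have h45 : M ^ 45 = 1 := by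
    have h : g ^ 15 ∈ Subgroup.center (Matrix.SpecialLinearGroup (Fin 3) F) := by
      rw [← QuotientGroup.eq_one_iff, QuotientGroup.mk_pow, ← hord, pow_orderOf_eq_one]
    obtain ⟨c, hc3, hc⟩ := Matrix.SpecialLinearGroup.mem_center_iff.1 h
    rw [Matrix.SpecialLinearGroup.coe_pow, ← hM, Matrix.scalar_apply,
      ← Matrix.smul_one_eq_diagonal] at hc
    rw [show 45 = 15 * 3 by norm_num, pow_mul, ← hc, smul_pow, one_pow]
    rw [Fintype.card_fin] at hc3
    rw [hc3, one_smul]
  set P := M.charpoly with hP
  have hPm : P.Monic := M.charpoly_monic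
  have hPd : P.natDegree = 3 := by rw [hP, Matrix.charpoly_natDegree_eq_dim, Fintype.card_fin]
  have hP0 : P.coeff 0 = 1 := by
    have h := Matrix.det_eq_sign_charpoly_coeff M
    rw [g.2, Fintype.card_fin] at h
    rw [hP, h, CharTwo.neg_eq, one_pow, one_mul]
  have hCH : ∀ R : Polynomial F, P ∣ R → Polynomial.aeval M R = 0 := by
    rintro R ⟨T, rfl⟩
    rw [map_mul, hP, Matrix.aeval_self_charpoly, zero_mul]
  -- the roots in an extension field satisfy the Lagrange relation
  have hlag : ∀ q : Polynomial F, Irreducible q → q.Monic → q.coeff 0 ≠ 0 →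
      q ∣ Polynomial.X ^ (4 ^ q.natDegree - 1) - 1 := by
    intro q hirr hmon h0
    haveI := Fact.mk hirr
    haveI : Module.Finite F (AdjoinRoot q) := (AdjoinRoot.powerBasis hirr.ne_zero).finite
    haveI : Finite (AdjoinRoot q) := Module.finite_of_finite F
    letI := Fintype.ofFinite (AdjoinRoot q)
    have hc : Fintype.card (AdjoinRoot q) = 4 ^ q.natDegree := by
      rw [Module.card_eq_pow_finrank (K := F), hF, (AdjoinRoot.powerBasis hirr.ne_zero).finrank,
        AdjoinRoot.powerBasis_dim]
    have hr : AdjoinRoot.root q ≠ 0 := by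
      intro hz
      have h := AdjoinRoot.eval₂_root q
      rw [hz, Polynomial.eval₂_at_zero] at h
      exact h0 ((AdjoinRoot.of q).injective (h.trans (map_zero _).symm))
    rw [← AdjoinRoot.mk_eq_zero, map_sub, map_pow, AdjoinRoot.mk_X, map_one, sub_eq_zero, ← hc]
    exact FiniteField.pow_card_sub_one_eq_one _ hr
  by_cases hroot : ∃ a, P.IsRoot a
  · obtain ⟨a, ha⟩ := hroot
    obtain ⟨q, hPq⟩ : ∃ q, P = (Polynomial.X - Polynomial.C a) * q :=
      Polynomial.dvd_iff_isRoot.2 ha
    have hqm : q.Monic := (Polynomial.monic_X_sub_C a).of_mul_monic_left (hPq ▸ hPm)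
    have hqd : q.natDegree = 2 := by
      have := hPd
      rw [hPq, (Polynomial.monic_X_sub_C a).natDegree_mul hqm, Polynomial.natDegree_X_sub_C] at this
      omega
    have hav : a * q.coeff 0 = 1 := by
      rw [← hP0, hPq, Polynomial.mul_coeff_zero]
      simp [CharTwo.neg_eq]
    have ha0 : a ≠ 0 := left_ne_zero_of_mul_eq_one hav
    have hlin : ∀ c : F, c ≠ 0 → (Polynomial.X - Polynomial.C c) ∣ Polynomial.X ^ 3 - 1 := fun c hc =>
      Polynomial.dvd_iff_isRoot.2 (by simp [hpow3 c hc])
    by_cases hq : ∃ b, q.IsRoot b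
    · obtain ⟨b, hb⟩ := hq
      obtain ⟨l, hql⟩ : ∃ l, q = (Polynomial.X - Polynomial.C b) * l :=
        Polynomial.dvd_iff_isRoot.2 hb
      have hlm : l.Monic := (Polynomial.monic_X_sub_C b).of_mul_monic_left (hql ▸ hqm)
      have hld : l.natDegree = 1 := by
        have := hqd
        rw [hql, (Polynomial.monic_X_sub_C b).natDegree_mul hlm, Polynomial.natDegree_X_sub_C] at this
        omega
      have hl : l = Polynomial.X - Polynomial.C (-l.coeff 0) := by
        conv_lhs => rw [hlm.eq_X_add_C hld]
        rw [map_neg, sub_neg_eq_add]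
      have hbl : b * -l.coeff 0 ≠ 0 := by
        have := hav
        rw [hql, Polynomial.mul_coeff_zero] at this
        simp at this
        intro h0
        exact one_ne_zero (by linear_combination a * h0 - this : (1 : F) = 0)
      have hdvd : P ∣ (Polynomial.X ^ 3 - 1) ^ 4 := by
        rw [hPq, hql, hl, show ((Polynomial.X : Polynomial F) ^ 3 - 1) ^ 4 =
          ((Polynomial.X ^ 3 - 1) * ((Polynomial.X ^ 3 - 1) * (Polynomial.X ^ 3 - 1))) *
            (Polynomial.X ^ 3 - 1) by ring]
        exact (mul_dvd_mul (hlin a ha0) (mul_dvd_mul (hlin b (left_ne_zero_of_mul hbl))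
          (hlin _ (right_ne_zero_of_mul hbl)))).trans (dvd_mul_right _ _)
      have h12 : M ^ 12 = 1 := by
        have h := hCH _ hdvd
        rw [show ((Polynomial.X : Polynomial F) ^ 3 - 1) ^ 4 =
          (((Polynomial.X : Polynomial F) ^ 3 - 1) ^ 2) ^ 2 by ring, CharTwo.sub_eq_add,
          CharTwo.add_sq, one_pow, CharTwo.add_sq, one_pow, ← CharTwo.sub_eq_add, map_sub,
          map_pow, map_pow, map_pow, Polynomial.aeval_X, map_one, sub_eq_zero, ← pow_mul,
          ← pow_mul] at h
        exact h
      refine hkill 3 1 ?_ (by norm_num)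
      rw [one_smul]
      exact (pow_gcd_eq_one.2 ⟨h12, h45⟩ : M ^ Nat.gcd 12 45 = 1)
    · push Not at hq
      have hirr : Irreducible q := by
        rw [Polynomial.irreducible_iff_roots_eq_zero_of_degree_le_three (by omega) (by omega),
          Multiset.eq_zero_iff_forall_notMem]
        exact fun b hb => hq b (Polynomial.isRoot_of_mem_roots hb)
      haveI := Fact.mk hirr
      haveI : Module.Finite F (AdjoinRoot q) := (AdjoinRoot.powerBasis hirr.ne_zero).finite
      haveI : CharP (AdjoinRoot q) 2 := charP_of_injective_algebraMap (algebraMap F (AdjoinRoot q)).injective 2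
      set r := AdjoinRoot.root q with hr
      set u := AdjoinRoot.of q (q.coeff 1)
      set v := AdjoinRoot.of q (q.coeff 0)
      have hqe : q = Polynomial.X ^ 2 + Polynomial.C (q.coeff 1) * Polynomial.X +
          Polynomial.C (q.coeff 0) := by
        conv_lhs => rw [hqm.as_sum, hqd]
        simp [Finset.sum_range_succ]
        ring
      have h1 : r ^ 2 + u * r + v = 0 := by
        have h := congrArg (Polynomial.eval₂ (AdjoinRoot.of q) r) hqe
        rw [hr, AdjoinRoot.eval₂_root] at h
        simpa [Polynomial.eval₂_add, Polynomial.eval₂_mul, Polynomial.eval₂_pow] using h.symm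
      have hfix : ∀ c : F, (AdjoinRoot.of q c) ^ 4 = AdjoinRoot.of q c := fun c => by
        rw [← map_pow, ← hF, FiniteField.pow_card]
      have h4 : (r ^ 4) ^ 2 + u * r ^ 4 + v = 0 := by
        have h := congrArg (fun z => (z ^ 2) ^ 2) h1
        simp only [CharTwo.add_sq, mul_pow, ← pow_mul] at h
        norm_num at h
        rw [hfix, hfix] at h
        linear_combination h
      have hne : r ^ 4 ≠ r := by
        intro he
        have hrange : ∀ z : AdjoinRoot q, z ^ 4 = z → ∃ c, AdjoinRoot.of q c = z := by
          intro z hz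
          by_contra hcon
          push Not at hcon
          let S : Finset (AdjoinRoot q) := insert z (Finset.univ.image (AdjoinRoot.of q))
          have hS : S.val ≤ (Polynomial.X ^ 4 - Polynomial.X : Polynomial (AdjoinRoot q)).roots := by
            refine (Multiset.le_iff_subset S.nodup).2 fun w hw => ?_
            rw [Polynomial.mem_roots (FiniteField.X_pow_card_sub_X_ne_zero _ (by norm_num : 1 < 4))]
            rcases Finset.mem_insert.1 hw with rfl | hw
            · simp [hz]
            · obtain ⟨c, -, rfl⟩ := Finset.mem_image.1 hw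
              simp [hfix]
          have hle := (Multiset.card_le_card hS).trans (Polynomial.card_roots' _)
          rw [FiniteField.X_pow_card_sub_X_natDegree_eq _ (by norm_num : 1 < 4)] at hle
          change S.card ≤ 4 at hle
          have hSc : S.card = 5 := by
            rw [Finset.card_insert_of_notMem (by simpa using hcon),
              Finset.card_image_of_injective _ (AdjoinRoot.of q).injective, Finset.card_univ, hF]
          omega
        obtain ⟨c, hc⟩ := hrange r he
        refine hq c ?_
        apply (AdjoinRoot.of q).injective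
        rw [← Polynomial.eval₂_hom, hc, map_zero]
        exact AdjoinRoot.eval₂_root q
      have hr4 : r ^ 4 + r + u = 0 := by
        refine (mul_eq_zero.1 (?_ : (r ^ 4 - r) * (r ^ 4 + r + u) = 0)).resolve_left
          (sub_ne_zero.2 hne)
        linear_combination h4 - h1
      have hr5 : r ^ 5 = v := by
        linear_combination r * hr4 - h1
      have hqdvd : q ∣ Polynomial.X ^ 5 - Polynomial.C (q.coeff 0) := by
        rw [← AdjoinRoot.mk_eq_zero, map_sub, map_pow, AdjoinRoot.mk_X, AdjoinRoot.mk_C, sub_eq_zero]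
        exact hr5
      have hadvd : (Polynomial.X - Polynomial.C a) ∣ Polynomial.X ^ 5 - Polynomial.C (q.coeff 0) := by
        refine Polynomial.dvd_iff_isRoot.2 ?_
        simp only [Polynomial.IsRoot.def, Polynomial.eval_sub, Polynomial.eval_pow, Polynomial.eval_X,
          Polynomial.eval_C, sub_eq_zero]
        exact mul_left_cancel₀ ha0 (by linear_combination (a ^ 3 + 1) * hpow3 a ha0 - hav)
      have hco : IsCoprime (Polynomial.X - Polynomial.C a) q := by
        refine ((Polynomial.irreducible_X_sub_C a).coprime_iff_not_dvd).2 fun hd => ?_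
        exact hq a (Polynomial.dvd_iff_isRoot.1 hd)
      have h := hCH _ (hPq ▸ hco.mul_dvd hadvd hqdvd)
      rw [map_sub, map_pow, Polynomial.aeval_X, Polynomial.aeval_C, sub_eq_zero,
        Algebra.algebraMap_eq_smul_one] at h
      exact hkill 5 _ h (by norm_num)
  · push Not at hroot
    have hirr : Irreducible P := by
      rw [Polynomial.irreducible_iff_roots_eq_zero_of_degree_le_three (by omega) (by omega),
        Multiset.eq_zero_iff_forall_notMem]
      exact fun b hb => hroot b (Polynomial.isRoot_of_mem_roots hb)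
    have h := hCH _ (hlag P hirr hPm (by rw [hP0]; exact one_ne_zero))
    rw [hPd, map_sub, map_pow, Polynomial.aeval_X, map_one, sub_eq_zero] at h
    norm_num at h
    refine hkill 9 1 ?_ (by norm_num)
    rw [one_smul]
    exact (pow_gcd_eq_one.2 ⟨h, h45⟩ : M ^ Nat.gcd 63 45 = 1)

end Cfsg.Agent.S0819
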