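import Cfsg.Statements.S0820
import Cfsg.Agent.PSL34.Central

set_option autoImplicit false
open Cfsg

namespace Cfsg.Agent.S0820

/-- Any two elements of order 2 of PSL_3(4) are conjugate. -/
theorem result {F : Type*} [Field F] [Fintype F] (hF : Fintype.card F = 4) (x y : Matrix.ProjectiveSpecialLinearGroup (Fin 3) F) (hx : orderOf x = 2) (hy : orderOf y = 2) : IsConj x y := by
  haveI : Fact (Nat.Prime 2) := ⟨Nat.prime_two⟩
  have := CfsgLib.PSL34.charP_two hF
  obtain ⟨w, hw, -⟩ := CfsgLib.PSL34.exists_omega hF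
  obtain ⟨U, hU, hUmem⟩ := CfsgLib.PSL34.exists_uni_subgroup hF
  have hU2 : IsPGroup 2 U := IsPGroup.of_card (n := 6) (by rw [hU]; norm_num)
  obtain ⟨P, hP⟩ := hU2.exists_le_sylow
  have hPU : (P : Subgroup _) = U := by
    refine (Subgroup.eq_of_le_of_card_ge hP ?_).symm
    obtain ⟨e, he⟩ := (IsPGroup.iff_card (p := 2)).1 P.isPGroup'
    rw [hU, he]
    by_contra! h
    have h7 : 7 ≤ e := by
      by_contra! h'
      have := Nat.pow_le_pow_right (show 0 < 2 by norm_num) (Nat.le_of_lt_succ h')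
      omega
    exact CfsgLib.PSL34.not_dvd_card_PSL hF
      ((pow_dvd_pow 2 h7).trans (he ▸ Subgroup.card_subgroup_dvd_card _))
  have key : ∀ z : Matrix.ProjectiveSpecialLinearGroup (Fin 3) F, orderOf z = 2 →
      IsConj (CfsgLib.PSL34.pu 0 0 1) z := by
    intro z hz
    have hzp : IsPGroup 2 (Subgroup.zpowers z) := IsPGroup.of_card (n := 1) (by
      rw [Nat.card_zpowers, hz, pow_one])
    obtain ⟨Q, hQ⟩ := hzp.exists_le_sylow
    obtain ⟨g, hg⟩ := MulAction.exists_smul_eq (Matrix.ProjectiveSpecialLinearGroup (Fin 3) F) Q P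
    have hy : g * z * g⁻¹ ∈ U := by
      rw [← hPU, ← hg]
      show g * z * g⁻¹ ∈ (Q : Subgroup _).map (MulAut.conj g).toMonoidHom
      exact ⟨z, hQ (Subgroup.mem_zpowers z), rfl⟩
    obtain ⟨a, b, c, habc⟩ := hUmem _ hy
    have hne : ¬ (a = 0 ∧ b = 0 ∧ c = 0) := by
      rintro ⟨rfl, rfl, rfl⟩
      rw [CfsgLib.PSL34.pu_zero, eq_comm, conj_eq_one_iff] at habc
      simp [habc] at hz
    have hsq : a * b = 0 := by
      have e : CfsgLib.PSL34.pu a b c * CfsgLib.PSL34.pu a b c = CfsgLib.PSL34.pu 0 0 0 := by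
        rw [habc, CfsgLib.PSL34.pu_zero, conj_mul, ← pow_two, ← hz, pow_orderOf_eq_one, mul_one,
          mul_inv_cancel]
      rw [CfsgLib.PSL34.pu_mul] at e
      simpa [CharTwo.add_self_eq_zero] using (CfsgLib.PSL34.pu_injective hw e).2.2
    refine IsConj.trans ?_ (isConj_iff.2 ⟨g, rfl⟩ : IsConj z (g * z * g⁻¹)).symm
    rw [← habc]
    rcases mul_eq_zero.1 hsq with rfl | rfl
    · exact CfsgLib.PSL34.isConj_pu_B hF b c (by simpa using hne)
    · exact CfsgLib.PSL34.isConj_pu_A hF a c (by simpa using hne)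
  exact (key x hx).symm.trans (key y hy)

end Cfsg.Agent.S0820
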