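import Cfsg.Statements.S0821
import Cfsg.Agent.Eq.Def_Classical
import Cfsg.Agent.OrthGeo.OddInvolutions
import Cfsg.Agent.Classical.Symp.Simple
import Cfsg.Agent.Classical.Symp.Involutions

set_option autoImplicit false
open Cfsg

namespace Cfsg.Agent.S0821

open CfsgLib.Classical.Symp in
/-- Invariant of an involution of `PSp`: the size of the smaller eigenspace, or square `-1`. -/
private theorem psp_label {F : Type*} [Field F] {m : ℕ} (h2 : (2 : F) ≠ 0) (x : Cfsg.PSp m F)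
    (hx : x * x = 1) (hx1 : x ≠ 1) :
    ∃ (g : Matrix.symplecticGroup (Fin m) F) (l : Fin (m / 2 + 1)), QuotientGroup.mk g = x ∧
      ((l.val = 0 ∧ ((g * g : Matrix.symplecticGroup (Fin m) F) : Matrix (Fin m ⊕ Fin m) (Fin m ⊕ Fin m) F) = -1) ∨
      (l.val ≠ 0 ∧ ∃ h s, IsSignPattern (h * g * h⁻¹) s ∧ s.card = l.val)) := by
  classical
  obtain ⟨g, rfl⟩ := QuotientGroup.mk_surjective x
  have hg : g ∉ Subgroup.center (Matrix.symplecticGroup (Fin m) F) := fun h => hx1 ((QuotientGroup.eq_one_iff g).mpr h)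
  have hgg : g * g ∈ Subgroup.center (Matrix.symplecticGroup (Fin m) F) := (QuotientGroup.eq_one_iff _).mp hx
  rcases mem_center_iff.mp hgg with e | e
  · obtain ⟨h, s, hs⟩ := exists_signPattern h2 (show g * g = 1 from Subtype.ext e)
    have hne : ∀ a : Matrix.symplecticGroup (Fin m) F, a ∈ Subgroup.center _ → h * g * h⁻¹ ≠ a := by
      intro a ha e'
      apply hg
      have : g = h⁻¹ * (h * g * h⁻¹) * h := by group
      rw [this, e', mul_assoc, Subgroup.mem_center_iff.mp ha h |>.symm, ← mul_assoc, inv_mul_cancel, one_mul]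
      exact ha
    have hs0 : s.card ≠ 0 := by
      intro h0
      rw [Finset.card_eq_zero] at h0
      subst h0
      exact hne 1 (Subgroup.one_mem _) (symp_ext_std (fun i => by simpa using (hs i).1) (fun i => by simpa using (hs i).2))
    have hsm : s.card ≠ m := by
      intro h0
      have hu : s = Finset.univ := Finset.eq_univ_of_card s (by rw [h0, Fintype.card_fin])
      subst hu
      exact hne (negOne m F) (mem_center_iff.mpr (Or.inr rfl))
        (symp_ext_std (fun i => by simpa [negOne, Matrix.neg_mulVec] using (hs i).1)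
          (fun i => by simpa [negOne, Matrix.neg_mulVec] using (hs i).2))
    have hsle : s.card ≤ m := card_finset_fin_le s
    by_cases hle : 2 * s.card ≤ m
    · exact ⟨g, ⟨s.card, by omega⟩, rfl, Or.inr ⟨hs0, h, s, hs, rfl⟩⟩
    · have hc : negOne m F ∈ Subgroup.center (Matrix.symplecticGroup (Fin m) F) := mem_center_iff.mpr (Or.inr rfl)
      refine ⟨g * negOne m F, ⟨m - s.card, by omega⟩, ?_, Or.inr ⟨by simp only; omega, h, sᶜ, ?_,
        by rw [Finset.card_compl, Fintype.card_fin]⟩⟩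
      · rw [QuotientGroup.mk_mul, (QuotientGroup.eq_one_iff _).mpr hc, mul_one]
      · have he : h * (g * negOne m F) * h⁻¹ = h * g * h⁻¹ * negOne m F := by
          rw [← mul_assoc, mul_assoc (h * g) (negOne m F), ← Subgroup.mem_center_iff.mp hc h⁻¹, ← mul_assoc]
        intro j
        rw [he]
        have hne1 : ∀ y : Fin m ⊕ Fin m → F, (negOne m F : Matrix (Fin m ⊕ Fin m) (Fin m ⊕ Fin m) F).mulVec y = -y :=
          fun y => by simp [negOne, Matrix.neg_mulVec]
        rw [mul_mulVec (h * g * h⁻¹), mul_mulVec (h * g * h⁻¹), hne1, hne1, Matrix.mulVec_neg, Matrix.mulVec_neg, (hs j).1, (hs j).2]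
        by_cases hj : j ∈ s <;> simp [hj]
  · exact ⟨g, ⟨0, by omega⟩, rfl, Or.inl ⟨rfl, e⟩⟩

open CfsgLib.Classical.Symp in
private theorem psp_isConj_of_label {F : Type*} [Field F] [Finite F] {m : ℕ} (h2 : (2 : F) ≠ 0)
    {g g' : Matrix.symplecticGroup (Fin m) F} {l : Fin (m / 2 + 1)}
    (hg : (l.val = 0 ∧ ((g * g : Matrix.symplecticGroup (Fin m) F) : Matrix (Fin m ⊕ Fin m) (Fin m ⊕ Fin m) F) = -1) ∨
      (l.val ≠ 0 ∧ ∃ h s, IsSignPattern (h * g * h⁻¹) s ∧ s.card = l.val))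
    (hg' : (l.val = 0 ∧ ((g' * g' : Matrix.symplecticGroup (Fin m) F) : Matrix (Fin m ⊕ Fin m) (Fin m ⊕ Fin m) F) = -1) ∨
      (l.val ≠ 0 ∧ ∃ h s, IsSignPattern (h * g' * h⁻¹) s ∧ s.card = l.val)) : IsConj g g' := by
  rcases hg with ⟨a, e⟩ | ⟨a, h, s, hs, hc⟩ <;> rcases hg' with ⟨a', e'⟩ | ⟨a', h', s', hs', hc'⟩
  · exact isConj_of_sq_eq_neg_one h2 e e'
  · exact absurd a a'
  · exact absurd a' a
  · exact ((isConj_iff.mpr ⟨h, rfl⟩).trans (isConj_of_signPattern hs hs' (hc.trans hc'.symm))).trans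
      (isConj_iff.mpr ⟨h', rfl⟩).symm


/-- PSp_2m(q) ≇ PΩ_(2m+1)(q) for q odd and m ≥ 3 (they have the same order). -/
theorem result {F : Type*} [Field F] [Fintype F] (hodd : Odd (Fintype.card F)) (m : ℕ) (hm : 3 ≤ m) : IsEmpty (Cfsg.PSp m F ≃* Cfsg.POmega F (Cfsg.quadFormOdd m F)) := by
  classical
  refine ⟨fun φ => ?_⟩
  have h2 : (2 : F) ≠ 0 := by
    refine Ring.two_ne_zero fun h2 => ?_
    have he := FiniteField.even_card_of_char_two h2
    rw [Nat.odd_iff] at hodd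
    omega
  let Q := Cfsg.quadFormOdd m F
  have hlift : ∀ k : Fin m, ∃ y : Cfsg.Omega F Q, ((y : Cfsg.isometryGroup F Q) : Matrix.GeneralLinearGroup (Unit ⊕ (Fin m ⊕ Fin m)) F) =
      CfsgLib.OrthGeo.OddInvolutions.diagInv h2 (k.val + 1) := by
    intro k
    obtain ⟨y, hy, hye⟩ := CfsgLib.OrthGeo.OddInvolutions.diagInv_mem (m := m) h2 (k.val + 1)
    exact ⟨⟨y, hy⟩, hye⟩
  choose y hy using hlift
  let ι : Cfsg.Omega F Q →* Matrix.GeneralLinearGroup (Unit ⊕ (Fin m ⊕ Fin m)) F :=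
    (Cfsg.isometryGroup F Q).subtype.comp (Cfsg.Omega F Q).subtype
  have hι : Function.Injective ι := fun a b h => Subtype.ext (Subtype.ext h)
  have hmem : ∀ a, ι a ∈ Cfsg.Geo.omegaGL Q := fun a => ⟨(a : Cfsg.isometryGroup F Q), a.2, rfl⟩
  have hcen : ∀ z ∈ Subgroup.center (Cfsg.Omega F Q), z = 1 := by
    intro z hz
    refine hι ?_
    rw [map_one]
    refine CfsgLib.OrthGeo.OddInvolutions.eq_one_of_forall_commute h2 hm (hmem z) fun g hg => ?_
    obtain ⟨w, hw, rfl⟩ := hg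
    exact (congrArg ι (Subgroup.mem_center_iff.mp hz ⟨w, hw⟩)).symm
  let ω : Fin m → Cfsg.POmega F Q := fun k => QuotientGroup.mk (y k)
  have hω2 : ∀ k, ω k * ω k = 1 := by
    intro k
    rw [← QuotientGroup.mk_mul, QuotientGroup.eq_one_iff]
    have : y k * y k = 1 := hι (by rw [map_mul, map_one]; simp only [ι, MonoidHom.comp_apply, Subgroup.coe_subtype, hy]; exact CfsgLib.OrthGeo.OddInvolutions.diagInv_sq h2 _)
    rw [this]; exact one_mem _
  have hrank : ∀ k : Fin m, ((ι (y k) : Matrix (Unit ⊕ (Fin m ⊕ Fin m)) (Unit ⊕ (Fin m ⊕ Fin m)) F) - 1).rank = 2 * (k.val + 1) := by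
    intro k
    simp only [ι, MonoidHom.comp_apply, Subgroup.coe_subtype, hy]
    exact CfsgLib.OrthGeo.OddInvolutions.rank_diagInv h2 _ k.isLt
  have hω1 : ∀ k, ω k ≠ 1 := by
    intro k hk
    have := hrank k
    rw [hcen _ ((QuotientGroup.eq_one_iff _).mp hk), map_one, Units.val_one, sub_self, Matrix.rank_zero] at this
    omega
  have hωinj : ∀ k l, IsConj (ω k) (ω l) → k = l := by
    intro k l hkl
    obtain ⟨c, hc⟩ := isConj_iff.mp hkl
    obtain ⟨g, rfl⟩ := QuotientGroup.mk_surjective c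
    rw [← QuotientGroup.mk_inv, ← QuotientGroup.mk_mul, ← QuotientGroup.mk_mul, QuotientGroup.eq] at hc
    have heq := congrArg ι (inv_mul_eq_one.mp (hcen _ hc))
    rw [map_mul, map_mul, map_inv] at heq
    have h := hrank l
    rw [← heq, Units.val_mul, Units.val_mul] at h
    have hconj : (ι g : Matrix (Unit ⊕ (Fin m ⊕ Fin m)) (Unit ⊕ (Fin m ⊕ Fin m)) F) * (ι (y k) : Matrix _ _ F) * (((ι g)⁻¹ : Matrix.GeneralLinearGroup (Unit ⊕ (Fin m ⊕ Fin m)) F) : Matrix _ _ F) - 1 =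
        (ι g : Matrix (Unit ⊕ (Fin m ⊕ Fin m)) (Unit ⊕ (Fin m ⊕ Fin m)) F) * ((ι (y k) : Matrix _ _ F) - 1) * (((ι g)⁻¹ : Matrix.GeneralLinearGroup (Unit ⊕ (Fin m ⊕ Fin m)) F) : Matrix _ _ F) := by
      rw [mul_sub, sub_mul, mul_one, Units.mul_inv]
    rw [hconj, Matrix.rank_mul_eq_left_of_isUnit_det, Matrix.rank_mul_eq_right_of_isUnit_det, hrank k] at h
    · exact Fin.ext (by omega)
    · exact (Matrix.isUnit_iff_isUnit_det _).mp (Units.isUnit _)
    · exact (Matrix.isUnit_iff_isUnit_det _).mp (Units.isUnit _)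
  have hlab := fun k => psp_label h2 (φ.symm (ω k)) (by rw [← map_mul, hω2, map_one])
    (fun e => hω1 k (by simpa using congrArg φ e))
  choose g l hgl hP using hlab
  obtain ⟨k, k', hne, hl⟩ := Fintype.exists_ne_map_eq_of_card_lt l (by simp; omega)
  apply hne
  have hconj := MonoidHom.map_isConj (QuotientGroup.mk' (Subgroup.center (Matrix.symplecticGroup (Fin m) F)))
    (psp_isConj_of_label h2 (hP k) (hl ▸ hP k'))
  rw [QuotientGroup.mk'_apply, QuotientGroup.mk'_apply, hgl, hgl] at hconj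
  refine hωinj k k' ?_
  simpa using MonoidHom.map_isConj φ.toMonoidHom hconj

end Cfsg.Agent.S0821
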