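import Cfsg.Statements.S0823
import Cfsg.Agent.Eq.Def_Classical
import Cfsg.Agent.Eq.Def_ClassicalGeometry
import Cfsg.Agent.Classical.Orth.OrderStd

set_option autoImplicit false
open Cfsg

namespace Cfsg.Agent.S0823

section
variable {F : Type*} [Field F]

/-- A triple as a vector. -/
def vec3 (x y z : F) : Unit ⊕ (Fin 1 ⊕ Fin 1) → F :=
  Sum.elim (fun _ => x) (Sum.elim (fun _ => y) (fun _ => z))

/-- Representatives of the singular points. -/
def rep (F : Type*) [Field F] : Fin 4 → (Unit ⊕ (Fin 1 ⊕ Fin 1) → F) :=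
  ![vec3 0 1 0, vec3 0 0 1, vec3 1 1 (-1), vec3 1 (-1) 1]

theorem vec3_eta (v : Unit ⊕ (Fin 1 ⊕ Fin 1) → F) :
    v = vec3 (v (.inl ())) (v (.inr (.inl 0))) (v (.inr (.inr 0))) := by
  funext j; rcases j with ⟨⟩ | j | j <;> simp [vec3, Fin.fin_one_eq_zero]

theorem quad_vec3 (x y z : F) : Cfsg.quadFormOdd 1 F (vec3 x y z) = x ^ 2 + y * z := by
  simp [Cfsg.quadFormOdd, vec3]

theorem vec3_inj {x y z x' y' z' : F} :
    vec3 x y z = vec3 x' y' z' ↔ x = x' ∧ y = y' ∧ z = z' :=
  ⟨fun h => ⟨congrFun h (.inl ()), congrFun h (.inr (.inl 0)), congrFun h (.inr (.inr 0))⟩,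
    by rintro ⟨rfl, rfl, rfl⟩; rfl⟩

theorem neg_vec3 (x y z : F) : -vec3 x y z = vec3 (-x) (-y) (-z) := by
  funext j; rcases j with ⟨⟩ | j | j <;> simp [vec3]

end

/-- SO_3(3) ≅ S_4: the determinant-one isometries of the form x_0² + x_1y_1 over the field with 3 elements form a group isomorphic to the symmetric group on 4 letters. -/
theorem result {F : Type*} [Field F] [Fintype F] (hF : Fintype.card F = 3) : Nonempty (↥(Cfsg.specialIsometryGroup F (Cfsg.quadFormOdd 1 F)) ≃* Equiv.Perm (Fin 4)) := by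
  classical
  have hall : ∀ x : F, x = 0 ∨ x = 1 ∨ x = -1 := by
    intro x
    rcases eq_or_ne x 0 with h | h
    · exact Or.inl h
    · have h1 := FiniteField.pow_card_sub_one_eq_one x h
      rw [hF, show (3 : ℕ) - 1 = 2 by rfl, sq] at h1
      exact Or.inr (mul_self_eq_one_iff.1 h1)
  have h3 : (3 : F) = 0 := by
    have := FiniteField.cast_card_eq_zero F
    rwa [hF] at this
  have h2 : (2 : F) ≠ 0 := fun h => one_ne_zero (by linear_combination h3 - h : (1 : F) = 0)
  have hm1 : (1 : F) ≠ -1 := fun h => h2 (by linear_combination h)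
  set O := Cfsg.isometryGroup F (Cfsg.quadFormOdd 1 F) with hO
  set S := Cfsg.specialIsometryGroup F (Cfsg.quadFormOdd 1 F) with hS
  have hiso : ∀ (g : O) v, Cfsg.quadFormOdd 1 F
      (((g : GL (Unit ⊕ (Fin 1 ⊕ Fin 1)) F) : Matrix (Unit ⊕ (Fin 1 ⊕ Fin 1)) (Unit ⊕ (Fin 1 ⊕ Fin 1)) F).mulVec v) =
        Cfsg.quadFormOdd 1 F v := fun g v => g.2 v v
  -- singular vectors
  have hsing : ∀ v, v ≠ 0 → Cfsg.quadFormOdd 1 F v = 0 → ∃ j, v = rep F j ∨ v = -rep F j := by
    intro v hv hq
    rw [vec3_eta v, quad_vec3] at hq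
    rw [vec3_eta v] at hv ⊢
    have h0 : vec3 (0 : F) 0 0 = 0 := by funext j; rcases j with ⟨⟩ | j | j <;> simp [vec3]
    rcases hall (v (.inl ())) with e | e | e <;> rcases hall (v (.inr (.inl 0))) with e' | e' | e' <;>
      rcases hall (v (.inr (.inr 0))) with e'' | e'' | e'' <;> rw [e, e', e''] at hq hv ⊢ <;>
      simp [Fin.exists_fin_succ, rep, neg_vec3, vec3_inj, hm1, hm1.symm] at hq hv ⊢ <;>
      first
        | exact absurd (by linear_combination hq) h2
        | exact absurd (by linear_combination -hq) h2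
        | exact absurd h0 hv
  have hrep : ∀ i, rep F i ≠ 0 ∧ Cfsg.quadFormOdd 1 F (rep F i) = 0 := by
    intro i
    fin_cases i <;> simp [rep, quad_vec3] <;> intro h <;>
      first
        | exact one_ne_zero (congrFun h (.inl ()))
        | exact one_ne_zero (congrFun h (.inr (.inl 0)))
        | exact one_ne_zero (congrFun h (.inr (.inr 0)))
  have hinjrep : ∀ i j, (rep F i = rep F j ∨ rep F i = -rep F j) → i = j := by
    intro i j h
    fin_cases i <;> fin_cases j <;>
      first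
        | rfl
        | (simp [rep, neg_vec3, vec3_inj, hm1, hm1.symm] at h)
  have hex : ∀ (g : S) i, ∃ j,
      (((g : O) : GL (Unit ⊕ (Fin 1 ⊕ Fin 1)) F) : Matrix (Unit ⊕ (Fin 1 ⊕ Fin 1)) (Unit ⊕ (Fin 1 ⊕ Fin 1)) F).mulVec (rep F i) = rep F j ∨
      (((g : O) : GL (Unit ⊕ (Fin 1 ⊕ Fin 1)) F) : Matrix (Unit ⊕ (Fin 1 ⊕ Fin 1)) (Unit ⊕ (Fin 1 ⊕ Fin 1)) F).mulVec (rep F i) = -rep F j := by
    intro g i
    refine hsing _ (fun h => (hrep i).1 ?_) (by rw [hiso, (hrep i).2])
    have := congrArg ((((((g : O) : GL (Unit ⊕ (Fin 1 ⊕ Fin 1)) F))⁻¹ : GL (Unit ⊕ (Fin 1 ⊕ Fin 1)) F) :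
      Matrix (Unit ⊕ (Fin 1 ⊕ Fin 1)) (Unit ⊕ (Fin 1 ⊕ Fin 1)) F).mulVec) h
    simpa [Matrix.mulVec_mulVec, ← Units.val_mul] using this
  choose act hact using hex
  letI : MulAction S (Fin 4) :=
    { smul := act
      one_smul := fun i => by
        refine (hinjrep i (act 1 i) ?_).symm
        simpa using hact 1 i
      mul_smul := fun g h i => by
        refine (hinjrep (act g (act h i)) (act (g * h) i) ?_).symm
        have e : (((( g * h : S) : O) : GL (Unit ⊕ (Fin 1 ⊕ Fin 1)) F) :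
            Matrix (Unit ⊕ (Fin 1 ⊕ Fin 1)) (Unit ⊕ (Fin 1 ⊕ Fin 1)) F).mulVec (rep F i) =
          (((g : O) : GL (Unit ⊕ (Fin 1 ⊕ Fin 1)) F) : Matrix (Unit ⊕ (Fin 1 ⊕ Fin 1)) (Unit ⊕ (Fin 1 ⊕ Fin 1)) F).mulVec
            ((((h : O) : GL (Unit ⊕ (Fin 1 ⊕ Fin 1)) F) : Matrix (Unit ⊕ (Fin 1 ⊕ Fin 1)) (Unit ⊕ (Fin 1 ⊕ Fin 1)) F).mulVec (rep F i)) := by
          simp [Matrix.mulVec_mulVec]
        have h1 := hact h i
        have h2 := hact g (act h i)
        have h3 := hact (g * h) i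
        rcases h1 with h1 | h1 <;> rcases h2 with h2 | h2 <;> rw [e, h1] at h3 <;>
          simp only [Matrix.mulVec_neg, h2, neg_neg] at h3 <;> rcases h3 with h3 | h3 <;>
          first
            | exact Or.inl h3
            | exact Or.inr h3
            | exact Or.inl (neg_injective h3)
            | exact Or.inr (neg_eq_iff_eq_neg.1 h3) }
  let φ : S →* Equiv.Perm (Fin 4) := MulAction.toPermHom S (Fin 4)
  have hinj : Function.Injective φ := by
    rw [injective_iff_map_eq_one]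
    intro g hg
    set M := (((g : O) : GL (Unit ⊕ (Fin 1 ⊕ Fin 1)) F) : Matrix (Unit ⊕ (Fin 1 ⊕ Fin 1)) (Unit ⊕ (Fin 1 ⊕ Fin 1)) F)
      with hM
    have hfix : ∀ i, ∃ ε : F, M.mulVec (rep F i) = ε • rep F i := by
      intro i
      have h1 : act g i = i := Equiv.congr_fun hg i
      rcases hact g i with h | h <;> rw [h1] at h
      · exact ⟨1, by rw [one_smul]; exact h⟩
      · exact ⟨-1, by rw [neg_one_smul]; exact h⟩
    choose ε hε using hfix
    have hlin : rep F 2 - rep F 3 = (2 : F) • rep F 0 - (2 : F) • rep F 1 := by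
      funext j; rcases j with ⟨⟩ | j | j <;> simp [rep, vec3] <;> ring
    have h := congrArg M.mulVec hlin
    rw [Matrix.mulVec_sub, Matrix.mulVec_sub, Matrix.mulVec_smul, Matrix.mulVec_smul, hε, hε, hε,
      hε] at h
    have e0 := congrFun h (.inl ())
    have e1 := congrFun h (.inr (.inl 0))
    have e2 := congrFun h (.inr (.inr 0))
    simp [rep, vec3] at e0 e1 e2
    have he1 : ε 1 = ε 0 := mul_left_cancel₀ h2 (by linear_combination e2 + e1)
    have he2 : ε 2 = ε 0 := mul_left_cancel₀ h2 (by linear_combination e1 + e0)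
    have he3 : ε 3 = ε 0 := by linear_combination he2 - e0
    have hM' : M = ε 0 • (1 : Matrix (Unit ⊕ (Fin 1 ⊕ Fin 1)) (Unit ⊕ (Fin 1 ⊕ Fin 1)) F) := by
      refine Matrix.ext_of_mulVec_single fun j => ?_
      have hsum : ∀ i, M.mulVec (rep F i) = ε 0 • rep F i := by
        intro i; rw [hε]; fin_cases i <;> simp [he1, he2, he3]
      rw [Matrix.smul_mulVec, Matrix.one_mulVec]
      rcases j with ⟨⟩ | j | j
      · have : Pi.single (Sum.inl ()) (1 : F) =
            (2 : F)⁻¹ • (rep F 2 + rep F 3 : Unit ⊕ (Fin 1 ⊕ Fin 1) → F) := by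
          funext d
          rcases d with ⟨⟩ | d | d <;> simp [rep, vec3]
          rw [one_add_one_eq_two, inv_mul_cancel₀ h2]
        rw [this, Matrix.mulVec_smul, Matrix.mulVec_add, hsum, hsum, ← smul_add, smul_comm]
      · have : Pi.single (Sum.inr (Sum.inl j)) (1 : F) = rep F 0 := by
          funext d; rcases d with ⟨⟩ | d | d <;> simp [rep, vec3, Fin.fin_one_eq_zero, Pi.single_apply]
        rw [this, hsum]
      · have : Pi.single (Sum.inr (Sum.inr j)) (1 : F) = rep F 1 := by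
          funext d; rcases d with ⟨⟩ | d | d <;> simp [rep, vec3, Fin.fin_one_eq_zero, Pi.single_apply]
        rw [this, hsum]
    have hdet : M.det = 1 := congrArg Units.val g.2
    rw [hM', Matrix.det_smul, Matrix.det_one, mul_one] at hdet
    simp only [Fintype.card_sum, Fintype.card_unit, Fintype.card_fin] at hdet
    have hε0 : ε 0 = 1 := by
      rcases hall (ε 0) with e | e | e
      · rw [e] at hdet; simp at hdet
      · exact e
      · rw [e] at hdet; exact absurd (by linear_combination -hdet) hm1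
    refine Subtype.ext (Subtype.ext (Units.ext ?_))
    show M = 1
    rw [hM', hε0, one_smul]
  have hcard : Nat.card S = 24 := by
    let d : O →* Fˣ := Matrix.GeneralLinearGroup.det.comp O.subtype
    have hO48 : Nat.card O = 48 := by
      rw [hO, CfsgLib.Classical.Orth.card_isometryGroup_odd h2 1, hF]
      simp [CfsgLib.Classical.Orth.evenProd]
    let m : O := ⟨-1, fun u v => by
      show Cfsg.quadFormOdd 1 F ((-1 : Matrix (Unit ⊕ (Fin 1 ⊕ Fin 1)) (Unit ⊕ (Fin 1 ⊕ Fin 1)) F).mulVec u) = _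
      simp [Cfsg.quadFormOdd, Matrix.neg_mulVec]⟩
    have hsurj : Function.Surjective d := by
      intro u
      rcases hall (u : F) with e | e | e
      · exact absurd e u.ne_zero
      · exact ⟨1, by rw [map_one]; exact Units.ext e.symm⟩
      · refine ⟨m, Units.ext ?_⟩
        show (-1 : Matrix (Unit ⊕ (Fin 1 ⊕ Fin 1)) (Unit ⊕ (Fin 1 ⊕ Fin 1)) F).det = (u : F)
        rw [Matrix.det_neg, Matrix.det_one, e]
        simp [pow_succ]
    have h := Subgroup.card_eq_card_quotient_mul_card_subgroup d.ker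
    rw [Nat.card_congr (QuotientGroup.quotientKerEquivOfSurjective d hsurj).toEquiv, Nat.card_units,
      Nat.card_eq_fintype_card (α := F), hF, hO48] at h
    have : Nat.card d.ker = Nat.card S := rfl
    omega
  refine ⟨MulEquiv.ofBijective φ ((Nat.bijective_iff_injective_and_card φ).2 ⟨hinj, ?_⟩)⟩
  rw [hcard, Nat.card_perm, Nat.card_eq_fintype_card, Fintype.card_fin]
  rfl

end Cfsg.Agent.S0823
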