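import Cfsg.Statements.S0825
import Cfsg.Agent.Eq.Def_Classical
import Cfsg.Agent.ExtraspecialTwo.MinusFour
import Cfsg.Agent.F2Forms.EvenWeight
-- import your own Cfsg.Agent.* helpers here

set_option autoImplicit false
open Cfsg CfsgLib.ExtraspecialTwo CfsgLib.F2Forms

namespace Cfsg.Agent.S0825

/-- O⁺_6(2) ≅ S_8: the isometry group of the hyperbolic form x_1y_1 + x_2y_2 + x_3y_3 over the field with 2 elements is isomorphic to the symmetric group on 8 letters. -/
theorem result {F : Type*} [Field F] [Fintype F] (hF : Fintype.card F = 2) : Nonempty (↥(Cfsg.isometryGroup F (Cfsg.quadFormPlus 3 F)) ≃* Equiv.Perm (Fin 8)) := by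
  classical
  haveI : Fact (Nat.Prime 2) := ⟨Nat.prime_two⟩
  let e : F ≃+* ZMod 2 := (ZMod.ringEquivOfPrime F Nat.prime_two hF).symm
  obtain ⟨φ⟩ := nonempty_isometryGroup_field_equiv e (Q := Cfsg.quadFormPlus 3 F)
    (Q' := Cfsg.quadFormPlus 3 (ZMod 2)) (fun v => by
      simp [Cfsg.quadFormPlus, map_sum, map_mul])
  obtain ⟨w, hw, hQ⟩ := Even.exists_type 1
  obtain ⟨g, hg⟩ := (form_plus_iff _ w).2 (hQ.trans (by decide))
  have hg' : ∀ v, Even.qForm (2 * 1 + 1) v = Cfsg.quadFormPlus (2 * 1 + 1) (ZMod 2) (g v) :=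
    fun v => by rw [hw]; exact hg v
  obtain ⟨ψ, hψ, hψ'⟩ := Even.exists_hom_isometry 1 le_rfl _ g hg'
  have hsurj : Function.Surjective ψ := by
    intro A
    obtain ⟨σ, hσ⟩ := Even.exists_perm_of_isometry (g.trans ((equivOfGl A.1).trans g.symm)) (fun v => by
      rw [hg', hg', LinearEquiv.trans_apply, LinearEquiv.trans_apply, LinearEquiv.apply_symm_apply,
        equivOfGl_apply, mem_isometryGroup.1 A.2])
    refine ⟨σ, Subtype.ext (gl_ext fun v => ?_)⟩
    obtain ⟨u, rfl⟩ := g.surjective v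
    rw [hψ', hσ, LinearEquiv.trans_apply, LinearEquiv.trans_apply, LinearEquiv.apply_symm_apply,
      equivOfGl_apply]
  let ε : Equiv.Perm (Fin 8) ≃* Equiv.Perm (Even.Pt (2 * 1 + 1)) :=
    ((finCongr (show 8 = Fintype.card (Even.Pt (2 * 1 + 1)) by rfl)).trans
      (Fintype.equivFin _).symm).permCongrHom
  exact ⟨(φ.trans (MulEquiv.ofBijective ψ ⟨hψ, hsurj⟩).symm).trans ε.symm⟩

end Cfsg.Agent.S0825
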