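import Cfsg.Statements.S0826
import Cfsg.Agent.Eq.Def_Classical
import Cfsg.Agent.F2Forms.EvenWeight
import Cfsg.Agent.Classical.Symp.Form

set_option autoImplicit false
open Cfsg

namespace Cfsg.Agent.S0826

section
open CfsgLib.F2Forms CfsgLib.F2Forms.Even

theorem dot_one_one {M : ℕ} : dot (1 : W M) 1 = 0 := by
  rw [dot_one_right]
  simp [Fintype.card_prod, Fintype.card_option, CharTwo.two_eq_zero]

theorem hb_act {M : ℕ} (σ : Equiv.Perm (Pt M)) (u v : Sp M) :
    hb M (act σ u) (act σ v) = hb M u v := by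
  have hd : ∀ x : W M, IsEven x → dot x 1 = 0 := fun x hx => by rw [dot_one_right]; exact hx
  have hperm : ∀ x y : W M, dot (permW σ x) (permW σ y) = dot x y := fun x y => by
    exact Equiv.sum_comp σ.symm (fun p => x p * y p)
  obtain ⟨s, hs⟩ := exists_eq_toW_add _ (permW_even σ (toW_even u))
  obtain ⟨t, ht⟩ := exists_eq_toW_add _ (permW_even σ (toW_even v))
  rw [← dot_toW, ← dot_toW u v, ← hperm (toW u) (toW v)]
  conv_rhs => rw [hs, ht]
  rw [dot_add_left, dot_smul_left, dot_comm (toW _) (toW _ + t • 1), dot_add_left, dot_smul_left,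
    dot_comm (1 : W M) (toW (toSp (permW σ (toW v))) + t • 1), dot_add_left, dot_smul_left,
    dot_one_one, hd _ (toW_even _), dot_comm (1 : W M) (toW _), hd _ (toW_even _)]
  simp [act, dot_comm]

theorem act_injective {M : ℕ} (hM : 2 ≤ M) {σ : Equiv.Perm (Pt M)} (hσ : act σ = 1) : σ = 1 := by
  refine Equiv.ext fun p => ?_
  have key : ∀ r, p ≠ r → σ p = p ∨ σ p = r := by
    intro r hpr
    have h : toSp (ed p r) = toSp (ed (σ p) (σ r)) := by
      rw [← act_ed σ p r, hσ]; rfl
    obtain ⟨s, hs⟩ := exists_eq_toW_add _ (ed_even p r)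
    obtain ⟨t, ht⟩ := exists_eq_toW_add _ (ed_even (σ p) (σ r))
    rw [← h] at ht
    by_contra hc
    push Not at hc
    obtain ⟨x, hx⟩ : ∃ x : Pt M, x ∉ ({p, r, σ p, σ r} : Finset (Pt M)) := by
      by_contra hx
      push Not at hx
      have h1 := (Finset.card_le_card (s := (Finset.univ : Finset (Pt M))) fun x _ => hx x).trans
        Finset.card_le_four
      simp [Fintype.card_prod, Fintype.card_option] at h1
      omega
    simp only [Finset.mem_insert, Finset.mem_singleton, not_or] at hx
    have hx1 := congrFun hs x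
    have hx2 := congrFun ht x
    have hp1 := congrFun hs (σ p)
    have hp2 := congrFun ht (σ p)
    have hne : σ p ≠ σ r := σ.injective.ne hpr
    simp [ed, hx.1, hx.2.1, hx.2.2.1, hx.2.2.2, hc.1, hc.2, hne] at hx1 hx2 hp1 hp2
    exact one_ne_zero (by linear_combination hp2 - hp1 - hx2 + hx1 : (1 : ZMod 2) = 0)
  obtain ⟨r, hr, t, ht, hrt⟩ : ∃ r, p ≠ r ∧ ∃ t, p ≠ t ∧ r ≠ t := by
    have h1 : 1 < (Finset.univ.erase p).card := by
      simp [Fintype.card_prod, Fintype.card_option]; omega
    obtain ⟨r, hr, t, ht, hrt⟩ := Finset.one_lt_card.1 h1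
    exact ⟨r, (Finset.mem_erase.1 hr).1.symm, t, (Finset.mem_erase.1 ht).1.symm, hrt⟩
  rcases key r hr with h | h
  · exact h
  rcases key t ht with h' | h'
  · exact h'
  exact absurd (h.symm.trans h') hrt

end

open CfsgLib.F2Forms CfsgLib.F2Forms.Even in
/-- S_2n ≤ Sp_(2n−2)(2) for n ≥ 3: there is an injective homomorphism from the symmetric group on 2n letters into the symplectic group of degree 2n − 2 over the field with two elements. -/
theorem result (n : ℕ) (hn : 3 ≤ n) : ∃ f : Equiv.Perm (Fin (2 * n)) →* Matrix.symplecticGroup (Fin (n - 1)) (ZMod 2), Function.Injective f := by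
  classical
  obtain ⟨M, rfl⟩ : ∃ M, n = M + 1 := ⟨n - 1, by omega⟩
  rw [Nat.add_sub_cancel]
  have hB : ∀ u v : Sp M, Cfsg.sympForm M (ZMod 2) u v = hb M u v := fun u v => by
    rw [CfsgLib.Classical.Symp.form_apply]
    exact Finset.sum_congr rfl fun i _ => by rw [CharTwo.sub_eq_add]; ring
  let φ : Equiv.Perm (Pt M) →* Matrix.symplecticGroup (Fin M) (ZMod 2) :=
    { toFun := fun σ => ⟨LinearMap.toMatrix' (act σ), by
        rw [CfsgLib.Classical.Symp.mem_symplecticGroup_iff_form]
        intro u v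
        rw [LinearMap.toMatrix'_mulVec, LinearMap.toMatrix'_mulVec, hB, hB, hb_act]⟩
      map_one' := Subtype.ext (by
        show LinearMap.toMatrix' (act (1 : Equiv.Perm (Pt M))) = 1
        rw [act_one]; exact LinearMap.toMatrix'_one)
      map_mul' := fun σ τ => Subtype.ext (by
        show LinearMap.toMatrix' (act (σ * τ)) = LinearMap.toMatrix' (act σ) * LinearMap.toMatrix' (act τ)
        rw [act_mul]; exact LinearMap.toMatrix'_mul _ _) }
  have hinj : Function.Injective φ := by
    rw [injective_iff_map_eq_one]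
    intro σ hσ
    refine act_injective (by omega) (LinearMap.toMatrix'.injective ?_)
    have : LinearMap.toMatrix' (act σ) = 1 := congrArg Subtype.val hσ
    rw [this]; exact LinearMap.toMatrix'_one.symm
  let ε : Equiv.Perm (Fin (2 * (M + 1))) ≃* Equiv.Perm (Pt M) :=
    (Fintype.equivOfCardEq (by simp [Fintype.card_prod, Fintype.card_option]; ring)).permCongrHom
  exact ⟨φ.comp ε.toMonoidHom, hinj.comp ε.injective⟩

end Cfsg.Agent.S0826
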