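import Cfsg.Statements.S0828
import Cfsg.Agent.Eq.Def_ClassicalGeometry
import Cfsg.Agent.Classical.Symp.Form

set_option autoImplicit false
open Cfsg

namespace Cfsg.Agent.S0828

/-- The symplectic generalised quadrangle over a field with q elements: the number of 2-dimensional subspaces of F^4 on which the symplectic form vanishes is (q + 1)(q² + 1), and every non-zero vector lies in exactly q + 1 of them. -/
theorem result {F : Type*} [Field F] [Fintype F] {q : ℕ} (hF : Fintype.card F = q) : Nat.card {W : Submodule F (Fin 2 ⊕ Fin 2 → F) // Module.finrank F W = 2 ∧ ∀ u ∈ W, ∀ v ∈ W, Cfsg.sympForm 2 F u v = 0} = (q + 1) * (q ^ 2 + 1) ∧ ∀ v : Fin 2 ⊕ Fin 2 → F, v ≠ 0 → Nat.card {W : Submodule F (Fin 2 ⊕ Fin 2 → F) // Module.finrank F W = 2 ∧ v ∈ W ∧ ∀ u ∈ W, ∀ w ∈ W, Cfsg.sympForm 2 F u w = 0} = q + 1 := by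
  classical
  letI := Fintype.ofFinite (Submodule F (Fin 2 ⊕ Fin 2 → F))
  subst hF
  set q := Fintype.card F with hq
  have hq1 : 1 < q := Fintype.one_lt_card
  let TI : Submodule F (Fin 2 ⊕ Fin 2 → F) → Prop := fun W =>
    Module.finrank F W = 2 ∧ ∀ u ∈ W, ∀ v ∈ W, Cfsg.sympForm 2 F u v = 0
  have hsub : ∀ W : Submodule F (Fin 2 ⊕ Fin 2 → F),
      (Finset.univ.filter fun x : (Fin 2 ⊕ Fin 2 → F) => x ∈ W).card = q ^ Module.finrank F W := fun W => by
    rw [← Fintype.card_subtype, hq]
    exact Module.card_eq_pow_finrank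
  have hV : Module.finrank F (Fin 2 ⊕ Fin 2 → F) = 4 := by simp
  -- the lines through a given vector
  have key : ∀ v : (Fin 2 ⊕ Fin 2 → F), v ≠ 0 →
      (Finset.univ.filter fun W : Submodule F (Fin 2 ⊕ Fin 2 → F) => TI W ∧ v ∈ W).card = q + 1 := by
    intro v hv
    let φ : (Fin 2 ⊕ Fin 2 → F) →ₗ[F] F :=
      { toFun := fun w => Cfsg.sympForm 2 F v w
        map_add' := fun a b => CfsgLib.Classical.Symp.form_add_right v a b
        map_smul' := fun c a => CfsgLib.Classical.Symp.form_smul_right c v a }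
    have hsurj : LinearMap.range φ = ⊤ := by
      obtain ⟨z, hz⟩ : ∃ z, φ z ≠ 0 := by
        by_contra h
        push Not at h
        exact hv (CfsgLib.Classical.Symp.eq_zero_of_form_eq_zero h)
      exact LinearMap.range_eq_top.2 fun c => ⟨(c / φ z) • z, by simp [hz]⟩
    have hker : Module.finrank F (LinearMap.ker φ) = 3 := by
      have := φ.finrank_range_add_finrank_ker
      rw [hsurj, finrank_top, Module.finrank_self, hV] at this
      omega
    have hvk : v ∈ LinearMap.ker φ := CfsgLib.Classical.Symp.form_self v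
    have h := Finset.card_mul_eq_card_mul
      (s := Finset.univ.filter fun W : Submodule F (Fin 2 ⊕ Fin 2 → F) => TI W ∧ v ∈ W)
      (t := (Finset.univ.filter fun w : (Fin 2 ⊕ Fin 2 → F) => w ∈ LinearMap.ker φ) \
        (Finset.univ.filter fun w : (Fin 2 ⊕ Fin 2 → F) => w ∈ F ∙ v))
      (r := fun (W : Submodule F (Fin 2 ⊕ Fin 2 → F)) (w : (Fin 2 ⊕ Fin 2 → F)) => w ∈ W) (m := q ^ 2 - q) (n := 1) ?_ ?_
    · rw [Finset.card_sdiff_of_subset, hsub, hsub, hker, finrank_span_singleton hv, pow_one,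
        mul_one] at h
      · refine Nat.eq_of_mul_eq_mul_right (m := q ^ 2 - q) ?_ (h.trans ?_)
        · have : q < q ^ 2 := by nlinarith
          omega
        · zify [Nat.le_self_pow (show 3 ≠ 0 by decide) q, Nat.le_self_pow (show 2 ≠ 0 by decide) q]
          ring
      · intro w
        simp only [Finset.mem_filter, Finset.mem_univ, true_and]
        exact fun hw => (Submodule.span_singleton_le_iff_mem _ _).2 hvk hw
    · intro W hW
      simp only [Finset.mem_filter, Finset.mem_univ, true_and] at hW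
      have he : Finset.bipartiteAbove (fun (W : Submodule F (Fin 2 ⊕ Fin 2 → F)) (w : (Fin 2 ⊕ Fin 2 → F)) => w ∈ W)
          ((Finset.univ.filter fun w : (Fin 2 ⊕ Fin 2 → F) => w ∈ LinearMap.ker φ) \
            (Finset.univ.filter fun w : (Fin 2 ⊕ Fin 2 → F) => w ∈ F ∙ v)) W =
          (Finset.univ.filter fun w : (Fin 2 ⊕ Fin 2 → F) => w ∈ W) \
            (Finset.univ.filter fun w : (Fin 2 ⊕ Fin 2 → F) => w ∈ F ∙ v) := by
        ext w
        simp only [Finset.mem_bipartiteAbove, Finset.mem_sdiff, Finset.mem_filter, Finset.mem_univ,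
          true_and]
        exact ⟨fun h => ⟨h.2, h.1.2⟩, fun h => ⟨⟨hW.1.2 v hW.2 w h.1, h.2⟩, h.1⟩⟩
      rw [he, Finset.card_sdiff_of_subset, hsub, hsub, hW.1.1, finrank_span_singleton hv, pow_one]
      intro w
      simp only [Finset.mem_filter, Finset.mem_univ, true_and]
      exact fun hw => (Submodule.span_singleton_le_iff_mem _ _).2 hW.2 hw
    · intro w hw
      simp only [Finset.mem_sdiff, Finset.mem_filter, Finset.mem_univ, true_and] at hw
      have hvw : Cfsg.sympForm 2 F v w = 0 := hw.1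
      have hli : LinearIndependent F ![v, w] :=
        (LinearIndependent.pair_iff' hv).2 fun c hc =>
          hw.2 (Submodule.mem_span_singleton.2 ⟨c, hc⟩)
      have h2 : Module.finrank F (Submodule.span F ({v, w} : Set (Fin 2 ⊕ Fin 2 → F))) = 2 := by
        have := finrank_span_eq_card hli
        rwa [Fintype.card_fin, Matrix.range_cons_cons_empty] at this
      rw [Finset.card_eq_one]
      refine ⟨Submodule.span F {v, w}, Finset.ext fun W => ?_⟩
      simp only [Finset.mem_bipartiteBelow, Finset.mem_filter, Finset.mem_univ, true_and,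
        Finset.mem_singleton]
      constructor
      · rintro ⟨⟨⟨hW2, -⟩, hvW⟩, hwW⟩
        refine (Submodule.eq_of_le_of_finrank_eq (Submodule.span_le.2 ?_) (h2.trans hW2.symm)).symm
        rintro x (rfl | rfl) <;> assumption
      · rintro rfl
        refine ⟨⟨⟨h2, fun a ha b hb => ?_⟩, Submodule.subset_span (Or.inl rfl)⟩,
          Submodule.subset_span (Or.inr rfl)⟩
        obtain ⟨a₁, a₂, rfl⟩ := Submodule.mem_span_pair.1 ha
        obtain ⟨b₁, b₂, rfl⟩ := Submodule.mem_span_pair.1 hb
        simp [CfsgLib.Classical.Symp.form_add_left, CfsgLib.Classical.Symp.form_add_right,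
          CfsgLib.Classical.Symp.form_smul_left, CfsgLib.Classical.Symp.form_smul_right,
          CfsgLib.Classical.Symp.form_self, CfsgLib.Classical.Symp.form_swap w v, hvw]
  refine ⟨?_, fun v hv => ?_⟩
  · rw [Nat.card_eq_fintype_card, Fintype.card_subtype]
    have h := Finset.card_mul_eq_card_mul
      (s := Finset.univ.filter fun W : Submodule F (Fin 2 ⊕ Fin 2 → F) => TI W)
      (t := Finset.univ.filter fun w : (Fin 2 ⊕ Fin 2 → F) => w ≠ 0)
      (r := fun (W : Submodule F (Fin 2 ⊕ Fin 2 → F)) (w : (Fin 2 ⊕ Fin 2 → F)) => w ∈ W) (m := q ^ 2 - 1) (n := q + 1) ?_ ?_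
    · rw [Finset.filter_ne', Finset.card_erase_of_mem (Finset.mem_univ _), Finset.card_univ,
        Module.card_eq_pow_finrank (K := F) (V := Fin 2 ⊕ Fin 2 → F), hV, ← hq] at h
      refine Nat.eq_of_mul_eq_mul_right (m := q ^ 2 - 1) ?_ (h.trans ?_)
      · have : 1 < q ^ 2 := by nlinarith
        omega
      · zify [Nat.one_le_pow 2 q (by omega), Nat.one_le_pow 4 q (by omega)]
        ring
    · intro W hW
      simp only [Finset.mem_filter, Finset.mem_univ, true_and] at hW
      have he : Finset.bipartiteAbove (fun (W : Submodule F (Fin 2 ⊕ Fin 2 → F)) (w : (Fin 2 ⊕ Fin 2 → F)) => w ∈ W)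
          (Finset.univ.filter fun w : (Fin 2 ⊕ Fin 2 → F) => w ≠ 0) W =
          (Finset.univ.filter fun w : (Fin 2 ⊕ Fin 2 → F) => w ∈ W).erase 0 := by
        ext w
        simp [and_comm]
      rw [he, Finset.card_erase_of_mem (by simp), hsub, hW.1]
    · intro w hw
      simp only [Finset.mem_filter, Finset.mem_univ, true_and] at hw
      rw [← key w hw, Finset.bipartiteBelow, Finset.filter_filter]
  · rw [Nat.card_eq_fintype_card, Fintype.card_subtype, ← key v hv]
    refine congrArg Finset.card (Finset.filter_congr fun W _ => ?_)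
    exact ⟨fun h => ⟨⟨h.1, h.2.2⟩, h.2.1⟩, fun h => ⟨h.1.1, h.2, h.1.2⟩⟩

end Cfsg.Agent.S0828
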