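import Cfsg.Statements.S0831
import Cfsg.Agent.LinAlg.Witt.Plus

set_option autoImplicit false
open Cfsg
open CfsgLib.LinAlg.Witt

namespace Cfsg.Agent.S0831

/-- The two families of maximal totally singular subspaces of the hyperbolic quadric: for the form Σ x_i y_i on F^(2m), m ≥ 1, and m-dimensional subspaces U, W, X on which it vanishes, the parities of m − dim(U ∩ W), m − dim(W ∩ X) and m − dim(U ∩ X) sum to an even number (so 'even codimension of the intersection' is an equivalence relation), and there exist two such subspaces meeting in codimension 1 (so there are exactly two classes). -/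
theorem result {F : Type*} [Field F] (m : ℕ) (hm : 1 ≤ m) : (∀ U W X : Submodule F (Fin m ⊕ Fin m → F), (Module.finrank F U = m ∧ ∀ w ∈ U, Cfsg.quadFormPlus m F w = 0) → (Module.finrank F W = m ∧ ∀ w ∈ W, Cfsg.quadFormPlus m F w = 0) → (Module.finrank F X = m ∧ ∀ w ∈ X, Cfsg.quadFormPlus m F w = 0) → Even ((m - Module.finrank F ↥(U ⊓ W)) + (m - Module.finrank F ↥(W ⊓ X)) + (m - Module.finrank F ↥(U ⊓ X)))) ∧ ∃ U W : Submodule F (Fin m ⊕ Fin m → F), (Module.finrank F U = m ∧ ∀ w ∈ U, Cfsg.quadFormPlus m F w = 0) ∧ (Module.finrank F W = m ∧ ∀ w ∈ W, Cfsg.quadFormPlus m F w = 0) ∧ Module.finrank F ↥(U ⊓ W) + 1 = m := by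
  classical
  refine ⟨?_, ?_⟩
  · intro U W X hU hW hX
    have hUo := Plus.Sing.orth_eq hU.2 hU.1
    have hWo := Plus.Sing.orth_eq hW.2 hW.1
    have hXo := Plus.Sing.orth_eq hX.2 hX.1
    -- a linear choice of the `U`-component on `U ⊔ W`
    obtain ⟨s, hsU, hsW⟩ : ∃ s : (↥(U ⊔ W)) →ₗ[F] (Fin m ⊕ Fin m → F),
        (∀ x, s x ∈ U) ∧ ∀ x : ↥(U ⊔ W), (x : Fin m ⊕ Fin m → F) - s x ∈ W := by
      let L : (↥U × ↥W) →ₗ[F] ↥(U ⊔ W) :=
        ((U.subtype.coprod W.subtype).codRestrict (U ⊔ W) fun p =>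
          Submodule.add_mem_sup p.1.2 p.2.2)
      have hL : LinearMap.range L = ⊤ := by
        refine LinearMap.range_eq_top.2 fun x => ?_
        obtain ⟨u, hu, w, hw, h⟩ := Submodule.mem_sup.1 x.2
        exact ⟨(⟨u, hu⟩, ⟨w, hw⟩), Subtype.ext h⟩
      obtain ⟨g, hg⟩ := LinearMap.exists_rightInverse_of_surjective L hL
      refine ⟨U.subtype.comp ((LinearMap.fst F U W).comp g), fun x => ((g x).1).2, fun x => ?_⟩
      have h := congrArg Subtype.val (LinearMap.congr_fun hg x)
      have h' : ((g x).1 : Fin m ⊕ Fin m → F) + ((g x).2 : Fin m ⊕ Fin m → F) = x := h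
      show (x : Fin m ⊕ Fin m → F) - ((g x).1 : Fin m ⊕ Fin m → F) ∈ W
      rw [← h', add_sub_cancel_left]
      exact ((g x).2).2
    let R : Submodule F (Fin m ⊕ Fin m → F) := X ⊓ (U ⊔ W)
    have hR : R ≤ U ⊔ W := inf_le_right
    let β : LinearMap.BilinForm F ↥R :=
      ((Plus.bil m F).domRestrict₁₂ ⊤ R).compl₁₂
        ((s.comp (Submodule.inclusion hR)).codRestrict ⊤ fun _ => trivial) LinearMap.id
    have hβ : ∀ r r' : ↥R, β r r' = Plus.bil m F (s ⟨(r : Fin m ⊕ Fin m → F), hR r.2⟩) r' :=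
      fun r r' => rfl
    have hA : β.IsAlt := by
      intro r
      set u := s ⟨(r : Fin m ⊕ Fin m → F), hR r.2⟩
      have hu : u ∈ U := hsU _
      have hw : (r : Fin m ⊕ Fin m → F) - u ∈ W := hsW ⟨(r : Fin m ⊕ Fin m → F), hR r.2⟩
      have h := Plus.quad_add u ((r : Fin m ⊕ Fin m → F) - u)
      rw [add_sub_cancel, hX.2 _ r.2.1, hU.2 u hu, hW.2 _ hw, map_sub, Plus.Sing.bil_eq hU.2 hu hu]
        at h
      rw [hβ]
      simpa using h.symm
    -- the orthogonal complement of `R`
    have hUW : Plus.orth (U ⊓ W) = U ⊔ W := by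
      conv_lhs => rw [← hUo, ← hWo, ← Plus.orth_sup]
      rw [Plus.orth_orth]
    have hOR : Plus.orth R = X ⊔ (U ⊓ W) := by
      rw [show R = Plus.orth (X ⊔ (U ⊓ W)) by rw [Plus.orth_sup, hXo, hUW], Plus.orth_orth]
    have hker : (LinearMap.ker β).map R.subtype = (X ⊓ U) ⊔ (X ⊓ W) := by
      ext v
      constructor
      · rintro ⟨r, hr, rfl⟩
        set u := s ⟨(r : Fin m ⊕ Fin m → F), hR r.2⟩
        have hu : u ∈ U := hsU _
        have hw : (r : Fin m ⊕ Fin m → F) - u ∈ W := hsW ⟨(r : Fin m ⊕ Fin m → F), hR r.2⟩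
        have h1 : u ∈ Plus.orth R := Plus.mem_orth.2 fun r' hr' => by
          rw [Plus.bil_comm]
          exact LinearMap.congr_fun (LinearMap.mem_ker.1 hr) ⟨r', hr'⟩
        rw [hOR] at h1
        obtain ⟨x, hx, z, hz, hxz⟩ := Submodule.mem_sup.1 h1
        have hxU : x ∈ U := by rw [eq_sub_of_add_eq hxz]; exact U.sub_mem hu hz.1
        refine Submodule.mem_sup.2 ⟨x, ⟨hx, hxU⟩, (r : Fin m ⊕ Fin m → F) - x,
          ⟨X.sub_mem r.2.1 hx, ?_⟩, by simp⟩
        rw [show (r : Fin m ⊕ Fin m → F) - x = ((r : Fin m ⊕ Fin m → F) - u) + z by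
          rw [← hxz]; abel]
        exact W.add_mem hw hz.2
      · intro hv
        obtain ⟨x, hx, y, hy, rfl⟩ := Submodule.mem_sup.1 hv
        have hmem : x + y ∈ R :=
          ⟨X.add_mem hx.1 hy.1, Submodule.add_mem_sup hx.2 hy.2⟩
        refine ⟨⟨x + y, hmem⟩, LinearMap.mem_ker.2 (LinearMap.ext fun r' => ?_), rfl⟩
        rw [hβ, LinearMap.zero_apply]
        set u := s ⟨x + y, hR hmem⟩
        have hu : u ∈ U := hsU _
        have hw : x + y - u ∈ W := hsW ⟨x + y, hR hmem⟩
        have hz : u - x ∈ U ⊓ W := ⟨U.sub_mem hu hx.2, by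
          rw [show u - x = y - (x + y - u) by abel]; exact W.sub_mem hy.2 hw⟩
        have h1 : u ∈ Plus.orth R := by
          rw [hOR]
          exact Submodule.mem_sup.2 ⟨x, hx.1, u - x, hz, by abel⟩
        rw [Plus.bil_comm]
        exact Plus.mem_orth.1 h1 r' r'.2
    -- dimensions
    obtain ⟨p, hp⟩ := Plus.even_finrank_sub_ker β hA
    have hk : Module.finrank F (LinearMap.ker β) +
        Module.finrank F ↥(U ⊓ W ⊓ X) =
        Module.finrank F ↥(U ⊓ X) + Module.finrank F ↥(W ⊓ X) := by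
      rw [← Submodule.finrank_map_subtype_eq, hker]
      have h := Submodule.finrank_sup_add_finrank_inf_eq (X ⊓ U) (X ⊓ W)
      rw [show (X ⊓ U) ⊓ (X ⊓ W) = U ⊓ W ⊓ X by rw [inf_inf_inf_comm, inf_idem, inf_comm]] at h
      rw [h, inf_comm X U, inf_comm X W]
    have hRd : Module.finrank F ↥R + Module.finrank F ↥(U ⊓ W) =
        m + Module.finrank F ↥(U ⊓ W ⊓ X) := by
      have h1 := Submodule.finrank_sup_add_finrank_inf_eq X (U ⊔ W)
      have h2 := Submodule.finrank_sup_add_finrank_inf_eq U W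
      have h3 := Plus.finrank_orth (X ⊔ (U ⊔ W))
      rw [Plus.orth_sup, Plus.orth_sup, hXo, hUo, hWo, inf_comm] at h3
      have h4 : Module.finrank F ↥R = Module.finrank F ↥(X ⊓ (U ⊔ W)) := rfl
      rw [hX.1] at h1
      rw [hU.1, hW.1] at h2
      omega
    have ha : Module.finrank F ↥(U ⊓ W) ≤ m := (Submodule.finrank_mono inf_le_left).trans hU.1.le
    have hb : Module.finrank F ↥(W ⊓ X) ≤ m := (Submodule.finrank_mono inf_le_left).trans hW.1.le
    have hc : Module.finrank F ↥(U ⊓ X) ≤ m := (Submodule.finrank_mono inf_le_left).trans hU.1.le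
    rw [Nat.even_iff]
    omega
  · let i₀ : Fin m := ⟨0, hm⟩
    let σ : Fin m → Fin m ⊕ Fin m := fun i => if i = i₀ then Sum.inl i else Sum.inr i
    have hσ : Function.Injective σ := fun i j h => by
      simp only [σ] at h
      split_ifs at h <;> simp_all
    refine ⟨LinearMap.ker (LinearMap.funLeft F F (Sum.inr : Fin m → Fin m ⊕ Fin m)),
      LinearMap.ker (LinearMap.funLeft F F σ), ⟨?_, ?_⟩, ⟨?_, ?_⟩, ?_⟩
    · have := Plus.finrank_ker_funLeft (F := F) (Sum.inr : Fin m → Fin m ⊕ Fin m) Sum.inr_injective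
      rw [Fintype.card_fin] at this
      omega
    · exact Plus.sing_ker_funLeft _ fun i => Or.inr rfl
    · have := Plus.finrank_ker_funLeft (F := F) σ hσ
      rw [Fintype.card_fin] at this
      omega
    · exact Plus.sing_ker_funLeft _ fun i => by
        simp only [σ]; split_ifs <;> simp
    · let τ : Fin m ⊕ Unit → Fin m ⊕ Fin m := Sum.elim Sum.inr fun _ => Sum.inl i₀
      have hτ : Function.Injective τ := by
        rintro (a | a) (b | b) h <;> simp_all [τ]
      have := Plus.finrank_ker_funLeft (F := F) τ hτ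
      rw [Fintype.card_sum, Fintype.card_fin, Fintype.card_unit] at this
      rw [show LinearMap.ker (LinearMap.funLeft F F (Sum.inr : Fin m → Fin m ⊕ Fin m)) ⊓
        LinearMap.ker (LinearMap.funLeft F F σ) = LinearMap.ker (LinearMap.funLeft F F τ) from ?_]
      · omega
      ext v
      simp only [Submodule.mem_inf, LinearMap.mem_ker, funext_iff, LinearMap.funLeft_apply,
        Pi.zero_apply]
      refine ⟨fun h i => ?_, fun h => ⟨fun i => h (Sum.inl i), fun i => ?_⟩⟩
      · rcases i with i | i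
        · exact h.1 i
        · simpa [τ, σ] using h.2 i₀
      · simp only [σ]
        split_ifs with e
        · subst e; exact h (Sum.inr ())
        · exact h (Sum.inl i)

end Cfsg.Agent.S0831
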