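import Cfsg.Statements.S0832
import Cfsg.Agent.LinAlg.Witt.Plus

set_option autoImplicit false
open Cfsg
open CfsgLib.LinAlg.Witt

namespace Cfsg.Agent.S0832

/-- For the form Σ x_i y_i on F^(2m) over a finite field, m ≥ 1: an (m−1)-dimensional subspace on which the form vanishes is contained in exactly two m-dimensional subspaces on which it vanishes. -/
theorem result {F : Type*} [Field F] [Finite F] (m : ℕ) (hm : 1 ≤ m) (U : Submodule F (Fin m ⊕ Fin m → F)) (hU : Module.finrank F U + 1 = m ∧ ∀ u ∈ U, Cfsg.quadFormPlus m F u = 0) : Nat.card {W : Submodule F (Fin m ⊕ Fin m → F) // Module.finrank F W = m ∧ (∀ w ∈ W, Cfsg.quadFormPlus m F w = 0) ∧ U ≤ W} = 2 := by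
  classical
  obtain ⟨hUd, hUs⟩ := hU
  -- a singular vector in the orthogonal complement, outside `U`
  set S := LinearMap.ker (LinearMap.funLeft F F (Sum.inr : Fin m → Fin m ⊕ Fin m))
  have hSd : Module.finrank F S = m := by
    have := Plus.finrank_ker_funLeft (F := F) (Sum.inr : Fin m → Fin m ⊕ Fin m) Sum.inr_injective
    rw [Fintype.card_fin] at this
    change Module.finrank F ↥S + m = 2 * m at this
    omega
  have hSs : Plus.Sing S := Plus.sing_ker_funLeft _ fun i => Or.inr rfl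
  have hOd := Plus.finrank_orth U
  obtain ⟨e, he, heU⟩ : ∃ e ∈ S ⊓ Plus.orth U, e ∉ U := by
    by_contra h
    push Not at h
    have h1 : S ⊓ Plus.orth U ≤ S ⊓ U := fun x hx => ⟨hx.1, h x hx⟩
    have h2 := Submodule.finrank_mono h1
    have h3 := Plus.finrank_orth (S ⊔ U)
    rw [Plus.orth_sup, Plus.Sing.orth_eq hSs hSd] at h3
    have h4 := Submodule.finrank_sup_add_finrank_inf_eq S U
    omega
  have hQe : Cfsg.quadFormPlus m F e = 0 := hSs e he.1
  obtain ⟨f, hf, hef, hQf⟩ : ∃ f ∈ Plus.orth U,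
      Plus.bil m F e f = 1 ∧ Cfsg.quadFormPlus m F f = 0 := by
    obtain ⟨g, hg, heg⟩ : ∃ g ∈ Plus.orth U, Plus.bil m F e g ≠ 0 := by
      by_contra h
      push Not at h
      refine heU ?_
      rw [← Plus.orth_orth U]
      exact Plus.mem_orth.2 fun w hw => by rw [Plus.bil_comm]; exact h w hw
    obtain ⟨f, hf, hef⟩ : ∃ f ∈ Plus.orth U, Plus.bil m F e f = 1 :=
      ⟨(Plus.bil m F e g)⁻¹ • g, Submodule.smul_mem _ _ hg, by
        rw [map_smul, smul_eq_mul, inv_mul_cancel₀ heg]⟩
    have hee : Plus.bil m F e e = 0 := by rw [Plus.bil_self, hQe, mul_zero]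
    refine ⟨f + (-Cfsg.quadFormPlus m F f) • e,
      Submodule.add_mem _ hf (Submodule.smul_mem _ _ he.2), ?_, ?_⟩
    · rw [map_add, map_smul, hef, hee, smul_zero, add_zero]
    · rw [Plus.quad_add, Plus.quad_smul, hQe, map_smul, Plus.bil_comm f e, hef]
      simp
  have hee : Plus.bil m F e e = 0 := by rw [Plus.bil_self, hQe, mul_zero]
  have hff : Plus.bil m F f f = 0 := by rw [Plus.bil_self, hQf, mul_zero]
  have hperp : ∀ u ∈ U, ∀ x ∈ Plus.orth U, Plus.bil m F u x = 0 := fun u hu x hx =>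
    Plus.mem_orth.1 hx u hu
  have hfU : f ∉ U ⊔ F ∙ e := by
    intro h
    obtain ⟨u, hu, b, hb, hub⟩ := Submodule.mem_sup.1 h
    obtain ⟨c, rfl⟩ := Submodule.mem_span_singleton.1 hb
    rw [← hub, map_add, map_smul, hee, smul_zero, add_zero, Plus.bil_comm,
      hperp u hu e he.2] at hef
    exact zero_ne_one hef
  have hspan : Plus.orth U = U ⊔ F ∙ e ⊔ F ∙ f := by
    refine (Submodule.eq_of_le_of_finrank_eq
      (sup_le (sup_le (Plus.Sing.le_orth hUs) ((Submodule.span_singleton_le_iff_mem _ _).2 he.2))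
        ((Submodule.span_singleton_le_iff_mem _ _).2 hf)) ?_).symm
    rw [Submodule.finrank_sup_span_singleton hfU, Submodule.finrank_sup_span_singleton heU]
    omega
  have hdim : ∀ x : Fin m ⊕ Fin m → F, x ∉ U → Module.finrank F ↥(U ⊔ F ∙ x) = m :=
    fun x hx => by rw [Submodule.finrank_sup_span_singleton hx, hUd]
  have hsing : ∀ x ∈ Plus.orth U, Cfsg.quadFormPlus m F x = 0 → Plus.Sing (U ⊔ F ∙ x) := by
    intro x hx hQx y hy
    obtain ⟨u, hu, b, hb, rfl⟩ := Submodule.mem_sup.1 hy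
    obtain ⟨c, rfl⟩ := Submodule.mem_span_singleton.1 hb
    rw [Plus.quad_add, hUs u hu, Plus.quad_smul, hQx, map_smul, hperp u hu x hx]
    simp
  have hfU' : f ∉ U := fun h => hfU (Submodule.mem_sup_left h)
  have hne : U ⊔ F ∙ e ≠ U ⊔ F ∙ f := fun h => hfU (by
    rw [h]
    exact Submodule.mem_sup_right (Submodule.mem_span_singleton_self f))
  rw [← Set.ncard_pair hne, ← Nat.card_coe_set_eq]
  refine Nat.card_congr (Equiv.subtypeEquivRight fun W => ?_)
  rw [Set.mem_insert_iff, Set.mem_singleton_iff]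
  constructor
  · rintro ⟨hWd, hWs, hle⟩
    have hWo : W ≤ Plus.orth U :=
      fun x hx => Plus.mem_orth.2 fun u hu => Plus.Sing.bil_eq hWs (hle hu) hx
    obtain ⟨x, hx, hxU⟩ : ∃ x ∈ W, x ∉ U := by
      by_contra h
      push Not at h
      have := Submodule.finrank_mono (show W ≤ U from h)
      omega
    have hx' := hWo hx
    rw [hspan] at hx'
    obtain ⟨y, hy, b, hb, rfl⟩ := Submodule.mem_sup.1 hx'
    obtain ⟨c, rfl⟩ := Submodule.mem_span_singleton.1 hb
    obtain ⟨u, hu, a', ha, rfl⟩ := Submodule.mem_sup.1 hy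
    obtain ⟨a, rfl⟩ := Submodule.mem_span_singleton.1 ha
    have h0 := hWs _ hx
    rw [Plus.quad_add, Plus.quad_add, hUs u hu, Plus.quad_smul, Plus.quad_smul, hQe, hQf,
      map_smul, map_smul, map_add, LinearMap.add_apply, map_smul, LinearMap.smul_apply, hef,
      hperp u hu e he.2, hperp u hu f hf] at h0
    simp only [mul_zero, smul_zero, zero_add, add_zero, smul_eq_mul, mul_one, mul_eq_zero] at h0
    have key : ∀ (z : Fin m ⊕ Fin m → F) (d : F), z ∉ U → d ≠ 0 → u + d • z ∈ W →
        W = U ⊔ F ∙ z := by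
      intro z d hz hd hmem
      refine (Submodule.eq_of_le_of_finrank_eq (sup_le hle ?_) ((hdim z hz).trans hWd.symm)).symm
      rw [Submodule.span_singleton_le_iff_mem]
      have h1 := W.smul_mem d⁻¹ (W.sub_mem hmem (hle hu))
      rwa [add_sub_cancel_left, inv_smul_smul₀ hd] at h1
    rcases h0 with h0 | h0
    · subst h0
      simp only [zero_smul, add_zero] at hx hxU
      exact Or.inl (key e a heU (fun ha0 => hxU (by simpa [ha0] using hu)) hx)
    · subst h0
      simp only [zero_smul, add_zero] at hx hxU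
      exact Or.inr (key f c hfU' (fun hc0 => hxU (by simpa [hc0] using hu)) hx)
  · rintro (rfl | rfl)
    · exact ⟨hdim e heU, hsing e he.2 hQe, le_sup_left⟩
    · exact ⟨hdim f hfU', hsing f hf hQf, le_sup_left⟩

end Cfsg.Agent.S0832
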