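import Cfsg.Statements.S0833
import Cfsg.Agent.LinAlg.Witt.Bases

set_option autoImplicit false
open Cfsg

namespace Cfsg.Agent.S0833


theorem sympBasis_pairing {F Z : Type*} [Field F] [AddCommGroup Z] [Module F Z] {N : ℕ}
    (B : LinearMap.BilinForm F Z) (c : Module.Basis (Fin N ⊕ Fin N) F Z) (hA : B.IsAlt)
    (hef : ∀ i j, B (c (Sum.inl i)) (c (Sum.inr j)) = if i = j then 1 else 0)
    (hee : ∀ i j, B (c (Sum.inl i)) (c (Sum.inl j)) = 0)
    (hff : ∀ i j, B (c (Sum.inr i)) (c (Sum.inr j)) = 0) (i i' : Fin N ⊕ Fin N) :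
    (i' = i → B (c i') (c i.swap) ≠ 0) ∧ (i' ≠ i → B (c i') (c i.swap) = 0) := by
  rcases i with i | i <;> rcases i' with i' | i'
  · constructor
    · intro h; cases h; simp [hef]
    · intro h
      have : i' ≠ i := fun e => h (by rw [e])
      simp [hef, this]
  · exact ⟨fun h => by simp at h, fun _ => hff i' i⟩
  · exact ⟨fun h => by simp at h, fun _ => hee i' i⟩
  · constructor
    · intro h; cases h
      rw [Sum.swap_inr, ← LinearMap.IsAlt.neg hA, hef]; simp
    · intro h
      have : i ≠ i' := fun e => h (by rw [e])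
      rw [Sum.swap_inr, ← LinearMap.IsAlt.neg hA, hef]; simp [this]

/-- If B₁, B₂ are non-degenerate alternating forms on U (dim 2k) and W (dim 2l), then B₁ ⊗ B₂ on U ⊗ W is symmetric, non-degenerate, and vanishes identically on some subspace of dimension 2kl (half of dim U ⊗ W). -/
theorem result {F U W : Type*} [Field F] [Fintype F] [AddCommGroup U] [Module F U] [FiniteDimensional F U] [AddCommGroup W] [Module F W] [FiniteDimensional F W] (B₁ : LinearMap.BilinForm F U) (B₂ : LinearMap.BilinForm F W) (h₁ : B₁.Nondegenerate) (h₂ : B₂.Nondegenerate) (hA₁ : B₁.IsAlt) (hA₂ : B₂.IsAlt) (k l : ℕ) (hU : Module.finrank F U = 2 * k) (hW : Module.finrank F W = 2 * l) : (B₁.tmul B₂).IsSymm ∧ (B₁.tmul B₂).Nondegenerate ∧ (∃ X : Submodule F (TensorProduct F U W), Module.finrank F X = 2 * k * l ∧ ∀ x ∈ X, ∀ y ∈ X, (B₁.tmul B₂) x y = 0) := by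
  classical
  have hk₁ : LinearMap.ker B₁ = ⊥ := LinearMap.separatingLeft_iff_ker_eq_bot.mp h₁.1
  have hk₂ : LinearMap.ker B₂ = ⊥ := LinearMap.separatingLeft_iff_ker_eq_bot.mp h₂.1
  obtain ⟨m, b₁, hm, ef₁, ee₁, ff₁⟩ := CfsgLib.LinAlg.Witt.exists_symplectic_basis B₁ hA₁ hk₁
  obtain ⟨n, b₂, hn, ef₂, ee₂, ff₂⟩ := CfsgLib.LinAlg.Witt.exists_symplectic_basis B₂ hA₂ hk₂
  have hmk : m = k := by omega
  have hnl : n = l := by omega
  subst hmk hnl
  have val : ∀ (x x' : U) (y y' : W),
      (B₁.tmul B₂) (x ⊗ₜ[F] y) (x' ⊗ₜ[F] y') = B₂ y y' * B₁ x x' := by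
    intro x x' y y'
    simp [LinearMap.BilinForm.tensorDistrib_tmul]
  have hsymm : (B₁.tmul B₂).IsSymm := by
    constructor
    intro x y
    induction x using TensorProduct.induction_on generalizing y with
    | zero => simp
    | add a a' ha ha' =>
      have e1 := ha y; have e2 := ha' y
      simp only [map_add, LinearMap.add_apply, RingHom.id_apply] at e1 e2 ⊢; rw [e1, e2]
    | tmul a a' =>
      induction y using TensorProduct.induction_on with
      | zero => simp
      | add c c' hc hc' => simp only [map_add, LinearMap.add_apply, RingHom.id_apply] at hc hc' ⊢; rw [hc, hc']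
      | tmul c c' =>
        simp only [val, RingHom.id_apply]
        rw [← LinearMap.IsAlt.neg hA₁ a c, ← LinearMap.IsAlt.neg hA₂ a' c']; ring
  let b := b₁.tensorProduct b₂
  have hb : ∀ i j, b (i, j) = b₁ i ⊗ₜ[F] b₂ j := fun i j => Module.Basis.tensorProduct_apply b₁ b₂ i j
  have hL : (B₁.tmul B₂).SeparatingLeft := by
    intro z hz
    apply b.ext_elem
    rintro ⟨i, j⟩
    have h := hz (b (i.swap, j.swap))
    rw [← b.sum_repr z, map_sum, LinearMap.sum_apply, Finset.sum_eq_single (i, j)] at h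
    · rw [map_smul, LinearMap.smul_apply, hb, hb, val, smul_eq_mul, mul_eq_zero] at h
      rcases h with h | h
      · simpa using h
      · rcases mul_eq_zero.mp h with h' | h'
        · exact absurd h' ((sympBasis_pairing B₂ b₂ hA₂ ef₂ ee₂ ff₂ j j).1 rfl)
        · exact absurd h' ((sympBasis_pairing B₁ b₁ hA₁ ef₁ ee₁ ff₁ i i).1 rfl)
    · rintro ⟨i', j'⟩ - hne
      rw [map_smul, LinearMap.smul_apply, hb, hb, val]
      by_cases h' : i' = i
      · have : j' ≠ j := fun e => hne (by rw [h', e])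
        rw [(sympBasis_pairing B₂ b₂ hA₂ ef₂ ee₂ ff₂ j j').2 this]; simp
      · rw [(sympBasis_pairing B₁ b₁ hA₁ ef₁ ee₁ ff₁ i i').2 h']; simp
    · simp
  refine ⟨hsymm, ⟨hL, ?_⟩, ?_⟩
  · intro z hz
    exact hL z fun y => (hsymm.eq z y).trans (hz y)
  let g : Fin m × (Fin n ⊕ Fin n) → TensorProduct F U W := fun p => b (Sum.inl p.1, p.2)
  refine ⟨Submodule.span F (Set.range g), ?_, ?_⟩
  · have hinj : Function.Injective (fun p : Fin m × (Fin n ⊕ Fin n) =>
        ((Sum.inl p.1 : Fin m ⊕ Fin m), p.2)) := fun p q h => by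
      simp only [Prod.mk.injEq, Sum.inl.injEq] at h; exact Prod.ext h.1 h.2
    rw [finrank_span_eq_card (R := F) (b := g) (b.linearIndependent.comp _ hinj)]
    simp; ring
  · intro x hx y hy
    induction hx using Submodule.span_induction with
    | mem x hx =>
      induction hy using Submodule.span_induction with
      | mem y hy =>
        obtain ⟨⟨i, j⟩, rfl⟩ := hx
        obtain ⟨⟨i', j'⟩, rfl⟩ := hy
        simp only [g, hb, val, ee₁, mul_zero]
      | zero => simp
      | add a c _ _ ha hc => simp [ha, hc]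
      | smul r a _ ha => simp [ha]
    | zero => simp
    | add a c _ _ ha hc => simp [ha, hc]
    | smul r a _ ha => simp [ha]

end Cfsg.Agent.S0833
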