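import Cfsg.Statements.S0835
import Cfsg.Agent.LinAlg.Witt.Discr

set_option autoImplicit false
open Cfsg

namespace Cfsg.Agent.S0835

/-- Over a finite field with 2 ≠ 0: if B₁ on U (dim 2k, k ≥ 1) is non-degenerate symmetric of minus type (no totally isotropic k-subspace) and B₂ on W (dim 2l + 1) is non-degenerate symmetric, then B₁ ⊗ B₂ (dimension 2k(2l+1)) admits no totally isotropic subspace of dimension k(2l+1) (minus type). -/
theorem result {F U W : Type*} [Field F] [Fintype F] [AddCommGroup U] [Module F U] [FiniteDimensional F U] [AddCommGroup W] [Module F W] [FiniteDimensional F W] (h2 : (2 : F) ≠ 0) (B₁ : LinearMap.BilinForm F U) (B₂ : LinearMap.BilinForm F W) (h₁ : B₁.Nondegenerate) (h₂ : B₂.Nondegenerate) (hS₁ : B₁.IsSymm) (hS₂ : B₂.IsSymm) (k l : ℕ) (hk : 1 ≤ k) (hU : Module.finrank F U = 2 * k) (hW : Module.finrank F W = 2 * l + 1) (hm₁ : ¬ (∃ X : Submodule F (U), Module.finrank F X = k ∧ ∀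 x ∈ X, ∀ y ∈ X, (B₁) x y = 0)) : ¬ (∃ X : Submodule F (TensorProduct F U W), Module.finrank F X = k * (2 * l + 1) ∧ ∀ x ∈ X, ∀ y ∈ X, (B₁.tmul B₂) x y = 0) := by
  classical
  let b₁ := Module.finBasisOfFinrankEq F U hU
  let b₂ := Module.finBasisOfFinrankEq F W hW
  let b := b₁.tensorProduct b₂
  have hS : ∀ u v, (B₁.tmul B₂) u v = (B₁.tmul B₂) v u := fun u v =>
    (LinearMap.IsSymm.tmul (LinearMap.BilinForm.isSymm_iff.1 hS₁) (LinearMap.BilinForm.isSymm_iff.1 hS₂)).eq u v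
  have hg : CfsgLib.LinAlg.Witt.gram (B₁.tmul B₂) b = Matrix.kroneckerMap (· * ·)
      (CfsgLib.LinAlg.Witt.gram B₁ b₁) (CfsgLib.LinAlg.Witt.gram B₂ b₂) :=
    Matrix.ext fun i j => by
      rw [CfsgLib.LinAlg.Witt.gram_apply, Matrix.kroneckerMap_apply, Module.Basis.tensorProduct_apply',
        Module.Basis.tensorProduct_apply', LinearMap.BilinForm.tensorDistrib_tmul,
        smul_eq_mul, mul_comm]
      rfl
  have hd : (CfsgLib.LinAlg.Witt.gram (B₁.tmul B₂) b).det =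
      (CfsgLib.LinAlg.Witt.gram B₁ b₁).det ^ (2 * l + 1) *
        (CfsgLib.LinAlg.Witt.gram B₂ b₂).det ^ (2 * k) := by
    rw [hg, Matrix.det_kronecker, Fintype.card_fin, Fintype.card_fin]
  have hker₁ := LinearMap.separatingLeft_iff_ker_eq_bot.1 h₁.1
  have hn₁ := CfsgLib.LinAlg.Witt.gram_det_ne_zero B₁ b₁ hker₁
  have hn₂ := CfsgLib.LinAlg.Witt.gram_det_ne_zero B₂ b₂
    (LinearMap.separatingLeft_iff_ker_eq_bot.1 h₂.1)
  intro hX
  obtain ⟨u, hu⟩ := (CfsgLib.LinAlg.Witt.exists_half_isotropic_iff h2 _ hS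
    (CfsgLib.LinAlg.Witt.ker_eq_bot_of_gram_det_ne_zero _ b
      (by rw [hd]; exact mul_ne_zero (pow_ne_zero _ hn₁) (pow_ne_zero _ hn₂)))
    (M := k * (2 * l + 1)) (by rw [Module.finrank_tensorProduct, hU, hW]; ring) b).1 hX
  refine hm₁ ((CfsgLib.LinAlg.Witt.exists_half_isotropic_iff h2 B₁ hS₁.eq hker₁ hU b₁).2 ?_)
  rw [hd] at hu
  set t := (-1 : F) ^ k * (CfsgLib.LinAlg.Witt.gram B₁ b₁).det with ht'
  set d := (CfsgLib.LinAlg.Witt.gram B₂ b₂).det
  replace hu : (t ^ l) ^ 2 * t * (d ^ k) ^ 2 = u * u := by rw [← hu, ht']; ring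
  have ht : t ≠ 0 := mul_ne_zero (pow_ne_zero _ (by simp)) hn₁
  refine ⟨u / (t ^ l * d ^ k), ?_⟩
  rw [div_mul_div_comm, ← hu]
  field_simp

end Cfsg.Agent.S0835
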