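import Mathlib
import Cfsg.Statements.S0836

set_option autoImplicit false
open Cfsg

namespace Cfsg.Agent.S0836

/-- For i ≠ j and any scalar c, the elementary transvection 1 + c E_ij is a commutator ⁅g, h⁆ of two elements of SL_n(F) provided n ≥ 3, or n = 2 and F contains x ≠ 0 with x² ≠ 1. -/
theorem result {F : Type*} [Field F] (n : ℕ) (hn : 3 ≤ n ∨ (n = 2 ∧ ∃ x : F, x ≠ 0 ∧ x ^ 2 ≠ 1)) (i j : Fin n) (hij : i ≠ j) (c : F) (t : Matrix.SpecialLinearGroup (Fin n) F) (ht : (t : Matrix (Fin n) (Fin n) F) = Matrix.transvection i j c) : t ∈ commutatorSet (Matrix.SpecialLinearGroup (Fin n) F) := by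
  rw [mem_commutatorSet_iff]
  rcases hn with hn | ⟨rfl, x, hx0, hx1⟩
  · obtain ⟨k, hki, hkj⟩ : ∃ k : Fin n, k ≠ i ∧ k ≠ j := by
      by_contra hh
      push Not at hh
      have : (Finset.univ : Finset (Fin n)) ⊆ {i, j} := by
        intro k _
        by_cases h : k = i
        · simp [h]
        · simp [hh k h]
      have h2 := (Finset.card_le_card this).trans Finset.card_le_two
      simp at h2
      omega
    let g : Matrix.SpecialLinearGroup (Fin n) F := ⟨Matrix.transvection i k c, by simp [hki.symm]⟩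
    let h : Matrix.SpecialLinearGroup (Fin n) F := ⟨Matrix.transvection k j 1, by simp [hkj]⟩
    refine ⟨g, h, ?_⟩
    show g * h * g⁻¹ * h⁻¹ = t
    rw [mul_inv_eq_iff_eq_mul, mul_inv_eq_iff_eq_mul]
    apply Subtype.ext
    rw [Matrix.SpecialLinearGroup.coe_mul, Matrix.SpecialLinearGroup.coe_mul, Matrix.SpecialLinearGroup.coe_mul, ht]
    dsimp only [g, h]
    simp only [Matrix.transvection, Matrix.add_mul, Matrix.mul_add, one_mul, mul_one,
      Matrix.single_mul_single_same, Matrix.single_mul_single_of_ne _ _ _ _ hki.symm,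
      Matrix.single_mul_single_of_ne _ _ _ _ hkj.symm, Matrix.single_mul_single_of_ne _ _ _ _ hij.symm,
      zero_mul, mul_zero, add_zero]
    abel
  · have hx2 : x ^ 2 - 1 ≠ 0 := sub_ne_zero.mpr hx1
    have hd : (Matrix.diagonal (Function.update (fun _ : Fin 2 => x⁻¹) i x)).det = 1 := by
      rw [Matrix.det_diagonal, Fin.prod_univ_two]
      fin_cases i <;> simp [hx0]
    let g : Matrix.SpecialLinearGroup (Fin 2) F := ⟨_, hd⟩
    let h : Matrix.SpecialLinearGroup (Fin 2) F :=
      ⟨Matrix.transvection i j (c / (x ^ 2 - 1)), by simp [hij]⟩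
    refine ⟨g, h, ?_⟩
    show g * h * g⁻¹ * h⁻¹ = t
    rw [mul_inv_eq_iff_eq_mul, mul_inv_eq_iff_eq_mul]
    apply Subtype.ext
    rw [Matrix.SpecialLinearGroup.coe_mul, Matrix.SpecialLinearGroup.coe_mul, Matrix.SpecialLinearGroup.coe_mul, ht]
    dsimp only [g, h]
    fin_cases i <;> fin_cases j <;>
      first
        | exact absurd rfl hij
        | (ext a b; fin_cases a <;> fin_cases b <;>
            simp [Matrix.mul_apply, Fin.sum_univ_two, Matrix.transvection, Matrix.diagonal,
              Matrix.single, Function.update] <;>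
            field_simp <;> ring)

end Cfsg.Agent.S0836
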