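import Cfsg.Statements.S0837
import Cfsg.Agent.Classical.Unitary.Blocks
import Cfsg.Agent.Eq.Def_ClassicalGeometry

set_option autoImplicit false
open Cfsg

namespace Cfsg.Agent.S0837
open Matrix CfsgLib.Unitary

/-- If W ≤ F^n (|F| = q²) is a k-dimensional subspace on which the Hermitian form Σ x_i y_i^q is non-degenerate, then the stabiliser of W in GU_n(q) is isomorphic to GU_k(q) × GU_(n−k)(q). -/
theorem result {F : Type*} [Field F] [Fintype F] {q : ℕ} (hF : Fintype.card F = q ^ 2) (n k : ℕ) (hk : k ≤ n) (W : Submodule F (Fin n → F)) (hWk : Module.finrank F W = k) (hW : ∀ u ∈ W, (∀ v ∈ W, Cfsg.hermForm n F q u v = 0) → u = 0) : Nonempty (↥((Cfsg.stabilizing (Cfsg.glToMat (Fin n) F) (W : Set (Fin n → F))).subgroupOf (Cfsg.GU n F q)) ≃* ↥(Cfsg.GU k F q) × ↥(Cfsg.GU (n - k) F q)) := by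
  classical
  obtain ⟨f, hf, hfW, hspan⟩ := exists_orthonorm_basis hF (W := W) hW hWk
  obtain ⟨g, hg, hgf⟩ := exists_GU_mulVec hF hf
  have hl : k + (n - k) = n := by omega
  set G : ↥(Cfsg.GU n F q) := ⟨g, hg⟩
  set gm : Matrix (Fin n) (Fin n) F := (g : Matrix (Fin n) (Fin n) F) with hgm
  set gi : Matrix (Fin n) (Fin n) F := ((g⁻¹ : GL (Fin n) F) : Matrix (Fin n) (Fin n) F) with hgi
  have hig : gi * gm = 1 := g.inv_mul
  have hgg : gm * gi = 1 := g.mul_inv
  have hidx : ∀ i : Fin k, blockIdx hl (.inl i) = Fin.castLE (hf.le hF) i := fun i => Fin.ext rfl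
  -- W is the image of the coordinate block
  have hWmem : ∀ v, v ∈ W ↔ ∀ i, (gi *ᵥ v) (blockIdx hl (.inr i)) = 0 := by
    intro v
    constructor
    · intro hv i
      rw [← hspan] at hv
      induction hv using Submodule.span_induction with
      | mem x hx =>
        obtain ⟨j, rfl⟩ := hx
        rw [← hgf, ← hidx, Matrix.mulVec_mulVec, hig, Matrix.one_mulVec]
        exact Pi.single_eq_of_ne (fun e => by simpa using (blockIdx hl).injective e) 1
      | zero => simp
      | add x y _ _ hx hy => simp [Matrix.mulVec_add, hx, hy]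
      | smul c x _ hx => simp [Matrix.mulVec_smul, hx]
    · intro h
      have hdec : v = ∑ j, (gi *ᵥ v) (blockIdx hl (.inl j)) • f j := by
        have h1 : gi *ᵥ v = ∑ j, (gi *ᵥ v) (blockIdx hl (.inl j)) • Pi.single (blockIdx hl (.inl j)) (1 : F) := by
          conv_lhs => rw [pi_eq_sum_univ' (gi *ᵥ v), ← (blockIdx hl).sum_comp, Fintype.sum_sum_type]
          simp [h]
        conv_lhs => rw [← Matrix.one_mulVec v, ← hgg, ← Matrix.mulVec_mulVec, h1, Matrix.mulVec_sum]
        simp [Matrix.mulVec_smul, hgm, ← hgf, ← hidx]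
      rw [hdec]
      exact Submodule.sum_mem _ fun j _ => Submodule.smul_mem _ _ (hfW j)
  let Φ : ↥(Cfsg.GU k F q) × ↥(Cfsg.GU (n - k) F q) →* ↥(Cfsg.GU n F q) :=
    (MulAut.conj G).toMonoidHom.comp (blockGU hF hl)
  have hΦ : Function.Injective Φ := (MulAut.conj G).injective.comp (blockGU_injective hF hl)
  have hval : ∀ x : ↥(Cfsg.GU n F q), ((G⁻¹ * x * G : ↥(Cfsg.GU n F q)) : GL (Fin n) F).val
      = gi * ((x : GL (Fin n) F) : Matrix (Fin n) (Fin n) F) * gm := fun x => rfl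
  have hrange : Φ.range = (Cfsg.stabilizing (Cfsg.glToMat (Fin n) F) (W : Set (Fin n → F))).subgroupOf (Cfsg.GU n F q) := by
    ext x
    rw [Subgroup.mem_subgroupOf]
    constructor
    · rintro ⟨p, rfl⟩
      intro v
      set B : Matrix (Fin n) (Fin n) F := ((blockGU hF hl p : GL (Fin n) F) : Matrix (Fin n) (Fin n) F) with hB
      show v ∈ W ↔ (gm * B * gi) *ᵥ v ∈ W
      have hmaps : ∀ (M : ↥(Cfsg.GU n F q)), M ∈ (blockGU hF hl).range → ∀ u : Fin n → F,
          (∀ i, u (blockIdx hl (.inr i)) = 0) →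
          ∀ i, (((M : GL (Fin n) F) : Matrix (Fin n) (Fin n) F) *ᵥ u) (blockIdx hl (.inr i)) = 0 := by
        rintro _ ⟨p, rfl⟩ u hu i
        rw [Matrix.mulVec, dotProduct, ← (blockIdx hl).sum_comp, Fintype.sum_sum_type]
        simp [blockGU_apply_eq_zero, hu]
      rw [hWmem, hWmem, ← Matrix.mulVec_mulVec, ← Matrix.mulVec_mulVec, Matrix.mulVec_mulVec _ gi gm, hig,
        Matrix.one_mulVec]
      refine ⟨hmaps _ ⟨p, rfl⟩ _, fun h => ?_⟩
      have h2 := hmaps _ ⟨p⁻¹, rfl⟩ _ h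
      rwa [map_inv, Matrix.mulVec_mulVec, hB, show ((((blockGU hF hl p)⁻¹ : ↥(Cfsg.GU n F q)) : GL (Fin n) F) : Matrix (Fin n) (Fin n) F) *
        ((blockGU hF hl p : GL (Fin n) F) : Matrix (Fin n) (Fin n) F) = 1 from
        congrArg (fun y : ↥(Cfsg.GU n F q) => ((y : GL (Fin n) F) : Matrix (Fin n) (Fin n) F)) (inv_mul_cancel (blockGU hF hl p)),
        Matrix.one_mulVec] at h2
    · intro hx
      obtain ⟨p, hp⟩ := mem_range_blockGU hF hl (G⁻¹ * x * G) (fun i j => by
        rw [hval]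
        have h1 : gm *ᵥ Pi.single (blockIdx hl (.inl j)) 1 ∈ W := by
          rw [hidx, hgm, hgf]; exact hfW j
        have h2 := (hWmem _).1 ((hx _).1 h1) i
        change (gi *ᵥ (((x : GL (Fin n) F) : Matrix (Fin n) (Fin n) F) *ᵥ (gm *ᵥ _))) _ = 0 at h2
        rw [Matrix.mulVec_mulVec, Matrix.mulVec_mulVec, Matrix.mulVec_single_one] at h2
        exact h2)
      refine ⟨p, ?_⟩
      show G * blockGU hF hl p * G⁻¹ = x
      rw [hp]; group
  exact ⟨((MonoidHom.ofInjective hΦ).trans (MulEquiv.subgroupCongr hrange)).symm⟩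

end Cfsg.Agent.S0837
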