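import Cfsg.Statements.S0838
import Cfsg.Agent.Quad54.FiniteDiag

set_option autoImplicit false
open Cfsg

namespace Cfsg.Agent.S0838


/-- Over a finite field with 2 ≠ 0 and n odd: two quadratic forms Q₁, Q₂ on F^n with non-degenerate polar forms are similar — there are an invertible linear map g and a scalar c ≠ 0 with Q₂ (g v) = c · Q₁ v for all v. -/
theorem result {F : Type*} [Field F] [Fintype F] (h2 : (2 : F) ≠ 0) {n : ℕ} (hn : Odd n) (Q₁ Q₂ : QuadraticForm F (Fin n → F)) (h₁ : (QuadraticMap.polarBilin Q₁).Nondegenerate) (h₂ : (QuadraticMap.polarBilin Q₂).Nondegenerate) : ∃ (g : (Fin n → F) ≃ₗ[F] (Fin n → F)) (c : F), c ≠ 0 ∧ ∀ v, Q₂ (g v) = c * Q₁ v := by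
  haveI : Invertible (2 : F) := invertibleOfNonzero h2
  obtain ⟨N, rfl⟩ : ∃ N, n = N + 1 := ⟨n - 1, by have := hn.pos; omega⟩
  have diag : ∀ Q : QuadraticForm F (Fin (N + 1) → F), (QuadraticMap.polarBilin Q).Nondegenerate →
      ∃ (d : F) (g : (Fin (N + 1) → F) ≃ₗ[F] (Fin (N + 1) → F)), d ≠ 0 ∧
        ∀ v, Q (g v) = ∑ i : Fin N, v i.castSucc ^ 2 + d * v (Fin.last N) ^ 2 := by
    intro Q hQ
    have hs : (QuadraticMap.associated (R := F) Q).SeparatingLeft := by
      intro x hx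
      refine hQ.1 x fun y => ?_
      have := hx y
      rw [QuadraticMap.associated_apply] at this
      simpa [QuadraticMap.polarBilin_apply_apply, QuadraticMap.polar, h2] using this
    obtain ⟨w, ⟨e⟩⟩ := QuadraticForm.equivalent_weightedSumSquares_units_of_nondegenerate' Q hs
    let c : Fin (N + 1) ≃ Fin (Module.finrank F (Fin (N + 1) → F)) := finCongr (by simp)
    obtain ⟨g, hg⟩ := CfsgLib.Quad54.exists_isometry_diag_last h2 N (fun i => (w (c i) : F))
      (fun i => (w (c i)).ne_zero)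
    refine ⟨∏ i, (w (c i) : F), g.trans ((LinearEquiv.funCongrLeft F F c).symm.trans e.toLinearEquiv.symm),
      Finset.prod_ne_zero_iff.mpr (fun i _ => (w (c i)).ne_zero), fun v => ?_⟩
    rw [← hg v]
    have := e.map_app (e.toLinearEquiv.symm ((LinearEquiv.funCongrLeft F F c).symm (g v)))
    simp only [LinearEquiv.trans_apply]
    rw [← this]
    change QuadraticMap.weightedSumSquares F w
      (e.toLinearEquiv (e.toLinearEquiv.symm ((LinearEquiv.funCongrLeft F F c).symm (g v)))) = _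
    rw [LinearEquiv.apply_symm_apply, QuadraticMap.weightedSumSquares_apply, ← Equiv.sum_comp c]
    refine Finset.sum_congr rfl fun i _ => ?_
    simp [Units.smul_def, LinearEquiv.funCongrLeft, pow_two]
  obtain ⟨d₁, g₁, hd₁, hg₁⟩ := diag Q₁ h₁
  obtain ⟨d₂, g₂, hd₂, hg₂⟩ := diag Q₂ h₂
  obtain ⟨k, hk⟩ : ∃ k, N = 2 * k := by obtain ⟨k, hk⟩ := hn; exact ⟨k, by omega⟩
  set c := d₂ / d₁ with hc
  have hc0 : c ≠ 0 := div_ne_zero hd₂ hd₁
  obtain ⟨g, hg⟩ := CfsgLib.Quad54.exists_isometry_diag_last h2 N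
    (fun i => if i = Fin.last N then c * d₁ else c) (fun i => by
      split
      · exact mul_ne_zero hc0 hd₁
      · exact hc0)
  have hprod : (∏ i : Fin (N + 1), if i = Fin.last N then c * d₁ else c) = c ^ N * (c * d₁) := by
    rw [Fin.prod_univ_castSucc, if_pos rfl, Finset.prod_congr rfl
      (fun i _ => if_neg (Fin.castSucc_ne_last i))]
    simp
  rw [hprod] at hg
  let D : (Fin (N + 1) → F) ≃ₗ[F] (Fin (N + 1) → F) :=
    LinearEquiv.piCongrRight fun i =>
      LinearEquiv.smulOfNeZero F F (if i = Fin.last N then (c ^ k)⁻¹ else 1) (by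
        split
        · exact inv_ne_zero (pow_ne_zero _ hc0)
        · exact one_ne_zero)
  refine ⟨(g₁.symm.trans ((D.trans g).symm)).trans g₂, c, hc0, fun v => ?_⟩
  obtain ⟨u, rfl⟩ := g₁.surjective v
  obtain ⟨y, rfl⟩ := (D.trans g).surjective u
  simp only [LinearEquiv.trans_apply, LinearEquiv.symm_apply_apply]
  rw [hg₂, hg₁]
  have hlast : c ^ N * (c * d₁) * (D y (Fin.last N)) ^ 2 = d₂ * y (Fin.last N) ^ 2 := by
    simp only [D, LinearEquiv.piCongrRight_apply, LinearEquiv.smulOfNeZero_apply, if_pos, smul_eq_mul]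
    rw [show c ^ N = (c ^ k) ^ 2 by rw [hk, pow_mul'], hc]
    have : (d₂ / d₁) ^ k ≠ 0 := pow_ne_zero _ hc0
    field_simp
  have hcast : ∀ i : Fin N, D y i.castSucc = y i.castSucc := fun i => by
    simp [D, Fin.castSucc_ne_last]
  have key := hg (D y)
  rw [Fin.sum_univ_castSucc] at key
  simp only [Fin.castSucc_ne_last, if_false, if_pos, hlast, hcast, ← Finset.mul_sum] at key
  rw [show (D ≪≫ₗ g).symm (g (D y)) = y from (D ≪≫ₗ g).symm_apply_apply y]
  linear_combination -key

end Cfsg.Agent.S0838
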