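import Cfsg.Statements.S0839
import Cfsg.Agent.Classical.Linear.Transvection
-- import your own Cfsg.Agent.* helpers here

set_option autoImplicit false
open Cfsg

namespace Cfsg.Agent.S0839

/-- Every transvection t ∈ SL_(n+2)(F) (rank(t − 1) = 1, (t − 1)² = 0) is conjugate in SL_(n+2)(F) to 1 + v·e_0ᵀ for some column vector v with v_0 = 0 (the group A of matrices that are the identity except in the first column below the diagonal); the dimension is written n + 2 ≥ 2. -/
theorem result {F : Type*} [Field F] (n : ℕ) (t : Matrix.SpecialLinearGroup (Fin (n + 2)) F) (ht : Cfsg.IsTransvection (t : Matrix (Fin (n + 2)) (Fin (n + 2)) F)) : ∃ (g : Matrix.SpecialLinearGroup (Fin (n + 2)) F) (v : Fin (n + 2) → F), v 0 = 0 ∧ ((g⁻¹ * t * g : Matrix.SpecialLinearGroup (Fin (n + 2)) F) : Matrix (Fin (n + 2)) (Fin (n + 2)) F) = 1 + Matrix.vecMulVec v (Pi.single 0 1) := by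
  have h10 : (1 : Fin (n + 2)) ≠ 0 := one_ne_zero
  obtain ⟨c, -, hconj⟩ := CfsgLib.Classical.Linear.exists_isConj_transvection h10 ht
  obtain ⟨g, hg⟩ := isConj_iff.1 hconj
  refine ⟨g⁻¹, c • Pi.single 1 1, by simp, ?_⟩
  rw [inv_inv, hg, ← CfsgLib.Classical.Linear.one_add_vecMulVec_single h10 c]
  congr 1
  ext a b
  simp [Matrix.vecMulVec_apply, Pi.single_apply]

end Cfsg.Agent.S0839
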