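import Mathlib
import Cfsg.Statements.S0841

set_option autoImplicit false
open Cfsg

namespace Cfsg.Agent.S0841

/-- If the commutator subgroup of G lies in the centre, then for all x, y in G and every natural number n one has (x * y) ^ n = x ^ n * y ^ n * c ^ (n * (n - 1) / 2) with c = y⁻¹ * x⁻¹ * y * x. -/
theorem result {G : Type*} [Group G] (hG : commutator G ≤ Subgroup.center G) (x y : G) (n : ℕ) : (x * y) ^ n = x ^ n * y ^ n * (y⁻¹ * x⁻¹ * y * x) ^ (n * (n - 1) / 2) := by
  have hc : y⁻¹ * x⁻¹ * y * x ∈ Subgroup.center G := by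
    apply hG
    rw [show y⁻¹ * x⁻¹ * y * x = y⁻¹ * x⁻¹ * (y⁻¹)⁻¹ * (x⁻¹)⁻¹ by simp, commutator_def]
    exact Subgroup.commutator_mem_commutator (Subgroup.mem_top _) (Subgroup.mem_top _)
  set c := y⁻¹ * x⁻¹ * y * x with hcdef
  have hcc : ∀ z : G, Commute c z := fun z => (Subgroup.mem_center_iff.mp hc z).symm
  have hyx : y * x = x * y * c := by simp only [hcdef]; group
  have hpow : ∀ k : ℕ, y ^ k * x = x * y ^ k * c ^ k := by
    intro k
    induction k with
    | zero => simp
    | succ k ih =>
      calc y ^ (k+1) * x = y * (y ^ k * x) := by rw [pow_succ', mul_assoc]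
        _ = y * x * y ^ k * c ^ k := by rw [ih]; group
        _ = x * y * c * y ^ k * c ^ k := by rw [hyx]
        _ = x * y * y ^ k * c * c ^ k := by
              rw [mul_assoc (x * y) c, (hcc (y ^ k)).eq, ← mul_assoc]
        _ = x * y ^ (k+1) * c ^ (k+1) := by rw [pow_succ' y, pow_succ' c]; group
  induction n with
  | zero => simp
  | succ m ih =>
    have e : (m + 1) * (m + 1 - 1) / 2 = m * (m - 1) / 2 + m := by
      rw [← Nat.choose_two_right, ← Nat.choose_two_right, Nat.choose_succ_succ, Nat.choose_one_right,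
        add_comm]
    rw [e, pow_succ (x * y), ih]
    set d := c ^ (m * (m - 1) / 2)
    have hd : Commute d (x * y) := (hcc _).pow_left _
    calc x ^ m * y ^ m * d * (x * y) = x ^ m * (y ^ m * x) * y * d := by
            rw [mul_assoc _ d, hd.eq]; group
      _ = x ^ m * (x * y ^ m * c ^ m) * y * d := by rw [hpow]
      _ = x ^ (m+1) * y ^ m * (c ^ m * y) * d := by rw [pow_succ]; group
      _ = x ^ (m+1) * y ^ m * (y * c ^ m) * d := by rw [((hcc y).pow_left m).eq]
      _ = x ^ (m+1) * y ^ (m+1) * (c ^ m * d) := by rw [pow_succ y]; group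
      _ = _ := by rw [((Commute.refl c).pow_pow m (m * (m - 1) / 2)).eq, pow_add c]

end Cfsg.Agent.S0841
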