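import Cfsg.Statements.S0842
import Cfsg.Agent.Eq.Def_Transfer
import Cfsg.Agent.Transfer.QuaternionDerived

set_option autoImplicit false
open Cfsg
open scoped Pointwise

namespace Cfsg.Agent.S0842

theorem relIndex_eq_of_mul {G : Type*} [Group G] [Finite G] {X K L : Subgroup G} (hKL : K ≤ L)
    (h : ∀ l ∈ L, ∃ k ∈ K, k⁻¹ * l ∈ X) : X.relIndex K = X.relIndex L := by
  unfold Subgroup.relIndex Subgroup.index
  refine Nat.card_eq_of_bijective (Subgroup.quotientSubgroupOfEmbeddingOfLE X hKL)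
    ⟨(Subgroup.quotientSubgroupOfEmbeddingOfLE X hKL).injective, fun q => ?_⟩
  obtain ⟨l, rfl⟩ := QuotientGroup.mk_surjective q
  obtain ⟨k, hk, hkl⟩ := h l l.2
  exact ⟨QuotientGroup.mk ⟨k, hk⟩, QuotientGroup.eq.mpr (Subgroup.mem_subgroupOf.mpr hkl)⟩


/-- Suppose a Sylow 2-subgroup S of the finite group G is generalized quaternion of order at least 16, and let D be the commutator subgroup of S, C its centralizer and N its normalizer in G. Then there is a subgroup K of odd order, contained in C and normalized by N, with K ⊔ S = N and K ⊔ (S ⊓ C) = C, and C has index 2 in N. -/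
theorem result {G : Type*} [Group G] [Finite G] (S : Sylow 2 G) (n : ℕ) (e : (S : Subgroup G) ≃* QuaternionGroup (2 ^ (n + 2))) (D : Subgroup G) (hD : D = ⁅(S : Subgroup G), (S : Subgroup G)⁆) : ∃ K : Subgroup G, Odd (Nat.card K) ∧ K ≤ Subgroup.centralizer (D : Set G) ∧ Subgroup.normalizer (D : Set G) ≤ Subgroup.normalizer (K : Set G) ∧ K ⊔ (S : Subgroup G) = Subgroup.normalizer (D : Set G) ∧ K ⊔ ((S : Subgroup G) ⊓ Subgroup.centralizer (D : Set G)) = Subgroup.centralizer (D : Set G) ∧ ((Subgroup.centralizer (D : Set G)).subgroupOf (Subgroup.normalizer (D : Set G))).index = 2 := by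
  obtain ⟨hDT, hDc, hTc, hidx, hSN⟩ := CfsgLib.Transfer.quaternion_derived_sylow S n e D hD
  haveI := hDc
  set C := Subgroup.centralizer (D : Set G) with hC
  set N := Subgroup.normalizer (D : Set G) with hN
  have hCN : C ≤ N := Subgroup.centralizer_le_normalizer _
  have hconjC : ∀ g ∈ N, ∀ c ∈ C, g * c * g⁻¹ ∈ C := by
    intro g hg c hc
    rw [hC, Subgroup.mem_centralizer_iff] at hc ⊢
    intro d hd
    have hd' : g⁻¹ * d * g ∈ D := by
      simpa using (Subgroup.mem_normalizer_iff.mp (inv_mem hg) d).mp hd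
    calc d * (g * c * g⁻¹) = g * (g⁻¹ * d * g * c) * g⁻¹ := by group
      _ = g * (c * (g⁻¹ * d * g)) * g⁻¹ := by rw [hc _ hd']
      _ = g * c * g⁻¹ * d := by group
  obtain ⟨Q⟩ : Nonempty (Sylow 2 C) := inferInstance
  have hQc : IsCyclic (Q : Subgroup C) := by
    haveI := CfsgLib.Transfer.isCyclic_two_subgroup_centralizer S hSN hTc (Q.2.map C.subtype)
      (Subgroup.map_subtype_le _)
    exact isCyclic_of_injective ((Q : Subgroup C).equivMapOfInjective C.subtype
      C.subtype_injective).toMonoidHom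
      ((Q : Subgroup C).equivMapOfInjective C.subtype C.subtype_injective).injective
  have hnpc : Cfsg.HasNormalPComplement 2 C := by
    by_cases h2 : 2 ∣ Nat.card C
    · exact CfsgLib.Transfer.hasNormalPComplement_of_isCyclic_minFac
        (Nat.minFac_eq_two_iff _ |>.mpr h2) Q hQc
    · exact CfsgLib.Transfer.hasNormalPComplement_of_not_dvd h2
  set K := (Cfsg.pResidual 2 C).map C.subtype with hK
  have hKC : K ≤ C := Subgroup.map_subtype_le _
  have hKodd : Odd (Nat.card K) := by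
    rw [hK, Subgroup.card_map_of_injective C.subtype_injective, Nat.odd_iff]
    have h := CfsgLib.Transfer.hasNormalPComplement_iff_coprime_pResidual.mp hnpc
    rw [Nat.coprime_two_right] at h
    exact Nat.odd_iff.mp h
  have hNK : N ≤ Subgroup.normalizer (K : Set G) := by
    intro g hg
    refine Subgroup.mem_normalizer_fintype ?_
    rintro _ ⟨c, hc, rfl⟩
    refine ⟨⟨g * c * g⁻¹, hconjC g hg c c.2⟩, ?_, rfl⟩
    rw [SetLike.mem_coe, CfsgLib.Transfer.mem_pResidual_iff hnpc] at hc ⊢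
    rw [← Subgroup.orderOf_coe] at hc ⊢
    change (orderOf (MulAut.conj g (c : G))).Coprime 2
    rwa [MulEquiv.orderOf_eq]
  obtain ⟨a, ha⟩ : ∃ a, K.relIndex C = 2 ^ a := by
    haveI := CfsgLib.CharP.pResidual_normal (G := C) (p := 2)
    obtain ⟨a, ha⟩ := CfsgLib.Transfer.exists_index_eq_pow_of_isPGroup_quotient
      (CfsgLib.CharP.isPGroup_quotient_pResidual (G := C) (p := 2) _ le_rfl)
    refine ⟨a, ?_⟩
    rw [Subgroup.relIndex, hK, Subgroup.subgroupOf,
      Subgroup.comap_map_eq_self_of_injective C.subtype_injective, ha]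
  obtain ⟨b, hb⟩ : ∃ b, C.relIndex N = 2 ^ b := by
    have h1 : C.relIndex N ∣ Nat.card (MulAut D) := by
      rw [Subgroup.relIndex, hC, ← Subgroup.normalizerMonoidHom_ker, Subgroup.index_ker]
      exact Subgroup.card_subgroup_dvd_card _
    rw [IsCyclic.card_mulAut] at h1
    obtain ⟨d, hd⟩ := IsPGroup.iff_card.mp (S.2.to_le (hDT.trans inf_le_left))
    rw [hd] at h1
    rcases Nat.eq_zero_or_pos d with rfl | hd0
    · exact ⟨0, by simpa using h1⟩
    · rw [Nat.totient_prime_pow Nat.prime_two hd0] at h1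
      obtain ⟨b, -, hb⟩ := (Nat.dvd_prime_pow Nat.prime_two).mp (h1.trans (dvd_of_eq (mul_one (2 ^ (d - 1)))))
      exact ⟨b, hb⟩
  have hKS : K ⊔ (S : Subgroup G) = N := by
    refine le_antisymm (sup_le (hKC.trans hCN) hSN) (Subgroup.relIndex_eq_one.mp ?_)
    have h1 : (K ⊔ (S : Subgroup G)).relIndex N ∣ 2 ^ (a + b) := by
      refine (Subgroup.relIndex_dvd_of_le_left N (le_sup_left : K ≤ K ⊔ (S : Subgroup G))).trans ?_
      rw [← Subgroup.relIndex_mul_relIndex K C N hKC hCN, ha, hb, pow_add]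
    refine Nat.eq_one_of_dvd_coprimes (Nat.Coprime.pow_left (a + b) ?_) h1
      ((Subgroup.relIndex_dvd_of_le_left N (le_sup_right : (S : Subgroup G) ≤ K ⊔ (S : Subgroup G))).trans
        (Subgroup.relIndex_mul_index hSN ▸ dvd_mul_right _ _))
    exact Nat.prime_two.coprime_iff_not_dvd.mpr S.not_dvd_index
  have hmul : ∀ l ∈ N, ∃ s ∈ (S : Subgroup G), ∃ k ∈ K, s * k = l := by
    intro l hl
    rw [← hKS, sup_comm, ← SetLike.mem_coe,
      Subgroup.coe_mul_of_left_le_normalizer_right _ _ (hSN.trans hNK)] at hl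
    obtain ⟨s, hs, k, hk, hsk⟩ := Set.mem_mul.mp hl
    exact ⟨s, hs, k, hk, hsk⟩
  refine ⟨K, hKodd, hKC, hNK, hKS, ?_, ?_⟩
  · refine le_antisymm (sup_le hKC inf_le_right) fun c hc => ?_
    obtain ⟨s, hs, k, hk, rfl⟩ := hmul c (hCN hc)
    exact mul_mem (Subgroup.mem_sup_right ⟨hs, (mul_mem_cancel_right (hKC hk)).mp hc⟩)
      (Subgroup.mem_sup_left hk)
  · show C.relIndex N = 2
    rw [← hidx]
    symm
    refine relIndex_eq_of_mul hSN fun l hl => ?_
    obtain ⟨s, hs, k, hk, rfl⟩ := hmul l hl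
    exact ⟨s, hs, by rw [inv_mul_cancel_left]; exact hKC hk⟩

end Cfsg.Agent.S0842
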