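import Cfsg.Statements.S0843
import Cfsg.Agent.Transfer.QuaternionDerived

set_option autoImplicit false
open Cfsg

namespace Cfsg.Agent.S0843

/-- Suppose a Sylow 2-subgroup S of the finite group G is generalized quaternion of order at least 16; let D be the commutator subgroup of S and X the set of elements of the centralizer of D whose order is divisible by the order of D. Then D is contained in the cyclic subgroup generated by any element of X; an element of G conjugating some element of X into the centralizer of D normalizes D; and the normalizer of D maps X to itself under conjugation. -/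
theorem result {G : Type*} [Group G] [Finite G] (S : Sylow 2 G) (n : ℕ) (e : (S : Subgroup G) ≃* QuaternionGroup (2 ^ (n + 2))) (D : Subgroup G) (hD : D = ⁅(S : Subgroup G), (S : Subgroup G)⁆) : (∀ y : G, y ∈ Subgroup.centralizer (D : Set G) → Nat.card D ∣ orderOf y → D ≤ Subgroup.zpowers y) ∧ (∀ g y : G, y ∈ Subgroup.centralizer (D : Set G) → Nat.card D ∣ orderOf y → g * y * g⁻¹ ∈ Subgroup.centralizer (D : Set G) → g ∈ Subgroup.normalizer (D : Set G)) ∧ (∀ g y : G, g ∈ Subgroup.normalizer (D : Set G) → y ∈ Subgroup.centralizer (D : Set G) → Nat.card D ∣ orderOf y → g * y * g⁻¹ ∈ Subgroup.centralizer (D : Set G) ∧ Nat.card D ∣ orderOf (g * y * g⁻¹)) := by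
  obtain ⟨hDT, hDc, hTc, hidx, hSN⟩ := CfsgLib.Transfer.quaternion_derived_sylow S n e D hD
  have h1 : ∀ y : G, y ∈ Subgroup.centralizer (D : Set G) → Nat.card D ∣ orderOf y →
      D ≤ Subgroup.zpowers y := by
    intro y hy hdvd
    set y' := y ^ (orderOf y / Nat.card D) with hy'
    have hord : orderOf y' = Nat.card D := orderOf_pow_orderOf_div (orderOf_pos y).ne' hdvd
    have hyC : y' ∈ Subgroup.centralizer (D : Set G) := pow_mem hy _
    have hDp : IsPGroup 2 D := S.2.to_le (hDT.trans inf_le_left)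
    have hYp : IsPGroup 2 (Subgroup.zpowers y') := by
      obtain ⟨d, hd⟩ := IsPGroup.iff_card.mp hDp
      exact IsPGroup.of_card (n := d) (by rw [Nat.card_zpowers, hord, hd])
    set A := Subgroup.zpowers y' ⊔ D with hA
    have hAp : IsPGroup 2 A := hYp.to_sup_of_normal_right' hDp
      ((Subgroup.zpowers_le.mpr hyC).trans (Subgroup.centralizer_le_normalizer _))
    have hAC : A ≤ Subgroup.centralizer (D : Set G) :=
      sup_le (Subgroup.zpowers_le.mpr hyC) (hDT.trans inf_le_right)
    haveI := CfsgLib.Transfer.isCyclic_two_subgroup_centralizer S hSN hTc hAp hAC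
    have h2 : D.subgroupOf A ≤ (Subgroup.zpowers y').subgroupOf A := by
      refine CfsgLib.Transfer.le_of_card_dvd_of_isCyclic (dvd_of_eq ?_)
      rw [Nat.card_congr (Subgroup.subgroupOfEquivOfLe (le_sup_right : D ≤ A)).toEquiv,
        Nat.card_congr (Subgroup.subgroupOfEquivOfLe (le_sup_left : Subgroup.zpowers y' ≤ A)).toEquiv,
        Nat.card_zpowers, hord]
    intro d hd
    have h3 : d ∈ Subgroup.zpowers y' := h2 (x := ⟨d, Subgroup.mem_sup_right hd⟩) hd
    exact Subgroup.zpowers_le.mpr (pow_mem (Subgroup.mem_zpowers y) _) h3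
  refine ⟨h1, fun g y hy hdvd hgy => ?_, fun g y hg hy hdvd => ⟨?_, ?_⟩⟩
  · have hord : orderOf (g * y * g⁻¹) = orderOf y := MulEquiv.orderOf_eq (MulAut.conj g) y
    set Y := Subgroup.zpowers (g * y * g⁻¹) with hY
    have hDY : D ≤ Y := h1 _ hgy (hord.symm ▸ hdvd)
    set D' := D.map (MulAut.conj g).toMonoidHom with hD'
    have hD'Y : D' ≤ Y := by
      rintro _ ⟨d, hd, rfl⟩
      obtain ⟨k, rfl⟩ := Subgroup.mem_zpowers_iff.mp (h1 y hy hdvd hd)
      exact ⟨k, by simp⟩
    have hle : D'.subgroupOf Y ≤ D.subgroupOf Y := by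
      refine CfsgLib.Transfer.le_of_card_dvd_of_isCyclic (dvd_of_eq ?_)
      rw [Nat.card_congr (Subgroup.subgroupOfEquivOfLe hD'Y).toEquiv,
        Nat.card_congr (Subgroup.subgroupOfEquivOfLe hDY).toEquiv, hD',
        Subgroup.card_map_of_injective (MulAut.conj g).injective]
    refine Subgroup.mem_normalizer_fintype fun d hd => ?_
    exact hle (x := ⟨g * d * g⁻¹, hD'Y ⟨d, hd, rfl⟩⟩) ⟨d, hd, rfl⟩
  · rw [Subgroup.mem_centralizer_iff] at hy ⊢
    intro d hd
    have hd' : g⁻¹ * d * g ∈ D := by
      simpa using (Subgroup.mem_normalizer_iff.mp (inv_mem hg) d).mp hd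
    calc d * (g * y * g⁻¹) = g * (g⁻¹ * d * g * y) * g⁻¹ := by group
      _ = g * (y * (g⁻¹ * d * g)) * g⁻¹ := by rw [hy _ hd']
      _ = g * y * g⁻¹ * d := by group
  · rwa [show g * y * g⁻¹ = MulAut.conj g y from rfl, MulEquiv.orderOf_eq]

end Cfsg.Agent.S0843
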