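import Cfsg.Statements.S0845
import Cfsg.Agent.QuatSixteen.Basic

set_option autoImplicit false
open Cfsg

namespace Cfsg.Agent.S0845

/-- Suppose a Sylow 2-subgroup S of the finite group G is generalized quaternion of order at least 16. Then G has a normal subgroup M of even order such that G / M is non-abelian, that is, M does not contain the commutator subgroup of G. -/
theorem result {G : Type*} [Group G] [Finite G] (S : Sylow 2 G) (n : ℕ) (e : (S : Subgroup G) ≃* QuaternionGroup (2 ^ (n + 2))) : ∃ M : Subgroup G, M.Normal ∧ Even (Nat.card M) ∧ ¬ commutator G ≤ M := by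
  obtain ⟨k, hk, ⟨F⟩⟩ := CfsgLib.QuatSixteen.exists_frame S n e
  have huniq := CfsgLib.ZStar.atMostOneInvolution_of_mulEquiv e
    (CfsgLib.ZStar.atMostOneInvolution_quaternionGroup (n + 1))
  obtain ⟨M, hM, hz, h4, -⟩ := CfsgLib.QuatSixteen.exists_even_core F (by omega) huniq
  refine ⟨M, hM, ?_, fun hle => h4 ?_⟩
  · rw [even_iff_two_dvd, ← CfsgLib.ZStar.orderOf_qX_half F (by omega)]
    exact Subgroup.orderOf_dvd_natCard _ hz
  · have hc : CfsgLib.ZStar.qY F * CfsgLib.ZStar.qX F 1 * (CfsgLib.ZStar.qY F)⁻¹ *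
        (CfsgLib.ZStar.qX F 1)⁻¹ ∈ M := by
      apply hle
      rw [← commutatorElement_def]
      exact Subgroup.commutator_mem_commutator (Subgroup.mem_top _) (Subgroup.mem_top _)
    rw [CfsgLib.ZStar.qY_conj, CfsgLib.ZStar.qX_neg, ← mul_inv_rev, ← pow_two] at hc
    refine dvd_trans ?_ (Subgroup.orderOf_dvd_natCard _ hc)
    rw [orderOf_inv, orderOf_pow, CfsgLib.ZStar.orderOf_qX_one]
    obtain ⟨j, rfl⟩ : ∃ j, k = j + 3 := ⟨k - 3, by omega⟩
    rw [Nat.gcd_eq_right (dvd_pow_self 2 (by omega)), show 2 ^ (j + 3) = 4 * 2 ^ j * 2 by ring,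
      Nat.mul_div_cancel _ (by norm_num)]
    exact dvd_mul_right 4 _

end Cfsg.Agent.S0845
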