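import Cfsg.Statements.S0846
import Cfsg.Agent.QuatSixteen.Basic

set_option autoImplicit false
open Cfsg

namespace Cfsg.Agent.S0846

/-- Suppose a Sylow 2-subgroup S of the finite group G is generalized quaternion of order at least 16. Then every Sylow 2-subgroup of the subgroup generated by the involutions of G is cyclic. -/
theorem result {G : Type*} [Group G] [Finite G] (S : Sylow 2 G) (n : ℕ) (e : (S : Subgroup G) ≃* QuaternionGroup (2 ^ (n + 2))) (Q : Sylow 2 ↥(Subgroup.closure {g : G | orderOf g = 2})) : IsCyclic Q := by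
  obtain ⟨k, hk, ⟨F⟩⟩ := CfsgLib.QuatSixteen.exists_frame S n e
  have huniq := CfsgLib.ZStar.atMostOneInvolution_of_mulEquiv e
    (CfsgLib.ZStar.atMostOneInvolution_quaternionGroup (n + 1))
  obtain ⟨M, -, -, h4, ht⟩ := CfsgLib.QuatSixteen.exists_even_core F (by omega) huniq
  obtain ⟨a, ha⟩ := Q.2.exists_card_eq
  have hQ : Nat.card Q ∣ Nat.card M :=
    (Subgroup.card_subgroup_dvd_card _).trans
      (Subgroup.card_dvd_of_le ((Subgroup.closure_le M).mpr fun t h => ht t h))
  rw [ha] at hQ
  have ha1 : a ≤ 1 := by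
    by_contra hlt
    exact h4 (dvd_trans ((show (4 : ℕ) = 2 ^ 2 by norm_num) ▸ pow_dvd_pow 2 (by omega : 2 ≤ a)) hQ)
  interval_cases a
  · haveI := (Nat.card_eq_one_iff_unique.mp (ha.trans (pow_zero 2))).1
    infer_instance
  · exact isCyclic_of_prime_card (p := 2) (ha.trans (pow_one 2))

end Cfsg.Agent.S0846
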