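import Cfsg.Statements.S0848
import Cfsg.Agent.CentralizerD8.Dihedral
import Cfsg.Agent.CentralizerD8.Simple

set_option autoImplicit false
open Cfsg

namespace Cfsg.Agent.S0848

theorem result {G : Type*} [Group G] [Finite G] (hperf : commutator G = ⊤) (t : G) (ht : orderOf t = 2) (e : Subgroup.centralizer ({t} : Set G) ≃* DihedralGroup 4) : Nat.card G = 168 ∨ Nat.card G = 360 := by
  obtain ⟨a, b, hD⟩ := CfsgLib.CentralizerD8.exists_data ht e
  refine hD.card_eq_of_no_index_two fun H hH => ?_
  haveI := Subgroup.normal_of_index_eq_two hH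
  haveI : Fact (Nat.Prime 2) := ⟨Nat.prime_two⟩
  have hc : Nat.card (G ⧸ H) = 2 := hH
  haveI := isCyclic_of_prime_card hc
  haveI : IsMulCommutative (G ⧸ H) := inferInstance
  have hle : commutator G ≤ H := by
    rw [commutator_def, Subgroup.commutator_le]
    intro x _ y _
    rw [← QuotientGroup.eq_one_iff, commutatorElement_def]
    have hxy := (IsMulCommutative.is_comm (M := G ⧸ H)).comm (x : G ⧸ H) (y : G ⧸ H)
    simp only [QuotientGroup.mk_mul, QuotientGroup.mk_inv]
    rw [hxy]; group
  rw [hperf, top_le_iff] at hle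
  rw [hle, Subgroup.index_top] at hH
  omega

end Cfsg.Agent.S0848
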