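import Cfsg.Statements.S0849
import Cfsg.Agent.Eq.Def_Characters

set_option autoImplicit false
open Cfsg

namespace Cfsg.Agent.S0849


/-- Let H be a subgroup of a finite group G and S a subset of H that is mapped to itself under conjugation by H, is disjoint from its conjugate by any element outside H, and is closed under inverses. Let φ be a class function of H vanishing on H away from S, and let u, v be involutions of G. Then the sum of the induced function of φ over all products a * b with a conjugate to u and b conjugate to v equals the index of H times the sum of φ (a * b) over such pairs with a and b in H. -/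
theorem result {G : Type*} [Group G] [Fintype G] (H : Subgroup G) (S : Set G) (hSH : S ⊆ H) (hHS : ∀ h ∈ H, ∀ s ∈ S, h * s * h⁻¹ ∈ S) (hTI : ∀ g : G, g ∉ H → ∀ s ∈ S, g * s * g⁻¹ ∉ S) (hinv : ∀ s ∈ S, s⁻¹ ∈ S) (φ : H → ℂ) (hφ : Cfsg.IsClassFunction H φ) (hφS : ∀ x : H, (x : G) ∉ S → φ x = 0) (u v : G) (hu : orderOf u = 2) (hv : orderOf v = 2) : ∑ᶠ p ∈ {p : G × G | IsConj u p.1 ∧ IsConj v p.2}, Cfsg.indFun H φ (p.1 * p.2) = (H.index : ℂ) * ∑ᶠ p ∈ {p : H × H | IsConj u (p.1 : G) ∧ IsConj v (p.2 : G)}, φ (p.1 * p.2) := by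
  classical
  let P : Finset (G × G) := Finset.univ.filter fun p => IsConj u p.1 ∧ IsConj v p.2
  let PH : Finset (H × H) := Finset.univ.filter fun p => IsConj u (p.1 : G) ∧ IsConj v (p.2 : G)
  have hL : ∀ f : G × G → ℂ, ∑ᶠ p ∈ {p : G × G | IsConj u p.1 ∧ IsConj v p.2}, f p = ∑ p ∈ P, f p := by
    intro f
    exact finsum_mem_eq_sum_of_inter_support_eq _ (by ext p; simp [P])
  have hR : ∑ᶠ p ∈ {p : H × H | IsConj u (p.1 : G) ∧ IsConj v (p.2 : G)}, φ (p.1 * p.2)
      = ∑ p ∈ PH, φ (p.1 * p.2) :=
    finsum_mem_eq_sum_of_inter_support_eq _ (by ext p; simp [PH])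
  rw [hL, hR]
  simp only [Cfsg.indFun]
  rw [← Finset.mul_sum, Finset.sum_comm]
  have hx : ∀ x : G, ∑ p ∈ P, Cfsg.extendByZero H φ (x⁻¹ * (p.1 * p.2) * x)
      = ∑ p ∈ P, Cfsg.extendByZero H φ (p.1 * p.2) := by
    intro x
    refine Finset.sum_equiv ((MulAut.conj x⁻¹).toEquiv.prodCongr (MulAut.conj x⁻¹).toEquiv) ?_ ?_
    · intro p
      have e : ∀ w a : G, IsConj w (MulAut.conj x⁻¹ a) ↔ IsConj w a := fun w a =>
        ⟨fun h => h.trans (isConj_iff.mpr ⟨x, by simp [MulAut.conj_apply, mul_assoc]⟩),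
          fun h => h.trans (isConj_iff.mpr ⟨x⁻¹, by simp [MulAut.conj_apply]⟩)⟩
      simp only [P, Finset.mem_filter, Finset.mem_univ, true_and, Equiv.prodCongr_apply,
        Prod.map_fst, Prod.map_snd, MulEquiv.toEquiv_eq_coe, MulEquiv.coe_toEquiv]
      rw [e, e]
    · intro p _
      congr 1
      simp [MulAut.conj_apply, mul_assoc]
  rw [Finset.sum_congr rfl fun x _ => hx x, Finset.sum_const, Finset.card_univ, nsmul_eq_mul]
  have hbody : ∑ p ∈ P, Cfsg.extendByZero H φ (p.1 * p.2) = ∑ p ∈ PH, φ (p.1 * p.2) := by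
    symm
    refine Finset.sum_bij_ne_zero (fun p _ _ => ((p.1 : G), (p.2 : G))) ?_ ?_ ?_ ?_
    · intro p hp _
      simpa [P, PH] using hp
    · intro p _ _ q _ _ h
      simp only [Prod.mk.injEq] at h
      exact Prod.ext (Subtype.ext h.1) (Subtype.ext h.2)
    · intro p hp h0
      simp only [P, Finset.mem_filter, Finset.mem_univ, true_and] at hp
      obtain ⟨a, b⟩ := p
      have hinvol : ∀ w c : G, orderOf w = 2 → IsConj w c → c * c = 1 := by
        intro w c hw hc
        obtain ⟨g, rfl⟩ := isConj_iff.mp hc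
        have h2 : w * w = 1 := by rw [← pow_two, ← hw]; exact pow_orderOf_eq_one w
        calc g * w * g⁻¹ * (g * w * g⁻¹) = g * (w * w) * g⁻¹ := by group
          _ = 1 := by rw [h2]; group
      have ha := hinvol u a hu hp.1
      have hb := hinvol v b hv hp.2
      have hab : a * b ∈ H := by
        by_contra hn
        apply h0
        rw [Cfsg.extendByZero, Function.extend_apply' _ _ _ (by rintro ⟨y, hy⟩; exact hn (hy ▸ y.2))]
        rfl
      have hS : a * b ∈ S := by
        by_contra hn
        apply h0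
        rw [Cfsg.extendByZero,
          show (a, b).1 * (a, b).2 = ((⟨a * b, hab⟩ : H) : G) from rfl,
          Subtype.val_injective.extend_apply]
        exact hφS _ hn
      have haH : a ∈ H := by
        by_contra hn
        have := hTI a hn _ hS
        apply this
        have e : a * (a * b) * a⁻¹ = (a * b)⁻¹ := by
          rw [mul_inv_rev, inv_eq_of_mul_eq_one_right hb, ← mul_assoc a a b, ha, one_mul]
        rw [e]; exact hinv _ hS
      have hbH : b ∈ H := by
        have := H.mul_mem haH hab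
        rwa [← mul_assoc, ha, one_mul] at this
      refine ⟨(⟨a, haH⟩, ⟨b, hbH⟩), by simpa [PH] using hp, ?_, rfl⟩
      intro hz
      apply h0
      rw [Cfsg.extendByZero]
      show Function.extend Subtype.val φ 0 (((⟨a, haH⟩ * ⟨b, hbH⟩ : H)) : G) = 0
      rw [Subtype.val_injective.extend_apply]
      exact hz
    · intro p hp hne
      rw [Cfsg.extendByZero, ← Subgroup.coe_mul, Subtype.val_injective.extend_apply]
  rw [hbody, ← Nat.card_eq_fintype_card, ← H.card_mul_index, Nat.cast_mul]
  have : (Nat.card H : ℂ) ≠ 0 := Nat.cast_ne_zero.mpr Nat.card_pos.ne'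
  field_simp

end Cfsg.Agent.S0849
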