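import Cfsg.Statements.S0851
import Cfsg.Agent.Chars.Exceptional.FrobTIStar

set_option autoImplicit false
open Cfsg

namespace Cfsg.Agent.S0851

/-- Let K be a subgroup of the finite group G that meets each conjugate by an element outside its normalizer N trivially, is properly contained in N, and contains the centralizer of each of its non-identity elements (a T.I. subgroup with Frobenius normalizer). Suppose K is abelian, let e be the index of K in N, and call an irreducible character of N relevant when it takes at some element of K a value different from its degree. Then either there is exactly one relevant character and K is an elementary abelian p-group of order e + 1 for some prime p, or there are a sign ε and an injective map f from the relevant characters to the irreducible characters of G such that inducing χ - ξ to G gives ε (f χ - f ξ) for all relevant χ and ξ. -/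
theorem result {G : Type*} [Group G] [Fintype G] (K : Subgroup G) (hTI : ∀ g : G, g ∉ Subgroup.normalizer (K : Set G) → ∀ k ∈ K, g * k * g⁻¹ ∈ K → k = 1) (hlt : K < Subgroup.normalizer (K : Set G)) (hC : ∀ k ∈ K, k ≠ 1 → Subgroup.centralizer ({k} : Set G) ≤ K) (hab : ∀ a ∈ K, ∀ b ∈ K, a * b = b * a) : (Nat.card {χ : Cfsg.IrrCharacter (Subgroup.normalizer (K : Set G)) // ∃ k : Subgroup.normalizer (K : Set G), (k : G) ∈ K ∧ (χ : ↥(Subgroup.normalizer (K : Set G)) → ℂ) k ≠ (χ : ↥(Subgroup.normalizer (K : Set G)) → ℂ) 1} = 1 ∧ ∃ p : ℕ, p.Prime ∧ Cfsg.IsElementaryAbelian p K ∧ Nat.card K = (K.subgroupOf (Subgroup.normalizer (K : Set G))).index + 1) ∨ ∃ (ε : ℂ) (f : {χ : Cfsg.IrrCharacter (Subgroup.normalizer (K : Set G)) // ∃ k : Subgroup.normalizer (K : Set G), (k : G) ∈ K ∧ (χ : ↥(Subgroup.normalizer (K : Set G)) → ℂ) k ≠ (χ : ↥(Subgroup.normalizer (K : Set G)) → ℂ) 1} → Cfsg.IrrCharacter G), (ε = 1 ∨ ε = -1) ∧ Function.Injective f ∧ ∀ χ ξ, Cfsg.indFun (Subgroup.normalizer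 (K : Set G)) ((χ.1 : ↥(Subgroup.normalizer (K : Set G)) → ℂ) - (ξ.1 : ↥(Subgroup.normalizer (K : Set G)) → ℂ)) = ε • ((f χ : G → ℂ) - (f ξ : G → ℂ)) := by
  classical
  right
  have h := CfsgLib.Chars.Exceptional.frobTI_normalizer hTI hC
  haveI := h.normal
  set N : Subgroup G := Subgroup.normalizer (K : Set G) with hN
  set ι := {χ : Cfsg.IrrCharacter N // ∃ k : N, (k : G) ∈ K ∧ (χ : N → ℂ) k ≠ (χ : N → ℂ) 1}
  rcases isEmpty_or_nonempty ι with he | ⟨⟨i₀⟩⟩
  · exact ⟨1, isEmptyElim, Or.inl rfl, fun a => isEmptyElim a, fun a => isEmptyElim a⟩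
  haveI : IsMulCommutative (K.subgroupOf N) :=
    ⟨⟨fun a b => Subtype.ext (Subtype.ext (hab _ a.2 _ b.2))⟩⟩
  have hdeg : ∀ χ : ι, (χ.1 : N → ℂ) 1 = ((K.subgroupOf N).index : ℂ) := by
    intro χ
    obtain ⟨⟨θ, -, hθ⟩, -⟩ := CfsgLib.Chars.Exceptional.irr_degree_vanish h.cent' χ.1
      ((CfsgLib.Chars.Exceptional.FrobTI.relevant_iff χ.1.2).mp χ.2)
    rw [hθ, CfsgLib.Chars.map_one_eq_one_of_isMulCommutative, mul_one]
  obtain ⟨ε, hε, μ, hμ, hμinj, heq⟩ := CfsgLib.Chars.Exceptional.exceptional_of_ti N ((K : Set G) \ {1}) h.ti'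
    i₀ (fun χ : ι => (χ.1 : N → ℂ)) (fun χ => χ.1.2)
    (fun a b e => Subtype.ext (Subtype.ext e)) (fun i j => (hdeg i).trans (hdeg j).symm)
    (fun i j l hl => by
      by_cases h1 : (l : G) = 1
      · rw [show l = 1 from Subtype.ext h1, hdeg i, hdeg j]
      · rw [h.relevant_vanish i.1.2 i.2 l (fun e => hl ⟨e, h1⟩),
          h.relevant_vanish j.1.2 j.2 l (fun e => hl ⟨e, h1⟩)])
  refine ⟨(ε : ℂ), fun χ => ⟨μ χ, hμ χ⟩, hε.imp (fun e => by simp [e]) (fun e => by simp [e]),
    fun a b e => hμinj (congrArg Subtype.val e), fun χ ξ => ?_⟩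
  rw [CfsgLib.Chars.Induced.indFun_sub]
  exact heq χ ξ

end Cfsg.Agent.S0851
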