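import Cfsg.Statements.S0854
import Cfsg.Agent.Eq.Def_Characters
import Cfsg.Agent.Chars.Induced.Ito

set_option autoImplicit false
open Cfsg

namespace Cfsg.Agent.S0854

/-- Let H be a normal subgroup of the finite group G, ϑ an irreducible character of H, and T the inertia group of ϑ (the elements g with ϑ(g n g⁻¹) = ϑ(n) for all n in H). If χ is an irreducible character of G whose restriction to H has nonzero inner product with ϑ, then χ is induced from some irreducible character ψ of T, and the restrictions of ψ and of χ to H have the same inner product with ϑ. -/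
theorem result {G : Type*} [Group G] [Fintype G] (H : Subgroup G) [hN : H.Normal] [Fintype H] (ϑ : H → ℂ) (hϑ : Cfsg.IsIrrCharacter H ϑ) (T : Subgroup G) [Fintype T] (hT : ∀ g : G, g ∈ T ↔ ∀ n : H, ϑ ⟨g * n * g⁻¹, hN.conj_mem (n : G) n.2 g⟩ = ϑ n) (hHT : H ≤ T) (χ : G → ℂ) (hχ : Cfsg.IsIrrCharacter G χ) (hcon : Cfsg.classInner (fun n : H => χ n) ϑ ≠ 0) : ∃ ψ : T → ℂ, Cfsg.IsIrrCharacter T ψ ∧ Cfsg.indFun T ψ = χ ∧ Cfsg.classInner (fun n : H => ψ ⟨(n : G), hHT n.2⟩) ϑ = Cfsg.classInner (fun n : H => χ n) ϑ := by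
  classical
  let χ' : IrrCharacter G := ⟨χ, hχ⟩
  let θ' : IrrCharacter H := ⟨ϑ, hϑ⟩
  have hT' : T = CfsgLib.Chars.Induced.inertia H (θ' : H → ℂ) := by
    ext g
    rw [hT, CfsgLib.Chars.Induced.mem_inertia_iff_forall]
    exact ⟨fun h n n' hn => by show ϑ n' = ϑ n; rw [← h n]; exact congrArg ϑ (Subtype.ext hn),
      fun h n => h n ⟨g * n * g⁻¹, hN.conj_mem (n : G) n.2 g⟩ rfl⟩
  have hc := CfsgLib.Chars.isCharacter_restrict (CfsgLib.Chars.isCharacter_coe χ') H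
  have hm : CfsgLib.Chars.Induced.mult (fun n : H => (χ' : G → ℂ) n) (θ' : H → ℂ) ≠ 0 :=
    (CfsgLib.Chars.Induced.mult_ne_zero_iff hc θ').2 hcon
  obtain ⟨ψ, hψ, hψχ⟩ := CfsgLib.Chars.Induced.exists_indFun_eq hT' hHT χ' hm
  refine ⟨ψ, ψ.2, hψχ, ?_⟩
  have hmχ : CfsgLib.Chars.Induced.mult (Cfsg.indFun T (ψ : T → ℂ)) (χ' : G → ℂ) ≠ 0 := by
    rw [hψχ, CfsgLib.Chars.Induced.mult_irr, if_pos rfl]
    exact one_ne_zero
  have he := (CfsgLib.Chars.Induced.indFun_eq_of_mult_ne_zero hT' hHT ψ hψ χ' hmχ).2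
  have h1 := CfsgLib.Chars.Induced.classInner_eq_mult hc θ'
  rw [he] at h1
  refine Eq.trans ?_ h1.symm
  exact CfsgLib.Chars.Induced.classInner_eq_mult
    (CfsgLib.Chars.isCharacter_comp (CfsgLib.Chars.isCharacter_coe ψ) (Subgroup.inclusion hHT)) θ'

end Cfsg.Agent.S0854
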