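import Cfsg.Statements.S0855
import Cfsg.Agent.Eq.Def_Characters
import Cfsg.Agent.S4713
import Cfsg.Agent.Chars.Apps.ThompsonComplement

set_option autoImplicit false
open Cfsg CfsgLib.Chars CfsgLib.Chars.Induced
open scoped commutatorElement

namespace Cfsg.Agent.S0855

/-- For a finite group G and a prime p: every irreducible character of G has degree a power of p if and only if G has an abelian normal subgroup whose order is prime to p and whose index is a power of p. -/
theorem result {G : Type*} [Group G] [Finite G] (p : ℕ) (hp : p.Prime) : (∀ χ : Cfsg.IrrCharacter G, ∃ k : ℕ, (χ : G → ℂ) 1 = (p : ℂ) ^ k) ↔ ∃ A : Subgroup G, A.Normal ∧ (∀ a ∈ A, ∀ b ∈ A, a * b = b * a) ∧ Nat.Coprime (Nat.card A) p ∧ ∃ k : ℕ, A.index = p ^ k := by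
  have := Fact.mk hp
  constructor
  · intro h
    have hdeg : ∀ χ : IrrCharacter G, ∃ k : ℕ, charDegree (χ : G → ℂ) = p ^ k := fun χ => by
      obtain ⟨k, hk⟩ := h χ
      exact ⟨k, charDegree_eq_of_map_one (by rw [hk, Nat.cast_pow])⟩
    obtain ⟨N, hNn, hcop, hk⟩ := CfsgLib.Chars.Apps.exists_normal_complement_of_dvd (G := G) (p := p)
      fun χ hne => by
        obtain ⟨k, hk⟩ := hdeg χ
        rcases k with _ | k
        · exact absurd (by simpa using hk) hne
        · rw [hk]; exact dvd_pow_self p (Nat.succ_ne_zero k)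
    refine ⟨N, hNn, fun a ha b hb => ?_, hcop, hk⟩
    classical
    have := Fintype.ofFinite G
    have := Fintype.ofFinite N
    have hlin : ∀ θ : IrrCharacter N, (θ : N → ℂ) 1 = 1 := by
      intro θ
      obtain ⟨χ, hχ⟩ := S4713.exists_over N θ
      obtain ⟨k, hk⟩ := hdeg χ
      rw [← charDegree_eq_one_iff]
      exact Nat.Coprime.eq_one_of_dvd
        ((hcop.coprime_dvd_left (charDegree_dvd_card θ)).pow_right k) (hk ▸ (dvd_mul_left _ _).trans hχ)
    have h0 : ⁅(⟨a, ha⟩ : N), (⟨b, hb⟩ : N)⁆ = 1 := eq_one_of_forall_eq fun θ =>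
      map_eq_map_one_of_mem_charKer ((commutator_le_charKer_iff θ).2 (hlin θ)
        (Subgroup.commutator_mem_commutator (Subgroup.mem_top _) (Subgroup.mem_top _)))
    exact congrArg Subtype.val (commutatorElement_eq_one_iff_mul_comm.1 h0)
  · rintro ⟨A, hAn, hcomm, -, k, hk⟩ χ
    have := hAn
    have : IsMulCommutative A := ⟨⟨fun a b => Subtype.ext (hcomm a.1 a.2 b.1 b.2)⟩⟩
    obtain ⟨i, -, hi⟩ := (Nat.dvd_prime_pow hp).1 (hk ▸ ito A χ)
    exact ⟨i, by rw [← coe_charDegree, hi, Nat.cast_pow]⟩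

end Cfsg.Agent.S0855
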