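import Cfsg.Statements.S0856
import Cfsg.Agent.Eq.Def_Characters
import Cfsg.Agent.Chars.Induced.Relative

set_option autoImplicit false
open Cfsg

namespace Cfsg.Agent.S0856

open CfsgLib.Chars CfsgLib.Chars.Induced in
/-- A weighted family of characters whose norm is the sum of squared weights is orthonormal. -/
theorem orthonormal_of_norm_eq {G : Type*} [Group G] [Fintype G] {ι : Type*} [DecidableEq ι]
    (s : Finset ι) (d : ι → ℕ) (hd : ∀ i ∈ s, 0 < d i) (P : ι → G → ℂ)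
    (hP : ∀ i ∈ s, IsCharacter G (P i)) (hP1 : ∀ i ∈ s, P i 1 ≠ 0)
    (h : Cfsg.classInner (∑ i ∈ s, (d i : ℂ) • P i) (∑ i ∈ s, (d i : ℂ) • P i) =
      ((∑ i ∈ s, d i ^ 2 : ℕ) : ℂ)) (i j : ι) (hi : i ∈ s) (hj : j ∈ s) :
    Cfsg.classInner (P i) (P j) = if i = j then 1 else 0 := by
  classical
  let m : ι → ι → ℕ := fun a b => if hab : a ∈ s ∧ b ∈ s then
    (exists_nat_classInner' (hP a hab.1) (hP b hab.2)).choose else 0
  have hm : ∀ a b, a ∈ s → b ∈ s → Cfsg.classInner (P a) (P b) = m a b := fun a b ha hb => by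
    simp only [m, dif_pos (And.intro ha hb)]
    exact (exists_nat_classInner' (hP a ha) (hP b hb)).choose_spec
  have hmself : ∀ a ∈ s, 1 ≤ m a a := by
    intro a ha
    rcases Nat.eq_zero_or_pos (m a a) with h0 | h0
    · exfalso
      obtain ⟨η, hη⟩ := exists_mult_ne_zero (hP a ha) fun h1 => hP1 a ha (by rw [h1]; rfl)
      have h1 := hm a a ha ha
      rw [classInner_eq_sum (CfsgLib.Chars.isClassFunction_of_isCharacter (hP a ha)), h0] at h1
      simp only [classInner_eq_mult (hP a ha), map_natCast] at h1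
      have h2 : ∑ φ : IrrCharacter G, mult (P a) φ * mult (P a) φ = 0 := by exact_mod_cast h1
      exact hη (mul_self_eq_zero.1 (Finset.sum_eq_zero_iff.1 h2 η (Finset.mem_univ η)))
    · exact h0
  have hsum : ∑ a ∈ s, ∑ b ∈ s, d a * d b * m a b = ∑ a ∈ s, d a ^ 2 := by
    apply Nat.cast_injective (R := ℂ)
    rw [← h, CfsgLib.Chars.classInner_sum_left, Nat.cast_sum]
    refine Finset.sum_congr rfl fun a ha => ?_
    rw [CfsgLib.Chars.classInner_smul_left, ← classInner_conj_symm,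
      CfsgLib.Chars.classInner_sum_left, map_sum, Nat.cast_sum, Finset.mul_sum]
    refine Finset.sum_congr rfl fun b hb => ?_
    rw [CfsgLib.Chars.classInner_smul_left, map_mul, classInner_conj_symm, map_natCast,
      hm a b ha hb]
    push_cast
    ring
  have hle : ∀ a ∈ s, d a ^ 2 ≤ ∑ b ∈ s, d a * d b * m a b := fun a ha => by
    refine le_trans ?_ (Finset.single_le_sum (fun _ _ => Nat.zero_le _) ha)
    calc d a ^ 2 = d a * d a * 1 := by ring
      _ ≤ d a * d a * m a a := Nat.mul_le_mul_left _ (hmself a ha)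
  have heq := (Finset.sum_eq_sum_iff_of_le hle).1 hsum.symm i hi
  rw [← Finset.add_sum_erase _ _ hi] at heq
  have hpos : 0 < d i * d i := Nat.mul_pos (hd i hi) (hd i hi)
  have h2 : d i * d i * m i i = d i * d i ∧ ∑ b ∈ s.erase i, d i * d b * m i b = 0 := by
    have h3 := Nat.le_mul_of_pos_right (d i * d i) (hmself i hi)
    have h4 : d i ^ 2 = d i * d i := by ring
    omega
  rw [hm i j hi hj]
  by_cases hb : i = j
  · subst hb
    rw [if_pos rfl, Nat.eq_of_mul_eq_mul_left hpos (h2.1.trans (mul_one _).symm)]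
    simp
  · rw [if_neg hb]
    have h5 := Finset.sum_eq_zero_iff.1 h2.2 j (Finset.mem_erase.2 ⟨Ne.symm hb, hj⟩)
    rcases Nat.mul_eq_zero.1 h5 with h6 | h6
    · exact absurd h6 (Nat.mul_pos (hd i hi) (hd j hj)).ne'
    · simp [h6]

/-- Let N be a normal subgroup of the finite group G and φ, ϑ irreducible characters of N that are invariant under conjugation by G, such that the pointwise product φ * ϑ is irreducible and ϑ is the restriction of an irreducible character χ of G. Then multiplication by χ is a bijection from the set of irreducible characters of G having nonzero inner product with the function induced from φ onto the set of those having nonzero inner product with the function induced from φ * ϑ. -/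
theorem result {G : Type*} [Group G] [Fintype G] (N : Subgroup G) [hN : N.Normal] (φ ϑ : N → ℂ) (hφ : Cfsg.IsIrrCharacter N φ) (hϑ : Cfsg.IsIrrCharacter N ϑ) (hφinv : ∀ (g : G) (n : N), φ ⟨g * n * g⁻¹, hN.conj_mem (n : G) n.2 g⟩ = φ n) (hϑinv : ∀ (g : G) (n : N), ϑ ⟨g * n * g⁻¹, hN.conj_mem (n : G) n.2 g⟩ = ϑ n) (hprod : Cfsg.IsIrrCharacter N (φ * ϑ)) (χ : G → ℂ) (hχ : Cfsg.IsIrrCharacter G χ) (hext : ∀ n : N, χ n = ϑ n) : Set.BijOn (fun β : G → ℂ => β * χ) {β : G → ℂ | Cfsg.IsIrrCharacter G β ∧ Cfsg.classInner (Cfsg.indFun N φ) β ≠ 0} {ψ : G → ℂ | Cfsg.IsIrrCharacter G ψ ∧ Cfsg.classInner (Cfsg.indFun N (φ * ϑ)) ψ ≠ 0} := by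
  classical
  have : Fintype N := Fintype.ofFinite N
  let φ' : IrrCharacter N := ⟨φ, hφ⟩
  let φθ : IrrCharacter N := ⟨φ * ϑ, hprod⟩
  let χ' : IrrCharacter G := ⟨χ, hχ⟩
  have hχc := CfsgLib.Chars.isCharacter_coe χ'
  have hχcf := CfsgLib.Chars.isClassFunction_coe χ'
  have hi1 := CfsgLib.Chars.Induced.conjFun_eq_of_forall hφinv
  have hi2 : ∀ g : G, CfsgLib.Chars.Induced.conjFun N g (φθ : N → ℂ) = φθ :=
    CfsgLib.Chars.Induced.conjFun_eq_of_forall (fun g n => by
      show φ _ * ϑ _ = φ _ * ϑ _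
      rw [hφinv g n, hϑinv g n])
  have hΦ := CfsgLib.Chars.Induced.isCharacter_indFun N (CfsgLib.Chars.isCharacter_coe φ')
  obtain ⟨s, hmem, hs⟩ := CfsgLib.Chars.Induced.exists_eq_sum_mult hΦ
  let P : IrrCharacter G → G → ℂ := fun β g => (β : G → ℂ) g * χ g
  have hind : Cfsg.indFun N (φ * ϑ) = ∑ β ∈ s,
      (CfsgLib.Chars.Induced.mult (Cfsg.indFun N φ) β : ℂ) • P β := by
    have h1 := CfsgLib.Chars.Induced.indFun_mul N φ hχcf
    rw [show (φ * ϑ) = fun n : N => φ n * χ n from funext fun n => by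
      rw [Pi.mul_apply, hext], ← h1]
    funext g
    conv_lhs => rw [show Cfsg.indFun N φ = _ from hs]
    simp only [Finset.sum_apply, Pi.smul_apply, smul_eq_mul, P, Finset.sum_mul, mul_assoc]
    rfl
  have hnorm : Cfsg.classInner (∑ β ∈ s, (CfsgLib.Chars.Induced.mult (Cfsg.indFun N φ) β : ℂ) • P β)
      (∑ β ∈ s, (CfsgLib.Chars.Induced.mult (Cfsg.indFun N φ) β : ℂ) • P β) =
      ((∑ β ∈ s, CfsgLib.Chars.Induced.mult (Cfsg.indFun N φ) β ^ 2 : ℕ) : ℂ) := by
    rw [← hind]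
    have hin : ∀ η : IrrCharacter N, (∀ g : G, CfsgLib.Chars.Induced.conjFun N g (η : N → ℂ) = η) →
        Cfsg.classInner (Cfsg.indFun N (η : N → ℂ)) (Cfsg.indFun N (η : N → ℂ)) = N.index := by
      intro η hη
      rw [CfsgLib.Chars.Induced.classInner_indFun_irr_self, show CfsgLib.Chars.Induced.inertia N
          (η : N → ℂ) = ⊤ from eq_top_iff.2 fun x _ => hη x, Subgroup.card_top, ← N.card_mul_index,
        Nat.cast_mul, mul_div_cancel_left₀ _ (CfsgLib.Chars.Induced.card_subgroup_ne_zero N)]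
    refine (hin φθ hi2).trans ?_
    rw [Nat.cast_inj, ← CfsgLib.Chars.Induced.sum_mult_sq_of_invariant φ' hi1]
    simp only [← CfsgLib.Chars.Induced.mult_indFun_irr]
    refine (Finset.sum_subset (Finset.subset_univ s) fun β _ hβ => ?_).symm
    rw [not_not.1 (mt (hmem β).2 hβ)]
    rfl
  have horth := orthonormal_of_norm_eq s _ (fun β hβ => Nat.pos_of_ne_zero ((hmem β).1 hβ)) P
    (fun β _ => CfsgLib.Chars.isCharacter_mul (CfsgLib.Chars.isCharacter_coe β) hχc)
    (fun β _ => mul_ne_zero (CfsgLib.Chars.map_one_ne_zero β) (CfsgLib.Chars.map_one_ne_zero χ'))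
    hnorm
  have hdom : ∀ β : IrrCharacter G, β ∈ s ↔ Cfsg.classInner (Cfsg.indFun N φ) β ≠ 0 := fun β =>
    (hmem β).trans (CfsgLib.Chars.Induced.mult_ne_zero_iff hΦ β)
  have hirr : ∀ β ∈ s, Cfsg.IsIrrCharacter G (P β) := fun β hβ =>
    CfsgLib.Chars.isIrrCharacter_of_classInner_self
      (CfsgLib.Chars.isCharacter_mul (CfsgLib.Chars.isCharacter_coe β) hχc)
      (by rw [horth β β hβ hβ, if_pos rfl])
  refine ⟨fun β hβ => ?_, fun β hβ β' hβ' he => ?_, fun ψ hψ => ?_⟩
  · have hb : (⟨β, hβ.1⟩ : IrrCharacter G) ∈ s := (hdom _).2 hβ.2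
    refine ⟨hirr _ hb, ?_⟩
    show Cfsg.classInner (Cfsg.indFun N (φ * ϑ)) (P ⟨β, hβ.1⟩) ≠ 0
    rw [hind, CfsgLib.Chars.classInner_sum_left, Finset.sum_eq_single_of_mem _ hb fun b hb' hne => by
      rw [CfsgLib.Chars.classInner_smul_left, horth b _ hb' hb, if_neg hne, mul_zero],
      CfsgLib.Chars.classInner_smul_left, horth _ _ hb hb, if_pos rfl, mul_one, Nat.cast_ne_zero]
    exact (hmem _).1 hb
  · have hb : (⟨β, hβ.1⟩ : IrrCharacter G) ∈ s := (hdom _).2 hβ.2
    have hb' : (⟨β', hβ'.1⟩ : IrrCharacter G) ∈ s := (hdom _).2 hβ'.2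
    by_contra hne
    have h1 := horth _ _ hb hb'
    rw [if_neg fun h => hne (congrArg Subtype.val h),
      show P ⟨β', hβ'.1⟩ = P ⟨β, hβ.1⟩ from he.symm, horth _ _ hb hb, if_pos rfl] at h1
    exact one_ne_zero h1
  · obtain ⟨hψi, hψn⟩ := hψ
    rw [hind, CfsgLib.Chars.classInner_sum_left] at hψn
    obtain ⟨β, hβ, hne⟩ := Finset.exists_ne_zero_of_sum_ne_zero hψn
    rw [CfsgLib.Chars.classInner_smul_left, mul_ne_zero_iff] at hne
    refine ⟨β, ⟨β.2, (hdom β).1 hβ⟩, ?_⟩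
    by_contra hneq
    exact hne.2 (CfsgLib.Chars.classInner_of_ne (χ := ⟨P β, hirr β hβ⟩) (ψ := ⟨ψ, hψi⟩)
      fun h => hneq (congrArg Subtype.val h))

end Cfsg.Agent.S0856
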