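import Cfsg.Statements.S0857
import Mathlib
import Cfsg.Agent.Eq.Def_Characters
import Cfsg.Agent.Chars.Basic
import Cfsg.Agent.Chars.Induced.Relative

set_option autoImplicit false
open Cfsg

namespace Cfsg.Agent.S0857

open CfsgLib.Chars CfsgLib.Chars.Induced

open scoped ComplexConjugate

universe u

/-- The norm of an irreducible character summed over a subgroup bounds the multiplicities. -/
theorem sum_subgroup_le {K : Type u} [Group K] [Fintype K] (N : Subgroup K) [Fintype N]
    (χ : Cfsg.IrrCharacter K) :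
    (classInner (fun n : N => (χ : K → ℂ) n) (fun n : N => (χ : K → ℂ) n)).re * Nat.card N ≤ Nat.card K ∧
      ((classInner (fun n : N => (χ : K → ℂ) n) (fun n : N => (χ : K → ℂ) n)).re * Nat.card N = Nat.card K ↔
        ∀ x, x ∉ N → (χ : K → ℂ) x = 0) := by
  classical
  set S := Finset.univ.filter (fun x : K => x ∈ N) with hS
  have h1 : (classInner (fun n : N => (χ : K → ℂ) n) (fun n : N => (χ : K → ℂ) n)).re * Nat.card N
      = ∑ x ∈ S, ‖(χ : K → ℂ) x‖ ^ 2 := by
    have hN : (Nat.card N : ℂ) ≠ 0 := Nat.cast_ne_zero.mpr Nat.card_pos.ne'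
    have h2 : classInner (fun n : N => (χ : K → ℂ) n) (fun n : N => (χ : K → ℂ) n) * (Nat.card N : ℂ)
        = ((∑ x ∈ S, ‖(χ : K → ℂ) x‖ ^ 2 : ℝ) : ℂ) := by
      simp only [classInner]
      rw [mul_comm, ← mul_assoc, mul_inv_cancel₀ hN, one_mul,
        ← Finset.sum_subtype S (fun x => by simp [S]) (fun x : K => (χ : K → ℂ) x * conj ((χ : K → ℂ) x))]
      push_cast
      exact Finset.sum_congr rfl fun x _ => Complex.mul_conj' _
    have h3 := congrArg Complex.re h2
    rwa [Complex.ofReal_re, Complex.mul_re, Complex.natCast_re, Complex.natCast_im, mul_zero, sub_zero] at h3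
  have hall : ∑ x : K, ‖(χ : K → ℂ) x‖ ^ 2 = (Nat.card K : ℝ) := by
    have h := CfsgLib.Chars.classInner_self χ
    simp only [classInner] at h
    rw [inv_mul_eq_iff_eq_mul₀ (Nat.cast_ne_zero.mpr Nat.card_pos.ne'), mul_one] at h
    apply Complex.ofReal_injective
    rw [Complex.ofReal_sum, Complex.ofReal_natCast, ← h]
    refine Finset.sum_congr rfl fun x _ => ?_
    push_cast
    exact (Complex.mul_conj' _).symm
  have hsplit := Finset.sum_filter_add_sum_filter_not Finset.univ (fun x : K => x ∈ N)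
    (fun x : K => ‖(χ : K → ℂ) x‖ ^ 2)
  rw [hall, ← hS] at hsplit
  have h0 : 0 ≤ ∑ x ∈ Finset.univ.filter (fun x : K => x ∉ N), ‖(χ : K → ℂ) x‖ ^ 2 :=
    Finset.sum_nonneg fun x _ => by positivity
  rw [h1]
  refine ⟨by linarith, fun h x hx => ?_, fun h => ?_⟩
  · have h4 : ∑ x ∈ Finset.univ.filter (fun x : K => x ∉ N), ‖(χ : K → ℂ) x‖ ^ 2 = 0 := by linarith
    have h5 := (Finset.sum_eq_zero_iff_of_nonneg fun x _ => by positivity).mp h4 x (by simp [hx])
    simpa using h5
  · rw [← hsplit, Finset.sum_eq_zero (s := Finset.univ.filter (fun x : K => x ∉ N)) (fun x hx => by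
      rw [h x (Finset.mem_filter.mp hx).2]; simp), add_zero]

theorem main {G : Type u} [Group G] [Fintype G] (K L : Subgroup G) [hK : K.Normal] [L.Normal]
    (hLK : L < K) (hchief : ∀ M : Subgroup G, M.Normal → L ≤ M → M ≤ K → M = L ∨ M = K)
    (hab : ⁅K, K⁆ ≤ L) (χ : Cfsg.IrrCharacter K)
    (hinv : ∀ (g : G) (n : K), (χ : K → ℂ) ⟨g * n * g⁻¹, hK.conj_mem (n : G) n.2 g⟩ = (χ : K → ℂ) n) :
    Cfsg.IsIrrCharacter L (fun x : L => (χ : K → ℂ) ⟨(x : G), hLK.le x.2⟩) ∨
      (∃ (φ : L → ℂ) (e : ℕ), Cfsg.IsIrrCharacter L φ ∧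
        (fun x : L => (χ : K → ℂ) ⟨(x : G), hLK.le x.2⟩) = (e : ℂ) • φ ∧ e ^ 2 = L.relIndex K) ∨
      (∃ F : Finset (L → ℂ), (∀ φ ∈ F, Cfsg.IsIrrCharacter L φ) ∧ F.card = L.relIndex K ∧
        (fun x : L => (χ : K → ℂ) ⟨(x : G), hLK.le x.2⟩) = ∑ φ ∈ F, φ) := by
  classical
  let _ : Fintype K := Fintype.ofFinite K
  let N : Subgroup K := L.subgroupOf K
  have hNn : N.Normal := inferInstance
  let _ : Fintype N := Fintype.ofFinite N
  have hres : IsCharacter N (fun n : N => (χ : K → ℂ) n) := isCharacter_restrict (isCharacter_coe χ) N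
  obtain ⟨φ, hφ⟩ := exists_mult_ne_zero hres (fun h => map_one_ne_zero χ (congrFun h 1))
  set e := mult (fun n : N => (χ : K → ℂ) n) φ with he
  let eL : L ≃* N := (Subgroup.subgroupOfEquivOfLe hLK.le).symm
  have heL : ∀ x : L, ((eL x : K)) = ⟨(x : G), hLK.le x.2⟩ := fun x => Subtype.ext rfl
  have hcomm : ∀ x y : K, x * y * x⁻¹ * y⁻¹ ∈ N := fun x y => by
    rw [Subgroup.mem_subgroupOf]
    exact hab (Subgroup.commutator_mem_commutator x.2 y.2)
  set T := inertia N (φ : N → ℂ) with hT
  have hNT : N ≤ T := le_inertia (isClassFunction_coe φ)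
  have hTn : T.Normal := ⟨fun t ht x => by
    have h := T.mul_mem (hNT (hcomm x t)) ht
    rwa [show x * t * x⁻¹ * t⁻¹ * t = x * t * x⁻¹ by group] at h⟩
  -- invariance under the whole group
  let cg : G → (K ≃* K) := fun g => MulAut.conjNormal g
  have hcg : ∀ (g : G) (k : K), ((cg g k : K) : G) = g * k * g⁻¹ := fun g k => MulAut.conjNormal_apply g k
  have hχcg : ∀ (g : G) (k : K), (χ : K → ℂ) (cg g k) = (χ : K → ℂ) k := fun g k =>
    (congrArg (χ : K → ℂ) (Subtype.ext (hcg g k))).trans (hinv g k)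
  have hNcg : ∀ (g : G) (k : K), cg g k ∈ N ↔ k ∈ N := fun g k => by
    rw [Subgroup.mem_subgroupOf, Subgroup.mem_subgroupOf, hcg]
    constructor
    · intro h
      simpa [mul_assoc] using ‹L.Normal›.conj_mem _ h g⁻¹
    · intro h
      exact ‹L.Normal›.conj_mem _ h g
  let cN : G → (N ≃* N) := fun g =>
    { toFun := fun n => ⟨cg g (n : K), (hNcg g (n : K)).mpr n.2⟩
      invFun := fun n => ⟨(cg g).symm (n : K), by
        have := (hNcg g ((cg g).symm (n : K))).mp
        rw [MulEquiv.apply_symm_apply] at this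
        exact this n.2⟩
      left_inv := fun n => Subtype.ext ((cg g).symm_apply_apply n)
      right_inv := fun n => Subtype.ext ((cg g).apply_symm_apply n)
      map_mul' := fun m n => Subtype.ext (map_mul (cg g) (m : K) (n : K)) }
  have hTcg : ∀ (g : G) (k : K), k ∈ T → cg g k ∈ T := by
    intro g k hk
    let φ' : Cfsg.IrrCharacter N := ⟨fun n => (φ : N → ℂ) (cN g n), isIrrCharacter_comp_mulEquiv φ.2 (cN g)⟩
    have hm' : mult (fun n : N => (χ : K → ℂ) n) φ' ≠ 0 := by
      rw [mult_ne_zero_iff hres]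
      have h0 := classInner_comp_equiv (cN g) (fun n : N => (χ : K → ℂ) n) (φ : N → ℂ)
      rw [show (fun a : N => (χ : K → ℂ) ((cN g a : N) : K)) = fun n : N => (χ : K → ℂ) n from
        funext fun n => hχcg g n] at h0
      show classInner (fun n : N => (χ : K → ℂ) n) (fun n => (φ : N → ℂ) (cN g n)) ≠ 0
      rw [h0]
      exact (mult_ne_zero_iff hres φ).mp hφ
    obtain ⟨x, hx⟩ := mem_conjOrbit_of_mult_ne_zero χ φ φ' hφ hm'
    have hk' : k ∈ inertia N (φ' : N → ℂ) := by
      rw [← hx, mem_inertia]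
      show conjFun N k (conjFun N x (φ : N → ℂ)) = conjFun N x (φ : N → ℂ)
      rw [← conjFun_mul, conjFun_eq_conjFun_iff]
      have h := hTn.conj_mem k hk x⁻¹
      rw [inv_inv, mul_assoc] at h
      exact h
    rw [hT, mem_inertia_iff_forall] at ⊢
    rw [mem_inertia_iff_forall] at hk'
    intro n n' hn
    have h := hk' ((cN g).symm n) ((cN g).symm n') (by
      apply (cg g).injective
      rw [map_mul, map_mul, map_inv]
      show (cg g) ((cg g).symm n') = cg g k * (cg g) ((cg g).symm n) * (cg g k)⁻¹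
      rw [MulEquiv.apply_symm_apply, MulEquiv.apply_symm_apply, hn])
    simpa [φ'] using h
  have hsub : ∀ U : Subgroup K, N ≤ U → (∀ (g : G) (k : K), k ∈ U → cg g k ∈ U) → U = N ∨ U = ⊤ := by
    intro U hNU hU
    have hn : (U.map K.subtype).Normal := ⟨fun m hm g => by
      obtain ⟨k, hk, rfl⟩ := Subgroup.mem_map.mp hm
      exact Subgroup.mem_map.mpr ⟨cg g k, hU g k hk, hcg g k⟩⟩
    have hLU : L ≤ U.map K.subtype := fun x hx =>
      Subgroup.mem_map.mpr ⟨⟨x, hLK.le hx⟩, hNU (Subgroup.mem_subgroupOf.mpr hx), rfl⟩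
    rcases hchief _ hn hLU (Subgroup.map_subtype_le U) with h | h
    · left
      apply Subgroup.map_injective K.subtype_injective
      rw [h, Subgroup.map_subgroupOf_eq_of_le hLK.le]
    · right
      apply Subgroup.map_injective K.subtype_injective
      rw [h, ← MonoidHom.range_eq_map, Subgroup.range_subtype]
  have hidx : L.relIndex K = N.index := rfl
  have hinner : ∀ s : Finset (Cfsg.IrrCharacter N),
      (fun n : N => (χ : K → ℂ) n) = (e : ℂ) • ∑ η ∈ s, (η : N → ℂ) →
      classInner (fun n : N => (χ : K → ℂ) n) (fun n : N => (χ : K → ℂ) n) = (e : ℂ) ^ 2 * s.card := by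
    intro s h
    rw [h, CfsgLib.Chars.classInner_smul_left, CfsgLib.Chars.classInner_sum_left]
    have hterm : ∀ η ∈ s, classInner (η : N → ℂ) ((e : ℂ) • ∑ η ∈ s, (η : N → ℂ)) = (e : ℂ) := fun η hη => by
      rw [← CfsgLib.Chars.classInner_conj_symm, CfsgLib.Chars.classInner_smul_left, classInner_finset_irr, if_pos hη,
        mul_one, map_natCast]
    rw [Finset.sum_congr rfl hterm, Finset.sum_const, nsmul_eq_mul]
    ring
  have hNK : (N.index : ℝ) * Nat.card N = Nat.card K := by exact_mod_cast N.index_mul_card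
  have hNpos : (0 : ℝ) < Nat.card N := Nat.cast_pos.mpr Nat.card_pos
  rcases hsub T hNT hTcg with hTN | hTtop
  · -- a full orbit
    refine Or.inr (Or.inr ?_)
    set s := (Set.finite_range fun x : K => conjIrr x φ).toFinset with hs
    have hcl := clifford χ φ hφ
    have hcard : s.card = N.index := by
      rw [← congrArg Subgroup.index hTN, ← card_conjOrbit φ, Nat.card_coe_set_eq, conjOrbit, Set.ncard_eq_toFinset_card _ (Set.finite_range _)]
    have hle := (sum_subgroup_le N χ).1
    rw [hinner s hcl, hcard, ← hNK] at hle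
    have h2 : ((e : ℂ) ^ 2 * (N.index : ℂ)).re = ((e ^ 2 * N.index : ℕ) : ℝ) := by
      rw [← Complex.natCast_re (e ^ 2 * N.index)]; push_cast; rfl
    rw [h2] at hle
    have h3 : e ^ 2 * N.index ≤ 1 * N.index := by
      rw [one_mul]; exact_mod_cast le_of_mul_le_mul_right hle hNpos
    have he1 : e = 1 := by
      have h4 := Nat.le_of_mul_le_mul_right h3 (Nat.pos_of_ne_zero Subgroup.index_ne_zero_of_finite)
      rcases e with _ | _ | e
      · exact absurd rfl hφ
      · rfl
      · nlinarith
    refine ⟨s.image fun η : Cfsg.IrrCharacter N => fun x : L => (η : N → ℂ) (eL x), ?_, ?_, ?_⟩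
    · intro f hf
      obtain ⟨η, -, rfl⟩ := Finset.mem_image.mp hf
      exact isIrrCharacter_comp_mulEquiv η.2 eL
    · rw [Finset.card_image_of_injective, hcard, hidx]
      intro η η' h
      exact Subtype.ext (funext fun n => by simpa using congrFun h (eL.symm n))
    · funext x
      rw [Finset.sum_image (fun η _ η' _ h => Subtype.ext (funext fun n => by
        simpa using congrFun h (eL.symm n))), Finset.sum_apply]
      have h := congrFun hcl (eL x)
      rw [← he, he1, Nat.cast_one, one_smul, Finset.sum_apply] at h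
      rw [← heL x]
      exact h
  · have hinvK : ∀ k : K, conjFun N k (φ : N → ℂ) = φ := fun k => by
      rw [← mem_inertia, ← hT, hTtop]; exact Subgroup.mem_top k
    have hres' := restrict_eq_of_invariant χ φ hinvK hφ
    have hL : (fun x : L => (χ : K → ℂ) ⟨(x : G), hLK.le x.2⟩) = (e : ℂ) • fun x : L => (φ : N → ℂ) (eL x) := by
      funext x
      rw [← heL x]
      exact congrFun hres' (eL x)
    let U : Subgroup K := Subgroup.closure ((N : Set K) ∪ {k | (χ : K → ℂ) k ≠ 0})
    have hUc : ∀ (g : G) (k : K), k ∈ U → cg g k ∈ U := by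
      intro g k hk
      have hle : U ≤ U.comap (cg g).toMonoidHom := (Subgroup.closure_le _).mpr (by
        rintro y (hy | hy)
        · exact Subgroup.subset_closure (Or.inl ((hNcg g y).mpr hy))
        · exact Subgroup.subset_closure (Or.inr (by show (χ : K → ℂ) (cg g y) ≠ 0; rw [hχcg]; exact hy)))
      exact hle hk
    rcases hsub U (fun k hk => Subgroup.subset_closure (Or.inl hk)) hUc with hU | hU
    · -- fully ramified
      refine Or.inr (Or.inl ⟨_, e, isIrrCharacter_comp_mulEquiv φ.2 eL, hL, ?_⟩)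
      have heq : (classInner (fun n : N => (χ : K → ℂ) n) (fun n : N => (χ : K → ℂ) n)).re * Nat.card N
          = Nat.card K := (sum_subgroup_le N χ).2.mpr fun x hx => by
        by_contra hne
        exact hx (hU ▸ Subgroup.subset_closure (Or.inr hne))
      rw [hinner {φ} (by rw [Finset.sum_singleton]; exact hres'), Finset.card_singleton, ← hNK] at heq
      have h2 : ((e : ℂ) ^ 2 * ((1 : ℕ) : ℂ)).re = ((e ^ 2 : ℕ) : ℝ) := by
        rw [← Complex.natCast_re (e ^ 2), Nat.cast_one, mul_one]; push_cast; rfl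
      rw [h2] at heq
      rw [hidx]
      exact_mod_cast mul_right_cancel₀ hNpos.ne' heq
    · -- all twists are distinct
      left
      let tw : ((K ⧸ N) →* ℂˣ) → Cfsg.IrrCharacter K := fun l =>
        ⟨fun k => ((l.comp (QuotientGroup.mk' N)) k : ℂ) * (χ : K → ℂ) k,
          isIrrCharacter_linear_mul χ.2 (l.comp (QuotientGroup.mk' N))⟩
      have htw : Function.Injective tw := by
        intro l l' h
        have h1 : l.comp (QuotientGroup.mk' N) = l'.comp (QuotientGroup.mk' N) := by
          refine MonoidHom.eq_of_eqOn_dense hU ?_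
          rintro k (hk | hk)
          · have hk1 : (k : K ⧸ N) = 1 := (QuotientGroup.eq_one_iff k).mpr hk
            simp [hk1]
          · exact Units.ext (mul_right_cancel₀ hk (congrFun (congrArg Subtype.val h) k))
        exact MonoidHom.ext fun q => by
          obtain ⟨k, rfl⟩ := QuotientGroup.mk_surjective q
          exact DFunLike.congr_fun h1 k
      have hmult : ∀ l, mult (fun n : N => (tw l : K → ℂ) n) φ = e := by
        intro l
        have hfn : (fun n : N => (tw l : K → ℂ) n) = fun n : N => (χ : K → ℂ) n := funext fun n => by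
          show ((l ((n : K) : K ⧸ N)) : ℂ) * (χ : K → ℂ) n = (χ : K → ℂ) n
          rw [(QuotientGroup.eq_one_iff (n : K)).mpr n.2, map_one, Units.val_one, one_mul]
        rw [hfn]
      have hcomm' : IsMulCommutative (K ⧸ N) := ⟨⟨fun a b => by
        obtain ⟨x, rfl⟩ := QuotientGroup.mk_surjective a
        obtain ⟨y, rfl⟩ := QuotientGroup.mk_surjective b
        rw [← QuotientGroup.mk_mul, ← QuotientGroup.mk_mul, QuotientGroup.eq]
        have := hcomm y⁻¹ x⁻¹
        rw [inv_inv, inv_inv] at this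
        rw [mul_inv_rev, ← mul_assoc]
        exact this⟩⟩
      let _ : Fintype ((K ⧸ N) →* ℂˣ) := Fintype.ofFinite _
      have hnum : Fintype.card ((K ⧸ N) →* ℂˣ) = N.index := by
        have hcom : commutator (K ⧸ N) = ⊥ := by
          rw [commutator_def, eq_bot_iff, Subgroup.commutator_le]
          intro u _ v _
          rw [Subgroup.mem_bot, commutatorElement_eq_one_iff_mul_comm]
          exact hcomm'.is_comm.comm u v
        rw [← Nat.card_eq_fintype_card, card_monoidHom_units, hcom, Subgroup.index_bot, N.index_eq_card]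
      have hsum := sum_mult_sq_of_invariant φ hinvK
      have hle : ∑ ψ ∈ Finset.univ.image tw, mult (fun n : N => (ψ : K → ℂ) n) φ ^ 2 ≤ N.index :=
        (Finset.sum_le_sum_of_subset (Finset.subset_univ _)).trans hsum.le
      rw [Finset.sum_image fun a _ b _ h => htw h, Finset.sum_congr rfl fun l _ => by rw [hmult l],
        Finset.sum_const, Finset.card_univ, hnum, smul_eq_mul] at hle
      have he1 : e = 1 := by
        have h4 : e ^ 2 ≤ 1 :=
          Nat.le_of_mul_le_mul_left (by rw [mul_one]; exact hle) (Nat.pos_of_ne_zero Subgroup.index_ne_zero_of_finite)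
        rcases e with _ | _ | e
        · exact absurd rfl hφ
        · rfl
        · nlinarith
      rw [hL, he1, Nat.cast_one, one_smul]
      exact isIrrCharacter_comp_mulEquiv φ.2 eL

/-- Let L < K be normal subgroups of the finite group G with no normal subgroup of G strictly between them and with K / L abelian (the commutator subgroup of K lies in L). Let ϑ be an irreducible character of K invariant under conjugation by G. Then the restriction of ϑ to L is irreducible; or it equals e times an irreducible character of L with e ^ 2 equal to the index of L in K; or it is the sum of a family of pairwise distinct irreducible characters of L indexed by a set whose size is the index of L in K. -/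
theorem result {G : Type*} [Group G] [Fintype G] (K L : Subgroup G) [hK : K.Normal] [L.Normal] (hLK : L < K) (hchief : ∀ M : Subgroup G, M.Normal → L ≤ M → M ≤ K → M = L ∨ M = K) (hab : ⁅K, K⁆ ≤ L) (ϑ : K → ℂ) (hϑ : Cfsg.IsIrrCharacter K ϑ) (hinv : ∀ (g : G) (n : K), ϑ ⟨g * n * g⁻¹, hK.conj_mem (n : G) n.2 g⟩ = ϑ n) : Cfsg.IsIrrCharacter L (fun x : L => ϑ ⟨(x : G), hLK.le x.2⟩) ∨ (∃ (φ : L → ℂ) (e : ℕ), Cfsg.IsIrrCharacter L φ ∧ (fun x : L => ϑ ⟨(x : G), hLK.le x.2⟩) = (e : ℂ) • φ ∧ e ^ 2 = L.relIndex K) ∨ (∃ F : Finset (L → ℂ), (∀ φ ∈ F, Cfsg.IsIrrCharacter L φ) ∧ F.card = L.relIndex K ∧ (fun x : L => ϑ ⟨(x : G), hLK.le x.2⟩) = ∑ φ ∈ F, φ) := by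
  exact main K L hLK hchief hab ⟨ϑ, hϑ⟩ hinv

end Cfsg.Agent.S0857
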