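import Cfsg.Statements.S0858
import Mathlib
import Cfsg.Agent.Eq.Def_Characters
import Cfsg.Agent.Chars.Basic
import Cfsg.Agent.Chars.Induced.Relative
import Cfsg.Agent.S0857

set_option autoImplicit false
open Cfsg

namespace Cfsg.Agent.S0858

open CfsgLib.Chars CfsgLib.Chars.Induced

universe u

theorem key : ∀ (n : ℕ) {G : Type u} [Group G] [Fintype G] (N : Subgroup G) [N.Normal],
    Nat.card G = n → Group.IsSolvable (G ⧸ N) →
    (∀ (H K L : Subgroup G), N ≤ L → L < K → K ≤ H → (∀ h ∈ H, ∀ k ∈ K, h * k * h⁻¹ ∈ K) →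
      (∀ h ∈ H, ∀ l ∈ L, h * l * h⁻¹ ∈ L) →
      (∀ M : Subgroup G, L ≤ M → M ≤ K → (∀ h ∈ H, ∀ m ∈ M, h * m * h⁻¹ ∈ M) → M = L ∨ M = K) →
      ¬ IsSquare (L.relIndex K)) →
    ∀ χ : Cfsg.IrrCharacter G, ∃ (H : Subgroup G) (hNH : N ≤ H) (ψ : H → ℂ),
      Cfsg.IsIrrCharacter H ψ ∧ Cfsg.indFun H ψ = (χ : G → ℂ) ∧
        Cfsg.IsIrrCharacter N (fun n : N => ψ ⟨(n : G), hNH n.2⟩) := by
  intro n
  induction n using Nat.strong_induction_on with
  | _ n ih =>
    intro G _ _ N _ hn hsolv hchief χ
    classical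
    let P : Set (Subgroup G) := {K | K.Normal ∧ N ≤ K ∧ Cfsg.IsIrrCharacter K fun k : K => (χ : G → ℂ) k}
    have htop : (⊤ : Subgroup G) ∈ P :=
      ⟨inferInstance, le_top, isIrrCharacter_comp_mulEquiv χ.2 Subgroup.topEquiv⟩
    obtain ⟨K, ⟨hKn, hNK, hKirr⟩, hKmin⟩ := (wellFounded_lt (α := Subgroup G)).has_min P ⟨⊤, htop⟩
    by_cases hKN : K = N
    · subst hKN
      refine ⟨⊤, le_top, fun t : (⊤ : Subgroup G) => (χ : G → ℂ) t,
        isIrrCharacter_comp_mulEquiv χ.2 Subgroup.topEquiv, ?_, hKirr⟩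
      funext g
      have h1 : ∀ x : G, Cfsg.extendByZero (⊤ : Subgroup G) (fun t : (⊤ : Subgroup G) => (χ : G → ℂ) t)
          (x⁻¹ * g * x) = (χ : G → ℂ) g := fun x => by
        rw [extendByZero_mem _ (Subgroup.mem_top _)]
        exact classFun_inv_conj (CfsgLib.Chars.isClassFunction_coe χ) x g
      simp only [Cfsg.indFun, h1, Finset.sum_const, nsmul_eq_mul, Finset.card_univ, Subgroup.card_top,
        ← Nat.card_eq_fintype_card]
      rw [← mul_assoc, inv_mul_cancel₀ (Nat.cast_ne_zero.mpr Nat.card_pos.ne'), one_mul]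
    have hNK' : N < K := lt_of_le_of_ne hNK (Ne.symm hKN)
    let Q : Set (Subgroup G) := {L | L.Normal ∧ N ≤ L ∧ L < K}
    obtain ⟨L, hL⟩ := (Set.toFinite Q).exists_maximal ⟨N, inferInstance, le_rfl, hNK'⟩
    obtain ⟨hLn, hNL, hLK⟩ := hL.prop
    have hch : ∀ M : Subgroup G, M.Normal → L ≤ M → M ≤ K → M = L ∨ M = K := by
      intro M hM hLM hMK
      rcases hMK.lt_or_eq with h | h
      · exact Or.inl (hL.eq_of_le ⟨hM, hNL.trans hLM, h⟩ hLM).symm
      · exact Or.inr h
    have hab : ⁅K, K⁆ ≤ L := by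
      rcases hch (⁅K, K⁆ ⊔ L) inferInstance le_sup_right
        (sup_le (Subgroup.commutator_le.mpr fun a ha b hb => by
          rw [commutatorElement_def]
          exact mul_mem (mul_mem (mul_mem ha hb) (inv_mem ha)) (inv_mem hb)) hLK.le) with h | h
      · exact le_sup_left.trans h.le
      · exfalso
        have hsolvL : Group.IsSolvable (G ⧸ L) :=
          solvable_of_surjective (f := QuotientGroup.map N L (MonoidHom.id G) (by simpa using hNL)) (by
            intro q
            obtain ⟨g, rfl⟩ := QuotientGroup.mk_surjective q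
            exact ⟨QuotientGroup.mk g, rfl⟩)
        set Kb := K.map (QuotientGroup.mk' L) with hKb
        have hperf : ⁅Kb, Kb⁆ = Kb := by
          rw [hKb, ← Subgroup.map_commutator]
          conv_rhs => rw [← h, Subgroup.map_sup]
          have hbot : L.map (QuotientGroup.mk' L) = ⊥ := by
            rw [Subgroup.map_eq_bot_iff, QuotientGroup.ker_mk']
          rw [hbot, sup_bot_eq]
        obtain ⟨m, hm⟩ := hsolvL.solvable
        have hle : ∀ i, Kb ≤ derivedSeries (G ⧸ L) i := by
          intro i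
          induction i with
          | zero => exact le_top
          | succ i hi =>
            rw [derivedSeries_succ, ← hperf]
            exact Subgroup.commutator_mono hi hi
        have hb := hle m
        rw [hm, le_bot_iff, hKb, Subgroup.map_eq_bot_iff, QuotientGroup.ker_mk'] at hb
        exact absurd hb (not_le_of_gt hLK)
    let ϑ : Cfsg.IrrCharacter K := ⟨fun k : K => (χ : G → ℂ) k, hKirr⟩
    have hinv : ∀ (g : G) (k : K), (ϑ : K → ℂ) ⟨g * k * g⁻¹, hKn.conj_mem (k : G) k.2 g⟩ = (ϑ : K → ℂ) k :=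
      fun g k => CfsgLib.Chars.isClassFunction_coe χ (k : G) g
    rcases Cfsg.Agent.S0857.main K L hLK hch hab ϑ hinv with h | ⟨φ, e, -, -, he⟩ | ⟨F, hF, hFc, hFs⟩
    · exact absurd hLK (hKmin L ⟨hLn, hNL, h⟩)
    · exfalso
      refine hchief ⊤ K L hNL hLK le_top (fun g _ k hk => hKn.conj_mem k hk g) (fun g _ l hl => hLn.conj_mem l hl g)
        (fun M hLM hMK hM => hch M ⟨fun m hm g => hM g (Subgroup.mem_top g) m hm⟩ hLM hMK) ⟨e, ?_⟩
      rw [← he, pow_two]
    · let _ : Fintype L := Fintype.ofFinite L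
      let F' : Finset (Cfsg.IrrCharacter L) := F.attach.image fun f => ⟨f.1, hF f.1 f.2⟩
      have hinjF : Function.Injective (fun f : {x // x ∈ F} => (⟨f.1, hF f.1 f.2⟩ : Cfsg.IrrCharacter L)) :=
        fun a b h => Subtype.ext (congrArg (fun z : Cfsg.IrrCharacter L => (z : L → ℂ)) h)
      have hF'c : F'.card = L.relIndex K := by
        rw [← hFc, Finset.card_image_of_injective _ hinjF,
          Finset.card_attach]
      have hres : (fun x : L => (χ : G → ℂ) x) = ∑ η ∈ F', (η : L → ℂ) := by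
        rw [Finset.sum_image (fun a _ b _ h => hinjF h)]
        rw [Finset.sum_attach F (fun f => f)]
        exact hFs
      have hge : 1 < L.relIndex K := by
        have h0 : L.relIndex K ≠ 0 := Subgroup.index_ne_zero_of_finite
        have h1 : L.relIndex K ≠ 1 := fun h1 => absurd (Subgroup.relIndex_eq_one.mp h1) (not_le_of_gt hLK)
        omega
      obtain ⟨φ₁, h1, φ₂, h2, hne⟩ := Finset.one_lt_card.mp (hF'c ▸ hge)
      have hresc := CfsgLib.Chars.isCharacter_restrict (CfsgLib.Chars.isCharacter_coe χ) L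
      have hm : mult (fun x : L => (χ : G → ℂ) x) φ₁ ≠ 0 := by
        rw [mult_ne_zero_iff hresc, hres, classInner_finset_irr, if_pos h1]
        exact one_ne_zero
      set T := inertia L (φ₁ : L → ℂ) with hT
      have hLT : L ≤ T := le_inertia (CfsgLib.Chars.isClassFunction_coe φ₁)
      have hTtop : T ≠ ⊤ := by
        intro h
        have hr := restrict_eq_of_invariant χ φ₁ (fun g => by
          rw [← mem_inertia, ← hT, h]; exact Subgroup.mem_top g) hm
        have h0 := congrArg (fun f => Cfsg.classInner f (φ₂ : L → ℂ)) (hres.symm.trans hr)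
        simp only [classInner_finset_irr, if_pos h2, CfsgLib.Chars.classInner_smul_left,
          CfsgLib.Chars.classInner_of_ne hne, mul_zero] at h0
        exact one_ne_zero h0
      let _ : Fintype T := Fintype.ofFinite T
      obtain ⟨ψ, -, hψ⟩ := exists_indFun_eq hT hLT χ hm
      let N' := N.subgroupOf T
      have hlt : Nat.card T < n := by
        rw [← hn]
        refine lt_of_le_of_ne (Nat.le_of_dvd Nat.card_pos (Subgroup.card_subgroup_dvd_card T)) fun h => ?_
        exact hTtop (Subgroup.eq_top_of_card_eq T h)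
      have hsolv' : Group.IsSolvable (T ⧸ N') := by
        refine solvable_of_solvable_injective (f := QuotientGroup.map N' N T.subtype (fun x hx => hx)) ?_
        rw [injective_iff_map_eq_one]
        intro q hq
        obtain ⟨t, rfl⟩ := QuotientGroup.mk_surjective q
        have hq' : (t : G) ∈ N := (QuotientGroup.eq_one_iff _).mp hq
        exact (QuotientGroup.eq_one_iff t).mpr hq'
      have hmap : ∀ {A B : Subgroup T}, A ≤ B → A.map T.subtype ≤ B.map T.subtype :=
        fun h => Subgroup.map_mono h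
      have hmapc : ∀ {A B : Subgroup T}, (∀ a ∈ A, ∀ b ∈ B, a * b * a⁻¹ ∈ B) →
          ∀ a ∈ A.map T.subtype, ∀ b ∈ B.map T.subtype, a * b * a⁻¹ ∈ B.map T.subtype := by
        rintro A B h _ ⟨a, ha, rfl⟩ _ ⟨b, hb, rfl⟩
        exact ⟨a * b * a⁻¹, h a ha b hb, by simp⟩
      have hchief' : ∀ (H K L : Subgroup T), N' ≤ L → L < K → K ≤ H →
          (∀ h ∈ H, ∀ k ∈ K, h * k * h⁻¹ ∈ K) → (∀ h ∈ H, ∀ l ∈ L, h * l * h⁻¹ ∈ L) →
          (∀ M : Subgroup T, L ≤ M → M ≤ K → (∀ h ∈ H, ∀ m ∈ M, h * m * h⁻¹ ∈ M) → M = L ∨ M = K) →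
          ¬ IsSquare (L.relIndex K) := by
        intro A B C hC hCB hBA hB hC' hM
        rw [← Subgroup.relIndex_map_map_of_injective C B T.subtype_injective]
        refine hchief (A.map T.subtype) _ _ ?_ ?_ (hmap hBA) (hmapc hB) (hmapc hC') fun M hCM hMB hMA => ?_
        · intro x hx
          exact ⟨⟨x, hLT (hNL hx)⟩, hC (Subgroup.mem_subgroupOf.mpr hx), rfl⟩
        · exact lt_of_le_of_ne (hmap hCB.le) fun h => hCB.ne (Subgroup.map_injective T.subtype_injective h)
        · have hMT : M ≤ T := hMB.trans (Subgroup.map_subtype_le B)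
          have e : (M.subgroupOf T).map T.subtype = M := Subgroup.map_subgroupOf_eq_of_le hMT
          have hA : ∀ a ∈ A, ∀ m ∈ M.subgroupOf T, a * m * a⁻¹ ∈ M.subgroupOf T := fun a ha m hm => by
            rw [Subgroup.mem_subgroupOf] at hm ⊢
            simpa using hMA a ⟨a, ha, rfl⟩ m hm
          rcases hM (M.subgroupOf T) (fun c hc => Subgroup.mem_subgroupOf.mpr (hCM ⟨c, hc, rfl⟩))
            (fun m hm => (Subgroup.map_le_map_iff_of_injective T.subtype_injective).mp (e.le.trans hMB) hm) hA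
            with h | h
          · exact Or.inl (by rw [← e, h])
          · exact Or.inr (by rw [← e, h])
      obtain ⟨H₀, hNH₀, ψ₀, hψ₀, hind, hirr⟩ := ih (Nat.card T) hlt N' rfl hsolv' hchief' ψ
      let H := H₀.map T.subtype
      have hHT : H ≤ T := Subgroup.map_subtype_le H₀
      have hsub : H.subgroupOf T = H₀ :=
        Subgroup.comap_map_eq_self_of_injective T.subtype_injective H₀
      let eH : H ≃* H₀ := (H₀.equivMapOfInjective T.subtype T.subtype_injective).symm
      have heH : ∀ h : H, (((eH h : H₀) : T) : G) = (h : G) := fun h => by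
        exact congrArg Subtype.val ((H₀.equivMapOfInjective T.subtype T.subtype_injective).apply_symm_apply h)
      refine ⟨H, fun x hx => ⟨⟨x, hLT (hNL hx)⟩, hNH₀ (Subgroup.mem_subgroupOf.mpr hx), rfl⟩,
        fun h => ψ₀ (eH h), isIrrCharacter_comp_mulEquiv hψ₀ eH, ?_, ?_⟩
      · rw [← hψ, ← indFun_trans hHT, ← hind]
        congr 1
        funext t
        simp only [Cfsg.indFun]
        rw [Nat.card_congr (MulEquiv.subgroupCongr hsub).toEquiv]
        congr 1
        refine Finset.sum_congr rfl fun y _ => ?_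
        by_cases hy : y⁻¹ * t * y ∈ H₀
        · rw [extendByZero_mem _ hy, extendByZero_mem _ (hsub.symm ▸ hy : y⁻¹ * t * y ∈ H.subgroupOf T)]
          exact congrArg ψ₀ (Subtype.ext (Subtype.ext (heH _)))
        · rw [extendByZero_notMem _ hy, extendByZero_notMem _ (hsub.symm ▸ hy : y⁻¹ * t * y ∉ H.subgroupOf T)]
      · convert isIrrCharacter_comp_mulEquiv hirr
          (Subgroup.subgroupOfEquivOfLe (hNL.trans hLT)).symm using 1
        funext x
        exact congrArg ψ₀ (Subtype.ext (Subtype.ext (heH _)))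

/-- Let N be a normal subgroup of the finite group G with G / N solvable, and suppose that for every subgroup H containing N and all subgroups L < K between N and H that are normal in H with no subgroup normal in H strictly between them, the index of L in K is not a perfect square. Then every irreducible character χ of G is induced from an irreducible character ψ of some subgroup H containing N such that the restriction of ψ to N is irreducible. -/
theorem result {G : Type*} [Group G] [Fintype G] (N : Subgroup G) [N.Normal] (hsolv : Group.IsSolvable (G ⧸ N)) (hchief : ∀ (H K L : Subgroup G), N ≤ L → L < K → K ≤ H → (∀ h ∈ H, ∀ k ∈ K, h * k * h⁻¹ ∈ K) → (∀ h ∈ H, ∀ l ∈ L, h * l * h⁻¹ ∈ L) → (∀ M : Subgroup G, L ≤ M → M ≤ K → (∀ h ∈ H, ∀ m ∈ M, h * m * h⁻¹ ∈ M) → M = L ∨ M = K) → ¬ IsSquare (L.relIndex K)) (χ : G → ℂ) (hχ : Cfsg.IsIrrCharacter G χ) : ∃ (H : Subgroup G) (hNH : N ≤ H) (ψ : H → ℂ), Cfsg.IsIrrCharacter H ψ ∧ Cfsg.indFun H ψ = χ ∧ Cfsg.IsIrrCharacter N (fun n : N => ψ ⟨(n :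 G), hNH n.2⟩) := by
  exact key (Nat.card G) N rfl hsolv hchief ⟨χ, hχ⟩

end Cfsg.Agent.S0858
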