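import Cfsg.Statements.S0859
import Cfsg.Agent.Eq.Def_Characters
import Cfsg.Agent.Eq.Def_Solvable
import Cfsg.Agent.Chars.Basic
import Cfsg.Agent.Chars.Induced.Relative
import Cfsg.Agent.Chars.Apps.MonomialGroups
import Cfsg.Agent.Chars.Quasiprimitive.MaximalInduced
import Cfsg.Agent.Constrained.Fitting
import Cfsg.Agent.ClassSizes.TwoSizes
import Cfsg.Agent.SolvableStructure.Schmidt

set_option autoImplicit false
open Cfsg

namespace Cfsg.Agent.S0859

section Aux

open CfsgLib.Chars CfsgLib.Chars.Induced CfsgLib.Chars.Apps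

universe u

/-- All `p`-subgroups commutative. -/
def AbelianPSubgroups (N : Type u) [Group N] : Prop :=
  ∀ (p : ℕ) [Fact p.Prime] (Q : Subgroup N), IsPGroup p Q → ∀ a ∈ Q, ∀ b ∈ Q, a * b = b * a

theorem abelianPSubgroups_of_injective {N N' : Type u} [Group N] [Group N'] (f : N' →* N)
    (hf : Function.Injective f) (h : AbelianPSubgroups N) : AbelianPSubgroups N' := by
  intro p _ Q hQ a ha b hb
  exact hf (by rw [map_mul, map_mul]; exact h p (Q.map f) (hQ.map f) _ ⟨a, ha, rfl⟩ _ ⟨b, hb, rfl⟩)

theorem abelianPSubgroups_of_surjective {N N' : Type u} [Group N] [Finite N] [Group N'] (f : N →* N')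
    (hf : Function.Surjective f) (h : AbelianPSubgroups N) : AbelianPSubgroups N' := by
  intro p _ Q hQ a ha b hb
  haveI : Finite N' := Finite.of_surjective f hf
  obtain ⟨R, hR⟩ := hQ.exists_le_sylow
  obtain ⟨P⟩ := (inferInstance : Nonempty (Sylow p N))
  obtain ⟨g, hg⟩ := MulAction.exists_smul_eq N' (P.mapSurjective hf) R
  obtain ⟨n, rfl⟩ := hf g
  have key : ∀ x ∈ Q, ∃ y ∈ (P : Subgroup N), f (n * y * n⁻¹) = x := by
    intro x hx
    have h1 := hR hx
    rw [← hg, Sylow.coe_subgroup_smul, Subgroup.pointwise_smul_def] at h1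
    obtain ⟨z, hz, rfl⟩ := h1
    obtain ⟨y, hy, rfl⟩ := hz
    exact ⟨y, hy, by simp⟩
  obtain ⟨y, hy, rfl⟩ := key a ha
  obtain ⟨z, hz, rfl⟩ := key b hb
  rw [← map_mul, ← map_mul]
  refine congrArg f ?_
  calc n * y * n⁻¹ * (n * z * n⁻¹) = n * (y * z) * n⁻¹ := by group
    _ = n * (z * y) * n⁻¹ := by rw [h p (P : Subgroup N) P.isPGroup' y hy z hz]
    _ = _ := by group

theorem commute_fitting {N : Type u} [Group N] [Finite N] (h : AbelianPSubgroups N)
    {a b : N} (ha : a ∈ fittingSubgroup N) (hb : b ∈ fittingSubgroup N) : a * b = b * a := by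
  haveI hFn : Group.IsNilpotent (fittingSubgroup N) := CfsgLib.Constrained.isNilpotent_fitting
  suffices key : ∀ x y : fittingSubgroup N, x * y = y * x from
    congrArg Subtype.val (key ⟨a, ha⟩ ⟨b, hb⟩)
  have hab : AbelianPSubgroups (fittingSubgroup N) :=
    abelianPSubgroups_of_injective _ (Subgroup.subtype_injective _) h
  intro x y
  revert x
  suffices hle : (⊤ : Subgroup (fittingSubgroup N)) ≤ CfsgLib.TwoSizes.cen y from
    fun x => CfsgLib.TwoSizes.mem_cen.1 (hle (Subgroup.mem_top x))
  refine CfsgLib.TwoSizes.le_of_forall_pElt fun q hq x _ hx => ?_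
  suffices hle : (⊤ : Subgroup (fittingSubgroup N)) ≤ CfsgLib.TwoSizes.cen x from
    CfsgLib.TwoSizes.mem_cen.2 (CfsgLib.TwoSizes.mem_cen.1 (hle (Subgroup.mem_top y))).symm
  refine CfsgLib.TwoSizes.le_of_forall_pElt fun r hr z _ hz => ?_
  rw [CfsgLib.TwoSizes.mem_cen]
  by_cases hrq : r = q
  · subst hrq
    haveI : Fact r.Prime := ⟨hr⟩
    have hp : ∀ w : fittingSubgroup N, CfsgLib.TwoSizes.IsPElt r w →
        IsPGroup r (Subgroup.zpowers w) := by
      rintro w ⟨k, hk⟩
      obtain ⟨l, -, hl⟩ := (Nat.dvd_prime_pow hr).1 (orderOf_dvd_of_pow_eq_one hk)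
      exact IsPGroup.of_card (n := l) (by rw [Nat.card_zpowers, hl])
    obtain ⟨R1, hR1⟩ := (hp x hx).exists_le_sylow
    obtain ⟨R2, hR2⟩ := (hp z hz).exists_le_sylow
    have hn : (R1 : Subgroup (fittingSubgroup N)).Normal :=
      Sylow.normal_of_normalizerCondition Group.normalizerCondition_of_isNilpotent R1
    haveI := Sylow.unique_of_normal R1 hn
    rw [Subsingleton.elim R2 R1] at hR2
    exact hab r (R1 : Subgroup (fittingSubgroup N)) R1.isPGroup' z (hR2 (Subgroup.mem_zpowers z))
      x (hR1 (Subgroup.mem_zpowers x))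
  · haveI : Fact q.Prime := ⟨hq⟩
    obtain ⟨k, hk⟩ := hx
    obtain ⟨l, -, hl⟩ := (Nat.dvd_prime_pow hq).1 (orderOf_dvd_of_pow_eq_one hk)
    obtain ⟨j, hj⟩ := hz
    exact (CfsgLib.Schmidt.commute_of_nilpotent' hq hl
      ((((Nat.coprime_primes hr hq).2 hrq).pow_left j).coprime_dvd_left
        (orderOf_dvd_of_pow_eq_one hj))).symm.eq

/-- A character with irreducible restriction to a solvable normal subgroup with abelian Sylow subgroups is monomial. -/
theorem monomial_of_restrict : ∀ (n : ℕ) (G : Type u) [Group G] [Fintype G] (N : Subgroup G),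
    N.Normal → Nat.card G = n → Group.IsSolvable N → AbelianPSubgroups N → ∀ χ : IrrCharacter G,
      IsIrrCharacter N (fun x : N => (χ : G → ℂ) x) → IsMonomialFun (χ : G → ℂ) := by
  intro n
  induction n using Nat.strong_induction_on with
  | _ n ih =>
  intro G _ _ N hN hn hsolv hab χ hirr
  classical
  subst hn
  haveI := hN
  haveI := hsolv
  by_cases hker : charKer (χ : G → ℂ) = ⊥
  swap
  · set K := charKer (χ : G → ℂ)
    obtain ⟨ψ, hψ⟩ := exists_inflate_eq K χ le_rfl
    have : Fintype (G ⧸ K) := Fintype.ofFinite _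
    have hval : ∀ g : G, (χ : G → ℂ) g = (ψ : G ⧸ K → ℂ) (QuotientGroup.mk' K g) := fun g =>
      (congrFun (congrArg Subtype.val hψ) g).symm.trans (inflate_apply K ψ g)
    set π := QuotientGroup.mk' K
    set Nb := N.map π
    let f : N →* Nb := π.subgroupMap N
    have hf : Function.Surjective f := π.subgroupMap_surjective N
    have hm := isMonomialFun_comp_mk' K (ih _ (isMonomialFun_of_isNilpotent.card_quotient_lt_card K hker)
      (G ⧸ K) Nb (hN.map π (QuotientGroup.mk'_surjective K)) rfl (solvable_of_surjective hf)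
      (abelianPSubgroups_of_surjective f hf hab) ψ
      (CfsgLib.Chars.Quasiprimitive.isIrrCharacter_of_comp f
        (isCharacter_restrict (isCharacter_coe ψ) Nb) (by
          convert hirr using 1
          funext x
          exact (hval x).symm)))
    rw [show (χ : G → ℂ) = fun g => (ψ : G ⧸ K → ℂ) (π g) from funext hval]
    exact hm
  let θ : IrrCharacter N := ⟨_, hirr⟩
  set F0 := fittingSubgroup N with hF0
  set F := F0.map N.subtype with hF
  have hFN : F ≤ N := Subgroup.map_subtype_le _
  haveI hFn : F.Normal := inferInstance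
  haveI hFc : IsMulCommutative F := ⟨⟨by
    rintro ⟨_, a, ha, rfl⟩ ⟨_, b, hb, rfl⟩
    exact Subtype.ext (congrArg N.subtype (commute_fitting hab ha hb))⟩⟩
  have : Fintype F := Fintype.ofFinite _
  obtain ⟨l0, hl0⟩ := exists_mult_ne_zero (isCharacter_restrict (isCharacter_coe χ) F)
    (fun h0 => map_one_ne_zero χ (congrFun h0 1))
  set T := inertia F (l0 : F → ℂ) with hTdef
  have hFT : F ≤ T := le_inertia (isClassFunction_coe l0)
  by_cases hT : T = ⊤
  · -- `F` is central, so `N` is abelian and `χ` is linear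
    have hres := restrict_eq_of_invariant χ l0 (fun g => mem_inertia.1 (by rw [← hTdef, hT]; exact Subgroup.mem_top g)) hl0
    obtain ⟨l, hl⟩ := exists_monoidHom_of_map_one_eq_one (isCharacter_coe l0)
      (map_one_eq_one_of_isMulCommutative l0)
    obtain ⟨m, ρ, hρ, hχ⟩ := χ.2
    have hm : m ≠ 0 := by
      rintro rfl
      exact map_one_ne_zero χ (by rw [← hχ, Representation.char_one]; simp)
    have hcen : F ≤ Subgroup.center G := by
      intro a ha
      have hnorm : ‖ρ.character a‖ = m := by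
        have h1 := congrFun hres ⟨a, ha⟩
        have h0 := congrFun hres 1
        simp only [Pi.smul_apply, smul_eq_mul, OneMemClass.coe_one] at h0 h1
        rw [hl, map_one, Units.val_one, mul_one] at h0
        rw [hl, ← h0] at h1
        have hu : ‖((l ⟨a, ha⟩ : ℂˣ) : ℂ)‖ = 1 := by
          refine Complex.norm_eq_one_of_pow_eq_one ?_ (orderOf_pos (⟨a, ha⟩ : F)).ne'
          rw [← Units.val_pow_eq_pow_val, ← map_pow, pow_orderOf_eq_one, map_one, Units.val_one]
        rw [hχ]
        show ‖(χ : G → ℂ) a‖ = _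
        rw [h1, norm_mul, hu, mul_one, ← hχ, Representation.char_one]
        simp
      have hsc := rep_eq_smul_of_norm_character_eq ρ hm hnorm
      refine Subgroup.mem_center_iff.2 fun g => ?_
      have h2 : a⁻¹ * g * a * g⁻¹ ∈ charKer (χ : G → ℂ) := by
        rw [← hχ, mem_charKer_iff_rep]
        have hcomm' : ρ g * ρ a = ρ a * ρ g := by rw [hsc]; simp
        rw [map_mul, map_mul, map_mul, mul_assoc (ρ a⁻¹), hcomm', ← mul_assoc, ← map_mul,
          inv_mul_cancel, map_one, one_mul, ← map_mul, mul_inv_cancel, map_one]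
      rw [hker, Subgroup.mem_bot, mul_inv_eq_one, mul_assoc, inv_mul_eq_iff_eq_mul] at h2
      exact h2
    have hNc : IsMulCommutative N := by
      have hall : ∀ x : N, x ∈ F0 := fun x => CfsgLib.Constrained.centralizer_fitting_le
        (Subgroup.mem_centralizer_iff.2 fun y hy => Subtype.ext
          (Subgroup.mem_center_iff.1 (hcen (Subgroup.mem_map_of_mem N.subtype hy)) x).symm)
      exact ⟨⟨fun x y => commute_fitting hab (hall x) (hall y)⟩⟩
    obtain ⟨L, hL⟩ := exists_monoidHom_of_map_one_eq_one (isCharacter_coe χ)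
      (map_one_eq_one_of_isMulCommutative θ)
    rw [show (χ : G → ℂ) = fun g => (L g : ℂ) from funext hL]
    exact isMonomialFun_of_linear L
  · -- Clifford reduction to the inertia group
    have : Fintype T := Fintype.ofFinite _
    obtain ⟨ψ, hψ0, hψ⟩ := exists_indFun_eq hTdef hFT χ hl0
    have hmψ : mult (indFun T (ψ : T → ℂ)) χ ≠ 0 := by
      rw [hψ, mult_irr, if_pos rfl]; exact one_ne_zero
    obtain ⟨-, he⟩ := indFun_eq_of_mult_ne_zero hTdef hFT ψ hψ0 χ hmψ
    have hψ1 : (ψ : T → ℂ) 1 =
        (mult (fun x : F => (χ : G → ℂ) x) l0 : ℂ) := by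
      have h := congrFun (restrict_eq_smul_of_le_inertia hFT le_rfl ψ hψ0) 1
      simp only [map_one, Pi.smul_apply, smul_eq_mul, map_one_eq_one_of_isMulCommutative l0,
        mul_one] at h
      rw [h, he]
    -- the same inside `N`
    set T0 := T.subgroupOf N with hT0
    haveI hF0n : (F.subgroupOf N).Normal := inferInstance
    have : Fintype T0 := Fintype.ofFinite _
    have : Fintype (F.subgroupOf N) := Fintype.ofFinite _
    let e : F.subgroupOf N ≃* F := Subgroup.subgroupOfEquivOfLe hFN
    let l1 : IrrCharacter (F.subgroupOf N) :=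
      ⟨fun x => (l0 : F → ℂ) (e x), isIrrCharacter_comp_mulEquiv l0.2 e⟩
    have hFT0 : F.subgroupOf N ≤ T0 := fun x hx => hFT hx
    have hT1 : T0 = inertia (F.subgroupOf N) (l1 : F.subgroupOf N → ℂ) := by
      ext x
      show (x : G) ∈ inertia F (l0 : F → ℂ) ↔ _
      rw [mem_inertia, mem_inertia]
      constructor
      · intro h
        funext a
        have h1 := congrFun h (e a)
        rw [conjFun_apply] at h1 ⊢
        exact (congrArg (l0 : F → ℂ) (Subtype.ext rfl)).trans h1
      · intro h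
        funext a
        have h1 := congrFun h (e.symm a)
        rw [conjFun_apply] at h1 ⊢
        refine Eq.trans ?_ (h1.trans (congrArg (l0 : F → ℂ) (e.apply_symm_apply a)))
        exact congrArg (l0 : F → ℂ) (Subtype.ext rfl)
    let j : T0 →* T :=
      { toFun := fun x => ⟨((x : N) : G), x.2⟩
        map_one' := rfl
        map_mul' := fun _ _ => rfl }
    have hj : IsCharacter T0 (fun x => (ψ : T → ℂ) (j x)) := isCharacter_comp (isCharacter_coe ψ) j
    have hmult1 : ∀ φ : G → ℂ, mult (fun a : F.subgroupOf N => φ (e a : G)) l1 =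
        mult (fun a : F => φ a) l0 := by
      intro φ
      unfold mult
      rw [← classInner_comp_equiv e (fun a : F => φ a)]
    have hψT0 : mult (fun a : F.subgroupOf N => (ψ : T → ℂ) (j (Subgroup.inclusion hFT0 a))) l1 ≠ 0 := by
      have h1 : mult (fun a : F.subgroupOf N => (ψ : T → ℂ) (Subgroup.inclusion hFT (e a))) l1 =
          mult (fun a : F => (ψ : T → ℂ) (Subgroup.inclusion hFT a)) l0 := by
        unfold mult
        rw [← classInner_comp_equiv e (fun a : F => (ψ : T → ℂ) (Subgroup.inclusion hFT a))]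
      exact fun h0 => hψ0 (h1 ▸ h0)
    obtain ⟨η, hη, hη1⟩ := exists_constituent_over (Subgroup.inclusion hFT0) hj l1 hψT0
    have hηθ : mult (indFun T0 (η : T0 → ℂ)) θ ≠ 0 := by
      rw [mult_indFun_irr]
      have h1 := mult_mul_mult_le_restrict j (isCharacter_restrict (isCharacter_coe χ) T) ψ η
      have h2 : mult (fun t : T => (χ : G → ℂ) t) ψ ≠ 0 := by rw [← mult_indFun_irr]; exact hmψ
      exact ((Nat.mul_pos (Nat.pos_of_ne_zero h2) (Nat.pos_of_ne_zero hη)).trans_le h1).ne'
    obtain ⟨-, hdeg⟩ := indFun_eq_of_mult_ne_zero hT1 hFT0 η hη1 θ hηθ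
    have hη1' : (η : T0 → ℂ) 1 = (ψ : T → ℂ) 1 := by
      have h := congrFun (restrict_eq_smul_of_le_inertia hFT0 hT1.le η hη1) 1
      simp only [map_one, Pi.smul_apply, smul_eq_mul] at h
      rw [show (l1 : F.subgroupOf N → ℂ) 1 = 1 from
        (congrArg (l0 : F → ℂ) (map_one e)).trans (map_one_eq_one_of_isMulCommutative l0), mul_one,
        ← hdeg] at h
      rw [h, hψ1]
      congr 1
      exact hmult1 (χ : G → ℂ)
    -- hence the restriction of `ψ` is irreducible
    obtain ⟨s, hmem, hs⟩ := exists_eq_sum_mult hj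
    have hψeq : (fun x => (ψ : T → ℂ) (j x)) = (η : T0 → ℂ) := by
      choose d hd0 hd using fun ξ : IrrCharacter T0 => exists_pos_natCast_map_one ξ.2
      have hηs : η ∈ s := (hmem η).2 hη
      have hsum : (d η : ℂ) = ∑ ξ ∈ s, (mult (fun x => (ψ : T → ℂ) (j x)) ξ : ℂ) * (d ξ : ℂ) := by
        have h1 := congrFun hs 1
        simp only [map_one, Finset.sum_apply, Pi.smul_apply, smul_eq_mul, hd] at h1
        rw [← h1, ← hd, hη1']
      have hsum' : d η = ∑ ξ ∈ s, mult (fun x => (ψ : T → ℂ) (j x)) ξ * d ξ := by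
        exact_mod_cast hsum
      rw [← Finset.add_sum_erase s _ hηs] at hsum'
      have hge : d η ≤ mult (fun x => (ψ : T → ℂ) (j x)) η * d η :=
        Nat.le_mul_of_pos_left _ (Nat.pos_of_ne_zero hη)
      have hrest : ∑ ξ ∈ s.erase η, mult (fun x => (ψ : T → ℂ) (j x)) ξ * d ξ = 0 := by omega
      have hone : mult (fun x => (ψ : T → ℂ) (j x)) η = 1 :=
        Nat.eq_of_mul_eq_mul_right (hd0 η) (by omega)
      have hempty : s.erase η = ∅ := Finset.eq_empty_of_forall_notMem fun ξ hξ =>
        (Nat.mul_pos (Nat.pos_of_ne_zero ((hmem ξ).1 (Finset.mem_of_mem_erase hξ))) (hd0 ξ)).ne'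
          (Finset.sum_eq_zero_iff.1 hrest ξ hξ)
      rw [hs, ← Finset.add_sum_erase s _ hηs, hempty, Finset.sum_empty, add_zero, hone, Nat.cast_one,
        one_smul]
    have hirr' : IsIrrCharacter (N.subgroupOf T) (fun x : N.subgroupOf T => (ψ : T → ℂ) x) := by
      let k : N.subgroupOf T ≃* T0 :=
        { toFun := fun x => ⟨⟨((x : T) : G), x.2⟩, (x : T).2⟩
          invFun := fun y => ⟨⟨((y : N) : G), y.2⟩, (y : N).2⟩
          left_inv := fun _ => rfl
          right_inv := fun _ => rfl
          map_mul' := fun _ _ => rfl }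
      have h2 := isIrrCharacter_comp_mulEquiv η.2 k
      rw [← hψeq] at h2
      exact h2
    rw [← hψ]
    refine isMonomialFun_indFun (ih _ (isMonomialFun_of_isNilpotent.card_lt_card_of_ne_top T hT) T
      (N.subgroupOf T) inferInstance rfl ?_ ?_ ψ hirr')
    · refine solvable_of_solvable_injective (f := (show N.subgroupOf T →* N from
        { toFun := fun x => (⟨((x : T) : G), x.2⟩ : N), map_one' := rfl, map_mul' := fun _ _ => rfl })) ?_
      intro x y hxy
      exact Subtype.ext (Subtype.ext (congrArg Subtype.val hxy :))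
    · refine abelianPSubgroups_of_injective
        { toFun := fun x => (⟨((x : T) : G), x.2⟩ : N), map_one' := rfl, map_mul' := fun _ _ => rfl }
        ?_ hab
      intro x y hxy
      exact Subtype.ext (Subtype.ext (congrArg Subtype.val hxy :))

end Aux

/-- Let G be a finite solvable group and N a normal subgroup such that for every prime p every Sylow p-subgroup of N is abelian. Suppose every irreducible character of G is induced from an irreducible character of some subgroup containing N whose restriction to N is irreducible. Then every irreducible character of G is induced from a character of degree 1 of some subgroup. -/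
theorem result {G : Type*} [Group G] [Fintype G] [Group.IsSolvable G] (N : Subgroup G) [N.Normal] (hab : ∀ (p : ℕ) [Fact p.Prime] (P : Sylow p N), ∀ a ∈ P, ∀ b ∈ P, a * b = b * a) (hrel : ∀ χ : G → ℂ, Cfsg.IsIrrCharacter G χ → ∃ (H : Subgroup G) (hNH : N ≤ H) (ψ : H → ℂ), Cfsg.IsIrrCharacter H ψ ∧ Cfsg.indFun H ψ = χ ∧ Cfsg.IsIrrCharacter N (fun n : N => ψ ⟨(n : G), hNH n.2⟩)) (χ : G → ℂ) (hχ : Cfsg.IsIrrCharacter G χ) : ∃ (U : Subgroup G) (lam : U → ℂ), Cfsg.IsCharacter U lam ∧ lam 1 = 1 ∧ Cfsg.indFun U lam = χ := by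
  obtain ⟨H, hNH, ψ, hψ, hind, hirr⟩ := hrel χ hχ
  classical
  have : Fintype H := Fintype.ofFinite _
  let e : N.subgroupOf H ≃* N := Subgroup.subgroupOfEquivOfLe hNH
  have hab' : AbelianPSubgroups (N.subgroupOf H) := by
    refine abelianPSubgroups_of_injective e.toMonoidHom e.injective ?_
    intro p _ Q hQ a ha b hb
    obtain ⟨P, hP⟩ := hQ.exists_le_sylow
    exact hab p P a (hP ha) b (hP hb)
  obtain ⟨U, lam, hl⟩ := CfsgLib.Chars.Apps.isMonomialFun_indFun (T := H)
    (monomial_of_restrict _ H (N.subgroupOf H) inferInstance rfl inferInstance hab' ⟨ψ, hψ⟩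
      (CfsgLib.Chars.isIrrCharacter_comp_mulEquiv hirr e))
  refine ⟨U, fun u => (lam u : ℂ), CfsgLib.Chars.isCharacter_of_isIrrCharacter (CfsgLib.Chars.isIrrCharacter_monoidHom lam), by simp, ?_⟩
  exact hl.symm.trans hind

end Cfsg.Agent.S0859
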