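import Cfsg.Statements.S0861
import Mathlib
import Cfsg.Agent.Eq.Def_Characters
import Cfsg.Agent.Chars.Basic
import Cfsg.Agent.Chars.GaloisSum.Basic
import Cfsg.Agent.Chars.GaloisSum.Nonvanishing

set_option autoImplicit false
open Cfsg

namespace Cfsg.Agent.S0861

/-- Let P be a normal abelian Sylow p-subgroup of the finite group G and suppose some element g of P has centralizer exactly P. Then the number of irreducible characters of G is at most the order of P, and if equality holds then G / P is abelian (the commutator subgroup lies in P). -/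
theorem result {G : Type*} [Group G] [Finite G] (p : ℕ) [Fact p.Prime] (P : Sylow p G) [(P : Subgroup G).Normal] (hab : ∀ a ∈ P, ∀ b ∈ P, a * b = b * a) (g : G) (hg : g ∈ P) (hC : Subgroup.centralizer ({g} : Set G) = P) : Nat.card (Cfsg.IrrCharacter G) ≤ Nat.card P ∧ (Nat.card (Cfsg.IrrCharacter G) = Nat.card P → commutator G ≤ P) := by
  classical
  have := Fintype.ofFinite G
  set N := Nat.card G with hN
  let S : Finset G := Finset.univ.filter fun x => ∃ k : ℕ, k.Coprime N ∧ x = g ^ k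
  have hgS : g ∈ S := Finset.mem_filter.mpr ⟨Finset.mem_univ _, 1, by simp⟩
  have hSc : ∀ x ∈ S, ∀ k : ℕ, k.Coprime N → x ^ k ∈ S := by
    intro x hx k hk
    obtain ⟨i, hi, rfl⟩ := (Finset.mem_filter.mp hx).2
    exact Finset.mem_filter.mpr ⟨Finset.mem_univ _, i * k, hi.mul_left hk, by rw [pow_mul]⟩
  have hSP : ∀ x ∈ S, x ∈ (P : Subgroup G) := fun x hx => by
    obtain ⟨i, -, rfl⟩ := (Finset.mem_filter.mp hx).2
    exact Subgroup.pow_mem _ hg i
  obtain ⟨a, ha⟩ := IsPGroup.iff_card.mp P.isPGroup'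
  have hidx : ¬ p ∣ (P : Subgroup G).index := P.not_dvd_index
  have hne : ∀ χ : Cfsg.IrrCharacter G, ∀ x ∈ S, (χ : G → ℂ) x ≠ 0 := fun χ x hx =>
    CfsgLib.Chars.GaloisSum.apply_ne_zero_of_abelian_normal (P : Subgroup G) hab Fact.out hidx χ (hSP x hx)
      (k := a) (by
        rw [← ha]
        exact congrArg Subtype.val (pow_card_eq_one' (x := (⟨x, hSP x hx⟩ : (P : Subgroup G)))))
  have hle : ∀ χ : Cfsg.IrrCharacter G, (S.card : ℝ) ≤ ∑ x ∈ S, ‖(χ : G → ℂ) x‖ ^ 2 := fun χ =>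
    CfsgLib.Chars.GaloisSum.card_le_sum_norm_sq_char (CfsgLib.Chars.isCharacter_coe χ) S hSc (hne χ)
  have hcent : ∀ x ∈ S, Subgroup.centralizer ({x} : Set G) = (P : Subgroup G) := by
    intro x hx
    obtain ⟨i, hi, rfl⟩ := (Finset.mem_filter.mp hx).2
    rw [← hC]
    ext y
    rw [Subgroup.mem_centralizer_singleton_iff, Subgroup.mem_centralizer_singleton_iff]
    constructor
    · intro h
      obtain ⟨l, hl⟩ := exists_pow_eq_self_of_coprime (x := g) (hi.of_dvd_right (orderOf_dvd_natCard g))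
      rw [← hl]
      exact ((show Commute y (g ^ i) from h).pow_right l).eq
    · intro h
      exact ((show Commute y g from h).pow_right i).eq
  have htot : ∑ χ : Cfsg.IrrCharacter G, ∑ x ∈ S, ‖(χ : G → ℂ) x‖ ^ 2
      = (S.card : ℝ) * (Nat.card P : ℝ) := by
    rw [Finset.sum_comm, ← nsmul_eq_mul, ← Finset.sum_const]
    refine Finset.sum_congr rfl fun x hx => ?_
    rw [CfsgLib.Chars.sum_irr_norm_sq x, hcent x hx]
  have hSpos : (0 : ℝ) < S.card := Nat.cast_pos.mpr (Finset.card_pos.mpr ⟨g, hgS⟩)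
  have hk : (Nat.card (Cfsg.IrrCharacter G) : ℝ) * S.card ≤ (Nat.card P : ℝ) * S.card := by
    rw [mul_comm (Nat.card P : ℝ), ← htot, Nat.card_eq_fintype_card, ← Finset.card_univ, ← nsmul_eq_mul,
      ← Finset.sum_const]
    exact Finset.sum_le_sum fun χ _ => hle χ
  refine ⟨by exact_mod_cast le_of_mul_le_mul_right hk hSpos, fun heq => ?_⟩
  have hall : ∀ χ : Cfsg.IrrCharacter G, ‖(χ : G → ℂ) g‖ = 1 := by
    intro χ
    have h1 : ∑ x ∈ S, ‖(χ : G → ℂ) x‖ ^ 2 = (S.card : ℝ) := by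
      refine ((Finset.sum_eq_sum_iff_of_le (s := Finset.univ) fun χ _ => hle χ).mp ?_ χ (Finset.mem_univ _)).symm
      rw [htot, Finset.sum_const, nsmul_eq_mul, Finset.card_univ, ← Nat.card_eq_fintype_card, heq, mul_comm]
    have hpos : ∀ x ∈ S, 0 < ‖(χ : G → ℂ) x‖ ^ 2 := fun x hx => pow_pos (norm_pos_iff.mpr (hne χ x hx)) 2
    have hprod : 1 ≤ ∏ x ∈ S, ‖(χ : G → ℂ) x‖ ^ 2 := by
      rw [Finset.prod_pow]
      exact one_le_pow₀ (CfsgLib.Chars.GaloisSum.one_le_prod_norm_char (CfsgLib.Chars.isCharacter_coe χ) S hSc (hne χ))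
    by_contra hne1
    have hlt : ∑ x ∈ S, Real.log (‖(χ : G → ℂ) x‖ ^ 2) < ∑ x ∈ S, (‖(χ : G → ℂ) x‖ ^ 2 - 1) :=
      Finset.sum_lt_sum (fun x hx => Real.log_le_sub_one_of_pos (hpos x hx)) ⟨g, hgS,
        Real.log_lt_sub_one_of_pos (hpos g hgS) (fun h => hne1
          ((pow_eq_one_iff_of_nonneg (norm_nonneg _) two_ne_zero).mp h))⟩
    rw [← Real.log_prod fun x hx => (hpos x hx).ne', Finset.sum_sub_distrib, h1] at hlt
    simp only [Finset.sum_const, nsmul_eq_mul, mul_one, sub_self] at hlt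
    exact absurd (Real.log_nonneg hprod) (not_le.mpr hlt)
  intro x hx
  by_contra hxP
  apply hxP
  rw [← QuotientGroup.eq_one_iff]
  refine CfsgLib.Chars.eq_one_of_forall_eq fun ψ => ?_
  let χ := CfsgLib.Chars.inflate (P : Subgroup G) ψ
  have h1 : (χ : G → ℂ) g = (χ : G → ℂ) 1 :=
    CfsgLib.Chars.map_eq_map_one_of_mem_charKer (CfsgLib.Chars.le_charKer_inflate (P : Subgroup G) ψ hg)
  have hd : (χ : G → ℂ) 1 = 1 := by
    have h2 := hall χ
    rw [h1, ← CfsgLib.Chars.coe_charDegree, Complex.norm_natCast, Nat.cast_eq_one] at h2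
    rw [← CfsgLib.Chars.coe_charDegree, h2, Nat.cast_one]
  have h3 : (χ : G → ℂ) x = (χ : G → ℂ) 1 :=
    CfsgLib.Chars.map_eq_map_one_of_mem_charKer ((CfsgLib.Chars.commutator_le_charKer_iff χ).mpr hd hx)
  simpa [χ] using h3

end Cfsg.Agent.S0861
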