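import Cfsg.Statements.S0862
import Cfsg.Agent.Eq.Def_Characters
import Cfsg.Agent.Eq.Def_CharExt
import Cfsg.Agent.Chars.Induced.Extension

set_option autoImplicit false
open Cfsg

namespace Cfsg.Agent.S0862

/-- Let N be a normal subgroup of the finite group G and ϑ an irreducible character of N of degree d coprime to the index of N, which is the restriction of some irreducible character of G. Let μ be a character of G of degree 1 whose restriction to N is the determinantal character of ϑ. Then there is exactly one irreducible character χ of G restricting to ϑ whose determinantal character is μ. -/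
theorem result {G : Type*} [Group G] [Finite G] (N : Subgroup G) [N.Normal] (ϑ : N → ℂ) (hϑ : Cfsg.IsIrrCharacter N ϑ) (d : ℕ) (hd : ϑ 1 = d) (hcop : Nat.Coprime N.index d) (hext : ∃ η : G → ℂ, Cfsg.IsIrrCharacter G η ∧ (∀ n : N, η n = ϑ n)) (μ : G → ℂ) (hμ : Cfsg.IsCharacter G μ ∧ μ 1 = 1) (hμN : ∀ n : N, μ n = Cfsg.detChar ϑ n) : ∃! χ : G → ℂ, Cfsg.IsIrrCharacter G χ ∧ (∀ n : N, χ n = ϑ n) ∧ Cfsg.detChar χ = μ := by
  obtain ⟨η, hη, hηN⟩ := hext
  have hηc := CfsgLib.Chars.isCharacter_of_isIrrCharacter hη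
  obtain ⟨δ, hδ⟩ := CfsgLib.Chars.exists_monoidHom_of_map_one_eq_one hμ.1 hμ.2
  have hinv : ∀ g : G, CfsgLib.Chars.Induced.conjFun N g ϑ = ϑ := fun g => by
    rw [← funext hηN]
    exact CfsgLib.Chars.Induced.conjFun_restrict
      (CfsgLib.Chars.isClassFunction_of_isCharacter hηc) g
  obtain ⟨χ, h1, h2⟩ := CfsgLib.Chars.Induced.exists_extension_det ⟨ϑ, hϑ⟩ hinv hd hcop δ
    (fun x => by rw [← hδ, hμN])
  have hdet : Cfsg.detChar (χ : G → ℂ) = μ := funext fun g => by rw [h2, hδ]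
  refine ⟨χ, ⟨χ.2, h1, hdet⟩, fun ξ hξ => congrArg Subtype.val
    (CfsgLib.Chars.Induced.extension_unique (θ := ⟨ϑ, hϑ⟩) hd hcop ⟨ξ, hξ.1⟩ χ hξ.2.1 h1
      (hξ.2.2.trans hdet.symm))⟩

end Cfsg.Agent.S0862
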