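import Cfsg.Statements.S0864
import Cfsg.Agent.Eq.Def_Characters
import Cfsg.Agent.Chars.Basic.Linear
import Mathlib.GroupTheory.Transfer

set_option autoImplicit false
open Cfsg

namespace Cfsg.Agent.S0864

/-- Let N be a normal subgroup of the finite group G and λ a character of N of degree 1 invariant under conjugation by G. Suppose that for every prime p dividing the order of λ (in the group of functions under pointwise multiplication) there is a subgroup H containing N, of index prime to p and with the index of N in H a power of p, together with a character of H of degree 1 restricting to λ. Then λ is the restriction of a character of G of degree 1. -/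
theorem result {G : Type*} [Group G] [Finite G] (N : Subgroup G) [hN : N.Normal] (lam : N → ℂ) (hlam : Cfsg.IsCharacter N lam ∧ lam 1 = 1) (hinv : ∀ (g : G) (n : N), lam ⟨g * n * g⁻¹, hN.conj_mem (n : G) n.2 g⟩ = lam n) (hsyl : ∀ p : ℕ, p.Prime → p ∣ orderOf lam → ∃ (H : Subgroup G) (hNH : N ≤ H) (ν : H → ℂ), Nat.Coprime H.index p ∧ (∃ k : ℕ, N.relIndex H = p ^ k) ∧ Cfsg.IsCharacter H ν ∧ ν 1 = 1 ∧ ∀ n : N, ν ⟨(n : G), hNH n.2⟩ = lam n) : ∃ μ : G → ℂ, Cfsg.IsCharacter G μ ∧ μ 1 = 1 ∧ ∀ n : N, μ n = lam n := by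
  classical
  obtain ⟨l, hl⟩ := CfsgLib.Chars.exists_monoidHom_of_map_one_eq_one hlam.1 hlam.2
  have hlord : orderOf lam = orderOf l := by
    let ev : (N →* ℂˣ) →* (N → ℂ) :=
      { toFun := fun m n => (m n : ℂ)
        map_one' := by funext n; simp
        map_mul' := fun a b => by funext n; simp }
    have hev : Function.Injective ev := fun a b hab =>
      MonoidHom.ext fun n => Units.ext (congrFun hab n)
    rw [← orderOf_injective ev hev l]
    exact congrArg orderOf (funext hl)
  let res : (G →* ℂˣ) →* (N →* ℂˣ) :=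
    { toFun := fun m => m.comp N.subtype
      map_one' := rfl
      map_mul' := fun a b => rfl }
  suffices hmem : l ∈ res.range by
    obtain ⟨m, hm⟩ := hmem
    refine ⟨fun g => (m g : ℂ), (CfsgLib.Chars.isCharacter_coe (CfsgLib.Chars.linChar m)), by simp, fun n => ?_⟩
    rw [hl n, ← hm]
    rfl
  by_contra hnot
  haveI : res.range.Normal :=
    ⟨fun a ha b => by rwa [mul_comm b a, mul_assoc, mul_inv_cancel, mul_one]⟩
  set d := orderOf (QuotientGroup.mk l : (N →* ℂˣ) ⧸ res.range) with hd
  have hd1 : d ≠ 1 := fun h => hnot ((QuotientGroup.eq_one_iff l).mp (orderOf_eq_one_iff.mp h))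
  obtain ⟨p, hp, hpd⟩ := Nat.exists_prime_and_dvd hd1
  have hdl : d ∣ orderOf l := orderOf_map_dvd (QuotientGroup.mk' res.range) l
  obtain ⟨H, hNH, ν, hcop, -, hνc, hν1, hνN⟩ := hsyl p hp (hlord ▸ hpd.trans hdl)
  obtain ⟨v, hv⟩ := CfsgLib.Chars.exists_monoidHom_of_map_one_eq_one hνc hν1
  have hvN : ∀ (n : G) (hn : n ∈ N), v ⟨n, hNH hn⟩ = l ⟨n, hn⟩ := fun n hn =>
    Units.ext (by rw [← hv, ← hl]; exact hνN ⟨n, hn⟩)
  have hpow : l ^ H.index ∈ res.range := by
    refine ⟨v.transfer, MonoidHom.ext fun n => ?_⟩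
    show v.transfer (n : G) = (l n) ^ H.index
    haveI : Fintype (G ⧸ H) := Fintype.ofFinite _
    haveI : Fintype (Quotient (MulAction.orbitRel (Subgroup.zpowers (n : G)) (G ⧸ H))) :=
      Fintype.ofFinite _
    rw [MonoidHom.transfer_eq_prod_quotient_orbitRel_zpowers_quot]
    rw [Subgroup.index_eq_sum_minimalPeriod H (n : G), ← Finset.prod_pow_eq_pow_sum]
    refine Fintype.prod_congr _ _ fun q => ?_
    have hmemN : q.out.out⁻¹ * (n : G) ^ Function.minimalPeriod ((n : G) • ·) q.out * q.out.out ∈ N := by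
      simpa using hN.conj_mem _ (pow_mem n.2 _) q.out.out⁻¹
    rw [hvN _ hmemN, ← map_pow]
    refine Units.ext ?_
    rw [← hl, ← hl]
    have h := hinv q.out.out⁻¹ (n ^ Function.minimalPeriod ((n : G) • ·) q.out)
    simpa using h
  have hdvd : d ∣ H.index := orderOf_dvd_of_pow_eq_one (by
    rw [← QuotientGroup.mk_pow, QuotientGroup.eq_one_iff]
    exact hpow)
  exact hp.ne_one (Nat.eq_one_of_dvd_coprimes hcop (hpd.trans hdvd) dvd_rfl)

end Cfsg.Agent.S0864
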