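import Cfsg.Statements.S0865
import Cfsg.Agent.Eq.Def_Characters
import Cfsg.Agent.Chars.Induced.Ito

set_option autoImplicit false
open Cfsg

namespace Cfsg.Agent.S0865

/-- Let N be a normal subgroup of the finite group G and λ a character of N of degree 1, invariant under conjugation by G, whose order (under pointwise multiplication) is coprime to the index of N. Then there is a character μ of G of degree 1 restricting to λ with the same order as λ, and μ is the only degree-1 character of G restricting to λ whose order is coprime to the index of N. -/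
theorem result {G : Type*} [Group G] [Finite G] (N : Subgroup G) [hN : N.Normal] (lam : N → ℂ) (hlam : Cfsg.IsCharacter N lam ∧ lam 1 = 1) (hinv : ∀ (g : G) (n : N), lam ⟨g * n * g⁻¹, hN.conj_mem (n : G) n.2 g⟩ = lam n) (hcop : Nat.Coprime N.index (orderOf lam)) : ∃ μ : G → ℂ, (Cfsg.IsCharacter G μ ∧ μ 1 = 1 ∧ (∀ n : N, μ n = lam n) ∧ orderOf μ = orderOf lam) ∧ ∀ μ' : G → ℂ, Cfsg.IsCharacter G μ' ∧ μ' 1 = 1 → (∀ n : N, μ' n = lam n) → Nat.Coprime N.index (orderOf μ') → μ' = μ := by
  obtain ⟨l, hl⟩ := CfsgLib.Chars.exists_monoidHom_of_map_one_eq_one hlam.1 hlam.2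
  have ho : ∀ {H : Type _} [Group H] (m : H →* ℂˣ),
      orderOf (fun g => (m g : ℂ)) = orderOf m := fun m =>
    orderOf_injective (CfsgLib.Chars.Induced.unitsHomToFun _)
      CfsgLib.Chars.Induced.unitsHomToFun_injective m
  have hlo : orderOf lam = orderOf l := by rw [show lam = fun n => (l n : ℂ) from funext hl, ho]
  obtain ⟨δ, hδ, hδo⟩ := CfsgLib.Chars.Induced.exists_linear_extension l (fun g x => Units.ext (by
      rw [← hl, ← hl, ← hinv g x]
      exact congrArg lam (Subtype.ext (by simp)))) (by rwa [← hlo])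
  refine ⟨fun g => (δ g : ℂ), ⟨CfsgLib.Chars.isCharacter_coe (CfsgLib.Chars.linChar δ), by simp,
    fun n => by simp [hδ, hl], by rw [ho, hδo, hlo]⟩, fun μ' hμ' hμN hcop' => ?_⟩
  obtain ⟨δ', hδ'⟩ := CfsgLib.Chars.exists_monoidHom_of_map_one_eq_one hμ'.1 hμ'.2
  have hμo : orderOf μ' = orderOf δ' := by rw [show μ' = fun g => (δ' g : ℂ) from funext hδ', ho]
  have hagree : ∀ x : N, δ' (x : G) = δ x := fun x => Units.ext (by
    rw [← hδ', hμN, hδ, hl])
  have hpow := CfsgLib.Chars.Induced.pow_index_eq_of_agree δ' δ hagree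
  funext g
  rw [hδ']
  congr 1
  have h3 : Nat.Coprime N.index (orderOf δ' * orderOf δ) :=
    Nat.Coprime.mul_right (by rwa [← hμo]) (by rwa [hδo, ← hlo])
  have h1 : (δ' g * (δ g)⁻¹) ^ N.index = 1 := by
    rw [mul_pow, ← MonoidHom.pow_apply, hpow, MonoidHom.pow_apply, ← mul_pow, mul_inv_cancel,
      one_pow]
  have h2 : (δ' g * (δ g)⁻¹) ^ (orderOf δ' * orderOf δ) = 1 := by
    rw [mul_pow, inv_pow, pow_mul, ← MonoidHom.pow_apply, pow_orderOf_eq_one, MonoidHom.one_apply,
      one_pow, one_mul, mul_comm (orderOf δ'), pow_mul, ← MonoidHom.pow_apply δ, pow_orderOf_eq_one,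
      MonoidHom.one_apply, one_pow, inv_one]
  have h4 := pow_gcd_eq_one.2 ⟨h1, h2⟩
  rwa [h3, pow_one, mul_inv_eq_one] at h4

end Cfsg.Agent.S0865
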