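import Cfsg.Statements.S0868
import Cfsg.Agent.Eq.Def_Characters
import Cfsg.Agent.Chars.Induced.Ito
import Cfsg.Agent.Chars.Induced.Relative

set_option autoImplicit false
open scoped ComplexConjugate
open Cfsg

namespace Cfsg.Agent.S0868

/-- Let N be a normal subgroup of the finite group G, χ an irreducible character of G whose restriction ϑ to N is irreducible, and ψ an irreducible character of G. Define η on G by η g = (1 / order of N) * Σ over n in N of ψ (n * g) * conj (χ (n * g)). Then: if the restriction of ψ to N has nonzero inner product with ϑ, η is an irreducible character of G; if that inner product is zero, η vanishes identically; and if ψ = χ then η is identically 1. -/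
theorem result {G : Type*} [Group G] [Fintype G] (N : Subgroup G) [N.Normal] [Fintype N] (χ : G → ℂ) (hχ : Cfsg.IsIrrCharacter G χ) (hχN : Cfsg.IsIrrCharacter N (fun n : N => χ n)) (ψ : G → ℂ) (hψ : Cfsg.IsIrrCharacter G ψ) (η : G → ℂ) (hη : η = fun g => (Nat.card N : ℂ)⁻¹ * ∑ n : N, ψ ((n : G) * g) * conj (χ ((n : G) * g))) : (Cfsg.classInner (fun n : N => ψ n) (fun n : N => χ n) ≠ 0 → Cfsg.IsIrrCharacter G η) ∧ (Cfsg.classInner (fun n : N => ψ n) (fun n : N => χ n) = 0 → η = 0) ∧ (ψ = χ → η = fun _ => 1) := by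
  classical
  let χ' : IrrCharacter G := ⟨χ, hχ⟩
  let θ' : IrrCharacter N := ⟨fun n : N => χ n, hχN⟩
  let ψ' : IrrCharacter G := ⟨ψ, hψ⟩
  have hm : CfsgLib.Chars.Induced.mult (fun n : N => (ψ' : G → ℂ) n) (θ' : N → ℂ) ≠ 0 ↔
      Cfsg.classInner (fun n : N => ψ n) (fun n : N => χ n) ≠ 0 :=
    CfsgLib.Chars.Induced.mult_ne_zero_iff
      (CfsgLib.Chars.isCharacter_restrict (CfsgLib.Chars.isCharacter_coe ψ') N) θ'
  subst hη
  refine ⟨fun h => ?_, fun h => ?_, fun h => ?_⟩
  · obtain ⟨β, hβ⟩ := CfsgLib.Chars.Induced.gallagher_exists χ' θ' (fun _ => rfl) ψ' (hm.2 h)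
    convert CfsgLib.Chars.Induced.isIrrCharacter_quotient_lift β using 1
    funext g
    rw [CfsgLib.Chars.Induced.avg_mul_conj_eq_mul χ' θ' (fun _ => rfl) β ψ hβ g]
  · funext g
    refine CfsgLib.Chars.Induced.avg_mul_conj_eq_zero χ' θ' (fun _ => rfl) ψ' ?_ g
    exact fun h' => (hm.1 h') h
  · subst h
    funext g
    exact CfsgLib.Chars.Induced.avg_norm_sq χ' θ' (fun _ => rfl) g

end Cfsg.Agent.S0868
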