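import Mathlib
import Cfsg.Statements.S0869

set_option autoImplicit false
open Cfsg

namespace Cfsg.Agent.S0869

/-- Let S be a nonempty finite type and R an additive subgroup of the integer-valued functions on S that is closed under pointwise multiplication. If the constant function 1 is not in R, then there exist a point x of S and a prime p such that p divides f x for every f in R. -/
theorem result {S : Type*} [Finite S] [Nonempty S] (R : AddSubgroup (S → ℤ)) (hmul : ∀ f ∈ R, ∀ g ∈ R, f * g ∈ R) (h1 : (1 : S → ℤ) ∉ R) : ∃ (x : S) (p : ℕ), p.Prime ∧ ∀ f ∈ R, (p : ℤ) ∣ f x := by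
  classical
  have := Fintype.ofFinite S
  by_contra hcon
  push Not at hcon
  apply h1
  have hone : ∀ x : S, ∃ f ∈ R, f x = 1 := by
    intro x
    let I : AddSubgroup ℤ := R.map (Pi.evalAddMonoidHom (fun _ : S => ℤ) x)
    obtain ⟨d, hd⟩ := Int.subgroup_cyclic I
    rw [← AddSubgroup.zmultiples_eq_closure] at hd
    have hu : d.natAbs = 1 := by
      by_contra hne
      obtain ⟨p, hp, hpd⟩ := Nat.exists_prime_and_dvd hne
      obtain ⟨f, hf, hnd⟩ := hcon x p hp
      apply hnd
      have hfI : f x ∈ I := ⟨f, hf, rfl⟩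
      rw [hd, Int.mem_zmultiples_iff] at hfI
      exact (Int.natCast_dvd.mpr hpd).trans hfI
    have : (1 : ℤ) ∈ I := by
      rw [hd, Int.mem_zmultiples_iff]
      exact Int.natAbs_dvd.mp (by simp [hu])
    obtain ⟨f, hf, hf1⟩ := this
    exact ⟨f, hf, hf1⟩
  choose f hf hf1 using hone
  have key : ∀ s : Finset S, ∃ g ∈ R, ∀ x ∈ s, g x = 1 := by
    intro s
    induction s using Finset.induction_on with
    | empty => exact ⟨0, R.zero_mem, by simp⟩
    | insert a s ha ih =>
      obtain ⟨g, hg, hg1⟩ := ih
      refine ⟨f a + g - f a * g, R.sub_mem (R.add_mem (hf a) hg) (hmul _ (hf a) _ hg), ?_⟩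
      intro x hx
      rcases Finset.mem_insert.mp hx with rfl | hx
      · simp [hf1 x]
      · simp [hg1 x hx]
  obtain ⟨g, hg, hg1⟩ := key Finset.univ
  have : g = 1 := funext fun x => hg1 x (Finset.mem_univ x)
  exact this ▸ hg

end Cfsg.Agent.S0869
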