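import Mathlib
import Cfsg.Statements.S0873

set_option autoImplicit false
open Cfsg

namespace Cfsg.Agent.S0873

/-- Let C be a normal subgroup of the finite group G of order prime to p and P a p-subgroup with C ⊔ P = G. Let λ be a character of C of degree 1 invariant under conjugation by G and equal to 1 at every element of C centralized by P. Then λ is identically 1. -/
theorem result {G : Type*} [Group G] [Finite G] (p : ℕ) [Fact p.Prime] (C P : Subgroup G) [hC : C.Normal] (hP : IsPGroup p P) (hcop : Nat.Coprime (Nat.card C) p) (hCP : C ⊔ P = ⊤) (lam : C → ℂ) (hlam : Cfsg.IsCharacter C lam ∧ lam 1 = 1) (hinv : ∀ (g : G) (c : C), lam ⟨g * c * g⁻¹, hC.conj_mem (c : G) c.2 g⟩ = lam c) (hker : ∀ c : C, (c : G) ∈ Subgroup.centralizer (P : Set G) → lam c = 1) : lam = fun _ => 1 := by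
  classical
  obtain ⟨⟨m, ρ, hρ⟩, hl1⟩ := hlam
  have hm : m = 1 := by
    have := congrFun hρ 1
    rw [hl1, Representation.char_one, Module.finrank_fin_fun] at this
    exact_mod_cast this
  subst hm
  have hcoe : ∀ c : C, lam c = LinearMap.toMatrix' (ρ c) 0 0 := by
    intro c
    rw [← hρ]
    simp [Representation.character, LinearMap.trace_eq_matrix_trace ℂ (Pi.basisFun ℂ (Fin 1)),
      LinearMap.toMatrix_eq_toMatrix', Matrix.trace_fin_one, LinearMap.toMatrix'_apply]
  have hmul : ∀ a b : C, lam (a * b) = lam a * lam b := by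
    intro a b
    simp only [hcoe, map_mul, LinearMap.toMatrix'_mul]
    simp [Matrix.mul_apply]
  funext c
  -- the fibre through c is stable under conjugation by P
  let F := {x : C // lam x = lam c}
  letI : MulAction P F :=
    { smul := fun g x => ⟨⟨(g : G) * x.1 * (g : G)⁻¹, hC.conj_mem _ x.1.2 _⟩,
        (hinv (g : G) x.1).trans x.2⟩
      one_smul := fun x => by
        apply Subtype.ext; apply Subtype.ext
        show ((1 : P) : G) * _ * _ = _
        simp
      mul_smul := fun g h x => by
        apply Subtype.ext; apply Subtype.ext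
        show ((g * h : P) : G) * _ * _ = (g : G) * ((h : G) * _ * _) * _
        simp [mul_assoc] }
  let K : Subgroup C :=
    { carrier := {x | lam x = 1}
      one_mem' := hl1
      mul_mem' := fun {a b} ha hb => by simp only [Set.mem_setOf_eq] at *; rw [hmul, ha, hb, mul_one]
      inv_mem' := fun {a} ha => by
        simp only [Set.mem_setOf_eq] at *
        have := hmul a⁻¹ a
        rwa [inv_mul_cancel, hl1, ha, mul_one, eq_comm] at this }
  have hcard : Nat.card F = Nat.card K := by
    refine Nat.card_congr
      { toFun := fun x => ⟨c⁻¹ * x.1, ?_⟩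
        invFun := fun x => ⟨c * x.1, by rw [hmul, show lam x.1 = 1 from x.2, mul_one]⟩
        left_inv := fun x => by simp
        right_inv := fun x => by simp }
    show lam (c⁻¹ * x.1) = 1
    rw [hmul, x.2, ← hmul, inv_mul_cancel, hl1]
  have hnd : ¬ p ∣ Nat.card F := by
    rw [hcard]
    intro hd
    exact (Fact.out : p.Prime).ne_one
      (Nat.eq_one_of_dvd_coprimes hcop (hd.trans (Subgroup.card_subgroup_dvd_card K)) dvd_rfl)
  obtain ⟨x, hx⟩ := hP.nonempty_fixed_point_of_prime_not_dvd_card F hnd
  rw [← x.2]
  apply hker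
  rw [Subgroup.mem_centralizer_iff]
  intro g hg
  have h' := congrArg (fun z : F => ((z.1 : C) : G)) (hx ⟨g, hg⟩)
  change g * (x.1 : G) * g⁻¹ = (x.1 : G) at h'
  exact mul_inv_eq_iff_eq_mul.mp h'

end Cfsg.Agent.S0873
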