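import Mathlib
import Cfsg.Statements.S0876
import Cfsg.Agent.Eq.Def_Blocks
import Cfsg.Agent.Blocks.LocalRing
import Cfsg.Agent.Chars.Brauer.PiPart

set_option autoImplicit false
open Cfsg

namespace Cfsg.Agent.S0876

variable {G : Type*} [Group G] [Finite G]

/-- A character value as an algebraic integer. -/
noncomputable def val (χ : Cfsg.IrrCharacter G) (g : G) : AlgInt :=
  ⟨(χ : G → ℂ) g, CfsgLib.Chars.isIntegral_apply (CfsgLib.Chars.isCharacter_coe χ) g⟩

theorem val_pow_congr {p : ℕ} [Fact p.Prime] (M : Ideal AlgInt) [CharP (AlgInt ⧸ M) p]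
    (χ : Cfsg.IrrCharacter G) (g : G) (k : ℕ) :
    Ideal.Quotient.mk M (val χ (g ^ p ^ k)) = (Ideal.Quotient.mk M (val χ g)) ^ p ^ k := by
  classical
  obtain ⟨s, hs1, -, hs⟩ := CfsgLib.Chars.exists_roots (CfsgLib.Chars.isCharacter_coe χ) g
  have hint : ∀ z ∈ s, IsIntegral ℤ z := fun z hz =>
    IsIntegral.of_pow (orderOf_pos g) (by rw [hs1 z hz]; exact isIntegral_one)
  let s' : Multiset AlgInt := s.attach.map fun z => ⟨z.1, hint z.1 z.2⟩
  have hs' : ∀ j : ℕ, val χ (g ^ j) = (s'.map (· ^ j)).sum := by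
    intro j
    apply Subtype.ext
    show (χ : G → ℂ) (g ^ j) = AlgInt.val ((s'.map (· ^ j)).sum)
    rw [map_multiset_sum, Multiset.map_map, hs j, Multiset.map_map]
    conv_lhs => rw [← Multiset.attach_map_val s, Multiset.map_map]
    rfl
  have h1 : val χ g = s'.sum := by simpa using hs' 1
  rw [h1, hs' (p ^ k)]
  clear h1 hs'
  induction s' using Multiset.induction_on with
  | empty => simp [zero_pow (pow_ne_zero k (Nat.Prime.ne_zero (Fact.out : p.Prime)))]
  | cons z t ih =>
    rw [Multiset.map_cons, Multiset.sum_cons, Multiset.sum_cons, map_add, map_add, ih, map_pow,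
      add_pow_char_pow]

/-- Let G be a finite group, p a prime and M a maximal ideal of the ring of algebraic integers containing p. Let x, y be elements with p-parts a and b (so a⁻¹ * x and b⁻¹ * y are their p-regular parts). Then a⁻¹ * x and b⁻¹ * y are conjugate in G if and only if, for every irreducible character χ, the difference χ x - χ y lies in the local ideal at M. -/
theorem result {G : Type*} [Group G] [Finite G] (p : ℕ) (M : Ideal Cfsg.AlgInt) (hM : Cfsg.IsPModular p M) (x y a b : G) (ha : Cfsg.IsPPart p x a) (hb : Cfsg.IsPPart p y b) : IsConj (a⁻¹ * x) (b⁻¹ * y) ↔ ∀ χ : Cfsg.IrrCharacter G, Cfsg.MemLocalIdeal M ((χ : G → ℂ) x - (χ : G → ℂ) y) := by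
  classical
  obtain ⟨hp, hmax, hpM⟩ := hM
  have : Fact p.Prime := ⟨hp⟩
  have := hmax
  letI : Field (AlgInt ⧸ M) := Ideal.Quotient.field M
  have : CharP (AlgInt ⧸ M) p := (CharP.charP_iff_prime_eq_zero hp).mpr (by
    rw [← map_natCast (Ideal.Quotient.mk M)]
    exact Ideal.Quotient.eq_zero_iff_mem.mpr hpM)
  have hlocal : ∀ (χ : Cfsg.IrrCharacter G) (u v : G),
      Cfsg.MemLocalIdeal M ((χ : G → ℂ) u - (χ : G → ℂ) v) ↔
        Ideal.Quotient.mk M (val χ u) = Ideal.Quotient.mk M (val χ v) := by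
    intro χ u v
    rw [Ideal.Quotient.eq, ← CfsgLib.Blocks.memLocalIdeal_coe_iff]
    simp [val]
  -- an element is congruent to its regular part
  have hreg : ∀ z c : G, Cfsg.IsPPart p z c → ∀ χ : Cfsg.IrrCharacter G,
      Ideal.Quotient.mk M (val χ z) = Ideal.Quotient.mk M (val χ (c⁻¹ * z)) := by
    intro z c ⟨w, hw, hcomm, ⟨k, hk⟩, _⟩ χ
    have hcw : c⁻¹ * z = w := by rw [← hw, inv_mul_cancel_left]
    have hpow : z ^ p ^ k = (c⁻¹ * z) ^ p ^ k := by
      rw [hcw, ← hw, hcomm.mul_pow, ← hk, pow_orderOf_eq_one, one_mul]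
    apply iterateFrobenius_inj (AlgInt ⧸ M) p k
    rw [iterateFrobenius_def, iterateFrobenius_def, ← val_pow_congr, ← val_pow_congr, hpow]
  constructor
  · intro hc χ
    rw [hlocal, hreg x a ha, hreg y b hb]
    congr 1
    exact Subtype.ext (CfsgLib.Chars.eq_of_isConj (CfsgLib.Chars.isClassFunction_coe χ) hc)
  · intro h
    have := Fintype.ofFinite G
    obtain ⟨ν, n, hn, hcard⟩ := Nat.exists_eq_pow_mul_and_not_dvd
      (Nat.card_pos (α := G)).ne' p hp.ne_one
    have hcop : Nat.Coprime (p ^ ν) n :=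
      Nat.Coprime.pow_left ν ((hp.coprime_iff_not_dvd).mpr hn)
    have hG : Nat.card G ∣ p ^ ν * n := hcard ▸ dvd_rfl
    have hpart : ∀ z c : G, Cfsg.IsPPart p z c →
        z ^ CfsgLib.Chars.Brauer.piExp hcop = c⁻¹ * z := by
      intro z c ⟨w, hw, hcomm, ⟨k, hk⟩, hw'⟩
      have hcw : c⁻¹ * z = w := by rw [← hw, inv_mul_cancel_left]
      rw [hcw, ← hw, hcomm.mul_pow,
        CfsgLib.Chars.Brauer.pow_piExp_of_pow_left hcop (CfsgLib.Chars.Brauer.pow_left_of_coprime hG
          (hk ▸ Nat.Coprime.pow_left k ((hp.coprime_iff_not_dvd).mpr hn))),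
        CfsgLib.Chars.Brauer.pow_piExp_of_pow_right hcop
          (CfsgLib.Chars.Brauer.pow_right_of_coprime hG
            (((hp.coprime_iff_not_dvd).mpr hw').symm.pow_right ν)), one_mul]
    obtain ⟨c, hc, heq⟩ := CfsgLib.Chars.Brauer.mem_intComb.mp
      (CfsgLib.Chars.Brauer.piSection_mem_intComb hcop hG (a⁻¹ * x))
    by_contra hne
    have hx := congrFun heq x
    have hy := congrFun heq y
    simp only [Finset.sum_apply, Pi.smul_apply, smul_eq_mul] at hx hy
    rw [hpart x a ha, if_pos (IsConj.refl _)] at hx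
    rw [hpart y b hb, if_neg (fun h' => hne h'.symm)] at hy
    have h2 : Cfsg.MemLocalIdeal M ((n : ℂ) - 0) := by
      rw [hx, hy, ← Finset.sum_sub_distrib]
      refine CfsgLib.Blocks.memLocalIdeal_sum _ fun χ _ => ?_
      rw [← mul_sub]
      exact CfsgLib.Blocks.memLocalIdeal_mul_left
        (CfsgLib.Blocks.memLocalRing_of_isIntegral (hc χ)) (h χ)
    rw [sub_zero] at h2
    exact hn ((CfsgLib.Blocks.memLocalIdeal_natCast_iff ⟨hp, hmax, hpM⟩ n).mp h2)

end Cfsg.Agent.S0876
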