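import Cfsg.Statements.S0878
import Cfsg.Agent.Zassenhaus.Counting

set_option autoImplicit false
open Cfsg

namespace Cfsg.Agent.S0878

/-- Let G be a Zassenhaus group on the finite set Ω, a a point, and let H be the subgroup of the stabilizer of a consisting of the identity and the elements fixing no point other than a (given here as a subgroup of the stabilizer of order one less than the number of points whose non-identity elements fix only a; it is the Frobenius kernel of the stabilizer). Then an element outside the stabilizer of a conjugates no non-identity element of H into H, and the normalizer of H is exactly the stabilizer of a. -/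
theorem result {G Ω : Type*} [Group G] [Finite G] [MulAction G Ω] [Fintype Ω] (hZ : Cfsg.IsZassenhausGroup G Ω) (a : Ω) (H : Subgroup G) (hHa : H ≤ MulAction.stabilizer G a) (hHcard : Nat.card H + 1 = Fintype.card Ω) (hHfix : ∀ u ∈ H, u ≠ 1 → ∀ c : Ω, u • c = c → c = a) : (∀ g : G, g ∉ MulAction.stabilizer G a → ∀ u ∈ H, g * u * g⁻¹ ∈ H → u = 1) ∧ Subgroup.normalizer (H : Set G) = MulAction.stabilizer G a := by
  classical
  open CfsgLib.Zassenhaus MulAction in
  exact (by
  have h3 := three_le_card hZ
  have key : ∀ g : G, ∀ u ∈ H, g * u * g⁻¹ ∈ H → u ≠ 1 → g • a = a := by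
    intro g u hu hgu hu1
    have hne : g * u * g⁻¹ ≠ 1 := fun h => hu1 (conj_eq_one_iff.mp h)
    refine hHfix _ hgu hne _ ?_
    simp [mul_smul, mem_stabilizer_iff.mp (hHa hu)]
  refine ⟨fun g hg u hu hgu => ?_, ?_⟩
  · by_contra hu1
    exact hg (mem_stabilizer_iff.mpr (key g u hu hgu hu1))
  · apply le_antisymm
    · intro g hg
      obtain ⟨u, hu, hu1⟩ : ∃ u ∈ H, u ≠ 1 := by
        by_contra h
        push Not at h
        rw [(Subgroup.eq_bot_iff_forall H).mpr h, Subgroup.card_bot] at hHcard
        omega
      exact mem_stabilizer_iff.mpr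
        (key g u hu ((Subgroup.mem_normalizer_iff.mp hg u).mp hu) hu1)
    · intro g hg
      rw [Subgroup.mem_normalizer_iff]
      intro u
      refine ⟨conj_mem_kernel hZ hHa hHcard hHfix hg, fun hu => ?_⟩
      have := conj_mem_kernel hZ hHa hHcard hHfix (g := g⁻¹)
        (mem_stabilizer_iff.mp (Subgroup.inv_mem _ hg)) hu
      simpa [mul_assoc] using this)

end Cfsg.Agent.S0878
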