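import Cfsg.Statements.S0879
import Cfsg.Agent.Zassenhaus.Counting

set_option autoImplicit false
open Cfsg

namespace Cfsg.Agent.S0879

/-- Let G be a Zassenhaus group on the finite set Ω and E the stabilizer of two distinct points a, b. Then an element outside the normalizer of E conjugates no non-identity element of E into E, and E has index 2 in its normalizer. -/
theorem result {G Ω : Type*} [Group G] [Finite G] [MulAction G Ω] [Fintype Ω] (hZ : Cfsg.IsZassenhausGroup G Ω) {a b : Ω} (hab : a ≠ b) : (∀ g : G, g ∉ Subgroup.normalizer ((MulAction.stabilizer G a ⊓ MulAction.stabilizer G b : Subgroup G) : Set G) → ∀ x ∈ (MulAction.stabilizer G a ⊓ MulAction.stabilizer G b : Subgroup G), g * x * g⁻¹ ∈ (MulAction.stabilizer G a ⊓ MulAction.stabilizer G b : Subgroup G) → x = 1) ∧ ((MulAction.stabilizer G a ⊓ MulAction.stabilizer G b : Subgroup G).subgroupOf (Subgroup.normalizer ((MulAction.stabilizer G a ⊓ MulAction.stabilizer G b : Subgroup G) : Set G))).index = 2 := by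
  classical
  open CfsgLib.Zassenhaus MulAction in
  exact (by
  set E : Subgroup G := MulAction.stabilizer G a ⊓ MulAction.stabilizer G b with hE
  have swap_or : ∀ g : G, ∀ x ∈ E, x ≠ 1 → g * x * g⁻¹ ∈ E →
      (g • a = a ∧ g • b = b) ∨ (g • a = b ∧ g • b = a) := by
    intro g x hx hx1 hgx
    have hne : g * x * g⁻¹ ≠ 1 := fun h => hx1 (conj_eq_one_iff.mp h)
    obtain ⟨ha, hb⟩ := mem_pairStab.mp hgx
    have hga : (g * x * g⁻¹) • (g • a) = g • a := by
      simp [mul_smul, (mem_pairStab.mp hx).1]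
    have hgb : (g * x * g⁻¹) • (g • b) = g • b := by
      simp [mul_smul, (mem_pairStab.mp hx).2]
    have hne' : g • a ≠ g • b := fun h => hab (smul_left_cancel g h)
    rcases fixed_eq_pair hZ hne hab ha hb hga with h | h <;>
      rcases fixed_eq_pair hZ hne hab ha hb hgb with h' | h'
    · exact absurd (h.trans h'.symm) hne'
    · exact Or.inl ⟨h, h'⟩
    · exact Or.inr ⟨h, h'⟩
    · exact absurd (h.trans h'.symm) hne'
  have normal_of : ∀ g : G, ((g • a = a ∧ g • b = b) ∨ (g • a = b ∧ g • b = a)) →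
      g ∈ Subgroup.normalizer (E : Set G) := by
    intro g hg
    have h1 : ∀ k : G, ((k • a = a ∧ k • b = b) ∨ (k • a = b ∧ k • b = a)) → ∀ x ∈ E,
        k * x * k⁻¹ ∈ E := by
      intro k hk x hx
      have := conj_mem_pairStab (g := k) hx
      rcases hk with ⟨h, h'⟩ | ⟨h, h'⟩
      · rwa [h, h'] at this
      · rw [h, h', mem_pairStab] at this
        exact mem_pairStab.mpr this.symm
    rw [Subgroup.mem_normalizer_iff]
    intro x
    refine ⟨h1 g hg x, fun hx => ?_⟩
    have := h1 g⁻¹ (by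
      rcases hg with ⟨h, h'⟩ | ⟨h, h'⟩
      · exact Or.inl ⟨inv_smul_eq_iff.mpr h.symm, inv_smul_eq_iff.mpr h'.symm⟩
      · exact Or.inr ⟨inv_smul_eq_iff.mpr h'.symm, inv_smul_eq_iff.mpr h.symm⟩) _ hx
    simpa [mul_assoc] using this
  refine ⟨fun g hg x hx hgx => ?_, ?_⟩
  · by_contra hx1
    exact hg (normal_of g (swap_or g x hx hx1 hgx))
  · obtain ⟨t, hta, htb⟩ := exists_smul_pair hZ hab hab.symm
    have htN : t ∈ Subgroup.normalizer (E : Set G) := normal_of t (Or.inr ⟨hta, htb⟩)
    have hEN : E ≤ Subgroup.normalizer (E : Set G) := Subgroup.le_normalizer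
    obtain ⟨x, hx, hx1⟩ : ∃ x ∈ E, x ≠ 1 := by
      by_contra h
      push Not at h
      exact pairStab_ne_bot hZ hab ((Subgroup.eq_bot_iff_forall _).mpr h)
    rw [Subgroup.index_eq_two_iff]
    refine ⟨⟨t, htN⟩, fun g => ?_⟩
    have hg := swap_or g x hx hx1 ((Subgroup.mem_normalizer_iff.mp g.2 x).mp hx)
    simp only [Subgroup.mem_subgroupOf, Subgroup.coe_mul]
    rcases hg with ⟨h, h'⟩ | ⟨h, h'⟩
    · refine Or.inr ⟨mem_pairStab.mpr ⟨h, h'⟩, fun hh => ?_⟩
      have := (mem_pairStab.mp hh).1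
      rw [mul_smul, hta, h'] at this
      exact hab this.symm
    · refine Or.inl ⟨mem_pairStab.mpr ⟨?_, ?_⟩, fun hh => ?_⟩
      · rw [mul_smul, hta, h']
      · rw [mul_smul, htb, h]
      · have := (mem_pairStab.mp hh).1
        rw [h] at this
        exact hab this.symm)

end Cfsg.Agent.S0879
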