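import Cfsg.Statements.S0880
import Cfsg.Agent.Zassenhaus.Counting

set_option autoImplicit false
open Cfsg

namespace Cfsg.Agent.S0880

/-- Let G be a finite simple Zassenhaus group on Ω with n points whose two-point stabilizer E has odd order less than n - 2. Then there are two elements of G, each fixing no point of Ω, that are not conjugate. -/
theorem result {G Ω : Type*} [Group G] [Finite G] [MulAction G Ω] [Fintype Ω] (hZ : Cfsg.IsZassenhausGroup G Ω) {a b : Ω} (hab : a ≠ b) [IsSimpleGroup G] (hodd : Odd (Nat.card ↥(MulAction.stabilizer G a ⊓ MulAction.stabilizer G b : Subgroup G))) (hlt : Nat.card ↥(MulAction.stabilizer G a ⊓ MulAction.stabilizer G b : Subgroup G) < Fintype.card Ω - 2) : ∃ x y : G, (∀ c : Ω, x • c ≠ c) ∧ (∀ c : Ω, y • c ≠ c) ∧ ¬ IsConj x y := by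
  classical
  open CfsgLib.Zassenhaus MulAction in
  exact (by
  by_contra hcon
  push Not at hcon
  have h3 := three_le_card hZ
  have hcount := two_mul_ncard_noFix hZ hab
  have hG := card_eq hZ hab
  set n := Fintype.card Ω with hn
  set e := Nat.card (pairStab G a b) with he
  have he2 : 2 ≤ e := by
    have := (Subgroup.one_lt_card_iff_ne_bot _).mpr (pairStab_ne_bot hZ hab)
    omega
  have he3 : 3 ≤ e := by
    have hodd' : Odd e := hodd
    rcases hodd' with ⟨k, hk⟩
    omega
  obtain ⟨x, hx⟩ : (noFix G Ω).Nonempty := by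
    apply Set.nonempty_of_ncard_ne_zero
    intro h
    rw [h, Nat.mul_zero] at hcount
    have : 0 < (n - 1) * (n * (e - 1) + 2) := Nat.mul_pos (by omega) (by omega)
    omega
  -- all fixed-point-free elements form the class of x
  have hclass : noFix G Ω = (orbit (ConjAct G) x : Set G) := by
    ext y
    rw [ConjAct.mem_orbit_conjAct]
    constructor
    · exact fun hy => hcon y x hy hx
    · intro hy
      obtain ⟨g, hg⟩ := isConj_iff.mp hy.symm
      intro c hc
      rw [← hg] at hc
      apply hx (g⁻¹ • c)
      simp only [mul_smul] at hc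
      exact eq_inv_smul_iff.mpr hc
  have horb := (stabilizer (ConjAct G) x).card_mul_index
  rw [index_stabilizer, ← hclass, show Nat.card (ConjAct G) = Nat.card G from (Nat.card_congr ConjAct.toConjAct.toEquiv).symm] at horb
  have hc : 2 ≤ Nat.card (stabilizer (ConjAct G) x) := by
    have hne : stabilizer (ConjAct G) x ≠ ⊥ := by
      intro h
      have hxm : ConjAct.toConjAct x ∈ stabilizer (ConjAct G) x := by
        rw [mem_stabilizer_iff, ConjAct.toConjAct_smul]
        simp
      rw [h, Subgroup.mem_bot] at hxm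
      have hx1 : x = 1 := by simpa using hxm
      exact hx a (by rw [hx1, one_smul])
    have : Finite (ConjAct G) := Finite.of_equiv G ConjAct.toConjAct.toEquiv
    have := (Subgroup.one_lt_card_iff_ne_bot _).mpr hne
    omega
  set c := Nat.card (stabilizer (ConjAct G) x) with hc'
  set f := (noFix G Ω).ncard
  obtain ⟨k, hk⟩ : ∃ k, n = k + 1 := ⟨n - 1, by omega⟩
  obtain ⟨d, hd⟩ : ∃ d, e = d + 1 := ⟨e - 1, by omega⟩
  rw [hk, hd] at hcount hG
  simp only [Nat.add_sub_cancel] at hcount hG
  have hf : c * f = Nat.card G := horb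
  rw [hG] at hf
  have hkey : c * ((k + 1) * d + 2) = 2 * ((k + 1) * (d + 1)) := by
    have : k * (c * ((k + 1) * d + 2)) = k * (2 * ((k + 1) * (d + 1))) := by
      calc k * (c * ((k + 1) * d + 2)) = c * (k * ((k + 1) * d + 2)) := by ring
        _ = c * (2 * f) := by rw [hcount]
        _ = 2 * (c * f) := by ring
        _ = _ := by rw [hf]; ring
    exact Nat.eq_of_mul_eq_mul_left (by omega) this
  rcases (Nat.lt_or_ge c 3) with hc3 | hc3
  · have : c = 2 := by omega
    rw [this] at hkey
    nlinarith
  · have h1 : 3 * ((k + 1) * d + 2) ≤ c * ((k + 1) * d + 2) := Nat.mul_le_mul_right _ hc3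
    nlinarith)

end Cfsg.Agent.S0880
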