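import Cfsg.Statements.S0891
import Cfsg.Agent.AltCliff.Spin

set_option autoImplicit false
open Cfsg

namespace Cfsg.Agent.S0891

open CfsgLib.AltCliff Equiv

/-- For every n ≥ 4 there are a finite group Γ and a central element z of Γ of order 2 lying in the commutator subgroup of Γ such that the quotient of Γ by the (normal) subgroup generated by z is isomorphic to the alternating group on n letters. -/
theorem result (n : ℕ) (hn : 4 ≤ n) : ∃ (Γ : Type) (_ : Group Γ) (_ : Finite Γ) (z : Γ) (hz : z ∈ Subgroup.center Γ), orderOf z = 2 ∧ z ∈ commutator Γ ∧ ∃ _ : (Subgroup.zpowers z).Normal, Nonempty (Γ ⧸ Subgroup.zpowers z ≃* alternatingGroup (Fin n)) := by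
  let N := n + n
  have hle : n ≤ N := Nat.le_add_right n n
  let ι : Perm (Fin n) →* Perm (Fin N) := Perm.viaEmbeddingHom (Fin.castLEEmb hle)
  let Γ : Subgroup (cover N × alternatingGroup (Fin n)) :=
    MonoidHom.eqLocus ((proj N).comp (MonoidHom.fst _ _))
      ((ι.comp (alternatingGroup (Fin n)).subtype).comp (MonoidHom.snd _ _))
  let z₀ : cover N := ⟨-1, mem_cover_neg_one⟩
  have hz₀ : proj N z₀ = 1 := proj_eq ⟨fun k => by simp [z₀], fun k => by simp [z₀, sgn_one]⟩
  let z : Γ := ⟨(z₀, 1), by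
    show proj N z₀ = ι ((1 : alternatingGroup (Fin n)) : Perm (Fin n))
    rw [hz₀, OneMemClass.coe_one, map_one]⟩
  haveI : Finite (Module.End (ZMod 3) (Sp N)) :=
    Finite.of_injective (fun f => (f : Sp N → Sp N)) DFunLike.coe_injective
  haveI : Finite (Module.End (ZMod 3) (Sp N))ˣ :=
    Finite.of_injective (fun g => (g : Module.End (ZMod 3) (Sp N))) Units.val_injective
  have hzc : ∀ g : Γ, g * z = z * g := fun g => Subtype.ext (Prod.ext (Subtype.ext (Units.ext (by
    simp [z, z₀]))) (by simp [z]))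
  have hz1 : z ≠ 1 := fun h => neg_one_ne_one (N := N)
    (congrArg (fun g : Γ => (g.1.1.1 : (Module.End (ZMod 3) (Sp N))ˣ)) h)
  have hz2 : z ^ 2 = 1 := Subtype.ext (Prod.ext (Subtype.ext (Units.ext (by
    simp [z, z₀]))) (by simp [z]))
  let q : Γ →* alternatingGroup (Fin n) := (MonoidHom.snd _ _).comp Γ.subtype
  have hq : Function.Surjective q := fun s => by
    obtain ⟨g, hg⟩ := proj_surjective (ι s)
    exact ⟨⟨(g, s), hg⟩, rfl⟩
  have hker : q.ker = Subgroup.zpowers z := by
    refine le_antisymm (fun g hg => ?_) ?_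
    · have h2 : g.1.2 = 1 := hg
      have h1 : proj N g.1.1 = 1 := by
        have h := g.2
        change proj N g.1.1 = ι (g.1.2 : Perm (Fin n)) at h
        rw [h, h2, OneMemClass.coe_one, map_one]
      rcases ker_proj ⟨n, rfl⟩ h1 with e | e
      · have : g = 1 := Subtype.ext (Prod.ext e h2)
        rw [this]; exact one_mem _
      · have : g = z := Subtype.ext (Prod.ext e h2)
        rw [this]; exact Subgroup.mem_zpowers z
    · rw [Subgroup.zpowers_le]; exact (rfl : q z = 1)
  haveI hnor : (Subgroup.zpowers z).Normal := hker ▸ q.normal_ker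
  refine ⟨Γ, inferInstance, inferInstance, z, Subgroup.mem_center_iff.2 hzc,
    orderOf_eq_prime hz2 hz1, ?_, hnor,
    ⟨(QuotientGroup.quotientMulEquivOfEq hker.symm).trans
      (QuotientGroup.quotientKerEquivOfSurjective q hq)⟩⟩
  -- `z` is a commutator
  let p : Fin 4 → Fin n := Fin.castLE hn
  have hp : Function.Injective p := Fin.castLE_injective hn
  let p' : Fin 4 → Fin N := fun i => Fin.castLEEmb hle (p i)
  have hp' : Function.Injective p' := (Fin.castLEEmb hle).injective.comp hp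
  have hι : ∀ i j, ι (swap (p i) (p j)) = swap (p' i) (p' j) := by
    intro i j
    ext x
    congr 1
    by_cases hx : x ∈ Set.range (Fin.castLEEmb hle)
    · obtain ⟨y, rfl⟩ := hx
      rw [Perm.viaEmbeddingHom_apply, Perm.viaEmbedding_apply]
      rcases eq_or_ne y (p i) with rfl | h1
      · simp [p']
      · rcases eq_or_ne y (p j) with rfl | h2
        · simp [p']
        · rw [swap_apply_of_ne_of_ne h1 h2, swap_apply_of_ne_of_ne
            ((Fin.castLEEmb hle).injective.ne h1) ((Fin.castLEEmb hle).injective.ne h2)]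
    · rw [Perm.viaEmbeddingHom_apply, Perm.viaEmbedding_apply_of_notMem _ _ _ hx,
        swap_apply_of_ne_of_ne (fun e => hx ⟨_, e.symm⟩) (fun e => hx ⟨_, e.symm⟩)]
  have hel : ∀ i j k l : Fin 4, (hij : i ≠ j) → (hkl : k ≠ l) → ∃ g : Γ,
      (g.1.1.1 : (Module.End (ZMod 3) (Sp N))ˣ) =
        liftSwap (hp'.ne hij) * liftSwap (hp'.ne hkl) ∧
      (g.1.2 : Perm (Fin n)) = swap (p i) (p j) * swap (p k) (p l) := by
    intro i j k l hij hkl
    have hind := induces_mul (induces_liftSwap (hp'.ne hij)) (induces_liftSwap (hp'.ne hkl))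
    refine ⟨⟨(⟨liftSwap (hp'.ne hij) * liftSwap (hp'.ne hkl), _, hind⟩,
      ⟨swap (p i) (p j) * swap (p k) (p l), ?_⟩), ?_⟩, rfl, rfl⟩
    · rw [Perm.mem_alternatingGroup, map_mul, Perm.sign_swap (hp.ne hij),
        Perm.sign_swap (hp.ne hkl)]
      norm_num
    · show proj N _ = ι (swap (p i) (p j) * swap (p k) (p l))
      exact (proj_eq hind).trans ((congrArg₂ (· * ·) (hι i j) (hι k l)).symm.trans (map_mul ι _ _).symm)
  obtain ⟨A, hA1, hA2⟩ := hel 0 1 2 3 (by decide) (by decide)
  obtain ⟨B, hB1, hB2⟩ := hel 0 2 1 3 (by decide) (by decide)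
  have hmem : A * B * A⁻¹ * B⁻¹ ∈ commutator Γ := by
    rw [← commutatorElement_def, commutator_def]
    exact Subgroup.commutator_mem_commutator trivial trivial
  suffices A * B * A⁻¹ * B⁻¹ = z by rwa [this] at hmem
  refine Subtype.ext (Prod.ext (Subtype.ext ?_) (Subtype.ext ?_))
  · show (A.1.1.1 : (Module.End (ZMod 3) (Sp N))ˣ) * B.1.1.1 * A.1.1.1⁻¹ * B.1.1.1⁻¹ = -1
    rw [hA1, hB1]
    exact quaternion _ (hp'.ne (by decide)) (hp'.ne (by decide)) (hp'.ne (by decide)) _ _
  · show (A.1.2 : Perm (Fin n)) * B.1.2 * (A.1.2 : Perm (Fin n))⁻¹ * (B.1.2 : Perm (Fin n))⁻¹ = 1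
    rw [hA2, hB2]
    ext x
    by_cases hx : x ∈ Set.range p
    · obtain ⟨y, rfl⟩ := hx
      simp only [mul_inv_rev, swap_inv, Perm.mul_apply, ← hp.map_swap, Perm.one_apply]
      refine congrArg Fin.val (congrArg p ?_)
      revert y; decide
    · have hne : ∀ a b, swap (p a) (p b) x = x := fun a b =>
        swap_apply_of_ne_of_ne (fun e => hx ⟨_, e.symm⟩) (fun e => hx ⟨_, e.symm⟩)
      simp [hne]

end Cfsg.Agent.S0891
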