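import Cfsg.Statements.S0893
import Cfsg.Agent.Eq.Def_Transfer
import Cfsg.Agent.Eq.Def_Characters
import Cfsg.Agent.PGroup.Extraspecial
import Cfsg.Agent.Chars.Induced.Rep
import Cfsg.Agent.Chars.Basic

set_option autoImplicit false
open Cfsg

namespace Cfsg.Agent.S0893

open scoped commutatorElement

/-- Let P be an extraspecial p-group of order p ^ (2 * n + 1), A an abelian subgroup of order p ^ (n + 1), and λ a character of A of degree 1 that is not identically 1 on the elements of A lying in the centre of P. Then the function induced from λ to P is an irreducible character of P and vanishes at every element outside the centre. -/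
theorem result {P : Type*} [Group P] [Fintype P] (p n : ℕ) [Fact p.Prime] (hP : Cfsg.IsExtraspecial p P) (hcard : Nat.card P = p ^ (2 * n + 1)) (A : Subgroup P) (hab : ∀ a ∈ A, ∀ b ∈ A, a * b = b * a) (hA : Nat.card A = p ^ (n + 1)) (lam : A → ℂ) (hlam : Cfsg.IsCharacter A lam ∧ lam 1 = 1) (hZ : ∃ a : A, (a : P) ∈ Subgroup.center P ∧ lam a ≠ 1) : Cfsg.IsIrrCharacter P (Cfsg.indFun A lam) ∧ ∀ x : P, x ∉ Subgroup.center P → Cfsg.indFun A lam x = 0 := by
  classical
  have hp : p.Prime := Fact.out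
  obtain ⟨l, hl⟩ := CfsgLib.Chars.exists_monoidHom_of_map_one_eq_one hlam.1 hlam.2
  have hlmul : ∀ a b : A, lam (a * b) = lam a * lam b := fun a b => by simp [hl]
  obtain ⟨a₀, ha₀, ha₀l⟩ := hZ
  have hZA : Subgroup.center P ≤ A := by
    rcases (Nat.dvd_prime hp).1
      (hP.2 ▸ Subgroup.card_dvd_of_le (inf_le_right (a := A) (b := Subgroup.center P))) with h | h
    · exfalso
      have h1 : (a₀ : P) ∈ A ⊓ Subgroup.center P := ⟨a₀.2, ha₀⟩
      rw [Subgroup.eq_bot_of_card_eq _ h, Subgroup.mem_bot] at h1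
      exact ha₀l (by rw [show a₀ = 1 from Subtype.ext h1, hlam.2])
    · exact le_trans (Subgroup.eq_of_le_of_card_ge inf_le_right (by rw [h, hP.2])).ge inf_le_left
  have hkerZ : ∀ z (hz : z ∈ Subgroup.center P), lam ⟨z, hZA hz⟩ = 1 → z = 1 := by
    intro z hz h1
    let K : Subgroup P := ((l.comp (Subgroup.inclusion hZA)).ker).map (Subgroup.center P).subtype
    have hzK : z ∈ K := ⟨⟨z, hz⟩, Units.ext (by rw [hl] at h1; exact h1), rfl⟩
    rcases (Nat.dvd_prime hp).1 (hP.2 ▸ Subgroup.card_dvd_of_le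
      (show K ≤ Subgroup.center P from Subgroup.map_subtype_le _)) with h | h
    · rwa [Subgroup.eq_bot_of_card_eq _ h, Subgroup.mem_bot] at hzK
    · exfalso
      have h2 : K = Subgroup.center P :=
        Subgroup.eq_of_le_of_card_ge (Subgroup.map_subtype_le _) (by rw [h, hP.2])
      obtain ⟨w, hw, hwa⟩ : (a₀ : P) ∈ K := h2 ▸ ha₀
      apply ha₀l
      rw [hl]
      have hw' : l (Subgroup.inclusion hZA w) = 1 := hw
      rw [show Subgroup.inclusion hZA w = a₀ from Subtype.ext hwa] at hw'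
      simp [hw']
  have hshift : ∀ z (hz : z ∈ Subgroup.center P) (x : P),
      Cfsg.indFun A lam (x * z) = lam ⟨z, hZA hz⟩ * Cfsg.indFun A lam x := by
    intro z hz x
    simp only [Cfsg.indFun, Finset.mul_sum]
    refine Finset.sum_congr rfl fun y _ => ?_
    have hy : y⁻¹ * (x * z) * y = (y⁻¹ * x * y) * z := by
      rw [mul_assoc, mul_assoc, ← Subgroup.mem_center_iff.1 hz y]
      group
    rw [hy]
    by_cases hA' : y⁻¹ * x * y ∈ A
    · rw [CfsgLib.Chars.Induced.extendByZero_mem lam hA',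
        CfsgLib.Chars.Induced.extendByZero_mem lam (A.mul_mem hA' (hZA hz)),
        show (⟨_, A.mul_mem hA' (hZA hz)⟩ : A) = ⟨_, hA'⟩ * ⟨z, hZA hz⟩ from rfl, hlmul]
      ring
    · rw [CfsgLib.Chars.Induced.extendByZero_notMem lam hA',
        CfsgLib.Chars.Induced.extendByZero_notMem lam fun h => hA' (by
          have := A.mul_mem h (A.inv_mem (hZA hz))
          rwa [mul_inv_cancel_right] at this)]
      ring
  have hvan : ∀ x : P, x ∉ Subgroup.center P → Cfsg.indFun A lam x = 0 := by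
    intro x hx
    obtain ⟨g, hg⟩ := CfsgLib.PGroup.extraspecial_exists_comm_eq hP hx ha₀
    have hgx : g * x * g⁻¹ = x * (a₀ : P) := by
      calc g * x * g⁻¹ = ⁅g, x⁆ * x := by rw [commutatorElement_def, inv_mul_cancel_right]
        _ = (a₀ : P) * x := by rw [hg]
        _ = x * (a₀ : P) := (Subgroup.mem_center_iff.1 ha₀ x).symm
    have h1 := CfsgLib.Chars.Induced.indFun_isClassFunction A lam x g
    rw [hgx, hshift _ ha₀] at h1
    exact (mul_left_eq_self₀.1 h1).resolve_left ha₀l
  refine ⟨?_, hvan⟩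
  have hchar := CfsgLib.Chars.Induced.isCharacter_indFun A hlam.1
  refine CfsgLib.Chars.isIrrCharacter_of_classInner_self hchar ?_
  have h1 : Cfsg.indFun A lam 1 = (p : ℂ) ^ n := by
    have hne : ((p ^ (n + 1) : ℕ) : ℂ) ≠ 0 := Nat.cast_ne_zero.2 (pow_ne_zero _ hp.ne_zero)
    rw [Cfsg.indFun, Finset.sum_congr rfl fun y _ => (by
      rw [mul_one, inv_mul_cancel, CfsgLib.Chars.Induced.extendByZero_mem lam A.one_mem]
      exact hlam.2 : Cfsg.extendByZero A lam (y⁻¹ * 1 * y) = 1), Finset.sum_const, Finset.card_univ,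
      nsmul_one, ← Nat.card_eq_fintype_card (α := P), hcard, hA, inv_mul_eq_iff_eq_mul₀ hne]
    push_cast
    ring
  have hnorm : ∀ z ∈ Subgroup.center P,
      Cfsg.indFun A lam z * starRingEnd ℂ (Cfsg.indFun A lam z) = (p : ℂ) ^ (2 * n) := by
    intro z hz
    have hz' : Cfsg.indFun A lam z = lam ⟨z, hZA hz⟩ * (p : ℂ) ^ n := by
      rw [← h1, ← hshift z hz, one_mul]
    have hzinv := CfsgLib.Chars.map_inv_eq_conj hlam.1 (⟨z, hZA hz⟩ : A)
    rw [hz', map_mul, ← hzinv, map_pow, Complex.conj_natCast, mul_mul_mul_comm, ← hlmul,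
      mul_inv_cancel, hlam.2, one_mul, ← pow_add, two_mul]
  rw [Cfsg.classInner, ← Finset.sum_filter_add_sum_filter_not Finset.univ
      (· ∈ Subgroup.center P), Finset.sum_congr rfl fun z hz => hnorm z (Finset.mem_filter.1 hz).2,
    Finset.sum_eq_zero (s := Finset.univ.filter fun z : P => z ∉ Subgroup.center P) (fun z hz => by
      rw [hvan z (Finset.mem_filter.1 hz).2, zero_mul]), add_zero, Finset.sum_const, nsmul_eq_mul,
    ← Fintype.card_subtype, ← Nat.card_eq_fintype_card (α := {x // x ∈ Subgroup.center P}), hP.2,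
    hcard, ← pow_succ', Nat.cast_pow, inv_mul_cancel₀]
  exact pow_ne_zero _ (Nat.cast_ne_zero.2 hp.ne_zero)

end Cfsg.Agent.S0893
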