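import Cfsg.Statements.S0894
import Cfsg.Agent.Eq.Def_Transfer
import Cfsg.Agent.Eq.Def_Characters
import Cfsg.Agent.PGroup.Extraspecial
import Cfsg.Agent.Chars.Basic

set_option autoImplicit false
open Cfsg

namespace Cfsg.Agent.S0894

open scoped commutatorElement

/-- Let P be an extraspecial p-group of order p ^ (2 * n + 1). Then every irreducible character of P has degree 1 or p ^ n, and exactly p - 1 of them have degree p ^ n. -/
theorem result {P : Type*} [Group P] [Finite P] (p n : ℕ) [Fact p.Prime] (hP : Cfsg.IsExtraspecial p P) (hcard : Nat.card P = p ^ (2 * n + 1)) : (∀ χ : Cfsg.IrrCharacter P, (χ : P → ℂ) 1 = 1 ∨ (χ : P → ℂ) 1 = (p : ℂ) ^ n) ∧ Nat.card {χ : Cfsg.IrrCharacter P // (χ : P → ℂ) 1 = (p : ℂ) ^ n} = p - 1 := by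
  classical
  haveI := Fintype.ofFinite P
  have hp : p.Prime := Fact.out
  have hp0 : (p : ℂ) ≠ 0 := Nat.cast_ne_zero.2 hp.ne_zero
  have hZcomm : commutator P = Subgroup.center P := hP.1.2.2
  have hn : n ≠ 0 := by
    rintro rfl
    obtain ⟨a, b, hab⟩ := CfsgLib.PGroup.extraspecial_not_comm hP
    haveI : IsCyclic P := isCyclic_of_prime_card (show Nat.card P = p by simpa using hcard)
    exact hab ((IsCyclic.isMulCommutative (α := P)).is_comm.comm a b)
  have hdeg : ∀ χ : Cfsg.IrrCharacter P,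
      (χ : P → ℂ) 1 = 1 ∨ (χ : P → ℂ) 1 = (p : ℂ) ^ n := by
    intro χ
    by_cases hker : Subgroup.center P ≤ CfsgLib.Chars.charKer (χ : P → ℂ)
    · exact Or.inl ((CfsgLib.Chars.commutator_le_charKer_iff χ).1 (hZcomm.le.trans hker))
    right
    obtain ⟨z, hz, hzne⟩ :=
      (CfsgLib.Chars.not_le_charKer_iff (CfsgLib.Chars.isCharacter_coe χ)).1 hker
    have hvan : ∀ x : P, x ∉ Subgroup.center P → (χ : P → ℂ) x = 0 := by
      intro x hx
      obtain ⟨g, hg⟩ := CfsgLib.PGroup.extraspecial_exists_comm_eq hP hx hz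
      have hgx : g * x * g⁻¹ = z * x := by
        rw [← hg, commutatorElement_def, inv_mul_cancel_right]
      have h1 := CfsgLib.Chars.isClassFunction_coe χ x g
      rw [hgx, CfsgLib.Chars.map_mul_of_mem_center χ hz] at h1
      refine (mul_left_eq_self₀.1 h1).resolve_left fun h2 => hzne ?_
      rwa [div_eq_one_iff_eq (CfsgLib.Chars.map_one_ne_zero χ)] at h2
    have hsum := CfsgLib.Chars.sum_mul_map_inv χ χ
    rw [if_pos rfl] at hsum
    have hnorm : ∀ x ∈ Subgroup.center P, (χ : P → ℂ) x * (χ : P → ℂ) x⁻¹ =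
        ((Cfsg.charDegree (χ : P → ℂ) ^ 2 : ℕ) : ℂ) := by
      intro x hx
      rw [CfsgLib.Chars.map_inv_eq_conj (CfsgLib.Chars.isCharacter_coe χ), Complex.mul_conj,
        Complex.normSq_eq_norm_sq, CfsgLib.Chars.norm_map_of_mem_center χ hx,
        ← CfsgLib.Chars.coe_charDegree, Complex.norm_natCast]
      push_cast
      ring
    rw [← Finset.sum_filter_add_sum_filter_not Finset.univ (· ∈ Subgroup.center P),
      Finset.sum_congr rfl fun x hx => hnorm x (Finset.mem_filter.1 hx).2,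
      Finset.sum_eq_zero (s := Finset.univ.filter fun x : P => x ∉ Subgroup.center P)
        (fun x hx => by rw [hvan x (Finset.mem_filter.1 hx).2, zero_mul]), add_zero,
      Finset.sum_const, nsmul_eq_mul, ← Nat.cast_mul, ← Fintype.card_subtype,
      ← Nat.card_eq_fintype_card (α := {x // x ∈ Subgroup.center P}), hP.2, hcard, Nat.cast_inj,
      pow_succ' p, Nat.mul_right_inj hp.ne_zero] at hsum
    rw [← CfsgLib.Chars.coe_charDegree, ← Nat.cast_pow, Nat.cast_inj]
    exact Nat.pow_left_injective two_ne_zero (show Cfsg.charDegree (χ : P → ℂ) ^ 2 = (p ^ n) ^ 2 by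
      rw [hsum, ← pow_mul, mul_comm])
  refine ⟨hdeg, ?_⟩
  have hne : ∀ χ : Cfsg.IrrCharacter P, (χ : P → ℂ) 1 = 1 → (χ : P → ℂ) 1 ≠ (p : ℂ) ^ n := by
    intro χ h1 h2
    rw [h1] at h2
    have h3 : (p : ℕ) ^ n = 1 := by exact_mod_cast h2.symm
    exact (Nat.one_lt_pow hn hp.one_lt).ne' h3
  have hsq := CfsgLib.Chars.sum_charDegree_sq (G := P)
  have hlin := CfsgLib.Chars.card_linear_irr (G := P)
  rw [hZcomm] at hlin
  have hidx : (Subgroup.center P).index = p ^ (2 * n) := by
    have h1 := (Subgroup.center P).card_mul_index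
    rw [hP.2, hcard, pow_succ'] at h1
    exact Nat.eq_of_mul_eq_mul_left hp.pos h1
  rw [hidx, Nat.card_eq_fintype_card, Fintype.card_subtype] at hlin
  rw [Nat.card_eq_fintype_card, Fintype.card_subtype]
  rw [← Finset.sum_filter_add_sum_filter_not Finset.univ
      (fun χ : Cfsg.IrrCharacter P => (χ : P → ℂ) 1 = 1),
    Finset.sum_congr rfl (g := fun _ => 1) (fun χ hχ => by
      rw [CfsgLib.Chars.charDegree_eq_of_map_one (n := 1)
        (by simpa using (Finset.mem_filter.1 hχ).2), one_pow]),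
    Finset.sum_congr (s₁ := Finset.univ.filter fun χ : Cfsg.IrrCharacter P => ¬ (χ : P → ℂ) 1 = 1)
      (s₂ := Finset.univ.filter fun χ : Cfsg.IrrCharacter P => (χ : P → ℂ) 1 = (p : ℂ) ^ n)
      (g := fun _ => p ^ (2 * n))
      (Finset.filter_congr fun χ _ =>
        ⟨(hdeg χ).resolve_left, fun h1 h2 => hne χ h2 h1⟩)
      (fun χ hχ => by
        rw [CfsgLib.Chars.charDegree_eq_of_map_one (n := p ^ n)
          (by simpa using (Finset.mem_filter.1 hχ).2), ← pow_mul, mul_comm]),
    Finset.sum_const, Finset.sum_const, smul_eq_mul, smul_eq_mul, mul_one, hlin, hcard] at hsq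
  rw [pow_succ] at hsq
  generalize (Finset.univ.filter fun χ : Cfsg.IrrCharacter P =>
    (χ : P → ℂ) 1 = (p : ℂ) ^ n).card = k at hsq ⊢
  have h2 : p ^ (2 * n) * (1 + k) = p ^ (2 * n) * p := by rw [← hsq]; ring
  have := Nat.eq_of_mul_eq_mul_left (pow_pos hp.pos _) h2
  omega

end Cfsg.Agent.S0894
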