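import Cfsg.Statements.S0897
import Cfsg.Agent.Eq.Def_Characters
import Cfsg.Agent.Chars.ElemDetect.Basic
import Cfsg.Agent.Chars.ElemDetect.Extend
import Cfsg.Agent.Chars.Basic.Linear
import Cfsg.Agent.Chars.Brauer.Characterization
import Mathlib.GroupTheory.FiniteAbelian.Duality
import Mathlib.GroupTheory.NoncommPiCoprod

set_option autoImplicit false
open Cfsg

namespace Cfsg.Agent.S0897
open CfsgLib CfsgLib.Chars.Induced
open scoped Classical

/-- A character of degree one is a homomorphism to the units. -/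
theorem exists_hom_of_degree_one {H : Type*} [Group H] {μ : H → ℂ} (h : Cfsg.IsCharacter H μ)
    (h1 : μ 1 = 1) : ∃ l : H →* ℂˣ, ∀ x, (l x : ℂ) = μ x := by
  obtain ⟨n, ρ, rfl⟩ := h
  rw [Representation.char_one, Module.finrank_fin_fun, Nat.cast_eq_one] at h1
  subst h1
  refine ⟨(LinearMap.det.comp ρ).toHomUnits, fun x => ?_⟩
  show LinearMap.det (ρ x) = LinearMap.trace ℂ _ (ρ x)
  rw [← LinearMap.det_toMatrix (Pi.basisFun ℂ (Fin 1)),
    LinearMap.trace_eq_matrix_trace ℂ (Pi.basisFun ℂ (Fin 1)), Matrix.det_fin_one,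
    Matrix.trace_fin_one]


/-- Let N be a normal subgroup of the finite group G with the index of N a power of the prime p, and P a Sylow p-subgroup of G such that P ⊓ N lies in the centre of P and every character of degree 1 of P ⊓ N is the restriction of a character of degree 1 of P. Then every irreducible character of N invariant under conjugation by G is the restriction of an irreducible character of G. -/
theorem result {G : Type*} [Group G] [Fintype G] (p : ℕ) [Fact p.Prime] (N : Subgroup G) [hN : N.Normal] (hind : ∃ k : ℕ, N.index = p ^ k) (P : Sylow p G) (hcent : ∀ x ∈ (P : Subgroup G) ⊓ N, ∀ y ∈ (P : Subgroup G), x * y = y * x) (hlin : ∀ lam : ↥((P : Subgroup G) ⊓ N) → ℂ, Cfsg.IsCharacter ↥((P : Subgroup G) ⊓ N) lam → lam 1 = 1 → ∃ μ : ↥(P : Subgroup G) → ℂ, Cfsg.IsCharacter ↥(P : Subgroup G) μ ∧ μ 1 = 1 ∧ ∀ x : ↥((P : Subgroup G) ⊓ N), μ ⟨(x : G), x.2.1⟩ = lam x) (ϑ : N → ℂ) (hϑ : Cfsg.IsIrrCharacter N ϑ) (hinv : ∀ (g : G) (n : N),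 ϑ ⟨g * n * g⁻¹, hN.conj_mem (n : G) n.2 g⟩ = ϑ n) : ∃ χ : G → ℂ, Cfsg.IsIrrCharacter G χ ∧ ∀ n : N, χ n = ϑ n := by
  obtain ⟨E, φ, hE, hEN, hfix, hm⟩ :=
    CfsgLib.Chars.ElemDetect.exists_supplement (p := p) Fact.out N hind ⟨ϑ, hϑ⟩ hinv
  obtain ⟨x, hxc, hxcop, j, hxj⟩ := hE
  obtain ⟨k, hk⟩ := hind
  have hp : p.Prime := Fact.out
  have hxreg : ¬ p ∣ orderOf x := fun h => hp.not_dvd_one (hxcop ▸ Nat.dvd_gcd h dvd_rfl)
  -- the `p'`-part lies in `N`
  have hxN : ∀ c ∈ Subgroup.zpowers x, (c : G) ∈ N := by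
    have hx : (x : G) ∈ N := by
      rw [← QuotientGroup.eq_one_iff, ← orderOf_eq_one_iff]
      have h1 : orderOf ((x : G) : G ⧸ N) ∣ orderOf x :=
        (orderOf_map_dvd (QuotientGroup.mk' N) (x : G)).trans (dvd_of_eq (Subgroup.orderOf_coe x))
      have h2 : orderOf ((x : G) : G ⧸ N) ∣ p ^ k := by
        rw [← hk, Subgroup.index_eq_card]; exact orderOf_dvd_natCard _
      exact Nat.eq_one_of_dvd_coprimes (hxcop.pow_right k) h1 h2
    intro c hc
    obtain ⟨i, rfl⟩ := hc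
    push_cast
    exact N.zpow_mem hx i
  set C : Subgroup E := Subgroup.zpowers x with hC
  obtain ⟨Q⟩ : Nonempty (Sylow p E) := inferInstance
  haveI hCn : C.Normal := ⟨fun c hc g => by
    obtain ⟨i, rfl⟩ := hc
    have : g * x ^ i * g⁻¹ = x ^ i := by
      rw [(Subgroup.mem_center_iff.1 ((Subgroup.center E).zpow_mem hxc i) g), mul_inv_cancel_right]
    rw [this]; exact ⟨i, rfl⟩⟩
  have hcop : Nat.Coprime (Nat.card C) (Nat.card (Q : Subgroup E)) := by
    obtain ⟨a, ha⟩ := IsPGroup.iff_card.1 Q.2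
    rw [hC, Nat.card_zpowers, ha]
    exact hxcop.pow_right a
  have hcompl : Subgroup.IsComplement' C (Q : Subgroup E) := by
    refine Subgroup.isComplement'_of_coprime ?_ hcop
    have hE' : Nat.card E = Nat.card C * p ^ j := by rw [← hxj, Subgroup.card_mul_index]
    obtain ⟨a, ha⟩ := IsPGroup.iff_card.1 Q.2
    have hfac : (Nat.card E).factorization p = j := by
      rw [hE', Nat.factorization_mul Nat.card_pos.ne' (pow_ne_zero _ hp.ne_zero), Finsupp.add_apply,
        hp.factorization_pow, Finsupp.single_eq_same,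
        Nat.factorization_eq_zero_of_not_dvd (by rw [hC, Nat.card_zpowers]; exact hxreg), zero_add]
    rw [Q.card_eq_multiplicity, hfac, hE']
  have hdecE : ∀ e : E, ∃ c ∈ C, ∃ q ∈ (Q : Subgroup E), c * q = e := fun e => by
    obtain ⟨⟨c, q⟩, h⟩ := hcompl.2 e
    exact ⟨c, c.2, q, q.2, h⟩
  -- the Sylow part lies in a conjugate of `P`
  obtain ⟨R, hR⟩ := (Q.2.map E.subtype).exists_le_sylow
  obtain ⟨g, rfl⟩ := MulAction.exists_smul_eq G P R
  have hQP : ∀ q ∈ (Q : Subgroup E), g⁻¹ * (q : G) * g ∈ (P : Subgroup G) := by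
    intro q hq
    have h := hR ⟨q, hq, rfl⟩
    rw [Sylow.coe_subgroup_smul] at h
    obtain ⟨y, hy, hyq⟩ := h
    have he : g * y * g⁻¹ = (q : G) := hyq
    rw [← he, show g⁻¹ * (g * y * g⁻¹) * g = y by group]
    exact hy
  have hcomm : ∀ q ∈ (Q : Subgroup E), ∀ r ∈ (Q : Subgroup E), (q : G) ∈ N → q * r = r * q := by
    intro q hq r hr hqN
    have h := hcent (g⁻¹ * (q : G) * g) ⟨hQP q hq, by simpa using hN.conj_mem _ hqN g⁻¹⟩
      (g⁻¹ * (r : G) * g) (hQP r hr)
    apply Subtype.ext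
    push_cast
    have h' := congrArg (fun z => g * z * g⁻¹) h
    simpa [mul_assoc] using h'
  -- `E ∩ N` is abelian
  have hab : ∀ a b : ↥(E ⊓ N), a * b = b * a := by
    intro a b
    obtain ⟨c, hc, q, hq, hcq⟩ := hdecE ⟨(a : G), a.2.1⟩
    obtain ⟨c', hc', r, hr, hcr⟩ := hdecE ⟨(b : G), b.2.1⟩
    have hqN : (q : G) ∈ N := by
      have : (q : G) = (c : G)⁻¹ * (a : G) := by
        rw [show (a : G) = ((c * q : E) : G) from (congrArg Subtype.val hcq).symm]; simp
      rw [this]; exact N.mul_mem (N.inv_mem (hxN c hc)) a.2.2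
    have hcc : c ∈ Subgroup.center E := (Subgroup.zpowers_le.2 hxc) hc
    have hcc' : c' ∈ Subgroup.center E := (Subgroup.zpowers_le.2 hxc) hc'
    have h1 := Subgroup.mem_center_iff.1 hcc
    have h2 := Subgroup.mem_center_iff.1 hcc'
    have key : (c * q) * (c' * r) = (c' * r) * (c * q) := by
      rw [show c * q * (c' * r) = c * (q * c') * r by group, h2 q,
        show c * (c' * q) * r = c * c' * (q * r) by group, hcomm q hq r hr hqN,
        ← h1 c', show c' * c * (r * q) = c' * (c * r) * q by group, ← h1 r]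
      group
    apply Subtype.ext
    have := congrArg Subtype.val key
    rw [hcq, hcr] at this
    exact this
  have hDbot : commutator ↥(E ⊓ N) = ⊥ := by
    rw [commutator_def, Subgroup.commutator_eq_bot_iff_le_centralizer]
    exact fun a _ => Subgroup.mem_centralizer_iff.2 fun b _ => hab b a
  obtain ⟨lφ, hlφ⟩ := exists_hom_of_degree_one (CfsgLib.Chars.isCharacter_coe φ)
    (CfsgLib.Chars.map_one_eq_one_of_commutator_eq_bot hDbot φ)
  -- extend the restriction to `P ∩ N`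
  letI : CommGroup ↥((P : Subgroup G) ⊓ N) :=
    { (inferInstance : Group ↥((P : Subgroup G) ⊓ N)) with
      mul_comm := fun a b => Subtype.ext (hcent a a.2 b b.2.1) }
  let QN : Subgroup E := (Q : Subgroup E) ⊓ N.subgroupOf E
  let toP : QN →* ↥((P : Subgroup G) ⊓ N) :=
    ((MulAut.conj g⁻¹).toMonoidHom.comp (E.subtype.comp QN.subtype)).codRestrict _ fun q => by
      show g⁻¹ * ((q : E) : G) * g⁻¹⁻¹ ∈ _
      rw [inv_inv]
      exact ⟨hQP q q.2.1, by simpa using hN.conj_mem _ q.2.2 g⁻¹⟩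
  have htoP : Function.Injective toP := fun a b h => by
    have := congrArg Subtype.val h
    exact Subtype.ext (Subtype.ext ((MulAut.conj g⁻¹).injective this))
  let U : Subgroup ↥((P : Subgroup G) ⊓ N) := toP.range
  let lU : U →* ℂˣ := (lφ.comp ((E.subtype.comp QN.subtype).codRestrict (E ⊓ N)
    fun q => ⟨(q : E).2, q.2.2⟩)).comp (MonoidHom.ofInjective htoP).symm.toMonoidHom
  obtain ⟨lPN, hlPN⟩ := MonoidHom.domRestrict_surjective (M := ℂ) U lU
  obtain ⟨μP, hμP, hμP1, hμPres⟩ := hlin (fun y => (lPN y : ℂ))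
    (CfsgLib.Chars.Brauer.isCharacter_linFun lPN) (by simp)
  obtain ⟨lP, hlP⟩ := exists_hom_of_degree_one hμP hμP1
  let lQ : (Q : Subgroup E) →* ℂˣ := lP.comp
    (((MulAut.conj g⁻¹).toMonoidHom.comp (E.subtype.comp (Q : Subgroup E).subtype)).codRestrict
      (P : Subgroup G) fun q => by
      show g⁻¹ * ((q : E) : G) * g⁻¹⁻¹ ∈ _
      rw [inv_inv]; exact hQP q q.2)
  let lC : C →* ℂˣ := lφ.comp ((E.subtype.comp C.subtype).codRestrict (E ⊓ N)
    fun c => ⟨(c : E).2, hxN c c.2⟩)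
  have hQN : ∀ (q : E) (hq : q ∈ (Q : Subgroup E)) (hqN : (q : G) ∈ N),
      lQ ⟨q, hq⟩ = lφ ⟨(q : G), q.2, hqN⟩ := by
    intro q hq hqN
    let qq : QN := ⟨q, hq, hqN⟩
    have h1 : lU ⟨toP qq, ⟨qq, rfl⟩⟩ = lφ ⟨(q : G), q.2, hqN⟩ := by
      have he : (MonoidHom.ofInjective htoP).symm ⟨toP qq, ⟨qq, rfl⟩⟩ = qq := by
        rw [MulEquiv.symm_apply_eq]; exact Subtype.ext rfl
      show lφ _ = _
      simp only [MulEquiv.coe_toMonoidHom, he]
      rfl
    rw [← h1, ← hlPN]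
    apply Units.ext
    show (lP _ : ℂ) = (lPN (toP qq) : ℂ)
    rw [hlP, ← hμPres]
    rfl
  let e : C × (Q : Subgroup E) →* E :=
    MonoidHom.noncommCoprod C.subtype (Q : Subgroup E).subtype fun c q =>
      (Subgroup.mem_center_iff.1 ((Subgroup.zpowers_le.2 hxc) c.2) q).symm
  have hebij : Function.Bijective e := hcompl
  let μ : E →* ℂˣ := (MonoidHom.coprod lC lQ).comp (MulEquiv.ofBijective e hebij).symm.toMonoidHom
  have hμ : ∀ y : ↥(E ⊓ N), μ ⟨(y : G), y.2.1⟩ = lφ y := by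
    intro y
    obtain ⟨c, hc, q, hq, hcq⟩ := hdecE ⟨(y : G), y.2.1⟩
    have hqN : (q : G) ∈ N := by
      have : (q : G) = (c : G)⁻¹ * (y : G) := by
        rw [show (y : G) = ((c * q : E) : G) from (congrArg Subtype.val hcq).symm]; simp
      rw [this]; exact N.mul_mem (N.inv_mem (hxN c hc)) y.2.2
    have he : (MulEquiv.ofBijective e hebij).symm ⟨(y : G), y.2.1⟩ = (⟨c, hc⟩, ⟨q, hq⟩) := by
      rw [MulEquiv.symm_apply_eq]
      exact hcq.symm
    show MonoidHom.coprod lC lQ ((MulEquiv.ofBijective e hebij).symm ⟨(y : G), y.2.1⟩) = _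
    rw [he, MonoidHom.coprod_apply, hQN q hq hqN]
    show lφ _ * lφ _ = _
    rw [← map_mul]
    exact congrArg lφ (Subtype.ext (by have h := congrArg Subtype.val hcq; exact h))
  refine CfsgLib.Chars.ElemDetect.exists_extension hp N ⟨k, hk⟩ ⟨ϑ, hϑ⟩ hinv E hEN μ ?_
  convert hm using 3
  funext y
  rw [hμ, hlφ]

end Cfsg.Agent.S0897
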