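import Cfsg.Statements.S0899
import Cfsg.Agent.Eq.Def_Blocks
import Cfsg.Agent.Eq.Def_Transfer
import Cfsg.Agent.Chars.FeitBound
import Cfsg.Agent.Chars.CoprimeCentral
import Cfsg.Agent.Chars.LinearGroup.AbelianHall
import Cfsg.Agent.Transfer.NormalPComplement

set_option autoImplicit false
open Cfsg

namespace Cfsg.Agent.S0899

universe u

open scoped commutatorElement

/-- Constituents detect the identity. -/
theorem eq_one_of_constituents {G : Type u} [Group G] [Finite G] {n : ℕ}
    (ρ : Representation ℂ G (Fin n → ℂ)) (hρ : Function.Injective ρ) {g : G}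
    (h : ∀ φ : Cfsg.IrrCharacter G, Cfsg.charDegree (φ : G → ℂ) ≤ n → (φ : G → ℂ) g = (φ : G → ℂ) 1) :
    g = 1 := by
  classical
  haveI := Fintype.ofFinite G
  apply hρ
  rw [map_one]
  refine CfsgLib.Chars.rep_eq_one_of_character_eq ρ ?_
  obtain ⟨c, hc, -⟩ := CfsgLib.Chars.exists_nat_coeff (⟨n, ρ, rfl⟩ : Cfsg.IsCharacter G ρ.character)
  have hn : (n : ℂ) = ∑ φ : Cfsg.IrrCharacter G, (c φ : ℂ) * (φ : G → ℂ) 1 := by
    have h1 := congrFun hc 1
    rw [Representation.char_one] at h1
    simpa using h1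
  rw [hc]
  simp only [Finset.sum_apply, Pi.smul_apply, smul_eq_mul]
  refine Finset.sum_congr rfl fun φ _ => ?_
  rcases Nat.eq_zero_or_pos (c φ) with h0 | h0
  · simp [h0]
  rw [h φ]
  simp only [← CfsgLib.Chars.coe_charDegree, ← Nat.cast_mul, ← Nat.cast_sum, Nat.cast_inj] at hn
  rw [hn]
  exact (Nat.le_mul_of_pos_left _ h0).trans (Finset.single_le_sum
    (f := fun φ : Cfsg.IrrCharacter G => c φ * Cfsg.charDegree (φ : G → ℂ))
    (fun _ _ => Nat.zero_le _) (Finset.mem_univ φ))

/-- A `p`-element is central over a normal subgroup of order prime to `p` in small degree. -/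
theorem central_of_small {G : Type u} [Group G] [Finite G] {n p : ℕ} (hp : p.Prime)
    (ρ : Representation ℂ G (Fin n → ℂ)) (hρ : Function.Injective ρ) (hn : n + 1 < p)
    (K : Subgroup G) [K.Normal] (hK : ¬ p ∣ Nat.card K) (x : G) {a : ℕ} (hx : orderOf x = p ^ a)
    (htop : K ⊔ Subgroup.zpowers x = ⊤) (g : G) : x * g = g * x := by
  rw [← commutatorElement_eq_one_iff_mul_comm]
  exact eq_one_of_constituents ρ hρ fun φ hφ =>
    CfsgLib.Chars.CoprimeCentral.map_commutator_eq K hp hK x hx htop φ (by omega) g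

/-- The induction. -/
theorem normal_sylow (p : ℕ) [Fact p.Prime] (n : ℕ) (m : ℕ) :
    ∀ (G : Type u) [Group G] [Finite G], Nat.card G = m →
      ∀ ρ : Representation ℂ G (Fin n → ℂ), Function.Injective ρ →
      ((n + 1) ^ 2 ≤ p ∨ (n + 1 < p ∧ ∀ K : Subgroup G, ¬ p ^ 2 ∣ Nat.card K →
        ∀ Q : Sylow p K, (Q : Subgroup K).Normal)) →
      ∀ P : Sylow p G, (P : Subgroup G).Normal := by
  induction m using Nat.strong_induction_on with
  | _ m ih =>
  intro G _ _ hm ρ hρ h P
  classical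
  haveI := Fintype.ofFinite G
  have hp : p.Prime := Fact.out
  by_cases hn0 : n = 0
  · subst hn0
    haveI : Subsingleton (Module.End ℂ (Fin 0 → ℂ)) := ⟨fun f g => LinearMap.ext fun v => Subsingleton.elim _ _⟩
    haveI : Subsingleton G := ⟨fun a b => hρ (Subsingleton.elim _ _)⟩
    exact ⟨fun x hx g => by rwa [Subsingleton.elim (g * x * g⁻¹) x]⟩
  have hnp : n + 1 < p := by
    rcases h with h | h
    · have : n + 1 < (n + 1) ^ 2 := by nlinarith [Nat.pos_of_ne_zero hn0]
      omega
    · exact h.1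
  by_contra hP
  -- proper subgroups have a unique maximal `p`-subgroup
  have hsub : ∀ H : Subgroup G, H ≠ ⊤ → ∃ T : Subgroup G, T ≤ H ∧ IsPGroup p T ∧
      H ≤ Subgroup.normalizer (T : Set G) ∧ ∀ U : Subgroup G, U ≤ H → IsPGroup p U → U ≤ T := by
    intro H hH
    have hlt : Nat.card H < m := hm ▸ lt_of_le_of_ne (Subgroup.card_le_card_group H)
      fun e => hH ((Subgroup.card_eq_iff_eq_top H).1 e)
    have hyp : (n + 1) ^ 2 ≤ p ∨ (n + 1 < p ∧ ∀ K : Subgroup H, ¬ p ^ 2 ∣ Nat.card K →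
        ∀ Q : Sylow p K, (Q : Subgroup K).Normal) := by
      rcases h with h | h
      · exact Or.inl h
      · refine Or.inr ⟨h.1, fun K hK Q => ?_⟩
        let e : K ≃* (K.map H.subtype) := K.equivMapOfInjective _ H.subtype_injective
        have h1 : (((Q : Subgroup K).map e.toMonoidHom).comap e.toMonoidHom).Normal :=
          (h.2 (K.map H.subtype) (by rwa [← Nat.card_congr e.toEquiv])
            (Q.mapSurjective (f := e.toMonoidHom) e.surjective)).comap e.toMonoidHom
        rwa [Subgroup.comap_map_eq_self_of_injective e.injective] at h1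
    obtain ⟨S⟩ : Nonempty (Sylow p H) := inferInstance
    have hS := ih _ hlt H rfl (ρ.comp H.subtype) (hρ.comp H.subtype_injective) hyp S
    haveI := Sylow.unique_of_normal S hS
    refine ⟨(S : Subgroup H).map H.subtype, Subgroup.map_subtype_le _, S.2.map _, fun g hg => ?_,
      fun U hU hUp => ?_⟩
    · rw [Subgroup.mem_normalizer_iff]
      intro y
      constructor
      · rintro ⟨z, hz, rfl⟩
        exact ⟨⟨g, hg⟩ * z * ⟨g, hg⟩⁻¹, hS.conj_mem z hz _, rfl⟩
      · rintro ⟨z, hz, hzy⟩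
        refine ⟨⟨g, hg⟩⁻¹ * z * ⟨g, hg⟩, ?_, ?_⟩
        · have h1 := hS.conj_mem z hz (⟨g, hg⟩⁻¹)
          rw [inv_inv] at h1
          exact h1
        show g⁻¹ * (z : G) * g = y
        rw [show (z : G) = g * y * g⁻¹ from hzy]
        group
    · obtain ⟨R, hR⟩ := (hUp.comap_of_injective H.subtype H.subtype_injective).exists_le_sylow
      rw [Subsingleton.elim R S] at hR
      intro u hu
      exact ⟨⟨u, hU hu⟩, hR hu, rfl⟩
  have hcomm : ∀ a ∈ (P : Subgroup G), ∀ b ∈ (P : Subgroup G), a * b = b * a := by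
    intro a ha b hb
    let σ : Representation ℂ ↥(P : Subgroup G) (Fin n → ℂ) :=
      MonoidHom.comp ρ (P : Subgroup G).subtype
    refine congrArg Subtype.val (CfsgLib.LinearGroup.isMulComm_of_degree_lt hp P.2
      (χ := σ.character) ⟨n, σ, rfl⟩ (fun g hg => ?_) (n := n)
      (by rw [Representation.char_one]; simp) (by omega) ⟨a, ha⟩ ⟨b, hb⟩)
    exact Subtype.ext (hρ (((CfsgLib.Chars.rep_eq_one_of_character_eq σ hg).trans (map_one ρ).symm)))
  have hgen : ∀ M : Subgroup G, M.Normal → (P : Subgroup G) ≤ M → M = ⊤ := by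
    intro M hM hPM
    by_contra hMtop
    obtain ⟨T, hTM, hT, -, hTmax⟩ := hsub M hMtop
    have hTP : T = (P : Subgroup G) := P.is_maximal' hT (hTmax _ hPM P.2)
    refine hP ⟨fun y hy g => ?_⟩
    have h1 : (P : Subgroup G).map (MulAut.conj g).toMonoidHom ≤ T := hTmax _
      (fun z hz => by obtain ⟨w, hw, rfl⟩ := hz; exact hM.conj_mem w (hPM hw) g) (P.2.map _)
    rw [hTP] at h1
    exact h1 ⟨y, hy, rfl⟩
  -- `G` is perfect
  have hperf : commutator G = ⊤ := by
    by_contra hD
    set D := commutator G with hDdef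
    have hDP : D ⊔ (P : Subgroup G) = ⊤ := hgen _ (by
      refine ⟨fun y hy g => ?_⟩
      have h1 : g * y * g⁻¹ = ⁅g, y⁆ * y := by rw [commutatorElement_def, inv_mul_cancel_right]
      rw [h1]
      exact mul_mem (Subgroup.mem_sup_left (Subgroup.commutator_mem_commutator (Subgroup.mem_top g)
        (Subgroup.mem_top y))) hy) le_sup_right
    obtain ⟨T, hTD, hT, hDT, hTmax⟩ := hsub D hD
    have hTn : T.Normal := ⟨fun y hy g => by
      have h1 : T.map (MulAut.conj g).toMonoidHom ≤ T := hTmax _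
        (fun z hz => by
          obtain ⟨w, hw, rfl⟩ := hz
          exact (inferInstance : (commutator G).Normal).conj_mem w (hTD hw) g) (hT.map _)
      exact h1 ⟨y, hy, rfl⟩⟩
    have hTP : T ≤ (P : Subgroup G) := by
      obtain ⟨R, hR⟩ := hT.exists_le_sylow
      obtain ⟨g, rfl⟩ := MulAction.exists_smul_eq G R P
      intro y hy
      rw [Sylow.coe_subgroup_smul]
      exact ⟨g⁻¹ * y * g, hR (by simpa using hTn.conj_mem y hy g⁻¹), by simp [mul_assoc]⟩
    have hcent : Subgroup.centralizer (T : Set G) = ⊤ := by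
      haveI := hTn
      exact hgen _ Subgroup.normal_centralizer fun y hy z hz => hcomm z (hTP hz) y hy
    obtain ⟨S⟩ : Nonempty (Sylow p D) := inferInstance
    have hSP : (S : Subgroup D).map D.subtype ≤ T := hTmax _ (Subgroup.map_subtype_le _) (S.2.map _)
    have hcompl : Cfsg.HasNormalPComplement p D :=
      CfsgLib.Transfer.hasNormalPComplement_of_normalizer_le_centralizer S fun c _ s hs =>
        Subtype.ext ((Subgroup.mem_centralizer_iff.1
          (show (c : G) ∈ Subgroup.centralizer (T : Set G) by rw [hcent]; exact Subgroup.mem_top _))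
          s (hSP ⟨s, hs, rfl⟩))
    obtain ⟨K₀, hK₀n, hK₀c, j, hj⟩ := CfsgLib.Transfer.hasNormalPComplement_iff_exists.mp hcompl
    haveI := hK₀n
    set K := K₀.map D.subtype with hK
    haveI hKn : K.Normal := ⟨by
      rintro _ ⟨z, hz, rfl⟩ g
      refine ⟨⟨g * z * g⁻¹, (inferInstance : (commutator G).Normal).conj_mem _ z.2 g⟩,
        (CfsgLib.Transfer.mem_iff_coprime_of_pPower_index hK₀c hj _).2 ?_, rfl⟩
      rw [← Subgroup.orderOf_coe]
      show (orderOf (MulAut.conj g (z : G))).Coprime p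
      rw [MulEquiv.orderOf_eq, Subgroup.orderOf_coe]
      exact (CfsgLib.Transfer.mem_iff_coprime_of_pPower_index hK₀c hj _).1 hz⟩
    have hKcard : ¬ p ∣ Nat.card K := by
      rw [hK, ← Nat.card_congr (K₀.equivMapOfInjective _ D.subtype_injective).toEquiv]
      exact CfsgLib.Transfer.not_dvd_of_coprime hK₀c
    have hDK : D ≤ K ⊔ (P : Subgroup G) := by
      have h1 := (CfsgLib.Transfer.isComplement'_sylow hK₀c hj S).sup_eq_top
      have h2 : (K₀ ⊔ (S : Subgroup D)).map D.subtype = D := by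
        rw [h1, ← MonoidHom.range_eq_map, Subgroup.range_subtype]
      rw [← h2, Subgroup.map_sup]
      exact sup_le_sup le_rfl (hSP.trans hTP)
    have hKP : K ⊔ (P : Subgroup G) = ⊤ := top_le_iff.1 (hDP ▸ sup_le hDK le_sup_right)
    have hKcent : K ≤ Subgroup.centralizer ((P : Subgroup G) : Set G) := by
      intro z hz x hx
      set H := K ⊔ Subgroup.zpowers x with hH
      have hxH : x ∈ H := Subgroup.mem_sup_right (Subgroup.mem_zpowers x)
      have hzH : z ∈ H := Subgroup.mem_sup_left hz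
      obtain ⟨a, ha⟩ := IsPGroup.iff_orderOf.1 P.2 ⟨x, hx⟩
      rw [← Subgroup.orderOf_coe] at ha
      have htopH : K.subgroupOf H ⊔ Subgroup.zpowers (⟨x, hxH⟩ : H) = ⊤ := by
        apply Subgroup.map_injective H.subtype_injective
        rw [Subgroup.map_sup, Subgroup.map_subgroupOf_eq_of_le le_sup_left, MonoidHom.map_zpowers,
          ← MonoidHom.range_eq_map, Subgroup.range_subtype]
        rfl
      exact congrArg Subtype.val (central_of_small hp (ρ.comp H.subtype)
        (hρ.comp H.subtype_injective) hnp (K.subgroupOf H)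
        (by rwa [Nat.card_congr (Subgroup.subgroupOfEquivOfLe le_sup_left).toEquiv]) ⟨x, hxH⟩
        (a := a) (by rw [← Subgroup.orderOf_coe]; exact ha) htopH ⟨z, hzH⟩)
    refine hP (Subgroup.normalizer_eq_top_iff.1 (top_le_iff.1 ?_))
    rw [← hKP]
    exact sup_le (hKcent.trans (Subgroup.centralizer_le_normalizer _)) Subgroup.le_normalizer
  -- no central `p`-elements
  have hZ : (P : Subgroup G) ⊓ Subgroup.center G = ⊥ := by
    rw [Subgroup.eq_bot_iff_forall]
    rintro z ⟨hzP, hzc⟩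
    refine eq_one_of_constituents ρ hρ fun φ hφ => ?_
    obtain ⟨d, σ, hσirr, hσ⟩ := φ.2
    have hd : d = Cfsg.charDegree (φ : G → ℂ) := by
      have h1 : (φ : G → ℂ) 1 = (d : ℂ) := by rw [← hσ, Representation.char_one]; simp
      rw [← CfsgLib.Chars.coe_charDegree, Nat.cast_inj] at h1
      exact h1.symm
    have hd0 : 0 < d := hd ▸ CfsgLib.Chars.charDegree_pos φ
    obtain ⟨w, hw⟩ : ∃ w : ℂ, σ z = w • 1 :=
      ⟨_, CfsgLib.Chars.rep_eq_smul_of_norm_character_eq σ hd0.ne' (by
        rw [hσ, CfsgLib.Chars.norm_map_of_mem_center φ hzc, ← CfsgLib.Chars.coe_charDegree,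
          Complex.norm_natCast, hd])⟩
    have hdet : LinearMap.det (σ z) = 1 := by
      have h1 := Abelianization.commutator_subset_ker (MonoidHom.toHomUnits (LinearMap.det.comp σ))
        (hperf.symm ▸ Subgroup.mem_top z)
      exact congrArg Units.val (MonoidHom.mem_ker.1 h1)
    rw [hw, LinearMap.det_smul, Module.finrank_fin_fun, map_one, mul_one] at hdet
    obtain ⟨a, ha⟩ := IsPGroup.iff_orderOf.1 P.2 ⟨z, hzP⟩
    rw [← Subgroup.orderOf_coe] at ha
    have h2 : w ^ (p ^ a) = 1 := by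
      have h3 : σ z ^ (p ^ a) = 1 := by rw [← map_pow, ← ha, pow_orderOf_eq_one, map_one]
      rw [hw, smul_pow, one_pow] at h3
      obtain ⟨v, hv⟩ : ∃ v : Fin d → ℂ, v ⟨0, hd0⟩ = 1 := ⟨fun _ => 1, rfl⟩
      have h4 := congrFun (congrArg (fun T : Module.End ℂ (Fin d → ℂ) => T v) h3) ⟨0, hd0⟩
      simpa [hv] using h4
    have hcop : Nat.Coprime d (p ^ a) :=
      ((hp.coprime_iff_not_dvd).2 fun hdvd => by
        have := Nat.le_of_dvd hd0 hdvd
        omega).symm.pow_right a
    have hw1 : w = 1 := by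
      have h3 := pow_gcd_eq_one.2 ⟨hdet, h2⟩
      rwa [hcop, pow_one] at h3
    rw [← hσ]
    simp [Representation.character, hw, hw1]
  -- isolation
  have hconjZ : ∀ a u : G, u ∈ (P : Subgroup G).map (MulAut.conj a).toMonoidHom → u ≠ 1 →
      u ∉ Subgroup.center G := by
    rintro a _ ⟨v, hv, rfl⟩ hne hc
    refine hne ?_
    have hv1 : v ∈ Subgroup.center G := by
      simpa [mul_assoc] using (inferInstance : (Subgroup.center G).Normal).conj_mem _ hc a⁻¹
    rw [show v = 1 from Subgroup.mem_bot.1 (hZ ▸ ⟨hv, hv1⟩), map_one]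
  have huniq : ∀ a b u : G, u ≠ 1 → u ∈ (P : Subgroup G).map (MulAut.conj a).toMonoidHom →
      u ∈ (P : Subgroup G).map (MulAut.conj b).toMonoidHom →
      (P : Subgroup G).map (MulAut.conj a).toMonoidHom =
        (P : Subgroup G).map (MulAut.conj b).toMonoidHom := by
    intro a b u hu1 hua hub
    have hne : Subgroup.centralizer ({u} : Set G) ≠ ⊤ := fun he =>
      hconjZ a u hua hu1 (Subgroup.mem_center_iff.2 fun g =>
        Subgroup.mem_centralizer_singleton_iff.1 (he.symm ▸ Subgroup.mem_top g))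
    obtain ⟨T, -, hT, -, hTmax⟩ := hsub _ hne
    have hle : ∀ c : G, u ∈ (P : Subgroup G).map (MulAut.conj c).toMonoidHom →
        (P : Subgroup G).map (MulAut.conj c).toMonoidHom ≤ T := by
      intro c huc
      refine hTmax _ ?_ (P.2.map _)
      rintro _ ⟨y, hy, rfl⟩
      obtain ⟨v, hv, rfl⟩ := huc
      exact Subgroup.mem_centralizer_singleton_iff.2
        (by rw [← map_mul, ← map_mul, hcomm y hy v hv])
    have hcard : ∀ c : G, Nat.card T ≤ Nat.card ((P : Subgroup G).map (MulAut.conj c).toMonoidHom) := by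
      intro c
      rw [← Nat.card_congr ((P : Subgroup G).equivMapOfInjective _ (MulAut.conj c).injective).toEquiv]
      obtain ⟨R, hR⟩ := hT.exists_le_sylow
      refine (Nat.le_of_dvd Nat.card_pos (Subgroup.card_dvd_of_le hR)).trans ?_
      rw [Sylow.card_eq_multiplicity, Sylow.card_eq_multiplicity]
    rw [Subgroup.eq_of_le_of_card_ge (hle a hua) (hcard a),
      Subgroup.eq_of_le_of_card_ge (hle b hub) (hcard b)]
  have hI : CfsgLib.Chars.FeitBound.Isolated (P : Subgroup G) := by
    intro g hg a b ha hb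
    obtain ⟨⟨u, huC, hua⟩, hu1⟩ := Subgroup.ne_bot_iff_exists_ne_one.1 ha
    obtain ⟨⟨v, hvC, hvb⟩, hv1⟩ := Subgroup.ne_bot_iff_exists_ne_one.1 hb
    have hne : Subgroup.centralizer ({g} : Set G) ≠ ⊤ := fun he =>
      hg (Subgroup.mem_center_iff.2 fun y =>
        Subgroup.mem_centralizer_singleton_iff.1 (he.symm ▸ Subgroup.mem_top y))
    obtain ⟨T, -, hT, -, hTmax⟩ := hsub _ hne
    have hmemT : ∀ w c : G, w ∈ Subgroup.centralizer ({g} : Set G) →
        w ∈ (P : Subgroup G).map (MulAut.conj c).toMonoidHom → w ∈ T := by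
      intro w c hwC hwc
      refine hTmax (Subgroup.zpowers w) (Subgroup.zpowers_le.2 hwC) ?_ (Subgroup.mem_zpowers w)
      exact (P.2.map (MulAut.conj c).toMonoidHom).to_le (Subgroup.zpowers_le.2 hwc)
    obtain ⟨R, hR⟩ := hT.exists_le_sylow
    obtain ⟨c, rfl⟩ := MulAction.exists_smul_eq G P R
    rw [Sylow.coe_subgroup_smul] at hR
    exact (huniq a c u (fun h0 => hu1 (Subtype.ext h0)) hua (hR (hmemT u a huC hua))).trans
      (huniq b c v (fun h0 => hv1 (Subtype.ext h0)) hvb (hR (hmemT v b hvC hvb))).symm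
  -- the bound
  have hPbot : (P : Subgroup G) ≠ ⊥ := fun h0 => hP (h0 ▸ inferInstance)
  obtain ⟨⟨x, hx⟩, hx1⟩ := Subgroup.ne_bot_iff_exists_ne_one.1 hPbot
  obtain ⟨φ, hφn, hφx⟩ : ∃ φ : Cfsg.IrrCharacter G, Cfsg.charDegree (φ : G → ℂ) ≤ n ∧
      (φ : G → ℂ) x ≠ (φ : G → ℂ) 1 := by
    by_contra hall
    push Not at hall
    exact hx1 (Subtype.ext (eq_one_of_constituents ρ hρ hall))
  have hφ1 : (φ : G → ℂ) 1 ≠ 1 := fun h1 => hφx (CfsgLib.Chars.map_eq_map_one_of_mem_charKer
    ((CfsgLib.Chars.commutator_le_charKer_iff φ).2 h1 (hperf.symm ▸ Subgroup.mem_top x)))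
  have hlt := CfsgLib.Chars.FeitBound.card_lt_sq hcomm hZ hI φ hφ1 hgen
  have hb : (1 + Cfsg.charDegree (φ : G → ℂ)) ^ 2 ≤ (n + 1) ^ 2 := Nat.pow_le_pow_left (by omega) 2
  obtain ⟨j, hj⟩ := P.2.exists_card_eq
  rcases h with h | h
  · have hpd : p ≤ Nat.card (P : Subgroup G) := by
      rcases Nat.eq_zero_or_pos j with rfl | hj0
      · exact absurd (Subgroup.eq_bot_of_card_eq _ (by rw [hj, pow_zero])) hPbot
      · rw [hj]; exact Nat.le_self_pow hj0.ne' p
    omega
  · have hj2 : j < 2 := by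
      by_contra hj2
      have h1 : p ^ 2 ≤ Nat.card (P : Subgroup G) :=
        hj ▸ Nat.pow_le_pow_right hp.pos (not_lt.1 hj2)
      have h2 : (n + 1) ^ 2 ≤ p ^ 2 := Nat.pow_le_pow_left h.1.le 2
      omega
    have hdvd : ¬ p ^ 2 ∣ Nat.card (⊤ : Subgroup G) := by
      rw [Subgroup.card_top]
      intro hd
      have h1 : 2 ≤ (Nat.card G).factorization p :=
        (hp.pow_dvd_iff_le_factorization Nat.card_pos.ne').1 hd
      have h2 := P.card_eq_multiplicity
      rw [hj] at h2
      have := Nat.pow_right_injective hp.two_le h2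
      omega
    let e : G ≃* (⊤ : Subgroup G) := Subgroup.topEquiv.symm
    have h1 : (((P : Subgroup G).map e.toMonoidHom).comap e.toMonoidHom).Normal :=
      (h.2 ⊤ hdvd (P.mapSurjective (f := e.toMonoidHom) e.surjective)).comap e.toMonoidHom
    rw [Subgroup.comap_map_eq_self_of_injective e.injective] at h1
    exact hP h1

/-- Let G be a finite group with a faithful complex representation of degree n (on Fin n → ℂ) and p a prime. Suppose either that (n + 1) ^ 2 ≤ p, or that n + 1 < p and every subgroup of G whose order is not divisible by p ^ 2 has a normal Sylow p-subgroup. Then every Sylow p-subgroup of G is normal. -/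
theorem result {G : Type*} [Group G] [Finite G] (n : ℕ) (ρ : Representation ℂ G (Fin n → ℂ)) (hρ : Function.Injective ρ) (p : ℕ) [Fact p.Prime] (h : (n + 1) ^ 2 ≤ p ∨ (n + 1 < p ∧ ∀ K : Subgroup G, ¬ p ^ 2 ∣ Nat.card K → ∀ Q : Sylow p K, (Q : Subgroup K).Normal)) (P : Sylow p G) : (P : Subgroup G).Normal := by
  exact normal_sylow p n _ G rfl ρ hρ h P

end Cfsg.Agent.S0899
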