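import Cfsg.Statements.S0900
import Cfsg.Agent.Eq.Def_Characters
import Cfsg.Agent.Chars.Induced.Ito
import Cfsg.Agent.Chars.Induced.Relative

set_option autoImplicit false
open Cfsg

namespace Cfsg.Agent.S0900

/-- Let N be a normal subgroup of the finite group G, χ an irreducible character of G and ϑ an irreducible character of N having nonzero inner product with the restriction of χ. Consider: (a) the restriction of χ to N is e • ϑ for a natural number e with e ^ 2 equal to the index of N; (b) χ vanishes outside N and ϑ is invariant under conjugation by G; (c) ϑ is invariant and every irreducible character of G having nonzero inner product with the function induced from ϑ equals χ. Then (a) ↔ (b) and (a) ↔ (c). -/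
theorem result {G : Type*} [Group G] [Fintype G] (N : Subgroup G) [hN : N.Normal] [Fintype N] (χ : G → ℂ) (hχ : Cfsg.IsIrrCharacter G χ) (ϑ : N → ℂ) (hϑ : Cfsg.IsIrrCharacter N ϑ) (hcon : Cfsg.classInner (fun n : N => χ n) ϑ ≠ 0) : ((∃ e : ℕ, (fun n : N => χ n) = (e : ℂ) • ϑ ∧ e ^ 2 = N.index) ↔ ((∀ g : G, g ∉ N → χ g = 0) ∧ ∀ (g : G) (n : N), ϑ ⟨g * n * g⁻¹, hN.conj_mem (n : G) n.2 g⟩ = ϑ n)) ∧ ((∃ e : ℕ, (fun n : N => χ n) = (e : ℂ) • ϑ ∧ e ^ 2 = N.index) ↔ (∀ (g : G) (n : N), ϑ ⟨g * n * g⁻¹, hN.conj_mem (n : G) n.2 g⟩ = ϑ n ∧ ∀ ψ : G → ℂ, Cfsg.IsIrrCharacter G ψ → Cfsg.classInner (Cfsg.indFun N ϑ) ψ ≠ 0 → ψ = χ)) := by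
  classical
  let χ' : IrrCharacter G := ⟨χ, hχ⟩
  let θ' : IrrCharacter N := ⟨ϑ, hϑ⟩
  have hm : CfsgLib.Chars.Induced.mult (fun n : N => (χ' : G → ℂ) n) (θ' : N → ℂ) ≠ 0 :=
    (CfsgLib.Chars.Induced.mult_ne_zero_iff
      (CfsgLib.Chars.isCharacter_restrict (CfsgLib.Chars.isCharacter_coe χ') N) θ').2 hcon
  have hiff := CfsgLib.Chars.Induced.fully_ramified_iff χ' θ' hm
  have hinv : (∀ (g : G) (n : N), ϑ ⟨g * n * g⁻¹, hN.conj_mem (n : G) n.2 g⟩ = ϑ n) ↔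
      ∀ g : G, CfsgLib.Chars.Induced.conjFun N g ϑ = ϑ :=
    ⟨CfsgLib.Chars.Induced.conjFun_eq_of_forall, fun h g n => by
      conv_rhs => rw [← h g⁻¹, CfsgLib.Chars.Induced.conjFun_apply]
      exact congrArg ϑ (Subtype.ext (by simp))⟩
  have key : ∀ ψ : G → ℂ, Cfsg.IsIrrCharacter G ψ →
      (Cfsg.classInner (Cfsg.indFun N ϑ) ψ ≠ 0 ↔
        CfsgLib.Chars.Induced.mult (fun n : N => ψ n) ϑ ≠ 0) := fun ψ hψ => by
    rw [← CfsgLib.Chars.Induced.mult_indFun_irr N θ' ⟨ψ, hψ⟩]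
    exact (CfsgLib.Chars.Induced.mult_ne_zero_iff
      (CfsgLib.Chars.Induced.isCharacter_indFun N (CfsgLib.Chars.isCharacter_coe θ'))
      ⟨ψ, hψ⟩).symm
  refine ⟨hiff.1.trans (and_congr_right fun _ => hinv.symm), hiff.2.trans ⟨fun h g n => ?_, fun h => ?_⟩⟩
  · exact ⟨hinv.2 h.1 g n, fun ψ hψ h0 => congrArg Subtype.val
      (h.2 ⟨ψ, hψ⟩ ((key ψ hψ).1 h0))⟩
  · exact ⟨hinv.1 fun g n => (h g n).1, fun ψ h0 => Subtype.ext
      ((h 1 1).2 ψ ψ.2 ((key ψ ψ.2).2 h0))⟩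

end Cfsg.Agent.S0900
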