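import Cfsg.Statements.S0902
import Cfsg.Agent.Eq.Def_Blocks
import Cfsg.Agent.Blocks.Basic.Roots
import Cfsg.Agent.Blocks.Basic.Principal
import Cfsg.Agent.Chars.Apps.RootSums
import Cfsg.Agent.Chars.Basic

set_option autoImplicit false
open Cfsg

namespace Cfsg.Agent.S0902

/-- If two irreducible characters of a finite group lie in the same block relative to one maximal ideal M of the algebraic integers containing the prime p, then at every element the difference of their central characters is an algebraic integer lying in every maximal ideal containing p; in particular they lie in the same block relative to any such ideal. -/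
theorem result {G : Type*} [Group G] [Finite G] (p : ℕ) [Fact p.Prime] (M : Ideal Cfsg.AlgInt) (hM : Cfsg.IsPModular p M) (χ ψ : Cfsg.IrrCharacter G) (h : Cfsg.SameBlock M (χ : G → ℂ) (ψ : G → ℂ)) (M' : Ideal Cfsg.AlgInt) (hM' : Cfsg.IsPModular p M') (g : G) : ∃ r : Cfsg.AlgInt, r ∈ M' ∧ (r : ℂ) = Cfsg.centralChar (χ : G → ℂ) g - Cfsg.centralChar (ψ : G → ℂ) g := by
  classical
  haveI := Fintype.ofFinite G
  haveI := hM.2.1
  haveI := hM'.2.1
  set N := Nat.card G with hN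
  have hN0 : 0 < N := Nat.card_pos
  obtain ⟨ζ, hζ⟩ : ∃ ζ : ℂ, IsPrimitiveRoot ζ N := ⟨_, Complex.isPrimitiveRoot_exp N hN0.ne'⟩
  obtain ⟨nχ, ρχ, hρχ⟩ := CfsgLib.Chars.isCharacter_coe χ
  obtain ⟨nψ, ρψ, hρψ⟩ := CfsgLib.Chars.isCharacter_coe ψ
  obtain ⟨Pχ, hPχ⟩ := CfsgLib.Chars.Apps.exists_char_poly ρχ hζ g
  obtain ⟨Pψ, hPψ⟩ := CfsgLib.Chars.Apps.exists_char_poly ρψ hζ g
  rw [hρχ] at hPχ
  rw [hρψ] at hPψ
  set dχ := Cfsg.charDegree (χ : G → ℂ) with hdχ
  set dψ := Cfsg.charDegree (ψ : G → ℂ) with hdψ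
  set k := (Subgroup.centralizer ({g} : Set G)).index with hk
  have hdχ0 : (dχ : ℂ) ≠ 0 := Nat.cast_ne_zero.2 (CfsgLib.Chars.charDegree_pos χ).ne'
  have hdψ0 : (dψ : ℂ) ≠ 0 := Nat.cast_ne_zero.2 (CfsgLib.Chars.charDegree_pos ψ).ne'
  set P : Polynomial ℤ :=
    Polynomial.C ((k * dψ : ℕ) : ℤ) * Pχ - Polynomial.C ((k * dχ : ℕ) : ℤ) * Pψ with hP
  set c : ℕ := dχ * dψ with hc
  clear_value P c
  have hc0 : (c : ℂ) ≠ 0 := by rw [hc, Nat.cast_mul]; exact mul_ne_zero hdχ0 hdψ0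
  have hint : ∀ x : G, IsIntegral ℤ
      (Cfsg.centralChar (χ : G → ℂ) x - Cfsg.centralChar (ψ : G → ℂ) x) := fun x =>
    (CfsgLib.Chars.isIntegral_centralChar χ x).sub (CfsgLib.Chars.isIntegral_centralChar ψ x)
  have key : ∀ μ ∈ primitiveRoots N ℂ, ∃ r : Cfsg.AlgInt,
      r ∈ M ∧ (r : ℂ) * (c : ℂ) = Polynomial.aeval μ P := by
    intro μ hμ
    obtain ⟨j, _, hjc, rfl⟩ :=
      (hζ.isPrimitiveRoot_iff (ξ := μ)).1 ((mem_primitiveRoots hN0).1 hμ)
    refine ⟨⟨_, hint (g ^ j)⟩, CfsgLib.Blocks.memLocalIdeal_coe_iff.1 (h (g ^ j)), ?_⟩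
    obtain ⟨l, hl⟩ := exists_pow_eq_self_of_coprime
      (Nat.Coprime.coprime_dvd_right (orderOf_dvd_natCard g) hjc)
    have hcent : Subgroup.centralizer ({g ^ j} : Set G) = Subgroup.centralizer ({g} : Set G) := by
      ext x
      simp only [Subgroup.mem_centralizer_singleton_iff]
      refine ⟨fun hx => ?_, fun hx => Commute.pow_right hx j⟩
      have hx' : Commute x ((g ^ j) ^ l) := Commute.pow_right hx l
      rw [hl] at hx'
      exact hx'
    simp only [Cfsg.centralChar, hcent, ← hk, hPχ, hPψ, ← CfsgLib.Chars.coe_charDegree, ← hdχ,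
      ← hdψ, hP, hc, Nat.cast_mul, map_sub, map_mul, Polynomial.aeval_C]
    simp only [algebraMap_int_eq, eq_intCast, Int.cast_mul, Int.cast_natCast]
    field_simp
  choose R hRM hR using key
  refine ⟨⟨_, hint g⟩, ?_, rfl⟩
  by_contra hr
  obtain ⟨m, hm, hmem⟩ := CfsgLib.Blocks.exists_pow_sub_one_mem hM' hr
  have hm0 : m ≠ 0 := fun h0 => hm (h0 ▸ dvd_zero p)
  set T : Cfsg.AlgInt := ∏ μ ∈ (primitiveRoots N ℂ).attach, (R μ.1 μ.2 ^ m - 1) with hT
  -- the product is a rational integer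
  obtain ⟨Z, hZ⟩ := CfsgLib.Chars.Apps.exists_intCast_eq_prod hN0
    (P ^ m - Polynomial.C ((c : ℤ) ^ m))
  have hTZ : (T : ℂ) = (Z : ℂ) / (c : ℂ) ^ (m * (primitiveRoots N ℂ).card) := by
    rw [eq_div_iff (pow_ne_zero _ hc0), hZ, hT, pow_mul, ← Finset.card_attach,
      ← Finset.prod_const, ← Finset.prod_attach (primitiveRoots N ℂ)]
    push_cast
    rw [← Finset.prod_mul_distrib]
    refine Finset.prod_congr rfl fun μ _ => ?_
    rw [sub_mul, ← mul_pow, hR μ.1 μ.2, one_mul, map_sub, map_pow, Polynomial.aeval_C]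
    simp
  obtain ⟨n, hn⟩ := CfsgLib.Chars.Apps.exists_intCast_eq_of_isIntegral_div (hTZ ▸ T.2)
  have hTn : T = (n : Cfsg.AlgInt) := Subtype.ext (by rw [hTZ, ← hn]; push_cast; rfl)
  -- it lies in `M'`
  have hζmem : ζ ∈ primitiveRoots N ℂ := (mem_primitiveRoots hN0).2 hζ
  have hRζ : R ζ hζmem = ⟨_, hint g⟩ := by
    refine Subtype.ext (mul_right_cancel₀ hc0 ?_)
    rw [hR ζ hζmem]
    have h1 := hPχ 1
    have h2 := hPψ 1
    simp only [pow_one] at h1 h2
    simp only [Cfsg.centralChar, ← hk, h1, h2, ← CfsgLib.Chars.coe_charDegree, ← hdχ, ← hdψ, hP,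
      hc, Nat.cast_mul, map_sub, map_mul, Polynomial.aeval_C]
    simp only [algebraMap_int_eq, eq_intCast, Int.cast_mul, Int.cast_natCast]
    field_simp
  have hTM' : T ∈ M' := by
    rw [hT, ← Finset.mul_prod_erase _ _ (Finset.mem_attach _ ⟨ζ, hζmem⟩)]
    exact M'.mul_mem_right _ (by rw [hRζ]; exact hmem)
  -- and it is prime to `M`
  have hTM : T ∉ M := by
    intro hTM
    obtain ⟨μ, -, hμ⟩ := (Ideal.IsPrime.prod_mem_iff (hp := hM.2.1.isPrime)).1 hTM
    refine (Ideal.ne_top_iff_one M).1 hM.2.1.ne_top ?_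
    have h1 := M.sub_mem (Ideal.pow_mem_of_mem M (hRM μ.1 μ.2) m (Nat.pos_of_ne_zero hm0)) hμ
    rwa [sub_sub_cancel] at h1
  have hnat : ∀ (I : Ideal Cfsg.AlgInt), Cfsg.IsPModular p I →
      ((n : Cfsg.AlgInt) ∈ I ↔ p ∣ n.natAbs) := by
    intro I hI
    rw [← CfsgLib.Blocks.natCast_mem_iff_dvd hI]
    rcases Int.natAbs_eq n with hh | hh <;> conv_lhs => rw [hh]
    · rw [Int.cast_natCast]
    · rw [Int.cast_neg, Int.cast_natCast, I.neg_mem_iff]
  rw [hTn] at hTM hTM'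
  exact hTM ((hnat M hM).2 ((hnat M' hM').1 hTM'))

end Cfsg.Agent.S0902
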