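import Cfsg.Statements.S0903

set_option autoImplicit false
open Cfsg

namespace Cfsg.Agent.S0903

/-- Let P be a p-subgroup of the finite group G, let c centralize P and let g, h ∈ G. The number of pairs (x, y) with x conjugate to g, y conjugate to h and x * y = c is congruent modulo p to the number of such pairs in which x and y both centralize P. (This is why the Brauer map on class sums is multiplicative.) -/
theorem result {G : Type*} [Group G] [Finite G] (p : ℕ) [Fact p.Prime] (P : Subgroup G) (hP : IsPGroup p P) (c : G) (hc : c ∈ Subgroup.centralizer (P : Set G)) (g h : G) : Nat.card {xy : G × G // IsConj g xy.1 ∧ IsConj h xy.2 ∧ xy.1 * xy.2 = c} ≡ Nat.card {xy : G × G // IsConj g xy.1 ∧ IsConj h xy.2 ∧ xy.1 * xy.2 = c ∧ xy.1 ∈ Subgroup.centralizer (P : Set G) ∧ xy.2 ∈ Subgroup.centralizer (P : Set G)} [MOD p] := by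
  classical
  let S := {xy : G × G // IsConj g xy.1 ∧ IsConj h xy.2 ∧ xy.1 * xy.2 = c}
  have hPc : ∀ a : P, (a : G) * c * (a : G)⁻¹ = c := by
    intro a
    rw [Subgroup.mem_centralizer_iff.mp hc (a : G) a.2, mul_inv_cancel_right]
  letI act : MulAction P S :=
    { smul := fun a s => ⟨((a : G) * s.1.1 * (a : G)⁻¹, (a : G) * s.1.2 * (a : G)⁻¹),
        s.2.1.trans (isConj_iff.mpr ⟨a, rfl⟩), s.2.2.1.trans (isConj_iff.mpr ⟨a, rfl⟩), by
          calc (a : G) * s.1.1 * (a : G)⁻¹ * ((a : G) * s.1.2 * (a : G)⁻¹)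
              = (a : G) * (s.1.1 * s.1.2) * (a : G)⁻¹ := by group
            _ = c := by rw [s.2.2.2, hPc]⟩
      one_smul := fun s => by apply Subtype.ext; simp [HSMul.hSMul]
      mul_smul := fun a b s => by
        apply Subtype.ext
        simp [HSMul.hSMul, mul_assoc] }
  refine (hP.card_modEq_card_fixedPoints S).trans ?_
  rw [Nat.card_congr (β := {xy : G × G // IsConj g xy.1 ∧ IsConj h xy.2 ∧ xy.1 * xy.2 = c ∧
    xy.1 ∈ Subgroup.centralizer (P : Set G) ∧ xy.2 ∈ Subgroup.centralizer (P : Set G)})]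
  refine
    { toFun := fun s => ⟨s.1.1, s.1.2.1, s.1.2.2.1, s.1.2.2.2, ?_, ?_⟩
      invFun := fun s => ⟨⟨s.1, s.2.1, s.2.2.1, s.2.2.2.1⟩, ?_⟩
      left_inv := fun _ => rfl
      right_inv := fun _ => rfl }
  · rw [Subgroup.mem_centralizer_iff]
    intro a ha
    exact mul_inv_eq_iff_eq_mul.mp (congrArg (fun t : S => t.1.1) (s.2 ⟨a, ha⟩))
  · rw [Subgroup.mem_centralizer_iff]
    intro a ha
    exact mul_inv_eq_iff_eq_mul.mp (congrArg (fun t : S => t.1.2) (s.2 ⟨a, ha⟩))
  · intro a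
    apply Subtype.ext
    apply Prod.ext
    · exact mul_inv_eq_iff_eq_mul.mpr (Subgroup.mem_centralizer_iff.mp s.2.2.2.2.1 a a.2)
    · exact mul_inv_eq_iff_eq_mul.mpr (Subgroup.mem_centralizer_iff.mp s.2.2.2.2.2 a a.2)

end Cfsg.Agent.S0903
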