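import Cfsg.Statements.S0910
import Cfsg.Agent.Blocks.Basic.Principal
import Cfsg.Agent.Chars.Apps.RootSums

set_option autoImplicit false
open Cfsg

namespace Cfsg.Agent.S0910

/-- Let G be a non-abelian finite simple group and p a prime. If an irreducible character χ lies in the principal block (relative to a maximal ideal of the algebraic integers containing p) and χ 1 is a power of p, then χ is the principal character. -/
theorem result {G : Type*} [Group G] [Finite G] (p : ℕ) [Fact p.Prime] (M : Ideal Cfsg.AlgInt) (hM : Cfsg.IsPModular p M) [IsSimpleGroup G] (hna : ∃ a b : G, a * b ≠ b * a) (χ : Cfsg.IrrCharacter G) (hχ : χ ∈ Cfsg.principalBlock M G) (k : ℕ) (hdeg : (χ : G → ℂ) 1 = (p : ℂ) ^ k) : (χ : G → ℂ) = fun _ => 1 := by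
  haveI := Fintype.ofFinite G
  haveI := hM.2.1
  rcases Nat.eq_zero_or_pos k with hk | hk
  · subst hk
    rw [pow_zero] at hdeg
    obtain ⟨l, hl⟩ := CfsgLib.Chars.exists_monoidHom_of_map_one_eq_one
      (CfsgLib.Chars.isCharacter_coe χ) hdeg
    rcases IsSimpleGroup.eq_bot_or_eq_top_of_normal l.ker inferInstance with hb | ht
    · exfalso
      obtain ⟨a, b, hab⟩ := hna
      exact hab ((MonoidHom.ker_eq_bot_iff l).mp hb (by rw [map_mul, map_mul, mul_comm]))
    · funext g
      rw [hl]
      have : l g = 1 := MonoidHom.mem_ker.mp (ht ▸ Subgroup.mem_top g)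
      simp [this]
  exfalso
  obtain ⟨P⟩ := (inferInstance : Nonempty (Sylow p G))
  -- a nontrivial element whose class has size prime to p
  obtain ⟨g, hg1, hgidx⟩ : ∃ g : G, g ≠ 1 ∧
      ¬ p ∣ (Subgroup.centralizer ({g} : Set G)).index := by
    by_cases hP : (P : Subgroup G) = ⊥
    · obtain ⟨g, hg⟩ := exists_ne (1 : G)
      refine ⟨g, hg, fun hd => ?_⟩
      have hidx := P.not_dvd_index
      rw [hP, Subgroup.index_bot] at hidx
      exact hidx (hd.trans (Subgroup.index_dvd_card _))
    · haveI : Nontrivial (P : Subgroup G) := (Subgroup.nontrivial_iff_ne_bot _).mpr hP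
      haveI := P.2.center_nontrivial
      obtain ⟨⟨⟨g, hgP⟩, hgZ⟩, hg1⟩ := exists_ne (1 : Subgroup.center (P : Subgroup G))
      refine ⟨g, fun h => hg1 (Subtype.ext (Subtype.ext h)), fun hd => P.not_dvd_index ?_⟩
      have hle : (P : Subgroup G) ≤ Subgroup.centralizer ({g} : Set G) := fun a ha =>
        Subgroup.mem_centralizer_singleton_iff.mpr
          (congrArg Subtype.val (Subgroup.mem_center_iff.mp hgZ ⟨a, ha⟩))
      exact hd.trans (Subgroup.index_dvd_of_le hle)
  set C := (Subgroup.centralizer ({g} : Set G)).index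
  have hcong : Cfsg.MemLocalIdeal M ((C : ℂ) - Cfsg.centralChar (χ : G → ℂ) g) :=
    (CfsgLib.Blocks.mem_principalBlock_iff χ).mp hχ g
  obtain ⟨n, ρ, hρ, hρc⟩ := χ.2
  have hn : (n : ℂ) = (p : ℂ) ^ k := by
    rw [← hdeg, ← hρc, Representation.char_one, Module.finrank_fin_fun]
  have hint : IsIntegral ℤ (ρ.character g / (n : ℂ)) := by
    refine CfsgLib.Chars.Apps.isIntegral_div_of_coprime
      (CfsgLib.Chars.Apps.isIntegral_char ρ g) (m := C) (b := n) ?_ ?_
    · have : n = p ^ k := by exact_mod_cast hn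
      rw [this]
      exact (Nat.Prime.coprime_iff_not_dvd Fact.out).mpr hgidx |>.symm.pow_right k
    · have hci := CfsgLib.Blocks.centralChar_isIntegral χ.2 g
      rw [Cfsg.centralChar, hdeg, ← hn, ← hρc] at hci
      exact hci
  rcases CfsgLib.Chars.Apps.char_eq_zero_or_norm_eq ρ g hint with h0 | hnorm
  · rw [Cfsg.centralChar, ← hρc, h0, mul_zero, zero_div, sub_zero] at hcong
    have hC : (C : AlgInt) ∈ M := CfsgLib.Blocks.memLocalIdeal_coe_iff.mp (by simpa using hcong)
    exact hgidx ((CfsgLib.Blocks.natCast_mem_iff_dvd hM C).mp hC)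
  · obtain ⟨c, hc⟩ := CfsgLib.Chars.Apps.exists_smul_of_norm_char_eq ρ g hnorm
    have hcen : ∀ x : G, g * x * g⁻¹ * x⁻¹ ∈ CfsgLib.Chars.charKer (χ : G → ℂ) := by
      intro x
      rw [← hρc, CfsgLib.Chars.mem_charKer_iff_rep, map_mul, map_mul, map_mul]
      calc ρ g * ρ x * ρ g⁻¹ * ρ x⁻¹ = ρ x * (ρ g * ρ g⁻¹) * ρ x⁻¹ := by
            rw [hc, smul_one_mul, ← mul_smul_one]; simp only [mul_assoc]
        _ = 1 := by rw [← map_mul ρ g g⁻¹, mul_inv_cancel, map_one, mul_one, ← map_mul,
              mul_inv_cancel, map_one]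
    rcases IsSimpleGroup.eq_bot_or_eq_top_of_normal (CfsgLib.Chars.charKer (χ : G → ℂ))
        inferInstance with hb | ht
    · -- faithful: g is central
      have hgZ : g ∈ Subgroup.center G := Subgroup.mem_center_iff.mpr fun x => by
        have := hcen x
        rw [hb, Subgroup.mem_bot, mul_inv_eq_one, mul_inv_eq_iff_eq_mul] at this
        exact this.symm
      rcases IsSimpleGroup.eq_bot_or_eq_top_of_normal (Subgroup.center G) inferInstance with hz | hz
      · rw [hz, Subgroup.mem_bot] at hgZ
        exact hg1 hgZ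
      · obtain ⟨a, b, hab⟩ := hna
        exact hab ((Subgroup.mem_center_iff.mp (hz ▸ Subgroup.mem_top b : b ∈ Subgroup.center G)) a)
    · -- trivial on G: χ is the constant χ 1, so it has degree one
      have hconst : ∀ x : G, (χ : G → ℂ) x = (χ : G → ℂ) 1 := fun x =>
        CfsgLib.Chars.map_eq_map_one_of_mem_charKer (ht ▸ Subgroup.mem_top x)
      have horth := CfsgLib.Chars.sum_mul_map_inv χ χ
      rw [Finset.sum_congr rfl fun x _ => by rw [hconst x, hconst x⁻¹], Finset.sum_const,
        Finset.card_univ, nsmul_eq_mul, if_pos rfl, ← Nat.card_eq_fintype_card,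
        mul_right_eq_self₀] at horth
      rcases horth with horth | horth
      · rw [hdeg, ← sq, ← pow_mul] at horth
        have : p ^ (k * 2) = 1 := by exact_mod_cast horth
        have := Nat.pow_eq_one.mp this
        rcases this with h | h
        · exact (Fact.out : p.Prime).ne_one h
        · omega
      · exact CfsgLib.Chars.natCard_ne_zero horth

end Cfsg.Agent.S0910
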