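import Cfsg.Statements.S0904
import Cfsg.Agent.Eq.Def_Blocks
import Cfsg.Agent.Blocks.Orth.Blocks
import Cfsg.Agent.Blocks.Basic.Principal
import Cfsg.Agent.S0910
import Cfsg.Agent.S0914

set_option autoImplicit false
open Cfsg

namespace Cfsg.Agent.S0904

theorem no_commuting_elements {G : Type*} [Group G] [Finite G] [IsSimpleGroup G]
    (hna : ∃ a b : G, a * b ≠ b * a) (p q r a b : ℕ) (hp : p.Prime) (hq : q.Prime) (hr : r.Prime)
    (hpq : p ≠ q) (hpr : p ≠ r) (hqr : q ≠ r) (hcard : Nat.card G = p ^ a * q ^ b * r)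
    {x s : G} (hx : orderOf x = p) (hs : orderOf s = r) (hxs : Commute x s) : False := by
  classical
  haveI := Fintype.ofFinite G
  haveI : Fact p.Prime := ⟨hp⟩
  haveI : Fact r.Prime := ⟨hr⟩
  obtain ⟨M, hM⟩ := CfsgLib.Blocks.exists_isPModular p hp
  obtain ⟨N, hN⟩ := CfsgLib.Blocks.exists_isPModular r hr
  haveI := hM.2.1
  have hy : orderOf (x * s) = p * r := by
    rw [hxs.orderOf_mul_eq_mul_orderOf_of_coprime
      (by rw [hx, hs]; exact (Nat.coprime_primes hp hr).2 hpr), hx, hs]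
  have hB := CfsgLib.Blocks.isPBlock_principalBlock (M := M) (G := G)
  have hsum := CfsgLib.Blocks.finsum_block_one_mul_singular hM hB (y := x * s)
    (hy ▸ dvd_mul_right p r)
  have hterm : ∀ χ ∈ Cfsg.principalBlock M G, χ ≠ CfsgLib.Chars.oneChar G →
      ∃ z : ℂ, IsIntegral ℤ z ∧ (χ : G → ℂ) 1 * (χ : G → ℂ) (x * s) = (q : ℂ) * z := by
    intro χ hχ hne
    set d := Cfsg.charDegree (χ : G → ℂ) with hd
    have h1 : (χ : G → ℂ) 1 = (d : ℂ) := (CfsgLib.Chars.coe_charDegree χ).symm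
    have hdvd : d ∣ p ^ a * q ^ b * r := hcard ▸ CfsgLib.Chars.charDegree_dvd_card χ
    have hint := CfsgLib.Chars.isIntegral_apply (CfsgLib.Chars.isCharacter_coe χ) (x * s)
    by_cases hrd : r ∣ d
    · refine ⟨0, isIntegral_zero, ?_⟩
      have hdef : ¬ r ∣ Nat.card G / d := by
        intro hdiv
        have h2 : r * r ∣ p ^ a * q ^ b * r := by
          rw [← hcard, ← Nat.div_mul_cancel (CfsgLib.Chars.charDegree_dvd_card χ)]
          exact mul_dvd_mul hdiv hrd
        rcases hr.dvd_mul.1 (Nat.dvd_of_mul_dvd_mul_right hr.pos h2) with h3 | h3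
        · exact hpr ((Nat.prime_dvd_prime_iff_eq hr hp).1 (hr.dvd_of_dvd_pow h3)).symm
        · exact hqr ((Nat.prime_dvd_prime_iff_eq hr hq).1 (hr.dvd_of_dvd_pow h3)).symm
      have hblock := (Cfsg.Agent.S0914.result r N hN χ).1 hdef
      have h0 := CfsgLib.Blocks.blockCoeff_eq_zero_of_singular hN ⟨χ, rfl⟩ (g := x * s)
        (hy ▸ dvd_mul_left r p)
      rw [hblock, Cfsg.blockCoeff, finsum_mem_singleton, mul_eq_zero,
        or_iff_right (inv_ne_zero (Nat.cast_ne_zero.2 Nat.card_pos.ne')), mul_eq_zero,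
        or_iff_right (CfsgLib.Chars.map_one_ne_zero χ)] at h0
      have h0' := congrArg (starRingEnd ℂ) h0
      rw [Complex.conj_conj, map_zero] at h0'
      rw [h0', mul_zero, mul_zero]
    by_cases hqd : q ∣ d
    · obtain ⟨e, he⟩ := hqd
      refine ⟨(e : ℂ) * (χ : G → ℂ) (x * s), IsIntegral.mul ?_ hint, ?_⟩
      · exact_mod_cast isIntegral_algebraMap (R := ℤ) (A := ℂ) (x := (e : ℤ))
      · rw [h1, he, Nat.cast_mul, mul_assoc]
    exfalso
    have hc : Nat.Coprime d (q ^ b) :=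
      ((hq.coprime_iff_not_dvd.2 hqd).symm).pow_right _
    have hdp : d ∣ p ^ a := hc.dvd_of_dvd_mul_right
      ((Nat.Coprime.symm (hr.coprime_iff_not_dvd.2 hrd)).dvd_of_dvd_mul_right hdvd)
    obtain ⟨i, _, hi⟩ := (Nat.dvd_prime_pow hp).1 hdp
    have h10 := Cfsg.Agent.S0910.result p M hM hna χ hχ i (by rw [h1, hi, Nat.cast_pow])
    exact hne (Subtype.ext (by rw [CfsgLib.Chars.oneChar_coe]; exact h10))
  choose! z hz hz' using hterm
  rw [CfsgLib.Blocks.finsum_block_eq_sum, ← Finset.add_sum_erase _ _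
    ((Cfsg.principalBlock M G).toFinite.mem_toFinset.2 CfsgLib.Blocks.oneChar_mem_principalBlock),
    Finset.sum_congr rfl (fun χ hχ => hz' χ (by simpa using (Finset.mem_erase.1 hχ).2)
      (Finset.mem_erase.1 hχ).1), ← Finset.mul_sum, CfsgLib.Chars.oneChar_coe] at hsum
  simp only [one_mul] at hsum
  apply hq.ne_one
  apply Nat.dvd_one.1
  apply CfsgLib.Chars.dvd_of_isIntegral_div hq.ne_zero
  have hinv : ((1 : ℕ) : ℂ) / (q : ℂ) =
      -∑ χ ∈ (Cfsg.principalBlock M G).toFinite.toFinset.erase (CfsgLib.Chars.oneChar G), z χ := by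
    rw [div_eq_iff (Nat.cast_ne_zero.2 hq.ne_zero)]
    linear_combination hsum
  rw [hinv]
  exact (IsIntegral.sum _ fun χ hχ => hz χ (by simpa using (Finset.mem_erase.1 hχ).2)
    (Finset.mem_erase.1 hχ).1).neg

/-- Let G be a finite simple group of order p ^ a * q ^ b * r with p, q, r distinct primes. Then every Sylow r-subgroup S of G satisfies C_G(S) = S. -/
theorem result {G : Type*} [Group G] [Finite G] [IsSimpleGroup G] (p q r a b : ℕ) (hp : p.Prime) (hq : q.Prime) [Fact r.Prime] (hpq : p ≠ q) (hpr : p ≠ r) (hqr : q ≠ r) (hcard : Nat.card G = p ^ a * q ^ b * r) (S : Sylow r G) : Subgroup.centralizer (S : Set G) = (S : Subgroup G) := by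
  classical
  have hr : r.Prime := Fact.out
  have hrG : r ∣ Nat.card G := hcard ▸ dvd_mul_left r _
  by_cases hna : ∃ a b : G, a * b ≠ b * a
  · have hfac : (Nat.card G).factorization r = 1 := by
      have h1 : ¬ r ∣ p ^ a * q ^ b := fun h => by
        rcases hr.dvd_mul.1 h with h | h
        · exact hpr ((Nat.prime_dvd_prime_iff_eq hr hp).1 (hr.dvd_of_dvd_pow h)).symm
        · exact hqr ((Nat.prime_dvd_prime_iff_eq hr hq).1 (hr.dvd_of_dvd_pow h)).symm
      rw [hcard, Nat.factorization_mul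
        (mul_ne_zero (pow_ne_zero _ hp.ne_zero) (pow_ne_zero _ hq.ne_zero)) hr.ne_zero,
        Finsupp.add_apply, Nat.factorization_eq_zero_of_not_dvd h1, hr.factorization_self]
    have hS : Nat.card (S : Subgroup G) = r := by rw [S.card_eq_multiplicity, hfac, pow_one]
    haveI : IsCyclic (S : Subgroup G) := isCyclic_of_prime_card hS
    have hle : (S : Subgroup G) ≤ Subgroup.centralizer (S : Set G) := fun u hu v hv =>
      congrArg Subtype.val ((IsCyclic.isMulCommutative (α := (S : Subgroup G))).is_comm.comm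
        ⟨v, hv⟩ ⟨u, hu⟩)
    refine le_antisymm ?_ hle
    by_contra hnot
    obtain ⟨m, hm⟩ := Subgroup.card_dvd_of_le hle
    have hm1 : m ≠ 1 := fun h1 =>
      hnot (Subgroup.eq_of_le_of_card_ge hle (by rw [hm, h1, mul_one])).ge
    obtain ⟨l, hl, hlm⟩ := Nat.exists_prime_and_dvd hm1
    have hmdvd : m ∣ p ^ a * q ^ b := by
      have h1 := Subgroup.card_subgroup_dvd_card (Subgroup.centralizer (S : Set G))
      rw [hm, hS, hcard, mul_comm r m] at h1
      exact Nat.dvd_of_mul_dvd_mul_right hr.pos h1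
    haveI : Fact l.Prime := ⟨hl⟩
    obtain ⟨x, hx⟩ := exists_prime_orderOf_dvd_card' l (hlm.trans (Dvd.intro_left _ hm.symm))
    obtain ⟨s, hs⟩ := exists_prime_orderOf_dvd_card' (G := (S : Subgroup G)) r (dvd_of_eq hS.symm)
    have hx' : orderOf (x : G) = l := by rw [Subgroup.orderOf_coe, hx]
    have hs' : orderOf (s : G) = r := by rw [Subgroup.orderOf_coe, hs]
    have hcomm : Commute (x : G) (s : G) := (x.2 s s.2).symm
    rcases hl.dvd_mul.1 (hlm.trans hmdvd) with h | h
    · obtain rfl := (Nat.prime_dvd_prime_iff_eq hl hp).1 (hl.dvd_of_dvd_pow h)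
      exact no_commuting_elements hna l q r a b hp hq hr hpq hpr hqr hcard hx' hs' hcomm
    · obtain rfl := (Nat.prime_dvd_prime_iff_eq hl hq).1 (hl.dvd_of_dvd_pow h)
      exact no_commuting_elements hna l p r b a hq hp hr hpq.symm hqr hpr
        (by rw [hcard, mul_comm (p ^ a)]) hx' hs' hcomm
  · push Not at hna
    haveI hn : (S : Subgroup G).Normal := ⟨fun n hn g => by rwa [hna g n, mul_inv_cancel_right]⟩
    have hne : (S : Subgroup G) ≠ ⊥ := fun h0 => by
      have h2 := S.card_eq_multiplicity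
      rw [h0, Subgroup.card_bot, eq_comm, Nat.pow_eq_one] at h2
      rcases h2 with h2 | h2
      · exact hr.ne_one h2
      · exact absurd h2 (hr.factorization_pos_of_dvd Nat.card_pos.ne' hrG).ne'
    rw [(hn.eq_bot_or_eq_top).resolve_left hne]
    refine eq_top_iff.2 fun u _ v hv => ?_
    exact hna v u

end Cfsg.Agent.S0904
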