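import Cfsg.Statements.S0905
import Cfsg.Agent.Blocks.Basic.PGroup
import Cfsg.Agent.Constrained.Basic

set_option autoImplicit false
open Cfsg

namespace Cfsg.Agent.S0905

/-- Let F be a field of characteristic p and let g be an element of the finite group G no conjugate of which centralizes O_p(G). Then the class sum of g is a nilpotent element of the group algebra F[G]. -/
theorem result {G : Type*} [Group G] [Finite G] (p : ℕ) [Fact p.Prime] (F : Type*) [Field F] [CharP F p] (g : G) (hg : ∀ x : G, IsConj g x → x ∉ Subgroup.centralizer (Cfsg.pCore p G : Set G)) : IsNilpotent (∑ᶠ x ∈ ConjClasses.carrier (ConjClasses.mk g), MonoidAlgebra.single x (1 : F) : MonoidAlgebra F G) := by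
  classical
  haveI := Fintype.ofFinite G
  haveI : IsArtinianRing (MonoidAlgebra F G) := by
    haveI : Module.Finite F (MonoidAlgebra F G) := Module.Finite.of_basis (MonoidAlgebra.basis G F)
    exact IsArtinianRing.of_finite F _
  rw [finsum_mem_eq_toFinset_sum]
  set S := (ConjClasses.carrier (ConjClasses.mk g)).toFinset with hS
  have hmemS : ∀ x, x ∈ S ↔ IsConj g x := fun x => by
    rw [hS, Set.mem_toFinset, ConjClasses.mem_carrier_iff_mk_eq, ConjClasses.mk_eq_mk_iff_isConj]
    exact isConj_comm
  have hmem : (∑ x ∈ S, MonoidAlgebra.single x (1 : F)) ∈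
      Ideal.jacobson (⊥ : Ideal (MonoidAlgebra F G)) := by
    refine Ideal.mem_sInf.mpr fun {J} hJ => ?_
    have h := CfsgLib.Blocks.sum_single_sub_fixed_mem (F := F) (P := Cfsg.pCore p G)
      CfsgLib.Constrained.isPGroup_pCore hJ.2 S fun u _ x hx =>
        (hmemS _).mpr (((hmemS x).mp hx).trans (isConj_iff.mpr ⟨u, rfl⟩))
    rwa [show S.filter (· ∈ Subgroup.centralizer (Cfsg.pCore p G : Set G)) = ∅ from
      Finset.filter_eq_empty_iff.mpr fun x hx => hg x ((hmemS x).mp hx), Finset.sum_empty,
      sub_zero] at h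
  obtain ⟨k, hk⟩ := IsArtinianRing.isNilpotent_jacobson_bot (R := MonoidAlgebra F G)
  refine ⟨k, ?_⟩
  have := Ideal.pow_mem_pow hmem k
  rw [hk] at this
  exact this

end Cfsg.Agent.S0905
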