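import Cfsg.Statements.S0911
import Cfsg.Agent.Eq.Def_Blocks
import Cfsg.Agent.Blocks.HeightZero.MinMax

set_option autoImplicit false
open Cfsg

namespace Cfsg.Agent.S0911

/-- The min–max Theorem for defect classes. Let B be a block of the finite group G relative to a maximal ideal M of the algebraic integers containing the prime p, let g represent a defect class of B and let D be a Sylow p-subgroup of the centralizer of g (viewed in G). For any h: (a) if the idempotent coefficient of B at h is a local integer outside the local ideal, then some conjugate of D contains a Sylow p-subgroup of the centralizer of h; (b) if the central character of some member of B at h is outside the local ideal, then some conjugate of D is contained in a Sylow p-subgroup of the centralizer of h. -/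
theorem result {G : Type*} [Group G] [Finite G] (p : ℕ) [Fact p.Prime] (M : Ideal Cfsg.AlgInt) (hM : Cfsg.IsPModular p M) (B : Set (Cfsg.IrrCharacter G)) (hB : Cfsg.IsPBlock M B) (g : G) (hg : Cfsg.IsDefectClass M B g) (D : Sylow p (Subgroup.centralizer ({g} : Set G))) (h : G) : (Cfsg.MemLocalRing M (Cfsg.blockCoeff B h) → ¬ Cfsg.MemLocalIdeal M (Cfsg.blockCoeff B h) → ∃ (x : G) (Q : Sylow p (Subgroup.centralizer ({h} : Set G))), (Q : Subgroup (Subgroup.centralizer ({h} : Set G))).map (Subgroup.centralizer ({h} : Set G)).subtype ≤ ((D : Subgroup (Subgroup.centralizer ({g} : Set G))).map (Subgroup.centralizer ({g} : Set G)).subtype).map (MulAut.conj x).toMonoidHom) ∧ ((∃ χ ∈ B, ¬ Cfsg.MemLocalIdeal M (Cfsg.centralChar (χ : G → ℂ) h)) → ∃ (x : G) (Q : Sylow p (Subgroup.centralizer ({h} : Set G))), ((D : Subgroup (Subgroup.centralizer ({g} : Set G))).map (Subgroup.centralizer ({g} : Set G)).subtype).map (MulAut.conj x).toMonoidHom ≤ (Q : Subgroup (Subgroup.centralizer ({h} : Set G))).map (Subgroup.centralizer ({h} : Set G)).subtype)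 := by
  have hD : Cfsg.IsDefectGroup p M B _ := ⟨g, hg, D, rfl⟩
  refine ⟨fun _ hu => ?_, fun ⟨χ, hχ, hu⟩ => ?_⟩
  · obtain ⟨Q⟩ : Nonempty (Sylow p (Subgroup.centralizer ({h} : Set G))) := inferInstance
    obtain ⟨x, hx⟩ := CfsgLib.Blocks.HeightZero.exists_le_conj_of_coeff hM hB hu
      (Q.isPGroup'.map (Subgroup.centralizer ({h} : Set G)).subtype) (Subgroup.map_subtype_le _) hD
    exact ⟨x, Q, hx⟩
  · obtain ⟨x, hx⟩ := CfsgLib.Blocks.HeightZero.exists_conj_le_centralizer hM hB hχ hu hD
    set E := (D : Subgroup (Subgroup.centralizer ({g} : Set G))).map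
      (Subgroup.centralizer ({g} : Set G)).subtype
    have hle : E.map (MulAut.conj x⁻¹).toMonoidHom ≤ Subgroup.centralizer ({h} : Set G) := by
      rintro _ ⟨d, hd, rfl⟩
      rw [Subgroup.mem_centralizer_singleton_iff]
      have h1 := Subgroup.mem_centralizer_iff.1 hx d hd
      simp only [MulEquiv.coe_toMonoidHom, MulAut.conj_apply, inv_inv]
      calc x⁻¹ * d * x * h = x⁻¹ * (d * (x * h * x⁻¹)) * x := by group
        _ = h * (x⁻¹ * d * x) := by rw [h1]; group
    have hp' : IsPGroup p (E.map (MulAut.conj x⁻¹).toMonoidHom) := (D.isPGroup'.map _).map _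
    obtain ⟨Q, hQ⟩ :=
      (hp'.of_equiv (Subgroup.subgroupOfEquivOfLe hle).symm).exists_le_sylow
    refine ⟨x⁻¹, Q, ?_⟩
    rw [← Subgroup.map_subgroupOf_eq_of_le hle]
    exact Subgroup.map_mono hQ

end Cfsg.Agent.S0911
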