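import Cfsg.Statements.S0912
import Cfsg.Agent.Blocks.Basic.PGroup
import Cfsg.Agent.Constrained.Basic

set_option autoImplicit false
open Cfsg

namespace Cfsg.Agent.S0912

/-- Let B be a block of the finite group G relative to a maximal ideal M of the algebraic integers containing the prime p. Every defect group of B contains the largest normal p-subgroup O_p(G). -/
theorem result {G : Type*} [Group G] [Finite G] (p : ℕ) [Fact p.Prime] (M : Ideal Cfsg.AlgInt) (hM : Cfsg.IsPModular p M) (B : Set (Cfsg.IrrCharacter G)) (hB : Cfsg.IsPBlock M B) (D : Subgroup G) (hD : Cfsg.IsDefectGroup p M B D) : Cfsg.pCore p G ≤ D := by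
  haveI := Fintype.ofFinite G
  haveI := hM.2.1
  obtain ⟨g, hg, S, rfl⟩ := hD
  obtain ⟨χ, hχ⟩ := CfsgLib.Blocks.nonempty_of_isPBlock hB
  have hP : IsPGroup p (Cfsg.pCore p G) := CfsgLib.Constrained.isPGroup_pCore
  have hgC : g ∈ Subgroup.centralizer (Cfsg.pCore p G : Set G) := by
    by_contra hgC
    exact hg.2.2 χ hχ ((CfsgLib.Blocks.congr_centralChar_normal_pGroup hM hP χ g).1 hgC)
  intro a ha
  have haC : a ∈ Subgroup.centralizer ({g} : Set G) :=
    Subgroup.mem_centralizer_singleton_iff.mpr (Subgroup.mem_centralizer_iff.mp hgC a ha)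
  haveI : ((Cfsg.pCore p G).subgroupOf (Subgroup.centralizer ({g} : Set G))).Normal :=
    Subgroup.Normal.comap inferInstance _
  have hsup : IsPGroup p ↥((S : Subgroup (Subgroup.centralizer ({g} : Set G))) ⊔
      (Cfsg.pCore p G).subgroupOf (Subgroup.centralizer ({g} : Set G))) :=
    S.2.to_sup_of_normal_right (hP.comap_of_injective _ Subtype.val_injective)
  have hmem : (⟨a, haC⟩ : Subgroup.centralizer ({g} : Set G)) ∈
      (S : Subgroup (Subgroup.centralizer ({g} : Set G))) := by
    rw [← S.3 hsup le_sup_left]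
    exact Subgroup.mem_sup_right ha
  exact ⟨⟨a, haC⟩, hmem, rfl⟩

end Cfsg.Agent.S0912
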