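import Cfsg.Statements.S0916
import Mathlib.GroupTheory.Nilpotent

set_option autoImplicit false
open Cfsg

namespace Cfsg.Agent.S0916

/-- Let P be a p-subgroup of the finite group G, C its centralizer and N its normalizer. Say that a conjugacy class (of G, or of N) has defect group P when P is a Sylow p-subgroup of the centralizer (in G, respectively in N) of some element of the class. Then: (i) if the class of g in G has defect group P, the elements of that class lying in C form a single N-class, again with defect group P; (ii) every N-class with defect group P arises this way from exactly one G-class with defect group P. -/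
theorem result {G : Type*} [Group G] [Finite G] (p : ℕ) [Fact p.Prime] (P : Subgroup G) (hP : IsPGroup p P) : (∀ g : G, (∃ S : Sylow p (Subgroup.centralizer ({g} : Set G)), (S : Subgroup (Subgroup.centralizer ({g} : Set G))).map (Subgroup.centralizer ({g} : Set G)).subtype = P) → (∃ c : G, IsConj g c ∧ c ∈ Subgroup.centralizer (P : Set G)) ∧ (∀ c₁ c₂ : G, IsConj g c₁ → IsConj g c₂ → c₁ ∈ Subgroup.centralizer (P : Set G) → c₂ ∈ Subgroup.centralizer (P : Set G) → ∃ n ∈ Subgroup.normalizer (P : Set G), n * c₁ * n⁻¹ = c₂)) ∧ (∀ c : G, c ∈ Subgroup.centralizer (P : Set G) → (∃ S : Sylow p (Subgroup.centralizer ({c} : Set G) ⊓ Subgroup.normalizer (P : Set G) : Subgroup G), (S : Subgroup ↥(Subgroup.centralizer ({c} : Set G) ⊓ Subgroup.normalizer (P : Set G))).map (Subgroup.centralizer ({c} : Set G) ⊓ Subgroup.normalizer (P : Set G)).subtype = P) → ∃ S : Sylow p (Subgroup.centralizer ({c} : Set G)), (S : Subgroup (Subgroup.centralizer ({c} : Set G))).map (Subgroup.centralizer ({c} : Set G)).subtype = P) := by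
  refine ⟨fun g hg => ⟨?_, ?_⟩, fun c hc hS => ?_⟩
  · obtain ⟨S, hS⟩ := hg
    refine ⟨g, IsConj.refl g, Subgroup.mem_centralizer_iff.mpr fun a ha => ?_⟩
    rw [← hS] at ha
    obtain ⟨s, _, rfl⟩ := Subgroup.mem_map.mp ha
    exact Subgroup.mem_centralizer_singleton_iff.mp s.2
  · intro c₁ c₂ h₁ h₂ hc₁ hc₂
    obtain ⟨S, hS⟩ := hg
    -- the order of P is the p-part of the centralizer order of any conjugate of g
    obtain ⟨x, hx⟩ := isConj_iff.mp (h₁.symm.trans h₂)
    set C := Subgroup.centralizer ({c₂} : Set G) with hC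
    have hcard : Nat.card C = Nat.card (Subgroup.centralizer ({g} : Set G)) := by
      obtain ⟨y, rfl⟩ := isConj_iff.mp h₂
      refine Nat.card_congr
        { toFun := fun z => ⟨y⁻¹ * z * y, ?_⟩
          invFun := fun z => ⟨y * z * y⁻¹, ?_⟩
          left_inv := fun z => by apply Subtype.ext; simp [mul_assoc]
          right_inv := fun z => by apply Subtype.ext; simp [mul_assoc] }
      · rw [Subgroup.mem_centralizer_singleton_iff]
        have := Subgroup.mem_centralizer_singleton_iff.mp z.2
        calc y⁻¹ * z * y * g = y⁻¹ * (z * (y * g * y⁻¹)) * y := by group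
          _ = y⁻¹ * ((y * g * y⁻¹) * z) * y := by rw [this]
          _ = g * (y⁻¹ * z * y) := by group
      · rw [hC, Subgroup.mem_centralizer_singleton_iff]
        have := Subgroup.mem_centralizer_singleton_iff.mp z.2
        calc y * z * y⁻¹ * (y * g * y⁻¹) = y * (z * g) * y⁻¹ := by group
          _ = y * (g * z) * y⁻¹ := by rw [this]
          _ = y * g * y⁻¹ * (y * z * y⁻¹) := by group
    have hP2 : P ≤ C := fun a ha =>
      Subgroup.mem_centralizer_singleton_iff.mpr (Subgroup.mem_centralizer_iff.mp hc₂ a ha)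
    have hQ2 : P.map (MulAut.conj x).toMonoidHom ≤ C := by
      rintro _ ⟨a, ha, rfl⟩
      rw [hC, Subgroup.mem_centralizer_singleton_iff]
      have := Subgroup.mem_centralizer_iff.mp hc₁ a ha
      simp only [MulEquiv.coe_toMonoidHom, MulAut.conj_apply]
      rw [← hx]
      calc x * a * x⁻¹ * (x * c₁ * x⁻¹) = x * (a * c₁) * x⁻¹ := by group
        _ = x * (c₁ * a) * x⁻¹ := by rw [this]
        _ = x * c₁ * x⁻¹ * (x * a * x⁻¹) := by group
    have hPcard : Nat.card P = p ^ (Nat.card C).factorization p := by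
      rw [hcard, ← S.card_eq_multiplicity, ← hS]
      exact (Nat.card_congr (Subgroup.equivMapOfInjective _ _ Subtype.val_injective).toEquiv).symm
    let T₁ : Sylow p C := Sylow.ofCard (P.subgroupOf C)
      ((Nat.card_congr (Subgroup.subgroupOfEquivOfLe hP2).toEquiv).trans hPcard)
    let T₂ : Sylow p C := Sylow.ofCard ((P.map (MulAut.conj x).toMonoidHom).subgroupOf C) (by
      rw [Nat.card_congr (Subgroup.subgroupOfEquivOfLe hQ2).toEquiv, ← hPcard]
      exact (Nat.card_congr (Subgroup.equivMapOfInjective _ _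
        (MulAut.conj x).injective).toEquiv).symm)
    obtain ⟨z, hz⟩ := MulAction.exists_smul_eq C T₂ T₁
    refine ⟨(z : G) * x, ?_, ?_⟩
    · have key : ∀ a ∈ P, (z : G) * x * a * ((z : G) * x)⁻¹ ∈ P := by
        intro a ha
        have hm : (⟨x * a * x⁻¹, hQ2 ⟨a, ha, rfl⟩⟩ : C) ∈ (T₂ : Subgroup C) := by
          change _ ∈ (P.map (MulAut.conj x).toMonoidHom).subgroupOf C
          exact ⟨a, ha, rfl⟩
        have h3 : z * (⟨x * a * x⁻¹, hQ2 ⟨a, ha, rfl⟩⟩ : C) * z⁻¹ ∈ (T₁ : Subgroup C) := by
          rw [← hz]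
          exact Subgroup.smul_mem_pointwise_smul _ (MulAut.conj z) _ hm
        have h4 : (z : G) * (x * a * x⁻¹) * (z : G)⁻¹ ∈ P := h3
        convert h4 using 1
        group
      exact Subgroup.mem_normalizer_iff.mpr fun a => ⟨key a, by
        haveI : Finite (P : Set G) := Subtype.finite
        have hbij : Function.Bijective (fun b : P => (⟨(z : G) * x * b * ((z : G) * x)⁻¹, key b b.2⟩ : P)) :=
          Finite.injective_iff_bijective.mp fun b₁ b₂ hb => by
            apply Subtype.ext
            simpa using congrArg Subtype.val hb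
        intro ha
        obtain ⟨⟨b, hb⟩, hb'⟩ := hbij.2 ⟨_, ha⟩
        have : b = a := by simpa using congrArg Subtype.val hb'
        exact this ▸ hb⟩
    · have hz2 := Subgroup.mem_centralizer_singleton_iff.mp z.2
      calc (z : G) * x * c₁ * ((z : G) * x)⁻¹ = (z : G) * (x * c₁ * x⁻¹) * (z : G)⁻¹ := by group
        _ = c₂ := by rw [hx, hz2, mul_inv_cancel_right]
  · set C := Subgroup.centralizer ({c} : Set G) with hC
    set N := Subgroup.normalizer (P : Set G) with hN
    obtain ⟨S, hS⟩ := hS
    have hPC : P ≤ C := fun a ha =>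
      Subgroup.mem_centralizer_singleton_iff.mpr (Subgroup.mem_centralizer_iff.mp hc a ha)
    have hP' : IsPGroup p (P.subgroupOf C) :=
      hP.of_equiv (Subgroup.subgroupOfEquivOfLe hPC).symm
    obtain ⟨T, hT⟩ := hP'.exists_le_sylow
    refine ⟨T, ?_⟩
    set Q : Subgroup G := (T : Subgroup C).map C.subtype with hQdef
    have hPQ : P ≤ Q := fun a ha => ⟨⟨a, hPC ha⟩, hT ha, rfl⟩
    have hQp : IsPGroup p Q := T.2.map _
    haveI : Group.IsNilpotent Q := hQp.isNilpotent
    by_contra hne
    have hlt : P.subgroupOf Q < ⊤ := by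
      rw [lt_top_iff_ne_top, Ne, Subgroup.subgroupOf_eq_top]
      exact fun hle => hne (le_antisymm hle hPQ)
    have hgrow := Group.normalizerCondition_of_isNilpotent (P.subgroupOf Q) hlt
    apply hgrow.not_ge
    intro w hw
    rw [Subgroup.mem_subgroupOf]
    have hwN : (w : G) ∈ C ⊓ N := by
      refine ⟨?_, ?_⟩
      · obtain ⟨t, _, ht⟩ := Subgroup.mem_map.mp w.2
        rw [← ht]; exact t.2
      · refine Subgroup.mem_normalizer_iff.mpr fun a => ?_
        constructor
        · intro ha
          exact (Subgroup.mem_normalizer_iff.mp hw ⟨a, hPQ ha⟩).mp ha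
        · intro ha
          have haQ : a ∈ Q := by
            have := Q.mul_mem (Q.mul_mem (Q.inv_mem w.2) (hPQ ha)) w.2
            simpa [mul_assoc] using this
          exact (Subgroup.mem_normalizer_iff.mp hw ⟨a, haQ⟩).mpr ha
    -- the p-group Q ⊓ N contains the Sylow subgroup P of C ⊓ N
    have hle : (S : Subgroup ↥(C ⊓ N)) ≤ Q.subgroupOf (C ⊓ N) := by
      intro s hs
      exact hPQ (hS ▸ Subgroup.mem_map_of_mem _ hs)
    have hpQ : IsPGroup p (Q.subgroupOf (C ⊓ N)) :=
      hQp.comap_of_injective _ Subtype.val_injective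
    have := S.3 hpQ hle
    rw [← hS]
    exact ⟨⟨w, hwN⟩, by rw [← this]; exact w.2, rfl⟩

end Cfsg.Agent.S0916
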