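import Cfsg.Statements.S0921
import Cfsg.Agent.Eq.Def_Blocks
import Cfsg.Agent.Blocks.Basic.Principal
import Cfsg.Agent.Constrained.Basic

set_option autoImplicit false
open Cfsg

namespace Cfsg.Agent.S0921

open scoped ComplexConjugate in
theorem key {G : Type*} [Group G] [Fintype G] (p : ℕ) (M : Ideal Cfsg.AlgInt)
    (hM : Cfsg.IsPModular p M) (N : Subgroup G) [N.Normal] [Fintype N] (hN : ¬ p ∣ Nat.card N)
    (χ ψ : Cfsg.IrrCharacter G) (h : Cfsg.SameBlock M (χ : G → ℂ) (ψ : G → ℂ))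
    (θ : Cfsg.IrrCharacter N)
    (hψ : Cfsg.classInner (fun n : N => (ψ : G → ℂ) n) (θ : N → ℂ) = 0) :
    Cfsg.classInner (fun n : N => (χ : G → ℂ) n) (θ : N → ℂ) = 0 := by
  classical
  haveI := hM.2.1
  haveI : Finite (Cfsg.IrrCharacter N) := CfsgLib.Blocks.finite_irrCharacter
  set W : Set (Cfsg.IrrCharacter N) :=
    {η | ∃ x : G, ∀ n : N, (η : N → ℂ) n = (θ : N → ℂ) (MulAut.conjNormal x n)} with hW
  set z : CfsgLib.Blocks.GA G :=
    MonoidAlgebra.mapDomainRingHom ℂ N.subtype (CfsgLib.Blocks.setIdem W) with hz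
  set a : G → ℂ := fun g => if hg : g ∈ N then Cfsg.blockCoeff W (⟨g, hg⟩ : N) else 0 with ha
  have hza : z = CfsgLib.Blocks.ofFun a := by
    refine CfsgLib.Blocks.ga_ext fun g => ?_
    rw [CfsgLib.Blocks.coeff_ofFun]
    show Finsupp.mapDomain N.subtype (CfsgLib.Blocks.setIdem W).coeff g = a g
    by_cases hg : g ∈ N
    · rw [show g = N.subtype (⟨g, hg⟩ : N) from rfl, Finsupp.mapDomain_apply N.subtype_injective]
      simp [ha, hg, CfsgLib.Blocks.setIdem]
    · rw [Finsupp.mapDomain_notin_range]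
      · simp [ha, hg]
      · rintro ⟨n, rfl⟩; exact hg n.2
  have hWconj : ∀ (x : G) (n : N), Cfsg.blockCoeff W (MulAut.conjNormal x n) =
      Cfsg.blockCoeff W n := by
    intro x n
    simp only [Cfsg.blockCoeff]
    congr 1
    refine finsum_mem_eq_of_bijOn (fun η => CfsgLib.Chars.irrEquiv (MulAut.conjNormal x).symm η)
      ⟨?_, (CfsgLib.Chars.irrEquiv _).injective.injOn, ?_⟩ fun η _ => ?_
    · rintro η ⟨y, hy⟩
      refine ⟨y * x, fun m => ?_⟩
      rw [CfsgLib.Chars.irrEquiv_apply, hy, MulEquiv.symm_symm, map_mul]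
      rfl
    · rintro η ⟨y, hy⟩
      refine ⟨(CfsgLib.Chars.irrEquiv (MulAut.conjNormal x).symm).symm η, ⟨y * x⁻¹, fun m => ?_⟩,
        Equiv.apply_symm_apply _ _⟩
      rw [CfsgLib.Chars.irrEquiv_symm_apply, hy, map_mul, map_inv, MulAut.inv_def]
      rfl
    · rw [CfsgLib.Chars.irrEquiv_apply, CfsgLib.Chars.irrEquiv_apply, MulEquiv.symm_symm, map_one]
  have hclass : CfsgLib.Blocks.IsCentralElt z := by
    rw [hza]
    refine CfsgLib.Blocks.isCentralElt_ofFun fun g x => ?_
    by_cases hg : g ∈ N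
    · have hg' : x * g * x⁻¹ ∈ N := ‹N.Normal›.conj_mem g hg x
      simp only [ha, dif_pos hg, dif_pos hg']
      exact hWconj x ⟨g, hg⟩
    · have hg' : x * g * x⁻¹ ∉ N := fun h' => hg (by
        simpa [mul_assoc] using ‹N.Normal›.conj_mem _ h' x⁻¹)
      simp only [ha, dif_neg hg, dif_neg hg']
  have hloc : CfsgLib.Blocks.IsLocalElt M z := by
    rw [hza]
    intro g
    rw [CfsgLib.Blocks.coeff_ofFun]
    by_cases hg : g ∈ N
    · simp only [ha, dif_pos hg]
      rw [Cfsg.blockCoeff, finsum_mem_eq_finite_toFinset_sum _ W.toFinite]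
      refine (CfsgLib.Blocks.localRing M).mul_mem
        (CfsgLib.Blocks.memLocalRing_inv_natCast hM hN)
        ((CfsgLib.Blocks.localRing M).sum_mem fun η _ => ?_)
      refine CfsgLib.Blocks.memLocalRing_of_isIntegral ?_
      rw [← CfsgLib.Chars.map_inv_eq_conj (CfsgLib.Chars.isCharacter_coe η)]
      exact (CfsgLib.Chars.isIntegral_apply (CfsgLib.Chars.isCharacter_coe η) _).mul
        (CfsgLib.Chars.isIntegral_apply (CfsgLib.Chars.isCharacter_coe η) _)
    · simp only [ha, dif_neg hg]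
      exact (CfsgLib.Blocks.localRing M).zero_mem
  have hidem : ∀ φ : Cfsg.IrrCharacter G,
      CfsgLib.Blocks.omega (φ : G → ℂ) z = 0 ∨ CfsgLib.Blocks.omega (φ : G → ℂ) z = 1 := by
    intro φ
    have h2 := CfsgLib.Blocks.omega_mul φ.2 hclass z
    rw [show z * z = z by rw [hz, ← map_mul, CfsgLib.Blocks.setIdem_mul_self]] at h2
    rcases eq_or_ne (CfsgLib.Blocks.omega (φ : G → ℂ) z) 0 with h0 | h0
    · exact Or.inl h0
    · exact Or.inr ((mul_eq_left₀ h0).1 h2.symm)
  have hval : ∀ φ : Cfsg.IrrCharacter G, CfsgLib.Blocks.omega (φ : G → ℂ) z =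
      (∑ η ∈ W.toFinite.toFinset, (θ : N → ℂ) 1) / (φ : G → ℂ) 1 *
        Cfsg.classInner (fun n : N => (φ : G → ℂ) n) (θ : N → ℂ) := by
    intro φ
    rw [hza, CfsgLib.Blocks.omega_ofFun]
    calc ∑ g : G, a g * (φ : G → ℂ) g / (φ : G → ℂ) 1
        = ∑ n : N, Cfsg.blockCoeff W n * (φ : G → ℂ) n / (φ : G → ℂ) 1 := by
          rw [← Finset.sum_filter_add_sum_filter_not Finset.univ (· ∈ N),
            Finset.sum_eq_zero (s := Finset.univ.filter fun g => g ∉ N) (fun g hg => by
              simp [ha, (Finset.mem_filter.1 hg).2]), add_zero,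
            Finset.sum_subtype (Finset.univ.filter (· ∈ N)) (p := (· ∈ N)) (by simp)]
          exact Finset.sum_congr rfl fun n _ => by simp [ha, n.2]
      _ = ∑ η ∈ W.toFinite.toFinset, (η : N → ℂ) 1 / (φ : G → ℂ) 1 *
            Cfsg.classInner (fun n : N => (φ : G → ℂ) n) (η : N → ℂ) := by
          simp only [Cfsg.blockCoeff, finsum_mem_eq_finite_toFinset_sum _ W.toFinite,
            Cfsg.classInner, Finset.mul_sum, Finset.sum_mul, Finset.sum_div]
          rw [Finset.sum_comm]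
          exact Finset.sum_congr rfl fun η _ => Finset.sum_congr rfl fun n _ => by ring
      _ = _ := by
          rw [Finset.sum_div, Finset.sum_mul]
          refine Finset.sum_congr rfl fun η hη => ?_
          obtain ⟨x, hx⟩ := W.toFinite.mem_toFinset.1 hη
          rw [hx 1, map_one]
          congr 1
          simp only [Cfsg.classInner]
          congr 1
          refine Fintype.sum_equiv (MulAut.conjNormal x).toEquiv _ _ fun n => ?_
          show (φ : G → ℂ) n * conj ((η : N → ℂ) n) =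
            (φ : G → ℂ) (MulAut.conjNormal x n : N) * conj ((θ : N → ℂ) (MulAut.conjNormal x n))
          rw [hx n, MulAut.conjNormal_apply, CfsgLib.Chars.isClassFunction_coe φ]
  have hne : ∀ φ : Cfsg.IrrCharacter G,
      (∑ η ∈ W.toFinite.toFinset, (θ : N → ℂ) 1) / (φ : G → ℂ) 1 ≠ 0 := by
    intro φ
    rw [Finset.sum_const, nsmul_eq_mul]
    refine div_ne_zero (mul_ne_zero (Nat.cast_ne_zero.2 (Finset.card_pos.2 ⟨θ, ?_⟩).ne')
      (CfsgLib.Chars.map_one_ne_zero θ)) (CfsgLib.Chars.map_one_ne_zero φ)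
    exact W.toFinite.mem_toFinset.2 ⟨1, fun n => by simp⟩
  by_contra hχ
  have hc := CfsgLib.Blocks.congr_omega_of_sameBlock (χ := χ) (ψ := ψ) ⟨hclass, hloc⟩ h
  rw [(hidem χ).resolve_left (by rw [hval]; exact mul_ne_zero (hne χ) hχ),
    show CfsgLib.Blocks.omega (ψ : G → ℂ) z = 0 by rw [hval, hψ, mul_zero]] at hc
  exact CfsgLib.Blocks.not_memLocalIdeal_one (M := M)
    (CfsgLib.Blocks.memLocalIdeal_iff_congr_zero.mpr hc)

/-- Let N = O_p'(G) be the largest normal subgroup of the finite group G of order prime to p, and fix a maximal ideal M of the algebraic integers containing p. If two irreducible characters χ, ψ of G lie in the same block relative to M, then an irreducible character of N occurs in the restriction of χ exactly when it occurs in the restriction of ψ. -/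
theorem result {G : Type*} [Group G] [Finite G] (p : ℕ) [Fact p.Prime] (M : Ideal Cfsg.AlgInt) (hM : Cfsg.IsPModular p M) [Fintype G] (χ ψ : Cfsg.IrrCharacter G) (h : Cfsg.SameBlock M (χ : G → ℂ) (ψ : G → ℂ)) (θ : Cfsg.IrrCharacter (Cfsg.pPrimeCore p G)) [Fintype (Cfsg.pPrimeCore p G)] : Cfsg.classInner (fun n : Cfsg.pPrimeCore p G => (χ : G → ℂ) n) (θ : Cfsg.pPrimeCore p G → ℂ) ≠ 0 ↔ Cfsg.classInner (fun n : Cfsg.pPrimeCore p G => (ψ : G → ℂ) n) (θ : Cfsg.pPrimeCore p G → ℂ) ≠ 0 := by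
  haveI := hM.2.1
  exact not_congr
    ⟨key p M hM _ CfsgLib.Constrained.pPrimeCore_not_dvd ψ χ
        (CfsgLib.Blocks.sameBlock_symm h) θ,
      key p M hM _ CfsgLib.Constrained.pPrimeCore_not_dvd χ ψ h θ⟩

end Cfsg.Agent.S0921
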