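import Cfsg.Statements.S0925
import Cfsg.Agent.Eq.Def_Blocks
import Cfsg.Agent.Eq.Def_Characters
import Cfsg.Agent.Blocks.Orth.Blocks
import Cfsg.Agent.Transfer.NormalPComplement

set_option autoImplicit false
open Cfsg

namespace Cfsg.Agent.S0925

/-- (i) Let ϑ be a class function on the finite group G and x a p-element, and suppose ϑ vanishes at every element whose p-part is conjugate to x. Then for every block B (relative to a maximal ideal M of the algebraic integers containing p) the B-part of ϑ — the sum over χ ∈ B of the inner product of ϑ with χ, times χ — also vanishes at every such element. (ii) Block orthogonality, its corollary: if the p-parts of g and h are not conjugate, then the sum over χ ∈ B of χ g * χ h⁻¹ is zero for every block B. -/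
theorem result {G : Type*} [Group G] [Finite G] (p : ℕ) [Fact p.Prime] (M : Ideal Cfsg.AlgInt) (hM : Cfsg.IsPModular p M) : (∀ (ϑ : G → ℂ), Cfsg.IsClassFunction G ϑ → ∀ x : G, (∃ k : ℕ, orderOf x = p ^ k) → (∀ u z : G, Cfsg.IsPPart p u z → IsConj x z → ϑ u = 0) → ∀ B : Set (Cfsg.IrrCharacter G), Cfsg.IsPBlock M B → ∀ u z : G, Cfsg.IsPPart p u z → IsConj x z → Cfsg.blockPart B ϑ u = 0) ∧ (∀ g h x y : G, Cfsg.IsPPart p g x → Cfsg.IsPPart p h y → ¬ IsConj x y → ∀ B : Set (Cfsg.IrrCharacter G), Cfsg.IsPBlock M B → ∑ᶠ χ ∈ B, (χ : G → ℂ) g * (χ : G → ℂ) h⁻¹ = 0) := by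
  classical
  haveI := Fintype.ofFinite G
  haveI := hM.2.1
  refine ⟨fun ϑ _ x _ hvan B hB u z hu hxz => ?_, fun g h x y hg hh hxy B hB => ?_⟩
  · have hex : ∀ g : G, ∃ v, Cfsg.IsPPart p g v := by
      intro g
      obtain ⟨a, b, ha, hb, hab, ⟨k, hk⟩, hcop⟩ :=
        CfsgLib.Transfer.exists_pPart_decomposition (p := p) g
      refine ⟨a, b, hab.symm, ?_, ?_, ?_⟩
      · obtain ⟨i, rfl⟩ := Subgroup.mem_zpowers_iff.1 ha
        obtain ⟨j, rfl⟩ := Subgroup.mem_zpowers_iff.1 hb
        exact Commute.zpow_zpow_self g i j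
      · obtain ⟨j, _, hj⟩ := (Nat.dvd_prime_pow hM.1).1 hk
        exact ⟨j, hj⟩
      · exact (Nat.Prime.coprime_iff_not_dvd hM.1).1 hcop.symm
    set S : Set G := {g | ∀ w : G, Cfsg.IsPPart p g w → ¬ IsConj x w} with hS
    have hSϑ : S.indicator ϑ = ϑ := by
      funext g
      by_cases hgS : g ∈ S
      · rw [Set.indicator_of_mem hgS]
      · rw [Set.indicator_of_notMem hgS]
        simp only [hS, Set.mem_setOf_eq, not_forall, not_not] at hgS
        obtain ⟨w, hw, hxw⟩ := hgS
        exact (hvan g w hw hxw).symm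
    have hsep : ∀ a ∈ S, ∀ b ∉ S, ∀ i : ℕ, ¬ p ∣ i → ¬ IsConj (a ^ i) (b ^ i) := by
      intro a haS b hbS
      simp only [hS, Set.mem_setOf_eq, not_forall, not_not] at hbS
      obtain ⟨w, hw, hxw⟩ := hbS
      obtain ⟨v, hv⟩ := hex a
      exact CfsgLib.Blocks.not_isConj_pow_of_pPart hM.1 hw hv
        fun hvw => haS v hv (hxw.trans hvw.symm)
    rw [← hSϑ, CfsgLib.Blocks.blockPart_indicator hM hB S hsep,
      Set.indicator_of_notMem]
    exact fun huS => huS z hu hxz
  · have hh' : Cfsg.IsPPart p h y := hh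
    rw [← CfsgLib.Blocks.finsum_block_mul_conj_eq_zero_of_pPart hM hB hg hh'
      fun hyx => hxy hyx.symm]
    refine finsum_mem_congr rfl fun χ _ => ?_
    rw [← CfsgLib.Chars.map_inv_eq_conj (CfsgLib.Chars.isCharacter_coe χ)]

end Cfsg.Agent.S0925
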