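import Cfsg.Statements.S0926
import Cfsg.Agent.Eq.Def_Blocks
import Cfsg.Agent.Blocks.HeightZero.InducedDefect

set_option autoImplicit false
open Cfsg

namespace Cfsg.Agent.S0926

/-- Let B be a block of the finite group G with defect group D (relative to a maximal ideal M of the algebraic integers containing p), let χ ∈ B have height zero, and let x be a p-element. Then some conjugate of x lies in D if and only if χ does not vanish on the whole p-section of x (the elements whose p-part is conjugate to x). -/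
theorem result {G : Type*} [Group G] [Finite G] (p : ℕ) [Fact p.Prime] (M : Ideal Cfsg.AlgInt) (hM : Cfsg.IsPModular p M) (B : Set (Cfsg.IrrCharacter G)) (hB : Cfsg.IsPBlock M B) (D : Subgroup G) (hD : Cfsg.IsDefectGroup p M B D) (χ : Cfsg.IrrCharacter G) (hχ : χ ∈ B) (h0 : Cfsg.blockHeight p B (χ : G → ℂ) = 0) (x : G) (hx : ∃ k : ℕ, orderOf x = p ^ k) : (∃ g : G, g * x * g⁻¹ ∈ D) ↔ ∃ u : G, (∃ z : G, Cfsg.IsPPart p u z ∧ IsConj x z) ∧ (χ : G → ℂ) u ≠ 0 := by
  have := Fintype.ofFinite G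
  have := CfsgLib.Blocks.isMaximal_of_isPModular hM
  constructor
  · rintro ⟨a, ha⟩
    obtain ⟨k, hk⟩ := hx
    have hxo : orderOf (a * x * a⁻¹) = p ^ k := by
      rw [← hk]; exact MulEquiv.orderOf_eq (MulAut.conj a) x
    obtain ⟨y, hy, S, rfl⟩ := hD
    obtain ⟨d, -, hd⟩ := ha
    have hc : Commute (a * x * a⁻¹) y := by
      rw [← hd]
      exact Subgroup.mem_centralizer_singleton_iff.1 d.2
    have hreg := CfsgLib.Blocks.not_dvd_orderOf_of_isDefectClass hM hB hy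
    refine ⟨a * x * a⁻¹ * y, ⟨a * x * a⁻¹, ⟨y, rfl, hc, ⟨k, hxo⟩, hreg⟩,
      isConj_iff.2 ⟨a, rfl⟩⟩, fun h => ?_⟩
    refine CfsgLib.Blocks.not_memLocalIdeal_apply_of_height_zero hM hB hy hχ h0 ?_
    rw [← (CfsgLib.Blocks.HeightZero.congr_apply_mul hM (CfsgLib.Chars.isCharacter_coe χ) hc hxo
      hreg).mem_iff, h]
    exact CfsgLib.Blocks.memLocalIdeal_zero
  · rintro ⟨u, ⟨z, hz, hxz⟩, hu⟩
    by_contra hcon
    push Not at hcon
    refine hu (CfsgLib.Blocks.HeightZero.apply_eq_zero_of_pPart hM χ hz fun D' hD' hzD => ?_)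
    rw [← CfsgLib.Blocks.eq_blockOf_of_mem hB hχ] at hD'
    obtain ⟨t, rfl⟩ := CfsgLib.Blocks.HeightZero.defectGroup_conj_eq hM hB hD hD'
    obtain ⟨c, rfl⟩ := isConj_iff.1 hxz
    obtain ⟨d, hd, hde⟩ := hzD
    simp only [MulEquiv.coe_toMonoidHom, MulAut.conj_apply] at hde
    refine hcon (t⁻¹ * c) ?_
    rwa [show t⁻¹ * c * x * (t⁻¹ * c)⁻¹ = d from by
      calc t⁻¹ * c * x * (t⁻¹ * c)⁻¹ = t⁻¹ * (c * x * c⁻¹) * t := by group
        _ = d := by rw [← hde]; group]

end Cfsg.Agent.S0926
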