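import Cfsg.Statements.S0927
import Cfsg.Agent.Eq.Def_Blocks
import Cfsg.Agent.Blocks.HeightZero.Scaled

set_option autoImplicit false
open Cfsg

namespace Cfsg.Agent.S0927

/-- Let B be a block of the finite group G relative to a maximal ideal M of the algebraic integers containing p, let y represent a defect class of B and let P be a Sylow p-subgroup of the centralizer of y. (a) If x ∈ P and χ ∈ B has height zero, then χ (x * y) is not in the local ideal at M. (b) If x lies in the centre of P, then for every χ ∈ B the central character of χ at x * y is not in the local ideal at M. -/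
theorem result {G : Type*} [Group G] [Finite G] (p : ℕ) [Fact p.Prime] (M : Ideal Cfsg.AlgInt) (hM : Cfsg.IsPModular p M) (B : Set (Cfsg.IrrCharacter G)) (hB : Cfsg.IsPBlock M B) (y : G) (hy : Cfsg.IsDefectClass M B y) (P : Sylow p (Subgroup.centralizer ({y} : Set G))) (x : Subgroup.centralizer ({y} : Set G)) (hx : x ∈ (P : Subgroup (Subgroup.centralizer ({y} : Set G)))) : (∀ χ ∈ B, Cfsg.blockHeight p B (χ : G → ℂ) = 0 → ¬ Cfsg.MemLocalIdeal M ((χ : G → ℂ) ((x : G) * y))) ∧ ((∀ w ∈ (P : Subgroup (Subgroup.centralizer ({y} : Set G))), x * w = w * x) → ∀ χ ∈ B, ¬ Cfsg.MemLocalIdeal M (Cfsg.centralChar (χ : G → ℂ) ((x : G) * y))) := by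
  have := CfsgLib.Blocks.isMaximal_of_isPModular hM
  have hp : p.Prime := Fact.out
  obtain ⟨k, hk⟩ := IsPGroup.iff_orderOf.1 P.2 ⟨x, hx⟩
  have hxo : orderOf (x : G) = p ^ k := by
    rw [← hk, ← Subgroup.orderOf_coe, ← Subgroup.orderOf_coe]
  have hc : Commute (x : G) y := Subgroup.mem_centralizer_singleton_iff.1 x.2
  have hreg := CfsgLib.Blocks.not_dvd_orderOf_of_isDefectClass hM hB hy
  have hcg := fun χ : Cfsg.IrrCharacter G => CfsgLib.Blocks.HeightZero.congr_apply_mul hM
    (CfsgLib.Chars.isCharacter_coe χ) hc hxo hreg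
  have hunit : ∀ χ ∈ B, Cfsg.blockHeight p B (χ : G → ℂ) = 0 →
      ¬ Cfsg.MemLocalIdeal M ((χ : G → ℂ) ((x : G) * y)) := fun χ hχ h0 => by
    rw [(hcg χ).mem_iff]
    exact CfsgLib.Blocks.not_memLocalIdeal_apply_of_height_zero hM hB hy hχ h0
  refine ⟨hunit, fun hcen χ hχ => ?_⟩
  obtain ⟨ψ, hψ, hψ0⟩ := CfsgLib.Blocks.HeightZero.exists_height_zero (p := p) hB
  have hsame : CfsgLib.Blocks.Congr M (Cfsg.centralChar (χ : G → ℂ) ((x : G) * y))
      (Cfsg.centralChar (ψ : G → ℂ) ((x : G) * y)) :=
    CfsgLib.Blocks.sameBlock_of_mem hB hχ hψ ((x : G) * y)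
  rw [hsame.mem_iff]
  let D := Subgroup.centralizer ({(x : G) * y} : Set G)
  -- the centraliser of `x * y` lies between a Sylow subgroup and the centraliser of `y`
  have hcop : Nat.Coprime (orderOf (x : G)) (orderOf y) :=
    hxo ▸ (hp.coprime_iff_not_dvd.2 hreg).pow_left k
  obtain ⟨e, he1, he2⟩ := Nat.chineseRemainder hcop 0 1
  have hye : ((x : G) * y) ^ e = y := by
    rw [hc.mul_pow, pow_eq_pow_iff_modEq.2 he1, pow_zero, pow_eq_pow_iff_modEq.2 he2, pow_one,
      one_mul]
  have hDC : D ≤ (Subgroup.centralizer ({y} : Set G)) := fun d hd => by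
    rw [Subgroup.mem_centralizer_singleton_iff] at hd ⊢
    have := (show Commute d ((x : G) * y) from hd).pow_right e
    rwa [hye] at this
  have hPD : (P : Subgroup (Subgroup.centralizer ({y} : Set G))).map (Subgroup.centralizer ({y} : Set G)).subtype ≤ D := by
    rintro _ ⟨w, hw, rfl⟩
    rw [Subgroup.mem_centralizer_singleton_iff]
    have h1 : Commute (w : G) (x : G) := (congrArg Subtype.val (hcen w hw)).symm
    exact (h1.mul_right (Subgroup.mem_centralizer_singleton_iff.1 w.2) : Commute _ _)
  have hv : D.index.factorization p = (Subgroup.centralizer ({y} : Set G)).index.factorization p := by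
    have hD := D.card_mul_index
    rw [← (Subgroup.centralizer ({y} : Set G)).card_mul_index] at hD
    have h1 := congrArg (fun n => n.factorization p) hD
    simp only [Nat.factorization_mul Nat.card_pos.ne' Subgroup.index_ne_zero_of_finite,
      Finsupp.add_apply] at h1
    have h2 : (Nat.card (Subgroup.centralizer ({y} : Set G))).factorization p ≤ (Nat.card D).factorization p := by
      rw [← hp.pow_dvd_iff_le_factorization Nat.card_pos.ne', ← P.card_eq_multiplicity,
        Nat.card_congr ((P : Subgroup (Subgroup.centralizer ({y} : Set G))).equivMapOfInjective _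
          (Subgroup.subtype_injective _)).toEquiv]
      exact Subgroup.card_dvd_of_le hPD
    have h3 : (Nat.card D).factorization p ≤ (Nat.card (Subgroup.centralizer ({y} : Set G))).factorization p :=
      (Nat.factorization_le_iff_dvd Nat.card_pos.ne' Nat.card_pos.ne').2
        (Subgroup.card_dvd_of_le hDC) p
    omega
  have hdeg : (Cfsg.charDegree (ψ : G → ℂ)).factorization p = D.index.factorization p := by
    rw [hv, ← CfsgLib.Blocks.HeightZero.minExp_eq_of_defectClass hM hB hy]
    exact (CfsgLib.Blocks.HeightZero.blockHeight_eq_zero_iff' hψ).1 hψ0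
  rw [Cfsg.centralChar, mul_div_right_comm, ← CfsgLib.Chars.coe_charDegree]
  exact CfsgLib.Blocks.not_memLocalIdeal_mul
    (CfsgLib.Blocks.memLocalRing_natCast_div hM Subgroup.index_ne_zero_of_finite
      (CfsgLib.Chars.charDegree_pos ψ).ne' hdeg.le)
    (CfsgLib.Blocks.HeightZero.memLocalRing_apply (CfsgLib.Chars.isCharacter_coe ψ) _)
    (CfsgLib.Blocks.HeightZero.not_memLocalIdeal_natCast_div hM Subgroup.index_ne_zero_of_finite
      (CfsgLib.Chars.charDegree_pos ψ).ne' hdeg.symm) (hunit ψ hψ hψ0)

end Cfsg.Agent.S0927
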