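import Cfsg.Statements.S0929
import Cfsg.Agent.Eq.Def_Blocks
import Cfsg.Agent.S0920
import Cfsg.Agent.Blocks.HeightZero.InducedDefect
import Cfsg.Agent.Blocks.Basic.PGroup

set_option autoImplicit false
open Cfsg

namespace Cfsg.Agent.S0929

/-- Let B be a block of the finite group G with defect group P (relative to a maximal ideal M of the algebraic integers containing p), and let g be an element at which the central character of some member of B is not in the local ideal at M. Then some conjugate x of g centralizes P and has its p-part in the centre of P. -/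
theorem result {G : Type*} [Group G] [Finite G] (p : ℕ) [Fact p.Prime] (M : Ideal Cfsg.AlgInt) (hM : Cfsg.IsPModular p M) (B : Set (Cfsg.IrrCharacter G)) (hB : Cfsg.IsPBlock M B) (P : Subgroup G) (hP : Cfsg.IsDefectGroup p M B P) (g : G) (hg : ∃ χ ∈ B, ¬ Cfsg.MemLocalIdeal M (Cfsg.centralChar (χ : G → ℂ) g)) : ∃ x : G, IsConj g x ∧ x ∈ Subgroup.centralizer (P : Set G) ∧ ∀ z : G, Cfsg.IsPPart p x z → z ∈ P ∧ ∀ w ∈ P, z * w = w * z := by
  classical
  have := Fintype.ofFinite G
  have := CfsgLib.Blocks.isMaximal_of_isPModular hM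
  have hp : p.Prime := Fact.out
  have hPp : IsPGroup p P := by
    obtain ⟨_, _, S, rfl⟩ := hP
    exact S.isPGroup'.map _
  set N := Subgroup.normalizer (P : Set G)
  have : Fintype N := Fintype.ofFinite N
  obtain ⟨b, ⟨hb, hbD, hbind⟩, -⟩ :=
    (Cfsg.Agent.S0920.result p M hM P hPp).2 B hB hP
  obtain ⟨ξ, hξ⟩ := CfsgLib.Blocks.nonempty_of_isPBlock hb
  obtain ⟨χ, hχ, hgu⟩ := hg
  obtain ⟨h, hgh, hh⟩ :=
    CfsgLib.Blocks.HeightZero.exists_conj_centralChar hM hbind hξ hχ hgu
  set Q := P.subgroupOf N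
  have hQp : IsPGroup p Q :=
    hPp.of_equiv (Subgroup.subgroupOfEquivOfLe Subgroup.le_normalizer).symm
  have hhC : h ∈ Subgroup.centralizer (Q : Set N) := by
    by_contra hn
    exact hh ((CfsgLib.Blocks.congr_centralChar_normal_pGroup hM hQp ξ h).1 hn)
  have hcen : (h : G) ∈ Subgroup.centralizer (P : Set G) := by
    rw [Subgroup.mem_centralizer_iff]
    intro w hw
    exact congrArg Subtype.val (Subgroup.mem_centralizer_iff.1 hhC
      ⟨w, Subgroup.le_normalizer hw⟩ hw)
  refine ⟨h, hgh, hcen, fun z hz => ?_⟩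
  obtain ⟨zN, hzN⟩ := CfsgLib.Blocks.exists_isPPart hp h
  have hzG : Cfsg.IsPPart p (h : G) (zN : G) := by
    obtain ⟨w, hw, hcw, hk, hwr⟩ := hzN
    refine ⟨w, by rw [← hw, Subgroup.coe_mul], congrArg Subtype.val hcw.eq, ?_, ?_⟩
    · rwa [Subgroup.orderOf_coe]
    · rwa [Subgroup.orderOf_coe]
  obtain rfl : z = (zN : G) := CfsgLib.Blocks.isPPart_unique hp hz hzG
  have hmem : zN ∈ Q := by
    by_contra hn
    refine hh ?_
    rw [Cfsg.centralChar, CfsgLib.Blocks.HeightZero.apply_eq_zero_of_pPart hM ξ hzN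
      fun D' hD' hz' => ?_, mul_zero, zero_div]
    · exact CfsgLib.Blocks.memLocalIdeal_zero
    · rw [← CfsgLib.Blocks.eq_blockOf_of_mem hb hξ] at hD'
      obtain ⟨t, rfl⟩ := CfsgLib.Blocks.HeightZero.defectGroup_conj_eq hM hb hbD hD'
      obtain ⟨d, hd, rfl⟩ := hz'
      exact hn ((inferInstance : Q.Normal).conj_mem d hd t)
  refine ⟨hmem, fun w hw => ?_⟩
  obtain ⟨k, hk⟩ := CfsgLib.Blocks.exists_pow_eq_isPPart (G := G) hp
  rw [← hk _ _ hzG]
  exact (show Commute (h : G) w from (Subgroup.mem_centralizer_iff.1 hcen w hw).symm).pow_left k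

end Cfsg.Agent.S0929
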