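import Cfsg.Statements.S0930
import Cfsg.Agent.Eq.Def_Blocks
import Cfsg.Agent.S0927
import Cfsg.Agent.S0929
import Cfsg.Agent.Blocks.HeightZero.InducedDefect

set_option autoImplicit false
open Cfsg

namespace Cfsg.Agent.S0930

/-- Let H be a subgroup of the finite group G and fix a maximal ideal M of the algebraic integers containing the prime p. If the block b of H with defect group D induces the block B of G with defect group P, then every element of the centre of P is conjugate in G to an element of the centre of D. -/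
theorem result {G : Type*} [Group G] [Finite G] (p : ℕ) [Fact p.Prime] (M : Ideal Cfsg.AlgInt) (hM : Cfsg.IsPModular p M) (H : Subgroup G) (b : Set (Cfsg.IrrCharacter H)) (B : Set (Cfsg.IrrCharacter G)) (hind : Cfsg.IsInducedBlock M H b B) (D : Subgroup H) (hD : Cfsg.IsDefectGroup p M b D) (P : Subgroup G) (hP : Cfsg.IsDefectGroup p M B P) (x : G) (hx : x ∈ P) (hxc : ∀ w ∈ P, x * w = w * x) : ∃ g : G, g * x * g⁻¹ ∈ D.map H.subtype ∧ ∀ w ∈ D.map H.subtype, (g * x * g⁻¹) * w = w * (g * x * g⁻¹) := by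
  classical
  have := Fintype.ofFinite G
  have := Fintype.ofFinite H
  have := CfsgLib.Blocks.isMaximal_of_isPModular hM
  obtain ⟨y, hy, S, rfl⟩ := hP
  obtain ⟨xs, hxs, rfl⟩ := hx
  obtain ⟨φ, hφ⟩ := CfsgLib.Blocks.nonempty_of_isPBlock hind.2.1
  have hu := (Cfsg.Agent.S0927.result p M hM B hind.2.1 y hy S xs hxs).2
    (fun w hw => Subtype.ext (hxc _ ⟨w, hw, rfl⟩)) φ hφ
  obtain ⟨ξ, hξ⟩ := CfsgLib.Blocks.nonempty_of_isPBlock hind.1
  obtain ⟨h, hgh, hh⟩ := CfsgLib.Blocks.HeightZero.exists_conj_centralChar hM hind hξ hφ hu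
  obtain ⟨h', hhh', hcen, hz⟩ :=
    Cfsg.Agent.S0929.result p M hM b hind.1 D hD h ⟨ξ, hξ, hh⟩
  have hconj : IsConj ((xs : G) * y) (h' : G) := by
    refine hgh.trans ?_
    obtain ⟨c, rfl⟩ := isConj_iff.1 hhh'
    exact isConj_iff.2 ⟨(c : G), by simp⟩
  obtain ⟨t, ht⟩ := isConj_iff.1 hconj
  obtain ⟨k, hk⟩ := IsPGroup.iff_orderOf.1 S.isPGroup' ⟨xs, hxs⟩
  have hxp : Cfsg.IsPPart p ((xs : G) * y) (xs : G) :=
    ⟨y, rfl, Subgroup.mem_centralizer_singleton_iff.1 xs.2,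
      ⟨k, (Subgroup.orderOf_coe xs).trans ((Subgroup.orderOf_mk xs hxs).symm.trans hk)⟩,
      CfsgLib.Blocks.not_dvd_orderOf_of_isDefectClass hM hind.2.1 hy⟩
  have hxp' := CfsgLib.Blocks.isPPart_conj hxp t
  rw [ht] at hxp'
  have hp : p.Prime := Fact.out
  obtain ⟨zH, hzH⟩ := CfsgLib.Blocks.exists_isPPart hp h'
  have hzG : Cfsg.IsPPart p (h' : G) (zH : G) := by
    obtain ⟨w, hw, hcw, hk, hwr⟩ := hzH
    refine ⟨w, by rw [← hw, Subgroup.coe_mul], congrArg Subtype.val hcw.eq, ?_, ?_⟩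
    · rwa [Subgroup.orderOf_coe]
    · rwa [Subgroup.orderOf_coe]
  have e := CfsgLib.Blocks.isPPart_unique hp hxp' hzG
  obtain ⟨hzD, hzc⟩ := hz zH hzH
  refine ⟨t, ?_, ?_⟩
  · show t * (xs : G) * t⁻¹ ∈ _
    rw [e]
    exact ⟨zH, hzD, rfl⟩
  · rintro _ ⟨d, hd, rfl⟩
    show t * (xs : G) * t⁻¹ * _ = _ * (t * (xs : G) * t⁻¹)
    rw [e]
    exact congrArg Subtype.val (hzc d hd)

end Cfsg.Agent.S0930
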