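import Cfsg.Statements.S0931
import Cfsg.Agent.Eq.Def_Blocks
import Cfsg.Agent.S0908
import Cfsg.Agent.S0917
import Cfsg.Agent.S0930

set_option autoImplicit false
open Cfsg

namespace Cfsg.Agent.S0931

/-- Let H be a subgroup of the finite group G and fix a maximal ideal M of the algebraic integers containing the prime p. If the block b of H induces the block B of G, then b has defect 0 if and only if B has defect 0. -/
theorem result {G : Type*} [Group G] [Finite G] (p : ℕ) [Fact p.Prime] (M : Ideal Cfsg.AlgInt) (hM : Cfsg.IsPModular p M) (H : Subgroup G) (b : Set (Cfsg.IrrCharacter H)) (B : Set (Cfsg.IrrCharacter G)) (hind : Cfsg.IsInducedBlock M H b B) : Cfsg.blockDefect p b = 0 ↔ Cfsg.blockDefect p B = 0 := by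
  classical
  have := CfsgLib.Blocks.isMaximal_of_isPModular hM
  have hp : p.Prime := Fact.out
  obtain ⟨D, hD⟩ := CfsgLib.Blocks.HeightZero.exists_defectGroup hM hind.1
  obtain ⟨E, hE, hDE⟩ := Cfsg.Agent.S0917.result p M hM H b hind.1 B hind.2.1 hind D hD
  have hcD := Cfsg.Agent.S0908.result p M hM b hind.1 D hD
  have hcE := Cfsg.Agent.S0908.result p M hM B hind.2.1 E hE
  constructor
  · intro h0
    rw [h0, pow_zero] at hcD
    have hDbot : D = ⊥ := Subgroup.card_eq_one.1 hcD
    by_contra hne
    have hEp : IsPGroup p E := IsPGroup.of_card hcE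
    have : Nontrivial E := by
      rw [← Finite.one_lt_card_iff_nontrivial, hcE]
      exact one_lt_pow' hp.one_lt hne
    have : Nontrivial (Subgroup.center E) := hEp.center_nontrivial
    obtain ⟨z, hz1⟩ := exists_ne (1 : Subgroup.center E)
    obtain ⟨g, hg, -⟩ := Cfsg.Agent.S0930.result p M hM H b B hind D hD E hE ((z : E) : G)
      (z : E).2 fun w hw => congrArg Subtype.val
        (Subgroup.mem_center_iff.1 z.2 ⟨w, hw⟩).symm
    rw [hDbot, Subgroup.map_bot, Subgroup.mem_bot, mul_inv_eq_one, mul_eq_left] at hg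
    exact hz1 (Subtype.ext (Subtype.ext hg))
  · intro h0
    rw [h0, pow_zero] at hcE
    rw [Subgroup.card_eq_one.1 hcE] at hDE
    have h1 : Nat.card (D.map H.subtype) = 1 := by rw [le_bot_iff.1 hDE]; simp
    rw [Nat.card_congr (D.equivMapOfInjective _ H.subtype_injective).symm.toEquiv, hcD] at h1
    exact (Nat.pow_eq_one.1 h1).resolve_left hp.one_lt.ne'

end Cfsg.Agent.S0931
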