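import Cfsg.Statements.S0933
import Cfsg.Agent.Blocks.Basic.Local
import Cfsg.Agent.Chars.Basic
import Cfsg.Agent.S0932

set_option autoImplicit false
open Cfsg

namespace Cfsg.Agent.S0933

/-- Let H be a subgroup of the finite group G and ξ an irreducible character of H such that the induced function ξ^G is an irreducible character of G. Then, relative to any maximal ideal M of the algebraic integers containing the prime p, the block of ξ induces the block of ξ^G. -/
theorem result {G : Type*} [Group G] [Fintype G] (p : ℕ) [Fact p.Prime] (M : Ideal Cfsg.AlgInt) (hM : Cfsg.IsPModular p M) (H : Subgroup G) (ξ : Cfsg.IrrCharacter H) (hind : Cfsg.IsIrrCharacter G (Cfsg.indFun H (ξ : H → ℂ))) : Cfsg.IsInducedBlock M H (Cfsg.blockOf M (ξ : H → ℂ)) (Cfsg.blockOf M (Cfsg.indFun H (ξ : H → ℂ))) := by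
  haveI := hM.2.1
  classical
  haveI : Fintype H := Fintype.ofFinite H
  refine ⟨⟨ξ, rfl⟩, ⟨⟨_, hind⟩, rfl⟩, fun ξ' hξ' χ hχ g => ?_⟩
  have hS : ∀ h k : H, IsConj g ((k * h * k⁻¹ : H) : G) ↔ IsConj g (h : G) := by
    intro h k
    have hc : IsConj (h : G) ((k * h * k⁻¹ : H) : G) := isConj_iff.mpr ⟨k, by simp⟩
    exact ⟨fun hh => hh.trans hc.symm, fun hh => hh.trans hc⟩
  let z : CfsgLib.Blocks.GA H :=
    CfsgLib.Blocks.ofFun fun h : H => if IsConj g (h : G) then 1 else 0
  have hz : z ∈ CfsgLib.Blocks.centerO M H := by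
    refine ⟨CfsgLib.Blocks.isCentralElt_ofFun fun h k => by simp only [hS h k], fun h => ?_⟩
    simp only [z, CfsgLib.Blocks.coeff_ofFun]
    split_ifs
    · exact (CfsgLib.Blocks.localRing M).one_mem
    · exact (CfsgLib.Blocks.localRing M).zero_mem
  have hω : ∀ η : H → ℂ, Cfsg.inducedCentralChar H η g = CfsgLib.Blocks.omega η z := by
    intro η
    rw [Cfsg.inducedCentralChar, finsum_mem_eq_toFinset_sum, Set.toFinset_ofFinset,
      Finset.sum_filter, CfsgLib.Blocks.omega_ofFun]
    refine Finset.sum_congr rfl fun h _ => ?_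
    simp only [Set.mem_setOf_eq]
    split_ifs <;> simp
  have h1 : CfsgLib.Blocks.Congr M (Cfsg.inducedCentralChar H (ξ' : H → ℂ) g)
      (Cfsg.inducedCentralChar H (ξ : H → ℂ) g) := by
    rw [hω, hω]
    exact (CfsgLib.Blocks.congr_omega_of_sameBlock hz hξ').symm
  have h2 : Cfsg.inducedCentralChar H (ξ : H → ℂ) g =
      Cfsg.centralChar (Cfsg.indFun H (ξ : H → ℂ)) g :=
    Cfsg.Agent.S0932.result H _ (CfsgLib.Chars.isCharacter_coe ξ) g
  rw [h2] at h1
  exact h1.trans (hχ g)

end Cfsg.Agent.S0933
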