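import Cfsg.Statements.S0934
import Cfsg.Agent.Blocks.Basic.Local
import Cfsg.Agent.Chars.Basic
import Cfsg.Agent.Chars.Induced.Basic
import Cfsg.Agent.S0932

set_option autoImplicit false
open Cfsg

namespace Cfsg.Agent.S0934

/-- Let H be a subgroup of the finite group G and fix a maximal ideal M of the algebraic integers containing the prime p. If the block b of H induces the block B of G and ξ ∈ b, then there is χ ∈ B whose restriction to H has nonzero inner product with ξ. -/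
theorem result {G : Type*} [Group G] [Fintype G] (p : ℕ) [Fact p.Prime] (M : Ideal Cfsg.AlgInt) (hM : Cfsg.IsPModular p M) (H : Subgroup G) [Fintype H] (b : Set (Cfsg.IrrCharacter H)) (B : Set (Cfsg.IrrCharacter G)) (hind : Cfsg.IsInducedBlock M H b B) (ξ : Cfsg.IrrCharacter H) (hξ : ξ ∈ b) : ∃ χ ∈ B, Cfsg.classInner (fun h : H => (χ : G → ℂ) h) (ξ : H → ℂ) ≠ 0 := by
  haveI := hM.2.1
  classical
  obtain ⟨hb, hB, hcong⟩ := hind
  obtain ⟨χ₀, hχ₀⟩ := CfsgLib.Blocks.nonempty_of_isPBlock hB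
  haveI : Fintype (ConjClasses G) := Fintype.ofFinite _
  set θ := Cfsg.indFun H (ξ : H → ℂ) with hθ
  have hθcl : Cfsg.IsClassFunction G θ := CfsgLib.Chars.Induced.indFun_isClassFunction H _
  have he := CfsgLib.Blocks.setIdem_mem_centerO hB
  have h1 : CfsgLib.Blocks.Congr M (CfsgLib.Blocks.omega θ (CfsgLib.Blocks.setIdem B))
      (CfsgLib.Blocks.omega (χ₀ : G → ℂ) (CfsgLib.Blocks.setIdem B)) := by
    rw [CfsgLib.Blocks.omega_eq_sum_classes he.1 hθcl, CfsgLib.Blocks.omega_eq_sum_classes he.1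
      (CfsgLib.Chars.isClassFunction_coe χ₀)]
    refine CfsgLib.Blocks.congr_sum _ fun C _ => ?_
    rw [CfsgLib.Blocks.Congr, ← mul_sub]
    refine CfsgLib.Blocks.memLocalIdeal_mul_left (he.2 _) ?_
    rw [hθ, ← Cfsg.Agent.S0932.result H _ (CfsgLib.Chars.isCharacter_coe ξ)]
    exact hcong ξ hξ χ₀ hχ₀ _
  rw [CfsgLib.Blocks.omega_setIdem, if_pos hχ₀] at h1
  by_contra hne
  push Not at hne
  refine CfsgLib.Blocks.not_memLocalIdeal_one (M := M)
    (CfsgLib.Blocks.memLocalIdeal_iff_congr_zero.mpr ?_)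
  refine h1.symm.trans (?_ : CfsgLib.Blocks.Congr M _ 0)
  have hzero : CfsgLib.Blocks.omega θ (CfsgLib.Blocks.setIdem B) = 0 := by
    rw [CfsgLib.Blocks.setIdem_eq_sum, map_sum]
    refine Finset.sum_eq_zero fun χ _ => ?_
    by_cases hχ : χ ∈ B
    · have h0 := hne χ hχ
      rw [← CfsgLib.Chars.Induced.classInner_indFun_right H (ξ : H → ℂ)
        (CfsgLib.Chars.isClassFunction_coe χ), CfsgLib.Chars.Induced.classInner_comm_conj,
        map_eq_zero, ← hθ, Cfsg.classInner, mul_eq_zero] at h0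
      have h0' := h0.resolve_left (inv_ne_zero CfsgLib.Chars.natCard_ne_zero)
      rw [if_pos hχ, one_smul, CfsgLib.Blocks.charIdem, CfsgLib.Blocks.omega_ofFun,
        show (∑ g : G, (χ : G → ℂ) 1 * (χ : G → ℂ) g⁻¹ / (Nat.card G : ℂ) * θ g / θ 1) =
          (χ : G → ℂ) 1 / (Nat.card G : ℂ) / θ 1 * ∑ g : G, θ g * (starRingEnd ℂ) ((χ : G → ℂ) g) from by
          rw [Finset.mul_sum]
          refine Finset.sum_congr rfl fun g _ => ?_
          rw [CfsgLib.Chars.conj_eq_map_inv (CfsgLib.Chars.isCharacter_coe χ)]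
          ring, h0', mul_zero]
    · rw [if_neg hχ, zero_smul, map_zero]
  rw [hzero]
  exact CfsgLib.Blocks.congr_refl _

end Cfsg.Agent.S0934
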