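import Cfsg.Statements.S0937
import Cfsg.Agent.Eq.Def_Blocks
import Cfsg.Agent.Blocks.HeightZero.Induced

set_option autoImplicit false
open Cfsg

namespace Cfsg.Agent.S0937

/-- Let H be a subgroup of the finite group G and fix a maximal ideal M of the algebraic integers containing the prime p. If the block b of H induces the block B of G and χ ∈ B has height zero, then there is ξ ∈ b of height zero whose multiplicity in the restriction of χ to H is a natural number not divisible by p. -/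
theorem result {G : Type*} [Group G] [Fintype G] (p : ℕ) [Fact p.Prime] (M : Ideal Cfsg.AlgInt) (hM : Cfsg.IsPModular p M) (H : Subgroup G) [Fintype H] (b : Set (Cfsg.IrrCharacter H)) (B : Set (Cfsg.IrrCharacter G)) (hind : Cfsg.IsInducedBlock M H b B) (χ : Cfsg.IrrCharacter G) (hχ : χ ∈ B) (h0 : Cfsg.blockHeight p B (χ : G → ℂ) = 0) : ∃ ξ ∈ b, Cfsg.blockHeight p b (ξ : H → ℂ) = 0 ∧ ∃ n : ℕ, Cfsg.classInner (fun h : H => (χ : G → ℂ) h) (ξ : H → ℂ) = (n : ℂ) ∧ ¬ p ∣ n := by
  classical
  have := CfsgLib.Blocks.isMaximal_of_isPModular hM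
  obtain ⟨ψ, hψ⟩ := CfsgLib.Blocks.nonempty_of_isPBlock hind.1
  have hunit := CfsgLib.Blocks.HeightZero.not_memLocalIdeal_regPair_induced hM hind hχ h0 hψ
  choose a ha using fun ξ : Cfsg.IrrCharacter H => CfsgLib.Chars.exists_nat_classInner
    (CfsgLib.Chars.isCharacter_restrict (CfsgLib.Chars.isCharacter_coe χ) H) ξ
  by_contra hcon
  push Not at hcon
  apply hunit
  have hexp : (fun h : H => (χ : G → ℂ) h) =
      fun h : H => ∑ ξ ∈ (Set.finite_univ (α := Cfsg.IrrCharacter H)).toFinset,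
        (a ξ : ℂ) * (ξ : H → ℂ) h := by
    funext h
    have e := CfsgLib.Chars.eq_sum_classInner_mul (G := H)
      (CfsgLib.Blocks.HeightZero.isClassFunction_restrict
        (CfsgLib.Chars.isClassFunction_coe χ) H) h
    simp only [ha] at e
    rw [e]
    exact Finset.sum_congr (by ext ξ; simp) fun _ _ => rfl
  rw [hexp, CfsgLib.Blocks.HeightZero.regPair_sum_left, Finset.sum_div]
  refine CfsgLib.Blocks.memLocalIdeal_sum _ fun ξ _ => ?_
  rw [mul_div_assoc]
  by_cases hξ : ξ ∈ b ∧ Cfsg.blockHeight p b (ξ : H → ℂ) = 0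
  · refine CfsgLib.Blocks.memLocalIdeal_mul_right
      ((CfsgLib.Blocks.memLocalIdeal_natCast_iff hM _).2 (hcon ξ hξ.1 hξ.2 (a ξ) (ha ξ))) ?_
    exact CfsgLib.Blocks.HeightZero.memLocalRing_regPair hM (CfsgLib.Chars.isClassFunction_coe ξ)
      (fun x _ => CfsgLib.Blocks.HeightZero.memLocalRing_apply (CfsgLib.Chars.isCharacter_coe ξ) x) ψ
  · exact CfsgLib.Blocks.memLocalIdeal_mul_left
      (natCast_mem (CfsgLib.Blocks.localRing M) _)
      (CfsgLib.Blocks.HeightZero.memLocalIdeal_regPair_of_height_ne_zero hM hind.1 hψ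
        fun h h' => hξ ⟨h, h'⟩)

end Cfsg.Agent.S0937
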