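import Cfsg.Statements.S0938
import Cfsg.Agent.Eq.Def_Blocks
import Cfsg.Agent.Blocks.Orth.Blocks
import Cfsg.Agent.Blocks.Basic.Principal

set_option autoImplicit false
open Cfsg

namespace Cfsg.Agent.S0938

/-- Let B be a block of the finite group G relative to a maximal ideal M of the algebraic integers containing the prime p, and let χ ∈ B. Then the kernel of B (the set of g with ψ g = ψ 1 for all ψ ∈ B) is a normal subgroup of order prime to p contained in the kernel of χ, and it contains every normal subgroup of order prime to p on which χ takes the value χ(1); that is, it is O_p' of the kernel of χ. -/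
theorem result {G : Type*} [Group G] [Finite G] (p : ℕ) [Fact p.Prime] (M : Ideal Cfsg.AlgInt) (hM : Cfsg.IsPModular p M) (B : Set (Cfsg.IrrCharacter G)) (hB : Cfsg.IsPBlock M B) (χ : Cfsg.IrrCharacter G) (hχ : χ ∈ B) : ∃ K : Subgroup G, K.Normal ∧ (K : Set G) = Cfsg.blockKer B ∧ ¬ p ∣ Nat.card K ∧ (∀ g ∈ K, (χ : G → ℂ) g = (χ : G → ℂ) 1) ∧ ∀ N : Subgroup G, N.Normal → ¬ p ∣ Nat.card N → (∀ g ∈ N, (χ : G → ℂ) g = (χ : G → ℂ) 1) → N ≤ K := by
  classical
  haveI := Fintype.ofFinite G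
  haveI := hM.2.1
  set K : Subgroup G := ⨅ ψ ∈ B, CfsgLib.Chars.charKer (ψ : G → ℂ) with hK
  have hmem : ∀ g, g ∈ K ↔ ∀ ψ ∈ B, (ψ : G → ℂ) g = (ψ : G → ℂ) 1 := by
    intro g
    simp only [hK, Subgroup.mem_iInf]
    exact forall₂_congr fun ψ _ => CfsgLib.Chars.mem_charKer_iff (CfsgLib.Chars.isCharacter_coe ψ)
  refine ⟨K, ⟨fun n hn g => (hmem _).2 fun ψ hψ => ?_⟩, Set.ext hmem, ?_,
    fun g hg => (hmem g).1 hg χ hχ, fun N hN hpN hker g hg => (hmem g).2 fun ψ hψ => ?_⟩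
  · rw [CfsgLib.Chars.isClassFunction_coe ψ]
    exact (hmem n).1 hn ψ hψ
  · intro hdvd
    obtain ⟨k, hk⟩ := exists_prime_orderOf_dvd_card' p hdvd
    have hk' : orderOf (k : G) = p := by rw [Subgroup.orderOf_coe, hk]
    have h0 := CfsgLib.Blocks.finsum_block_regular_mul_conj_singular hM hB (x := (1 : G))
      (by simp [hM.1.ne_one]) (y := (k : G)) (by rw [hk'])
    rw [CfsgLib.Blocks.finsum_block_eq_sum, Finset.sum_congr rfl (g := fun ψ : Cfsg.IrrCharacter G =>
        ((Cfsg.charDegree (ψ : G → ℂ) ^ 2 : ℕ) : ℂ)) fun ψ hψ => by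
      rw [(hmem _).1 k.2 ψ (by simpa using hψ), CfsgLib.Chars.conj_map_one
        (CfsgLib.Chars.isCharacter_coe ψ), ← CfsgLib.Chars.coe_charDegree ψ, Nat.cast_pow, sq],
      ← Nat.cast_sum, Nat.cast_eq_zero, Finset.sum_eq_zero_iff] at h0
    exact (pow_pos (CfsgLib.Chars.charDegree_pos χ) 2).ne' (h0 χ (by simpa using hχ))
  · haveI := hN
    exact CfsgLib.Chars.map_eq_map_one_of_mem_charKer
      (CfsgLib.Blocks.le_charKer_of_sameBlock N hM hpN (CfsgLib.Blocks.sameBlock_of_mem hB hχ hψ)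
        ((CfsgLib.Chars.le_charKer_iff (CfsgLib.Chars.isCharacter_coe χ)).mpr hker) hg)

end Cfsg.Agent.S0938
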