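import Cfsg.Statements.S0943
import Mathlib.Analysis.Complex.Polynomial.Basic
import Cfsg.Agent.Eq.Def_Characters

set_option autoImplicit false
open Cfsg

namespace Cfsg.Agent.S0943

/-- Let χ be an irreducible character of the finite group G and u, v ∈ G. If χ (x * y) = χ (u * v) whenever x is conjugate to u and y is conjugate to v, then χ u * χ v = χ 1 * χ (u * v). (Multiply the class sums of u and v and apply the central character of χ.) -/
theorem result {G : Type*} [Group G] [Finite G] (χ : Cfsg.IrrCharacter G) (u v : G) (hc : ∀ x y : G, IsConj u x → IsConj v y → (χ : G → ℂ) (x * y) = (χ : G → ℂ) (u * v)) : (χ : G → ℂ) u * (χ : G → ℂ) v = (χ : G → ℂ) 1 * (χ : G → ℂ) (u * v) := by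
  classical
  haveI : Fintype G := Fintype.ofFinite G
  obtain ⟨χ, n, ρ, hρ, rfl⟩ := χ
  haveI := hρ
  change ∀ x y : G, IsConj u x → IsConj v y → ρ.character (x * y) = ρ.character (u * v) at hc
  change ρ.character u * ρ.character v = ρ.character 1 * ρ.character (u * v)
  let T : G → ((Fin n → ℂ) →ₗ[ℂ] (Fin n → ℂ)) := fun a =>
    ∑ x ∈ Finset.univ.filter (IsConj a), ρ x
  have hT : ∀ a g : G, T a * ρ g = ρ g * T a := by
    intro a g
    simp only [T, Finset.sum_mul, Finset.mul_sum, ← map_mul]
    refine Finset.sum_bij' (fun x _ => g⁻¹ * x * g) (fun x _ => g * x * g⁻¹) ?_ ?_ ?_ ?_ ?_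
    · intro x hx
      simp only [Finset.mem_filter, Finset.mem_univ, true_and] at hx ⊢
      exact hx.trans (isConj_iff.mpr ⟨g⁻¹, by simp⟩)
    · intro x hx
      simp only [Finset.mem_filter, Finset.mem_univ, true_and] at hx ⊢
      exact hx.trans (isConj_iff.mpr ⟨g, rfl⟩)
    · intro x _; group
    · intro x _; group
    · intro x _; congr 1; group
  have hscal : ∀ a : G, ∃ c : ℂ, T a = c • (1 : (Fin n → ℂ) →ₗ[ℂ] (Fin n → ℂ)) := by
    intro a
    let f : Representation.IntertwiningMap ρ ρ :=
      { toLinearMap := T a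
        isIntertwining' := fun g => hT a g }
    obtain ⟨c, hc'⟩ :=
      (Representation.IsIrreducible.algebraMap_intertwiningMap_bijective_of_isAlgClosed (ρ := ρ)).2 f
    refine ⟨c, ?_⟩
    have := congrArg Representation.IntertwiningMap.toLinearMap hc'
    rw [show T a = f.toLinearMap from rfl, ← this]
    rfl
  obtain ⟨a, ha⟩ := hscal u
  obtain ⟨b, hb⟩ := hscal v
  have hn : ρ.character 1 = (n : ℂ) := by simp
  have t1 : ∀ w : G, LinearMap.trace ℂ (Fin n → ℂ) (T w) =
      ((Finset.univ.filter (IsConj w)).card : ℂ) * ρ.character w := by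
    intro w
    simp only [T, map_sum]
    rw [Finset.sum_congr rfl (g := fun _ => ρ.character w), Finset.sum_const, nsmul_eq_mul]
    intro x hx
    obtain ⟨c, rfl⟩ := isConj_iff.mp (Finset.mem_filter.mp hx).2
    exact ρ.char_conj w c
  have hu := t1 u
  have hv := t1 v
  rw [ha] at hu
  rw [hb] at hv
  have huv : LinearMap.trace ℂ (Fin n → ℂ) (T u * T v) =
      ((Finset.univ.filter (IsConj u)).card : ℂ) * ((Finset.univ.filter (IsConj v)).card : ℂ) *
        ρ.character (u * v) := by
    simp only [T, Finset.sum_mul, Finset.mul_sum, map_sum, ← map_mul]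
    rw [Finset.sum_congr rfl (fun x hx => Finset.sum_congr rfl (g := fun _ => ρ.character (u * v))
      (fun y hy => ?_))]
    · simp only [Finset.sum_const, nsmul_eq_mul]; ring
    · exact hc _ _ (Finset.mem_filter.mp hy).2 (Finset.mem_filter.mp hx).2
  rw [ha, hb, smul_mul_smul_comm, one_mul] at huv
  simp only [map_smul, LinearMap.trace_one, Module.finrank_fin_fun, smul_eq_mul] at hu hv huv
  have cu : ((Finset.univ.filter (IsConj u)).card : ℂ) ≠ 0 := by
    exact_mod_cast (Finset.card_pos.mpr ⟨u, Finset.mem_filter.mpr ⟨Finset.mem_univ _, IsConj.refl u⟩⟩).ne'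
  have cv : ((Finset.univ.filter (IsConj v)).card : ℂ) ≠ 0 := by
    exact_mod_cast (Finset.card_pos.mpr ⟨v, Finset.mem_filter.mpr ⟨Finset.mem_univ _, IsConj.refl v⟩⟩).ne'
  rw [hn]
  apply mul_left_cancel₀ (mul_ne_zero cu cv)
  linear_combination (n : ℂ) * huv - ((Finset.univ.filter (IsConj v)).card : ℂ) * ρ.character v * hu
    - a * (n : ℂ) * hv

end Cfsg.Agent.S0943
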