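import Cfsg.Statements.S0945
import Cfsg.Agent.TwoGroups.Homocyclic

set_option autoImplicit false
open Cfsg

namespace Cfsg.Agent.S0945

/-- Let P be a Sylow 2-subgroup of the finite group G isomorphic to Z/2^m × Z/2^m with m ≥ 1. Then (i) the index of C_G(P) in N_G(P) is 1 or 3, and (ii) if it is not 1, then for every z ≠ 1 in P, C_G(z) ∩ N_G(P) = C_G(P). -/
theorem result {G : Type*} [Group G] [Finite G] (P : Sylow 2 G) (m : ℕ) (hm : 1 ≤ m) (e : (P : Subgroup G) ≃* Multiplicative (ZMod (2 ^ m) × ZMod (2 ^ m))) : ((Subgroup.centralizer (P : Set G)).relIndex (Subgroup.normalizer (P : Set G)) = 1 ∨ (Subgroup.centralizer (P : Set G)).relIndex (Subgroup.normalizer (P : Set G)) = 3) ∧ ((Subgroup.centralizer (P : Set G)).relIndex (Subgroup.normalizer (P : Set G)) ≠ 1 → ∀ z ∈ (P : Subgroup G), z ≠ 1 → Subgroup.centralizer ({z} : Set G) ⊓ Subgroup.normalizer (P : Set G) = Subgroup.centralizer (P : Set G)) := by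
  haveI : Fact (Nat.Prime 2) := ⟨Nat.prime_two⟩
  obtain ⟨h13, h3⟩ := CfsgLib.TwoGroups.Homocyclic.normalizer_data P m hm e
  refine ⟨h13, fun hne z hzP hz1 => le_antisymm ?_ ?_⟩
  · rintro g ⟨hgz, hgN⟩
    obtain ⟨k, hk⟩ := P.isPGroup' ⟨z, hzP⟩
    obtain ⟨j, -, hj⟩ := (Nat.dvd_prime_pow Nat.prime_two).1 (orderOf_dvd_of_pow_eq_one hk)
    have hj' : orderOf z = 2 ^ j := by rw [← hj]; exact (Subgroup.orderOf_coe (⟨z, hzP⟩ : (P : Subgroup G)))
    have hj0 : j ≠ 0 := fun h0 => hz1 (orderOf_eq_one_iff.1 (by rw [hj', h0, pow_zero]))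
    refine (h3 hne).1 g hgN (z ^ 2 ^ (j - 1)) ((P : Subgroup G).pow_mem hzP _) ?_ ?_ ?_
    · rw [← pow_add, ← two_mul, ← pow_succ', Nat.sub_add_cancel (Nat.pos_of_ne_zero hj0), ← hj',
        pow_orderOf_eq_one]
    · exact pow_ne_one_of_lt_orderOf (pow_ne_zero _ two_ne_zero)
        (hj' ▸ Nat.pow_lt_pow_right Nat.one_lt_two (by omega))
    · have hc : Commute g (z ^ 2 ^ (j - 1)) :=
        Commute.pow_right (Subgroup.mem_centralizer_singleton_iff.1 hgz) _
      rw [hc.eq, mul_inv_cancel_right]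
  · refine le_inf (Subgroup.centralizer_le (Set.singleton_subset_iff.2 hzP)) ?_
    exact Subgroup.centralizer_le_normalizer _

end Cfsg.Agent.S0945
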