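import Cfsg.Statements.S0946
import Cfsg.Agent.TwoGroups.Homocyclic
import Mathlib.GroupTheory.Transfer

set_option autoImplicit false
open Cfsg

namespace Cfsg.Agent.S0946

/-- Let P be a Sylow 2-subgroup of the finite group G isomorphic to Z/2^m × Z/2^m with m ≥ 1. Then either P has a normal complement in G, or all involutions of G are conjugate. -/
theorem result {G : Type*} [Group G] [Finite G] (P : Sylow 2 G) (m : ℕ) (hm : 1 ≤ m) (e : (P : Subgroup G) ≃* Multiplicative (ZMod (2 ^ m) × ZMod (2 ^ m))) : (∃ N : Subgroup G, N.Normal ∧ Subgroup.IsComplement' N (P : Subgroup G)) ∨ ∀ s t : G, orderOf s = 2 → orderOf t = 2 → IsConj s t := by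
  haveI : Fact (Nat.Prime 2) := ⟨Nat.prime_two⟩
  obtain ⟨h13, h3⟩ := CfsgLib.TwoGroups.Homocyclic.normalizer_data P m hm e
  by_cases hne : (Subgroup.centralizer (P : Set G)).relIndex (Subgroup.normalizer (P : Set G)) = 1
  · left
    have h := Subgroup.relIndex_eq_one.1 hne
    exact ⟨(MonoidHom.transferSylow P h).ker, MonoidHom.normal_ker _,
      MonoidHom.ker_transferSylow_isComplement' P h⟩
  · right
    intro s t hs ht
    have key : ∀ a : G, orderOf a = 2 →
        ∃ u ∈ (P : Subgroup G), u * u = 1 ∧ u ≠ 1 ∧ IsConj a u := by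
      intro a ha
      have hA : IsPGroup 2 (Subgroup.zpowers a) :=
        IsPGroup.of_card_dvd_pow (n := 1) (by rw [Nat.card_zpowers, ha, pow_one])
      obtain ⟨Q, hQ⟩ := hA.exists_le_sylow
      obtain ⟨g, rfl⟩ := MulAction.exists_smul_eq G P Q
      have haQ := hQ (Subgroup.mem_zpowers a)
      rw [Sylow.coe_subgroup_smul, Subgroup.mem_pointwise_smul_iff_inv_smul_mem] at haQ
      have hu : g⁻¹ * a * g ∈ (P : Subgroup G) := by
        simpa using haQ
      refine ⟨_, hu, ?_, ?_, isConj_iff.2 ⟨g⁻¹, by rw [inv_inv]⟩⟩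
      · have h2 : a * a = 1 := by rw [← pow_two, ← ha, pow_orderOf_eq_one]
        calc g⁻¹ * a * g * (g⁻¹ * a * g) = g⁻¹ * (a * a) * g := by group
          _ = 1 := by rw [h2, mul_one, inv_mul_cancel]
      · intro h1
        have ha1 : a = 1 := by
          calc a = g * (g⁻¹ * a * g) * g⁻¹ := by group
            _ = 1 := by rw [h1, mul_one, mul_inv_cancel]
        rw [ha1, orderOf_one] at ha
        omega
    obtain ⟨u, hu, hu2, hu1, hsu⟩ := key s hs
    obtain ⟨v, hv, hv2, hv1, htv⟩ := key t ht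
    obtain ⟨g, -, hg⟩ := (h3 hne).2 u hu v hv hu2 hu1 hv2 hv1
    exact hsu.trans ((isConj_iff.2 ⟨g, hg⟩).trans htv.symm)

end Cfsg.Agent.S0946
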