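import Cfsg.Statements.S0950
import Cfsg.Agent.Eq.Def_LocalStructure
import Cfsg.Agent.Transfer.Frobenius
import Mathlib.GroupTheory.SpecificGroups.Quaternion

set_option autoImplicit false
open Cfsg

namespace Cfsg.Agent.S0950

/-- The map given by images of the two standard generators. -/
def genMap (u v : QuaternionGroup 2) : QuaternionGroup 2 → QuaternionGroup 2
  | .a i => u ^ i.val
  | .xa i => v * u ^ i.val

set_option maxRecDepth 100000 in
theorem genMap_period : ∀ u v : QuaternionGroup 2, u * u ≠ 1 → v * v ≠ 1 → v ≠ u → v ≠ u⁻¹ →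
    ∀ w, (genMap u v)^[12] w = w := by
  decide +kernel

set_option maxRecDepth 100000 in
theorem genMap_transitive : ∀ u v : QuaternionGroup 2, u * u ≠ 1 → v * v ≠ 1 → v ≠ u → v ≠ u⁻¹ →
    (∀ w, (genMap u v)^[3] w = w) → ¬ (u = .a 1 ∧ v = .xa 0) →
    ∀ x y : QuaternionGroup 2, x * x ≠ 1 → y * y ≠ 1 →
      ∃ j : Fin 3, y = (genMap u v)^[j.val] x ∨ y = ((genMap u v)^[j.val] x)⁻¹ := by
  decide +kernel

theorem gen_cover : ∀ u v : QuaternionGroup 2, u * u ≠ 1 → v * v ≠ 1 → v ≠ u → v ≠ u⁻¹ →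
    ∀ w, ∃ i : Fin 4, w = u ^ i.val ∨ w = v * u ^ i.val := by
  decide +kernel

theorem sq_eq_one : ∀ x : QuaternionGroup 2, x * x = 1 → x = 1 ∨ x = .a 2 := by
  decide +kernel

theorem xa_eq : ∀ i : ZMod (2 * 2), (QuaternionGroup.xa i : QuaternionGroup 2) =
    .xa 0 * .a i := by
  decide +kernel

theorem a_eq : ∀ i : ZMod (2 * 2), (QuaternionGroup.a i : QuaternionGroup 2) = .a 1 ^ i.val := by
  decide +kernel

theorem aut_eq (φ : MulAut (QuaternionGroup 2)) :
    (φ : QuaternionGroup 2 → QuaternionGroup 2) = genMap (φ (.a 1)) (φ (.xa 0)) := by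
  funext w
  cases w with
  | a i => conv_lhs => rw [a_eq i, map_pow]
           rfl
  | xa i => conv_lhs => rw [xa_eq i, map_mul, a_eq i, map_pow]
            rfl

theorem aut_gen (φ : MulAut (QuaternionGroup 2)) :
    φ (.a 1) * φ (.a 1) ≠ 1 ∧ φ (.xa 0) * φ (.xa 0) ≠ 1 ∧ φ (.xa 0) ≠ φ (.a 1) ∧
      φ (.xa 0) ≠ (φ (.a 1))⁻¹ := by
  refine ⟨?_, ?_, ?_, ?_⟩
  · rw [← map_mul, Ne, MulEquiv.map_eq_one_iff]; decide
  · rw [← map_mul, Ne, MulEquiv.map_eq_one_iff]; decide
  · exact φ.injective.ne (by decide)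
  · rw [← map_inv]; exact φ.injective.ne (by decide)

theorem coe_pow (φ : MulAut (QuaternionGroup 2)) (k : ℕ) (w : QuaternionGroup 2) :
    (φ ^ k) w = (φ : QuaternionGroup 2 → QuaternionGroup 2)^[k] w := by
  induction k with
  | zero => rfl
  | succ k ih => rw [pow_succ', MulAut.mul_apply, ih, Function.iterate_succ_apply']

/-- A non-trivial automorphism of odd order of the quaternion group of order 8 permutes the
cyclic subgroups of order 4 transitively. -/
theorem aut_transitive (φ : MulAut (QuaternionGroup 2)) (n : ℕ) (hn : Odd n) (hφn : φ ^ n = 1)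
    (hne : φ ≠ 1) (x y : QuaternionGroup 2) (hx : x * x ≠ 1) (hy : y * y ≠ 1) :
    ∃ j : ℕ, y = (φ ^ j) x ∨ y = ((φ ^ j) x)⁻¹ := by
  obtain ⟨h1, h2, h3, h4⟩ := aut_gen φ
  have h12 : φ ^ 12 = 1 := MulEquiv.ext fun w => by
    rw [coe_pow, aut_eq φ]
    exact genMap_period _ _ h1 h2 h3 h4 w
  have hd : orderOf φ ∣ Nat.gcd n 12 :=
    Nat.dvd_gcd (orderOf_dvd_of_pow_eq_one hφn) (orderOf_dvd_of_pow_eq_one h12)
  have h43 : Nat.gcd n 12 ∣ 3 := by
    have hc : Nat.Coprime (Nat.gcd n 12) 4 :=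
      Nat.Coprime.coprime_dvd_left (Nat.gcd_dvd_left _ _)
        (show Nat.Coprime n (2 ^ 2) from (Nat.coprime_two_right.2 hn).pow_right 2)
    exact hc.dvd_of_dvd_mul_left (Nat.gcd_dvd_right n 12)
  have hcube : ∀ w, (genMap (φ (.a 1)) (φ (.xa 0)))^[3] w = w := fun w => by
    rw [← aut_eq φ, ← coe_pow, orderOf_dvd_iff_pow_eq_one.1 (hd.trans h43), MulAut.one_apply]
  have hne' : ¬ (φ (.a 1) = .a 1 ∧ φ (.xa 0) = .xa 0) := by
    rintro ⟨e1, e2⟩
    refine hne (MulEquiv.ext fun w => ?_)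
    rw [aut_eq φ, e1, e2]
    cases w with
    | a i => exact (a_eq i).symm
    | xa i => exact ((xa_eq i).trans (by rw [a_eq i]; rfl)).symm
  obtain ⟨j, hj⟩ := genMap_transitive _ _ h1 h2 h3 h4 hcube hne' x y hx hy
  refine ⟨j.val, ?_⟩
  rw [coe_pow, aut_eq φ]
  exact hj

theorem exists_order_four {K : Subgroup (QuaternionGroup 2)} (hK : 3 ≤ Nat.card K) :
    ∃ x ∈ K, x * x ≠ 1 := by
  classical
  by_contra h
  push Not at h
  have hsub : (K : Set (QuaternionGroup 2)) ⊆ {1, .a 2} := fun x hx => sq_eq_one x (h x hx)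
  have h2 := Set.ncard_le_ncard hsub (Set.toFinite _)
  rw [← Nat.card_coe_set_eq] at h2
  have h3 : ({1, .a 2} : Set (QuaternionGroup 2)).ncard ≤ 2 := by
    rw [Set.ncard_pair (by decide)]
  exact absurd (le_trans hK (le_trans h2 h3)) (by norm_num)

theorem conj_eq_of_proper {K : Subgroup (QuaternionGroup 2)} (hK : K ≠ ⊤)
    {u w : QuaternionGroup 2} (hu : u ∈ K) (hw : w ∈ K) (hord : orderOf w = orderOf u) :
    w = u ∨ w = u⁻¹ := by
  by_contra hc
  push Not at hc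
  by_cases hu2 : u * u = 1
  · have hw2 : w * w = 1 := by
      rw [← pow_two, ← orderOf_dvd_iff_pow_eq_one, hord, orderOf_dvd_iff_pow_eq_one, pow_two, hu2]
    rcases sq_eq_one u hu2 with rfl | rfl <;> rcases sq_eq_one w hw2 with rfl | rfl
    · exact hc.1 rfl
    · rw [orderOf_one, orderOf_eq_one_iff] at hord; exact absurd hord (by decide)
    · rw [orderOf_one, eq_comm, orderOf_eq_one_iff] at hord; exact absurd hord (by decide)
    · exact hc.1 rfl
  · have hw2 : w * w ≠ 1 := by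
      rw [← pow_two, Ne, ← orderOf_dvd_iff_pow_eq_one, hord, orderOf_dvd_iff_pow_eq_one, pow_two]
      exact hu2
    refine hK (eq_top_iff.2 fun z _ => ?_)
    obtain ⟨i, hi | hi⟩ := gen_cover u w hu2 hw2 hc.1 hc.2 z
    · rw [hi]; exact pow_mem hu _
    · rw [hi]; exact mul_mem hw (pow_mem hu _)

theorem commute_of_conj_eq_or_inv {G : Type*} [Group G] {g x : G} (hodd : Odd (orderOf g))
    (h : g * x * g⁻¹ = x ∨ g * x * g⁻¹ = x⁻¹) : g * x * g⁻¹ = x := by
  rcases h with h | h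
  · exact h
  have h2 : g ^ 2 * x * (g ^ 2)⁻¹ = x := by
    rw [show g ^ 2 * x * (g ^ 2)⁻¹ = g * (g * x * g⁻¹) * g⁻¹ by rw [pow_two]; group, h,
      show g * x⁻¹ * g⁻¹ = (g * x * g⁻¹)⁻¹ by group, h, inv_inv]
  obtain ⟨k, hk⟩ := hodd
  have hg : g = (g ^ 2) ^ (k + 1) := by
    rw [← pow_mul, show 2 * (k + 1) = orderOf g + 1 by omega, pow_succ, pow_orderOf_eq_one, one_mul]
  have hc : Commute (g ^ 2) x := mul_inv_eq_iff_eq_mul.1 h2
  have hc' : Commute g x := hg ▸ hc.pow_left (k + 1)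
  rw [hc'.eq, mul_inv_cancel_right]

/-- Let S be a Sylow 2-subgroup of the finite group G that is isomorphic to the quaternion group of order 8, and suppose S has no normal complement in G. Then any two subgroups of order 4 of S are conjugate by an element of the normalizer of S. -/
theorem result {G : Type*} [Group G] [Finite G] (S : Sylow 2 G) (e : (S : Subgroup G) ≃* QuaternionGroup 2) (hnc : ∀ N : Subgroup G, N.Normal → ¬ Subgroup.IsComplement' N (S : Subgroup G)) (A B : Subgroup G) (hA : A ≤ S) (hB : B ≤ S) (hA4 : Nat.card A = 4) (hB4 : Nat.card B = 4) : ∃ n ∈ Subgroup.normalizer ((S : Subgroup G) : Set G), B = A.map (MulAut.conj n).toMonoidHom := by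
  classical
  haveI : Fact (Nat.Prime 2) := ⟨Nat.prime_two⟩
  have hno : ¬ Cfsg.HasNormalPComplement 2 G := fun h => by
    obtain ⟨N, hN, hc⟩ := CfsgLib.Transfer.exists_isComplement' h S
    exact hnc N hN hc
  obtain ⟨Q, hQ, q, k, hq, hq2, g, hgN, hgo, hgC⟩ :=
    CfsgLib.Transfer.exists_of_not_hasNormalPComplement hno
  obtain ⟨T, hT⟩ := hQ.exists_le_sylow
  obtain ⟨h, rfl⟩ := MulAction.exists_smul_eq G S T
  set b := h⁻¹ * g * h with hb
  have hmem : ∀ u : G, u ∈ Q → h⁻¹ * u * h ∈ (S : Subgroup G) := by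
    intro u hu
    have h1 := hT hu
    rw [Sylow.coe_subgroup_smul, Subgroup.mem_pointwise_smul_iff_inv_smul_mem] at h1
    simpa using h1
  have hbo : orderOf b = q ^ k := by
    rw [hb, show h⁻¹ * g * h = MulAut.conj h⁻¹ g by simp, MulEquiv.orderOf_eq, hgo]
  have hbodd : Odd (orderOf b) := hbo ▸ (hq.odd_of_ne_two hq2).pow
  -- the image of Q in the quaternion group
  let K : Subgroup (QuaternionGroup 2) :=
    ((Q.map (MulAut.conj h⁻¹).toMonoidHom).subgroupOf (S : Subgroup G)).map e.toMonoidHom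
  have hKtop : K = ⊤ := by
    by_contra hK
    refine hgC fun u hu => ?_
    have hgu : g * u * g⁻¹ ∈ Q := (Subgroup.mem_normalizer_iff.1 hgN u).1 hu
    have hmK : ∀ v (hv : v ∈ Q), e ⟨h⁻¹ * v * h, hmem v hv⟩ ∈ K := fun v hv =>
      ⟨⟨h⁻¹ * v * h, hmem v hv⟩, ⟨v, hv, by simp⟩, rfl⟩
    have hor : g * u * g⁻¹ = u ∨ g * u * g⁻¹ = u⁻¹ := by
      have h1 := conj_eq_of_proper hK (hmK u hu) (hmK _ hgu) (by
        rw [MulEquiv.orderOf_eq, MulEquiv.orderOf_eq, ← Subgroup.orderOf_coe, ← Subgroup.orderOf_coe]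
        show orderOf (h⁻¹ * (g * u * g⁻¹) * h) = orderOf (h⁻¹ * u * h)
        rw [show h⁻¹ * (g * u * g⁻¹) * h = MulAut.conj (h⁻¹ * g) u by simp [mul_assoc],
          show h⁻¹ * u * h = MulAut.conj h⁻¹ u by simp, MulEquiv.orderOf_eq, MulEquiv.orderOf_eq])
      rw [← map_inv] at h1
      rcases h1 with h1 | h1
      · left
        exact mul_left_cancel (mul_right_cancel (congrArg Subtype.val (e.injective h1)))
      · right
        have h2 : h⁻¹ * (g * u * g⁻¹) * h = (h⁻¹ * u * h)⁻¹ :=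
          congrArg Subtype.val (e.injective h1)
        rw [show (h⁻¹ * u * h)⁻¹ = h⁻¹ * u⁻¹ * h by group] at h2
        exact mul_left_cancel (mul_right_cancel h2)
    have h1 := commute_of_conj_eq_or_inv (hgo ▸ (hq.odd_of_ne_two hq2).pow) hor
    exact (mul_inv_eq_iff_eq_mul.1 h1).symm
  -- hence conjugation by b is an automorphism of S
  have hSQ : ∀ s ∈ (S : Subgroup G), ∃ u ∈ Q, h⁻¹ * u * h = s := by
    intro s hs
    obtain ⟨s', hs', hse⟩ : e ⟨s, hs⟩ ∈ K := hKtop ▸ Subgroup.mem_top _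
    obtain rfl : s' = ⟨s, hs⟩ := e.injective hse
    obtain ⟨u, hu, hus⟩ := hs'
    exact ⟨u, hu, by simpa using hus⟩
  have hbN : b ∈ Subgroup.normalizer ((S : Subgroup G) : Set G) := by
    refine Subgroup.mem_normalizer_iff.2 fun s => ⟨fun hs => ?_, fun hs => ?_⟩
    · obtain ⟨u, hu, rfl⟩ := hSQ s hs
      rw [show b * (h⁻¹ * u * h) * b⁻¹ = h⁻¹ * (g * u * g⁻¹) * h by rw [hb]; group]
      exact hmem _ ((Subgroup.mem_normalizer_iff.1 hgN u).1 hu)
    · obtain ⟨u, hu, hus⟩ := hSQ _ hs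
      have hu' : g⁻¹ * u * g ∈ Q := by
        simpa using (Subgroup.mem_normalizer_iff.1 (inv_mem hgN) u).1 hu
      have h1 := hmem _ hu'
      rwa [show h⁻¹ * (g⁻¹ * u * g) * h = b⁻¹ * (h⁻¹ * u * h) * b by rw [hb]; group, hus,
        show b⁻¹ * (b * s * b⁻¹) * b = s by group] at h1
  let act : Subgroup.normalizer ((S : Subgroup G) : Set G) →* MulAut (S : Subgroup G) :=
    MonoidHom.mk' (fun n =>
      { toFun := fun a => ⟨(n : G) * a * (n : G)⁻¹, (Subgroup.mem_normalizer_iff.1 n.2 a).1 a.2⟩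
        invFun := fun a => ⟨(n : G)⁻¹ * a * (n : G),
          by simpa using (Subgroup.mem_normalizer_iff.1 (n⁻¹).2 a).1 a.2⟩
        left_inv := fun a => Subtype.ext (by simp [mul_assoc])
        right_inv := fun a => Subtype.ext (by simp [mul_assoc])
        map_mul' := fun a b => Subtype.ext (by simp [mul_assoc]) })
      fun n k => MulEquiv.ext fun a => Subtype.ext (by simp [mul_assoc])
  let ψ := (MulAut.congr e).toMonoidHom.comp act
  have hψn : ψ ⟨b, hbN⟩ ^ orderOf b = 1 := by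
    rw [← map_pow, show (⟨b, hbN⟩ : Subgroup.normalizer ((S : Subgroup G) : Set G)) ^ orderOf b = 1
      from Subtype.ext (by simp [pow_orderOf_eq_one]), map_one]
  have hψne : ψ ⟨b, hbN⟩ ≠ 1 := by
    intro h1
    refine hgC fun u hu => ?_
    have h2 : act ⟨b, hbN⟩ = 1 := (MulAut.congr e).injective (h1.trans (map_one _).symm)
    have h3 : b * (h⁻¹ * u * h) * b⁻¹ = h⁻¹ * u * h :=
      congrArg Subtype.val (DFunLike.congr_fun h2 (⟨h⁻¹ * u * h, hmem u hu⟩ : (S : Subgroup G)))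
    rw [show b * (h⁻¹ * u * h) * b⁻¹ = h⁻¹ * (g * u * g⁻¹) * h by rw [hb]; group] at h3
    exact (mul_inv_eq_iff_eq_mul.1 (mul_left_cancel (mul_right_cancel h3))).symm
  have cyc : ∀ X : Subgroup G, X ≤ S → Nat.card X = 4 →
      ∃ x : (S : Subgroup G), X = Subgroup.zpowers (x : G) ∧ e x * e x ≠ 1 := by
    intro X hX hX4
    let KX := (X.subgroupOf (S : Subgroup G)).map e.toMonoidHom
    have hc : Nat.card KX = 4 := by
      rw [← Nat.card_congr ((X.subgroupOf (S : Subgroup G)).equivMapOfInjective _ e.injective).toEquiv,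
        Nat.card_congr (Subgroup.subgroupOfEquivOfLe hX).toEquiv, hX4]
    obtain ⟨w, ⟨x, hxX, hxw⟩, hw2⟩ := exists_order_four (K := KX) (by omega)
    have hw2' : e x * e x ≠ 1 := by rw [show e x = w from hxw]; exact hw2
    refine ⟨x, ?_, hw2'⟩
    have hxX' : (x : G) ∈ X := hxX
    refine (Subgroup.eq_of_le_of_card_ge (Subgroup.zpowers_le.2 hxX') ?_).symm
    rw [hX4, Nat.card_zpowers, Subgroup.orderOf_coe, ← MulEquiv.orderOf_eq e]
    have h8 : orderOf (e x) ∣ 2 ^ 3 := by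
      have h5 := orderOf_dvd_natCard (e x)
      rw [Nat.card_eq_fintype_card, QuaternionGroup.card] at h5
      exact h5
    obtain ⟨j, hj, hjo⟩ := (Nat.dvd_prime_pow Nat.prime_two).1 h8
    have : 2 ≤ j := by
      by_contra hjlt
      refine hw2' ?_
      rw [← pow_two, ← orderOf_dvd_iff_pow_eq_one, hjo]
      exact (pow_dvd_pow 2 (show j ≤ 1 by omega))
    rw [hjo]
    exact (Nat.pow_le_pow_right two_pos this)
  obtain ⟨x, hxA, hx2⟩ := cyc A hA hA4
  obtain ⟨y, hyB, hy2⟩ := cyc B hB hB4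
  obtain ⟨j, hj⟩ := aut_transitive _ _ hbodd hψn hψne (e x) (e y) hx2 hy2
  refine ⟨b ^ j, pow_mem hbN j, ?_⟩
  rw [← map_pow] at hj
  have hval : (ψ (⟨b, hbN⟩ ^ j)) (e x) = e (act (⟨b, hbN⟩ ^ j) x) := by
    show e (act (⟨b, hbN⟩ ^ j) (e.symm (e x))) = _
    rw [e.symm_apply_apply]
  rw [hval, ← map_inv] at hj
  rw [hxA, hyB, MonoidHom.map_zpowers]
  rcases hj with hj | hj
  · rw [e.injective hj]
    rfl
  · rw [e.injective hj, Subgroup.coe_inv, Subgroup.zpowers_inv]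
    rfl

end Cfsg.Agent.S0950
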