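import Cfsg.Statements.S0952
import Cfsg.Agent.Eq.Def_Blocks
import Cfsg.Agent.Eq.Def_Characters
import Cfsg.Agent.Blocks.Orth.Blocks
import Cfsg.Agent.Blocks.Basic.Local

set_option autoImplicit false
open scoped ComplexConjugate
open Cfsg

namespace Cfsg.Agent.S0952

/-- Let χ and ψ be irreducible characters of the finite group G lying in different blocks relative to a maximal ideal M of the algebraic integers containing the prime p. Then the sum of χ x * conj (ψ x) over the elements x of order prime to p is zero. -/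
theorem result {G : Type*} [Group G] [Finite G] (p : ℕ) [Fact p.Prime] (M : Ideal Cfsg.AlgInt) (hM : Cfsg.IsPModular p M) (χ ψ : Cfsg.IrrCharacter G) (h : ¬ Cfsg.SameBlock M (χ : G → ℂ) (ψ : G → ℂ)) : ∑ᶠ x ∈ {x : G | ¬ p ∣ orderOf x}, (χ : G → ℂ) x * conj ((ψ : G → ℂ) x) = 0 := by
  classical
  haveI := Fintype.ofFinite G
  haveI := hM.2.1
  have hχ : χ ∉ Cfsg.blockOf M (ψ : G → ℂ) := fun hh => h (CfsgLib.Blocks.sameBlock_symm hh)
  have hI := CfsgLib.Blocks.classInner_pRegularPart_eq_zero hM ⟨ψ, rfl⟩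
    (CfsgLib.Blocks.self_mem_blockOf ψ) hχ
  rw [Cfsg.classInner, mul_eq_zero] at hI
  rcases hI with hI | hI
  · exact absurd hI (inv_ne_zero (Nat.cast_ne_zero.2 Nat.card_pos.ne'))
  · rw [finsum_mem_eq_toFinset_sum, ← hI, Set.toFinset_setOf, Finset.sum_filter]
    refine Finset.sum_congr rfl fun x _ => ?_
    by_cases hx : p ∣ orderOf x <;> simp [Cfsg.pRegularPart, Cfsg.IsPRegular, hx]

end Cfsg.Agent.S0952
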