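import Cfsg.Statements.S0953
import Cfsg.Agent.Eq.Def_Blocks
import Cfsg.Agent.S0920
import Cfsg.Agent.Blocks.Defect.SylowCount

set_option autoImplicit false
open Cfsg

namespace Cfsg.Agent.S0953

/-- Let P be a Sylow p-subgroup of the finite group G with normalizer N, and fix a maximal ideal M of the algebraic integers containing p. The number of blocks of G having P as a defect group equals the number of conjugacy classes of N consisting of elements of order prime to p that centralize P. -/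
theorem result {G : Type*} [Group G] [Finite G] (p : ℕ) [Fact p.Prime] (M : Ideal Cfsg.AlgInt) (hM : Cfsg.IsPModular p M) (P : Sylow p G) : Nat.card {B : Set (Cfsg.IrrCharacter G) // Cfsg.IsPBlock M B ∧ Cfsg.IsDefectGroup p M B (P : Subgroup G)} = Nat.card {C : ConjClasses (Subgroup.normalizer ((P : Subgroup G) : Set G)) // ∀ n : Subgroup.normalizer ((P : Subgroup G) : Set G), ConjClasses.mk n = C → ¬ p ∣ orderOf n ∧ (n : G) ∈ Subgroup.centralizer ((P : Subgroup G) : Set G)} := by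
  classical
  haveI := hM.2.1
  haveI := CfsgLib.Blocks.charP_kres hM
  haveI := Fintype.ofFinite G
  set N := Subgroup.normalizer ((P : Subgroup G) : Set G) with hN
  haveI := Fintype.ofFinite N
  let Q : Sylow p N := P.subtype Subgroup.le_normalizer
  haveI hQn : (Q : Subgroup N).Normal := Subgroup.normal_in_normalizer
  have hQ : (Q : Subgroup N) = (P : Subgroup G).subgroupOf N := rfl
  have hdef : ∀ b : Set (Cfsg.IrrCharacter N), Cfsg.IsPBlock M b →
      Cfsg.IsDefectGroup p M b ((P : Subgroup G).subgroupOf N) := by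
    intro b hb
    have he := CfsgLib.Blocks.isBlockIdem_topEl (M := M) hb
    obtain ⟨D, hD⟩ := he.exists_defectGroup p
    have hle : (Q : Subgroup N) ≤ D := he.normal_le_defectGroup Q.2 le_top
      (by rw [Subgroup.normalizer_eq_top]) hD
    rw [Q.is_maximal' hD.2.1 hle] at hD
    rw [← hQ]
    exact (CfsgLib.Blocks.isDefectGroup_topEl_iff hb _).mpr hD
  obtain ⟨hup, hdown⟩ := Cfsg.Agent.S0920.result p M hM (P : Subgroup G) P.2
  choose F hFb hFD hFi using fun b : {b : Set (Cfsg.IrrCharacter N) // Cfsg.IsPBlock M b} =>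
    hup b.1 b.2 (hdef b.1 b.2)
  have huniq : ∀ (b : Set (Cfsg.IrrCharacter N)) (B B' : Set (Cfsg.IrrCharacter G)),
      Cfsg.IsInducedBlock M N b B → Cfsg.IsInducedBlock M N b B' → B = B' := by
    intro b B B' h h'
    obtain ⟨ξ, hξ⟩ := CfsgLib.Blocks.nonempty_of_isPBlock h.1
    obtain ⟨χ, hχ⟩ := CfsgLib.Blocks.nonempty_of_isPBlock h.2.1
    obtain ⟨ψ, hψ⟩ := CfsgLib.Blocks.nonempty_of_isPBlock h'.2.1
    have hsame : Cfsg.SameBlock M (χ : G → ℂ) (ψ : G → ℂ) := fun g =>
      CfsgLib.Blocks.Congr.trans (CfsgLib.Blocks.Congr.symm (h.2.2 ξ hξ χ hχ g))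
        (h'.2.2 ξ hξ ψ hψ g)
    rw [CfsgLib.Blocks.eq_blockOf_of_mem h.2.1 hχ, CfsgLib.Blocks.eq_blockOf_of_mem h'.2.1 hψ,
      CfsgLib.Blocks.blockOf_eq_of_sameBlock hsame]
  have hequiv : Nat.card {B : Set (Cfsg.IrrCharacter G) //
      Cfsg.IsPBlock M B ∧ Cfsg.IsDefectGroup p M B (P : Subgroup G)} =
      Nat.card {b : Set (Cfsg.IrrCharacter N) // Cfsg.IsPBlock M b} := by
    refine (Nat.card_congr (Equiv.ofBijective (fun b => ⟨F b, hFb b, hFD b⟩) ⟨?_, ?_⟩)).symm
    · intro b b' hbb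
      have hF : F b = F b' := congrArg Subtype.val hbb
      obtain ⟨c, -, hc⟩ := hdown (F b) (hFb b) (hFD b)
      exact Subtype.ext ((hc b.1 ⟨b.2, hdef b.1 b.2, hFi b⟩).trans
        (hc b'.1 ⟨b'.2, hdef b'.1 b'.2, hF ▸ hFi b'⟩).symm)
    · rintro ⟨B, hB, hBD⟩
      obtain ⟨b, ⟨hb, -, hbi⟩, -⟩ := hdown B hB hBD
      exact ⟨⟨b, hb⟩, Subtype.ext (huniq b _ _ (hFi ⟨b, hb⟩) hbi)⟩
  rw [hequiv, CfsgLib.Blocks.card_blocks_normal_sylow hM Q]
  refine Nat.card_congr (Equiv.subtypeEquivRight fun C => ?_)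
  refine forall₂_congr fun n _ => and_congr_right fun _ => ?_
  rw [hQ, Subgroup.mem_centralizer_iff, Subgroup.mem_centralizer_iff]
  exact ⟨fun h g hg => congrArg Subtype.val (h ⟨g, Subgroup.le_normalizer hg⟩ hg),
    fun h g hg => Subtype.ext (h g hg)⟩

end Cfsg.Agent.S0953
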