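import Cfsg.Statements.S0954
import Cfsg.Agent.Blocks.Covering.Basic

set_option autoImplicit false
open Cfsg

namespace Cfsg.Agent.S0954
open CfsgLib.Blocks in
/-- In a group of order prime to `p` every block is a singleton. -/
theorem eq_of_sameBlock {H : Type*} [Group H] [Fintype H] {p : ℕ} {M : Ideal AlgInt} (hM : IsPModular p M)
    (hH : ¬ p ∣ Nat.card H) {θ η : IrrCharacter H} (h : SameBlock M (θ : H → ℂ) (η : H → ℂ)) : θ = η := by
  classical
  haveI := hM.2.1
  by_contra hne
  have hz : charIdem (θ : H → ℂ) ∈ centerO M H := by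
    refine ⟨isCentralElt_charIdem (isCharacter_of_isIrrCharacter θ.2), fun g => ?_⟩
    rw [charIdem, coeff_ofFun]
    rw [div_eq_mul_inv]
    exact (localRing M).mul_mem ((localRing M).mul_mem (memLocalRing_of_isIntegral (CfsgLib.Chars.isIntegral_apply (CfsgLib.Chars.isCharacter_coe θ) 1))
      (memLocalRing_of_isIntegral (CfsgLib.Chars.isIntegral_apply (CfsgLib.Chars.isCharacter_coe θ) g⁻¹))) (memLocalRing_inv_natCast hM hH)
  have hc := congr_omega_of_sameBlock hz h
  rw [omega_charIdem, omega_charIdem, if_pos rfl, if_neg (Ne.symm hne), Congr, sub_zero] at hc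
  exact not_memLocalIdeal_one hc


/-- Let N be a normal subgroup of the finite group G of order prime to p and of p-power index (a normal p-complement), and fix a maximal ideal M of the algebraic integers containing p. Then two irreducible characters χ, ψ of G lie in the same block if and only if some irreducible character of N has nonzero inner product with both the restriction of χ and the restriction of ψ. -/
theorem result {G : Type*} [Group G] [Fintype G] (p : ℕ) [Fact p.Prime] (M : Ideal Cfsg.AlgInt) (hM : Cfsg.IsPModular p M) (N : Subgroup G) [N.Normal] [Fintype N] (hN : ¬ p ∣ Nat.card N) (hidx : ∃ k : ℕ, N.index = p ^ k) (χ ψ : Cfsg.IrrCharacter G) : Cfsg.SameBlock M (χ : G → ℂ) (ψ : G → ℂ) ↔ ∃ θ : Cfsg.IrrCharacter N, Cfsg.classInner (fun n : N => (χ : G → ℂ) n) (θ : N → ℂ) ≠ 0 ∧ Cfsg.classInner (fun n : N => (ψ : G → ℂ) n) (θ : N → ℂ) ≠ 0 := by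
  classical
  haveI := hM.2.1
  obtain ⟨k, hk⟩ := hidx
  constructor
  · intro h
    obtain ⟨θ, hθ⟩ := CfsgLib.BlocksCover.exists_constituent χ N
    obtain ⟨η, hη⟩ := CfsgLib.BlocksCover.exists_constituent ψ N
    have hc : ∀ n : N, CfsgLib.Blocks.Congr M (inducedCentralChar N (θ : N → ℂ) (n : G)) (inducedCentralChar N (η : N → ℂ) (n : G)) := fun n => by
      rw [← (CfsgLib.BlocksCover.constituent_iff_centralChar χ θ).1 hθ n,
        ← (CfsgLib.BlocksCover.constituent_iff_centralChar ψ η).1 hη n]
      exact h (n : G)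
    obtain ⟨x, hx⟩ := CfsgLib.BlocksCover.exists_sameBlock_conj hc
    refine ⟨θ, hθ, ?_⟩
    rw [eq_of_sameBlock hM hN hx, CfsgLib.BlocksCover.mult_ne_zero_iff,
      CfsgLib.Chars.Induced.mult_restrict_conjIrr (CfsgLib.Chars.isClassFunction_coe ψ), ← CfsgLib.BlocksCover.mult_ne_zero_iff]
    exact hη
  · rintro ⟨θ, h1, h2⟩
    refine CfsgLib.BlocksCover.sameBlock_of_congr_on_regular hM N
      (CfsgLib.BlocksCover.mem_of_index_prime_pow hM.1 N hk) χ ψ fun n => ?_
    rw [(CfsgLib.BlocksCover.constituent_iff_centralChar χ θ).1 h1 n,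
      (CfsgLib.BlocksCover.constituent_iff_centralChar ψ θ).1 h2 n]
    exact CfsgLib.Blocks.congr_refl _

end Cfsg.Agent.S0954
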