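import Cfsg.Statements.S0956
import Cfsg.Agent.Blocks.Defect.Induced
import Cfsg.Agent.Eq.Def_Blocks
import Cfsg.Agent.Blocks.Defect.CosetSum
import Cfsg.Agent.Blocks.Orth.Blocks

set_option autoImplicit false
open Cfsg

namespace Cfsg.Agent.S0956

/-- Let D be a defect group of a block of the finite group G (relative to a maximal ideal M of the algebraic integers containing the prime p) and P a Sylow p-subgroup containing D. Then there is an element x of order prime to p such that D is a Sylow p-subgroup of the centralizer of x and D = P ∩ x P x⁻¹. -/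
theorem result {G : Type*} [Group G] [Finite G] (p : ℕ) [Fact p.Prime] (M : Ideal Cfsg.AlgInt) (hM : Cfsg.IsPModular p M) (B : Set (Cfsg.IrrCharacter G)) (hB : Cfsg.IsPBlock M B) (D : Subgroup G) (hD : Cfsg.IsDefectGroup p M B D) (P : Sylow p G) (hDP : D ≤ P) : ∃ x : G, ¬ p ∣ orderOf x ∧ (∃ S : Sylow p (Subgroup.centralizer ({x} : Set G)), (S : Subgroup (Subgroup.centralizer ({x} : Set G))).map (Subgroup.centralizer ({x} : Set G)).subtype = D) ∧ (P : Subgroup G) ⊓ (P : Subgroup G).map (MulAut.conj x).toMonoidHom = D := by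
  haveI := hM.2.1
  haveI := CfsgLib.Blocks.charP_kres hM
  classical
  haveI := Fintype.ofFinite G
  have he := CfsgLib.Blocks.isBlockIdem_topEl hB (M := M)
  have heD := (CfsgLib.Blocks.isDefectGroup_topEl_iff hB D).mp hD
  have hb := heD.trunc_isBlockIdem he
  have hbD := heD.defect_over he hb (show CfsgLib.Blocks.BrOver D _ _ from hb.idem)
  set N := Subgroup.normalizer (D : Set G) with hN
  set R := (P : Subgroup G) ⊓ N with hR
  have hRp : IsPGroup p R := P.isPGroup'.to_le inf_le_left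
  obtain ⟨g, hg0, hgR⟩ := CfsgLib.Blocks.exists_coeff_ne_zero_inf_conj_le hRp hb.idem hb.ne_zero
    (hb.1.2.mono (le_inf le_top inf_le_right))
  have hgC : g ∈ Subgroup.centralizer (D : Set G) :=
    by_contra fun h => hg0 (CfsgLib.Blocks.isSupportedOn_brTrunc D _ g h)
  have hgN : g ∈ N := Subgroup.centralizer_le_normalizer _ hgC
  rw [CfsgLib.Blocks.coeff_brTrunc_of_mem _ hgC, CfsgLib.Blocks.coeff_topEl, Ne,
    CfsgLib.Blocks.redC_eq_zero_iff (CfsgLib.Blocks.memLocalRing_blockCoeff hB g)] at hg0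
  have hreg : ¬ p ∣ orderOf g := fun h => hg0 (by
    rw [CfsgLib.Blocks.blockCoeff_eq_zero_of_singular hM hB h]
    exact CfsgLib.Blocks.memLocalIdeal_zero)
  have hsmall : ∀ Q : Subgroup G, Q ≤ N → IsPGroup p Q →
      Q ≤ Subgroup.centralizer ({g} : Set G) → Q ≤ D := by
    intro Q hQN hQ hQC
    obtain ⟨n, hn, hle⟩ := hbD.2.2.2 Q (le_inf le_top hQN) hQ
      (CfsgLib.Blocks.brTrunc_ne_zero_of_coeff (x := g) (by
        rw [CfsgLib.Blocks.coeff_brTrunc_of_mem _ hgC, CfsgLib.Blocks.coeff_topEl, Ne,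
          CfsgLib.Blocks.redC_eq_zero_iff (CfsgLib.Blocks.memLocalRing_blockCoeff hB g)]
        exact hg0) hQC)
    rw [← CfsgLib.Blocks.map_conj_eq_self_of_mem_normalizer hn.2] at hle
    exact (Subgroup.map_le_map_iff_of_injective (MulAut.conj n).injective).mp hle
  have hDg : D ≤ Subgroup.centralizer ({g} : Set G) :=
    CfsgLib.Blocks.le_centralizer_singleton_of_mem hgC
  have hsyl : CfsgLib.Blocks.IsSylowIn p D
      (⊤ ⊓ Subgroup.normalizer (D : Set G) ⊓ Subgroup.centralizer ({g} : Set G)) := by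
    refine ⟨le_inf (le_inf le_top Subgroup.le_normalizer) hDg, heD.2.1, fun Q hQ hQp =>
      ⟨1, Subgroup.one_mem _, ?_⟩⟩
    rw [CfsgLib.Blocks.map_conj_one]
    exact hsmall Q (hQ.trans (inf_le_left.trans inf_le_right)) hQp (hQ.trans inf_le_right)
  rw [CfsgLib.Blocks.isSylowIn_inf_normalizer_iff, top_inf_eq] at hsyl
  refine ⟨g, hreg, CfsgLib.Blocks.exists_sylow_map_eq hsyl, ?_⟩
  set T := (P : Subgroup G) ⊓ (P : Subgroup G).map (MulAut.conj g).toMonoidHom with hT
  have hDT : D ≤ T := le_inf hDP fun d hd => ⟨d, hDP hd, by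
    simp only [MulEquiv.coe_toMonoidHom, MulAut.conj_apply]
    rw [← Subgroup.mem_centralizer_iff.mp hgC d hd]
    group⟩
  have hTN : T ⊓ N ≤ R ⊓ R.map (MulAut.conj g).toMonoidHom := by
    rintro y ⟨⟨hy1, s, hs, hsy⟩, hy2⟩
    refine ⟨⟨hy1, hy2⟩, s, ⟨hs, ?_⟩, hsy⟩
    rw [← hsy] at hy2
    have := N.mul_mem (N.mul_mem (N.inv_mem hgN) hy2) hgN
    simpa [mul_assoc] using this
  rcases hDT.eq_or_lt with h | h
  · exact h.symm
  · exfalso
    refine not_le_of_gt (CfsgLib.Blocks.lt_inf_normalizer (P.isPGroup'.to_le inf_le_left) h) ?_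
    exact hsmall _ inf_le_right (P.isPGroup'.to_le (inf_le_left.trans inf_le_left))
      (hTN.trans hgR)

end Cfsg.Agent.S0956
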