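import Cfsg.Statements.S0957

set_option autoImplicit false
open Cfsg

namespace Cfsg.Agent.S0957

/-- Let P be a Sylow p-subgroup of the finite group G, let g, h ∈ G and let p ^ d be the order of a Sylow p-subgroup of the centralizer of g. Then the number of pairs (y, z) with y conjugate to g, z conjugate to h and z * y⁻¹ ∈ P is divisible by the order of P divided by p ^ d. -/
theorem result {G : Type*} [Group G] [Finite G] (p : ℕ) [Fact p.Prime] (P : Sylow p G) (g h : G) (S : Sylow p (Subgroup.centralizer ({g} : Set G))) : Nat.card P / Nat.card S ∣ Nat.card {yz : G × G // IsConj g yz.1 ∧ IsConj h yz.2 ∧ yz.2 * yz.1⁻¹ ∈ (P : Subgroup G)} := by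
  classical
  let X := {yz : G × G // IsConj g yz.1 ∧ IsConj h yz.2 ∧ yz.2 * yz.1⁻¹ ∈ (P : Subgroup G)}
  letI act : MulAction (P : Subgroup G) X :=
    { smul := fun x v => ⟨((x:G) * v.1.1 * (x:G)⁻¹, (x:G) * v.1.2 * (x:G)⁻¹),
        v.2.1.trans (isConj_iff.2 ⟨x, rfl⟩), v.2.2.1.trans (isConj_iff.2 ⟨x, rfl⟩), by
          have := mul_mem (mul_mem x.2 v.2.2.2) (inv_mem x.2)
          simpa [mul_assoc] using this⟩
      one_smul := fun v => by apply Subtype.ext; show (_, _) = _; simp
      mul_smul := fun a b v => by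
        apply Subtype.ext
        show (((a * b : (P : Subgroup G)) : G) * v.1.1 * ((a * b : (P : Subgroup G)) : G)⁻¹, _) = ((a : G) * ((b : G) * v.1.1 * (b : G)⁻¹) * (a : G)⁻¹, (a : G) * ((b : G) * v.1.2 * (b : G)⁻¹) * (a : G)⁻¹)
        simp [mul_assoc] }
  show _ ∣ Nat.card X
  have : Fintype (MulAction.orbitRel.Quotient (P : Subgroup G) X) := Fintype.ofFinite _
  rw [Nat.card_congr (MulAction.selfEquivSigmaOrbits (P : Subgroup G) X), Nat.card_sigma]
  refine Finset.dvd_sum fun q _ => ?_
  set v := q.out with hv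
  obtain ⟨a, ha⟩ := isConj_iff.1 v.2.1
  let st := MulAction.stabilizer (P : Subgroup G) v
  let f : st →* Subgroup.centralizer ({g} : Set G) :=
    { toFun := fun x => ⟨a⁻¹ * ((x : (P : Subgroup G)) : G) * a, by
        rw [Subgroup.mem_centralizer_singleton_iff]
        have h1 : ((x : (P : Subgroup G)) : G) * v.1.1 * ((x : (P : Subgroup G)) : G)⁻¹ = v.1.1 :=
          congrArg (fun w : X => w.1.1) x.2
        rw [← ha, mul_inv_eq_iff_eq_mul] at h1
        calc a⁻¹ * ((x : (P : Subgroup G)) : G) * a * g
            = a⁻¹ * (((x : (P : Subgroup G)) : G) * (a * g * a⁻¹)) * a := by group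
          _ = _ := by rw [h1]; group⟩
      map_one' := by ext; simp
      map_mul' := fun x y => by ext; simp [mul_assoc] }
  have hf : Function.Injective f := fun x y hxy => by
    simpa [f] using congrArg Subtype.val hxy
  have hp : IsPGroup p f.range := (P.2.to_subgroup st).of_surjective f.rangeRestrict f.rangeRestrict_surjective
  obtain ⟨T, hT⟩ := hp.exists_le_sylow
  have hd : Nat.card st ∣ Nat.card S := by
    rw [Nat.card_congr (MonoidHom.ofInjective hf).toEquiv, Nat.card_congr (S.equiv T).toEquiv]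
    exact Subgroup.card_dvd_of_le hT
  have hidx : Nat.card st * st.index = Nat.card P := st.card_mul_index
  rw [MulAction.index_stabilizer] at hidx
  have hco : (MulAction.orbit (P : Subgroup G) v).ncard = Nat.card (MulAction.orbit (P : Subgroup G) v) := rfl
  rw [hco] at hidx
  obtain ⟨i, hi⟩ := S.2.exists_card_eq
  obtain ⟨j, hj⟩ := P.2.exists_card_eq
  by_cases hle : Nat.card S ∣ Nat.card P
  · obtain ⟨c, hc⟩ := hle
    obtain ⟨d, hd⟩ := hd
    have : Nat.card st * Nat.card (MulAction.orbit (P : Subgroup G) v) = Nat.card st * (d * c) := by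
      rw [hidx, hc, hd, mul_assoc]
    rw [hc, Nat.mul_div_cancel_left _ Nat.card_pos, Nat.eq_of_mul_eq_mul_left Nat.card_pos this]
    exact dvd_mul_left _ _
  · exfalso; apply hle
    have : IsPGroup p ((S : Subgroup _).map (Subgroup.centralizer ({g} : Set G)).subtype) := S.2.map _
    obtain ⟨U, hU⟩ := this.exists_le_sylow
    rw [Nat.card_congr (P.equiv U).toEquiv]
    rw [Nat.card_congr (S.toSubgroup.equivMapOfInjective _ (Subgroup.subtype_injective (Subgroup.centralizer ({g} : Set G)))).toEquiv]
    exact Subgroup.card_dvd_of_le hU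

end Cfsg.Agent.S0957
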