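import Cfsg.Statements.S0958
import Cfsg.Agent.Blocks.Defect.Induced
import Cfsg.Agent.Eq.Def_Blocks

set_option autoImplicit false
open Cfsg

namespace Cfsg.Agent.S0958

/-- Let P be a p-subgroup of the finite group G and H a subgroup with P ⊔ C_G(P) ≤ H ≤ N_G(P); fix a maximal ideal M of the algebraic integers containing p. Then a block B of G is induced by some block of H if and only if some conjugate of P is contained in a defect group of B. -/
theorem result {G : Type*} [Group G] [Finite G] (p : ℕ) [Fact p.Prime] (M : Ideal Cfsg.AlgInt) (hM : Cfsg.IsPModular p M) (P H : Subgroup G) (hP : IsPGroup p P) (hPH : P ⊔ Subgroup.centralizer (P : Set G) ≤ H) (hHN : H ≤ Subgroup.normalizer (P : Set G)) (B : Set (Cfsg.IrrCharacter G)) (hB : Cfsg.IsPBlock M B) : (∃ b : Set (Cfsg.IrrCharacter H), Cfsg.IsInducedBlock M H b B) ↔ ∃ D : Subgroup G, Cfsg.IsDefectGroup p M B D ∧ ∃ x : G, P.map (MulAut.conj x).toMonoidHom ≤ D := by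
  haveI := hM.2.1
  haveI := CfsgLib.Blocks.charP_kres hM
  classical
  haveI := Fintype.ofFinite G
  have hPH' : P ≤ H := le_sup_left.trans hPH
  have hCH : Subgroup.centralizer (P : Set G) ≤ H := le_sup_right.trans hPH
  have he := CfsgLib.Blocks.isBlockIdem_topEl hB (M := M)
  have S : CfsgLib.Blocks.BrSetting p ⊤ P H := ⟨hP, le_top, inf_le_right.trans hCH, le_top, hHN⟩
  constructor
  · rintro ⟨b, hbB⟩
    have ho := (CfsgLib.Blocks.isInducedBlock_iff_brOver hM hP hPH' hCH hHN hbB.1 hB).mp hbB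
    obtain ⟨D, hD⟩ := he.exists_defectGroup p
    obtain ⟨x, -, hx⟩ := (CfsgLib.Blocks.brTrunc_ne_zero_iff he hD le_top hP).mp
      (S.trunc_ne_zero (CfsgLib.Blocks.isBlockIdem_subEl hbB.1) ho)
    exact ⟨D, (CfsgLib.Blocks.isDefectGroup_topEl_iff hB D).mpr hD, x, hx⟩
  · rintro ⟨D, hD, x, hx⟩
    obtain ⟨c, hc, ho⟩ := S.exists_block_over he
      ((CfsgLib.Blocks.brTrunc_ne_zero_iff he ((CfsgLib.Blocks.isDefectGroup_topEl_iff hB D).mp hD)
        le_top hP).mpr ⟨x, Subgroup.mem_top x, hx⟩)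
    obtain ⟨b, hb, rfl⟩ := CfsgLib.Blocks.exists_subEl_eq hc
    exact ⟨b, (CfsgLib.Blocks.isInducedBlock_iff_brOver hM hP hPH' hCH hHN hb hB).mpr ho⟩

end Cfsg.Agent.S0958
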