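import Cfsg.Statements.S0959
import Cfsg.Agent.Blocks.Defect.Induced
import Cfsg.Agent.Eq.Def_Blocks

set_option autoImplicit false
open Cfsg

namespace Cfsg.Agent.S0959

/-- Let B be a block of the finite group G with defect group D (relative to a maximal ideal M of the algebraic integers containing the prime p), and let P be a p-subgroup. Then there is an element g whose idempotent coefficient for B is a local integer outside the local ideal at M and which has a conjugate centralizing P, if and only if some conjugate of P is contained in D. -/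
theorem result {G : Type*} [Group G] [Finite G] (p : ℕ) [Fact p.Prime] (M : Ideal Cfsg.AlgInt) (hM : Cfsg.IsPModular p M) (B : Set (Cfsg.IrrCharacter G)) (hB : Cfsg.IsPBlock M B) (D : Subgroup G) (hD : Cfsg.IsDefectGroup p M B D) (P : Subgroup G) (hP : IsPGroup p P) : (∃ g : G, Cfsg.MemLocalRing M (Cfsg.blockCoeff B g) ∧ ¬ Cfsg.MemLocalIdeal M (Cfsg.blockCoeff B g) ∧ ∃ c : G, IsConj g c ∧ c ∈ Subgroup.centralizer (P : Set G)) ↔ ∃ x : G, P.map (MulAut.conj x).toMonoidHom ≤ D := by
  haveI := hM.2.1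
  haveI := CfsgLib.Blocks.charP_kres hM
  classical
  haveI := Fintype.ofFinite G
  have he := CfsgLib.Blocks.isBlockIdem_topEl hB (M := M)
  have hloc : ∀ g, Cfsg.MemLocalRing M (Cfsg.blockCoeff B g) :=
    fun g => CfsgLib.Blocks.memLocalRing_blockCoeff hB g
  have hne : ∀ g, (CfsgLib.Blocks.topEl M B).coeff g ≠ 0 ↔
      ¬ Cfsg.MemLocalIdeal M (Cfsg.blockCoeff B g) := fun g => by
    rw [CfsgLib.Blocks.coeff_topEl, Ne, CfsgLib.Blocks.redC_eq_zero_iff (hloc g)]
  have hmain := CfsgLib.Blocks.brTrunc_ne_zero_iff (P := P) he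
    ((CfsgLib.Blocks.isDefectGroup_topEl_iff hB D).mp hD) le_top hP
  constructor
  · rintro ⟨g, -, hg, c, hgc, hc⟩
    obtain ⟨x, -, hx⟩ := hmain.mp (CfsgLib.Blocks.brTrunc_ne_zero_of_coeff (x := c) (by
      obtain ⟨t, rfl⟩ := isConj_iff.mp hgc
      rw [he.1.2 t (Subgroup.mem_top t) g]
      exact (hne g).mpr hg) (CfsgLib.Blocks.le_centralizer_singleton_of_mem hc))
    exact ⟨x, hx⟩
  · rintro ⟨x, hx⟩
    obtain ⟨c, hc0, hc⟩ := CfsgLib.Blocks.exists_coeff_ne_zero_of_brTrunc
      (hmain.mpr ⟨x, Subgroup.mem_top x, hx⟩)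
    exact ⟨c, hloc c, (hne c).mp hc0, c, IsConj.refl c, hc⟩

end Cfsg.Agent.S0959
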