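import Cfsg.Statements.S0962
import Cfsg.Agent.Blocks.Orth.Blocks
import Cfsg.Agent.Blocks.Basic.Residue
import Cfsg.Agent.Blocks.DefectDegree
import Mathlib.LinearAlgebra.Matrix.Rank

set_option autoImplicit false
open Cfsg

namespace Cfsg.Agent.S0962
open CfsgLib.Blocks in
/-- A member of minimal degree valuation has small central character on classes of small defect. -/
theorem exists_vanishing {G : Type*} [Group G] [Finite G] {p d : ℕ} {M : Ideal AlgInt} (hM : IsPModular p M)
    {B : Set (IrrCharacter G)} (hB : IsPBlock M B) (hd : d ≤ blockDefect p B) :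
    ∃ χ ∈ B, ∀ g : G, (Nat.card (Subgroup.centralizer ({g} : Set G))).factorization p < d →
      MemLocalIdeal M (centralChar (χ : G → ℂ) g) := by
  classical
  haveI := hM.2.1
  haveI : Fintype G := Fintype.ofFinite G
  obtain ⟨φ, hφ⟩ := nonempty_of_isPBlock hB
  obtain ⟨χ, hχ, hmin⟩ := Nat.sInf_mem (s := (fun χ : IrrCharacter G => (charDegree (χ : G → ℂ)).factorization p) '' B)
    ⟨_, φ, hφ, rfl⟩
  refine ⟨χ, hχ, fun g hg => ?_⟩
  have hdeg : charDegree (χ : G → ℂ) ≠ 0 := (CfsgLib.Chars.charDegree_pos χ).ne'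
  have hI : (Subgroup.centralizer ({g} : Set G)).index ≠ 0 := Subgroup.index_ne_zero_of_finite
  have hmul := (Subgroup.centralizer ({g} : Set G)).card_mul_index
  have hfac := congrArg (fun n => n.factorization p) hmul
  simp only [Nat.factorization_mul Nat.card_pos.ne' hI, Finsupp.add_apply] at hfac
  unfold blockDefect at hd
  rw [← hmin] at hd
  simp only [] at hd
  have h1 : MemLocalIdeal M (((Subgroup.centralizer ({g} : Set G)).index : ℂ) / (charDegree (χ : G → ℂ) : ℂ)) :=
    memLocalIdeal_natCast_div hM hdeg hI (by omega)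
  have h2 := memLocalIdeal_mul_right h1
    (memLocalRing_of_isIntegral (M := M) (CfsgLib.Chars.isIntegral_apply (CfsgLib.Chars.isCharacter_coe χ) g))
  rw [CfsgLib.Chars.charDegree_cast (CfsgLib.Chars.isCharacter_coe χ), div_mul_eq_mul_div] at h2
  exact h2


/-- Fix a maximal ideal M of the algebraic integers containing the prime p and a natural number d. The number of blocks of the finite group G of defect at least d is at most the number of conjugacy classes of p-regular elements of G of defect at least d, where the defect of a class is the exponent of p in the order of the centralizer of any of its elements. -/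
theorem result {G : Type*} [Group G] [Finite G] (p : ℕ) [Fact p.Prime] (M : Ideal Cfsg.AlgInt) (hM : Cfsg.IsPModular p M) (d : ℕ) : Nat.card {B : Set (Cfsg.IrrCharacter G) // Cfsg.IsPBlock M B ∧ d ≤ Cfsg.blockDefect p B} ≤ Nat.card {C : ConjClasses G // ∃ g : G, ConjClasses.mk g = C ∧ Cfsg.IsPRegular p g ∧ d ≤ (Nat.card (Subgroup.centralizer ({g} : Set G))).factorization p} := by
  classical
  haveI := hM.2.1
  haveI : Fintype G := Fintype.ofFinite G
  haveI := CfsgLib.Blocks.finite_irrCharacter (G := G)
  haveI : Fintype (ConjClasses G) := Fintype.ofFinite _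
  haveI : Fintype {B : Set (IrrCharacter G) // IsPBlock M B ∧ d ≤ blockDefect p B} := Fintype.ofFinite _
  haveI : Fintype {C : ConjClasses G // ∃ g : G, ConjClasses.mk g = C ∧ IsPRegular p g ∧
      d ≤ (Nat.card (Subgroup.centralizer ({g} : Set G))).factorization p} := Fintype.ofFinite _
  have hex : ∀ B : {B : Set (IrrCharacter G) // IsPBlock M B ∧ d ≤ blockDefect p B}, ∃ χ ∈ B.1,
      ∀ g : G, (Nat.card (Subgroup.centralizer ({g} : Set G))).factorization p < d →
        MemLocalIdeal M (centralChar (χ : G → ℂ) g) := fun B => exists_vanishing hM B.2.1 B.2.2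
  choose χ hχmem hχ using hex
  let T := {C : ConjClasses G // ∃ g : G, ConjClasses.mk g = C ∧ IsPRegular p g ∧
      d ≤ (Nat.card (Subgroup.centralizer ({g} : Set G))).factorization p}
  let A : Matrix {B : Set (IrrCharacter G) // IsPBlock M B ∧ d ≤ blockDefect p B} T (CfsgLib.Blocks.kres M) :=
    fun B C => CfsgLib.Blocks.res M ⟨blockCoeff B.1 C.1.out, CfsgLib.Blocks.memLocalRing_blockCoeff B.2.1 _⟩
  let W : Matrix T {B : Set (IrrCharacter G) // IsPBlock M B ∧ d ≤ blockDefect p B} (CfsgLib.Blocks.kres M) :=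
    fun C B => CfsgLib.Blocks.res M ⟨centralChar (χ B : G → ℂ) C.1.out, CfsgLib.Blocks.memLocalRing_centralChar (χ B) _⟩
  have hAW : A * W = 1 := by
    ext B B'
    have hone : CfsgLib.Blocks.omega (χ B' : G → ℂ) (CfsgLib.Blocks.setIdem B.1) = if B = B' then 1 else 0 := by
      rw [CfsgLib.Blocks.omega_setIdem]
      refine if_congr ⟨fun h => Subtype.ext ?_, fun h => h ▸ hχmem B⟩ rfl rfl
      rw [CfsgLib.Blocks.eq_blockOf_of_mem B.2.1 h, CfsgLib.Blocks.eq_blockOf_of_mem B'.2.1 (hχmem B')]
    rw [CfsgLib.Blocks.omega_eq_sum_classes (CfsgLib.Blocks.isCentralElt_setIdem B.1)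
      (CfsgLib.Blocks.isClassFunction_of_isCharacter (CfsgLib.Blocks.isCharacter_of_isIrrCharacter (χ B').2))] at hone
    simp only [CfsgLib.Blocks.setIdem, CfsgLib.Blocks.coeff_ofFun] at hone
    let f : ConjClasses G → CfsgLib.Blocks.localRing M := fun C =>
      ⟨blockCoeff B.1 C.out, CfsgLib.Blocks.memLocalRing_blockCoeff B.2.1 _⟩ *
        ⟨centralChar (χ B' : G → ℂ) C.out, CfsgLib.Blocks.memLocalRing_centralChar (χ B') _⟩
    have hf : ∑ C, f C = if B = B' then 1 else 0 := by
      apply Subtype.ext
      push_cast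
      rw [apply_ite (Subtype.val : CfsgLib.Blocks.localRing M → ℂ)]
      simpa [f] using hone
    have hvan : ∀ C : ConjClasses G, (¬ ∃ g : G, ConjClasses.mk g = C ∧ IsPRegular p g ∧
        d ≤ (Nat.card (Subgroup.centralizer ({g} : Set G))).factorization p) → CfsgLib.Blocks.res M (f C) = 0 := by
      intro C hC
      rw [map_mul]
      by_cases hr : p ∣ orderOf C.out
      · have h0 : blockCoeff B.1 C.out = 0 := CfsgLib.Blocks.blockCoeff_eq_zero_of_singular hM B.2.1 hr
        rw [(CfsgLib.Blocks.res_eq_zero_iff).2 (by show MemLocalIdeal M (blockCoeff B.1 C.out); rw [h0]; exact CfsgLib.Blocks.memLocalIdeal_zero), zero_mul]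
      · have hlt : (Nat.card (Subgroup.centralizer ({C.out} : Set G))).factorization p < d := by
          by_contra hge
          exact hC ⟨C.out, Quotient.out_eq C, hr, not_lt.1 hge⟩
        have hz : CfsgLib.Blocks.res M ⟨centralChar (χ B' : G → ℂ) C.out, CfsgLib.Blocks.memLocalRing_centralChar (χ B') _⟩ = 0 :=
          (CfsgLib.Blocks.res_eq_zero_iff).2 (hχ B' _ hlt)
        rw [hz, mul_zero]
    have h1 := congrArg (CfsgLib.Blocks.res M) hf
    rw [map_sum, apply_ite (CfsgLib.Blocks.res M), map_one, map_zero,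
      ← Finset.sum_filter_of_ne (p := fun C => ∃ g : G, ConjClasses.mk g = C ∧ IsPRegular p g ∧
        d ≤ (Nat.card (Subgroup.centralizer ({g} : Set G))).factorization p) (fun C _ hne => by
          by_contra hC; exact hne (hvan C hC)),
      Finset.sum_subtype (p := fun C => ∃ g : G, ConjClasses.mk g = C ∧ IsPRegular p g ∧
        d ≤ (Nat.card (Subgroup.centralizer ({g} : Set G))).factorization p) _ (by simp)] at h1
    rw [Matrix.mul_apply, Matrix.one_apply, ← h1]
    exact Finset.sum_congr rfl fun C _ => by simp only [f, map_mul, A, W]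
  rw [Nat.card_eq_fintype_card, Nat.card_eq_fintype_card]
  have h2 : (1 : Matrix _ _ (CfsgLib.Blocks.kres M)).rank ≤ A.rank := hAW ▸ Matrix.rank_mul_le_left A W
  rw [Matrix.rank_one] at h2
  exact h2.trans (Matrix.rank_le_card_width A)

end Cfsg.Agent.S0962
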