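import Cfsg.Statements.S0966
import Cfsg.Agent.Blocks.Covering.Basic
import Cfsg.Agent.S0965

set_option autoImplicit false
open Cfsg

namespace Cfsg.Agent.S0966

/-- Let N be a normal subgroup of p-power index in the finite group G and b a block of N relative to a maximal ideal M of the algebraic integers containing p. Then there is exactly one block B of G containing a character whose restriction to N has a constituent in b. -/
theorem result {G : Type*} [Group G] [Fintype G] (p : ℕ) [Fact p.Prime] (M : Ideal Cfsg.AlgInt) (hM : Cfsg.IsPModular p M) (N : Subgroup G) [N.Normal] [Fintype N] (hidx : ∃ k : ℕ, N.index = p ^ k) (b : Set (Cfsg.IrrCharacter N)) (hb : Cfsg.IsPBlock M b) : ∃! B : Set (Cfsg.IrrCharacter G), Cfsg.IsPBlock M B ∧ ∃ χ ∈ B, ∃ θ ∈ b, Cfsg.classInner (fun n : N => (χ : G → ℂ) n) (θ : N → ℂ) ≠ 0 := by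
  haveI := hM.2.1
  obtain ⟨k, hk⟩ := hidx
  obtain ⟨θ, hθ⟩ := CfsgLib.Blocks.nonempty_of_isPBlock hb
  obtain ⟨χ, hχ⟩ := CfsgLib.BlocksCover.exists_irr_over N θ
  refine ⟨blockOf M (χ : G → ℂ), ⟨⟨χ, rfl⟩, χ, CfsgLib.Blocks.self_mem_blockOf χ, θ, hθ, hχ⟩, ?_⟩
  rintro B ⟨hB, χ', hχ', θ', hθ', hcon⟩
  rw [CfsgLib.Blocks.eq_blockOf_of_mem hB hχ']
  refine CfsgLib.Blocks.blockOf_eq_of_sameBlock (CfsgLib.BlocksCover.sameBlock_of_congr_on_regular hM N
    (CfsgLib.BlocksCover.mem_of_index_prime_pow hM.1 N hk) χ' χ fun n => ?_)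
  rw [(CfsgLib.BlocksCover.constituent_iff_centralChar χ' θ').1 hcon n,
    (CfsgLib.BlocksCover.constituent_iff_centralChar χ θ).1 hχ n]
  exact Cfsg.Agent.S0965.congr_inducedCentralChar n (CfsgLib.Blocks.sameBlock_of_mem hb hθ' hθ)

end Cfsg.Agent.S0966
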