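import Cfsg.Statements.S0967
import Cfsg.Agent.Blocks.Covering.Basic

set_option autoImplicit false
open Cfsg

namespace Cfsg.Agent.S0967
open CfsgLib.Blocks

variable {G : Type*} [Group G] [Fintype G] {p : ℕ} {M : Ideal AlgInt}

theorem indicator_mem_centerO [M.IsMaximal] (S : Set G) [DecidablePred (· ∈ S)] (hS : ∀ g h : G, g ∈ S → h * g * h⁻¹ ∈ S) :
    ofFun (fun g => if g ∈ S then (1 : ℂ) else 0) ∈ centerO M G := by
  refine ⟨fun g k => ?_, fun g => ?_⟩
  · simp only [coeff_ofFun]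
    refine if_congr ⟨fun h => ?_, fun h => hS g k h⟩ rfl rfl
    simpa [mul_assoc] using hS _ k⁻¹ h
  · rw [coeff_ofFun]
    split_ifs
    exacts [(localRing M).one_mem, (localRing M).zero_mem]

theorem le_charKer (hM : IsPModular p M) {N : Subgroup G} [N.Normal] [Fintype N] (hN : ¬ p ∣ Nat.card N)
    {φ ψ : IrrCharacter G} (hφ : N ≤ CfsgLib.Chars.charKer (φ : G → ℂ)) (h : SameBlock M (φ : G → ℂ) (ψ : G → ℂ)) :
    N ≤ CfsgLib.Chars.charKer (ψ : G → ℂ) := by
  classical
  haveI := hM.2.1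
  have hc := congr_omega_of_sameBlock (indicator_mem_centerO (M := M) (N : Set G) fun g k hg => ‹N.Normal›.conj_mem g hg k) h
  have hom : ∀ χ : IrrCharacter G, omega (χ : G → ℂ) (ofFun fun g => if g ∈ (N : Set G) then (1 : ℂ) else 0) =
      (∑ n : N, (χ : G → ℂ) n) / (χ : G → ℂ) 1 := fun χ => by
    rw [omega_ofFun, Finset.sum_div]
    rw [← Finset.sum_subset (Finset.subset_univ ((Finset.univ : Finset N).map (Function.Embedding.subtype _)))]
    · rw [Finset.sum_map]; simp
    · intro g _ hg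
      have : g ∉ N := fun hgN => hg (Finset.mem_map.2 ⟨⟨g, hgN⟩, Finset.mem_univ _, rfl⟩)
      simp [this]
  rw [hom, hom] at hc
  have hl : (∑ n : N, (φ : G → ℂ) n) / (φ : G → ℂ) 1 = (Nat.card N : ℂ) := by
    rw [Finset.sum_congr rfl fun (n : N) _ => (CfsgLib.Chars.le_charKer_iff (CfsgLib.Chars.isCharacter_coe φ)).1 hφ n n.2,
      Finset.sum_const, Finset.card_univ, nsmul_eq_mul, mul_div_assoc, div_self (apply_one_ne_zero φ.2), mul_one,
      Nat.card_eq_fintype_card]
  rw [hl] at hc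
  have hne : ∑ n : N, (ψ : G → ℂ) n ≠ 0 := by
    intro h0
    rw [h0, zero_div] at hc
    exact hN ((memLocalIdeal_natCast_iff hM _).1 (memLocalIdeal_iff_congr_zero.2 hc))
  let one : IrrCharacter N := ⟨fun _ => 1, CfsgLib.Chars.isIrrCharacter_one⟩
  have hin : classInner (fun n : N => (ψ : G → ℂ) n) (one : N → ℂ) ≠ 0 := by
    simp only [classInner, one, map_one, mul_one]
    exact mul_ne_zero (inv_ne_zero (Nat.cast_ne_zero.2 Nat.card_pos.ne')) hne
  have hcl := CfsgLib.Chars.Induced.clifford ψ one ((CfsgLib.BlocksCover.mult_ne_zero_iff ψ one).1 hin)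
  rw [CfsgLib.Chars.le_charKer_iff (CfsgLib.Chars.isCharacter_coe ψ)]
  intro x hx
  have hconst : ∀ η ∈ (Set.finite_range fun g : G => CfsgLib.Chars.Induced.conjIrr g one).toFinset, ∀ n : N, (η : N → ℂ) n = 1 := by
    intro η hη n
    obtain ⟨g, rfl⟩ := (Set.Finite.mem_toFinset _).1 hη
    rfl
  have h1 := congrFun hcl ⟨x, hx⟩
  have h2 := congrFun hcl 1
  simp only [Pi.smul_apply, Finset.sum_apply, OneMemClass.coe_one] at h1 h2
  rw [h1, h2, Finset.sum_congr rfl fun η hη => hconst η hη ⟨x, hx⟩, Finset.sum_congr rfl fun η hη => hconst η hη 1]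

theorem sameBlock_quotient (hM : IsPModular p M) {N : Subgroup G} [N.Normal] [Fintype N] [Fintype (G ⧸ N)]
    (hN : ¬ p ∣ Nat.card N) {χ ψ : IrrCharacter (G ⧸ N)}
    (h : SameBlock M (CfsgLib.Chars.inflate N χ : G → ℂ) (CfsgLib.Chars.inflate N ψ : G → ℂ)) :
    SameBlock M (χ : G ⧸ N → ℂ) (ψ : G ⧸ N → ℂ) := by
  classical
  haveI := hM.2.1
  intro q
  have hc := congr_omega_of_sameBlock (indicator_mem_centerO (M := M) {g : G | IsConj q (g : G ⧸ N)} fun g k hg => by
    show IsConj q ((k * g * k⁻¹ : G) : G ⧸ N)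
    exact hg.trans (isConj_iff.2 ⟨(k : G ⧸ N), rfl⟩)) h
  have hom : ∀ φ : IrrCharacter (G ⧸ N),
      omega (CfsgLib.Chars.inflate N φ : G → ℂ) (ofFun fun g => if g ∈ {g : G | IsConj q (g : G ⧸ N)} then (1 : ℂ) else 0) =
        (Nat.card N : ℂ) * centralChar (φ : G ⧸ N → ℂ) q := by
    intro φ
    rw [centralChar_eq_omega (CfsgLib.Blocks.isClassFunction_of_isCharacter (isCharacter_of_isIrrCharacter φ.2)),
      omega_apply, omega_apply, Finset.mul_sum,
      ← Finset.sum_fiberwise_of_maps_to (g := fun g : G => (g : G ⧸ N)) (fun g _ => Finset.mem_univ _)]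
    refine Finset.sum_congr rfl fun c _ => ?_
    have hcard : (Finset.univ.filter fun g : G => (g : G ⧸ N) = c).card = Nat.card N := by
      rw [← Fintype.card_subtype, ← Nat.card_eq_fintype_card]
      induction c using QuotientGroup.induction_on with
      | _ c =>
        refine Nat.card_congr
          { toFun := fun g => ⟨c⁻¹ * g.1, QuotientGroup.eq.1 g.2.symm⟩
            invFun := fun n => ⟨c * n.1, QuotientGroup.eq.2 (by simp)⟩
            left_inv := fun g => Subtype.ext (by simp)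
            right_inv := fun n => Subtype.ext (by simp) }
    rw [Finset.sum_congr rfl (g := fun _ => (classSum q).coeff c * (φ : G ⧸ N → ℂ) c / (φ : G ⧸ N → ℂ) 1) ?_,
      Finset.sum_const, hcard, nsmul_eq_mul]
    intro g hg
    obtain rfl := (Finset.mem_filter.1 hg).2
    simp only [coeff_ofFun, coeff_classSum, Set.mem_setOf_eq]
    split_ifs <;> rfl
  rw [hom, hom] at hc
  have hc' : MemLocalIdeal M ((Nat.card N : ℂ) * (centralChar (χ : G ⧸ N → ℂ) q - centralChar (ψ : G ⧸ N → ℂ) q)) := by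
    rw [mul_sub]; exact hc
  have hu : ¬ MemLocalIdeal M (Nat.card N : ℂ) := fun hu => hN ((memLocalIdeal_natCast_iff hM _).1 hu)
  have := memLocalIdeal_mul_left (memLocalRing_inv_natCast hM hN) hc'
  rwa [← mul_assoc, inv_mul_cancel₀ (Nat.cast_ne_zero.2 Nat.card_pos.ne'), one_mul] at this


/-- Let N be a normal subgroup of the finite group G of order prime to p and fix a maximal ideal M of the algebraic integers containing p. If χ is an irreducible character of G ⧸ N and ψ lies in the block of its inflation χ ∘ (quotient map), then ψ is itself inflated from an irreducible character ψ' of G ⧸ N lying in the block of χ. (Over a normal p'-subgroup, blocks of the quotient are whole blocks of G.) -/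
theorem result {G : Type*} [Group G] [Finite G] (p : ℕ) [Fact p.Prime] (M : Ideal Cfsg.AlgInt) (hM : Cfsg.IsPModular p M) (N : Subgroup G) [N.Normal] (hN : ¬ p ∣ Nat.card N) (χ : Cfsg.IrrCharacter (G ⧸ N)) (ψ : Cfsg.IrrCharacter G) (hψ : ψ ∈ Cfsg.blockOf M ((χ : G ⧸ N → ℂ) ∘ QuotientGroup.mk)) : ∃ ψ' : Cfsg.IrrCharacter (G ⧸ N), (ψ : G → ℂ) = (ψ' : G ⧸ N → ℂ) ∘ QuotientGroup.mk ∧ Cfsg.SameBlock M (χ : G ⧸ N → ℂ) (ψ' : G ⧸ N → ℂ) := by
  classical
  haveI := hM.2.1
  haveI : Fintype G := Fintype.ofFinite G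
  haveI : Fintype N := Fintype.ofFinite N
  haveI : Fintype (G ⧸ N) := Fintype.ofFinite _
  set φ : IrrCharacter G := CfsgLib.Chars.inflate N χ with hφ
  have hsame : SameBlock M (φ : G → ℂ) (ψ : G → ℂ) := hψ
  obtain ⟨ψ', rfl⟩ := CfsgLib.Chars.exists_inflate_eq N ψ (le_charKer hM hN (CfsgLib.Chars.le_charKer_inflate N χ) hsame)
  exact ⟨ψ', rfl, sameBlock_quotient hM hN hsame⟩

end Cfsg.Agent.S0967
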