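import Cfsg.Statements.S0969
import Cfsg.Agent.Blocks.HeightZero.RegularPair
import Cfsg.Agent.Blocks.Defect.SectionSum
import Cfsg.Agent.Blocks.Defect.Induced
import Cfsg.Agent.Eq.Def_Blocks
import Cfsg.Agent.Eq.Def_BlockRank

set_option autoImplicit false
open Cfsg

namespace Cfsg.Agent.S0969

/-- Let D be a central p-subgroup of the finite group G and χ an irreducible character with the exponent of p in χ(1) equal to the exponent of p in the index of D; fix a maximal ideal M of the algebraic integers containing p. Then D is a defect group of the block of χ, and χ g = 0 whenever the p-part of g does not lie in D. -/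
theorem result {G : Type*} [Group G] [Finite G] (p : ℕ) [Fact p.Prime] (M : Ideal Cfsg.AlgInt) (hM : Cfsg.IsPModular p M) (D : Subgroup G) (hD : IsPGroup p D) (hDZ : D ≤ Subgroup.center G) (χ : Cfsg.IrrCharacter G) (hdeg : (Cfsg.charDegree (χ : G → ℂ)).factorization p = D.index.factorization p) : Cfsg.IsDefectGroup p M (Cfsg.blockOf M (χ : G → ℂ)) D ∧ ∀ g x : G, Cfsg.IsPPart p g x → x ∉ D → (χ : G → ℂ) g = 0 := by
  haveI := hM.2.1
  haveI := CfsgLib.Blocks.charP_kres hM
  classical
  haveI := Fintype.ofFinite G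
  have hp : p.Prime := Fact.out
  haveI : Fintype D := Fintype.ofFinite D
  haveI : Fintype (ConjClasses G) := Fintype.ofFinite _
  set n := Cfsg.charDegree (χ : G → ℂ) with hn
  have hn0 : n ≠ 0 := (CfsgLib.Chars.charDegree_pos χ).ne'
  have hG0 : (Nat.card G : ℂ) ≠ 0 := Nat.cast_ne_zero.mpr Nat.card_pos.ne'
  obtain ⟨a, m, hm, hG⟩ := Nat.exists_eq_pow_mul_and_not_dvd (Nat.card_pos (α := G)).ne' p hp.ne_one
  obtain ⟨dd, hdd⟩ := IsPGroup.iff_card.mp hD
  have hae : a = dd + n.factorization p := by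
    have h1 := congrArg (fun t => Nat.factorization t p) D.card_mul_index
    simp only [Nat.factorization_mul Nat.card_pos.ne' (Subgroup.index_ne_zero_of_finite (H := D)),
      Finsupp.add_apply] at h1
    rw [hdd, Nat.factorization_pow_self hp] at h1
    have h2 : (Nat.card G).factorization p = a := by
      rw [hG, Nat.factorization_mul (pow_ne_zero _ hp.ne_zero) (by rintro rfl; exact hm (dvd_zero p)),
        Finsupp.add_apply, Nat.factorization_pow_self hp, Nat.factorization_eq_zero_of_not_dvd hm,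
        add_zero]
    rw [← hdeg, h2] at h1
    exact h1.symm
  have hgen := CfsgLib.Chars.Brauer.regularPart_gen hp χ hG hm
    (Nat.ordProj_dvd n p : p ^ n.factorization p ∣ n)
  rw [show p ^ (a - n.factorization p) = Nat.card D by rw [hdd]; congr 1; omega] at hgen
  obtain ⟨z, hz⟩ := CfsgLib.Chars.Exceptional.gen_inner_int hgen
    (CfsgLib.Chars.Exceptional.gen_of_char (CfsgLib.Chars.isCharacter_coe χ))
  have hcentral : ∀ u ∈ D, ∀ y : G, Commute u y := fun u hu y =>
    (Subgroup.mem_center_iff.mp (hDZ hu) y).symm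
  have hnorm : ∀ u ∈ D, ∀ y : G, ‖(χ : G → ℂ) (u * y)‖ = ‖(χ : G → ℂ) y‖ := by
    intro u hu y
    rw [CfsgLib.Chars.map_mul_of_mem_center χ (hDZ hu), norm_mul, norm_div,
      CfsgLib.Chars.norm_map_of_mem_center χ (hDZ hu),
      div_self (norm_ne_zero_iff.mpr (CfsgLib.Chars.map_one_ne_zero χ)), one_mul]
  set T := ∑ y ∈ Finset.univ.filter (fun y : G => Cfsg.IsPRegular p y), ‖(χ : G → ℂ) y‖ ^ 2 with hT
  set F : G → ℝ := fun g => if ∃ u ∈ D, Cfsg.IsPPart p g u then ‖(χ : G → ℂ) g‖ ^ 2 else 0 with hF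
  have hsec : ∑ g : G, F g = Nat.card D * T := by
    rw [hF, CfsgLib.Blocks.sum_sections_eq hp hD (fun u hu y _ => hcentral u hu y)
      (fun g => ‖(χ : G → ℂ) g‖ ^ 2), Nat.card_eq_fintype_card, Finset.sum_congr rfl
      (fun (u : D) _ => Finset.sum_congr rfl fun y _ => by rw [hnorm u u.2 y]), Finset.sum_const,
      Finset.card_univ, nsmul_eq_mul]
  have hDT : (Nat.card D : ℝ) * T = (z : ℝ) * Nat.card G := by
    apply Complex.ofReal_injective
    simp only [Cfsg.classInner, Cfsg.pRegularPart] at hz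
    rw [inv_mul_eq_iff_eq_mul₀ hG0] at hz
    push_cast [hT]
    rw [mul_comm (z : ℂ), ← hz, Finset.mul_sum, Finset.sum_filter]
    refine Finset.sum_congr rfl fun y _ => ?_
    split_ifs
    · rw [mul_assoc, Complex.mul_conj, Complex.normSq_eq_norm_sq]; push_cast; rfl
    · rw [mul_zero, zero_mul]
  have hall : ∑ g : G, ‖(χ : G → ℂ) g‖ ^ 2 = (Nat.card G : ℝ) := by
    have h := CfsgLib.Chars.classInner_self χ
    simp only [Cfsg.classInner] at h
    rw [inv_mul_eq_iff_eq_mul₀ hG0, mul_one] at h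
    apply Complex.ofReal_injective
    rw [Complex.ofReal_sum, Complex.ofReal_natCast, ← h]
    refine Finset.sum_congr rfl fun g _ => ?_
    rw [Complex.mul_conj, Complex.normSq_eq_norm_sq]
  have hTpos : 0 < T := Finset.sum_pos' (fun y _ => by positivity)
    ⟨1, Finset.mem_filter.mpr ⟨Finset.mem_univ _, by simp [Cfsg.IsPRegular, hp.ne_one]⟩,
      pow_pos (norm_pos_iff.mpr (CfsgLib.Chars.map_one_ne_zero χ)) 2⟩
  have hG0' : (0 : ℝ) < Nat.card G := Nat.cast_pos.mpr Nat.card_pos
  have hz1 : 1 ≤ z := by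
    have h1 : 0 < (z : ℝ) * Nat.card G := hDT ▸ mul_pos (Nat.cast_pos.mpr Nat.card_pos) hTpos
    have h2 : (0 : ℝ) < z := pos_of_mul_pos_left h1 hG0'.le
    exact_mod_cast h2
  have hle : ∑ g : G, F g ≤ ∑ g : G, ‖(χ : G → ℂ) g‖ ^ 2 := Finset.sum_le_sum fun g _ => by
    simp only [hF]; split_ifs
    · exact le_rfl
    · positivity
  have heq : ∑ g : G, F g = ∑ g : G, ‖(χ : G → ℂ) g‖ ^ 2 := by
    refine le_antisymm hle ?_
    rw [hall, hsec, hDT]
    exact le_mul_of_one_le_left hG0'.le (by exact_mod_cast hz1)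
  have hvanish : ∀ g x : G, Cfsg.IsPPart p g x → x ∉ D → (χ : G → ℂ) g = 0 := by
    intro g x hgx hxD
    have h := (Finset.sum_eq_sum_iff_of_le (fun g _ => by
      simp only [hF]; split_ifs
      · exact le_rfl
      · positivity)).mp heq g (Finset.mem_univ g)
    simp only [hF] at h
    rw [if_neg] at h
    · exact norm_eq_zero.mp (sq_eq_zero_iff.mp h.symm)
    · rintro ⟨u, hu, hgu⟩
      exact hxD (CfsgLib.Blocks.isPPart_unique hp hgx hgu ▸ hu)
  refine ⟨?_, hvanish⟩
  have hTidx : T = (D.index : ℝ) := by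
    rw [heq, hall] at hsec
    have h1 : (Nat.card D : ℝ) * D.index = Nat.card G := by exact_mod_cast D.card_mul_index
    exact mul_left_cancel₀ (Nat.cast_ne_zero.mpr Nat.card_pos.ne') (hsec.symm.trans h1.symm)
  -- a p-regular class seen by the block with small centralizer
  let a' : G → ℂ := fun y => if Cfsg.IsPRegular p y then (starRingEnd ℂ) ((χ : G → ℂ) y) else 0
  have hclass : CfsgLib.Blocks.IsCentralElt (CfsgLib.Blocks.ofFun a') :=
    CfsgLib.Blocks.isCentralElt_ofFun fun g h => by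
      have hreg : Cfsg.IsPRegular p (h * g * h⁻¹) ↔ Cfsg.IsPRegular p g := by
        simp only [Cfsg.IsPRegular]
        rw [show orderOf (h * g * h⁻¹) = orderOf g from MulEquiv.orderOf_eq (MulAut.conj h) g]
      simp only [a', hreg, CfsgLib.Chars.isClassFunction_coe χ g h]
  have homega : CfsgLib.Blocks.omega (χ : G → ℂ) (CfsgLib.Blocks.ofFun a') = (D.index : ℂ) / n := by
    rw [CfsgLib.Blocks.omega_ofFun, ← Finset.sum_div, CfsgLib.Chars.coe_charDegree χ |>.symm]
    congr 1
    rw [← Complex.ofReal_natCast, ← hTidx, hT, Complex.ofReal_sum, Finset.sum_filter]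
    refine Finset.sum_congr rfl fun y _ => ?_
    simp only [a']
    split_ifs
    · rw [mul_comm, Complex.mul_conj, Complex.normSq_eq_norm_sq]
    · rw [zero_mul]
  have hunit : ¬ Cfsg.MemLocalIdeal M ((D.index : ℂ) / n) := fun h => by
    refine CfsgLib.Blocks.not_memLocalIdeal_one (M := M) ?_
    have h1 := CfsgLib.Blocks.memLocalIdeal_mul_left (CfsgLib.Blocks.memLocalRing_natCast_div hM
      hn0 (Subgroup.index_ne_zero_of_finite (H := D)) hdeg.ge) h
    rwa [div_mul_div_comm, mul_comm (n : ℂ) (D.index : ℂ), div_self (mul_ne_zero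
      (Nat.cast_ne_zero.mpr Subgroup.index_ne_zero_of_finite) (Nat.cast_ne_zero.mpr hn0))] at h1
  rw [← homega, CfsgLib.Blocks.omega_eq_sum_classes hclass
    (CfsgLib.Chars.isClassFunction_coe χ)] at hunit
  obtain ⟨C, hC⟩ : ∃ C : ConjClasses G,
      ¬ Cfsg.MemLocalIdeal M (a' C.out * Cfsg.centralChar (χ : G → ℂ) C.out) := by
    by_contra hcon
    simp only [not_exists, not_not] at hcon
    exact hunit (CfsgLib.Blocks.memLocalIdeal_sum _ fun C _ => hcon C)
  set y := C.out with hy
  by_cases hyreg : Cfsg.IsPRegular p y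
  swap
  · exfalso; apply hC
    simp only [a', hyreg, if_false, zero_mul]
    exact CfsgLib.Blocks.memLocalIdeal_zero
  simp only [a', hyreg, if_true] at hC
  have hconjint : Cfsg.MemLocalRing M ((starRingEnd ℂ) ((χ : G → ℂ) y)) := by
    rw [CfsgLib.Chars.conj_eq_map_inv (CfsgLib.Chars.isCharacter_coe χ)]
    exact CfsgLib.Blocks.HeightZero.memLocalRing_apply (CfsgLib.Chars.isCharacter_coe χ) _
  have hconj : ¬ Cfsg.MemLocalIdeal M ((starRingEnd ℂ) ((χ : G → ℂ) y)) := fun h =>
    hC (CfsgLib.Blocks.memLocalIdeal_mul_right h (CfsgLib.Blocks.memLocalRing_centralChar χ y))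
  have hω : ¬ Cfsg.MemLocalIdeal M (Cfsg.centralChar (χ : G → ℂ) y) := fun h =>
    hC (CfsgLib.Blocks.memLocalIdeal_mul_left hconjint h)
  set K := Subgroup.centralizer ({y} : Set G) with hK
  have hidx : n.factorization p ≤ K.index.factorization p := by
    by_contra hlt
    rw [not_le] at hlt
    apply hconj
    rw [CfsgLib.Chars.conj_eq_map_inv (CfsgLib.Chars.isCharacter_coe χ)]
    have hKinv : Subgroup.centralizer ({y⁻¹} : Set G) = K := by
      ext t
      simp only [hK, CfsgLib.Blocks.mem_centralizer_singleton']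
      exact ⟨fun h => by simpa using (Commute.inv_right (show Commute t y⁻¹ from h)).eq,
        fun h => (Commute.inv_right (show Commute t y from h)).eq⟩
    have heqy : (χ : G → ℂ) y⁻¹ = ((n : ℂ) / (K.index : ℂ)) *
        Cfsg.centralChar (χ : G → ℂ) y⁻¹ := by
      rw [Cfsg.centralChar, hKinv, ← CfsgLib.Chars.coe_charDegree, ← hn]
      field_simp [(Nat.cast_ne_zero.mpr Subgroup.index_ne_zero_of_finite : (K.index : ℂ) ≠ 0),
        (Nat.cast_ne_zero.mpr hn0 : (n : ℂ) ≠ 0)]
    rw [heqy]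
    exact CfsgLib.Blocks.memLocalIdeal_mul_right (CfsgLib.Blocks.memLocalIdeal_natCast_div hM
      (Subgroup.index_ne_zero_of_finite (H := K)) hn0 hlt) (CfsgLib.Blocks.memLocalRing_centralChar χ _)
  set B := Cfsg.blockOf M (χ : G → ℂ) with hBdef
  have hB : Cfsg.IsPBlock M B := CfsgLib.Blocks.isPBlock_blockOf M χ
  have hsees : CfsgLib.Blocks.Sees (CfsgLib.Blocks.topEl M B)
      (CfsgLib.Blocks.classSumIn (CfsgLib.Blocks.kres M) ⊤ y) := by
    intro hn'
    apply hω
    have h1 := (CfsgLib.Blocks.not_sees_classSum_sub_iff hB (CfsgLib.Blocks.self_mem_blockOf χ) y 0).mp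
      (by rw [zero_smul, sub_zero]; exact fun h => h hn')
    rwa [CfsgLib.Blocks.redC_eq_zero_iff (CfsgLib.Blocks.memLocalRing_centralChar χ y)] at h1
  have he := CfsgLib.Blocks.isBlockIdem_topEl hB (M := M)
  obtain ⟨D', hD'⟩ := he.exists_defectGroup p
  have hDn : (⊤ : Subgroup G) ≤ Subgroup.normalizer (D : Set G) := fun t _ =>
    Subgroup.mem_normalizer_iff.mpr fun u => by
      constructor
      · intro hu
        rwa [Subgroup.mem_center_iff.mp (hDZ hu) t, mul_inv_cancel_right]
      · intro hu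
        have h1 : t * u * t⁻¹ ∈ Subgroup.center G := hDZ hu
        have h2 : u ∈ Subgroup.center G := by
          simpa [mul_assoc] using (inferInstance : (Subgroup.center G).Normal).conj_mem _ h1 t⁻¹
        rwa [Subgroup.mem_center_iff.mp h2 t, mul_inv_cancel_right] at hu
  have hDD' : D ≤ D' := he.normal_le_defectGroup hD le_top hDn hD'
  obtain ⟨h, -, hh⟩ := he.exists_conj_mem_centralizer (Subgroup.mem_top y) hsees le_top hD'.2.1
    hD'.2.2.1
  have hle' : D'.map (MulAut.conj h⁻¹).toMonoidHom ≤ K := by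
    rintro _ ⟨q, hq, rfl⟩
    rw [hK, CfsgLib.Blocks.mem_centralizer_singleton']
    have h1 := Subgroup.mem_centralizer_iff.mp hh q hq
    simp only [MulEquiv.coe_toMonoidHom, MulAut.conj_apply, inv_inv]
    calc h⁻¹ * q * h * y = h⁻¹ * (q * (h * y * h⁻¹)) * h := by group
      _ = y * (h⁻¹ * q * h) := by rw [h1]; group
  obtain ⟨i, hi⟩ := IsPGroup.iff_card.mp hD'.2.1
  have hcard : Nat.card D' ≤ Nat.card D := by
    have h1 := Subgroup.card_dvd_of_le hle'
    rw [CfsgLib.Blocks.card_map_conj, hi] at h1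
    have h2 : i ≤ (Nat.card K).factorization p :=
      (hp.pow_dvd_iff_le_factorization Nat.card_pos.ne').mp h1
    have h3 := congrArg (fun t => Nat.factorization t p) K.card_mul_index
    have h4 := congrArg (fun t => Nat.factorization t p) D.card_mul_index
    simp only [Nat.factorization_mul Nat.card_pos.ne' Subgroup.index_ne_zero_of_finite,
      Finsupp.add_apply] at h3 h4
    rw [hdd, Nat.factorization_pow_self hp] at h4
    rw [hi, hdd]
    exact Nat.pow_le_pow_right hp.pos (by rw [← hdeg] at h4; omega)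
  rw [CfsgLib.Blocks.isDefectGroup_topEl_iff hB, Subgroup.eq_of_le_of_card_ge hDD' hcard]
  exact hD'

end Cfsg.Agent.S0969
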