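import Cfsg.Statements.S0970
import Cfsg.Agent.Blocks.Defect.StableNormal
import Cfsg.Agent.S0908
import Cfsg.Agent.Eq.Def_Blocks

set_option autoImplicit false
open Cfsg

namespace Cfsg.Agent.S0970

/-- Let N be a normal subgroup of the finite group G and fix a maximal ideal M of the algebraic integers containing the prime p. Let b be a block of N that is invariant under conjugation by G, and B a block of G covering b (some χ ∈ B has a constituent in b) whose defect is at least that of every block covering b. If P is a defect group of B, then p does not divide the index of P ⊔ N, the subgroup P ∩ N of N is a defect group of b, and the defect of B equals the defect of b plus the exponent of p in the index of N. -/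
theorem result {G : Type*} [Group G] [Fintype G] (p : ℕ) [Fact p.Prime] (M : Ideal Cfsg.AlgInt) (hM : Cfsg.IsPModular p M) (N : Subgroup G) [hN : N.Normal] [Fintype N] (b : Set (Cfsg.IrrCharacter N)) (hb : Cfsg.IsPBlock M b) (hinv : ∀ g : G, ∀ θ ∈ b, ∀ θ' : Cfsg.IrrCharacter N, (∀ n : N, (θ' : N → ℂ) n = (θ : N → ℂ) ⟨g * n * g⁻¹, hN.conj_mem n n.2 g⟩) → θ' ∈ b) (B : Set (Cfsg.IrrCharacter G)) (hB : Cfsg.IsPBlock M B) (hcov : ∃ χ ∈ B, ∃ θ ∈ b, Cfsg.classInner (fun n : N => (χ : G → ℂ) n) (θ : N → ℂ) ≠ 0) (hmax : ∀ B' : Set (Cfsg.IrrCharacter G), Cfsg.IsPBlock M B' → (∃ χ ∈ B', ∃ θ ∈ b, Cfsg.classInner (fun n : N => (χ : G → ℂ) n) (θ : N → ℂ) ≠ 0) → Cfsg.blockDefect p B' ≤ Cfsg.blockDefect p B) (P : Subgroup G) (hP : Cfsg.IsDefectGroup p M B P) : ¬ p ∣ (P ⊔ N).index ∧ Cfsg.IsDefectGroup p M b ((P ⊓ N).subgroupOf N) ∧ Cfsg.blockDefect p B = Cfsg.blockDefect p b + N.index.factorization p := by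
  haveI := hM.2.1
  haveI := CfsgLib.Blocks.charP_kres hM
  classical
  obtain ⟨χ, hχ, θ, hθ, hcov'⟩ := hcov
  set f := CfsgLib.Blocks.subEl M N b with hf'
  have hf : CfsgLib.Blocks.IsBlockIdem N f := CfsgLib.Blocks.isBlockIdem_subEl hb
  have hfix : CfsgLib.Blocks.IsFixedBy f ⊤ := by
    rw [CfsgLib.Blocks.isFixedBy_iff_conjA]
    intro g _
    have hmap : N.map (MulAut.conj g).toMonoidHom = N :=
      CfsgLib.Blocks.map_conj_eq_self_of_mem_normalizer
        ((Subgroup.normalizer_eq_top_iff.mpr hN).symm ▸ Subgroup.mem_top g)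
    rw [hf', ← CfsgLib.Blocks.subEl_mapBlock_conj g hmap b]
    congr 1
    have h1 : CfsgLib.Chars.irrEquiv (CfsgLib.Blocks.conjIso N N g hmap) θ ∈ b := by
      refine hinv g⁻¹ θ hθ _ fun n => ?_
      rw [CfsgLib.Chars.irrEquiv_apply]
      refine congrArg _ ?_
      rw [MulEquiv.symm_apply_eq]
      apply Subtype.ext
      rw [CfsgLib.Blocks.coe_conjIso]
      simp [mul_assoc]
    exact (CfsgLib.Blocks.eq_blockOf_of_mem (CfsgLib.Blocks.isPBlock_mapBlock _ hb)
      (Set.mem_image_of_mem _ hθ)).trans (CfsgLib.Blocks.eq_blockOf_of_mem hb h1).symm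
  obtain ⟨e', D, Q, he', hef', hD, hQ, hle⟩ := hf.exists_block_large_defect (p := p) hfix
  obtain ⟨B', hB', hB'e⟩ := CfsgLib.Blocks.exists_topEl_eq he'
  have hDB' : Cfsg.IsDefectGroup p M B' D :=
    (CfsgLib.Blocks.isDefectGroup_topEl_iff hB' D).mpr (hB'e.symm ▸ hD)
  have h1 := hmax B' hB' (CfsgLib.Blocks.covers_of_mul_ne_zero hB' hb (hB'e.symm ▸ hef'))
  have hDP : Nat.card D ≤ Nat.card P := by
    rw [Cfsg.Agent.S0908.result p M hM B' hB' D hDB', Cfsg.Agent.S0908.result p M hM B hB P hP]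
    exact Nat.pow_le_pow_right (Fact.out : p.Prime).pos h1
  have heP := (CfsgLib.Blocks.isDefectGroup_topEl_iff hB P).mp hP
  have hef := CfsgLib.Blocks.topEl_mul_subEl_ne_zero hB hb hχ hθ hcov'
  obtain ⟨P', hP', hP'N⟩ := CfsgLib.Blocks.exists_defectGroup_inf_eq
    (CfsgLib.Blocks.isBlockIdem_topEl hB) hf hQ hef
  obtain ⟨x, -, hx⟩ := heP.exists_conj_eq hP'
  have hQP : Nat.card Q = Nat.card (P ⊓ N : Subgroup G) := by
    rw [← hP'N, ← hx, ← CfsgLib.Blocks.card_map_conj (P ⊓ N) x, Subgroup.map_inf _ _ _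
      (MulAut.conj x).injective, CfsgLib.Blocks.map_conj_eq_self_of_mem_normalizer
        ((Subgroup.normalizer_eq_top_iff.mpr hN).symm ▸ Subgroup.mem_top x :
          x ∈ Subgroup.normalizer (N : Set G))]
  have hPcard := CfsgLib.Blocks.card_eq_inf_mul_pow (N := N) heP.2.1
  have hidx := CfsgLib.Blocks.factorization_index_eq_of_normal (p := p) (N := N) (P := P)
  have hp1 := (Fact.out : p.Prime).one_lt
  have hpow : (N.relIndex P).factorization p = N.index.factorization p := by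
    refine le_antisymm (hidx ▸ Nat.le_add_right _ _) ?_
    have h2 := hle.trans hDP
    rw [hPcard, hQP] at h2
    exact (Nat.pow_le_pow_iff_right hp1).mp (Nat.le_of_mul_le_mul_left h2 Nat.card_pos)
  have hPN : CfsgLib.Blocks.IsDefectGroupIdem p N f (P ⊓ N) := by
    refine hQ.of_card_le hf.1 inf_le_right (heP.2.1.to_le inf_le_left) ?_ hQP.le
    intro h0
    have he := CfsgLib.Blocks.isBlockIdem_topEl hB (M := M)
    have hfe : f * CfsgLib.Blocks.topEl M B = CfsgLib.Blocks.topEl M B :=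
      (he.2.2.2 f ⟨CfsgLib.Blocks.isSupportedOn_top f, hfix⟩ hf.idem).resolve_left fun h => hef (by
        rw [(CfsgLib.Blocks.commute_of_isFixedBy (CfsgLib.Blocks.isSupportedOn_top _) hfix).eq]
        exact h)
    apply heP.2.2.1
    rw [← hfe, CfsgLib.Blocks.brTrunc_mul heP.2.1 (hfix.mono le_top) (he.1.2.mono le_top),
      ← CfsgLib.Blocks.brTrunc_brTrunc (inf_le_left : P ⊓ N ≤ P) f, h0, map_zero, zero_mul]
  refine ⟨?_, ?_, ?_⟩
  · intro hdvd
    rw [sup_comm] at hdvd
    have h3 := (Fact.out : p.Prime).factorization_pos_of_dvd Subgroup.index_ne_zero_of_finite hdvd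
    omega
  · rw [CfsgLib.Blocks.isDefectGroup_subEl_iff hb, Subgroup.map_subgroupOf_eq_of_le inf_le_right]
    exact hPN
  · have hb' : Cfsg.IsDefectGroup p M b ((P ⊓ N).subgroupOf N) := by
      rw [CfsgLib.Blocks.isDefectGroup_subEl_iff hb, Subgroup.map_subgroupOf_eq_of_le inf_le_right]
      exact hPN
    have hcN := Cfsg.Agent.S0908.result p M hM b hb _ hb'
    rw [Nat.card_congr (Subgroup.subgroupOfEquivOfLe (inf_le_right : P ⊓ N ≤ N)).toEquiv] at hcN
    have hcP := Cfsg.Agent.S0908.result p M hM B hB P hP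
    rw [hPcard, hpow, hcN, ← pow_add] at hcP
    exact (Nat.pow_right_injective hp1 hcP).symm

end Cfsg.Agent.S0970
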