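import Cfsg.Statements.S0973
import Cfsg.Agent.Blocks.Defect.Induced
import Cfsg.Agent.Eq.Def_Blocks

set_option autoImplicit false
open Cfsg

namespace Cfsg.Agent.S0973

/-- Let B be a block of the finite group G with defect group P (relative to a maximal ideal M of the algebraic integers containing p), and let L = P ⊔ C_G(P). Then (i) some block b of L with defect group P (viewed in L) induces B, and (ii) if b and b' are blocks of L both inducing B, there is n ∈ N_G(P) carrying b to b': for every θ ∈ b there is θ' ∈ b' with θ' x = θ (n x n⁻¹) for all x ∈ L. -/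
theorem result {G : Type*} [Group G] [Finite G] (p : ℕ) [Fact p.Prime] (M : Ideal Cfsg.AlgInt) (hM : Cfsg.IsPModular p M) (B : Set (Cfsg.IrrCharacter G)) (hB : Cfsg.IsPBlock M B) (P : Subgroup G) (hP : Cfsg.IsDefectGroup p M B P) : (∃ b : Set (Cfsg.IrrCharacter ↥(P ⊔ Subgroup.centralizer (P : Set G))), Cfsg.IsDefectGroup p M b (P.subgroupOf (P ⊔ Subgroup.centralizer (P : Set G))) ∧ Cfsg.IsInducedBlock M (P ⊔ Subgroup.centralizer (P : Set G)) b B) ∧ ∀ b b' : Set (Cfsg.IrrCharacter ↥(P ⊔ Subgroup.centralizer (P : Set G))), Cfsg.IsInducedBlock M (P ⊔ Subgroup.centralizer (P : Set G)) b B → Cfsg.IsInducedBlock M (P ⊔ Subgroup.centralizer (P : Set G)) b' B → ∃ n ∈ Subgroup.normalizer (P : Set G), ∀ θ ∈ b, ∃ θ' ∈ b', ∀ x : ↥(P ⊔ Subgroup.centralizer (P : Set G)), ∀ hx : n * (x : G) * n⁻¹ ∈ P ⊔ Subgroup.centralizer (P : Set G), (θ' : ↥(P ⊔ Subgroup.centralizer (P : Set G)) → ℂ) x = (θ : ↥(P ⊔ Subgroup.centralizer (P : Set G)) → ℂ) ⟨n * (x : G)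 * n⁻¹, hx⟩ := by
  haveI := hM.2.1
  haveI := CfsgLib.Blocks.charP_kres hM
  classical
  haveI := Fintype.ofFinite G
  set K := P ⊔ Subgroup.centralizer (P : Set G) with hK
  have he := CfsgLib.Blocks.isBlockIdem_topEl hB (M := M)
  have heD := (CfsgLib.Blocks.isDefectGroup_topEl_iff hB P).mp hP
  have hPK : P ≤ K := le_sup_left
  have hCK : Subgroup.centralizer (P : Set G) ≤ K := le_sup_right
  have hKN : K ≤ Subgroup.normalizer (P : Set G) :=
    sup_le Subgroup.le_normalizer (Subgroup.centralizer_le_normalizer _)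
  have S : CfsgLib.Blocks.BrSetting p ⊤ P K :=
    ⟨heD.2.1, le_top, inf_le_right.trans hCK, le_top, hKN⟩
  refine ⟨?_, ?_⟩
  · obtain ⟨c, hc, ho⟩ := S.exists_block_over he heD.2.2.1
    obtain ⟨b, hb, rfl⟩ := CfsgLib.Blocks.exists_subEl_eq hc
    refine ⟨b, ?_, (CfsgLib.Blocks.isInducedBlock_iff_brOver hM heD.2.1 hPK hCK hKN hb hB).mpr ho⟩
    rw [CfsgLib.Blocks.isDefectGroup_subEl_iff hb, Subgroup.map_subgroupOf_eq_of_le hPK]
    obtain ⟨E, hE⟩ := hc.exists_defectGroup p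
    have hPE : P ≤ E := hc.normal_le_defectGroup heD.2.1 hPK hKN hE
    have hne : CfsgLib.Blocks.brTrunc E (CfsgLib.Blocks.topEl M B) ≠ 0 := by
      intro h0
      apply hE.2.2.1
      have hfix : CfsgLib.Blocks.IsFixedBy (CfsgLib.Blocks.brTrunc P (CfsgLib.Blocks.topEl M B)) E :=
        (S.trunc_mem he.1).2.mono hE.1
      rw [← ho, CfsgLib.Blocks.brTrunc_mul hE.2.1 hfix (hc.1.2.mono hE.1),
        CfsgLib.Blocks.brTrunc_brTrunc hPE, h0, zero_mul]
    obtain ⟨x, -, hx⟩ := heD.2.2.2 E le_top hE.2.1 hne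
    have hcard := Subgroup.card_le_of_le hx
    rw [CfsgLib.Blocks.card_map_conj] at hcard
    rwa [Subgroup.eq_of_le_of_card_ge hPE hcard]
  · intro b b' hbB hbB'
    have ho := (CfsgLib.Blocks.isInducedBlock_iff_brOver hM heD.2.1 hPK hCK hKN hbB.1 hB).mp hbB
    have ho' := (CfsgLib.Blocks.isInducedBlock_iff_brOver hM heD.2.1 hPK hCK hKN hbB'.1 hB).mp hbB'
    have hKnorm : ∀ n ∈ Subgroup.normalizer (P : Set G),
        K.map (MulAut.conj n).toMonoidHom = K := by
      intro n hn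
      rw [hK, Subgroup.map_sup, CfsgLib.Blocks.map_conj_eq_self_of_mem_normalizer hn,
        CfsgLib.Blocks.map_conj_centralizer,
        CfsgLib.Blocks.map_conj_eq_self_of_mem_normalizer hn]
    obtain ⟨n, hn, hnb⟩ := heD.exists_conjA_eq he (le_inf le_top hKN) (fun n hn =>
      Subgroup.mem_normalizer_iff.mpr fun y => by
        conv_rhs => rw [← hKnorm n hn.2]
        exact (Subgroup.mem_map_iff_mem (f := (MulAut.conj n).toMonoidHom)
          (MulAut.conj n).injective).symm)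
      (CfsgLib.Blocks.isBlockIdem_subEl hbB.1) (CfsgLib.Blocks.isBlockIdem_subEl hbB'.1) ho ho'
    rw [← CfsgLib.Blocks.subEl_mapBlock_conj n (hKnorm n hn.2)] at hnb
    have hbb' := CfsgLib.Blocks.subEl_injective (CfsgLib.Blocks.isPBlock_mapBlock _ hbB.1) hbB'.1 hnb
    refine ⟨n⁻¹, Subgroup.inv_mem _ hn.2, fun θ hθ =>
      ⟨CfsgLib.Chars.irrEquiv (CfsgLib.Blocks.conjIso K K n (hKnorm n hn.2)) θ,
        by rw [← hbb']; exact Set.mem_image_of_mem _ hθ, fun x hx => ?_⟩⟩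
    rw [CfsgLib.Chars.irrEquiv_apply]
    refine congrArg _ ?_
    rw [MulEquiv.symm_apply_eq]
    apply Subtype.ext
    rw [CfsgLib.Blocks.coe_conjIso]
    simp [mul_assoc]

end Cfsg.Agent.S0973
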