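import Cfsg.Statements.S0985

set_option autoImplicit false
open Cfsg

namespace Cfsg.Agent.S0985

/-- If the number of Sylow p-subgroups of a finite group is not congruent to 1 modulo p^k, then there are two distinct Sylow p-subgroups P and R such that the index of P ∩ R in P is at most p^(k-1). -/
theorem result {G : Type*} [Group G] [Finite G] (p k : ℕ) [Fact p.Prime] (h : ¬ Nat.card (Sylow p G) ≡ 1 [MOD p ^ k]) : ∃ P R : Sylow p G, P ≠ R ∧ ((R : Subgroup G).subgroupOf (P : Subgroup G)).index ≤ p ^ (k - 1) := by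
  classical
  by_contra hc
  push Not at hc
  obtain ⟨P⟩ := (inferInstance : Nonempty (Sylow p G))
  apply h
  have : Fintype (Sylow p G) := Fintype.ofFinite _
  have hall : ∀ R : Sylow p G, R ≠ P → p ^ k ∣ Nat.card (MulAction.orbit (P : Subgroup G) R) := by
    intro R hR
    have e : MulAction.stabilizer (P : Subgroup G) R = (R : Subgroup G).subgroupOf (P : Subgroup G) := by
      ext x
      rw [MulAction.mem_stabilizer_iff, Subgroup.mem_subgroupOf]
      show (x : G) • R = R ↔ _
      rw [Sylow.smul_eq_iff_mem_normalizer]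
      constructor
      · intro hx
        have : (x : G) ∈ (P : Subgroup G) ⊓ Subgroup.normalizer ((R : Subgroup G) : Set G) := ⟨x.2, hx⟩
        exact ((P.2.inf_normalizer_sylow R).le this).2
      · exact fun hx => Subgroup.le_normalizer hx
    have h1 := (MulAction.index_stabilizer (P : Subgroup G) R)
    rw [e] at h1
    rw [Nat.card_coe_set_eq, ← h1]
    obtain ⟨n, hn⟩ := P.2.index ((R : Subgroup G).subgroupOf (P : Subgroup G))
    have h2 := hc P R (Ne.symm hR)
    rw [hn] at h2 ⊢
    have := (Nat.pow_lt_pow_iff_right (Fact.out : p.Prime).one_lt).1 h2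
    exact pow_dvd_pow p (by omega)
  rw [Nat.card_congr (MulAction.selfEquivSigmaOrbits (P : Subgroup G) (Sylow p G)), Nat.card_sigma]
  let q₀ : MulAction.orbitRel.Quotient (P : Subgroup G) (Sylow p G) := Quotient.mk _ P
  have h0 : ∀ q, q ≠ q₀ → p ^ k ∣ Nat.card (MulAction.orbit (P : Subgroup G) q.out) := fun q hq =>
    hall _ fun he => hq (by rw [← Quotient.out_eq q, he])
  have hP : ∀ x : (P : Subgroup G), x • P = P := fun x =>
    Sylow.smul_eq_iff_mem_normalizer.2 (Subgroup.le_normalizer x.2)
  have h1 : MulAction.orbit (P : Subgroup G) q₀.out = {P} := by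
    obtain ⟨x, hx⟩ : q₀.out ∈ MulAction.orbit (P : Subgroup G) P :=
      MulAction.orbitRel_apply.1 (Quotient.exact (Quotient.out_eq q₀))
    rw [show q₀.out = P from hx.symm.trans (hP x)]
    ext R
    exact ⟨fun ⟨y, hy⟩ => hy.symm.trans (hP y), fun hR => by rw [hR]; exact MulAction.mem_orbit_self P⟩
  rw [← Finset.add_sum_erase _ _ (Finset.mem_univ q₀)]
  have h2 : p ^ k ∣ ∑ q ∈ Finset.univ.erase q₀, Nat.card (MulAction.orbit (P : Subgroup G) q.out) :=
    Finset.dvd_sum fun q hq => h0 q (Finset.ne_of_mem_erase hq)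
  have h3 : Nat.card (MulAction.orbit (P : Subgroup G) q₀.out) = 1 := by rw [h1]; simp
  rw [h3]
  simpa using (Nat.modEq_zero_iff_dvd.2 h2).add_left 1

end Cfsg.Agent.S0985
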