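import Cfsg.Statements.S0986
import Mathlib

set_option autoImplicit false
open Cfsg

namespace Cfsg.Agent.S0986

theorem lt_inf_normalizer {G : Type*} [Group G] [Finite G] {p : ℕ} [Fact p.Prime] (A : Subgroup G) (hA : IsPGroup p A)
    (D : Subgroup G) (h : D < A) : D < A ⊓ Subgroup.normalizer (D : Set G) := by
  have : Group.IsNilpotent A := hA.isNilpotent
  have h' : D.subgroupOf A < ⊤ := by
    rw [lt_top_iff_ne_top, Ne, Subgroup.subgroupOf_eq_top]
    exact h.not_ge
  have h2 := normalizerCondition_of_isNilpotent (D.subgroupOf A) h'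
  rw [← Subgroup.subgroupOf_normalizer_eq h.le] at h2
  refine lt_of_le_of_ne (le_inf h.le Subgroup.le_normalizer) fun he => h2.ne ?_
  conv_lhs => rw [he]
  simp [Subgroup.inf_subgroupOf_left]

/-- Let P and Q be distinct Sylow p-subgroups of a finite group G chosen so that the order of P ∩ Q is as large as possible among intersections of two distinct Sylow p-subgroups, and let N be the normalizer of P ∩ Q. Then N has more than one Sylow p-subgroup, any two distinct Sylow p-subgroups of N intersect exactly in P ∩ Q, and each Sylow p-subgroup of N lies in exactly one Sylow p-subgroup of G. -/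
theorem result {G : Type*} [Group G] [Finite G] (p : ℕ) [Fact p.Prime] (P Q : Sylow p G) (hPQ : P ≠ Q) (hmax : ∀ P' Q' : Sylow p G, P' ≠ Q' → Nat.card ↥((P' : Subgroup G) ⊓ (Q' : Subgroup G)) ≤ Nat.card ↥((P : Subgroup G) ⊓ (Q : Subgroup G))) : 1 < Nat.card (Sylow p ↥(Subgroup.normalizer (((P : Subgroup G) ⊓ (Q : Subgroup G) : Subgroup G) : Set G))) ∧ (∀ S T : Sylow p ↥(Subgroup.normalizer (((P : Subgroup G) ⊓ (Q : Subgroup G) : Subgroup G) : Set G)), S ≠ T → (S : Subgroup _) ⊓ (T : Subgroup _) = ((P : Subgroup G) ⊓ (Q : Subgroup G)).subgroupOf (Subgroup.normalizer (((P : Subgroup G) ⊓ (Q : Subgroup G) : Subgroup G) : Set G))) ∧ ∀ S : Sylow p ↥(Subgroup.normalizer (((P : Subgroup G) ⊓ (Q : Subgroup G) : Subgroup G) : Set G)), ∃! T : Sylow p G, (S : Subgroup _).map (Subgroup.normalizer (((P : Subgroup G) ⊓ (Q : Subgroup G) : Subgroup G) : Set G)).subtype ≤ (T : Subgroup G) := by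
  classical
  set D : Subgroup G := (P : Subgroup G) ⊓ (Q : Subgroup G) with hD
  set N : Subgroup G := Subgroup.normalizer (D : Set G) with hN
  have hDN : D ≤ N := Subgroup.le_normalizer
  have grow : ∀ A : Subgroup G, IsPGroup p A → D < A → D < A ⊓ N := fun A hA hlt =>
    lt_inf_normalizer A hA D hlt
  have hDP : D < P := by
    refine lt_of_le_of_ne inf_le_left fun he => hPQ (Sylow.ext ?_)
    exact ((P.3 Q.2 (he ▸ inf_le_right)).symm)
  have hDQ : D < Q := by
    refine lt_of_le_of_ne inf_le_right fun he => hPQ (Sylow.ext ?_)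
    exact (Q.3 P.2 (he ▸ inf_le_left))
  have big : ∀ A : Subgroup G, D < A → ∀ T T' : Sylow p G, A ≤ T → A ≤ T' → T = T' := by
    intro A hA T T' h1 h2
    by_contra hne
    have h3 := lt_of_lt_of_le hA (le_inf h1 h2)
    exact h3.ne (Subgroup.eq_of_le_of_card_ge h3.le (hmax T T' hne))
  have hDnormal : (D.subgroupOf N).Normal := Subgroup.normal_in_normalizer
  have hDS : ∀ S : Sylow p N, D.subgroupOf N ≤ (S : Subgroup N) := fun S =>
    have hDp : IsPGroup p (D.subgroupOf N) := (P.2.to_le (inf_le_left (b := (Q : Subgroup G)))).comap_of_injective _ (Subgroup.subtype_injective N)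
    IsPGroup.le_sylow_of_normal hDp S
  have inN : ∀ A : Subgroup G, IsPGroup p A → A ≤ N → ∃ S : Sylow p N, A ≤ (S : Subgroup N).map N.subtype := by
    intro A hA hAN
    obtain ⟨S, hS⟩ := (hA.comap_of_injective _ (Subgroup.subtype_injective N)).exists_le_sylow
    refine ⟨S, fun a ha => ⟨⟨a, hAN ha⟩, hS ha, rfl⟩⟩
  have liftG : ∀ S : Sylow p N, ∃ T : Sylow p G, (S : Subgroup N).map N.subtype ≤ (T : Subgroup G) := fun S =>
    (S.2.map _).exists_le_sylow
  obtain ⟨S₁, hS₁⟩ := inN ((P : Subgroup G) ⊓ N) (P.2.to_le inf_le_left) inf_le_right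
  obtain ⟨S₂, hS₂⟩ := inN ((Q : Subgroup G) ⊓ N) (Q.2.to_le inf_le_left) inf_le_right
  have hS12 : S₁ ≠ S₂ := by
    intro he
    obtain ⟨T, hT⟩ := liftG S₁
    have e1 : T = P := big _ (grow _ P.2 hDP) T P (hS₁.trans hT) inf_le_left
    have e2 : T = Q := big _ (grow _ Q.2 hDQ) T Q ((he ▸ hS₂).trans hT) inf_le_left
    exact hPQ (e1.symm.trans e2)
  have card_one : 1 < Nat.card (Sylow p N) := by
    rw [Finite.one_lt_card_iff_nontrivial]; exact ⟨⟨S₁, S₂, hS12⟩⟩
  have ne_D : ∀ S : Sylow p N, D < (S : Subgroup N).map N.subtype := by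
    intro S
    have hle : D ≤ (S : Subgroup N).map N.subtype := fun d hd => ⟨⟨d, hDN hd⟩, hDS S hd, rfl⟩
    refine lt_of_le_of_ne hle fun he => ?_
    have e : D.subgroupOf N = (S : Subgroup N) := by
      rw [he, ← Subgroup.comap_subtype, Subgroup.comap_map_eq_self_of_injective (Subgroup.subtype_injective N)]
    have : (S : Subgroup N).Normal := e ▸ hDnormal
    have := Sylow.unique_of_normal S this
    exact hS12 (Subsingleton.elim _ _)
  refine ⟨card_one, ?_, ?_⟩
  · intro S T hST
    refine le_antisymm ?_ (le_inf (hDS S) (hDS T))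
    by_contra hc
    apply hST
    obtain ⟨U, hU⟩ := liftG S
    obtain ⟨V, hV⟩ := liftG T
    set A := ((S : Subgroup N) ⊓ (T : Subgroup N)).map N.subtype with hA
    have hDA : D < A := by
      refine lt_of_le_of_ne (fun d hd => ⟨⟨d, hDN hd⟩, ⟨hDS S hd, hDS T hd⟩, rfl⟩) fun he => hc ?_
      rw [he, ← Subgroup.comap_subtype, hA, Subgroup.comap_map_eq_self_of_injective (Subgroup.subtype_injective N)]
    have hUV : U = V := big A hDA U V ((Subgroup.map_mono inf_le_left).trans hU) ((Subgroup.map_mono inf_le_right).trans hV)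
    subst hUV
    have hp : IsPGroup p ((U : Subgroup G).subgroupOf N) := U.2.comap_of_injective _ (Subgroup.subtype_injective N)
    have h1 := S.3 hp (Subgroup.map_le_iff_le_comap.1 hU)
    have h2 := T.3 hp (Subgroup.map_le_iff_le_comap.1 hV)
    exact Sylow.ext (h1.symm.trans h2)
  · intro S
    obtain ⟨T, hT⟩ := liftG S
    exact ⟨T, hT, fun T' hT' => big _ (ne_D S) T' T hT' hT⟩

end Cfsg.Agent.S0986
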