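import Cfsg.Statements.S0987
import Mathlib

set_option autoImplicit false
open Cfsg

namespace Cfsg.Agent.S0987

/-- If a finite group has order pqr for primes p < q < r, then its Sylow r-subgroups are normal. -/
theorem result {G : Type*} [Group G] [Finite G] (p q r : ℕ) (hp : p.Prime) (hq : q.Prime) [Fact r.Prime] (hpq : p < q) (hqr : q < r) (hG : Nat.card G = p * q * r) (R : Sylow r G) : (R : Subgroup G).Normal := by
  classical
  have hr : r.Prime := Fact.out
  set n := Nat.card (Sylow r G)
  have hrpq : ¬ r ∣ p * q := by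
    rw [hr.dvd_mul]; rintro (h | h) <;> have := Nat.le_of_dvd (by first | exact hp.pos | exact hq.pos) h <;> omega
  have hRc : Nat.card (R : Subgroup G) = r := by
    rw [Sylow.card_eq_multiplicity, hG, Nat.factorization_mul (by simp [hp.ne_zero, hq.ne_zero]) hr.ne_zero, Finsupp.add_apply,
      Nat.factorization_eq_zero_of_not_dvd hrpq, Nat.Prime.factorization_self hr, zero_add, pow_one]
  by_contra hnn
  have hidx : (R : Subgroup G).index = p * q := by
    have := (R : Subgroup G).card_mul_index
    rw [hRc, hG, mul_comm] at this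
    exact Nat.eq_of_mul_eq_mul_right hr.pos this
  have h1 : n ∣ p * q := hidx ▸ R.card_dvd_index
  have hmod : n ≡ 1 [MOD r] := card_sylow_modEq_one r G
  have hn1 : n ≠ 1 := by
    intro he
    haveI : Subsingleton (Sylow r G) := (Nat.card_eq_one_iff_unique.1 he).1
    exact hnn R.normal_of_subsingleton
  have hn : n = p * q := by
    obtain ⟨a, b, ha, hb, hab⟩ := Nat.dvd_mul.1 h1
    have small : ∀ m, m < r → m ≠ 1 → ¬ m ≡ 1 [MOD r] := fun m hm hm1 h => hm1 (by
      rw [Nat.ModEq, Nat.mod_eq_of_lt hm, Nat.mod_eq_of_lt hr.one_lt] at h; exact h)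
    rcases (Nat.dvd_prime hp).1 ha with rfl | rfl <;> rcases (Nat.dvd_prime hq).1 hb with rfl | rfl
    · exact absurd (by simpa using hab.symm) hn1
    · exact absurd hmod (small _ (by rw [← hab, one_mul]; exact hqr) hn1)
    · exact absurd hmod (small _ (by rw [← hab, mul_one]; omega) hn1)
    · exact hab.symm
  set N := Subgroup.normalizer ((R : Subgroup G) : Set G) with hN
  have hNR : N = (R : Subgroup G) := by
    refine (Subgroup.eq_of_le_of_card_ge Subgroup.le_normalizer ?_).symm
    have h2 := N.card_mul_index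
    rw [show N.index = n from (Sylow.card_eq_index_normalizer R).symm, hn, hG, mul_comm] at h2
    rw [hRc]
    exact (Nat.eq_of_mul_eq_mul_left (Nat.mul_pos hp.pos hq.pos) h2).le
  haveI := isCyclic_of_prime_card hRc
  have hnc : N ≤ Subgroup.centralizer ((R : Subgroup G) : Set G) := by
    rw [hNR]; intro a ha b hb
    exact congrArg Subtype.val ((IsMulCommutative.is_comm (M := (R : Subgroup G))).comm ⟨b, hb⟩ ⟨a, ha⟩)
  set K := (MonoidHom.transferSylow R hnc).ker
  have hK : Nat.card K = p * q := by
    rw [← hidx]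
    exact ((MonoidHom.ker_transferSylow_isComplement' R hnc).index_eq_card).symm
  haveI : Fact q.Prime := ⟨hq⟩
  obtain ⟨Q⟩ := (inferInstance : Nonempty (Sylow q K))
  have hQc : Nat.card (Q : Subgroup K) = q := by
    rw [Sylow.card_eq_multiplicity, hK, Nat.factorization_mul hp.ne_zero hq.ne_zero, Finsupp.add_apply,
      Nat.factorization_eq_zero_of_not_dvd (fun h => by have := Nat.le_of_dvd hp.pos h; omega), Nat.Prime.factorization_self hq, zero_add, pow_one]
  have hQidx : (Q : Subgroup K).index = p := by
    have := (Q : Subgroup K).card_mul_index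
    rw [hQc, hK, mul_comm p q] at this
    exact Nat.eq_of_mul_eq_mul_left hq.pos this
  haveI : Subsingleton (Sylow q K) := by
    have h2 : Nat.card (Sylow q K) ∣ p := hQidx ▸ Q.card_dvd_index
    have h3 := card_sylow_modEq_one q K
    have : Nat.card (Sylow q K) = 1 := by
      rcases (Nat.dvd_prime hp).1 h2 with h | h
      · exact h
      · rw [h, Nat.ModEq, Nat.mod_eq_of_lt hpq, Nat.mod_eq_of_lt hq.one_lt] at h3
        exact absurd h3 hp.ne_one
    exact (Nat.card_eq_one_iff_unique.1 this).1
  haveI : (Q : Subgroup K).Characteristic := inferInstance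
  set Q' := (Q : Subgroup K).map K.subtype
  haveI : Q'.Normal := inferInstanceAs ((Q : Subgroup K).map K.subtype).Normal
  have hQ'c : Nat.card Q' = q := by
    rw [← Nat.card_congr ((Q : Subgroup K).equivMapOfInjective _ (Subgroup.subtype_injective K)).toEquiv, hQc]
  haveI := isCyclic_of_prime_card hQ'c
  let f : G →* MulAut Q' := MulAut.conjNormal
  have hRf : ∀ y ∈ (R : Subgroup G), f y = 1 := by
    intro y hy
    apply orderOf_eq_one_iff.1
    have h4 : orderOf (f y) ∣ r := (orderOf_map_dvd f y).trans (hRc ▸ Subgroup.orderOf_dvd_natCard _ hy)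
    have h5 : orderOf (f y) ∣ q - 1 := by
      have h := orderOf_dvd_natCard (f y)
      rwa [IsCyclic.card_mulAut, hQ'c, Nat.totient_prime hq] at h
    rcases (Nat.dvd_prime hr).1 h4 with h | h
    · exact h
    · rw [h] at h5
      have := Nat.le_of_dvd (by have := hq.two_le; omega) h5
      omega
  have hQN : Q' ≤ N := by
    intro z hz
    refine Subgroup.centralizer_le_normalizer _ ?_
    intro y hy
    have h6 := congrArg (fun e : MulAut Q' => ((e ⟨z, hz⟩ : Q') : G)) (hRf y hy)
    simpa [f, MulAut.conjNormal_apply, mul_inv_eq_iff_eq_mul] using h6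
  rw [hNR] at hQN
  have h7 := Subgroup.card_dvd_of_le hQN
  rw [hQ'c, hRc] at h7
  exact absurd ((Nat.prime_dvd_prime_iff_eq hq hr).1 h7) hqr.ne

end Cfsg.Agent.S0987
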