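import Cfsg.Statements.S0988
import Cfsg.Agent.SmallSimple.Basic

set_option autoImplicit false
open Cfsg

namespace Cfsg.Agent.S0988
open CfsgLib.SmallSimple

variable {G : Type*} [Group G] [Finite G] [IsSimpleGroup G]

theorem false_of_cyclic_minFac (hG : ¬ IsMulCommutative G) (s : ℕ) [Fact s.Prime] (m : ℕ) (hcard : Nat.card G = s * m)
    (hm : ¬ s ∣ m) : (Nat.card G).minFac ≠ s := by
  intro h
  obtain ⟨P⟩ := (inferInstance : Nonempty (Sylow s G))
  have := ((card_sylow_constraints (G := G) s m (k := 1) (by rw [hcard, pow_one]) hm).2.2 P).1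
  exact sylow_minFac_not_isCyclic hG h P (isCyclic_of_prime_card (p := s) (by rw [this, pow_one]))

theorem cube_mul (hG : ¬ IsMulCommutative G) (a b : ℕ) [ha : Fact a.Prime] [hb : Fact b.Prime] (hab : a ≠ b)
    (hcard : Nat.card G = a ^ 3 * b) : False := by
  classical
  have hab' : ¬ b ∣ a ^ 3 := fun h => hab ((Nat.prime_dvd_prime_iff_eq hb.out ha.out).1 (hb.out.dvd_of_dvd_pow h)).symm
  have hba : ¬ a ∣ b := fun h => hab ((Nat.prime_dvd_prime_iff_eq ha.out hb.out).1 h)
  obtain ⟨hda, hma, hA⟩ := card_sylow_constraints (G := G) a b hcard hba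
  obtain ⟨hdb, hmb, hB⟩ := card_sylow_constraints (G := G) b (a ^ 3) (k := 1) (by rw [hcard]; ring) hab'
  have hna : Nat.card (Sylow a G) = b :=
    ((Nat.dvd_prime hb.out).1 hda).resolve_left (card_sylow_ne_one hG a (by rw [hcard]; exact dvd_mul_of_dvd_left (dvd_pow_self a (by norm_num)) b))
  have hlt : a < b := by
    rw [hna] at hma
    by_contra h
    rw [Nat.mod_eq_of_lt (lt_of_le_of_ne (not_lt.1 h) hab.symm)] at hma
    exact hb.out.ne_one hma
  have hnb1 := card_sylow_ne_one hG b (by rw [hcard]; exact dvd_mul_left _ _)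
  obtain ⟨i, hi, hn⟩ := (Nat.dvd_prime_pow ha.out).1 hdb
  have hi0 : i ≠ 0 := fun h => hnb1 (by rw [hn, h, pow_zero])
  interval_cases i
  · exact absurd rfl hi0
  · rw [pow_one] at hn
    rw [hn, Nat.mod_eq_of_lt hlt] at hmb
    exact ha.out.ne_one hmb
  · -- `b` divides `a + 1`, so the order is 24
    have h1 : b ∣ a ^ 2 - 1 := (Nat.modEq_iff_dvd' (Nat.one_le_pow _ _ ha.out.pos)).1 (by rw [Nat.ModEq, ← hn, hmb, Nat.mod_eq_of_lt hb.out.one_lt])
    rw [show a ^ 2 - 1 = (a + 1) * (a - 1) by rw [← Nat.sq_sub_sq a 1, one_pow]] at h1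
    have hb' : b = a + 1 := by
      rcases hb.out.dvd_mul.1 h1 with h | h
      · have := Nat.le_of_dvd (by omega) h; omega
      · have := Nat.le_of_dvd (by have := ha.out.two_le; omega) h; omega
    have ha2 : a = 2 := by
      by_contra h
      have := ha.out.odd_of_ne_two h
      have h' := hb.out.odd_of_ne_two (by have := ha.out.two_le; omega)
      rw [hb'] at h'
      rcases this with ⟨c, hc⟩; rcases h' with ⟨d, hd⟩; omega
    subst ha2; subst hb'
    have := card_dvd_factorial_sylow hG 2 (by rw [hcard]; norm_num)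
    rw [hna, hcard] at this
    exact absurd (Nat.le_of_dvd (Nat.factorial_pos _) this) (by simp [Nat.factorial])
  · -- all Sylow `b` subgroups leave room for one Sylow `a` subgroup only
    have hBc : ∀ B : Sylow b G, Nat.card (B : Subgroup G) = b := fun B => by rw [(hB B).1, pow_one]
    let X := {g : G // orderOf g ≠ b}
    have hcount : Nat.card {g : G // orderOf g = b} = a ^ 3 * (b - 1) := by
      have e : {g : G // orderOf g = b} ≃ Σ B : Sylow b G, {g : G // g ∈ (B : Subgroup G) ∧ g ≠ 1} :=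
        Equiv.symm <| Equiv.ofBijective
          (fun v => ⟨v.2.1, by
            rcases (Nat.dvd_prime hb.out).1 (hBc v.1 ▸ Subgroup.orderOf_dvd_natCard _ v.2.2.1) with h | h
            · exact absurd (orderOf_eq_one_iff.1 h) v.2.2.2
            · exact h⟩)
          ⟨by
            rintro ⟨B, g, hg, hg1⟩ ⟨B', g', hg', hg1'⟩ h
            have hgg : g = g' := congrArg Subtype.val h
            subst hgg
            have ho : orderOf g = b := by
              rcases (Nat.dvd_prime hb.out).1 (hBc B ▸ Subgroup.orderOf_dvd_natCard _ hg) with h | h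
              · exact absurd (orderOf_eq_one_iff.1 h) hg1
              · exact h
            have hz : ∀ C : Sylow b G, g ∈ (C : Subgroup G) → Subgroup.zpowers g = C := fun C hC =>
              Subgroup.eq_of_le_of_card_ge (Subgroup.zpowers_le.2 hC) (by rw [Nat.card_zpowers, ho, hBc])
            obtain rfl : B = B' := Sylow.ext ((hz B hg).symm.trans (hz B' hg'))
            rfl,
          fun g => by
            obtain ⟨B, hB'⟩ := (IsPGroup.of_card (n := 1) (by rw [Nat.card_zpowers, g.2, pow_one]) : IsPGroup b (Subgroup.zpowers g.1)).exists_le_sylow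
            exact ⟨⟨B, g.1, hB' (Subgroup.mem_zpowers _), fun h => hb.out.ne_one (by rw [← g.2, h, orderOf_one])⟩, rfl⟩⟩
      haveI : Fintype (Sylow b G) := Fintype.ofFinite _
      rw [Nat.card_congr e, Nat.card_sigma, Finset.sum_congr rfl fun B _ => (?_ : _ = b - 1)]
      · rw [Finset.sum_const, Finset.card_univ, ← Nat.card_eq_fintype_card, smul_eq_mul, hn]
      · have : Nat.card {g : G // g ∈ (B : Subgroup G) ∧ g ≠ 1} = (((B : Subgroup G) : Set G) \ {1}).ncard := rfl
        rw [this, Set.ncard_diff_singleton_of_mem (one_mem _), ← Nat.card_coe_set_eq]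
        exact congrArg (· - 1) (hBc B)
    have hrest : Set.ncard {g : G | orderOf g ≠ b} = a ^ 3 := by
      have h1 := Set.ncard_add_ncard_compl {g : G | orderOf g = b}
      rw [← Nat.card_coe_set_eq {g : G | orderOf g = b}] at h1
      have hsplit : a ^ 3 * b = a ^ 3 * (b - 1) + a ^ 3 := by
        rw [← Nat.mul_succ, Nat.succ_eq_add_one, Nat.sub_add_cancel hb.out.pos]
      rw [show Nat.card ↑{g : G | orderOf g = b} = a ^ 3 * (b - 1) from hcount, hcard, hsplit] at h1
      exact Nat.add_left_cancel h1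
    have huniq : ∀ P : Sylow a G, ((P : Subgroup G) : Set G) = {g : G | orderOf g ≠ b} := fun P => by
      refine Set.eq_of_subset_of_ncard_le (fun g hg h => hab ?_) (by
        rw [hrest, ← Nat.card_coe_set_eq]; exact (hA P).1.ge) (Set.toFinite _)
      have h2 := Subgroup.orderOf_dvd_natCard _ hg
      rw [(hA P).1, h] at h2
      exact ((Nat.prime_dvd_prime_iff_eq hb.out ha.out).1 (hb.out.dvd_of_dvd_pow h2)).symm
    haveI : Subsingleton (Sylow a G) := ⟨fun P Q => Sylow.ext (SetLike.coe_injective ((huniq P).trans (huniq Q).symm))⟩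
    rw [Nat.card_of_subsingleton (default : Sylow a G)] at hna
    exact hb.out.ne_one hna.symm

theorem sq_sq (hG : ¬ IsMulCommutative G) (a b : ℕ) [ha : Fact a.Prime] [hb : Fact b.Prime] (hab : a < b)
    (hcard : Nat.card G = a ^ 2 * b ^ 2) : False := by
  have hab' : ¬ b ∣ a ^ 2 := fun h => hab.ne ((Nat.prime_dvd_prime_iff_eq hb.out ha.out).1 (hb.out.dvd_of_dvd_pow h)).symm
  obtain ⟨hdb, hmb, hB⟩ := card_sylow_constraints (G := G) b (a ^ 2) (k := 2) (by rw [hcard]; ring) hab'
  obtain ⟨i, hi, hn⟩ := (Nat.dvd_prime_pow ha.out).1 hdb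
  have hdvd : b ∣ Nat.card G := by rw [hcard]; exact dvd_mul_of_dvd_right (dvd_pow_self b (by norm_num)) _
  have hn1 := card_sylow_ne_one hG b hdvd
  interval_cases i
  · exact hn1 hn
  · rw [pow_one] at hn; rw [hn, Nat.mod_eq_of_lt hab] at hmb; exact ha.out.ne_one hmb
  · have h1 : b ∣ a ^ 2 - 1 := (Nat.modEq_iff_dvd' (Nat.one_le_pow _ _ ha.out.pos)).1 (by rw [Nat.ModEq, ← hn, hmb, Nat.mod_eq_of_lt hb.out.one_lt])
    rw [show a ^ 2 - 1 = (a + 1) * (a - 1) by rw [← Nat.sq_sub_sq a 1, one_pow]] at h1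
    have hb' : b = a + 1 := by
      rcases hb.out.dvd_mul.1 h1 with h | h
      · have := Nat.le_of_dvd (by omega) h; omega
      · have := Nat.le_of_dvd (by have := ha.out.two_le; omega) h; omega
    have ha2 : a = 2 := by
      by_contra h
      have := ha.out.odd_of_ne_two h
      have h' := hb.out.odd_of_ne_two (by have := ha.out.two_le; omega)
      rw [hb'] at h'
      rcases this with ⟨c, hc⟩; rcases h' with ⟨d, hd⟩; omega
    subst ha2; subst hb'
    have := card_dvd_factorial_sylow hG 3 hdvd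
    rw [show Nat.card (Sylow 3 G) = 4 by simpa using hn, hcard] at this
    exact absurd (Nat.le_of_dvd (Nat.factorial_pos _) this) (by simp [Nat.factorial])

theorem distinct (hG : ¬ IsMulCommutative G) (p q r : ℕ) [hp : Fact p.Prime] [hq : Fact q.Prime] [hr : Fact r.Prime]
    (hpq : p ≠ q) (hpr : p ≠ r) (hqr : q < r) (hcard : Nat.card G = p ^ 2 * q * r) : Nat.card G = 60 := by
  classical
  have nd : ∀ {s t : ℕ}, s.Prime → t.Prime → s ≠ t → ¬ s ∣ t := fun hs ht hne h => hne ((Nat.prime_dvd_prime_iff_eq hs ht).1 h)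
  have hq' : (Nat.card G).minFac ≠ q := by
    refine false_of_cyclic_minFac hG q (p ^ 2 * r) (by rw [hcard]; ring) ?_
    rw [hq.out.dvd_mul, not_or]
    exact ⟨fun h => nd hq.out hp.out hpq.symm (hq.out.dvd_of_dvd_pow h), nd hq.out hr.out hqr.ne⟩
  have hr' : (Nat.card G).minFac ≠ r := by
    refine false_of_cyclic_minFac hG r (p ^ 2 * q) (by rw [hcard]; ring) ?_
    rw [hr.out.dvd_mul, not_or]
    exact ⟨fun h => nd hr.out hp.out hpr.symm (hr.out.dvd_of_dvd_pow h), nd hr.out hq.out hqr.ne'⟩
  have hne1 : Nat.card G ≠ 1 := by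
    intro h; rw [hcard] at h; exact hr.out.ne_one (Nat.dvd_one.1 (h ▸ dvd_mul_left _ _))
  have hmin : (Nat.card G).minFac = p := by
    have hm := Nat.minFac_prime hne1
    have h := Nat.minFac_dvd (Nat.card G)
    nth_rw 2 [hcard] at h
    rcases hm.dvd_mul.1 h with h | h
    · rcases hm.dvd_mul.1 h with h | h
      · exact (Nat.prime_dvd_prime_iff_eq hm hp.out).1 (hm.dvd_of_dvd_pow h)
      · exact absurd ((Nat.prime_dvd_prime_iff_eq hm hq.out).1 h) hq'
    · exact absurd ((Nat.prime_dvd_prime_iff_eq hm hr.out).1 h) hr'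
  have hqd : q ∣ Nat.card G := by rw [hcard]; exact dvd_mul_of_dvd_left (dvd_mul_left _ _) _
  have hrd : r ∣ Nat.card G := by rw [hcard]; exact dvd_mul_left _ _
  have hpd : p ∣ Nat.card G := by rw [← hmin]; exact Nat.minFac_dvd _
  have hpq' : p < q := lt_of_le_of_ne (hmin ▸ Nat.minFac_le_of_dvd hq.out.two_le hqd) hpq
  have hmp : ¬ p ∣ q * r := by
    rw [hp.out.dvd_mul, not_or]; exact ⟨nd hp.out hq.out hpq, nd hp.out hr.out hpr⟩
  obtain ⟨P⟩ := (inferInstance : Nonempty (Sylow p G))
  obtain ⟨hPc, hPN⟩ := (card_sylow_constraints (G := G) p (q * r) (k := 2) (by rw [hcard]; ring) hmp).2.2 P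
  haveI : IsMulCommutative (P : Subgroup G) := IsPGroup.isMulCommutative_of_card_eq_prime_sq hPc
  set N := Subgroup.normalizer ((P : Subgroup G) : Set G) with hN
  obtain ⟨y, hyN, hyC⟩ := SetLike.not_le_iff_exists.1 (not_normalizer_le_centralizer hG p hpd P)
  let f := (P : Subgroup G).normalizerMonoidHom
  have hfy : f ⟨y, hyN⟩ ≠ 1 := by
    intro h
    apply hyC
    have : (⟨y, hyN⟩ : N) ∈ f.ker := h
    rwa [Subgroup.normalizerMonoidHom_ker, Subgroup.mem_subgroupOf] at this
  obtain ⟨l, hl, hld⟩ := Nat.exists_prime_and_dvd (fun h => hfy (orderOf_eq_one_iff.1 h))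
  have hpker : ∀ x ∈ (P : Subgroup G), ∀ hx : x ∈ N, f ⟨x, hx⟩ = 1 := fun x hx hxN => by
    have : (⟨x, hxN⟩ : N) ∈ f.ker := by
      rw [Subgroup.normalizerMonoidHom_ker, Subgroup.mem_subgroupOf]; exact P.le_centralizer hx
    exact this
  have hidx : f.ker.index ∣ q * r := by
    have h1 := Subgroup.index_dvd_of_le (show (P : Subgroup G).subgroupOf N ≤ f.ker from fun x hx => hpker x hx x.2)
    refine h1.trans ?_
    have h2 : (P : Subgroup G).index = q * r := by
      have h3 := (P : Subgroup G).card_mul_index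
      rw [hPc, hcard, mul_assoc] at h3
      exact Nat.eq_of_mul_eq_mul_left (pow_pos hp.out.pos 2) h3
    exact h2 ▸ Subgroup.relIndex_dvd_index_of_le Subgroup.le_normalizer
  rw [Subgroup.index_ker] at hidx
  have hlqr : l ∣ q * r := (hld.trans (Subgroup.orderOf_dvd_natCard f.range ⟨_, rfl⟩)).trans hidx
  have hlp : p < l := by
    rcases hl.dvd_mul.1 hlqr with h | h
    · exact (Nat.prime_dvd_prime_iff_eq hl hq.out).1 h ▸ hpq'
    · exact (Nat.prime_dvd_prime_iff_eq hl hr.out).1 h ▸ hpq'.trans hqr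
  haveI : Fact l.Prime := ⟨hl⟩
  obtain ⟨σ, hσ⟩ := exists_prime_orderOf_dvd_card' (G := f.range) l (hld.trans (Subgroup.orderOf_dvd_natCard f.range ⟨_, rfl⟩))
  have hσ' : orderOf (σ : MulAut (P : Subgroup G)) = l := by rw [Subgroup.orderOf_coe, hσ]
  generalize (σ : MulAut (P : Subgroup G)) = e at hσ'
  clear σ hσ
  let F : Subgroup (P : Subgroup G) := MonoidHom.eqLocus e.toMonoidHom (MonoidHom.id _)
  haveI : Fintype (P : Subgroup G) := Fintype.ofFinite _
  have hmodl : Nat.card F ≡ p ^ 2 [MOD l] := by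
    have hpg : IsPGroup l (Subgroup.zpowers e) := IsPGroup.of_card (n := 1) (by rw [Nat.card_zpowers, hσ', pow_one])
    have h1 := hpg.card_modEq_card_fixedPoints (P : Subgroup G)
    rw [hPc] at h1
    refine Nat.ModEq.trans ?_ h1.symm
    suffices he : Nat.card F = Nat.card (MulAction.fixedPoints (Subgroup.zpowers e) (P : Subgroup G)) by rw [he]
    refine Nat.card_congr (Equiv.subtypeEquivRight fun x => ?_)
    constructor
    · intro hx g
      have : Subgroup.zpowers e ≤ MulAction.stabilizer (MulAut (P : Subgroup G)) x := Subgroup.zpowers_le.2 hx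
      exact this g.2
    · exact fun hx => hx ⟨e, Subgroup.mem_zpowers e⟩
  have hFc : Nat.card F ∣ p ^ 2 := hPc ▸ F.card_subgroup_dvd_card
  obtain ⟨i, hi, hFi⟩ := (Nat.dvd_prime_pow hp.out).1 hFc
  have hlp1 : l = p + 1 := by
    interval_cases i
    · rw [pow_zero] at hFi
      rw [hFi] at hmodl
      have h1 : l ∣ p ^ 2 - 1 := (Nat.modEq_iff_dvd' (Nat.one_le_pow _ _ hp.out.pos)).1 hmodl
      rw [show p ^ 2 - 1 = (p + 1) * (p - 1) by rw [← Nat.sq_sub_sq p 1, one_pow]] at h1
      rcases hl.dvd_mul.1 h1 with h | h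
      · have := Nat.le_of_dvd (by omega) h; omega
      · have := Nat.le_of_dvd (by have := hp.out.two_le; omega) h; omega
    · exfalso
      rw [pow_one] at hFi
      rw [hFi, pow_two] at hmodl
      have h1 : l ∣ p * p - p := (Nat.modEq_iff_dvd' (Nat.le_mul_self p)).1 hmodl
      rw [← Nat.mul_sub_one] at h1
      rcases hl.dvd_mul.1 h1 with h | h
      · exact nd hl hp.out hlp.ne' h
      · have := Nat.le_of_dvd (by have := hp.out.two_le; omega) h; omega
    · exfalso
      have htop : F = ⊤ := Subgroup.eq_top_of_card_eq F (by rw [hFi, hPc])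
      have : e = 1 := by ext x; exact congrArg Subtype.val (htop ▸ Subgroup.mem_top x : x ∈ F)
      rw [this, orderOf_one] at hσ'
      exact hl.ne_one hσ'.symm
  have hp2 : p = 2 := by
    by_contra h
    have h1 := hp.out.odd_of_ne_two h
    have h2 := hl.odd_of_ne_two (by have := hp.out.two_le; omega)
    rcases h1 with ⟨c, hc⟩; rcases h2 with ⟨d, hd⟩; omega
  subst hp2
  have hl3 : l = 3 := by omega
  have hq3 : q = 3 := by
    subst hl3
    rcases hl.dvd_mul.1 hlqr with h | h
    · exact ((Nat.prime_dvd_prime_iff_eq hl hq.out).1 h).symm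
    · have := (Nat.prime_dvd_prime_iff_eq hl hr.out).1 h; have := hq.out.two_le; omega
  subst hq3
  obtain ⟨hdr, hmr, hR⟩ := card_sylow_constraints (G := G) r 12 (k := 1) (by rw [hcard]; ring)
    (by intro h; have := Nat.le_of_dvd (by norm_num) h; interval_cases r <;> norm_num at *)
  have hn1 := card_sylow_ne_one hG r hrd
  have hr5 : r ∣ Nat.card (Sylow r G) - 1 := (Nat.modEq_iff_dvd' Nat.card_pos).1 (by rw [Nat.ModEq, hmr, Nat.mod_eq_of_lt hr.out.one_lt])
  have hmem : Nat.card (Sylow r G) ∈ Nat.divisors 12 := Nat.mem_divisors.2 ⟨hdr, by norm_num⟩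
  rw [show Nat.divisors 12 = {1, 2, 3, 4, 6, 12} by decide +kernel] at hmem
  simp only [Finset.mem_insert, Finset.mem_singleton] at hmem
  have hprime := hr.out
  rcases hmem with h | h | h | h | h | h <;> rw [h] at hr5 hn1
  · exact absurd rfl hn1
  · have := Nat.le_of_dvd (by norm_num) hr5; omega
  · have := Nat.le_of_dvd (by norm_num) hr5; omega
  · have := Nat.le_of_dvd (by norm_num) hr5; omega
  · have := Nat.le_of_dvd (by norm_num) hr5
    obtain rfl : r = 5 := by interval_cases r <;> norm_num at *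
    rw [hcard]; norm_num
  · exfalso
    have := Nat.le_of_dvd (by norm_num) hr5
    obtain rfl : r = 11 := by interval_cases r <;> norm_num at *
    obtain ⟨R⟩ := (inferInstance : Nonempty (Sylow 11 G))
    obtain ⟨hRc, hRN⟩ := hR R
    rw [h] at hRN
    exact card_normalizer_ne_prime hG 11 R (by rw [hRc, pow_one]) (by omega)

/-- If a finite simple group has order p^2 * q * r with p, q and r prime, then its order is 60. -/
theorem result {G : Type*} [Group G] [Finite G] [IsSimpleGroup G] (p q r : ℕ) (hp : p.Prime) (hq : q.Prime) (hr : r.Prime) (hG : Nat.card G = p ^ 2 * q * r) : Nat.card G = 60 := by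
  classical
  haveI : Fact p.Prime := ⟨hp⟩
  haveI : Fact q.Prime := ⟨hq⟩
  haveI : Fact r.Prime := ⟨hr⟩
  have hG1 := not_comm_of_card_not_prime (G := G) (by
    rw [hG, mul_assoc]
    refine Nat.not_prime_mul ?_ ?_
    · exact (Nat.one_lt_pow (by norm_num) hp.one_lt).ne'
    · exact (lt_of_lt_of_le hq.one_lt (Nat.le_mul_of_pos_right q hr.pos)).ne')
  by_cases hpq : p = q
  · subst hpq
    by_cases hpr : p = r
    · subst hpr
      exact absurd (IsPGroup.of_card (n := 4) (by rw [hG]; ring)) (not_isPGroup hG1 p)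
    · exact (cube_mul hG1 p r hpr (by rw [hG]; ring)).elim
  by_cases hpr : p = r
  · subst hpr
    exact (cube_mul hG1 p q hpq (by rw [hG]; ring)).elim
  by_cases hqr : q = r
  · subst hqr
    rcases lt_trichotomy p q with h | h | h
    · exact (sq_sq hG1 p q h (by rw [hG]; ring)).elim
    · exact absurd h hpq
    · exact (sq_sq hG1 q p h (by rw [hG]; ring)).elim
  rcases lt_or_gt_of_ne hqr with h | h
  · exact distinct hG1 p q r hpq hpr h hG
  · exact distinct hG1 p r q hpr hpq h (by rw [hG]; ring)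

end Cfsg.Agent.S0988
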