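import Cfsg.Statements.S0995
import Mathlib

set_option autoImplicit false
open Cfsg

namespace Cfsg.Agent.S0995

/-- Let G be a finite perfect group containing an element z of prime order p whose centralizer is the cyclic group it generates. Let t be the number of conjugacy classes of elements of order p. Then t divides p - 1, the number of Sylow p-subgroups has the form 1 + n * p, and |G| * t = (p - 1) * p * (1 + n * p). -/
theorem result {G : Type*} [Group G] [Finite G] (hperf : commutator G = ⊤) (p : ℕ) [Fact p.Prime] (z : G) (hz : orderOf z = p) (hC : Subgroup.centralizer ({z} : Set G) = Subgroup.zpowers z) : ∃ n t : ℕ, t = Nat.card {c : ConjClasses G // ∃ g : G, ConjClasses.mk g = c ∧ orderOf g = p} ∧ t ∣ p - 1 ∧ Nat.card (Sylow p G) = 1 + n * p ∧ Nat.card G * t = (p - 1) * p * (1 + n * p) := by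
  classical
  have hp : p.Prime := Fact.out
  have hz1 : z ≠ 1 := by intro h; rw [h, orderOf_one] at hz; exact hp.ne_one hz.symm
  have hpz : IsPGroup p (Subgroup.zpowers z) := IsPGroup.of_card (n := 1) (by rw [Nat.card_zpowers, hz, pow_one])
  obtain ⟨P, hP⟩ := hpz.exists_le_sylow
  have hPz : (P : Subgroup G) = Subgroup.zpowers z := by
    refine le_antisymm ?_ hP
    have : Nontrivial (P : Subgroup G) := (Subgroup.nontrivial_iff_exists_ne_one _).2 ⟨z, hP (Subgroup.mem_zpowers z), hz1⟩
    have := P.2.center_nontrivial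
    obtain ⟨c, hc⟩ := exists_ne (1 : Subgroup.center (P : Subgroup G))
    have hcz : ((c : (P : Subgroup G)) : G) ∈ Subgroup.zpowers z := by
      rw [← hC, Subgroup.mem_centralizer_singleton_iff]
      exact (congrArg Subtype.val (Subgroup.mem_center_iff.1 c.2 ⟨z, hP (Subgroup.mem_zpowers z)⟩)).symm
    have hgen : Subgroup.zpowers ((c : (P : Subgroup G)) : G) = Subgroup.zpowers z := by
      refine Subgroup.eq_of_le_of_card_ge (Subgroup.zpowers_le.2 hcz) ?_
      rw [Nat.card_zpowers, Nat.card_zpowers, hz]
      have hd : orderOf ((c : (P : Subgroup G)) : G) ∣ p := (Subgroup.orderOf_dvd_natCard _ hcz).trans (by rw [Nat.card_zpowers, hz])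
      rcases (Nat.dvd_prime hp).1 hd with h | h
      · exact absurd (Subtype.ext (Subtype.ext (orderOf_eq_one_iff.1 h))) hc
      · exact h.ge
    intro x hx
    rw [← hC, Subgroup.mem_centralizer_singleton_iff]
    have hcomm : Commute x ((c : (P : Subgroup G)) : G) :=
      congrArg Subtype.val (Subgroup.mem_center_iff.1 c.2 ⟨x, hx⟩)
    obtain ⟨k, hk⟩ := Subgroup.mem_zpowers_iff.1 (hgen.ge (Subgroup.mem_zpowers z))
    rw [← hk]
    exact (hcomm.zpow_right k).eq
  have hPcard : ∀ R : Sylow p G, Nat.card (R : Subgroup G) = p := fun R => by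
    rw [Nat.card_congr (R.equiv P).toEquiv, hPz, Nat.card_zpowers, hz]
  have hgenR : ∀ (R : Sylow p G) (g : G), g ∈ (R : Subgroup G) → orderOf g = p → Subgroup.zpowers g = R := fun R g hg hgo =>
    Subgroup.eq_of_le_of_card_ge (Subgroup.zpowers_le.2 hg) (by rw [Nat.card_zpowers, hgo, hPcard])
  let X := {g : G // orderOf g = p}
  have hX : Nat.card X = Nat.card (Sylow p G) * (p - 1) := by
    have e : X ≃ Σ R : Sylow p G, {g : G // g ∈ (R : Subgroup G) ∧ g ≠ 1} :=
      Equiv.symm <| Equiv.ofBijective
        (fun v => ⟨v.2.1, by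
          rcases (Nat.dvd_prime hp).1 (hPcard v.1 ▸ Subgroup.orderOf_dvd_natCard _ v.2.2.1) with h | h
          · exact absurd (orderOf_eq_one_iff.1 h) v.2.2.2
          · exact h⟩)
        ⟨by
          rintro ⟨R, g, hg, hg1⟩ ⟨R', g', hg', hg1'⟩ h
          have hgg : g = g' := congrArg Subtype.val h
          subst hgg
          have ho : orderOf g = p := by
            rcases (Nat.dvd_prime hp).1 (hPcard R ▸ Subgroup.orderOf_dvd_natCard _ hg) with h | h
            · exact absurd (orderOf_eq_one_iff.1 h) hg1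
            · exact h
          obtain rfl : R = R' := Sylow.ext ((hgenR R g hg ho).symm.trans (hgenR R' g hg' ho))
          rfl,
        fun g => by
          obtain ⟨R, hR⟩ := (IsPGroup.of_card (n := 1) (by rw [Nat.card_zpowers, g.2, pow_one]) : IsPGroup p (Subgroup.zpowers g.1)).exists_le_sylow
          exact ⟨⟨R, g.1, hR (Subgroup.mem_zpowers _), fun h => hp.ne_one (by rw [← g.2, h, orderOf_one])⟩, rfl⟩⟩
    haveI : Fintype (Sylow p G) := Fintype.ofFinite _
    rw [Nat.card_congr e, Nat.card_sigma, Finset.sum_congr rfl fun R _ => (?_ : _ = p - 1)]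
    · rw [Finset.sum_const, Finset.card_univ, ← Nat.card_eq_fintype_card, smul_eq_mul]
    · have : Nat.card {g : G // g ∈ (R : Subgroup G) ∧ g ≠ 1} = (((R : Subgroup G) : Set G) \ {1}).ncard := rfl
      rw [this, Set.ncard_diff_singleton_of_mem (one_mem _), ← Nat.card_coe_set_eq]
      exact congrArg (· - 1) (hPcard R)
  have hcent : ∀ g : G, orderOf g = p → Nat.card (Subgroup.centralizer ({g} : Set G)) = p := by
    intro g hg
    obtain ⟨R, hR⟩ := (IsPGroup.of_card (n := 1) (by rw [Nat.card_zpowers, hg, pow_one]) : IsPGroup p (Subgroup.zpowers g)).exists_le_sylow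
    obtain ⟨a, rfl⟩ := MulAction.exists_smul_eq G P R
    obtain ⟨w, hw, hwg⟩ := hR (Subgroup.mem_zpowers g)
    have hwg' : a * w * a⁻¹ = g := hwg
    have hwo : orderOf w = p := (orderOf_injective (MulAut.conj a).toMonoidHom (MulAut.conj a).injective w).symm.trans ((congrArg orderOf hwg').trans hg)
    have hwP := hgenR P w hw hwo
    have hCw : Subgroup.centralizer ({w} : Set G) = Subgroup.zpowers z := by
      conv_rhs => rw [← hC]
      rw [← Subgroup.centralizer_closure, ← Subgroup.centralizer_closure {z}, ← Subgroup.zpowers_eq_closure,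
        ← Subgroup.zpowers_eq_closure, hwP, hPz]
    have he : Subgroup.centralizer ({g} : Set G) = (Subgroup.centralizer ({w} : Set G)).map (MulAut.conj a).toMonoidHom := by
      ext y
      rw [Subgroup.mem_map_equiv, Subgroup.mem_centralizer_singleton_iff, Subgroup.mem_centralizer_singleton_iff,
        ← (MulAut.conj a).injective.eq_iff (a := (MulAut.conj a).symm y * w), map_mul, map_mul, MulEquiv.apply_symm_apply]
      simp [MulAut.conj_apply, hwg']
    rw [he, ← Nat.card_congr ((Subgroup.centralizer ({w} : Set G)).equivMapOfInjective _ (MulAut.conj a).injective).toEquiv,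
      hCw, Nat.card_zpowers, hz]
  let T := {c : ConjClasses G // ∃ g : G, ConjClasses.mk g = c ∧ orderOf g = p}
  have hT : Nat.card X * p = Nat.card T * Nat.card G := by
    have hconj : ∀ g h : G, IsConj g h → orderOf g = orderOf h := fun g h hgh => by
      obtain ⟨a, rfl⟩ := isConj_iff.1 hgh
      exact (orderOf_injective (MulAut.conj a).toMonoidHom (MulAut.conj a).injective g).symm
    let e : X ≃ Σ c : T, {g : G // ConjClasses.mk g = c.1} :=
      { toFun := fun g => ⟨⟨ConjClasses.mk g.1, g.1, rfl, g.2⟩, g.1, rfl⟩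
        invFun := fun v => ⟨v.2.1, by
          obtain ⟨g, hg, hgo⟩ := v.1.2
          refine (hconj _ _ ?_).trans hgo; exact (ConjClasses.mk_eq_mk_iff_isConj.1 (v.2.2.trans hg.symm))⟩
        left_inv := fun g => rfl
        right_inv := by rintro ⟨⟨c, hc⟩, g, hg⟩; simp only at hg; subst hg; rfl }
    haveI : Fintype T := Fintype.ofFinite _
    rw [Nat.card_congr e, Nat.card_sigma, Finset.sum_mul, Finset.sum_congr rfl fun c _ => (?_ : _ = Nat.card G)]
    · rw [Finset.sum_const, Finset.card_univ, ← Nat.card_eq_fintype_card, smul_eq_mul]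
    · obtain ⟨g, hg, hgo⟩ := c.2
      have h1 : Nat.card {a : G // ConjClasses.mk a = c.1} = (ConjClasses.mk g).carrier.ncard := by
        rw [← Nat.card_coe_set_eq]
        exact Nat.card_congr (Equiv.subtypeEquivRight fun a => by rw [← hg, ConjClasses.mem_carrier_iff_mk_eq])
      have h2 := Subgroup.card_mul_index (Subgroup.centralizer ({g} : Set G))
      rw [hcent g hgo] at h2
      rw [h1, ← h2, mul_comm]
      congr 1
      rw [← ConjAct.orbit_eq_carrier_conjClasses, ← MulAction.index_stabilizer, Subgroup.centralizer_eq_comap_stabilizer]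
      exact (Subgroup.index_comap_of_surjective _ ConjAct.toConjAct.surjective).symm
  obtain ⟨n, hn⟩ : ∃ n, Nat.card (Sylow p G) = 1 + n * p := by
    have h := card_sylow_modEq_one p G
    have hpos : 1 ≤ Nat.card (Sylow p G) := Nat.card_pos
    obtain ⟨n, hn⟩ := (Nat.modEq_iff_dvd' hpos).1 h.symm
    exact ⟨n, by rw [mul_comm, ← hn]; omega⟩
  set N := Subgroup.normalizer ((P : Subgroup G) : Set G)
  have hidx : N.index = Nat.card (Sylow p G) := (Sylow.card_eq_index_normalizer P).symm
  have hGN := N.card_mul_index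
  rw [hidx] at hGN
  obtain ⟨e, he⟩ : p ∣ Nat.card N := hPcard P ▸ Subgroup.card_dvd_of_le Subgroup.le_normalizer
  refine ⟨n, Nat.card T, rfl, ⟨e, ?_⟩, hn, ?_⟩
  · rw [hX, ← hGN, he] at hT
    have hpos : 0 < Nat.card (Sylow p G) * p := Nat.mul_pos Nat.card_pos hp.pos
    apply Nat.eq_of_mul_eq_mul_left hpos
    linarith
  · rw [mul_comm (Nat.card G), ← hT, hX, hn]; ring

end Cfsg.Agent.S0995
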