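import Cfsg.Statements.S0996
import Cfsg.Agent.Blocks.OrderP.Perfect.Main

set_option autoImplicit false
open Cfsg

namespace Cfsg.Agent.S0996

/-- Let G be a finite perfect group containing an element z of prime order p whose centralizer is the cyclic group it generates, and suppose the number 1 + n * p of Sylow p-subgroups satisfies n < (p + 3) / 2. Then p > 3 and G is isomorphic to the projective special linear group of dimension 2 over the field with p elements, or p - 1 is a power of 2 and G is isomorphic to that group over the field with p - 1 elements. -/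
theorem result {G : Type*} [Group G] [Finite G] (hperf : commutator G = ⊤) (p : ℕ) [Fact p.Prime] (z : G) (hz : orderOf z = p) (hC : Subgroup.centralizer ({z} : Set G) = Subgroup.zpowers z) (hn : 2 * Nat.card (Sylow p G) < (p + 1) * (p + 2)) : (∃ (F : Type) (_ : Field F) (_ : Fintype F), Fintype.card F = p ∧ 3 < p ∧ Nonempty (G ≃* Matrix.ProjectiveSpecialLinearGroup (Fin 2) F)) ∨ (∃ (m : ℕ) (F : Type) (_ : Field F) (_ : Fintype F), Fintype.card F = 2 ^ m ∧ p = 2 ^ m + 1 ∧ 3 < p ∧ Nonempty (G ≃* Matrix.ProjectiveSpecialLinearGroup (Fin 2) F)) := by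
  classical
  haveI := Fintype.ofFinite G
  have hp : p.Prime := Fact.out
  have hzp : IsPGroup p (Subgroup.zpowers z) :=
    IsPGroup.of_card (n := 1) (by rw [Nat.card_zpowers, hz, pow_one])
  obtain ⟨P, hPle⟩ := hzp.exists_le_sylow
  have hPeq : (P : Subgroup G) = Subgroup.zpowers z := by
    refine le_antisymm ?_ hPle
    haveI : Nontrivial (P : Subgroup G) :=
      ⟨⟨1, ⟨z, hPle (Subgroup.mem_zpowers z)⟩, fun h => hp.ne_one (by
        rw [← hz, show z = 1 from (congrArg Subtype.val h).symm, orderOf_one])⟩⟩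
    haveI := P.isPGroup'.center_nontrivial
    obtain ⟨⟨c, hc⟩, hc1⟩ := exists_ne (1 : Subgroup.center (P : Subgroup G))
    have hcz : (c : G) ∈ Subgroup.zpowers z := by
      rw [← hC]
      exact Subgroup.mem_centralizer_singleton_iff.2 (congrArg Subtype.val
        (Subgroup.mem_center_iff.1 hc ⟨z, hPle (Subgroup.mem_zpowers z)⟩)).symm
    obtain ⟨i, hi⟩ := (CfsgLib.Blocks.OrderP.mem_zpowers_iff_upow hz).1 hcz
    have hi0 : i ≠ 0 := fun h => hc1 (Subtype.ext (Subtype.ext (by
      show (c : G) = 1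
      rw [hi, h, CfsgLib.Blocks.OrderP.upow_zero hz])))
    intro x hx
    rw [← hC, Subgroup.mem_centralizer_singleton_iff]
    have h1 : Commute x (c : G) :=
      congrArg Subtype.val (Subgroup.mem_center_iff.1 hc ⟨x, hx⟩)
    have h2 : z ∈ Subgroup.zpowers (c : G) := by
      rw [hi, CfsgLib.Blocks.OrderP.zpowers_upow hz hi0]; exact Subgroup.mem_zpowers z
    obtain ⟨j, hj⟩ := Subgroup.mem_zpowers_iff.1 h2
    have h3 := h1.zpow_right j
    rw [hj] at h3
    exact h3.eq
  have hidx : ¬ p ∣ (Subgroup.zpowers z).index := hPeq ▸ P.not_dvd_index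
  obtain ⟨n, hn'⟩ : ∃ n, Nat.card (Sylow p G) = 1 + n * p := by
    refine ⟨Nat.card (Sylow p G) / p, ?_⟩
    have h5 : Nat.card (Sylow p G) % p = 1 :=
      Eq.trans (card_sylow_modEq_one p G) (Nat.one_mod_eq_one.2 hp.ne_one)
    conv_lhs => rw [← Nat.div_add_mod (Nat.card (Sylow p G)) p, h5]
    ring
  have hsmall : 2 * n < p + 3 := by
    rw [hn'] at hn
    by_contra h
    push Not at h
    have := Nat.mul_le_mul_right p h
    nlinarith
  have S : CfsgLib.Blocks.OrderP.Perfect.Setup p n _ z :=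
    ⟨hz, hidx, hperf, by rw [← hPeq]; exact (Sylow.card_eq_index_normalizer P).symm.trans hn', rfl⟩
  have hF : ¬ CfsgLib.Blocks.OrderP.Perfect.CountForm n p := fun h => by
    have := h.le; omega
  obtain ⟨h3, h⟩ := S.recognised hC hF
  rcases h with ⟨-, F, iF, iT, hF', hi⟩ | ⟨m, hm, -, -, ⟨F, iF, iT, hF', hi⟩⟩
  · exact Or.inl ⟨F, iF, iT, hF', h3, hi⟩
  · exact Or.inr ⟨m, F, iF, iT, hF', hm, h3, hi⟩

end Cfsg.Agent.S0996
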