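import Cfsg.Statements.S0997
import Cfsg.Agent.Blocks.OrderP.BrauerTuan.Main
import Cfsg.Agent.Blocks.OrderP.BrauerTuan.Arith
-- import your own Cfsg.Agent.* helpers here

set_option autoImplicit false
open Cfsg

namespace Cfsg.Agent.S0997

theorem isNonabelian {G : Type*} [Group G] (hG : ¬ IsCyclic G) [IsSimpleGroup G] :
    ¬ IsMulCommutative G := fun h => by
  letI : CommGroup G :=
    { (inferInstance : Group G) with mul_comm := fun a b => h.is_comm.comm a b }
  exact hG inferInstance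

/-- Let G be a non-cyclic finite simple group of order p * q^b * g₀, where p and q are distinct primes and g₀ < p - 1. Then either p has the form 2^m + 1 or 2^m - 1 and G is isomorphic to the projective special linear group of dimension 2 over the field with p elements, or p = 2^m + 1 > 3 and G is isomorphic to that group over the field with 2^m elements. -/
theorem result {G : Type*} [Group G] [Finite G] [IsSimpleGroup G] (hG : ¬ IsCyclic G) (p q b g₀ : ℕ) (hp : p.Prime) (hq : q.Prime) (hpq : p ≠ q) (hG' : Nat.card G = p * q ^ b * g₀) (hg : g₀ < p - 1) : (∃ (m : ℕ) (F : Type) (_ : Field F) (_ : Fintype F), Fintype.card F = p ∧ (p = 2 ^ m + 1 ∨ p = 2 ^ m - 1) ∧ Nonempty (G ≃* Matrix.ProjectiveSpecialLinearGroup (Fin 2) F)) ∨ (∃ (m : ℕ) (F : Type) (_ : Field F) (_ : Fintype F), Fintype.card F = 2 ^ m ∧ p = 2 ^ m + 1 ∧ 3 < p ∧ Nonempty (G ≃* Matrix.ProjectiveSpecialLinearGroup (Fin 2) F)) := by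
  classical
  haveI := Fintype.ofFinite G
  haveI : Fact p.Prime := ⟨hp⟩
  obtain ⟨h3, h⟩ := CfsgLib.Blocks.OrderP.BrauerTuan.recognised_of_small_cofactor
    (isNonabelian hG) hq hpq hG' hg
  rcases h with ⟨hc, F, iF, iT, hF, hi⟩ | ⟨m, hm, -, -, F, iF, iT, hF, hi⟩
  · obtain ⟨k, hk⟩ := hp.odd_of_ne_two (by omega)
    subst hk
    rw [hG', show 2 * k + 1 - 1 = 2 * k by omega] at hc
    have hc' : q ^ b * g₀ = 2 * k * (k + 1) :=
      Nat.eq_of_mul_eq_mul_left (show 0 < 2 * (2 * k + 1) by omega) (by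
        calc 2 * (2 * k + 1) * (q ^ b * g₀) = 2 * ((2 * k + 1) * q ^ b * g₀) := by ring
          _ = _ := by rw [hc]; ring)
    obtain ⟨-, h⟩ := CfsgLib.Blocks.OrderP.BrauerTuan.pow_two_of_cofactor_small hq (by omega) hc'
      (by omega)
    refine Or.inl ⟨b, F, iF, iT, hF, ?_, hi⟩
    rcases h with ⟨h, -⟩ | ⟨h, -⟩
    · left; omega
    · right; omega
  · exact Or.inr ⟨m, F, iF, iT, hF, hm, h3, hi⟩

end Cfsg.Agent.S0997
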