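import Cfsg.Statements.S0999
import Cfsg.Agent.Blocks.OrderP.Perfect.Main

set_option autoImplicit false
open Cfsg

namespace Cfsg.Agent.S0999

/-- Let G be a non-cyclic finite simple group and p a prime divisor of its order with p^3 > |G|. Then p > 3 and G is isomorphic to the projective special linear group of dimension 2 over the field with p elements, or p - 1 is a power of 2 and G is isomorphic to that group over the field with p - 1 elements. -/
theorem result {G : Type*} [Group G] [Finite G] [IsSimpleGroup G] (hG : ¬ IsCyclic G) (p : ℕ) (hp : p.Prime) (hdvd : p ∣ Nat.card G) (hbig : Nat.card G < p ^ 3) : (∃ (F : Type) (_ : Field F) (_ : Fintype F), Fintype.card F = p ∧ 3 < p ∧ Nonempty (G ≃* Matrix.ProjectiveSpecialLinearGroup (Fin 2) F)) ∨ (∃ (m : ℕ) (F : Type) (_ : Field F) (_ : Fintype F), Fintype.card F = 2 ^ m ∧ p = 2 ^ m + 1 ∧ 3 < p ∧ Nonempty (G ≃* Matrix.ProjectiveSpecialLinearGroup (Fin 2) F)) := by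
  classical
  haveI := Fintype.ofFinite G
  haveI : Fact p.Prime := ⟨hp⟩
  obtain ⟨P⟩ : Nonempty (Sylow p G) := inferInstance
  have hperf : commutator G = ⊤ := by
    rcases (inferInstance : (commutator G).Normal).eq_bot_or_eq_top with h | h
    · exfalso
      rw [commutator_def, Subgroup.commutator_eq_bot_iff_le_centralizer] at h
      have hc : ∀ a b : G, a * b = b * a := fun a b =>
        Subgroup.mem_centralizer_iff.1 (h (Subgroup.mem_top b)) a (Subgroup.mem_top a)
      letI : CommGroup G := { (inferInstance : Group G) with mul_comm := hc }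
      exact hG inferInstance
    · exact h
  have hP : ¬ (P : Subgroup G).Normal := by
    intro hn
    haveI := hn
    have htop : (P : Subgroup G) = ⊤ := hn.eq_bot_or_eq_top.resolve_left (fun hb => by
      have := P.not_dvd_index
      rw [hb, Subgroup.index_bot] at this
      exact this hdvd)
    have hpG : IsPGroup p G := IsPGroup.of_surjective (htop ▸ P.isPGroup')
      (⊤ : Subgroup G).subtype (fun x => ⟨⟨x, Subgroup.mem_top x⟩, rfl⟩)
    haveI : Group.IsNilpotent G := hpG.isNilpotent
    exact (Group.IsSolvable.commutator_lt_top_of_nontrivial G).ne hperf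
  have h2 : ∀ N : Subgroup G, N.Normal → Nat.card N ≠ 2 := by
    intro N hN h
    rcases hN.eq_bot_or_eq_top with rfl | rfl
    · rw [Subgroup.card_bot] at h; omega
    · rw [Subgroup.card_top] at h
      exact hG (isCyclic_of_prime_card (p := 2) h)
  obtain ⟨h3, h⟩ := CfsgLib.Blocks.OrderP.Perfect.recognised_of_lt_cube hperf hdvd hbig P hP h2
  rcases h with ⟨-, F, iF, iT, hF, hi⟩ | ⟨m, hm, -, -, ⟨F, iF, iT, hF, hi⟩⟩
  · exact Or.inl ⟨F, iF, iT, hF, h3, hi⟩
  · exact Or.inr ⟨m, F, iF, iT, hF, hm, h3, hi⟩

end Cfsg.Agent.S0999
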