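import Cfsg.Statements.S1001
import Cfsg.Agent.S0904
import Cfsg.Agent.Chars.Apps.Burnside

set_option autoImplicit false
open Cfsg

namespace Cfsg.Agent.S1001

/-- In a finite simple group whose order has the form p * 3^a * 2^b with p prime, the centralizer of any element of order p is the cyclic group it generates. -/
theorem result {G : Type*} [Group G] [Finite G] [IsSimpleGroup G] (p a b : ℕ) (hp : p.Prime) (hG : Nat.card G = p * 3 ^ a * 2 ^ b) (x : G) (hx : orderOf x = p) : Subgroup.centralizer ({x} : Set G) = Subgroup.zpowers x := by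
  classical
  by_cases hc : ∀ u v : G, u * v = v * u
  · letI : CommGroup G := { ‹Group G› with mul_comm := hc }
    have hz : Subgroup.zpowers x ≠ ⊥ := by
      rw [Ne, Subgroup.zpowers_eq_bot, ← orderOf_eq_one_iff, hx]
      exact hp.ne_one
    rcases IsSimpleGroup.eq_bot_or_eq_top_of_normal (Subgroup.zpowers x) inferInstance with h | h
    · exact absurd h hz
    · rw [h]
      exact top_le_iff.mp fun u _ => Subgroup.mem_centralizer_singleton_iff.mpr (hc u x)
  haveI : Fact p.Prime := ⟨hp⟩
  have hsolv : ¬ Group.IsSolvable G := fun h => by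
    haveI := h
    exact hc fun u v => (IsSimpleGroup.comm_iff_isSolvable.mpr h) u v
  have hp2 : p ≠ 2 := by
    rintro rfl
    exact hsolv (CfsgLib.Chars.Apps.isSolvable_of_card_eq_pow_mul_pow G Nat.prime_three
      Nat.prime_two (a := a) (b := b + 1) (by rw [hG, pow_succ]; ring))
  have hp3 : p ≠ 3 := by
    rintro rfl
    exact hsolv (CfsgLib.Chars.Apps.isSolvable_of_card_eq_pow_mul_pow G Nat.prime_three
      Nat.prime_two (a := a + 1) (b := b) (by rw [hG, pow_succ]; ring))
  obtain ⟨S, hS⟩ := (IsPGroup.of_card (n := 1) (by rw [Nat.card_zpowers, hx, pow_one]) :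
    IsPGroup p (Subgroup.zpowers x)).exists_le_sylow
  have hC := Cfsg.Agent.S0904.result 3 2 p a b Nat.prime_three Nat.prime_two (by decide)
    (Ne.symm hp3) (Ne.symm hp2) (by rw [hG]; ring) S
  have hcard : Nat.card (S : Subgroup G) = p := by
    rw [S.card_eq_multiplicity, hG, Nat.factorization_mul
      (Nat.mul_ne_zero hp.ne_zero (by positivity)) (by positivity),
      Nat.factorization_mul hp.ne_zero (by positivity)]
    simp [hp.factorization, Nat.prime_three.factorization_pow, Nat.prime_two.factorization_pow,
      Ne.symm hp3, Ne.symm hp2]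
  have heq : Subgroup.zpowers x = (S : Subgroup G) :=
    Subgroup.eq_of_le_of_card_ge hS (le_of_eq (by rw [hcard, Nat.card_zpowers, hx]))
  rw [← Subgroup.centralizer_closure, ← Subgroup.zpowers_eq_closure, heq]
  exact hC

end Cfsg.Agent.S1001
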