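import Cfsg.Statements.S1008
import Cfsg.Agent.Simple168.Maximal

set_option autoImplicit false
open Cfsg

namespace Cfsg.Agent.S1008

/-- In a simple group of order 168 every maximal subgroup is either isomorphic to the symmetric group of degree 4 or non-abelian of order 21; the maximal subgroups of order 21 form one conjugacy class and those isomorphic to the symmetric group of degree 4 form exactly two conjugacy classes. -/
theorem result {G : Type*} [Group G] [Finite G] [IsSimpleGroup G] (h : Nat.card G = 168) : (∀ M : Subgroup G, IsCoatom M → Nonempty (↥M ≃* Equiv.Perm (Fin 4)) ∨ (Nat.card ↥M = 21 ∧ ¬ IsMulCommutative ↥M)) ∧ (∀ M M' : Subgroup G, IsCoatom M → IsCoatom M' → Nat.card ↥M = 21 → Nat.card ↥M' = 21 → ∃ g : G, M' = M.map (MulAut.conj g).toMonoidHom) ∧ ∃ M₁ M₂ : Subgroup G, IsCoatom M₁ ∧ IsCoatom M₂ ∧ Nonempty (↥M₁ ≃* Equiv.Perm (Fin 4)) ∧ Nonempty (↥M₂ ≃* Equiv.Perm (Fin 4)) ∧ (∀ g : G, M₂ ≠ M₁.map (MulAut.conj g).toMonoidHom) ∧ ∀ M : Subgroup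 G, IsCoatom M → Nonempty (↥M ≃* Equiv.Perm (Fin 4)) → ∃ g : G, M = M₁.map (MulAut.conj g).toMonoidHom ∨ M = M₂.map (MulAut.conj g).toMonoidHom := by
  have hseven : ∀ M : Subgroup G, IsCoatom M → Nat.card M = 21 →
      ∃ P : Sylow 7 G, M = Subgroup.normalizer ((P : Subgroup G) : Set G) := fun M hM h21 =>
    CfsgLib.Simple168.eq_normalizer_seven h hM (by rw [h21]; norm_num)
  have hmapN : ∀ (g : G) (S : Subgroup G), (Subgroup.normalizer (S : Set G)).map (MulAut.conj g).toMonoidHom =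
      Subgroup.normalizer ((S.map (MulAut.conj g).toMonoidHom : Subgroup G) : Set G) := fun g S =>
    Subgroup.map_equiv_normalizer_eq S (MulAut.conj g)
  refine ⟨fun M hM => ?_, fun M M' hM hM' h21 h21' => ?_, ?_⟩
  · rcases CfsgLib.Simple168.coatom_cases h hM with ⟨U, hU, rfl⟩ | ⟨P, rfl⟩
    · exact .inl (CfsgLib.Simple168.mulEquiv_perm_four h (CfsgLib.Simple168.card_normalizer_four h hU))
    · exact .inr ⟨CfsgLib.Simple168.card_normalizer_seven h P, CfsgLib.Simple168.normalizer_seven_not_comm h P⟩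
  · obtain ⟨P, rfl⟩ := hseven M hM h21
    obtain ⟨P', rfl⟩ := hseven M' hM' h21'
    obtain ⟨g, hg⟩ := MulAction.exists_smul_eq G P P'
    refine ⟨g, ?_⟩
    rw [hmapN, ← hg, Sylow.coe_subgroup_smul]
    rfl
  obtain ⟨T⟩ := (inferInstance : Nonempty (Sylow 2 G))
  obtain ⟨U₁, U₂, hne, h1, h2, k1, k2, hall⟩ := CfsgLib.Simple168.exists_two_fours h T
  refine ⟨_, _, CfsgLib.Simple168.normalizer_four_isCoatom h k1, CfsgLib.Simple168.normalizer_four_isCoatom h k2,
    CfsgLib.Simple168.mulEquiv_perm_four h (CfsgLib.Simple168.card_normalizer_four h k1),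
    CfsgLib.Simple168.mulEquiv_perm_four h (CfsgLib.Simple168.card_normalizer_four h k2), fun g e => ?_, fun M hM hS => ?_⟩
  · rw [hmapN] at e
    exact hne (CfsgLib.Simple168.not_conj_four h h1 h2 k1 k2 g
      (CfsgLib.Simple168.four_eq_of_normalizer_eq h k2 (CfsgLib.Simple168.isKleinFour_map h k1 g) e).symm)
  obtain ⟨e⟩ := hS
  have h24 : Nat.card M = 24 := by rw [Nat.card_congr e.toEquiv, Nat.card_perm, Nat.card_fin]; rfl
  obtain ⟨U, hU, rfl⟩ := CfsgLib.Simple168.exists_four_of_24 h h24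
  obtain ⟨T', hT'⟩ := (CfsgLib.Simple168.four_isPGroup hU).exists_le_sylow
  obtain ⟨g, hg⟩ := MulAction.exists_smul_eq G T' T
  have hle : U.map (MulAut.conj g).toMonoidHom ≤ (T : Subgroup G) := by
    rw [← hg, Sylow.coe_subgroup_smul]
    exact Subgroup.map_mono hT'
  refine ⟨g⁻¹, ?_⟩
  have hback : (U.map (MulAut.conj g).toMonoidHom).map (MulAut.conj g⁻¹).toMonoidHom = U := by
    rw [Subgroup.map_map, map_inv]
    convert Subgroup.map_id U using 2
    ext x
    exact (MulAut.conj g).symm_apply_apply x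
  rcases hall _ hle (CfsgLib.Simple168.isKleinFour_map h hU g) with e1 | e1 <;> rw [e1] at hback
  · left; rw [hmapN, hback]
  · right; rw [hmapN, hback]

end Cfsg.Agent.S1008
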