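import Cfsg.Statements.S1012
import Mathlib

set_option autoImplicit false
open Cfsg

namespace Cfsg.Agent.S1012

/-- A group of order 24 containing no element of order 6 is isomorphic to the symmetric group of degree 4. -/
theorem result {G : Type*} [Group G] [Finite G] (h : Nat.card G = 24) (h6 : ∀ g : G, orderOf g ≠ 6) : Nonempty (G ≃* Equiv.Perm (Fin 4)) := by
  classical
  haveI : Fact (Nat.Prime 3) := ⟨Nat.prime_three⟩
  haveI : Fact (Nat.Prime 2) := ⟨Nat.prime_two⟩
  obtain ⟨P⟩ := (inferInstance : Nonempty (Sylow 3 G))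
  have hP : Nat.card (P : Subgroup G) = 3 := by
    rw [Sylow.card_eq_multiplicity, h, show (24 : ℕ) = 3 ^ 1 * 8 by norm_num,
      Nat.factorization_mul (by norm_num) (by norm_num), Finsupp.add_apply, Nat.Prime.factorization_pow Nat.prime_three,
      Finsupp.single_eq_same, Nat.factorization_eq_zero_of_not_dvd (by norm_num), add_zero, pow_one]
  have no6 : ∀ x ∈ (P : Subgroup G), x ≠ 1 → ∀ t : G, orderOf t = 2 → t * x ≠ x * t := by
    intro x hx hx1 t ht hc
    have hx3 : orderOf x = 3 := by
      rcases (Nat.dvd_prime Nat.prime_three).1 (hP ▸ Subgroup.orderOf_dvd_natCard _ hx) with e | e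
      · exact absurd (orderOf_eq_one_iff.1 e) hx1
      · exact e
    exact h6 (t * x) (by rw [(show Commute t x from hc).orderOf_mul_eq_mul_orderOf_of_coprime (by rw [ht, hx3]; norm_num), ht, hx3])
  obtain ⟨x, hx, hx1⟩ : ∃ x ∈ (P : Subgroup G), x ≠ 1 := by
    haveI : Nontrivial (P : Subgroup G) := Finite.one_lt_card_iff_nontrivial.1 (by omega)
    exact Subgroup.ne_bot_iff_exists_ne_one.1 (Subgroup.nontrivial_iff_ne_bot _ |>.1 inferInstance) |> fun ⟨⟨a, ha⟩, hne⟩ => ⟨a, ha, fun e => hne (Subtype.ext e)⟩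
  set N := Subgroup.normalizer ((P : Subgroup G) : Set G) with hN
  have hidx : N.index = Nat.card (Sylow 3 G) := (Sylow.card_eq_index_normalizer P).symm
  have hn4 : Nat.card (Sylow 3 G) = 4 := by
    have h1 := P.card_dvd_index
    have h2 := (P : Subgroup G).card_mul_index
    rw [hP, h] at h2
    have h3 : (P : Subgroup G).index = 8 := by omega
    rw [h3] at h1
    have h4 := card_sylow_modEq_one 3 G
    have hle := Nat.le_of_dvd (by norm_num) h1
    by_contra hne
    have : Nat.card (Sylow 3 G) = 1 := by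
      simp only [Nat.ModEq] at h4
      interval_cases hn : Nat.card (Sylow 3 G) <;> omega
    haveI : Subsingleton (Sylow 3 G) := (Nat.card_eq_one_iff_unique.1 this).1
    haveI := P.normal_of_subsingleton
    -- the centralizer of P has index at most 2, hence contains an involution
    let f : G →* MulAut (P : Subgroup G) := MulAut.conjNormal
    have hcard : Nat.card (MulAut (P : Subgroup G)) = 2 := by
      haveI := isCyclic_of_prime_card hP
      rw [IsCyclic.card_mulAut, hP, Nat.totient_prime Nat.prime_three]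
    have hk := f.ker.card_mul_index
    rw [Subgroup.index_ker, h] at hk
    have hle2 : Nat.card f.range ≤ 2 := hcard ▸ Subgroup.card_le_card_group _
    have hev : 2 ∣ Nat.card f.ker := by
      interval_cases hr : Nat.card f.range <;> omega
    obtain ⟨t, ht⟩ := exists_prime_orderOf_dvd_card' 2 hev
    apply no6 x hx hx1 t (by rw [← ht, Subgroup.orderOf_coe])
    have h5 := congrArg (fun e : MulAut (P : Subgroup G) => ((e ⟨x, hx⟩ : (P : Subgroup G)) : G)) (MonoidHom.mem_ker.1 t.2)
    simpa [f, MulAut.conjNormal_apply, mul_inv_eq_iff_eq_mul] using h5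
  rw [hn4] at hidx
  have hN6 : Nat.card N = 6 := by
    have := N.card_mul_index; rw [hidx, h] at this; omega
  let f : G →* Equiv.Perm (Sylow 3 G) := MulAction.toPermHom G (Sylow 3 G)
  have hkN : f.ker ≤ N := fun g hg => Sylow.smul_eq_iff_mem_normalizer.1 (Equiv.congr_fun hg P)
  have hk : Nat.card f.ker ∣ 6 := hN6 ▸ Subgroup.card_dvd_of_le hkN
  have hPnn : ¬ (P : Subgroup G).Normal := by
    intro hPn
    have hu := Sylow.unique_of_normal P hPn
    rw [Nat.card_unique] at hn4
    omega
  have hk3 : ¬ 3 ∣ Nat.card f.ker := by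
    intro h3
    obtain ⟨y, hy⟩ := exists_prime_orderOf_dvd_card' 3 h3
    have hyo : orderOf (y : G) = 3 := by rw [Subgroup.orderOf_coe]; exact hy
    obtain ⟨R, hR⟩ := (IsPGroup.of_card (n := 1) (by rw [Nat.card_zpowers, hyo, pow_one]) : IsPGroup 3 (Subgroup.zpowers (y : G))).exists_le_sylow
    obtain ⟨g, rfl⟩ := MulAction.exists_smul_eq G P R
    have hPk : (P : Subgroup G) ≤ f.ker := by
      have he : Subgroup.zpowers (y : G) = ((g • P : Sylow 3 G) : Subgroup G) := Subgroup.eq_of_le_of_card_ge hR (by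
        rw [Nat.card_zpowers, hyo, Nat.card_congr ((g • P : Sylow 3 G).equiv P).toEquiv, hP])
      intro z hz
      have h1 : g * z * g⁻¹ ∈ Subgroup.zpowers (y : G) := he ▸ ⟨z, hz, by simp [MulAut.conj_apply]⟩
      have := f.normal_ker.conj_mem _ ((Subgroup.zpowers_le.2 y.2) h1) g⁻¹
      simpa [mul_assoc] using this
    have hd : 3 ∣ Nat.card f.ker := h3
    have hle := Nat.le_of_dvd (by norm_num) hk
    interval_cases hc : Nat.card f.ker <;> try omega
    · exact hPnn ((Subgroup.eq_of_le_of_card_ge hPk (by omega)) ▸ f.normal_ker)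
    · have e : f.ker = N := Subgroup.eq_of_le_of_card_ge hkN (by omega)
      haveI : (Subgroup.normalizer ((P : Subgroup G) : Set G)).Normal := by rw [← hN, ← e]; exact f.normal_ker
      exact hPnn (Sylow.normal_of_normalizer_normal P inferInstance)
  have hk2 : ¬ 2 ∣ Nat.card f.ker := by
    intro h2
    have hle := Nat.le_of_dvd (by norm_num) hk
    have hc : Nat.card f.ker = 2 := by interval_cases hc : Nat.card f.ker <;> omega
    obtain ⟨t, ht⟩ := exists_prime_orderOf_dvd_card' 2 h2
    have hto : orderOf (t : G) = 2 := by rw [Subgroup.orderOf_coe]; exact ht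
    apply no6 x hx hx1 t hto
    have hgen : Subgroup.zpowers (t : G) = f.ker := Subgroup.eq_of_le_of_card_ge (Subgroup.zpowers_le.2 t.2) (by rw [Nat.card_zpowers, hto, hc])
    have hm : x * t * x⁻¹ ∈ Subgroup.zpowers (t : G) := by rw [hgen]; exact f.normal_ker.conj_mem _ t.2 x
    obtain ⟨k, hk⟩ := Subgroup.mem_zpowers_iff.1 hm
    rw [← zpow_mod_orderOf, hto] at hk
    rcases Int.emod_two_eq_zero_or_one k with e | e <;> rw [show ((2 : ℕ) : ℤ) = 2 from rfl, e] at hk
    · exfalso
      rw [zpow_zero, eq_comm, conj_eq_one_iff] at hk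
      rw [hk, orderOf_one] at hto; omega
    · rw [zpow_one, eq_mul_inv_iff_mul_eq] at hk
      exact hk
  have hk1 : Nat.card f.ker = 1 := by
    have hle := Nat.le_of_dvd (by norm_num) hk
    interval_cases hc : Nat.card f.ker <;> omega
  have hinj : Function.Injective f := (MonoidHom.ker_eq_bot_iff f).1 (Subgroup.eq_bot_of_card_eq _ hk1)
  have hc : Nat.card G = Nat.card (Equiv.Perm (Sylow 3 G)) := by rw [Nat.card_perm, hn4, h]; rfl
  let e : Sylow 3 G ≃ Fin 4 := Finite.equivFinOfCardEq hn4
  exact ⟨(MulEquiv.ofBijective f ((Nat.bijective_iff_injective_and_card f).2 ⟨hinj, hc⟩)).trans e.permCongrHom⟩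

end Cfsg.Agent.S1012
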