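import Cfsg.Statements.S1013
import Mathlib

set_option autoImplicit false
open Cfsg

namespace Cfsg.Agent.S1013

/-- Let G be a transitive permutation group of prime degree p having more than one Sylow p-subgroup, and suppose a Sylow p-subgroup P has prime index in its normalizer. Then G is simple. -/
theorem result {α : Type*} [Fintype α] [DecidableEq α] {p : ℕ} [Fact p.Prime] (hα : Fintype.card α = p) (G : Subgroup (Equiv.Perm α)) [MulAction.IsPretransitive ↥G α] (P : Sylow p ↥G) (hn : 1 < Nat.card (Sylow p ↥G)) (ht : (((P : Subgroup ↥G).subgroupOf (Subgroup.normalizer ((P : Subgroup ↥G) : Set ↥G))).index).Prime) : IsSimpleGroup ↥G := by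
  classical
  have hp : p.Prime := Fact.out
  have hα' : Nat.card α = p := by rw [Nat.card_eq_fintype_card, hα]
  have hprim : MulAction.IsPreprimitive G α := MulAction.IsPreprimitive.of_prime_card (hα' ▸ hp)
  obtain ⟨a⟩ : Nonempty α := Fintype.card_pos_iff.1 (hα ▸ hp.pos)
  have hfaith : ∀ n : G, (∀ b : α, n • b = b) → n = 1 := fun n h => Subtype.ext (Equiv.ext h)
  have htrans : ∀ N : Subgroup G, N.Normal → N ≠ ⊥ → p ∣ Nat.card N := by
    intro N hN hne
    have : MulAction.IsPretransitive N α := MulAction.IsQuasiPreprimitive.isPretransitive_of_normal (G := G) (by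
      intro h
      apply hne
      rw [Subgroup.eq_bot_iff_forall]
      intro n hn
      refine hfaith n fun b => ?_
      have hb : b ∈ MulAction.fixedPoints N α := by rw [h]; trivial
      exact hb ⟨n, hn⟩)
    have h1 := MulAction.index_stabilizer_of_transitive N a
    exact hα' ▸ h1 ▸ Subgroup.index_dvd_card _
  have hPcard : Nat.card (P : Subgroup G) = p := by
    have hd : p ∣ Nat.card G := hα' ▸ (MulAction.index_stabilizer_of_transitive G a) ▸ Subgroup.index_dvd_card _
    have h2 : Nat.card G ∣ p.factorial := by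
      have := Subgroup.card_subgroup_dvd_card G
      rwa [Nat.card_perm, hα'] at this
    obtain ⟨k, hk⟩ := P.2.exists_card_eq
    have h3 : p ^ k ∣ p.factorial := hk ▸ (Subgroup.card_subgroup_dvd_card _).trans h2
    have h4 : p ∣ p ^ k := hk ▸ P.dvd_card_of_dvd_card hd
    rcases k with _ | _ | k
    · simp at h4; exact absurd h4 hp.ne_one
    · simpa using hk
    · exfalso
      have h5 : p ^ 2 ∣ p.factorial := (pow_dvd_pow p (by omega)).trans h3
      rw [← Nat.mul_factorial_pred hp.pos.ne', pow_two] at h5
      have h6 := Nat.dvd_of_mul_dvd_mul_left hp.pos h5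
      rw [hp.dvd_factorial] at h6
      have := hp.pos; omega
  have : Nontrivial G := by
    rw [← Finite.one_lt_card_iff_nontrivial]
    exact lt_of_lt_of_le (hPcard.symm ▸ hp.one_lt) (Subgroup.card_le_card_group _)
  refine ⟨fun N hN => ?_⟩
  rcases eq_or_ne N ⊥ with h | hne
  · exact Or.inl h
  right
  obtain ⟨x, hx⟩ := exists_prime_orderOf_dvd_card' p (htrans N hN hne)
  have hxo : orderOf (x : G) = p := by rwa [Subgroup.orderOf_coe]
  obtain ⟨R, hR⟩ := (IsPGroup.of_card (n := 1) (by rw [Nat.card_zpowers, hxo, pow_one]) : IsPGroup p (Subgroup.zpowers (x : G))).exists_le_sylow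
  have hRN : (R : Subgroup G) ≤ N := by
    have he : Subgroup.zpowers (x : G) = R := Subgroup.eq_of_le_of_card_ge hR (by
      rw [Nat.card_zpowers, hxo, Nat.card_congr (R.equiv P).toEquiv, hPcard])
    exact he ▸ Subgroup.zpowers_le.2 x.2
  obtain ⟨g, rfl⟩ := MulAction.exists_smul_eq G P R
  have hPN : (P : Subgroup G) ≤ N := by
    intro y hy
    have := hN.conj_mem _ (hRN (show g * y * g⁻¹ ∈ _ from ⟨y, hy, by simp [MulAut.conj_apply]⟩)) g⁻¹
    simpa [mul_assoc] using this
  set K := Subgroup.normalizer ((P : Subgroup G) : Set G) with hK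
  have hsup : K ⊔ N = ⊤ := Sylow.normalizer_sup_eq_top' P hPN
  have hPK : (P : Subgroup G) ≤ K := Subgroup.le_normalizer
  have h4 : (P : Subgroup G).relIndex (K ⊓ N) * (K ⊓ N).relIndex K = (P : Subgroup G).relIndex K :=
    Subgroup.relIndex_mul_relIndex _ _ _ (le_inf hPK hPN) inf_le_left
  change ((P : Subgroup G).relIndex K).Prime at ht
  rcases Nat.prime_mul_iff.1 (h4.symm ▸ ht) with ⟨_, h5⟩ | ⟨_, h5⟩
  · rw [Subgroup.relIndex_eq_one] at h5
    exact top_le_iff.1 (hsup ▸ sup_le (h5.trans inf_le_right) le_rfl)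
  · exfalso
    rw [Subgroup.relIndex_eq_one] at h5
    set P' := P.subtype hPN with hP'
    have hnorm : Subgroup.normalizer ((P' : Subgroup N) : Set N) ≤ Subgroup.centralizer ((P' : Subgroup N) : Set N) := by
      intro n hn
      have e : ((P' : Subgroup N)) = (P : Subgroup G).subgroupOf N := rfl
      rw [e, ← Subgroup.subgroupOf_normalizer_eq hPN] at hn
      have hnP : (n : G) ∈ (P : Subgroup G) := h5 ⟨hn, n.2⟩
      rw [Subgroup.mem_centralizer_iff]
      intro m hm
      have hc : IsMulCommutative (P : Subgroup G) := by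
        have := isCyclic_of_prime_card hPcard
        infer_instance
      exact Subtype.ext (congrArg Subtype.val (hc.is_comm.comm (⟨(m : G), hm⟩ : (P : Subgroup G)) ⟨(n : G), hnP⟩) : (m : G) * (n : G) = n * m)
    let f := MonoidHom.transferSylow P' hnorm
    set L : Subgroup G := f.ker.map N.subtype with hL
    have hLp : ¬ p ∣ Nat.card L := by
      rw [← Nat.card_congr (f.ker.equivMapOfInjective _ (Subgroup.subtype_injective N)).toEquiv]
      exact MonoidHom.not_dvd_card_ker_transferSylow P' hnorm
    have hLn : L.Normal := by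
      refine ⟨fun l hl g => ?_⟩
      obtain ⟨m, hm, rfl⟩ := hl
      have hm' : g * (m : G) * g⁻¹ ∈ N := hN.conj_mem _ m.2 g
      refine ⟨⟨_, hm'⟩, ?_, rfl⟩
      rw [SetLike.mem_coe, MonoidHom.mem_ker]
      have hcop : Nat.Coprime (orderOf (⟨_, hm'⟩ : N)) p := by
        rw [Nat.coprime_comm, hp.coprime_iff_not_dvd]
        intro hd
        apply MonoidHom.not_dvd_card_ker_transferSylow P' hnorm
        refine (hd.trans ?_).trans (Subgroup.orderOf_dvd_natCard _ hm)
        rw [← Subgroup.orderOf_coe, ← Subgroup.orderOf_coe m]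
        exact (orderOf_injective (MulAut.conj g).toMonoidHom (MulAut.conj g).injective (m : G)).dvd
      have h6 : orderOf (f ⟨_, hm'⟩) ∣ p := by
        have : Nat.card P' = p := (Nat.card_congr (Subgroup.subgroupOfEquivOfLe hPN).toEquiv).trans hPcard
        exact (orderOf_dvd_natCard _).trans this.dvd
      exact orderOf_eq_one_iff.1 (Nat.eq_one_of_dvd_coprimes hcop (orderOf_map_dvd f _) h6)
    have hbot : L = ⊥ := by
      by_contra hne'
      exact hLp (htrans L hLn hne')
    have hker : f.ker = ⊥ := by rwa [hL, Subgroup.map_eq_bot_iff_of_injective _ (Subgroup.subtype_injective N)] at hbot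
    have hcompl := MonoidHom.ker_transferSylow_isComplement' P' hnorm
    change Subgroup.IsComplement' f.ker _ at hcompl
    rw [hker, Subgroup.isComplement'_bot_left] at hcompl
    have hNP : N ≤ (P : Subgroup G) := Subgroup.subgroupOf_eq_top.1 hcompl
    have hPn : (P : Subgroup G).Normal := by rw [le_antisymm hPN hNP]; exact hN
    have := Sylow.unique_of_normal P hPn
    simp at hn

end Cfsg.Agent.S1013
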