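import Cfsg.Statements.S1014
import Cfsg.Agent.SmallSimple.Basic

set_option autoImplicit false
open Cfsg

namespace Cfsg.Agent.S1014
open CfsgLib.SmallSimple

/-- No finite simple group has order 1104 = 2^4 * 3 * 23. -/
theorem result {G : Type*} [Group G] [Finite G] [IsSimpleGroup G] : Nat.card G ≠ 1104 := by
  intro h
  haveI : Fact (Nat.Prime 23) := ⟨by norm_num⟩
  have hG := not_comm_of_card_not_prime (G := G) (by rw [h]; norm_num)
  obtain ⟨hd, hm, hP⟩ := card_sylow_constraints (G := G) 23 48 (k := 1) (by rw [h]; norm_num) (by norm_num)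
  obtain ⟨P⟩ := (inferInstance : Nonempty (Sylow 23 G))
  obtain ⟨hPc, hN⟩ := hP P
  have h1 := card_sylow_ne_one hG 23 (by rw [h]; norm_num)
  have hn : Nat.card (Sylow 23 G) = 24 := by
    have hmem : Nat.card (Sylow 23 G) ∈ Nat.divisors 48 := Nat.mem_divisors.2 ⟨hd, by norm_num⟩
    revert h1 hm hmem; generalize Nat.card (Sylow 23 G) = n; intro hm h1 hmem; revert hm h1; revert hmem n; decide +kernel
  have h2 := two_mul_card_normalizer_dvd hG 23 (by norm_num) P (by rw [hPc]; norm_num)
    (Subgroup.normalizer ((P : Subgroup G) : Set G)) (Or.inr ((Sylow.card_eq_index_normalizer P).symm.trans hn))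
  rw [hn] at hN
  rw [show Nat.card (Subgroup.normalizer ((P : Subgroup G) : Set G)) = 46 by omega] at h2
  norm_num at h2

end Cfsg.Agent.S1014
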