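import Cfsg.Statements.S1015
import Cfsg.Agent.SylowToolkit
import Mathlib.Tactic.NormNum.Prime
import Mathlib.Tactic.IntervalCases
import Mathlib.Tactic.Linarith

set_option autoImplicit false
open Cfsg

namespace Cfsg.Agent.S1015

open CfsgLib

/-- No finite simple group has order 1200 = 2^4 * 3 * 5^2. -/
theorem result {G : Type*} [Group G] [Finite G] [IsSimpleGroup G] : Nat.card G ≠ 1200 := by
  intro h
  haveI : Fact (Nat.Prime 5) := ⟨by norm_num⟩
  have hc := SylowToolkit.not_isMulCommutative_of_not_prime (G := G) (by rw [h]; norm_num)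
  have hG : Nat.card G = 5 ^ 2 * 48 := by rw [h]; norm_num
  have h1 := SylowToolkit.one_lt_card_sylow (p := 5) hc (by rw [h]; norm_num)
  have hmem := SylowToolkit.card_sylow_mem_candidates (p := 5) hG (by norm_num)
  have hn : Nat.card (Sylow 5 G) = 6 ∨ Nat.card (Sylow 5 G) = 16 := by
    revert h1 hmem; generalize Nat.card (Sylow 5 G) = n; intro h1 hmem
    rw [Finset.mem_filter] at hmem
    have := Nat.le_of_dvd (by norm_num) (Nat.mem_divisors.1 hmem.1).1
    have hd := (Nat.mem_divisors.1 hmem.1).1
    interval_cases n <;> omega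
  rcases hn with hn | hn
  · have := SylowToolkit.two_mul_card_dvd_factorial_card_sylow (p := 5) hc (by rw [h]; norm_num)
    rw [hn, h] at this
    norm_num [Nat.factorial] at this
  obtain ⟨P⟩ := (inferInstance : Nonempty (Sylow 5 G))
  have hP := SylowToolkit.card_sylow_subgroup_eq hG (by norm_num) P
  obtain ⟨H, hH, hd, hs⟩ := SylowToolkit.exists_subgroup_of_not_modEq hc P
    (by rw [hP]; norm_num) (by rw [hn]; decide)
  rw [hP] at hd
  obtain ⟨k, hk⟩ := hd
  have hidx := Subgroup.card_mul_index H
  rw [hk, h] at hidx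
  have hk' : k * H.index = 48 := by
    have h25 : (5 : ℕ) ^ 2 * (k * H.index) = 5 ^ 2 * 48 := by rw [← mul_assoc, hidx]; norm_num
    exact Nat.eq_of_mul_eq_mul_left (by norm_num) h25
  have hk0 : 0 < k := Nat.pos_of_ne_zero fun e => by simp [e] at hk'
  have hmod := SylowToolkit.card_sylow_mod (G := H) (p := 5)
  have hge : 6 ≤ k := by
    have hmem' : Nat.card (Sylow 5 H) ∣ k := by
      by_cases h5 : 5 ∣ k
      · exact absurd (h5.trans ⟨H.index, hk'.symm⟩) (by norm_num)
      · exact SylowToolkit.card_sylow_dvd hk h5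
    have := Nat.le_of_dvd hk0 hmem'
    omega
  have hle : H.index ≤ 8 := by nlinarith
  have h2 := (SylowToolkit.two_mul_card_dvd_factorial_index hc hH).trans (Nat.factorial_dvd_factorial hle)
  rw [h] at h2
  norm_num [Nat.factorial] at h2

end Cfsg.Agent.S1015
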