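import Cfsg.Statements.S1017
import Cfsg.Agent.SylowToolkit
import Cfsg.Agent.SylowToolkit.CentralInvolution
import Mathlib

set_option autoImplicit false
open Cfsg

namespace Cfsg.Agent.S1017

open CfsgLib.SylowToolkit Subgroup MulAction

/-- The centralizer of a 7-cycle of nine points has order at most 14. -/
theorem card_centralizer_seven {α : Type*} [Fintype α] [DecidableEq α] (hα : Fintype.card α = 9)
    {σ : Equiv.Perm α} (hσ : orderOf σ = 7) : Nat.card (centralizer ({σ} : Set (Equiv.Perm α))) = 14 := by
  have hcyc : σ.IsCycle :=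
    Equiv.Perm.isCycle_of_prime_order' (by rw [hσ]; norm_num) (by rw [hσ, hα]; norm_num)
  rw [Equiv.Perm.nat_card_centralizer, hcyc.cycleType, ← hcyc.orderOf, hσ, hα]
  simp [Nat.factorial]

/-- No finite simple group has order 2016 = 2^5 * 3^2 * 7. -/
theorem result {G : Type*} [Group G] [Finite G] [IsSimpleGroup G] : Nat.card G ≠ 2016 := by
  classical
  intro hG
  have hc : ¬ IsMulCommutative G := not_isMulCommutative_of_not_prime (by rw [hG]; norm_num)
  have : Fact (Nat.Prime 7) := ⟨by norm_num⟩
  have : Fact (Nat.Prime 2) := ⟨Nat.prime_two⟩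
  have hG' : Nat.card G = 7 ^ 1 * 288 := by rw [hG]; norm_num
  have hd7 : 7 ∣ Nat.card G := by rw [hG]; norm_num
  have hP7 : ∀ R : Sylow 7 G, Nat.card (R : Subgroup G) = 7 := fun R => by
    simpa using card_sylow_subgroup_eq hG' (by norm_num) R
  have hf : FaithfulSylow 7 G := toPermHom_sylow_injective hc hd7
  have hmem := card_sylow_mem_candidates hG' (by norm_num)
  have hn : Nat.card (Sylow 7 G) = 8 ∨ Nat.card (Sylow 7 G) = 36 ∨ Nat.card (Sylow 7 G) = 288 := by
    have key : ∀ n ∈ (288 : ℕ).divisors.filter (fun n => n % 7 = 1), 1 < n → n = 8 ∨ n = 36 ∨ n = 288 := by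
      decide +kernel
    exact key _ hmem (one_lt_card_sylow hc hd7)
  obtain ⟨P⟩ := (inferInstance : Nonempty (Sylow 7 G))
  have hmul := card_normalizer_mul P
  have hdvd6 := relIndex_centralizer_dvd_sub_one P (hP7 P)
  have hNC := relIndex_mul_relIndex _ _ _ (bot_le : ⊥ ≤ centralizer ((P : Subgroup G) : Set G))
    (centralizer_le_normalizer _)
  simp only [relIndex_bot_left] at hNC
  have hcl := card_sylow_eq_classes (hP7 P)
  have hCK := card_centralizer_eq_mul_range hf (hP7 P)
  set C := centralizer ((P : Subgroup G) : Set G) with hCdef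
  set K := ((otherClassPerm P).comp
    (inclusion (centralizer_le_normalizer ((P : Subgroup G) : Set G)))).range with hKdef
  have hne1 : C.relIndex (normalizer ((P : Subgroup G) : Set G)) ≠ 1 := fun h1 =>
    not_normalizer_le_centralizer hc hd7 P (relIndex_eq_one.mp h1)
  generalize C.relIndex (normalizer ((P : Subgroup G) : Set G)) = e at hdvd6 hNC hne1
  have he : e = 2 ∨ e = 3 ∨ e = 6 := by
    have key : ∀ e ∈ (6 : ℕ).divisors, e ≠ 1 → e = 2 ∨ e = 3 ∨ e = 6 := by decide
    exact key e (Nat.mem_divisors.mpr ⟨hdvd6, by norm_num⟩) hne1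
  rcases hn with h | h | h
  · -- eight: the centralizer is `P`
    have h1 : Nat.card (OtherClasses P) = 1 := by omega
    have hd := card_subgroup_dvd_card K
    rw [Nat.card_perm, h1, Nat.factorial_one, Nat.dvd_one] at hd
    rw [← hNC, hCK, hd, h, hG] at hmul
    rcases he with rfl | rfl | rfl <;> omega
  · -- thirty-six: an involution centralizing `P`
    have hN : Nat.card (normalizer ((P : Subgroup G) : Set G)) = 56 := by rw [h, hG] at hmul; omega
    rw [hN] at hNC
    have he2 : e = 2 := by
      rcases he with rfl | rfl | rfl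
      · rfl
      · omega
      · omega
    subst he2
    have hC : Nat.card C = 28 := by omega
    obtain ⟨t, ht⟩ := exists_prime_orderOf_dvd_card' (G := C) 2 (by rw [hC]; norm_num)
    have htG : orderOf (t : G) = 2 := by rw [orderOf_coe]; exact ht
    have htt : (t : G) * t = 1 := by rw [← sq, ← htG, pow_orderOf_eq_one]
    have ht1 : (t : G) ≠ 1 := fun h1 => by rw [h1, orderOf_one] at htG; norm_num at htG
    have hmod := fixCount_involution_modEq hf (fun g => sign_eq_one hc _ g) htG
    have hmod7 := fixCount_centralizing_modEq (hP7 P) t.2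
    have hlt := fixCount_lt hf ht1
    rw [h] at hmod hlt
    unfold Nat.ModEq at hmod hmod7
    have hf8 : fixCount 7 (t : G) = 8 := by omega
    have hbig := fixCount_le_card_sylow_centralizer (by norm_num) htt hP7 (by rw [hf8, h]; norm_num)
    rw [hf8] at hbig
    have hcomm := centralizer_mul_comm (p := 7) (by norm_num) (hP7 P) (j := 2) le_rfl (by rw [← hCdef, hC]; norm_num)
    have hPC : (P : Subgroup G) ≤ C := by
      have hcyc : IsCyclic (P : Subgroup G) := isCyclic_of_prime_card (hP7 P)
      exact fun a ha => mem_centralizer_iff.mpr fun b hb =>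
        congrArg Subtype.val (hcyc.commGroup.mul_comm ⟨b, hb⟩ ⟨a, ha⟩)
    set H := centralizer ({(t : G)} : Set G) with hHdef
    have hCH : C ≤ H := fun g hg => mem_centralizer_singleton_iff.mpr (congrArg Subtype.val (hcomm ⟨g, hg⟩ t))
    obtain ⟨m, hm, hCm, hmN, -⟩ := exists_card_eq_card_sylow_mul hCH (hPC.trans hCH)
    rw [hN] at hmN
    rw [hC] at hCm
    have hHd : Nat.card H ∣ 2016 := hG ▸ card_subgroup_dvd_card H
    have hHne : H ≠ ⊤ := centralizer_ne_top hc ht1
    have hidx := H.card_mul_index
    rw [hG] at hidx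
    have h2fac := two_mul_card_dvd_factorial_index hc hHne
    have hm' : m = 28 ∨ m = 56 := by
      have key : ∀ m ∈ (56 : ℕ).divisors, 28 ∣ m → m = 28 ∨ m = 56 := by decide
      exact key m (Nat.mem_divisors.mpr ⟨hmN, by norm_num⟩) hCm
    have hmod' := card_sylow_mod (G := H) (p := 7)
    generalize Nat.card (Sylow 7 H) = n at hm hbig hmod'
    have hn2016 : n * m ∣ 2016 := hm ▸ hHd
    rw [hm] at hidx
    have hn : (n = 8 ∧ m = 28) ∨ n = 36 := by
      have key : ∀ n ∈ (2016 : ℕ).divisors, ∀ m ∈ ({28, 56} : Finset ℕ), 8 ≤ n → n % 7 = 1 → n * m ∣ 2016 →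
          (n = 8 ∧ m = 28) ∨ n = 36 := by decide +kernel
      exact key n (Nat.mem_divisors.mpr ⟨(dvd_mul_right n m).trans hn2016, by norm_num⟩) m
        (by simpa using hm') hbig hmod' hn2016
    rcases hn with ⟨rfl, rfl⟩ | rfl
    · -- index nine
      have hidx9 : H.index = 9 := by omega
      have : Fintype (G ⧸ H) := Fintype.ofFinite _
      have hinj : Function.Injective (toPermHom G (G ⧸ H)) := toPermHom_quotient_injective hHne
      have hF : Fintype.card (G ⧸ H) = 9 := by rw [← Nat.card_eq_fintype_card, ← Subgroup.index, hidx9]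
      obtain ⟨x, hx⟩ := exists_prime_orderOf_dvd_card' (G := (P : Subgroup G)) 7 (hP7 P).symm.dvd
      have hxσ : orderOf (toPermHom G (G ⧸ H) x) = 7 := by
        rw [orderOf_injective _ hinj, orderOf_coe, hx]
      have hbound : Nat.card C ≤ 14 := by
        rw [← card_centralizer_seven hF hxσ, ← (card_map_of_injective hinj : Nat.card (C.map (toPermHom G (G ⧸ H))) = Nat.card C)]
        refine card_le_of_le ?_
        rintro _ ⟨g, hg, rfl⟩
        rw [mem_centralizer_singleton_iff, ← map_mul, ← map_mul, mem_centralizer_iff.mp hg x x.2]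
      omega
    · have hidx2 : H.index ≤ 2 := by rcases hm' with rfl | rfl <;> omega
      have := Nat.le_of_dvd (Nat.factorial_pos _) h2fac
      have h22 := Nat.factorial_le hidx2
      rw [hG] at this
      norm_num [Nat.factorial] at h22
      omega
  · rw [h, hG] at hmul
    rcases he with rfl | rfl | rfl <;> omega

end Cfsg.Agent.S1017
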