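import Cfsg.Statements.S1018
import Mathlib

set_option autoImplicit false
open Cfsg

namespace Cfsg.Agent.S1018

/-- Let P be a Sylow p-subgroup of order p of a finite group G, and consider the action of G on the left cosets of the normalizer N of P. Then every element of order p fixes exactly one coset, and an element of N that does not centralize P fixes at most as many cosets as there are orbits of P. -/
theorem result {G : Type*} [Group G] [Finite G] (p : ℕ) [Fact p.Prime] (P : Sylow p G) (hP : Nat.card ↥(P : Subgroup G) = p) : (∀ y : G, orderOf y = p → Nat.card (MulAction.fixedBy (G ⧸ Subgroup.normalizer ((P : Subgroup G) : Set G)) y) = 1) ∧ ∀ x : G, x ∈ Subgroup.normalizer ((P : Subgroup G) : Set G) → x ∉ Subgroup.centralizer ((P : Subgroup G) : Set G) → Nat.card (MulAction.fixedBy (G ⧸ Subgroup.normalizer ((P : Subgroup G) : Set G)) x) ≤ Nat.card (MulAction.orbitRel.Quotient ↥(P : Subgroup G) (G ⧸ Subgroup.normalizer ((P : Subgroup G) : Set G))) := by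
  classical
  set N := Subgroup.normalizer ((P : Subgroup G) : Set G) with hN
  have gen : ∀ (Q : Subgroup G), Nat.card Q = p → ∀ u ∈ Q, u ≠ 1 → Subgroup.zpowers u = Q := by
    intro Q hQ u hu hu1
    refine Subgroup.eq_of_le_of_card_ge (Subgroup.zpowers_le.2 hu) ?_
    rw [Nat.card_zpowers, hQ]
    have hdvd : orderOf u ∣ p := hQ ▸ Subgroup.orderOf_dvd_natCard Q hu
    rcases (Nat.dvd_prime Fact.out).1 hdvd with h | h
    · exact absurd (orderOf_eq_one_iff.1 h) hu1
    · exact h.ge
  refine ⟨fun y hy => ?_, fun x hx hxC => ?_⟩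
  · have hy1 : y ≠ 1 := by
      intro h; rw [h, orderOf_one] at hy; exact (Fact.out : p.Prime).ne_one hy.symm
    have hcard : ∀ R : Sylow p G, Nat.card (R : Subgroup G) = p := fun R => by
      rw [Nat.card_congr (R.equiv P).toEquiv, hP]
    have hpg : IsPGroup p (Subgroup.zpowers y) := IsPGroup.of_card (n := 1) (by rw [Nat.card_zpowers, hy, pow_one])
    obtain ⟨R, hR⟩ := hpg.exists_le_sylow
    have fix_iff : ∀ S : Sylow p G, y • S = S ↔ S = R := by
      intro S
      rw [Sylow.smul_eq_iff_mem_normalizer]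
      constructor
      · intro h
        have h' : y ∈ Subgroup.zpowers y ⊓ Subgroup.normalizer ((S : Subgroup G) : Set G) := ⟨Subgroup.mem_zpowers y, h⟩
        have h2 := ((hpg.inf_normalizer_sylow S).le h').2
        apply Sylow.ext
        rw [← gen _ (hcard S) y h2 hy1, gen _ (hcard R) y (hR (Subgroup.mem_zpowers y)) hy1]
      · rintro rfl
        exact Subgroup.le_normalizer (hR (Subgroup.mem_zpowers y))
    obtain ⟨g, hg⟩ := MulAction.exists_smul_eq G P R
    have conv : ∀ a : G, y • ((a : G) : G ⧸ N) = (a : G ⧸ N) ↔ a • P = R := by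
      intro a
      rw [← fix_iff, ← mul_smul, MulAction.Quotient.smul_mk, smul_eq_mul, eq_comm, QuotientGroup.eq, hN,
        Sylow.coe_coe, ← Sylow.smul_eq_iff_mem_normalizer, mul_smul, inv_smul_eq_iff]
    rw [Nat.card_eq_one_iff_unique]
    refine ⟨⟨fun a b => ?_⟩, ⟨⟨(g : G ⧸ N), (conv g).2 hg⟩⟩⟩
    obtain ⟨a, ha⟩ := a
    obtain ⟨b, hb⟩ := b
    induction a using QuotientGroup.induction_on with
    | _ a => induction b using QuotientGroup.induction_on with
      | _ b =>
        apply Subtype.ext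
        show (a : G ⧸ N) = (b : G ⧸ N)
        rw [QuotientGroup.eq, hN, Sylow.coe_coe, ← Sylow.smul_eq_iff_mem_normalizer, mul_smul, inv_smul_eq_iff,
          (conv a).1 ha, (conv b).1 hb]
  · refine Nat.card_le_card_of_injective (fun q => Quotient.mk _ (q : G ⧸ N)) ?_
    intro a b hab
    obtain ⟨⟨u, hu⟩, hub⟩ := (Quotient.exact hab : (a : G ⧸ N) ∈ MulAction.orbit (P : Subgroup G) (b : G ⧸ N))
    replace hub : u • (b : G ⧸ N) = (a : G ⧸ N) := hub
    apply Subtype.ext
    have hw : u⁻¹ * (x * u * x⁻¹) ∈ (P : Subgroup G) :=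
      mul_mem (inv_mem hu) ((Subgroup.mem_normalizer_iff.1 hx u).1 hu)
    have hwb : (u⁻¹ * (x * u * x⁻¹)) • (b : G ⧸ N) = (b : G ⧸ N) := by
      simp only [mul_smul, inv_smul_eq_iff, hub]
      rw [show x⁻¹ • (b : G ⧸ N) = b from inv_smul_eq_iff.2 b.2.symm, hub]
      exact a.2
    rcases eq_or_ne (u⁻¹ * (x * u * x⁻¹)) 1 with h1 | h1
    · rw [inv_mul_eq_one] at h1
      rcases eq_or_ne u 1 with rfl | hu1
      · simpa using hub.symm
      · refine absurd ?_ hxC
        rw [← gen _ hP u hu hu1, Subgroup.mem_centralizer_iff]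
        intro z hz
        obtain ⟨k, rfl⟩ := hz
        have : Commute x u := (eq_mul_inv_iff_mul_eq.1 h1).symm
        exact (this.zpow_right k).eq.symm
    · have := gen _ hP _ hw h1
      have hu' : u ∈ Subgroup.zpowers (u⁻¹ * (x * u * x⁻¹)) := this ▸ hu
      have : u • (b : G ⧸ N) = b := (Subgroup.zpowers_le.2 (MulAction.mem_stabilizer_iff.2 hwb) hu' : u ∈ MulAction.stabilizer G (b : G ⧸ N))
      rw [← hub, this]

end Cfsg.Agent.S1018
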