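import Cfsg.Statements.S1019
import Mathlib

set_option autoImplicit false
open Cfsg

namespace Cfsg.Agent.S1019

/-- Elements `g` with `g⁻¹ x g` in a set, as pairs (conjugate, centralizing element). -/
noncomputable def fiberEquiv {G : Type*} [Group G] (x : G) (q : G → Prop) :
    {g : G // q (g⁻¹ * x * g)} ≃ {v : {y : G // IsConj x y} // q v} × Subgroup.centralizer ({x} : Set G) := by
  classical
  have hk : ∀ v : {y : G // IsConj x y}, ∃ k : G, k⁻¹ * x * k = v := fun v => by
    obtain ⟨k, hk⟩ := isConj_iff.1 v.2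
    exact ⟨k⁻¹, by simpa using hk⟩
  choose k hk using hk
  have hm : ∀ g : G, IsConj x (g⁻¹ * x * g) := fun g => isConj_iff.2 ⟨g⁻¹, by simp⟩
  exact
  { toFun := fun g => (⟨⟨_, hm g.1⟩, g.2⟩, ⟨g.1 * (k ⟨_, hm g.1⟩)⁻¹, by
      rw [Subgroup.mem_centralizer_singleton_iff]
      have h := hk ⟨_, hm g.1⟩
      generalize k ⟨_, hm g.1⟩ = a at h
      simp only at h
      calc g.1 * a⁻¹ * x = g.1 * (a⁻¹ * x * a) * a⁻¹ := by group
        _ = _ := by rw [h]; group⟩)
    invFun := fun v => ⟨(v.2 : G) * k v.1.1, by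
      have h : ((v.2 : G) * k v.1.1)⁻¹ * x * ((v.2 : G) * k v.1.1) = v.1.1.1 := by
        have hc := Subgroup.mem_centralizer_singleton_iff.1 v.2.2
        calc _ = (k v.1.1)⁻¹ * ((v.2 : G)⁻¹ * (x * (v.2 : G))) * k v.1.1 := by group
          _ = _ := by rw [← hc, inv_mul_cancel_left, hk]
      rw [h]; exact v.1.2⟩
    left_inv := fun g => Subtype.ext (by simp)
    right_inv := fun v => by
      have h : ((v.2 : G) * k v.1.1)⁻¹ * x * ((v.2 : G) * k v.1.1) = v.1.1.1 := by
        have hc := Subgroup.mem_centralizer_singleton_iff.1 v.2.2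
        calc _ = (k v.1.1)⁻¹ * ((v.2 : G)⁻¹ * (x * (v.2 : G))) * k v.1.1 := by group
          _ = _ := by rw [← hc, inv_mul_cancel_left, hk]
      have h' : (⟨_, hm ((v.2 : G) * k v.1.1)⟩ : {y : G // IsConj x y}) = v.1.1 := Subtype.ext h
      refine Prod.ext (Subtype.ext h') (Subtype.ext ?_)
      show (v.2 : G) * k v.1.1 * (k ⟨_, hm _⟩)⁻¹ = v.2
      rw [h']; simp }

/-- Let H be a subgroup of a finite group G and x an element of H. In the action of G on the left cosets of H, the number of cosets fixed by x, multiplied by the size of the conjugacy class of x, equals the index of H multiplied by the number of conjugates of x that lie in H. -/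
theorem result {G : Type*} [Group G] [Finite G] (H : Subgroup G) (x : G) (hx : x ∈ H) : Nat.card (MulAction.fixedBy (G ⧸ H) x) * Nat.card {g : G // IsConj x g} = H.index * Nat.card {g : G // IsConj x g ∧ g ∈ H} := by
  classical
  have hC : Nat.card {g : G // IsConj x g} * Nat.card (Subgroup.centralizer ({x} : Set G)) = Nat.card G := by
    rw [← Nat.card_prod]
    exact Nat.card_congr ((Equiv.prodCongr (Equiv.subtypeUnivEquiv (p := fun _ : {g : G // IsConj x g} => True) fun _ => trivial).symm (Equiv.refl _)).trans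
      ((fiberEquiv x (fun _ => True)).symm.trans (Equiv.subtypeUnivEquiv fun _ => trivial)))
  have h1 : Nat.card {g : G // g⁻¹ * x * g ∈ H} =
      Nat.card {g : G // IsConj x g ∧ g ∈ H} * Nat.card (Subgroup.centralizer ({x} : Set G)) := by
    rw [← Nat.card_prod]
    exact Nat.card_congr ((fiberEquiv x (fun g => g ∈ H)).trans
      (Equiv.prodCongr ((Equiv.subtypeSubtypeEquivSubtypeInter _ _)) (Equiv.refl _)))
  have h2 : Nat.card {g : G // g⁻¹ * x * g ∈ H} = Nat.card H * Nat.card (MulAction.fixedBy (G ⧸ H) x) := by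
    rw [← QuotientGroup.card_preimage_mk]
    refine Nat.card_congr (Equiv.subtypeEquivRight fun g => ?_)
    show _ ↔ x • ((g : G) : G ⧸ H) = (g : G ⧸ H)
    rw [eq_comm, MulAction.Quotient.smul_mk, QuotientGroup.eq, smul_eq_mul, mul_assoc]
  have hI := H.card_mul_index
  have h3 := h1.symm.trans h2
  apply Nat.eq_of_mul_eq_mul_right (Nat.card_pos (α := Subgroup.centralizer ({x} : Set G)))
  calc _ = Nat.card (MulAction.fixedBy (G ⧸ H) x) * Nat.card G := by rw [mul_assoc, hC]
    _ = Nat.card (MulAction.fixedBy (G ⧸ H) x) * (Nat.card H * H.index) := by rw [hI]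
    _ = H.index * (Nat.card H * Nat.card (MulAction.fixedBy (G ⧸ H) x)) := by ring
    _ = _ := by rw [← h3]; ring

end Cfsg.Agent.S1019
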