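import Cfsg.Statements.S1022
import Cfsg.Agent.Blocks.PrimeGram.SylowOrbits
-- import your own Cfsg.Agent.* helpers here

set_option autoImplicit false
open Cfsg

namespace Cfsg.Agent.S1022

open CfsgLib.Chars CfsgLib.PrimeGram

/-- No finite simple group has order 459648 = 2^7 * 3^3 * 7 * 19. -/
theorem result {G : Type*} [Group G] [Finite G] [IsSimpleGroup G] : Nat.card G ≠ 459648 := by
  intro hcard
  haveI : Fact (Nat.Prime 19) := ⟨by norm_num⟩
  haveI : Fact (Nat.Prime 7) := ⟨by norm_num⟩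
  haveI : Fact (Nat.Prime 2) := ⟨Nat.prime_two⟩
  haveI := Fintype.ofFinite G
  have hG : ¬ IsMulCommutative G :=
    CfsgLib.SmallSimple.not_comm_of_card_not_prime (by rw [hcard]; norm_num)
  obtain ⟨hn, hP⟩ := CfsgLib.PrimeGram.card_sylow_mem_of_constraints hG 19 24192
    (by rw [hcard]) (by norm_num)
  rw [show (Nat.divisors 24192).filter (fun n => n % 19 = 1 ∧ n ≠ 1) = {96, 1008} from by
    decide +kernel] at hn
  simp only [Finset.mem_insert, Finset.mem_singleton] at hn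
  obtain ⟨P⟩ := (inferInstance : Nonempty (Sylow 19 G))
  obtain ⟨hPc, hN⟩ := hP P
  obtain ⟨k, hk, hk'⟩ : ∃ k, Nat.card (Subgroup.normalizer ((P : Subgroup G) : Set G)) = 19 * k ∧
      ((k = 252 ∧ Nat.card (Sylow 19 G) = 96) ∨ k = 24) := by
    rcases hn with h | h <;> rw [h] at hN
    · exact ⟨252, by omega, Or.inl ⟨rfl, h⟩⟩
    · exact ⟨24, by omega, Or.inr rfl⟩
  obtain ⟨e, c, he, hc, hec, he1, hed⟩ := exists_index_split hG P hPc hk
  have hediv : e ∈ Nat.divisors 18 := Nat.mem_divisors.mpr ⟨hed, by norm_num⟩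
  rw [show Nat.divisors 18 = ({1, 2, 3, 6, 9, 18} : Finset ℕ) from by decide +kernel] at hediv
  simp only [Finset.mem_insert, Finset.mem_singleton] at hediv
  rcases hk' with ⟨rfl, hn96⟩ | rfl
  · -- with 96 Sylow subgroups an element of order 7 would centralise one of them
    refine not_dvd_card_centralizer hG P hPc 7 (by norm_num) (by omega) ?_
    rw [hc]
    refine dvd_mul_of_dvd_right ?_ 19
    rcases hediv with rfl | rfl | rfl | rfl | rfl | rfl <;> omega
  have hes : e = 2 ∨ e = 3 ∨ e = 6 := by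
    rcases hediv with rfl | rfl | rfl | rfl | rfl | rfl <;> omega
  have hc2 : 2 ∣ Nat.card (Subgroup.centralizer ((P : Subgroup G) : Set G)) := by
    rw [hc]; refine dvd_mul_of_dvd_right ?_ 19
    rcases hes with rfl | rfl | rfl <;> omega
  obtain ⟨-, x, X, Y, εX, ε, hz, D⟩ := exists_blockData hG P hPc e (by omega) he
  obtain ⟨u, hu, hu1, hux, hu19⟩ := exists_commuting_element (p := 19) hz 2 (by norm_num) hc2
  have hu2 : u * u = 1 := by rw [← pow_two, ← hu, pow_orderOf_eq_one]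
  have hone : charDegree (oneChar G : G → ℂ) = 1 := charDegree_linChar 1
  have hlt : ∀ χ : IrrCharacter G, charDegree (χ : G → ℂ) < 678 := fun χ => by
    have h := charDegree_sq_le χ
    rw [hcard] at h
    nlinarith
  -- the possible degrees, their signs and the value at `u`
  have keyA : ∀ A ∈ Finset.range 678, A ∣ 459648 → 38 < A → A % 19 = 1 ∨ A % 19 = 18 →
      A = 56 ∨ A = 96 ∨ A = 189 := by decide +kernel
  have hX : ∀ χ ∈ X.erase (oneChar G),
      (charDegree (χ : G → ℂ) = 56 ∧ εX χ = -1 ∧ (χ : G → ℂ) u = ((-20 : ℤ) : ℂ)) ∨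
      (charDegree (χ : G → ℂ) = 96 ∧ εX χ = 1 ∧ ((χ : G → ℂ) u = ((20 : ℤ) : ℂ) ∨
        (χ : G → ℂ) u = ((-56 : ℤ) : ℂ))) ∨
      (charDegree (χ : G → ℂ) = 189 ∧ εX χ = -1 ∧ ∃ v : ℤ, (χ : G → ℂ) u = (v : ℂ) ∧
        v ∈ ({113, 37, -39, -115} : Finset ℤ)) := by
    intro χ hχ
    have hχX := Finset.mem_of_mem_erase hχ
    have hne := Finset.ne_of_mem_erase hχ
    obtain ⟨b, hb0, hbd, hblt, hval⟩ := D.two_mul_lt_degree hG (by norm_num) hχX hne hu1 hu2 hux
    have h38 : 38 ≤ b := Nat.le_of_dvd hb0 hbd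
    have hcg := D.congrX χ hχX
    have hmod : charDegree (χ : G → ℂ) % 19 = 1 ∨ charDegree (χ : G → ℂ) % 19 = 18 := by
      rcases D.signX χ hχX with h | h <;> rw [h] at hcg <;> push_cast at hcg <;> omega
    have hA := keyA _ (Finset.mem_range.mpr (hlt χ)) (hcard ▸ charDegree_dvd_card χ) (by omega) hmod
    have hvb : (χ : G → ℂ) u = (((charDegree (χ : G → ℂ) : ℤ) - 2 * b : ℤ) : ℂ) := by
      rw [hval]; push_cast; ring
    obtain ⟨j, rfl⟩ := hbd
    rcases hA with hA | hA | hA <;> rw [hA] at hblt hcg hvb ⊢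
    · have hj : j = 1 := by omega
      subst hj
      exact Or.inl ⟨rfl, by rcases D.signX χ hχX with h | h <;> rw [h] at hcg <;>
        first | exact h | (exfalso; norm_num at hcg), by rw [hvb]; norm_num⟩
    · have hj : j = 1 ∨ j = 2 := by omega
      refine Or.inr (Or.inl ⟨rfl, by rcases D.signX χ hχX with h | h <;> rw [h] at hcg <;>
        first | exact h | (exfalso; norm_num at hcg), ?_⟩)
      rcases hj with rfl | rfl
      · exact Or.inl (by rw [hvb]; norm_num)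
      · exact Or.inr (by rw [hvb]; norm_num)
    · have hj : j = 1 ∨ j = 2 ∨ j = 3 ∨ j = 4 := by omega
      refine Or.inr (Or.inr ⟨rfl, by rcases D.signX χ hχX with h | h <;> rw [h] at hcg <;>
        first | exact h | (exfalso; norm_num at hcg), _, hvb, ?_⟩)
      rcases hj with rfl | rfl | rfl | rfl <;> norm_num
  -- the numbers of characters of each degree
  set T := fun A : ℕ => (X.erase (oneChar G)).filter fun χ : IrrCharacter G =>
    charDegree (χ : G → ℂ) = A with hT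
  have hsplit : ∀ f : IrrCharacter G → ℤ, ∑ χ ∈ X.erase (oneChar G), f χ =
      ∑ χ ∈ T 56, f χ + ∑ χ ∈ T 96, f χ + ∑ χ ∈ T 189, f χ := by
    intro f
    simp only [hT, Finset.sum_filter, ← Finset.sum_add_distrib]
    refine Finset.sum_congr rfl fun χ hχ => ?_
    rcases hX χ hχ with ⟨h, -⟩ | ⟨h, -⟩ | ⟨h, -⟩ <;> simp [h]
  have hconst : ∀ (A : ℕ) (f : IrrCharacter G → ℤ) (v : ℤ), (∀ χ ∈ T A, f χ = v) →
      ∑ χ ∈ T A, f χ = (T A).card * v := fun A f v h => by
    rw [Finset.sum_congr rfl h, Finset.sum_const, nsmul_eq_mul]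
  have hdeg : ∀ A, ∀ χ ∈ T A, charDegree (χ : G → ℂ) = A := fun A χ hχ =>
    (Finset.mem_filter.mp hχ).2
  have hsgn : ∀ A, ∀ χ ∈ T A, εX χ = if A = 96 then 1 else -1 := fun A χ hχ => by
    obtain ⟨hχ', hd⟩ := Finset.mem_filter.mp hχ
    rcases hX χ hχ' with ⟨h, hs, -⟩ | ⟨h, hs, -⟩ | ⟨h, hs, -⟩ <;> rw [hs, ← hd, h] <;> norm_num
  obtain ⟨θ, hθ⟩ : Y.Nonempty := Finset.card_pos.mp (by
    rw [D.cardY]; rcases hes with rfl | rfl | rfl <;> norm_num)
  have hcount : (T 56).card + (T 96).card + (T 189).card = e - 1 := by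
    have h := hsplit fun _ => 1
    simp only [Finset.sum_const, nsmul_eq_mul, mul_one] at h
    rw [Finset.card_erase_of_mem D.oneX, D.cardX] at h
    push_cast at h
    omega
  have heq := D.degree_eq hθ
  rw [← Finset.add_sum_erase _ _ D.oneX, hsplit, D.signOne, hone,
    hconst 56 _ (-56) (fun χ hχ => by rw [hsgn 56 χ hχ, hdeg 56 χ hχ]; norm_num),
    hconst 96 _ 96 (fun χ hχ => by rw [hsgn 96 χ hχ, hdeg 96 χ hχ]; norm_num),
    hconst 189 _ (-189) (fun χ hχ => by rw [hsgn 189 χ hχ, hdeg 189 χ hχ]; norm_num)] at heq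
  set v : ℤ := 1 + ((T 56).card * -56 + (T 96).card * 96 + (T 189).card * -189) with hv
  have hBv : charDegree (θ : G → ℂ) = v.natAbs := by
    have h1 : ε * (charDegree (θ : G → ℂ) : ℤ) = v := by rw [heq, hv]; push_cast; ring
    rw [← h1, Int.natAbs_mul, Int.natAbs_natCast]
    rcases D.sign with h | h <;> rw [h] <;> norm_num
  have hvmod : v % 19 = (e : ℤ) % 19 := by
    have h1 : ε * (charDegree (θ : G → ℂ) : ℤ) = v := by rw [heq, hv]; push_cast; ring
    have h2 := D.congrY θ hθ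
    rcases D.sign with h | h <;> rw [h] at h1 h2 <;> push_cast at h2 <;> omega
  have hvdvd : v.natAbs ∣ 459648 := hBv ▸ hcard ▸ charDegree_dvd_card θ
  have hvlt : v.natAbs < 678 := hBv ▸ hlt θ
  have key : ∀ e ∈ ([2, 3, 6] : List ℕ), ∀ i ∈ Finset.range 6, ∀ j ∈ Finset.range 6,
      ∀ l ∈ Finset.range 6, i + j + l = e - 1 →
      (1 + ((i : ℤ) * -56 + (j : ℤ) * 96 + (l : ℤ) * -189)) % 19 = (e : ℤ) % 19 →
      (1 + ((i : ℤ) * -56 + (j : ℤ) * 96 + (l : ℤ) * -189)).natAbs < 678 →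
      (1 + ((i : ℤ) * -56 + (j : ℤ) * 96 + (l : ℤ) * -189)).natAbs ∣ 459648 →
      (18 / e * (1 + ((i : ℤ) * -56 + (j : ℤ) * 96 + (l : ℤ) * -189)).natAbs ^ 2 +
        (i * 56 ^ 2 + j * 96 ^ 2 + l * 189 ^ 2) + 1 ≤ 459648) →
      i = 2 ∧ j = 2 ∧ l = 1 := by decide +kernel
  have hsq : 18 / e * v.natAbs ^ 2 +
      ((T 56).card * 56 ^ 2 + (T 96).card * 96 ^ 2 + (T 189).card * 189 ^ 2) + 1 ≤ 459648 := by
    have hsum : ∑ χ ∈ X ∪ Y, charDegree (χ : G → ℂ) ^ 2 ≤ 459648 :=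
      hcard ▸ (sum_charDegree_sq (G := G)) ▸ Finset.sum_le_sum_of_subset (Finset.subset_univ _)
    rw [Finset.sum_union D.disj, ← Finset.add_sum_erase _ _ D.oneX, hone,
      Finset.sum_congr (s₁ := Y) rfl fun θ' hθ' => show
        charDegree (θ' : G → ℂ) ^ 2 = v.natAbs ^ 2 by
      have h1 := D.degree_eq hθ'
      have h2 := D.degree_eq hθ
      rw [← hBv]
      rcases D.sign with hs | hs <;> rw [hs] at h1 h2 <;> congr 1 <;> omega,
      Finset.sum_const, smul_eq_mul, D.cardY] at hsum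
    have h := hsplit fun χ => ((charDegree (χ : G → ℂ) ^ 2 : ℕ) : ℤ)
    rw [hconst 56 _ (56 ^ 2) (fun χ hχ => by rw [hdeg 56 χ hχ]; norm_num),
      hconst 96 _ (96 ^ 2) (fun χ hχ => by rw [hdeg 96 χ hχ]; norm_num),
      hconst 189 _ (189 ^ 2) (fun χ hχ => by rw [hdeg 189 χ hχ]; norm_num)] at h
    have h' : ∑ χ ∈ X.erase (oneChar G), charDegree (χ : G → ℂ) ^ 2 =
        (T 56).card * 56 ^ 2 + (T 96).card * 96 ^ 2 + (T 189).card * 189 ^ 2 := by exact_mod_cast h
    rw [h'] at hsum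
    norm_num at hsum ⊢
    omega
  obtain ⟨h56, h96, h189⟩ := key e (by simpa using hes) _ (Finset.mem_range.mpr (by omega)) _
    (Finset.mem_range.mpr (by omega)) _ (Finset.mem_range.mpr (by omega)) hcount hvmod hvlt hvdvd hsq
  -- the centraliser of `u` is too small
  set C := Nat.card (Subgroup.centralizer ({u} : Set G)) with hCdef
  obtain ⟨α, hα⟩ := Finset.card_pos.mp (by omega : 0 < (T 56).card)
  obtain ⟨β, hβ⟩ := Finset.card_pos.mp (by omega : 0 < (T 96).card)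
  obtain ⟨γ, hγ⟩ := Finset.card_pos.mp (by omega : 0 < (T 189).card)
  have hval : ∀ A, ∀ χ ∈ T A, ∃ w : ℤ, (χ : G → ℂ) u = (w : ℂ) ∧ (A = 56 → w = -20) ∧
      (A = 96 → w = 20 ∨ w = -56) ∧
      (A = 189 → w ∈ ({113, 37, -39, -115} : Finset ℤ)) := fun A χ hχ => by
    obtain ⟨hχ', hd⟩ := Finset.mem_filter.mp hχ
    subst hd
    rcases hX χ hχ' with ⟨h, -, hw⟩ | ⟨h, -, hw | hw⟩ | ⟨h, -, w, hw, hwm⟩
    · exact ⟨-20, hw, fun _ => rfl, by omega, by omega⟩
    · exact ⟨20, hw, by omega, fun _ => Or.inl rfl, by omega⟩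
    · exact ⟨-56, hw, by omega, fun _ => Or.inr rfl, by omega⟩
    · exact ⟨w, hw, by omega, by omega, fun _ => hwm⟩
  obtain ⟨K, hK, hKdvd⟩ : ∃ K, Nat.card G = K * C ∧ 252 ∣ K := by
    obtain ⟨w₁, hw₁, ha, -, -⟩ := hval 56 α hα
    obtain ⟨w₂, hw₂, -, hb, -⟩ := hval 96 β hβ
    obtain ⟨w₃, hw₃, -, -, hg⟩ := hval 189 γ hγ
    obtain ⟨K, hK, hd1⟩ := charDegree_dvd_class α u w₁ hw₁
    obtain ⟨K₂, hK₂, hd2⟩ := charDegree_dvd_class β u w₂ hw₂
    obtain ⟨K₃, hK₃, hd3⟩ := charDegree_dvd_class γ u w₃ hw₃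
    have hC0 : 0 < C := Nat.card_pos
    have e2 : K₂ = K := Nat.eq_of_mul_eq_mul_right hC0 (hK₂.symm.trans hK)
    have e3 : K₃ = K := Nat.eq_of_mul_eq_mul_right hC0 (hK₃.symm.trans hK)
    refine ⟨K, hK, ?_⟩
    rw [hdeg 56 α hα, ha rfl] at hd1
    rw [hdeg 96 β hβ, e2] at hd2
    rw [hdeg 189 γ hγ, e3] at hd3
    norm_num at hd1
    have h14 : 14 ∣ K := by omega
    have h12 : 12 ∣ K := by
      rcases hb rfl with h | h <;> rw [h] at hd2 <;> norm_num at hd2 <;> omega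
    have h63 : 63 ∣ K := by
      have := hg rfl
      simp only [Finset.mem_insert, Finset.mem_singleton] at this
      rcases this with h | h | h | h <;> rw [h] at hd3 <;> norm_num at hd3 <;> omega
    omega
  have hCle : C ≤ 1824 := by
    obtain ⟨m, rfl⟩ := hKdvd
    rw [hcard, mul_assoc] at hK
    have hm : 0 < m := Nat.pos_of_ne_zero fun h => by simp [h] at hK
    have : C ≤ m * C := Nat.le_mul_of_pos_left C hm
    omega
  choose w hw hwa hwb hwg using hval
  have hge : (2970 : ℤ) ≤ C := by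
    let V : IrrCharacter G → ℤ := fun χ =>
      if h : χ ∈ T (charDegree (χ : G → ℂ)) then w _ χ h else 1
    have hVX : ∀ χ ∈ X, (χ : G → ℂ) u = (V χ : ℂ) := by
      intro χ hχ
      by_cases h1 : χ = oneChar G
      · subst h1
        have : oneChar G ∉ T (charDegree (oneChar G : G → ℂ)) := by simp [hT]
        simp only [V, dif_neg this, oneChar_apply, Int.cast_one]
      · have : χ ∈ T (charDegree (χ : G → ℂ)) := by simp [hT, h1, hχ]
        simp only [V, dif_pos this]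
        exact hw _ χ this
    have hV : ∀ A, ∀ χ ∈ T A, ∀ m : ℤ, (∀ h : χ ∈ T A, m ≤ w A χ h ^ 2) → m ≤ V χ ^ 2 := by
      intro A χ hχ m hm
      have e := hdeg A χ hχ
      subst e
      simp only [V, dif_pos hχ]
      exact hm hχ
    have hb56 : ∀ χ ∈ T 56, (400 : ℤ) ≤ V χ ^ 2 := fun χ hχ => hV 56 χ hχ _ fun h => by
      rw [hwa 56 χ h rfl]; norm_num
    have hb96 : ∀ χ ∈ T 96, (400 : ℤ) ≤ V χ ^ 2 := fun χ hχ => hV 96 χ hχ _ fun h => by
      rcases hwb 96 χ h rfl with e | e <;> rw [e] <;> norm_num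
    have hb189 : ∀ χ ∈ T 189, (1369 : ℤ) ≤ V χ ^ 2 := fun χ hχ => hV 189 χ hχ _ fun h => by
      have := hwg 189 χ h rfl
      simp only [Finset.mem_insert, Finset.mem_singleton] at this
      rcases this with e | e | e | e <;> rw [e] <;> norm_num
    have h1 : V (oneChar G) = 1 := by
      have : oneChar G ∉ T (charDegree (oneChar G : G → ℂ)) := by simp [hT]
      simp only [V, dif_neg this]
    have hle := sum_sq_le_centralizer X u V hVX
    rw [← Finset.add_sum_erase _ _ D.oneX, hsplit, h1] at hle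
    have i1 := Finset.card_nsmul_le_sum _ _ _ hb56
    have i2 := Finset.card_nsmul_le_sum _ _ _ hb96
    have i3 := Finset.card_nsmul_le_sum _ _ _ hb189
    rw [h56] at i1; rw [h96] at i2; rw [h189] at i3
    norm_num at i1 i2 i3 hle ⊢
    linarith
  omega

end Cfsg.Agent.S1022
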