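import Cfsg.Statements.S1024
import Cfsg.Agent.Eq.Def_Chevalley
import Cfsg.Agent.Eq.Def_ChevWords
import Mathlib

set_option autoImplicit false
open Cfsg

namespace Cfsg.Agent.S1024

/-- `x_r(0) = 1`, and `x_r(t) = 1` forces `t = 0`: the map `t ↦ x_r(t)` is injective. -/
theorem result {F : Type*} [Field F] (D : Cfsg.Lie.ChevalleyDatum) (hD : D ∈ [Cfsg.Lie.chevG2, Cfsg.Lie.chevB2, Cfsg.Lie.chevD4, Cfsg.Lie.chevF4, Cfsg.Lie.chevE6, Cfsg.Lie.chevE7, Cfsg.Lie.chevE8]) (r : ℕ) (hr : r < D.nroots) (t : F) :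
    D.x F r t = 1 ↔ t = 0 := by
  have hchk : ∀ D' ∈ [Cfsg.Lie.chevG2, Cfsg.Lie.chevB2, Cfsg.Lie.chevD4, Cfsg.Lie.chevF4, Cfsg.Lie.chevE6, Cfsg.Lie.chevE7, Cfsg.Lie.chevE8],
      ∀ r < D'.nroots, D'.negIdx.getD r 0 < D'.nroots ∧ D'.negIdx.getD r 0 ≠ r := by decide +kernel
  obtain ⟨hn1, hn2⟩ := hchk D hD r hr
  simp only [Cfsg.Lie.ChevalleyDatum.x, hr, dite_true]
  constructor
  · intro h
    have := congrFun (congrFun h (Sum.inr ⟨r, hr⟩)) (Sum.inr ⟨D.negIdx.getD r 0, hn1⟩)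
    simp only [Cfsg.Lie.ChevalleyDatum.xMat, Matrix.of_apply, Matrix.one_apply, Sum.inr.injEq, Fin.ext_iff, if_neg hn2, if_neg hn2.symm, if_true] at this
    simpa using this
  · rintro rfl
    have hz : ∀ s u, ((D.chainCoeff r s u).map fun km => ((km.2 : ℤ) : F) * (0 : F) ^ km.1).sum = 0 := by
      intro s u
      refine List.sum_eq_zero fun x hx => ?_
      obtain ⟨km, hkm, rfl⟩ := List.mem_map.1 hx
      simp only [Cfsg.Lie.ChevalleyDatum.chainCoeff, List.mem_flatMap, List.mem_map] at hkm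
      obtain ⟨e, _, q, _, rfl⟩ := hkm
      simp
    ext row col
    rcases col with i | s <;> rcases row with i' | u <;>
      simp only [Cfsg.Lie.ChevalleyDatum.xMat, Matrix.of_apply, Matrix.one_apply, Sum.inr.injEq, Sum.inl.injEq, reduceCtorEq, Fin.ext_iff, hz, add_zero, mul_zero, neg_zero, ne_eq, OfNat.ofNat_ne_zero, not_false_eq_true, zero_pow, if_false] <;>
      split_ifs <;> first | rfl | omega

end Cfsg.Agent.S1024
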