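import Cfsg.Statements.S1026
import Cfsg.Agent.Chevalley.All
import Cfsg.Agent.Chevalley.RankOne

set_option autoImplicit false
open Cfsg

namespace Cfsg.Agent.S1026

/-- Every element of `U` has a unique expression `∏_{r ∈ Φ⁺} x_r(t_r)`, the product over the positive roots in increasing index order (the coefficient family `t`, supported on the positive roots, exists and is unique); and conversely every such ordered product is the matrix of an element of `U`. -/
theorem result {F : Type*} [Field F] (D : Cfsg.Lie.ChevalleyDatum) (hD : D ∈ [Cfsg.Lie.chevG2, Cfsg.Lie.chevB2, Cfsg.Lie.chevD4, Cfsg.Lie.chevF4, Cfsg.Lie.chevE6, Cfsg.Lie.chevE7, Cfsg.Lie.chevE8]) :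
    (∀ g : GL D.Idx F, g ∈ D.posUnipotent F →
      ∃! t : ℕ → F, (∀ r, ¬ D.IsPosRoot r → t r = 0) ∧
        (g : Matrix D.Idx D.Idx F) = D.wordMat F (D.posRoots.map fun r => (r, t r))) ∧
    (∀ t : ℕ → F, ∃ g : GL D.Idx F, g ∈ D.posUnipotent F ∧
      (g : Matrix D.Idx D.Idx F) = D.wordMat F (D.posRoots.map fun r => (r, t r))) := by
  obtain ⟨S⟩ := CfsgLib.Chevalley.sys_of_mem hD
  refine ⟨fun g hg => ?_, fun t => ?_⟩
  · rw [← CfsgLib.Chevalley.uSub_univ] at hg
    obtain ⟨t, ht, rfl⟩ := S.exists_ordProd_half F S.closed_univ hg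
    refine ⟨t, ⟨fun r hr => ?_, S.ordProd_val F t⟩, fun u hu => ?_⟩
    · by_contra h
      exact hr ((S.pos_iff r).mpr (ht r h).2)
    · have e : S.ordProd F t (D.nroots / 2) = S.ordProd F u (D.nroots / 2) :=
        Units.ext (by rw [S.ordProd_val F t, S.ordProd_val F u] at *; exact hu.2)
      funext r
      by_cases hr : D.IsPosRoot r
      · obtain ⟨h1, h2⟩ := (S.pos_iff r).mp hr
        exact (S.ordProd_inj_half F e h1 h2).symm
      · rw [hu.1 r hr]
        by_contra h
        exact hr ((S.pos_iff r).mpr (ht r (Ne.symm h)).2)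
  · refine ⟨S.ordProd F t (D.nroots / 2), ?_, S.ordProd_val F t⟩
    rw [← CfsgLib.Chevalley.uSub_univ]
    exact S.ordProd_mem F t le_rfl fun r _ _ => Or.inl trivial

end Cfsg.Agent.S1026
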