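import Cfsg.Statements.S1032
import Cfsg.Agent.Chevalley.All
import Cfsg.Agent.Chevalley.Borel

set_option autoImplicit false
open Cfsg

namespace Cfsg.Agent.S1032

/-- For a fundamental root `p`, a root `s` and `c ≠ 0`: `h_p(c) x_s(t) h_p(c)⁻¹ = x_s(c^{A_{p,s}} t)`, stated as `h_p(c) x_s(t) = x_s(c^{A_{p,s}} t) h_p(c)`. -/
theorem result {F : Type*} [Field F] (D : Cfsg.Lie.ChevalleyDatum) (hD : D ∈ [Cfsg.Lie.chevG2, Cfsg.Lie.chevB2, Cfsg.Lie.chevD4, Cfsg.Lie.chevF4, Cfsg.Lie.chevE6, Cfsg.Lie.chevE7, Cfsg.Lie.chevE8]) (i s : ℕ) (hi : i < D.rank) (hs : s < D.nroots) (c : F) (hc : c ≠ 0) (t : F) :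
    D.hMat F (D.simple i) c * D.x F s t = D.x F s (c ^ (D.cartan i s) * t) * D.hMat F (D.simple i) c := by
  obtain ⟨S⟩ := CfsgLib.Chevalley.sys_of_mem hD
  rw [S.hMat_simple F hi hc]
  have hcast : (fun s => c ^ D.cartan i s) =
      fun s => ((CfsgLib.Chevalley.torusVal D (Pi.mulSingle i (Units.mk0 c hc)) s : Fˣ) : F) := by
    funext u
    rw [CfsgLib.Chevalley.torusVal, Finset.prod_eq_single_of_mem i (Finset.mem_range.mpr hi),
      Pi.mulSingle_eq_same, Units.val_zpow_eq_zpow_val, Units.val_mk0]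
    intro b _ hb
    rw [Pi.mulSingle_eq_of_ne hb, one_zpow]
  rw [hcast, S.dg_x (S.torusVal_isChar F _) hs, ← congrFun hcast s]

end Cfsg.Agent.S1032
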