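import Cfsg.Statements.S1034
import Cfsg.Agent.Chevalley.All
import Cfsg.Agent.Chevalley.Borel

set_option autoImplicit false
open Cfsg

namespace Cfsg.Agent.S1034

/-- Every element of `H` is a product `h_{p_1}(c_1) ⋯ h_{p_l}(c_l)` over the fundamental roots, with non-zero `c_i`. -/
theorem result {F : Type*} [Field F] (D : Cfsg.Lie.ChevalleyDatum) (hD : D ∈ [Cfsg.Lie.chevG2, Cfsg.Lie.chevB2, Cfsg.Lie.chevD4, Cfsg.Lie.chevF4, Cfsg.Lie.chevE6, Cfsg.Lie.chevE7, Cfsg.Lie.chevE8]) (g : GL D.Idx F) (hg : g ∈ D.diagonalSubgroup F) :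
    ∃ c : ℕ → F, (∀ i < D.rank, c i ≠ 0) ∧
      (g : Matrix D.Idx D.Idx F) = D.wordMat F ((List.range D.rank).flatMap fun i => D.hWord (D.simple i) (c i)) := by
  obtain ⟨S⟩ := CfsgLib.Chevalley.sys_of_mem hD
  rw [S.diagonal_eq] at hg
  obtain ⟨c, rfl⟩ := hg
  refine ⟨fun i => (c i : F), fun i _ => (c i).ne_zero, ?_⟩
  have key : ∀ n ≤ D.rank,
      D.wordMat F ((List.range n).flatMap fun i => D.hWord (D.simple i) (c i : F)) =
        CfsgLib.Chevalley.dg D fun s => ∏ j ∈ Finset.range n, (c j : F) ^ D.cartan j s := by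
    intro n hn
    induction n with
    | zero =>
      rw [List.range_zero, List.flatMap_nil, CfsgLib.Chevalley.wordMat_nil]
      exact (CfsgLib.Chevalley.dg_one fun s _ => by simp).symm
    | succ n ih =>
      rw [List.range_succ, List.flatMap_append, List.flatMap_singleton,
        CfsgLib.Chevalley.wordMat_append, ih (by omega)]
      conv_lhs => arg 2; change D.hMat F (D.simple n) (c n : F)
      rw [S.hMat_simple F (show n < D.rank by omega) (c n).ne_zero, CfsgLib.Chevalley.dg_mul]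
      exact CfsgLib.Chevalley.dg_congr fun s _ => by rw [Finset.prod_range_succ]
  rw [key D.rank le_rfl, S.tor_val]
  exact CfsgLib.Chevalley.dg_congr fun s _ => CfsgLib.Chevalley.torusVal_mul_cast c s

end Cfsg.Agent.S1034
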