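import Cfsg.Statements.S1037
import Cfsg.Agent.Chevalley.All
import Cfsg.Agent.Chevalley.Borel

set_option autoImplicit false
open Cfsg

namespace Cfsg.Agent.S1037

/-- `UH ∩ V = 1` and `UH ∩ VH = H`. -/
theorem result {F : Type*} [Field F] (D : Cfsg.Lie.ChevalleyDatum) (hD : D ∈ [Cfsg.Lie.chevG2, Cfsg.Lie.chevB2, Cfsg.Lie.chevD4, Cfsg.Lie.chevF4, Cfsg.Lie.chevE6, Cfsg.Lie.chevE7, Cfsg.Lie.chevE8]) :
    D.borelSubgroup F ⊓ D.negUnipotent F = ⊥ ∧
      D.borelSubgroup F ⊓ (D.negUnipotent F ⊔ D.diagonalSubgroup F) = D.diagonalSubgroup F := by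
  obtain ⟨S⟩ := CfsgLib.Chevalley.sys_of_mem hD
  refine ⟨S.borel_inf_neg F, le_antisymm ?_ (le_inf le_sup_right le_sup_right)⟩
  rintro g ⟨hB, hVH⟩
  have hnorm : D.diagonalSubgroup F ≤
      Subgroup.normalizer (D.negUnipotent F : Set (GL D.Idx F)) := by
    rw [S.diagonal_eq]
    rintro _ ⟨c, rfl⟩
    have hle : ∀ c : ℕ → Fˣ, ∀ g ∈ D.negUnipotent F,
        CfsgLib.Chevalley.tor D F c * g * (CfsgLib.Chevalley.tor D F c)⁻¹ ∈ D.negUnipotent F := by
      intro c g hg
      rw [S.negUnipotent_eq] at hg ⊢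
      induction hg using Subgroup.closure_induction with
      | mem x hx =>
        obtain ⟨r, hr, t, rfl⟩ := hx
        exact Subgroup.subset_closure ⟨r, hr, _, S.tor_conj F c (by omega) t⟩
      | one => simp
      | mul x y _ _ hx hy => simpa [mul_assoc] using mul_mem hx hy
      | inv x _ hx => simpa [mul_assoc] using inv_mem hx
    rw [Subgroup.mem_normalizer_iff]
    refine fun g => ⟨hle c g, fun h => ?_⟩
    have := hle c⁻¹ _ h
    simpa [mul_assoc] using this
  replace hB : g ∈ D.borelSubgroup F := hB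
  replace hVH : g ∈ ((D.negUnipotent F ⊔ D.diagonalSubgroup F : Subgroup _) : Set (GL D.Idx F)) := hVH
  rw [Subgroup.coe_mul_of_right_le_normalizer_left _ _ hnorm] at hVH
  obtain ⟨v, hv, h, hh, rfl⟩ := hVH
  have hhB : h ∈ D.borelSubgroup F := Subgroup.mem_sup_right hh
  have hvB : v ∈ D.borelSubgroup F := by simpa using mul_mem hB (inv_mem hhB)
  have hv1 : v = 1 := by
    have := S.borel_inf_neg F
    rw [eq_bot_iff] at this
    exact Subgroup.mem_bot.mp (this ⟨hvB, hv⟩)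
  subst hv1
  simpa using hh

end Cfsg.Agent.S1037
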