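import Cfsg.Statements.S1039
import Cfsg.Agent.Chevalley.All
import Cfsg.Agent.Chevalley.Coxeter

set_option autoImplicit false
open Cfsg

namespace Cfsg.Agent.S1039

/-- `N/H ≅ W`: there is a surjective homomorphism from `N` onto the Coxeter group of the type (Mathlib's Coxeter matrix G₂, B₂, F₄, E₆, E₇, E₈, nodes numbered as the fundamental roots) with kernel `H`, mapping each `n_{p_i}` to the `i`-th simple reflection. -/
theorem result {F : Type*} [Field F]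
    (p : Cfsg.Lie.ChevalleyDatum × (Σ n : ℕ, CoxeterMatrix (Fin n)))
    (hp : p ∈ [(Cfsg.Lie.chevG2, ⟨2, CoxeterMatrix.G₂⟩), (Cfsg.Lie.chevB2, ⟨2, CoxeterMatrix.B 2⟩), (Cfsg.Lie.chevD4, ⟨4, Cfsg.Lie.coxeterD4⟩), (Cfsg.Lie.chevF4, ⟨4, CoxeterMatrix.F₄⟩),
      (Cfsg.Lie.chevE6, ⟨6, CoxeterMatrix.E₆⟩), (Cfsg.Lie.chevE7, ⟨7, CoxeterMatrix.E₇⟩), (Cfsg.Lie.chevE8, ⟨8, CoxeterMatrix.E₈⟩)]) :
    ∃ φ : ↥(p.1.monomialSubgroup F) →* p.2.2.Group, Function.Surjective φ ∧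
      φ.ker = (p.1.diagonalSubgroup F).subgroupOf (p.1.monomialSubgroup F) ∧
      ∀ (i : Fin p.2.1) (g : ↥(p.1.monomialSubgroup F)),
        ((g : GL p.1.Idx F) : Matrix p.1.Idx p.1.Idx F) = p.1.nMat F (p.1.simple i) 1 → φ g = p.2.2.simple i := by
  simp only [List.mem_cons, List.not_mem_nil, or_false] at hp
  rcases hp with rfl | rfl | rfl | rfl | rfl | rfl | rfl
  · obtain ⟨φ, h1, h2, h3⟩ := CfsgLib.Chevalley.sysG2.exists_monomial_hom F CoxeterMatrix.G₂ (by decide +kernel)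
    refine ⟨φ, h1, h2, fun i g hg => ?_⟩
    refine Eq.trans (congrArg φ ?_) (h3 i)
    exact Subtype.ext (Units.ext (hg.trans (CfsgLib.Chevalley.sysG2.nG_val F _ _).symm))
  · obtain ⟨φ, h1, h2, h3⟩ := CfsgLib.Chevalley.sysB2.exists_monomial_hom F (CoxeterMatrix.B 2) (by decide +kernel)
    refine ⟨φ, h1, h2, fun i g hg => ?_⟩
    refine Eq.trans (congrArg φ ?_) (h3 i)
    exact Subtype.ext (Units.ext (hg.trans (CfsgLib.Chevalley.sysB2.nG_val F _ _).symm))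
  · obtain ⟨φ, h1, h2, h3⟩ := CfsgLib.Chevalley.sysD4.exists_monomial_hom F Cfsg.Lie.coxeterD4 (by decide +kernel)
    refine ⟨φ, h1, h2, fun i g hg => ?_⟩
    refine Eq.trans (congrArg φ ?_) (h3 i)
    exact Subtype.ext (Units.ext (hg.trans (CfsgLib.Chevalley.sysD4.nG_val F _ _).symm))
  · obtain ⟨φ, h1, h2, h3⟩ := CfsgLib.Chevalley.sysF4.exists_monomial_hom F CoxeterMatrix.F₄ (by decide +kernel)
    refine ⟨φ, h1, h2, fun i g hg => ?_⟩
    refine Eq.trans (congrArg φ ?_) (h3 i)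
    exact Subtype.ext (Units.ext (hg.trans (CfsgLib.Chevalley.sysF4.nG_val F _ _).symm))
  · obtain ⟨φ, h1, h2, h3⟩ := CfsgLib.Chevalley.sysE6.exists_monomial_hom F CoxeterMatrix.E₆ (by decide +kernel)
    refine ⟨φ, h1, h2, fun i g hg => ?_⟩
    refine Eq.trans (congrArg φ ?_) (h3 i)
    exact Subtype.ext (Units.ext (hg.trans (CfsgLib.Chevalley.sysE6.nG_val F _ _).symm))
  · obtain ⟨φ, h1, h2, h3⟩ := CfsgLib.Chevalley.sysE7.exists_monomial_hom F CoxeterMatrix.E₇ (by decide +kernel)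
    refine ⟨φ, h1, h2, fun i g hg => ?_⟩
    refine Eq.trans (congrArg φ ?_) (h3 i)
    exact Subtype.ext (Units.ext (hg.trans (CfsgLib.Chevalley.sysE7.nG_val F _ _).symm))
  · obtain ⟨φ, h1, h2, h3⟩ := CfsgLib.Chevalley.sysE8.exists_monomial_hom F CoxeterMatrix.E₈ (by decide +kernel)
    refine ⟨φ, h1, h2, fun i g hg => ?_⟩
    refine Eq.trans (congrArg φ ?_) (h3 i)
    exact Subtype.ext (Units.ext (hg.trans (CfsgLib.Chevalley.sysE8.nG_val F _ _).symm))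

end Cfsg.Agent.S1039
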