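import Cfsg.Statements.S1041
import Cfsg.Agent.Eq.Def_ChevStructure
import Cfsg.Agent.Eq.Def_LieTypes
import Cfsg.Agent.Eq.Def_ChevB2

set_option autoImplicit false
open Cfsg

namespace Cfsg.Agent.S1041

/-- `U` and `V` generate the whole Chevalley group. -/
theorem result {F : Type*} [Field F] (D : Cfsg.Lie.ChevalleyDatum) (hD : D ∈ [Cfsg.Lie.chevG2, Cfsg.Lie.chevB2, Cfsg.Lie.chevD4, Cfsg.Lie.chevF4, Cfsg.Lie.chevE6, Cfsg.Lie.chevE7, Cfsg.Lie.chevE8]) : D.posUnipotent F ⊔ D.negUnipotent F = D.group F := by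
  have hall : ∀ r < D.nroots, D.IsPosRoot r ∨ D.IsNegRoot r := by
    fin_cases hD <;> decide +kernel
  apply le_antisymm
  · refine sup_le ?_ ?_ <;>
    · refine Subgroup.closure_le _ |>.mpr ?_
      rintro g ⟨r, t, hr, hg⟩
      refine Subgroup.subset_closure ⟨⟨r, hr.1⟩, t, ?_⟩
      rw [hg, Cfsg.Lie.ChevalleyDatum.x, dif_pos hr.1]
  · refine Subgroup.closure_le _ |>.mpr ?_
    rintro g ⟨⟨r, hr⟩, t, hg⟩
    rcases hall r hr with h | h
    · exact Subgroup.mem_sup_left (Subgroup.subset_closure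
        ⟨r, t, h, by rw [hg, Cfsg.Lie.ChevalleyDatum.x, dif_pos hr]⟩)
    · exact Subgroup.mem_sup_right (Subgroup.subset_closure
        ⟨r, t, h, by rw [hg, Cfsg.Lie.ChevalleyDatum.x, dif_pos hr]⟩)

end Cfsg.Agent.S1041
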