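import Cfsg.Statements.S1043
import Cfsg.Agent.Chevalley.All
import Cfsg.Agent.Chevalley.Borel

set_option autoImplicit false
open Cfsg

namespace Cfsg.Agent.S1043

/-- `B ≤ G`, `N ≤ G` and `B ⊔ N = G` for the Chevalley group `G` generated by all root elements. -/
theorem result {F : Type*} [Field F] (D : Cfsg.Lie.ChevalleyDatum) (hD : D ∈ [Cfsg.Lie.chevG2, Cfsg.Lie.chevB2, Cfsg.Lie.chevD4, Cfsg.Lie.chevF4, Cfsg.Lie.chevE6, Cfsg.Lie.chevE7, Cfsg.Lie.chevE8]) :
    D.borelSubgroup F ≤ D.group F ∧ D.monomialSubgroup F ≤ D.group F ∧ D.borelSubgroup F ⊔ D.monomialSubgroup F = D.group F := by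
  obtain ⟨S⟩ := CfsgLib.Chevalley.sys_of_mem hD
  have hpos : ∀ r, D.nroots / 2 ≤ r → r < D.nroots → ∀ t : F,
      S.xG F r t ∈ D.borelSubgroup F ⊔ D.monomialSubgroup F := fun r hp hr t =>
    Subgroup.mem_sup_left (Subgroup.mem_sup_left
      (Subgroup.subset_closure ⟨r, t, (S.pos_iff r).mpr ⟨hp, hr⟩, rfl⟩))
  have hU : D.posUnipotent F ≤ D.group F := by
    rw [S.posUnipotent_eq, Subgroup.closure_le]
    rintro _ ⟨r, hr, t, rfl⟩
    exact S.xG_mem F hr.2 t
  have hH : D.diagonalSubgroup F ≤ D.group F := by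
    refine (Subgroup.closure_le _).mpr ?_
    rintro g ⟨r, t, hr, -, hg⟩
    have : g = S.wG F (D.hWord r t) := Units.ext (hg.trans (S.wG_val F _).symm)
    rw [this]
    refine S.wG_mem F fun e he => ?_
    simp [Cfsg.Lie.ChevalleyDatum.hWord, Cfsg.Lie.ChevalleyDatum.nWord] at he
    rcases he with rfl | rfl | rfl | rfl | rfl | rfl <;>
      first | exact hr | exact S.wf.neg_lt r hr
  have hN : D.monomialSubgroup F ≤ D.group F := by
    refine sup_le hH ((Subgroup.closure_le _).mpr ?_)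
    rintro g ⟨r, hr, hg⟩
    have : g = S.nG F r 1 := Units.ext (hg.trans (S.nG_val F r 1).symm)
    rw [this]
    exact S.nG_mem F hr 1
  refine ⟨sup_le hU hH, hN, le_antisymm (sup_le (sup_le hU hH) hN) ?_⟩
  rw [S.group_eq, Subgroup.closure_le]
  rintro _ ⟨r, hr, t, rfl⟩
  rcases lt_or_ge r (D.nroots / 2) with hp | hp
  swap
  · exact hpos r hp hr t
  by_cases ht : t = 0
  · rw [ht, S.xG_zero]; exact one_mem _
  have hq := S.root_lt_pos hr hp
  have hql := S.wf.neg_lt r hr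
  -- `x_r(t) = x_{-r}(t⁻¹) n_{-r}(-t⁻¹) x_{-r}(t⁻¹)`
  have hn : S.nG F (D.neg r) (-t⁻¹) ∈ D.borelSubgroup F ⊔ D.monomialSubgroup F := by
    refine Subgroup.mem_sup_right ?_
    have h1 : S.nG F (D.neg r) 1 ∈ D.monomialSubgroup F :=
      Subgroup.mem_sup_right (Subgroup.subset_closure ⟨D.neg r, hql, S.nG_val F _ _⟩)
    have h2 : S.nG F (D.neg r) (-t⁻¹) * (S.nG F (D.neg r) 1)⁻¹ ∈ D.monomialSubgroup F := by
      refine Subgroup.mem_sup_left (Subgroup.subset_closure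
        ⟨D.neg r, -t⁻¹, hql, neg_ne_zero.mpr (inv_ne_zero ht), ?_⟩)
      rw [S.hMat_eq, Units.val_mul, S.nG_val]
      congr 1
      rw [← S.nG_val]
      rw [Units.inv_eq_of_mul_eq_one_right (u := S.nG F (D.neg r) 1)
        (a := D.nMat F (D.neg r) (-1)) (by rw [S.nG_val]; exact S.nMat_mul_neg F _), S.nG_val]
    simpa using mul_mem h2 h1
  have hx : S.xG F r t = S.xG F (D.neg r) t⁻¹ * S.nG F (D.neg r) (-t⁻¹) * S.xG F (D.neg r) t⁻¹ := by
    have e : S.nG F (D.neg r) (-t⁻¹) =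
        S.xG F (D.neg r) (-t⁻¹) * S.xG F r t * S.xG F (D.neg r) (-t⁻¹) := by
      apply Units.ext
      rw [S.nG_val, S.nMat_eq, Units.val_mul, Units.val_mul, S.xG_val, S.xG_val,
        S.wf.neg_neg r hr, inv_neg, inv_inv, neg_neg]
    rw [e, ← S.xG_inv]
    group
  rw [hx]
  exact mul_mem (mul_mem (hpos _ hq hql _) hn) (hpos _ hq hql _)

end Cfsg.Agent.S1043
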