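import Cfsg.Statements.S1046
import Cfsg.Agent.Chevalley.Support

set_option autoImplicit false
open Cfsg

namespace Cfsg.Agent.S1046

/-- Two elements of `H` conjugate in the Chevalley group are conjugate by an element of `N`. -/
theorem result {F : Type*} [Field F] (D : Cfsg.Lie.ChevalleyDatum) (hD : D ∈ [Cfsg.Lie.chevG2, Cfsg.Lie.chevB2, Cfsg.Lie.chevD4, Cfsg.Lie.chevF4, Cfsg.Lie.chevE6, Cfsg.Lie.chevE7, Cfsg.Lie.chevE8]) (h₁ h₂ g : GL D.Idx F) (h1 : h₁ ∈ D.diagonalSubgroup F) (h2 : h₂ ∈ D.diagonalSubgroup F)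
    (hg : g ∈ D.group F) (hc : g * h₁ * g⁻¹ = h₂) :
    ∃ n ∈ D.monomialSubgroup F, n * h₁ * n⁻¹ = h₂ := by
  obtain ⟨S⟩ := CfsgLib.Chevalley.sys_of_mem hD
  obtain ⟨b, hb, n, u, hu, rfl⟩ := S.normal_form_exists F hg
  refine ⟨n, n.2, ?_⟩
  have hflip : ∀ v ∈ CfsgLib.Chevalley.uSub D F (S.flipSet F n),
      (n : GL D.Idx F) * v * (n : GL D.Idx F)⁻¹ ∈ D.negUnipotent F := by
    intro v hv
    refine CfsgLib.Chevalley.closure_conj_mem ?_ hv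
    rintro x ⟨r, t, ⟨⟨hr, hr1⟩, -⟩, hx⟩
    obtain ⟨c, -, hct⟩ := S.conj_root F n ⟨r, hr⟩
    rw [S.eq_xG F hx, show S.xG F r t = S.xG F (⟨r, hr⟩ : Fin D.nroots) t from rfl, (hct t).1]
    exact S.xG_mem_negUnipotent F hr1 _
  obtain ⟨c1, hc1⟩ : ∃ c, h₁ = CfsgLib.Chevalley.tor D F c := by
    rw [S.diagonal_eq] at h1
    obtain ⟨c, rfl⟩ := h1
    exact ⟨c, rfl⟩
  have hk : (n : GL D.Idx F) * h₁ * (n : GL D.Idx F)⁻¹ ∈ D.diagonalSubgroup F :=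
    (Subgroup.mem_normalizer_iff.mp (S.monomial_le_normalizer F n.2) _).mp h1
  have hu1 : h₁⁻¹ * u * h₁ ∈ CfsgLib.Chevalley.uSub D F (S.flipSet F n) := by
    have := S.tor_conj_uSub F c1⁻¹ hu
    rwa [map_inv, inv_inv, ← hc1] at this
  have e : b * ((n : GL D.Idx F) * h₁ * (n : GL D.Idx F)⁻¹) * n * (h₁⁻¹ * u * h₁) =
      h₂ * b * n * u := by
    rw [← hc]
    group
  have hHB : D.diagonalSubgroup F ≤ D.borelSubgroup F := le_sup_right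
  have e2 := (S.normal_form_unique F (mul_mem hb (hHB hk)) (mul_mem (hHB h2) hb)
    (hflip _ hu1) (hflip _ hu) e).1
  obtain ⟨v, hv, d, rfl⟩ := (S.mem_borel F).mp hb
  have hd : CfsgLib.Chevalley.tor D F d ∈ D.diagonalSubgroup F := by
    rw [S.diagonal_eq]; exact ⟨d, rfl⟩
  generalize hkdef : (n : GL D.Idx F) * h₁ * (n : GL D.Idx F)⁻¹ = k at hk e2
  generalize CfsgLib.Chevalley.tor D F d = t at hd e2
  have hv2 : h₂ * v * h₂⁻¹ ∈ D.posUnipotent F :=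
    (Subgroup.mem_normalizer_iff.mp (S.diagonal_le_normalizer F h2) _).mp hv
  have hH : h₂ * t * k⁻¹ * t⁻¹ ∈ D.diagonalSubgroup F :=
    mul_mem (mul_mem (mul_mem h2 hd) (inv_mem hk)) (inv_mem hd)
  have hU : h₂ * t * k⁻¹ * t⁻¹ ∈ D.posUnipotent F := by
    have e3 : h₂ * t * k⁻¹ * t⁻¹ = (h₂ * v * h₂⁻¹)⁻¹ * v := by
      calc h₂ * t * k⁻¹ * t⁻¹
          = (h₂ * v * h₂⁻¹)⁻¹ * (h₂ * (v * t)) * k⁻¹ * t⁻¹ := by group
        _ = (h₂ * v * h₂⁻¹)⁻¹ * (v * t * k) * k⁻¹ * t⁻¹ := by rw [e2]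
        _ = _ := by group
    rw [e3]
    exact mul_mem (inv_mem hv2) hv
  have h0 : h₂ * t * k⁻¹ * t⁻¹ ∈ D.posUnipotent F ⊓ D.diagonalSubgroup F := ⟨hU, hH⟩
  rw [S.posUnipotent_inf_diagonal F, Subgroup.mem_bot, mul_inv_eq_one, mul_inv_eq_iff_eq_mul,
    S.diagonal_comm F h2 hd] at h0
  exact (mul_left_cancel h0).symm

end Cfsg.Agent.S1046
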