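import Cfsg.Statements.S1056
import Cfsg.Agent.Chevalley.Simple
import Cfsg.Agent.Chevalley.All
import Cfsg.Agent.S1050
import Cfsg.Agent.S1051
import Cfsg.Agent.S1052

set_option autoImplicit false
open Cfsg

namespace Cfsg.Agent.S1056

/-- B₂(F) is simple for every field `F` other than the field with two elements. -/
theorem result {F : Type*} [Field F] (hF : ∃ a : F, a ≠ 0 ∧ a ≠ 1) : IsSimpleGroup ↥(Cfsg.Lie.chevB2.group F) ∧ ¬ IsMulCommutative ↥(Cfsg.Lie.chevB2.group F) := by
  exact CfsgLib.Chevalley.sysB2.isSimple F (O := [0, 1]) (by decide) (by decide +kernel)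
      (by decide +kernel) (Cfsg.Agent.S1050.result Cfsg.Lie.chevB2 (by simp)) (Cfsg.Agent.S1051.result Cfsg.Lie.chevB2 (by simp))
      (Cfsg.Agent.S1052.result Cfsg.Lie.chevB2 (by simp) (fun _ => hF))

end Cfsg.Agent.S1056
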