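import Cfsg.Statements.S1081
import Cfsg.Agent.Chevalley.GraphData
import Cfsg.Agent.Chevalley.Data.SysE6
import Cfsg.Agent.Chevalley.Data.SysD4

set_option autoImplicit false
open Cfsg

namespace Cfsg.Agent.S1081

/-- Graph automorphisms: for E₆ with ρ = (p₁ p₆)(p₃ p₅) and for D₄ with ρ the 3-cycle on the outer nodes there is a group automorphism sending `x_p(t) ↦ x_{ρ(p)}(t)` and `x_{-p}(t) ↦ x_{-ρ(p)}(t)` for every fundamental root `p`. -/
theorem result {F : Type*} [Field F] (p : Cfsg.Lie.ChevalleyDatum × List ℕ)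
    (hp : p ∈ [(Cfsg.Lie.chevE6, [5, 1, 4, 3, 2, 0]), (Cfsg.Lie.chevD4, [2, 1, 3, 0]), (Cfsg.Lie.chevD4, [3, 1, 0, 2])]) :
    ∃ α : ↥(p.1.group F) ≃* ↥(p.1.group F), ∀ (g : ↥(p.1.group F)) (i : ℕ) (t : F), i < p.1.rank →
      (((g : GL p.1.Idx F) : Matrix p.1.Idx p.1.Idx F) = p.1.x F (p.1.simple i) t →
        ((α g : GL p.1.Idx F) : Matrix p.1.Idx p.1.Idx F) = p.1.x F (p.1.simple (p.2.getD i 0)) t) ∧
      (((g : GL p.1.Idx F) : Matrix p.1.Idx p.1.Idx F) = p.1.x F (p.1.neg (p.1.simple i)) t →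
        ((α g : GL p.1.Idx F) : Matrix p.1.Idx p.1.Idx F) = p.1.x F (p.1.neg (p.1.simple (p.2.getD i 0))) t) := by
  have key : ∀ (D : Cfsg.Lie.ChevalleyDatum) (p : ℕ → ℕ) (e : ℕ → ℤ) (q : ℕ → ℕ) (ρ : List ℕ),
      CfsgLib.Chevalley.WellFormed D → CfsgLib.Chevalley.Sym D p e q →
      (∀ i < D.rank, p (D.simple i) = D.simple (ρ.getD i 0) ∧ e (D.simple i) = 1) →
      ∃ α : ↥(D.group F) ≃* ↥(D.group F), ∀ (g : ↥(D.group F)) (i : ℕ) (t : F), i < D.rank →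
        (((g : GL D.Idx F) : Matrix D.Idx D.Idx F) = D.x F (D.simple i) t →
          ((α g : GL D.Idx F) : Matrix D.Idx D.Idx F) = D.x F (D.simple (ρ.getD i 0)) t) ∧
        (((g : GL D.Idx F) : Matrix D.Idx D.Idx F) = D.x F (D.neg (D.simple i)) t →
          ((α g : GL D.Idx F) : Matrix D.Idx D.Idx F) = D.x F (D.neg (D.simple (ρ.getD i 0))) t) := by
    intro D p e q ρ wf G hs
    obtain ⟨α, hα⟩ := G.exists_aut F wf
    refine ⟨α, fun g i t hi => ⟨fun hg => ?_, fun hg => ?_⟩⟩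
    · rw [hα g _ t (wf.simple_lt i hi) hg, (hs i hi).1, (hs i hi).2, Int.cast_one, one_mul]
    · have hl := wf.simple_lt i hi
      rw [hα g _ t (wf.neg_lt _ hl) hg, G.p_neg _ hl, G.e_neg _ hl, (hs i hi).1, (hs i hi).2,
        Int.cast_one, one_mul]
  simp only [List.mem_cons, List.not_mem_nil, or_false] at hp
  rcases hp with rfl | rfl | rfl
  · exact key _ _ _ _ _ CfsgLib.Chevalley.sysE6.wf CfsgLib.Chevalley.graphE6 (by decide +kernel)
  · exact key _ _ _ _ _ CfsgLib.Chevalley.sysD4.wf CfsgLib.Chevalley.graphD4a (by decide +kernel)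
  · exact key _ _ _ _ _ CfsgLib.Chevalley.sysD4.wf CfsgLib.Chevalley.graphD4b (by decide +kernel)

end Cfsg.Agent.S1081
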