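import Cfsg.Statements.S1092
import Cfsg.Agent.Chevalley.Weights.B2
import Cfsg.Agent.Chevalley.Weights.G2
import Cfsg.Agent.Chevalley.Weights.D4
import Cfsg.Agent.Chevalley.Weights.F4
import Cfsg.Agent.Chevalley.Coxeter

set_option autoImplicit false
open Cfsg

namespace Cfsg.Agent.S1092

/-- `|W(B₂)| = 8`, `|W(G₂)| = 12`, `|W(D₄)| = 192`, `|W(F₄)| = 1152` for the groups presented by the Coxeter matrices (the product of the degrees of the basic invariants). -/
theorem result (p : (Σ n : ℕ, CoxeterMatrix (Fin n)) × ℕ)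
    (hp : p ∈ [(⟨2, CoxeterMatrix.B 2⟩, 8), (⟨2, CoxeterMatrix.G₂⟩, 12), (⟨4, Cfsg.Lie.coxeterD4⟩, 192), (⟨4, CoxeterMatrix.F₄⟩, 1152)]) :
    Nat.card p.1.2.Group = p.2 := by
  simp only [List.mem_cons, List.not_mem_nil, or_false] at hp
  rcases hp with rfl | rfl | rfl | rfl
  · have h := CfsgLib.Chevalley.sysB2.natCard_coxeterGroup (CoxeterMatrix.B 2) (by decide +kernel)
    rw [show List.range Cfsg.Lie.chevB2.rank = List.range 2 from rfl, CfsgLib.Chevalley.lenSumB2 ℚ] at h
    simp only [one_pow, List.map_const', List.sum_replicate, smul_eq_mul, mul_one, CfsgLib.Chevalley.levB20, CfsgLib.Chevalley.levB21, List.length_cons, List.length_nil] at h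
    norm_num at h
    exact_mod_cast h
  · have h := CfsgLib.Chevalley.sysG2.natCard_coxeterGroup CoxeterMatrix.G₂ (by decide +kernel)
    rw [show List.range Cfsg.Lie.chevG2.rank = List.range 2 from rfl, CfsgLib.Chevalley.lenSumG2 ℚ] at h
    simp only [one_pow, List.map_const', List.sum_replicate, smul_eq_mul, mul_one, CfsgLib.Chevalley.levG20, CfsgLib.Chevalley.levG21, List.length_cons, List.length_nil] at h
    norm_num at h
    exact_mod_cast h
  · have h := CfsgLib.Chevalley.sysD4.natCard_coxeterGroup Cfsg.Lie.coxeterD4 (by decide +kernel)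
    rw [show List.range Cfsg.Lie.chevD4.rank = List.range 4 from rfl, CfsgLib.Chevalley.lenSumD4 ℚ] at h
    simp only [one_pow, List.map_const', List.sum_replicate, smul_eq_mul, mul_one, CfsgLib.Chevalley.levD40, CfsgLib.Chevalley.levD41, CfsgLib.Chevalley.levD42, CfsgLib.Chevalley.levD43, List.length_cons, List.length_nil] at h
    norm_num at h
    exact_mod_cast h
  · have h := CfsgLib.Chevalley.sysF4.natCard_coxeterGroup CoxeterMatrix.F₄ (by decide +kernel)
    rw [show List.range Cfsg.Lie.chevF4.rank = List.range 4 from rfl, CfsgLib.Chevalley.lenSumF4 ℚ] at h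
    simp only [one_pow, List.map_const', List.sum_replicate, smul_eq_mul, mul_one, CfsgLib.Chevalley.levF40, CfsgLib.Chevalley.levF41, CfsgLib.Chevalley.levF42, CfsgLib.Chevalley.levF43, List.length_cons, List.length_nil] at h
    norm_num at h
    exact_mod_cast h

end Cfsg.Agent.S1092
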