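import Cfsg.Statements.S1094
import Cfsg.Agent.Chevalley.All
import Cfsg.Agent.Chevalley.Coxeter

set_option autoImplicit false
open Cfsg

namespace Cfsg.Agent.S1094

set_option maxHeartbeats 2000000

/-- The Coxeter element `s₁ s₂ ⋯ s_l` of the Coxeter group of type B₂, G₂, D₄, F₄, E₆, E₇, E₈ has order `h = 2N/l` = 4, 6, 6, 12, 12, 18, 30. -/
theorem result (p : (Σ n : ℕ, CoxeterMatrix (Fin n)) × ℕ)
    (hp : p ∈ [(⟨2, CoxeterMatrix.B 2⟩, 4), (⟨2, CoxeterMatrix.G₂⟩, 6), (⟨4, Cfsg.Lie.coxeterD4⟩, 6), (⟨4, CoxeterMatrix.F₄⟩, 12),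
      (⟨6, CoxeterMatrix.E₆⟩, 12), (⟨7, CoxeterMatrix.E₇⟩, 18), (⟨8, CoxeterMatrix.E₈⟩, 30)]) :
    orderOf ((List.finRange p.1.1).map p.1.2.simple).prod = p.2 := by
  simp only [List.mem_cons, List.not_mem_nil, or_false] at hp
  rcases hp with rfl | rfl | rfl | rfl | rfl | rfl | rfl
  · exact CfsgLib.Chevalley.sysB2.orderOf_coxeterWord (CoxeterMatrix.B 2) (L := List.finRange 2) (by decide +kernel) (by decide +kernel)
  · exact CfsgLib.Chevalley.sysG2.orderOf_coxeterWord CoxeterMatrix.G₂ (L := List.finRange 2) (by decide +kernel) (by decide +kernel)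
  · exact CfsgLib.Chevalley.sysD4.orderOf_coxeterWord Cfsg.Lie.coxeterD4 (L := List.finRange 4) (by decide +kernel) (by decide +kernel)
  · exact CfsgLib.Chevalley.sysF4.orderOf_coxeterWord CoxeterMatrix.F₄ (L := List.finRange 4) (by decide +kernel) (by decide +kernel)
  · exact CfsgLib.Chevalley.sysE6.orderOf_coxeterWord CoxeterMatrix.E₆ (L := List.finRange 6) (by decide +kernel) (by decide +kernel)
  · exact CfsgLib.Chevalley.sysE7.orderOf_coxeterWord CoxeterMatrix.E₇ (L := List.finRange 7) (by decide +kernel) (by decide +kernel)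
  · exact CfsgLib.Chevalley.sysE8.orderOf_coxeterWord CoxeterMatrix.E₈ (L := List.finRange 8) (by decide +kernel) (by decide +kernel)

end Cfsg.Agent.S1094
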