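import Cfsg.Statements.S1098
import Cfsg.Agent.Chevalley.TwistData

set_option autoImplicit false
open Cfsg

namespace Cfsg.Agent.S1098

/-- Graph automorphisms in characteristic 2 (K perfect): for B₂ (a short, b long) `x_a(t) ↦ x_b(t²)`, `x_b(t) ↦ x_a(t)`, and for F₄ (p₁, p₂ short, p₃, p₄ long) `x_{p₁}(t) ↦ x_{p₄}(t²)`, `x_{p₂}(t) ↦ x_{p₃}(t²)`, `x_{p₃}(t) ↦ x_{p₂}(t)`, `x_{p₄}(t) ↦ x_{p₁}(t)`, likewise on the negatives, extend to an automorphism of the group. -/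
theorem result {K : Type*} [Field K] [CharP K 2] (hperf : ∀ x : K, ∃ y : K, y ^ 2 = x)
    (p : Cfsg.Lie.ChevalleyDatum × List (ℕ × ℕ))
    (hp : p ∈ [(Cfsg.Lie.chevB2, [(1, 2), (0, 1)]), (Cfsg.Lie.chevF4, [(3, 2), (2, 2), (1, 1), (0, 1)])]) :
    ∃ α : ↥(p.1.group K) ≃* ↥(p.1.group K), ∀ (g : ↥(p.1.group K)) (i : ℕ) (t : K), i < p.1.rank →
      (((g : GL p.1.Idx K) : Matrix p.1.Idx p.1.Idx K) = p.1.x K (p.1.simple i) t →
        ((α g : GL p.1.Idx K) : Matrix p.1.Idx p.1.Idx K) = p.1.x K (p.1.simple (p.2.getD i (0, 1)).1) (t ^ (p.2.getD i (0, 1)).2)) ∧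
      (((g : GL p.1.Idx K) : Matrix p.1.Idx p.1.Idx K) = p.1.x K (p.1.neg (p.1.simple i)) t →
        ((α g : GL p.1.Idx K) : Matrix p.1.Idx p.1.Idx K) = p.1.x K (p.1.neg (p.1.simple (p.2.getD i (0, 1)).1)) (t ^ (p.2.getD i (0, 1)).2)) := by
  simp only [List.mem_cons, List.not_mem_nil, or_false] at hp
  rcases hp with rfl | rfl
  · obtain ⟨α, hα⟩ := CfsgLib.Chevalley.exists_twistB2 hperf
    have key : ∀ i < 2, ∀ r, r = Cfsg.Lie.chevB2.simple i ∨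
        r = Cfsg.Lie.chevB2.neg (Cfsg.Lie.chevB2.simple i) → r < 8 ∧
        CfsgLib.Chevalley.twistB2.e r = (([(1, 2), (0, 1)] : List (ℕ × ℕ)).getD i (0, 1)).2 ∧
        CfsgLib.Chevalley.twistB2.r r =
          if r = Cfsg.Lie.chevB2.simple i then
            Cfsg.Lie.chevB2.simple (([(1, 2), (0, 1)] : List (ℕ × ℕ)).getD i (0, 1)).1
          else Cfsg.Lie.chevB2.neg
            (Cfsg.Lie.chevB2.simple (([(1, 2), (0, 1)] : List (ℕ × ℕ)).getD i (0, 1)).1) := by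
      intro i hi r hr
      interval_cases i <;> rcases hr with rfl | rfl <;> decide +kernel
    refine ⟨α, fun g i t hi => ⟨fun hg => ?_, fun hg => ?_⟩⟩
    · obtain ⟨h1, h2, h3⟩ := key i hi _ (Or.inl rfl)
      rw [hα g _ t h1 (CfsgLib.Chevalley.sysB2.eq_xG K hg), CfsgLib.Chevalley.Sys.xG_val, h2, h3,
        if_pos rfl]
    · obtain ⟨h1, h2, h3⟩ := key i hi _ (Or.inr rfl)
      rw [hα g _ t h1 (CfsgLib.Chevalley.sysB2.eq_xG K hg), CfsgLib.Chevalley.Sys.xG_val, h2, h3,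
        if_neg (CfsgLib.Chevalley.sysB2.wf.neg_ne _ (CfsgLib.Chevalley.sysB2.wf.simple_lt i hi))]
  · obtain ⟨α, hα⟩ := CfsgLib.Chevalley.exists_twistF4 hperf
    have key : ∀ i < 4, ∀ r, r = Cfsg.Lie.chevF4.simple i ∨
        r = Cfsg.Lie.chevF4.neg (Cfsg.Lie.chevF4.simple i) → r < 48 ∧
        CfsgLib.Chevalley.twistF4.e r =
          (([(3, 2), (2, 2), (1, 1), (0, 1)] : List (ℕ × ℕ)).getD i (0, 1)).2 ∧
        CfsgLib.Chevalley.twistF4.r r =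
          if r = Cfsg.Lie.chevF4.simple i then
            Cfsg.Lie.chevF4.simple (([(3, 2), (2, 2), (1, 1), (0, 1)] : List (ℕ × ℕ)).getD i (0, 1)).1
          else Cfsg.Lie.chevF4.neg
            (Cfsg.Lie.chevF4.simple
              (([(3, 2), (2, 2), (1, 1), (0, 1)] : List (ℕ × ℕ)).getD i (0, 1)).1) := by
      intro i hi r hr
      interval_cases i <;> rcases hr with rfl | rfl <;> decide +kernel
    refine ⟨α, fun g i t hi => ⟨fun hg => ?_, fun hg => ?_⟩⟩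
    · obtain ⟨h1, h2, h3⟩ := key i hi _ (Or.inl rfl)
      rw [hα g _ t h1 (CfsgLib.Chevalley.sysF4.eq_xG K hg), CfsgLib.Chevalley.Sys.xG_val, h2, h3,
        if_pos rfl]
    · obtain ⟨h1, h2, h3⟩ := key i hi _ (Or.inr rfl)
      rw [hα g _ t h1 (CfsgLib.Chevalley.sysF4.eq_xG K hg), CfsgLib.Chevalley.Sys.xG_val, h2, h3,
        if_neg (CfsgLib.Chevalley.sysF4.wf.neg_ne _ (CfsgLib.Chevalley.sysF4.wf.simple_lt i hi))]

end Cfsg.Agent.S1098
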