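import Cfsg.Statements.S1099
import Cfsg.Agent.Chevalley.TwistData

set_option autoImplicit false
open Cfsg

namespace Cfsg.Agent.S1099

/-- Graph automorphism of G₂ in characteristic 3 (K perfect): `x_a(t) ↦ x_b(t³)`, `x_b(t) ↦ x_a(t)`, `x_{-a}(t) ↦ x_{-b}(t³)`, `x_{-b}(t) ↦ x_{-a}(t)` extend to an automorphism of the group. -/
theorem result {K : Type*} [Field K] [CharP K 3] (hperf : ∀ x : K, ∃ y : K, y ^ 3 = x) :
    ∃ α : ↥(Cfsg.Lie.chevG2.group K) ≃* ↥(Cfsg.Lie.chevG2.group K), ∀ (g : ↥(Cfsg.Lie.chevG2.group K)) (t : K),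
      (((g : GL Cfsg.Lie.chevG2.Idx K) : Matrix _ _ K) = Cfsg.Lie.chevG2.x K Cfsg.Lie.g2a t →
        ((α g : GL Cfsg.Lie.chevG2.Idx K) : Matrix _ _ K) = Cfsg.Lie.chevG2.x K Cfsg.Lie.g2b (t ^ 3)) ∧
      (((g : GL Cfsg.Lie.chevG2.Idx K) : Matrix _ _ K) = Cfsg.Lie.chevG2.x K Cfsg.Lie.g2b t →
        ((α g : GL Cfsg.Lie.chevG2.Idx K) : Matrix _ _ K) = Cfsg.Lie.chevG2.x K Cfsg.Lie.g2a t) ∧
      (((g : GL Cfsg.Lie.chevG2.Idx K) : Matrix _ _ K) = Cfsg.Lie.chevG2.x K Cfsg.Lie.g2ma t →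
        ((α g : GL Cfsg.Lie.chevG2.Idx K) : Matrix _ _ K) = Cfsg.Lie.chevG2.x K Cfsg.Lie.g2mb (t ^ 3)) ∧
      (((g : GL Cfsg.Lie.chevG2.Idx K) : Matrix _ _ K) = Cfsg.Lie.chevG2.x K Cfsg.Lie.g2mb t →
        ((α g : GL Cfsg.Lie.chevG2.Idx K) : Matrix _ _ K) = Cfsg.Lie.chevG2.x K Cfsg.Lie.g2ma t) := by
  obtain ⟨α, hα⟩ := CfsgLib.Chevalley.exists_twistG2 hperf
  have key : ∀ (g : ↥(Cfsg.Lie.chevG2.group K)) (r : ℕ) (t : K), r < 12 →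
      ((g : GL Cfsg.Lie.chevG2.Idx K) : Matrix _ _ K) = Cfsg.Lie.chevG2.x K r t →
      ((α g : GL Cfsg.Lie.chevG2.Idx K) : Matrix _ _ K) = Cfsg.Lie.chevG2.x K
        (CfsgLib.Chevalley.twistG2.r r) (t ^ CfsgLib.Chevalley.twistG2.e r) := fun g r t hr hg => by
    rw [hα g r t hr (CfsgLib.Chevalley.sysG2.eq_xG K hg), CfsgLib.Chevalley.Sys.xG_val]
  refine ⟨α, fun g t => ⟨fun hg => ?_, fun hg => ?_, fun hg => ?_, fun hg => ?_⟩⟩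
  · exact key g 7 t (by decide) hg
  · rw [key g 6 t (by decide) hg]
    show Cfsg.Lie.chevG2.x K 7 (t ^ 1) = _
    rw [pow_one]
    rfl
  · exact key g 4 t (by decide) hg
  · rw [key g 5 t (by decide) hg]
    show Cfsg.Lie.chevG2.x K 4 (t ^ 1) = _
    rw [pow_one]
    rfl

end Cfsg.Agent.S1099
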