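import Cfsg.Statements.S1103
import Cfsg.Agent.TwistedLie.CoxeterW
import Cfsg.Agent.TwistedLie.E6Facts

set_option autoImplicit false
open Cfsg

namespace Cfsg.Agent.S1103

/-- The orders of the products of two twisted reflections. -/
theorem coxOK : CfsgLib.TwistedLie.Tw.CoxOK Cfsg.Lie.chevE6 CfsgLib.TwistedLie.E6.blkN
    (![![1, 3, 2, 2], ![3, 1, 4, 2], ![2, 4, 1, 3], ![2, 2, 3, 1]] : Fin 4 → Fin 4 → ℕ) := by
  decide +kernel


/-- `N¹/H¹ ≅ W¹`: a surjective homomorphism from `N¹ = G¹ ∩ N` onto the Coxeter group of type F₄ with kernel `H¹`. -/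
theorem result {K : Type*} [Field K] [Fintype K] {q : ℕ} (hq : IsPrimePow q) (hK : Fintype.card K = q ^ 2) :
    ∃ φ : ↥(Cfsg.Lie.chevE6.monomialSubgroup K ⊓ Cfsg.Lie.twistedE6 K q) →* (CoxeterMatrix.F₄).Group, Function.Surjective φ ∧
      φ.ker = (Cfsg.Lie.chevE6.diagonalSubgroup K ⊓ Cfsg.Lie.twistedE6 K q).subgroupOf (Cfsg.Lie.chevE6.monomialSubgroup K ⊓ Cfsg.Lie.twistedE6 K q) := by
  exact (CfsgLib.TwistedLie.E6.tw hq hK).weylHom CfsgLib.TwistedLie.E6.blkF_val _ _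
    (fun i j => by fin_cases i <;> fin_cases j <;> rfl) coxOK

end Cfsg.Agent.S1103
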