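import Cfsg.Statements.S1115
import Cfsg.Agent.Ree.Torus2

set_option autoImplicit false
open Cfsg

namespace Cfsg.Agent.S1115

/-- `N¹/H¹ ≅ W¹`: a surjective homomorphism from `N¹ = G¹ ∩ N` onto the group of order 2 with kernel `H¹`. -/
theorem result {K : Type*} [Field K] [Fintype K] {m : ℕ} (hK : Fintype.card K = 3 ^ (2 * m + 1)) :
    ∃ φ : ↥(Cfsg.Lie.chevG2.monomialSubgroup K ⊓ Cfsg.Lie.twistedG2 K (3 ^ m)) →* Multiplicative (ZMod 2), Function.Surjective φ ∧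
      φ.ker = (Cfsg.Lie.chevG2.diagonalSubgroup K ⊓ Cfsg.Lie.twistedG2 K (3 ^ m)).subgroupOf (Cfsg.Lie.chevG2.monomialSubgroup K ⊓ Cfsg.Lie.twistedG2 K (3 ^ m)) := by
  haveI : CharP K 3 := CfsgLib.Ree.charP_of_card hK
  have hq := CfsgLib.Ree.Q_of_card hK
  set H' := (Cfsg.Lie.chevG2.diagonalSubgroup K ⊓ Cfsg.Lie.twistedG2 K (3 ^ m)).subgroupOf
    (Cfsg.Lie.chevG2.monomialSubgroup K ⊓ Cfsg.Lie.twistedG2 K (3 ^ m)) with hH'
  have hB : Cfsg.Lie.chevG2.borelSubgroup K ⊓ Cfsg.Lie.chevG2.monomialSubgroup K =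
      Cfsg.Lie.chevG2.diagonalSubgroup K := CfsgLib.Chevalley.sysG2.borel_inf_monomial K
  have h2 : H'.index = 2 := by
    rw [Subgroup.index_eq_two_iff]
    refine ⟨⟨CfsgLib.Ree.n0 K, CfsgLib.Ree.n0_mem_monomial, CfsgLib.Ree.n0_mem_twisted⟩, fun b => ?_⟩
    have hbG := b.2.2
    have hN : (b : GL Cfsg.Lie.chevG2.Idx K) ∈ Cfsg.Lie.chevG2.monomialSubgroup K := b.2.1
    simp only [hH', Subgroup.mem_subgroupOf, Subgroup.mem_inf, Subgroup.coe_mul]
    rcases CfsgLib.Ree.monomial_fix hq hN (CfsgLib.Ree.twistedG2_le_fixSub hq hbG) with h | ⟨d, hd, e⟩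
    · refine Or.inr ⟨⟨hB ▸ Subgroup.mem_inf.mpr ⟨h, hN⟩, hbG⟩, fun hc => ?_⟩
      have hbd : (b : GL Cfsg.Lie.chevG2.Idx K) ∈ Cfsg.Lie.chevG2.diagonalSubgroup K := hB ▸ Subgroup.mem_inf.mpr ⟨h, hN⟩
      have := mul_mem (inv_mem hbd) hc.1
      rw [inv_mul_cancel_left] at this
      exact CfsgLib.Ree.n0_not_mem_borel (K := K) (Subgroup.mem_sup_right this)
    · rw [hB] at hd
      refine Or.inl ⟨⟨?_, mul_mem hbG CfsgLib.Ree.n0_mem_twisted⟩, fun hc => ?_⟩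
      · rw [e]
        have := (Subgroup.mem_normalizer_iff.mp (CfsgLib.Chevalley.sysG2.monomial_le_normalizer K
          CfsgLib.Ree.n0_mem_monomial) d).mp hd
        rwa [CfsgLib.Ree.n0_inv] at this
      · have := mul_mem hc.1 (inv_mem hd)
        rw [e, mul_inv_cancel_right] at this
        exact CfsgLib.Ree.n0_not_mem_borel (K := K) (Subgroup.mem_sup_right this)
  haveI := Subgroup.normal_of_index_eq_two h2
  have hcard : Nat.card (_ ⧸ H') = 2 := h2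
  haveI : Fact (Nat.Prime 2) := ⟨Nat.prime_two⟩
  have e : (_ ⧸ H') ≃* Multiplicative (ZMod 2) :=
    mulEquivOfPrimeCardEq (p := 2) hcard (by simp)
  refine ⟨e.toMonoidHom.comp (QuotientGroup.mk' H'), e.surjective.comp (QuotientGroup.mk'_surjective H'), ?_⟩
  rw [← MonoidHom.comap_ker, (MonoidHom.ker_eq_bot_iff _).2 e.injective, MonoidHom.comap_bot, QuotientGroup.ker_mk']

end Cfsg.Agent.S1115
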