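import Cfsg.Statements.S1116
import Cfsg.Agent.Ree.Simple

set_option autoImplicit false
open Cfsg

namespace Cfsg.Agent.S1116

/-- ²G₂(3^(2m+1)) (m ≥ 1) equals its derived subgroup. -/
theorem result {K : Type*} [Field K] [Fintype K] {m : ℕ} (hK : Fintype.card K = 3 ^ (2 * m + 1)) (hm : 1 ≤ m) : commutator ↥(Cfsg.Lie.twistedG2 K (3 ^ m)) = ⊤ := by
  haveI : CharP K 3 := CfsgLib.Ree.charP_of_card hK
  exact CfsgLib.Ree.commutator_twisted hm hK

end Cfsg.Agent.S1116
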