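import Cfsg.Statements.S1118
import Cfsg.Agent.RankOne.SetupBasic

set_option autoImplicit false
open Cfsg

namespace Cfsg.Agent.S1118

/-- In the rank-one set-up (`G` finite and doubly transitive on `Ω`, `t` an involution moving `a`, `Q` normal in `G_a` with `G_a = Q D`, `Q ⊓ D = 1` for the two-point stabiliser `D = G_a ⊓ G_{t • a}`, `|Q|` even, `|D|` odd), the normaliser of a subset of `Q` containing a non-identity element lies in `G_a`; consequently `N_G(Q) = N_G(G_a) = G_a`. -/
theorem result {G Ω : Type*} [Group G] [Finite G] [MulAction G Ω] {a : Ω} {t : G} {Q : Subgroup G}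
    (hS : Cfsg.IsRankOneSetup G Ω a t Q) :
    (∀ X : Set G, X ⊆ (Q : Set G) → (∃ x ∈ X, x ≠ 1) → Subgroup.normalizer X ≤ MulAction.stabilizer G a) ∧
      Subgroup.normalizer (Q : Set G) = MulAction.stabilizer G a ∧
      Subgroup.normalizer (MulAction.stabilizer G a : Set G) = MulAction.stabilizer G a := by
  have h1 : ∀ X : Set G, X ⊆ (Q : Set G) → (∃ x ∈ X, x ≠ 1) →
      Subgroup.normalizer X ≤ MulAction.stabilizer G a := by
    rintro X hX ⟨x, hx, hx1⟩ g hg
    have hgx : g * x * g⁻¹ ∈ Q := hX ((Subgroup.mem_set_normalizer_iff.mp hg x).mp hx)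
    exact CfsgLib.RankOneSetup.eq_a_of_fix hS hgx
      (fun h => hx1 (conj_eq_one_iff.mp h))
      (by rw [smul_smul, inv_mul_cancel_right, mul_smul, CfsgLib.RankOneSetup.smul_a hS (hX hx)])
  obtain ⟨s, hsa, hs1, hs2⟩ := CfsgLib.RankOneSetup.exists_involution hS
  have hsQ := CfsgLib.RankOneSetup.inv_mem_Q hS hsa hs2
  refine ⟨h1, le_antisymm (h1 _ subset_rfl ⟨s, hsQ, hs1⟩) ?_, le_antisymm ?_ Subgroup.le_normalizer⟩
  · intro g hg
    rw [Subgroup.mem_normalizer_iff]
    intro x
    refine ⟨hS.conj_mem g hg x, fun h => ?_⟩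
    have := hS.conj_mem g⁻¹ (inv_mem hg) _ h
    simpa [mul_assoc] using this
  · intro g hg
    have h : g⁻¹ * s * g ∈ MulAction.stabilizer G a :=
      (Subgroup.mem_normalizer_iff''.mp hg s).mp hsa
    refine CfsgLib.RankOneSetup.eq_a_of_fix hS hsQ hs1 ?_
    calc s • g • a = g • (g⁻¹ * s * g) • a := by simp [smul_smul, mul_assoc]
      _ = g • a := by rw [show (g⁻¹ * s * g) • a = a from h]

end Cfsg.Agent.S1118
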