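import Cfsg.Statements.S1134
import Cfsg.Agent.RankOne.Swap

set_option autoImplicit false
open Cfsg

namespace Cfsg.Agent.S1134

/-- In the rank-one set-up (`G` finite and doubly transitive on `Ω`, `t` an involution moving `a`, `Q` normal in `G_a` with `G_a = Q D`, `Q ⊓ D = 1` for the two-point stabiliser `D = G_a ⊓ G_{t • a}`, `|Q|` even, `|D|` odd), with the action faithful and `G` containing two distinct commuting involutions, with `V = C_D(t)`: subsets of `V` conjugate in `G` are conjugate in `V`. -/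
theorem result {G Ω : Type*} [Group G] [Finite G] [MulAction G Ω] [FaithfulSMul G Ω] {a : Ω} {t : G} {Q : Subgroup G}
    (hS : Cfsg.IsRankOneSetup G Ω a t Q)
    (h2 : ∃ x y : G, x ≠ 1 ∧ y ≠ 1 ∧ x ≠ y ∧ x * x = 1 ∧ y * y = 1 ∧ x * y = y * x)
    (X : Set G) (hX : X ⊆ (((MulAction.stabilizer G a ⊓ MulAction.stabilizer G (t • a)) ⊓ Subgroup.centralizer {t} : Subgroup G) : Set G)) (g : G)
    (hY : (fun x => g * x * g⁻¹) '' X ⊆ (((MulAction.stabilizer G a ⊓ MulAction.stabilizer G (t • a)) ⊓ Subgroup.centralizer {t} : Subgroup G) : Set G)) :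
    ∃ v ∈ (MulAction.stabilizer G a ⊓ MulAction.stabilizer G (t • a)) ⊓ Subgroup.centralizer {t}, (fun x => v * x * v⁻¹) '' X = (fun x => g * x * g⁻¹) '' X := by
  obtain ⟨c, hc⟩ := CfsgLib.RankOneSetup.exists_fix_involution hS hS.mul_self
  have hb := CfsgLib.RankOneSetup.b_ne hS
  have hca : c ≠ a := fun h => hb (by rw [h] at hc; exact hc)
  have hcb : c ≠ t • a := fun h => hb (by rw [h, CfsgLib.RankOneSetup.t_b hS] at hc; exact hc.symm)
  set Y := (fun x => g * x * g⁻¹) '' X with hYdef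
  have hV : ∀ y ∈ Y, y • a = a ∧ y • t • a = t • a ∧ y * t = t * y ∧ y • c = c := by
    intro y hy
    obtain ⟨⟨h1, h2⟩, h3⟩ := hY hy
    have h3' : y * t = t * y := Subgroup.mem_centralizer_singleton_iff.mp h3
    exact ⟨h1, h2, h3', CfsgLib.RankOneSetup.involution_fix_unique hS hS.ne_one hS.mul_self
      (by rw [smul_smul, ← h3', mul_smul, hc]) hc⟩
  have hgfix : ∀ p : Ω, (∀ x ∈ X, x • p = p) → ∀ y ∈ Y, y • g • p = g • p := by
    rintro p hp y ⟨x, hx, rfl⟩
    exact CfsgLib.RankOneSetup.conj_fix hS (hp x hx)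
  obtain ⟨h, hh, hha, hhb⟩ := CfsgLib.RankOneSetup.centralizer_two_transitive hS
    (X := Y) ⟨a, t • a, c, hb.symm, hca.symm, hcb.symm,
      fun y hy => ⟨(hV y hy).1, (hV y hy).2.1, (hV y hy).2.2.2⟩⟩
    (hgfix a fun x hx => (hX hx).1.1) (hgfix (t • a) fun x hx => (hX hx).1.2)
    (fun y hy => (hV y hy).1) (fun y hy => (hV y hy).2.1)
    (fun h' => hb (smul_left_cancel g h').symm) hb.symm
  have hdD : h * g ∈ MulAction.stabilizer G a ⊓ MulAction.stabilizer G (t • a) :=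
    Subgroup.mem_inf.mpr ⟨by show (h * g) • a = a; rw [mul_smul, hha],
      by show (h * g) • t • a = t • a; rw [mul_smul, hhb]⟩
  have hd : ∀ x ∈ X, h * g * x * (h * g)⁻¹ = g * x * g⁻¹ := fun x hx => by
    have := Subgroup.mem_centralizer_iff.mp hh _ ⟨x, hx, rfl⟩
    calc h * g * x * (h * g)⁻¹ = (h * (g * x * g⁻¹)) * h⁻¹ := by group
    _ = ((g * x * g⁻¹) * h) * h⁻¹ := by rw [← this]
    _ = _ := by group
  have hnorm : ∀ x ∈ MulAction.stabilizer G a ⊓ MulAction.stabilizer G (t • a),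
      t * x * t⁻¹ ∈ MulAction.stabilizer G a ⊓ MulAction.stabilizer G (t • a) := fun x hx => by
    rw [CfsgLib.RankOneSetup.t_inv hS]; exact CfsgLib.RankOneSetup.t_conj_mem hS hx
  obtain ⟨v, hv, hvt, z, hz, hzi, hdvz⟩ :=
    CfsgLib.RankOneSetup.decomp hS.mul_self hS.odd_card hnorm hdD
  refine ⟨v, Subgroup.mem_inf.mpr ⟨hv, Subgroup.mem_centralizer_singleton_iff.mpr hvt.symm⟩,
    Set.image_congr fun x hx => ?_⟩
  have hxt : Commute t x := (Subgroup.mem_centralizer_singleton_iff.mp (hX hx).2).symm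
  have hyt : Commute t (g * x * g⁻¹) := (hV _ ⟨x, hx, rfl⟩).2.2.1.symm
  have hz2 : Commute (z * z) x := by
    have h1 : v * z * x * (v * z)⁻¹ = g * x * g⁻¹ := by rw [← hdvz]; exact hd x hx
    have h2 : v * z⁻¹ * x * (v * z⁻¹)⁻¹ = g * x * g⁻¹ := by
      have e : t * (v * z) * t⁻¹ = v * z⁻¹ := by
        rw [← mul_assoc, hvt, mul_assoc, mul_assoc, ← mul_assoc t z, hzi]
      calc v * z⁻¹ * x * (v * z⁻¹)⁻¹ = t * (v * z) * (t⁻¹ * x * t) * (v * z)⁻¹ * t⁻¹ := by
            rw [← e]; group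
      _ = t * (v * z * x * (v * z)⁻¹) * t⁻¹ := by
            rw [show t⁻¹ * x * t = x from by rw [mul_assoc, ← hxt.eq, inv_mul_cancel_left]]; group
      _ = g * x * g⁻¹ := by rw [h1, hyt.eq, mul_inv_cancel_right]
    have h3 : z * x * z⁻¹ = z⁻¹ * x * z := by
      have h4 := h1.trans h2.symm
      calc z * x * z⁻¹ = v⁻¹ * (v * z * x * (v * z)⁻¹) * v := by group
      _ = v⁻¹ * (v * z⁻¹ * x * (v * z⁻¹)⁻¹) * v := by rw [h4]
      _ = _ := by group
    show z * z * x = x * (z * z)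
    calc z * z * x = z * (z * x * z⁻¹) * z := by group
    _ = z * (z⁻¹ * x * z) * z := by rw [h3]
    _ = _ := by group
  obtain ⟨m, -, hm⟩ := CfsgLib.RankOneSetup.exists_sqrt_zpowers hS.odd_card hz
  have hzx : Commute z x := by rw [← hm, pow_two]; exact hz2.pow_left m
  calc v * x * v⁻¹ = v * (z * x) * z⁻¹ * v⁻¹ := by rw [hzx.eq]; group
  _ = h * g * x * (h * g)⁻¹ := by rw [hdvz]; group
  _ = g * x * g⁻¹ := hd x hx

end Cfsg.Agent.S1134
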