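import Cfsg.Statements.S1151
import Cfsg.Agent.Ree.Torus2

set_option autoImplicit false
open Cfsg

namespace Cfsg.Agent.S1151

/-- In the small Ree group ²G₂(q), q = 3^(2m+1), realised as G¹ inside the Chevalley group G₂ over the field with q elements (θ the 3^m-th power map), with H¹ = G¹ ∩ H and U¹ = G¹ ∩ U the intersections with the ambient diagonal and positive unipotent subgroups: `H¹` has exactly `(q - 1)/2` elements of odd order, and each non-identity one centralises no non-identity element of `U¹`. -/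
theorem result {K : Type*} [Field K] [Fintype K] {m : ℕ} (hK : Fintype.card K = 3 ^ (2 * m + 1)) :
    2 * Nat.card {h : ↥(Cfsg.Lie.chevG2.diagonalSubgroup K ⊓ Cfsg.Lie.twistedG2 K (3 ^ m)) // Odd (orderOf h)} = 3 ^ (2 * m + 1) - 1 ∧
      ∀ h ∈ (Cfsg.Lie.chevG2.diagonalSubgroup K ⊓ Cfsg.Lie.twistedG2 K (3 ^ m)), h ≠ 1 → Odd (orderOf h) →
        (Cfsg.Lie.chevG2.posUnipotent K ⊓ Cfsg.Lie.twistedG2 K (3 ^ m)) ⊓ Subgroup.centralizer {h} = ⊥ := by
  haveI : CharP K 3 := CfsgLib.Ree.charP_of_card hK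
  classical
  have hq := CfsgLib.Ree.Q_of_card hK
  have hinj := CfsgLib.Ree.hT_injective (K := K) (m := m)
  rw [CfsgLib.Ree.diag_inf_twisted hK]
  set k := (3 ^ (2 * m + 1) - 1) / 2 with hk
  have h4 : 3 ^ (2 * m + 1) % 4 = 3 := by rw [pow_succ, pow_mul, Nat.mul_mod, Nat.pow_mod]; norm_num
  have hkodd : Odd k := Nat.odd_iff.2 (by omega)
  have hk2 : 2 * k = 3 ^ (2 * m + 1) - 1 := by omega
  have hKu : Nat.card Kˣ = 2 * k := by rw [Nat.card_units, Nat.card_eq_fintype_card, hK, hk2]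
  have key : ∀ w : Kˣ, Odd (orderOf w) ↔ w ∈ (powMonoidHom k : Kˣ →* Kˣ).ker := by
    intro w
    rw [MonoidHom.mem_ker, powMonoidHom_apply, ← orderOf_dvd_iff_pow_eq_one]
    refine ⟨fun h => ?_, fun h => hkodd.of_dvd_nat h⟩
    have hd := orderOf_dvd_natCard w
    rw [hKu] at hd
    exact (Nat.Coprime.dvd_of_dvd_mul_left (Nat.coprime_two_right.2 h) hd)
  refine ⟨?_, ?_⟩
  · have e : Nat.card {h : ↥(CfsgLib.Ree.hT K m).range // Odd (orderOf h)} =
        Nat.card ↥(powMonoidHom k : Kˣ →* Kˣ).ker := by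
      refine (Nat.card_congr (Equiv.subtypeEquiv (MonoidHom.ofInjective hinj).toEquiv fun w => ?_)).symm
      rw [← key]
      show _ ↔ Odd (orderOf ((MonoidHom.ofInjective hinj) w))
      rw [(MonoidHom.ofInjective hinj).orderOf_eq]
    rw [e, IsCyclic.card_powMonoidHom_ker, hKu, Nat.gcd_mul_left_left]
    exact hk2
  · intro h hh hne hodd
    obtain ⟨w, rfl⟩ := hh
    rw [orderOf_injective _ hinj] at hodd
    have hw : w ≠ 1 := fun e => hne (by rw [e, map_one])
    rw [eq_bot_iff]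
    intro g hg
    rw [Subgroup.mem_inf, Subgroup.mem_inf, Subgroup.mem_centralizer_singleton_iff] at hg
    obtain ⟨t, u, v, rfl⟩ := CfsgLib.Ree.exists_eU hq hg.1.1 (CfsgLib.Ree.twistedG2_le_fixSub hq hg.1.2)
    obtain ⟨rfl, rfl, hu⟩ := CfsgLib.Ree.hT_commute_eU hK hw hg.2.symm
    rcases hu with rfl | rfl
    · rw [CfsgLib.Ree.eU_zero]; exact one_mem _
    · exfalso
      have h2 : orderOf (-1 : Kˣ) = 2 := by
        haveI : Fact (Nat.Prime 2) := ⟨Nat.prime_two⟩
        exact orderOf_eq_prime (by simp [sq]) (CfsgLib.Ree.neg_one_ne_one_units hK)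
      rw [h2] at hodd
      exact absurd hodd (by decide)

end Cfsg.Agent.S1151
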