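import Cfsg.Statements.S1152
import Cfsg.Agent.Ree.Involution

set_option autoImplicit false
open Cfsg

namespace Cfsg.Agent.S1152

/-- In the small Ree group ²G₂(q), q = 3^(2m+1), realised as G¹ inside the Chevalley group G₂ over the field with q elements (θ the 3^m-th power map), with H¹ = G¹ ∩ H and U¹ = G¹ ∩ U the intersections with the ambient diagonal and positive unipotent subgroups: for an involution `a ∈ H¹`, the centraliser of `a` in `G¹` is isomorphic to `Z₂ × PSL₂(q)`; and the Sylow 2-subgroups of `G¹` are elementary abelian of order 8. -/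
theorem result {K : Type*} [Field K] [Fintype K] {m : ℕ} (hK : Fintype.card K = 3 ^ (2 * m + 1))
    (a : ↥(Cfsg.Lie.twistedG2 K (3 ^ m))) (haH : (a : GL Cfsg.Lie.chevG2.Idx K) ∈ Cfsg.Lie.chevG2.diagonalSubgroup K) (ha1 : a ≠ 1) (ha2 : a * a = 1) :
    Nonempty (↥(Subgroup.centralizer {a}) ≃* Multiplicative (ZMod 2) × Matrix.ProjectiveSpecialLinearGroup (Fin 2) K) ∧
      ∀ S : Sylow 2 ↥(Cfsg.Lie.twistedG2 K (3 ^ m)), Nat.card S = 8 ∧ ∀ x ∈ S, x * x = 1 := by
  haveI : CharP K 3 := CfsgLib.Ree.charP_of_card hK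
  have hq := CfsgLib.Ree.Q_of_card hK
  obtain ⟨w, hw⟩ := CfsgLib.Ree.mem_diag_fix haH (CfsgLib.Ree.twistedG2_le_fixSub hq a.2)
  have hinj := CfsgLib.Ree.hT_injective (K := K) (m := m)
  have hw2 : w * w = 1 := hinj (by
    rw [map_mul, map_one, ← hw]; exact congrArg Subtype.val ha2)
  have hw1 : w = -1 := by
    have h2 : (w : K) * w = 1 := by rw [← Units.val_mul, hw2, Units.val_one]
    rcases mul_self_eq_one_iff.mp h2 with h | h
    · exact absurd (Subtype.ext (by rw [hw, show w = 1 from Units.ext h, map_one]; rfl)) ha1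
    · exact Units.ext h
  obtain rfl : a = CfsgLib.Ree.invE := Subtype.ext (by rw [hw, hw1]; rfl)
  exact ⟨CfsgLib.Ree.centralizer_iso hK, CfsgLib.Ree.sylow_two_twisted hK⟩

end Cfsg.Agent.S1152
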