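import Cfsg.Statements.S1160
import Cfsg.Agent.PGroup.UniqueOrderP
import Cfsg.Agent.PGroup.Normal
-- import your own Cfsg.Agent.* helpers here

set_option autoImplicit false
open Cfsg

namespace Cfsg.Agent.S1160

section

variable {P E : Type*} [Group P] [AddCommGroup E] [DistribMulAction P E]

/-- Sum over the powers of an element. -/
def powSum (p : ℕ) (y : P) (v : E) : E := ∑ i ∈ Finset.range p, (y ^ i) • v

theorem powSum_add (p : ℕ) (y : P) (u v : E) :
    powSum p y (u + v) = powSum p y u + powSum p y v := by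
  simp [powSum, smul_add, Finset.sum_add_distrib]

theorem powSum_nsmul (p : ℕ) (y : P) (m : ℕ) (v : E) :
    powSum p y (m • v) = m • powSum p y v := by
  rw [powSum, powSum, Finset.smul_sum]
  exact Finset.sum_congr rfl fun i _ => map_nsmul (DistribMulAction.toAddMonoidHom E (y ^ i)) m v

theorem powSum_sub (p : ℕ) (y : P) (u v : E) :
    powSum p y (u - v) = powSum p y u - powSum p y v := by
  simp [powSum, smul_sub, Finset.sum_sub_distrib]

theorem powSum_of_fixed (p : ℕ) {y : P} {v : E} (h : y • v = v) : powSum p y v = p • v := by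
  have h' : ∀ i : ℕ, (y ^ i) • v = v := fun i => by
    induction i with
    | zero => rw [pow_zero, one_smul]
    | succ i ih => rw [pow_succ, mul_smul, h, ih]
  rw [powSum, Finset.sum_congr rfl fun i _ => h' i, Finset.sum_const, Finset.card_range]

theorem smul_powSum {p : ℕ} {y : P} (hy : y ^ p = 1) (v : E) :
    y • powSum p y v = powSum p y v := by
  have h1 := Finset.sum_range_succ (fun i => (y ^ i) • v) p
  have h2 := Finset.sum_range_succ' (fun i => (y ^ i) • v) p
  rw [h1, hy, pow_zero] at h2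
  simp only [powSum, Finset.smul_sum, ← mul_smul, ← pow_succ']
  exact (add_right_cancel h2).symm

theorem smul_powSum_of_commute {p : ℕ} {y h : P} (hc : Commute h y) (v : E) :
    h • powSum p y v = powSum p y (h • v) := by
  simp only [powSum, Finset.smul_sum, ← mul_smul, (hc.pow_right _).eq]

theorem powSum_eq_zero_of_twist {p : ℕ} {x w : P} (hc : Commute x w) (hw : w ^ p = 1)
    (hf : ∀ v : E, w • v = v → v = 0) {v : E} (h : (x * w) • v = v) : powSum p x v = 0 := by
  have h1 : x • v = w⁻¹ • v := by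
    rw [eq_inv_smul_iff, ← mul_smul, ← hc.eq]; exact h
  have h2 : ∀ i : ℕ, (x ^ i) • v = (w⁻¹ ^ i) • v := fun i => by
    induction i with
    | zero => rw [pow_zero, pow_zero]
    | succ i ih =>
      rw [pow_succ, mul_smul, h1, ← mul_smul, (hc.inv_right.pow_left i).eq, mul_smul, ih,
        ← mul_smul, ← pow_succ']
  refine hf _ ?_
  rw [powSum, Finset.sum_congr rfl fun i _ => h2 i]
  have h3 := smul_powSum (y := w⁻¹) (p := p) (by rw [inv_pow, hw, inv_one]) v
  rw [inv_smul_eq_iff] at h3
  exact h3.symm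

variable [Finite P] {p : ℕ} [Fact p.Prime]

omit [Finite P] in
theorem zpowers_eq_of_mem {z w : P} (hz : orderOf z = p) (hw : w ∈ Subgroup.zpowers z)
    (hw1 : w ≠ 1) : z ∈ Subgroup.zpowers w := by
  haveI : Finite (Subgroup.zpowers z) := Nat.finite_of_card_ne_zero (by
    rw [Nat.card_zpowers, hz]; exact (Fact.out : p.Prime).ne_zero)
  have hc : Nat.card (Subgroup.zpowers z) = p := by rw [Nat.card_zpowers, hz]
  have h := Subgroup.eq_bot_or_eq_top_of_prime_card (G := Subgroup.zpowers z)
    (Subgroup.zpowers (⟨w, hw⟩ : Subgroup.zpowers z)) (hp := ⟨by rw [hc]; exact Fact.out⟩)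
  rcases h with h | h
  · exact absurd (congrArg Subtype.val (Subgroup.zpowers_eq_bot.1 h)) hw1
  · obtain ⟨k, hk⟩ := (h ▸ Subgroup.mem_top _ :
      (⟨z, Subgroup.mem_zpowers z⟩ : Subgroup.zpowers z) ∈ Subgroup.zpowers ⟨w, hw⟩)
    exact ⟨k, congrArg Subtype.val hk⟩

omit [Finite P] in
theorem fixed_of_mem_zpowers {z w : P} (hw : z ∈ Subgroup.zpowers w) {v : E} (h : w • v = v) :
    z • v = v :=
  (Subgroup.zpowers_le (H := MulAction.stabilizer P v)).2 h hw

variable [FaithfulSMul P E]

/-- A central element of order `p` is fixed-point-free. -/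
theorem central_fpf (hinv : ∀ v : E, p • v = 0 → v = 0)
    (hconst : ∀ a b : E, a ≠ 0 → b ≠ 0 →
      Nat.card (MulAction.stabilizer P a) = Nat.card (MulAction.stabilizer P b))
    {z : P} (hz : orderOf z = p) (hc : z ∈ Subgroup.center P) (a : E) (ha : z • a = a) :
    a = 0 := by
  by_contra ha0
  have hzp : z ^ p = 1 := by rw [← hz]; exact pow_orderOf_eq_one z
  have hcomm : ∀ h : P, Commute h z := fun h => Subgroup.mem_center_iff.1 hc h
  have hker : ∀ b : E, powSum p z b = 0 → b = 0 := by
    intro b hb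
    by_contra hb0
    have hab : a + b ≠ 0 := by
      intro h
      have h1 := powSum_add p z a b
      rw [h, hb, add_zero, powSum_of_fixed p ha,
        show powSum p z (0 : E) = 0 from by simp [powSum]] at h1
      exact ha0 (hinv a h1.symm)
    have hle : MulAction.stabilizer P (a + b) ≤
        MulAction.stabilizer P a ⊓ MulAction.stabilizer P b := by
      intro h (hh : h • (a + b) = a + b)
      have h1 := congrArg (powSum p z) hh
      rw [← smul_powSum_of_commute (hcomm h), powSum_add, hb, add_zero, powSum_of_fixed p ha] at h1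
      have h2 : h • a = a := by
        refine sub_eq_zero.1 (hinv _ ?_)
        rw [smul_sub, smul_comm p h a]
        exact sub_eq_zero.2 h1
      rw [smul_add, h2] at hh
      exact ⟨h2, add_left_cancel hh⟩
    have e1 := Subgroup.eq_of_le_of_card_ge (hle.trans inf_le_left) (hconst a (a + b) ha0 hab).le
    have hzb : z • b = b := (hle.trans inf_le_right) (e1.symm ▸ (ha : z ∈ MulAction.stabilizer P a))
    rw [powSum_of_fixed p hzb] at hb
    exact hb0 (hinv b hb)
  have hall : ∀ e : E, z • e = (1 : P) • e := by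
    intro e
    have hfix := smul_powSum hzp e
    have h1 := hker (p • e - powSum p z e) (by
      rw [powSum_sub, powSum_nsmul, powSum_of_fixed p hfix, sub_self])
    rw [sub_eq_zero] at h1
    rw [← h1] at hfix
    rw [one_smul]
    refine sub_eq_zero.1 (hinv _ ?_)
    rw [smul_sub, smul_comm p z e]
    exact sub_eq_zero.2 hfix
  have := eq_of_smul_eq_smul hall
  rw [this, orderOf_one] at hz
  exact (Fact.out : p.Prime).ne_one hz.symm

theorem isCyclic_of_const [Nontrivial E] (hp : p ≠ 2) (hP : IsPGroup p P)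
    (hinv : ∀ v : E, p • v = 0 → v = 0)
    (hconst : ∀ a b : E, a ≠ 0 → b ≠ 0 →
      Nat.card (MulAction.stabilizer P a) = Nat.card (MulAction.stabilizer P b)) :
    IsCyclic P := by
  by_contra hnc
  have hpp : p.Prime := Fact.out
  obtain ⟨A, hAn, hAe, hAc⟩ := CfsgLib.PGroup.exists_normal_elementary_sq hp hP hnc
  have hexp : ∀ y ∈ A, y ^ p = 1 := hAe.2
  have hord : ∀ y ∈ A, y ≠ 1 → orderOf y = p := fun y hy h => orderOf_eq_prime (hexp y hy) h
  have hA1 : A ≠ ⊥ := by
    intro h
    rw [h, Subgroup.card_bot] at hAc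
    exact absurd (Nat.one_lt_pow two_ne_zero hpp.one_lt) (by omega)
  obtain ⟨z, ⟨hzA, hzc⟩, hz1⟩ :=
    (Subgroup.bot_or_exists_ne_one _).resolve_left (CfsgLib.PGroup.inf_center_ne_bot hP A hA1)
  have hzo : orderOf z = p := hord z hzA hz1
  set Z := Subgroup.zpowers z with hZ
  haveI : Z.Normal := ⟨fun w hw g => by
    rw [Subgroup.mem_center_iff.1 ((Subgroup.zpowers_le.2 hzc : Z ≤ _) hw) g,
      mul_inv_cancel_right]
    exact hw⟩
  have hZA : Z ≤ A := Subgroup.zpowers_le.2 hzA
  obtain ⟨x, hxA, hxZ⟩ : ∃ x ∈ A, x ∉ Z := by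
    by_contra h
    push Not at h
    have := Subgroup.card_le_of_le (h : A ≤ Z)
    rw [hAc, hZ, Nat.card_zpowers, hzo, pow_two] at this
    have := hpp.two_le
    nlinarith
  have hxc : ∀ g : P, ∃ w ∈ Z, g * x * g⁻¹ = x * w := by
    intro g
    let f := QuotientGroup.mk' Z
    haveI : (A.map f).Normal := hAn.map f (QuotientGroup.mk'_surjective Z)
    have hcard : Nat.card (A.map f) = p := by
      have h1 := (MonoidHom.ker (f.comp A.subtype)).card_eq_card_quotient_mul_card_subgroup
      rw [Nat.card_congr (QuotientGroup.quotientKerEquivRange (f.comp A.subtype)).toEquiv,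
        MonoidHom.range_comp, Subgroup.range_subtype, hAc, ← MonoidHom.comap_ker f A.subtype, QuotientGroup.ker_mk', ← Subgroup.subgroupOf, Nat.card_congr (Subgroup.subgroupOfEquivOfLe hZA).toEquiv,
        show Nat.card Z = p from (Nat.card_zpowers z).trans hzo, pow_two] at h1
      exact (Nat.eq_of_mul_eq_mul_right hpp.pos h1).symm
    have hmem : f x ∈ Subgroup.center (P ⧸ Z) :=
      CfsgLib.PGroup.le_center_of_card_eq (hP.to_quotient Z) (A.map f) hcard ⟨x, hxA, rfl⟩
    refine ⟨x⁻¹ * (g * x * g⁻¹), ?_, by group⟩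
    rw [← QuotientGroup.eq_one_iff, ← QuotientGroup.mk'_apply, map_mul, map_mul, map_mul, map_inv,
      map_inv, Subgroup.mem_center_iff.1 hmem, mul_inv_cancel_right, inv_mul_cancel]
  have hZc : ∀ w ∈ Z, ∀ g : P, Commute g w := fun w hw g =>
    Subgroup.mem_center_iff.1 ((Subgroup.zpowers_le.2 hzc : Z ≤ _) hw) g
  have hfpf : ∀ w ∈ Z, w ≠ 1 → ∀ v : E, w • v = v → v = 0 := fun w hw hw1 v hv =>
    central_fpf hinv hconst hzo hzc v (fixed_of_mem_zpowers (zpowers_eq_of_mem hzo hw hw1) hv)
  have hzero : ∀ w ∈ Z, w ≠ 1 → ∀ v : E, powSum p w v = 0 := fun w hw hw1 v =>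
    hfpf w hw hw1 _ (smul_powSum (hexp w (hZA hw)) v)
  -- replace `x` by a translate with a nonzero fixed point
  obtain ⟨x, hxA, hxZ, hxc, a, ha0, hxa⟩ : ∃ x' ∈ A, x' ∉ Z ∧
      (∀ g : P, ∃ w ∈ Z, g * x' * g⁻¹ = x' * w) ∧ ∃ a : E, a ≠ 0 ∧ x' • a = a := by
    obtain ⟨e, he⟩ := exists_ne (0 : E)
    have hzi : ∀ i : ℕ, z ^ i ∈ Z := fun i => Subgroup.pow_mem _ (Subgroup.mem_zpowers z) i
    have key : (∑ i ∈ Finset.range p, powSum p (x * z ^ i) e) = p • e := by
      simp only [powSum]
      rw [Finset.sum_comm, Finset.sum_eq_single 0]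
      · simp
      · intro j hj hj0
        have hcongr : ∀ i ∈ Finset.range p,
            ((x * z ^ i) ^ j) • e = (x ^ j) • (((z ^ j) ^ i) • e) := fun i _ => by
          rw [(hZc _ (hzi i) x).mul_pow, mul_smul, ← pow_mul, ← pow_mul, mul_comm j i]
        rw [Finset.sum_congr rfl hcongr, ← Finset.smul_sum]
        have hne : z ^ j ≠ 1 := by
          intro h
          have h' := Nat.le_of_dvd (Nat.pos_of_ne_zero hj0) (orderOf_dvd_of_pow_eq_one h)
          rw [hzo] at h'
          exact absurd (Finset.mem_range.1 hj) (by omega)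
        have := hzero (z ^ j) (hzi j) hne e
        rw [powSum] at this
        rw [this, smul_zero]
      · intro h; exact absurd (Finset.mem_range.2 hpp.pos) h
    obtain ⟨i, -, hi⟩ : ∃ i ∈ Finset.range p, powSum p (x * z ^ i) e ≠ 0 := by
      by_contra h
      push Not at h
      rw [Finset.sum_eq_zero h] at key
      exact he (hinv e key.symm)
    refine ⟨x * z ^ i, A.mul_mem hxA (hZA (hzi i)), fun h => hxZ ?_, fun g => ?_, _, hi,
      smul_powSum (hexp _ (A.mul_mem hxA (hZA (hzi i)))) e⟩
    · simpa using Z.mul_mem h (Z.inv_mem (hzi i))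
    · obtain ⟨w, hw, hgw⟩ := hxc g
      refine ⟨w, hw, ?_⟩
      calc g * (x * z ^ i) * g⁻¹ = g * x * (z ^ i * g⁻¹) := by group
      _ = g * x * g⁻¹ * z ^ i := by rw [← (hZc _ (hzi i) g⁻¹).eq]; group
      _ = x * z ^ i * w := by rw [hgw, mul_assoc, (hZc _ (hzi i) w).eq, mul_assoc]
  have hxp : x ^ p = 1 := hexp x hxA
  have hx1 : x ≠ 1 := fun h => hxZ (h ▸ Z.one_mem)
  by_cases hcen : x ∈ Subgroup.center P
  · exact ha0 (central_fpf hinv hconst (hord x hxA hx1) hcen a hxa)
  obtain ⟨g, hg⟩ : ∃ g : P, g * x * g⁻¹ ≠ x := by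
    by_contra h
    push Not at h
    exact hcen (Subgroup.mem_center_iff.2 fun g => mul_inv_eq_iff_eq_mul.1 (h g))
  obtain ⟨w, hw, hgw⟩ := hxc g
  have hw1 : w ≠ 1 := by rintro rfl; exact hg (by rw [hgw, mul_one])
  have hconj : ∀ (h y : P) (v : E), y • v = v → (h * y * h⁻¹) • (h • v) = h • v := fun h y v hv => by
    rw [← mul_smul, inv_mul_cancel_right, mul_smul, hv]
  have htwist : ∀ u ∈ Z, u ≠ 1 → ∀ v : E, (x * u) • v = v → powSum p x v = 0 :=
    fun u hu hu1 v hv =>
      powSum_eq_zero_of_twist (hZc u hu x) (hexp u (hZA hu)) (hfpf u hu hu1) hv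
  set b := g • a with hb
  have hb0 : b ≠ 0 := by rwa [hb, smul_ne_zero_iff_ne]
  have hxb : (x * w) • b = b := by rw [← hgw]; exact hconj g x a hxa
  have hTb : powSum p x b = 0 := htwist w hw hw1 b hxb
  have hTa : powSum p x a = p • a := powSum_of_fixed p hxa
  have hab : a + b ≠ 0 := by
    intro h
    have h1 := powSum_add p x a b
    rw [h, hTb, add_zero, hTa, show powSum p x (0 : E) = 0 from by simp [powSum]] at h1
    exact ha0 (hinv a h1.symm)
  have hle : MulAction.stabilizer P (a + b) ≤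
      MulAction.stabilizer P a ⊓ MulAction.stabilizer P b := by
    intro h (hh : h • (a + b) = a + b)
    rw [smul_add] at hh
    obtain ⟨u, hu, hhu⟩ := hxc h
    have hha : (x * u) • (h • a) = h • a := by rw [← hhu]; exact hconj h x a hxa
    have hhb : (x * (u * w)) • (h • b) = h • b := by
      have e : x * (u * w) = h * (x * w) * h⁻¹ := by
        calc x * (u * w) = h * x * h⁻¹ * w := by rw [hhu]; group
        _ = h * x * (h⁻¹ * w) := by group
        _ = h * x * (w * h⁻¹) := by rw [(hZc w hw h⁻¹).eq]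
        _ = _ := by group
      rw [e]; exact hconj h _ b hxb
    have hT := congrArg (powSum p x) hh
    rw [powSum_add, powSum_add, hTb, hTa, add_zero] at hT
    by_cases hu1 : u = 1
    · subst hu1
      rw [one_mul] at hhb
      rw [mul_one] at hha
      rw [htwist w hw hw1 _ hhb, add_zero, powSum_of_fixed p hha] at hT
      have h2 : h • a = a := sub_eq_zero.1 (hinv _ (by rw [smul_sub, hT, sub_self]))
      rw [h2] at hh
      exact ⟨h2, add_left_cancel hh⟩
    exfalso
    rw [htwist u hu hu1 _ hha, zero_add] at hT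
    by_cases huw : u * w = 1
    · rw [huw, mul_one] at hhb
      rw [powSum_of_fixed p hhb] at hT
      have h2 : h • b = a := sub_eq_zero.1 (hinv _ (by rw [smul_sub, hT, sub_self]))
      rw [h2, add_comm] at hh
      have h3 : h • a = b := add_left_cancel hh
      rw [h3] at hha
      have hne : w⁻¹ * u ≠ 1 := by
        intro h4
        rw [← inv_mul_eq_one.1 h4] at huw
        refine hw1 (orderOf_eq_one_iff.1 (Nat.dvd_one.1 ?_))
        have d1 := orderOf_dvd_of_pow_eq_one (show w ^ 2 = 1 by rw [pow_two]; exact huw)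
        have d2 := orderOf_dvd_of_pow_eq_one (hexp w (hZA hw))
        have := Nat.dvd_gcd d1 d2
        rwa [(Nat.coprime_primes Nat.prime_two hpp).2 (Ne.symm hp)] at this
      refine hb0 (hfpf _ (Z.mul_mem (Z.inv_mem hw) hu) hne b ?_)
      have h5 : (x * w)⁻¹ • b = b := inv_smul_eq_iff.2 hxb.symm
      calc (w⁻¹ * u) • b = ((x * w)⁻¹ * (x * u)) • b := by group
      _ = b := by rw [mul_smul, hha, h5]
    · rw [htwist (u * w) (Z.mul_mem hu hw) huw _ hhb] at hT
      exact ha0 (hinv a hT.symm)
  have e1 := Subgroup.eq_of_le_of_card_ge (hle.trans inf_le_left) (hconst a (a + b) ha0 hab).le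
  have hxb' : x • b = b :=
    (hle.trans inf_le_right) (e1.symm ▸ (hxa : x ∈ MulAction.stabilizer P a))
  rw [powSum_of_fixed p hxb'] at hTb
  exact hb0 (hinv b hTb)

end


/-- Let `p ≠ 2` be prime and `P` a finite `p`-group acting faithfully by additive automorphisms on a finite elementary abelian `q`-group `E` (`q` prime), such that `|P_a|` is the same for all `a ≠ 0`. Then `P` is cyclic and every non-identity element of `P` fixes only `0`. -/
theorem result {P E : Type*} [Group P] [Finite P]
    [AddCommGroup E] [Finite E] [DistribMulAction P E] [FaithfulSMul P E]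
    {p q : ℕ} [Fact p.Prime] (hp2 : p ≠ 2) (hP : IsPGroup p P) (hq : q.Prime) (hE : ∀ e : E, q • e = 0)
    (hconst : ∀ a b : E, a ≠ 0 → b ≠ 0 →
      Nat.card (MulAction.stabilizer P a) = Nat.card (MulAction.stabilizer P b)) :
    IsCyclic P ∧ ∀ g : P, g ≠ 1 → ∀ a : E, g • a = a → a = 0 := by
  rcases subsingleton_or_nontrivial E with hs | hnt
  · haveI : Subsingleton P :=
      ⟨fun g h => FaithfulSMul.eq_of_smul_eq_smul (α := E) fun _ => Subsingleton.elim _ _⟩
    exact ⟨isCyclic_of_subsingleton, fun g hg => absurd (Subsingleton.elim g 1) hg⟩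
  by_cases hpq : q = p
  · subst hpq
    have hdvd : q ∣ Nat.card E := by
      obtain ⟨e, he⟩ := exists_ne (0 : E)
      have h1 : addOrderOf e = q := addOrderOf_eq_prime (hE e) he
      exact h1 ▸ addOrderOf_dvd_natCard e
    obtain ⟨a, ha, ha0⟩ := hP.exists_fixed_point_of_prime_dvd_card_of_fixed_point E hdvd
      (a := 0) (fun g => smul_zero g)
    have htriv : ∀ g : P, g = 1 := by
      intro g
      refine FaithfulSMul.eq_of_smul_eq_smul (α := E) fun e => ?_
      rw [one_smul]
      by_cases he : e = 0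
      · rw [he, smul_zero]
      have h1 : MulAction.stabilizer P a = ⊤ := eq_top_iff.2 fun h _ => ha h
      have h2 := hconst e a he (Ne.symm ha0)
      rw [h1, Subgroup.card_top] at h2
      have h3 := Subgroup.eq_top_of_card_eq _ h2
      exact (h3 ▸ Subgroup.mem_top g : g ∈ MulAction.stabilizer P e)
    haveI : Subsingleton P := ⟨fun g h => (htriv g).trans (htriv h).symm⟩
    exact ⟨isCyclic_of_subsingleton, fun g hg => absurd (htriv g) hg⟩
  have hinv : ∀ v : E, p • v = 0 → v = 0 := fun v hv => by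
    rw [← AddMonoid.addOrderOf_eq_one_iff]
    have := Nat.dvd_gcd (addOrderOf_dvd_of_nsmul_eq_zero hv) (addOrderOf_dvd_of_nsmul_eq_zero (hE v))
    rw [(Nat.coprime_primes Fact.out hq).2 (Ne.symm hpq)] at this
    exact Nat.dvd_one.1 this
  have hcyc : IsCyclic P := isCyclic_of_const hp2 hP hinv hconst
  refine ⟨hcyc, fun g hg a ha => ?_⟩
  by_contra ha0
  obtain ⟨k, hk⟩ := hP g
  obtain ⟨j, hjle, hj⟩ := (Nat.dvd_prime_pow Fact.out).1 (orderOf_dvd_of_pow_eq_one hk)
  have hj0 : j ≠ 0 := by
    rintro rfl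
    exact hg (orderOf_eq_one_iff.1 (by rw [hj, pow_zero]))
  set z := g ^ p ^ (j - 1) with hz
  have hzo : orderOf z = p := by
    rw [hz, orderOf_pow' _ (pow_ne_zero _ (Fact.out : p.Prime).ne_zero), hj,
      Nat.gcd_eq_right (pow_dvd_pow p (Nat.sub_le j 1)), Nat.pow_div (Nat.sub_le j 1)
      (Fact.out : p.Prime).pos, show j - (j - 1) = 1 by omega, pow_one]
  have hzc : z ∈ Subgroup.center P := Subgroup.mem_center_iff.2 fun h => by
    haveI := hcyc
    exact (IsCyclic.isMulCommutative (α := P)).is_comm.comm h z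
  have hza : z • a = a :=
    (MulAction.stabilizer P a).pow_mem (ha : g ∈ MulAction.stabilizer P a) _
  exact ha0 (central_fpf hinv hconst hzo hzc a hza)

end Cfsg.Agent.S1160
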