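import Cfsg.Statements.S1167
import Cfsg.Agent.ZassAbelian.Main
import Cfsg.Agent.ZassAbelian.Sharp
import Cfsg.Agent.Perm57.ZassenhausOdd
import Cfsg.Agent.Zassenhaus.OddStab

set_option autoImplicit false
open Cfsg

namespace Cfsg.Agent.S1167

/-- Let `G` be a finite simple Zassenhaus group on `Ω`, `U` a normal subgroup of `G_a` regular on `Ω` minus `a` which is an abelian 2-group, and `v` an involution with `v • a ≠ a`. Then there is a unique `u₀ ∈ U`, `u₀ ≠ 1`, with `v u₀ v = u₀ v u₀`. -/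
theorem result {G Ω : Type*} [Group G] [Finite G] [MulAction G Ω] [Finite Ω]
    (hZ : Cfsg.IsZassenhausGroup G Ω) [IsSimpleGroup G] {a : Ω}
    (U : Subgroup G) (hUle : U ≤ MulAction.stabilizer G a)
    (hUn : ∀ h ∈ MulAction.stabilizer G a, ∀ u ∈ U, h * u * h⁻¹ ∈ U)
    (hreg : ∀ c d : Ω, c ≠ a → d ≠ a → ∃! u : U, (u : G) • c = d)
    (hU2 : IsPGroup 2 U) (hUab : ∀ u ∈ U, ∀ u' ∈ U, u * u' = u' * u)
    (v : G) (hv1 : v ≠ 1) (hv2 : v * v = 1) (hva : v • a ≠ a) :
    ∃! u₀ : G, u₀ ∈ U ∧ u₀ ≠ 1 ∧ v * u₀ * v = u₀ * v * u₀ := by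
  classical
  have := Fintype.ofFinite Ω
  obtain ⟨-, h2, h3, hne, hnd⟩ := id hZ
  obtain ⟨b, hb⟩ : ∃ b, b = v • a := ⟨_, rfl⟩
  have hab : a ≠ b := fun h => hva (h.trans hb).symm
  have hvb : v • b = a := by rw [hb, ← mul_smul, hv2, one_smul]
  have hfree : ∀ u ∈ U, ∀ y, y ≠ a → u • y = y → u = 1 := fun u hu y hy h =>
    congrArg Subtype.val ((hreg y y hy hy).unique (y₁ := ⟨u, hu⟩) (y₂ := 1) h (one_smul G y))
  obtain ⟨g₀, hg₀, p, q, hpq, hp, hq⟩ := hne
  have hthird : ∃ c : Ω, c ≠ a ∧ c ≠ b := by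
    by_contra h
    push Not at h
    obtain ⟨c, hc⟩ : ∃ c : Ω, g₀ • c ≠ c := by
      by_contra h'
      push Not at h'
      haveI := hZ.1
      exact hg₀ (eq_of_smul_eq_smul (α := Ω) fun c => by rw [h' c, one_smul])
    have hcp : c ≠ p := fun e => hc (e ▸ hp)
    have hcq : c ≠ q := fun e => hc (e ▸ hq)
    by_cases hpa : p = a
    · by_cases hca : c = a
      · exact hcp (hca.trans hpa.symm)
      · exact hcq ((h c hca).trans (h q fun e => hpq (hpa.trans e.symm)).symm)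
    · by_cases hca : c = a
      · exact hpq ((h p hpa).trans (h q fun e => hcq (hca.trans e.symm)).symm)
      · exact hcp ((h c hca).trans (h p hpa).symm)
  let D : CfsgLib.ZassAbelian.Setting G Ω :=
    { i := a
      o := b
      io := hab
      pair := fun p q r s hpq hrs => MulAction.is_two_pretransitive_iff.mp h2 hpq hrs
      three := h3
      third := hthird
      F := U
      Fle := fun u hu => hUle hu
      Fnorm := fun g hg u hu => hUn g hg u hu
      Fcomm := hUab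
      reg := fun y z hy hz => by
        obtain ⟨u, hu, -⟩ := hreg y z hy hz
        exact ⟨u, u.2, hu⟩
      free := hfree }
  obtain ⟨k, hk⟩ := IsPGroup.iff_card.1 (show IsPGroup 2 U from hU2)
  have hΩ : Nat.card Ω = Nat.card U + 1 := D.card_Omega
  have hq2 : 2 ≤ Nat.card U := D.two_le_q
  have hk0 : k ≠ 0 := by rintro rfl; rw [pow_zero] at hk; omega
  have hUeven : Even (Nat.card U) := by rw [hk]; exact Nat.even_pow.2 ⟨even_two, hk0⟩
  have hHodd : Odd (Nat.card (CfsgLib.Zassenhaus.pairStab G a b)) :=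
    CfsgLib.Perm57.odd_card_pairStab hZ
      (by rw [← Nat.card_eq_fintype_card, hΩ]; exact hUeven.add_one) hab
  have hHcard : Nat.card (CfsgLib.Zassenhaus.pairStab G a b) = Nat.card U - 1 := by
    rcases CfsgLib.ZassAbelian.classify D with hd | ⟨hd, -⟩ | ⟨M, hMn, ht, hf⟩
    · exact hd
    · exfalso
      have h1 : Even (Nat.card U - 1) := hd ▸ even_two_mul _
      obtain ⟨i, hi⟩ := hUeven
      obtain ⟨j, hj⟩ := h1
      omega
    · obtain ⟨p, hp⟩ := hnd M hMn ⟨fun p q => (ht p q).elim fun m hm => ⟨⟨m, hm.1⟩, hm.2⟩⟩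
      exact absurd (CfsgLib.ZassAbelian.stabilizer_of_free hf p) hp
  set H := CfsgLib.Zassenhaus.pairStab G a b with hH
  have hinv : ∀ d ∈ H, v * d * v⁻¹ = d⁻¹ := fun d hd =>
    CfsgLib.Zassenhaus.inverts_pairStab hZ hab hHodd hb.symm hvb hd
  have hvi : v⁻¹ = v := inv_eq_of_mul_eq_one_right hv2
  have hswap : ∀ d ∈ H, v * d = d⁻¹ * v := fun d hd => by
    calc v * d = v * d * v⁻¹ * v := by group
      _ = _ := by rw [hinv d hd]
  have hcommH : ∀ x ∈ H, ∀ y ∈ H, x * y = y * x := fun x hx y hy => by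
    have h := hinv _ (mul_mem hx hy)
    rw [show v * (x * y) * v⁻¹ = (v * x * v⁻¹) * (v * y * v⁻¹) by group, hinv x hx, hinv y hy,
      mul_inv_rev] at h
    have h' := congrArg (fun z => z⁻¹) h
    simpa [mul_inv_rev] using h'.symm
  have hHa : ∀ d ∈ H, d • a = a := fun d hd => (CfsgLib.Zassenhaus.mem_pairStab.1 hd).1
  have hHb : ∀ d ∈ H, d • b = b := fun d hd => (CfsgLib.Zassenhaus.mem_pairStab.1 hd).2
  have hUa : ∀ u ∈ U, u • a = a := fun u hu => hUle hu
  have hUb : ∀ u ∈ U, u • b ≠ a := fun u hu h =>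
    hab (MulAction.injective u (h.trans (hUa u hu).symm)).symm
  -- canonical forms
  have huniq : ∀ f ∈ U, ∀ f' ∈ U, ∀ g ∈ U, ∀ g' ∈ U, ∀ x ∈ H,
      f * v * g = f' * x * v * g' → f = f' ∧ x = 1 ∧ g = g' := by
    intro f hf f' hf' g hg g' hg' x hx he
    have h1 : f • b = f' • b := by
      have h := congrArg (fun z : G => z • a) he
      simpa only [mul_smul, hUa g hg, hUa g' hg', ← hb, hHb x hx] using h
    have hff : f = f' := inv_mul_eq_one.1 (hfree _ (mul_mem (inv_mem hf) hf') b hab.symm (by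
      rw [mul_smul, ← h1, inv_smul_smul]))
    subst hff
    have h2 : g * g'⁻¹ = x⁻¹ := by
      rw [← hinv x hx, hvi]
      calc g * g'⁻¹ = v * (v * g) * g'⁻¹ := by rw [← mul_assoc v v g, hv2, one_mul]
        _ = v * (f⁻¹ * (f * v * g)) * g'⁻¹ := by group
        _ = v * (f⁻¹ * (f * x * v * g')) * g'⁻¹ := by rw [he]
        _ = v * x * v := by group
    have h3 : g * g'⁻¹ = 1 := hfree _ (mul_mem hg (inv_mem hg')) b hab.symm
      (by rw [h2]; exact hHb _ (inv_mem hx))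
    exact ⟨rfl, inv_eq_one.1 (h2.symm.trans h3), mul_inv_eq_one.1 h3⟩
  have hdecomp : ∀ u ∈ U, u ≠ 1 →
      ∃ f ∈ U, ∃ x ∈ H, ∃ g ∈ U, v * u * v = f * x * v * g := by
    intro u hu hu1
    have hw : (v * u * v) • a ≠ a := by
      rw [mul_smul, mul_smul, ← hb]
      intro h
      exact hu1 (hfree u hu b hab.symm (MulAction.injective v (h.trans hvb.symm)))
    obtain ⟨⟨f, hf⟩, hfw, -⟩ := hreg b _ hab.symm hw
    change f • b = _ at hfw
    set k := v⁻¹ * f⁻¹ * (v * u * v) with hk'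
    have hka : k • a = a := by
      rw [hk', mul_smul, mul_smul, ← hfw, inv_smul_smul, inv_smul_eq_iff, hb]
    have hkb : k • b ≠ a := fun h => hab (MulAction.injective k (h.trans hka.symm)).symm
    obtain ⟨⟨g, hg⟩, hgk, -⟩ := hreg b _ hab.symm hkb
    change g • b = _ at hgk
    have hd : g⁻¹ * k ∈ H := CfsgLib.Zassenhaus.mem_pairStab.2
      ⟨by rw [mul_smul, hka, inv_smul_eq_iff, hUa g hg],
        by rw [mul_smul, ← hgk, inv_smul_smul]⟩
    set d := g⁻¹ * k with hd'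
    have hdU : d⁻¹ * g * d ∈ U := by
      simpa using hUn d⁻¹ (inv_mem (show d ∈ MulAction.stabilizer G a from hHa d hd)) g hg
    refine ⟨f, hf, d⁻¹, inv_mem hd, _, hdU, ?_⟩
    calc v * u * v = f * v * k := by rw [hk']; group
      _ = f * v * (d * (d⁻¹ * g * d)) := by rw [hd']; group
      _ = f * (v * d) * (d⁻¹ * g * d) := by group
      _ = _ := by rw [hswap d hd]; group
  -- conjugation by the two point stabiliser
  have hconj : ∀ u f x g : G, ∀ e ∈ H, x ∈ H → v * u * v = f * x * v * g →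
      v * (e * u * e⁻¹) * v = (e⁻¹ * f * e) * ((e * e)⁻¹ * x) * v * (e⁻¹ * g * e) := by
    intro u f x g e he hx h
    calc v * (e * u * e⁻¹) * v = (v * e) * u * (e⁻¹ * v) := by group
      _ = e⁻¹ * (v * u * v) * e := by
          rw [(hswap e he).symm]
          nth_rewrite 1 [hswap e he]
          group
      _ = (e⁻¹ * f * e) * (e⁻¹ * x) * v * g * e := by rw [h]; group
      _ = (e⁻¹ * f * e) * (e⁻¹ * x) * (v * e) * (e⁻¹ * g * e) := by group
      _ = (e⁻¹ * f * e) * (e⁻¹ * (x * e⁻¹)) * v * (e⁻¹ * g * e) := by rw [hswap e he]; group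
      _ = _ := by rw [hcommH x hx e⁻¹ (inv_mem he)]; group
  -- the two point stabiliser is transitive on the non-identity elements of `U`
  have hUconj : ∀ e ∈ H, ∀ u ∈ U, e * u * e⁻¹ ∈ U := fun e he u hu =>
    hUn e (show e ∈ MulAction.stabilizer G a from hHa e he) u hu
  have htrans : ∀ u ∈ U, ∀ u' ∈ U, u ≠ 1 → u' ≠ 1 → ∃ e ∈ H, e * u * e⁻¹ = u' := by
    intro u hu u' hu' hu1 hu1'
    have hinj : Function.Injective fun e : H => (⟨⟨(e : G) * u * (e : G)⁻¹, hUconj e e.2 u hu⟩,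
        fun h => hu1 (conj_eq_one_iff.1 (congrArg Subtype.val h))⟩ : {w : U // w ≠ 1}) := by
      intro e e' h
      have h' : (e : G) * u * (e : G)⁻¹ = e' * u * (e' : G)⁻¹ :=
        congrArg (fun w : {w : U // w ≠ 1} => ((w : U) : G)) h
      set d := (e' : G)⁻¹ * e with hd
      have hdH : d ∈ H := mul_mem (inv_mem e'.2) e.2
      have hdu : d * u * d⁻¹ = u := by
        calc d * u * d⁻¹ = (e' : G)⁻¹ * ((e : G) * u * (e : G)⁻¹) * e' := by rw [hd]; group
          _ = u := by rw [h']; group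
      have hfix : d • u • b = u • b := by
        calc d • u • b = (d * u * d⁻¹) • d • b := by rw [mul_smul (d * u) d⁻¹, mul_smul d u, inv_smul_smul]
          _ = u • b := by rw [hdu, hHb d hdH]
      have hd1 : d = 1 := h3 d a b (u • b) hab (fun e => hu1 (hfree u hu b hab.symm e.symm))
        (hUb u hu).symm (hHa d hdH) (hHb d hdH) hfix
      exact Subtype.ext (inv_mul_eq_one.1 hd1).symm
    haveI := Fintype.ofFinite U
    haveI := Fintype.ofFinite {w : U // w ≠ 1}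
    have hbij := hinj.bijective_of_nat_card_le (le_of_eq (by
      rw [hHcard, Nat.card_eq_fintype_card (α := {w : U // w ≠ 1}),
        Fintype.card_subtype_compl, Fintype.card_subtype_eq, Nat.card_eq_fintype_card]))
    obtain ⟨e, he⟩ := hbij.2 ⟨⟨u', hu'⟩, fun h => hu1' (congrArg Subtype.val h)⟩
    exact ⟨e, e.2, congrArg (fun w : {w : U // w ≠ 1} => ((w : U) : G)) he⟩
  -- a representative without torus component
  obtain ⟨u₁, hu₁, hu₁1, f, hf, g, hg, he₁⟩ :
      ∃ u ∈ U, u ≠ 1 ∧ ∃ f ∈ U, ∃ g ∈ U, v * u * v = f * v * g := by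
    obtain ⟨⟨u, hu⟩, hu1⟩ : ∃ w : U, w ≠ 1 := by
      haveI := Finite.one_lt_card_iff_nontrivial.1 (show 1 < Nat.card U by omega)
      exact exists_ne 1
    have hu1' : u ≠ 1 := fun h => hu1 (Subtype.ext h)
    obtain ⟨f, hf, x, hx, g, hg, h⟩ := hdecomp u hu hu1'
    obtain ⟨i, hi⟩ := hHodd
    have hxord : x ^ (2 * i + 1) = 1 := by
      rw [← hi]
      exact congrArg Subtype.val (pow_card_eq_one' (x := (⟨x, hx⟩ : H)))
    set e := x ^ (i + 1) with he'
    have hee : (e * e)⁻¹ * x = 1 := by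
      rw [he', ← pow_add, inv_mul_eq_one, show i + 1 + (i + 1) = 2 * i + 1 + 1 by omega, pow_succ,
        hxord, one_mul]
    have heH : e ∈ H := pow_mem hx _
    refine ⟨_, hUconj e heH u hu, fun h => hu1' (conj_eq_one_iff.1 h), _,
      by simpa using hUconj e⁻¹ (inv_mem heH) f hf, _,
      by simpa using hUconj e⁻¹ (inv_mem heH) g hg, ?_⟩
    rw [hconj u f x g e heH hx h, hee, mul_one]
  have honly : ∀ u ∈ U, u ≠ 1 → ∀ f' ∈ U, ∀ g' ∈ U, v * u * v = f' * v * g' → u = u₁ := by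
    intro u hu hu1 f' hf' g' hg' h
    obtain ⟨e, he, rfl⟩ := htrans u₁ hu₁ u hu hu₁1 hu1
    have h' := hconj u₁ f 1 g e he (one_mem _) (by rw [mul_one]; exact he₁)
    rw [h, mul_one] at h'
    have hx1 := (huniq f' hf' _ (by simpa using hUconj e⁻¹ (inv_mem he) f hf) g' hg' _
      (by simpa using hUconj e⁻¹ (inv_mem he) g hg) _ (inv_mem (mul_mem he he)) h').2.1
    have he1 : e = 1 := by
      obtain ⟨i, hi⟩ := hHodd
      have hpow : e ^ (2 * i + 1) = 1 := by
        rw [← hi]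
        exact congrArg Subtype.val (pow_card_eq_one' (x := (⟨e, he⟩ : H)))
      rwa [pow_succ, pow_mul, pow_two, inv_eq_one.1 hx1, one_pow, one_mul] at hpow
    simp [he1]
  have hg1 : g ≠ 1 := by
    intro h0
    rw [h0, mul_one] at he₁
    have h := congrArg (fun z : G => z • b) he₁
    simp only [mul_smul, hvb, hUa u₁ hu₁, ← hb, hUa f hf] at h
    exact hab h.symm
  have hgu : g = u₁ := honly g hg hg1 f⁻¹ (inv_mem hf) u₁ hu₁ (by
    calc v * g * v = f⁻¹ * (f * v * g) * v := by group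
      _ = f⁻¹ * (v * u₁ * v) * v := by rw [he₁]
      _ = f⁻¹ * v * u₁ := by rw [mul_assoc f⁻¹, mul_assoc (v * u₁), hv2, mul_one, mul_assoc])
  have hinv₁ : v * u₁⁻¹ * v = g⁻¹ * v * f⁻¹ := by
    calc v * u₁⁻¹ * v = (v⁻¹ * u₁ * v⁻¹)⁻¹ := by group
      _ = (v * u₁ * v)⁻¹ := by rw [hvi]
      _ = (f * v * g)⁻¹ := by rw [he₁]
      _ = g⁻¹ * v⁻¹ * f⁻¹ := by group
      _ = _ := by rw [hvi]
  have hu1i : u₁⁻¹ = u₁ := honly _ (inv_mem hu₁) (inv_ne_one.2 hu₁1) _ (inv_mem hg) _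
    (inv_mem hf) hinv₁
  rw [hu1i] at hinv₁
  have hfu : f = u₁ := by
    have h := (huniq f hf _ (inv_mem hg) g hg _ (inv_mem hf) 1 (one_mem _)
      (by rw [mul_one]; exact he₁.symm.trans hinv₁)).1
    rw [h, hgu, hu1i]
  refine ⟨u₁, ⟨hu₁, hu₁1, ?_⟩, fun u hu => honly u hu.1 hu.2.1 u hu.1 u hu.1 hu.2.2⟩
  conv_lhs => rw [he₁, hgu, hfu]

end Cfsg.Agent.S1167
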