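import Cfsg.Statements.S1168
import Cfsg.Agent.Linalg.FieldAutBasis
-- import your own Cfsg.Agent.* helpers here

set_option autoImplicit false
open Cfsg

namespace Cfsg.Agent.S1168

/-- For a finite field `F` of characteristic 2: if `q : F → F` is quadratic over the prime field, i.e. `(x, y) ↦ q (x + y) + q x + q y` is additive in each variable, then `q x = Σ c_{σ,τ} σ(x) τ(x)` for some coefficients indexed by pairs of field automorphisms. -/
theorem result {F : Type*} [Field F] [Fintype F] [CharP F 2]
    (q : F → F)
    (hq : ∀ x y z : F, q (x + y + z) + q (x + y) + q (x + z) + q (y + z) + q x + q y + q z = 0) :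
    ∃ (s : Finset ((F ≃+* F) × (F ≃+* F))) (c : (F ≃+* F) × (F ≃+* F) → F),
      ∀ x : F, q x = ∑ p ∈ s, c p * (p.1 x * p.2 x) := by
  classical
  letI hA : Algebra (ZMod 2) F := ZMod.algebra F 2
  have h2 : (2 : F) = 0 := CharTwo.two_eq_zero
  have h0 : q 0 = 0 := by
    have h := hq 0 0 0
    simp only [add_zero] at h
    linear_combination h - (3 * q 0) * h2
  have hadd : ∀ x y z : F, q (x + (y + z)) + q x + q (y + z) =
      (q (x + y) + q x + q y) + (q (x + z) + q x + q z) := fun x y z => by
    rw [← add_assoc]
    linear_combination hq x y z - (q (x + y) + q (x + z) + q x + q y + q z) * h2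
  have hsymm : ∀ x y : F, q (x + y) + q x + q y = q (y + x) + q y + q x := fun x y => by
    rw [add_comm x y]; ring
  let B : F →+ F →+ F := AddMonoidHom.mk' (fun x => AddMonoidHom.mk'
      (fun y => q (x + y) + q x + q y) (hadd x)) (fun x x' => by
    refine AddMonoidHom.ext fun y => ?_
    show q (x + x' + y) + q (x + x') + q y = (q (x + y) + q x + q y) + (q (x' + y) + q x' + q y)
    rw [hsymm (x + x') y, hsymm x y, hsymm x' y]
    exact hadd y x x')
  let C : LinearMap.BilinMap (ZMod 2) F F := LinearMap.mk₂ (ZMod 2) (fun x y => B x y)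
    (fun x x' y => DFunLike.congr_fun (map_add B x x') y)
    (fun a x y => DFunLike.congr_fun ((B.toZModLinearMap 2).map_smul a x) y)
    (fun x y y' => map_add (B x) y y')
    (fun a x y => ((B x).toZModLinearMap 2).map_smul a y)
  let Q : QuadraticMap (ZMod 2) F F :=
    { toFun := q
      toFun_smul := fun a x => by
        fin_cases a
        · show q ((0 : ZMod 2) • x) = ((0 : ZMod 2) * 0) • q x
          rw [zero_smul, mul_zero, zero_smul, h0]
        · show q ((1 : ZMod 2) • x) = ((1 : ZMod 2) * 1) • q x
          rw [one_smul, mul_one, one_smul]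
      exists_companion' := ⟨C, fun x y => by
        show q (x + y) = q x + q y + (q (x + y) + q x + q y)
        linear_combination -(q x + q y) * h2⟩ }
  obtain ⟨T, hT⟩ := LinearMap.BilinMap.toQuadraticMap_surjective Q
  let β : F →+ F →+ F := AddMonoidHom.mk' (fun x => (T x).toAddMonoidHom) (fun x x' => by
    refine AddMonoidHom.ext fun y => ?_
    show T (x + x') y = T x y + T x' y
    rw [map_add, LinearMap.add_apply])
  obtain ⟨t, c, htc⟩ := CfsgLib.FieldAutBasis.exists_expansion₂ β
  refine ⟨t, c, fun x => ?_⟩
  rw [← htc x x]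
  exact (DFunLike.congr_fun hT x).symm

end Cfsg.Agent.S1168
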