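import Cfsg.Statements.S1176
-- import your own Cfsg.Agent.* helpers here

set_option autoImplicit false
open Cfsg

open scoped commutatorElement

namespace Cfsg.Agent.S1176

/-- Let x₀ be an involution of the finite group G and D its conjugacy class. Assume (a) for each x ∈ D the subgroup W(x) generated by the members of D commuting with x is a 2-group of nilpotency class at most 2, and (b) the product of two distinct commuting members of D again lies in D. Then for all x, y ∈ D, if xy has even order greater than 2, its order is 4. -/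
theorem result {G : Type*} [Group G] [Finite G] (x₀ : G) (hx₀ : orderOf x₀ = 2) (ha : ∀ x : G, IsConj x₀ x → IsPGroup 2 ↥(Subgroup.closure {y : G | IsConj x₀ y ∧ Commute y x}) ∧ ⁅⁅Subgroup.closure {y : G | IsConj x₀ y ∧ Commute y x}, Subgroup.closure {y : G | IsConj x₀ y ∧ Commute y x}⁆, Subgroup.closure {y : G | IsConj x₀ y ∧ Commute y x}⁆ = ⊥) (hb : ∀ x y : G, IsConj x₀ x → IsConj x₀ y → x ≠ y → Commute x y → IsConj x₀ (x * y)) (x y : G) (hx : IsConj x₀ x) (hy : IsConj x₀ y) (heven : Even (orderOf (x * y))) (hgt : 2 < orderOf (x * y)) : orderOf (x * y) = 4 := by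
  set k := x * y with hk
  set n := orderOf k / 2 with hn
  have hord : orderOf k = n + n := by obtain ⟨j, hj⟩ := heven; omega
  have hsq : ∀ u : G, IsConj x₀ u → u * u = 1 := fun u hu => by
    obtain ⟨c, rfl⟩ := isConj_iff.1 hu
    have h2 : x₀ * x₀ = 1 := by rw [← pow_two, ← hx₀]; exact pow_orderOf_eq_one x₀
    rw [show c * x₀ * c⁻¹ * (c * x₀ * c⁻¹) = c * (x₀ * x₀) * c⁻¹ by group, h2, mul_one,
      mul_inv_cancel]
  have hx2 := hsq x hx
  have hy2 := hsq y hy
  have hxi : x⁻¹ = x := inv_eq_of_mul_eq_one_right hx2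
  have hyi : y⁻¹ = y := inv_eq_of_mul_eq_one_right hy2
  have hinv : x * k * x⁻¹ = k⁻¹ := by
    rw [hk, mul_inv_rev, hyi, hxi, ← mul_assoc, hx2, one_mul]
  have hpow : ∀ j : ℕ, x * k ^ j * x⁻¹ = (k ^ j)⁻¹ := fun j => by rw [← conj_pow, hinv, inv_pow]
  have hswap : ∀ j : ℕ, (k ^ j)⁻¹ * x = x * k ^ j := fun j => by rw [← hpow j]; group
  set w := k ^ n with hw
  have hw1 : w ≠ 1 := by
    intro h
    have := Nat.le_of_dvd (by omega) (orderOf_dvd_of_pow_eq_one h)
    omega
  have hw2 : w⁻¹ = w := by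
    refine inv_eq_of_mul_eq_one_right ?_
    rw [hw, ← pow_add, ← hord, pow_orderOf_eq_one]
  have hwx : Commute x w := by
    have := hpow n
    rw [← hw, hw2] at this
    exact mul_inv_eq_iff_eq_mul.mp this
  have hxw : IsConj x₀ (x * w) := by
    rcases Nat.even_or_odd n with ⟨j, hj⟩ | ⟨j, hj⟩
    · refine hx.trans (isConj_iff.2 ⟨(k ^ j)⁻¹, ?_⟩)
      rw [inv_inv, hswap, hw, hj, pow_add, mul_assoc]
    · refine hy.trans (isConj_iff.2 ⟨(k ^ j)⁻¹, ?_⟩)
      have hyk : y = x * k := by rw [hk, ← mul_assoc, hx2, one_mul]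
      calc (k ^ j)⁻¹ * y * (k ^ j)⁻¹⁻¹ = ((k ^ j)⁻¹ * x) * k * k ^ j := by rw [hyk]; group
      _ = x * w := by
        rw [hswap, hw, hj, two_mul, add_right_comm, pow_add, pow_succ]; group
  have hwD : IsConj x₀ w := by
    have h := hb x (x * w) hx hxw (fun h => hw1 (by simpa using h))
      ((Commute.refl x).mul_right hwx)
    rwa [← mul_assoc, hx2, one_mul] at h
  have hwy : Commute y w := by
    have hyk : y = x * k := by rw [hk, ← mul_assoc, hx2, one_mul]
    rw [hyk]
    exact hwx.mul_left ((Commute.refl k).pow_right n)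
  set W := Subgroup.closure {u : G | IsConj x₀ u ∧ Commute u w} with hW
  have hxW : x ∈ W := Subgroup.subset_closure ⟨hx, hwx⟩
  have hyW : y ∈ W := Subgroup.subset_closure ⟨hy, hwy⟩
  have hcomm : ⁅⁅x, y⁆, x⁆ ∈ ⁅⁅W, W⁆, W⁆ :=
    Subgroup.commutator_mem_commutator (Subgroup.commutator_mem_commutator hxW hyW) hxW
  rw [(ha w hwD).2, Subgroup.mem_bot, commutatorElement_def, commutatorElement_def, hxi, hyi]
    at hcomm
  have e1 : x * y * x * y = k ^ 2 := by rw [hk, pow_two]; group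
  rw [e1] at hcomm
  have h2 : x * (k ^ 2)⁻¹ * x⁻¹ = k ^ 2 := by
    rw [← conj_inv, hpow, inv_inv]
  have h4 : k ^ 4 = 1 := by
    rw [hxi] at h2
    calc k ^ 4 = k ^ 2 * (x * (k ^ 2)⁻¹ * x) := by rw [h2, ← pow_add]
    _ = k ^ 2 * x * (k ^ 2)⁻¹ * x := by group
    _ = 1 := hcomm
  have hdvd := orderOf_dvd_of_pow_eq_one h4
  have hle := Nat.le_of_dvd (by norm_num) hdvd
  omega

end Cfsg.Agent.S1176
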