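import Cfsg.Statements.S1177
import Mathlib
import Cfsg.Agent.Eq.Def_Transfer

set_option autoImplicit false
open Cfsg

namespace Cfsg.Agent.S1177

/-- Let A be a nontrivial elementary abelian 2-subgroup of a finite group G which is a T.I. set (each conjugate of A meets A trivially or equals A) and which does not commute elementwise with any conjugate of A other than A itself. Then for every a ∈ A, a ≠ 1, every conjugate of A contained in C_G(a) is equal to A (A is weakly closed in C_G(a)). -/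
theorem result {G : Type*} [Group G] [Finite G] (A : Subgroup G) (hA : Cfsg.IsElementaryAbelian 2 A) (hA1 : A ≠ ⊥) (hTI : ∀ g : G, A.map (MulAut.conj g).toMonoidHom ⊓ A = ⊥ ∨ A.map (MulAut.conj g).toMonoidHom = A) (hb : ∀ g : G, (∀ a ∈ A, ∀ b ∈ A.map (MulAut.conj g).toMonoidHom, a * b = b * a) → A.map (MulAut.conj g).toMonoidHom = A) (a : G) (ha : a ∈ A) (ha1 : a ≠ 1) (g : G) (hg : A.map (MulAut.conj g).toMonoidHom ≤ Subgroup.centralizer ({a} : Set G)) : A.map (MulAut.conj g).toMonoidHom = A := by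
  set B := A.map (MulAut.conj g).toMonoidHom with hBdef
  by_contra hne
  have hAB : B ⊓ A = ⊥ := (hTI g).resolve_right hne
  have hTI' : ∀ x : G, x ∈ A → ∀ b ∈ B, b ≠ 1 → x * b = b * x → ∀ b' ∈ B, x * b' * x⁻¹ ∈ B := by
    intro x hx b hb hb1 hxb b' hb'
    rw [hBdef, Subgroup.mem_map] at hb hb'
    obtain ⟨y, hy, hyb⟩ := hb
    obtain ⟨y', hy', hyb'⟩ := hb'
    simp only [MulEquiv.coe_toMonoidHom, MulAut.conj_apply] at hyb hyb'
    have hne' : A.map (MulAut.conj (g⁻¹ * x * g)).toMonoidHom ⊓ A ≠ ⊥ := by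
      intro h0
      have hm : y ∈ A.map (MulAut.conj (g⁻¹ * x * g)).toMonoidHom ⊓ A := by
        refine ⟨⟨y, hy, ?_⟩, hy⟩
        simp only [MulEquiv.coe_toMonoidHom, MulAut.conj_apply]
        calc g⁻¹ * x * g * y * (g⁻¹ * x * g)⁻¹ = g⁻¹ * (x * (g * y * g⁻¹)) * x⁻¹ * g := by group
        _ = g⁻¹ * ((g * y * g⁻¹) * x) * x⁻¹ * g := by rw [hyb, hxb]
        _ = y := by group
      rw [h0, Subgroup.mem_bot] at hm
      exact hb1 (by rw [← hyb, hm]; group)
    have he := (hTI _).resolve_left hne'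
    have hm : (g⁻¹ * x * g) * y' * (g⁻¹ * x * g)⁻¹ ∈ A := by
      have : (g⁻¹ * x * g) * y' * (g⁻¹ * x * g)⁻¹ ∈ A.map (MulAut.conj (g⁻¹ * x * g)).toMonoidHom :=
        ⟨y', hy', rfl⟩
      rwa [he] at this
    refine ⟨_, hm, ?_⟩
    simp only [MulEquiv.coe_toMonoidHom, MulAut.conj_apply, ← hyb']
    group
  have hBA : ∀ b ∈ B, ∀ x ∈ A, b * x * b⁻¹ ∈ A := by
    intro b hb x hx
    have hba : b * a = a * b := Subgroup.mem_centralizer_singleton_iff.mp (hg hb)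
    have he : A.map (MulAut.conj b).toMonoidHom = A := by
      refine (hTI b).resolve_left fun h0 => ha1 ?_
      have hm : a ∈ A.map (MulAut.conj b).toMonoidHom ⊓ A :=
        ⟨⟨a, ha, show b * a * b⁻¹ = a by rw [hba]; group⟩, ha⟩
      rw [h0] at hm
      exact Subgroup.mem_bot.mp hm
    have : b * x * b⁻¹ ∈ A.map (MulAut.conj b).toMonoidHom := ⟨x, hx, rfl⟩
    rwa [he] at this
  -- an element of `A` centralising one nontrivial element of `B` centralises all of it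
  have hcent : ∀ x ∈ A, ∀ b ∈ B, b ≠ 1 → x * b = b * x → ∀ b' ∈ B, x * b' = b' * x := by
    intro x hx b hb hb1 hxb b' hb'
    have h1 : x * b' * x⁻¹ * b'⁻¹ ∈ B ⊓ A := by
      refine Subgroup.mem_inf.mpr ⟨mul_mem (hTI' x hx b hb hb1 hxb b' hb') (B.inv_mem hb'), ?_⟩
      have e : x * b' * x⁻¹ * b'⁻¹ = x * (b' * x⁻¹ * b'⁻¹) := by group
      rw [e]; exact mul_mem hx (hBA b' hb' _ (inv_mem hx))
    rw [hAB, Subgroup.mem_bot] at h1
    calc x * b' = (x * b' * x⁻¹ * b'⁻¹) * (b' * x) := by group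
    _ = b' * x := by rw [h1, one_mul]
  refine hne (hb g fun x hx b hb' => ?_)
  by_contra hxb
  -- `b ↦ [x, b]` injects `B` into the proper subgroup `C_A(B)`
  set A0 := A ⊓ Subgroup.centralizer (B : Set G) with hA0
  have hB2 : ∀ y ∈ B, y⁻¹ = y := by
    intro y hy
    obtain ⟨z, hz, rfl⟩ := hy
    rw [← map_inv, inv_eq_of_mul_eq_one_right (by rw [← pow_two]; exact hA.2 z hz)]
  have hcomm : ∀ y ∈ B, x * y * x⁻¹ * y⁻¹ ∈ A0 := by
    intro y hy
    have hcA : x * y * x⁻¹ * y⁻¹ ∈ A := by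
      have e : x * y * x⁻¹ * y⁻¹ = x * (y * x⁻¹ * y⁻¹) := by group
      rw [e]; exact mul_mem hx (hBA y hy _ (inv_mem hx))
    rcases eq_or_ne y 1 with rfl | hy1
    · simp
    refine Subgroup.mem_inf.mpr ⟨hcA, ?_⟩
    rw [Subgroup.mem_centralizer_iff]
    intro w hw
    refine (hcent _ hcA y hy hy1 ?_ w hw).symm
    set c := x * y * x⁻¹ * y⁻¹ with hc
    have hc2 : c⁻¹ = c := inv_eq_of_mul_eq_one_right (by rw [← pow_two]; exact hA.2 c hcA)
    have hcom : x⁻¹ * (y * x * y⁻¹) = (y * x * y⁻¹) * x⁻¹ :=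
      hA.1.is_comm.comm ⟨_, inv_mem hx⟩ ⟨_, hBA y hy x hx⟩ |> congrArg Subtype.val
    have hyy : y * y = 1 := by
      nth_rewrite 1 [← hB2 y hy]
      exact inv_mul_cancel y
    have : y * c * y⁻¹ = c := by
      calc y * c * y⁻¹ = (y * x * y⁻¹) * (y * y) * x⁻¹ * (y * y)⁻¹ := by rw [hc]; group
      _ = (y * x * y⁻¹) * x⁻¹ := by rw [hyy]; group
      _ = x⁻¹ * (y * x * y⁻¹) := hcom.symm
      _ = c⁻¹ := by
        have hcom2 : (y * x⁻¹ * y⁻¹)⁻¹ * x⁻¹ = x⁻¹ * (y * x⁻¹ * y⁻¹)⁻¹ := by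
          rw [show (y * x⁻¹ * y⁻¹)⁻¹ = y * x * y⁻¹ by group]; exact hcom.symm
        calc x⁻¹ * (y * x * y⁻¹) = x⁻¹ * (y * x⁻¹ * y⁻¹)⁻¹ := by group
        _ = (y * x⁻¹ * y⁻¹)⁻¹ * x⁻¹ := hcom2.symm
        _ = c⁻¹ := by rw [hc]; group
      _ = c := hc2
    calc c * y = (y * c * y⁻¹) * y := by rw [this]
    _ = y * c := by group
  have hle : Nat.card B ≤ Nat.card A0 := by
    refine Nat.card_le_card_of_injective (fun y => ⟨_, hcomm y y.2⟩) ?_
    intro y y' h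
    simp only [Subtype.mk.injEq, mul_assoc, mul_right_inj] at h
    by_contra hyy
    have h' : ((y' : G)⁻¹ * y) * x⁻¹ = x⁻¹ * ((y' : G)⁻¹ * y) := by
      calc ((y' : G)⁻¹ * y) * x⁻¹ = (y' : G)⁻¹ * ((y : G) * (x⁻¹ * (y : G)⁻¹)) * y := by group
      _ = (y' : G)⁻¹ * ((y' : G) * (x⁻¹ * (y' : G)⁻¹)) * y := by rw [h]
      _ = _ := by group
    refine hxb (hcent x hx ((y' : G)⁻¹ * y) (mul_mem (inv_mem y'.2) y.2) ?_ ?_ b hb')
    · exact fun h0 => hyy (Subtype.ext (inv_mul_eq_one.mp h0).symm)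
    · calc x * ((y' : G)⁻¹ * y) = x * (((y' : G)⁻¹ * y) * x⁻¹) * x := by group
      _ = x * (x⁻¹ * ((y' : G)⁻¹ * y)) * x := by rw [h']
      _ = _ := by group
  have hcard : Nat.card B = Nat.card A :=
    Subgroup.card_map_of_injective (MulAut.conj g).injective
  have hlt : A0 ≠ A := fun h0 => hxb ((Subgroup.mem_centralizer_iff.mp (h0 ▸ hx : x ∈ A0).2 b hb').symm)
  exact hlt (Subgroup.eq_of_le_of_card_ge inf_le_left (hcard ▸ hle))

end Cfsg.Agent.S1177
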