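import Cfsg.Statements.S1178
import Mathlib
import Cfsg.Agent.Eq.Def_Transfer

set_option autoImplicit false
open Cfsg

namespace Cfsg.Agent.S1178

/-- Let A be a subgroup of a Sylow 2-subgroup S of the finite group G which is weakly closed in S. If a conjugate g A g⁻¹ commutes elementwise with A, then g A g⁻¹ = A. -/
theorem result {G : Type*} [Group G] [Finite G] (S : Sylow 2 G) (A : Subgroup G) (hW : Cfsg.IsWeaklyClosed A (S : Subgroup G)) (g : G) (hc : ∀ a ∈ A, ∀ b ∈ A.map (MulAut.conj g).toMonoidHom, a * b = b * a) : A.map (MulAut.conj g).toMonoidHom = A := by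
  set B := A.map (MulAut.conj g).toMonoidHom with hBdef
  have hA : IsPGroup 2 A := S.isPGroup'.to_le hW.1
  have hB : IsPGroup 2 B := hA.map _
  have hnorm : A ≤ Subgroup.normalizer (B : Set G) := by
    intro a ha
    rw [Subgroup.mem_normalizer_iff]
    intro b
    constructor
    · intro hb
      rw [hc a ha b hb, mul_inv_cancel_right]; exact hb
    · intro hb
      have : b = a⁻¹ * (a * b * a⁻¹) * a := by group
      rw [this, mul_assoc, ← hc a ha _ hb, ← mul_assoc, inv_mul_cancel, one_mul]; exact hb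
  obtain ⟨P, hP⟩ := (hA.to_sup_of_normal_right' hB hnorm).exists_le_sylow
  obtain ⟨h, hh⟩ := MulAction.exists_smul_eq G P S
  have hle : ∀ k : G, A.map (MulAut.conj k).toMonoidHom ≤ (P : Subgroup G) →
      A.map (MulAut.conj (h * k)).toMonoidHom = A := by
    intro k hk
    refine hW.2 _ ?_
    rintro _ ⟨a, ha, rfl⟩
    rw [← hh, Sylow.coe_subgroup_smul]
    refine ⟨k * a * k⁻¹, hk ⟨a, ha, rfl⟩, ?_⟩
    simp [MulAut.conj_apply, mul_assoc]
  have h1 := hle 1 (by
    rintro _ ⟨a, ha, rfl⟩
    simpa using hP (Subgroup.mem_sup_left ha))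
  have h2 := hle g (le_trans le_sup_right hP)
  rw [mul_one] at h1
  have h3 : A.map (MulAut.conj h).toMonoidHom = B.map (MulAut.conj h).toMonoidHom := by
    rw [h1]
    refine h2.symm.trans ?_
    rw [hBdef, Subgroup.map_map]
    congr 1
    ext a
    simp [mul_assoc]
  exact (Subgroup.map_injective (MulAut.conj h).injective h3).symm

end Cfsg.Agent.S1178
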