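import Cfsg.Statements.S1181
import Cfsg.Agent.Involutions.Isolated

set_option autoImplicit false
open Cfsg

namespace Cfsg.Agent.S1181

/-- Let z be an isolated involution of the finite group G and N a normal subgroup with z ∉ N. Then the centralizer of zN in G/N is the image of C_G(z), and zN is an isolated involution of G/N. -/
theorem result {G : Type*} [Group G] [Finite G] (z : G) (hz : Cfsg.IsIsolatedInvolution z) (N : Subgroup G) [N.Normal] (hzN : z ∉ N) : Subgroup.centralizer ({(QuotientGroup.mk z : G ⧸ N)} : Set (G ⧸ N)) = (Subgroup.centralizer ({z} : Set G)).map (QuotientGroup.mk' N) ∧ Cfsg.IsIsolatedInvolution (QuotientGroup.mk z : G ⧸ N) := by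
  constructor
  · ext x
    obtain ⟨g, rfl⟩ := QuotientGroup.mk_surjective x
    rw [Subgroup.mem_centralizer_singleton_iff]
    constructor
    · intro h
      have hN : (g * z * g⁻¹) * z ∈ N := by
        rw [← QuotientGroup.eq_one_iff, QuotientGroup.mk_mul, QuotientGroup.mk_mul,
          QuotientGroup.mk_mul, h, QuotientGroup.mk_inv, mul_inv_cancel_right,
          ← QuotientGroup.mk_mul, CfsgLib.Isolated.mul_self_eq_one hz]
        rfl
      obtain ⟨j, -, -, hc⟩ := CfsgLib.Isolated.exists_midpoint hz g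
      set c := ((g * z * g⁻¹) * z) ^ j with hcdef
      refine ⟨c⁻¹ * g, ?_, ?_⟩
      · rw [SetLike.mem_coe, Subgroup.mem_centralizer_singleton_iff]
        calc c⁻¹ * g * z = c⁻¹ * (g * z * g⁻¹) * g := by group
        _ = c⁻¹ * (c * z * c⁻¹) * g := by rw [hc]
        _ = z * (c⁻¹ * g) := by group
      · have hcN : c ∈ N := N.pow_mem hN j
        rw [QuotientGroup.mk'_apply, QuotientGroup.mk_mul, QuotientGroup.mk_inv,
          (QuotientGroup.eq_one_iff c).mpr hcN, inv_one, one_mul]
    · rintro ⟨c, hc, hcg⟩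
      rw [← hcg, QuotientGroup.mk'_apply, ← QuotientGroup.mk_mul, ← QuotientGroup.mk_mul,
        Subgroup.mem_centralizer_singleton_iff.mp hc]
  · refine ⟨?_, ?_⟩
    · refine orderOf_eq_prime ?_ ?_
      · rw [← QuotientGroup.mk_pow, ← hz.1, pow_orderOf_eq_one]
        rfl
      · rwa [Ne, QuotientGroup.eq_one_iff]
    · intro x
      obtain ⟨g, rfl⟩ := QuotientGroup.mk_surjective x
      intro hc
      rw [← QuotientGroup.mk_inv, ← QuotientGroup.mk_mul, ← QuotientGroup.mk_mul] at hc ⊢
      set w : G := g * z * g⁻¹ with hw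
      have hodd : Odd (orderOf ((QuotientGroup.mk (z * w) : G ⧸ N))) :=
        (CfsgLib.Isolated.odd_orderOf_mul hz g).of_dvd_nat
          (orderOf_map_dvd (QuotientGroup.mk' N) _)
      have h2 : (QuotientGroup.mk (z * w) : G ⧸ N) ^ 2 = 1 := by
        rw [QuotientGroup.mk_mul, hc.mul_pow, ← QuotientGroup.mk_pow, ← QuotientGroup.mk_pow,
          pow_two, pow_two, CfsgLib.Isolated.mul_self_eq_one hz, hw,
          CfsgLib.Isolated.mul_self_eq_one (CfsgLib.Isolated.conj_isolated hz g)]
        simp
      have h1 : (QuotientGroup.mk (z * w) : G ⧸ N) = 1 := by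
        rcases (Nat.dvd_prime Nat.prime_two).mp (orderOf_dvd_of_pow_eq_one h2) with h | h
        · exact orderOf_eq_one_iff.mp h
        · exact absurd (h ▸ hodd) (by decide)
      rw [QuotientGroup.mk_mul] at h1
      rw [eq_inv_of_mul_eq_one_right h1, ← QuotientGroup.mk_inv,
        CfsgLib.Isolated.inv_eq_self hz]

end Cfsg.Agent.S1181
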