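import Cfsg.Statements.S1182
import Cfsg.Agent.Involutions.Isolated

set_option autoImplicit false
open Cfsg

namespace Cfsg.Agent.S1182

/-- Let z be an isolated involution of the finite group G and H a subgroup normalized by z. If x, y ∈ H both commute with z and y = h x h⁻¹ for some h ∈ H, then y = c x c⁻¹ for some c ∈ H commuting with z. -/
theorem result {G : Type*} [Group G] [Finite G] (z : G) (hz : Cfsg.IsIsolatedInvolution z) (H : Subgroup G) (hzH : z ∈ Subgroup.normalizer (H : Set G)) (x y : G) (hx : x ∈ H) (hy : y ∈ H) (hxz : Commute x z) (hyz : Commute y z) (h : G) (hh : h ∈ H) (hconj : h * x * h⁻¹ = y) : ∃ c ∈ H, Commute c z ∧ c * x * c⁻¹ = y := by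
  obtain ⟨j, -, -, hc⟩ := CfsgLib.Isolated.exists_midpoint hz h⁻¹
  set c := (h⁻¹ * z * h⁻¹⁻¹ * z) ^ j with hcdef
  have hmem : h⁻¹ * z * h⁻¹⁻¹ * z ∈ H := by
    have h1 : z * h * z⁻¹ ∈ H := (Subgroup.mem_normalizer_iff.mp hzH h).mp hh
    have e : h⁻¹ * z * h⁻¹⁻¹ * z = h⁻¹ * (z * h * z⁻¹) := by
      rw [CfsgLib.Isolated.inv_eq_self hz]; group
    rw [e]; exact H.mul_mem (H.inv_mem hh) h1
  have hcx : Commute c x := by
    refine Commute.pow_left (Commute.mul_left ?_ hxz.symm) j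
    have e : x = h⁻¹ * y * h⁻¹⁻¹ := by rw [← hconj]; group
    rw [e]
    exact (Commute.conj_iff h⁻¹).mpr hyz.symm
  refine ⟨h * c, H.mul_mem hh (H.pow_mem hmem j), ?_, ?_⟩
  · show h * c * z = z * (h * c)
    calc h * c * z = h * (c * z * c⁻¹) * c := by group
    _ = h * (h⁻¹ * z * h⁻¹⁻¹) * c := by rw [hc]
    _ = z * (h * c) := by group
  · calc h * c * x * (h * c)⁻¹ = h * (c * x) * c⁻¹ * h⁻¹ := by group
    _ = h * (x * c) * c⁻¹ * h⁻¹ := by rw [hcx.eq]
    _ = y := by rw [← hconj]; group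

end Cfsg.Agent.S1182
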