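import Cfsg.Statements.S1185
import Cfsg.Agent.Involutions.Isolated

set_option autoImplicit false
open Cfsg

namespace Cfsg.Agent.S1185

/-- Let z be an isolated involution of the finite group G with centralizer C. Then for every g ∈ G there is exactly one element k in the coset gC that has odd order and is inverted by z. -/
theorem result {G : Type*} [Group G] [Finite G] (z : G) (hz : Cfsg.IsIsolatedInvolution z) (g : G) : ∃! k : G, (Odd (orderOf k) ∧ z * k * z⁻¹ = k⁻¹) ∧ g⁻¹ * k ∈ Subgroup.centralizer ({z} : Set G) := by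
  obtain ⟨j, hodd, hinv, hc⟩ := CfsgLib.Isolated.exists_midpoint hz g
  set c := ((g * z * g⁻¹) * z) ^ j with hcdef
  refine ⟨c, ⟨⟨hodd, hinv⟩, ?_⟩, ?_⟩
  · rw [Subgroup.mem_centralizer_singleton_iff]
    calc g⁻¹ * c * z = g⁻¹ * (c * z * c⁻¹) * c := by group
    _ = g⁻¹ * (g * z * g⁻¹) * c := by rw [hc]
    _ = z * (g⁻¹ * c) := by group
  · rintro k ⟨⟨ko, ki⟩, kc⟩
    have key : ∀ a : G, z * a * z⁻¹ = a⁻¹ → a * z * a⁻¹ = a * a * z := fun a ha => by
      rw [← ha]
      simp only [mul_assoc, CfsgLib.Isolated.inv_eq_self hz, CfsgLib.Isolated.mul_self_eq_one hz,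
        ← mul_assoc z z, one_mul]
    refine CfsgLib.Isolated.eq_of_mul_self_eq ko hodd (mul_right_cancel (b := z) ?_)
    rw [← key k ki, ← key c hinv, hc]
    have := Subgroup.mem_centralizer_singleton_iff.mp kc
    calc k * z * k⁻¹ = g * (g⁻¹ * k * z) * k⁻¹ := by group
    _ = g * (z * (g⁻¹ * k)) * k⁻¹ := by rw [this]
    _ = g * z * g⁻¹ := by group

end Cfsg.Agent.S1185
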