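import Cfsg.Statements.S1183
import Cfsg.Agent.S1182
import Cfsg.Agent.S1185
import Cfsg.Agent.FusionTwo.Common
-- import your own Cfsg.Agent.* helpers here

set_option autoImplicit false
open Cfsg

namespace Cfsg.Agent.S1183

/-- The centraliser of an isolated involution has odd index. -/
theorem odd_index {G : Type*} [Group G] [Finite G] {z : G}
    (hz : Cfsg.IsIsolatedInvolution z) : Odd (Subgroup.centralizer ({z} : Set G)).index := by
  classical
  set C := Subgroup.centralizer ({z} : Set G) with hC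
  haveI : Fintype (G ⧸ C) := Fintype.ofFinite _
  haveI : Fact (Nat.Prime 2) := ⟨Nat.prime_two⟩
  let σ : Function.End (G ⧸ C) := fun q => z • q
  have hσ : σ ^ 2 ^ 1 = 1 := by
    funext q
    show z • z • q = q
    rw [smul_smul, CfsgLib.Isolated.mul_self_eq_one hz, one_smul]
  have h := Equiv.Perm.card_fixedPoints_modEq (p := 2) (n := 1) hσ
  have hfix : Fintype.card (Function.fixedPoints σ) = 1 := by
    rw [Fintype.card_eq_one_iff]
    have hzC : z ∈ C := Subgroup.mem_centralizer_singleton_iff.2 rfl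
    refine ⟨⟨(1 : G), ?_⟩, ?_⟩
    · show z • ((1 : G) : G ⧸ C) = ((1 : G) : G ⧸ C)
      rw [MulAction.Quotient.smul_mk, smul_eq_mul, mul_one, QuotientGroup.eq, mul_one]
      exact C.inv_mem hzC
    · rintro ⟨q, hq⟩
      obtain ⟨g, rfl⟩ := QuotientGroup.mk_surjective q
      refine Subtype.ext ?_
      have h1 : ((z * g : G) : G ⧸ C) = (g : G ⧸ C) := hq
      rw [QuotientGroup.eq, mul_inv_rev] at h1
      have h2 : g⁻¹ * z * g ∈ C := by
        have := C.inv_mem h1
        simpa [mul_inv_rev, mul_assoc] using this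
      have h3 := hz.2 g⁻¹ (by
        rw [inv_inv]; exact (Subgroup.mem_centralizer_singleton_iff.1 h2).symm)
      rw [inv_inv] at h3
      rw [QuotientGroup.eq, mul_one]
      refine C.inv_mem (Subgroup.mem_centralizer_singleton_iff.2 ?_)
      calc g * z = g * (g⁻¹ * z * g) := by rw [h3]
      _ = z * g := by group
  rw [hfix] at h
  rw [Subgroup.index_eq_card, Nat.card_eq_fintype_card]
  exact Nat.odd_iff.2 h


/-- Let z be an isolated involution of the finite group G and C = C_G(z). Then the subgroup of G generated by its elements of odd order is all of G if and only if the subgroup of C generated by its elements of odd order is all of C. -/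
theorem result {G : Type*} [Group G] [Finite G] (z : G) (hz : Cfsg.IsIsolatedInvolution z) : Cfsg.pResidual 2 G = ⊤ ↔ Cfsg.pResidual 2 ↥(Subgroup.centralizer ({z} : Set G)) = ⊤ := by
  classical
  set C := Subgroup.centralizer ({z} : Set G) with hC
  constructor
  · intro hG
    by_contra hne
    haveI := CfsgLib.FusionTwo.pResidual_normal (G := ↥C) 2
    obtain ⟨k, hk⟩ := CfsgLib.FusionTwo.index_pResidual_two_pow (G := ↥C)
    set R := Cfsg.pResidual 2 ↥C with hR
    have hk1 : 1 ≤ k := by
      rcases Nat.eq_zero_or_pos k with rfl | h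
      · exact absurd (Subgroup.index_eq_one.1 (by rw [hk, pow_zero])) hne
      · exact h
    haveI : Fact (Nat.Prime 2) := ⟨Nat.prime_two⟩
    have hcardQ : Nat.card (↥C ⧸ R) = 2 ^ k := by rw [← Subgroup.index_eq_card, hk]
    obtain ⟨K₀, hK₀⟩ := Sylow.exists_subgroup_card_pow_prime (G := ↥C ⧸ R) 2
      (show 2 ^ (k - 1) ∣ Nat.card (↥C ⧸ R) by rw [hcardQ]; exact pow_dvd_pow 2 (Nat.sub_le k 1))
    have hK₀i : K₀.index = 2 := by
      have h1 := K₀.card_mul_index
      rw [hK₀, hcardQ] at h1
      have h2 : 2 ^ k = 2 ^ (k - 1) * 2 := by rw [← pow_succ, Nat.sub_add_cancel hk1]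
      rw [h2] at h1
      exact Nat.eq_of_mul_eq_mul_left (by positivity) h1
    haveI := Subgroup.normal_of_index_eq_two hK₀i
    haveI : IsCyclic ((↥C ⧸ R) ⧸ K₀) :=
      isCyclic_of_prime_card (p := 2) (by rw [← Subgroup.index_eq_card, hK₀i])
    letI : CommGroup ((↥C ⧸ R) ⧸ K₀) :=
      { (inferInstance : Group ((↥C ⧸ R) ⧸ K₀)) with
        mul_comm := fun a b => (IsCyclic.isMulCommutative (α := (↥C ⧸ R) ⧸ K₀)).is_comm.comm a b }
    set φ : ↥C →* (↥C ⧸ R) ⧸ K₀ := (QuotientGroup.mk' K₀).comp (QuotientGroup.mk' R) with hφ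
    have hA2 : ∀ a : (↥C ⧸ R) ⧸ K₀, a ^ 2 = 1 := fun a => by
      have h1 := orderOf_dvd_natCard a
      rw [← Subgroup.index_eq_card, hK₀i] at h1
      exact orderOf_dvd_iff_pow_eq_one.1 h1
    have hodd : ∀ (a : (↥C ⧸ R) ⧸ K₀) {m : ℕ}, Odd m → a ^ m = a := fun a m ⟨j, hj⟩ => by
      rw [hj, pow_succ, pow_mul, hA2, one_pow, one_mul]
    have key : ∀ u : ↥C, φ u = 1 := by
      intro u
      have htr := CfsgLib.FusionTwo.transfer_eq_pow_index C φ u (fun t m hm => by
        obtain ⟨c, -, hcz, hc⟩ := Cfsg.Agent.S1182.result z hz ⊤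
          (by rw [Subgroup.mem_normalizer_iff]; simp) ((u : G) ^ m) (t⁻¹ * (u : G) ^ m * t)
          trivial trivial (Subgroup.mem_centralizer_singleton_iff.1 (C.pow_mem u.2 m))
          (Subgroup.mem_centralizer_singleton_iff.1 hm) t⁻¹ trivial (by rw [inv_inv])
        have e : (⟨_, hm⟩ : ↥C) =
            ⟨c, Subgroup.mem_centralizer_singleton_iff.2 hcz⟩ * u ^ m *
              (⟨c, Subgroup.mem_centralizer_singleton_iff.2 hcz⟩)⁻¹ := Subtype.ext hc.symm
        rw [e, map_mul, map_mul, map_inv, map_pow, mul_inv_eq_iff_eq_mul, mul_comm])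
      rw [hodd _ (odd_index hz)] at htr
      rw [← htr]
      have hle : Cfsg.pResidual 2 G ≤ (MonoidHom.transfer φ).ker := by
        refine (Subgroup.closure_le _).2 fun g hg => ?_
        have ho : Odd (orderOf g) := Nat.coprime_two_right.1 hg
        rw [SetLike.mem_coe, MonoidHom.mem_ker, ← hodd (MonoidHom.transfer φ g) ho, ← map_pow,
          pow_orderOf_eq_one, map_one]
      exact MonoidHom.mem_ker.1 (hle (by rw [hG]; trivial))
    have hsurj : Function.Surjective φ :=
      (QuotientGroup.mk'_surjective K₀).comp (QuotientGroup.mk'_surjective R)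
    have hone : Nat.card ((↥C ⧸ R) ⧸ K₀) = 1 := by
      haveI : Subsingleton ((↥C ⧸ R) ⧸ K₀) := ⟨fun a b => by
        obtain ⟨u, rfl⟩ := hsurj a
        obtain ⟨v, rfl⟩ := hsurj b
        rw [key u, key v]⟩
      exact Nat.card_of_subsingleton 1
    rw [← Subgroup.index_eq_card, hK₀i] at hone
    omega
  · intro hC'
    rw [eq_top_iff]
    intro g _
    obtain ⟨k, ⟨⟨ko, -⟩, kc⟩, -⟩ := Cfsg.Agent.S1185.result z hz g
    have hCle : C ≤ Cfsg.pResidual 2 G := by
      have h1 : (Cfsg.pResidual 2 ↥C).map C.subtype ≤ Cfsg.pResidual 2 G := by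
        rw [Subgroup.map_le_iff_le_comap]
        refine (Subgroup.closure_le _).2 fun a ha => Subgroup.subset_closure ?_
        rw [Set.mem_setOf_eq, Subgroup.subtype_apply, Subgroup.orderOf_coe]
        exact ha
      rwa [hC', ← MonoidHom.range_eq_map, Subgroup.range_subtype] at h1
    have e : g = k * (g⁻¹ * k)⁻¹ := by group
    rw [e]
    exact Subgroup.mul_mem _ (CfsgLib.FusionTwo.odd_mem_pResidual ko)
      (hCle (C.inv_mem kc))

end Cfsg.Agent.S1183
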