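import Cfsg.Statements.S1184
import Cfsg.Agent.Involutions.Isolated

set_option autoImplicit false
open Cfsg

namespace Cfsg.Agent.S1184

/-- Let z be an isolated involution of the finite group G. If s and t are distinct conjugates of z, then st does not commute with z. -/
theorem result {G : Type*} [Group G] [Finite G] (z : G) (hz : Cfsg.IsIsolatedInvolution z) (g h : G) (hne : g * z * g⁻¹ ≠ h * z * h⁻¹) : ¬ Commute (g * z * g⁻¹ * (h * z * h⁻¹)) z := by
  intro hc
  set s := g * z * g⁻¹ with hs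
  set t := h * z * h⁻¹ with ht
  have hs2 : s * s = 1 := CfsgLib.Isolated.mul_self_eq_one (CfsgLib.Isolated.conj_isolated hz g)
  have ht2 : t * t = 1 := CfsgLib.Isolated.mul_self_eq_one (CfsgLib.Isolated.conj_isolated hz h)
  set k := s * t with hk
  have hinv : SemiconjBy s k k⁻¹ :=
    mul_inv_eq_iff_eq_mul.mp (CfsgLib.Isolated.conj_mul_eq_inv hs2 ht2)
  have hinv' : SemiconjBy s k⁻¹ k := by simpa using hinv.inv_right
  have h1 : SemiconjBy (s * z) k k⁻¹ := hinv.mul_left hc.symm
  have h1' : SemiconjBy (s * z) k⁻¹ k := hinv'.mul_left hc.symm.inv_right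
  have h2 : Commute ((s * z) ^ 2) k := by
    rw [pow_two]; exact h1'.mul_left h1
  obtain ⟨j, hj⟩ := CfsgLib.Isolated.odd_orderOf_mul' hz g
  have h3 : SemiconjBy ((s * z) ^ orderOf (s * z)) k k⁻¹ := by
    rw [show orderOf (s * z) = 2 * j + 1 from hj, pow_succ', pow_mul]
    exact h1.mul_left (h2.pow_left j)
  rw [pow_orderOf_eq_one] at h3
  have h4 : k * k = 1 * 1 := by
    have h5 : k = k⁻¹ := by simpa [SemiconjBy] using h3
    rw [one_mul]; nth_rewrite 2 [h5]; exact mul_inv_cancel k
  have h6 : k = 1 := CfsgLib.Isolated.eq_of_mul_self_eq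
    (CfsgLib.Isolated.odd_orderOf_mul_conj hz g h) (by simp) h4
  exact hne (by
    rw [eq_comm, ← mul_left_cancel_iff (a := s), hs2]; exact h6)

end Cfsg.Agent.S1184
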