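import Cfsg.Statements.S1186
import Cfsg.Agent.Involutions.Isolated
-- import your own Cfsg.Agent.* helpers here

set_option autoImplicit false
open Cfsg

namespace Cfsg.Agent.S1186

section
open CfsgLib.Isolated

variable {G : Type*} [Group G]

/-- A conjugate of `z` by an inverted element. -/
theorem conj_eq_sq_mul {z k : G} (hz2 : z * z = 1) (h : z * k * z⁻¹ = k⁻¹) :
    k * z * k⁻¹ = k * k * z := by
  rw [← h, inv_eq_of_mul_eq_one_right hz2]
  calc k * z * (z * k * z) = k * (z * z) * k * z := by group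
  _ = k * k * z := by rw [hz2, mul_one]

/-- Square root inside the cyclic group. -/
theorem exists_root {k : G} (hk : Odd (orderOf k)) :
    ∃ j : ℕ, k ^ j * k ^ j = k ∧ Odd (orderOf (k ^ j)) :=
  ⟨(orderOf k + 1) / 2, odd_pow_root hk, hk.of_dvd_nat (orderOf_pow_dvd _)⟩

theorem decomposition_injective [Finite G] {z : G} (hz : Cfsg.IsIsolatedInvolution z) {s x y x' y' : G}
    (hsz : Commute s z) (hs2 : s * s = 1)
    (hx : Odd (orderOf x) ∧ z * x * z⁻¹ = x⁻¹ ∧ Commute x s)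
    (hy : Odd (orderOf y) ∧ z * y * z⁻¹ = y⁻¹ ∧ Commute y (s * z))
    (hx' : Odd (orderOf x') ∧ z * x' * z⁻¹ = x'⁻¹ ∧ Commute x' s)
    (hy' : Odd (orderOf y') ∧ z * y' * z⁻¹ = y'⁻¹ ∧ Commute y' (s * z))
    (h : (x * y) * z * (x * y)⁻¹ = (x' * y') * z * (x' * y')⁻¹) : x = x' ∧ y = y' := by
  have hz2 := mul_self_eq_one hz
  have hzi := inv_eq_self hz
  have key : ∀ x y : G, (Odd (orderOf x) ∧ z * x * z⁻¹ = x⁻¹ ∧ Commute x s) →
      (Odd (orderOf y) ∧ z * y * z⁻¹ = y⁻¹ ∧ Commute y (s * z)) →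
      ((x * y) * z * (x * y)⁻¹) * (s * ((x * y) * z * (x * y)⁻¹) * s⁻¹) =
        (x * (y * y) * x⁻¹) * (x * (y * y) * x⁻¹) ∧ Odd (orderOf (x * (y * y) * x⁻¹)) ∧
      (x * (y * y) * x⁻¹)⁻¹ * ((x * y) * z * (x * y)⁻¹) = x * x * z := by
    intro x y hx hy
    have ey : y * z * y⁻¹ = y * y * z := conj_eq_sq_mul hz2 hy.2.1
    have ex : x * z * x⁻¹ = x * x * z := conj_eq_sq_mul hz2 hx.2.1
    have e1 : (x * y) * z * (x * y)⁻¹ = x * (y * y * z) * x⁻¹ := by rw [← ey]; group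
    have hsy : s * (y * y) * s⁻¹ = (y * y)⁻¹ := by
      have h1 : (s * z) * y * (s * z)⁻¹ = y := by rw [← hy.2.2.eq, mul_inv_cancel_right]
      have h2 : s * y * s⁻¹ = y⁻¹ := by
        calc s * y * s⁻¹ = (s * z) * (z * y * z⁻¹) * (s * z)⁻¹ := by
              rw [hzi, mul_inv_rev, hzi]
              simp only [mul_assoc, ← mul_assoc z z, hz2, one_mul]
        _ = ((s * z) * y * (s * z)⁻¹)⁻¹ := by rw [hy.2.1, conj_inv]
        _ = y⁻¹ := by rw [h1]
      calc s * (y * y) * s⁻¹ = (s * y * s⁻¹) * (s * y * s⁻¹) := by group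
      _ = (y * y)⁻¹ := by rw [h2, mul_inv_rev]
    have hsx : s * x * s⁻¹ = x := by rw [← hx.2.2.eq, mul_inv_cancel_right]
    have hszc : s * z * s⁻¹ = z := by rw [hsz.eq, mul_inv_cancel_right]
    have e2 : s * ((x * y) * z * (x * y)⁻¹) * s⁻¹ = x * ((y * y)⁻¹ * z) * x⁻¹ := by
      rw [e1]
      calc s * (x * (y * y * z) * x⁻¹) * s⁻¹
          = (s * x * s⁻¹) * ((s * (y * y) * s⁻¹) * (s * z * s⁻¹)) * (s * x * s⁻¹)⁻¹ := by group
      _ = _ := by rw [hsy, hsx, hszc]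
    have hzy : z * (y * y)⁻¹ * z = y * y := by
      have h1 := conj_pow_eq_inv hy.2.1 2
      rw [pow_two, hzi] at h1
      calc z * (y * y)⁻¹ * z = z * (z * (y * y) * z) * z := by rw [h1]
      _ = (z * z) * (y * y) * (z * z) := by group
      _ = y * y := by rw [hz2, one_mul, mul_one]
    refine ⟨?_, ?_, ?_⟩
    · rw [e2, e1]
      calc x * (y * y * z) * x⁻¹ * (x * ((y * y)⁻¹ * z) * x⁻¹)
          = x * ((y * y) * (z * (y * y)⁻¹ * z)) * x⁻¹ := by group
      _ = x * (y * y) * x⁻¹ * (x * (y * y) * x⁻¹) := by rw [hzy]; group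
    · rw [← MulAut.conj_apply, MulEquiv.orderOf_eq, ← pow_two]
      exact hy.1.of_dvd_nat (orderOf_pow_dvd _)
    · rw [e1, ← ex]; group
  obtain ⟨a1, a2, a3⟩ := key x y hx hy
  obtain ⟨b1, b2, b3⟩ := key x' y' hx' hy'
  rw [h] at a1 a3
  have e := eq_of_mul_self_eq a2 b2 (a1.symm.trans b1)
  rw [e] at a3
  have exx : x = x' := eq_of_mul_self_eq hx.1 hx'.1 (mul_right_cancel (a3.symm.trans b3))
  subst exx
  exact ⟨rfl, eq_of_mul_self_eq hy.1 hy'.1 (mul_left_cancel (mul_right_cancel e))⟩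

theorem decomposition_surjective [Finite G] {z : G} (hz : Cfsg.IsIsolatedInvolution z) {s : G}
    (hsz : Commute s z) (hs2 : s * s = 1) (g : G) :
    ∃ x y : G, (Odd (orderOf x) ∧ z * x * z⁻¹ = x⁻¹ ∧ Commute x s) ∧
      (Odd (orderOf y) ∧ z * y * z⁻¹ = y⁻¹ ∧ Commute y (s * z)) ∧
      (x * y) * z * (x * y)⁻¹ = g * z * g⁻¹ := by
  have hz2 := mul_self_eq_one hz
  have hzi := inv_eq_self hz
  have hsi : s⁻¹ = s := inv_eq_of_mul_eq_one_right hs2
  set a := g * z * g⁻¹ with ha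
  have ha2 : a * a = 1 := mul_self_eq_one (conj_isolated hz g)
  have hai : a⁻¹ = a := inv_eq_of_mul_eq_one_right ha2
  set b := (s * g) * z * (s * g)⁻¹ with hb
  have hb2 : b * b = 1 := mul_self_eq_one (conj_isolated hz _)
  have hbi : b⁻¹ = b := inv_eq_of_mul_eq_one_right hb2
  have hba : b = s * a * s⁻¹ := by rw [hb, ha]; group
  have hab : a = s * b * s⁻¹ := by
    rw [hba, hsi]
    calc a = (s * s) * a * (s * s) := by rw [hs2, one_mul, mul_one]
    _ = _ := by group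
  have hkodd : Odd (orderOf (a * b)) := odd_orderOf_mul_conj hz g (s * g)
  obtain ⟨j, hjr, hjo⟩ := exists_root hkodd
  set r := (a * b) ^ j with hr
  have har : a * r * a⁻¹ = r⁻¹ := conj_pow_eq_inv (conj_mul_eq_inv ha2 hb2) j
  have hsr : s * r * s⁻¹ = r⁻¹ := by
    refine conj_pow_eq_inv ?_ j
    rw [mul_inv_rev, hai, hbi]
    calc s * (a * b) * s⁻¹ = (s * a * s⁻¹) * (s * b * s⁻¹) := by group
    _ = b * a := by rw [← hba, ← hab]
  obtain ⟨i, hir, hio⟩ := exists_root (k := r⁻¹) (by rwa [orderOf_inv])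
  set h := r⁻¹ ^ i with hh
  have hah : a * h * a⁻¹ = h⁻¹ := by
    refine conj_pow_eq_inv ?_ i
    rw [← conj_inv, har]
  set w := h * a * h⁻¹ with hw
  have hwr : w = r⁻¹ * a := by rw [hw, conj_eq_sq_mul ha2 hah, hir]
  have hwc : w = (h * g) * z * (h * g)⁻¹ := by rw [hw, ha]; group
  have hsw : Commute w s := by
    show w * s = s * w
    have h1 : s * w * s⁻¹ = w := by
      rw [hwr]
      calc s * (r⁻¹ * a) * s⁻¹ = (s * r * s⁻¹)⁻¹ * (s * a * s⁻¹) := by group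
      _ = r * b := by rw [hsr, inv_inv, ← hba]
      _ = r * (a * (a * b)) := by rw [← mul_assoc a a, ha2, one_mul]
      _ = r * (a * (r * r)) := by rw [hjr]
      _ = r * (a * r * a⁻¹) * a * r := by group
      _ = a * r := by rw [har]; group
      _ = (a * r * a⁻¹) * a := by group
      _ = r⁻¹ * a := by rw [har]
    exact (mul_inv_eq_iff_eq_mul.mp h1).symm
  have hwr' : w * r * w⁻¹ = r⁻¹ := by
    rw [hwr]
    calc r⁻¹ * a * r * (r⁻¹ * a)⁻¹ = r⁻¹ * (a * r * a⁻¹) * r := by group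
    _ = r⁻¹ := by rw [har]; group
  obtain ⟨m, hxo, hxi, hxw⟩ := exists_midpoint hz (h * g)
  set x := ((h * g) * z * (h * g)⁻¹ * z) ^ m with hx
  rw [← hwc] at hxw
  have hxs : Commute x s := by
    rw [hx, ← hwc]
    exact (hsw.mul_left hsz.symm).pow_left m
  set t := x⁻¹ * r * x with ht
  have htodd : Odd (orderOf t) := by
    have e : t = MulAut.conj x⁻¹ r := by rw [MulAut.conj_apply, inv_inv, ht]
    rw [e, MulEquiv.orderOf_eq]; exact hjo
  obtain ⟨n, hnt, hno⟩ := exists_root htodd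
  have hzt : z * t * z⁻¹ = t⁻¹ := by
    calc z * t * z⁻¹ = x⁻¹ * ((x * z * x⁻¹) * r * (x * z * x⁻¹)⁻¹) * x := by rw [ht]; group
    _ = t⁻¹ := by rw [hxw, hwr', ht]; group
  have hst : Commute t (s * z) := by
    show t * (s * z) = (s * z) * t
    have h1 : s * t * s⁻¹ = t⁻¹ := by
      have e : s * x * s⁻¹ = x := by rw [← hxs.eq, mul_inv_cancel_right]
      calc s * t * s⁻¹ = (s * x * s⁻¹)⁻¹ * (s * r * s⁻¹) * (s * x * s⁻¹) := by rw [ht]; group
      _ = t⁻¹ := by rw [e, hsr, ht]; group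
    have h2 : (s * z) * t * (s * z)⁻¹ = t := by
      calc (s * z) * t * (s * z)⁻¹ = s * (z * t * z⁻¹) * s⁻¹ := by group
      _ = (s * t * s⁻¹)⁻¹ := by rw [hzt, conj_inv]
      _ = t := by rw [h1, inv_inv]
    exact (mul_inv_eq_iff_eq_mul.mp h2).symm
  refine ⟨x, t ^ n, ⟨hxo, hxi, hxs⟩, ⟨hno, conj_pow_eq_inv hzt n, hst.pow_left n⟩, ?_⟩
  calc x * t ^ n * z * (x * t ^ n)⁻¹ = x * (t ^ n * z * (t ^ n)⁻¹) * x⁻¹ := by group
  _ = x * (t * z) * x⁻¹ := by rw [conj_eq_sq_mul hz2 (conj_pow_eq_inv hzt n), hnt]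
  _ = r * (x * z * x⁻¹) := by rw [ht]; group
  _ = a := by rw [hxw, hwr, mul_inv_cancel_left]

end


/-- Let z be an isolated involution of the finite group G, C = C_G(z), K the set of elements of odd order inverted by z, and s an involution of C. Then |G| = |C| · |C_K(sz)| · |C_K(s)|. -/
theorem result {G : Type*} [Group G] [Finite G] (z : G) (hz : Cfsg.IsIsolatedInvolution z) (s : G) (hs : orderOf s = 2) (hsz : Commute s z) : Nat.card G = Nat.card (Subgroup.centralizer ({z} : Set G)) * Nat.card {k : G // Odd (orderOf k) ∧ z * k * z⁻¹ = k⁻¹ ∧ Commute k (s * z)} * Nat.card {k : G // Odd (orderOf k) ∧ z * k * z⁻¹ = k⁻¹ ∧ Commute k s} := by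
  set C := Subgroup.centralizer ({z} : Set G) with hC
  have hs2 : s * s = 1 := by rw [← pow_two, ← hs]; exact pow_orderOf_eq_one s
  have hiff : ∀ a b : G, (a : G ⧸ C) = (b : G ⧸ C) ↔ a * z * a⁻¹ = b * z * b⁻¹ := fun a b => by
    rw [QuotientGroup.eq, hC, Subgroup.mem_centralizer_singleton_iff]
    constructor
    · intro h
      calc a * z * a⁻¹ = a * (z * (a⁻¹ * b)) * b⁻¹ := by group
      _ = b * z * b⁻¹ := by rw [← h]; group
    · intro h
      calc a⁻¹ * b * z = a⁻¹ * (b * z * b⁻¹) * b := by group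
      _ = z * (a⁻¹ * b) := by rw [← h]; group
  have hb : Function.Bijective
      (fun p : {k : G // Odd (orderOf k) ∧ z * k * z⁻¹ = k⁻¹ ∧ Commute k s} ×
        {k : G // Odd (orderOf k) ∧ z * k * z⁻¹ = k⁻¹ ∧ Commute k (s * z)} =>
        (((p.1 : G) * (p.2 : G) : G) : G ⧸ C)) := by
    constructor
    · rintro ⟨⟨x, hx⟩, ⟨y, hy⟩⟩ ⟨⟨x', hx'⟩, ⟨y', hy'⟩⟩ h
      obtain ⟨rfl, rfl⟩ :=
        decomposition_injective hz hsz hs2 hx hy hx' hy' ((hiff _ _).1 h)
      rfl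
    · intro q
      obtain ⟨g, rfl⟩ := QuotientGroup.mk_surjective q
      obtain ⟨x, y, hx, hy, h⟩ := decomposition_surjective hz hsz hs2 g
      exact ⟨⟨⟨x, hx⟩, ⟨y, hy⟩⟩, (hiff _ _).2 h⟩
  rw [Subgroup.card_eq_card_quotient_mul_card_subgroup C, ← Nat.card_eq_of_bijective _ hb,
    Nat.card_prod, mul_comm, mul_assoc, mul_comm (Nat.card {k : G // _ ∧ _ ∧ Commute k s})]

end Cfsg.Agent.S1186
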