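import Cfsg.Statements.S1226

set_option autoImplicit false
open Cfsg

namespace Cfsg.Agent.S1226

/-- Let G be a finite group with a Sylow 2-subgroup T that is neither cyclic nor normal, such that the centralizer of every involution is an elementary abelian 2-group. Then N_G(T) is a strongly embedded subgroup of G. -/
theorem result {G : Type*} [Group G] [Finite G] (T : Sylow 2 G) (hnc : ¬ IsCyclic (T : Subgroup G)) (hnn : ¬ (T : Subgroup G).Normal) (hC : ∀ t : G, orderOf t = 2 → IsMulCommutative (Subgroup.centralizer ({t} : Set G)) ∧ ∀ c ∈ Subgroup.centralizer ({t} : Set G), c ^ 2 = 1) : Cfsg.IsStronglyEmbedded (Subgroup.normalizer ((T : Subgroup G) : Set G)) := by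
  classical
  have hT1 : (T : Subgroup G) ≠ ⊥ := by
    intro h
    apply hnn
    rw [h]
    infer_instance
  haveI : Nontrivial (T : Subgroup G) := (Subgroup.nontrivial_iff_ne_bot _).2 hT1
  obtain ⟨k, hk⟩ := IsPGroup.iff_card.1 T.2
  have h2T : 2 ∣ Nat.card (T : Subgroup G) := by
    rw [hk]
    refine dvd_pow_self 2 ?_
    rintro rfl
    have := Finite.one_lt_card (α := (T : Subgroup G))
    rw [hk] at this
    simp at this
  -- an involution in the centre of T
  haveI : Nontrivial (Subgroup.center (T : Subgroup G)) := T.2.center_nontrivial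
  obtain ⟨k', hk'⟩ := IsPGroup.iff_card.1 (T.2.to_subgroup (Subgroup.center (T : Subgroup G)))
  have h2Z : 2 ∣ Nat.card (Subgroup.center (T : Subgroup G)) := by
    rw [hk']
    refine dvd_pow_self 2 ?_
    rintro rfl
    have := Finite.one_lt_card (α := Subgroup.center (T : Subgroup G))
    rw [hk'] at this
    simp at this
  obtain ⟨z, hz⟩ := exists_prime_orderOf_dvd_card' 2 h2Z
  have hzG : orderOf ((z : (T : Subgroup G)) : G) = 2 := by
    rw [Subgroup.orderOf_coe, Subgroup.orderOf_coe, hz]
  have hTz : (T : Subgroup G) ≤ Subgroup.centralizer ({((z : (T : Subgroup G)) : G)} : Set G) := by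
    intro x hx
    rw [Subgroup.mem_centralizer_singleton_iff]
    exact congrArg Subtype.val (Subgroup.mem_center_iff.1 z.2 ⟨x, hx⟩)
  have hab : ∀ x ∈ (T : Subgroup G), ∀ y ∈ (T : Subgroup G), x * y = y * x := fun x hx y hy =>
    congrArg Subtype.val ((hC _ hzG).1.is_comm.comm ⟨x, hTz hx⟩ ⟨y, hTz hy⟩)
  have hCT : ∀ t ∈ (T : Subgroup G), orderOf t = 2 → Subgroup.centralizer ({t} : Set G) = T := by
    intro t ht ht2
    refine T.3 ?_ ?_
    · intro c
      exact ⟨1, Subtype.ext (by simpa using (hC t ht2).2 c c.2)⟩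
    · intro x hx
      rw [Subgroup.mem_centralizer_singleton_iff]
      exact hab x hx t ht
  refine ⟨?_, ?_, ?_⟩
  · intro h
    exact hnn (Subgroup.normalizer_eq_top_iff.1 h)
  · exact even_iff_two_dvd.2 (h2T.trans (Subgroup.card_dvd_of_le Subgroup.le_normalizer))
  · intro g hg
    rw [← Nat.not_even_iff_odd, even_iff_two_dvd]
    intro hev
    obtain ⟨w, hw⟩ := exists_prime_orderOf_dvd_card' 2 hev
    obtain ⟨hwN, hwg⟩ := Subgroup.mem_inf.1 w.2
    have hwG : orderOf (w : G) = 2 := by rw [Subgroup.orderOf_coe, hw]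
    have mem_T : ∀ x : G, orderOf x = 2 → x ∈ Subgroup.normalizer ((T : Subgroup G) : Set G) → x ∈ (T : Subgroup G) := by
      intro x hx hxN
      have hp : IsPGroup 2 (Subgroup.zpowers x) := by
        apply IsPGroup.of_card (n := 1)
        rw [Nat.card_zpowers, hx, pow_one]
      have hsup : IsPGroup 2 (Subgroup.zpowers x ⊔ (T : Subgroup G) : Subgroup G) :=
        hp.to_sup_of_normal_right' T.2 (by rwa [Subgroup.zpowers_le])
      have := T.3 hsup le_sup_right
      exact this ▸ (le_sup_left : Subgroup.zpowers x ≤ _) (Subgroup.mem_zpowers x)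
    obtain ⟨x, hxN, hxw⟩ := hwg
    have hx2 : orderOf x = 2 := by
      rw [← hwG, ← hxw]
      exact (orderOf_injective _ (MulAut.conj g).injective x).symm
    have h1 := hCT _ (mem_T _ hwG hwN) hwG
    have h2 := hCT _ (mem_T _ hx2 hxN) hx2
    have hgT : g ∈ Subgroup.normalizer ((T : Subgroup G) : Set G) := by
      rw [Subgroup.mem_normalizer_iff]
      intro h
      rw [← h2]
      conv_rhs => rw [h2, ← h1]
      simp only [Subgroup.mem_centralizer_singleton_iff, ← hxw, MulEquiv.coe_toMonoidHom, MulAut.conj_apply]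
      constructor
      · intro e
        calc g * h * g⁻¹ * (g * x * g⁻¹) = g * (h * x) * g⁻¹ := by group
        _ = g * (x * h) * g⁻¹ := by rw [e]
        _ = g * x * g⁻¹ * (g * h * g⁻¹) := by group
      · intro e
        calc h * x = g⁻¹ * ((g * h * g⁻¹) * (g * x * g⁻¹)) * g := by group
        _ = g⁻¹ * ((g * x * g⁻¹) * (g * h * g⁻¹)) * g := by rw [e]
        _ = x * h := by group
    exact hg hgT

end Cfsg.Agent.S1226
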