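import Cfsg.Statements.S1231

set_option autoImplicit false
open Cfsg

namespace Cfsg.Agent.S1231

theorem pRankLE_of_injective {A B : Type*} [Group A] [Group B] {p j : ℕ} (f : A →* B)
    (hf : Function.Injective f) (h : Cfsg.PRankLE p j B) : Cfsg.PRankLE p j A := by
  intro X hX hXp
  have h1 := h (X.map f) ⟨⟨?_⟩⟩ ?_
  · rwa [Subgroup.card_map_of_injective hf] at h1
  · rintro ⟨_, a, ha, rfl⟩ ⟨_, b, hb, rfl⟩
    refine Subtype.ext ?_
    show f a * f b = f b * f a
    rw [← map_mul, ← map_mul]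
    exact congrArg f (congrArg Subtype.val (hX.is_comm.comm ⟨a, ha⟩ ⟨b, hb⟩))
  · rintro _ ⟨a, ha, rfl⟩
    rw [← map_pow, hXp a ha, map_one]

/-- Let H be a subgroup of the finite group G, p a prime, k ≥ 1, and P a Sylow p-subgroup of H whose p-rank is at least k. Then N_G(X) ≤ H for every subgroup X of P of p-rank at least k if and only if H ∩ gHg⁻¹ has p-rank less than k for every g ∉ H. -/
theorem result {G : Type*} [Group G] [Finite G] {p : ℕ} [Fact p.Prime] (k : ℕ) (hk : 1 ≤ k) (H : Subgroup G) (P : Sylow p ↥H) (hP : ¬ Cfsg.PRankLE p (k - 1) ↥(P : Subgroup ↥H)) : (∀ X : Subgroup G, X ≤ (P : Subgroup ↥H).map H.subtype → ¬ Cfsg.PRankLE p (k - 1) ↥X → Subgroup.normalizer (X : Set G) ≤ H) ↔ (∀ g : G, g ∉ H → Cfsg.PRankLE p (k - 1) ↥(H ⊓ H.map (MulAut.conj g).toMonoidHom)) := by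
  classical
  -- failing the rank bound is inherited by overgroups
  have mono : ∀ X Y : Subgroup G, X ≤ Y → ¬ Cfsg.PRankLE p (k - 1) ↥X →
      ¬ Cfsg.PRankLE p (k - 1) ↥Y := fun X Y hXY hX hY =>
    hX (pRankLE_of_injective (Subgroup.inclusion hXY) (Subgroup.inclusion_injective hXY) hY)
  constructor
  · intro hN g hg
    by_contra hrank
    let Ok : Subgroup G → Prop := fun E => IsPGroup p E ∧ ¬ Cfsg.PRankLE p (k - 1) ↥E ∧
      ∃ g : G, g ∉ H ∧ E ≤ H ⊓ H.map (MulAut.conj g).toMonoidHom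
    have hex : ∃ E, Ok E := by
      unfold Cfsg.PRankLE at hrank
      push Not at hrank
      obtain ⟨A, hA, hAp, hAcard⟩ := hrank
      refine ⟨A.map (H ⊓ H.map (MulAut.conj g).toMonoidHom).subtype, ?_, ?_, g, hg,
        Subgroup.map_subtype_le _⟩
      · exact IsPGroup.map (fun a => ⟨1, Subtype.ext (by
          rw [pow_one, SubmonoidClass.coe_pow]; exact hAp a a.2)⟩) _
      · intro hle
        let e := A.equivMapOfInjective (H ⊓ H.map (MulAut.conj g).toMonoidHom).subtype
          (Subgroup.subtype_injective _)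
        have h := pRankLE_of_injective e.toMonoidHom e.injective hle ⊤
          ⟨⟨fun a b => Subtype.ext (hA.is_comm.comm _ _)⟩⟩
          (fun a _ => Subtype.ext (by rw [SubmonoidClass.coe_pow]; exact hAp _ a.2))
        rw [Subgroup.card_top] at h
        omega
    obtain ⟨E, ⟨hEp, hEr, g₀, hg₀, hEH⟩, hmax⟩ :=
      exists_maximal_of_wellFoundedGT Ok hex
    set P' : Subgroup G := (P : Subgroup ↥H).map H.subtype with hP'
    -- every `p`-subgroup of `H` is `H`-conjugate into `P`
    have hconjP : ∀ D : Subgroup G, IsPGroup p D → D ≤ H →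
        ∃ u ∈ H, ∀ d ∈ D, u * d * u⁻¹ ∈ P' := by
      intro D hD hDH
      obtain ⟨R, hR⟩ := (hD.comap_of_injective H.subtype H.subtype_injective).exists_le_sylow
      obtain ⟨u, hu⟩ := MulAction.exists_smul_eq H R P
      refine ⟨u, u.2, fun d hd => ⟨u * ⟨d, hDH hd⟩ * u⁻¹, ?_, rfl⟩⟩
      rw [← hu]
      exact ⟨⟨d, hDH hd⟩, hR hd, rfl⟩
    -- the conjugates of `E` into `P`
    obtain ⟨h₁, hh₁, hE1⟩ := hconjP E hEp (hEH.trans inf_le_left)
    obtain ⟨h₂, hh₂, hE2⟩ := hconjP (E.map (MulAut.conj g₀⁻¹).toMonoidHom) (hEp.map _) (by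
      rintro _ ⟨a, ha, rfl⟩
      obtain ⟨b, hb, rfl⟩ := (hEH ha).2
      show g₀⁻¹ * (g₀ * b * g₀⁻¹) * g₀⁻¹⁻¹ ∈ H
      simpa [mul_assoc] using hb)
    have hNE : Subgroup.normalizer (E : Set G) ≤ H := by
      intro r hr
      have hmem : h₁ * r * h₁⁻¹ ∈
          Subgroup.normalizer ((E.map (MulAut.conj h₁).toMonoidHom : Subgroup G) : Set G) := by
        rw [Subgroup.mem_normalizer_iff]
        intro a
        rw [Subgroup.mem_map_equiv, Subgroup.mem_map_equiv, Subgroup.mem_normalizer_iff.1 hr]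
        simp [MulAut.conj_symm_apply, mul_assoc]
      have h1 := hN (E.map (MulAut.conj h₁).toMonoidHom)
        (by rintro _ ⟨a, ha, rfl⟩; exact hE1 a ha) (fun hle => by
          apply hEr
          let e := E.equivMapOfInjective (MulAut.conj h₁).toMonoidHom (MulAut.conj h₁).injective
          exact pRankLE_of_injective e.toMonoidHom e.injective hle) hmem
      have := H.mul_mem (H.mul_mem (H.inv_mem hh₁) h1) hh₁
      simpa [mul_assoc] using this
    -- the conjugate of `P` inside `H^g₀` containing `E`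
    set P'' := P'.map (MulAut.conj (g₀ * h₂⁻¹)).toMonoidHom with hP''
    have hE'' : E ≤ P'' := by
      intro a ha
      refine ⟨_, hE2 _ ⟨a, ha, rfl⟩, ?_⟩
      show g₀ * h₂⁻¹ * (h₂ * (g₀⁻¹ * a * g₀⁻¹⁻¹) * h₂⁻¹) * (g₀ * h₂⁻¹)⁻¹ = a
      group
    have hP''p : IsPGroup p P'' := (P.2.map _).map _
    rcases hE''.eq_or_lt with heq | hlt
    · -- `E` is a full conjugate of `P`
      have hcard : Nat.card P' ≤ Nat.card (E.map (MulAut.conj h₁).toMonoidHom) := by
        refine le_of_eq (.trans ?_ (Subgroup.card_map_of_injective (MulAut.conj h₁).injective).symm)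
        rw [heq]
        exact (Subgroup.card_map_of_injective (MulAut.conj _).injective).symm
      have heq1 := Subgroup.eq_of_le_of_card_ge
        (show E.map (MulAut.conj h₁).toMonoidHom ≤ P' by rintro _ ⟨a, ha, rfl⟩; exact hE1 a ha) hcard
      rw [heq, hP'', Subgroup.map_map] at heq1
      have hmem : h₁ * (g₀ * h₂⁻¹) ∈ Subgroup.normalizer (P' : Set G) := by
        rw [Subgroup.mem_normalizer_iff_map_conj_eq]
        convert heq1 using 2
        ext a
        simp [mul_assoc]
      have hPr : ¬ Cfsg.PRankLE p (k - 1) ↥P' := fun hle => hP (pRankLE_of_injective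
        ((P : Subgroup ↥H).equivMapOfInjective H.subtype H.subtype_injective).toMonoidHom
        ((P : Subgroup ↥H).equivMapOfInjective H.subtype H.subtype_injective).injective hle)
      have h1 := hN P' le_rfl hPr hmem
      apply hg₀
      have := H.mul_mem (H.mul_mem (H.inv_mem hh₁) h1) hh₂
      simpa [mul_assoc] using this
    · -- normalisers grow inside `P''`
      haveI := hP''p.isNilpotent
      have hlt' : E.subgroupOf P'' < ⊤ :=
        lt_top_iff_ne_top.2 fun h => hlt.ne (le_antisymm hlt.le (Subgroup.subgroupOf_eq_top.1 h))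
      obtain ⟨r, hr, hr'⟩ := SetLike.exists_of_lt
        (Group.normalizerCondition_of_isNilpotent (G := P'') (E.subgroupOf P'') hlt')
      have hrN : (r : G) ∈ Subgroup.normalizer (E : Set G) := by
        rw [Subgroup.mem_normalizer_iff] at hr ⊢
        intro a
        constructor
        · intro ha
          exact (hr ⟨a, hlt.le ha⟩).1 ha
        · intro ha
          have haP : a ∈ P'' := by
            have := P''.mul_mem (P''.mul_mem (P''.inv_mem r.2) (hlt.le ha)) r.2
            simpa [mul_assoc] using this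
          exact (hr ⟨a, haP⟩).2 ha
      have hle'' : P'' ≤ H.map (MulAut.conj g₀).toMonoidHom := by
        rintro _ ⟨b, hb, rfl⟩
        refine ⟨h₂⁻¹ * b * h₂⁻¹⁻¹,
          H.mul_mem (H.mul_mem (H.inv_mem hh₂) (Subgroup.map_subtype_le _ hb))
            (H.inv_mem (H.inv_mem hh₂)), ?_⟩
        show g₀ * (h₂⁻¹ * b * h₂⁻¹⁻¹) * g₀⁻¹ = g₀ * h₂⁻¹ * b * (g₀ * h₂⁻¹)⁻¹
        group
      have hnew : Ok (E ⊔ Subgroup.zpowers (r : G)) :=
        ⟨hP''p.to_le (sup_le hlt.le ((Subgroup.zpowers_le).2 r.2)), mono _ _ le_sup_left hEr,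
          g₀, hg₀, sup_le hEH ((Subgroup.zpowers_le).2
            ⟨hNE hrN, hle'' r.2⟩)⟩
      exact hr' (hmax hnew le_sup_left (Subgroup.mem_sup_right (Subgroup.mem_zpowers _)))
  · intro hG X hX hXr g hg
    by_contra hgH
    refine mono X _ ?_ hXr (hG g hgH)
    refine le_inf (hX.trans (Subgroup.map_subtype_le _)) fun a ha => ?_
    have : g⁻¹ * a * g⁻¹⁻¹ ∈ X := (Subgroup.mem_normalizer_iff.1 (Subgroup.inv_mem _ hg) a).1 ha
    exact ⟨_, Subgroup.map_subtype_le _ (hX this), by
      show g * (g⁻¹ * a * g⁻¹⁻¹) * g⁻¹ = a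
      group⟩

end Cfsg.Agent.S1231
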