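import Cfsg.Statements.S1235
import Cfsg.Agent.HarrisRank.Bound
-- import your own Cfsg.Agent.* helpers here

set_option autoImplicit false
open Cfsg

namespace Cfsg.Agent.S1235

/-- Let G be a finite group, x an involution and T ≤ G a Sylow 2-subgroup of C_G(x) (T ≤ C_G(x) with |C_G(x) : T| odd) which is the internal direct product of a subgroup D that is dihedral (of order ≥ 4) or quasi-dihedral and a Klein four-subgroup B. Suppose that for every involution b ∈ B, T ≤ C_G(b) with |C_G(b) : T| odd. Then every section of G has 2-rank at most 4. -/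
theorem result {G : Type*} [Group G] [Finite G] (x : G) (hx : orderOf x = 2) (T D B : Subgroup G) (hT : IsPGroup 2 T) (hTx : T ≤ Subgroup.centralizer ({x} : Set G)) (hTxi : Odd (T.relIndex (Subgroup.centralizer ({x} : Set G)))) (hprod : Cfsg.IsInternalDirectProduct D B T) (hD : (∃ m : ℕ, 2 ≤ m ∧ Nonempty (D ≃* DihedralGroup m)) ∨ Cfsg.IsQuasiDihedral D) (hB : IsKleinFour B) (hTb : ∀ b ∈ B, orderOf b = 2 → T ≤ Subgroup.centralizer ({b} : Set G) ∧ Odd (T.relIndex (Subgroup.centralizer ({b} : Set G)))) : Cfsg.SectionalPRankLE 2 4 G := by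
  
  obtain ⟨hDT, hBT, hcomm, hdisj, hsup⟩ := hprod
  haveI := Fact.mk Nat.prime_two
  -- `D` has a cyclic subgroup of index two, and is elementary of order four when abelian
  obtain ⟨C, hC, hCi, hDab⟩ : ∃ C : Subgroup D, IsCyclic C ∧ C.index ≤ 2 ∧
      ((∀ a b : D, a * b = b * a) → Nat.card D = 4 ∧ ∀ a : D, a * a = 1) := by
    rcases hD with ⟨m, hm, ⟨e⟩⟩ | ⟨n, hn, hcard, a, b, ha, hb, hab⟩
    · refine ⟨Subgroup.zpowers (e.symm (DihedralGroup.r 1)), inferInstance, ?_, fun hc => ?_⟩
      · have h1 := (Subgroup.zpowers (e.symm (DihedralGroup.r 1))).card_mul_index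
        rw [Nat.card_zpowers, MulEquiv.orderOf_eq, DihedralGroup.orderOf_r_one, Nat.card_congr e.toEquiv,
          DihedralGroup.nat_card] at h1
        exact le_of_eq (Nat.eq_of_mul_eq_mul_left (show 0 < m by omega) (h1.trans (mul_comm 2 m)))
      · have h1 := congrArg e (hc (e.symm (DihedralGroup.r 1)) (e.symm (DihedralGroup.sr 0)))
        simp only [map_mul, MulEquiv.apply_symm_apply, DihedralGroup.r_mul_sr, DihedralGroup.sr_mul_r,
          DihedralGroup.sr.injEq, zero_sub, zero_add] at h1
        have h2 : ((2 : ℕ) : ZMod m) = 0 := by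
          push_cast
          linear_combination (-1 : ZMod m) * h1
        obtain rfl : m = 2 := by
          have := Nat.le_of_dvd (by norm_num) ((ZMod.natCast_eq_zero_iff 2 m).1 h2)
          omega
        refine ⟨by rw [Nat.card_congr e.toEquiv, DihedralGroup.nat_card], fun x => e.injective ?_⟩
        rw [map_mul, map_one]
        generalize e x = y
        revert y
        decide
    · refine ⟨Subgroup.zpowers a, inferInstance, ?_, fun hc => ?_⟩
      · have h1 := (Subgroup.zpowers a).card_mul_index
        rw [Nat.card_zpowers, ha, hcard, pow_succ] at h1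
        exact le_of_eq (Nat.eq_of_mul_eq_mul_left (by positivity) h1)
      · exfalso
        rw [hc b a, mul_inv_cancel_right] at hab
        have h2 : 2 ^ (n - 1) - 1 ≡ 1 [MOD orderOf a] := pow_eq_pow_iff_modEq.1 (by rw [pow_one, ← hab])
        have h4 : 4 ≤ 2 ^ (n - 1) := by
          calc 4 = 2 ^ 2 := rfl
            _ ≤ _ := Nat.pow_le_pow_right (by norm_num) (by omega)
        have h5 : 2 ^ n = 2 ^ (n - 1) * 2 := by rw [← pow_succ, Nat.sub_add_cancel (by omega)]
        rw [ha, Nat.ModEq, Nat.mod_eq_of_lt (by omega), Nat.mod_eq_of_lt (by omega)] at h2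
        omega
  have hD2 : IsPGroup 2 D := hT.to_le hDT
  -- order of `T`
  have hinj : Function.Injective (MonoidHom.noncommCoprod D.subtype B.subtype fun a b => hcomm a a.2 b b.2) := by
    intro p q hpq
    have h1 : (p.1 : G) * p.2 = q.1 * q.2 := hpq
    have h2 : (q.1 : G)⁻¹ * p.1 = q.2 * (p.2 : G)⁻¹ := by
      rw [eq_mul_inv_iff_mul_eq, mul_assoc, h1, inv_mul_cancel_left]
    have h3 : (q.1 : G)⁻¹ * p.1 ∈ D ⊓ B :=
      Subgroup.mem_inf.2 ⟨D.mul_mem (D.inv_mem q.1.2) p.1.2,
        by rw [h2]; exact B.mul_mem q.2.2 (B.inv_mem p.2.2)⟩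
    rw [hdisj, Subgroup.mem_bot] at h3
    have h4 : p.1 = q.1 := Subtype.ext (inv_mul_eq_one.1 h3).symm
    refine Prod.ext h4 (Subtype.ext ?_)
    rw [h4] at h1
    exact mul_left_cancel h1
  have hTcard : Nat.card T = Nat.card D * 4 := by
    rw [← hB.card_four, ← Nat.card_prod, ← hsup]
    have hr : (MonoidHom.noncommCoprod D.subtype B.subtype fun a b => hcomm a a.2 b b.2).range = D ⊔ B := by
      exact (MonoidHom.noncommCoprod_range _ _ _).trans (by rw [Subgroup.range_subtype, Subgroup.range_subtype])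
    rw [← hr]
    exact (Nat.card_congr (MonoidHom.ofInjective hinj).toEquiv).symm
  have hB2 : ∀ b ∈ B, b * b = 1 := fun b hb => congrArg Subtype.val (IsKleinFour.mul_self (⟨b, hb⟩ : B))
  have hcentB : ∀ b ∈ B, ∀ u ∈ T, u * b = b * u := by
    intro b hb u hu
    have hle : T ≤ Subgroup.centralizer ({b} : Set G) := by
      rw [← hsup, sup_le_iff]
      refine ⟨fun d hd => Subgroup.mem_centralizer_singleton_iff.2 (hcomm d hd b hb), fun c hc => ?_⟩
      refine Subgroup.mem_centralizer_singleton_iff.2 ?_
      exact congrArg Subtype.val (CfsgLib.HarrisRank.comm_of_sq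
        (H := B) (fun q => Subtype.ext (hB2 q q.2)) ⟨c, hc⟩ ⟨b, hb⟩)
    exact Subgroup.mem_centralizer_singleton_iff.1 (hle hu)
  -- a Sylow subgroup containing `T`
  obtain ⟨S, hTS⟩ := hT.exists_le_sylow
  apply CfsgLib.HarrisRank.sectional_of_sylow S
  have hS := S.2
  let T' := T.subgroupOf (S : Subgroup G)
  let B' := B.subgroupOf (S : Subgroup G)
  have hBS : B ≤ (S : Subgroup G) := hBT.trans hTS
  have hset : CfsgLib.HarrisRank.Setup T' B' :=
    { le := fun b hb => hBT hb
      card_B := by rw [Nat.card_congr (Subgroup.subgroupOfEquivOfLe hBS).toEquiv, hB.card_four]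
      sq_B := fun b hb => Subtype.ext (hB2 b hb)
      cent := fun b hb hb1 => by
        have hb1' : (b : G) ≠ 1 := fun e => hb1 (Subtype.ext e)
        have hord : orderOf (b : G) = 2 := orderOf_eq_prime (by rw [pow_two]; exact hB2 b hb) hb1'
        obtain ⟨hle, hodd⟩ := hTb b hb hord
        refine le_antisymm ?_ (fun (u : ↥(S : Subgroup G)) (hu : (u : G) ∈ T) =>
          Subgroup.mem_centralizer_singleton_iff.2 (Subtype.ext (hcentB b hb u hu)))
        let X := (S : Subgroup G) ⊓ Subgroup.centralizer ({(b : G)} : Set G)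
        have hTX : T ≤ X := le_inf hTS hle
        have hX : IsPGroup 2 X := hS.to_le inf_le_left
        have h1 : T.relIndex X ∣ T.relIndex (Subgroup.centralizer ({(b : G)} : Set G)) :=
          Dvd.intro _ (Subgroup.relIndex_mul_relIndex T X _ hTX inf_le_right)
        obtain ⟨k, hk⟩ := hX.index (T.subgroupOf X)
        have h2 : T.relIndex X = 1 := by
          show (T.subgroupOf X).index = 1
          rcases k with _ | k
          · simpa using hk
          · have : 2 ∣ T.relIndex (Subgroup.centralizer ({(b : G)} : Set G)) :=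
              dvd_trans (show 2 ∣ (T.subgroupOf X).index by rw [hk]; exact dvd_pow_self 2 (Nat.succ_ne_zero k)) h1
            exact absurd (even_iff_two_dvd.2 this) (Nat.not_even_iff_odd.2 hodd)
        intro u hu
        exact Subgroup.relIndex_eq_one.1 h2
          ⟨u.2, Subgroup.mem_centralizer_singleton_iff.2
            (congrArg Subtype.val (Subgroup.mem_centralizer_singleton_iff.1 hu))⟩ }
  by_cases hab : ∀ u ∈ T, ∀ v ∈ T, u * v = v * u
  · -- abelian case
    obtain ⟨hD4, hDsq⟩ := hDab fun a b => Subtype.ext (hab a (hDT a.2) b (hDT b.2))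
    have hT2 : ∀ v ∈ T, v * v = 1 := by
      have hle : T ≤ Subgroup.closure ((D : Set G) ∪ B) := by
        rw [Subgroup.closure_union, Subgroup.closure_eq, Subgroup.closure_eq, hsup]
      intro v hv
      have := hle hv
      refine Subgroup.closure_induction (p := fun z _ => z * z = 1 ∧ z ∈ T) ?_ ?_ ?_ ?_ this |>.1
      · rintro z (hz | hz)
        · exact ⟨congrArg Subtype.val (hDsq ⟨z, hz⟩), hDT hz⟩
        · exact ⟨hB2 z hz, hBT hz⟩
      · exact ⟨one_mul 1, one_mem T⟩
      · rintro a b - - ⟨ha, haT⟩ ⟨hb, hbT⟩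
        refine ⟨?_, mul_mem haT hbT⟩
        rw [show a * b * (a * b) = a * (b * a) * b by group, hab b hbT a haT,
          show a * (a * b) * b = a * a * (b * b) by group, ha, hb, mul_one]
      · rintro a - ⟨ha, haT⟩
        rw [inv_eq_of_mul_eq_one_right ha]
        exact ⟨ha, haT⟩
    refine CfsgLib.HarrisRank.sectFour_elementary hS hset ?_ fun v hv => Subtype.ext (hT2 v hv)
    rw [Nat.card_congr (Subgroup.subgroupOfEquivOfLe hTS).toEquiv, hTcard, hD4]
  · push Not at hab
    obtain ⟨u, hu, v, hv, huv⟩ := hab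
    haveI : Nontrivial D := by
      apply Finite.one_lt_card_iff_nontrivial.1
      by_contra hle
      have h1 := Nat.card_pos (α := D)
      have hD1 : D = ⊥ := Subgroup.card_eq_one.1 (by omega)
      rw [hD1, bot_sup_eq] at hsup
      exact huv (hcentB v (hsup ▸ hv) u hu)
    haveI := hD2.center_nontrivial
    have hd : 2 ∣ Nat.card (Subgroup.center D) :=
      (hD2.to_subgroup _).card_eq_or_dvd.resolve_left (Finite.one_lt_card).ne'
    obtain ⟨z, hz⟩ := exists_prime_orderOf_dvd_card' 2 hd
    have hz1 : ((z : D) : G) ≠ 1 := fun e => by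
      have : z = 1 := Subtype.ext (Subtype.ext e)
      rw [this, orderOf_one] at hz
      omega
    have hz2 : ((z : D) : G) * (z : D) = 1 := by
      have : z * z = 1 := by rw [← pow_two, ← hz, pow_orderOf_eq_one]
      exact congrArg (fun y : Subgroup.center D => ((y : D) : G)) this
    have hzc : T ≤ Subgroup.centralizer ({((z : D) : G)} : Set G) := by
      rw [← hsup, sup_le_iff]
      exact ⟨fun d hd' => Subgroup.mem_centralizer_singleton_iff.2
          (congrArg Subtype.val (Subgroup.mem_center_iff.1 z.2 ⟨d, hd'⟩)),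
        fun c hc => Subgroup.mem_centralizer_singleton_iff.2 (hcomm _ (z : D).2 c hc).symm⟩
    have hCS : C.map D.subtype ≤ (S : Subgroup G) :=
      (Subgroup.map_subtype_le C).trans (hDT.trans hTS)
    let C' := (C.map D.subtype).subgroupOf (S : Subgroup G)
    have hC' : IsCyclic C' := by
      haveI : IsCyclic (C.map D.subtype) :=
        isCyclic_of_surjective (D.subtype.subgroupMap C) (D.subtype.subgroupMap_surjective C)
      exact isCyclic_of_surjective (Subgroup.subgroupOfEquivOfLe hCS).symm.toMonoidHom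
        (Subgroup.subgroupOfEquivOfLe hCS).symm.surjective
    have hCT : C.map D.subtype ≤ T := (Subgroup.map_subtype_le C).trans hDT
    refine CfsgLib.HarrisRank.sectFour_nonabelian hS hset hC' (fun x hx => hCT hx) ?_
      (fun b hb w hw => Subtype.ext (hcentB b hb w hw))
      ⟨((z : D) : G), hTS (hDT (z : D).2)⟩ (hDT (z : D).2) (Subtype.ext hz2) (fun hzB => hz1 ?_)
      (fun w hw => Subtype.ext (Subgroup.mem_centralizer_singleton_iff.1 (hzc hw)))
      ⟨⟨u, hTS hu⟩, hu, ⟨v, hTS hv⟩, hv, fun e => huv (congrArg Subtype.val e)⟩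
    · rw [Subgroup.relIndex_subgroupOf hTS]
      have h1 : Nat.card C * C.index = Nat.card D := C.card_mul_index
      have h2 : Nat.card ↥(C.map D.subtype) * (C.map D.subtype).relIndex T = Nat.card T := by
        rw [← Subgroup.relIndex_bot_left, ← Subgroup.relIndex_bot_left]
        exact Subgroup.relIndex_mul_relIndex _ _ _ bot_le hCT
      rw [Subgroup.card_map_of_injective D.subtype_injective, hTcard, ← h1, mul_assoc] at h2
      rw [Nat.eq_of_mul_eq_mul_left Nat.card_pos h2]
      omega
    · have : ((z : D) : G) ∈ D ⊓ B := ⟨(z : D).2, hzB⟩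
      rw [hdisj, Subgroup.mem_bot] at this
      exact this

end Cfsg.Agent.S1235
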