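import Cfsg.Statements.S1236

set_option autoImplicit false
open Cfsg

namespace Cfsg.Agent.S1236

private theorem selfcent {Q : Type*} [Group Q] [Finite Q] (x y : Q) (hcard : Nat.card Q = 2 * orderOf x)
    (hy : y ∉ Subgroup.zpowers x) (hfix : ∀ i : ℤ, y * x ^ i * y⁻¹ = x ^ i → x ^ (2 * i) = 1)
    (V : Subgroup Q) (hV : Nat.card V = 4) (hV2 : ∀ v ∈ V, v ^ 2 = 1) :
    Subgroup.centralizer (V : Set Q) ≤ V := by
  classical
  set C := Subgroup.zpowers x with hC
  have hidx : C.index = 2 := by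
    have h := C.card_mul_index
    rw [hC, Nat.card_zpowers, hcard, mul_comm 2 (orderOf x)] at h
    exact Nat.eq_of_mul_eq_mul_left (orderOf_pos x) h
  have mulmem : ∀ a b : Q, a ∉ C → b ∉ C → a * b ∈ C := fun a b ha hb =>
    (Subgroup.mul_mem_iff_of_index_two hidx).2 (iff_of_false ha hb)
  haveI : Fintype C := Fintype.ofFinite _
  have hsol : ∀ a b c : Q, a ∈ C → b ∈ C → c ∈ C → a ^ 2 = 1 → b ^ 2 = 1 → c ^ 2 = 1 → a = b ∨ a = c ∨ b = c := by
    intro a b c ha hb hc ha2 hb2 hc2
    by_contra hne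
    push Not at hne
    have hle : Finset.card (Finset.univ.filter fun z : C => z ^ 2 = 1) ≤ 2 := IsCyclic.card_pow_eq_one_le (by norm_num)
    have hsub : ({⟨a, ha⟩, ⟨b, hb⟩, ⟨c, hc⟩} : Finset C) ⊆ Finset.univ.filter fun z : C => z ^ 2 = 1 := by
      intro z hz
      simp only [Finset.mem_insert, Finset.mem_singleton] at hz
      simp only [Finset.mem_filter, Finset.mem_univ, true_and]
      rcases hz with rfl | rfl | rfl <;> exact Subtype.ext (by simpa)
    have h3 : ({⟨a, ha⟩, ⟨b, hb⟩, ⟨c, hc⟩} : Finset C).card = 3 := by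
      simp [Finset.card_insert_of_notMem, hne.1, hne.2.1, hne.2.2]
    have := Finset.card_le_card hsub
    omega
  -- some element of V outside C
  obtain ⟨s, hsV, hsC⟩ : ∃ s ∈ V, s ∉ C := by
    by_contra hno
    push Not at hno
    haveI : Fintype V := Fintype.ofFinite _
    obtain ⟨a, b, c, hab, hac, hbc⟩ := Fintype.two_lt_card_iff.1 (by rw [← Nat.card_eq_fintype_card, hV]; norm_num : 2 < Fintype.card V)
    rcases hsol a b c (hno _ a.2) (hno _ b.2) (hno _ c.2) (hV2 _ a.2) (hV2 _ b.2) (hV2 _ c.2) with h | h | h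
    · exact hab (Subtype.ext h)
    · exact hac (Subtype.ext h)
    · exact hbc (Subtype.ext h)
  -- a nontrivial element of V in C
  obtain ⟨w, hwV, hwC, hw1⟩ : ∃ w ∈ V, w ∈ C ∧ w ≠ 1 := by
    haveI : Fintype V := Fintype.ofFinite _
    obtain ⟨a, b, c, hab, hac, hbc⟩ := Fintype.two_lt_card_iff.1 (by rw [← Nat.card_eq_fintype_card, hV]; norm_num : 2 < Fintype.card V)
    obtain ⟨v, hvV, hv1, hvs⟩ : ∃ v ∈ V, v ≠ 1 ∧ v ≠ s := by
      by_contra hno
      push Not at hno
      by_cases ha1 : (a : Q) = 1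
      · have hb' := hno b b.2 (fun h => hab (Subtype.ext (ha1.trans h.symm)))
        have hc' := hno c c.2 (fun h => hac (Subtype.ext (ha1.trans h.symm)))
        exact hbc (Subtype.ext (hb'.trans hc'.symm))
      · have ha' := hno a a.2 ha1
        by_cases hb1 : (b : Q) = 1
        · have hc' := hno c c.2 (fun h => hbc (Subtype.ext (hb1.trans h.symm)))
          exact hac (Subtype.ext (ha'.trans hc'.symm))
        · exact hab (Subtype.ext (ha'.trans (hno b b.2 hb1).symm))
    by_cases hvC : v ∈ C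
    · exact ⟨v, hvV, hvC, hv1⟩
    · refine ⟨v * s, V.mul_mem hvV hsV, mulmem _ _ hvC hsC, fun h => hvs ?_⟩
      have hs2 : s * s = 1 := by rw [← pow_two]; exact hV2 s hsV
      exact mul_right_cancel (h.trans hs2.symm)
  intro c hc
  rw [Subgroup.mem_centralizer_iff] at hc
  have key : ∀ d ∈ C, s * d = d * s → d ∈ V := by
    intro d hd hcomm
    obtain ⟨i, rfl⟩ := Subgroup.mem_zpowers_iff.1 hd
    obtain ⟨j, hj⟩ := Subgroup.mem_zpowers_iff.1 (mulmem y⁻¹ s (by simpa using hy) hsC)
    have h1 : s * x ^ i * s⁻¹ = y * x ^ i * y⁻¹ := by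
      rw [show s = y * x ^ j by rw [hj]; group]
      group
    have h2 := hfix i (by rw [← h1, hcomm, mul_inv_cancel_right])
    have h3 : (x ^ i) ^ 2 = 1 := by rw [← zpow_natCast, ← zpow_mul, mul_comm]; exact h2
    rcases hsol _ w 1 hd hwC C.one_mem h3 (hV2 w hwV) (one_pow 2) with h | h | h
    · rw [h]; exact hwV
    · rw [h]; exact V.one_mem
    · exact absurd h hw1
  by_cases hcC : c ∈ C
  · exact key c hcC (hc s hsV)
  · have h := key (c * s) (mulmem c s hcC hsC) (by rw [← mul_assoc, hc s hsV])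
    have := V.mul_mem h (V.inv_mem hsV)
    simpa using this

/-- Let R be a finite group, t a central involution of R such that R ⧸ ⟨t⟩ is dihedral (of order ≥ 4) or quasi-dihedral, and A ≤ R an elementary abelian subgroup of order 8 containing t. Then C_R(A) = A. -/
theorem result {R : Type*} [Group R] [Finite R] (t : R) (ht : orderOf t = 2) (htz : t ∈ Subgroup.center R) [(Subgroup.zpowers t).Normal] (hq : (∃ m : ℕ, 2 ≤ m ∧ Nonempty (R ⧸ Subgroup.zpowers t ≃* DihedralGroup m)) ∨ Cfsg.IsQuasiDihedral (R ⧸ Subgroup.zpowers t)) (A : Subgroup R) (hA : Cfsg.IsElementaryAbelian 2 A) (hA8 : Nat.card A = 8) (htA : t ∈ A) : Subgroup.centralizer (A : Set R) = A := by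
  set Z := Subgroup.zpowers t with hZ
  set π := QuotientGroup.mk' Z with hπ
  have hcard : Nat.card (A.map π) = 4 := by
    set f := π.comp A.subtype with hf
    have hk : Nat.card f.ker = 2 := by
      have : f.ker = Z.subgroupOf A := by
        rw [hf, ← MonoidHom.comap_ker, hπ, QuotientGroup.ker_mk']; rfl
      rw [this, Nat.card_congr (Subgroup.subgroupOfEquivOfLe ((Subgroup.zpowers_le).2 htA)).toEquiv, Nat.card_zpowers, ht]
    have hr : f.range = A.map π := by rw [hf, MonoidHom.range_comp, Subgroup.range_subtype]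
    have := f.ker.card_mul_index
    rw [hk, Subgroup.index_ker, hr, hA8] at this
    omega
  have hV : Subgroup.centralizer (A.map π : Set (R ⧸ Z)) ≤ A.map π := by
    have hex : ∀ v ∈ A.map π, v ^ 2 = 1 := by
      rintro _ ⟨a, ha, rfl⟩
      rw [← map_pow, hA.2 a ha, map_one]
    rcases hq with ⟨m, hm, ⟨e⟩⟩ | ⟨n, hn, hcS, x, y, hx, hy, hyx⟩
    · haveI : NeZero m := ⟨by omega⟩
      refine selfcent (e.symm (DihedralGroup.r 1)) (e.symm (DihedralGroup.sr 0)) ?_ ?_ ?_ _ hcard hex
      · rw [MulEquiv.orderOf_eq, DihedralGroup.orderOf_r_one, Nat.card_congr e.toEquiv, DihedralGroup.nat_card]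
      · intro hh
        obtain ⟨k, hk⟩ := Subgroup.mem_zpowers_iff.1 hh
        rw [← map_zpow] at hk
        have := e.symm.injective hk
        simp at this
      · intro i hi
        rw [← map_zpow, ← map_inv, ← map_mul, ← map_mul] at hi
        have h := e.symm.injective hi
        rw [← map_zpow]
        rw [show (DihedralGroup.r (1 : ZMod m)) ^ (2 * i) = 1 from ?_, map_one]
        simp only [DihedralGroup.r_one_zpow, DihedralGroup.inv_sr, DihedralGroup.sr_mul_r, DihedralGroup.sr_mul_sr, DihedralGroup.r.injEq, zero_add, zero_sub] at h ⊢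
        rw [DihedralGroup.one_def, DihedralGroup.r.injEq]
        push_cast
        linear_combination -h
    · refine selfcent x y ?_ ?_ ?_ _ hcard hex
      · rw [hcS, hx, pow_succ, mul_comm]
      · intro hh
        obtain ⟨k, rfl⟩ := Subgroup.mem_zpowers_iff.1 hh
        have h1 : x ^ k * x * (x ^ k)⁻¹ = x := by group
        rw [h1] at hyx
        have hmod := pow_inj_mod.1 ((pow_one x).trans hyx)
        rw [hx] at hmod
        have h4 : 4 ≤ 2 ^ (n - 1) := le_trans (by norm_num : 4 ≤ 2 ^ 2) (Nat.pow_le_pow_right (by norm_num) (by omega))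
        have h5 : 2 ^ (n - 1) ≤ 2 ^ n := Nat.pow_le_pow_right (by norm_num) (by omega)
        rw [Nat.mod_eq_of_lt (by omega), Nat.mod_eq_of_lt (by omega)] at hmod
        omega
      · intro i hi
        have h1 : y * x ^ i * y⁻¹ = x ^ (((2 ^ (n - 1) - 1 : ℕ) : ℤ) * i) := by
          rw [zpow_mul, zpow_natCast, ← hyx, conj_zpow]
        rw [h1] at hi
        have h2 : x ^ ((((2 ^ (n - 1) - 1 : ℕ) : ℤ) - 1) * i) = 1 := by
          rw [sub_mul, one_mul, zpow_sub, hi, mul_inv_cancel]
        rw [← orderOf_dvd_iff_zpow_eq_one, hx] at h2 ⊢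
        have hpow : (2 : ℕ) ^ (n - 1) = 4 * 2 ^ (n - 3) := by
          rw [show (4 : ℕ) = 2 ^ 2 from rfl, ← pow_add]; congr 1; omega
        have hodd : IsCoprime ((2 ^ n : ℕ) : ℤ) (2 * (2 : ℤ) ^ (n - 3) - 1) := by
          push_cast
          exact IsCoprime.pow_left ⟨(2 : ℤ) ^ (n - 3), -1, by ring⟩
        refine hodd.dvd_of_dvd_mul_left ?_
        refine h2.trans (dvd_of_eq ?_)
        rw [hpow, Nat.cast_sub (by have := Nat.one_le_two_pow (n := n - 3); omega)]
        push_cast
        ring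
  apply le_antisymm
  · intro c hc
    have : π c ∈ A.map π := hV (by
      rw [Subgroup.mem_centralizer_iff]
      rintro _ ⟨a, ha, rfl⟩
      rw [← map_mul, ← map_mul, Subgroup.mem_centralizer_iff.1 hc a ha])
    obtain ⟨a, ha, hac⟩ := this
    have h2 : a⁻¹ * c ∈ A := (Subgroup.zpowers_le.2 htA) (QuotientGroup.eq.1 hac)
    simpa using A.mul_mem ha h2
  · intro a ha
    rw [Subgroup.mem_centralizer_iff]
    intro b hb
    exact congrArg Subtype.val (hA.1.is_comm.comm ⟨b, hb⟩ ⟨a, ha⟩)

end Cfsg.Agent.S1236
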