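import Cfsg.Statements.S1239
import Cfsg.Agent.ZStar.QDWreathed
import Cfsg.Agent.Eq.Def_CaseTheorems
import Cfsg.Agent.Eq.Def_TwoFusion

set_option autoImplicit false
open Cfsg

namespace Cfsg.Agent.S1239

/-- Let X be a finite group whose Sylow 2-subgroup S is quasi-dihedral or wreathed, and suppose some involution of S is isolated in X. Then the product of the largest normal odd-order subgroup O(X) with the centre of S is normal in X. -/
theorem result {X : Type*} [Group X] [Finite X] (S : Sylow 2 X) (hS : Cfsg.IsQuasiDihedral (S : Subgroup X) ∨ Cfsg.IsWreathed (S : Subgroup X)) (z : X) (hzS : z ∈ S) (hz : Cfsg.IsIsolatedInvolution z) : (Cfsg.oddCore X ⊔ (Subgroup.center (S : Subgroup X)).map (S : Subgroup X).subtype).Normal := by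
  exact CfsgLib.ZStar.normal_sup_of_inZStar fun _ hw =>
    CfsgLib.ZStar.inZStar_center_of_isolated S hS hz.1 hzS hz.2 hw

end Cfsg.Agent.S1239
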