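import Cfsg.Statements.S1241
import Mathlib.GroupTheory.Transfer

set_option autoImplicit false
open Cfsg
open scoped commutatorElement

namespace Cfsg.Agent.S1241

/-- Let G be a finite group, p a prime, H a subgroup of index prime to p, K a subgroup of H normal in H with H/K commutative, and g ∈ H ∖ K an element of p-power order such that for all integers m and all a ∈ G with a g^m a⁻¹ ∈ H one has a g^m a⁻¹ ∈ g^m K. Then g ∉ G'. -/
theorem result {G : Type*} [Group G] [Finite G] {p : ℕ} [Fact p.Prime] (H K : Subgroup G) (hHK : K ≤ H) (hKn : (K.subgroupOf H).Normal) (hab : ∀ x ∈ H, ∀ y ∈ H, x * y * x⁻¹ * y⁻¹ ∈ K) (hidx : Nat.Coprime p H.index) (g : G) (hgH : g ∈ H) (hgK : g ∉ K) (hgp : ∃ k : ℕ, orderOf g = p ^ k) (hctrl : ∀ (m : ℤ) (a : G), a * g ^ m * a⁻¹ ∈ H → (a * g ^ m * a⁻¹) * (g ^ m)⁻¹ ∈ K) : g ∉ commutator G := by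
  classical
  let K' : Subgroup H := K.subgroupOf H
  haveI : K'.Normal := hKn
  letI : CommGroup (H ⧸ K') := { (inferInstance : Group (H ⧸ K')) with
    mul_comm := by
      intro a b
      induction a using QuotientGroup.induction_on with | H a => ?_
      induction b using QuotientGroup.induction_on with | H b => ?_
      rw [← QuotientGroup.mk_mul, ← QuotientGroup.mk_mul, QuotientGroup.eq]
      show ((a * b)⁻¹ * (b * a) : H) ∈ K'
      rw [Subgroup.mem_subgroupOf]
      have := hab (b : G)⁻¹ (H.inv_mem b.2) (a : G)⁻¹ (H.inv_mem a.2)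
      simpa [mul_assoc] using this }
  let φ : H →* H ⧸ K' := QuotientGroup.mk' K'
  intro hg
  have hker : commutator G ≤ φ.transfer.ker := by
    rw [commutator_eq_closure, Subgroup.closure_le]
    rintro _ ⟨a, b, rfl⟩
    simp [commutatorElement_def, mul_comm]
  have h1 : φ.transfer g = 1 := hker hg
  haveI : Fintype (G ⧸ H) := Fintype.ofFinite _
  haveI : Fintype (Quotient (MulAction.orbitRel (Subgroup.zpowers g) (G ⧸ H))) := Fintype.ofFinite _
  rw [MonoidHom.transfer_eq_prod_quotient_orbitRel_zpowers_quot] at h1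
  have h2 : ∀ q : Quotient (MulAction.orbitRel (Subgroup.zpowers g) (G ⧸ H)),
      φ ⟨q.out.out⁻¹ * g ^ Function.minimalPeriod (g • ·) q.out * q.out.out,
        QuotientGroup.out_conj_pow_minimalPeriod_mem H g q.out⟩ = (φ ⟨g, hgH⟩) ^ Function.minimalPeriod (g • ·) q.out := by
    intro q
    rw [← map_pow, ← mul_inv_eq_one, ← map_inv, ← map_mul]
    apply (QuotientGroup.eq_one_iff _).2
    rw [Subgroup.mem_subgroupOf]
    have hm := QuotientGroup.out_conj_pow_minimalPeriod_mem H g q.out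
    have := hctrl (Function.minimalPeriod (g • ·) q.out : ℤ) q.out.out⁻¹ (by simpa using hm)
    simpa using this
  rw [Fintype.prod_congr _ _ h2, Finset.prod_pow_eq_pow_sum, ← Subgroup.index_eq_sum_minimalPeriod H g] at h1
  obtain ⟨k, hk⟩ := hgp
  have h3 : (φ ⟨g, hgH⟩) ^ p ^ k = 1 := by
    rw [← map_pow, show (⟨g, hgH⟩ : H) ^ p ^ k = 1 from Subtype.ext (by simp [← hk, pow_orderOf_eq_one]), map_one]
  have h4 : orderOf (φ ⟨g, hgH⟩) = 1 :=
    Nat.eq_one_of_dvd_coprimes (hidx.pow_left k) (orderOf_dvd_of_pow_eq_one h3) (orderOf_dvd_of_pow_eq_one h1)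
  have h5 : (⟨g, hgH⟩ : H) ∈ K' := (QuotientGroup.eq_one_iff _).1 (orderOf_eq_one_iff.1 h4)
  exact hgK h5

end Cfsg.Agent.S1241
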