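import Cfsg.Statements.S1242
import Cfsg.Agent.Eq.Def_Transfer
import Cfsg.Agent.Transfer.Control
import Cfsg.Agent.S1241

set_option autoImplicit false
open Cfsg
open scoped commutatorElement

namespace Cfsg.Agent.S1242

/-- Let G be a finite group, p a prime and H a subgroup of index prime to p such that any two elements of H of p-power order that are conjugate in G are conjugate in H. Then (O^p(G)·G') ∩ H = O^p(H)·H', where O^p denotes the subgroup generated by the elements of order prime to p. -/
theorem result {G : Type*} [Group G] [Finite G] {p : ℕ} [Fact p.Prime] (H : Subgroup G) (hidx : Nat.Coprime p H.index) (hfus : ∀ g ∈ H, (∃ k : ℕ, orderOf g = p ^ k) → ∀ a : G, a * g * a⁻¹ ∈ H → ∃ h ∈ H, h * g * h⁻¹ = a * g * a⁻¹) : (Cfsg.pResidual p G ⊔ commutator G) ⊓ H = (Cfsg.pResidual p ↥H ⊔ commutator ↥H).map H.subtype := by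
  haveI : (Cfsg.pResidual p ↥H).Normal := CfsgLib.CharP.pResidual_normal
  set M := (Cfsg.pResidual p ↥H ⊔ commutator ↥H).map H.subtype with hM
  refine le_antisymm ?_ (le_inf ?_ (Subgroup.map_subtype_le _))
  · rintro x ⟨hxA, hxH⟩
    obtain ⟨a, b, ha, hb, hab, ⟨k, hk⟩, hbc⟩ :=
      CfsgLib.Transfer.exists_pPart_decomposition (p := p) x
    have haH : a ∈ H := Subgroup.zpowers_le.mpr hxH ha
    have hbH : b ∈ H := Subgroup.zpowers_le.mpr hxH hb
    have hbM : b ∈ M := ⟨⟨b, hbH⟩, Subgroup.mem_sup_left
      (CfsgLib.CharP.mem_pResidual_of_coprime (by rwa [Subgroup.orderOf_mk])), rfl⟩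
    have haA : a ∈ Cfsg.pResidual p G ⊔ commutator G := Subgroup.zpowers_le.mpr hxA ha
    -- a `p`-element in the kernel of the largest abelian `p`-quotient lies in the derived group
    have haG : a ∈ commutator G := by
      let T : Subgroup (Abelianization G) :=
        { carrier := {y | (orderOf y).Coprime p}
          one_mem' := by simp
          mul_mem' := fun {y z} hy hz => Nat.Coprime.coprime_dvd_left
            (Commute.orderOf_mul_dvd_mul_orderOf (Commute.all y z)) (Nat.Coprime.mul_left hy hz)
          inv_mem' := fun {y} hy => by simpa using hy }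
      have hle : Cfsg.pResidual p G ⊔ commutator G ≤ T.comap Abelianization.of := by
        refine sup_le ?_ ?_
        · unfold Cfsg.pResidual
          rw [Subgroup.closure_le]
          intro y hy
          exact Nat.Coprime.coprime_dvd_left (orderOf_map_dvd _ y) hy
        · rw [← Abelianization.ker_of]
          intro y hy
          rw [Subgroup.mem_comap, MonoidHom.mem_ker.mp hy]
          exact one_mem T
      have h1 : Abelianization.of a = 1 := orderOf_eq_one_iff.mp
        (CfsgLib.Transfer.eq_one_of_coprime_of_dvd_pow (hle haA)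
          ((orderOf_map_dvd _ a).trans hk))
      rwa [← MonoidHom.mem_ker, Abelianization.ker_of] at h1
    have haM : a ∈ M := by
      by_contra haM
      obtain ⟨j, -, hj⟩ := (Nat.dvd_prime_pow Fact.out).mp hk
      refine Cfsg.Agent.S1241.result H M (Subgroup.map_subtype_le _) ?_ ?_ hidx a haH haM ⟨j, hj⟩ ?_ haG
      · rw [hM, Subgroup.subgroupOf, Subgroup.comap_map_eq_self_of_injective H.subtype_injective]
        infer_instance
      · intro y hy z hz
        refine ⟨⁅(⟨y, hy⟩ : H), ⟨z, hz⟩⁆, Subgroup.mem_sup_right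
          (Subgroup.commutator_mem_commutator (Subgroup.mem_top _) (Subgroup.mem_top _)), ?_⟩
        simp [commutatorElement_def]
      · intro m c hc
        obtain ⟨i, -, hi⟩ := (Nat.dvd_prime_pow Fact.out).mp ((orderOf_dvd_of_mem_zpowers
          (Subgroup.zpow_mem _ (Subgroup.mem_zpowers a) m)).trans hk)
        obtain ⟨h', hh', hh'e⟩ := hfus (a ^ m) (H.zpow_mem haH m) ⟨i, hi⟩ c hc
        rw [← hh'e]
        refine ⟨⁅(⟨h', hh'⟩ : H), ⟨a ^ m, H.zpow_mem haH m⟩⁆, Subgroup.mem_sup_right
          (Subgroup.commutator_mem_commutator (Subgroup.mem_top _) (Subgroup.mem_top _)), ?_⟩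
        simp [commutatorElement_def]
    rw [hab]
    exact mul_mem haM hbM
  · rw [hM, Subgroup.map_sup, Subgroup.map_subtype_commutator]
    exact sup_le_sup (CfsgLib.Transfer.map_pResidual_le_pResidual H)
      (Subgroup.commutator_mono le_top le_top)

end Cfsg.Agent.S1242
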