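import Cfsg.Statements.S1243

set_option autoImplicit false
open Cfsg

namespace Cfsg.Agent.S1243

/-- Let T be a Sylow p-subgroup of the finite group G and W ≤ T a subgroup weakly closed in T. If d and g d g⁻¹ both centralize W, then g d g⁻¹ = h d h⁻¹ for some h ∈ N_G(W). -/
theorem result {G : Type*} [Group G] [Finite G] {p : ℕ} [Fact p.Prime] (T : Sylow p G) (W : Subgroup G) (hW : Cfsg.IsWeaklyClosed W (T : Subgroup G)) (d g : G) (hd : d ∈ Subgroup.centralizer (W : Set G)) (hgd : g * d * g⁻¹ ∈ Subgroup.centralizer (W : Set G)) : ∃ h ∈ Subgroup.normalizer (W : Set G), h * d * h⁻¹ = g * d * g⁻¹ := by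
  set d' := g * d * g⁻¹ with hd'
  set W' : Subgroup G := W.map (MulAut.conj g).toMonoidHom with hW'
  set C : Subgroup G := Subgroup.centralizer ({d'} : Set G) with hC
  have hWC : W ≤ C := by
    intro w hw
    rw [hC, Subgroup.mem_centralizer_singleton_iff]
    exact Subgroup.mem_centralizer_iff.1 hgd w hw
  have hW'C : W' ≤ C := by
    rintro _ ⟨w, hw, rfl⟩
    rw [hC, Subgroup.mem_centralizer_singleton_iff]
    have h := Subgroup.mem_centralizer_iff.1 hd w hw
    simp only [hd', MulEquiv.coe_toMonoidHom, MulAut.conj_apply]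
    calc g * w * g⁻¹ * (g * d * g⁻¹) = g * (w * d) * g⁻¹ := by group
    _ = g * (d * w) * g⁻¹ := by rw [h]
    _ = g * d * g⁻¹ * (g * w * g⁻¹) := by group
  have hWp : IsPGroup p W := T.2.to_le hW.1
  have hW'p : IsPGroup p W' := hWp.map _
  obtain ⟨P₁, hP₁⟩ := (hWp.comap_of_injective C.subtype Subtype.val_injective).exists_le_sylow
  obtain ⟨P₂, hP₂⟩ := (hW'p.comap_of_injective C.subtype Subtype.val_injective).exists_le_sylow
  obtain ⟨c, hc⟩ := MulAction.exists_smul_eq C P₂ P₁
  obtain ⟨R, hR⟩ := (P₁.2.map C.subtype).exists_le_sylow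
  obtain ⟨y, hy⟩ := MulAction.exists_smul_eq G R T
  have key : ∀ r ∈ (P₁ : Subgroup C), y * (r : G) * y⁻¹ ∈ (T : Subgroup G) := by
    intro r hr
    rw [← hy, Sylow.coe_subgroup_smul, Subgroup.mem_pointwise_smul_iff_inv_smul_mem]
    simpa [MulAut.smul_def, mul_assoc] using hR ⟨r, hr, rfl⟩
  have e1 : W.map (MulAut.conj y).toMonoidHom = W := by
    apply hW.2
    rintro _ ⟨w, hw, rfl⟩
    exact key ⟨w, hWC hw⟩ (hP₁ hw)
  have e2 : W.map (MulAut.conj (y * ((c : G) * g))).toMonoidHom = W := by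
    apply hW.2
    rintro _ ⟨w, hw, rfl⟩
    have hgw : (MulAut.conj g).toMonoidHom w ∈ W' := ⟨w, hw, rfl⟩
    have h := key (c * ⟨_, hW'C hgw⟩ * c⁻¹) ?_
    · simpa [mul_assoc] using h
    · rw [← hc, Sylow.coe_subgroup_smul, Subgroup.mem_pointwise_smul_iff_inv_smul_mem]
      simpa [MulAut.smul_def, mul_assoc] using hP₂ (x := ⟨_, hW'C hgw⟩) hgw
  have hyN : y ∈ Subgroup.normalizer (W : Set G) := by
    rw [Subgroup.mem_normalizer_iff_conj_image_eq]
    have := congrArg (fun K : Subgroup G => (K : Set G)) e1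
    simpa using this
  have hycN : y * ((c : G) * g) ∈ Subgroup.normalizer (W : Set G) := by
    rw [Subgroup.mem_normalizer_iff_conj_image_eq]
    have := congrArg (fun K : Subgroup G => (K : Set G)) e2
    simpa using this
  refine ⟨(c : G) * g, by simpa using Subgroup.mul_mem _ (Subgroup.inv_mem _ hyN) hycN, ?_⟩
  have hcd : (c : G) * d' = d' * c := Subgroup.mem_centralizer_singleton_iff.1 c.2
  calc (c : G) * g * d * ((c : G) * g)⁻¹ = (c : G) * d' * (c : G)⁻¹ := by rw [hd']; group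
  _ = d' := by rw [hcd]; group

end Cfsg.Agent.S1243
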