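import Cfsg.Statements.S1255
import Cfsg.Agent.FusionTwo.DihedralCases

set_option autoImplicit false
open Cfsg

namespace Cfsg.Agent.S1255

/-- Let X be a finite group whose Sylow 2-subgroup S is dihedral of order 2m ≥ 4. Then X has no subgroup of index 2 and no isolated involution if and only if either all involutions of X are conjugate, or for every Klein four-subgroup U ≤ S the index |N_X(U) : C_X(U)| equals 3 when |S| = 4 and equals 6 when |S| > 4. -/
theorem result {X : Type*} [Group X] [Finite X] (S : Sylow 2 X) (m : ℕ) (hm : 2 ≤ m) (eS : (S : Subgroup X) ≃* DihedralGroup m) : ((∀ H : Subgroup X, H.index ≠ 2) ∧ (∀ z : X, ¬ Cfsg.IsIsolatedInvolution z)) ↔ ((∀ a b : X, orderOf a = 2 → orderOf b = 2 → IsConj a b) ∨ (∀ U : Subgroup X, U ≤ S → IsKleinFour U → (Subgroup.centralizer (U : Set X)).relIndex (Subgroup.normalizer (U : Set X)) = (if Nat.card S = 4 then 3 else 6))) := by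
  obtain ⟨n, x, y, -, h⟩ := CfsgLib.FusionTwo.exists_isDihGen S.2 hm eS
  constructor
  · rintro ⟨hG, -⟩
    refine Or.inl fun a b ha hb => ?_
    have hall := CfsgLib.FusionTwo.DihFusion.all_fused_of_no_index_two h hG
    exact (CfsgLib.FusionTwo.DihFusion.isConj_z h hall ha).trans
      (CfsgLib.FusionTwo.DihFusion.isConj_z h hall hb).symm
  · intro hh
    have hall : ∀ i : ℤ, IsConj (x ^ ((2 : ℤ) ^ (n - 1))) (x ^ i * y) := by
      intro i
      rcases hh with hc | hidx
      · exact hc _ _ h.orderOf_z (h.orderOf_refl i)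
      · obtain ⟨U, hUk, hUS, hU⟩ := h.exists_four i
        exact CfsgLib.FusionTwo.DihFusion.fused_of_relIndex h hUk hUS hU (hidx U hUS hUk)
    exact ⟨CfsgLib.FusionTwo.DihFusion.no_index_two h hall,
      CfsgLib.FusionTwo.DihFusion.no_isolated h hall⟩

end Cfsg.Agent.S1255
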