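import Cfsg.Statements.S1256
import Cfsg.Agent.FusionTwo.DihedralCases

set_option autoImplicit false
open Cfsg

namespace Cfsg.Agent.S1256

/-- Let X be a finite group whose Sylow 2-subgroup S is dihedral of order 2m ≥ 4. If |S| = 4, any two Klein four-subgroups of X are conjugate; if |S| > 4, there are Klein four-subgroups U₁, U₂ of X that are not conjugate, and every Klein four-subgroup of X is conjugate to U₁ or to U₂. -/
theorem result {X : Type*} [Group X] [Finite X] (S : Sylow 2 X) (m : ℕ) (hm : 2 ≤ m) (eS : (S : Subgroup X) ≃* DihedralGroup m) : (Nat.card S = 4 → ∀ U V : Subgroup X, IsKleinFour U → IsKleinFour V → (∃ x : X, U.map (MulAut.conj x).toMonoidHom = V)) ∧ (4 < Nat.card S → ∃ U₁ U₂ : Subgroup X, IsKleinFour U₁ ∧ IsKleinFour U₂ ∧ ¬ (∃ x : X, U₁.map (MulAut.conj x).toMonoidHom = U₂) ∧ ∀ V : Subgroup X, IsKleinFour V → (∃ x : X, V.map (MulAut.conj x).toMonoidHom = U₁) ∨ (∃ x : X, V.map (MulAut.conj x).toMonoidHom = U₂)) := by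
  obtain ⟨n, x, y, -, h⟩ := CfsgLib.FusionTwo.exists_isDihGen S.2 hm eS
  have hp : ∀ U : Subgroup X, IsKleinFour U → IsPGroup 2 U := fun U hU =>
    IsPGroup.of_card (n := 2) (by rw [hU.card_four]; norm_num)
  constructor
  · intro h4 U V hU hV
    obtain ⟨g₁, hg₁⟩ := CfsgLib.FusionTwo.exists_conj_mem S (hp U hU)
    obtain ⟨g₂, hg₂⟩ := CfsgLib.FusionTwo.exists_conj_mem S (hp V hV)
    have e : ∀ (W : Subgroup X) (g : X), IsKleinFour W →
        (∀ a ∈ W, g * a * g⁻¹ ∈ (S : Subgroup X)) →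
        W.map (MulAut.conj g).toMonoidHom = (S : Subgroup X) := fun W g hW hg =>
      Subgroup.eq_of_le_of_card_ge (by rintro _ ⟨a, ha, rfl⟩; exact hg a ha)
        (by rw [Subgroup.card_map_of_injective (MulAut.conj g).injective, hW.card_four]; omega)
    refine ⟨g₂⁻¹ * g₁, ?_⟩
    have h1 := e U g₁ hU hg₁
    rw [← e V g₂ hV hg₂] at h1
    have h2 := congrArg (Subgroup.map (MulAut.conj g₂⁻¹).toMonoidHom) h1
    simp only [Subgroup.map_map] at h2
    convert h2 using 1
    · congr 1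
      ext a
      simp [mul_assoc]
    · conv_lhs => rw [← Subgroup.map_id V]
      congr 1
      ext a
      simp [mul_assoc]
  · intro h4
    have hn : 2 ≤ n := by
      by_contra hlt
      have := h.one_le
      obtain rfl : n = 1 := by omega
      rw [(CfsgLib.FusionTwo.DihFusion.card_eq_four_iff h).2 rfl] at h4
      omega
    obtain ⟨U₀, hU₀k, hU₀S, hU₀⟩ := h.exists_four 0
    obtain ⟨U₁, hU₁k, hU₁S, hU₁⟩ := h.exists_four 1
    refine ⟨U₀, U₁, hU₀k, hU₁k,
      CfsgLib.FusionTwo.DihFusion.not_conj_four h hn hU₁k hU₁S hU₀ hU₁, fun V hV => ?_⟩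
    obtain ⟨g, hg⟩ := CfsgLib.FusionTwo.exists_conj_mem S (hp V hV)
    haveI := hV
    have hinj : Function.Injective (MulAut.conj g).toMonoidHom := (MulAut.conj g).injective
    have hV' : IsKleinFour (V.map (MulAut.conj g).toMonoidHom) :=
      { card_four := by rw [Subgroup.card_map_of_injective hinj, hV.card_four]
        exponent_two := by
          rw [← Monoid.exponent_eq_of_mulEquiv (V.equivMapOfInjective _ hinj)]
          exact hV.exponent_two }
    obtain ⟨i, hi⟩ := h.four_cases hV' (by rintro _ ⟨a, ha, rfl⟩; exact hg a ha)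
    have key : ∀ (U : Subgroup X) (p c : ℤ), i + 2 * c = p → IsKleinFour U →
        (∀ a, a ∈ U ↔ a = 1 ∨ a = x ^ ((2 : ℤ) ^ (n - 1)) ∨ a = x ^ p * y ∨
          a = x ^ ((2 : ℤ) ^ (n - 1)) * (x ^ p * y)) →
        V.map (MulAut.conj (x ^ c * g)).toMonoidHom = U := by
      intro U p c hc hU hmem
      haveI := hU
      haveI : Finite U := Nat.finite_of_card_ne_zero (by rw [hU.card_four]; norm_num)
      refine Subgroup.eq_of_le_of_card_ge ?_ (by
        rw [Subgroup.card_map_of_injective (MulAut.conj _).injective, hV.card_four, hU.card_four])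
      rintro _ ⟨a, ha, rfl⟩
      have h1 : g * a * g⁻¹ ∈ V.map (MulAut.conj g).toMonoidHom := ⟨a, ha, rfl⟩
      show x ^ c * g * a * (x ^ c * g)⁻¹ ∈ U
      rw [show x ^ c * g * a * (x ^ c * g)⁻¹ = x ^ c * (g * a * g⁻¹) * (x ^ c)⁻¹ by group, hmem]
      have hzc : x ^ c * x ^ ((2 : ℤ) ^ (n - 1)) * (x ^ c)⁻¹ = x ^ ((2 : ℤ) ^ (n - 1)) := by group
      rcases (hi _).1 h1 with e | e | e | e <;> rw [e]
      · exact Or.inl (by group)
      · exact Or.inr (Or.inl hzc)
      · exact Or.inr (Or.inr (Or.inl (by rw [h.conj_refl, hc])))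
      · exact Or.inr (Or.inr (Or.inr (by rw [← conj_mul, hzc, h.conj_refl, hc])))
    rcases Int.even_or_odd' i with ⟨d, rfl | rfl⟩
    · exact Or.inl ⟨_, key U₀ 0 (-d) (by ring) hU₀k hU₀⟩
    · exact Or.inr ⟨_, key U₁ 1 (-d) (by ring) hU₁k hU₁⟩

end Cfsg.Agent.S1256
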