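import Cfsg.Statements.S1258

set_option autoImplicit false
open Cfsg
open scoped commutatorElement

namespace Cfsg.Agent.S1258

/-- If the central quotient of a finite group X is non-abelian simple, then X = X' Z(X) and the commutator subgroup X' is quasisimple. -/
theorem result {X : Type*} [Group X] [Finite X] (hs : IsSimpleGroup (X ⧸ Subgroup.center X)) (hna : ¬ IsMulCommutative (X ⧸ Subgroup.center X)) : commutator X ⊔ Subgroup.center X = ⊤ ∧ Cfsg.IsQuasisimple ↥(commutator X) := by
  set Z := Subgroup.center X with hZ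
  set D := commutator X with hD
  set π := QuotientGroup.mk' Z with hπ
  have hcomm : commutator (X ⧸ Z) = ⊤ := by
    rcases hs.eq_bot_or_eq_top_of_normal (commutator (X ⧸ Z)) inferInstance with h | h
    · exfalso
      apply hna
      refine ⟨⟨fun a b => ?_⟩⟩
      have h' : ⁅a, b⁆ ∈ commutator (X ⧸ Z) := by
        rw [commutator_def]
        exact Subgroup.commutator_mem_commutator (Subgroup.mem_top a) (Subgroup.mem_top b)
      rw [h, Subgroup.mem_bot, commutatorElement_eq_one_iff_mul_comm] at h'
      exact h'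
    · exact h
  have hmap : D.map π = ⊤ := by
    rw [hD, commutator_def, Subgroup.map_commutator, Subgroup.map_top_of_surjective π (QuotientGroup.mk'_surjective Z), ← commutator_def, hcomm]
  have hsup : D ⊔ Z = ⊤ := by
    have := Subgroup.comap_map_eq π D
    rw [hmap, Subgroup.comap_top, QuotientGroup.ker_mk'] at this
    exact this.symm
  have hmem : ∀ x : X, ∃ y ∈ D, ∃ z ∈ Z, y * z = x := by
    intro x
    haveI : Z.Normal := inferInstance
    exact Subgroup.mem_sup_of_normal_right.1 (hsup ▸ Subgroup.mem_top x)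
  have hperf : ⁅D, D⁆ = D := by
    apply le_antisymm
    · exact Subgroup.commutator_le_self D
    · conv_lhs => rw [hD, commutator_eq_closure]
      rw [Subgroup.closure_le]
      rintro _ ⟨a, b, rfl⟩
      obtain ⟨a', ha', za, hza, rfl⟩ := hmem a
      obtain ⟨b', hb', zb, hzb, rfl⟩ := hmem b
      have ca := Subgroup.mem_center_iff.1 hza
      have cb := Subgroup.mem_center_iff.1 hzb
      have e1 : ∀ y, za * y * za⁻¹ = y := fun y => by rw [← ca y]; group
      have e2 : ∀ y, zb * y * zb⁻¹ = y := fun y => by rw [← cb y]; group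
      have : ⁅a' * za, b' * zb⁆ = ⁅a', b'⁆ := by
        simp only [commutatorElement_def, mul_inv_rev]
        calc a' * za * (b' * zb) * (za⁻¹ * a'⁻¹) * (zb⁻¹ * b'⁻¹)
            = a' * (za * (b' * zb) * za⁻¹) * a'⁻¹ * (zb⁻¹ * b'⁻¹) := by group
          _ = a' * b' * (zb * a'⁻¹ * zb⁻¹) * b'⁻¹ := by rw [e1]; group
          _ = a' * b' * a'⁻¹ * b'⁻¹ := by rw [e2]
      rw [SetLike.mem_coe, this]
      exact Subgroup.commutator_mem_commutator ha' hb'
  refine ⟨hsup, Subgroup.isPerfect_iff.2 hperf, ?_⟩
  set ψ : ↥D →* X ⧸ Z := π.comp D.subtype with hψ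
  have hψs : Function.Surjective ψ := by
    intro q
    obtain ⟨y, hy, hyq⟩ := (hmap ▸ Subgroup.mem_top q : q ∈ D.map π)
    exact ⟨⟨y, hy⟩, hyq⟩
  have hker : ψ.ker = Subgroup.center D := by
    ext d
    rw [hψ, MonoidHom.mem_ker, MonoidHom.comp_apply]
    simp only [hπ, QuotientGroup.mk'_apply, QuotientGroup.eq_one_iff, Subgroup.coe_subtype]
    constructor
    · intro h
      rw [Subgroup.mem_center_iff]
      intro g
      exact Subtype.ext (Subgroup.mem_center_iff.1 h g)
    · intro h
      rw [hZ, Subgroup.mem_center_iff]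
      intro g
      obtain ⟨y, hy, z, hz, rfl⟩ := hmem g
      have hyd : y * (d : X) = (d : X) * y := congrArg Subtype.val (Subgroup.mem_center_iff.1 h ⟨y, hy⟩)
      rw [mul_assoc, ← Subgroup.mem_center_iff.1 hz (d : X), ← mul_assoc, hyd, mul_assoc]
  haveI := hs
  exact ((QuotientGroup.quotientMulEquivOfEq hker.symm).trans (QuotientGroup.quotientKerEquivOfSurjective ψ hψs)).isSimpleGroup

end Cfsg.Agent.S1258
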