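import Cfsg.Statements.S1259

set_option autoImplicit false
open Cfsg
open scoped commutatorElement

namespace Cfsg.Agent.S1259

/-- In a quasisimple group, every subnormal subgroup is either the whole group or central. -/
theorem result {X : Type*} [Group X] [Finite X] (hX : Cfsg.IsQuasisimple X) (H : Subgroup X) (hH : H.IsSubnormal) : H = ⊤ ∨ H ≤ Subgroup.center X := by
  obtain ⟨hperf, hsimp⟩ := hX
  induction hH with
  | top => left; rfl
  | step H K hHK hK hn ih =>
    rcases ih with rfl | hK'
    · have hHn : H.Normal := by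
        refine ⟨fun n hn' g => ?_⟩
        exact hn.conj_mem ⟨n, Subgroup.mem_top n⟩ hn' ⟨g, Subgroup.mem_top g⟩
      rcases hsimp.eq_bot_or_eq_top_of_normal (H.map (QuotientGroup.mk' (Subgroup.center X))) (hHn.map _ (QuotientGroup.mk'_surjective _)) with h | h
      · right
        rwa [Subgroup.map_eq_bot_iff, QuotientGroup.ker_mk'] at h
      · left
        rw [eq_top_iff, ← hperf.commutator_eq_top, commutator_eq_closure, Subgroup.closure_le]
        rintro _ ⟨a, b, rfl⟩
        have hmem : ∀ x : X, ∃ y ∈ H, ∃ z ∈ Subgroup.center X, x = y * z := by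
          intro x
          have : (QuotientGroup.mk' (Subgroup.center X)) x ∈ H.map (QuotientGroup.mk' (Subgroup.center X)) := by
            rw [h]; trivial
          obtain ⟨y, hy, hy'⟩ := this
          exact ⟨y, hy, y⁻¹ * x, QuotientGroup.eq.1 hy', by group⟩
        obtain ⟨a', ha', za, hza, rfl⟩ := hmem a
        obtain ⟨b', hb', zb, hzb, rfl⟩ := hmem b
        have ca := Subgroup.mem_center_iff.1 hza
        have cb := Subgroup.mem_center_iff.1 hzb
        have : ⁅a' * za, b' * zb⁆ = ⁅a', b'⁆ := by
          have e1 : ∀ y, za * y * za⁻¹ = y := fun y => by rw [← ca y]; group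
          have e2 : ∀ y, zb * y * zb⁻¹ = y := fun y => by rw [← cb y]; group
          simp only [commutatorElement_def, mul_inv_rev]
          calc a' * za * (b' * zb) * (za⁻¹ * a'⁻¹) * (zb⁻¹ * b'⁻¹)
              = a' * (za * (b' * zb) * za⁻¹) * a'⁻¹ * (zb⁻¹ * b'⁻¹) := by group
            _ = a' * b' * (zb * a'⁻¹ * zb⁻¹) * b'⁻¹ := by rw [e1]; group
            _ = a' * b' * a'⁻¹ * b'⁻¹ := by rw [e2]
        rw [this]
        exact H.mul_mem (H.mul_mem (H.mul_mem ha' hb') (H.inv_mem ha')) (H.inv_mem hb')
    · exact Or.inr (hHK.trans hK')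

end Cfsg.Agent.S1259
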