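import Cfsg.Statements.S1260

set_option autoImplicit false
open Cfsg

namespace Cfsg.Agent.S1260

/-- Let H be a subnormal subgroup of the finite group G and K a subgroup of H. Then K is a component of H if and only if K, viewed in G, is a component of G. -/
theorem result {G : Type*} [Group G] [Finite G] (H : Subgroup G) (hH : H.IsSubnormal) (K : Subgroup ↥H) : Cfsg.IsComponent K ↔ Cfsg.IsComponent (K.map H.subtype) := by
  have e : ↥K ≃* ↥(K.map H.subtype) := K.equivMapOfInjective H.subtype Subtype.val_injective
  have hq : ∀ {A B : Type _} [Group A] [Group B], (A ≃* B) → Cfsg.IsQuasisimple A → Cfsg.IsQuasisimple B := by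
    intro A B _ _ f hA
    obtain ⟨hp, hs⟩ := hA
    refine ⟨?_, ?_⟩
    · haveI := hp
      exact Group.IsPerfect.ofSurjective (f := f.toMonoidHom) f.surjective
    · have hc : (Subgroup.center A).map f.toMonoidHom = Subgroup.center B := by
        apply le_antisymm
        · rintro _ ⟨x, hx, rfl⟩
          rw [SetLike.mem_coe, Subgroup.mem_center_iff] at hx
          rw [Subgroup.mem_center_iff]
          intro y
          obtain ⟨y', rfl⟩ := f.surjective y
          simp [← map_mul, hx y']
        · intro x hx
          refine ⟨f.symm x, ?_, by simp⟩
          rw [Subgroup.mem_center_iff] at hx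
          rw [SetLike.mem_coe, Subgroup.mem_center_iff]
          intro y
          apply f.injective
          simpa using hx (f y)
      haveI := hs
      exact (QuotientGroup.congr (Subgroup.center A) (Subgroup.center B) f hc).symm.isSimpleGroup
  constructor
  · intro h
    exact ⟨h.1.trans' hH, hq e h.2⟩
  · intro h
    refine ⟨?_, hq e.symm h.2⟩
    have := h.1.subgroupOf (K := H)
    rwa [Subgroup.subgroupOf, Subgroup.comap_map_eq_self_of_injective Subtype.val_injective] at this

end Cfsg.Agent.S1260
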