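import Cfsg.Statements.S1273
import Cfsg.Agent.Cores.PComponents

set_option autoImplicit false
open Cfsg
open CfsgLib.Cores

namespace Cfsg.Agent.S1273

/-- Let K be a p-component of the finite group X and N a normal subgroup of K whose index in K is prime to p. Then N = K. -/
theorem result {X : Type*} [Group X] [Finite X] (p : ℕ) [Fact p.Prime] (K : Subgroup X) (hK : Cfsg.IsPComponent p K) (N : Subgroup ↥K) [N.Normal] (hidx : (N.index).Coprime p) : N = ⊤ := by
  have hsn : (N.map K.subtype).IsSubnormal := (inferInstance : N.Normal).isSubnormal.trans' hK.1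
  have hle : N.map K.subtype ≤ K := Subgroup.map_subtype_le _
  have h1 : pGen p K ≤ N.map K.subtype := by
    refine pGen_le_of_isSubnormal hle hsn.subgroupOf ?_
    rw [Subgroup.relIndex, Subgroup.subgroupOf,
      Subgroup.comap_map_eq_self_of_injective K.subtype_injective]
    exact (Fact.out : p.Prime).coprime_iff_not_dvd.mp hidx.symm
  have h2 : pGen p K = K := by
    refine le_antisymm (pGen_le K) ?_
    have hM := eq_pGen_of_isPComponent hK
    conv_lhs => rw [hM]
    rw [pGen, Subgroup.closure_le]
    rintro x ⟨hx, k, hk⟩
    exact mem_pGen (k := k) (hM.ge (mem_pGen (k := k) hx hk)) hk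
  apply Subgroup.map_injective K.subtype_injective
  rw [map_subtype_top]
  exact le_antisymm hle (h2.ge.trans h1)

end Cfsg.Agent.S1273
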