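import Cfsg.Statements.S1275
import Cfsg.Agent.Cores.PComponents

set_option autoImplicit false
open Cfsg
open CfsgLib.Cores

namespace Cfsg.Agent.S1275

/-- For a 2-component K of a finite group X, the quotient of K by its core O(K) is quasisimple. -/
theorem result {X : Type*} [Group X] [Finite X] (K : Subgroup X) (hK : Cfsg.IsPComponent 2 K) : Cfsg.IsQuasisimple (↥K ⧸ Cfsg.oddCore ↥K) := by
  haveI : Fact (Nat.Prime 2) := ⟨Nat.prime_two⟩
  let f := (QuotientGroup.mk' (pPrimeCore 2 X)).subgroupMap K
  have hf : Function.Surjective f := MonoidHom.subgroupMap_surjective _ K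
  have hker : Cfsg.oddCore ↥K = f.ker := by
    rw [oddCore, pPrimeCore_pComponent_eq hK]
    ext x
    rw [Subgroup.mem_subgroupOf, MonoidHom.mem_ker, ← QuotientGroup.eq_one_iff]
    exact ⟨fun h => Subtype.ext h, fun h => congrArg Subtype.val h⟩
  exact isQuasisimple_congr
    ((QuotientGroup.quotientMulEquivOfEq hker).trans
      (QuotientGroup.quotientKerEquivOfSurjective f hf)).symm hK.2.1.2

end Cfsg.Agent.S1275
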