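import Cfsg.Statements.S1276
import Cfsg.Agent.Cores.PComponents

set_option autoImplicit false
open Cfsg
open CfsgLib.Cores

namespace Cfsg.Agent.S1276

/-- Let K be a 2-component of the finite group X. Then K is quasisimple if and only if ⁅K, O(K)⁆ = 1. -/
theorem result {X : Type*} [Group X] [Finite X] (K : Subgroup X) (hK : Cfsg.IsPComponent 2 K) : Cfsg.IsQuasisimple ↥K ↔ ⁅K, ((Cfsg.oddCore ↥K).map K.subtype)⁆ = ⊥ := by
  haveI : Fact (Nat.Prime 2) := ⟨Nat.prime_two⟩
  haveI : Group.IsPerfect ↥K := Subgroup.isPerfect_iff.mpr (commutator_self_of_isPComponent hK)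
  constructor
  · intro hq
    rcases normal_eq_top_or_le_center hq (Cfsg.oddCore ↥K) inferInstance with h | h
    · exfalso
      refine CfsgLib.Constrained.pPrimeCore_not_dvd (p := 2) (G := ↥K) ?_
      have h2 : Cfsg.pPrimeCore 2 ↥K = ⊤ := h
      rw [h2, Subgroup.card_top]
      exact dvd_card_of_isPComponent hK
    · apply commutator_eq_bot_of_forall_commute
      rintro a ha _ ⟨z, hz, rfl⟩
      exact congrArg Subtype.val (Subgroup.mem_center_iff.mp (h hz) ⟨a, ha⟩)
  · intro h
    refine isQuasisimple_of_central_ker ((QuotientGroup.mk' (pPrimeCore 2 X)).subgroupMap K)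
      (MonoidHom.subgroupMap_surjective _ K) ?_ hK.2.1.2
    intro z hz
    have hzO : (z : X) ∈ pPrimeCore 2 X :=
      (QuotientGroup.eq_one_iff (z : X)).mp (congrArg Subtype.val (MonoidHom.mem_ker.mp hz))
    have hzK : (z : X) ∈ (Cfsg.oddCore ↥K).map K.subtype := by
      rw [oddCore, map_pPrimeCore_pComponent hK]; exact ⟨z.2, hzO⟩
    rw [Subgroup.mem_center_iff]
    intro a
    exact Subtype.ext (commute_of_commutator_eq_bot h a.2 hzK)

end Cfsg.Agent.S1276
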