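import Cfsg.Statements.S1277
import Cfsg.Agent.Cores.PComponents

set_option autoImplicit false
open Cfsg
open CfsgLib.Cores

namespace Cfsg.Agent.S1277

/-- For a finite group X with core O(X): the image of E(X) in X / O(X) is all of E(X / O(X)) if and only if every 2-component of X is a component, i.e. L_{2'}(X) ≤ E(X). -/
theorem result {X : Type*} [Group X] [Finite X] : (Cfsg.layer X).map (QuotientGroup.mk' (Cfsg.oddCore X)) = Cfsg.layer (X ⧸ Cfsg.oddCore X) ↔ Cfsg.pLayer 2 X ≤ Cfsg.layer X := by
  haveI : Fact (Nat.Prime 2) := ⟨Nat.prime_two⟩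
  constructor
  · intro h
    refine sSup_le fun K hK => ?_
    set q := QuotientGroup.mk' (pPrimeCore 2 X)
    have hKb : IsComponent (K.map q) := hK.2.1
    set S : Set (Subgroup (X ⧸ pPrimeCore 2 X)) :=
      {J | IsComponent J ∧ ∃ L : Subgroup X, IsComponent L ∧ J = L.map q}
    have hle : Cfsg.layer (X ⧸ pPrimeCore 2 X) ≤ sSup S := by
      refine le_of_eq_of_le h.symm ?_
      rw [Subgroup.map_le_iff_le_comap]
      refine layer_le fun L hL => ?_
      rw [← Subgroup.map_le_iff_le_comap]
      rcases map_eq_bot_or_isComponent q (QuotientGroup.mk'_surjective (pPrimeCore 2 X)) hL with hb | hc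
      · exact hb.le.trans bot_le
      · exact le_sSup ⟨hc, L, hL, rfl⟩
    obtain ⟨-, L, hL, he⟩ := mem_of_le_sSup hKb (fun J hJ => hJ.1) ((le_layer hKb).trans hle)
    rw [eq_pGen_of_isPComponent hK]
    exact (pGen_corePreimage_le hKb hL.1 he.symm).trans (le_layer hL)
  · intro h
    refine le_antisymm (map_layer_le_layer_of_surjective _ (QuotientGroup.mk'_surjective _)) ?_
    rw [← map_pLayer (p := 2)]
    exact Subgroup.map_mono h

end Cfsg.Agent.S1277
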