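import Cfsg.Statements.S1278
import Cfsg.Agent.Cores.PComponents

set_option autoImplicit false
open Cfsg
open CfsgLib.Cores
open scoped commutatorElement

namespace Cfsg.Agent.S1278

/-- Let K ≠ L be 2-components of the finite group X. Then ⁅K, L⁆ ≤ O(K) ⊓ O(L), and if K is quasisimple then ⁅K, L⁆ = 1. -/
theorem result {X : Type*} [Group X] [Finite X] (K L : Subgroup X) (hK : Cfsg.IsPComponent 2 K) (hL : Cfsg.IsPComponent 2 L) (hne : K ≠ L) : ⁅K, L⁆ ≤ ((Cfsg.oddCore ↥K).map K.subtype) ⊓ ((Cfsg.oddCore ↥L).map L.subtype) ∧ (Cfsg.IsQuasisimple ↥K → ⁅K, L⁆ = ⊥) := by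
  haveI : Fact (Nat.Prime 2) := ⟨Nat.prime_two⟩
  have h := commutator_pComponents_le hK hL hne
  have hle : ⁅K, L⁆ ≤ (Cfsg.oddCore ↥K).map K.subtype ⊓ (Cfsg.oddCore ↥L).map L.subtype := by
    rw [oddCore, oddCore, map_pPrimeCore_pComponent hK, map_pPrimeCore_pComponent hL]
    intro x hx
    obtain ⟨⟨h1, h2⟩, h3⟩ := h hx
    exact ⟨⟨h1, h3⟩, h2, h3⟩
  refine ⟨hle, fun hq => ?_⟩
  haveI := hq.1
  have hcen : ⁅⁅L, K⁆, K⁆ = ⊥ := by
    rw [Subgroup.commutator_comm L K]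
    apply commutator_eq_bot_of_forall_commute
    intro a ha b hb
    obtain ⟨z, hz, rfl⟩ := (hle ha).1
    rcases normal_eq_top_or_le_center hq (Cfsg.oddCore ↥K) inferInstance with h' | h'
    · exfalso
      refine CfsgLib.Constrained.pPrimeCore_not_dvd (p := 2) (G := ↥K) ?_
      have h2 : Cfsg.pPrimeCore 2 ↥K = ⊤ := h'
      rw [h2, Subgroup.card_top]
      exact dvd_card_of_isPComponent hK
    · exact congrArg Subtype.val (Subgroup.mem_center_iff.mp (h' hz) ⟨b, hb⟩).symm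
  rw [Subgroup.commutator_comm]
  exact commutator_eq_bot_of_perfect Subgroup.commutator_eq_self hcen

end Cfsg.Agent.S1278
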