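import Cfsg.Statements.S1284
import Cfsg.Agent.Signalizer.Family
import Cfsg.Agent.Coprime.Sylow

set_option autoImplicit false
open Cfsg

namespace Cfsg.Agent.S1284

/-- Let θ be a solvable A-signalizer functor on the finite group G, A elementary abelian of rank at least 3, q a prime dividing some |θ a|, and Q maximal among the q-subgroups in the family of θ. Then (a) for every member H of the family, some c in the intersection of the θ a (a ∈ A non-identity) makes c Q c⁻¹ ∩ H a Sylow q-subgroup of H; and (b) for every nontrivial subgroup B ≤ A, C_Q(B) is a Sylow q-subgroup of the intersection of the θ b over the non-identity b ∈ B. -/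
theorem result {G : Type*} [Group G] [Finite G] (p : ℕ) [Fact p.Prime] (A : Subgroup G) (hA : Cfsg.IsElementaryAbelian p A) (hA3 : p ^ 3 ≤ Nat.card ↥A) (θ : G → Subgroup G) (hθ : Cfsg.IsSolvableSignalizerFunctor p A θ) (q : ℕ) [Fact q.Prime] (hq : ∃ a ∈ A, a ≠ 1 ∧ q ∣ Nat.card ↥(θ a)) (Q : Subgroup G) (hQW : Q ∈ Cfsg.signalizerFamily p A θ) (hQq : IsPGroup q ↥Q) (hQmax : ∀ R ∈ Cfsg.signalizerFamily p A θ, IsPGroup q ↥R → Q ≤ R → R = Q) : (∀ H : Subgroup G, H ∈ Cfsg.signalizerFamily p A θ → ∃ c ∈ Cfsg.signalizerInf A θ, ∃ S : Sylow q ↥H, (S : Subgroup ↥H).map H.subtype = Q.map (MulAut.conj c).toMonoidHom ⊓ H) ∧ (∀ B : Subgroup G, B ≤ A → B ≠ ⊥ → ∃ S : Sylow q ↥(Cfsg.signalizerInf B θ), (S : Subgroup ↥(Cfsg.signalizerInf B θ)).map (Cfsg.signalizerInf B θ).subtype = Q ⊓ Subgroup.centralizer (B : Set G)) := by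
  obtain ⟨a₀, ha₀, ha₀1, hd⟩ := hq
  have hqp : q ≠ p := fun h => hθ.1.2.1 a₀ ha₀ ha₀1 (h ▸ hd)
  have main : ∀ H : Subgroup G, H ∈ Cfsg.signalizerFamily p A θ → ∃ c ∈ Cfsg.signalizerInf A θ,
      ∃ S : Sylow q ↥H, (S : Subgroup ↥H).map H.subtype = Q.map (MulAut.conj c).toMonoidHom ⊓ H := by
    intro H hH
    obtain ⟨S, hS⟩ := CfsgLib.Coprime.exists_invariant_sylow (p := q)
      (CfsgLib.Signalizer.family_le_normalizer hH) (CfsgLib.Signalizer.family_coprime hA hH.2.1)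
      (Or.inr hH.1)
    obtain ⟨R, hRW, hRq, hle, hRmax⟩ := CfsgLib.Signalizer.exists_max_family (q := q)
      (CfsgLib.Signalizer.mem_family_of_le hH (Subgroup.map_subtype_le _) hS) (S.isPGroup'.map _)
    obtain ⟨c, hc, hceq⟩ := CfsgLib.Signalizer.family_transitivity hA hA3 hθ hqp hQW hQq hQmax
      hRW hRq hRmax
    refine ⟨c, hc, S, le_antisymm (le_inf (hceq ▸ hle) (Subgroup.map_subtype_le _)) ?_⟩
    intro x hx
    have hmax : (Q.map (MulAut.conj c).toMonoidHom).subgroupOf H = (S : Subgroup H) :=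
      S.3 ((hQq.map _).comap_of_injective H.subtype H.subtype_injective) (fun y hy =>
        hceq ▸ hle (Subgroup.mem_map_of_mem _ hy))
    exact ⟨⟨x, hx.2⟩, hmax ▸ (show (⟨x, hx.2⟩ : H) ∈ (Q.map (MulAut.conj c).toMonoidHom).subgroupOf H
      from hx.1), rfl⟩
  refine ⟨main, fun B hBA hB => ?_⟩
  obtain ⟨⟨b, hb⟩, hb1⟩ := Subgroup.ne_bot_iff_exists_ne_one.mp hB
  have hb1' : b ≠ 1 := fun h => hb1 (Subtype.ext h)
  set H := Cfsg.signalizerInf B θ with hH
  obtain ⟨c, hc, S, hS⟩ := main H (CfsgLib.Signalizer.signalizerInf_mem_family hθ hBA hb hb1')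
  have hcH : c ∈ H := CfsgLib.Signalizer.signalizerInf_anti hBA hc
  refine ⟨(⟨c, hcH⟩ : H)⁻¹ • S, ?_⟩
  have hQB : Q ⊓ Subgroup.centralizer (B : Set G) = Q ⊓ H := by
    refine le_antisymm (le_inf inf_le_left fun x hx => CfsgLib.Signalizer.mem_signalizerInf.mpr
      fun a ha ha1 => hQW.2.2.2 a (hBA ha) ha1
        ⟨hx.1, Subgroup.centralizer_le (Set.singleton_subset_iff.mpr ha) hx.2⟩) ?_
    refine inf_le_inf_left _ fun x hx => Subgroup.mem_centralizer_iff.mpr fun a ha => ?_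
    by_cases ha1 : a = 1
    · simp [ha1]
    · exact Subgroup.mem_centralizer_iff.mp
        (hθ.1.1 a (hBA ha) ha1 (CfsgLib.Signalizer.mem_signalizerInf.mp hx a ha ha1)) a rfl
  rw [hQB]
  ext x
  constructor
  · rintro ⟨y, hy, rfl⟩
    rw [SetLike.mem_coe, Sylow.coe_subgroup_smul, Subgroup.mem_pointwise_smul_iff_inv_smul_mem,
      map_inv, inv_inv] at hy
    have hy' := Subgroup.mem_map_of_mem H.subtype hy
    rw [hS] at hy'
    obtain ⟨z, hz, hzy⟩ := (Subgroup.mem_inf.mp hy').1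
    have hzy' : z = (y : G) := (MulAut.conj c).injective hzy
    exact Subgroup.mem_inf.mpr ⟨show (y : G) ∈ Q from hzy' ▸ hz, y.2⟩
  · rintro ⟨hxQ, hxH⟩
    refine ⟨⟨x, hxH⟩, ?_, rfl⟩
    rw [SetLike.mem_coe, Sylow.coe_subgroup_smul, Subgroup.mem_pointwise_smul_iff_inv_smul_mem,
      map_inv, inv_inv]
    have hmem : c * x * c⁻¹ ∈ (S : Subgroup H).map H.subtype := hS ▸ Subgroup.mem_inf.mpr
      ⟨⟨x, hxQ, rfl⟩, mul_mem (mul_mem hcH hxH) (inv_mem hcH)⟩
    obtain ⟨w, hw, hwx⟩ := hmem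
    have : w = MulAut.conj (⟨c, hcH⟩ : H) • (⟨x, hxH⟩ : H) := Subtype.ext hwx
    exact this ▸ hw

end Cfsg.Agent.S1284
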