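import Cfsg.Statements.S1285
import Cfsg.Agent.Signalizer.Family

set_option autoImplicit false
open Cfsg

namespace Cfsg.Agent.S1285

/-- Let θ be a solvable A-signalizer functor on the finite group G with A elementary abelian of rank at least 3, and suppose that for some prime q every θ a (a ∈ A non-identity) is a q-group. Then θ is complete. -/
theorem result {G : Type*} [Group G] [Finite G] (p : ℕ) [Fact p.Prime] (A : Subgroup G) (hA : Cfsg.IsElementaryAbelian p A) (hA3 : p ^ 3 ≤ Nat.card ↥A) (θ : G → Subgroup G) (hθ : Cfsg.IsSolvableSignalizerFunctor p A θ) (q : ℕ) [Fact q.Prime] (hq : ∀ a ∈ A, a ≠ 1 → IsPGroup q ↥(θ a)) : Cfsg.IsCompleteSignalizerFunctor p A θ := by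
  have hp : p.Prime := Fact.out
  by_cases hqp : q = p
  · refine ⟨hθ.1, ⊥, fun b _ x hx => by simp [Subgroup.mem_bot.mp hx],
      by simpa using hp.not_dvd_one, fun a ha ha1 => ?_⟩
    subst hqp
    obtain ⟨n, hn⟩ := IsPGroup.iff_card.mp (hq a ha ha1)
    have h0 : n = 0 := by
      by_contra h
      exact hθ.1.2.1 a ha ha1 (hn ▸ dvd_pow_self q h)
    rw [bot_inf_eq, eq_comm, ← Subgroup.card_eq_one, hn, h0, pow_zero]
  have hp3 : p ≤ Nat.card A := le_trans (Nat.le_self_pow (by norm_num) p) hA3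
  obtain ⟨a₀, ha₀, ha₀1⟩ := CfsgLib.Signalizer.exists_ne_one_of_card (A := A) hp3
  obtain ⟨Q, hQW, hQq, -, hQmax⟩ := CfsgLib.Signalizer.exists_max_family (q := q)
    (CfsgLib.Signalizer.mem_family_of_le_theta hθ ha₀ ha₀1 (le_refl _)
      (CfsgLib.Signalizer.theta_le_normalizer hθ ha₀ ha₀1)) (hq a₀ ha₀ ha₀1)
  refine ⟨hθ.1, Q, hQW.2.2.1, hQW.2.1, fun a ha ha1 => le_antisymm (hQW.2.2.2 a ha ha1)
    (le_inf ?_ (hθ.1.1 a ha ha1))⟩
  obtain ⟨R, hRW, hRq, hle, hRmax⟩ := CfsgLib.Signalizer.exists_max_family (q := q)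
    (CfsgLib.Signalizer.mem_family_of_le_theta hθ ha ha1 (le_refl _)
      (CfsgLib.Signalizer.theta_le_normalizer hθ ha ha1)) (hq a ha ha1)
  obtain ⟨c, hc, rfl⟩ := CfsgLib.Signalizer.family_transitivity hA hA3 hθ hqp hQW hQq hQmax
    hRW hRq hRmax
  intro x hx
  have hca := CfsgLib.Signalizer.mem_signalizerInf.mp hc a ha ha1
  obtain ⟨y, hy, hyx⟩ := hle (mul_mem (mul_mem hca hx) (inv_mem hca))
  have : y = x := (MulAut.conj c).injective hyx
  exact this ▸ hy

end Cfsg.Agent.S1285
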