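import Cfsg.Statements.S1286
import Mathlib.GroupTheory.Perm.Fin
import Mathlib.Data.Fintype.Perm

set_option autoImplicit false
open Cfsg

namespace Cfsg.Agent.S1286

/-- first generator -/
def pa : Equiv.Perm (Fin 5) := Equiv.swap 0 1
/-- second generator -/
def pb : Equiv.Perm (Fin 5) := Equiv.swap 2 3
/-- the 3-cycle fixed by `pa` -/
def px : Equiv.Perm (Fin 5) := Equiv.swap 2 3 * Equiv.swap 3 4
/-- the 3-cycle fixed by `pb` -/
def py : Equiv.Perm (Fin 5) := Equiv.swap 0 1 * Equiv.swap 1 4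

/-- the four-group -/
def fourA : Subgroup (Equiv.Perm (Fin 5)) where
  carrier := {g | g = 1 ∨ g = pa ∨ g = pb ∨ g = pa * pb}
  one_mem' := Or.inl rfl
  mul_mem' := by
    intro a b ha hb
    simp only [Set.mem_setOf_eq] at *
    rcases ha with rfl | rfl | rfl | rfl <;> rcases hb with rfl | rfl | rfl | rfl <;> decide +kernel
  inv_mem' := by
    intro a ha
    simp only [Set.mem_setOf_eq] at *
    rcases ha with rfl | rfl | rfl | rfl <;> decide +kernel

/-- cyclic group of order three -/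
def cyc3 (x : Equiv.Perm (Fin 5)) (h : x * x * x = 1) : Subgroup (Equiv.Perm (Fin 5)) where
  carrier := {g | g = 1 ∨ g = x ∨ g = x * x}
  one_mem' := Or.inl rfl
  mul_mem' := by
    intro a b ha hb
    simp only [Set.mem_setOf_eq] at *
    rcases ha with rfl | rfl | rfl <;> rcases hb with rfl | rfl | rfl <;>
      simp [← mul_assoc, h]
  inv_mem' := by
    intro a ha
    simp only [Set.mem_setOf_eq] at *
    rcases ha with rfl | rfl | rfl
    · simp
    · exact Or.inr (Or.inr (inv_eq_of_mul_eq_one_right (by rw [← mul_assoc, h])))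
    · exact Or.inr (Or.inl (inv_eq_of_mul_eq_one_right h))

theorem mem_fourA {a : Equiv.Perm (Fin 5)} (ha : a ∈ fourA) :
    a = 1 ∨ a = pa ∨ a = pb ∨ a = pa * pb := ha

/-- the signalizer functor -/
def theta (a : Equiv.Perm (Fin 5)) : Subgroup (Equiv.Perm (Fin 5)) :=
  if a = pa then cyc3 px (by decide +kernel) else if a = pb then cyc3 py (by decide +kernel) else ⊥

theorem theta_pa : theta pa = cyc3 px (by decide +kernel) := if_pos rfl

theorem theta_pb : theta pb = cyc3 py (by decide +kernel) := by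
  rw [theta, if_neg (by decide +kernel), if_pos rfl]

theorem theta_pab : theta (pa * pb) = ⊥ := by
  rw [theta, if_neg (by decide +kernel), if_neg (by decide +kernel)]

theorem mem_theta {a z : Equiv.Perm (Fin 5)} (ha : a ∈ fourA) (ha1 : a ≠ 1) (hz : z ∈ theta a) :
    (a = pa ∧ (z = 1 ∨ z = px ∨ z = px * px)) ∨ (a = pb ∧ (z = 1 ∨ z = py ∨ z = py * py)) ∨
      (a = pa * pb ∧ z = 1) := by
  rcases mem_fourA ha with rfl | rfl | rfl | rfl
  · exact absurd rfl ha1
  · rw [theta_pa] at hz; exact Or.inl ⟨rfl, hz⟩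
  · rw [theta_pb] at hz; exact Or.inr (Or.inl ⟨rfl, hz⟩)
  · rw [theta_pab, Subgroup.mem_bot] at hz; exact Or.inr (Or.inr ⟨rfl, hz⟩)

theorem card_cyc3 (x : Equiv.Perm (Fin 5)) (h : x * x * x = 1) : Nat.card ↥(cyc3 x h) ≤ 3 := by
  have h1 : ((cyc3 x h : Subgroup _) : Set (Equiv.Perm (Fin 5))) ⊆ ({1, x, x * x} : Finset _) := by
    intro g hg
    rcases hg with rfl | rfl | rfl <;> simp
  calc Nat.card ↥(cyc3 x h) = ((cyc3 x h : Subgroup _) : Set (Equiv.Perm (Fin 5))).ncard := rfl
    _ ≤ (({1, x, x * x} : Finset _) : Set (Equiv.Perm (Fin 5))).ncard :=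
        Set.ncard_le_ncard h1 (Finset.finite_toSet _)
    _ ≤ 3 := by rw [Set.ncard_coe_finset]; exact Finset.card_le_three

theorem card_theta {a : Equiv.Perm (Fin 5)} (ha : a ∈ fourA) (ha1 : a ≠ 1) :
    ¬ 2 ∣ Nat.card ↥(theta a) := by
  intro hd
  obtain ⟨z, hz⟩ := exists_prime_orderOf_dvd_card' (G := ↥(theta a)) 2 hd
  rw [← Subgroup.orderOf_coe, orderOf_eq_prime_iff] at hz
  rcases mem_theta ha ha1 z.2 with ⟨-, h | h | h⟩ | ⟨-, h | h | h⟩ | ⟨-, h⟩ <;>
    · rw [h] at hz; revert hz; decide +kernel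

/-- There exist a finite group X, an elementary abelian subgroup A of order 4 and a solvable A-signalizer functor θ on X for the prime 2 which is not complete. -/
theorem result : ∃ (X : Type) (_ : Group X) (_ : Finite X) (A : Subgroup X) (θ : X → Subgroup X), Cfsg.IsElementaryAbelian 2 A ∧ Nat.card ↥A = 4 ∧ Cfsg.IsSolvableSignalizerFunctor 2 A θ ∧ ¬ Cfsg.IsCompleteSignalizerFunctor 2 A θ := by
  refine ⟨Equiv.Perm (Fin 5), inferInstance, inferInstance, fourA, theta, ⟨⟨⟨?_⟩⟩, ?_⟩, ?_,
    ⟨⟨?_, fun a ha ha1 => card_theta ha ha1, ?_, ?_⟩, ?_⟩, ?_⟩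
  · rintro ⟨a, ha⟩ ⟨b, hb⟩
    apply Subtype.ext
    show a * b = b * a
    rcases mem_fourA ha with rfl | rfl | rfl | rfl <;> rcases mem_fourA hb with rfl | rfl | rfl | rfl <;>
      decide +kernel
  · intro a ha
    rcases mem_fourA ha with rfl | rfl | rfl | rfl <;> decide +kernel
  · have h1 : ((fourA : Subgroup _) : Set (Equiv.Perm (Fin 5))) = ({1, pa, pb, pa * pb} : Finset _) := by
      ext g
      simp only [SetLike.mem_coe, Finset.coe_insert, Finset.coe_singleton, Set.mem_insert_iff,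
        Set.mem_singleton_iff]
      exact Iff.rfl
    calc Nat.card ↥fourA = ((fourA : Subgroup _) : Set (Equiv.Perm (Fin 5))).ncard := rfl
      _ = 4 := by rw [h1, Set.ncard_coe_finset]; decide +kernel
  · intro a ha ha1 z hz
    rw [Subgroup.mem_centralizer_singleton_iff]
    rcases mem_theta ha ha1 hz with ⟨rfl, rfl | rfl | rfl⟩ | ⟨rfl, rfl | rfl | rfl⟩ | ⟨rfl, rfl⟩ <;>
      decide +kernel
  · intro a ha ha1 b hb z hz
    rcases mem_theta ha ha1 hz with ⟨rfl, hz'⟩ | ⟨rfl, hz'⟩ | ⟨rfl, rfl⟩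
    · rw [theta_pa]
      rcases hz' with rfl | rfl | rfl <;> rcases mem_fourA hb with rfl | rfl | rfl | rfl <;>
        · show _ ∨ _ ∨ _
          decide +kernel
    · rw [theta_pb]
      rcases hz' with rfl | rfl | rfl <;> rcases mem_fourA hb with rfl | rfl | rfl | rfl <;>
        · show _ ∨ _ ∨ _
          decide +kernel
    · simp
  · intro a ha ha1 b hb hb1 z hz
    obtain ⟨hz1, hz2⟩ := Subgroup.mem_inf.mp hz
    have hc := Subgroup.mem_centralizer_singleton_iff.mp hz2
    rcases mem_theta ha ha1 hz1 with ⟨rfl, hz'⟩ | ⟨rfl, hz'⟩ | ⟨rfl, rfl⟩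
    · by_cases hba : b = pa
      · rw [hba]; exact hz1
      · have : z = 1 := by
          rcases mem_fourA hb with rfl | rfl | rfl | rfl
          · exact absurd rfl hb1
          · exact absurd rfl hba
          all_goals rcases hz' with rfl | rfl | rfl <;> first | rfl | (revert hc; decide +kernel)
        rw [this]; exact one_mem _
    · by_cases hba : b = pb
      · rw [hba]; exact hz1
      · have : z = 1 := by
          rcases mem_fourA hb with rfl | rfl | rfl | rfl
          · exact absurd rfl hb1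
          rotate_left
          · exact absurd rfl hba
          all_goals rcases hz' with rfl | rfl | rfl <;> first | rfl | (revert hc; decide +kernel)
        rw [this]; exact one_mem _
    · exact one_mem _
  · intro a ha ha1
    refine Group.isSolvable_of_comm fun u v => Subtype.ext ?_
    show (u : Equiv.Perm (Fin 5)) * v = v * u
    rcases mem_theta ha ha1 u.2 with ⟨rfl, hu | hu | hu⟩ | ⟨rfl, hu | hu | hu⟩ | ⟨rfl, hu⟩ <;>
      rcases mem_theta ha ha1 v.2 with ⟨h, hv | hv | hv⟩ | ⟨h, hv | hv | hv⟩ | ⟨h, hv⟩ <;>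
      first
        | (rw [hu, hv] <;> decide +kernel)
        | exact absurd h (by decide +kernel)
  · rintro ⟨-, Z, -, hZ2, hZ⟩
    have hx : px ∈ Z := by
      have h : px ∈ theta pa := by rw [theta_pa]; exact Or.inr (Or.inl rfl)
      rw [← hZ pa (Or.inr (Or.inl rfl)) (by decide +kernel)] at h
      exact h.1
    have hy : py ∈ Z := by
      have h : py ∈ theta pb := by rw [theta_pb]; exact Or.inr (Or.inl rfl)
      rw [← hZ pb (Or.inr (Or.inr (Or.inl rfl))) (by decide +kernel)] at h
      exact h.1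
    have hw : px * px * py * px * py ∈ Z :=
      mul_mem (mul_mem (mul_mem (mul_mem hx hx) hy) hx) hy
    apply hZ2
    have h2 : orderOf (⟨_, hw⟩ : ↥Z) = 2 := by
      rw [← Subgroup.orderOf_coe, orderOf_eq_prime_iff]
      show (px * px * py * px * py) ^ 2 = 1 ∧ px * px * py * px * py ≠ 1
      decide +kernel
    exact h2 ▸ orderOf_dvd_natCard _

end Cfsg.Agent.S1286
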