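import Cfsg.Statements.S1288
import Cfsg.Agent.Coprime.Generation
import Cfsg.Agent.Coprime.Minimal
import Cfsg.Agent.Constrained.Fitting
-- import your own Cfsg.Agent.* helpers here

set_option autoImplicit false
open Cfsg

namespace Cfsg.Agent.S1288

open CfsgLib CfsgLib.Coprime
open scoped commutatorElement

theorem relIndex_hyperplane {H : Type*} [Group H] [Finite H] {p : ℕ} [Fact p.Prime] {A B : Subgroup H}
    (hA : Cfsg.IsElementaryAbelian p A) (hBA : B ≤ A) {a : H} (ha : a ∈ A) (haB : a ∉ B)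
    (hsup : B ⊔ Subgroup.zpowers a = A) : B.relIndex A = p := by
  letI : CommGroup A := { (inferInstance : Group A) with mul_comm := hA.1.is_comm.comm }
  set a' : A := ⟨a, ha⟩
  have hord : orderOf a' = p := orderOf_eq_prime (Subtype.ext (by simpa [a'] using hA.2 a ha))
    fun h => haB (by rw [show a = 1 from congrArg Subtype.val h]; exact B.one_mem)
  have htop : Subgroup.zpowers a' ⊔ B.subgroupOf A = ⊤ := by
    apply Subgroup.map_injective A.subtype_injective
    rw [Subgroup.map_sup, MonoidHom.map_zpowers, Subgroup.subgroupOf_map_subtype, inf_eq_left.mpr hBA,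
      ← MonoidHom.range_eq_map, Subgroup.range_subtype, sup_comm]
    exact hsup
  show (B.subgroupOf A).index = p
  rw [← Subgroup.relIndex_top_right, ← htop, Subgroup.relIndex_sup_right]
  show ((B.subgroupOf A).subgroupOf (Subgroup.zpowers a')).index = p
  have hdvd : ((B.subgroupOf A).subgroupOf (Subgroup.zpowers a')).index ∣ p := by
    refine (Subgroup.index_dvd_card _).trans ?_
    rw [Nat.card_zpowers, hord]
  refine ((Nat.dvd_prime Fact.out).mp hdvd).resolve_left fun h1 => haB ?_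
  have := Subgroup.subgroupOf_eq_top.mp (Subgroup.index_eq_one.mp h1) (Subgroup.mem_zpowers a')
  exact this

theorem exists_hyperplane_sup {H : Type*} [Group H] [Finite H] {p : ℕ} [Fact p.Prime] {A : Subgroup H}
    (hA : Cfsg.IsElementaryAbelian p A) (hA1 : A ≠ ⊥) : ∃ B, B ≤ A ∧ B.relIndex A = p := by
  haveI : Nontrivial A := (Subgroup.nontrivial_iff_ne_bot A).mpr hA1
  obtain ⟨M, hM, -⟩ := (eq_top_or_exists_le_coatom (⊥ : Subgroup A)).resolve_left bot_ne_top
  obtain ⟨a, -, ha⟩ := SetLike.exists_of_lt (lt_top_iff_ne_top.mpr hM.1)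
  refine ⟨M.map A.subtype, Subgroup.map_subtype_le _, relIndex_hyperplane hA (Subgroup.map_subtype_le _)
    a.2 (fun h => ?_) ?_⟩
  · obtain ⟨b, hb, hba⟩ := h
    exact ha (Subtype.ext hba ▸ hb)
  · have := hM.2 (M ⊔ Subgroup.zpowers a) (lt_of_le_of_ne le_sup_left fun h =>
      ha (h ▸ Subgroup.mem_sup_right (Subgroup.mem_zpowers a)))
    have h2 := congrArg (Subgroup.map A.subtype) this
    rw [Subgroup.map_sup, MonoidHom.map_zpowers, ← MonoidHom.range_eq_map, Subgroup.range_subtype] at h2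
    exact h2

/-- Let A be a noncyclic elementary abelian p-subgroup of a finite group H normalizing a solvable subgroup K of order prime to p, q a prime dividing |K|, and U ≤ K a subgroup of order prime to q such that ⁅U, C_K(B)⁆ has order prime to q for every subgroup B of index p in A. Then U ≤ O_{q'}(K). -/
theorem result {H : Type*} [Group H] [Finite H] (p : ℕ) [Fact p.Prime] (A K : Subgroup H) (hA : Cfsg.IsElementaryAbelian p A) (hA2 : p ^ 2 ≤ Nat.card ↥A) (hK : ¬ p ∣ Nat.card ↥K) (hKs : Group.IsSolvable ↥K) (hAK : A ≤ Subgroup.normalizer (K : Set H)) (q : ℕ) [Fact q.Prime] (hqK : q ∣ Nat.card ↥K) (U : Subgroup H) (hU : U ≤ K) (hUq : ¬ q ∣ Nat.card ↥U) (hcomm : ∀ B : Subgroup H, B ≤ A → B.relIndex A = p → ¬ q ∣ Nat.card ↥⁅U, K ⊓ Subgroup.centralizer (B : Set H)⁆) : U ≤ (Cfsg.pPrimeCore q ↥K).map K.subtype := by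
  
  classical
  have hp : p.Prime := Fact.out
  haveI := hKs
  set π := QuotientGroup.mk' (Cfsg.pPrimeCore q ↥K) with hπ
  set M₀ := (Cfsg.pCore q (↥K ⧸ Cfsg.pPrimeCore q ↥K)).comap π with hM₀
  haveI : M₀.Normal := Subgroup.Normal.comap inferInstance _
  haveI : M₀.Characteristic := by
    refine Subgroup.characteristic_iff_map_eq.mpr fun e => ?_
    exact CfsgLib.Constrained.map_pPrimePCore_map e q
  set U₀ := U.subgroupOf K with hU₀
  set C₀ := (Subgroup.centralizer ((U₀.map π : Subgroup _) : Set (↥K ⧸ Cfsg.pPrimeCore q ↥K))).comap π with hC₀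
  set M := M₀.map K.subtype with hM
  have hMK : M ≤ K := Subgroup.map_subtype_le _
  have hAM : A ≤ Subgroup.normalizer (M : Set H) := le_normalizer_map_characteristic hAK M₀
  obtain ⟨n, hn⟩ := IsPGroup.iff_card.mp
    (show IsPGroup p A from fun a => ⟨1, Subtype.ext (by simpa using hA.2 a.1 a.2)⟩)
  have hcop : (Nat.card A).Coprime (Nat.card M) := by
    rw [hn]
    exact Nat.Coprime.pow_left n (hp.coprime_iff_not_dvd.mpr
      fun h => hK (h.trans (Subgroup.card_dvd_of_le hMK)))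
  have hA1 : A ≠ ⊥ := fun h => by
    rw [h, Subgroup.card_bot] at hA2
    exact absurd hA2 (not_le.mpr (Nat.one_lt_pow two_ne_zero hp.one_lt))
  have key : ∀ B : Subgroup H, B ≤ A → B.relIndex A = p →
      M ⊓ Subgroup.centralizer (B : Set H) ≤ C₀.map K.subtype := by
    intro B hBA hBp m hm
    obtain ⟨⟨m₀, hm₀, rfl⟩, hmB⟩ := Subgroup.mem_inf.mp hm
    refine ⟨m₀, Subgroup.mem_centralizer_iff.mpr ?_, rfl⟩
    rintro _ ⟨u, hu, rfl⟩
    -- `⁅u, m⁆` lies in `O_{q',q}(K)` and has order prime to `q`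
    have hc : ((⁅u, m₀⁆ : K) : H) ∈ ⁅U, K ⊓ Subgroup.centralizer (B : Set H)⁆ :=
      Subgroup.commutator_mem_commutator hu (Subgroup.mem_inf.mpr ⟨m₀.2, hmB⟩)
    have h1 : (orderOf ⁅u, m₀⁆).Coprime q := by
      rw [← Subgroup.orderOf_coe, Nat.coprime_comm]
      exact (Fact.out : q.Prime).coprime_iff_not_dvd.mpr fun h =>
        hcomm B hBA hBp (h.trans (Subgroup.orderOf_dvd_natCard _ hc))
    have h2 : ⁅u, m₀⁆ ∈ M₀ := by
      rw [commutatorElement_def]
      exact mul_mem ((inferInstance : M₀.Normal).conj_mem m₀ hm₀ u) (inv_mem hm₀)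
    have h3 : π ⁅u, m₀⁆ = 1 := by
      obtain ⟨k, hk⟩ := IsPGroup.iff_orderOf.mp CfsgLib.Constrained.isPGroup_pCore
        (⟨π ⁅u, m₀⁆, h2⟩ : Cfsg.pCore q (↥K ⧸ Cfsg.pPrimeCore q ↥K))
      rw [← Subgroup.orderOf_coe] at hk
      refine orderOf_eq_one_iff.mp (Nat.eq_one_of_dvd_coprimes (h1.pow_right k)
        (orderOf_map_dvd π _) (dvd_of_eq hk))
    rw [map_commutatorElement, commutatorElement_eq_one_iff_mul_comm] at h3
    exact h3
  obtain ⟨B₁, hB₁A, hB₁p⟩ := exists_hyperplane_sup hA hA1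
  have hMC : M ≤ C₀.map K.subtype := by
    refine le_of_cocyclic hA.1 hAM hcop fun B hBA ⟨a, ha, hsup⟩ => ?_
    by_cases haB : a ∈ B
    · have hAB : A ≤ B := hsup ▸ sup_le le_rfl (Subgroup.zpowers_le_of_mem haB)
      exact le_trans (inf_le_inf_left _ (Subgroup.centralizer_le (hB₁A.trans hAB))) (key B₁ hB₁A hB₁p)
    · exact key B hBA (relIndex_hyperplane hA hBA ha haB hsup)
  have hUF : U₀.map π ≤ Cfsg.pCore q (↥K ⧸ Cfsg.pPrimeCore q ↥K) := by
    rw [← CfsgLib.Constrained.fitting_eq_pCore CfsgLib.Constrained.pPrimeCore_quotient_pPrimeCore]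
    refine le_trans ?_ CfsgLib.Constrained.centralizer_fitting_le
    rw [CfsgLib.Constrained.fitting_eq_pCore CfsgLib.Constrained.pPrimeCore_quotient_pPrimeCore,
      Subgroup.le_centralizer_iff]
    intro y hy
    obtain ⟨x, rfl⟩ := QuotientGroup.mk'_surjective (Cfsg.pPrimeCore q ↥K) y
    obtain ⟨x', hx', he⟩ := hMC (Subgroup.mem_map_of_mem K.subtype (show x ∈ M₀ from hy))
    obtain rfl := Subtype.ext he
    exact hx'
  intro u hu
  refine ⟨⟨u, hU hu⟩, ?_, rfl⟩
  rw [SetLike.mem_coe, ← QuotientGroup.eq_one_iff]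
  show π ⟨u, hU hu⟩ = 1
  have h1 : π ⟨u, hU hu⟩ ∈ Cfsg.pCore q (↥K ⧸ Cfsg.pPrimeCore q ↥K) := hUF ⟨_, hu, rfl⟩
  obtain ⟨k, hk⟩ := IsPGroup.iff_orderOf.mp CfsgLib.Constrained.isPGroup_pCore
    (⟨_, h1⟩ : Cfsg.pCore q (↥K ⧸ Cfsg.pPrimeCore q ↥K))
  rw [← Subgroup.orderOf_coe] at hk
  have hcop' : (Nat.card U).Coprime (q ^ k) := (Nat.Coprime.symm
    ((Fact.out : q.Prime).coprime_iff_not_dvd.mpr hUq)).pow_right k
  refine orderOf_eq_one_iff.mp (Nat.eq_one_of_dvd_coprimes hcop' ?_ (dvd_of_eq hk))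
  refine (orderOf_map_dvd π _).trans ?_
  rw [← Subgroup.orderOf_coe]
  exact Subgroup.orderOf_dvd_natCard _ hu

end Cfsg.Agent.S1288
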