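import Cfsg.Statements.S1289
import Cfsg.Agent.Cores.PComponents

set_option autoImplicit false
open Cfsg
open CfsgLib.Cores
open scoped commutatorElement

namespace Cfsg.Agent.S1289

/-- A p-component K of the finite group X is subnormal, perfect, of order divisible by p, and minimal among the subnormal perfect subgroups of X of order divisible by p. -/
theorem result {X : Type*} [Group X] [Finite X] (p : ℕ) [Fact p.Prime] (K : Subgroup X) (hK : Cfsg.IsPComponent p K) : K.IsSubnormal ∧ ⁅K, K⁆ = K ∧ p ∣ Nat.card ↥K ∧ ∀ H : Subgroup X, H ≤ K → H.IsSubnormal → ⁅H, H⁆ = H → p ∣ Nat.card ↥H → H = K := by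
  refine ⟨hK.1, commutator_self_of_isPComponent hK, dvd_card_of_isPComponent hK, ?_⟩
  intro H hHK hH hperf hp
  refine hK.2.2 H hH hHK ?_
  set q := QuotientGroup.mk' (pPrimeCore p X)
  rcases eq_or_le_center_of_le_component hK.2.1.2 (Subgroup.map_mono (f := q) hHK)
    ((hH.map (QuotientGroup.mk'_surjective _)).subgroupOf) with h | h
  · exact h
  · exfalso
    have hbot : H.map q = ⊥ := by
      rw [← hperf, Subgroup.map_commutator]
      apply commutator_eq_bot_of_forall_commute
      intro a ha b hb
      obtain ⟨a', ha', rfl⟩ := h ha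
      exact congrArg Subtype.val (Subgroup.mem_center_iff.mp ha' ⟨b, Subgroup.map_mono hHK hb⟩).symm
    rw [Subgroup.map_eq_bot_iff, QuotientGroup.ker_mk'] at hbot
    exact CfsgLib.Constrained.pPrimeCore_not_dvd (hp.trans (Subgroup.card_dvd_of_le hbot))

end Cfsg.Agent.S1289
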