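import Cfsg.Statements.S1300

set_option autoImplicit false
open Cfsg

namespace Cfsg.Agent.S1300


/-- For a finite group G, balance in the sense of commuting involutions is the same as 1-balance for the prime 2. -/
theorem result {G : Type*} [Group G] [Finite G] : Cfsg.IsBalanced G ↔ Cfsg.IsKBalanced 2 1 G := by
  constructor
  · intro h A hA hc b hb hcomm z hz
    obtain ⟨a, ha, ha1⟩ := (Subgroup.one_lt_card_iff_ne_bot A).mp (by omega) |> (Subgroup.bot_or_exists_ne_one A).resolve_left
    have ha2 : orderOf a = 2 := orderOf_eq_prime (hA.2 a ha) ha1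
    obtain ⟨hz1, hz2⟩ := Subgroup.mem_inf.mp hz
    have hza : z ∈ Cfsg.centralizerPPrimeCore 2 a :=
      (Subgroup.mem_iInf.mp hz1) ⟨a, ha, ha1⟩
    have hz3 : z ∈ Cfsg.centralizerPPrimeCore 2 a ⊓ Subgroup.centralizer {b} := ⟨hza, hz2⟩
    rw [h a b ha2 hb (hcomm a ha)] at hz3
    exact hz3.1
  · intro h
    have key : ∀ x y : G, orderOf x = 2 → orderOf y = 2 → x * y = y * x →
        Cfsg.centralizerPPrimeCore 2 x ⊓ Subgroup.centralizer {y} ≤
          Cfsg.centralizerPPrimeCore 2 y ⊓ Subgroup.centralizer {x} := by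
      intro x y hx hy hxy z hz
      have hzc : z ∈ Subgroup.centralizer ({x} : Set G) := Subgroup.map_subtype_le _ hz.1
      refine ⟨h (Subgroup.zpowers x) ⟨inferInstance, ?_⟩ ?_ y hy ?_ ⟨?_, hz.2⟩, hzc⟩
      · intro a ha
        obtain ⟨k, rfl⟩ := Subgroup.mem_zpowers_iff.mp ha
        show (x ^ k) ^ 2 = 1
        rw [← zpow_natCast, ← zpow_mul, mul_comm, zpow_mul, zpow_natCast, ← hx, pow_orderOf_eq_one, one_zpow]
      · rw [Nat.card_zpowers, hx]; rfl
      · intro a ha
        obtain ⟨k, rfl⟩ := Subgroup.mem_zpowers_iff.mp ha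
        exact (Commute.zpow_left hxy k)
      · refine Subgroup.mem_iInf.mpr ?_
        rintro ⟨a, ha, ha1⟩
        have : a = x := by
          obtain ⟨k, rfl⟩ := Subgroup.mem_zpowers_iff.mp ha
          have hx2 : x ^ (2 : ℤ) = 1 := by
            rw [show (2 : ℤ) = ((2 : ℕ) : ℤ) from rfl, zpow_natCast, ← hx, pow_orderOf_eq_one]
          rcases Int.emod_two_eq_zero_or_one k with hk | hk
          · exfalso; apply ha1
            rw [← Int.mul_ediv_add_emod k 2, hk, add_zero, zpow_mul, hx2, one_zpow]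
          · rw [← Int.mul_ediv_add_emod k 2, hk, zpow_add, zpow_mul, hx2, one_zpow, one_mul, zpow_one]
        subst this
        exact hz.1
    intro x y hx hy hxy
    exact le_antisymm (key x y hx hy hxy) (key y x hy hx hxy.symm)

end Cfsg.Agent.S1300
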