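import Cfsg.Statements.S1297
import Cfsg.Agent.Cores.LocalBalance
import Cfsg.Agent.S1300

set_option autoImplicit false
open Cfsg

namespace Cfsg.Agent.S1297

/-- Let G be finite. Suppose that for every involution x, writing C = C_G(x), every component K of C / O(C) has K / Z(K) locally balanced. Then G is balanced. -/
theorem result {G : Type*} [Group G] [Finite G] (h : ∀ x : G, orderOf x = 2 → ∀ K : Subgroup (↥(Subgroup.centralizer ({x} : Set G)) ⧸ Cfsg.oddCore ↥(Subgroup.centralizer ({x} : Set G))), Cfsg.IsComponent K → Cfsg.IsLocallyBalanced (↥K ⧸ Subgroup.center ↥K)) : Cfsg.IsBalanced G := by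
  refine Cfsg.Agent.S1300.result.mpr (CfsgLib.Cores.isKBalanced_of_components le_rfl ?_)
  exact fun x hx K hK => CfsgLib.Cores.isLocallyKBalanced_one_of_isLocallyBalanced (h x hx K hK)

end Cfsg.Agent.S1297
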