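import Cfsg.Statements.S1299
import Cfsg.Agent.Signalizer.KBalanced

set_option autoImplicit false
open Cfsg

namespace Cfsg.Agent.S1299

/-- Let G be finite and k-balanced for the prime p (k ≥ 1), A an elementary abelian p-subgroup of order at least p^(k+2) such that O_{p'}(C_G(a)) is solvable for every non-identity a ∈ A. For a ∈ A put θ a = the subgroup generated by the Δ_G(D) ∩ C_G(a) over the subgroups D ≤ A of order p^k. Then θ is an A-signalizer functor. -/
theorem result {G : Type*} [Group G] [Finite G] (p k : ℕ) [Fact p.Prime] (hk : 1 ≤ k) (hbal : Cfsg.IsKBalanced p k G) (A : Subgroup G) (hA : Cfsg.IsElementaryAbelian p A) (hAk : p ^ (k + 2) ≤ Nat.card ↥A) (hsolv : ∀ a ∈ A, a ≠ 1 → Group.IsSolvable ↥(Cfsg.centralizerPPrimeCore p a)) : Cfsg.IsSignalizerFunctor p A (fun a => ⨆ D : {D : Subgroup G // D ≤ A ∧ Nat.card ↥D = p ^ k}, Cfsg.signalizerDelta p (D : Subgroup G) ⊓ Subgroup.centralizer {a}) := by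
  have hp : p.Prime := Fact.out
  have hA' := CfsgLib.LocalP.isElementaryAbelian_iff.mp hA
  have hAp := CfsgLib.LocalP.isPGroup_of_isElementaryAbelian hA
  have hex : ∀ B : Subgroup G, B ≤ A → p ^ k ≤ Nat.card B → ∃ E ≤ B, Nat.card E = p ^ k := by
    intro B hB hBc
    obtain ⟨j, hj⟩ := IsPGroup.iff_card.mp (hAp.to_le hB)
    have hd : p ^ k ∣ Nat.card ↥B :=
      hj ▸ pow_dvd_pow p ((Nat.pow_le_pow_iff_right hp.one_lt).mp (hj ▸ hBc))
    obtain ⟨E, hE⟩ := Sylow.exists_subgroup_card_pow_prime (G := ↥B) p hd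
    exact ⟨E.map B.subtype, Subgroup.map_subtype_le _,
      by rw [Subgroup.card_map_of_injective B.subtype_injective, hE]⟩
  have D : CfsgLib.KBalanced.Data p k A := by
    refine ⟨hk, hA, hAk, fun B hB hBc b hb hb1 => ?_⟩
    obtain ⟨E, hEB, hEc⟩ := hex B hB hBc
    refine le_trans (inf_le_inf_right _ (CfsgLib.KBalanced.delta_anti hEB)) ?_
    exact hbal E (CfsgLib.LocalP.isElementaryAbelian_mono hA (hEB.trans hB)) hEc b
      (orderOf_eq_prime (hA'.2 b hb) hb1) fun e he => hA'.1 e (hB (hEB he)) b hb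
  set θ : G → Subgroup G := fun a => ⨆ D : {D : Subgroup G // D ≤ A ∧ Nat.card ↥D = p ^ k},
    Cfsg.signalizerDelta p (D : Subgroup G) ⊓ Subgroup.centralizer {a} with hθ
  have hθK : ∀ a ∈ A, a ≠ 1 → θ a ≤ Cfsg.centralizerPPrimeCore p a := fun a ha ha1 =>
    iSup_le fun E => D.bal E E.2.1 E.2.2.ge a ha ha1
  have hθp : ∀ a ∈ A, a ≠ 1 → ¬ p ∣ Nat.card ↥(θ a) := by
    intro a ha ha1 h
    have h1 := h.trans (Subgroup.card_dvd_of_le (hθK a ha ha1))
    rw [Cfsg.centralizerPPrimeCore, Subgroup.card_map_of_injective (Subgroup.subtype_injective _)] at h1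
    exact CfsgLib.Constrained.pPrimeCore_not_dvd h1
  have hθA : ∀ a ∈ A, A ≤ Subgroup.normalizer (θ a : Set G) := by
    intro a ha
    refine CfsgLib.Hyperplane.le_normalizer_of_conj_mem fun b hb x hx => ?_
    have hle : θ a ≤ (θ a).comap (MulAut.conj b).toMonoidHom := by
      refine iSup_le fun E z hz => le_iSup (fun D : {D : Subgroup G // D ≤ A ∧ Nat.card ↥D = p ^ k} =>
        Cfsg.signalizerDelta p (D : Subgroup G) ⊓ Subgroup.centralizer {a}) E ?_
      obtain ⟨hz1, hz2⟩ := Subgroup.mem_inf.mp hz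
      refine Subgroup.mem_inf.mpr ⟨CfsgLib.KBalanced.conj_delta (fun e he => hA'.1 b hb e (E.2.1 he)) hz1,
        Subgroup.mem_centralizer_singleton_iff.mpr ?_⟩
      have h1 : Commute b a := hA'.1 b hb a ha
      have h2 : Commute z a := Subgroup.mem_centralizer_singleton_iff.mp hz2
      exact ((h1.mul_left h2).mul_left h1.inv_left).eq
    exact hle hx
  refine ⟨fun a _ _ => iSup_le fun E => inf_le_right, hθp,
    fun a ha _ b hb x hx => CfsgLib.Hyperplane.conj_mem (hθA a ha) hb hx, fun a ha ha1 b hb hb1 => ?_⟩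
  have hgen : θ a ≤ ⨆ H : CfsgLib.KBalanced.Hyp p A a, θ a ⊓ CfsgLib.KBalanced.piece p (H : Subgroup G) := by
    refine iSup_le fun E => ?_
    set Z := Cfsg.signalizerDelta p (E : Subgroup G) ⊓ Subgroup.centralizer ({a} : Set G)
    have hZθ : Z ≤ θ a := le_iSup (fun D : {D : Subgroup G // D ≤ A ∧ Nat.card ↥D = p ^ k} =>
      Cfsg.signalizerDelta p (D : Subgroup G) ⊓ Subgroup.centralizer {a}) E
    have hZn : A ≤ Subgroup.normalizer (Z : Set G) := by
      refine CfsgLib.Hyperplane.le_normalizer_of_conj_mem fun c hc z hz => ?_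
      obtain ⟨hz1, hz2⟩ := Subgroup.mem_inf.mp hz
      refine Subgroup.mem_inf.mpr ⟨CfsgLib.KBalanced.conj_delta (fun e he => hA'.1 c hc e (E.2.1 he)) hz1,
        Subgroup.mem_centralizer_singleton_iff.mpr ?_⟩
      have h1 : Commute c a := hA'.1 c hc a ha
      have h2 : Commute z a := Subgroup.mem_centralizer_singleton_iff.mp hz2
      exact ((h1.mul_left h2).mul_left h1.inv_left).eq
    refine (CfsgLib.Hyperplane.le_iSup_centralizer hA
      (fun h => hθp a ha ha1 (h.trans (Subgroup.card_dvd_of_le hZθ))) hZn).trans (iSup_le fun H z hz => ?_)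
    obtain ⟨hzZ, hzH⟩ := Subgroup.mem_inf.mp hz
    obtain ⟨hz1, hz2⟩ := Subgroup.mem_inf.mp hzZ
    have hsup := D.hyp_sup H.2.1 H.2.2 (Subgroup.zpowers_le.mpr ha) (Subgroup.mem_zpowers a)
    have hzc : z ∈ Subgroup.centralizer (((H : Subgroup G) ⊔ Subgroup.zpowers a : Subgroup G) : Set G) := by
      have hle : (H : Subgroup G) ⊔ Subgroup.zpowers a ≤ Subgroup.centralizer ({z} : Set G) :=
        sup_le (fun y hy => Subgroup.mem_centralizer_singleton_iff.mpr (Subgroup.mem_centralizer_iff.mp hzH y hy))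
          (Subgroup.zpowers_le.mpr (Subgroup.mem_centralizer_singleton_iff.mpr
            (Subgroup.mem_centralizer_singleton_iff.mp hz2).symm))
      exact Subgroup.mem_centralizer_iff.mpr fun y hy =>
        Subgroup.mem_centralizer_singleton_iff.mp (hle hy)
    exact le_iSup (fun H : CfsgLib.KBalanced.Hyp p A a => θ a ⊓ CfsgLib.KBalanced.piece p (H : Subgroup G))
      ⟨_, hsup⟩ (Subgroup.mem_inf.mpr ⟨hZθ hzZ, D.mem_piece E.2.1 E.2.2.ge hsup.1 hz1 hzc⟩)
  have hsol : Group.IsSolvable ↥(θ a) := by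
    haveI := hsolv a ha ha1
    exact CfsgLib.Coprime.isSolvable_of_le (hθK a ha ha1) inferInstance
  have hmain := D.inf_centralizer_le _ (θ a) le_rfl hsol (hθp a ha ha1) (hθA a ha) hgen
  have hXn : A ≤ Subgroup.normalizer ((θ a ⊓ Subgroup.centralizer ({b} : Set G) : Subgroup G) : Set G) := by
    refine CfsgLib.Hyperplane.le_normalizer_of_conj_mem fun c hc z hz => ?_
    obtain ⟨hz1, hz2⟩ := Subgroup.mem_inf.mp hz
    refine Subgroup.mem_inf.mpr ⟨CfsgLib.Hyperplane.conj_mem (hθA a ha) hc hz1,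
      Subgroup.mem_centralizer_singleton_iff.mpr ?_⟩
    have h1 : Commute c b := hA'.1 c hc b hb
    have h2 : Commute z b := Subgroup.mem_centralizer_singleton_iff.mp hz2
    exact ((h1.mul_left h2).mul_left h1.inv_left).eq
  refine (CfsgLib.Hyperplane.le_iSup_centralizer hA
    (fun h => hθp a ha ha1 (h.trans (Subgroup.card_dvd_of_le inf_le_left))) hXn).trans
    (iSup_le fun H x hx => ?_)
  obtain ⟨hxX, hxH⟩ := Subgroup.mem_inf.mp hx
  obtain ⟨hxθ, hxb⟩ := Subgroup.mem_inf.mp hxX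
  set B := Subgroup.zpowers a ⊔ Subgroup.zpowers b
  have hsup := D.hyp_sup (a := a) H.2.1 H.2.2
    (sup_le (Subgroup.zpowers_le.mpr ha) (Subgroup.zpowers_le.mpr hb) : B ≤ A)
    (Subgroup.mem_sup_left (Subgroup.mem_zpowers a))
  have hxa : x * a = a * x := by
    have h : θ a ≤ Subgroup.centralizer ({a} : Set G) := iSup_le fun E => inf_le_right
    exact Subgroup.mem_centralizer_singleton_iff.mp (h hxθ)
  have hxc : x ∈ Subgroup.centralizer (((H : Subgroup G) ⊔ B : Subgroup G) : Set G) := by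
    have hle : (H : Subgroup G) ⊔ B ≤ Subgroup.centralizer ({x} : Set G) :=
      sup_le (fun y hy => Subgroup.mem_centralizer_singleton_iff.mpr (Subgroup.mem_centralizer_iff.mp hxH y hy))
        (sup_le (Subgroup.zpowers_le.mpr (Subgroup.mem_centralizer_singleton_iff.mpr hxa.symm))
          (Subgroup.zpowers_le.mpr (Subgroup.mem_centralizer_singleton_iff.mpr
            (Subgroup.mem_centralizer_singleton_iff.mp hxb).symm)))
    exact Subgroup.mem_centralizer_iff.mpr fun y hy =>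
      Subgroup.mem_centralizer_singleton_iff.mp (hle hy)
  have hpiece := hmain ⟨_, hsup⟩ (Subgroup.mem_inf.mpr ⟨hxθ, hxc⟩)
  obtain ⟨E, hE, hEc⟩ := hex _ hsup.1 (D.card_hyp (a := a) ⟨_, hsup⟩)
  exact le_iSup (fun D : {D : Subgroup G // D ≤ A ∧ Nat.card ↥D = p ^ k} =>
    Cfsg.signalizerDelta p (D : Subgroup G) ⊓ Subgroup.centralizer {b}) ⟨E, hE.trans hsup.1, hEc⟩
    (Subgroup.mem_inf.mpr ⟨CfsgLib.KBalanced.delta_anti hE (Subgroup.mem_inf.mp hpiece).1, hxb⟩)

end Cfsg.Agent.S1299
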