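import Cfsg.Statements.S1303
import Mathlib.LinearAlgebra.Matrix.Notation
import Mathlib.Data.Fintype.Basic

set_option autoImplicit false
open Cfsg

namespace Cfsg.Agent.S1303

/-- the group -/
abbrev SL23 : Type := Matrix.SpecialLinearGroup (Fin 2) (ZMod 3)

/-- a transvection -/
def uu : SL23 := ⟨!![1, 1; 0, 1], by decide +kernel⟩

/-- the quaternion subgroup -/
def q8 : Subgroup SL23 where
  carrier := {g | g ^ 4 = 1}
  one_mem' := one_pow _
  mul_mem' := by
    intro a b ha hb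
    simp only [Set.mem_setOf_eq] at *
    revert hb ha; revert a b; decide +kernel
  inv_mem' := by
    intro a ha
    simp only [Set.mem_setOf_eq] at *
    rw [inv_pow, ha, inv_one]

instance decMemQ8 : DecidablePred (· ∈ q8) := fun g => inferInstanceAs (Decidable (g ^ 4 = 1))

theorem q8_two : IsPGroup 2 ↥q8 := fun g => ⟨2, Subtype.ext g.2⟩

theorem cube_one : ∀ g : SL23, g ^ 3 = 1 → g ≠ 1 → ∃ h : SL23, (g * (h * g * h⁻¹)) ^ 3 ≠ 1 := by
  decide +kernel

theorem card_SL23 : Fintype.card SL23 = 24 := by decide +kernel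

theorem le_sylow {K : Type} [Group K] [Finite K] {N : Subgroup K} [N.Normal] (hN : IsPGroup 2 ↥N)
    (P : Sylow 2 K) : N ≤ (P : Subgroup K) := by
  haveI : Fact (Nat.Prime 2) := ⟨Nat.prime_two⟩
  obtain ⟨Q, hQ⟩ := hN.exists_le_sylow
  obtain ⟨g, rfl⟩ := MulAction.exists_smul_eq K Q P
  intro n hn
  exact ⟨g⁻¹ * n * g, hQ (by simpa using (inferInstance : N.Normal).conj_mem n hn g⁻¹), by simp [mul_assoc]⟩

theorem core_bot : Cfsg.pPrimeCore 2 SL23 = ⊥ := by
  rw [eq_bot_iff]
  apply sSup_le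
  rintro N ⟨hN, hcop⟩
  intro g hg
  rw [Subgroup.mem_bot]
  by_contra hg1
  have hd : Nat.card N ∣ 24 := by
    rw [← card_SL23, ← Nat.card_eq_fintype_card]; exact Subgroup.card_subgroup_dvd_card N
  have h3 : Nat.card N ∣ 3 := by
    have : Nat.card N ∣ 2 ^ 3 * 3 := hd
    exact (hcop.pow_right 3).dvd_of_dvd_mul_left this
  have key : ∀ z ∈ N, z ^ 3 = 1 := by
    intro z hz
    obtain ⟨k, hk⟩ := h3
    have hp : (⟨z, hz⟩ : ↥N) ^ Nat.card N = 1 := pow_card_eq_one'
    have hp' : z ^ Nat.card N = 1 := by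
      simpa [-pow_card_eq_one'] using congrArg Subtype.val hp
    calc z ^ 3 = z ^ (Nat.card N * k) := congrArg (fun n : ℕ => z ^ n) hk
      _ = 1 := by rw [pow_mul, hp', one_pow]
  obtain ⟨h, hh⟩ := cube_one g (key g hg) hg1
  exact hh (key _ (mul_mem hg (hN.conj_mem g hg h)))


/-- The group X = SL(2, 3): it is 2-constrained, O_{2'}(X) = 1, its centre A = Z(X) contains every involution of X = C_X(A), and X has a subgroup of order 3 (normalized by A) not contained in O_{2'}(X). -/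
theorem result : Cfsg.IsPConstrained 2 (Matrix.SpecialLinearGroup (Fin 2) (ZMod 3)) ∧ Cfsg.pPrimeCore 2 (Matrix.SpecialLinearGroup (Fin 2) (ZMod 3)) = ⊥ ∧ (∀ t : Matrix.SpecialLinearGroup (Fin 2) (ZMod 3), orderOf t = 2 → t ∈ Subgroup.center (Matrix.SpecialLinearGroup (Fin 2) (ZMod 3))) ∧ ∃ Q : Subgroup (Matrix.SpecialLinearGroup (Fin 2) (ZMod 3)), Nat.card ↥Q = 3 ∧ ¬ (Q ≤ Cfsg.pPrimeCore 2 (Matrix.SpecialLinearGroup (Fin 2) (ZMod 3))) := by
  refine ⟨?_, core_bot, ?_, ⟨Subgroup.zpowers uu, ?_, ?_⟩⟩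
  · intro P g hg
    have hQK : q8 ≤ Cfsg.pPrimePCore 2 SL23 := by
      intro z hz
      refine Subgroup.mem_comap.mpr ?_
      haveI : q8.Normal := ⟨fun n hn h => by revert hn; revert n h; decide +kernel⟩
      have h2 : q8.map (QuotientGroup.mk' (Cfsg.pPrimeCore 2 SL23)) ≤
          Cfsg.pCore 2 (SL23 ⧸ Cfsg.pPrimeCore 2 SL23) :=
        le_sSup ⟨Subgroup.Normal.map inferInstance _ (QuotientGroup.mk'_surjective _), q8_two.map _⟩
      exact h2 ⟨z, hz, rfl⟩
    haveI : (q8.subgroupOf (Cfsg.pPrimePCore 2 SL23)).Normal := by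
      haveI : q8.Normal := ⟨fun n hn h => by revert hn; revert n h; decide +kernel⟩
      infer_instance
    have hQP : q8.subgroupOf (Cfsg.pPrimePCore 2 SL23) ≤ (P : Subgroup _) :=
      le_sylow (N := q8.subgroupOf (Cfsg.pPrimePCore 2 SL23))
        (q8_two.comap_of_injective (Cfsg.pPrimePCore 2 SL23).subtype Subtype.val_injective) P
    apply hQK
    have hcomm : ∀ z ∈ q8, z * g = g * z := fun z hz =>
      Subgroup.mem_centralizer_iff.mp hg z ⟨⟨z, hQK hz⟩, hQP hz, rfl⟩
    clear hg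
    revert hcomm; revert g; decide +kernel
  · intro t ht
    have h2 := orderOf_eq_prime_iff.mp ht
    rw [Subgroup.mem_center_iff]
    clear ht
    revert h2; revert t; decide +kernel
  · rw [Nat.card_zpowers, orderOf_eq_prime_iff]; decide +kernel
  · intro h
    rw [core_bot] at h
    have h1 := h (Subgroup.mem_zpowers uu)
    rw [Subgroup.mem_bot] at h1
    revert h1; decide +kernel

end Cfsg.Agent.S1303
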