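import Cfsg.Statements.S1306
import Cfsg.Agent.Cores.Components
import Mathlib.Tactic.Group

set_option autoImplicit false
open Cfsg
open CfsgLib.Cores
open scoped commutatorElement

namespace Cfsg.Agent.S1306

/-- Let G be finite, x an involution and L ≤ C_G(x) a component of C_G(x). Suppose L is a component of C_G(y) for every involution y ∈ C_G(L), and ⁅L, g L g⁻¹⁆ ≠ 1 whenever g L g⁻¹ ≠ L. Then L is a standard subgroup of G. -/
theorem result {G : Type*} [Group G] [Finite G] (x : G) (hx : orderOf x = 2) (L : Subgroup G) (hLx : L ≤ Subgroup.centralizer ({x} : Set G)) (hL : Cfsg.IsComponent (L.subgroupOf (Subgroup.centralizer ({x} : Set G)))) (hne : ∀ y : G, orderOf y = 2 → y ∈ Subgroup.centralizer (L : Set G) → L ≤ Subgroup.centralizer ({y} : Set G) ∧ Cfsg.IsComponent (L.subgroupOf (Subgroup.centralizer ({y} : Set G)))) (hnc : ∀ g : G, L.map (MulAut.conj g).toMonoidHom ≠ L → ⁅L, L.map (MulAut.conj g).toMonoidHom⁆ ≠ ⊥) : Cfsg.IsStandardSubgroup L := by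
  have hL0 : IsQuasisimple ↥L :=
    isQuasisimple_congr (Subgroup.subgroupOfEquivOfLe hLx) hL.2
  have hyC : ∀ y : G, y ∈ Subgroup.centralizer (L : Set G) → ∀ g : G,
      g * y * g⁻¹ ∈ Subgroup.centralizer ((L.map (MulAut.conj g).toMonoidHom : Subgroup G) : Set G) := by
    intro y hy g
    rw [Subgroup.mem_centralizer_iff]
    rintro _ ⟨l, hl, rfl⟩
    have h2 := Subgroup.mem_centralizer_iff.mp hy l hl
    simp only [MulEquiv.coe_toMonoidHom, MulAut.conj_apply]
    calc g * l * g⁻¹ * (g * y * g⁻¹) = g * (l * y) * g⁻¹ := by group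
      _ = g * (y * l) * g⁻¹ := by rw [h2]
      _ = g * y * g⁻¹ * (g * l * g⁻¹) := by group
  -- conjugates of `L` which are components of one centraliser coincide
  have main : ∀ (g y : G), orderOf y = 2 → y ∈ Subgroup.centralizer (L : Set G) →
      g * y * g⁻¹ ∈ Subgroup.centralizer (L : Set G) → L.map (MulAut.conj g).toMonoidHom = L := by
    intro g y hy hyL hgy
    by_contra hne'
    apply hnc g hne'
    have hy' : orderOf (g * y * g⁻¹) = 2 := by
      rw [← hy]; exact orderOf_injective (MulAut.conj g).toMonoidHom (MulAut.conj g).injective y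
    obtain ⟨h1, h2⟩ := hne _ hy' hgy
    set D := Subgroup.centralizer ({g * y * g⁻¹} : Set G)
    set C := Subgroup.centralizer ({y} : Set G)
    obtain ⟨h3, h4⟩ := hne y hy hyL
    have hCD : C.map (MulAut.conj g : G →* G) = D := by
      ext z
      rw [Subgroup.mem_map]
      constructor
      · rintro ⟨c, hc, rfl⟩
        rw [Subgroup.mem_centralizer_singleton_iff] at hc ⊢
        show g * c * g⁻¹ * (g * y * g⁻¹) = g * y * g⁻¹ * (g * c * g⁻¹)
        calc g * c * g⁻¹ * (g * y * g⁻¹) = g * (c * y) * g⁻¹ := by group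
          _ = g * (y * c) * g⁻¹ := by rw [hc]
          _ = g * y * g⁻¹ * (g * c * g⁻¹) := by group
      · intro h
        rw [Subgroup.mem_centralizer_singleton_iff] at h
        refine ⟨g⁻¹ * z * g, ?_, by simp [mul_assoc]⟩
        rw [Subgroup.mem_centralizer_singleton_iff]
        calc g⁻¹ * z * g * y = g⁻¹ * (z * (g * y * g⁻¹)) * g := by group
          _ = g⁻¹ * (g * y * g⁻¹ * z) * g := by rw [h]
          _ = y * (g⁻¹ * z * g) := by group
    have hgL : L.map (MulAut.conj g).toMonoidHom ≤ D := fun z hz => hCD.le (Subgroup.map_mono h3 hz)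
    have hc : IsComponent ((L.map (MulAut.conj g).toMonoidHom).subgroupOf D) := by
      let e : ↥C ≃* ↥D :=
        ((MulAut.conj g).subgroupMap C).trans (MulEquiv.subgroupCongr hCD)
      have h5 := isComponent_map_equiv e h4
      convert h5 using 1
      ext z
      rw [Subgroup.mem_subgroupOf, Subgroup.mem_map]
      constructor
      · rintro ⟨l, hl, hlz⟩
        exact ⟨⟨l, h3 hl⟩, hl, Subtype.ext hlz⟩
      · rintro ⟨l, hl, rfl⟩
        exact ⟨(l : G), hl, rfl⟩
    have h6 := commutator_eq_bot_of_ne h2 hc fun he => by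
      apply hne'
      have h7 := congrArg (Subgroup.map D.subtype) he
      rw [Subgroup.map_subgroupOf_eq_of_le h1, Subgroup.map_subgroupOf_eq_of_le hgL] at h7
      exact h7.symm
    apply commutator_eq_bot_of_forall_commute
    intro a ha b hb
    exact congrArg Subtype.val (commute_of_commutator_eq_bot h6
      (show (⟨a, h1 ha⟩ : ↥D) ∈ L.subgroupOf D from ha)
      (show (⟨b, hgL hb⟩ : ↥D) ∈ (L.map (MulAut.conj g).toMonoidHom).subgroupOf D from hb))
  have hxL : x ∈ Subgroup.centralizer (L : Set G) := by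
    rw [Subgroup.mem_centralizer_iff]
    intro l hl
    exact Subgroup.mem_centralizer_singleton_iff.mp (hLx hl)
  have hnormle : Subgroup.normalizer (L : Set G) ≤
      Subgroup.normalizer (Subgroup.centralizer (L : Set G) : Set G) := by
    intro g hg
    have hg' := Subgroup.mem_normalizer_iff_map_conj_eq.mp hg
    have hgi := Subgroup.mem_normalizer_iff_map_conj_eq.mp (inv_mem hg)
    rw [Subgroup.mem_normalizer_iff]
    intro y
    constructor
    · intro hy
      have h8 := hyC y hy g
      rw [show L.map (MulAut.conj g).toMonoidHom = L from hg'] at h8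
      exact h8
    · intro hy
      have h8 := hyC _ hy g⁻¹
      rw [show L.map (MulAut.conj g⁻¹).toMonoidHom = L from hgi] at h8
      convert h8 using 1
      group
  refine ⟨hL0, ⟨?_, ?_⟩, hnc, ?_⟩
  · rw [even_iff_two_dvd, ← hx, ← Subgroup.orderOf_mk (x : G) hxL]
    exact orderOf_dvd_natCard _
  · intro g hg
    rw [← Nat.not_even_iff_odd, even_iff_two_dvd]
    intro hd
    haveI : Fact (Nat.Prime 2) := ⟨Nat.prime_two⟩
    obtain ⟨y, hy⟩ := exists_prime_orderOf_dvd_card' 2 hd
    rw [← Subgroup.orderOf_coe] at hy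
    obtain ⟨hy1, c, hc1, hc2⟩ := Subgroup.mem_inf.mp y.2
    apply hg
    apply hnormle
    rw [Subgroup.mem_normalizer_iff_map_conj_eq]
    simp only [MulEquiv.coe_toMonoidHom, MulAut.conj_apply] at hc2
    refine main g c ?_ hc1 (hc2 ▸ hy1)
    rw [← hy, ← hc2]
    exact (orderOf_injective (MulAut.conj g).toMonoidHom (MulAut.conj g).injective c).symm
  · refine le_antisymm hnormle fun g hg => ?_
    rw [Subgroup.mem_normalizer_iff_map_conj_eq]
    exact main g x hx hxL ((Subgroup.mem_normalizer_iff.mp hg x).mp hxL)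

end Cfsg.Agent.S1306
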