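import Cfsg.Statements.S1307
import Cfsg.Agent.ZStar.Corollaries
import Cfsg.Agent.S1259
import Cfsg.Agent.Eq.Def_Balance
-- import your own Cfsg.Agent.* helpers here

set_option autoImplicit false
open Cfsg

namespace Cfsg.Agent.S1307

/-- Let G be finite, x an involution and L ≤ C_G(x) a component of C_G(x) of even order and 2-rank 1, such that L is a component of C_G(y) for every involution y ∈ C_G(L). Then some involution of L is a classical involution of G. -/
theorem result {G : Type*} [Group G] [Finite G] (x : G) (hx : orderOf x = 2) (L : Subgroup G) (hLx : L ≤ Subgroup.centralizer ({x} : Set G)) (hL : Cfsg.IsComponent (L.subgroupOf (Subgroup.centralizer ({x} : Set G)))) (heven : Even (Nat.card ↥L)) (hrk : Cfsg.PRankLE 2 1 ↥L) (hne : ∀ y : G, orderOf y = 2 → y ∈ Subgroup.centralizer (L : Set G) → L ≤ Subgroup.centralizer ({y} : Set G) ∧ Cfsg.IsComponent (L.subgroupOf (Subgroup.centralizer ({y} : Set G)))) : ∃ t ∈ L, Cfsg.IsClassicalInvolution t := by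
  classical
  obtain ⟨hLsub, hq⟩ := hL
  set C := Subgroup.centralizer ({x} : Set G)
  let e : L.subgroupOf C ≃* L := Subgroup.subgroupOfEquivOfLe hLx
  haveI hperf : Group.IsPerfect L := by
    haveI := hq.1
    exact Group.IsPerfect.ofSurjective (f := e.toMonoidHom) e.surjective
  obtain ⟨S⟩ : Nonempty (Sylow 2 L) := inferInstance
  -- at most one involution in the Sylow subgroup
  have hrank : ∀ E : Subgroup L, ¬ IsKleinFour E := by
    intro E hE
    have h := hrk E
      ⟨⟨fun a b => mul_comm_of_exponent_two hE.exponent_two a b⟩⟩ (fun a ha => by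
        have := hE.exponent_two
        have h2 := Monoid.pow_exponent_eq_one (⟨a, ha⟩ : E)
        rw [this] at h2
        exact congrArg Subtype.val h2)
    rw [hE.card_four] at h
    norm_num at h
  obtain ⟨t, ht, htz⟩ := CfsgLib.ZStar.exists_inZStar_of_no_klein heven hrank
  -- the odd core is central
  have hO : Cfsg.pPrimeCore 2 L ≤ Subgroup.center L := by
    have hsub : ((Cfsg.pPrimeCore 2 L).comap e.toMonoidHom).IsSubnormal :=
      (Subgroup.Normal.comap inferInstance _).isSubnormal
    rcases Cfsg.Agent.S1259.result hq _ hsub with h | h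
    · exfalso
      have htop : Cfsg.pPrimeCore 2 L = ⊤ := by
        rw [← Subgroup.map_comap_eq_self_of_surjective (f := e.toMonoidHom) e.surjective
          (Cfsg.pPrimeCore 2 L), h, Subgroup.map_top_of_surjective _ e.surjective]
      have := CfsgLib.Constrained.pPrimeCore_not_dvd (p := 2) (G := L)
      rw [htop, Subgroup.card_top] at this
      exact this (even_iff_two_dvd.mp heven)
    · intro a ha
      have h1 : e.symm a ∈ Subgroup.center (L.subgroupOf C) := h (by simpa using ha)
      rw [Subgroup.mem_center_iff] at h1 ⊢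
      intro g
      exact e.symm.injective (by rw [map_mul, map_mul]; exact h1 (e.symm g))
  -- a perfect group centralizes an element with central commutators
  have hcen : ∀ g : L, g * t * g⁻¹ = t := by
    have hz : ∀ g : L, g * t * g⁻¹ * t⁻¹ ∈ Subgroup.center L := fun g => hO (htz g)
    let f : L →* Subgroup.center L :=
      { toFun := fun g => ⟨g * t * g⁻¹ * t⁻¹, hz g⟩
        map_one' := Subtype.ext (by simp)
        map_mul' := fun a b => Subtype.ext (by
          show a * b * t * (a * b)⁻¹ * t⁻¹ = a * t * a⁻¹ * t⁻¹ * (b * t * b⁻¹ * t⁻¹)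
          have h1 := Subgroup.mem_center_iff.mp (hz b)
          calc a * b * t * (a * b)⁻¹ * t⁻¹
              = a * (b * t * b⁻¹ * t⁻¹) * (t * a⁻¹ * t⁻¹) := by group
            _ = a * ((t * a⁻¹ * t⁻¹) * (b * t * b⁻¹ * t⁻¹)) := by rw [mul_assoc, h1]
            _ = a * t * a⁻¹ * t⁻¹ * (b * t * b⁻¹ * t⁻¹) := by group) }
    intro g
    letI : CommGroup (Subgroup.center L) :=
      { (inferInstance : Group (Subgroup.center L)) with
        mul_comm := fun a b => Subtype.ext (Subgroup.mem_center_iff.mp b.2 a) }
    have hle : commutator L ≤ f.ker := Abelianization.commutator_subset_ker f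
    have hg : g ∈ f.ker := hle (hperf.commutator_eq_top ▸ Subgroup.mem_top g)
    exact mul_inv_eq_one.mp (congrArg Subtype.val (MonoidHom.mem_ker.mp hg))
  have htG : orderOf (t : G) = 2 := by rw [Subgroup.orderOf_coe]; exact ht
  have htC : (t : G) ∈ Subgroup.centralizer (L : Set G) :=
    Subgroup.mem_centralizer_iff.mpr fun g hg =>
      congrArg Subtype.val (mul_inv_eq_iff_eq_mul.mp (hcen ⟨g, hg⟩))
  obtain ⟨hLt, hcomp⟩ := hne (t : G) htG htC
  refine ⟨(t : G), t.2, htG, L, hLt, t.2, hcomp.1, S, ?_⟩
  have huniq : CfsgLib.TwoGroup.AtMostOneInvolution (S : Subgroup L) := by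
    intro a b ha hb
    have key : ∀ a : (S : Subgroup L), orderOf a = 2 → (a : L) = t := by
      intro a ha
      by_contra hne'
      refine hrank _ (Cfsg.Agent.S0502.klein (x := (a : L)) (y := t) ?_ ?_ ?_ ?_ ?_ hne')
      · exact orderOf_dvd_iff_pow_eq_one.mp (by rw [Subgroup.orderOf_coe, ha])
      · exact orderOf_dvd_iff_pow_eq_one.mp (by rw [ht])
      · exact mul_inv_eq_iff_eq_mul.mp (hcen a)
      · intro h; rw [OneMemClass.coe_eq_one] at h; rw [h, orderOf_one] at ha; omega
      · intro h; rw [h, orderOf_one] at ht; omega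
    exact Subtype.ext ((key a ha).trans (key b hb).symm)
  rcases CfsgLib.TwoGroup.cyclic_or_quaternion S.2 huniq with hc | ⟨k, hk, ⟨φ⟩⟩
  · exfalso
    have h2 : 2 ∣ Nat.card L := even_iff_two_dvd.mp heven
    obtain ⟨K, hK, hKS⟩ := CfsgLib.Transfer.exists_isComplement'
      (CfsgLib.Transfer.hasNormalPComplement_of_isCyclic_minFac
        ((Nat.minFac_eq_two_iff _).mpr h2) S hc) S
    haveI := hK
    letI := IsCyclic.commGroup (α := (S : Subgroup L))
    let f : L →* (S : Subgroup L) := hKS.symm.QuotientMulEquiv.toMonoidHom.comp (QuotientGroup.mk' K)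
    have hKtop : K = ⊤ := by
      rw [eq_top_iff]
      intro g _
      have hg : g ∈ f.ker :=
        Abelianization.commutator_subset_ker f (hperf.commutator_eq_top ▸ Subgroup.mem_top g)
      refine (QuotientGroup.eq_one_iff g).mp (hKS.symm.QuotientMulEquiv.injective ?_)
      rw [map_one]
      exact MonoidHom.mem_ker.mp hg
    have hSbot : (S : Subgroup L) = ⊥ := Subgroup.isComplement'_top_left.mp (hKtop ▸ hKS)
    have := S.not_dvd_index
    rw [hSbot, Subgroup.index_bot] at this
    exact this h2
  · exact ⟨k - 1, ⟨φ.trans (by rw [Nat.sub_add_cancel hk])⟩⟩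

end Cfsg.Agent.S1307
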