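import Cfsg.Statements.S2602
import Cfsg.Agent.AutPSL.Outer

set_option autoImplicit false
open Cfsg

namespace Cfsg.Agent.S2602

/-- Structure of the outer automorphism group of PSL_2(q), q = p^f ≥ 4: it has a normal cyclic subgroup of order gcd(2, q − 1) (diagonal automorphisms) with cyclic quotient of order f (field automorphisms); there is no graph automorphism in dimension 2. -/
theorem result {F : Type*} [Field F] [Fintype F] {p f : ℕ} [Fact p.Prime] (hf : 1 ≤ f) (hF : Fintype.card F = p ^ f) (h4 : 4 ≤ p ^ f) : ∃ φ : Cfsg.Out (Matrix.ProjectiveSpecialLinearGroup (Fin 2) F) →* Multiplicative (ZMod f), Function.Surjective φ ∧ IsCyclic φ.ker ∧ Nat.card φ.ker = Nat.gcd 2 (p ^ f - 1) := by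
  obtain ⟨eF⟩ := CfsgLib.AutPSL.autField_equiv hf hF
  obtain ⟨ψ, hs, hk⟩ := CfsgLib.AutPSL.exists_hom_of_complement (n := 2) (F := F) le_rfl
    CfsgLib.AutPSL.fieldHom eF CfsgLib.AutPSL.exists_decomposition_two
    (fun x hx => CfsgLib.AutPSL.fieldHom_mem_diag le_rfl x hx)
  obtain ⟨φ, h1, h2, h3⟩ := CfsgLib.AutPSL.exists_outHom le_rfl ψ hs hk
  exact ⟨φ, h1, h2, by rw [h3, hF]⟩

end Cfsg.Agent.S2602
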