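import Cfsg.Statements.S1315
import Cfsg.Agent.SLTwoPair6.Final
import Cfsg.Agent.SLTwoPair6.Types

set_option autoImplicit false
open Cfsg CfsgLib CfsgLib.SLTwoPair

namespace Cfsg.Agent.S1315

/-- Let G be finite and J ≠ K subgroups, each containing exactly one involution, z(J) resp. z(K), each a 2-component of the centralizer of its involution, with J / O(J) and K / O(K) both isomorphic to SL(2, F) for one finite field F of odd order, or both non-split double covers of A7. Then (i) every 2-element of K of order at least 4 centralizing z(J) normalizes J; (ii) if z(J) normalizes K then z(K) normalizes J. -/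
theorem result {G : Type*} [Group G] [Finite G] (J K : Subgroup G) (hJK : J ≠ K) (zJ zK : G) (hzJ : zJ ∈ J ∧ orderOf zJ = 2 ∧ ∀ t ∈ J, orderOf t = 2 → t = zJ) (hzK : zK ∈ K ∧ orderOf zK = 2 ∧ ∀ t ∈ K, orderOf t = 2 → t = zK) (hJ : J ≤ Subgroup.centralizer ({zJ} : Set G) ∧ Cfsg.IsPComponent 2 (J.subgroupOf (Subgroup.centralizer ({zJ} : Set G)))) (hK : K ≤ Subgroup.centralizer ({zK} : Set G) ∧ Cfsg.IsPComponent 2 (K.subgroupOf (Subgroup.centralizer ({zK} : Set G)))) (htype : (∃ (F : Type) (_ : Field F) (_ : Fintype F), Odd (Fintype.card F) ∧ Nonempty (↥J ⧸ Cfsg.oddCore ↥J ≃* Matrix.SpecialLinearGroup (Fin 2) F) ∧ Nonempty (↥K ⧸ Cfsg.oddCore ↥K ≃* Matrix.SpecialLinearGroup (Fin 2) F)) ∨ (Cfsg.IsNonsplitDoubleCover (↥J ⧸ Cfsg.oddCore ↥J) ↥(alternatingGroup (Fin 7)) ∧ Cfsg.IsNonsplitDoubleCover (↥K ⧸ Cfsg.oddCore ↥K) ↥(alternatingGroup (Fin 7)))) : (∀ y ∈ K, IsPGroup 2 ↥(Subgroup.zpowers y) → 4 ≤ orderOf y → y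 * zJ = zJ * y → y ∈ Subgroup.normalizer (J : Set G)) ∧ (zJ ∈ Subgroup.normalizer (K : Set G) → zK ∈ Subgroup.normalizer (J : Set G)) := by
  classical
  obtain ⟨hzJm, hzJo, hzJu⟩ := hzJ
  obtain ⟨hzKm, hzKo, hzKu⟩ := hzK
  obtain ⟨hJl, hJc⟩ := hJ
  obtain ⟨hKl, hKc⟩ := hK
  have hqJ := quasisimple_quotient hJl hJc
  have hqK := quasisimple_quotient hKl hKc
  have main : ∀ n, Classical n zJ J → Classical n zK K →
      (∀ y ∈ K, IsPGroup 2 ↥(Subgroup.zpowers y) → 4 ≤ orderOf y → y * zJ = zJ * y →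
        y ∈ Subgroup.normalizer (J : Set G)) ∧
      (zJ ∈ Subgroup.normalizer (K : Set G) → zK ∈ Subgroup.normalizer (J : Set G)) := by
    intro n hCJ hCK
    refine ⟨fun y hy hp h4 hyz => normalizes_of_power hCJ hCK hJK hy ?_ h4 hyz, rel hCJ hCK⟩
    obtain ⟨k, hk⟩ := hp ⟨y, Subgroup.mem_zpowers y⟩
    exact ⟨k, congrArg Subtype.val hk⟩
  rcases htype with ⟨F, _, _, hodd, ⟨eJ⟩, ⟨eK⟩⟩ | ⟨hAJ, hAK⟩
  · refine main (Subgroup.center (Matrix.SpecialLinearGroup (Fin 2) F)).index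
      ⟨hzJo, hzJm, hzJu, hJl, hJc, good_sl hqJ (uniq_quotient hzJu) hodd eJ, ?_⟩
      ⟨hzKo, hzKm, hzKu, hKl, hKc, good_sl hqK (uniq_quotient hzKu) hodd eK, ?_⟩
    · rw [← LBalance.center_map_eq eJ]
      exact (Subgroup.index_map_equiv _ eJ).symm
    · rw [← LBalance.center_map_eq eK]
      exact (Subgroup.index_map_equiv _ eK).symm
  · refine main (Nat.card ↥(alternatingGroup (Fin 7)))
      ⟨hzJo, hzJm, hzJu, hJl, hJc, good_alt hqJ (uniq_quotient hzJu) hAJ, ?_⟩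
      ⟨hzKo, hzKm, hzKu, hKl, hKc, good_alt hqK (uniq_quotient hzKu) hAK, ?_⟩
    · obtain ⟨e⟩ := hAJ.2.1
      rw [Subgroup.index]
      exact Nat.card_congr e.toEquiv
    · obtain ⟨e⟩ := hAK.2.1
      rw [Subgroup.index]
      exact Nat.card_congr e.toEquiv

end Cfsg.Agent.S1315
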