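import Cfsg.Statements.S1319
import Cfsg.Agent.Cores.FStar

set_option autoImplicit false
open Cfsg
open CfsgLib.Cores

namespace Cfsg.Agent.S1319

/-- Let A be a subnormal subgroup of the finite group X with E(A) = A. Then A ≤ E(X) and A is normal in E(X). -/
theorem result {X : Type*} [Group X] [Finite X] (A : Subgroup X) (hsn : A.IsSubnormal) (hA : Cfsg.layer ↥A = ⊤) : A ≤ Cfsg.layer X ∧ (A.subgroupOf (Cfsg.layer X)).Normal := by
  have hAeq : layerIn A = A := by rw [← map_layer_of_isSubnormal hsn, hA, map_subtype_top]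
  have hle : A ≤ Cfsg.layer X := hAeq.ge.trans (layerIn_le_layer A)
  refine ⟨hle, (Subgroup.normal_subgroupOf_iff_le_normalizer hle).mpr ?_⟩
  intro g hg
  rw [Subgroup.mem_normalizer_iff_map_conj_eq]
  have key : ∀ g ∈ Cfsg.layer X, A.map (MulAut.conj g).toMonoidHom ≤ A := by
    intro g hg
    rw [Subgroup.map_le_iff_le_comap]
    refine hAeq.ge.trans (sSup_le fun L hL => ?_)
    rw [← Subgroup.map_le_iff_le_comap]
    exact (Subgroup.mem_normalizer_iff_map_conj_eq.mp (layer_le_normalizer hL.1 hg)).le.trans hL.2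
  refine le_antisymm (key g hg) fun a ha => ?_
  exact ⟨g⁻¹ * a * g, key g⁻¹ (inv_mem hg) ⟨a, ha, by simp⟩, by simp [mul_assoc]⟩

end Cfsg.Agent.S1319
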