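import Cfsg.Statements.S1331
import Cfsg.Agent.Signalizer.Hyperplane
import Cfsg.Agent.Eq.Def_Balance

set_option autoImplicit false
open Cfsg

namespace Cfsg.Agent.S1331

/-- Let θ be a solvable A-signalizer functor on the finite group G for the prime p, A elementary abelian of rank at least 3, X a member of the family of θ, and B ≤ A with |B| ≥ p². Then X is generated by the subgroups X ∩ ⋂_{d ∈ D, d ≠ 1} θ d, D ranging over the subgroups of index p in B. -/
theorem result {G : Type*} [Group G] [Finite G] (p : ℕ) [Fact p.Prime] (A : Subgroup G) (hA : Cfsg.IsElementaryAbelian p A) (hA3 : p ^ 3 ≤ Nat.card ↥A) (θ : G → Subgroup G) (hθ : Cfsg.IsSolvableSignalizerFunctor p A θ) (X : Subgroup G) (hX : X ∈ Cfsg.signalizerFamily p A θ) (B : Subgroup G) (hB : B ≤ A) (hB2 : p ^ 2 ≤ Nat.card ↥B) : X = ⨆ D : {D : Subgroup G // D ≤ B ∧ D.relIndex B = p}, X ⊓ Cfsg.signalizerInf (D : Subgroup G) θ := by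
  haveI := hA.1
  obtain ⟨-, hXp, hXA, hXθ⟩ := hX
  have hBe : Cfsg.IsElementaryAbelian p B :=
    ⟨⟨⟨fun a b => Subtype.ext (congrArg Subtype.val (mul_comm' (⟨a, hB a.2⟩ : ↥A) ⟨b, hB b.2⟩) :
      (a : G) * b = b * a)⟩⟩, fun b hb => hA.2 b (hB hb)⟩
  have hBX : B ≤ Subgroup.normalizer (X : Set G) := fun b hb => by
    refine Subgroup.mem_normalizer_iff.mpr fun x => ⟨fun hx => hXA b (hB hb) x hx, fun hx => ?_⟩
    have h := hXA b⁻¹ (inv_mem (hB hb)) _ hx
    simpa [mul_assoc] using h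
  refine le_antisymm ?_ (iSup_le fun D => inf_le_left)
  refine (CfsgLib.Hyperplane.le_iSup_centralizer hBe hXp hBX).trans (iSup_le ?_)
  rintro ⟨H, hHB, hHi⟩
  have key : ∀ D : Subgroup G, D ≤ B → D.relIndex B = p → D ≤ H →
      X ⊓ Subgroup.centralizer (H : Set G) ≤
        ⨆ D : {D : Subgroup G // D ≤ B ∧ D.relIndex B = p}, X ⊓ Cfsg.signalizerInf (D : Subgroup G) θ := by
    intro D hDB hDi hDH
    refine le_trans (le_inf inf_le_left (le_iInf fun d x hx => ?_))
      (le_iSup (fun D : {D : Subgroup G // D ≤ B ∧ D.relIndex B = p} =>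
        X ⊓ Cfsg.signalizerInf (D : Subgroup G) θ) ⟨D, hDB, hDi⟩)
    refine hXθ d (hB (hDB d.2.1)) d.2.2 ⟨hx.1, ?_⟩
    exact Subgroup.mem_centralizer_singleton_iff.mpr
      (Subgroup.mem_centralizer_iff.mp hx.2 d (hDH d.2.1)).symm
  rcases (Nat.dvd_prime (Fact.out : p.Prime)).mp hHi with h1 | h1
  · obtain ⟨n, hn⟩ := IsPGroup.iff_card.mp
      (fun x : ↥B => (⟨1, Subtype.ext (by simpa using hBe.2 x x.2)⟩ : ∃ k, x ^ p ^ k = 1))
    have hn1 : 1 ≤ n := by
      by_contra h0
      rw [hn, show n = 0 by omega, pow_zero] at hB2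
      have := Nat.one_lt_pow (two_ne_zero) (Fact.out : p.Prime).one_lt
      omega
    obtain ⟨E, hE⟩ := Sylow.exists_subgroup_card_pow_prime (G := ↥B) p
      (n := n - 1) (hn ▸ pow_dvd_pow p (Nat.sub_le n 1))
    refine key (E.map B.subtype) (Subgroup.map_subtype_le _) ?_
      ((Subgroup.map_subtype_le _).trans (Subgroup.relIndex_eq_one.mp h1))
    rw [Subgroup.relIndex, Subgroup.subgroupOf, Subgroup.comap_map_eq_self_of_injective B.subtype_injective]
    have := E.card_mul_index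
    rw [hE, hn] at this
    have h2 : p ^ (n - 1) * p = p ^ n := by rw [← pow_succ, Nat.sub_add_cancel hn1]
    exact Nat.eq_of_mul_eq_mul_left (pow_pos (Fact.out : p.Prime).pos _) (this.trans h2.symm)
  · exact key H hHB h1 le_rfl

end Cfsg.Agent.S1331
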