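import Cfsg.Statements.S1335

set_option autoImplicit false
open Cfsg

namespace Cfsg.Agent.S1335


/-- Let H be a subgroup of the finite group G, p a prime, k ≥ 1, P a Sylow p-subgroup of H of p-rank at least k, and suppose N_G(X) ≤ H for every subgroup X ≤ P of p-rank at least k. Then P is a Sylow p-subgroup of G. -/
theorem result {G : Type*} [Group G] [Finite G] {p : ℕ} [Fact p.Prime] (k : ℕ) (hk : 1 ≤ k) (H : Subgroup G) (P : Sylow p ↥H) (hP : ¬ Cfsg.PRankLE p (k - 1) ↥(P : Subgroup ↥H)) (hΓ : (∀ X : Subgroup G, X ≤ (P : Subgroup ↥H).map H.subtype → ¬ Cfsg.PRankLE p (k - 1) ↥X → Subgroup.normalizer (X : Set G) ≤ H)) : ∃ Q : Sylow p G, (Q : Subgroup G) = (P : Subgroup ↥H).map H.subtype := by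
  classical
  let P' : Subgroup G := (P : Subgroup ↥H).map H.subtype
  have hP' : IsPGroup p ↥P' := P.isPGroup'.map _
  obtain ⟨Q, hQ⟩ := hP'.exists_le_sylow
  refine ⟨Q, ?_⟩
  by_contra hne
  have hlt : P'.subgroupOf (Q : Subgroup G) < ⊤ := by
    rw [lt_top_iff_ne_top, ne_eq, Subgroup.subgroupOf_eq_top]
    exact fun h => hne (le_antisymm h hQ)
  haveI : Group.IsNilpotent ↥(Q : Subgroup G) := Q.isPGroup'.isNilpotent
  obtain ⟨x, hxN, hxP⟩ := SetLike.exists_of_lt (Group.normalizerCondition_of_isNilpotent _ hlt)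
  have hN : Subgroup.normalizer (P' : Set G) ≤ H := by
    refine hΓ P' le_rfl ?_
    intro hr
    apply hP
    intro A hA1 hA2
    let e : ↥(P : Subgroup ↥H) ≃* ↥P' :=
      (P : Subgroup ↥H).equivMapOfInjective H.subtype Subtype.val_injective
    haveI := hA1
    have := hr (A.map e.toMonoidHom) inferInstance (by
      rintro a ⟨c, hc, rfl⟩
      rw [← map_pow, hA2 c hc, map_one])
    rwa [Subgroup.card_map_of_injective e.injective] at this
  have hxG : (x : G) ∈ Subgroup.normalizer (P' : Set G) := by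
    rw [Subgroup.mem_normalizer_iff] at hxN ⊢
    intro z
    constructor
    · intro hz
      exact (hxN ⟨z, hQ hz⟩).mp hz
    · intro hz
      have hzQ : z ∈ (Q : Subgroup G) := by
        have h1 : ((x : G))⁻¹ * ((x : G) * z * (x : G)⁻¹) * (x : G) ∈ (Q : Subgroup G) :=
          mul_mem (mul_mem (inv_mem x.2) (hQ hz)) x.2
        simpa [mul_assoc] using h1
      exact (hxN ⟨z, hzQ⟩).mpr hz
  let R : Subgroup ↥H := (Q : Subgroup G).subgroupOf H
  have hR : IsPGroup p ↥R := Q.isPGroup'.comap_of_injective _ Subtype.val_injective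
  have hPR : (P : Subgroup ↥H) ≤ R := fun y hy => hQ ⟨y, hy, rfl⟩
  have hxR : (⟨(x : G), hN hxG⟩ : ↥H) ∈ R := x.2
  rw [P.is_maximal' hR hPR] at hxR
  exact hxP ⟨⟨(x : G), hN hxG⟩, hxR, rfl⟩

end Cfsg.Agent.S1335
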