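import Cfsg.Statements.S1336
import Mathlib.Tactic.Group

set_option autoImplicit false
open Cfsg

namespace Cfsg.Agent.S1336

variable {G : Type*} [Group G]

/-- the edge relation of the commuting graph -/
def edge (p : ℕ) (A B : Subgroup G) : Prop :=
  Cfsg.IsElementaryAbelian p A ∧ p ^ 1 ≤ Nat.card ↥A ∧ Cfsg.IsElementaryAbelian p B ∧
    p ^ 1 ≤ Nat.card ↥B ∧ ∀ a ∈ A, ∀ b ∈ B, a * b = b * a

theorem rtg_symm (p : ℕ) {A B : Subgroup G} (h : Relation.ReflTransGen (edge p) A B) :
    Relation.ReflTransGen (edge p) B A := by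
  induction h with
  | refl => exact .refl
  | tail _ h2 ih =>
    obtain ⟨h3, h4, h5, h6, h7⟩ := h2
    exact ih.head ⟨h5, h6, h3, h4, fun a ha b hb => (h7 b hb a ha).symm⟩

theorem elem_conj (p : ℕ) (g : G) {A : Subgroup G} (hA : Cfsg.IsElementaryAbelian p A) :
    Cfsg.IsElementaryAbelian p (A.map (MulAut.conj g).toMonoidHom) := by
  haveI := hA.1
  refine ⟨inferInstance, ?_⟩
  rintro _ ⟨a, ha, rfl⟩
  rw [← map_pow, hA.2 a ha, map_one]

theorem rtg_conj (p : ℕ) (g : G) {A B : Subgroup G} (h : Relation.ReflTransGen (edge p) A B) :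
    Relation.ReflTransGen (edge p) (A.map (MulAut.conj g).toMonoidHom)
      (B.map (MulAut.conj g).toMonoidHom) := by
  induction h with
  | refl => exact .refl
  | tail _ h2 ih =>
    obtain ⟨h3, h4, h5, h6, h7⟩ := h2
    refine ih.tail ⟨elem_conj p g h3, ?_, elem_conj p g h5, ?_, ?_⟩
    · rw [Subgroup.card_map_of_injective (MulAut.conj g).injective]; exact h4
    · rw [Subgroup.card_map_of_injective (MulAut.conj g).injective]; exact h6
    · rintro _ ⟨a, ha, rfl⟩ _ ⟨b, hb, rfl⟩
      rw [← map_mul, h7 a ha b hb, map_mul]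

theorem map_conj_one (A : Subgroup G) : A.map (MulAut.conj (1 : G)).toMonoidHom = A := by
  rw [map_one]; exact Subgroup.map_id A

theorem map_conj_mul (a b : G) (A : Subgroup G) :
    (A.map (MulAut.conj b).toMonoidHom).map (MulAut.conj a).toMonoidHom =
      A.map (MulAut.conj (a * b)).toMonoidHom := by
  rw [Subgroup.map_map, map_mul]; rfl

theorem elem_pgroup (p : ℕ) {A : Subgroup G} (hA : Cfsg.IsElementaryAbelian p A) : IsPGroup p ↥A :=
  fun a => ⟨1, Subtype.ext (by simpa using hA.2 a a.2)⟩

theorem p_dvd_card [Finite G] (p : ℕ) [Fact p.Prime] (A : Subgroup G) (hA : Cfsg.IsElementaryAbelian p A)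
    (hc : p ^ 1 ≤ Nat.card ↥A) : p ∣ Nat.card ↥A := by
  obtain ⟨n, hn⟩ := IsPGroup.iff_card.mp (elem_pgroup p hA)
  rw [hn] at hc ⊢
  refine dvd_pow_self p ?_
  rintro rfl
  simp only [pow_zero, pow_one] at hc
  exact absurd hc (not_le.mpr (Fact.out : p.Prime).one_lt)

theorem zp_card [Finite G] (p : ℕ) (x : G) (hx : orderOf x = p) :
    p ^ 1 ≤ Nat.card ↥(Subgroup.zpowers x) := by
  rw [pow_one, Nat.card_zpowers, hx]

theorem zp_elem (p : ℕ) (x : G) (hx : orderOf x = p) :
    Cfsg.IsElementaryAbelian p (Subgroup.zpowers x) := by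
  refine ⟨inferInstance, ?_⟩
  intro a ha
  obtain ⟨k, rfl⟩ := Subgroup.mem_zpowers_iff.mp ha
  rw [← zpow_natCast, ← zpow_mul, mul_comm, zpow_mul, zpow_natCast, ← hx, pow_orderOf_eq_one, one_zpow]

theorem within [Finite G] (p : ℕ) [Fact p.Prime] {Q A B : Subgroup G} (hQ : IsPGroup p ↥Q)
    (hAQ : A ≤ Q) (hBQ : B ≤ Q) (hA : Cfsg.IsElementaryAbelian p A) (hAc : p ^ 1 ≤ Nat.card ↥A)
    (hB : Cfsg.IsElementaryAbelian p B) (hBc : p ^ 1 ≤ Nat.card ↥B) :
    Relation.ReflTransGen (edge p) A B := by
  haveI : Nontrivial ↥Q := by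
    have h1 : 1 < Nat.card ↥A := lt_of_lt_of_le (by simpa using (Fact.out : p.Prime).one_lt) hAc
    have h2 := Nat.le_of_dvd Nat.card_pos (Subgroup.card_dvd_of_le hAQ)
    exact Finite.one_lt_card_iff_nontrivial.mp (h1.trans_le h2)
  haveI := hQ.center_nontrivial
  obtain ⟨n, hn⟩ := IsPGroup.iff_card.mp (hQ.to_subgroup (Subgroup.center ↥Q))
  have hd : p ∣ Nat.card ↥(Subgroup.center ↥Q) := by
    rw [hn]; refine dvd_pow_self p ?_
    rintro rfl
    rw [pow_zero] at hn
    exact absurd (Finite.one_lt_card (α := ↥(Subgroup.center ↥Q))) (by omega)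
  obtain ⟨z, hz⟩ := exists_prime_orderOf_dvd_card' (G := ↥(Subgroup.center ↥Q)) p hd
  have hz' : orderOf ((z : ↥Q) : G) = p := by rw [Subgroup.orderOf_coe, Subgroup.orderOf_coe]; exact hz
  have hcom : ∀ q ∈ Q, q * ((z : ↥Q) : G) = ((z : ↥Q) : G) * q := fun q hq =>
    congrArg Subtype.val (Subgroup.mem_center_iff.mp z.2 ⟨q, hq⟩)
  have hcom' : ∀ b ∈ Subgroup.zpowers ((z : ↥Q) : G), ∀ q ∈ Q, q * b = b * q := by
    intro b hb q hq
    obtain ⟨k, rfl⟩ := Subgroup.mem_zpowers_iff.mp hb
    exact Commute.zpow_right (hcom q hq) k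
  exact (Relation.ReflTransGen.single
    ⟨hA, hAc, zp_elem p _ hz', zp_card p _ hz', fun a ha b hb => hcom' b hb a (hAQ ha)⟩).tail
    ⟨zp_elem p _ hz', zp_card p _ hz', hB, hBc, fun b hb q hq => (hcom' b hb q (hBQ hq)).symm⟩


/-- Let G be finite and p prime. Then G has a proper subgroup H with p ∣ |H| and p ∤ |H ∩ gHg⁻¹| for every g ∉ H (a strongly p-embedded subgroup) if and only if G is not 1-connected for p. -/
theorem result {G : Type*} [Group G] [Finite G] (p : ℕ) [Fact p.Prime] : (∃ H : Subgroup G, H ≠ ⊤ ∧ p ∣ Nat.card ↥H ∧ ∀ g : G, g ∉ H → ¬ p ∣ Nat.card ↥(H ⊓ H.map (MulAut.conj g).toMonoidHom)) ↔ ¬ Cfsg.IsKConnected p 1 G := by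
  constructor
  · rintro ⟨H, hH, hpH, hsep⟩ hconn
    obtain ⟨a, ha⟩ := exists_prime_orderOf_dvd_card' (G := ↥H) p hpH
    have ha' : orderOf (a : G) = p := by rw [Subgroup.orderOf_coe]; exact ha
    obtain ⟨g, hg⟩ := SetLike.exists_of_lt (lt_top_iff_ne_top.mpr hH)
    obtain ⟨-, hg⟩ := hg
    have hpres : ∀ E E' : Subgroup G, edge p E E' → E ≤ H → E' ≤ H := by
      rintro E E' ⟨hE, hEc, -, -, hc⟩ hEH b hb
      by_contra hbH
      apply hsep b hbH
      have hsub : E ≤ H ⊓ H.map (MulAut.conj b).toMonoidHom := by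
        intro e he
        refine ⟨hEH he, e, hEH he, ?_⟩
        simp only [MulEquiv.coe_toMonoidHom, MulAut.conj_apply]
        rw [← hc e he b hb]; group
      exact (p_dvd_card p E hE hEc).trans (Subgroup.card_dvd_of_le hsub)
    have hgoal : ∀ E E' : Subgroup G, Relation.ReflTransGen (edge p) E E' → E ≤ H → E' ≤ H := by
      intro E E' h hEH
      induction h with
      | refl => exact hEH
      | tail _ h2 ih => exact hpres _ _ h2 ih
    have hb : orderOf (g * (a : G) * g⁻¹) = p := by
      rw [← ha']; exact orderOf_injective (MulAut.conj g).toMonoidHom (MulAut.conj g).injective _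
    have hbH := hgoal _ _ (hconn _ _ (zp_elem p _ ha') (zp_card p _ ha') (zp_elem p _ hb) (zp_card p _ hb))
      (Subgroup.zpowers_le.mpr a.2) (Subgroup.mem_zpowers _)
    apply hsep g hg
    have hsub : Subgroup.zpowers (g * (a : G) * g⁻¹) ≤ H ⊓ H.map (MulAut.conj g).toMonoidHom := by
      rw [Subgroup.zpowers_le]
      exact ⟨hbH, a, a.2, by simp [MulAut.conj_apply]⟩
    refine (dvd_of_eq ?_).trans (Subgroup.card_dvd_of_le hsub)
    rw [Nat.card_zpowers, hb]
  · intro hconn
    simp only [Cfsg.IsKConnected, not_forall] at hconn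
    obtain ⟨E, E', hE, hEc, hE', hEc', hno⟩ := hconn
    let H : Subgroup G :=
      { carrier := {g | Relation.ReflTransGen (edge p) E (E.map (MulAut.conj g).toMonoidHom)}
        one_mem' := by
          show Relation.ReflTransGen (edge p) E (E.map (MulAut.conj (1 : G)).toMonoidHom)
          rw [map_conj_one]
        mul_mem' := by
          intro a b ha hb
          have := rtg_conj p a hb
          rw [map_conj_mul] at this
          exact Relation.ReflTransGen.trans ha this
        inv_mem' := by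
          intro a ha
          have := rtg_conj p a⁻¹ (rtg_symm p ha)
          rw [map_conj_mul, inv_mul_cancel, map_conj_one] at this
          exact rtg_symm p (rtg_symm p this) }
    have memH : ∀ g, g ∈ H ↔ Relation.ReflTransGen (edge p) E (E.map (MulAut.conj g).toMonoidHom) :=
      fun g => Iff.rfl
    -- every element of order `p` with neighbour in the component is in `H`
    have hcH : ∀ D : Subgroup G, Cfsg.IsElementaryAbelian p D → p ^ 1 ≤ Nat.card ↥D →
        Relation.ReflTransGen (edge p) E D → ∀ x : G, (∀ d ∈ D, d * x = x * d) → x ∈ H := by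
      intro D _ _ hD x hx
      rw [memH]
      have h1 := rtg_conj p x hD
      have h2 : D.map (MulAut.conj x).toMonoidHom = D := by
        ext d
        constructor
        · rintro ⟨e, he, rfl⟩
          simp only [MulEquiv.coe_toMonoidHom, MulAut.conj_apply]
          rw [← hx e he]; simpa using he
        · intro hd
          refine ⟨d, hd, ?_⟩
          simp only [MulEquiv.coe_toMonoidHom, MulAut.conj_apply]
          rw [← hx d hd]; group
      rw [h2] at h1
      exact hD.trans (rtg_symm p h1)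
    have hEH : E ≤ H := by
      intro e he
      haveI := hE.1
      exact hcH E hE hEc .refl e fun d hd => congrArg Subtype.val
        (IsMulCommutative.is_comm.comm (⟨d, hd⟩ : ↥E) ⟨e, he⟩)
    have hpH : p ∣ Nat.card ↥H :=
      (p_dvd_card p E hE hEc).trans (Subgroup.card_dvd_of_le hEH)
    refine ⟨H, ?_, hpH, ?_⟩
    · intro htop
      apply hno
      -- some conjugate of E lands in a Sylow group containing E'
      obtain ⟨P, hP⟩ := (elem_pgroup p hE).exists_le_sylow
      obtain ⟨Q, hQ⟩ := (elem_pgroup p hE').exists_le_sylow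
      obtain ⟨g, hgPQ⟩ := MulAction.exists_smul_eq G P Q
      have hmap : E.map (MulAut.conj g).toMonoidHom ≤ (Q : Subgroup G) := by
        rw [← hgPQ, Sylow.smul_def, Sylow.pointwise_smul_def, Subgroup.pointwise_smul_def]
        exact Subgroup.map_mono hP
      have hg1 : g ∈ H := htop ▸ Subgroup.mem_top g
      refine ((memH g).mp hg1).trans (within p Q.isPGroup' hmap hQ ?_ ?_ hE' hEc')
      · exact elem_conj p g hE
      · rw [Subgroup.card_map_of_injective (MulAut.conj g).injective]; exact hEc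
    · intro g hg hdvd
      obtain ⟨a, ha⟩ := exists_prime_orderOf_dvd_card' (G := ↥(H ⊓ H.map (MulAut.conj g).toMonoidHom)) p hdvd
      have ha' : orderOf (a : G) = p := by rw [Subgroup.orderOf_coe]; exact ha
      obtain ⟨haH, c, hcH', hca⟩ := Subgroup.mem_inf.mp a.2
      simp only [MulEquiv.coe_toMonoidHom, MulAut.conj_apply] at hca
      -- every order-p element of H is joined to E
      have hjoin : ∀ x ∈ H, orderOf x = p → Relation.ReflTransGen (edge p) E (Subgroup.zpowers x) := by
        intro x hx hxp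
        obtain ⟨P, hP⟩ := ((elem_pgroup p hE).comap_of_injective H.subtype
          H.subtype_injective).exists_le_sylow
        obtain ⟨R, hR⟩ := ((elem_pgroup p (zp_elem p x hxp)).comap_of_injective H.subtype
          H.subtype_injective).exists_le_sylow
        obtain ⟨h, hh⟩ := MulAction.exists_smul_eq ↥H P R
        have hEh : E.map (MulAut.conj (h : G)).toMonoidHom ≤ (R : Subgroup ↥H).map H.subtype := by
          rintro _ ⟨e, he, rfl⟩
          refine ⟨h * ⟨e, hEH he⟩ * h⁻¹, ?_, rfl⟩
          rw [← hh, Sylow.smul_def, Sylow.pointwise_smul_def, Subgroup.pointwise_smul_def]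
          exact ⟨⟨e, hEH he⟩, hP he, rfl⟩
        have hxR : Subgroup.zpowers x ≤ (R : Subgroup ↥H).map H.subtype :=
          Subgroup.zpowers_le.mpr
            ⟨⟨x, hx⟩, hR (show (⟨x, hx⟩ : ↥H) ∈ (Subgroup.zpowers x).subgroupOf H from
              Subgroup.mem_zpowers x), rfl⟩
        exact Relation.ReflTransGen.trans ((memH (h : G)).mp h.2)
          (within p (R.isPGroup'.map H.subtype) hEh hxR (elem_conj p _ hE)
          (by rw [Subgroup.card_map_of_injective (MulAut.conj (h : G)).injective]; exact hEc)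
          (zp_elem p x hxp) (zp_card p x hxp))
      have h1 := hjoin a haH ha'
      have hc' : orderOf c = p := by
        rw [← ha', ← hca]; exact (orderOf_injective (MulAut.conj g).toMonoidHom (MulAut.conj g).injective c).symm
      have h2 := rtg_conj p g (hjoin c hcH' hc')
      rw [MonoidHom.map_zpowers] at h2
      simp only [MulEquiv.coe_toMonoidHom, MulAut.conj_apply, hca] at h2
      exact hg ((memH g).mpr (h1.trans (rtg_symm p h2)))

end Cfsg.Agent.S1336
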