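import Cfsg.Statements.S1337
import Cfsg.Agent.PGroup.RankThree
import Cfsg.Agent.PGroup.UniqueOrderP
import Cfsg.Agent.Involution.NormalFour
import Cfsg.Agent.Eq.Def_CaseTheorems
import Cfsg.Agent.Eq.Def_Transfer

set_option autoImplicit false
open Cfsg

namespace Cfsg.Agent.S1337

theorem le_of_rankLE {P : Type*} [Group P] [Finite P] {p : ℕ} {C Y : Subgroup P}
    (hC : Cfsg.PRankLE p 2 C) (hY : Cfsg.IsElementaryAbelian p Y) (hle : Y ≤ C) :
    Nat.card Y ≤ p ^ 2 := by
  rw [← Nat.card_congr (Subgroup.subgroupOfEquivOfLe hle).toEquiv]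
  exact hC _ (IsMulCommutative.of_comm fun a b => Subtype.ext (Subtype.ext
      (congrArg (fun z : Y => (z : P)) (hY.1.1.comm ⟨a.1.1, a.2⟩ ⟨b.1.1, b.2⟩))))
    fun a ha => Subtype.ext (hY.2 _ ha)

theorem elementary_sup {P : Type*} [Group P] {p : ℕ} {X Y : Subgroup P}
    (hX : Cfsg.IsElementaryAbelian p X) (hY : Cfsg.IsElementaryAbelian p Y)
    (hc : ∀ a ∈ X, ∀ b ∈ Y, a * b = b * a) : Cfsg.IsElementaryAbelian p (X ⊔ Y) := by
  have h : IsMulCommutative ↥(X ⊔ Y) := by
    rw [Subgroup.sup_eq_closure]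
    refine Subgroup.isMulCommutative_closure ?_
    rintro a (ha | ha) b (hb | hb)
    · exact congrArg Subtype.val (hX.1.1.comm ⟨a, ha⟩ ⟨b, hb⟩)
    · exact hc a ha b hb
    · exact (hc b hb a ha).symm
    · exact congrArg Subtype.val (hY.1.1.comm ⟨a, ha⟩ ⟨b, hb⟩)
  refine ⟨h, fun m hm => ?_⟩
  rw [Subgroup.sup_eq_closure] at hm
  induction hm using Subgroup.closure_induction with
  | mem z hz => rcases hz with hz | hz; exacts [hX.2 z hz, hY.2 z hz]
  | one => exact one_pow p
  | mul u v hu hv hu' hv' =>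
    rw [← Subgroup.sup_eq_closure] at hu hv
    rw [Commute.mul_pow (congrArg (fun z : ↥(X ⊔ Y) => (z : P)) (h.1.comm ⟨u, hu⟩ ⟨v, hv⟩)),
      hu', hv', one_mul]
  | inv u _ hu' => rw [inv_pow, hu', inv_one]


/-- Let P be a finite p-group of p-rank greater than 2. Then P has a normal elementary abelian subgroup U of order p², and for every elementary abelian X ≤ P with |X| ≥ p²: X is joined to U by a chain of pairwise commuting elementary abelian subgroups of order ≥ p² if and only if C_P(X) has p-rank greater than 2. -/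
theorem result {P : Type*} [Group P] [Finite P] (p : ℕ) [Fact p.Prime] (hP : IsPGroup p P) (hrk : ¬ Cfsg.PRankLE p 2 P) : ∃ U : Subgroup P, U.Normal ∧ Cfsg.IsElementaryAbelian p U ∧ Nat.card ↥U = p ^ 2 ∧ ∀ X : Subgroup P, Cfsg.IsElementaryAbelian p X → p ^ 2 ≤ Nat.card ↥X → (Relation.ReflTransGen (fun A B : Subgroup P => Cfsg.IsElementaryAbelian p A ∧ p ^ 2 ≤ Nat.card ↥A ∧ Cfsg.IsElementaryAbelian p B ∧ p ^ 2 ≤ Nat.card ↥B ∧ ∀ a ∈ A, ∀ b ∈ B, a * b = b * a) X U ↔ ¬ Cfsg.PRankLE p 2 ↥(Subgroup.centralizer (X : Set P))) := by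
  classical
  have hprime : p.Prime := Fact.out
  obtain ⟨E₀, hE₀⟩ := not_forall.1 hrk
  obtain ⟨hE₀c, hE₀⟩ := Classical.not_imp.1 hE₀
  obtain ⟨hE₀e, hE₀⟩ := Classical.not_imp.1 hE₀
  -- a normal elementary abelian subgroup of order `p^2`
  obtain ⟨U, hUn, hUe, hU⟩ : ∃ U : Subgroup P, U.Normal ∧ Cfsg.IsElementaryAbelian p U ∧
      Nat.card U = p ^ 2 := by
    by_cases hp : p = 2
    · subst hp
      obtain ⟨j, hj⟩ := IsPGroup.iff_card.1 (hP.to_subgroup E₀)
      have hj3 : 3 ≤ j := by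
        rw [hj, not_le, Nat.pow_lt_pow_iff_right hprime.one_lt] at hE₀
        omega
      obtain ⟨F, hF⟩ := Sylow.exists_subgroup_card_pow_prime 2 (G := E₀) (n := 3)
        (hj ▸ pow_dvd_pow 2 hj3)
      obtain ⟨V, hV, hVc, hVe⟩ := CfsgLib.Involution.exists_normal_four hP (F.map E₀.subtype)
        (by rw [Subgroup.card_map_of_injective E₀.subtype_injective, hF]; norm_num)
        (fun e he => by rw [← pow_two]; exact hE₀e e (Subgroup.map_subtype_le F he))
      exact ⟨V, hV, ⟨IsPGroup.isMulCommutative_of_card_eq_prime_sq (p := 2) (by rw [hVc]; norm_num),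
        fun a ha => by rw [pow_two]; exact hVe a ha⟩, by rw [hVc]; norm_num⟩
    · refine CfsgLib.PGroup.exists_normal_elementary_sq hp hP fun hc => ?_
      obtain ⟨g, hg⟩ := (hc : IsCyclic P) |>.exists_generator
      have hE : Nat.card E₀ ∣ p := by
        haveI : IsCyclic E₀ := Subgroup.isCyclic E₀
        obtain ⟨e, he⟩ := (inferInstance : IsCyclic E₀).exists_generator
        rw [← orderOf_eq_card_of_forall_mem_zpowers he]
        exact orderOf_dvd_of_pow_eq_one (Subtype.ext (hE₀e _ e.2))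
      have := Nat.le_of_dvd hprime.pos hE
      exact hE₀ (this.trans (Nat.le_self_pow two_ne_zero p))
  haveI := hUn
  set C := Subgroup.centralizer (U : Set P) with hC
  haveI : C.Normal := Subgroup.normal_centralizer
  have hidx := CfsgLib.PGroup.index_centralizer_dvd_of_card_sq hP U hUe.1 hU
  -- intersections with `C` of rank three groups are large
  have hbig : ∀ F : Subgroup P, p ^ 2 < Nat.card F → p ^ 2 ≤ Nat.card ↥(F ⊓ C) := by
    intro F hF
    obtain ⟨j, hj⟩ := IsPGroup.iff_card.1 (hP.to_subgroup F)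
    obtain ⟨d, hd⟩ := IsPGroup.iff_card.1 (hP.to_subgroup (F ⊓ C))
    rw [hj, Nat.pow_lt_pow_iff_right hprime.one_lt] at hF
    have h1 := (C.subgroupOf F).card_mul_index
    have h2 : Nat.card (C.subgroupOf F) = Nat.card ↥(F ⊓ C) := by
      rw [← Nat.card_congr (Subgroup.subgroupOfEquivOfLe (inf_le_left : F ⊓ C ≤ F)).toEquiv,
        Subgroup.inf_subgroupOf_left]
    rw [h2, hd, hj] at h1
    have h3 : p ^ j ≤ p ^ (d + 1) := by
      rw [← h1, pow_succ]
      exact Nat.mul_le_mul_left _ (Nat.le_of_dvd hprime.pos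
        ((Subgroup.relIndex_dvd_index_of_normal C F).trans hidx))
    rw [Nat.pow_le_pow_iff_right hprime.one_lt] at h3
    rw [hd]
    exact Nat.pow_le_pow_right hprime.pos (by omega)
  -- `C_P(U)` has rank at least three
  have hCU : ¬ Cfsg.PRankLE p 2 C := by
    intro hle
    have hF := hbig E₀ (not_le.1 hE₀)
    have hFe : Cfsg.IsElementaryAbelian p (E₀ ⊓ C) :=
      ⟨IsMulCommutative.of_comm fun a b => Subtype.ext
        (congrArg (fun z : E₀ => (z : P)) (hE₀c.1.comm ⟨a, a.2.1⟩ ⟨b, b.2.1⟩)),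
        fun a ha => hE₀e a ha.1⟩
    have hUC : U ≤ C := fun a ha => Subgroup.mem_centralizer_iff.2 fun b hb =>
      congrArg Subtype.val (hUe.1.1.comm ⟨b, hb⟩ ⟨a, ha⟩)
    have hsum := le_of_rankLE hle (elementary_sup hUe hFe fun a ha b hb =>
      Subgroup.mem_centralizer_iff.1 hb.2 a ha) (sup_le hUC inf_le_right)
    have h1 : U = U ⊔ (E₀ ⊓ C) := Subgroup.eq_of_le_of_card_ge le_sup_left (by rw [hU]; exact hsum)
    have h2 : E₀ ⊓ C = U :=
      Subgroup.eq_of_le_of_card_ge (h1 ▸ le_sup_right) (by rw [hU]; exact hF)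
    have h3 : E₀ ≤ C := fun e he => Subgroup.mem_centralizer_iff.2 fun u hu => by
      have hu' : u ∈ E₀ := (h2.ge hu).1
      exact congrArg Subtype.val (hE₀c.1.comm ⟨u, hu'⟩ ⟨e, he⟩)
    rw [inf_eq_left.2 h3] at h2
    exact hE₀ (by rw [h2, hU])
  refine ⟨U, hUn, hUe, hU, fun X hX hXc => ⟨fun hchain hle => ?_, fun hnle => ?_⟩⟩
  · -- `X` commutes only with itself
    have hiso : ∀ Y, Relation.ReflTransGen (fun A B : Subgroup P =>
        Cfsg.IsElementaryAbelian p A ∧ p ^ 2 ≤ Nat.card ↥A ∧ Cfsg.IsElementaryAbelian p B ∧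
        p ^ 2 ≤ Nat.card ↥B ∧ ∀ a ∈ A, ∀ b ∈ B, a * b = b * a) X Y → Y = X := by
      intro Y hY
      induction hY with
      | refl => rfl
      | tail _ h ih =>
        obtain ⟨-, -, hB, hBc, hcomm⟩ := h
        rw [ih] at hcomm
        have hsum := le_of_rankLE hle (elementary_sup hX hB hcomm) (sup_le
          (fun a ha => Subgroup.mem_centralizer_iff.2 fun b hb =>
            congrArg Subtype.val (hX.1.1.comm ⟨b, hb⟩ ⟨a, ha⟩))
          (fun b hb => Subgroup.mem_centralizer_iff.2 fun a ha => hcomm a ha b hb))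
        exact (Subgroup.eq_of_le_of_card_ge le_sup_right (hsum.trans hBc)).trans
          (Subgroup.eq_of_le_of_card_ge le_sup_left (hsum.trans hXc)).symm
    refine hCU ?_
    rw [hC, hiso U hchain]
    exact hle
  · obtain ⟨F, hF⟩ := not_forall.1 hnle
    obtain ⟨hFc, hF⟩ := Classical.not_imp.1 hF
    obtain ⟨hFe, hF⟩ := Classical.not_imp.1 hF
    set F' := F.map (Subgroup.centralizer (X : Set P)).subtype with hF'
    have hF'X : F' ≤ Subgroup.centralizer (X : Set P) := Subgroup.map_subtype_le F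
    have hF'e : Cfsg.IsElementaryAbelian p (F' ⊓ C) := by
      refine ⟨IsMulCommutative.of_comm fun a b => Subtype.ext ?_, ?_⟩
      · obtain ⟨a', ha', haa⟩ := a.2.1
        obtain ⟨b', hb', hbb⟩ := b.2.1
        change (a : P) * b = b * a
        rw [← haa, ← hbb]
        exact congrArg (fun z : F => ((z : Subgroup.centralizer (X : Set P)) : P))
          (hFc.1.comm ⟨a', ha'⟩ ⟨b', hb'⟩)
      · rintro a ⟨⟨a', ha', rfl⟩, -⟩
        exact congrArg Subtype.val (hFe a' ha')
    have hF'big : p ^ 2 ≤ Nat.card ↥(F' ⊓ C) := hbig F' (by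
      rw [hF', Subgroup.card_map_of_injective (Subgroup.subtype_injective _)]; exact not_le.1 hF)
    refine Relation.ReflTransGen.tail (Relation.ReflTransGen.single
      ⟨hX, hXc, hF'e, hF'big, fun a ha b hb => Subgroup.mem_centralizer_iff.1 (hF'X hb.1) a ha⟩)
      ⟨hF'e, hF'big, hUe, hU.ge, fun a ha b hb =>
        (Subgroup.mem_centralizer_iff.1 ha.2 b hb).symm⟩

end Cfsg.Agent.S1337
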