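import Cfsg.Statements.S1344
import Cfsg.Agent.Balance.ExtendedLayer
import Cfsg.Agent.Cores.PComponents
import Cfsg.Agent.CharP.SylowInNormal
import Mathlib.GroupTheory.Transfer
-- import your own Cfsg.Agent.* helpers here

set_option autoImplicit false
open Cfsg

namespace Cfsg.Agent.S1344

open CfsgLib
open scoped commutatorElement

/-- A perfect group of even order has no central Sylow 2-subgroup. -/
theorem not_central_sylow {H : Type*} [Group H] [Finite H] (hperf : Group.IsPerfect H)
    (P : Sylow 2 H) (hP : (P : Subgroup H) ≤ Subgroup.center H) : ¬ 2 ∣ Nat.card H := by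
  intro h2
  haveI : Fact (Nat.Prime 2) := ⟨Nat.prime_two⟩
  have hc : Subgroup.normalizer ((P : Subgroup H) : Set H) ≤
      Subgroup.centralizer ((P : Subgroup H) : Set H) := fun g _ =>
    Subgroup.mem_centralizer_iff.mpr fun x hx => (Subgroup.mem_center_iff.mp (hP hx) g).symm
  have hK := MonoidHom.ker_transferSylow_isComplement' P hc
  set f := MonoidHom.transferSylow P hc
  have hker : f.ker = ⊤ := by
    rw [eq_top_iff, ← hperf.commutator_eq_top, commutator_def, Subgroup.commutator_le]
    intro a _ b _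
    rw [MonoidHom.mem_ker, map_commutatorElement, commutatorElement_eq_one_iff_mul_comm]
    exact Subtype.ext ((Subgroup.mem_center_iff.mp (hP (f a).2) (f b)).symm)
  have h1 := hK.card_mul
  rw [hker, Subgroup.card_top] at h1
  exact P.ne_bot_of_dvd_card h2 (Subgroup.card_eq_one.mp
    (Nat.eq_of_mul_eq_mul_left Nat.card_pos (h1.trans (mul_one _).symm)))

variable {X : Type*} [Group X] [Finite X]

/-- An element centralising a Sylow 2-subgroup of a 2-component normalises it. -/
theorem mem_normalizer_of_sylow {K : Subgroup X} (hK : Cfsg.IsPComponent 2 K) (S : Sylow 2 X) {x : X}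
    (hx : ∀ s ∈ (S : Subgroup X) ⊓ K, Commute x s) : x ∈ Subgroup.normalizer (K : Set X) := by
  classical
  haveI : Fact (Nat.Prime 2) := ⟨Nat.prime_two⟩
  rw [Subgroup.mem_normalizer_iff_map_conj_eq]
  by_contra hne
  set L := K.map (MulAut.conj x).toMonoidHom with hL
  have hLc : Cfsg.IsPComponent 2 L := Balance.isPComponent_map (MulAut.conj x) 2 hK
  have hcom := Cores.commutator_pComponents_le hK hLc (Ne.symm hne)
  set π := QuotientGroup.mk' (Cfsg.pPrimeCore 2 X)
  have hQ : IsPGroup 2 (((S : Subgroup X) ⊓ K).subgroupOf K) :=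
    (S.isPGroup'.to_le inf_le_left).of_equiv (Subgroup.subgroupOfEquivOfLe inf_le_right).symm
  obtain ⟨Q, hQle⟩ := hQ.exists_le_sylow
  have hQeq : (Q : Subgroup ↥K).map K.subtype = (S : Subgroup X) ⊓ K :=
    CharP.inf_subnormal_maximal S hK.1 _ (Subgroup.map_subtype_le _) (Q.isPGroup'.map _)
      fun z hz => ⟨⟨z, hz.2⟩, hQle hz, rfl⟩
  have hsurj : Function.Surjective (π.subgroupMap K) := π.subgroupMap_surjective K
  refine not_central_sylow hK.2.1.2.1 (Q.mapSurjective hsurj) ?_
    (Cores.dvd_card_quotient_component hK.2.1)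
  rintro _ ⟨w, hw, rfl⟩
  rw [Subgroup.mem_center_iff]
  rintro ⟨_, k, hk, rfl⟩
  apply Subtype.ext
  have hwS : (w : X) ∈ (S : Subgroup X) ⊓ K := hQeq ▸ Subgroup.mem_map_of_mem K.subtype hw
  have hwL : (w : X) ∈ L := ⟨w, w.2, by
    show x * w * x⁻¹ = w
    rw [(hx w hwS).eq, mul_inv_cancel_right]⟩
  have := (hcom (Subgroup.commutator_mem_commutator hk hwL)).2
  have h1 : π ⁅k, (w : X)⁆ = 1 := (QuotientGroup.eq_one_iff _).mpr this
  rw [map_commutatorElement, commutatorElement_eq_one_iff_mul_comm] at h1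
  exact h1

/-- Let K be a 2-component of the finite group X. Then K ≤ L*_{2'}(X) and K is normal in L*_{2'}(X). -/
theorem result {X : Type*} [Group X] [Finite X] (K : Subgroup X) (hK : Cfsg.IsPComponent 2 K) : K ≤ Cfsg.extendedTwoLayer X ∧ (K.subgroupOf (Cfsg.extendedTwoLayer X)).Normal := by
  
  haveI : Fact (Nat.Prime 2) := ⟨Nat.prime_two⟩
  have hKL : K ≤ Cfsg.extendedTwoLayer X := by
    rw [Balance.extendedTwoLayer_eq_iSup, sup_assoc]
    exact le_sup_of_le_left (Cores.le_pLayer hK)
  refine ⟨hKL, (Subgroup.normal_subgroupOf_iff_le_normalizer hKL).mpr ?_⟩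
  haveI : (Balance.layerBase X).Normal := Balance.layerBase_normal
  rw [Balance.extendedTwoLayer_eq_iSup]
  refine sup_le (sup_le (Cores.pLayer_le_normalizer hK) fun y hy => ?_) (iSup_le fun T c hc => ?_)
  · rw [Subgroup.mem_normalizer_iff_map_conj_eq]
    refine Cores.pComponent_ext (Balance.isPComponent_map (MulAut.conj y) 2 hK) hK ?_
    have hy1 : QuotientGroup.mk' (Cfsg.pPrimeCore 2 X) y = 1 := (QuotientGroup.eq_one_iff y).mpr hy
    rw [Subgroup.map_map]
    congr 1
    ext z
    show QuotientGroup.mk' (Cfsg.pPrimeCore 2 X) (y * z * y⁻¹) = _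
    simp only [map_mul, map_inv, hy1, one_mul, inv_one, mul_one]
  · obtain ⟨S, hS⟩ := (T.isPGroup'.map (Balance.layerBase X).subtype).exists_le_sylow
    refine mem_normalizer_of_sylow hK S fun t ht => ?_
    have htB : t ∈ Balance.layerBase X := Subgroup.mem_sup_left (Cores.le_pLayer hK ht.2)
    have hST : ((S : Subgroup X).subgroupOf (Balance.layerBase X)) = T :=
      T.3 (S.isPGroup'.comap_of_injective _ (Balance.layerBase X).subtype_injective)
        fun z hz => hS ⟨z, hz, rfl⟩
    have htT : t ∈ Balance.baseSylow T :=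
      ⟨⟨t, htB⟩, hST ▸ (show (⟨t, htB⟩ : Balance.layerBase X) ∈ (S : Subgroup X).subgroupOf _ from ht.1), rfl⟩
    exact (Subgroup.mem_centralizer_iff.mp (Balance.oddCoreIn_le _ hc) t htT).symm

end Cfsg.Agent.S1344
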