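import Cfsg.Statements.S1348
import Cfsg.Agent.Classical.Linear.HyperplaneLevi
import Cfsg.Agent.Eq.Def_Local


set_option autoImplicit false
open Cfsg

namespace Cfsg.Agent.S1348

open Matrix CfsgLib.Classical.Linear.HyperplaneLevi


/-- Let F be a finite field of odd order, n ≥ 7 odd, and t ∈ SL(n, F) the diagonal matrix with entries −1, …, −1, 1. Then E(C(t)) is a standard subgroup of SL(n, F). -/
theorem result {F : Type*} [Field F] [Fintype F] [DecidableEq F] (hF : Odd (Fintype.card F)) (n : ℕ) (hn : 7 ≤ n) (hodd : Odd n) (t : Matrix.SpecialLinearGroup (Fin n) F) (ht : (t : Matrix (Fin n) (Fin n) F) = Matrix.diagonal (fun i : Fin n => if (i : ℕ) + 1 = n then (1 : F) else -1)) : Cfsg.IsStandardSubgroup ((Cfsg.layer ↥(Subgroup.centralizer ({t} : Set (Matrix.SpecialLinearGroup (Fin n) F)))).map (Subgroup.centralizer ({t} : Set (Matrix.SpecialLinearGroup (Fin n) F))).subtype) := by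
  obtain ⟨m, rfl⟩ : ∃ m, n = m + 1 := ⟨n - 1, by omega⟩
  have hev : Even m := by
    obtain ⟨a, ha⟩ := hodd
    exact ⟨a, by omega⟩
  have h2 : (-1 : F) ≠ 1 := by
    intro h
    have hc : ringChar F = 2 := by
      by_contra hne
      exact Ring.neg_one_ne_one_of_char_ne_two hne h
    have := FiniteField.even_card_of_char_two hc
    obtain ⟨a, ha⟩ := hF
    omega
  classical
  set d : Fin (m + 1) → F := fun i => if (i : ℕ) + 1 = m + 1 then (1 : F) else -1 with hdef
  have hdc : ∀ i : Fin m, d i.castSucc = -1 := fun i => if_neg (by simp; omega)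
  have hdl : d (Fin.last m) = 1 := if_pos (by simp)
  have hd : ∀ i : Fin m, d i.castSucc ≠ d (Fin.last m) := fun i => by rw [hdc, hdl]; exact h2
  have hdsnoc : d = Fin.snoc (fun _ => -1) 1 := by
    ext i
    refine Fin.lastCases ?_ (fun i => ?_) i <;> simp [hdc, hdl]
  have hblock : ∀ X : SpecialLinearGroup (Fin (m + 1)) F, X * t = t * X → ∃ A c, X.1 = blockMat A c := fun X hX =>
    ⟨_, _, eq_blockMat_of_commute hd (by rw [← ht]; exact congrArg Subtype.val hX)⟩
  set R := (emb : SpecialLinearGroup (Fin m) F →* SpecialLinearGroup (Fin (m + 1)) F).range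
  set C := Subgroup.centralizer ({t} : Set (SpecialLinearGroup (Fin (m + 1)) F))
  have htR : t ∈ R := mem_range_emb (A := Matrix.diagonal fun _ => -1) (by rw [ht, hdsnoc, blockMat_diagonal])
  have hRC : R ≤ C := by
    rintro _ ⟨A, rfl⟩
    refine Subgroup.mem_centralizer_singleton_iff.mpr (Subtype.ext ?_)
    show blockMat A.1 1 * t.1 = t.1 * blockMat A.1 1
    rw [ht, hdsnoc, ← blockMat_diagonal, blockMat_mul, blockMat_mul]
    congr 1
    ext i j
    simp [Matrix.mul_diagonal, Matrix.diagonal_mul]
  let corner : ↥C →* F :=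
    { toFun := fun X => (X : SpecialLinearGroup (Fin (m + 1)) F).1 (Fin.last m) (Fin.last m)
      map_one' := by simp
      map_mul' := fun X Y => by
        obtain ⟨A, c, hA⟩ := hblock X (Subgroup.mem_centralizer_singleton_iff.mp X.2)
        obtain ⟨B, e, hB⟩ := hblock Y (Subgroup.mem_centralizer_singleton_iff.mp Y.2)
        simp [hA, hB, blockMat_mul] }
  have hker : R.subgroupOf C = corner.ker := by
    ext X
    constructor
    · rintro ⟨A, hA⟩
      rw [MonoidHom.mem_ker]
      show (X : SpecialLinearGroup (Fin (m + 1)) F).1 (Fin.last m) (Fin.last m) = 1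
      have hA' := congrArg Subtype.val hA
      change blockMat A.1 1 = _ at hA'
      rw [show (X : SpecialLinearGroup (Fin (m + 1)) F).1 = blockMat A.1 1 from hA'.symm, blockMat_ll]
    · intro hX
      obtain ⟨A, c, hA⟩ := hblock X (Subgroup.mem_centralizer_singleton_iff.mp X.2)
      have hc : c = 1 := by simpa [corner, hA] using MonoidHom.mem_ker.mp hX
      subst hc
      exact mem_range_emb hA
  haveI hn : (R.subgroupOf C).Normal := hker ▸ MonoidHom.normal_ker _
  have hqs : IsQuasisimple ↥R :=
    CfsgLib.Cores.isQuasisimple_congr (MonoidHom.ofInjective emb_injective)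
      (isQuasisimple_sl (by omega) (by omega))
  have hlayer : (layer ↥C).map C.subtype = R := by
    have hL : layer ↥C = R.subgroupOf C := by
      refine le_antisymm (sSup_le fun K hK => ?_) (le_sSup ⟨hn.isSubnormal,
        CfsgLib.Cores.isQuasisimple_congr (Subgroup.subgroupOfEquivOfLe hRC).symm hqs⟩)
      rw [hker]
      intro k hk
      haveI := hK.2.1
      have h1 : (⟨k, hk⟩ : ↥K) ∈ (corner.comp K.subtype).ker := by
        refine (show commutator ↥K ≤ _ from Subgroup.commutator_le.mpr fun a _ b _ => ?_)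
          (Group.IsPerfect.commutator_eq_top (G := ↥K) ▸ Subgroup.mem_top _)
        rw [MonoidHom.mem_ker, commutatorElement_def, map_mul, map_mul, map_mul, mul_right_comm _ _ ((corner.comp K.subtype) a⁻¹),
          ← map_mul, mul_inv_cancel, map_one, one_mul, ← map_mul, mul_inv_cancel, map_one]
      exact h1
    rw [hL, Subgroup.map_subgroupOf_eq_of_le hRC]
  rw [hlayer]
  set K := Subgroup.centralizer (R : Set (SpecialLinearGroup (Fin (m + 1)) F))
  have htK : t ∈ K := Subgroup.mem_centralizer_iff.mpr fun h hh => Subgroup.mem_centralizer_singleton_iff.mp (hRC hh)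
  have hKform : ∀ X ∈ K, ∃ a c : F, X.1 = blockMat (Matrix.diagonal fun _ : Fin m => a) c := by
    intro X hX
    obtain ⟨A, c, hA⟩ := hblock X (Subgroup.mem_centralizer_iff.mp hX t htR).symm
    obtain ⟨a, ha⟩ := commute_of_blockMat hA fun Y hY => Subgroup.mem_centralizer_iff.mp hX Y hY
    exact ⟨a, c, by rw [hA, ← ha]; rfl⟩
  have hKcomm : ∀ X ∈ K, ∀ Y ∈ K, X * Y = Y * X := by
    intro X hX Y hY
    obtain ⟨a, c, hA⟩ := hKform X hX
    obtain ⟨b, e, hB⟩ := hKform Y hY
    refine Subtype.ext ?_
    show X.1 * Y.1 = Y.1 * X.1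
    rw [hA, hB, blockMat_mul, blockMat_mul, mul_comm c e, Matrix.diagonal_mul_diagonal, Matrix.diagonal_mul_diagonal,
      mul_comm a b]
  have ht1 : t ≠ 1 := fun he => h2 (by
    have h := congrFun (congrFun (ht.symm.trans (congrArg Subtype.val he)) (⟨0, by omega⟩ : Fin m).castSucc)
      (⟨0, by omega⟩ : Fin m).castSucc
    rw [Matrix.diagonal_apply_eq, hdc] at h
    simpa using h)
  have ht2 : t * t = 1 := Subtype.ext (by
    show t.1 * t.1 = 1
    rw [ht, Matrix.diagonal_mul_diagonal, ← Matrix.diagonal_one]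
    congr 1
    ext i
    refine Fin.lastCases ?_ (fun i => ?_) i <;> simp [hdc, hdl])
  have hinv : ∀ X ∈ K, X * X = 1 → X = 1 ∨ X = t := by
    intro X hX hXX
    obtain ⟨a, c, hA⟩ := hKform X hX
    have hm : X.1 * X.1 = 1 := congrArg Subtype.val hXX
    rw [hA, blockMat_mul] at hm
    let i0 : Fin m := ⟨0, by omega⟩
    have haa : a * a = 1 := by simpa using congrFun (congrFun hm i0.castSucc) i0.castSucc
    have hdet := X.2
    rw [hA, det_blockMat, Matrix.det_diagonal] at hdet
    obtain ⟨k, hk⟩ := hev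
    have hc : c = 1 := by
      rw [Finset.prod_const, Finset.card_univ, Fintype.card_fin, hk, ← two_mul, pow_mul, sq, haa, one_pow, one_mul] at hdet
      exact hdet
    subst hc
    rcases mul_self_eq_one_iff.mp haa with rfl | rfl
    · left
      refine Subtype.ext ?_
      rw [hA, Matrix.diagonal_one, blockMat_one]
      rfl
    · right
      refine Subtype.ext ?_
      rw [hA, ht, hdsnoc, blockMat_diagonal]
  have hRn : C ≤ Subgroup.normalizer (R : Set (SpecialLinearGroup (Fin (m + 1)) F)) :=
    (Subgroup.normal_subgroupOf_iff_le_normalizer hRC).mp hn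
  have hNK : Subgroup.normalizer (R : Set (SpecialLinearGroup (Fin (m + 1)) F)) ≤ Subgroup.normalizer (K : Set _) := by
    intro g hg
    rw [Subgroup.mem_normalizer_iff] at hg ⊢
    intro x
    constructor
    · intro hx
      refine Subgroup.mem_centralizer_iff.mpr fun h hh => ?_
      have h' : g⁻¹ * h * g ∈ R := (hg _).mpr (by simpa [mul_assoc] using hh)
      have := Subgroup.mem_centralizer_iff.mp hx _ h'
      calc h * (g * x * g⁻¹) = g * (g⁻¹ * h * g * x) * g⁻¹ := by group
        _ = g * (x * (g⁻¹ * h * g)) * g⁻¹ := by rw [this]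
        _ = g * x * g⁻¹ * h := by group
    · intro hx
      refine Subgroup.mem_centralizer_iff.mpr fun h hh => ?_
      have := Subgroup.mem_centralizer_iff.mp hx _ ((hg _).mp hh)
      calc h * x = g⁻¹ * (g * h * g⁻¹ * (g * x * g⁻¹)) * g := by group
        _ = g⁻¹ * (g * x * g⁻¹ * (g * h * g⁻¹)) * g := by rw [this]
        _ = x * h := by group
  have hfix : ∀ g : SpecialLinearGroup (Fin (m + 1)) F, g * t * g⁻¹ ∈ K → g ∈ C := by
    intro g hg
    rcases hinv _ hg (by rw [show g * t * g⁻¹ * (g * t * g⁻¹) = g * (t * t) * g⁻¹ by group, ht2]; group) with h | h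
    · exact absurd (by simpa using h) ht1
    · exact Subgroup.mem_centralizer_singleton_iff.mpr (mul_inv_eq_iff_eq_mul.mp h)
  refine ⟨hqs, ⟨?_, fun g hg => ?_⟩, fun g hg hc => ?_, le_antisymm hNK fun g hg => hRn (hfix g ?_)⟩
  · refine even_iff_two_dvd.mpr ?_
    have ho : orderOf t = 2 := orderOf_eq_prime (by rw [sq]; exact ht2) ht1
    have h3 := orderOf_dvd_natCard (⟨t, htK⟩ : ↥K)
    rwa [Subgroup.orderOf_mk, ho] at h3
  · rw [← Nat.not_even_iff_odd]
    intro he
    haveI : Fact (Nat.Prime 2) := ⟨Nat.prime_two⟩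
    obtain ⟨⟨x, hx⟩, hx2⟩ := exists_prime_orderOf_dvd_card' 2 (even_iff_two_dvd.mp he)
    rw [Subgroup.orderOf_mk] at hx2
    have hxx : x * x = 1 := by
      rw [← sq, ← hx2]
      exact pow_orderOf_eq_one x
    have hx1 : x ≠ 1 := fun h => by simp [h] at hx2
    obtain ⟨hxK, y, hy, hyx⟩ := hx
    have hxt : x = t := (hinv x hxK hxx).resolve_left hx1
    subst hyx
    have hyt : y = t := by
      refine (hinv y hy ?_).resolve_left fun h => hx1 (by rw [h]; simp)
      apply (MulAut.conj g).injective
      simpa using hxx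
    subst hyt
    refine hg (hNK (hRn (hfix g ?_)))
    simpa using hxK
  · have hle : R.map (MulAut.conj g).toMonoidHom ≤ K := by
      rw [Subgroup.commutator_comm, Subgroup.commutator_eq_bot_iff_le_centralizer] at hc
      exact hc
    refine CfsgLib.Cores.not_isSolvable_of_isQuasisimple hqs (Group.isSolvable_of_comm fun a b => Subtype.ext ?_)
    have h := hKcomm _ (hle (Subgroup.mem_map_of_mem _ a.2)) _ (hle (Subgroup.mem_map_of_mem _ b.2))
    rw [← map_mul, ← map_mul] at h
    exact (MulAut.conj g).injective h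
  · exact (Subgroup.mem_normalizer_iff.mp hg t).mp htK

end Cfsg.Agent.S1348
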