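import Cfsg.Statements.S1394
import Cfsg.Agent.Signalizer.OddTransitivity

set_option autoImplicit false
open Cfsg

namespace Cfsg.Agent.S1394

/-- Let G be a minimal simple group of odd order, A a subgroup satisfying the transitivity hypothesis whose centre has rank at least 2, K = O_{π(A)'}(C_G(A)), and q a prime dividing the order of C_G(A) but not that of A. Then any two maximal A-invariant q-subgroups of G are conjugate by an element of K. -/
theorem result {G : Type*} [Group G] [Finite G] (hG : Cfsg.IsMinSimpleOddOrder G)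
    (A : Subgroup G) (hA : Cfsg.TransitivityHypothesis A) (hZ : ¬ Cfsg.RankLE 1 ↥(A ⊓ Subgroup.centralizer (A : Set G)))
    (q : ℕ) (hq : q.Prime) (hqA : ¬ q ∣ Nat.card A) (hqC : q ∣ Nat.card (Subgroup.centralizer (A : Set G))) :
    ∀ Q₁ ∈ Cfsg.maxInvSubgroups ⊤ A {q}, ∀ Q₂ ∈ Cfsg.maxInvSubgroups ⊤ A {q}, ∃ k ∈ Cfsg.piCoreOf (Cfsg.primesNotDvd (Nat.card A)) (Subgroup.centralizer (A : Set G)), Q₂ = Q₁.map (MulAut.conj k).toMonoidHom := by
  have := Fact.mk hq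
  obtain ⟨p, hp, Z, hZA, hAZ, hZc, hZp, hZ2⟩ := CfsgLib.Signalizer.exists_elementary_center hZ
  have := Fact.mk hp
  obtain ⟨x, hx⟩ := exists_prime_orderOf_dvd_card' q hqC
  have hxq : orderOf (x : G) = q := by rw [Subgroup.orderOf_coe, hx]
  have hxA : A ≤ Subgroup.normalizer (Subgroup.zpowers (x : G) : Set G) := by
    refine CfsgLib.Coprime.le_normalizer_of_conj_mem fun a ha y hy => ?_
    obtain ⟨i, rfl⟩ := Subgroup.mem_zpowers_iff.mp hy
    rw [((show Commute a (x : G) from Subgroup.mem_centralizer_iff.mp x.2 a ha).zpow_right i).eq,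
      mul_inv_cancel_right]
    exact hy
  have hxI : Subgroup.zpowers (x : G) ∈ Cfsg.invSubgroups ⊤ A {q} :=
    (CfsgLib.Signalizer.mem_invSubgroups_prime hq).mpr ⟨le_top,
      IsPGroup.of_card (n := 1) (by rw [Nat.card_zpowers, hxq, pow_one]), hxA⟩
  obtain ⟨Q₀, hxQ₀, hQ₀⟩ := Finite.exists_le_maximal
    (p := fun R : Subgroup G => R ∈ Cfsg.invSubgroups ⊤ A {q}) hxI
  have h₀ : Q₀ ∈ Cfsg.maxInvSubgroups ⊤ A {q} :=
    ⟨hQ₀.1, fun R hR h => le_antisymm (hQ₀.2 hR h) h⟩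
  have key : ∀ Q ∈ Cfsg.maxInvSubgroups ⊤ A {q}, ∃ k ∈ Cfsg.piCoreOf
      (Cfsg.primesNotDvd (Nat.card A)) (Subgroup.centralizer (A : Set G)),
      Q = Q₀.map (MulAut.conj k).toMonoidHom := by
    intro Q hQ
    obtain ⟨-, hQq, hAQ⟩ := (CfsgLib.Signalizer.mem_invSubgroups_prime hq).mp hQ.1
    have hne : Q ≠ ⊥ := by
      rintro rfl
      have h := hQ.2 _ hxI bot_le
      rw [Subgroup.zpowers_eq_bot] at h
      rw [h, orderOf_one] at hxq
      exact hq.one_lt.ne hxq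
    have hcop : (Nat.card Z).Coprime (Nat.card Q) := by
      obtain ⟨m, hm⟩ := IsPGroup.iff_card.mp hQq
      rw [hm]
      exact Nat.Coprime.pow_right m ((Nat.Coprime.coprime_dvd_left (Subgroup.card_dvd_of_le hZA)
        (hq.coprime_iff_not_dvd.mpr hqA).symm))
    obtain ⟨a, ha, ha1, hne'⟩ := CfsgLib.Signalizer.exists_fixed_ne_bot hZc hZp hZ2
      (hZA.trans hAQ) hcop hne
    refine CfsgLib.Signalizer.conj_of_meet_proper hG hA hq hqA h₀ hQ
      (CfsgLib.Signalizer.centralizer_ne_top_of_simple hG ha1)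
      (hAZ.trans (Subgroup.centralizer_le (Set.singleton_subset_iff.mpr ha))) (fun h => ?_) hne'
    have hxm : (x : G) ∈ Subgroup.centralizer {a} ⊓ Q₀ :=
      ⟨Subgroup.centralizer_le (Set.singleton_subset_iff.mpr (hZA ha)) x.2,
        hxQ₀ (Subgroup.mem_zpowers _)⟩
    rw [h, Subgroup.mem_bot] at hxm
    rw [hxm, orderOf_one] at hxq
    exact hq.one_lt.ne hxq
  intro Q₁ h₁ Q₂ h₂
  obtain ⟨k₁, hk₁, rfl⟩ := key Q₁ h₁
  obtain ⟨k₂, hk₂, rfl⟩ := key Q₂ h₂
  refine ⟨k₂ * k₁⁻¹, mul_mem hk₂ (inv_mem hk₁), ?_⟩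
  rw [Subgroup.map_map]
  congr 1
  ext y
  simp [mul_assoc]

end Cfsg.Agent.S1394
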