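import Cfsg.Statements.S1441
import Cfsg.Agent.Coprime.Stabilizer
import Mathlib.GroupTheory.Sylow

set_option autoImplicit false
open Cfsg

namespace Cfsg.Agent.S1441

/-- Let G be a finite group, H a solvable subgroup and A a subgroup normalizing H. Suppose there is a chain H = H₀ ≥ H₁ ≥ ⋯ ≥ H_n = 1 of subgroups normal in H and normalized by A such that A acts trivially on each factor H_{i-1}/H_i (that is, [H_{i-1}, A] ≤ H_i). Then every prime dividing the index of C_A(H) in A divides the order of H. -/
theorem result {G : Type*} [Group G] [Finite G] (H A : Subgroup G) (hH : Group.IsSolvable H) (hA : (A ≤ Subgroup.normalizer (H : Set G)))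
    (n : ℕ) (c : Fin (n + 1) → Subgroup G) (hc0 : c 0 = H) (hcn : c (Fin.last n) = ⊥) (hanti : Antitone c)
    (hcN : ∀ i, H ≤ Subgroup.normalizer ((c i : Subgroup G) : Set G)) (hcA : ∀ i, A ≤ Subgroup.normalizer ((c i : Subgroup G) : Set G))
    (htriv : ∀ i : Fin n, ⁅c i.castSucc, A⁆ ≤ c i.succ) :
    ∀ p : ℕ, p.Prime → p ∣ (A ⊓ Subgroup.centralizer (H : Set G)).relIndex A → p ∣ Nat.card H := by
  intro p hp hdvd
  by_contra hpH
  have : Fact p.Prime := ⟨hp⟩
  obtain ⟨P⟩ : Nonempty (Sylow p A) := inferInstance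
  set C := A ⊓ Subgroup.centralizer (H : Set G) with hC
  have hle : (P : Subgroup A) ≤ C.subgroupOf A := by
    intro a ha
    rw [Subgroup.mem_subgroupOf]
    refine ⟨a.2, ?_⟩
    obtain ⟨k, hk⟩ := P.2 ⟨a, ha⟩
    have hk' : (a : G) ^ p ^ k = 1 := by
      have h2 := congrArg (fun t : (P : Subgroup A) => ((t : A) : G)) hk
      simpa using h2
    have hord : (orderOf (a : G)).Coprime (Nat.card H) := by
      refine Nat.Coprime.coprime_dvd_left (orderOf_dvd_of_pow_eq_one hk') ?_
      exact Nat.Coprime.pow_left _ ((Nat.Prime.coprime_iff_not_dvd hp).mpr hpH)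
    have key : ∀ i : Fin (n + 1), ∀ x ∈ c i, (a : G) * x = x * a := by
      intro i
      induction i using Fin.reverseInduction with
      | last =>
        intro x hx
        rw [hcn] at hx
        rw [Subgroup.mem_bot.mp hx]
        simp
      | cast i ih =>
        intro x hx
        have hm : x * (a : G) * x⁻¹ * (a : G)⁻¹ ∈ c i.succ :=
          htriv i (Subgroup.commutator_mem_commutator hx a.2)
        have hm' : (a : G) * x * (a : G)⁻¹ * x⁻¹ ∈ c i.succ := by
          have h2 := (c i.succ).inv_mem hm
          simpa [mul_assoc] using h2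
        have hH : c i.succ ≤ H := hc0 ▸ hanti (Fin.zero_le _)
        exact CfsgLib.Coprime.commute_of_commute_commutator_mem (ih _ hm') (hH hm') hord
    refine Subgroup.mem_centralizer_iff.mpr ?_
    intro x hx
    exact (key 0 x (hc0.symm ▸ hx)).symm
  exact P.not_dvd_index (hdvd.trans (Subgroup.index_dvd_of_le hle))

end Cfsg.Agent.S1441
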