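import Cfsg.Statements.S1452
import Cfsg.Agent.PGroup.RankThree
import Cfsg.Agent.PGroup.Abelian
import Cfsg.Agent.Eq.Def_CaseTheorems
import Cfsg.Agent.Eq.Def_Transfer

set_option autoImplicit false
open Cfsg

namespace Cfsg.Agent.S1452


/-- Let p be an odd prime and R a finite p-group containing an elementary abelian subgroup of order p ^ 3. If E is a normal elementary abelian subgroup of R of order p ^ 2, then E ≤ A for some normal subgroup A of R with C_R(A) = A that contains an elementary abelian subgroup of order p ^ 3. -/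
theorem result {R : Type*} [Group R] [Finite R] (p : ℕ) [Fact p.Prime] (hp : p ≠ 2) (hR : IsPGroup p R) (hr : ¬ Cfsg.PRankLE p 2 R)
    (E : Subgroup R) [E.Normal] (hE : Cfsg.IsElementaryAbelian p E) (hE2 : Nat.card E = p ^ 2) :
    ∃ A : Subgroup R, E ≤ A ∧ A.Normal ∧ Subgroup.centralizer (A : Set R) = A ∧ ¬ Cfsg.PRankLE p 2 A := by
  classical
  have hprime : p.Prime := Fact.out
  obtain ⟨E₀, hE₀⟩ := not_forall.1 hr
  obtain ⟨hE₀c, hE₀⟩ := Classical.not_imp.1 hE₀
  obtain ⟨hE₀e, hE₀⟩ := Classical.not_imp.1 hE₀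
  obtain ⟨B, hBn, hBc, hBe, hB⟩ :=
    CfsgLib.PGroup.exists_normal_elementary_cube hp hR hE₀c hE₀e (not_le.1 hE₀)
  haveI := hBn
  set C := Subgroup.centralizer (E : Set R) with hC
  haveI : C.Normal := Subgroup.normal_centralizer
  set F := B ⊓ C with hF
  -- a normal elementary abelian subgroup of order at least `p^3` containing `E`
  obtain ⟨M, hMn, hEM, hMc, hMe, hM⟩ : ∃ M : Subgroup R, M.Normal ∧ E ≤ M ∧ IsMulCommutative M ∧
      (∀ m ∈ M, m ^ p = 1) ∧ p ^ 2 < Nat.card M := by
    by_cases hFE : F ≤ E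
    · refine ⟨B, hBn, ?_, hBc, hBe, by rw [hB]; exact Nat.pow_lt_pow_right hprime.one_lt (by norm_num)⟩
      have hidx : (C.subgroupOf B).index ∣ p :=
        (Subgroup.relIndex_dvd_index_of_normal C B).trans
          (CfsgLib.PGroup.index_centralizer_dvd_of_card_sq hR E hE.1 hE2)
      have h1 := (C.subgroupOf B).card_mul_index
      have h2 : Nat.card (C.subgroupOf B) = Nat.card F := by
        rw [← Nat.card_congr (Subgroup.subgroupOfEquivOfLe (inf_le_left : F ≤ B)).toEquiv,
          Subgroup.inf_subgroupOf_left]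
      rw [h2, hB] at h1
      have hEF : F = E := by
        refine Subgroup.eq_of_le_of_card_ge hFE (le_of_not_gt fun hlt => ?_)
        obtain ⟨d, hd⟩ := IsPGroup.iff_card.1 (hR.to_subgroup F)
        rw [hd, hE2, Nat.pow_lt_pow_iff_right hprime.one_lt] at hlt
        have h3 : p ^ 3 ≤ p ^ (d + 1) := by
          rw [← h1, hd, pow_succ]
          exact Nat.mul_le_mul_left _ (Nat.le_of_dvd hprime.pos hidx)
        rw [Nat.pow_le_pow_iff_right hprime.one_lt] at h3
        omega
      exact hEF ▸ inf_le_left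
    · have hgen : ∀ a ∈ (E : Set R) ∪ F, ∀ b ∈ (E : Set R) ∪ F, a * b = b * a := by
        rintro a (ha | ha) b (hb | hb)
        · exact congrArg Subtype.val (hE.1.1.comm ⟨a, ha⟩ ⟨b, hb⟩)
        · exact Subgroup.mem_centralizer_iff.1 hb.2 a ha
        · exact (Subgroup.mem_centralizer_iff.1 ha.2 b hb).symm
        · exact congrArg Subtype.val (hBc.1.comm ⟨a, ha.1⟩ ⟨b, hb.1⟩)
      have hMc : IsMulCommutative ↥(E ⊔ F) := by
        rw [Subgroup.sup_eq_closure]
        exact Subgroup.isMulCommutative_closure hgen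
      refine ⟨E ⊔ F, inferInstance, le_sup_left, hMc, ?_, ?_⟩
      · intro m hm
        rw [Subgroup.sup_eq_closure] at hm
        induction hm using Subgroup.closure_induction with
        | mem z hz => rcases hz with hz | hz; exacts [hE.2 z hz, hBe z hz.1]
        | one => exact one_pow p
        | mul u v hu hv hu' hv' =>
          rw [← Subgroup.sup_eq_closure] at hu hv
          rw [Commute.mul_pow (congrArg (fun z : ↥(E ⊔ F) => (z : R))
            (hMc.1.comm ⟨u, hu⟩ ⟨v, hv⟩)), hu', hv', one_mul]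
        | inv u _ hu' => rw [inv_pow, hu', inv_one]
      · rw [← hE2]
        by_contra hge
        exact hFE (le_sup_right.trans
          (Subgroup.eq_of_le_of_card_ge (le_sup_left : E ≤ E ⊔ F) (not_lt.1 hge)).ge)
  haveI := hMn
  obtain ⟨A, hMA, hA⟩ := CfsgLib.PGroup.exists_maximal_normal_abelian hMc
  refine ⟨A, hEM.trans hMA, hA.1.1,
    CfsgLib.PGroup.centralizer_eq_of_maximal_normal_abelian hR hA, fun hle => ?_⟩
  have h := hle (M.subgroupOf A) (IsMulCommutative.of_comm fun u v => Subtype.ext (Subtype.ext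
      (congrArg (fun z : M => (z : R)) (hMc.1.comm ⟨u.1.1, u.2⟩ ⟨v.1.1, v.2⟩))))
    (fun a ha => Subtype.ext (hMe _ ha))
  rw [Nat.card_congr (Subgroup.subgroupOfEquivOfLe hMA).toEquiv] at h
  omega

end Cfsg.Agent.S1452
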