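import Cfsg.Statements.S1454
import Cfsg.Agent.OddLocal.NarrowBasic
import Cfsg.Agent.OddLocal.QAutCube
import Cfsg.Agent.Constrained.Basic

set_option autoImplicit false
open Cfsg
open scoped commutatorElement

namespace Cfsg.Agent.S1454

/-- Let G be a finite group, p an odd prime, R a narrow p-subgroup and A a solvable subgroup of odd order normalizing R with A ∩ C_G(R) = 1. Then [A, A] ≤ O_p(A) and the index of O_p(A) in A is coprime to p; if R has an elementary abelian subgroup of order p ^ 3 then the order of every element of A of order coprime to p divides p − 1; and if the order of A is a prime not dividing p(p − 1), then 2·#A divides p + 1, and if in addition [R, A] = R and R is non-abelian then #R = p ^ 3. -/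
theorem result {G : Type*} [Group G] [Finite G] (p : ℕ) [Fact p.Prime] (hp : p ≠ 2) (R A : Subgroup G) (hR : IsPGroup p R) (hRn : Cfsg.IsNarrow p R)
    (hA : (A ≤ Subgroup.normalizer (R : Set G))) (hAs : Group.IsSolvable A) (hAodd : Odd (Nat.card A)) (hfaith : A ⊓ Subgroup.centralizer (R : Set G) = ⊥) :
    (commutator ↥A ≤ Cfsg.pCore p ↥A ∧ ((Cfsg.pCore p ↥A).index).Coprime p) ∧
      (¬ Cfsg.PRankLE p 2 R → ∀ a ∈ A, (orderOf a).Coprime p → orderOf a ∣ p - 1) ∧
      ((Nat.card A).Prime → ¬ Nat.card A ∣ p * (p - 1) →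
        2 * Nat.card A ∣ p + 1 ∧ (⁅R, A⁆ = R → ¬ IsMulCommutative R → Nat.card R = p ^ 3)) := by
  classical
  have hB := CfsgLib.OddLocal.hasSmallMaxElementary_of_isNarrow hRn
  have hfaith' : ∀ x ∈ A, x ∈ Subgroup.centralizer (R : Set G) → x = 1 := fun x hx hxc => by
    have h : x ∈ A ⊓ Subgroup.centralizer (R : Set G) := ⟨hx, hxc⟩
    rwa [hfaith, Subgroup.mem_bot] at h
  have hder : IsPGroup p ↥(commutator ↥A) := fun c => by
    have hc : ((c : ↥A) : G) ∈ ⁅A, A⁆ := by
      rw [← Subgroup.map_subtype_commutator]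
      exact Subgroup.mem_map_of_mem _ c.2
    obtain ⟨k, hk⟩ :=
      CfsgLib.OddLocal.exists_pow_mem_centralizer_of_narrow hp hR hB hA hAodd hc
    exact ⟨k, Subtype.ext (Subtype.ext (hfaith' _ (pow_mem (c : ↥A).2 _) hk))⟩
  have hpred : ¬ Cfsg.PRankLE p 2 R → ∀ a ∈ A, (orderOf a).Coprime p → orderOf a ∣ p - 1 := by
    intro hr a ha hcop
    refine orderOf_dvd_of_pow_eq_one (hfaith' _ (pow_mem ha _) ?_)
    refine CfsgLib.OddLocal.mem_centralizer_of_narrow hp hR hB hr hA
      ((⟨a, ha⟩ : A) ^ (p - 1)) ?_ (Or.inr ⟨_, rfl⟩)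
    exact hcop.coprime_dvd_left ((orderOf_pow_dvd _).trans (Subgroup.orderOf_mk a ha).dvd)
  refine ⟨⟨CfsgLib.Constrained.le_pCore inferInstance hder, ?_⟩, hpred, ?_⟩
  · obtain ⟨S, hS⟩ := hder.exists_le_sylow
    haveI : (S : Subgroup ↥A).Normal := Subgroup.Normal.of_commutator_le (G := ↥A) hS
    have hSR : (S : Subgroup ↥A) = Cfsg.pCore p ↥A :=
      le_antisymm (CfsgLib.Constrained.le_pCore inferInstance S.isPGroup')
        (CfsgLib.Constrained.isPGroup_pCore.le_sylow_of_normal S)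
    rw [← hSR]
    exact ((Nat.Prime.coprime_iff_not_dvd Fact.out).mpr S.not_dvd_index).symm
  intro hq hnd
  set q := Nat.card A with hqdef
  have hqp : q ≠ p := fun h => hnd (h ▸ dvd_mul_right _ _)
  haveI := Fact.mk hq
  obtain ⟨a, ha⟩ := exists_prime_orderOf_dvd_card' (G := A) q dvd_rfl
  have haG : orderOf (a : G) = q := by rw [Subgroup.orderOf_coe, ha]
  have ha1 : (a : G) ≠ 1 := fun h => hq.ne_one (by rw [← haG, h, orderOf_one])
  have hac : (a : G) ∉ Subgroup.centralizer (R : Set G) := fun h => ha1 (hfaith' _ a.2 h)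
  have hcopq : q.Coprime p := (Nat.coprime_primes hq Fact.out).mpr hqp
  have hr : Cfsg.PRankLE p 2 R := by
    by_contra hr
    exact hnd ((haG ▸ hpred hr (a : G) a.2 (by rwa [haG])).mul_left _)
  have hq2 : q ≠ 2 := fun h => by
    obtain ⟨m, hm⟩ := hAodd
    omega
  obtain ⟨hdvd, -, -⟩ := CfsgLib.OddLocal.prime_lt_of_rank_two hp hR hr hq hq2 hqp (m := 1)
    (by rw [haG, pow_one]) (hA a.2) hac
  have hq1 : q ∣ p + 1 := by
    rw [show p ^ 2 - 1 = (p - 1) * (p + 1) by rw [mul_comm, ← Nat.sq_sub_sq, one_pow]] at hdvd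
    exact (hq.dvd_mul.mp hdvd).resolve_left fun h => hnd (h.mul_left _)
  refine ⟨Nat.Coprime.mul_dvd_of_dvd_of_dvd ?_ ?_ hq1, ?_⟩
  · exact Nat.coprime_two_left.mpr (hq.odd_of_ne_two hq2)
  · obtain ⟨m, hm⟩ := (Fact.out : p.Prime).odd_of_ne_two hp
    exact ⟨m + 1, by omega⟩
  intro hgenR hna
  obtain ⟨D, hDc, hexp, hclass, hdet⟩ := CfsgLib.OddLocal.exists_detector hp hR
  haveI := hDc
  set σ : MulAut R := R.normalizerMonoidHom ⟨(a : G), hA a.2⟩ with hσdef
  have hσapp : ∀ x : R, ((σ x : R) : G) = (a : G) * x * (a : G)⁻¹ := fun x => rfl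
  have hσpow : ∀ (k : ℕ) (x : R), (((σ ^ k) x : R) : G) = (a : G) ^ k * x * ((a : G) ^ k)⁻¹ := by
    intro k
    induction k with
    | zero => intro x; simp
    | succ k ih => intro x; rw [pow_succ', MulAut.mul_apply, hσapp, ih, pow_succ']; group
  refine CfsgLib.OddLocal.card_eq_cube hp hR hr hq hnd hq1 σ ?_ ?_ D hexp hclass ?_ ?_ ?_
  · refine MulEquiv.ext fun x => Subtype.ext ?_
    rw [hσpow, ← haG, pow_orderOf_eq_one]
    simp
  · intro h
    refine hac (Subgroup.mem_centralizer_iff.mpr fun x hx => ?_)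
    have h1 : (a : G) * x * (a : G)⁻¹ = x :=
      congrArg Subtype.val (MulEquiv.congr_fun h (⟨x, hx⟩ : R))
    exact (mul_inv_eq_iff_eq_mul.mp h1).symm
  · intro hfix
    refine absurd (hdet (a : G) (hA a.2) (by rwa [haG]) fun d hd => ?_) hac
    exact mul_inv_eq_iff_eq_mul.mp (show (a : G) * (d : G) * (a : G)⁻¹ = (d : G) from
      congrArg Subtype.val (hfix d hd))
  · intro N hN
    have hNk : ∀ (k : ℕ) (x : R), (σ ^ k) x * x⁻¹ ∈ N := by
      intro k
      induction k with
      | zero => intro x; simp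
      | succ k ih =>
        intro x
        have h1 := N.mul_mem (hN ((σ ^ k) x)) (ih x)
        rwa [mul_assoc, inv_mul_cancel_left, ← MulAut.mul_apply, ← pow_succ'] at h1
    have hle : ⁅R, A⁆ ≤ N.map R.subtype := by
      rw [Subgroup.commutator_le]
      intro r hr' b hb
      have hbz : b ∈ Subgroup.zpowers (a : G) := by
        have : Subgroup.zpowers (a : G) = A := Subgroup.eq_of_le_of_card_ge
          (Subgroup.zpowers_le.mpr a.2) (by rw [Nat.card_zpowers, haG])
        rw [this]; exact hb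
      obtain ⟨k, rfl⟩ := (IsOfFinOrder.mem_powers_iff_mem_zpowers (isOfFinOrder_of_finite _)).mpr hbz
      refine ⟨((σ ^ k) (⟨r, hr'⟩ : R) * (⟨r, hr'⟩ : R)⁻¹)⁻¹, N.inv_mem (hNk k _), ?_⟩
      simp [hσpow, commutatorElement_def, mul_assoc]
    rw [hgenR] at hle
    rw [eq_top_iff]
    intro x _
    obtain ⟨y, hy, hyx⟩ := hle x.2
    rwa [show x = y from Subtype.ext hyx.symm]
  · exact fun h => hna (IsMulCommutative.of_comm h)

end Cfsg.Agent.S1454
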