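import Cfsg.Statements.S1455
import Cfsg.Agent.OddLocal.NarrowGroup

set_option autoImplicit false
open Cfsg

namespace Cfsg.Agent.S1455

/-- Let G be a solvable group of odd order, p a prime dividing its order, and S a Sylow p-subgroup of G that is narrow; if S has an elementary abelian subgroup of order p ^ 3 assume also G = O_{p',p,p'}(G). Then every prime dividing the index of O_{p'}(G) is at most p; if p = 3 or p is the smallest prime divisor of #G then G has a normal p-complement; G' has a normal p-complement; every subgroup of G' of order coprime to p lies in O_{p'}(G'); and G' ≤ O_{p',p}(G) with the index of O_{p',p}(G) coprime to p. -/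
theorem result {G : Type*} [Group G] [Finite G] [Group.IsSolvable G] (hodd : Odd (Nat.card G)) (p : ℕ) [Fact p.Prime] (hpG : p ∣ Nat.card G) (S : Sylow p G) (hS : Cfsg.IsNarrow p ↥(S : Subgroup G))
    (hpl : ¬ Cfsg.PRankLE p 2 ↥(S : Subgroup G) → Cfsg.PLengthLE p 1 G) :
    (∀ q : ℕ, q.Prime → q ∣ (Cfsg.pPrimeCore p G).index → q ≤ p) ∧
      ((p = 3 ∨ ∀ q : ℕ, q.Prime → q ∣ Nat.card G → p ≤ q) → Cfsg.HasNormalPComplement p G) ∧
      Cfsg.HasNormalPComplement p ↥(commutator G) ∧
      (∀ L : Subgroup ↥(commutator G), (Nat.card L).Coprime p → L ≤ Cfsg.pPrimeCore p ↥(commutator G)) ∧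
      commutator G ≤ Cfsg.pPrimePCore p G ∧ ((Cfsg.pPrimePCore p G).index).Coprime p := by
  classical
  have hp2 : p ≠ 2 := by
    rintro rfl
    obtain ⟨m, hm⟩ := hodd.of_dvd_nat hpG
    omega
  haveI : (Cfsg.pPrimeCore p G).Normal := Subgroup.sSup_normal _ (fun _ h => h.1)
  refine CfsgLib.OddLocal.conclusions_of_core_structure
    (CfsgLib.OddLocal.structure_of_narrow (hodd.of_dvd_nat (Subgroup.card_quotient_dvd_card _)) hp2
      ?_ CfsgLib.SolvableCore.pPrimeCore_quotient_eq_bot)
  by_cases hr : Cfsg.PRankLE p 2 ↥(S : Subgroup G)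
  · have hrG : Cfsg.PRankLE p 2 G := by
      intro A hA hexp
      obtain ⟨T, hT⟩ := (show IsPGroup p A from fun a => ⟨1, Subtype.ext (by simpa using hexp a a.2)⟩).exists_le_sylow
      let f : ↥A →* ↥(S : Subgroup G) := (T.equiv S).toMonoidHom.comp (Subgroup.inclusion hT)
      have hf : Function.Injective f := (T.equiv S).injective.comp (Subgroup.inclusion_injective hT)
      have := hr f.range (IsMulCommutative.of_comm (by
          rintro ⟨_, a, rfl⟩ ⟨_, b, rfl⟩
          apply Subtype.ext
          show f a * f b = f b * f a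
          rw [← map_mul, ← map_mul, hA.is_comm.comm])) (by
          rintro _ ⟨a, rfl⟩
          rw [← map_pow, show a ^ p = 1 from Subtype.ext (by simpa using hexp a a.2), map_one])
      rwa [← Nat.card_congr (MonoidHom.ofInjective hf).toEquiv] at this
    exact CfsgLib.OddLocal.hasSmallMaxElementary_of_prankLE
      (CfsgLib.OddLocal.prankLE_of_injective _ (Subgroup.subtype_injective _)
        (CfsgLib.OddLocal.prankLE_quotient CfsgLib.Constrained.pPrimeCore_coprime hrG))
  · obtain ⟨e⟩ := CfsgLib.OddLocal.exists_sylow_equiv_core (hpl hr) S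
    exact (CfsgLib.OddLocal.hasSmallMaxElementary_of_isNarrow hS).of_mulEquiv e

end Cfsg.Agent.S1455
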