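import Cfsg.Statements.S1456
import Cfsg.Agent.OddLocal.RankTwoFitting
import Cfsg.Agent.OddLocal.NarrowBasic

set_option autoImplicit false
open Cfsg

namespace Cfsg.Agent.S1456

/-- Let G be a solvable group of odd order, p a prime, and E an elementary abelian p-subgroup of the Fitting subgroup F(G) such that F(G) ∩ C_G(E) has no elementary abelian subgroup of order q ^ 3 for any prime q. Then the derived subgroup of G is contained in F(G). -/
theorem result {G : Type*} [Group G] [Finite G] [Group.IsSolvable G] (hodd : Odd (Nat.card G)) (p : ℕ) [Fact p.Prime] (E : Subgroup G) (hE : E ≤ Cfsg.fittingSubgroup G) (hEe : Cfsg.IsElementaryAbelian p E)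
    (hr : Cfsg.RankLE 2 ↥(Cfsg.fittingSubgroup G ⊓ Subgroup.centralizer (E : Set G))) :
    commutator G ≤ Cfsg.fittingSubgroup G := by
  classical
  have hEp : E ≤ Cfsg.pCore p G := by
    intro x hx
    obtain ⟨i, -, hi⟩ := (Nat.dvd_prime_pow (Fact.out : p.Prime) (i := orderOf x) (m := 1)).mp
      (by rw [pow_one]; exact orderOf_dvd_of_pow_eq_one (hEe.2 x hx))
    exact CfsgLib.OddLocal.mem_pCore_of_mem_fitting (hE hx) hi
  set C := Cfsg.fittingSubgroup G ⊓ Subgroup.centralizer (E : Set G) with hC
  have hsmall : ∀ r : ℕ, r.Prime → CfsgLib.OddLocal.HasSmallMaxElementary r ↥(Cfsg.pCore r G) := by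
    intro r hr'
    haveI := Fact.mk hr'
    by_cases hrp : r = p
    · subst hrp
      refine CfsgLib.OddLocal.hasSmallMaxElementary_of_forall (E.subgroupOf (Cfsg.pCore r G))
        (fun a ha b hb => Subtype.ext (by
          have h := congrArg Subtype.val (hEe.1.is_comm.comm (⟨(a : G), ha⟩ : E) ⟨(b : G), hb⟩)
          simpa using h))
        (fun a ha => Subtype.ext (by simpa using hEe.2 (a : G) ha)) fun B hEB hBc hBe => ?_
      have hmem : ∀ x : B, ((x : ↥(Cfsg.pCore r G)) : G) ∈ C := fun x =>
        ⟨CfsgLib.Constrained.pCore_le_fitting (x : ↥(Cfsg.pCore r G)).2,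
          Subgroup.mem_centralizer_iff.mpr fun y hy =>
            congrArg Subtype.val (hBc ⟨y, hEp hy⟩ (hEB hy) x x.2)⟩
      let f : ↥B →* ↥C := ((Cfsg.pCore r G).subtype.comp B.subtype).codRestrict C hmem
      have hf : Function.Injective f := fun a b h =>
        Subtype.ext (Subtype.ext (congrArg (fun t : C => (t : G)) h))
      have := hr r hr' f.range (IsMulCommutative.of_comm (by
          rintro ⟨_, a, rfl⟩ ⟨_, b, rfl⟩
          apply Subtype.ext
          show f a * f b = f b * f a
          rw [← map_mul, ← map_mul]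
          exact congrArg f (Subtype.ext (hBc a a.2 b b.2)))) (by
          rintro _ ⟨a, rfl⟩
          rw [← map_pow, show a ^ r = 1 from Subtype.ext (hBe a a.2), map_one])
      rwa [← Nat.card_congr (MonoidHom.ofInjective hf).toEquiv] at this
    · refine CfsgLib.OddLocal.hasSmallMaxElementary_of_prankLE
        (CfsgLib.OddLocal.prankLE_of_injective (Subgroup.inclusion (le_inf
          CfsgLib.Constrained.pCore_le_fitting ?_)) (Subgroup.inclusion_injective _) (hr r hr'))
      intro x hx
      exact Subgroup.mem_centralizer_iff.mpr fun y hy =>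
        (Subgroup.commute_of_normal_of_disjoint _ _ inferInstance inferInstance
          (IsPGroup.disjoint_of_ne r p hrp _ _ CfsgLib.Constrained.isPGroup_pCore
            CfsgLib.Constrained.isPGroup_pCore) x y hx (hEp hy)).symm.eq
  refine CfsgLib.OddLocal.derived_le_fitting fun r hr' c hc => ?_
  haveI := Fact.mk hr'
  by_cases hr2 : r = 2
  · refine ⟨0, ?_⟩
    rw [CfsgLib.OddLocal.pCore_eq_bot_of_odd hodd hr2, Subgroup.mem_centralizer_iff]
    intro y hy
    rw [Subgroup.mem_bot.mp hy, one_mul, mul_one]
  · exact CfsgLib.OddLocal.exists_pow_mem_centralizer_of_narrow hr2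
      CfsgLib.Constrained.isPGroup_pCore (hsmall r hr') (A := ⊤)
      (by rw [Subgroup.normalizer_eq_top]) (by rwa [Subgroup.card_top])
      (by rw [← commutator_def]; exact hc)

end Cfsg.Agent.S1456
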