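import Cfsg.Statements.S1457
import Cfsg.Agent.Eq.Def_Local
import Cfsg.Agent.OddLocal.QuadraticCore
import Cfsg.Agent.Involutions.SolvableCore

set_option autoImplicit false
open Cfsg

namespace Cfsg.Agent.S1457

/-- Let G be a solvable group of odd order, p a prime, S a Sylow p-subgroup of G and A an abelian subgroup of S normal in S. Then A ≤ O_{p',p}(G). -/
theorem result {G : Type*} [Group G] [Finite G] [Group.IsSolvable G] (hodd : Odd (Nat.card G)) (p : ℕ) [Fact p.Prime] (S : Sylow p G) (A : Subgroup G) (hA : A ≤ (S : Subgroup G)) (hAc : IsMulCommutative A)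
    (hAn : (S : Subgroup G) ≤ Subgroup.normalizer (A : Set G)) :
    A ≤ Cfsg.pPrimePCore p G := by
  intro a ha
  by_cases hp : p = 2
  · -- an odd-order group has trivial Sylow 2-subgroups
    subst hp
    obtain ⟨k, hk⟩ := IsPGroup.iff_card.mp S.2
    have hk0 : k = 0 := by
      by_contra h0
      have h2 : 2 ∣ Nat.card G :=
        ((dvd_pow_self 2 h0).trans (dvd_of_eq hk.symm)).trans (Subgroup.card_subgroup_dvd_card _)
      exact (Nat.not_even_iff_odd.mpr hodd) (even_iff_two_dvd.mpr h2)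
    subst hk0
    have hb : (S : Subgroup G) = ⊥ := Subgroup.eq_bot_of_card_eq _ (by simpa using hk)
    have h1 : a = 1 := Subgroup.mem_bot.mp (hb ▸ hA ha)
    rw [h1]
    exact one_mem _
  set K := Cfsg.pPrimeCore p G with hK
  have hcore := CfsgLib.SolvableCore.centralizer_pCore_le
    (CfsgLib.SolvableCore.pPrimeCore_quotient_eq_bot (p := p) (G := G))
  have hodd' : Odd (Nat.card (G ⧸ K)) := hodd.of_dvd_nat (Subgroup.card_quotient_dvd_card K)
  have : (Cfsg.pCore p (G ⧸ K)).Normal := Subgroup.sSup_normal _ (fun _ h => h.1)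
  refine Subgroup.mem_comap.mpr (CfsgLib.OddLocal.mem_pCore_of_quadratic hp hodd' hcore fun x hx => ?_)
  have hsur : Function.Surjective (QuotientGroup.mk' K) := QuotientGroup.mk'_surjective K
  obtain ⟨s, hs, rfl⟩ :=
    (CfsgLib.PLength.pCore_isPGroup p (G ⧸ K)).le_sylow_of_normal (S.mapSurjective hsur) hx
  have h1 : s * a⁻¹ * s⁻¹ ∈ A := (Subgroup.mem_normalizer_iff.mp (hAn hs) _).mp (A.inv_mem ha)
  have h2 : a * (a * (s * a⁻¹ * s⁻¹)) * a⁻¹ = a * (s * a⁻¹ * s⁻¹) := by
    have hc : a * (a * (s * a⁻¹ * s⁻¹)) = (a * (s * a⁻¹ * s⁻¹)) * a :=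
      congrArg Subtype.val (hAc.is_comm.comm (⟨a, ha⟩ : A) ⟨_, A.mul_mem ha h1⟩)
    rw [hc, mul_inv_cancel_right]
  have e := congrArg (QuotientGroup.mk' K) h2
  simp only [map_mul, map_inv] at e ⊢
  simp only [mul_assoc] at e ⊢
  exact e

end Cfsg.Agent.S1457
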