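import Cfsg.Statements.S1460
import Cfsg.Agent.Solvable.SchurZassenhaus

set_option autoImplicit false
open Cfsg
open scoped commutatorElement Pointwise

namespace CfsgLib.OddLocal.Supplement

variable {G : Type*} [Group G]

theorem exists_mul_eq [Finite G] [Group.IsSolvable G] (K U H : Subgroup G) [K.Normal]
    (hKU : K ⊔ U = ⊤) (hH : H ≤ U) (hcop : (Nat.card H).Coprime (Nat.card K))
    (g : G) (hg : H.map (MulAut.conj g).toMonoidHom ≤ U) :
    ∃ u ∈ U, ∃ c ∈ K ⊓ Subgroup.centralizer (H : Set G), g = u * c := by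
  have hmem : g ∈ ((U ⊔ K : Subgroup G) : Set G) := by rw [sup_comm, hKU]; trivial
  rw [Subgroup.mul_normal U K] at hmem
  obtain ⟨u₀, hu₀, k, hk, rfl⟩ := hmem
  have hk' : ∀ h ∈ H, k * h * k⁻¹ ∈ U := by
    intro h hh
    have h1 : u₀ * k * h * (u₀ * k)⁻¹ ∈ U := hg ⟨h, hh, rfl⟩
    have h2 := mul_mem (mul_mem (inv_mem hu₀) h1) hu₀
    convert h2 using 1; group
  set H₂ : Subgroup G := H.map (MulAut.conj k).toMonoidHom with hH₂
  have hH₂U : H₂ ≤ U := by rintro _ ⟨h, hh, rfl⟩; exact hk' h hh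
  have hKn : ∀ a ∈ K, ∀ h : G, h⁻¹ * a * h ∈ K := fun a ha h =>
    (inferInstance : K.Normal).conj_mem' a ha h
  have hsup : H.subgroupOf U ⊔ K.subgroupOf U = H₂.subgroupOf U ⊔ K.subgroupOf U := by
    apply le_antisymm
    · refine sup_le ?_ le_sup_right
      intro x hx
      have hxk : k * (x : G) * k⁻¹ ∈ U := hk' _ hx
      have h2 : (k * (x : G) * k⁻¹)⁻¹ * (x : G) ∈ K := by
        have := mul_mem hk (hKn _ (inv_mem hk) (x : G))
        convert this using 1; group
      have e : x = (⟨_, hxk⟩ : U) * ⟨_, mul_mem (inv_mem hxk) x.2⟩ := by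
        apply Subtype.ext; simp; group
      rw [e]
      exact Subgroup.mul_mem_sup ⟨x, hx, rfl⟩ h2
    · refine sup_le ?_ le_sup_right
      rintro x ⟨h, hh, hx⟩
      have hx' : (x : G) = k * h * k⁻¹ := hx.symm
      have h2 : h⁻¹ * (x : G) ∈ K := by
        have := mul_mem (hKn _ hk h) (inv_mem hk)
        rw [hx']; convert this using 1; group
      have e : x = (⟨h, hH hh⟩ : U) * ⟨_, mul_mem (inv_mem (hH hh)) x.2⟩ := by
        apply Subtype.ext; simp
      rw [e]
      exact Subgroup.mul_mem_sup hh h2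
  have hcK : Nat.card (K.subgroupOf U) ∣ Nat.card K := by
    rw [← Subgroup.inf_subgroupOf_right,
      Nat.card_congr (Subgroup.subgroupOfEquivOfLe (inf_le_right : K ⊓ U ≤ U)).toEquiv]
    exact Subgroup.card_dvd_of_le inf_le_left
  have hc1 : (Nat.card (H.subgroupOf U)).Coprime (Nat.card (K.subgroupOf U)) := by
    rw [Nat.card_congr (Subgroup.subgroupOfEquivOfLe hH).toEquiv]
    exact hcop.coprime_dvd_right hcK
  have hc2 : (Nat.card (H₂.subgroupOf U)).Coprime (Nat.card (K.subgroupOf U)) := by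
    rw [Nat.card_congr (Subgroup.subgroupOfEquivOfLe hH₂U).toEquiv, hH₂,
      Subgroup.card_map_of_injective (MulAut.conj k).injective]
    exact hcop.coprime_dvd_right hcK
  obtain ⟨m, hm, he⟩ := CfsgLib.Solvable.exists_conj_of_sup_eq (K.subgroupOf U) _ _ hsup hc1 hc2
    (Or.inl inferInstance)
  have he' := CfsgLib.Solvable.conj_eq_of_subgroupOf hH hH₂U m he
  set c := (m : G)⁻¹ * k with hc
  have hcK' : c ∈ K := mul_mem (inv_mem hm) hk
  have hnorm : ∀ h ∈ H, c * h * c⁻¹ ∈ H := by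
    intro h hh
    have h1 : k * h * k⁻¹ ∈ MulAut.conj (m : G) • H := by rw [he']; exact ⟨h, hh, rfl⟩
    rw [CfsgLib.Solvable.mem_conj_smul_iff] at h1
    convert h1 using 1; simp [hc]; group
  refine ⟨u₀ * m, mul_mem hu₀ m.2, c, ⟨hcK', ?_⟩, by simp [hc, mul_assoc]⟩
  refine Subgroup.mem_centralizer_iff.2 fun h hh => ?_
  have h1 : c * h * c⁻¹ * h⁻¹ ∈ H := mul_mem (hnorm h hh) (inv_mem hh)
  have h2 : c * h * c⁻¹ * h⁻¹ ∈ K := by
    have := mul_mem hcK' ((inferInstance : K.Normal).conj_mem _ (inv_mem hcK') h)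
    convert this using 1; group
  have h3 := (CfsgLib.Solvable.disjoint_of_coprime_card hcop).le_bot ⟨h1, h2⟩
  rw [Subgroup.mem_bot, mul_inv_eq_one, mul_inv_eq_iff_eq_mul] at h3
  exact h3.symm

theorem inf_commutator [Finite G] (K U H : Subgroup G) [K.Normal]
    (hKU : K ⊔ U = ⊤) (hH : H ≤ U) (hcop : (Nat.card H).Coprime (Nat.card K)) :
    H ⊓ commutator G = H ⊓ ⁅U, U⁆ := by
  classical
  refine le_antisymm ?_ (inf_le_inf_left H (by
    rw [commutator_def]; exact Subgroup.commutator_mono le_top le_top))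
  rintro x ⟨hx, hx'⟩
  refine ⟨hx, ?_⟩
  have hmul : ∀ g : G, ∃ u ∈ U, ∃ k ∈ K, g = u * k := by
    intro g
    have hmem : g ∈ ((U ⊔ K : Subgroup G) : Set G) := by rw [sup_comm, hKU]; trivial
    rw [Subgroup.mul_normal U K] at hmem
    obtain ⟨u, hu, k, hk, rfl⟩ := hmem
    exact ⟨u, hu, k, hk, rfl⟩
  have hle : commutator G ≤ ⁅U, U⁆ ⊔ K := by
    rw [commutator_def, Subgroup.commutator_le]
    intro a _ b _
    obtain ⟨u, hu, k, hk, rfl⟩ := hmul a
    obtain ⟨v, hv, l, hl, rfl⟩ := hmul b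
    have e : QuotientGroup.mk' K ⁅u * k, v * l⁆ = QuotientGroup.mk' K ⁅u, v⁆ := by
      have hk1 : QuotientGroup.mk' K k = 1 := (QuotientGroup.eq_one_iff _).2 hk
      have hl1 : QuotientGroup.mk' K l = 1 := (QuotientGroup.eq_one_iff _).2 hl
      rw [map_commutatorElement, map_commutatorElement, map_mul, map_mul, hk1, hl1, mul_one,
        mul_one]
    rw [QuotientGroup.mk'_eq_mk'] at e
    obtain ⟨z, hz, he⟩ := e
    have : ⁅u * k, v * l⁆ = ⁅u, v⁆ * z⁻¹ := by rw [← he, mul_inv_cancel_right]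
    rw [this]
    exact Subgroup.mul_mem_sup (Subgroup.commutator_mem_commutator hu hv) (inv_mem hz)
  have hxs : x ∈ ((⁅U, U⁆ ⊔ K : Subgroup G) : Set G) := hle hx'
  rw [Subgroup.mul_normal ⁅U, U⁆ K] at hxs
  obtain ⟨d, hd, k, hk, rfl⟩ := hxs
  have hdU : d ∈ U := by
    have h' : ⁅U, U⁆ ≤ U := Subgroup.commutator_le.2 fun a ha b hb => by
      rw [commutatorElement_def]
      exact mul_mem (mul_mem (mul_mem ha hb) (inv_mem ha)) (inv_mem hb)
    exact h' hd
  have hkU : k ∈ U := by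
    have := mul_mem (inv_mem hdU) (hH hx)
    simpa using this
  have hdk : (⟨d, hdU⟩ : U) ∈ commutator U := by
    have : d ∈ (commutator U).map U.subtype := by rw [Subgroup.map_subtype_commutator]; exact hd
    obtain ⟨y, hy, he⟩ := this
    rwa [show (⟨d, hdU⟩ : U) = y from Subtype.ext he.symm]
  have h1 : Abelianization.of (⟨d * k, hH hx⟩ : U) = Abelianization.of (⟨k, hkU⟩ : U) := by
    rw [show (⟨d * k, hH hx⟩ : U) = ⟨d, hdU⟩ * ⟨k, hkU⟩ from rfl, map_mul,
      show Abelianization.of (⟨d, hdU⟩ : U) = 1 from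
        MonoidHom.mem_ker.1 (by rwa [Abelianization.ker_of]), one_mul]
  have hone : Abelianization.of (⟨d * k, hH hx⟩ : U) = 1 := by
    rw [← orderOf_eq_one_iff]
    refine Nat.eq_one_of_dvd_coprimes hcop ?_ ?_
    · refine (orderOf_map_dvd _ _).trans ?_
      rw [← orderOf_injective U.subtype U.subtype_injective]
      exact Subgroup.orderOf_dvd_natCard H hx
    · rw [h1]
      refine (orderOf_map_dvd _ _).trans ?_
      rw [← orderOf_injective U.subtype U.subtype_injective]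
      exact Subgroup.orderOf_dvd_natCard K hk
  have h4 : (⟨d * k, hH hx⟩ : U) ∈ commutator U := by
    rw [← Abelianization.ker_of]; exact MonoidHom.mem_ker.2 hone
  have h5 : d * k ∈ (commutator U).map U.subtype := ⟨_, h4, rfl⟩
  rwa [Subgroup.map_subtype_commutator] at h5

end CfsgLib.OddLocal.Supplement

namespace Cfsg.Agent.S1460

open CfsgLib.OddLocal.Supplement

/-- Let G be a finite solvable group, K a normal subgroup and U a subgroup with G = KU, and H ≤ U a subgroup whose order is coprime to that of K. Then H ∩ G' = H ∩ U'; N_G(H) is generated by K ∩ C_G(H) and U ∩ N_G(H); and if gHg⁻¹ ≤ U for some g ∈ G then g = u c with u ∈ U and c ∈ K ∩ C_G(H). -/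
theorem result {G : Type*} [Group G] [Finite G] [Group.IsSolvable G] (K U H : Subgroup G) [K.Normal] (hKU : K ⊔ U = ⊤) (hH : H ≤ U) (hcop : (Nat.card H).Coprime (Nat.card K)) :
    H ⊓ commutator G = H ⊓ ⁅U, U⁆ ∧
      Subgroup.normalizer (H : Set G) = (K ⊓ Subgroup.centralizer (H : Set G)) ⊔ (U ⊓ Subgroup.normalizer (H : Set G)) ∧
      ∀ g : G, H.map (MulAut.conj g).toMonoidHom ≤ U → ∃ u ∈ U, ∃ c ∈ K ⊓ Subgroup.centralizer (H : Set G), g = u * c := by
  refine ⟨inf_commutator K U H hKU hH hcop, ?_, exists_mul_eq K U H hKU hH hcop⟩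
  apply le_antisymm
  · intro g hg
    obtain ⟨u, hu, c, hc, rfl⟩ := exists_mul_eq K U H hKU hH hcop g
      (le_of_eq_of_le (Subgroup.mem_normalizer_iff_map_conj_eq.1 hg) hH)
    have hcN : c ∈ Subgroup.normalizer (H : Set G) :=
      Subgroup.centralizer_le_normalizer _ hc.2
    have huN : u ∈ Subgroup.normalizer (H : Set G) := by
      simpa using mul_mem hg (inv_mem hcN)
    exact mul_mem (Subgroup.mem_sup_right ⟨hu, huN⟩) (Subgroup.mem_sup_left hc)
  · exact sup_le (inf_le_right.trans (Subgroup.centralizer_le_normalizer _)) inf_le_right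

end Cfsg.Agent.S1460
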