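import Cfsg.Statements.S1461
import Cfsg.Agent.Eq.Def_Local
import Cfsg.Agent.PLength.One

set_option autoImplicit false
open Cfsg

namespace Cfsg.Agent.S1461

/-- Let G be a finite solvable group, p a prime with G = O_{p',p,p'}(G), and S a Sylow p-subgroup. Then: if S ≤ G' then S ≤ [N_G(S), N_G(S)]; if Y ⊆ S and xYx⁻¹ ⊆ S then x = g c for some g ∈ N_G(S) and c centralizing Y; and for every p-subgroup Q there is x ∈ C_G(Q ∩ S) with xQx⁻¹ ≤ S. -/
theorem result {G : Type*} [Group G] [Finite G] [Group.IsSolvable G] (p : ℕ) [Fact p.Prime] (hpl : Cfsg.PLengthLE p 1 G) (S : Sylow p G) :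
    ((S : Subgroup G) ≤ commutator G → (S : Subgroup G) ≤ ⁅Subgroup.normalizer ((S : Subgroup G) : Set G), Subgroup.normalizer ((S : Subgroup G) : Set G)⁆) ∧
      (∀ (Y : Set G) (x : G), Y ⊆ (S : Subgroup G) → (fun y => x * y * x⁻¹) '' Y ⊆ (S : Subgroup G) →
        ∃ g ∈ Subgroup.normalizer ((S : Subgroup G) : Set G), ∃ c ∈ Subgroup.centralizer Y, g * c = x) ∧
      ∀ Q : Subgroup G, IsPGroup p Q → ∃ x ∈ Subgroup.centralizer ((Q ⊓ (S : Subgroup G) : Subgroup G) : Set G), Q.map (MulAut.conj x).toMonoidHom ≤ (S : Subgroup G) := by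
  obtain ⟨K, hK, hKc, hN, hNi, hFr⟩ := CfsgLib.PLength.exists_frattini_of_pLengthLE_one hpl S
  refine ⟨?_, ?_, ?_⟩
  · intro hSG s hs
    set Ns := Subgroup.normalizer ((S : Subgroup G) : Set G) with hNs
    have hsNs : s ∈ Ns := Subgroup.le_normalizer hs
    have htop : Ns.map (QuotientGroup.mk' K) = ⊤ := by
      refine eq_top_iff.mpr fun q _ => ?_
      obtain ⟨x, rfl⟩ := QuotientGroup.mk'_surjective K q
      obtain ⟨g, hg, k, hk, rfl⟩ := hFr x
      refine ⟨g, hg, ?_⟩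
      rw [map_mul, (QuotientGroup.eq_one_iff k).mpr hk |> fun e => (e : QuotientGroup.mk' K k = 1)]
      simp
    have hle : commutator G ≤ (⁅Ns, Ns⁆.map (QuotientGroup.mk' K)).comap (QuotientGroup.mk' K) := by
      rw [← Subgroup.map_le_iff_le_comap, Subgroup.map_commutator, htop, commutator_def,
        Subgroup.map_commutator]
      exact Subgroup.commutator_mono le_top le_top
    obtain ⟨d, hd, hde⟩ := Subgroup.mem_comap.mp (hle (hSG hs))
    have hdNs : d ∈ Ns := Subgroup.commutator_le_self Ns hd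
    let k : G := d⁻¹ * s
    have hk : k ∈ K := QuotientGroup.eq.mp hde
    have hkNs : k ∈ Ns := Ns.mul_mem (Ns.inv_mem hdNs) hsNs
    have hdN : (⟨d, hdNs⟩ : Ns) ∈ commutator Ns := by
      rw [← Subgroup.map_subtype_commutator] at hd
      obtain ⟨d', hd', rfl⟩ := hd
      exact hd'
    have he : (⟨s, hsNs⟩ : Ns) = ⟨d, hdNs⟩ * ⟨k, hkNs⟩ := Subtype.ext (by simp [k])
    let π : Ns →* Ns ⧸ commutator Ns := QuotientGroup.mk' _
    have hπ : π ⟨s, hsNs⟩ = π ⟨k, hkNs⟩ := by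
      rw [he, map_mul, show π ⟨d, hdNs⟩ = 1 from (QuotientGroup.eq_one_iff _).mpr hdN, one_mul]
    have hone : π ⟨s, hsNs⟩ = 1 := by
      rw [← orderOf_eq_one_iff]
      have h1 : orderOf (π ⟨s, hsNs⟩) ∣ orderOf s := by
        have := orderOf_map_dvd π (⟨s, hsNs⟩ : Ns)
        rwa [Subgroup.orderOf_mk] at this
      have h2 : orderOf (π ⟨s, hsNs⟩) ∣ orderOf k := by
        rw [hπ]
        have := orderOf_map_dvd π (⟨k, hkNs⟩ : Ns)
        rwa [Subgroup.orderOf_mk] at this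
      obtain ⟨m, hm⟩ := IsPGroup.iff_card.mp S.2
      have h3 : orderOf s ∣ p ^ m := hm ▸ (S : Subgroup G).orderOf_dvd_natCard hs
      exact Nat.eq_one_of_dvd_coprimes (hKc.pow_right m)
        (h2.trans (K.orderOf_dvd_natCard hk)) (h1.trans h3)
    rw [← Subgroup.map_subtype_commutator]
    exact ⟨⟨s, hsNs⟩, (QuotientGroup.eq_one_iff _).mp hone, rfl⟩
  · intro Y x hY hxY
    obtain ⟨g, hg, k, hk, rfl⟩ := hFr x
    refine ⟨g, hg, k, Subgroup.mem_centralizer_iff.mpr fun y hy => ?_, rfl⟩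
    have h1 : g * k * y * (g * k)⁻¹ ∈ (S : Subgroup G) := hxY ⟨y, hy, rfl⟩
    have h2 : k * y * k⁻¹ ∈ (S : Subgroup G) := by
      refine (Subgroup.mem_normalizer_iff.mp hg _).mpr ?_
      simpa [mul_assoc] using h1
    exact (CfsgLib.PLength.commute_of_conj_mem hKc S.2 hk (hY hy) h2).symm
  · intro Q hQ
    obtain ⟨T, hT⟩ := hQ.exists_le_sylow
    obtain ⟨x₀, hx₀⟩ := MulAction.exists_smul_eq G T S
    obtain ⟨g, hg, k, hk, rfl⟩ := hFr x₀
    have hkQ : ∀ q ∈ Q, k * q * k⁻¹ ∈ (S : Subgroup G) := by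
      intro q hq
      have h1 : g * k * q * (g * k)⁻¹ ∈ (S : Subgroup G) := by
        rw [← hx₀]
        exact Subgroup.smul_mem_pointwise_smul q (MulAut.conj (g * k)) (T : Subgroup G) (hT hq)
      refine (Subgroup.mem_normalizer_iff.mp hg _).mpr ?_
      simpa [mul_assoc] using h1
    refine ⟨k, Subgroup.mem_centralizer_iff.mpr fun y hy => ?_, ?_⟩
    · exact (CfsgLib.PLength.commute_of_conj_mem hKc S.2 hk hy.2 (hkQ y hy.1)).symm
    · rintro _ ⟨q, hq, rfl⟩
      exact hkQ q hq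

end Cfsg.Agent.S1461
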