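import Cfsg.Statements.S1464
import Cfsg.Agent.Eq.Def_Local
import Cfsg.Agent.OddLocal.PStableQuotient

set_option autoImplicit false
open Cfsg

namespace Cfsg.Agent.S1464

/-- Let p be an odd prime and G a solvable group of odd order, P a p-subgroup with O_{p'}(G)P normal in G, and A a p-subgroup of N_G(P) with [[P, A], A] = 1. Then the image of A in the quotient N_G(P)/C_G(P) is contained in the p-core of that quotient. -/
theorem result {G : Type*} [Group G] [Finite G] [Group.IsSolvable G] (hodd : Odd (Nat.card G)) (p : ℕ) [Fact p.Prime] (hp : p ≠ 2) (P A : Subgroup G) (hP : IsPGroup p P) (hPn : (Cfsg.pPrimeCore p G ⊔ P).Normal)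
    (hA : IsPGroup p A) (hAN : A ≤ Subgroup.normalizer (P : Set G)) (hquad : ⁅⁅P, A⁆, A⁆ = ⊥) :
    (A.subgroupOf (Subgroup.normalizer (P : Set G))).map
        (QuotientGroup.mk' ((Subgroup.centralizer (P : Set G)).subgroupOf (Subgroup.normalizer (P : Set G))))
      ≤ Cfsg.pCore p _ := by
  rintro _ ⟨a, ha, rfl⟩
  refine CfsgLib.OddLocal.quadratic_mem_pCore_quotient hp hP
    (hodd.of_dvd_nat (Subgroup.card_subgroup_dvd_card _)) a fun x hx => ?_
  have h1 : x * (a : G) * x⁻¹ * (a : G)⁻¹ ∈ ⁅P, A⁆ := Subgroup.commutator_mem_commutator hx ha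
  have h2 : (a : G) * x * (a : G)⁻¹ * x⁻¹ ∈ ⁅P, A⁆ := by
    simpa [mul_assoc] using (⁅P, A⁆).inv_mem h1
  have h3 := Subgroup.mem_centralizer_iff.mp ((Subgroup.commutator_eq_bot_iff_le_centralizer.mp hquad) h2)
    (a : G) ha
  rw [h3, mul_inv_cancel_right]

end Cfsg.Agent.S1464
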