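import Cfsg.Statements.S1474
import Cfsg.Agent.CN.Complement

set_option autoImplicit false
open Cfsg

namespace Cfsg.Agent.S1474

/-- Let G be a finite group in which every non-identity element has nilpotent centralizer, not itself nilpotent, and having a nontrivial normal Sylow p-subgroup for some prime p. Let H be the largest normal nilpotent Hall subgroup of G. Then H is a nontrivial proper normal subgroup with a complement E that is a Frobenius complement in G (no non-identity element of E centralizes a non-identity element of H), and G/H is nilpotent. -/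
theorem result {G : Type*} [Group G] [Finite G] (hCN : Cfsg.IsCNGroup G) (hnn : ¬ Group.IsNilpotent G) (p : ℕ) [Fact p.Prime] (P : Sylow p G)
    (hP1 : (P : Subgroup G) ≠ ⊥) (hPn : (P : Subgroup G).Normal) :
    Cfsg.fittingHall G ≠ ⊥ ∧ Cfsg.fittingHall G ≠ ⊤ ∧
      (∃ E : Subgroup G, Subgroup.IsComplement' (Cfsg.fittingHall G) E ∧ Cfsg.IsFrobeniusComplement E ∧
        ∀ e ∈ E, e ≠ 1 → Cfsg.fittingHall G ⊓ Subgroup.centralizer ({e} : Set G) = ⊥) ∧
      Group.IsNilpotent (G ⧸ Cfsg.fittingHall G) := by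
  obtain ⟨H, hH, hHn, hPH⟩ := CfsgLib.CN.exists_normal_maxNilpotent hCN P hP1 hPn
  have hH1 : H ≠ ⊥ := fun h => hP1 (le_bot_iff.mp (h ▸ hPH))
  have hH2 : H ≠ ⊤ := fun h =>
    hnn (Group.nilpotent_of_mulEquiv (_h := hH.1) ((MulEquiv.subgroupCongr h).trans Subgroup.topEquiv))
  obtain ⟨E, hE, hEfrob, hfpf, ⟨e⟩⟩ := CfsgLib.CN.exists_frobenius_complement hCN hH hHn hH1 hH2
  have heq := CfsgLib.CN.fittingHall_eq hCN hH hHn hH1
  refine ⟨heq ▸ hH1, heq ▸ hH2, ⟨E, heq ▸ hE, hEfrob, fun a ha ha1 => heq ▸ hfpf a ha ha1⟩, ?_⟩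
  have := hHn
  obtain ⟨r, hr, d, ρ, hV, hρ⟩ := CfsgLib.CN.exists_rep_of_fpf E H hH1 hfpf
  have := CfsgLib.CN.isNilpotent_of_fpf hρ (CfsgLib.CN.isCNGroup_subgroup hCN E)
  have h : Group.IsNilpotent (G ⧸ H) := Group.nilpotent_of_mulEquiv e
  exact Group.nilpotent_of_mulEquiv (QuotientGroup.quotientMulEquivOfEq heq.symm)

end Cfsg.Agent.S1474
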