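import Cfsg.Statements.S1475
import Cfsg.Agent.PrimeGraph.ThreePrimes

set_option autoImplicit false
open Cfsg

namespace Cfsg.Agent.S1475

/-- Let G be a finite solvable group such that the order of every element is a prime power (1 included). Then at most two distinct primes divide the order of G. -/
theorem result {G : Type*} [Group G] [Finite G] [Group.IsSolvable G] (h : ∀ g : G, IsPrimePow (orderOf g) ∨ g = 1) :
    (Nat.card G).primeFactors.card ≤ 2 := by
  by_contra hlt
  rw [not_le] at hlt
  obtain ⟨p, q, r, hp, hq, hr, hpq, hpr, hqr⟩ := Finset.two_lt_card_iff.mp hlt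
  rw [Nat.mem_primeFactors] at hp hq hr
  obtain ⟨x, hx⟩ := CfsgLib.PrimeGraph.exists_adjacent_of_isSolvable hp.1 hq.1 hr.1 hpq hpr hqr hp.2.1 hq.2.1 hr.2.1
  have key : ∀ a b : ℕ, a.Prime → b.Prime → a ≠ b → orderOf x ≠ a * b := by
    intro a b ha hb hab he
    rcases h x with hx' | hx'
    · rw [he] at hx'
      obtain ⟨c, hc⟩ := (isPrimePow_iff_unique_prime_dvd.mp hx').exists
      have h1 := (isPrimePow_iff_unique_prime_dvd.mp hx').unique ⟨ha, dvd_mul_right a b⟩ ⟨hb, dvd_mul_left b a⟩
      exact hab h1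
    · rw [hx', orderOf_one] at he
      exact absurd (Nat.eq_one_of_mul_eq_one_right he.symm) ha.ne_one
  rcases hx with hx | hx | hx
  · exact key p q hp.1 hq.1 hpq hx
  · exact key p r hp.1 hr.1 hpr hx
  · exact key q r hq.1 hr.1 hqr hx

end Cfsg.Agent.S1475
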