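import Cfsg.Statements.S1476
import Cfsg.Agent.CN.Solvable

set_option autoImplicit false
open Cfsg

namespace Cfsg.Agent.S1476

/-- Let G be a finite solvable group in which every non-identity element has nilpotent centralizer. Then either G is nilpotent; or G has a normal subgroup K with a Frobenius complement E (K E = G, K ∩ E = 1, E meets its conjugates by outside elements trivially) such that E is cyclic or E is generated by two elementwise-commuting subgroups, one cyclic of odd order and one isomorphic to a generalized quaternion group; or G is a three-step group with respect to some prime p. -/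
theorem result {G : Type*} [Group G] [Finite G] [Group.IsSolvable G] (hCN : Cfsg.IsCNGroup G) :
    Group.IsNilpotent G ∨
      (∃ K E : Subgroup G, K.Normal ∧ Subgroup.IsComplement' K E ∧ Cfsg.IsFrobeniusComplement E ∧
        (IsCyclic E ∨ ∃ C Q : Subgroup G, C ⊔ Q = E ∧ (∀ a ∈ C, ∀ b ∈ Q, a * b = b * a) ∧ IsCyclic C ∧ Odd (Nat.card C) ∧
          ∃ n : ℕ, Nonempty (↥Q ≃* QuaternionGroup (2 ^ n)))) ∨
      ∃ p : ℕ, p.Prime ∧ Cfsg.IsThreeStepGroup p G := by
  by_cases hnil : Group.IsNilpotent G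
  · exact Or.inl hnil
  right
  have hne : (⊤ : Subgroup G) ≠ ⊥ := fun h => hnil <| by
    have : Subsingleton G := Subgroup.subsingleton_iff.mp (subsingleton_of_bot_eq_top h.symm)
    infer_instance
  obtain ⟨p, N, hp, hNn, -, hN1, hNp⟩ := CfsgLib.CN.exists_normal_pGroup_le (⊤ : Subgroup G)
    (Group.isSolvable_of_isSolvable_injective
      (f := ((Subgroup.topEquiv : (⊤ : Subgroup G) ≃* G)).toMonoidHom) Subgroup.topEquiv.injective) hne
  have := Fact.mk hp
  have hF : Cfsg.pCore p G ≠ ⊥ := fun h =>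
    hN1 (le_bot_iff.mp (h ▸ CfsgLib.Constrained.le_pCore hNn hNp))
  obtain ⟨P⟩ := (Sylow.nonempty : Nonempty (Sylow p G))
  rcases CfsgLib.CN.normal_sylow_or_threeStep hCN hF P with hPn | h3
  · left
    have hP1 : (P : Subgroup G) ≠ ⊥ := fun h => hN1 (le_bot_iff.mp
      (h ▸ (haveI := hNn; hNp.le_sylow_of_normal P)))
    obtain ⟨H, hH, hHn, hPH⟩ := CfsgLib.CN.exists_normal_maxNilpotent hCN P hP1 hPn
    have hH1 : H ≠ ⊥ := fun h => hP1 (le_bot_iff.mp (h ▸ hPH))
    have hH2 : H ≠ ⊤ := fun h =>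
      hnil (Group.nilpotent_of_mulEquiv (_h := hH.1) ((MulEquiv.subgroupCongr h).trans Subgroup.topEquiv))
    obtain ⟨E, hE, hEfrob, hfpf, -⟩ := CfsgLib.CN.exists_frobenius_complement hCN hH hHn hH1 hH2
    have := hHn
    obtain ⟨r, hr, d, ρ, hV, hρ⟩ := CfsgLib.CN.exists_rep_of_fpf E H hH1 hfpf
    refine ⟨H, E, hHn, hE, hEfrob, ?_⟩
    rcases CfsgLib.CN.cyclic_or_quaternion_product hρ
      (CfsgLib.CN.isNilpotent_of_fpf hρ (CfsgLib.CN.isCNGroup_subgroup hCN E)) with
      hc | ⟨C, Q, hsup, hcomm, hCc, hCo, n, ⟨eQ⟩⟩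
    · exact Or.inl hc
    · refine Or.inr ⟨C.map E.subtype, Q.map E.subtype, ?_, ?_, ?_, ?_, n, ?_⟩
      · rw [← Subgroup.map_sup, hsup, ← MonoidHom.range_eq_map, Subgroup.range_subtype]
      · rintro _ ⟨a, ha, rfl⟩ _ ⟨b, hb, rfl⟩
        rw [← map_mul, ← map_mul, hcomm a ha b hb]
      · exact isCyclic_of_surjective _ (E.subtype.subgroupMap_surjective C)
      · rwa [Subgroup.card_map_of_injective E.subtype_injective]
      · exact ⟨(Q.equivMapOfInjective E.subtype E.subtype_injective).symm.trans eQ⟩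
  · exact Or.inr ⟨p, hp, h3⟩

end Cfsg.Agent.S1476
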