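import Cfsg.Statements.S1483
import Cfsg.Agent.CN.MaxNilpotent

set_option autoImplicit false
open Cfsg

namespace Cfsg.Agent.S1483

/-- Let G be a minimal simple group of odd order in which every non-identity element has nilpotent centralizer. Then any two nilpotent subgroups each contained in no larger nilpotent subgroup are either conjugate or of coprime orders; and for primes p, q, r: if some elements x, y ≠ 1 of p-power and q-power order commute, and some elements y', z ≠ 1 of q-power and r-power order commute, then some elements of p-power and r-power order, both ≠ 1, commute. -/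
theorem result {G : Type*} [Group G] [Finite G] (hG : Cfsg.IsMinSimpleOddOrder G) (hCN : Cfsg.IsCNGroup G) :
    (∀ H₁ H₂ : Subgroup G, (Group.IsNilpotent ↥H₁ ∧ ∀ L : Subgroup G, Group.IsNilpotent L → H₁ ≤ L → L = H₁) → (Group.IsNilpotent ↥H₂ ∧ ∀ L : Subgroup G, Group.IsNilpotent L → H₂ ≤ L → L = H₂) → (∃ g : G, H₂ = H₁.map (MulAut.conj g).toMonoidHom) ∨ (Nat.card H₁).Coprime (Nat.card H₂)) ∧
      ∀ (p q r : ℕ), p.Prime → q.Prime → r.Prime → ∀ (x y y' z : G), x ≠ 1 → y ≠ 1 → y' ≠ 1 → z ≠ 1 →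
        IsPGroup p (Subgroup.zpowers x) → IsPGroup q (Subgroup.zpowers y) → IsPGroup q (Subgroup.zpowers y') → IsPGroup r (Subgroup.zpowers z) →
        x * y = y * x → y' * z = z * y' →
        ∃ x' z' : G, x' ≠ 1 ∧ z' ≠ 1 ∧ IsPGroup p (Subgroup.zpowers x') ∧ IsPGroup r (Subgroup.zpowers z') ∧ x' * z' = z' * x' := by
  refine ⟨fun H₁ H₂ h₁ h₂ => ?_, ?_⟩
  · by_cases hcop : (Nat.card H₁).Coprime (Nat.card H₂)
    · exact Or.inr hcop
    · obtain ⟨p, hp, hd₁, hd₂⟩ := Nat.Prime.not_coprime_iff_dvd.mp hcop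
      have := Fact.mk hp
      exact Or.inl (CfsgLib.CN.isConj_of_shared_prime hCN h₁ h₂ hd₁ hd₂)
  intro p q r hp hq hr x y y' z hx hy hy' hz hxp hyq hy'q hzr hxy hyz
  by_cases hpr : p = r
  · subst hpr
    exact ⟨x, x, hx, hx, hxp, hxp, rfl⟩
  have := Fact.mk hp
  have := Fact.mk hq
  have := Fact.mk hr
  have hdvd : ∀ {s : ℕ} [Fact s.Prime] {a : G}, a ≠ 1 → IsPGroup s (Subgroup.zpowers a) →
      ∀ {H : Subgroup G}, a ∈ H → s ∣ Nat.card H := by
    intro s _ a ha hap H haH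
    obtain ⟨k, hk⟩ := CfsgLib.CN.orderOf_pow_of_isPGroup_zpowers hap
    have hk0 : k ≠ 0 := fun h0 => ha (orderOf_eq_one_iff.mp (by rw [hk, h0, pow_zero]))
    exact (dvd_pow_self s hk0).trans (hk ▸ H.orderOf_dvd_natCard haH)
  have hnil : ∀ {a b : G}, a ≠ 1 → a * b = b * a →
      Group.IsNilpotent ↥(Subgroup.zpowers a ⊔ Subgroup.zpowers b) := by
    intro a b ha hab
    exact CfsgLib.CN.centralizer_nilpotent hCN ha (sup_le
      (Subgroup.zpowers_le_of_mem (Subgroup.mem_centralizer_singleton_iff.mpr rfl))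
      (Subgroup.zpowers_le_of_mem (Subgroup.mem_centralizer_singleton_iff.mpr hab.symm)))
  obtain ⟨H₁, hH₁, hle₁⟩ := CfsgLib.CN.exists_maxNilpotent (hnil hx hxy)
  obtain ⟨H₂, hH₂, hle₂⟩ := CfsgLib.CN.exists_maxNilpotent (hnil hy' hyz)
  obtain ⟨g, rfl⟩ := CfsgLib.CN.isConj_of_shared_prime hCN hH₁ hH₂ (p := q)
    (hdvd hy hyq (hle₁ (Subgroup.mem_sup_right (Subgroup.mem_zpowers y))))
    (hdvd hy' hy'q (hle₂ (Subgroup.mem_sup_left (Subgroup.mem_zpowers y'))))
  obtain ⟨z₁, hz₁, hzz⟩ := hle₂ (Subgroup.mem_sup_right (Subgroup.mem_zpowers z))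
  have hzz' : g * z₁ * g⁻¹ = z := hzz
  have hz₁r : IsPGroup r (Subgroup.zpowers z₁) := by
    have h := hzr.map (MulAut.conj g⁻¹).toMonoidHom
    rwa [MonoidHom.map_zpowers, show (MulAut.conj g⁻¹).toMonoidHom z = z₁ by
      rw [← hzz']; simp [mul_assoc]] at h
  refine ⟨x, z₁, hx, fun h => hz (by rw [← hzz', h]; simp), hxp, hz₁r, ?_⟩
  exact CfsgLib.CN.commute_of_isPGroup hH₁.1 hpr
    (hle₁ (Subgroup.mem_sup_left (Subgroup.mem_zpowers x))) hz₁ hxp hz₁r

end Cfsg.Agent.S1483
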