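import Cfsg.Statements.S1485


set_option autoImplicit false
open Cfsg

namespace Cfsg.Agent.S1485

/-- Let H be a normal subgroup of the finite group G and θ an irreducible character of H. On H, the function induced from θ equals r times the sum of the distinct G-conjugates of θ, where r is the number of elements of G fixing θ under conjugation divided by the order of H (the index of H in the inertia group). -/
theorem result {G : Type*} [Group G] [Fintype G] (H : Subgroup G) [hN : H.Normal] (θ : H → ℂ) (hθ : Cfsg.IsIrrCharacter H θ) : (fun h : H => Cfsg.indFun H θ h) = ((Nat.card {g : G // ∀ h : H, θ ⟨g * h * g⁻¹, hN.conj_mem h h.2 g⟩ = θ h} : ℂ) / (Nat.card H : ℂ)) • ∑ᶠ ψ ∈ {ψ : H → ℂ | ∃ g : G, ψ = fun h : H => θ ⟨g * h * g⁻¹, hN.conj_mem h h.2 g⟩}, ψ := by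
  classical
  let F : G → H → ℂ := fun x h => θ ⟨x * h * x⁻¹, hN.conj_mem h h.2 x⟩
  have hmul : ∀ (x y : G) (h : H), F (x * y) h = F x ⟨y * h * y⁻¹, hN.conj_mem h h.2 y⟩ := by
    intro x y h
    exact congrArg θ (Subtype.ext (show x * y * h * (x * y)⁻¹ = x * (y * h * y⁻¹) * x⁻¹ by group))
  have hone : F 1 = θ := by
    funext h; exact congrArg θ (Subtype.ext (by simp))
  have hset : {ψ : H → ℂ | ∃ g : G, ψ = F g} = ↑(Finset.univ.image F) := by
    ext ψ; simp [eq_comm]
  have hfib : ∀ b ∈ Finset.univ.image F, (Finset.univ.filter fun x => F x = b).card =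
      Nat.card {g : G // ∀ h : H, θ ⟨g * h * g⁻¹, hN.conj_mem h h.2 g⟩ = θ h} := by
    intro b hb
    obtain ⟨g₀, -, rfl⟩ := Finset.mem_image.mp hb
    rw [Nat.card_eq_fintype_card, Fintype.card_subtype]
    refine Finset.card_bij (fun x _ => x * g₀⁻¹) ?_ ?_ ?_
    · intro x hx
      simp only [Finset.mem_filter, Finset.mem_univ, true_and] at hx ⊢
      intro h
      show F (x * g₀⁻¹) h = θ h
      rw [hmul, hx, ← hmul, mul_inv_cancel, hone]
    · intro x _ y _ hxy
      exact mul_right_cancel hxy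
    · intro t ht
      simp only [Finset.mem_filter, Finset.mem_univ, true_and] at ht
      refine ⟨t * g₀, ?_, mul_inv_cancel_right t g₀⟩
      simp only [Finset.mem_filter, Finset.mem_univ, true_and]
      funext h
      rw [hmul]
      exact ht _
  funext h
  show Cfsg.indFun H θ h = (((Nat.card {g : G // ∀ h : H, θ ⟨g * h * g⁻¹, hN.conj_mem h h.2 g⟩ = θ h} : ℂ) /
    (Nat.card H : ℂ)) • ∑ᶠ ψ ∈ {ψ : H → ℂ | ∃ g : G, ψ = F g}, ψ) h
  rw [hset, finsum_mem_coe_finset, Pi.smul_apply, Finset.sum_apply, smul_eq_mul]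
  have hsum : ∑ x : G, Cfsg.extendByZero H θ (x⁻¹ * h * x) = ∑ x : G, F x h := by
    refine Fintype.sum_equiv (Equiv.inv G) _ _ fun x => ?_
    have hm : x⁻¹ * (h : G) * x ∈ H := by simpa using hN.conj_mem h h.2 x⁻¹
    show Cfsg.extendByZero H θ (x⁻¹ * h * x) = F x⁻¹ h
    rw [show x⁻¹ * (h : G) * x = ((⟨x⁻¹ * h * x, hm⟩ : H) : G) from rfl]
    unfold Cfsg.extendByZero
    rw [Subtype.val_injective.extend_apply]
    exact congrArg θ (Subtype.ext (by simp))
  unfold Cfsg.indFun
  rw [hsum, Finset.sum_comp (fun b : H → ℂ => b h) F]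
  rw [Finset.mul_sum, Finset.mul_sum]
  refine Finset.sum_congr rfl fun b hb => ?_
  rw [hfib b hb, nsmul_eq_mul]
  ring

end Cfsg.Agent.S1485
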