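import Cfsg.Statements.S1487
import Cfsg.Agent.Glauberman.AbelianInertia

set_option autoImplicit false
open Cfsg

namespace Cfsg.Agent.S1487

/-- Let A ≤ H be normal subgroups of the finite group G and θ an irreducible character of H. Then θ takes the value θ 1 on all of A if and only if the function induced from θ to G takes its value at 1 on all of A. -/
theorem result {G : Type*} [Group G] [Fintype G] (A H : Subgroup G) [A.Normal] [H.Normal] (hAH : A ≤ H) (θ : H → ℂ) (hθ : Cfsg.IsIrrCharacter H θ) : (∀ a : H, (a : G) ∈ A → θ a = θ 1) ↔ (∀ a : G, a ∈ A → Cfsg.indFun H θ a = Cfsg.indFun H θ 1) := by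
  classical
  haveI := Fintype.ofFinite H
  have hA : ∀ x a : G, a ∈ A → x⁻¹ * a * x ∈ A := fun x a ha => by
    simpa using (inferInstance : A.Normal).conj_mem a ha x⁻¹
  have hval : ∀ a : G, a ∈ A → Cfsg.indFun H θ a = (Nat.card H : ℂ)⁻¹ *
      ∑ x : G, Cfsg.extendByZero H θ (x⁻¹ * a * x) := fun a _ => rfl
  constructor
  · intro h a ha
    rw [hval a ha, hval 1 (one_mem A)]
    congr 1
    refine Finset.sum_congr rfl fun x _ => ?_
    rw [CfsgLib.Chars.Induced.extendByZero_mem θ (hAH (hA x a ha)),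
      CfsgLib.Chars.Induced.extendByZero_mem θ (hAH (hA x 1 (one_mem A))), h _ (hA x a ha),
      show (⟨x⁻¹ * 1 * x, hAH (hA x 1 (one_mem A))⟩ : H) = 1 from Subtype.ext (by simp)]
  · intro h a ha
    have hc := CfsgLib.Chars.isCharacter_of_isIrrCharacter hθ
    have h1 := h (a : G) ha
    rw [hval _ ha, hval 1 (one_mem A)] at h1
    have h2 := mul_left_cancel₀ (inv_ne_zero (Nat.cast_ne_zero.2 Nat.card_pos.ne')) h1
    have h3 := congrArg Complex.re h2
    simp only [Complex.re_sum] at h3
    obtain ⟨d, -, hd⟩ := CfsgLib.Chars.exists_pos_natCast_map_one hθ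
    have hle : ∀ x : G, (Cfsg.extendByZero H θ (x⁻¹ * (a : G) * x)).re ≤
        (Cfsg.extendByZero H θ (x⁻¹ * 1 * x)).re := by
      intro x
      rw [CfsgLib.Chars.Induced.extendByZero_mem θ (hAH (hA x a ha)),
        CfsgLib.Chars.Induced.extendByZero_mem θ (hAH (hA x 1 (one_mem A))),
        show (⟨x⁻¹ * 1 * x, hAH (hA x 1 (one_mem A))⟩ : H) = 1 from Subtype.ext (by simp), hd]
      refine (Complex.re_le_norm _).trans ((CfsgLib.Chars.norm_apply_le hc _).trans ?_)
      rw [hd]
      simp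
    have h4 := (Finset.sum_eq_sum_iff_of_le fun x _ => hle x).1 h3 1 (Finset.mem_univ 1)
    have hmem : (1 : G)⁻¹ * (a : G) * 1 ∈ H := hAH (hA 1 a ha)
    have h5 : (1 : G)⁻¹ * 1 * 1 ∈ H := hAH (hA 1 1 (one_mem A))
    rw [CfsgLib.Chars.Induced.extendByZero_mem θ hmem,
      CfsgLib.Chars.Induced.extendByZero_mem θ h5,
      show (⟨(1 : G)⁻¹ * (a : G) * 1, hmem⟩ : H) = a from Subtype.ext (by simp),
      show (⟨(1 : G)⁻¹ * 1 * 1, h5⟩ : H) = 1 from Subtype.ext (by simp), hd] at h4
    simp only [Complex.natCast_re] at h4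
    have h6 : ‖θ a‖ ≤ (θ a).re := by
      rw [h4]
      refine (CfsgLib.Chars.norm_apply_le hc a).trans ?_
      rw [hd]; simp
    have h7 : (θ a).im = 0 := by
      have := Complex.re_le_norm (θ a)
      have h8 : ‖θ a‖ = |(θ a).re| := by
        rw [abs_of_nonneg (le_trans (norm_nonneg _) h6)]
        linarith
      exact Complex.abs_re_eq_norm.1 h8.symm
    rw [hd]
    exact Complex.ext (by simpa using h4) (by simpa using h7)


end Cfsg.Agent.S1487
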