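import Cfsg.Statements.S1488


set_option autoImplicit false
open Cfsg

namespace Cfsg.Agent.S1488

/-- Let A be a normal subgroup of the finite group G contained in the subgroup H, let θ be a function on H and θ₁ a function on the image of H in G ⧸ A whose composite with the projection is θ. Then the function induced from θ₁ to G ⧸ A, composed with the projection G → G ⧸ A, equals the function induced from θ to G. -/
theorem result {G : Type*} [Group G] [Fintype G] (A H : Subgroup G) [A.Normal] (hAH : A ≤ H) [Fintype (G ⧸ A)] [Fintype ↥(H.map (QuotientGroup.mk' A))] (θ : H → ℂ) (θ₁ : ↥(H.map (QuotientGroup.mk' A)) → ℂ) (hθ : ∀ x : H, θ₁ ⟨QuotientGroup.mk' A x, Subgroup.mem_map_of_mem _ x.2⟩ = θ x) (g : G) : Cfsg.indFun (H.map (QuotientGroup.mk' A)) θ₁ (QuotientGroup.mk' A g) = Cfsg.indFun H θ g := by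
  classical
  have hmem : ∀ y : G, (QuotientGroup.mk' A y ∈ H.map (QuotientGroup.mk' A) ↔ y ∈ H) := by
    intro y
    refine ⟨fun hy => ?_, fun hy => Subgroup.mem_map_of_mem _ hy⟩
    obtain ⟨z, hz, hzy⟩ := Subgroup.mem_map.mp hy
    have h2 : z⁻¹ * y ∈ H := hAH (QuotientGroup.eq.mp hzy)
    simpa using H.mul_mem hz h2
  have hext : ∀ y : G, Cfsg.extendByZero (H.map (QuotientGroup.mk' A)) θ₁ (QuotientGroup.mk' A y) =
      Cfsg.extendByZero H θ y := by
    intro y
    by_cases hy : y ∈ H
    · exact (Subtype.val_injective.extend_apply θ₁ 0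
        (⟨QuotientGroup.mk' A y, (hmem y).mpr hy⟩ : ↥(H.map (QuotientGroup.mk' A)))).trans
        ((hθ ⟨y, hy⟩).trans (Subtype.val_injective.extend_apply θ 0 (⟨y, hy⟩ : H)).symm)
    · unfold Cfsg.extendByZero
      rw [Function.extend_apply' _ _ _ (fun ⟨a, ha⟩ => hy ((hmem y).mp (ha ▸ a.2))),
        Function.extend_apply' _ _ _ (fun ⟨a, ha⟩ => hy (ha ▸ a.2))]
      rfl
  let f : G ⧸ A → ℂ := fun q =>
    Cfsg.extendByZero (H.map (QuotientGroup.mk' A)) θ₁ (q⁻¹ * QuotientGroup.mk' A g * q)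
  have hsum : ∑ x : G, Cfsg.extendByZero H θ (x⁻¹ * g * x) = (Nat.card A : ℂ) * ∑ q : G ⧸ A, f q := by
    have h1 : ∀ x : G, Cfsg.extendByZero H θ (x⁻¹ * g * x) = f (QuotientGroup.mk' A x) := fun x => by
      rw [← hext]; simp [f]
    rw [Finset.sum_congr rfl fun x _ => h1 x, ← Finset.sum_fiberwise (Finset.univ) (QuotientGroup.mk' A)
      (fun x => f (QuotientGroup.mk' A x)), Finset.mul_sum]
    refine Finset.sum_congr rfl fun q _ => ?_
    rw [Finset.sum_congr rfl fun x hx => congrArg f (Finset.mem_filter.mp hx).2, Finset.sum_const,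
      nsmul_eq_mul]
    congr 2
    obtain ⟨q₀, rfl⟩ := QuotientGroup.mk'_surjective A q
    rw [Nat.card_eq_fintype_card, Fintype.subtype_card (Finset.univ.filter (· ∈ A)) (by simp) |>.trans rfl]
    refine Finset.card_bij (fun x _ => q₀⁻¹ * x) ?_ ?_ ?_
    · intro x hx
      simp only [Finset.mem_filter, Finset.mem_univ, true_and] at hx ⊢
      exact QuotientGroup.eq.mp hx.symm
    · intro x _ y _ hxy
      exact mul_left_cancel hxy
    · intro a ha
      simp only [Finset.mem_filter, Finset.mem_univ, true_and] at ha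
      refine ⟨q₀ * a, ?_, inv_mul_cancel_left q₀ a⟩
      simp only [Finset.mem_filter, Finset.mem_univ, true_and]
      exact (QuotientGroup.eq.mpr (by simpa using ha)).symm
  have hcard : (Nat.card H : ℂ) = (Nat.card ↥(H.map (QuotientGroup.mk' A)) : ℂ) * (Nat.card A : ℂ) := by
    have h1 := Subgroup.card_mul_index ((QuotientGroup.mk' A).subgroupMap H).ker
    have h2 : ((QuotientGroup.mk' A).subgroupMap H).ker = A.subgroupOf H := by
      ext x; simp [Subgroup.mem_subgroupOf, Subtype.ext_iff]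
    rw [Subgroup.index_ker, MonoidHom.range_eq_top.mpr ((QuotientGroup.mk' A).subgroupMap_surjective H),
      Subgroup.card_top, h2, Nat.card_congr (Subgroup.subgroupOfEquivOfLe hAH).toEquiv] at h1
    rw [← h1]; push_cast; ring
  have hA0 : (Nat.card A : ℂ) ≠ 0 := Nat.cast_ne_zero.mpr Nat.card_pos.ne'
  unfold Cfsg.indFun
  rw [hsum, hcard]
  show (Nat.card ↥(H.map (QuotientGroup.mk' A)) : ℂ)⁻¹ * ∑ q, f q = _
  field_simp

end Cfsg.Agent.S1488
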