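import Cfsg.Statements.S1489
import Cfsg.Agent.Glauberman.AbelianInertia

set_option autoImplicit false
open Cfsg

namespace Cfsg.Agent.S1489

/-- Let H be a normal subgroup of the finite group G, θ an irreducible character of H, and T the inertia group of θ (the elements g with θ(g h g⁻¹) = θ(h) for all h ∈ H). If ψ and ψ' are irreducible characters of T having nonzero inner product with the function induced from θ to T, then the function induced from ψ to G is an irreducible character of G, and it equals the one induced from ψ' only if ψ = ψ'. -/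
theorem result {G : Type*} [Group G] [Fintype G] (H T : Subgroup G) [hN : H.Normal] [Fintype T] (θ : H → ℂ) (hθ : Cfsg.IsIrrCharacter H θ) (hT : ∀ g : G, g ∈ T ↔ ∀ h : H, θ ⟨g * h * g⁻¹, hN.conj_mem h h.2 g⟩ = θ h) (hHT : H ≤ T) (ψ ψ' : T → ℂ) (hψ : Cfsg.IsIrrCharacter T ψ) (hψ' : Cfsg.IsIrrCharacter T ψ') (hc : Cfsg.classInner (Cfsg.indFun (H.subgroupOf T) (fun x => θ ⟨(x : T), Subgroup.mem_subgroupOf.mp x.2⟩)) ψ ≠ 0) (hc' : Cfsg.classInner (Cfsg.indFun (H.subgroupOf T) (fun x => θ ⟨(x : T), Subgroup.mem_subgroupOf.mp x.2⟩)) ψ' ≠ 0) : Cfsg.IsIrrCharacter G (Cfsg.indFun T ψ) ∧ (Cfsg.indFun T ψ = Cfsg.indFun T ψ' → ψ = ψ') := by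
  classical
  haveI := Fintype.ofFinite H
  haveI := Fintype.ofFinite (H.subgroupOf T)
  let θ' : Cfsg.IrrCharacter H := ⟨θ, hθ⟩
  have hT' : T = CfsgLib.Chars.Induced.inertia H θ := by
    ext g
    rw [CfsgLib.Chars.Induced.mem_inertia_iff_forall, hT g]
    refine ⟨fun h n n' hn => ?_, fun h n => h n _ rfl⟩
    rw [← h n]
    exact congrArg θ (Subtype.ext hn)
  let eN : H.subgroupOf T ≃* H := Subgroup.subgroupOfEquivOfLe hHT
  let θN : Cfsg.IrrCharacter (H.subgroupOf T) := CfsgLib.Glauberman.irrPull eN θ'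
  have hne : ∀ φ : T → ℂ, Cfsg.IsIrrCharacter T φ → Cfsg.classInner (Cfsg.indFun (H.subgroupOf T)
      (fun x => θ ⟨(x : T), Subgroup.mem_subgroupOf.mp x.2⟩)) φ ≠ 0 →
      CfsgLib.Chars.Induced.mult (fun n : H => φ (Subgroup.inclusion hHT n)) θ ≠ 0 := by
    intro φ hφ h0
    have h1 : CfsgLib.Chars.Induced.mult (Cfsg.indFun (H.subgroupOf T) (θN : H.subgroupOf T → ℂ))
        φ ≠ 0 := (CfsgLib.Chars.Induced.mult_ne_zero_iff
      (CfsgLib.Chars.Induced.isCharacter_indFun _ (CfsgLib.Chars.isCharacter_coe θN)) ⟨φ, hφ⟩).2 h0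
    rw [show φ = ((⟨φ, hφ⟩ : Cfsg.IrrCharacter T) : T → ℂ) from rfl,
      CfsgLib.Chars.Induced.mult_indFun_irr] at h1
    simp only [CfsgLib.Chars.Induced.mult] at h1 ⊢
    rwa [← CfsgLib.Chars.Induced.classInner_comp_equiv eN
      (fun n : H => φ (Subgroup.inclusion hHT n))]
  exact ⟨CfsgLib.Chars.Induced.isIrrCharacter_indFun_inertia (θ := θ') hT' hHT ⟨ψ, hψ⟩
      (hne ψ hψ hc), fun h =>
    congrArg Subtype.val (CfsgLib.Chars.Induced.indFun_inertia_injective (θ := θ') hT' hHT ⟨ψ, hψ⟩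
      ⟨ψ', hψ'⟩ (hne ψ hψ hc) (hne ψ' hψ' hc') h)⟩


end Cfsg.Agent.S1489
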