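import Cfsg.Statements.S1491
import Cfsg.Agent.Glauberman.AbelianInertia

set_option autoImplicit false
open Cfsg

namespace Cfsg.Agent.S1491

/-- Let H be a normal subgroup of the finite group G and θ an irreducible character of H with inertia group T, where T/H is abelian (commutators of T lie in H) and the index of H in T is coprime to the order of H. Then the function induced from θ is the sum of a set of exactly [T:H] irreducible characters of G, each of degree [G:T] * θ(1). -/
theorem result {G : Type*} [Group G] [Fintype G] (H T : Subgroup G) [hN : H.Normal] (θ : H → ℂ) (hθ : Cfsg.IsIrrCharacter H θ) (hT : ∀ g : G, g ∈ T ↔ ∀ h : H, θ ⟨g * h * g⁻¹, hN.conj_mem h h.2 g⟩ = θ h) (hab : ∀ x ∈ T, ∀ y ∈ T, x * y * x⁻¹ * y⁻¹ ∈ H) (hcop : Nat.Coprime (Nat.card H) (H.relIndex T)) : ∃ C : Finset (G → ℂ), (∀ χ ∈ C, Cfsg.IsIrrCharacter G χ) ∧ C.card = H.relIndex T ∧ Cfsg.indFun H θ = ∑ χ ∈ C, χ ∧ ∀ χ ∈ C, χ 1 = (T.index : ℂ) * θ 1 := by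
  classical
  haveI := Fintype.ofFinite H
  let θ' : Cfsg.IrrCharacter H := ⟨θ, hθ⟩
  have hT' : T = CfsgLib.Chars.Induced.inertia H θ := by
    ext g
    rw [CfsgLib.Chars.Induced.mem_inertia_iff_forall, hT g]
    refine ⟨fun h n n' hn => ?_, fun h n => h n _ rfl⟩
    rw [← h n]
    exact congrArg θ (Subtype.ext hn)
  obtain ⟨e, C, he, hirr, hcard, hind, hdeg, hone⟩ :=
    CfsgLib.Glauberman.exists_indFun_eq_of_abelian_inertia H T θ' hT' hab
  obtain rfl := hone hcop.symm
  refine ⟨C, hirr, by simpa using hcard, hind.trans (by simp), fun χ hχ => (hdeg χ hχ).trans (by simp [θ'])⟩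


end Cfsg.Agent.S1491
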