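import Cfsg.Statements.S1492
import Cfsg.Agent.Chars.Basic.Restrict
import Cfsg.Agent.Chars.Basic.Kernel

set_option autoImplicit false
open Cfsg

namespace Cfsg.Agent.S1492

/-- Let ψ be an irreducible character of the finite group G and B ≤ D ≤ C subgroups with B normal in C, every commutator of an element of D with an element of C lying in B (so D/B is central in C/B), and ψ constant equal to ψ 1 on B. Then ψ(1) ^ 2 * |C| * |D| ≤ |G| ^ 2. -/
theorem result {G : Type*} [Group G] [Finite G] (ψ : G → ℂ) (hψ : Cfsg.IsIrrCharacter G ψ) (B C D : Subgroup G) (hBD : B ≤ D) (hDC : D ≤ C) (hBn : ∀ c ∈ C, ∀ b ∈ B, c * b * c⁻¹ ∈ B) (hcent : ∀ d ∈ D, ∀ c ∈ C, d * c * d⁻¹ * c⁻¹ ∈ B) (hker : ∀ b ∈ B, ψ b = ψ 1) : ‖ψ 1‖ ^ 2 * (Nat.card C : ℝ) * (Nat.card D : ℝ) ≤ (Nat.card G : ℝ) ^ 2 := by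
  classical
  haveI := Fintype.ofFinite G
  haveI := Fintype.ofFinite C
  let ψ' : Cfsg.IrrCharacter G := ⟨ψ, hψ⟩
  let B' : Subgroup C := B.subgroupOf C
  haveI : B'.Normal := ⟨fun b hb c => hBn c c.2 b hb⟩
  obtain ⟨c, hc, hres, hdeg⟩ := CfsgLib.Chars.exists_restrict_coeff ψ' C
  have hker' : ∀ θ : Cfsg.IrrCharacter C, c θ ≠ 0 → B' ≤ CfsgLib.Chars.charKer (θ : C → ℂ) := by
    intro θ hθ b hb
    have hz : ∀ φ : Cfsg.IrrCharacter C,
        0 ≤ ((φ : C → ℂ) 1).re - ((φ : C → ℂ) b).re := fun φ => by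
      obtain ⟨d, -, hd⟩ := CfsgLib.Chars.exists_pos_natCast_map_one φ.2
      have h1 := (Complex.re_le_norm ((φ : C → ℂ) b)).trans
        (CfsgLib.Chars.norm_apply_le (CfsgLib.Chars.isCharacter_coe φ) b)
      rw [hd] at h1 ⊢
      simp only [Complex.natCast_re, Complex.norm_natCast] at h1 ⊢
      linarith
    have hsum : ∑ φ, (c φ : ℝ) * (((φ : C → ℂ) 1).re - ((φ : C → ℂ) b).re) = 0 := by
      have e1 := congrArg Complex.re (congrFun hres 1)
      have e2 := congrArg Complex.re (congrFun hres b)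
      simp only [Finset.sum_apply, Pi.smul_apply, smul_eq_mul, Complex.re_sum, Complex.mul_re,
        Complex.natCast_re, Complex.natCast_im, zero_mul, sub_zero] at e1 e2
      simp only [mul_sub, Finset.sum_sub_distrib, ← e1, ← e2]
      show (ψ ((1 : C) : G)).re - (ψ (b : G)).re = 0
      rw [hker (b : G) hb, OneMemClass.coe_one, sub_self]
    have h0 := (Finset.sum_eq_zero_iff_of_nonneg fun φ _ =>
      mul_nonneg (Nat.cast_nonneg _) (hz φ)).1 hsum θ (Finset.mem_univ θ)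
    have hre : ((θ : C → ℂ) b).re = ((θ : C → ℂ) 1).re :=
      (sub_eq_zero.1 ((mul_eq_zero.1 h0).resolve_left (Nat.cast_ne_zero.2 hθ))).symm
    obtain ⟨d, -, hd⟩ := CfsgLib.Chars.exists_pos_natCast_map_one θ.2
    have hle := CfsgLib.Chars.norm_apply_le (CfsgLib.Chars.isCharacter_coe θ) b
    rw [hd] at hre hle
    simp only [Complex.natCast_re, Complex.norm_natCast] at hre hle
    have him : ((θ : C → ℂ) b).im = 0 := by
      refine Complex.abs_re_eq_norm.1 (le_antisymm (Complex.abs_re_le_norm _) ?_)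
      rw [hre]
      exact hle.trans (le_abs_self _)
    refine (CfsgLib.Chars.mem_charKer_iff (CfsgLib.Chars.isCharacter_coe θ)).2 ?_
    rw [hd]
    exact Complex.ext (by simpa using hre) (by simpa using him)
  have hsq : ∀ θ : Cfsg.IrrCharacter C, c θ ≠ 0 →
      Cfsg.charDegree (θ : C → ℂ) ^ 2 ≤ D.relIndex C := by
    intro θ hθ
    obtain ⟨φ, rfl⟩ := CfsgLib.Chars.exists_inflate_eq B' θ (hker' θ hθ)
    rw [CfsgLib.Chars.charDegree_inflate]
    refine (CfsgLib.Chars.charDegree_sq_le_index_center φ).trans ?_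
    have hle : (D.subgroupOf C).map (QuotientGroup.mk' B') ≤ Subgroup.center (C ⧸ B') := by
      rintro _ ⟨d, hd, rfl⟩
      refine Subgroup.mem_center_iff.2 (QuotientGroup.mk_surjective.forall.2 fun x => ?_)
      show (x : C ⧸ B') * (d : C ⧸ B') = (d : C ⧸ B') * (x : C ⧸ B')
      rw [← QuotientGroup.mk_mul, ← QuotientGroup.mk_mul, QuotientGroup.eq]
      have := hcent (d : G)⁻¹ (D.inv_mem hd) (x : G)⁻¹ (C.inv_mem x.2)
      simpa [B', Subgroup.mem_subgroupOf, mul_assoc] using this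
    refine Nat.le_of_dvd (Nat.pos_of_ne_zero Subgroup.index_ne_zero_of_finite) ?_
    refine (Subgroup.index_dvd_of_le hle).trans ?_
    exact Subgroup.index_map_dvd _ (QuotientGroup.mk'_surjective B')
  set m := D.relIndex C with hm
  have hbound : Cfsg.charDegree (ψ' : G → ℂ) ≤ C.index * Nat.sqrt m := by
    rw [hdeg]
    calc ∑ θ : Cfsg.IrrCharacter C, c θ * Cfsg.charDegree (θ : C → ℂ)
        ≤ ∑ θ : Cfsg.IrrCharacter C, c θ ^ 2 * Nat.sqrt m := by
          refine Finset.sum_le_sum fun θ _ => ?_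
          by_cases h0 : c θ = 0
          · simp [h0]
          · exact Nat.mul_le_mul (Nat.le_self_pow two_ne_zero _) (Nat.le_sqrt'.mpr (hsq θ h0))
      _ ≤ C.index * Nat.sqrt m := by rw [← Finset.sum_mul]; exact Nat.mul_le_mul_right _ hc
  have hsq' : Cfsg.charDegree (ψ' : G → ℂ) ^ 2 ≤ C.index ^ 2 * m :=
    (Nat.pow_le_pow_left hbound 2).trans
      (by rw [mul_pow]; exact Nat.mul_le_mul_left _ (Nat.sqrt_le' m))
  have hD : m * Nat.card D = Nat.card C := by
    rw [hm, ← Nat.card_congr (Subgroup.subgroupOfEquivOfLe hDC).toEquiv]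
    exact Subgroup.index_mul_card _
  have hnat : Cfsg.charDegree (ψ' : G → ℂ) ^ 2 * Nat.card C * Nat.card D ≤ Nat.card G ^ 2 := by
    calc Cfsg.charDegree (ψ' : G → ℂ) ^ 2 * Nat.card C * Nat.card D
        ≤ C.index ^ 2 * m * Nat.card C * Nat.card D :=
          Nat.mul_le_mul_right _ (Nat.mul_le_mul_right _ hsq')
      _ = C.index ^ 2 * (m * Nat.card D) * Nat.card C := by ring
      _ = Nat.card G ^ 2 := by rw [hD, ← Subgroup.index_mul_card C]; ring
  rw [show ψ 1 = ((Cfsg.charDegree (ψ' : G → ℂ) : ℕ) : ℂ) from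
    (CfsgLib.Chars.coe_charDegree ψ').symm, Complex.norm_natCast]
  exact_mod_cast hnat


end Cfsg.Agent.S1492
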