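import Cfsg.Statements.S1493
import Cfsg.Agent.Chars.GaloisHom.Basic
import Cfsg.Agent.Chars.Basic.Galois

set_option autoImplicit false
open Cfsg

namespace Cfsg.Agent.S1493

/-- Let G be a finite group of order a * b with a and b coprime, let k be coprime to a, and let χ be a character of G. Then there is a character χ' of G such that χ'(g) = χ(g ^ k) whenever the order of g divides a and χ'(g) = χ(g) whenever the order of g is coprime to a; moreover χ' is irreducible if χ is. -/
theorem result {G : Type*} [Group G] [Finite G] (a b k : ℕ) (hab : Nat.card G = a * b) (hcop : Nat.Coprime a b) (hk : Nat.Coprime k a) (χ : G → ℂ) (hχ : Cfsg.IsCharacter G χ) : ∃ χ' : G → ℂ, Cfsg.IsCharacter G χ' ∧ (Cfsg.IsIrrCharacter G χ → Cfsg.IsIrrCharacter G χ') ∧ (∀ g : G, orderOf g ∣ a → χ' g = χ (g ^ k)) ∧ (∀ g : G, Nat.Coprime (orderOf g) a → χ' g = χ g) := by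
  classical
  obtain ⟨k', h1, h2⟩ := Nat.chineseRemainder hcop k 1
  have hk' : k'.Coprime (Nat.card G) := by
    rw [hab]
    refine Nat.Coprime.mul_right ?_ ?_
    · rw [Nat.coprime_iff_gcd_eq_one, h1.gcd_eq]
      exact hk
    · rw [Nat.coprime_iff_gcd_eq_one, h2.gcd_eq, Nat.gcd_one_left]
  obtain ⟨σ, hσ⟩ := CfsgLib.GaloisHom.exists_ringHom_char Nat.card_pos hk'
  refine ⟨fun g => σ (χ g), CfsgLib.Chars.isCharacter_ringHom hχ σ,
    fun h => CfsgLib.Chars.isIrrCharacter_ringHom h σ, fun g hg => ?_, fun g hg => ?_⟩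
  · show σ (χ g) = _
    rw [hσ hχ g (orderOf_dvd_natCard g)]
    exact congrArg χ (pow_eq_pow_iff_modEq.2 (h1.of_dvd hg))
  · show σ (χ g) = _
    rw [hσ hχ g (orderOf_dvd_natCard g)]
    conv_rhs => rw [← pow_one g]
    exact congrArg χ (pow_eq_pow_iff_modEq.2 (h2.of_dvd
      (hg.dvd_of_dvd_mul_left (hab ▸ orderOf_dvd_natCard g))))


end Cfsg.Agent.S1493
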