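import Cfsg.Statements.S1494
import Cfsg.Agent.Chars.Basic

set_option autoImplicit false
open Cfsg

namespace Cfsg.Agent.S1494

theorem sub_mem_ideal_of_isCharacter {G : Type*} [Group G] [Finite G] {χ : G → ℂ} (h : Cfsg.IsCharacter G χ)
    (p : ℕ) (hp : p.Prime) (x y : G) (hx : orderOf x = p) (hxy : x * y = y * x) :
    ∃ ω : ℂ, IsIntegral ℤ ω ∧ χ (x * y) - χ y = (1 - Complex.exp (2 * Real.pi * Complex.I / p)) * ω := by
  classical
  set ε := Complex.exp (2 * Real.pi * Complex.I / p) with hε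
  haveI : NeZero p := ⟨hp.ne_zero⟩
  have hprim : IsPrimitiveRoot ε p := Complex.isPrimitiveRoot_exp p hp.ne_zero
  let A : Subgroup G := Subgroup.closure {x, y}
  haveI : IsMulCommutative A := by
    apply Subgroup.isMulCommutative_closure
    rintro a (rfl | rfl) b (rfl | rfl)
    · rfl
    · exact hxy
    · exact hxy.symm
    · rfl
  obtain ⟨s, hs⟩ := CfsgLib.Chars.exists_multiset_irr (CfsgLib.Chars.isCharacter_restrict h A)
  let x' : A := ⟨x, Subgroup.subset_closure (by simp)⟩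
  let y' : A := ⟨y, Subgroup.subset_closure (by simp)⟩
  have key : ∀ ψ : Cfsg.IrrCharacter A, ∃ ω : ℂ, IsIntegral ℤ ω ∧
      (ψ : A → ℂ) (x' * y') - (ψ : A → ℂ) y' = (1 - ε) * ω := by
    intro ψ
    obtain ⟨l, hl⟩ := CfsgLib.Chars.exists_monoidHom_of_map_one_eq_one (CfsgLib.Chars.isCharacter_coe ψ)
      (CfsgLib.Chars.map_one_eq_one_of_isMulCommutative ψ)
    have hlx : ((l x' : ℂˣ) : ℂ) ^ p = 1 := by
      rw [← Units.val_pow_eq_pow_val, ← map_pow,
        show x' ^ p = 1 from Subtype.ext (by simp [x', ← hx, pow_orderOf_eq_one]), map_one, Units.val_one]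
    obtain ⟨k, -, hk⟩ := hprim.eq_pow_of_pow_eq_one hlx (ξ := ((l x' : ℂˣ) : ℂ))
    refine ⟨-((∑ i ∈ Finset.range k, ε ^ i) * (ψ : A → ℂ) y'), ?_, ?_⟩
    · exact ((IsIntegral.sum _ fun i _ => (hprim.isIntegral hp.pos).pow i).mul
        (CfsgLib.Chars.isIntegral_apply (CfsgLib.Chars.isCharacter_coe ψ) _)).neg
    · rw [hl, hl, map_mul, Units.val_mul, ← hk]
      linear_combination -(((l y' : ℂˣ) : ℂ)) * geom_sum_mul ε k
  choose ω hω hωe using key
  refine ⟨(s.map ω).sum, IsIntegral.multiset_sum (fun z hz => ?_), ?_⟩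
  · obtain ⟨ψ, -, rfl⟩ := Multiset.mem_map.mp hz
    exact hω ψ
  · have e1 := congrFun hs (x' * y')
    have e2 := congrFun hs y'
    rw [Pi.multiset_sum_apply, Multiset.map_map] at e1 e2
    change χ (x * y) = _ at e1
    change χ y = _ at e2
    rw [e1, e2, ← Multiset.sum_map_sub, ← Multiset.sum_map_mul_left]
    exact congrArg Multiset.sum (Multiset.map_congr rfl fun ψ _ => hωe ψ)


/-- Let χ be a generalized character of the finite group G, p a prime, x an element of order p and y an element commuting with x. Then χ(x * y) − χ(y) = (1 − ε) * ω for some algebraic integer ω, where ε = exp(2πi/p). -/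
theorem result {G : Type*} [Group G] [Finite G] (χ : G → ℂ) (hχ : Cfsg.IsGeneralizedCharacter G χ) (p : ℕ) (hp : p.Prime) (x y : G) (hx : orderOf x = p) (hxy : x * y = y * x) : ∃ ω : ℂ, IsIntegral ℤ ω ∧ χ (x * y) - χ y = (1 - Complex.exp (2 * Real.pi * Complex.I / p)) * ω := by
  obtain ⟨φ, ψ, hφ, hψ, rfl⟩ := hχ
  obtain ⟨a, ha, hae⟩ := sub_mem_ideal_of_isCharacter hφ p hp x y hx hxy
  obtain ⟨b, hb, hbe⟩ := sub_mem_ideal_of_isCharacter hψ p hp x y hx hxy
  exact ⟨a - b, ha.sub hb, by simp only [Pi.sub_apply]; linear_combination hae - hbe⟩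

end Cfsg.Agent.S1494
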