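import Cfsg.Statements.S1495
import Mathlib


set_option autoImplicit false
open Cfsg

namespace Cfsg.Agent.S1495

/-- Let p be a prime, ε = exp(2πi/p), and n an integer such that n = (1 − ε) * ω for some algebraic integer ω. Then p divides n. -/
theorem result (p : ℕ) (hp : p.Prime) (n : ℤ) (ω : ℂ) (hω : IsIntegral ℤ ω) (h : (n : ℂ) = (1 - Complex.exp (2 * Real.pi * Complex.I / p)) * ω) : (p : ℤ) ∣ n := by
  obtain ⟨q, rfl⟩ := Nat.exists_eq_succ_of_ne_zero hp.ne_zero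
  set ε := Complex.exp (2 * Real.pi * Complex.I / ((q + 1 : ℕ) : ℂ)) with hεdef
  have hε : IsPrimitiveRoot ε (q + 1) := Complex.isPrimitiveRoot_exp (q + 1) (Nat.succ_ne_zero q)
  have hint : IsIntegral ℤ ε := hε.isIntegral (Nat.succ_pos q)
  have hv : ∀ k ∈ Finset.range q, ∃ v : ℂ, IsIntegral ℤ v ∧ 1 - ε = (1 - ε ^ (k + 1)) * v := by
    intro k hk
    have hη : IsPrimitiveRoot (ε ^ (k + 1)) (q + 1) := by
      refine hε.pow_of_coprime _ ?_
      refine ((hp.coprime_iff_not_dvd).mpr fun hd => ?_).symm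
      have := Nat.le_of_dvd (Nat.succ_pos k) hd
      have := Finset.mem_range.mp hk
      omega
    obtain ⟨j, -, hj⟩ := hη.eq_pow_of_pow_eq_one hε.pow_eq_one
    refine ⟨∑ i ∈ Finset.range j, (ε ^ (k + 1)) ^ i, IsIntegral.sum _ (fun i _ => (hint.pow _).pow _), ?_⟩
    rw [mul_neg_geom_sum, hj]
  choose! v hvint hv using hv
  have key : ((n : ℂ)) ^ q = ((q + 1 : ℕ) : ℂ) * ∏ k ∈ Finset.range q, (v k * ω) := by
    calc ((n : ℂ)) ^ q = ∏ _k ∈ Finset.range q, (1 - ε) * ω := by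
          rw [Finset.prod_const, Finset.card_range, ← h]
      _ = ∏ k ∈ Finset.range q, (1 - ε ^ (k + 1)) * (v k * ω) :=
          Finset.prod_congr rfl fun k hk => by rw [← mul_assoc, ← hv k hk]
      _ = _ := by rw [Finset.prod_mul_distrib, hε.prod_one_sub_pow_eq_order]; push_cast; ring
  have hr : IsIntegral ℤ (((n : ℚ) ^ q / (q + 1 : ℕ) : ℚ) : ℂ) := by
    have e : (((n : ℚ) ^ q / (q + 1 : ℕ) : ℚ) : ℂ) = ∏ k ∈ Finset.range q, (v k * ω) := by
      have hq0 : ((q + 1 : ℕ) : ℂ) ≠ 0 := Nat.cast_ne_zero.mpr (Nat.succ_ne_zero q)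
      rw [Rat.cast_div, Rat.cast_pow, Rat.cast_intCast, Rat.cast_natCast, key,
        mul_div_cancel_left₀ _ hq0]
    rw [e]
    exact IsIntegral.prod _ fun k hk => (hvint k hk).mul hω
  have hr' : IsIntegral ℤ ((n : ℚ) ^ q / (q + 1 : ℕ)) :=
    (isIntegral_algHom_iff (Algebra.ofId ℚ ℂ |>.restrictScalars ℤ) (algebraMap ℚ ℂ).injective).mp hr
  obtain ⟨m, hm⟩ := IsIntegrallyClosed.isIntegral_iff.mp hr'
  have hdiv : ((q + 1 : ℕ) : ℤ) ∣ n ^ q := by
    refine ⟨m, ?_⟩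
    have hq0 : ((q + 1 : ℕ) : ℚ) ≠ 0 := Nat.cast_ne_zero.mpr (Nat.succ_ne_zero q)
    rw [eq_intCast, eq_div_iff hq0] at hm
    exact_mod_cast (by rw [mul_comm]; exact hm.symm :
      (n : ℚ) ^ q = ((q + 1 : ℕ) : ℚ) * (m : ℚ))
  exact (Nat.prime_iff_prime_int.mp hp).dvd_of_dvd_pow hdiv

end Cfsg.Agent.S1495
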