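import Cfsg.Statements.S1504


set_option autoImplicit false
open Cfsg

namespace Cfsg.Agent.S1504

/-- Let W₁, W₂ be subgroups of a finite group with W₁ ⊓ W₂ = ⊥ whose elements commute, and W = W₁ ⊔ W₂. For linear characters φ, ψ of W with φ trivial on W₂ and ψ trivial on W₁, the function (1 − φ)(1 − ψ) vanishes on W₁ ∪ W₂; and the family of these functions, indexed by pairs (φ, ψ) with φ ≠ 1 ≠ ψ, is linearly independent over ℂ. -/
theorem result {G : Type*} [Group G] [Finite G] (W₁ W₂ : Subgroup G) (hdisj : W₁ ⊓ W₂ = ⊥) (hcomm : ∀ a ∈ W₁, ∀ b ∈ W₂, a * b = b * a) : (∀ φ ψ : ↥(W₁ ⊔ W₂) →* ℂˣ, (∀ w : ↥(W₁ ⊔ W₂), (w : G) ∈ W₂ → φ w = 1) → (∀ w : ↥(W₁ ⊔ W₂), (w : G) ∈ W₁ → ψ w = 1) → ∀ w : ↥(W₁ ⊔ W₂), ((w : G) ∈ W₁ ∨ (w : G) ∈ W₂) → (1 - (φ w : ℂ) - (ψ w : ℂ) + (φ w : ℂ) * (ψ w : ℂ)) = 0) ∧ LinearIndependent ℂ (fun p : {p : (↥(W₁ ⊔ W₂) →* ℂˣ) × (↥(W₁ ⊔ W₂) →* ℂˣ) // p.1 ≠ 1 ∧ p.2 ≠ 1 ∧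 (∀ w : ↥(W₁ ⊔ W₂), (w : G) ∈ W₂ → p.1 w = 1) ∧ (∀ w : ↥(W₁ ⊔ W₂), (w : G) ∈ W₁ → p.2 w = 1)} => fun w : ↥(W₁ ⊔ W₂) => 1 - (p.1.1 w : ℂ) - (p.1.2 w : ℂ) + (p.1.1 w : ℂ) * (p.1.2 w : ℂ)) := by
  classical
  constructor
  · intro φ ψ hφ hψ w hw
    rcases hw with hw | hw
    · simp [hψ w hw]
    · simp [hφ w hw]
  · set W := W₁ ⊔ W₂ with hW
    let u : (W →* ℂˣ) → (W →* ℂ) := fun φ => (Units.coeHom ℂ).comp φ
    have hu : Function.Injective u := fun a b h => MonoidHom.ext fun w => Units.ext (DFunLike.congr_fun h w)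
    have hext : ∀ a b : W →* ℂˣ, (∀ w : W, (w : G) ∈ W₁ → a w = b w) →
        (∀ w : W, (w : G) ∈ W₂ → a w = b w) → a = b := by
      intro a b h₁ h₂
      have hle : W ≤ (MonoidHom.eqLocus a b).map W.subtype := by
        refine sup_le (fun x hx => ?_) (fun x hx => ?_)
        · exact ⟨⟨x, Subgroup.mem_sup_left hx⟩, h₁ _ hx, rfl⟩
        · exact ⟨⟨x, Subgroup.mem_sup_right hx⟩, h₂ _ hx, rfl⟩
      refine MonoidHom.ext fun w => ?_
      obtain ⟨w', hw', he⟩ := hle w.2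
      rw [← (Subtype.ext he : w' = w)]
      exact hw'
    let I := {p : (W →* ℂˣ) × (W →* ℂˣ) // p.1 ≠ 1 ∧ p.2 ≠ 1 ∧
      (∀ w : W, (w : G) ∈ W₂ → p.1 w = 1) ∧ (∀ w : W, (w : G) ∈ W₁ → p.2 w = 1)}
    show LinearIndependent ℂ (fun p : I => fun w : W =>
      1 - (p.1.1 w : ℂ) - (p.1.2 w : ℂ) + (p.1.1 w : ℂ) * (p.1.2 w : ℂ))
    let E : ((W →* ℂ) →₀ ℂ) →ₗ[ℂ] (W → ℂ) :=
      Finsupp.linearCombination ℂ (fun f : W →* ℂ => (f : W → ℂ))
    let t : I → ((W →* ℂ) →₀ ℂ) := fun p =>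
      Finsupp.single (u 1) 1 - Finsupp.single (u p.1.1) 1 - Finsupp.single (u p.1.2) 1 +
        Finsupp.single (u (p.1.1 * p.1.2)) 1
    have hinj : LinearMap.ker E = ⊥ :=
      LinearMap.ker_eq_bot.mpr (linearIndependent_monoidHom (W : Type _) ℂ)
    have hE : (fun p : I => fun w : W => 1 - (p.1.1 w : ℂ) - (p.1.2 w : ℂ) +
        (p.1.1 w : ℂ) * (p.1.2 w : ℂ)) = E ∘ t := by
      funext p w
      simp [E, t, u, Finsupp.linearCombination_single]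
    rw [hE]
    refine LinearIndependent.map' ?_ E hinj
    rw [linearIndependent_iff']
    intro s c hc i hi
    have h1 := congrArg (fun f => f (u (i.1.1 * i.1.2))) hc
    simp only [Finsupp.finsetSum_apply, Finsupp.smul_apply, Finsupp.coe_zero, Pi.zero_apply] at h1
    rw [Finset.sum_eq_single i] at h1
    · obtain ⟨a1, a2, a3, a4⟩ := i.2
      have n1 : (1 : W →* ℂˣ) ≠ i.1.1 * i.1.2 := fun e => a1 <| hext _ _
        (fun w hw => by
          have := DFunLike.congr_fun e w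
          simpa [a4 w hw] using this.symm) (fun w hw => by simp [a3 w hw])
      have n2 : i.1.1 ≠ i.1.1 * i.1.2 := fun e => a2 <| MonoidHom.ext fun w => by
        simpa using (DFunLike.congr_fun e w).symm
      have n3 : i.1.2 ≠ i.1.1 * i.1.2 := fun e => a1 <| MonoidHom.ext fun w => by
        simpa using (DFunLike.congr_fun e w).symm
      simpa [t, Finsupp.single_apply, hu.eq_iff, n1, n2, n3, Ne.symm n1, Ne.symm n2, Ne.symm n3,
        smul_eq_mul] using h1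
    · intro j _ hji
      obtain ⟨a1, a2, a3, a4⟩ := i.2
      obtain ⟨b1, b2, b3, b4⟩ := j.2
      have r1 : ∀ w : W, (w : G) ∈ W₁ → (i.1.1 * i.1.2) w = i.1.1 w := fun w hw => by simp [a4 w hw]
      have r2 : ∀ w : W, (w : G) ∈ W₂ → (i.1.1 * i.1.2) w = i.1.2 w := fun w hw => by simp [a3 w hw]
      have n1 : (1 : W →* ℂˣ) ≠ i.1.1 * i.1.2 := fun e => a1 <| hext _ _
        (fun w hw => by rw [← r1 w hw, ← e]) (fun w hw => by simp [a3 w hw])
      have n2 : j.1.1 ≠ i.1.1 * i.1.2 := fun e => a2 <| hext _ _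
        (fun w hw => by simp [a4 w hw]) (fun w hw => by rw [← r2 w hw, ← e]; simp [b3 w hw])
      have n3 : j.1.2 ≠ i.1.1 * i.1.2 := fun e => a1 <| hext _ _
        (fun w hw => by rw [← r1 w hw, ← e]; simp [b4 w hw]) (fun w hw => by simp [a3 w hw])
      have n4 : j.1.1 * j.1.2 ≠ i.1.1 * i.1.2 := by
        intro e
        have e1 : j.1.1 = i.1.1 := hext _ _
          (fun w hw => by rw [← r1 w hw, ← e]; simp [b4 w hw]) (fun w hw => by simp [a3 w hw, b3 w hw])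
        rw [e1] at e
        exact hji (Subtype.ext (Prod.ext e1 (mul_left_cancel e)))
      simp [t, Finsupp.single_apply, hu.eq_iff, n1, n2, n3, n4]
    · exact fun h => absurd hi h

end Cfsg.Agent.S1504
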