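import Cfsg.Statements.S1507
import Cfsg.Agent.Chars.CyclicTI.Trichotomy

set_option autoImplicit false
open Cfsg

namespace Cfsg.Agent.S1507

open Classical in
/-- Let W₁, W₂ ≤ G form a self-normalising cyclic subgroup W = W₁ ⊔ W₂ of odd order with Nat.card W₁ < Nat.card W₂, and χ an orthonormal family of irreducible characters of G up to sign, indexed by the linear characters ω of W, with χ_1 = 1, χ_ω = ω on W outside W₁ ∪ W₂, and the induction identity for (1 − φ)(1 − ψ). Let θ be a class function of G vanishing on W outside W₁ ∪ W₂, and suppose fewer than 2 · Nat.card W₁ linear characters ω of W have ⟨θ, χ ω⟩ ≠ 0. Then one of: all ⟨θ, χ ω⟩ vanish; or there are ψ₀ and a with ⟨θ, χ ω⟩ = a when ω ψ₀⁻¹ is trivial on W₂ and 0 otherwise; or there are φ₀ and a with ⟨θ, χ ω⟩ = a when ω φ₀⁻¹ is trivial on W₁ and 0 otherwise. -/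
theorem result {G : Type*} [Group G] [Fintype G] (W₁ W₂ : Subgroup G) (hW : Cfsg.IsSelfNormalizingCyclic W₁ W₂) (hodd : Odd (Nat.card ↥(W₁ ⊔ W₂))) (χ : (↥(W₁ ⊔ W₂) →* ℂˣ) → (G → ℂ)) (hχ : Cfsg.IsCyclicTIFamily W₁ W₂ χ) (hlt : Nat.card W₁ < Nat.card W₂) (θ : G → ℂ) (hθ : Cfsg.IsClassFunction G θ) (hθV : ∀ w : ↥(W₁ ⊔ W₂), (w : G) ∉ W₁ → (w : G) ∉ W₂ → θ w = 0) (hfew : Nat.card {ω : ↥(W₁ ⊔ W₂) →* ℂˣ // Cfsg.classInner θ (χ ω) ≠ 0} < 2 * Nat.card W₁) : (∀ ω, Cfsg.classInner θ (χ ω) = 0) ∨ (∃ (ψ₀ : ↥(W₁ ⊔ W₂) →* ℂˣ) (a : ℂ), ∀ ω, Cfsg.classInner θ (χ ω) = if (∀ w : ↥(W₁ ⊔ W₂), (w : G) ∈ W₂ → (ω * ψ₀⁻¹) w = 1) then a else 0) ∨ (∃ (φ₀ : ↥(W₁ ⊔ W₂) →* ℂˣ) (a : ℂ), ∀ ω, Cfsg.classInner θ (χ ω) = if (∀ w : ↥(W₁ ⊔ W₂), (w : G) ∈ W₁ → (ω * φ₀⁻¹) w = 1) then a else 0) := by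
  classical
  open CfsgLib.Chars.CyclicTI in
  haveI := (isCyclic_fst hW).1
  open CfsgLib.Chars.CyclicTI in
  haveI := (isCyclic_fst hW).2
  haveI := Fintype.ofFinite (W₁ →* ℂˣ)
  haveI := Fintype.ofFinite (W₂ →* ℂˣ)
  let f : (W₁ →* ℂˣ) → ℂ := fun a =>
    Cfsg.classInner θ (χ (CfsgLib.Chars.CyclicTI.lift₁ hW a)) - Cfsg.classInner θ (χ 1)
  let g : (W₂ →* ℂˣ) → ℂ := fun b => Cfsg.classInner θ (χ (CfsgLib.Chars.CyclicTI.lift₂ hW b))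
  open CfsgLib.Chars.CyclicTI in
  have hsplit : ∀ ω, Cfsg.classInner θ (χ ω) = f (res₁ ω) + g (res₂ ω) := fun ω => by
    conv_lhs => rw [← lift_res hW ω, coefficient_split hW hχ hθ hθV]
    simp only [f, g]
    ring
  have c1 : Fintype.card (W₁ →* ℂˣ) = Nat.card W₁ := by
    rw [← Nat.card_eq_fintype_card, CfsgLib.Chars.CyclicTI.card_hom_eq]
  have c2 : Fintype.card (W₂ →* ℂˣ) = Nat.card W₂ := by
    rw [← Nat.card_eq_fintype_card, CfsgLib.Chars.CyclicTI.card_hom_eq]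
  have ho1 : Odd (Nat.card W₁) := hodd.of_dvd_nat (Subgroup.card_dvd_of_le le_sup_left)
  have ho2 : Odd (Nat.card W₂) := hodd.of_dvd_nat (Subgroup.card_dvd_of_le le_sup_right)
  have hb1 : 2 ≤ Nat.card W₁ := (Subgroup.one_lt_card_iff_ne_bot W₁).2 hW.1
  open CfsgLib.Chars.CyclicTI in
  let e : (↥(W₁ ⊔ W₂) →* ℂˣ) ≃ (W₁ →* ℂˣ) × (W₂ →* ℂˣ) :=
    { toFun := fun ω => (res₁ ω, res₂ ω)
      invFun := fun p => lift₁ hW p.1 * lift₂ hW p.2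
      left_inv := lift_res hW
      right_inv := fun p => Prod.ext (res₁_mul hW _ _) (res₂_mul hW _ _) }
  have hfew' : Nat.card {p : (W₁ →* ℂˣ) × (W₂ →* ℂˣ) // f p.1 + g p.2 ≠ 0} <
      2 * Fintype.card (W₁ →* ℂˣ) := by
    rw [c1, ← Nat.card_congr (e.subtypeEquiv (p := fun ω => Cfsg.classInner θ (χ ω) ≠ 0)
      (fun ω => by rw [hsplit]; rfl))]
    exact hfew
  have hiff₂ : ∀ (ω ψ₀ : ↥(W₁ ⊔ W₂) →* ℂˣ), (∀ w : ↥(W₁ ⊔ W₂), (w : G) ∈ W₂ →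
      (ω * ψ₀⁻¹) w = 1) ↔ CfsgLib.Chars.CyclicTI.res₂ ω = CfsgLib.Chars.CyclicTI.res₂ ψ₀ :=
    fun ω ψ₀ => ⟨fun h => MonoidHom.ext fun x => mul_inv_eq_one.1 (h _ x.2),
      fun h w hw => mul_inv_eq_one.2 (DFunLike.congr_fun h ⟨w, hw⟩)⟩
  have hiff₁ : ∀ (ω ψ₀ : ↥(W₁ ⊔ W₂) →* ℂˣ), (∀ w : ↥(W₁ ⊔ W₂), (w : G) ∈ W₁ →
      (ω * ψ₀⁻¹) w = 1) ↔ CfsgLib.Chars.CyclicTI.res₁ ω = CfsgLib.Chars.CyclicTI.res₁ ψ₀ :=
    fun ω ψ₀ => ⟨fun h => MonoidHom.ext fun x => mul_inv_eq_one.1 (h _ x.2),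
      fun h w hw => mul_inv_eq_one.2 (DFunLike.congr_fun h ⟨w, hw⟩)⟩
  rcases CfsgLib.Chars.CyclicTI.rectangle_trichotomy f g (by omega)
    (by obtain ⟨k, hk⟩ := ho1; obtain ⟨l, hl⟩ := ho2; omega) hfew' with h | ⟨j, c, h⟩ | ⟨i, c, h⟩
  · exact Or.inl fun ω => (hsplit ω).trans (h _ _)
  · refine Or.inr (Or.inl ⟨e.symm (1, j), c, fun ω => ?_⟩)
    simp only [hsplit, h, hiff₂]
    rw [show CfsgLib.Chars.CyclicTI.res₂ (e.symm (1, j)) = j from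
      CfsgLib.Chars.CyclicTI.res₂_mul hW _ _]
  · refine Or.inr (Or.inr ⟨e.symm (i, 1), c, fun ω => ?_⟩)
    simp only [hsplit, h, hiff₁]
    rw [show CfsgLib.Chars.CyclicTI.res₁ (e.symm (i, 1)) = i from
      CfsgLib.Chars.CyclicTI.res₁_mul hW _ _]

end Cfsg.Agent.S1507
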