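import Cfsg.Statements.S1513
import Cfsg.Agent.Chars.CyclicTI.TypePKernel

set_option autoImplicit false
open Cfsg

namespace Cfsg.Agent.S1513

/-- Let L be a finite group with K normal with complement W₁ ≠ 1 a cyclic Hall subgroup, and W₂ ≠ 1 a cyclic subgroup of K equal to C_K(x) for every non-identity x ∈ W₁, with W₁W₂ of odd order. For an irreducible character θ of K: if θ is not fixed under conjugation by some element of W₁, then the function induced from θ to L is an irreducible character of L; and the irreducible characters of K fixed by all of W₁ are exactly Nat.card W₂ in number, each inducing to the sum of Nat.card W₁ pairwise distinct irreducible characters of L. -/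
theorem result {L : Type*} [Group L] [Fintype L] (K W₁ W₂ : Subgroup L) [hK : K.Normal] (hKW₁ : K ⊓ W₁ = ⊥) (hKW₁' : K ⊔ W₁ = ⊤) (hW₁ : W₁ ≠ ⊥) (hW₁c : IsCyclic W₁) (hHall : Nat.Coprime (Nat.card W₁) W₁.index) (hW₂ : W₂ ≠ ⊥) (hW₂c : IsCyclic W₂) (hW₂K : W₂ ≤ K) (hC : ∀ x ∈ W₁, x ≠ 1 → K ⊓ Subgroup.centralizer ({x} : Set L) = W₂) (hodd : Odd (Nat.card ↥(W₁ ⊔ W₂))) : (∀ θ : K → ℂ, Cfsg.IsIrrCharacter K θ → (∃ x ∈ W₁, (fun k : K => θ ⟨x * k * x⁻¹, hK.conj_mem (k : L) k.2 x⟩) ≠ θ) → Cfsg.IsIrrCharacter L (Cfsg.indFun K θ)) ∧ Nat.card {θ : Cfsg.IrrCharacter K // ∀ x ∈ W₁, (fun k : K => (θ : K → ℂ) ⟨x * k * x⁻¹, hK.conj_mem (k : L) k.2 x⟩) = θ} = Nat.card W₂ ∧ (∀ θ : K → ℂ, Cfsg.IsIrrCharacter K θ → (∀ x ∈ W₁, (fun k : K => θ ⟨x * k * x⁻¹, hK.conj_mem (k : L) k.2 x⟩) = θ) → ∃ C : Finset (L → ℂ), C.card = Nat.card W₁ ∧ (∀ μ ∈ C, Cfsg.IsIrrCharacter L μ) ∧ Cfsg.indFun K θ = ∑ μ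 ∈ C, μ) := by
  have h : CfsgLib.Chars.CyclicTI.TypePLike K W₁ W₂ :=
    ⟨hK, hKW₁, hKW₁', hW₁c, hHall, hW₂K, hC⟩
  have hiff : ∀ (θ : Cfsg.IrrCharacter K) (x : L),
      (fun k : K => (θ : K → ℂ) ⟨x * k * x⁻¹, hK.conj_mem (k : L) k.2 x⟩) = θ ↔
        CfsgLib.Chars.Induced.conjIrr x θ = θ := by
    intro θ x
    have e : (fun k : K => (θ : K → ℂ) ⟨x * k * x⁻¹, hK.conj_mem (k : L) k.2 x⟩) =
        CfsgLib.Chars.Induced.conjFun K x⁻¹ (θ : K → ℂ) := by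
      funext k
      rw [CfsgLib.Chars.Induced.conjFun_apply]
      exact congrArg (θ : K → ℂ) (Subtype.ext (by simp))
    rw [e, ← CfsgLib.Chars.Induced.mem_inertia, inv_mem_iff, CfsgLib.Chars.Induced.mem_inertia]
    exact ⟨fun h' => Subtype.ext h', fun h' => congrArg Subtype.val h'⟩
  refine ⟨fun θ hθ ⟨x, hx, hne⟩ => ?_, ?_, fun θ hθ hfix => ?_⟩
  · exact h.isIrr_indFun hW₂c ⟨θ, hθ⟩ hx fun e => hne ((hiff ⟨θ, hθ⟩ x).2 e)
  · rw [← h.card_fixed_all hW₁ hW₂c]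
    exact Nat.card_congr (Equiv.subtypeEquivRight fun θ =>
      forall₂_congr fun x _ => hiff θ x)
  · exact h.indFun_eq_sum ⟨θ, hθ⟩ fun y hy => (hiff ⟨θ, hθ⟩ y).1 (hfix y hy)

end Cfsg.Agent.S1513
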