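import Cfsg.Statements.S1514
import Cfsg.Agent.Chars.Exceptional.Coherence
import Cfsg.Agent.Chars.Exceptional.NormTwo

set_option autoImplicit false
open Cfsg

namespace Cfsg.Agent.S1514

/-- Let S be a nonempty set of irreducible characters of the finite group L, closed under complex conjugation and containing no real-valued member, and τ a linear isometry on the integer combinations of S vanishing at 1, with values virtual characters of G vanishing at 1. Then there is a choice R making (S, τ, R) a coherence system. -/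
theorem result {L : Type*} [Group L] [Fintype L] {G : Type*} [Group G] [Fintype G] (S : Set (L → ℂ)) (hS : S.Nonempty) (hirr : ∀ χ ∈ S, Cfsg.IsIrrCharacter L χ) (hconj : ∀ χ ∈ S, Cfsg.conjFun χ ∈ S ∧ Cfsg.conjFun χ ≠ χ) (τ : (L → ℂ) → (G → ℂ)) (hτ : Cfsg.IsLinearIsometryOn (Cfsg.zspanOn S {1}ᶜ) τ) (hτ1 : ∀ α ∈ Cfsg.zspanOn S {1}ᶜ, τ α 1 = 0) : ∃ R : (L → ℂ) → Finset (G → ℂ), Cfsg.IsCoherenceSystem S τ R := by
  classical
  have hdeg : ∀ χ ∈ S, (χ - Cfsg.conjFun χ) ∈ CfsgLib.Chars.Exceptional.spanOn S {1}ᶜ := by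
    intro χ hχ
    rw [CfsgLib.Chars.Exceptional.mem_spanOn_compl]
    refine ⟨Submodule.sub_mem _ (Submodule.subset_span hχ)
      (Submodule.subset_span (hconj χ hχ).1), ?_⟩
    obtain ⟨n, -, hn⟩ := CfsgLib.Chars.Exceptional.irr_degree (hirr χ hχ)
    simp [Cfsg.conjFun, hn]
  have key : ∀ χ ∈ S, ∃ μ ν : G → ℂ, IsIrrCharacter G μ ∧ IsIrrCharacter G ν ∧ μ ≠ ν ∧
      τ (χ - Cfsg.conjFun χ) = μ - ν := by
    intro χ hχ
    refine CfsgLib.Chars.Exceptional.gen_norm_two (CfsgLib.Chars.Exceptional.iso_gen (M := CfsgLib.Chars.Exceptional.spanOn S {1}ᶜ) hτ (hdeg χ hχ)) ?_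
      (hτ1 _ (hdeg χ hχ))
    rw [CfsgLib.Chars.Exceptional.iso_inner (M := CfsgLib.Chars.Exceptional.spanOn S {1}ᶜ) hτ (hdeg χ hχ) (hdeg χ hχ)]
    simp only [CfsgLib.Chars.Exceptional.inner_sub_left, CfsgLib.Chars.Exceptional.inner_sub_right,
      CfsgLib.Chars.Exceptional.irr_inner_self (hirr χ hχ),
      CfsgLib.Chars.Exceptional.irr_inner_self (hirr _ (hconj χ hχ).1),
      CfsgLib.Chars.Exceptional.irr_inner_ne (hirr χ hχ) (hirr _ (hconj χ hχ).1) (hconj χ hχ).2.symm,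
      CfsgLib.Chars.Exceptional.irr_inner_ne (hirr _ (hconj χ hχ).1) (hirr χ hχ) (hconj χ hχ).2]
    norm_num
  choose! μ ν hμ hν hne he using key
  have hneg : ∀ χ ∈ S, μ χ ≠ -ν χ := fun χ hχ e =>
    CfsgLib.Chars.Exceptional.irr_neg_not_irr (hν χ hχ) (e ▸ hμ χ hχ)
  refine ⟨fun χ => {μ χ, -ν χ}, ⟨hS, fun χ hχ => ?_, fun χ hχ => (hconj χ hχ).1,
    fun χ hχ => (hconj χ hχ).2, hτ, hτ1, fun χ hχ φ hφ h => ?_, ?_, ?_, ?_, ?_⟩⟩
  · obtain ⟨n, ρ, -, e⟩ := hirr χ hχ
    exact ⟨n, ρ, e⟩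
  · exact CfsgLib.Chars.Exceptional.irr_inner_ne (hirr χ hχ) (hirr φ hφ) h
  · intro χ hχ α hα β hβ
    simp only [Finset.mem_insert, Finset.mem_singleton] at hα hβ
    rcases hα with rfl | rfl <;> rcases hβ with rfl | rfl
    · simp [CfsgLib.Chars.Exceptional.irr_inner_self (hμ χ hχ)]
    · simp [CfsgLib.Chars.Exceptional.inner_neg_right, hneg χ hχ,
        CfsgLib.Chars.Exceptional.irr_inner_ne (hμ χ hχ) (hν χ hχ) (hne χ hχ)]
    · simp [CfsgLib.Chars.Exceptional.inner_neg_left, (hneg χ hχ).symm,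
        CfsgLib.Chars.Exceptional.irr_inner_ne (hν χ hχ) (hμ χ hχ) (hne χ hχ).symm]
    · simp [CfsgLib.Chars.Exceptional.inner_neg_left, CfsgLib.Chars.Exceptional.inner_neg_right, CfsgLib.Chars.Exceptional.irr_inner_self (hν χ hχ)]
  · intro χ hχ α hα
    simp only [Finset.mem_insert, Finset.mem_singleton] at hα
    rcases hα with rfl | rfl
    · exact CfsgLib.Chars.Exceptional.gen_of_irr (hμ χ hχ)
    · exact CfsgLib.Chars.Exceptional.gen_neg (CfsgLib.Chars.Exceptional.gen_of_irr (hν χ hχ))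
  · intro χ hχ
    rw [Finset.sum_pair (hneg χ hχ), he χ hχ, sub_eq_add_neg]
  · intro χ hχ φ hφ h1 h2
    have hφc : Cfsg.conjFun φ ∈ S := (hconj φ hφ).1
    have hχc : Cfsg.conjFun χ ∈ S := (hconj χ hχ).1
    have i1 : Cfsg.classInner (Cfsg.conjFun φ) χ = 0 := by
      refine CfsgLib.Chars.Exceptional.irr_inner_ne (hirr _ hφc) (hirr χ hχ) fun e => ?_
      have e' : φ = Cfsg.conjFun χ := by
        rw [← e]; funext x; simp [Cfsg.conjFun]
      rw [← e', CfsgLib.Chars.Exceptional.irr_inner_self (hirr φ hφ)] at h2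
      exact one_ne_zero h2
    have i2 : Cfsg.classInner (Cfsg.conjFun φ) (Cfsg.conjFun χ) = 0 := by
      refine CfsgLib.Chars.Exceptional.irr_inner_ne (hirr _ hφc) (hirr _ hχc) fun e => ?_
      have e' : φ = χ := by
        funext x
        exact (starRingEnd ℂ).injective (by simpa [Cfsg.conjFun] using congrFun e x)
      rw [← e', CfsgLib.Chars.Exceptional.irr_inner_self (hirr φ hφ)] at h1
      exact one_ne_zero h1
    have h0 := CfsgLib.Chars.Exceptional.iso_inner (M := CfsgLib.Chars.Exceptional.spanOn S {1}ᶜ) hτ (hdeg φ hφ) (hdeg χ hχ)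
    rw [he φ hφ, he χ hχ] at h0
    simp only [CfsgLib.Chars.Exceptional.inner_sub_left, CfsgLib.Chars.Exceptional.inner_sub_right, h1, h2, i1, i2, sub_zero,
      CfsgLib.Chars.Exceptional.irr_orth (hμ φ hφ) (hμ χ hχ), CfsgLib.Chars.Exceptional.irr_orth (hμ φ hφ) (hν χ hχ),
      CfsgLib.Chars.Exceptional.irr_orth (hν φ hφ) (hμ χ hχ), CfsgLib.Chars.Exceptional.irr_orth (hν φ hφ) (hν χ hχ)] at h0
    have n1 := hne φ hφ
    have n2 := hne χ hχ
    have d : μ φ ≠ μ χ ∧ μ φ ≠ ν χ ∧ ν φ ≠ μ χ ∧ ν φ ≠ ν χ := by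
      by_cases a : μ φ = μ χ <;> by_cases b : ν φ = ν χ <;> by_cases c : μ φ = ν χ <;>
        by_cases d : ν φ = μ χ <;>
        first
        | exact ⟨a, c, d, b⟩
        | exact absurd (a.symm.trans c) n2
        | exact absurd (d.symm.trans b) n2
        | exact absurd (a.trans d.symm) n1
        | exact absurd (c.trans b.symm) n1
        | (exfalso; simp [a, b, c, d, n2, n2.symm] at h0 <;> norm_num at h0)
    intro α hα β hβ
    simp only [Finset.mem_insert, Finset.mem_singleton] at hα hβ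
    rcases hα with rfl | rfl <;> rcases hβ with rfl | rfl <;>
      try simp only [CfsgLib.Chars.Exceptional.inner_neg_left, CfsgLib.Chars.Exceptional.inner_neg_right, neg_eq_zero, neg_neg]
    · exact CfsgLib.Chars.Exceptional.irr_inner_ne (hμ φ hφ) (hμ χ hχ) d.1
    · exact CfsgLib.Chars.Exceptional.irr_inner_ne (hμ φ hφ) (hν χ hχ) d.2.1
    · exact CfsgLib.Chars.Exceptional.irr_inner_ne (hν φ hφ) (hμ χ hχ) d.2.2.1
    · exact CfsgLib.Chars.Exceptional.irr_inner_ne (hν φ hφ) (hν χ hχ) d.2.2.2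

end Cfsg.Agent.S1514
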