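import Cfsg.Statements.S1515
import Cfsg.Agent.Chars.Exceptional.Inner

set_option autoImplicit false
open Cfsg

namespace Cfsg.Agent.S1515

/-- Let (S, τ, R) be a coherence system from L to G, χ ∈ S, and ψ an integer combination of S with ⟨χ, ψ⟩ = ⟨conj χ, ψ⟩ = 0. Let τ₁ be a linear isometry on the integer combinations of χ − ψ and χ − conj χ, with virtual-character values, agreeing with τ on integer multiples of χ − conj χ. Then the sum over α ∈ R χ of the squared absolute values of ⟨τ₁(χ − ψ), α⟩ is at least ⟨χ, χ⟩; and if ⟨τ₁(χ − ψ), τ₁(χ − ψ)⟩ minus that sum is at least ⟨ψ, ψ⟩, then the sum equals ⟨χ, χ⟩ and every ⟨τ₁(χ − ψ), α⟩ with α ∈ R χ is 0 or 1. -/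
theorem result {L : Type*} [Group L] [Fintype L] {G : Type*} [Group G] [Fintype G] (S : Set (L → ℂ)) (τ : (L → ℂ) → (G → ℂ)) (R : (L → ℂ) → Finset (G → ℂ)) (hS : Cfsg.IsCoherenceSystem S τ R) (χ : L → ℂ) (hχ : χ ∈ S) (ψ : L → ℂ) (hψ : ψ ∈ Cfsg.zspan S) (h1 : Cfsg.classInner χ ψ = 0) (h2 : Cfsg.classInner (Cfsg.conjFun χ) ψ = 0) (τ₁ : (L → ℂ) → (G → ℂ)) (hτ₁ : Cfsg.IsLinearIsometryOn (Cfsg.zspan {χ - ψ, χ - Cfsg.conjFun χ}) τ₁) (hagree : ∀ n : ℤ, τ₁ (n • (χ - Cfsg.conjFun χ)) = τ (n • (χ - Cfsg.conjFun χ))) : (Cfsg.classInner χ χ).re ≤ ∑ α ∈ R χ, ‖Cfsg.classInner (τ₁ (χ - ψ)) α‖ ^ 2 ∧ ((Cfsg.classInner ψ ψ).re ≤ (Cfsg.classInner (τ₁ (χ - ψ)) (τ₁ (χ - ψ))).re - ∑ α ∈ R χ, ‖Cfsg.classInner (τ₁ (χ - ψ)) α‖ ^ 2 → (∑ α ∈ R χ, ‖Cfsg.classInner (τ₁ (χ - ψ)) α‖ ^ 2 = (Cfsg.classInner χ χ).re ∧ ∀ α ∈ R χ, Cfsg.classInner (τ₁ (χ - ψ)) α = 0 ∨ Cfsg.classInner (τ₁ (χ - ψ)) α = 1)) := by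
  classical
  set a := χ - ψ with ha
  set d := χ - Cfsg.conjFun χ with hd
  let M : Submodule ℤ (L → ℂ) := Submodule.span ℤ {a, d}
  have hτM : Cfsg.IsLinearIsometryOn (M : Set (L → ℂ)) τ₁ := hτ₁
  have haM : a ∈ M := Submodule.subset_span (by simp)
  have hdM : d ∈ M := Submodule.subset_span (by simp)
  have hag : τ₁ d = τ d := by simpa using hagree 1
  have hψc : Cfsg.classInner ψ χ = 0 := by
    rw [← CfsgLib.Chars.Exceptional.inner_conj_symm, h1, map_zero]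
  have hψb : Cfsg.classInner ψ (Cfsg.conjFun χ) = 0 := by
    rw [← CfsgLib.Chars.Exceptional.inner_conj_symm, h2, map_zero]
  have hcc : Cfsg.classInner χ (Cfsg.conjFun χ) = 0 :=
    hS.orthogonal χ hχ _ (hS.conj_mem χ hχ) (hS.conj_ne χ hχ).symm
  have hn : Cfsg.classInner χ χ = ∑ α ∈ R χ, Cfsg.classInner (τ₁ a) α := by
    rw [← CfsgLib.Chars.Exceptional.inner_sum_right, ← hS.sum_eq χ hχ, ← hd, ← hag,
      CfsgLib.Chars.Exceptional.iso_inner hτM haM hdM, ha, hd]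
    simp only [CfsgLib.Chars.Exceptional.inner_sub_left, CfsgLib.Chars.Exceptional.inner_sub_right, hψc, hψb, hcc]
    ring
  have hint : ∀ α ∈ R χ, ∃ z : ℤ, Cfsg.classInner (τ₁ a) α = z := fun α hα =>
    CfsgLib.Chars.Exceptional.gen_inner_int (CfsgLib.Chars.Exceptional.iso_gen hτM haM) (hS.virtual χ hχ α hα)
  choose! c hc using hint
  have hre : (Cfsg.classInner χ χ).re = ((∑ α ∈ R χ, c α : ℤ) : ℝ) := by
    rw [hn, Finset.sum_congr rfl hc]; simp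
  have hsq : ∀ α ∈ R χ, ‖Cfsg.classInner (τ₁ a) α‖ ^ 2 = ((c α * c α : ℤ) : ℝ) := fun α hα => by
    rw [hc α hα, Complex.norm_intCast, sq_abs]; push_cast; ring
  have hle : ∀ α ∈ R χ, c α ≤ c α * c α := fun α _ => by
    rcases le_or_gt (c α) 0 with h | h
    · exact h.trans (mul_self_nonneg _)
    · exact le_mul_of_one_le_left h.le h
  rw [Finset.sum_congr rfl hsq, hre, ← Int.cast_sum]
  refine ⟨by exact_mod_cast Finset.sum_le_sum hle, fun h => ?_⟩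
  have haa : Cfsg.classInner (τ₁ a) (τ₁ a) = Cfsg.classInner χ χ + Cfsg.classInner ψ ψ := by
    rw [CfsgLib.Chars.Exceptional.iso_inner hτM haM haM, ha]
    simp only [CfsgLib.Chars.Exceptional.inner_sub_left, CfsgLib.Chars.Exceptional.inner_sub_right, hψc, h1]
    ring
  rw [haa, Complex.add_re, hre] at h
  have hge : (∑ α ∈ R χ, c α * c α) ≤ ∑ α ∈ R χ, c α := by
    exact_mod_cast (show ((∑ α ∈ R χ, c α * c α : ℤ) : ℝ) ≤ ((∑ α ∈ R χ, c α : ℤ) : ℝ) by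
      linarith)
  have heq := le_antisymm hge (Finset.sum_le_sum hle)
  refine ⟨by exact_mod_cast heq, fun α hα => ?_⟩
  have h3 : c α = c α * c α :=
    (Finset.sum_eq_sum_iff_of_le hle).mp heq.symm α hα
  rcases eq_or_ne (c α) 0 with e | e
  · exact Or.inl (by rw [hc α hα, e]; simp)
  · refine Or.inr ?_
    have : c α = 1 := (mul_right_eq_self₀.mp h3.symm).resolve_right e
    rw [hc α hα, this]; simp

end Cfsg.Agent.S1515
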