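import Cfsg.Statements.S1527
-- import your own Cfsg.Agent.* helpers here

set_option autoImplicit false
open Cfsg

namespace Cfsg.Agent.S1527

/-- Let G be a finite group and H i (i in a finite index type) subgroups of pairwise coprime orders, each of whose underlying sets is a TI-subset of G, such that every non-identity element of G is conjugate to an element of some H i. Then Nat.card G − 1 = Σ_i [G : N_G(H i)] · (Nat.card (H i) − 1). -/
theorem result {G : Type*} [Group G] [Finite G] {ι : Type*} [Fintype ι] (H : ι → Subgroup G) (hcop : ∀ i j, i ≠ j → Nat.Coprime (Nat.card (H i)) (Nat.card (H j))) (hTI : ∀ i, Cfsg.IsTISubset (H i : Set G)) (hcover : ∀ g : G, g ≠ 1 → ∃ i, ∃ x : G, x * g * x⁻¹ ∈ H i) : Nat.card G - 1 = ∑ i, (Subgroup.normalizer (H i : Set G)).index * (Nat.card (H i) - 1) := by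
  classical
  haveI := Fintype.ofFinite G
  let T := Σ i, (G ⧸ Subgroup.normalizer (H i : Set G)) × {h : H i // h ≠ 1}
  let f : T → {g : G // g ≠ 1} := fun t => ⟨t.2.1.out * (t.2.2.1 : G) * (t.2.1.out)⁻¹, by
    rw [Ne, conj_eq_one_iff]
    exact fun e => t.2.2.2 (Subtype.ext e)⟩
  have hb : Function.Bijective f := by
    constructor
    · rintro ⟨i, x, h, hh⟩ ⟨j, y, k, hk⟩ he
      have he' : x.out * (h : G) * x.out⁻¹ = y.out * (k : G) * y.out⁻¹ := congrArg Subtype.val he
      have e : (y.out⁻¹ * x.out) * (h : G) * (y.out⁻¹ * x.out)⁻¹ = (k : G) := by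
        calc (y.out⁻¹ * x.out) * (h : G) * (y.out⁻¹ * x.out)⁻¹
            = y.out⁻¹ * (x.out * (h : G) * x.out⁻¹) * y.out := by group
          _ = (k : G) := by rw [he']; group
      have hij : i = j := by
        by_contra hne
        have h1 := Subgroup.orderOf_dvd_natCard (H i) h.2
        have h2 := Subgroup.orderOf_dvd_natCard (H j) k.2
        have ho : orderOf (k : G) = orderOf (h : G) := by
          rw [← e]
          exact (MulAut.conj (y.out⁻¹ * x.out)).orderOf_eq _
        rw [ho] at h2
        exact hh (Subtype.ext (orderOf_eq_one_iff.mp (Nat.eq_one_of_dvd_coprimes (hcop i j hne) h1 h2)))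
      subst hij
      have hn : y.out⁻¹ * x.out ∈ Subgroup.normalizer (H i : Set G) := by
        by_contra hn
        refine hh (Subtype.ext ((hTI i) _ hn h h.2 ?_))
        rw [e]; exact k.2
      have hxy : y = x := by
        rw [← QuotientGroup.out_eq' y, ← QuotientGroup.out_eq' x]
        exact QuotientGroup.eq.mpr hn
      subst hxy
      have : h = k := Subtype.ext (by simpa using he')
      subst this
      rfl
    · rintro ⟨g, hg⟩
      obtain ⟨i, x, hx⟩ := hcover g hg
      obtain ⟨⟨n, hn⟩, hn'⟩ := QuotientGroup.mk_out_eq_mul (Subgroup.normalizer (H i : Set G)) x⁻¹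
      have hmem : n⁻¹ * (x * g * x⁻¹) * n ∈ H i := by
        have := (Subgroup.mem_normalizer_iff.mp (inv_mem hn) (x * g * x⁻¹)).mp hx
        rwa [inv_inv] at this
      refine ⟨⟨i, ((x⁻¹ : G) : G ⧸ Subgroup.normalizer (H i : Set G)), ⟨⟨_, hmem⟩, ?_⟩⟩,
        Subtype.ext ?_⟩
      · intro e
        apply hg
        have := congrArg Subtype.val e
        have h1 : n⁻¹ * (x * g * x⁻¹) * n = 1 := this
        calc g = x⁻¹ * n * (n⁻¹ * (x * g * x⁻¹) * n) * n⁻¹ * x := by group
          _ = 1 := by rw [h1]; group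
      · simp [f, hn', mul_assoc]
  have hc := Nat.card_eq_of_bijective f hb
  haveI : ∀ i, Fintype (G ⧸ Subgroup.normalizer (H i : Set G)) := fun i => Fintype.ofFinite _
  rw [Nat.card_sigma] at hc
  have hne : ∀ (K : Type _) [Group K] [Finite K], Nat.card {k : K // k ≠ 1} = Nat.card K - 1 := by
    intro K _ _
    haveI := Fintype.ofFinite K
    simp [Nat.card_eq_fintype_card, Fintype.card_subtype_compl]
  rw [← hne G, ← hc]
  refine Finset.sum_congr rfl fun i _ => ?_
  rw [Nat.card_prod, hne, Subgroup.index_eq_card]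

end Cfsg.Agent.S1527
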