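import Cfsg.Statements.S1528
import Cfsg.Agent.Chars.Exceptional.FixedPoints

set_option autoImplicit false
open Cfsg

namespace Cfsg.Agent.S1528

/-- Let N be a normal subgroup of the finite group G such that every element of G commuting with a non-identity element of N lies in N. If χ is an irreducible character of G with χ n ≠ χ 1 for some n ∈ N, then χ is the function induced from some irreducible character of N. -/
theorem result {G : Type*} [Group G] [Fintype G] (N : Subgroup G) [N.Normal] (hC : ∀ n ∈ N, n ≠ 1 → Subgroup.centralizer ({n} : Set G) ≤ N) (χ : G → ℂ) (hχ : Cfsg.IsIrrCharacter G χ) (hker : ∃ n ∈ N, χ n ≠ χ 1) : ∃ φ : N → ℂ, Cfsg.IsIrrCharacter N φ ∧ χ = Cfsg.indFun N φ := by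
  classical
  obtain ⟨n₀, hn₀, hne⟩ := hker
  have hN1 : ∀ n ∈ N, n ≠ (1 : G) → Subgroup.centralizer ({n} : Set G) ≤ N := hC
  have hres : Cfsg.IsCharacter N (fun n : N => χ n) :=
    CfsgLib.Chars.isCharacter_restrict (CfsgLib.Chars.isCharacter_of_isIrrCharacter hχ) N
  obtain ⟨θ, hθ1, hθm⟩ : ∃ θ : Cfsg.IrrCharacter N, (θ : N → ℂ) ≠ (fun _ => 1) ∧
      Cfsg.classInner (fun n : N => χ n) (θ : N → ℂ) ≠ 0 := by
    by_contra hcon
    push Not at hcon
    apply hne
    have hcf := CfsgLib.Chars.isClassFunction_of_isCharacter hres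
    have hexp : ∀ n : N, χ n = ∑ θ : Cfsg.IrrCharacter N,
        (Cfsg.classInner (fun n : N => χ n) (θ : N → ℂ)) * (θ : N → ℂ) n :=
      CfsgLib.Chars.eq_sum_classInner_mul hcf
    have hconst : ∀ n : N, χ n = χ (1 : N) := by
      intro n
      rw [hexp n, hexp 1]
      refine Finset.sum_congr rfl fun θ _ => ?_
      by_cases h : (θ : N → ℂ) = fun _ => 1
      · rw [h]
      · rw [hcon θ h, zero_mul, zero_mul]
    simpa using hconst ⟨n₀, hn₀⟩
  refine ⟨θ, θ.2, ?_⟩
  have hirr := CfsgLib.Chars.Exceptional.isIrrCharacter_indFun_of_centralizer_le hN1 θ hθ1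
  have hrec := CfsgLib.Chars.Induced.classInner_indFun N (θ : N → ℂ)
    (CfsgLib.Chars.isClassFunction_of_isCharacter (CfsgLib.Chars.isCharacter_of_isIrrCharacter hχ))
  by_contra hne'
  have h0 : Cfsg.classInner (Cfsg.indFun N (θ : N → ℂ)) χ = 0 :=
    CfsgLib.Chars.classInner_of_ne (χ := ⟨_, hirr⟩) (ψ := ⟨χ, hχ⟩)
      (fun e => hne' (congrArg Subtype.val e).symm)
  rw [hrec] at h0
  apply hθm
  rw [← CfsgLib.Chars.classInner_conj_symm, h0, map_zero]

end Cfsg.Agent.S1528
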