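import Cfsg.Statements.S1532
import Cfsg.Agent.Chars.Exceptional.FrobTI
import Cfsg.Agent.Chars.Exceptional.Tower
import Mathlib.GroupTheory.FixedPointFree

set_option autoImplicit false
open Cfsg

namespace Cfsg.Agent.S1532

open CfsgLib.Chars.Exceptional in
theorem coherent_central {G : Type*} [Group G] [Fintype G] (p : ℕ) [Fact p.Prime] (hp : p ≠ 2)
    (P N : Subgroup G) [Fintype N] (hP : IsPGroup p P) (h : FrobTI P N) (hlt : P < N)
    (hna : ¬ IsMulCommutative P) (Z : Subgroup G) (hZ1 : Z ≠ ⊥)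
    (hZP : ∀ z ∈ Z, z ∈ P ∧ ∀ y ∈ P, z * y = y * z)
    (hZn : ∀ x ∈ N, ∀ z ∈ Z, x * z * x⁻¹ ∈ Z) :
    Cfsg.IsCoherent {χ : N → ℂ | Cfsg.IsIrrCharacter N χ ∧ ∃ z : N, (z : G) ∈ Z ∧ χ z ≠ χ 1}
      {1}ᶜ (fun α => Cfsg.indFun N α) := by
  classical
  have hpp : p.Prime := Fact.out
  haveI := h.normal
  have hZle : Z ≤ P := fun z hz => (hZP z hz).1
  have hZN : Z ≤ N := hZle.trans h.le
  haveI : (Z.subgroupOf N).Normal := ⟨fun z hz x => hZn x x.2 z hz⟩
  set e := (P.subgroupOf N).index with he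
  -- the order data
  obtain ⟨j, hj⟩ : ∃ j, Nat.card P = p ^ j := hP.exists_card_eq
  obtain ⟨J, hJ⟩ : ∃ J, Z.relIndex P = p ^ J := by
    obtain ⟨J, -, hJ⟩ := (Nat.dvd_prime_pow hpp).mp (hj ▸ Subgroup.relIndex_dvd_card (H := Z) (K := P))
    exact ⟨J, hJ⟩
  obtain ⟨z, hz, hz'⟩ : ∃ z, Nat.card Z = p ^ z ∧ 0 < z := by
    obtain ⟨z, -, hz⟩ := (Nat.dvd_prime_pow hpp).mp (hj ▸ Subgroup.card_dvd_of_le hZle)
    refine ⟨z, hz, Nat.pos_of_ne_zero fun h0 => hZ1 ?_⟩
    rw [h0, pow_zero] at hz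
    exact Subgroup.card_eq_one.mp hz
  have hjJ : j = J + z := by
    have h1 : Nat.card Z * Z.relIndex P = Nat.card P := by
      rw [← Subgroup.relIndex_bot_left Z, ← Subgroup.relIndex_bot_left P]
      exact Subgroup.relIndex_mul_relIndex ⊥ Z P bot_le hZle
    rw [hz, hJ, hj, ← pow_add] at h1
    have := Nat.pow_right_injective hpp.two_le h1
    omega
  have hjpos : 0 < j := by omega
  have hcop : Nat.Coprime p e := by
    have := h.coprime
    rw [hj] at this
    exact (Nat.coprime_pow_left_iff hjpos p _).mp this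
  have hepos : 0 < e := Nat.pos_of_ne_zero Subgroup.index_ne_zero_of_finite
  have hZidx : (Z.subgroupOf N).index = e * p ^ J := by
    have h1 := Subgroup.relIndex_mul_index (H := Z.subgroupOf N) (K := P.subgroupOf N)
      (fun x hx => hZle hx)
    rw [Subgroup.relIndex_subgroupOf h.le, hJ] at h1
    rw [← h1, mul_comm]
  -- degrees
  set S : Set (N → ℂ) :=
    {χ | Cfsg.IsIrrCharacter N χ ∧ ∃ z : N, (z : G) ∈ Z ∧ χ z ≠ χ 1} with hS
  have hrel : ∀ χ ∈ S, Cfsg.IsIrrCharacter N χ ∧ ∃ k : N, (k : G) ∈ P ∧ χ k ≠ χ 1 :=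
    fun χ hχ => ⟨hχ.1, hχ.2.imp fun k hk => ⟨hZle hk.1, hk.2⟩⟩
  have hdeg : ∀ χ ∈ S, ∃ k, χ 1 = ((e * p ^ k : ℕ) : ℂ) ∧ 2 * k ≤ J := by
    intro χ hχ
    obtain ⟨⟨θ, -, hθ⟩, -⟩ := irr_degree_vanish h.cent' ⟨χ, hχ.1⟩
      ((FrobTI.relevant_iff hχ.1).mp (hrel χ hχ).2)
    have hdvd : Cfsg.charDegree (θ : P.subgroupOf N → ℂ) ∣ p ^ j := by
      rw [← hj, ← h.card_subgroupOf]
      exact CfsgLib.Chars.charDegree_dvd_card θ
    obtain ⟨k, -, hk⟩ := (Nat.dvd_prime_pow hpp).mp hdvd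
    refine ⟨k, ?_, ?_⟩
    · refine hθ.trans ?_
      rw [← CfsgLib.Chars.coe_charDegree, hk]; push_cast; rfl
    · have hle : (Z.subgroupOf N).subgroupOf (P.subgroupOf N) ≤
          Subgroup.center (P.subgroupOf N) := by
        intro x hx
        refine Subgroup.mem_center_iff.mpr fun y => Subtype.ext (Subtype.ext ?_)
        exact ((hZP _ hx).2 _ y.2).symm
      have h1 := Subgroup.index_dvd_of_le hle
      have h2 : ((Z.subgroupOf N).subgroupOf (P.subgroupOf N)).index = p ^ J := by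
        rw [← hJ, ← Subgroup.relIndex_subgroupOf (H := Z) h.le]; rfl
      rw [h2] at h1
      have h3 := (CfsgLib.Chars.charDegree_sq_le_index_center θ).trans
        (Nat.le_of_dvd (pow_pos hpp.pos _) h1)
      rw [hk, ← pow_mul] at h3
      have := (Nat.pow_le_pow_iff_right hpp.one_lt).mp h3
      omega
  choose! k hk hkJ using hdeg
  obtain ⟨F, hF⟩ := exists_finset S fun χ hχ => hχ.1
  have hmem : ∀ χ, χ ∈ F ↔ χ ∈ S := fun χ => by rw [← hF]; rfl
  set d : (N → ℂ) → ℕ := fun χ => e * p ^ k χ with hd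
  have hdval : ∀ χ ∈ F, χ 1 = (d χ : ℂ) := fun χ hχ => hk χ ((hmem χ).mp hχ)
  have hirr : ∀ χ ∈ F, Cfsg.IsIrrCharacter N χ := fun χ hχ => ((hmem χ).mp hχ).1
  have hvan : ∀ ξ ∈ S, ∀ x : N, (x : G) ∉ P → ξ x = 0 :=
    fun ξ hξ => h.relevant_vanish hξ.1 (hrel ξ hξ).2
  -- the sum of squares
  have hsum : e * ∑ χ ∈ F, p ^ (2 * k χ) = p ^ J * (p ^ z - 1) := by
    have hall := CfsgLib.Chars.sum_charDegree_sq (G := N)
    rw [← Finset.sum_filter_add_sum_filter_not Finset.univ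
      (fun ξ : Cfsg.IrrCharacter N => Z.subgroupOf N ≤ CfsgLib.Chars.charKer (ξ : N → ℂ)),
      CfsgLib.Chars.sum_charDegree_sq_of_le_charKer, hZidx,
      ← Subgroup.card_mul_index (Z.subgroupOf N), hZidx,
      Nat.card_congr (Subgroup.subgroupOfEquivOfLe hZN).toEquiv, hz] at hall
    have hF' : ∑ ξ ∈ Finset.univ.filter (fun ξ : Cfsg.IrrCharacter N =>
        ¬ Z.subgroupOf N ≤ CfsgLib.Chars.charKer (ξ : N → ℂ)), Cfsg.charDegree (ξ : N → ℂ) ^ 2 =
        e ^ 2 * ∑ χ ∈ F, p ^ (2 * k χ) := by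
      rw [Finset.mul_sum]
      refine Finset.sum_bij (fun ξ _ => (ξ : N → ℂ)) (fun ξ hξ => ?_)
        (fun a _ b _ e' => Subtype.ext e') (fun χ hχ => ?_) (fun ξ hξ => ?_)
      · refine (hmem _).mpr ⟨ξ.2, ?_⟩
        exact (FrobTI.relevant_iff (K := Z) ξ.2).mpr (Finset.mem_filter.mp hξ).2
      · obtain ⟨hi, hr⟩ := (hmem χ).mp hχ
        exact ⟨⟨χ, hi⟩, Finset.mem_filter.mpr ⟨Finset.mem_univ _,
          (FrobTI.relevant_iff (K := Z) hi).mp hr⟩, rfl⟩
      · have hmemξ : (ξ : N → ℂ) ∈ S :=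
          ⟨ξ.2, (FrobTI.relevant_iff (K := Z) ξ.2).mpr (Finset.mem_filter.mp hξ).2⟩
        rw [CfsgLib.Chars.charDegree_eq_of_map_one (hk _ hmemξ)]
        ring
    rw [hF'] at hall
    have h2 : e * (e * ∑ χ ∈ F, p ^ (2 * k χ)) = e * (p ^ J * (p ^ z - 1)) := by
      have hpz : 1 ≤ p ^ z := Nat.one_le_pow _ _ hpp.pos
      obtain ⟨w, hw⟩ : ∃ w, p ^ z = w + 1 := ⟨p ^ z - 1, by omega⟩
      rw [hw] at hall ⊢
      rw [Nat.add_sub_cancel]
      nlinarith
    exact Nat.eq_of_mul_eq_mul_left hepos h2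
  have hFne : F.Nonempty := by
    rw [Finset.nonempty_iff_ne_empty]
    intro h0
    rw [h0, Finset.sum_empty, mul_zero] at hsum
    have : 2 ≤ p ^ z := Nat.le_self_pow (by omega) p |>.trans' hpp.two_le
    have := Nat.mul_pos (pow_pos hpp.pos J) (by omega : 0 < p ^ z - 1)
    omega
  obtain ⟨χ₀, hχ₀, hmin⟩ := Finset.exists_min_image F k hFne
  have hfilt : F.filter (fun χ => d χ = d χ₀) = F.filter (fun χ => k χ = k χ₀) := by
    refine Finset.filter_congr fun χ _ => ⟨fun e' => ?_, fun e' => by simp [hd, e']⟩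
    exact Nat.pow_right_injective hpp.two_le (Nat.eq_of_mul_eq_mul_left hepos e')
  obtain ⟨hiso, hiso1⟩ := h.ind_isometry (fun ξ (hξ : ξ ∈ S) => hξ.1) hvan
  rw [← hF] at hiso hiso1 ⊢
  refine coherent_tower F hirr d hdval (fun α => Cfsg.indFun N α) hiso hiso1 (d χ₀)
    (fun χ hχ => Nat.mul_le_mul_left e (Nat.pow_le_pow_right hpp.pos (hmin χ hχ))) ?_ ?_
  · refine h.coherent_equal_degree _ (fun ξ hξ => hirr ξ (Finset.mem_filter.mp hξ).1)
      (fun ξ hξ => hvan ξ ((hmem ξ).mp (Finset.mem_filter.mp hξ).1))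
      (fun ξ hξ η hη => by
        rw [hdval ξ (Finset.mem_filter.mp hξ).1, hdval η (Finset.mem_filter.mp hη).1,
          (Finset.mem_filter.mp hξ).2, (Finset.mem_filter.mp hη).2]) ?_
    rw [hfilt]
    by_contra hcard
    have hone : F.filter (fun χ => k χ = k χ₀) = {χ₀} := by
      refine Finset.eq_singleton_iff_unique_mem.mpr ⟨Finset.mem_filter.mpr ⟨hχ₀, rfl⟩, fun x hx => ?_⟩
      exact Finset.card_le_one.mp (by omega) x hx χ₀ (Finset.mem_filter.mpr ⟨hχ₀, rfl⟩)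
    rw [← Finset.sum_filter_add_sum_filter_not F (fun χ => k χ = k χ₀), hone,
      Finset.sum_singleton, mul_add] at hsum
    have hJ0 : 2 * k χ₀ = J := by
      by_contra hne
      have hlt' : 2 * k χ₀ + 1 ≤ J := by have := hkJ χ₀ ((hmem χ₀).mp hχ₀); omega
      have h1 : p ^ (2 * k χ₀ + 1) ∣ e * p ^ (2 * k χ₀) := by
        refine (Nat.dvd_add_iff_left (n := e * ∑ χ ∈ F.filter (fun χ => ¬ k χ = k χ₀),
          p ^ (2 * k χ)) ?_).mpr (hsum ▸ dvd_mul_of_dvd_left (pow_dvd_pow p hlt') _)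
        refine dvd_mul_of_dvd_right (Finset.dvd_sum fun x hx => pow_dvd_pow p ?_) _
        obtain ⟨hx1, hx2⟩ := Finset.mem_filter.mp hx
        have := hmin x hx1
        omega
      rw [pow_succ, mul_comm e] at h1
      exact hpp.one_lt.ne' (Nat.eq_one_of_dvd_coprimes hcop dvd_rfl
        (Nat.dvd_of_mul_dvd_mul_left (pow_pos hpp.pos _) h1))
    have hempty : F.filter (fun χ => ¬ k χ = k χ₀) = ∅ := by
      rw [Finset.filter_eq_empty_iff]
      intro x hx hne
      have := hmin x hx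
      have := hkJ x ((hmem x).mp hx)
      omega
    rw [hempty, Finset.sum_empty, mul_zero, add_zero, hJ0, mul_comm] at hsum
    have hee : e = p ^ z - 1 := Nat.eq_of_mul_eq_mul_left (pow_pos hpp.pos J) hsum
    have hpodd : Odd (p ^ z) := (hpp.odd_of_ne_two hp).pow
    have heven : 2 ∣ Nat.card N := by
      refine dvd_trans ?_ (Subgroup.index_dvd_card (P.subgroupOf N))
      rw [← he, hee]
      exact even_iff_two_dvd.mp (Nat.Odd.sub_odd hpodd odd_one)
    obtain ⟨t, ht⟩ := exists_prime_orderOf_dvd_card' 2 heven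
    apply hna
    have htP : (t : G) ∉ P := fun hmem' => by
      have h1 := Subgroup.orderOf_dvd_natCard P hmem'
      rw [Subgroup.orderOf_coe, ht, hj] at h1
      exact hp ((Nat.prime_dvd_prime_iff_eq Nat.prime_two hpp).mp (Nat.prime_two.dvd_of_dvd_pow h1)).symm
    have ht2 : (t : G) * t = 1 := by
      have := pow_orderOf_eq_one t
      rw [ht, pow_two] at this
      exact congrArg Subtype.val this
    have hnorm : ∀ x : P, (t : G) * x * (t : G)⁻¹ ∈ P := fun x =>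
      h.normal.conj_mem ⟨x, h.le x.2⟩ x.2 t
    let φ : P →* P :=
      { toFun := fun x => ⟨_, hnorm x⟩
        map_one' := Subtype.ext (by simp)
        map_mul' := fun a b => Subtype.ext (by simp [mul_assoc]) }
    have hfpf : MonoidHom.FixedPointFree φ := by
      intro x hx
      by_contra hx1
      apply htP
      refine h.cent x x.2 (fun e' => hx1 (Subtype.ext e')) ?_
      rw [Subgroup.mem_centralizer_singleton_iff]
      have : (t : G) * x * (t : G)⁻¹ = x := congrArg Subtype.val hx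
      calc (t : G) * x = (t : G) * x * (t : G)⁻¹ * t := by group
        _ = x * t := by rw [this]
    have hinv : φ^[2] = _root_.id := by
      funext x
      apply Subtype.ext
      show (t : G) * ((t : G) * x * (t : G)⁻¹) * (t : G)⁻¹ = x
      calc (t : G) * ((t : G) * x * (t : G)⁻¹) * (t : G)⁻¹
          = ((t : G) * t) * x * ((t : G) * t)⁻¹ := by group
        _ = x := by rw [ht2]; group
    exact ⟨⟨fun a b => hfpf.commute_all_of_involutive (Function.involutive_iff_iter_2_eq_id.mpr hinv) a b⟩⟩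
  · intro χ hχ hlt'
    have hk0 : k χ₀ < k χ := by
      by_contra hle
      have h1 := Nat.mul_le_mul_left e (Nat.pow_le_pow_right hpp.pos (not_lt.mp hle))
      change e * p ^ k χ₀ < e * p ^ k χ at hlt'
      omega
    refine ⟨mul_dvd_mul_left e (pow_dvd_pow p hk0.le), ?_⟩
    have hfil : F.filter (fun ξ => d ξ < d χ) = F.filter (fun ξ => k ξ < k χ) :=
      Finset.filter_congr fun ξ _ => by
        simp only [hd]
        rw [Nat.mul_lt_mul_left hepos, Nat.pow_lt_pow_iff_right hpp.one_lt]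
    rw [hfil]
    set A := ∑ ξ ∈ F.filter (fun ξ => k ξ < k χ), p ^ (2 * k ξ) with hA
    have hdvdA : p ^ (2 * k χ) ∣ A := by
      refine ((hcop.pow_left (2 * k χ))).dvd_of_dvd_mul_left ?_
      rw [← Finset.sum_filter_add_sum_filter_not F (fun ξ => k ξ < k χ), mul_add] at hsum
      refine (Nat.dvd_add_iff_left (n := e * ∑ ξ ∈ F.filter (fun ξ => ¬ k ξ < k χ),
        p ^ (2 * k ξ)) ?_).mpr (hsum ▸ dvd_mul_of_dvd_left (pow_dvd_pow p (hkJ χ ((hmem χ).mp hχ))) _)
      refine dvd_mul_of_dvd_right (Finset.dvd_sum fun x hx => pow_dvd_pow p ?_) _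
      have := (Finset.mem_filter.mp hx).2
      omega
    have hApos : 0 < A :=
      Finset.sum_pos (fun ξ _ => pow_pos hpp.pos _) ⟨χ₀, Finset.mem_filter.mpr ⟨hχ₀, hk0⟩⟩
    have hAle := Nat.le_of_dvd hApos hdvdA
    have hval : ∑ ξ ∈ F.filter (fun ξ => k ξ < k χ), d ξ ^ 2 = e ^ 2 * A := by
      rw [hA, Finset.mul_sum]
      exact Finset.sum_congr rfl fun ξ _ => by simp only [hd]; ring
    rw [hval]
    have h3 : 2 * p ^ k χ₀ < p ^ k χ := by
      have h31 : p ^ (k χ₀ + 1) ≤ p ^ k χ := Nat.pow_le_pow_right hpp.pos hk0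
      have hp3 : 3 ≤ p := by have := hpp.two_le; omega
      rw [pow_succ] at h31
      have := Nat.mul_le_mul_left (p ^ k χ₀) hp3
      have := pow_pos hpp.pos (k χ₀)
      omega
    show 2 * (e * p ^ k χ₀) * (e * p ^ k χ) < e ^ 2 * A
    calc 2 * (e * p ^ k χ₀) * (e * p ^ k χ) = e ^ 2 * ((2 * p ^ k χ₀) * p ^ k χ) := by ring
      _ < e ^ 2 * (p ^ k χ * p ^ k χ) := Nat.mul_lt_mul_of_pos_left
          (Nat.mul_lt_mul_of_pos_right h3 (pow_pos hpp.pos _)) (pow_pos hepos _)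
      _ ≤ e ^ 2 * A := Nat.mul_le_mul_left _ (by rw [← pow_add, ← two_mul]; exact hAle)

/-- Let G be a finite group, p an odd prime and P a Sylow p-subgroup that is non-abelian, whose underlying set is a TI-subset of G, with P properly contained in its set normaliser N and C_G(x) ≤ P for every non-identity x ∈ P. Let Z be a nontrivial subgroup of the centre of P normalised by N. Then the set of irreducible characters χ of N with χ z ≠ χ 1 for some z ∈ Z is coherent for the map induced by induction from N to G. -/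
theorem result {G : Type*} [Group G] [Fintype G] (p : ℕ) [Fact p.Prime] (hp : p ≠ 2) (P : Sylow p G) (hna : ¬ IsMulCommutative (P : Subgroup G)) (hTI : Cfsg.IsTISubset ((P : Subgroup G) : Set G)) (hlt : (P : Subgroup G) < Subgroup.normalizer ((P : Subgroup G) : Set G)) (hC : ∀ k ∈ (P : Subgroup G), k ≠ 1 → Subgroup.centralizer ({k} : Set G) ≤ (P : Subgroup G)) [Fintype ↥(Subgroup.normalizer ((P : Subgroup G) : Set G))] (Z : Subgroup G) (hZ1 : Z ≠ ⊥) (hZP : ∀ z ∈ Z, z ∈ (P : Subgroup G) ∧ ∀ y ∈ (P : Subgroup G), z * y = y * z) (hZn : ∀ x ∈ Subgroup.normalizer ((P : Subgroup G) : Set G), ∀ z ∈ Z, x * z * x⁻¹ ∈ Z) : Cfsg.IsCoherent {χ : ↥(Subgroup.normalizer ((P : Subgroup G) : Set G)) → ℂ | Cfsg.IsIrrCharacter ↥(Subgroup.normalizer ((P : Subgroup G) : Set G)) χ ∧ ∃ z : ↥(Subgroup.normalizer ((P : Subgroup G) : Set G)), (z : G) ∈ Z ∧ χ z ≠ χ 1} {1}ᶜ (fun α => Cfsg.indFun (Subgroup.normalizer ((P : Subgroup G) : Set G)) α) := by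
  exact coherent_central p hp P _ P.isPGroup'
    (CfsgLib.Chars.Exceptional.frobTI_normalizer
      (fun g hg k hk hk' => hTI g hg k hk hk') hC) hlt hna Z hZ1 hZP hZn

end Cfsg.Agent.S1532
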