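import Cfsg.Statements.S1536
import Cfsg.Agent.Chars.Exceptional.FixedPoints
import Cfsg.Agent.Coprime.Glauberman
import Mathlib.GroupTheory.OrderOfElement
import Mathlib.GroupTheory.Solvable


set_option autoImplicit false
open Cfsg

namespace Cfsg.Agent.S1536

/-- Let H be a normal subgroup of the finite group M whose order is coprime to its index. For x ∈ M: some non-principal irreducible character of H is unchanged under h ↦ θ(x h x⁻¹) if and only if some non-identity element of H commutes with x. -/
theorem result {M : Type*} [Group M] [Finite M] (H : Subgroup M) [hN : H.Normal] (hHall : Nat.Coprime (Nat.card H) H.index) (x : M) : (∃ θ : H → ℂ, Cfsg.IsIrrCharacter H θ ∧ θ ≠ (fun _ => 1) ∧ (fun h : H => θ ⟨x * h * x⁻¹, hN.conj_mem h h.2 x⟩) = θ) ↔ ∃ h ∈ H, h ≠ 1 ∧ x * h = h * x := by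
  classical
  have key := CfsgLib.Chars.Exceptional.exists_fixed_class_iff (N := H) x
  have hfix : ∀ θ : Cfsg.IrrCharacter H, CfsgLib.Chars.Induced.conjIrr x θ = θ ↔
      (fun h : H => (θ : H → ℂ) ⟨x * h * x⁻¹, hN.conj_mem h h.2 x⟩) = (θ : H → ℂ) := by
    intro θ
    constructor
    · intro e
      funext h
      have := congrFun (congrArg Subtype.val e) ⟨x * h * x⁻¹, hN.conj_mem h h.2 x⟩
      rw [CfsgLib.Chars.Induced.conjIrr_coe, CfsgLib.Chars.Induced.conjFun_apply] at this
      rw [← this]
      exact congrArg _ (Subtype.ext (by simp [mul_assoc]))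
    · intro e
      apply Subtype.ext
      funext h
      rw [CfsgLib.Chars.Induced.conjIrr_coe, CfsgLib.Chars.Induced.conjFun_apply]
      refine (congrFun e _).symm.trans ?_
      exact congrArg _ (Subtype.ext (by simp [mul_assoc]))
  constructor
  · rintro ⟨θ, hθ, hne, he⟩
    obtain ⟨n, hn, hc⟩ := key.mp ⟨⟨θ, hθ⟩, hne, (hfix ⟨θ, hθ⟩).mpr he⟩
    by_cases hxe : x ^ H.index = 1
    · letI : MulAction M H := MulAction.compHom H (MulAut.conjNormal : M →* MulAut H)
      have hsm : ∀ (m : M) (y : H), m • y = MulAut.conjNormal m y := fun _ _ => rfl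
      let S : Set H := {y | IsConj n y}
      have hA : Subgroup.zpowers x ≤ Subgroup.normalizer (H : Set M) := by
        rw [Subgroup.normalizer_eq_top]; exact le_top
      have hcop : (Nat.card (Subgroup.zpowers x)).Coprime (Nat.card H) := by
        rw [Nat.card_zpowers]
        exact (hHall.symm.coprime_dvd_left (orderOf_dvd_of_pow_eq_one hxe))
      have hx : ∀ y ∈ S, x • y ∈ S := fun y (hy : IsConj n y) => by
        rw [hsm]
        exact hc.symm.trans ((MulAut.conjNormal x : MulAut H).toMonoidHom.map_isConj hy)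
      have hxp : ∀ k : ℕ, ∀ y ∈ S, x ^ k • y ∈ S := by
        intro k
        induction k with
        | zero => intro y hy; simpa using hy
        | succ k ih => intro y hy; rw [pow_succ', mul_smul]; exact hx _ (ih y hy)
      have hSA : ∀ a ∈ Subgroup.zpowers x, ∀ s ∈ S, a • s ∈ S := by
        intro a ha s hs
        obtain ⟨k, rfl⟩ := mem_powers_iff_mem_zpowers.mpr ha
        exact hxp k s hs
      have hSG : ∀ g ∈ H, ∀ s ∈ S, g • s ∈ S := by
        intro g hg s (hs : IsConj n s)
        refine hs.trans (isConj_iff.mpr ⟨⟨g, hg⟩, ?_⟩)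
        apply Subtype.ext
        simp [hsm]
      have htr : ∀ s ∈ S, ∀ t ∈ S, ∃ g ∈ H, g • s = t := by
        intro s (hs : IsConj n s) t (ht : IsConj n t)
        obtain ⟨g, hg⟩ := isConj_iff.mp (hs.symm.trans ht)
        refine ⟨g, g.2, ?_⟩
        rw [← hg]; apply Subtype.ext; simp [hsm]
      obtain ⟨s, hs, hfs⟩ := CfsgLib.Coprime.exists_fixed hA hcop (Or.inl (Group.isSolvable_of_comm fun a b => Std.Commutative.comm (op := fun a b : Subgroup.zpowers x => a * b) a b))
        ⟨n, IsConj.refl n⟩ hSA hSG htr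
      refine ⟨s, s.2, fun e => hn ?_, ?_⟩
      · have : IsConj n (1 : H) := by rw [show (1 : H) = s from Subtype.ext e.symm]; exact hs
        exact isConj_one_left.mp this
      · have := congrArg Subtype.val (hfs x (Subgroup.mem_zpowers x))
        rw [hsm, MulAut.conjNormal_apply] at this
        calc x * (s : M) = x * s * x⁻¹ * x := by group
          _ = s * x := by rw [this]
    · exact ⟨x ^ H.index, H.pow_index_mem x, hxe, (Commute.self_pow x _).eq⟩
  · rintro ⟨h, hh, h1, hcomm⟩
    have e : MulAut.conjNormal x (⟨h, hh⟩ : H) = ⟨h, hh⟩ := by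
      apply Subtype.ext
      rw [MulAut.conjNormal_apply]
      show x * h * x⁻¹ = h
      rw [hcomm]; group
    obtain ⟨θ, hne, hθ⟩ := key.mpr ⟨⟨h, hh⟩, fun e => h1 (congrArg Subtype.val e), by rw [e]⟩
    exact ⟨θ, θ.2, hne, (hfix θ).mp hθ⟩

end Cfsg.Agent.S1536
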