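import Cfsg.Statements.S1551
import Cfsg.Agent.Eq.Def_SporadicCombinatorics
import Cfsg.Agent.M24Orbits.OrbitSplit
import Cfsg.Agent.M24Orbits.Data.SextKer

set_option autoImplicit false
open scoped Pointwise
open Cfsg

open CfsgLib.Golay CfsgLib.Mathieu CfsgLib.M24Orbits CfsgLib.M24Orbits.Data

namespace Cfsg.Agent.S1551

/-- The masks of the standard sextet. -/
def tetr : List ℕ := [15, 5264, 622848, 3416064, 4196928, 8536096]

theorem mem_S₀_iff {t : Finset GolayPt} : t ∈ S₀ ↔ ∃ m ∈ tetr, ofMask m = t := by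
  simp [famOf, tetr, eq_comm]

/-- The permutation of the members induced by an element of the stabiliser. -/
def onMembers (S : Finset (Finset GolayPt)) : MulAction.stabilizer M24 S →* Equiv.Perm ↥S where
  toFun g :=
    { toFun := fun t => ⟨(g.1 : Equiv.Perm GolayPt) • (t : Finset GolayPt), by
        have h := Finset.smul_mem_smul_finset (a := (g.1 : Equiv.Perm GolayPt)) t.2
        rwa [show (g.1 : Equiv.Perm GolayPt) • S = S from g.2] at h⟩
      invFun := fun t => ⟨(g.1 : Equiv.Perm GolayPt)⁻¹ • (t : Finset GolayPt), by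
        rw [Finset.inv_smul_mem_iff, show (g.1 : Equiv.Perm GolayPt) • S = S from g.2]
        exact t.2⟩
      left_inv := fun t => Subtype.ext (inv_smul_smul (g.1 : Equiv.Perm GolayPt) _)
      right_inv := fun t => Subtype.ext (smul_inv_smul (g.1 : Equiv.Perm GolayPt) _) }
  map_one' := by ext t : 2; exact one_smul (Equiv.Perm GolayPt) _
  map_mul' g h := by
    ext t : 2
    exact mul_smul (g.1 : Equiv.Perm GolayPt) (h.1 : Equiv.Perm GolayPt) (t : Finset GolayPt)

/-- The members in order. -/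
noncomputable def member : Fin 6 ≃ ↥S₀ :=
  Equiv.ofBijective (fun i => ⟨ofMask (tetr.getD i.1 0), mem_S₀_iff.2 ⟨_, by
      revert i; decide, rfl⟩⟩) (by
    rw [Fintype.bijective_iff_surjective_and_card]
    refine ⟨fun t => ?_, by rw [Fintype.card_coe, S₀_mem.1]; rfl⟩
    obtain ⟨m, hm, e⟩ := mem_S₀_iff.1 t.2
    obtain ⟨i, hi, rfl⟩ := List.mem_iff_getElem.1 hm
    exact ⟨⟨i, hi⟩, Subtype.ext (by
      show ofMask (tetr.getD i 0) = _
      rw [← e, show tetr.getD i 0 = tetr[i] by simp [List.getD_eq_getElem?_getD, hi]])⟩)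

theorem surjective_onMembers : Function.Surjective (onMembers S₀) := by
  rw [← MonoidHom.range_eq_top, eq_top_iff]
  intro e _
  let c : Equiv.Perm (Fin 6) ≃* Equiv.Perm ↥S₀ := member.permCongrHom
  suffices h : ∀ x : Equiv.Perm (Fin 6), c x ∈ (onMembers S₀).range by
    simpa using h (c.symm e)
  intro x
  have hx : x ∈ Submonoid.closure
      (Set.range fun i : Fin 5 => Equiv.swap i.castSucc i.succ) := by
    rw [Equiv.Perm.mclosure_swap_castSucc_succ 5]
    trivial
  induction hx using Submonoid.closure_induction with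
  | mem y hy =>
    obtain ⟨i, rfl⟩ := hy
    have hall : ∀ i : Fin 5, autoOK (sextSwaps.getD i.1 []) = true ∧
        actF (sextSwaps.getD i.1 []) tetr = tetr ∧
        ∀ j : Fin 6, actMask (sextSwaps.getD i.1 []) (tetr.getD j.1 0) =
          tetr.getD (Equiv.swap i.castSucc i.succ j).1 0 := by decide +kernel
    obtain ⟨h1, h2, h3⟩ := hall i
    obtain ⟨g, ⟨hg, hgS⟩, ht⟩ := rep_stab_fam (rep_of_autoOK h1)
      (show masksOK tetr = true by decide +kernel) h2
    refine ⟨⟨⟨g, hg⟩, hgS⟩, ?_⟩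
    ext t : 2
    obtain ⟨j, rfl⟩ := member.surjective t
    show g • (member j : Finset GolayPt) = _
    rw [show c (Equiv.swap i.castSucc i.succ) (member j) =
      member (Equiv.swap i.castSucc i.succ j) by simp [c]]
    show g • ofMask (tetr.getD j.1 0) = ofMask (tetr.getD _ 0)
    rw [← ofMask_actMask, ht, h3 j]
  | one => rw [map_one]; exact one_mem _
  | mul y z _ _ hy hz => rw [map_mul]; exact mul_mem hy hz

theorem card_stab_sextet : Nat.card (MulAction.stabilizer M24 S₀) = 138240 := by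
  have e : MulAction.orbit M24 S₀ = sextets := by
    ext y
    exact ⟨fun ⟨g, e⟩ => e ▸ smul_mem_sextets g.2 S₀_mem,
      fun hy => let ⟨g, hg, e⟩ := exists_map_sextet hy; ⟨⟨g, hg⟩, e⟩⟩
  have h := (MulAction.stabilizer M24 S₀).card_mul_index
  rw [MulAction.index_stabilizer, e, ncard_sextets, card_M24] at h
  exact Nat.eq_of_mul_eq_mul_right (by norm_num : 0 < 1771) (h.trans (by norm_num))

theorem card_ker : Nat.card (onMembers S₀).ker = 192 := by
  have h := (onMembers S₀).ker.card_mul_index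
  rw [Subgroup.index_ker, MonoidHom.range_eq_top.2 surjective_onMembers, Subgroup.card_top,
    Nat.card_eq_fintype_card (α := Equiv.Perm ↥S₀), Fintype.card_perm, Fintype.card_coe,
    S₀_mem.1, card_stab_sextet] at h
  exact Nat.eq_of_mul_eq_mul_right (Nat.factorial_pos 6) (h.trans (by decide +kernel))

/-- The elements preserving every pairing inside every tetrad. -/
def keepsPairs (g : Equiv.Perm GolayPt) : Prop :=
  ∀ t ∈ S₀, g • t = t ∧ ∀ s ⊆ t, s.card = 2 → g • s = s ∨ g • s = t \ s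

theorem smul_sdiff' (g : Equiv.Perm GolayPt) (t s : Finset GolayPt) :
    g • (t \ s) = g • t \ g • s := Finset.smul_finset_sdiff

/-- The elementary abelian normal subgroup. -/
def pairGroup : Subgroup (MulAction.stabilizer M24 S₀) where
  carrier := {g | keepsPairs (g.1 : Equiv.Perm GolayPt)}
  one_mem' t _ := ⟨one_smul (Equiv.Perm GolayPt) t,
    fun s _ _ => Or.inl (one_smul (Equiv.Perm GolayPt) s)⟩
  mul_mem' := by
    intro g h hg hh t ht
    have ht1 := (hg t ht).1
    refine ⟨by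
      show ((g.1 : Equiv.Perm GolayPt) * (h.1 : Equiv.Perm GolayPt)) • t = t
      rw [mul_smul, (hh t ht).1, ht1], fun s hs hc => ?_⟩
    show ((g.1 : Equiv.Perm GolayPt) * (h.1 : Equiv.Perm GolayPt)) • s = s ∨
      ((g.1 : Equiv.Perm GolayPt) * (h.1 : Equiv.Perm GolayPt)) • s = t \ s
    rw [mul_smul]
    rcases (hh t ht).2 s hs hc with e | e <;> rw [e]
    · exact (hg t ht).2 s hs hc
    · rcases (hg t ht).2 s hs hc with e' | e'
      · exact Or.inr (by rw [smul_sdiff', ht1, e'])
      · exact Or.inl (by rw [smul_sdiff', ht1, e', Finset.sdiff_sdiff_eq_self hs])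
  inv_mem' := by
    intro g hg t ht
    have ht1 : (g.1 : Equiv.Perm GolayPt)⁻¹ • t = t := by
      rw [inv_smul_eq_iff, (hg t ht).1]
    refine ⟨ht1, fun s hs hc => ?_⟩
    show (g.1 : Equiv.Perm GolayPt)⁻¹ • s = s ∨ (g.1 : Equiv.Perm GolayPt)⁻¹ • s = t \ s
    rcases (hg t ht).2 s hs hc with e | e
    · exact Or.inl (by rw [inv_smul_eq_iff, e])
    · refine Or.inr ?_
      rw [inv_smul_eq_iff, smul_sdiff', (hg t ht).1, e, Finset.sdiff_sdiff_eq_self hs]

theorem pairGroup_normal : pairGroup.Normal := by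
  refine ⟨fun g hg u => ?_⟩
  intro t ht
  have hu : (u.1 : Equiv.Perm GolayPt) • S₀ = S₀ := u.2
  have ht' : (u.1 : Equiv.Perm GolayPt)⁻¹ • t ∈ S₀ := by
    rw [Finset.inv_smul_mem_iff, hu]; exact ht
  obtain ⟨h1, h2⟩ := hg _ ht'
  refine ⟨?_, fun s hs hc => ?_⟩
  · show ((u.1 : Equiv.Perm GolayPt) * (g.1 : Equiv.Perm GolayPt) *
      (u.1 : Equiv.Perm GolayPt)⁻¹) • t = t
    rw [mul_smul, mul_smul, h1, smul_inv_smul]
  · show ((u.1 : Equiv.Perm GolayPt) * (g.1 : Equiv.Perm GolayPt) *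
      (u.1 : Equiv.Perm GolayPt)⁻¹) • s = s ∨ ((u.1 : Equiv.Perm GolayPt) *
        (g.1 : Equiv.Perm GolayPt) * (u.1 : Equiv.Perm GolayPt)⁻¹) • s = t \ s
    rw [mul_smul, mul_smul]
    rcases h2 _ (Finset.smul_finset_subset_smul_finset hs)
      ((Finset.card_smul_finset _ s).trans hc) with e | e
    · exact Or.inl (by rw [e, smul_inv_smul])
    · exact Or.inr (by rw [e, smul_sdiff', smul_inv_smul, smul_inv_smul])

theorem exists_tetrad (p : GolayPt) : ∃ t ∈ S₀, p ∈ t := by
  have hall : ∀ i < 24, ∃ m ∈ tetr, m.testBit i = true := by decide +kernel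
  obtain ⟨m, hm, hb⟩ := hall _ (p2i_lt p)
  exact ⟨ofMask m, mem_S₀_iff.2 ⟨m, hm, rfl⟩, mem_ofMask_iff.2 hb⟩

theorem pairGroup_sq (x : MulAction.stabilizer M24 S₀) (hx : x ∈ pairGroup) : x * x = 1 := by
  apply Subtype.ext
  apply Subtype.ext
  show (x.1 : Equiv.Perm GolayPt) * (x.1 : Equiv.Perm GolayPt) = 1
  ext p : 1
  set g := (x.1 : Equiv.Perm GolayPt)
  rw [Equiv.Perm.mul_apply, Equiv.Perm.one_apply]
  by_cases hq : g p = p
  · rw [hq, hq]
  obtain ⟨t, ht, hp⟩ := exists_tetrad p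
  obtain ⟨h1, h2⟩ := hx t ht
  have hgp : g p ∈ t := by
    rw [← h1, ← Equiv.Perm.smul_def]; exact Finset.smul_mem_smul_finset hp
  rcases h2 {p, g p} (by simp [Finset.insert_subset_iff, hp, hgp])
    (Finset.card_pair (Ne.symm hq)) with e | e
  · have : g (g p) ∈ ({p, g p} : Finset GolayPt) := by
      have hm := Finset.smul_mem_smul_finset (a := g) (show g p ∈ ({p, g p} : Finset GolayPt) by simp)
      rw [e, Equiv.Perm.smul_def] at hm
      exact hm
    simp only [Finset.mem_insert, Finset.mem_singleton] at this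
    exact this.resolve_right fun h => hq (g.injective h)
  · have : g • p ∈ t \ {p, g p} := by
      rw [← e]; exact Finset.smul_mem_smul_finset (by simp)
    simp [Equiv.Perm.smul_def] at this

theorem keepsPairs_of_table {g : Equiv.Perm GolayPt}
    (hfix : ∀ m ∈ tetr, actMask (toTab g) m = m)
    (hpair : ∀ m ∈ tetr, ∀ a < 24, ∀ b < 24, m.testBit a = true → m.testBit b = true → a ≠ b →
      actMask (toTab g) (2 ^ a ||| 2 ^ b) = 2 ^ a ||| 2 ^ b ∨
      actMask (toTab g) (2 ^ a ||| 2 ^ b) = m ^^^ (2 ^ a ||| 2 ^ b)) : keepsPairs g := by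
  intro t ht
  obtain ⟨m, hm, rfl⟩ := mem_S₀_iff.1 ht
  have hlt : ∀ m ∈ tetr, m < 2 ^ 24 := by decide +kernel
  have h1 : g • ofMask m = ofMask m := by rw [← ofMask_actMask, hfix m hm]
  refine ⟨h1, fun s hs hc => ?_⟩
  obtain ⟨p, q, hpq, rfl⟩ := Finset.card_eq_two.1 hc
  have hp : p ∈ ofMask m := hs (by simp)
  have hq : q ∈ ofMask m := hs (by simp)
  rw [mem_ofMask_iff] at hp hq
  have e : ofMask (2 ^ p2i p ||| 2 ^ p2i q) = {p, q} := by
    rw [ofMask_lor, ofMask_pow (p2i_lt p), ofMask_pow (p2i_lt q), i2p_p2i, i2p_p2i]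
    rfl
  rw [← e, ← ofMask_actMask]
  rcases hpair m hm _ (p2i_lt p) _ (p2i_lt q) hp hq (fun h => hpq (p2i_injective h)) with h | h
  · exact Or.inl (by rw [h])
  · refine Or.inr ?_
    rw [h, ofMask_xor, symmDiff_of_ge (by rw [e]; exact hs)]

/-- The table check for the elements of the group of order 64. -/
noncomputable def tableOK (t : List ℕ) : Bool :=
  autoOK t && actF t tetr == tetr && tetr.all (fun m => actMask t m == m &&
    (List.range 24).all fun a => (List.range 24).all fun b =>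
      !(m.testBit a && m.testBit b && a != b) ||
        (actMask t (2 ^ a ||| 2 ^ b) == (2 ^ a ||| 2 ^ b) ||
          actMask t (2 ^ a ||| 2 ^ b) == m ^^^ (2 ^ a ||| 2 ^ b)))

theorem card_pairGroup_ge : 64 ≤ Nat.card pairGroup := by
  have hok : sextN.all tableOK = true := by decide +kernel
  have hall : ∀ t ∈ sextN, autoOK t = true ∧ actF t tetr = tetr ∧
      (∀ m ∈ tetr, actMask t m = m) ∧
      ∀ m ∈ tetr, ∀ a < 24, ∀ b < 24, m.testBit a = true → m.testBit b = true → a ≠ b →
        actMask t (2 ^ a ||| 2 ^ b) = 2 ^ a ||| 2 ^ b ∨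
        actMask t (2 ^ a ||| 2 ^ b) = m ^^^ (2 ^ a ||| 2 ^ b) := by
    intro t ht
    have h := List.all_eq_true.1 hok t ht
    simp only [tableOK, Bool.and_eq_true, beq_iff_eq, List.all_eq_true, List.mem_range,
      Bool.or_eq_true, Bool.not_eq_true', Bool.and_eq_false_iff, bne_eq_false_iff_eq] at h
    obtain ⟨⟨h1, h2⟩, h3⟩ := h
    refine ⟨h1, h2, fun m hm => (h3 m hm).1, fun m hm a ha b hb ta tb hab => ?_⟩
    rcases (h3 m hm).2 a ha b hb with hx | hx
    · rcases hx with (hx | hx) | hx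
      · simp [ta] at hx
      · simp [tb] at hx
      · exact absurd hx hab
    · exact hx
  have hex : ∀ j : Fin sextN.length, ∃ x : pairGroup,
      toTab (x.1.1 : Equiv.Perm GolayPt) = sextN[j] := by
    intro j
    obtain ⟨h1, h2, h3, h4⟩ := hall _ (List.getElem_mem j.2)
    obtain ⟨g, ⟨hg, hgS⟩, ht⟩ := rep_stab_fam (rep_of_autoOK h1)
      (show masksOK tetr = true by decide +kernel) h2
    exact ⟨⟨⟨⟨g, hg⟩, hgS⟩, keepsPairs_of_table (ht ▸ h3) (ht ▸ h4)⟩, ht⟩
  choose f hf using hex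
  have hinj : Function.Injective f := by
    intro a b e
    have hnd : sextN.Nodup := by decide +kernel
    have : sextN[a] = sextN[b] := by rw [← hf a, ← hf b, e]
    exact Fin.ext ((hnd.getElem_inj_iff (hi := a.2) (hj := b.2)).1 this)
  have := Nat.card_le_card_of_injective f hinj
  rw [Nat.card_eq_fintype_card, Fintype.card_fin] at this
  exact le_trans (by decide +kernel) this

theorem card_pairGroup : Nat.card pairGroup = 64 := by
  have hp : IsPGroup 2 pairGroup := fun x => ⟨1, by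
    apply Subtype.ext
    rw [pow_one, pow_two]
    exact pairGroup_sq x.1 x.2⟩
  obtain ⟨n, hn⟩ := hp.exists_card_eq
  have hle : pairGroup ≤ (onMembers S₀).ker := fun x hx => by
    ext t : 2
    exact (hx t.1 t.2).1
  have hdvd := Subgroup.card_dvd_of_le hle
  rw [card_ker, hn] at hdvd
  have hge := card_pairGroup_ge
  rw [hn] at hge ⊢
  have h7 : n < 7 := by
    by_contra hlt
    have : 2 ^ 7 ∣ 192 := (pow_dvd_pow 2 (not_lt.1 hlt)).trans hdvd
    norm_num at this
  interval_cases n <;> first | (norm_num; done) | (exfalso; norm_num at hge; done)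


/-- Structure of a sextet stabiliser: it induces every permutation of the six tetrads, the subgroup fixing each tetrad setwise has order 192, and there is a normal subgroup of order 64 consisting of elements squaring to the identity. -/
theorem result (S : Finset (Finset Cfsg.GolayPt)) (hS : S ∈ Cfsg.sextets) : (∀ e : Equiv.Perm ↥S, ∃ g ∈ MulAction.stabilizer Cfsg.M24 S, ∀ t : ↥S, (g : Equiv.Perm Cfsg.GolayPt) • (t : Finset Cfsg.GolayPt) = ((e t : ↥S) : Finset Cfsg.GolayPt)) ∧ Nat.card {g : ↥(MulAction.stabilizer Cfsg.M24 S) // ∀ t ∈ S, ((g : Cfsg.M24) : Equiv.Perm Cfsg.GolayPt) • t = t} = 192 ∧ ∃ N : Subgroup ↥(MulAction.stabilizer Cfsg.M24 S), N.Normal ∧ Nat.card N = 64 ∧ ∀ x ∈ N, x * x = 1 := by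
  obtain ⟨k, hk, rfl⟩ := exists_map_sextet hS
  let K : M24 := ⟨k, hk⟩
  let c : MulAction.stabilizer M24 S₀ ≃* MulAction.stabilizer M24 (k • S₀) :=
    ((MulAut.conj K).subgroupMap _).trans
      (MulEquiv.subgroupCongr (MulAction.stabilizer_smul_eq_stabilizer_map_conj K S₀).symm)
  have hc : ∀ g, ((c g).1 : Equiv.Perm GolayPt) = k * (g.1 : Equiv.Perm GolayPt) * k⁻¹ :=
    fun g => rfl
  refine ⟨fun e => ?_, ?_, pairGroup.map c.toMonoidHom, ?_, ?_, ?_⟩
  · let d : ↥S₀ ≃ ↥(k • S₀) :=
      { toFun := fun t => ⟨k • (t : Finset GolayPt), Finset.smul_mem_smul_finset t.2⟩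
        invFun := fun t => ⟨k⁻¹ • (t : Finset GolayPt), Finset.inv_smul_mem_iff.2 t.2⟩
        left_inv := fun t => Subtype.ext (inv_smul_smul k _)
        right_inv := fun t => Subtype.ext (smul_inv_smul k _) }
    obtain ⟨g, hg⟩ := surjective_onMembers ((d.trans e).trans d.symm)
    refine ⟨(c g).1, (c g).2, fun t => ?_⟩
    rw [hc, mul_smul, mul_smul]
    obtain ⟨u, rfl⟩ := d.surjective t
    have h := congrArg (fun σ : Equiv.Perm ↥S₀ => ((σ u : ↥S₀) : Finset GolayPt)) hg
    show k • (g.1 : Equiv.Perm GolayPt) • k⁻¹ • k • (u : Finset GolayPt) = _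
    rw [inv_smul_smul, show (g.1 : Equiv.Perm GolayPt) • (u : Finset GolayPt) =
      k⁻¹ • ((e (d u) : ↥(k • S₀)) : Finset GolayPt) from h, smul_inv_smul]
  · rw [← card_ker]
    refine Nat.card_congr ((c.toEquiv.subtypeEquiv fun g => ?_).symm)
    rw [MonoidHom.mem_ker]
    constructor
    · intro hg t ht
      obtain ⟨u, hu, rfl⟩ := Finset.mem_smul_finset.1 ht
      show ((c g).1 : Equiv.Perm GolayPt) • k • u = k • u
      have h := congrArg (fun σ : Equiv.Perm ↥S₀ => ((σ ⟨u, hu⟩ : ↥S₀) : Finset GolayPt)) hg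
      rw [hc, mul_smul, mul_smul, inv_smul_smul, show (g.1 : Equiv.Perm GolayPt) • u = u from h]
    · intro hg
      ext u : 2
      have h : ((c g).1 : Equiv.Perm GolayPt) • k • u.1 = k • u.1 :=
        hg _ (Finset.smul_mem_smul_finset u.2)
      rw [hc, mul_smul, mul_smul, inv_smul_smul, smul_left_cancel_iff] at h
      exact h
  · exact pairGroup_normal.map _ c.surjective
  · rw [Subgroup.card_map_of_injective c.injective, card_pairGroup]
  · rintro _ ⟨y, hy, rfl⟩
    rw [← map_mul, pairGroup_sq y hy, map_one]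

end Cfsg.Agent.S1551
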