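import Cfsg.Statements.S1552
import Cfsg.Agent.Eq.Def_SporadicCombinatorics
import Cfsg.Agent.M24Orbits.OrbitSplit

set_option autoImplicit false
open scoped Pointwise
open Cfsg

open CfsgLib.Golay CfsgLib.Mathieu CfsgLib.M24Orbits CfsgLib.M24Orbits.Data

namespace Cfsg.Agent.S1552

/-- A sextet stabiliser has four orbits on the 1771 sextets, of sizes 1, 90, 240, 1440; and the stabiliser is a maximal proper subgroup. -/
theorem result (S : Finset (Finset Cfsg.GolayPt)) (hS : S ∈ Cfsg.sextets) : ∃ X₁ ∈ Cfsg.sextets, ∃ X₂ ∈ Cfsg.sextets, ∃ X₃ ∈ Cfsg.sextets, (MulAction.orbit ↥(MulAction.stabilizer Cfsg.M24 S) X₁).ncard = 90 ∧ (MulAction.orbit ↥(MulAction.stabilizer Cfsg.M24 S) X₂).ncard = 240 ∧ (MulAction.orbit ↥(MulAction.stabilizer Cfsg.M24 S) X₃).ncard = 1440 ∧ Cfsg.sextets = {S} ∪ MulAction.orbit ↥(MulAction.stabilizer Cfsg.M24 S) X₁ ∪ MulAction.orbit ↥(MulAction.stabilizer Cfsg.M24 S) X₂ ∪ MulAction.orbit ↥(MulAction.stabilizer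 Cfsg.M24 S) X₃ ∧ IsCoatom (MulAction.stabilizer Cfsg.M24 S) := by
  obtain ⟨k, hk, rfl⟩ := exists_map_sextet hS
  have hv : ∀ g ∈ stabM S₀, ∀ x ∈ sextets, famInv S₀ (g • x) = famInv S₀ x :=
    fun g hg x _ => famInv_invariant (smul_eq_self hg) x
  have hC : ∀ g ∈ M24, ∀ x ∈ sextets, g • x ∈ sextets := fun _ hg _ hx => smul_mem_sextets hg hx
  have hl : (sextSextReps.map famOf).length = 4 := by decide +kernel
  have hcoatom := isCoatom_of_setup _ sextSext_setup hv sextSext_sep hC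
    (fun _ hx => exists_map_sextet hx) (hl ▸ by norm_num) rfl (by rw [ncard_sextets]; norm_num)
    [1, 90, 240, 1440] sextSext_count (by rw [ncard_sextets]; decide +kernel) hk
  obtain ⟨hsingle, hrest⟩ := orbit_rest _ sextSext_setup hv sextSext_sep hC hk (hl ▸ by norm_num) rfl
  obtain ⟨hd, -⟩ := orbit_data _ sextSext_setup hv sextSext_sep hC hk
  obtain ⟨m1, s1, c1⟩ := hd 1 (by omega)
  obtain ⟨m2, s2, c2⟩ := hd 2 (by omega)
  obtain ⟨m3, s3, c3⟩ := hd 3 (by omega)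
  refine ⟨_, m1, _, m2, _, m3, c1.trans ?_, c2.trans ?_, c3.trans ?_, Set.ext fun y => ⟨?_, ?_⟩,
    hcoatom⟩
  · rw [certCount_of_map sextSext_count (by norm_num)]; rfl
  · rw [certCount_of_map sextSext_count (by norm_num)]; rfl
  · rw [certCount_of_map sextSext_count (by norm_num)]; rfl
  · intro hy
    rcases hrest y hy with h | ⟨i, hi, hpos, hm⟩
    · exact Or.inl (Or.inl (Or.inl h))
    · have h3 : i = 1 ∨ i = 2 ∨ i = 3 := by omega
      rcases h3 with rfl | rfl | rfl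
      · exact Or.inl (Or.inl (Or.inr hm))
      · exact Or.inl (Or.inr hm)
      · exact Or.inr hm
  · rintro (((hy | hm) | hm) | hm)
    · rw [Set.mem_singleton_iff] at hy; subst hy; exact hS
    exacts [s1 hm, s2 hm, s3 hm]

end Cfsg.Agent.S1552
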