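import Cfsg.Statements.S1553
import Cfsg.Agent.Mathieu.SixSets

set_option autoImplicit false
open scoped Pointwise
open Cfsg

namespace Cfsg.Agent.S1553

/-- The stabiliser of an octad in the group of the length-24 code induces on the octad exactly its alternating group. -/
theorem result (o : Finset Cfsg.GolayPt) (ho : o ∈ Cfsg.octads) : {e : Equiv.Perm ↥o | ∃ g : Equiv.Perm Cfsg.GolayPt, g ∈ Cfsg.M24 ∧ ∃ h : (∀ x, g x ∈ o ↔ x ∈ o), g.subtypePerm h = e} = (alternatingGroup ↥o : Set (Equiv.Perm ↥o)) := by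
  ext e
  rw [← CfsgLib.Mathieu.range_restrictHom ho, SetLike.mem_coe, MonoidHom.mem_range]
  simp only [Set.mem_setOf_eq]
  constructor
  · rintro ⟨g, hg, h, rfl⟩
    refine ⟨⟨g, CfsgLib.Mathieu.mem_fixSet_iff.2 ⟨hg, ?_⟩⟩, rfl⟩
    refine Finset.eq_of_subset_of_card_le ?_ (by rw [Finset.card_smul_finset])
    intro q hq
    obtain ⟨p, hp, rfl⟩ := Finset.mem_smul_finset.1 hq
    rw [Equiv.Perm.smul_def]
    exact (h p).2 hp
  · rintro ⟨⟨g, hg⟩, rfl⟩
    exact ⟨g, (CfsgLib.Mathieu.mem_fixSet_iff.1 hg).1,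
      CfsgLib.Mathieu.mem_iff_of_smul_eq (CfsgLib.Mathieu.mem_fixSet_iff.1 hg).2, rfl⟩

end Cfsg.Agent.S1553
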