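import Cfsg.Statements.S1556
import Cfsg.Agent.Eq.Def_SporadicCombinatorics
import Cfsg.Agent.M24Orbits.Transitive

set_option autoImplicit false
open scoped Pointwise
open Cfsg

open CfsgLib.Golay CfsgLib.Mathieu CfsgLib.M24Orbits CfsgLib.M24Orbits.Data

namespace Cfsg.Agent.S1556

/-- Two octads meeting a fixed octad in equally many points are in the same orbit of its stabiliser. -/
theorem result (o o' o'' : Finset Cfsg.GolayPt) (ho : o ∈ Cfsg.octads) (ho' : o' ∈ Cfsg.octads) (ho'' : o'' ∈ Cfsg.octads) (h : (o ∩ o').card = (o ∩ o'').card) : ∃ g : Equiv.Perm Cfsg.GolayPt, g ∈ Cfsg.M24 ∧ g • o = o ∧ g • o' = o'' := by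
  obtain ⟨k, hk, e⟩ := exists_map_octad' ho
  have hv : (O₀ ∩ k⁻¹ • o').card = (O₀ ∩ k⁻¹ • o'').card := by
    rw [← smul_inter' k O₀, ← smul_inter' k O₀ (k⁻¹ • o''), smul_inv_smul, smul_inv_smul, e]
    exact h
  obtain ⟨g, hg, hgo⟩ := exists_map_level (fun s : Finset GolayPt => (O₀ ∩ s).card) octOct_setup
    (fun g hg x _ => inter_invariant (smul_eq_self hg) x) octOct_sep k
    (smul_mem_octads (M24.inv_mem hk) ho') (smul_mem_octads (M24.inv_mem hk) ho'') hv
  exact ⟨k * g * k⁻¹, conj_mem hk hg.1, e ▸ conj_fixes (smul_eq_self hg), hgo⟩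

end Cfsg.Agent.S1556
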