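import Cfsg.Statements.S1558
import Cfsg.Agent.Eq.Def_SporadicCombinatorics
import Cfsg.Agent.M24Orbits.Transitive
import Cfsg.Agent.M24Orbits.Data.TrioKer
import Cfsg.Agent.Mathieu.Simple

set_option autoImplicit false
open scoped Pointwise
open Cfsg

open CfsgLib.Golay CfsgLib.Mathieu CfsgLib.M24Orbits CfsgLib.M24Orbits.Data

namespace Cfsg.Agent.S1558

/-- Vectors of length three over the field with two elements. -/
abbrev V3 : Type := Fin 3 → ZMod 2

/-- The number of a vector. -/
def vecNum (v : V3) : ℕ := (v 0).val + 2 * (v 1).val + 4 * (v 2).val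

/-- The sextet labelled by a vector. -/
def sxV (v : V3) : Finset (Finset GolayPt) := famOf (trioSextets.getD (vecNum v) [])

/-- Three sextets forming a line. -/
def lineRel (X Y Z : Finset (Finset GolayPt)) : Prop := ∃ x ∈ X, ∃ y ∈ Y, symmDiff x y ∈ Z

theorem lineRel_smul (g : Equiv.Perm GolayPt) {X Y Z : Finset (Finset GolayPt)}
    (h : lineRel X Y Z) : lineRel (g • X) (g • Y) (g • Z) := by
  obtain ⟨x, hx, y, hy, hz⟩ := h
  refine ⟨g • x, Finset.smul_mem_smul_finset hx, g • y, Finset.smul_mem_smul_finset hy, ?_⟩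
  rw [← smul_symmDiff']
  exact Finset.smul_mem_smul_finset hz

/-- The line relation on masks. -/
def relL (a b c : List ℕ) : Bool := a.any fun x => b.any fun y => c.contains (x ^^^ y)

theorem lineRel_famOf {a b c : List ℕ} (hc : masksOK c = true) (ha : masksOK a = true)
    (hb : masksOK b = true) : lineRel (famOf a) (famOf b) (famOf c) ↔ relL a b c = true := by
  simp only [masksOK, Bool.and_eq_true, List.all_eq_true, decide_eq_true_eq] at ha hb hc
  simp only [lineRel, relL, List.any_eq_true, List.contains_iff_mem]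
  constructor
  · rintro ⟨x, hx, y, hy, hz⟩
    simp only [famOf, List.mem_toFinset, List.mem_map] at hx hy hz
    obtain ⟨x', hx', rfl⟩ := hx
    obtain ⟨y', hy', rfl⟩ := hy
    obtain ⟨z', hz', e⟩ := hz
    refine ⟨x', hx', y', hy', ?_⟩
    have := congrArg toMask e
    rw [toMask_symmDiff, toMask_ofMask (hc.2 z' hz'), toMask_ofMask (ha.2 x' hx'),
      toMask_ofMask (hb.2 y' hy')] at this
    exact this ▸ hz'
  · rintro ⟨x, hx, y, hy, hz⟩
    refine ⟨ofMask x, ?_, ofMask y, ?_, ?_⟩ <;> simp only [famOf, List.mem_toFinset, List.mem_map]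
    · exact ⟨x, hx, rfl⟩
    · exact ⟨y, hy, rfl⟩
    · exact ⟨_, hz, ofMask_xor x y⟩

theorem sxV_sext : ∀ v : V3, v ≠ 0 → sextetOK (trioSextets.getD (vecNum v) []) = true := by
  decide +kernel

theorem sxV_inv : ∀ v : V3, v ≠ 0 →
    decide (famInvL [5279, 1009728, 15762208] (trioSextets.getD (vecNum v) []) =
      famInvL [5279, 1009728, 15762208] (trioSextReps.getD 0 [])) = true := by
  decide +kernel

theorem sxV_injL : ∀ v : V3, v ≠ 0 → ∀ w : V3, w ≠ 0 →
    trioSextets.getD (vecNum v) [] = trioSextets.getD (vecNum w) [] → v = w := by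
  decide +kernel

theorem sxV_relL : ∀ v : V3, v ≠ 0 → ∀ w : V3, w ≠ 0 → ∀ u : V3, u ≠ 0 →
    relL (trioSextets.getD (vecNum v) []) (trioSextets.getD (vecNum w) [])
      (trioSextets.getD (vecNum u) []) = decide (v ≠ w ∧ v + w = u) := by
  decide +kernel

theorem masks_sxV {v : V3} (hv : v ≠ 0) : masksOK (trioSextets.getD (vecNum v) []) = true := by
  have h := sxV_sext v hv
  simp only [sextetOK, Bool.and_eq_true] at h
  exact h.1.1.1

theorem sxV_inj {v w : V3} (hv : v ≠ 0) (hw : w ≠ 0) (e : sxV v = sxV w) : v = w := by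
  refine sxV_injL v hv w hw ?_
  rw [← encF_famOf (masks_sxV hv), ← encF_famOf (masks_sxV hw)]
  exact congrArg encF e

theorem sxV_rel {v w u : V3} (hv : v ≠ 0) (hw : w ≠ 0) (hu : u ≠ 0) :
    lineRel (sxV v) (sxV w) (sxV u) ↔ v ≠ w ∧ v + w = u :=
  (lineRel_famOf (masks_sxV hu) (masks_sxV hv) (masks_sxV hw)).trans
    (by rw [sxV_relL v hv w hw u hu, decide_eq_true_eq])

/-- The seven sextets refining the standard trio. -/
def fineSextets : Set (Finset (Finset GolayPt)) :=
  {S | S ∈ sextets ∧ famInv T₀ S = famInv T₀ (famOf (trioSextReps.getD 0 []))}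

theorem fineSextets_eq : fineSextets = sxV '' {v | v ≠ 0} := by
  have hr0 : masksOK (trioSextReps.getD 0 []) = true := by decide +kernel
  have hsub : sxV '' {v | v ≠ 0} ⊆ fineSextets := by
    rintro _ ⟨v, hv, rfl⟩
    refine ⟨famOf_mem_sextets (sxV_sext v hv), ?_⟩
    rw [sxV, famInv_famOf (by decide +kernel) (masks_sxV hv),
      famInv_famOf (by decide +kernel) hr0]
    exact of_decide_eq_true (sxV_inv v hv)
  refine (Set.eq_of_subset_of_ncard_le hsub ?_ (Set.toFinite _)).symm
  have h7 : fineSextets.ncard = 7 := by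
    have hi : 0 < (trioSextReps.map famOf).length := by decide +kernel
    have e := (level_eq_orbit (fun S => famInv T₀ S) trioSext_setup
      (fun g hg x _ => famInv_invariant (smul_eq_self hg) x) trioSext_sep hi).2
    rw [certCount_of_map trioSext_count (by norm_num)] at e
    rw [fineSextets, ← show (trioSextReps.map famOf)[0] = famOf (trioSextReps.getD 0 []) from rfl]
    exact e
  rw [h7, show (sxV '' {v : V3 | v ≠ 0}).ncard = ({v : V3 | v ≠ 0}).ncard from
    Set.ncard_image_of_injOn fun v hv w hw e => sxV_inj hv hw e, Set.ncard_eq_toFinset_card']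
  decide +kernel

theorem exists_vec (g : MulAction.stabilizer M24 T₀) (v : V3) :
    ∃ w : V3, (v = 0 → w = 0) ∧
      (v ≠ 0 → w ≠ 0 ∧ sxV w = ((g : M24) : Equiv.Perm GolayPt) • sxV v) := by
  by_cases hv : v = 0
  · exact ⟨0, fun _ => rfl, fun h => absurd hv h⟩
  have hm : ((g : M24) : Equiv.Perm GolayPt) • sxV v ∈ fineSextets := by
    have h : sxV v ∈ fineSextets := fineSextets_eq ▸ ⟨v, hv, rfl⟩
    exact ⟨smul_mem_sextets g.1.2 h.1, by
      rw [famInv_invariant (show ((g : M24) : Equiv.Perm GolayPt) • T₀ = T₀ from g.2)]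
      exact h.2⟩
  rw [fineSextets_eq] at hm
  obtain ⟨w, hw, e⟩ := hm
  exact ⟨w, fun h => absurd h hv, fun _ => ⟨hw, e⟩⟩

/-- The action on the labels. -/
noncomputable def vecMap (g : MulAction.stabilizer M24 T₀) (v : V3) : V3 :=
  (exists_vec g v).choose

theorem vecMap_zero (g : MulAction.stabilizer M24 T₀) : vecMap g 0 = 0 :=
  (exists_vec g 0).choose_spec.1 rfl

theorem vecMap_spec (g : MulAction.stabilizer M24 T₀) {v : V3} (hv : v ≠ 0) :
    vecMap g v ≠ 0 ∧ sxV (vecMap g v) = ((g : M24) : Equiv.Perm GolayPt) • sxV v :=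
  (exists_vec g v).choose_spec.2 hv

theorem vecMap_mul (g h : MulAction.stabilizer M24 T₀) (v : V3) :
    vecMap (g * h) v = vecMap g (vecMap h v) := by
  by_cases hv : v = 0
  · subst hv; rw [vecMap_zero, vecMap_zero, vecMap_zero]
  obtain ⟨h1, h2⟩ := vecMap_spec (g * h) hv
  obtain ⟨h3, h4⟩ := vecMap_spec h hv
  obtain ⟨h5, h6⟩ := vecMap_spec g h3
  refine sxV_inj h1 h5 ?_
  rw [h2, h6, h4]
  exact mul_smul ((g : M24) : Equiv.Perm GolayPt) ((h : M24) : Equiv.Perm GolayPt) (sxV v)

theorem vecMap_one (v : V3) : vecMap 1 v = v := by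
  by_cases hv : v = 0
  · subst hv; exact vecMap_zero 1
  obtain ⟨h1, h2⟩ := vecMap_spec 1 hv
  exact sxV_inj h1 hv (h2.trans (one_smul (Equiv.Perm GolayPt) (sxV v)))

theorem vecMap_add (g : MulAction.stabilizer M24 T₀) (v w : V3) :
    vecMap g (v + w) = vecMap g v + vecMap g w := by
  have hself : ∀ x : V3, x + x = 0 := by decide +kernel
  by_cases hv : v = 0
  · subst hv; rw [zero_add, vecMap_zero, zero_add]
  by_cases hw : w = 0
  · subst hw; rw [add_zero, vecMap_zero, add_zero]
  by_cases hvw : v = w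
  · subst hvw; rw [hself, hself, vecMap_zero]
  have hu : v + w ≠ 0 := by
    intro h
    apply hvw
    calc v = v + w + w := by rw [add_assoc, hself, add_zero]
      _ = w := by rw [h, zero_add]
  obtain ⟨a1, a2⟩ := vecMap_spec g hv
  obtain ⟨b1, b2⟩ := vecMap_spec g hw
  obtain ⟨c1, c2⟩ := vecMap_spec g hu
  have h := lineRel_smul ((g : M24) : Equiv.Perm GolayPt) ((sxV_rel hv hw hu).2 ⟨hvw, rfl⟩)
  rw [← a2, ← b2, ← c2] at h
  exact ((sxV_rel a1 b1 c1).1 h).2.symm

/-- The linear action on the labels. -/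
noncomputable def vecHom : MulAction.stabilizer M24 T₀ →* (V3 ≃ₗ[ZMod 2] V3) where
  toFun g :=
    { toFun := vecMap g
      invFun := vecMap g⁻¹
      map_add' := vecMap_add g
      map_smul' := fun c v => by
        have hc : ∀ c : ZMod 2, c = 0 ∨ c = 1 := by decide
        rcases hc c with rfl | rfl
        · simp [vecMap_zero]
        · simp
      left_inv := fun v => by rw [← vecMap_mul, inv_mul_cancel, vecMap_one]
      right_inv := fun v => by rw [← vecMap_mul, mul_inv_cancel, vecMap_one] }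
  map_one' := LinearEquiv.ext fun v => vecMap_one v
  map_mul' g h := LinearEquiv.ext fun v => vecMap_mul g h v

/-- The permutation of the octads of the trio. -/
def onOctads : MulAction.stabilizer M24 T₀ →* Equiv.Perm ↥T₀ where
  toFun g :=
    { toFun := fun t => ⟨(g.1 : Equiv.Perm GolayPt) • (t : Finset GolayPt), by
        have h := Finset.smul_mem_smul_finset (a := (g.1 : Equiv.Perm GolayPt)) t.2
        rwa [show (g.1 : Equiv.Perm GolayPt) • T₀ = T₀ from g.2] at h⟩
      invFun := fun t => ⟨(g.1 : Equiv.Perm GolayPt)⁻¹ • (t : Finset GolayPt), by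
        rw [Finset.inv_smul_mem_iff, show (g.1 : Equiv.Perm GolayPt) • T₀ = T₀ from g.2]
        exact t.2⟩
      left_inv := fun t => Subtype.ext (inv_smul_smul (g.1 : Equiv.Perm GolayPt) _)
      right_inv := fun t => Subtype.ext (smul_inv_smul (g.1 : Equiv.Perm GolayPt) _) }
  map_one' := by ext t : 2; exact one_smul (Equiv.Perm GolayPt) _
  map_mul' g h := by
    ext t : 2
    exact mul_smul (g.1 : Equiv.Perm GolayPt) (h.1 : Equiv.Perm GolayPt) (t : Finset GolayPt)

/-- Both actions together. -/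
noncomputable def bothHom :
    MulAction.stabilizer M24 T₀ →* GL (Fin 3) (ZMod 2) × Equiv.Perm (Fin 3) :=
  (((LinearMap.GeneralLinearGroup.generalLinearEquiv (ZMod 2) V3).symm.trans
      Matrix.GeneralLinearGroup.toLin.symm).toMonoidHom.comp vecHom).prod
    ((Finset.equivFinOfCardEq T₀_mem.1).permCongrHom.toMonoidHom.comp onOctads)

/-- The tables preserving every refining sextet and fixing each member of the trio. -/
noncomputable def keepsAll (t : List ℕ) : Bool :=
  [5279, 1009728, 15762208].all (fun m => actMask t m == m) &&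
    (List.range 7).all fun i => actF t (trioSextets.getD (i + 1) []) == trioSextets.getD (i + 1) []

/-- The tables of the kernel. -/
noncomputable def kerList : List (List ℕ) :=
  trioKerMoves.flatMap fun h => (octFix16.filter keepsAll).map (compTab h)

theorem kerList_facts : trioKerMoves.all (fun h => autoOK h && keepsAll h) = true ∧
    kerList.length = 64 ∧ kerList.all (fun t => compTab t t == idTab) = true ∧
    (∀ i < 24, (5279 : ℕ).testBit i = true → ∃ h ∈ trioKerMoves, app h 0 = i) := by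
  decide +kernel

/-- Tetrads through the point `0` separating the standard octad. -/
def sepTetrads : List ℕ :=
  ((List.range 7).flatMap fun i => (trioSextets.getD (i + 1) [])).filter fun m => m.testBit 0

theorem sepTetrads_ok : sepOK [0] (5279 :: sepTetrads) [1, 2, 3, 4, 7, 10, 12] = true := by
  decide +kernel

theorem keeps_of_mem_ker {g : MulAction.stabilizer M24 T₀} (hg : g ∈ bothHom.ker) :
    keepsAll (toTab ((g : M24) : Equiv.Perm GolayPt)) = true := by
  simp only [bothHom, MonoidHom.mem_ker, MonoidHom.prod_apply, Prod.mk_eq_one, MonoidHom.coe_comp,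
    MulEquiv.coe_toMonoidHom, Function.comp_apply, EmbeddingLike.map_eq_one_iff] at hg
  obtain ⟨h1, h2⟩ := hg
  simp only [keepsAll, Bool.and_eq_true, List.all_eq_true, beq_iff_eq, List.mem_range]
  refine ⟨fun m hm => ?_, fun i hi => ?_⟩
  · have hlt : ∀ m ∈ [5279, 1009728, 15762208], m < 2 ^ 24 := by decide +kernel
    have hmem : ofMask m ∈ T₀ := by
      simp only [famOf, List.mem_toFinset, List.mem_map]
      exact ⟨m, hm, rfl⟩
    have h := congrArg (fun e : Equiv.Perm ↥T₀ => toMask ((e ⟨ofMask m, hmem⟩ : ↥T₀) : Finset _)) h2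
    simp only [Equiv.Perm.one_apply, toMask_ofMask (hlt m hm)] at h
    have e : toMask (((g : M24) : Equiv.Perm GolayPt) • ofMask m) = m := h
    rwa [toMask_smul, toMask_ofMask (hlt m hm)] at e
  · obtain ⟨v, hv, e⟩ : ∃ v : V3, v ≠ 0 ∧ vecNum v = i + 1 := by
      revert i; decide +kernel
    have h := congrArg (fun f : V3 ≃ₗ[ZMod 2] V3 => sxV (f v)) h1
    have h' : sxV (vecMap g v) = sxV v := h
    rw [(vecMap_spec g hv).2] at h'
    have := congrArg encF h'
    rwa [encF_smul, sxV, encF_famOf (masks_sxV hv), e] at this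

theorem smul_tetrad {g : Equiv.Perm GolayPt} (hk : keepsAll (toTab g) = true)
    (h0 : g (i2p 0) = i2p 0) {m : ℕ} (hm : m ∈ 5279 :: sepTetrads) :
    g • ofMask m = ofMask m := by
  simp only [keepsAll, Bool.and_eq_true, List.all_eq_true, beq_iff_eq, List.mem_range] at hk
  rcases List.mem_cons.1 hm with rfl | hm
  · rw [← ofMask_actMask, hk.1 _ (by simp)]
  simp only [sepTetrads, List.mem_filter, List.mem_flatMap, List.mem_range] at hm
  obtain ⟨⟨i, hi, hmi⟩, hb⟩ := hm
  have huniq : ∀ i < 7, ∀ x ∈ trioSextets.getD (i + 1) [], ∀ y ∈ trioSextets.getD (i + 1) [],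
      x.testBit 0 = true → y.testBit 0 = true → x = y := by decide +kernel
  have hok : ∀ i < 7, masksOK (trioSextets.getD (i + 1) []) = true := by decide +kernel
  have h : g • ofMask m ∈ famOf (trioSextets.getD (i + 1) []) := by
    have hfix : g • famOf (trioSextets.getD (i + 1) []) = famOf (trioSextets.getD (i + 1) []) := by
      apply encF_injective
      rw [encF_smul, encF_famOf (hok i hi)]
      exact hk.2 i hi
    rw [← hfix]
    exact Finset.smul_mem_smul_finset (by
      simp only [famOf, List.mem_toFinset, List.mem_map]; exact ⟨m, hmi, rfl⟩)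
  simp only [famOf, List.mem_toFinset, List.mem_map] at h
  obtain ⟨y, hy, ey⟩ := h
  have hyb : y.testBit 0 = true := by
    have h4 := Finset.smul_mem_smul_finset (a := g)
      (show i2p 0 ∈ ofMask m by rw [mem_ofMask_iff, p2i_i2p 0 (by norm_num)]; exact hb)
    rw [Equiv.Perm.smul_def, h0, ← ey, mem_ofMask_iff, p2i_i2p 0 (by norm_num)] at h4
    exact h4
  rw [← ey, huniq i hi m hmi y hy hb hyb]

theorem keeps_mul {g h : Equiv.Perm GolayPt} (hg : keepsAll (toTab g) = true)
    (hh : keepsAll (toTab h) = true) : keepsAll (toTab (g⁻¹ * h)) = true := by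
  simp only [keepsAll, Bool.and_eq_true, List.all_eq_true, beq_iff_eq, List.mem_range] at hg hh ⊢
  refine ⟨fun m hm => ?_, fun i hi => ?_⟩
  · have hlt : ∀ m ∈ [5279, 1009728, 15762208], m < 2 ^ 24 := by decide +kernel
    have e : ∀ x : Equiv.Perm GolayPt, actMask (toTab x) m = m → x • ofMask m = ofMask m :=
      fun x hx => by rw [← ofMask_actMask, hx]
    have h' : (g⁻¹ * h) • ofMask m = ofMask m := by
      rw [mul_smul, e h (hh.1 m hm), inv_smul_eq_iff, e g (hg.1 m hm)]
    have := congrArg toMask h'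
    rwa [toMask_smul, toMask_ofMask (hlt m hm)] at this
  · have hok : ∀ i < 7, masksOK (trioSextets.getD (i + 1) []) = true := by decide +kernel
    have e : ∀ x : Equiv.Perm GolayPt,
        actF (toTab x) (trioSextets.getD (i + 1) []) = trioSextets.getD (i + 1) [] →
        x • famOf (trioSextets.getD (i + 1) []) = famOf (trioSextets.getD (i + 1) []) :=
      fun x hx => encF_injective (by rw [encF_smul, encF_famOf (hok i hi), hx])
    have h' : (g⁻¹ * h) • famOf (trioSextets.getD (i + 1) []) =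
        famOf (trioSextets.getD (i + 1) []) := by
      rw [mul_smul, e h (hh.2 i hi), inv_smul_eq_iff, e g (hg.2 i hi)]
    have := congrArg encF h'
    rwa [encF_smul, encF_famOf (hok i hi)] at this

theorem mem_kerList {g : MulAction.stabilizer M24 T₀} (hg : g ∈ bothHom.ker) :
    toTab ((g : M24) : Equiv.Perm GolayPt) ∈ kerList := by
  set σ := ((g : M24) : Equiv.Perm GolayPt) with hσ
  have hk := keeps_of_mem_ker hg
  obtain ⟨hmoves, -, -, hcov⟩ := kerList_facts
  have hO : σ • O₀ = O₀ := by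
    have hk' := hk
    simp only [keepsAll, Bool.and_eq_true, List.all_eq_true, beq_iff_eq] at hk'
    rw [← ofMask_actMask, hk'.1 5279 (by simp)]
  have hin : (5279 : ℕ).testBit (p2i (σ (i2p 0))) = true := by
    rw [← mem_ofMask_iff]
    show σ (i2p 0) ∈ O₀
    rw [← hO, ← Equiv.Perm.smul_def, Finset.smul_mem_smul_finset_iff,
      mem_ofMask_iff]
    decide +kernel
  obtain ⟨t, ht, e⟩ := hcov _ (p2i_lt _) hin
  simp only [List.all_eq_true, Bool.and_eq_true] at hmoves
  obtain ⟨h, hh, rfl⟩ := rep_of_autoOK (hmoves t ht).1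
  have e0 : h (i2p 0) = σ (i2p 0) := by
    apply p2i_injective
    rw [← app_toTab h 0 (by norm_num)]
    exact e
  have hkf := keeps_mul (hmoves _ ht).2 hk
  have hf0 : (h⁻¹ * σ) (i2p 0) = i2p 0 := by
    rw [Equiv.Perm.mul_apply, ← e0, ← Equiv.Perm.mul_apply, inv_mul_cancel, Equiv.Perm.one_apply]
  have h7 := fixes_of_sep (g := h⁻¹ * σ) (F := [0]) (S := 5279 :: sepTetrads)
    (fun i hi => by rw [List.mem_singleton] at hi; subst hi; exact hf0)
    (fun m hm => smul_tetrad hkf hf0 hm) sepTetrads_ok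
  have h16 : toTab (h⁻¹ * σ) ∈ octFix16 := by
    refine toTab_mem_octFix16 (mem_base7Fix.2 ⟨M24.mul_mem (M24.inv_mem hh) g.1.2, fun b hb => ?_⟩)
    have hb' : b = 0 ∨ b ∈ [1, 2, 3, 4, 7, 10, 12] := by revert b; decide +kernel
    rcases hb' with rfl | hb'
    · exact hf0
    · exact h7 b hb'
  simp only [kerList, List.mem_flatMap, List.mem_map, List.mem_filter]
  exact ⟨_, ht, _, ⟨h16, hkf⟩, by rw [← toTab_mul, mul_inv_cancel_left]⟩

theorem card_ker_le : Nat.card bothHom.ker ≤ 64 := by
  classical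
  rw [← kerList_facts.2.1]
  have hinj : Function.Injective (fun g : bothHom.ker =>
      (⟨toTab ((g.1 : M24) : Equiv.Perm GolayPt), List.mem_toFinset.2 (mem_kerList g.2)⟩ :
        ↥kerList.toFinset)) := fun a b e =>
    Subtype.ext (Subtype.ext (Subtype.ext (toTab_injective (congrArg Subtype.val e))))
  refine (Nat.card_le_card_of_injective _ hinj).trans ?_
  rw [Nat.card_eq_fintype_card, Fintype.card_coe]
  exact List.toFinset_card_le _

theorem card_target : Nat.card (GL (Fin 3) (ZMod 2) × Equiv.Perm (Fin 3)) = 1008 := by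
  haveI : Fact (Nat.Prime 2) := ⟨Nat.prime_two⟩
  rw [Nat.card_prod, Matrix.card_GL_field, Nat.card_perm, ZMod.card, Nat.card_eq_fintype_card,
    Fintype.card_fin]
  decide +kernel

theorem card_stab_trio : Nat.card (MulAction.stabilizer M24 T₀) = 64512 := by
  have e : MulAction.orbit M24 T₀ = trios := by
    ext y
    exact ⟨fun ⟨g, e⟩ => e ▸ smul_mem_trios g.2 T₀_mem,
      fun hy => let ⟨g, hg, e⟩ := exists_map_trio hy; ⟨⟨g, hg⟩, e⟩⟩
  have h := (MulAction.stabilizer M24 T₀).card_mul_index
  rw [MulAction.index_stabilizer, e, ncard_trios, card_M24] at h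
  exact Nat.eq_of_mul_eq_mul_right (by norm_num : 0 < 3795) (h.trans (by norm_num))

theorem sizes_arith (a b : ℕ) (h : a * b = 64512) (ha : a ≤ 64) (hb : b ≤ 1008) :
    b = 1008 ∧ a = 64 := by
  have hb' : b = 1008 := by
    by_contra hne
    have := Nat.mul_le_mul ha (show b ≤ 1007 by omega)
    omega
  subst hb'
  exact ⟨rfl, by omega⟩

theorem bothHom_facts : Nat.card bothHom.ker = 64 ∧ Function.Surjective bothHom := by
  have h1 := bothHom.ker.card_mul_index
  rw [Subgroup.index_ker, card_stab_trio] at h1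
  have h2 : Nat.card bothHom.range ≤ 1008 := card_target ▸ Subgroup.card_le_card_group _
  obtain ⟨h5, h6⟩ := sizes_arith _ _ h1 card_ker_le h2
  exact ⟨h6, MonoidHom.range_eq_top.1 (Subgroup.eq_top_of_card_eq _ (h5.trans card_target.symm))⟩


/-- Structure of a trio stabiliser: every permutation of the three octads is induced, and there is a normal subgroup of order 64 of elements squaring to the identity whose quotient is isomorphic to the product of GL(3, 2) with the symmetric group of degree 3. -/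
theorem result (T : Finset (Finset Cfsg.GolayPt)) (hT : T ∈ Cfsg.trios) : (∀ e : Equiv.Perm ↥T, ∃ g ∈ MulAction.stabilizer Cfsg.M24 T, ∀ o : ↥T, (g : Equiv.Perm Cfsg.GolayPt) • (o : Finset Cfsg.GolayPt) = ((e o : ↥T) : Finset Cfsg.GolayPt)) ∧ ∃ (N : Subgroup ↥(MulAction.stabilizer Cfsg.M24 T)) (_ : N.Normal), Nat.card N = 64 ∧ (∀ x ∈ N, x * x = 1) ∧ Nonempty (↥(MulAction.stabilizer Cfsg.M24 T) ⧸ N ≃* GL (Fin 3) (ZMod 2) × Equiv.Perm (Fin 3)) := by
  obtain ⟨k, hk, rfl⟩ := exists_map_trio hT
  let K : M24 := ⟨k, hk⟩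
  let c : MulAction.stabilizer M24 T₀ ≃* MulAction.stabilizer M24 (k • T₀) :=
    ((MulAut.conj K).subgroupMap _).trans
      (MulEquiv.subgroupCongr (MulAction.stabilizer_smul_eq_stabilizer_map_conj K T₀).symm)
  have hc : ∀ g, ((c g).1 : Equiv.Perm GolayPt) = k * (g.1 : Equiv.Perm GolayPt) * k⁻¹ :=
    fun g => rfl
  obtain ⟨hker, hsurj⟩ := bothHom_facts
  haveI hN : (bothHom.ker.map c.toMonoidHom).Normal :=
    (inferInstance : bothHom.ker.Normal).map _ c.surjective
  refine ⟨fun e => ?_, bothHom.ker.map c.toMonoidHom, hN, ?_, ?_, ⟨?_⟩⟩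
  · let d : ↥T₀ ≃ ↥(k • T₀) :=
      { toFun := fun t => ⟨k • (t : Finset GolayPt), Finset.smul_mem_smul_finset t.2⟩
        invFun := fun t => ⟨k⁻¹ • (t : Finset GolayPt), Finset.inv_smul_mem_iff.2 t.2⟩
        left_inv := fun t => Subtype.ext (inv_smul_smul k _)
        right_inv := fun t => Subtype.ext (smul_inv_smul k _) }
    obtain ⟨g, hg⟩ := hsurj (1, (Finset.equivFinOfCardEq T₀_mem.1).permCongrHom
      ((d.trans e).trans d.symm))
    have hg2 : onOctads g = (d.trans e).trans d.symm :=
      (Finset.equivFinOfCardEq T₀_mem.1).permCongrHom.injective (congrArg Prod.snd hg)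
    refine ⟨(c g).1, (c g).2, fun t => ?_⟩
    rw [hc, mul_smul, mul_smul]
    obtain ⟨u, rfl⟩ := d.surjective t
    have h := congrArg (fun σ : Equiv.Perm ↥T₀ => ((σ u : ↥T₀) : Finset GolayPt)) hg2
    show k • (g.1 : Equiv.Perm GolayPt) • k⁻¹ • k • (u : Finset GolayPt) = _
    rw [inv_smul_smul, show (g.1 : Equiv.Perm GolayPt) • (u : Finset GolayPt) =
      k⁻¹ • ((e (d u) : ↥(k • T₀)) : Finset GolayPt) from h, smul_inv_smul]
  · rw [Subgroup.card_map_of_injective c.injective, hker]
  · rintro _ ⟨y, hy, rfl⟩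
    rw [← map_mul]
    have h := List.all_eq_true.1 kerList_facts.2.2.1 _ (mem_kerList hy)
    rw [beq_iff_eq, ← toTab_mul, ← toTab_one] at h
    have : y * y = 1 := Subtype.ext (Subtype.ext (toTab_injective h))
    rw [this, map_one]
  · exact (QuotientGroup.congr _ (bothHom.ker.map c.toMonoidHom) c rfl).symm.trans
      (QuotientGroup.quotientKerEquivOfSurjective bothHom hsurj)

end Cfsg.Agent.S1558
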