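import Cfsg.Statements.S1559
import Cfsg.Agent.Eq.Def_SporadicCombinatorics
import Cfsg.Agent.M24Orbits.OrbitSplit

set_option autoImplicit false
open scoped Pointwise
open Cfsg

open CfsgLib.Golay CfsgLib.Mathieu CfsgLib.M24Orbits CfsgLib.M24Orbits.Data

namespace Cfsg.Agent.S1559

/-- A trio stabiliser has five orbits on the 3795 trios, of sizes 1, 42, 56, 1008, 2688; and the stabiliser is a maximal proper subgroup. -/
theorem result (T : Finset (Finset Cfsg.GolayPt)) (hT : T ∈ Cfsg.trios) : ∃ X₁ ∈ Cfsg.trios, ∃ X₂ ∈ Cfsg.trios, ∃ X₃ ∈ Cfsg.trios, ∃ X₄ ∈ Cfsg.trios, (MulAction.orbit ↥(MulAction.stabilizer Cfsg.M24 T) X₁).ncard = 42 ∧ (MulAction.orbit ↥(MulAction.stabilizer Cfsg.M24 T) X₂).ncard = 56 ∧ (MulAction.orbit ↥(MulAction.stabilizer Cfsg.M24 T) X₃).ncard = 1008 ∧ (MulAction.orbit ↥(MulAction.stabilizer Cfsg.M24 T) X₄).ncard = 2688 ∧ Cfsg.trios = {T} ∪ MulAction.orbit ↥(MulAction.stabilizer Cfsg.M24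 T) X₁ ∪ MulAction.orbit ↥(MulAction.stabilizer Cfsg.M24 T) X₂ ∪ MulAction.orbit ↥(MulAction.stabilizer Cfsg.M24 T) X₃ ∪ MulAction.orbit ↥(MulAction.stabilizer Cfsg.M24 T) X₄ ∧ IsCoatom (MulAction.stabilizer Cfsg.M24 T) := by
  obtain ⟨k, hk, rfl⟩ := exists_map_trio hT
  have hv : ∀ g ∈ stabM T₀, ∀ x ∈ trios, famInv T₀ (g • x) = famInv T₀ x :=
    fun g hg x _ => famInv_invariant (smul_eq_self hg) x
  have hC : ∀ g ∈ M24, ∀ x ∈ trios, g • x ∈ trios := fun _ hg _ hx => smul_mem_trios hg hx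
  have hl : (trioTrioReps.map famOf).length = 5 := by decide +kernel
  have hcoatom := isCoatom_of_setup _ trioTrio_setup hv trioTrio_sep hC
    (fun _ hx => exists_map_trio hx) (hl ▸ by norm_num) rfl (by rw [ncard_trios]; norm_num)
    [1, 42, 56, 1008, 2688] trioTrio_count (by rw [ncard_trios]; decide +kernel) hk
  obtain ⟨hsingle, hrest⟩ := orbit_rest _ trioTrio_setup hv trioTrio_sep hC hk (hl ▸ by norm_num) rfl
  obtain ⟨hd, -⟩ := orbit_data _ trioTrio_setup hv trioTrio_sep hC hk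
  obtain ⟨m1, s1, c1⟩ := hd 1 (by omega)
  obtain ⟨m2, s2, c2⟩ := hd 2 (by omega)
  obtain ⟨m3, s3, c3⟩ := hd 3 (by omega)
  obtain ⟨m4, s4, c4⟩ := hd 4 (by omega)
  refine ⟨_, m1, _, m2, _, m3, _, m4, c1.trans ?_, c2.trans ?_, c3.trans ?_, c4.trans ?_, Set.ext fun y => ⟨?_, ?_⟩,
    hcoatom⟩
  · rw [certCount_of_map trioTrio_count (by norm_num)]; rfl
  · rw [certCount_of_map trioTrio_count (by norm_num)]; rfl
  · rw [certCount_of_map trioTrio_count (by norm_num)]; rfl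
  · rw [certCount_of_map trioTrio_count (by norm_num)]; rfl
  · intro hy
    rcases hrest y hy with h | ⟨i, hi, hpos, hm⟩
    · exact Or.inl (Or.inl (Or.inl (Or.inl h)))
    · have h3 : i = 1 ∨ i = 2 ∨ i = 3 ∨ i = 4 := by omega
      rcases h3 with rfl | rfl | rfl | rfl
      · exact Or.inl (Or.inl (Or.inl (Or.inr hm)))
      · exact Or.inl (Or.inl (Or.inr hm))
      · exact Or.inl (Or.inr hm)
      · exact Or.inr hm
  · rintro ((((hy | hm) | hm) | hm) | hm)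
    · rw [Set.mem_singleton_iff] at hy; subst hy; exact hT
    exacts [s1 hm, s2 hm, s3 hm, s4 hm]

end Cfsg.Agent.S1559
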