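import Cfsg.Statements.S1560
import Cfsg.Agent.Eq.Def_SporadicCombinatorics
import Cfsg.Agent.M24Orbits.Transitive

set_option autoImplicit false
open scoped Pointwise
open Cfsg

open CfsgLib.Golay CfsgLib.Mathieu CfsgLib.M24Orbits CfsgLib.M24Orbits.Data

namespace Cfsg.Agent.S1560

theorem count_meet (d : Finset GolayPt) (hd : d ∈ dodecads) (j : ℕ) :
    {d' : Finset GolayPt | d' ∈ dodecads ∧ (d ∩ d').card = j}.ncard =
      dodDodCert.flatten.countP
        (fun c => pop (28637 &&& (dodDodReps.getD (eRep c) []).headI) == j) := by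
  obtain ⟨k, hk, e⟩ := exists_map_dodecad hd
  have himg : {d' : Finset GolayPt | d' ∈ dodecads ∧ (d ∩ d').card = j} =
      (fun x => k • x) '' {x | x ∈ dodecads ∧ (D₀ ∩ x).card = j} := by
    ext x
    constructor
    · rintro ⟨h1, h2⟩
      refine ⟨k⁻¹ • x, ⟨smul_mem_dodecads (M24.inv_mem hk) h1, ?_⟩, smul_inv_smul k x⟩
      rw [← smul_inter' k D₀, e, smul_inv_smul]; exact h2
    · rintro ⟨y, ⟨h1, h2⟩, rfl⟩
      exact ⟨smul_mem_dodecads hk h1, by rw [← e, smul_inter']; exact h2⟩
  rw [himg, Set.ncard_image_of_injective _ (MulAction.injective k)]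
  refine ncard_of_invariant dodDod_setup (fun x => (D₀ ∩ x).card = j) ?_
    (fun i => pop (28637 &&& (dodDodReps.getD i []).headI) == j) ?_
  · intro g hg x _; rw [inter_invariant (smul_eq_self hg) x]
  · intro i hi
    have hi' : i < dodDodReps.length := by simpa using hi
    rw [beq_iff_eq, List.getElem_map, List.getD_eq_getElem?_getD, List.getElem?_eq_getElem hi',
      Option.getD_some]
    show pop _ = j ↔ (ofMask 28637 ∩ ofMask _).card = j
    rw [card_inter_ofMask]

theorem rep_values : ∀ i : Fin dodDodReps.length, i.1 ≠ 0 →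
    pop (28637 &&& (dodDodReps[i.1]).headI) = 0 ∨ pop (28637 &&& (dodDodReps[i.1]).headI) = 4 ∨
    pop (28637 &&& (dodDodReps[i.1]).headI) = 6 ∨
    pop (28637 &&& (dodDodReps[i.1]).headI) = 8 := by decide +kernel


/-- Intersection numbers of dodecads: a dodecad meets every other dodecad in 0, 4, 6 or 8 points, meeting 495 of them in 4 points, 1584 in 6 points and 495 in 8 points. -/
theorem result (d : Finset Cfsg.GolayPt) (hd : d ∈ Cfsg.dodecads) : (∀ d' ∈ Cfsg.dodecads, d' ≠ d → (d ∩ d').card = 0 ∨ (d ∩ d').card = 4 ∨ (d ∩ d').card = 6 ∨ (d ∩ d').card = 8) ∧ {d' : Finset Cfsg.GolayPt | d' ∈ Cfsg.dodecads ∧ (d ∩ d').card = 4}.ncard = 495 ∧ {d' : Finset Cfsg.GolayPt | d' ∈ Cfsg.dodecads ∧ (d ∩ d').card = 6}.ncard = 1584 ∧ {d' : Finset Cfsg.GolayPt | d' ∈ Cfsg.dodecads ∧ (d ∩ d').card = 8}.ncard = 495 := by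
  refine ⟨fun d' hd' hne => ?_, ?_, ?_, ?_⟩
  · obtain ⟨k, hk, e⟩ := exists_map_dodecad hd
    obtain ⟨i, hi, g, hg, he⟩ := exists_rep dodDod_setup
      (smul_mem_dodecads (M24.inv_mem hk) hd')
    have hi' : i < dodDodReps.length := by simpa using hi
    have hval : (d ∩ d').card = pop (28637 &&& (dodDodReps[i]).headI) := by
      rw [← card_inter_ofMask, ← e, ← smul_inv_smul k d', smul_inter', ← he,
        inter_invariant (smul_eq_self hg), List.getElem_map]
      rfl
    rw [hval]
    have hne0 : i ≠ 0 := by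
      rintro rfl
      have e0 : (dodDodReps.map mOf)[0]'hi = D₀ := rfl
      rw [e0, smul_eq_self hg] at he
      apply hne
      rw [← smul_inv_smul k d', ← he, e]
    exact rep_values ⟨i, hi'⟩ hne0
  all_goals (rw [count_meet d hd]; decide +kernel)

end Cfsg.Agent.S1560
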