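import Cfsg.Statements.S1561
import Cfsg.Agent.Eq.Def_SporadicCombinatorics
import Cfsg.Agent.M24Orbits.Transitive

set_option autoImplicit false
open scoped Pointwise
open Cfsg

open CfsgLib.Golay CfsgLib.Mathieu CfsgLib.M24Orbits CfsgLib.M24Orbits.Data

namespace Cfsg.Agent.S1561

/-- Two dodecads meeting a fixed dodecad in equally many points lie in one orbit of its stabiliser. -/
theorem result (d d' d'' : Finset Cfsg.GolayPt) (hd : d ∈ Cfsg.dodecads) (hd' : d' ∈ Cfsg.dodecads) (hd'' : d'' ∈ Cfsg.dodecads) (h : (d ∩ d').card = (d ∩ d'').card) : ∃ g : Equiv.Perm Cfsg.GolayPt, g ∈ Cfsg.M24 ∧ g • d = d ∧ g • d' = d'' := by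
  obtain ⟨k, hk, e⟩ := exists_map_dodecad hd
  have hv : (D₀ ∩ k⁻¹ • d').card = (D₀ ∩ k⁻¹ • d'').card := by
    rw [← smul_inter' k D₀, ← smul_inter' k D₀ (k⁻¹ • d''), smul_inv_smul, smul_inv_smul, e]
    exact h
  obtain ⟨g, hg, hgo⟩ := exists_map_level (fun s : Finset GolayPt => (D₀ ∩ s).card) dodDod_setup
    (fun g hg x _ => inter_invariant (smul_eq_self hg) x)
    (by rw [map_inter_card]; exact dodDod_sep_values) k
    (smul_mem_dodecads (M24.inv_mem hk) hd') (smul_mem_dodecads (M24.inv_mem hk) hd'') hv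
  exact ⟨k * g * k⁻¹, conj_mem hk hg.1, e ▸ conj_fixes (smul_eq_self hg), hgo⟩

end Cfsg.Agent.S1561
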