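import Cfsg.Statements.S1562
import Cfsg.Agent.Eq.Def_SporadicCombinatorics
import Cfsg.Agent.M24Orbits.Transitive

set_option autoImplicit false
open scoped Pointwise
open Cfsg

open CfsgLib.Golay CfsgLib.Mathieu CfsgLib.M24Orbits CfsgLib.M24Orbits.Data

namespace Cfsg.Agent.S1562

theorem hexad_val (i : ℕ) (hi : i < (triTriReps.map mOf).length) :
    (i == 0) = true ↔ hexadIn (ofMask 7 ∪ (triTriReps.map mOf)[i]) := by
  have hi' : i < 2 := lt_of_lt_of_eq hi (by decide +kernel)
  interval_cases i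
  · refine iff_of_true rfl ?_
    show hexadIn (ofMask 7 ∪ ofMask 152)
    rw [← ofMask_lor]
    exact hexadIn_of (m := 5279) (by decide +kernel)
  · refine iff_of_false (by decide) ?_
    show ¬ hexadIn (ofMask 7 ∪ ofMask 56)
    rw [← ofMask_lor]
    exact not_hexadIn_of (m := 5279) (by decide +kernel)


/-- Orbits of a triad stabiliser on the triads disjoint from it: the 210 triads inside a common octad with it form one orbit and the remaining 1120 another. -/
theorem result (T : Finset Cfsg.GolayPt) (hT : T.card = 3) : {U : Finset Cfsg.GolayPt | U.card = 3 ∧ Disjoint T U ∧ (∃ o ∈ Cfsg.octads, T ∪ U ⊆ o)}.ncard = 210 ∧ {U : Finset Cfsg.GolayPt | U.card = 3 ∧ Disjoint T U ∧ ¬ (∃ o ∈ Cfsg.octads, T ∪ U ⊆ o)}.ncard = 1120 ∧ ∀ U U' : Finset Cfsg.GolayPt, U.card = 3 → U'.card = 3 → Disjoint T U → Disjoint T U' → ((∃ o ∈ Cfsg.octads, T ∪ U ⊆ o) ↔ (∃ o ∈ Cfsg.octads, T ∪ U' ⊆ o)) → ∃ g : Equiv.Perm Cfsg.GolayPt, g ∈ Cfsg.M24 ∧ g • T = T ∧ g • U = U' := by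
  obtain ⟨k, hk, e⟩ := exists_map_triple hT
  have hinv : ∀ g ∈ stabM (ofMask 7), ∀ U ∈ awaySets (ofMask 7) 3,
      (hexadIn (ofMask 7 ∪ g • U) ↔ hexadIn (ofMask 7 ∪ U)) := by
    intro g hg U _
    conv_lhs => rw [← smul_eq_self hg, ← smul_union', hexadIn_smul hg.1]
  have hhex : ∀ U : Finset GolayPt, (∃ o ∈ octads, T ∪ k • U ⊆ o) ↔ hexadIn (ofMask 7 ∪ U) := by
    intro U
    rw [← e, ← smul_union']
    exact hexadIn_smul hk _
  have haway : ∀ U : Finset GolayPt, ((k • U).card = 3 ∧ Disjoint T (k • U)) ↔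
      U ∈ awaySets (ofMask 7) 3 := by
    intro U
    rw [← e, Finset.card_smul_finset, Finset.disjoint_iff_inter_eq_empty,
      ← Finset.smul_finset_inter, Finset.smul_finset_eq_empty, ← Finset.disjoint_iff_inter_eq_empty]
    exact Iff.rfl
  have hq : ∀ (i : ℕ) (hi : i < (triTriReps.map mOf).length),
      ((!(i == 0)) = true ↔ ¬ hexadIn (ofMask 7 ∪ (triTriReps.map mOf)[i])) := by
    intro i hi
    rw [← hexad_val i hi, Bool.not_eq_true', Bool.eq_false_iff]
  refine ⟨?_, ?_, fun U U' hU hU' hd hd' h => ?_⟩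
  · rw [ncard_translate k (Q := fun U => U ∈ awaySets (ofMask 7) 3 ∧ hexadIn (ofMask 7 ∪ U))
      (fun U => by rw [← haway U, ← hhex U, and_assoc]),
      ncard_of_invariant triTri_setup (fun U => hexadIn (ofMask 7 ∪ U)) hinv (fun i => i == 0)
        hexad_val]
    decide +kernel
  · rw [ncard_translate k (Q := fun U => U ∈ awaySets (ofMask 7) 3 ∧ ¬ hexadIn (ofMask 7 ∪ U))
      (fun U => by rw [← haway U, ← hhex U, and_assoc]),
      ncard_of_invariant triTri_setup (fun U => ¬ hexadIn (ofMask 7 ∪ U))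
        (fun g hg U hU => not_congr (hinv g hg U hU)) (fun i => !(i == 0)) hq]
    decide +kernel
  obtain ⟨g, hg, hgo⟩ := exists_map_level (fun U => hexadIn (ofMask 7 ∪ U)) triTri_setup
    (fun g hg U hU => propext (hinv g hg U hU))
    (by
      show List.Nodup [hexadIn (ofMask 7 ∪ ofMask 152), hexadIn (ofMask 7 ∪ ofMask 56)]
      simp only [List.nodup_cons, List.mem_singleton, List.not_mem_nil, not_false_eq_true,
        List.nodup_nil, and_true]
      intro h'
      exact (hexad_val 1 (by decide +kernel)).not.1 (by decide)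
        (h' ▸ (hexad_val 0 (by decide +kernel)).1 rfl)) k
    (x := U) (y := U')
    ((haway _).1 (by rw [smul_inv_smul]; exact ⟨hU, hd⟩))
    ((haway _).1 (by rw [smul_inv_smul]; exact ⟨hU', hd'⟩))
    (by
      show hexadIn _ = hexadIn _
      rw [← hhex, ← hhex, smul_inv_smul, smul_inv_smul]
      exact propext h)
  exact ⟨k * g * k⁻¹, conj_mem hk hg.1, e ▸ conj_fixes (smul_eq_self hg), hgo⟩

end Cfsg.Agent.S1562
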