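import Cfsg.Statements.S1563
import Cfsg.Agent.Eq.Def_SporadicCombinatorics
import Cfsg.Agent.M24Orbits.OrbitSplit

set_option autoImplicit false
open scoped Pointwise
open Cfsg

open CfsgLib.Golay CfsgLib.Mathieu CfsgLib.M24Orbits CfsgLib.M24Orbits.Data

namespace Cfsg.Agent.S1563

/-- The stabiliser of a pair of points (setwise) is a maximal proper subgroup of the group of the length-24 code. -/
theorem result (s : Finset Cfsg.GolayPt) (hs : s.card = 2) : IsCoatom (MulAction.stabilizer Cfsg.M24 s) := by
  obtain ⟨k, hk, e⟩ := exists_map_duad hs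
  rw [← e]
  have hN : (awaySets (ofMask 0) 2).ncard = 276 := by
    rw [ncard_awaySets, ofMask_zero]; decide +kernel
  refine isCoatom_of_setup (fun U => (ofMask 3 ∩ U).card) duadDuad_setup
    (fun g hg x _ => inter_invariant (smul_eq_self hg) x)
    (by rw [map_inter_card]; decide +kernel)
    (fun g hg x hx => smul_mem_awaySets (by simp [ofMask_zero]) hx)
    (fun x hx => exists_map_duad hx.1)
    (by decide +kernel) rfl (by rw [hN]; norm_num) [1, 44, 231] duadDuad_count
    (by rw [hN]; decide +kernel) hk

end Cfsg.Agent.S1563
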