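import Cfsg.Statements.S1564
import Cfsg.Agent.Eq.Def_SporadicCombinatorics
import Cfsg.Agent.M24Orbits.OrbitSplit

set_option autoImplicit false
open scoped Pointwise
open Cfsg

open CfsgLib.Golay CfsgLib.Mathieu CfsgLib.M24Orbits CfsgLib.M24Orbits.Data

namespace Cfsg.Agent.S1564

theorem triple_val (i : ℕ) (hi : i < (triAllReps.map mOf).length) :
    ((i != 4) = true ↔ hexadIn (ofMask 7 ∪ (triAllReps.map mOf)[i])) ∧
      (ofMask 7 ∩ (triAllReps.map mOf)[i]).card = [3, 2, 1, 0, 0].getD i 0 := by
  have hi' : i < 5 := lt_of_lt_of_eq hi (by decide +kernel)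
  interval_cases i
  · refine ⟨iff_of_true rfl ?_, ?_⟩
    · show hexadIn (ofMask 7 ∪ ofMask 7)
      rw [← ofMask_lor]; exact hexadIn_of (m := 5279) (by decide +kernel)
    · show (ofMask 7 ∩ ofMask 7).card = 3
      rw [card_inter_ofMask]; decide +kernel
  · refine ⟨iff_of_true rfl ?_, ?_⟩
    · show hexadIn (ofMask 7 ∪ ofMask 11)
      rw [← ofMask_lor]; exact hexadIn_of (m := 5279) (by decide +kernel)
    · show (ofMask 7 ∩ ofMask 11).card = 2
      rw [card_inter_ofMask]; decide +kernel
  · refine ⟨iff_of_true rfl ?_, ?_⟩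
    · show hexadIn (ofMask 7 ∪ ofMask 25)
      rw [← ofMask_lor]; exact hexadIn_of (m := 5279) (by decide +kernel)
    · show (ofMask 7 ∩ ofMask 25).card = 1
      rw [card_inter_ofMask]; decide +kernel
  · refine ⟨iff_of_true rfl ?_, ?_⟩
    · show hexadIn (ofMask 7 ∪ ofMask 152)
      rw [← ofMask_lor]; exact hexadIn_of (m := 5279) (by decide +kernel)
    · show (ofMask 7 ∩ ofMask 152).card = 0
      rw [card_inter_ofMask]; decide +kernel
  · refine ⟨iff_of_false (by decide) ?_, ?_⟩
    · show ¬ hexadIn (ofMask 7 ∪ ofMask 56)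
      rw [← ofMask_lor]; exact not_hexadIn_of (m := 5279) (by decide +kernel)
    · show (ofMask 7 ∩ ofMask 56).card = 0
      rw [card_inter_ofMask]; decide +kernel


/-- The stabiliser of a set of three points (setwise) is a maximal proper subgroup of the group of the length-24 code. -/
theorem result (s : Finset Cfsg.GolayPt) (hs : s.card = 3) : IsCoatom (MulAction.stabilizer Cfsg.M24 s) := by
  classical
  obtain ⟨k, hk, e⟩ := exists_map_triple hs
  rw [← e]
  have hN : (awaySets (ofMask 0) 3).ncard = 2024 := by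
    rw [ncard_awaySets, ofMask_zero]; decide +kernel
  refine isCoatom_of_setup
    (fun U => ((ofMask 7 ∩ U).card, decide (hexadIn (ofMask 7 ∪ U)))) triAll_setup
    (fun g hg x _ => by
      have h1 : hexadIn (ofMask 7 ∪ g • x) ↔ hexadIn (ofMask 7 ∪ x) := by
        conv_lhs => rw [← smul_eq_self hg, ← smul_union', hexadIn_smul hg.1]
      simp only [inter_invariant (smul_eq_self hg) x, h1])
    ?_
    (fun g hg x hx => smul_mem_awaySets (by simp [ofMask_zero]) hx)
    (fun x hx => exists_map_triple hx.1)
    (by decide +kernel) rfl (by rw [hN]; norm_num) [1, 63, 630, 210, 1120] triAll_count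
    (by rw [hN]; decide +kernel) hk
  have hval : (triAllReps.map mOf).map
      (fun U => ((ofMask 7 ∩ U).card, decide (hexadIn (ofMask 7 ∪ U)))) =
      [(3, true), (2, true), (1, true), (0, true), (0, false)] := by
    refine List.ext_getElem (by decide +kernel) fun i h1 h2 => ?_
    have hi : i < (triAllReps.map mOf).length := by simpa using h1
    rw [List.getElem_map, (triple_val i hi).2,
      show decide (hexadIn (ofMask 7 ∪ (triAllReps.map mOf)[i])) = (i != 4) from by
        rw [Bool.eq_iff_iff, decide_eq_true_eq, (triple_val i hi).1]]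
    have : i < 5 := h2
    interval_cases i <;> rfl
  rw [hval]; decide

end Cfsg.Agent.S1564
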