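import Cfsg.Statements.S1565
import Cfsg.Agent.Eq.Def_SporadicCombinatorics
import Cfsg.Agent.M24Orbits.OrbitSplit

set_option autoImplicit false
open scoped Pointwise
open Cfsg

open CfsgLib.Golay CfsgLib.Mathieu CfsgLib.M24Orbits CfsgLib.M24Orbits.Data

namespace Cfsg.Agent.S1565

/-- The stabiliser of an octad is a maximal proper subgroup of the group of the length-24 code. -/
theorem result (o : Finset Cfsg.GolayPt) (ho : o ∈ Cfsg.octads) : IsCoatom (MulAction.stabilizer Cfsg.M24 o) := by
  obtain ⟨k, hk, e⟩ := exists_map_octad' ho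
  rw [← e]
  exact isCoatom_of_setup _ octOct_setup
    (fun g hg x _ => inter_invariant (smul_eq_self hg) x) octOct_sep
    (fun _ hg _ hx => smul_mem_octads hg hx) (fun _ hx => exists_map_octad' hx)
    (by decide +kernel) rfl (by rw [ncard_octads]; norm_num) [1, 30, 280, 448] octOct_count
    (by rw [ncard_octads]; decide +kernel) hk

end Cfsg.Agent.S1565
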