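import Cfsg.Statements.S1566
import Cfsg.Agent.Eq.Def_SporadicCombinatorics
import Cfsg.Agent.M24Orbits.OrbitSplit

set_option autoImplicit false
open scoped Pointwise
open Cfsg

open CfsgLib.Golay CfsgLib.Mathieu CfsgLib.M24Orbits CfsgLib.M24Orbits.Data

namespace Cfsg.Agent.S1566

/-- The setwise stabiliser of a dodecad together with its complement is a maximal proper subgroup of the group of the length-24 code. -/
theorem result (d : Finset Cfsg.GolayPt) (hd : d ∈ Cfsg.dodecads) : IsCoatom (MulAction.stabilizer Cfsg.M24 ({d, dᶜ} : Finset (Finset Cfsg.GolayPt))) := by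
  obtain ⟨k, hk, e⟩ := exists_map_dodPair (P := {d, dᶜ}) ⟨d, hd, rfl⟩
  rw [← e]
  exact isCoatom_of_setup _ dodPairPair_setup
    (fun g hg x _ => famInv_comm_invariant (smul_eq_self hg) x) dodPairPair_sep
    (fun _ hg _ hx => smul_mem_dodPairs hg hx) (fun _ hx => exists_map_dodPair hx)
    (by decide +kernel) rfl (by rw [ncard_dodPairs]; norm_num) [1, 495, 792] dodPairPair_count
    (by rw [ncard_dodPairs]; decide +kernel) hk

end Cfsg.Agent.S1566
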