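import Cfsg.Statements.S1567
import Cfsg.Agent.Leech.Spanning

set_option autoImplicit false
open Cfsg

namespace Cfsg.Agent.S1567

/-- The rank-24 lattice is the additive subgroup generated by its 196560 minimal vectors. -/
theorem result : AddSubgroup.closure {x : Cfsg.GolayPt → ℤ | x ∈ Cfsg.leechLattice ∧ Cfsg.sqNorm x = 32} = Cfsg.leechLattice := by
  apply le_antisymm
  · rw [AddSubgroup.closure_le]; exact fun x hx => hx.1
  · intro x hx
    have h := CfsgLib.Leech.eq_top_of_norm32 (M := AddSubgroup.comap leechLattice.subtype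
      (AddSubgroup.closure {x : Cfsg.GolayPt → ℤ | x ∈ Cfsg.leechLattice ∧ Cfsg.sqNorm x = 32}))
      fun v hv => AddSubgroup.subset_closure ⟨v.2, hv⟩
    have h2 : (⟨x, hx⟩ : leechLattice) ∈ (⊤ : AddSubgroup leechLattice) := AddSubgroup.mem_top _
    rw [← h] at h2
    exact h2

end Cfsg.Agent.S1567
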