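import Cfsg.Statements.S1568
import Cfsg.Agent.LeechCount.Count
-- import your own Cfsg.Agent.* helpers here

set_option autoImplicit false
open Cfsg

namespace Cfsg.Agent.S1568

open CfsgLib.LeechCount

/-- The values 0, ±1. -/
def vals1 : List ℤ := [-1, 0, 1]

/-- The values without ±2. -/
def valsN : List ℤ := [-4, -3, -1, 0, 1, 3, 4]

/-- The values -2, -1, 0, 1. -/
def vals3 : List ℤ := [-2, -1, 0, 1]

theorem split48 {x : GolayPt → ℤ} (hx : x ∈ leechLattice) (hN : sqNorm x = 48) :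
    (∃ a ∈ codeVecSet qE allVals 12 0, x = dbl a) ∨ ∃ a ∈ codeVecSet qO allVals 6 2, x = oddOf a := by
  have h : x ∈ {x : GolayPt → ℤ | x ∈ leechLattice ∧ sqNorm x = 48} := ⟨hx, hN⟩
  rw [setOf_norm_eq (m := 12) (n := 6) (by norm_num) (by norm_num) (by norm_num) (by norm_num)] at h
  rcases h with ⟨a, ha, e⟩ | ⟨a, ha, e⟩
  · exact Or.inl ⟨a, ha, e.symm⟩
  · exact Or.inr ⟨a, ha, e.symm⟩

theorem mem48_even {a : GolayPt → ℤ} {V : List ℤ} (ha : a ∈ codeVecSet qE V 12 0) :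
    dbl a ∈ leechLattice ∧ sqNorm (dbl a) = 48 :=
  ⟨(dbl_mem ha).1, (dbl_mem ha).2.trans (by norm_num)⟩

theorem mem48_odd {a : GolayPt → ℤ} {V : List ℤ} (ha : a ∈ codeVecSet qO V 6 2) :
    oddOf a ∈ leechLattice ∧ sqNorm (oddOf a) = 48 :=
  ⟨(oddOf_mem ha).1, (oddOf_mem ha).2.trans (by norm_num)⟩

theorem fam_one : {x : GolayPt → ℤ | x ∈ leechLattice ∧ sqNorm x = 48 ∧
    ∀ i, x i = 0 ∨ x i = 2 ∨ x i = -2} = dbl '' codeVecSet qE vals1 12 0 := by
  ext x
  constructor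
  · rintro ⟨hx, hN, hv⟩
    rcases split48 hx hN with ⟨a, ha, rfl⟩ | ⟨a, ha, rfl⟩
    · refine ⟨a, ⟨ha.1, fun i => ?_, ha.2.2⟩, rfl⟩
      have : 2 * a i = 0 ∨ 2 * a i = 2 ∨ 2 * a i = -2 := hv i
      simp only [vals1, List.mem_cons, List.not_mem_nil, or_false]
      omega
    · have : 1 + 2 * a none = 0 ∨ 1 + 2 * a none = 2 ∨ 1 + 2 * a none = -2 := hv none
      omega
  · rintro ⟨a, ha, rfl⟩
    refine ⟨(mem48_even ha).1, (mem48_even ha).2, fun i => ?_⟩
    have h := ha.2.1 i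
    simp only [vals1, List.mem_cons, List.not_mem_nil, or_false] at h
    show 2 * a i = 0 ∨ 2 * a i = 2 ∨ 2 * a i = -2
    omega

theorem fam_three : {x : GolayPt → ℤ | x ∈ leechLattice ∧ sqNorm x = 48 ∧ ∃ i, |x i| = 4} =
    dbl '' (codeVecSet qE allVals 12 0 \ codeVecSet qE valsN 12 0) := by
  ext x
  constructor
  · rintro ⟨hx, hN, i, hi⟩
    rw [abs_eq (by norm_num)] at hi
    rcases split48 hx hN with ⟨a, ha, rfl⟩ | ⟨a, ha, rfl⟩
    · refine ⟨a, ⟨ha, fun h => ?_⟩, rfl⟩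
      have h' := h.2.1 i
      simp only [valsN, List.mem_cons, List.not_mem_nil, or_false] at h'
      have : 2 * a i = 4 ∨ 2 * a i = -4 := hi
      omega
    · have : 1 + 2 * a i = 4 ∨ 1 + 2 * a i = -4 := hi
      omega
  · rintro ⟨a, ⟨ha, hna⟩, rfl⟩
    refine ⟨(mem48_even ha).1, (mem48_even ha).2, ?_⟩
    by_contra hc
    push Not at hc
    refine hna ⟨ha.1, fun i => ?_, ha.2.2⟩
    have h := ha.2.1 i
    have h4 : ¬ (2 * a i = 4 ∨ 2 * a i = -4) := fun e => hc i ((abs_eq (by norm_num)).2 e)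
    simp only [allVals, valsN, List.mem_cons, List.not_mem_nil, or_false] at h ⊢
    omega

theorem fam_four : {x : GolayPt → ℤ | x ∈ leechLattice ∧ sqNorm x = 48 ∧ ∃ i, |x i| = 5} =
    oddOf '' (codeVecSet qO allVals 6 2 \ codeVecSet qO vals3 6 2) := by
  ext x
  constructor
  · rintro ⟨hx, hN, i, hi⟩
    rw [abs_eq (by norm_num)] at hi
    rcases split48 hx hN with ⟨a, ha, rfl⟩ | ⟨a, ha, rfl⟩
    · have : 2 * a i = 5 ∨ 2 * a i = -5 := hi
      omega
    · refine ⟨a, ⟨ha, fun h => ?_⟩, rfl⟩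
      have h' := h.2.1 i
      simp only [vals3, List.mem_cons, List.not_mem_nil, or_false] at h'
      have : 1 + 2 * a i = 5 ∨ 1 + 2 * a i = -5 := hi
      omega
  · rintro ⟨a, ⟨ha, hna⟩, rfl⟩
    refine ⟨(mem48_odd ha).1, (mem48_odd ha).2, ?_⟩
    by_contra hc
    push Not at hc
    refine hna ⟨ha.1, fun i => ?_, ha.2.2⟩
    have h := ha.2.1 i
    have h5 : ¬ (1 + 2 * a i = 5 ∨ 1 + 2 * a i = -5) := fun e => hc i ((abs_eq (by norm_num)).2 e)
    have hq : qO (a i) ≤ 6 := le_trans (Finset.single_le_sum (f := fun j => qO (a j))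
      (fun _ _ => Nat.zero_le _) (Finset.mem_univ i)) ha.2.2.1.le
    simp only [allVals, List.mem_cons, List.not_mem_nil, or_false] at h
    simp only [vals3, List.mem_cons, List.not_mem_nil, or_false]
    rcases h with h | h | h | h | h | h | h | h | h <;> rw [h] at hq h5 ⊢ <;> simp [qO] at *

theorem sum_rest {x : GolayPt → ℤ} {i j k : GolayPt} (hij : i ≠ j) (hjk : j ≠ k) (hik : i ≠ k)
    (hodd : ∀ p, x p ≠ 0) (hi : |x i| = 3) (hj : |x j| = 3) (hk : |x k| = 3)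
    (hN : sqNorm x = 48) (p : GolayPt) : |x p| ≤ 3 := by
  by_cases hp : p = i ∨ p = j ∨ p = k
  · rcases hp with rfl | rfl | rfl <;> omega
  push Not at hp
  have h1 : ∀ q, (1 : ℤ) ≤ x q ^ 2 := fun q => by
    nlinarith [sq_abs (x q), Int.one_le_abs (hodd q)]
  have h9 : ∀ q, |x q| = 3 → x q ^ 2 = 9 := fun q hq => by rw [← sq_abs, hq]; norm_num
  have hsum : sqNorm x = ∑ q ∈ ({i, j, k, p} : Finset GolayPt), x q ^ 2 +
      ∑ q ∈ Finset.univ \ {i, j, k, p}, x q ^ 2 := by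
    rw [sqNorm, add_comm, Finset.sum_sdiff (Finset.subset_univ _)]
  have hcard : (Finset.univ \ ({i, j, k, p} : Finset GolayPt)).card = 20 := by
    rw [Finset.card_sdiff_of_subset (Finset.subset_univ _),
      show ({i, j, k, p} : Finset GolayPt).card = 4 by
        rw [Finset.card_insert_of_notMem (by simp [hij, hik, Ne.symm hp.1]),
          Finset.card_insert_of_notMem (by simp [hjk, Ne.symm hp.2.1]),
          Finset.card_insert_of_notMem (by simp [Ne.symm hp.2.2]), Finset.card_singleton]]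
    rfl
  have hrest : (20 : ℤ) ≤ ∑ q ∈ Finset.univ \ {i, j, k, p}, x q ^ 2 := by
    refine le_trans (le_of_eq ?_) (Finset.sum_le_sum fun q _ => h1 q)
    simp [hcard]
  rw [Finset.sum_insert (by simp [hij, hik, Ne.symm hp.1]),
    Finset.sum_insert (by simp [hjk, Ne.symm hp.2.1]),
    Finset.sum_insert (by simp [Ne.symm hp.2.2]), Finset.sum_singleton,
    h9 i hi, h9 j hj, h9 k hk, hN] at hsum
  nlinarith [sq_abs (x p), abs_nonneg (x p)]

theorem fam_two : {x : GolayPt → ℤ | x ∈ leechLattice ∧ sqNorm x = 48 ∧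
    ∃ i j k, i ≠ j ∧ j ≠ k ∧ i ≠ k ∧ |x i| = 3 ∧ |x j| = 3 ∧ |x k| = 3} =
    oddOf '' codeVecSet qO vals3 6 2 := by
  ext x
  constructor
  · rintro ⟨hx, hN, i, j, k, hij, hjk, hik, hi, hj, hk⟩
    rcases split48 hx hN with ⟨a, ha, rfl⟩ | ⟨a, ha, rfl⟩
    · have : 2 * a i = 3 ∨ 2 * a i = -3 := (abs_eq (by norm_num)).1 hi
      omega
    · refine ⟨a, ⟨ha.1, fun p => ?_, ha.2.2⟩, rfl⟩
      have h := sum_rest hij hjk hik (fun q => by show 1 + 2 * a q ≠ 0; omega) hi hj hk hN p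
      rw [abs_le] at h
      have h' : -3 ≤ 1 + 2 * a p ∧ 1 + 2 * a p ≤ 3 := h
      simp only [vals3, List.mem_cons, List.not_mem_nil, or_false]
      omega
  · rintro ⟨a, ha, rfl⟩
    refine ⟨(mem48_odd ha).1, (mem48_odd ha).2, ?_⟩
    have hq : ∀ i, qO (a i) = if |oddOf a i| = 3 then 2 else 0 := by
      intro i
      have h := ha.2.1 i
      simp only [vals3, List.mem_cons, List.not_mem_nil, or_false] at h
      show qO (a i) = if |1 + 2 * a i| = 3 then 2 else 0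
      rcases h with h | h | h | h <;> rw [h] <;> simp [qO]
    have hc : (Finset.univ.filter fun i => |oddOf a i| = 3).card = 3 := by
      have h6 := ha.2.2.1
      rw [Finset.sum_congr rfl (fun i _ => hq i), ← Finset.sum_filter, Finset.sum_const,
        smul_eq_mul] at h6
      omega
    obtain ⟨i, j, k, hij, hik, hjk, he⟩ := Finset.card_eq_three.1 hc
    have hm : ∀ p ∈ ({i, j, k} : Finset GolayPt), |oddOf a p| = 3 := by
      rw [← he]; exact fun p hp => (Finset.mem_filter.1 hp).2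
    exact ⟨i, j, k, hij, hjk, hik, hm i (by simp), hm j (by simp), hm k (by simp)⟩


/-- Shape census of the lattice vectors of sum of squares 48 (customary norm 6): the four families (2^12, 0^12), (±3^3, ±1^21), (±4, ±2^8, 0^15) and (±5, ±1^23) have 5275648, 8290304, 3108864 and 98304 members. -/
theorem result : {x : Cfsg.GolayPt → ℤ | x ∈ Cfsg.leechLattice ∧ Cfsg.sqNorm x = 48 ∧ ∀ i, x i = 0 ∨ x i = 2 ∨ x i = -2}.ncard = 5275648 ∧ {x : Cfsg.GolayPt → ℤ | x ∈ Cfsg.leechLattice ∧ Cfsg.sqNorm x = 48 ∧ ∃ i j k, i ≠ j ∧ j ≠ k ∧ i ≠ k ∧ |x i| = 3 ∧ |x j| = 3 ∧ |x k| = 3}.ncard = 8290304 ∧ {x : Cfsg.GolayPt → ℤ | x ∈ Cfsg.leechLattice ∧ Cfsg.sqNorm x = 48 ∧ ∃ i, |x i| = 4}.ncard = 3108864 ∧ {x : Cfsg.GolayPt → ℤ | x ∈ Cfsg.leechLattice ∧ Cfsg.sqNorm x = 48 ∧ ∃ i, |x i| = 5}.ncard = 98304 := by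
  rw [fam_one, fam_two, fam_three, fam_four,
    Set.ncard_image_of_injective _ dbl_injective, Set.ncard_image_of_injective _ oddOf_injective,
    Set.ncard_image_of_injective _ dbl_injective, Set.ncard_image_of_injective _ oddOf_injective,
    Set.ncard_sdiff (codeVecSet_mono (by decide)) (codeVecSet_finite _ _ _ _),
    Set.ncard_sdiff (codeVecSet_mono (by decide)) (codeVecSet_finite _ _ _ _)]
  rw [ncard_codeVecSet _ _ (by decide) _ _ (by norm_num), ncard_codeVecSet _ _ (by decide) _ _ (by norm_num),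
    ncard_codeVecSet _ _ (by decide) _ _ (by norm_num), ncard_codeVecSet _ _ (by decide) _ _ (by norm_num),
    ncard_codeVecSet _ _ (by decide) _ _ (by norm_num)]
  decide +kernel

end Cfsg.Agent.S1568
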