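import Cfsg.Statements.S1572
import Cfsg.Agent.Leech.FrameMaximal
import Cfsg.Agent.Leech.StdCross

set_option autoImplicit false
open scoped Pointwise
open Cfsg

namespace Cfsg.Agent.S1572

/-- The stabiliser of the standard cross is a maximal proper subgroup of the lattice's automorphism group. -/
theorem result (H : Subgroup ↥Cfsg.Co0) (hH : (H : Set ↥Cfsg.Co0) = {g : ↥Cfsg.Co0 | (∀ v : ↥Cfsg.leechLattice, (v : Cfsg.GolayPt → ℤ) ∈ Cfsg.stdCross → ((g • v : ↥Cfsg.leechLattice) : Cfsg.GolayPt → ℤ) ∈ Cfsg.stdCross)}) : IsCoatom H := by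
  have h : H = CfsgLib.Leech.frameStab := SetLike.ext' (by
    rw [hH]
    ext g
    exact (CfsgLib.Leech.stdCross_stab_iff g).trans (CfsgLib.Leech.frame_iff g).symm)
  rw [h]
  exact CfsgLib.Leech.frameStab_isCoatom

end Cfsg.Agent.S1572
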