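import Cfsg.Statements.S1573
import Cfsg.Agent.Leech.PairCounts

set_option autoImplicit false
open Cfsg
open scoped Pointwise

namespace Cfsg.Agent.S1573

/-- Census of minimal vectors by inner product with a fixed minimal vector: 4600 have customary inner product −2, 47104 have −1, and 93150 are orthogonal. -/
theorem result (v : Cfsg.GolayPt → ℤ) (hv : v ∈ Cfsg.leechLattice) (hvn : Cfsg.sqNorm v = 32) : {w : Cfsg.GolayPt → ℤ | w ∈ Cfsg.leechLattice ∧ Cfsg.sqNorm w = 32 ∧ Cfsg.dotInt v w = -16}.ncard = 4600 ∧ {w : Cfsg.GolayPt → ℤ | w ∈ Cfsg.leechLattice ∧ Cfsg.sqNorm w = 32 ∧ Cfsg.dotInt v w = -8}.ncard = 47104 ∧ {w : Cfsg.GolayPt → ℤ | w ∈ Cfsg.leechLattice ∧ Cfsg.sqNorm w = 32 ∧ Cfsg.dotInt v w = 0}.ncard = 93150 := by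
  let v' : ↥Cfsg.leechLattice := ⟨v, hv⟩
  have key : ∀ k : ℤ, {w : Cfsg.GolayPt → ℤ | w ∈ Cfsg.leechLattice ∧ Cfsg.sqNorm w = 32 ∧
      Cfsg.dotInt v w = k}.ncard = (CfsgLib.Leech.nbrs Cfsg.Spor.leechU k).card := by
    intro k
    rw [← CfsgLib.Leech.card_nbrs_eq (v := v') hvn k, ← Set.ncard_coe_finset,
      ← Set.ncard_image_of_injective _ Subtype.val_injective]
    congr 1
    ext x
    simp only [Set.mem_image, Finset.mem_coe, CfsgLib.Leech.mem_nbrs]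
    exact ⟨fun ⟨h1, h2, h3⟩ => ⟨⟨x, h1⟩, ⟨h2, h3⟩, rfl⟩,
      fun ⟨y, ⟨h2, h3⟩, e⟩ => e ▸ ⟨y.2, h2, h3⟩⟩
  rw [key, key, key]
  exact CfsgLib.Leech.census

end Cfsg.Agent.S1573
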