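import Cfsg.Statements.S1574
import Cfsg.Agent.Leech.PairCounts

set_option autoImplicit false
open Cfsg
open scoped Pointwise

namespace Cfsg.Agent.S1574

/-- The stabiliser of a minimal vector is transitive on the minimal vectors of customary inner product −2 with it. -/
theorem result (v w w' : ↥Cfsg.leechLattice) (hv : Cfsg.sqNorm (v : Cfsg.GolayPt → ℤ) = 32) (hw : Cfsg.sqNorm (w : Cfsg.GolayPt → ℤ) = 32) (hw' : Cfsg.sqNorm (w' : Cfsg.GolayPt → ℤ) = 32) (hd : Cfsg.dotInt (v : Cfsg.GolayPt → ℤ) (w : Cfsg.GolayPt → ℤ) = -16) (hd' : Cfsg.dotInt (v : Cfsg.GolayPt → ℤ) (w' : Cfsg.GolayPt → ℤ) = -16) : ∃ g : ↥Cfsg.Co0, g • v = v ∧ g • w = w' := by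
  have e : ∀ x : ↥Cfsg.leechLattice,
      CfsgLib.Leech.ip v x = -16 → CfsgLib.Leech.ip v (-x) = 16 := fun x h => by
    rw [CfsgLib.Leech.ip_neg_right, h]; norm_num
  obtain ⟨g, hg, hgw⟩ := CfsgLib.Leech.exists_pair16_base v (-w) hv
    ((CfsgLib.Leech.nrm_neg w).trans hw) (e w hd)
  obtain ⟨h, hh, hhw⟩ := CfsgLib.Leech.exists_pair16_base v (-w') hv
    ((CfsgLib.Leech.nrm_neg w').trans hw') (e w' hd')
  refine ⟨h⁻¹ * g, by rw [mul_smul, hg, ← hh, inv_smul_smul], ?_⟩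
  rw [CfsgLib.Leech.co0_map_neg] at hgw hhw
  rw [mul_smul, ← neg_neg (g • w), hgw, ← hhw, neg_neg, inv_smul_smul]

end Cfsg.Agent.S1574
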