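import Cfsg.Statements.S1576
import Cfsg.Agent.Leech.PairCounts

set_option autoImplicit false
open Cfsg
open scoped Pointwise

namespace Cfsg.Agent.S1576

/-- The stabiliser of a minimal vector is transitive on the pairs of opposite minimal vectors orthogonal to it. -/
theorem result (v w w' : ↥Cfsg.leechLattice) (hv : Cfsg.sqNorm (v : Cfsg.GolayPt → ℤ) = 32) (hw : Cfsg.sqNorm (w : Cfsg.GolayPt → ℤ) = 32) (hw' : Cfsg.sqNorm (w' : Cfsg.GolayPt → ℤ) = 32) (hd : Cfsg.dotInt (v : Cfsg.GolayPt → ℤ) (w : Cfsg.GolayPt → ℤ) = 0) (hd' : Cfsg.dotInt (v : Cfsg.GolayPt → ℤ) (w' : Cfsg.GolayPt → ℤ) = 0) : ∃ g : ↥Cfsg.Co0, g • v = v ∧ (g • w = w' ∨ g • w = -w') := by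
  obtain ⟨g, hg, hgw⟩ := CfsgLib.Leech.exists_pair_base v w hv hw hd
  obtain ⟨h, hh, hhw⟩ := CfsgLib.Leech.exists_pair_base v w' hv hw' hd'
  exact ⟨h⁻¹ * g, by rw [mul_smul, hg, ← hh, inv_smul_smul],
    Or.inl (by rw [mul_smul, hgw, ← hhw, inv_smul_smul])⟩

end Cfsg.Agent.S1576
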