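import Cfsg.Statements.S1588
import Cfsg.Agent.EvenLattice.Norm8

set_option autoImplicit false
open Matrix
open Cfsg

namespace Cfsg.Agent.S1588

/-- Second step of the characterisation: under the vector counts of the rank-24 lattice, the norm-8 vectors fall into congruence classes of exactly 48 modulo twice the lattice. -/
theorem result (B : Matrix (Fin 24) (Fin 24) ℤ) (hsymm : B.IsSymm) (hpos : ∀ x : Fin 24 → ℤ, x ≠ 0 → 0 < x ⬝ᵥ (B *ᵥ x)) (heven : ∀ x : Fin 24 → ℤ, (2 : ℤ) ∣ x ⬝ᵥ (B *ᵥ x)) (h2 : ∀ x : Fin 24 → ℤ, x ⬝ᵥ (B *ᵥ x) ≠ 2) (h4 : {x : Fin 24 → ℤ | x ⬝ᵥ (B *ᵥ x) = 4}.ncard = 196560) (h6 : {x : Fin 24 → ℤ | x ⬝ᵥ (B *ᵥ x) = 6}.ncard = 16773120) (h8 : {x : Fin 24 → ℤ | x ⬝ᵥ (B *ᵥ x) = 8}.ncard = 398034000) (x : Fin 24 → ℤ) (hx : x ⬝ᵥ (B *ᵥ x) = 8) : {y : Fin 24 → ℤ | y ⬝ᵥ (B *ᵥ y) = 8 ∧ ∀ i, (2 : ℤ) ∣ (x - y) i}.ncard = 48 := by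
  have hR : CfsgLib.EvenLattice.Rootless B := ⟨hsymm, hpos, heven, h2⟩
  have f4 := Set.finite_of_ncard_ne_zero (h4.trans_ne (by norm_num))
  have f6 := Set.finite_of_ncard_ne_zero (h6.trans_ne (by norm_num))
  have f8 := Set.finite_of_ncard_ne_zero (h8.trans_ne (by norm_num))
  rw [Set.ncard_eq_toFinset_card _ f4] at h4
  rw [Set.ncard_eq_toFinset_card _ f6] at h6
  rw [Set.ncard_eq_toFinset_card _ f8] at h8
  have key := hR.class_card_eq f4.toFinset f6.toFinset f8.toFinset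
    (fun v hv => (Set.Finite.mem_toFinset f4).mp hv)
    (fun v hv => (Set.Finite.mem_toFinset f6).mp hv)
    (fun v hv => (Set.Finite.mem_toFinset f8).mp hv)
    (by rw [h4, h6, h8]; norm_num) x ((Set.Finite.mem_toFinset f8).mpr hx)
  rw [show (48 : ℕ) = 2 * 24 from rfl, ← key, ← Set.ncard_coe_finset]
  congr 1
  ext y
  simp only [Set.mem_setOf_eq, Finset.coe_filter, Set.Finite.mem_toFinset]
  rw [eq_comm (a := CfsgLib.EvenLattice.red y), CfsgLib.EvenLattice.red_eq_iff]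

end Cfsg.Agent.S1588
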