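import Cfsg.Statements.S1589
import Cfsg.Agent.Eq.Def_SporadicCombinatorics
import Cfsg.Agent.M24Orbits.IndexSub24
import Cfsg.Agent.S1564
import Cfsg.Agent.S1565

set_option autoImplicit false
open scoped Pointwise
open Cfsg

open CfsgLib.Golay CfsgLib.Mathieu CfsgLib.M24Orbits

namespace Cfsg.Agent.S1589

theorem card_map_eq {H : Subgroup ↥M24} {n m : ℕ} (hH : H.index = n) (hm : n * m = 244823040)
    (hn : n ≠ 0) : Nat.card (H.map M24.subtype) = m := by
  rw [Subgroup.card_map_of_injective M24.subtype_injective]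
  have h := Subgroup.card_mul_index H
  rw [hH, card_M24, ← hm, mul_comm n m] at h
  exact Nat.eq_of_mul_eq_mul_right (Nat.pos_of_ne_zero hn) h

theorem eq_stabilizer {A : Type*} [MulAction (Equiv.Perm GolayPt) A] {H : Subgroup ↥M24} {S : A}
    (e : H.map M24.subtype = stabM S) : H = MulAction.stabilizer M24 S := by
  ext g
  rw [MulAction.mem_stabilizer_iff, ← Subgroup.mem_map_iff_mem M24.subtype_injective, e]
  exact ⟨fun hg => hg.2, fun hg => ⟨g.2, hg⟩⟩

theorem stabilizer_le {A : Type*} [MulAction (Equiv.Perm GolayPt) A] {H : Subgroup ↥M24} {S : A}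
    (e : stabM S ≤ H.map M24.subtype) : MulAction.stabilizer M24 S ≤ H := fun g hg =>
  (Subgroup.mem_map_iff_mem M24.subtype_injective).1 (e ⟨g.2, hg⟩)

theorem map_stabilizer {A : Type*} [MulAction (Equiv.Perm GolayPt) A] (S : A) :
    (MulAction.stabilizer M24 S).map M24.subtype = stabM S := by
  ext g
  constructor
  · rintro ⟨k, hk, rfl⟩
    exact ⟨k.2, hk⟩
  · rintro ⟨h1, h2⟩
    exact ⟨⟨g, h1⟩, h2, rfl⟩


/-- Subgroups of the group of the length-24 code of index 759, 276 and 1771 are exactly the octad, duad and sextet stabilisers, and no subgroup has index 253. -/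
theorem result : (∀ H : Subgroup ↥Cfsg.M24, H.index = 759 → ∃ o ∈ Cfsg.octads, H = MulAction.stabilizer Cfsg.M24 o) ∧ (∀ H : Subgroup ↥Cfsg.M24, H.index = 276 → ∃ s : Finset Cfsg.GolayPt, s.card = 2 ∧ H = MulAction.stabilizer Cfsg.M24 s) ∧ (∀ H : Subgroup ↥Cfsg.M24, H.index = 1771 → ∃ S ∈ Cfsg.sextets, H = MulAction.stabilizer Cfsg.M24 S) ∧ ∀ H : Subgroup ↥Cfsg.M24, H.index ≠ 253 := by
  refine ⟨fun H hH => ?_, fun H hH => ?_, fun H hH => ?_, fun H hH => ?_⟩
  · obtain ⟨o, ho, e⟩ := classify_759 (Subgroup.map_subtype_le H)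
      (card_map_eq hH (m := 322560) (by norm_num) (by norm_num))
    exact ⟨o, ho, eq_stabilizer e⟩
  · obtain ⟨s, hs, e⟩ := classify_276 (Subgroup.map_subtype_le H)
      (card_map_eq hH (m := 887040) (by norm_num) (by norm_num))
    exact ⟨s, hs, eq_stabilizer e⟩
  · obtain ⟨S, hS, e⟩ := classify_1771 (Subgroup.map_subtype_le H)
      (card_map_eq hH (m := 138240) (by norm_num) (by norm_num))
    exact ⟨S, hS, eq_stabilizer e⟩
  · have hc := card_map_eq hH (m := 967680) (by norm_num) (by norm_num)
    rcases not_card_967680 (Subgroup.map_subtype_le H) hc with ⟨O, hO, e⟩ | ⟨Y, hY, e⟩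
    · rcases (S1565.result O hO).le_iff.1 (stabilizer_le e) with h | h
      · rw [h, Subgroup.index_top] at hH
        norm_num at hH
      · rw [h, map_stabilizer, card_stab_octad hO] at hc
        norm_num at hc
    · rcases (S1564.result Y hY).le_iff.1 (stabilizer_le e) with h | h
      · rw [h, Subgroup.index_top] at hH
        norm_num at hH
      · rw [h, map_stabilizer] at hc
        have := card_stab_small Y (m := 20160) fun M hM hfix => card_fix_three hM hY hfix
        rw [hc, hY] at this
        norm_num [Nat.factorial] at this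

end Cfsg.Agent.S1589
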