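import Cfsg.Statements.S1590
import Cfsg.Agent.TernaryGolay.Basic

set_option autoImplicit false
open Cfsg CfsgLib.TernaryGolay

namespace Cfsg.Agent.S1590

/-- The length-12 ternary code has 729 words with weight distribution 0^1 6^264 9^440 12^24. -/
theorem result : Nat.card ↥Cfsg.ternaryGolayCode = 729 ∧ (∀ x ∈ Cfsg.ternaryGolayCode, x ≠ 0 → (Cfsg.ternarySupport x).card = 6 ∨ (Cfsg.ternarySupport x).card = 9 ∨ (Cfsg.ternarySupport x).card = 12) ∧ {x : Cfsg.ArrayPt → ZMod 3 | x ∈ Cfsg.ternaryGolayCode ∧ (Cfsg.ternarySupport x).card = 6}.ncard = 264 ∧ {x : Cfsg.ArrayPt → ZMod 3 | x ∈ Cfsg.ternaryGolayCode ∧ (Cfsg.ternarySupport x).card = 9}.ncard = 440 ∧ {x : Cfsg.ArrayPt → ZMod 3 | x ∈ Cfsg.ternaryGolayCode ∧ (Cfsg.ternarySupport x).card = 12}.ncard = 24 := by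
  have hall : ∀ k : Fin 729, k = 0 ∨ weight k = 6 ∨ weight k = 9 ∨ weight k = 12 := by decide +kernel
  have e0 : word 0 = 0 := funext fun q => by
    simp [word, enc, digit]
  refine ⟨?_, fun x hx hx0 => ?_, ?_, ?_, ?_⟩
  · rw [show (729 : ℕ) = Nat.card (Fin 729) by rw [Nat.card_fin]]
    refine (Nat.card_eq_of_bijective (fun k : Fin 729 => (⟨word k, word_mem k⟩ : ↥Cfsg.ternaryGolayCode))
      ⟨fun a b h => word_injective (congrArg Subtype.val h), fun x => ?_⟩).symm
    obtain ⟨k, hk⟩ := exists_word x.2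
    exact ⟨k, Subtype.ext hk⟩
  · obtain ⟨k, rfl⟩ := exists_word hx
    rw [card_support]
    exact (hall k).resolve_left fun h => hx0 (h ▸ e0)
  · rw [ncard_weight]; decide +kernel
  · rw [ncard_weight]; decide +kernel
  · rw [ncard_weight]; decide +kernel

end Cfsg.Agent.S1590
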