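import Cfsg.Statements.S1591
import Cfsg.Agent.TernaryGolay.Basic

set_option autoImplicit false
open Cfsg CfsgLib.TernaryGolay

namespace Cfsg.Agent.S1591

/-- Any two words of the length-12 ternary code have dot product zero. -/
theorem result (x y : Cfsg.ArrayPt → ZMod 3) (hx : x ∈ Cfsg.ternaryGolayCode) (hy : y ∈ Cfsg.ternaryGolayCode) : ∑ p, x p * y p = 0 := by
  have h : ∀ i j : Fin 6, ∑ p, gen i p * gen j p = 0 := by decide +kernel
  rw [eq_enc hx, eq_enc hy]
  generalize (fun j => x (pos j)) = a
  generalize (fun j => y (pos j)) = b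
  calc ∑ p, enc a p * enc b p = ∑ p, ∑ i, ∑ j, a i * b j * (gen i p * gen j p) :=
        Finset.sum_congr rfl fun p _ => by
          simp only [enc, Finset.sum_mul_sum, mul_mul_mul_comm]
    _ = ∑ i, ∑ j, a i * b j * ∑ p, gen i p * gen j p := by
        rw [Finset.sum_comm]
        refine Finset.sum_congr rfl fun i _ => ?_
        rw [Finset.sum_comm]
        exact Finset.sum_congr rfl fun j _ => by rw [Finset.mul_sum]
    _ = 0 := by simp [h]

end Cfsg.Agent.S1591
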