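import Cfsg.Statements.S1592
import Cfsg.Agent.TernaryGolay.Basic

set_option autoImplicit false
open Cfsg CfsgLib.TernaryGolay

namespace Cfsg.Agent.S1592

/-- The supports of the weight-6 words of the length-12 ternary code form a Steiner system S(5, 6, 12) with 132 blocks. -/
theorem result : Cfsg.IsSteinerSystem 5 6 {h : Finset Cfsg.ArrayPt | ∃ x ∈ Cfsg.ternaryGolayCode, Cfsg.ternarySupport x = h ∧ h.card = 6} ∧ {h : Finset Cfsg.ArrayPt | ∃ x ∈ Cfsg.ternaryGolayCode, Cfsg.ternarySupport x = h ∧ h.card = 6}.ncard = 132 := by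
  rw [hexads_eq]
  refine ⟨⟨?_, fun s hs => ?_⟩, ?_⟩
  · rintro _ ⟨m, hm, rfl⟩
    have h : ∀ m ∈ hexMasks, bits m = 6 := by decide +kernel
    rw [card_setOfMask, h m hm]
  · obtain ⟨m, hm, rfl⟩ := exists_mask s
    rw [card_setOfMask] at hs
    obtain ⟨a, ha⟩ := List.length_eq_one_iff.1 (hexMasks_cover hm hs)
    have hmem : ∀ h, h ∈ hexMasks ∧ m &&& h = m ↔ h = a := fun h => by
      have := congrArg (fun l : List ℕ => h ∈ l) ha
      simpa using this
    refine ⟨setOfMask a, ⟨⟨a, ((hmem a).2 rfl).1, rfl⟩, (setOfMask_subset_iff hm).2 ((hmem a).2 rfl).2⟩, ?_⟩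
    rintro _ ⟨⟨h, hh, rfl⟩, hsub⟩
    rw [(hmem h).1 ⟨hh, (setOfMask_subset_iff hm).1 hsub⟩]
  · rw [Set.InjOn.ncard_image (s := {m | m ∈ hexMasks}) (f := setOfMask)
        fun a ha b hb h => setOfMask_inj (hexMasks_lt a ha) (hexMasks_lt b hb) h,
      show {m | m ∈ hexMasks} = (hexMasks.toFinset : Set ℕ) from (List.coe_toFinset _).symm,
      Set.ncard_coe_finset]
    decide +kernel

end Cfsg.Agent.S1592
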