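import Cfsg.Statements.S1593
import Cfsg.Agent.TernaryGolay.Basic

set_option autoImplicit false
open Cfsg CfsgLib.TernaryGolay

namespace Cfsg.Agent.S1593

/-- The only sign changes preserving the length-12 ternary code are the identity and negation of all coordinates. -/
theorem result (c : Cfsg.ArrayPt → (ZMod 3)ˣ) (h : (∀ x ∈ Cfsg.ternaryGolayCode, Cfsg.monomialMap 1 c x ∈ Cfsg.ternaryGolayCode)) : (∀ p, c p = 1) ∨ (∀ p, c p = -1) := by
  have key : ∀ j q, gen j q ≠ 0 → c q = c (pos j) := by
    intro j q hq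
    have h' := congrFun (eq_enc (h _ (gen_mem j))) q
    have hδ : ∀ i j : Fin 6, gen j (pos i) = if j = i then 1 else 0 := by decide +kernel
    simp only [monomialMap, Equiv.Perm.one_symm, Equiv.Perm.coe_one, id_eq, enc, hδ, mul_ite, mul_one,
      mul_zero, ite_mul, zero_mul, Finset.sum_ite_eq, Finset.mem_univ, if_true] at h'
    exact Units.ext (mul_right_cancel₀ hq h')
  have hp : ∀ j : Fin 6, c (pos j) = c (1, 2) := by
    have a0 := key 0 (1, 2) (by decide +kernel)
    have a1 := key 1 (1, 2) (by decide +kernel)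
    have a2 := key 2 (1, 2) (by decide +kernel)
    have a3 := key 3 (1, 2) (by decide +kernel)
    have a4 := key 4 (1, 2) (by decide +kernel)
    have a5 := (key 5 (3, 2) (by decide +kernel)).symm.trans ((key 0 (3, 2) (by decide +kernel)).trans a0.symm)
    intro j
    fin_cases j
    exacts [a0.symm, a1.symm, a2.symm, a3.symm, a4.symm, a5]
  have hall : ∀ q, c q = c (1, 2) := fun q => by
    have hex : ∀ q : ArrayPt, ∃ j, gen j q ≠ 0 := by decide +kernel
    obtain ⟨j, hj⟩ := hex q
    exact (key j q hj).trans (hp j)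
  have hu : ∀ u : (ZMod 3)ˣ, u = 1 ∨ u = -1 := by decide
  rcases hu (c (1, 2)) with e | e
  · exact Or.inl fun q => (hall q).trans e
  · exact Or.inr fun q => (hall q).trans e

end Cfsg.Agent.S1593
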