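import Cfsg.Statements.S1594
import Cfsg.Agent.TernaryGolay.Aut
import Cfsg.Agent.S1593

set_option autoImplicit false
open Cfsg CfsgLib.TernaryGolay

namespace Cfsg.Agent.S1594

/-- The monomial automorphism group of the length-12 ternary code has order 190080 and its permutation parts are exactly the automorphisms of its hexad system. -/
theorem result : Nat.card {f : Equiv.Perm Cfsg.ArrayPt × (Cfsg.ArrayPt → (ZMod 3)ˣ) // (∀ x ∈ Cfsg.ternaryGolayCode, Cfsg.monomialMap f.1 f.2 x ∈ Cfsg.ternaryGolayCode)} = 190080 ∧ {σ : Equiv.Perm Cfsg.ArrayPt | ∃ c : Cfsg.ArrayPt → (ZMod 3)ˣ, (∀ x ∈ Cfsg.ternaryGolayCode, Cfsg.monomialMap σ c x ∈ Cfsg.ternaryGolayCode)} = (Cfsg.setSystemAut {h : Finset Cfsg.ArrayPt | ∃ x ∈ Cfsg.ternaryGolayCode, Cfsg.ternarySupport x = h ∧ h.card = 6} : Set (Equiv.Perm Cfsg.ArrayPt)) := by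
  classical
  choose g hgP hgt hgfix using exists_level
  let D (i : Fin 5) := {t : Fin 12 // (i : ℕ) ≤ t}
  let F : D 0 × D 1 × D 2 × D 3 × D 4 → ↥permParts := fun x =>
    ⟨g 0 x.1.1 x.1.2 * (g 1 x.2.1.1 x.2.1.2 * (g 2 x.2.2.1.1 x.2.2.1.2 *
      (g 3 x.2.2.2.1.1 x.2.2.2.1.2 * g 4 x.2.2.2.2.1 x.2.2.2.2.2))),
      permParts_mul (hgP _ _ _) (permParts_mul (hgP _ _ _) (permParts_mul (hgP _ _ _)
        (permParts_mul (hgP _ _ _) (hgP _ _ _))))⟩
  have step : ∀ (i : Fin 5) (t t' : D i) (r r' : Equiv.Perm Cfsg.ArrayPt), r (basePt i) = basePt i →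
      r' (basePt i) = basePt i → g i t.1 t.2 * r = g i t'.1 t'.2 * r' → t = t' ∧ r = r' := by
    intro i t t' r r' hr hr' h
    have h' := DFunLike.congr_fun h (basePt i)
    rw [Equiv.Perm.mul_apply, Equiv.Perm.mul_apply, hr, hr', hgt, hgt] at h'
    have htt : t = t' := Subtype.ext (idx.symm.injective h')
    subst htt
    exact ⟨rfl, mul_left_cancel h⟩
  have hF : Function.Injective F := by
    rintro ⟨a, b, c, d, e⟩ ⟨a', b', c', d', e'⟩ h
    have h0 := congrArg Subtype.val h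
    simp only [F] at h0
    obtain ⟨rfl, h1⟩ := step 0 a a' _ _
      (by simp [Equiv.Perm.mul_apply, hgfix 1 _ _ 0 (by decide), hgfix 2 _ _ 0 (by decide), hgfix 3 _ _ 0 (by decide), hgfix 4 _ _ 0 (by decide)])
      (by simp [Equiv.Perm.mul_apply, hgfix 1 _ _ 0 (by decide), hgfix 2 _ _ 0 (by decide), hgfix 3 _ _ 0 (by decide), hgfix 4 _ _ 0 (by decide)]) h0
    obtain ⟨rfl, h2⟩ := step 1 b b' _ _
      (by simp [Equiv.Perm.mul_apply, hgfix 2 _ _ 1 (by decide), hgfix 3 _ _ 1 (by decide), hgfix 4 _ _ 1 (by decide)])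
      (by simp [Equiv.Perm.mul_apply, hgfix 2 _ _ 1 (by decide), hgfix 3 _ _ 1 (by decide), hgfix 4 _ _ 1 (by decide)]) h1
    obtain ⟨rfl, h3⟩ := step 2 c c' _ _
      (by simp [Equiv.Perm.mul_apply, hgfix 3 _ _ 2 (by decide), hgfix 4 _ _ 2 (by decide)])
      (by simp [Equiv.Perm.mul_apply, hgfix 3 _ _ 2 (by decide), hgfix 4 _ _ 2 (by decide)]) h2
    obtain ⟨rfl, h4⟩ := step 3 d d' _ _ (hgfix 4 _ _ 3 (by decide)) (hgfix 4 _ _ 3 (by decide)) h3
    obtain ⟨rfl, -⟩ := step 4 e e' 1 1 rfl rfl (by rw [mul_one, mul_one, h4])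
    rfl
  have hD : Nat.card (D 0 × D 1 × D 2 × D 3 × D 4) = 95040 := by
    simp only [D, Nat.card_prod, Nat.card_eq_fintype_card]
    decide +kernel
  have hlow : 95040 ≤ (permParts : Set (Equiv.Perm Cfsg.ArrayPt)).ncard := by
    rw [← hD, ← Nat.card_coe_set_eq]
    exact Nat.card_le_card_of_injective F hF
  have hA : ((setSystemAut hexadFamily : Subgroup (Equiv.Perm Cfsg.ArrayPt)) : Set (Equiv.Perm Cfsg.ArrayPt)).ncard ≤ 95040 := by
    rw [← Nat.card_coe_set_eq]; exact card_setSystemAut_le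
  have hP := Set.eq_of_subset_of_ncard_le permParts_subset (hA.trans hlow) (Set.toFinite _)
  refine ⟨?_, hP⟩
  have hcard : Nat.card ↥permParts = 95040 := by
    rw [Nat.card_coe_set_eq]
    exact le_antisymm (hP ▸ hA) hlow
  have hu : ∀ u : (ZMod 3)ˣ, u = 1 ∨ u = -1 := by decide
  choose c hc using fun σ : ↥permParts => σ.2
  let T : ↥permParts × (ZMod 3)ˣ → {f : Equiv.Perm Cfsg.ArrayPt × (Cfsg.ArrayPt → (ZMod 3)ˣ) //
      IsAut f.1 f.2} := fun p => ⟨(p.1.1, fun q => p.2 * c p.1 q), fun x hx => by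
    rw [show monomialMap p.1.1 (fun q => p.2 * c p.1 q) x = (p.2 : ZMod 3) • monomialMap p.1.1 (c p.1) x from
      funext fun q => by simp [monomialMap, mul_assoc]]
    exact Submodule.smul_mem _ _ (hc p.1 x hx)⟩
  have hT : Function.Bijective T := by
    constructor
    · rintro ⟨σ, u⟩ ⟨τ, v⟩ h
      have h' := congrArg Subtype.val h
      simp only [T, Prod.mk.injEq] at h'
      have hστ : σ = τ := Subtype.ext h'.1
      subst hστ
      exact Prod.ext rfl (mul_right_cancel (congrFun h'.2 (0, 0)))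
    · rintro ⟨⟨σ, d⟩, hd⟩
      let P : ↥permParts := ⟨σ, d, hd⟩
      have hsurj : ∀ x ∈ ternaryGolayCode, ∃ y ∈ ternaryGolayCode, monomialMap σ (c P) y = x := by
        intro x hx
        let φ : ↥ternaryGolayCode → ↥ternaryGolayCode := fun y => ⟨monomialMap σ (c P) y, hc P y y.2⟩
        have hφ : Function.Injective φ := fun a b h =>
          Subtype.ext (monomialMap_injective σ (c P) (congrArg Subtype.val h))
        obtain ⟨y, hy⟩ := (Finite.injective_iff_surjective.1 hφ) ⟨x, hx⟩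
        exact ⟨y, y.2, congrArg Subtype.val hy⟩
      have hratio := Cfsg.Agent.S1593.result (fun q => d q * (c P q)⁻¹) fun x hx => by
        obtain ⟨y, hy, rfl⟩ := hsurj x hx
        rw [monomialMap_mul, one_mul]
        simp only [Equiv.Perm.one_symm, Equiv.Perm.coe_one, id_eq, inv_mul_cancel_right]
        exact hd y hy
      rcases hratio with h | h
      · exact ⟨(P, 1), Subtype.ext (Prod.ext rfl (funext fun q => by
          show 1 * c P q = d q
          rw [one_mul, mul_inv_eq_one.1 (h q)]))⟩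
      · exact ⟨(P, -1), Subtype.ext (Prod.ext rfl (funext fun q => by
          exact (mul_inv_eq_iff_eq_mul.1 (h q)).symm))⟩
  rw [← Nat.card_congr (Equiv.ofBijective T hT), Nat.card_prod, hcard,
    show Nat.card (ZMod 3)ˣ = 2 by rw [Nat.card_eq_fintype_card]; rfl]

end Cfsg.Agent.S1594
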