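import Cfsg.Statements.S1595
import Cfsg.Agent.Eq.Def_Sporadic_a

set_option autoImplicit false
open Cfsg

namespace Cfsg.Agent.S1595

open Finset

theorem result {α : Type*} [Fintype α] [DecidableEq α] (hα : Fintype.card α = 12) {B : Set (Finset α)} (hB : Cfsg.IsSteinerSystem 5 6 B) (b : Finset α) (hb : b ∈ B) : (∀ c ∈ B, c ≠ b → (b ∩ c).card = 0 ∨ (b ∩ c).card = 2 ∨ (b ∩ c).card = 3 ∨ (b ∩ c).card = 4) ∧ ∀ s ⊆ b, (s.card = 2 → {c : Finset α | c ∈ B ∧ b ∩ c = s}.ncard = 3) ∧ (s.card = 3 → {c : Finset α | c ∈ B ∧ b ∩ c = s}.ncard = 2) ∧ (s.card = 4 → {c : Finset α | c ∈ B ∧ b ∩ c = s}.ncard = 3) := by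
  classical
  obtain ⟨hk, hu⟩ := hB
  have hb6 : b.card = 6 := hk b hb
  set Bf : Finset (Finset α) := univ.filter (· ∈ B) with hBf
  have mem : ∀ c, c ∈ Bf ↔ c ∈ B := fun c => by simp [hBf]
  let lam : Finset α → ℕ := fun s => #{c ∈ Bf | s ⊆ c}
  have l5 : ∀ s : Finset α, s.card = 5 → lam s = 1 := by
    intro s hs
    obtain ⟨c, hc, huniq⟩ := hu s hs
    refine card_eq_one.2 ⟨c, ?_⟩
    ext d
    simp only [mem_filter, mem, mem_singleton]
    exact ⟨fun h => huniq d h, fun h => h ▸ hc⟩
  have step : ∀ i v : ℕ, i ≤ 6 → (∀ s : Finset α, s.card = i + 1 → lam s = v) →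
      ∀ s : Finset α, s.card = i → lam s * (6 - i) = (12 - i) * v := by
    intro i v hi h s hs
    have := sum_card_bipartiteAbove_eq_sum_card_bipartiteBelow
      (fun (c : Finset α) (x : α) => x ∈ c) (s := {c ∈ Bf | s ⊆ c}) (t := sᶜ)
    have e1 : ∀ c ∈ {c ∈ Bf | s ⊆ c},
        #(bipartiteAbove (fun (c : Finset α) (x : α) => x ∈ c) sᶜ c) = 6 - i := by
      intro c hc
      simp only [mem_filter, mem] at hc
      have : bipartiteAbove (fun (c : Finset α) (x : α) => x ∈ c) sᶜ c = c \ s := by
        ext x; simp [bipartiteAbove, and_comm]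
      rw [this, card_sdiff_of_subset hc.2, hk c hc.1, hs]
    have e2 : ∀ x ∈ sᶜ,
        #(bipartiteBelow (fun (c : Finset α) (x : α) => x ∈ c) {c ∈ Bf | s ⊆ c} x) = v := by
      intro x hx
      rw [mem_compl] at hx
      rw [← h (insert x s) (by rw [card_insert_of_notMem hx, hs])]
      apply congrArg card
      ext c
      simp [bipartiteBelow, insert_subset_iff, and_assoc, and_comm (a := x ∈ c)]
    rw [sum_congr rfl e1, sum_congr rfl e2] at this
    simpa [sum_const, card_compl, hα, hs, lam] using this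
  have l4 : ∀ s : Finset α, s.card = 4 → lam s = 4 := fun s hs => by
    have := step 4 1 (by norm_num) l5 s hs; omega
  have l3 : ∀ s : Finset α, s.card = 3 → lam s = 12 := fun s hs => by
    have := step 3 4 (by norm_num) l4 s hs; omega
  have l2 : ∀ s : Finset α, s.card = 2 → lam s = 30 := fun s hs => by
    have := step 2 12 (by norm_num) l3 s hs; omega
  have l1 : ∀ s : Finset α, s.card = 1 → lam s = 66 := fun s hs => by
    have := step 1 30 (by norm_num) l2 s hs; omega
  let N : Finset α → ℕ := fun s => #{c ∈ Bf | b ∩ c = s}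
  have hN : ∀ s, {c : Finset α | c ∈ B ∧ b ∩ c = s}.ncard = N s := by
    intro s
    show _ = #{c ∈ Bf | b ∩ c = s}
    rw [← Set.ncard_coe_finset]
    congr 1
    ext c; simp [mem]
  -- lam as a sum of N
  have key : ∀ s ⊆ b, lam s = ∑ u ∈ (b \ s).powerset, N (s ∪ u) := by
    intro s hs
    show #{c ∈ Bf | s ⊆ c} = _
    rw [card_eq_sum_card_fiberwise (f := fun c => (b ∩ c) \ s) (t := (b \ s).powerset)]
    · refine sum_congr rfl fun u hu => congrArg card ?_
      rw [mem_powerset] at hu
      ext c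
      simp only [mem_filter, mem]
      constructor
      · rintro ⟨⟨hc, hsc⟩, hcu⟩
        refine ⟨hc, ?_⟩
        rw [← hcu, union_sdiff_of_subset (subset_inter hs hsc)]
      · rintro ⟨hc, hcu⟩
        have hsc : s ⊆ c := (subset_union_left.trans hcu.ge).trans inter_subset_right
        refine ⟨⟨hc, hsc⟩, ?_⟩
        rw [hcu, union_sdiff_left]
        exact sdiff_eq_self_of_disjoint (disjoint_of_subset_left hu sdiff_disjoint)
    · intro c _
      simp only [coe_powerset, Set.mem_preimage, Set.mem_powerset_iff, coe_subset]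
      exact sdiff_subset_sdiff inter_subset_left le_rfl
  let g : ℕ → ℕ := fun j => if j = 6 then 1 else if j = 5 then 0 else if j = 4 then 3
    else if j = 3 then 2 else if j = 2 then 3 else 0
  have rec' : ∀ i, (∀ s ⊆ b, i < s.card → N s = g s.card) → ∀ s ⊆ b, s.card = i →
      lam s + g i = N s + ∑ j ∈ range (6 - i + 1), (6 - i).choose j * g (i + j) := by
    intro i ih s hs hi
    have hcard : (b \ s).card = 6 - i := by rw [card_sdiff_of_subset hs, hb6, hi]
    have e : ∀ u ∈ (b \ s).powerset.erase ∅, N (s ∪ u) = g (i + u.card) := by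
      intro u hu
      rw [mem_erase, mem_powerset] at hu
      have hd : Disjoint s u := disjoint_of_subset_right hu.2 disjoint_sdiff
      have hc : (s ∪ u).card = i + u.card := by rw [card_union_of_disjoint hd, hi]
      rw [ih _ (union_subset hs (hu.2.trans sdiff_subset)), hc]
      rw [hc]
      have := card_pos.2 (nonempty_iff_ne_empty.2 hu.1)
      omega
    have h0 : (∅ : Finset α) ∈ (b \ s).powerset := empty_mem_powerset _
    have h1 : ∑ u ∈ (b \ s).powerset, g (i + u.card)
        = ∑ j ∈ range (6 - i + 1), (6 - i).choose j * g (i + j) := by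
      rw [Finset.sum_powerset_apply_card (fun j => g (i + j)), hcard]; simp
    rw [key s hs, ← h1, ← add_sum_erase _ _ h0, ← add_sum_erase _ _ h0, sum_congr rfl e]
    simp only [union_empty, card_empty, add_zero]
    omega
  have v6 : ∀ s ⊆ b, s.card = 6 → N s = 1 := by
    intro s hs h
    obtain rfl : s = b := eq_of_subset_of_card_le hs (by omega)
    refine card_eq_one.2 ⟨s, ?_⟩
    ext c
    simp only [mem_filter, mem, mem_singleton]
    constructor
    · rintro ⟨hc, he⟩
      exact (eq_of_subset_of_card_le (he ▸ inter_subset_right) (by rw [hk c hc]; omega)).symm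
    · rintro rfl; exact ⟨hb, inter_self _⟩
  have le6 : ∀ s ⊆ b, s.card ≤ 6 := fun s hs => hb6 ▸ card_le_card hs
  have a5 : ∀ s ⊆ b, 5 < s.card → N s = g s.card := by
    intro s hs h
    have h' : s.card = 6 := by have := le6 s hs; omega
    rw [v6 s hs h', h']; rfl
  have v5 : ∀ s ⊆ b, s.card = 5 → N s = 0 := by
    intro s hs h
    have := rec' 5 a5 s hs h
    simp [sum_range_succ, g, l5 s h] at this
    omega
  have a4 : ∀ s ⊆ b, 4 < s.card → N s = g s.card := by
    intro s hs h
    rcases Nat.lt_or_ge 5 s.card with h' | h'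
    · exact a5 s hs h'
    · rw [v5 s hs (by omega), show s.card = 5 by omega]; rfl
  have v4 : ∀ s ⊆ b, s.card = 4 → N s = 3 := by
    intro s hs h
    have := rec' 4 a4 s hs h
    simp [sum_range_succ, g, l4 s h, Nat.choose] at this
    omega
  have a3 : ∀ s ⊆ b, 3 < s.card → N s = g s.card := by
    intro s hs h
    rcases Nat.lt_or_ge 4 s.card with h' | h'
    · exact a4 s hs h'
    · rw [v4 s hs (by omega), show s.card = 4 by omega]; rfl
  have v3 : ∀ s ⊆ b, s.card = 3 → N s = 2 := by
    intro s hs h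
    have := rec' 3 a3 s hs h
    simp [sum_range_succ, g, l3 s h, Nat.choose] at this
    omega
  have a2 : ∀ s ⊆ b, 2 < s.card → N s = g s.card := by
    intro s hs h
    rcases Nat.lt_or_ge 3 s.card with h' | h'
    · exact a3 s hs h'
    · rw [v3 s hs (by omega), show s.card = 3 by omega]; rfl
  have v2 : ∀ s ⊆ b, s.card = 2 → N s = 3 := by
    intro s hs h
    have := rec' 2 a2 s hs h
    simp [sum_range_succ, g, l2 s h, Nat.choose] at this
    omega
  have a1 : ∀ s ⊆ b, 1 < s.card → N s = g s.card := by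
    intro s hs h
    rcases Nat.lt_or_ge 2 s.card with h' | h'
    · exact a2 s hs h'
    · rw [v2 s hs (by omega), show s.card = 2 by omega]; rfl
  have v1 : ∀ s ⊆ b, s.card = 1 → N s = 0 := by
    intro s hs h
    have := rec' 1 a1 s hs h
    simp [sum_range_succ, g, l1 s h, Nat.choose] at this
    omega
  refine ⟨fun c hc hne => ?_, fun s hs => ⟨fun h => (hN s).trans (v2 s hs h),
    fun h => (hN s).trans (v3 s hs h), fun h => (hN s).trans (v4 s hs h)⟩⟩
  have hs : b ∩ c ⊆ b := inter_subset_left
  have pos : N (b ∩ c) ≠ 0 := (card_pos.2 ⟨c, by simp [mem, hc]⟩).ne'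
  have h6 : (b ∩ c).card ≠ 6 := by
    intro h
    apply hne
    have e : b ∩ c = b := eq_of_subset_of_card_le hs (by omega)
    exact (eq_of_subset_of_card_le (e ▸ inter_subset_right) (by rw [hk c hc]; omega)).symm
  have := le6 _ hs
  have : (b ∩ c).card ≠ 1 := fun h => pos (v1 _ hs h)
  have : (b ∩ c).card ≠ 5 := fun h => pos (v5 _ hs h)
  omega

end Cfsg.Agent.S1595
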