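import Cfsg.Statements.S1599
import Cfsg.Agent.Eq.Def_SporadicCombinatorics
import Cfsg.Agent.M24Orbits.Tools
import Cfsg.Agent.M24Orbits.Std
import Cfsg.Agent.M24Orbits.Certs.QuartQuart
import Cfsg.Agent.MathieuIso.Quartet

set_option autoImplicit false
open scoped Pointwise
open Cfsg

open CfsgLib.Golay CfsgLib.Mathieu CfsgLib.M24Orbits CfsgLib.M24Orbits.Data CfsgLib

namespace Cfsg.Agent.S1599

/-- The standard dodecad. -/
abbrev D' : Finset GolayPt := ofMask 340831

/-- The standard quartet. -/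
abbrev Q' : Finset (Finset GolayPt) := famOf [7, 336, 70144, 270344]

/-- Octads cutting the hexads of the representatives. -/
def hexWit : List ℕ := [57883, 210955, 381252, 396116, 615188, 622863, 806987, 832080, 1053483,
  1065303, 1384564, 1405448, 2162811, 2183687, 2372388, 2384216, 3216208, 3416079, 4196943,
  4403780, 4536592, 4587803, 8464984, 8657159, 12656663, 12849992]

/-- Test for a quartet of the standard dodecad. -/
def quartetOK (ms : List ℕ) : Bool :=
  masksOK ms && ms.length == 4 && ms.all (fun m => pop m == 3 && (m &&& 340831) == m) &&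
    ms.all fun a => ms.all fun b => a == b || (pop (a ||| b) == 6 && hexWit.any fun o =>
      inCode o && pop o == 8 && (o &&& 340831) == (a ||| b))

theorem famOf_mem_quartets {ms : List ℕ} (h : quartetOK ms = true) : famOf ms ∈ quartets D' := by
  simp only [quartetOK, Bool.and_eq_true, beq_iff_eq, List.all_eq_true, Bool.or_eq_true,
    List.any_eq_true] at h
  obtain ⟨⟨⟨hm, hl⟩, h3⟩, h6⟩ := h
  refine ⟨by rw [famOf_card hm, hl], ?_, ?_⟩
  · intro t ht
    simp only [famOf, List.mem_toFinset, List.mem_map] at ht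
    obtain ⟨m, hm', rfl⟩ := ht
    exact ⟨by rw [← pop_eq_card]; exact (h3 m hm').1, ofMask_subset (h3 m hm').2⟩
  · intro t ht u hu hne
    simp only [famOf, List.mem_toFinset, List.mem_map] at ht hu
    obtain ⟨a, ha, rfl⟩ := ht
    obtain ⟨b, hb, rfl⟩ := hu
    rcases h6 a ha b hb with e | ⟨e1, o, -, ⟨e2, e3⟩, e4⟩
    · exact absurd (by rw [e]) hne
    · rw [← ofMask_lor]
      exact ⟨by rw [← pop_eq_card]; exact e1, ofMask o, ofMask_mem_octads e2 e3,
        by rw [← ofMask_land, e4]⟩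

theorem std_eq : Spor.squareDodecad = D' := Mathieu.squareDodecad_eq

theorem stdQuartet_eq : MathieuIso.stdQuartet = Q' := rfl

theorem exists_conj {d : Finset GolayPt} (hd : d ∈ dodecads) {Q : Finset (Finset GolayPt)}
    (hQ : Q ∈ quartets d) : ∃ c ∈ M24, c • D' = d ∧ c • Q' = Q := by
  obtain ⟨c, hc, h1, h2⟩ := MathieuIso.exists_quartet_conj hd hQ
  exact ⟨c, hc, std_eq ▸ h1, stdQuartet_eq ▸ h2⟩

theorem ncard_quartets : (quartets D').ncard = 220 := by
  have hd : D' ∈ dodecads := ofMask_mem_dodecads (by decide +kernel) (by decide +kernel)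
  have hQ : Q' ∈ quartets D' := famOf_mem_quartets (by decide +kernel)
  have horb : MulAction.orbit Spor.M12 Q' = quartets D' := by
    ext y
    constructor
    · rintro ⟨g, rfl⟩
      have h := MathieuIso.smul_mem_quartets g.2.1 hQ
      rw [← std_eq, show (g : Equiv.Perm GolayPt) • Spor.squareDodecad = _ from g.2.2, std_eq] at h
      exact h
    · intro hy
      obtain ⟨c, hc, h1, h2⟩ := exists_conj hd hy
      exact ⟨⟨c, hc, by
        show c • Spor.squareDodecad = Spor.squareDodecad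
        rw [std_eq, h1]⟩, h2⟩
  have e : Nat.card (MulAction.stabilizer Spor.M12 Q') = Nat.card MathieuIso.quartStab :=
    Nat.card_congr
      { toFun := fun g => ⟨g.1.1, g.1.2, g.2⟩
        invFun := fun g => ⟨⟨g.1, g.2.1⟩, g.2.2⟩
        left_inv := fun _ => rfl
        right_inv := fun _ => rfl }
  have h := (MulAction.stabilizer Spor.M12 Q').card_mul_index
  rw [MulAction.index_stabilizer, horb, e, MathieuIso.quartStab_structure.1, card_M12] at h
  omega

theorem quart_setup :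
    Setup (stabM D' ⊓ MulAction.stabilizer _ Q') (quartets D') encF actF quartQuartGens
      (quartQuartReps.map famOf) quartQuartReps quartQuartCert where
  enc_smul := encF_smul
  rep := reps_stab_fam (reps_stab_set
    (rep_M24_of_all (gens := quartQuartGens) (by decide +kernel)) 340831 (by decide +kernel))
    [7, 336, 70144, 270344] (by decide +kernel)
  inv g hg Q hQ := by
    have h := MathieuIso.smul_mem_quartets hg.1.1 hQ
    rwa [smul_eq_self hg.1] at h
  encs := encs_fam (by decide +kernel)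
  mem := mem_of_all (ok := quartetOK) (by decide +kernel) fun _ h => famOf_mem_quartets h
  ok := quartQuart_ok
  fin := Set.toFinite _
  card := by rw [ncard_quartets, quartQuart_len]

theorem quart_sep : ((quartQuartReps.map famOf).map fun S => famInv Q' S).Nodup := by
  rw [map_famInv _ (by decide +kernel) _ (by decide +kernel)]; decide +kernel

theorem orbit_eq (c : Equiv.Perm GolayPt) (hc : c ∈ M24) (Y : Finset (Finset GolayPt)) :
    MulAction.orbit ↥(MulAction.stabilizer M24 (c • D') ⊓ MulAction.stabilizer M24 (c • Q'))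
      (c • Y) = (fun y => c • y) '' {y | ∃ g ∈ stabM D' ⊓ MulAction.stabilizer _ Q', g • Y = y} := by
  ext y
  constructor
  · rintro ⟨⟨⟨g, hg⟩, h1, h2⟩, rfl⟩
    have e1 : g • c • D' = c • D' := h1
    have e2 : g • c • Q' = c • Q' := h2
    refine ⟨c⁻¹ • g • c • Y, ⟨c⁻¹ * g * c, ⟨⟨M24.mul_mem (M24.mul_mem (M24.inv_mem hc) hg) hc,
      MulAction.mem_stabilizer_iff.2 (by rw [mul_smul, mul_smul, e1, inv_smul_smul])⟩,
      MulAction.mem_stabilizer_iff.2 (by rw [mul_smul, mul_smul, e2, inv_smul_smul])⟩,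
      by rw [mul_smul, mul_smul]⟩, smul_inv_smul c _⟩
  · rintro ⟨_, ⟨g, hg, rfl⟩, rfl⟩
    refine ⟨⟨⟨c * g * c⁻¹, conj_mem hc hg.1.1⟩, ?_, ?_⟩, ?_⟩
    · exact conj_fixes (smul_eq_self hg.1)
    · exact conj_fixes hg.2
    · show (c * g * c⁻¹) • c • Y = c • g • Y
      rw [mul_smul, mul_smul, inv_smul_smul]


/-- A quartet stabiliser has five orbits on the quartets of its dodecad, of sizes 1, 12, 27, 72, 108. -/
theorem result (d : Finset Cfsg.GolayPt) (hd : d ∈ Cfsg.dodecads) (Q : Finset (Finset Cfsg.GolayPt)) (hQ : Q ∈ Cfsg.quartets d) : ∃ X₁ ∈ Cfsg.quartets d, ∃ X₂ ∈ Cfsg.quartets d, ∃ X₃ ∈ Cfsg.quartets d, ∃ X₄ ∈ Cfsg.quartets d, (MulAction.orbit ↥(MulAction.stabilizer Cfsg.M24 d ⊓ MulAction.stabilizer Cfsg.M24 Q) X₁).ncard = 12 ∧ (MulAction.orbit ↥(MulAction.stabilizer Cfsg.M24 d ⊓ MulAction.stabilizer Cfsg.M24 Q) X₂).ncard = 27 ∧ (MulAction.orbit ↥(MulAction.stabilizer Cfsg.M24 d ⊓ MulAction.stabilizer Cfsg.M24 Q) X₃).ncard = 72 ∧ (MulAction.orbit ↥(MulAction.stabilizer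 Cfsg.M24 d ⊓ MulAction.stabilizer Cfsg.M24 Q) X₄).ncard = 108 ∧ Cfsg.quartets d = {Q} ∪ MulAction.orbit ↥(MulAction.stabilizer Cfsg.M24 d ⊓ MulAction.stabilizer Cfsg.M24 Q) X₁ ∪ MulAction.orbit ↥(MulAction.stabilizer Cfsg.M24 d ⊓ MulAction.stabilizer Cfsg.M24 Q) X₂ ∪ MulAction.orbit ↥(MulAction.stabilizer Cfsg.M24 d ⊓ MulAction.stabilizer Cfsg.M24 Q) X₃ ∪ MulAction.orbit ↥(MulAction.stabilizer Cfsg.M24 d ⊓ MulAction.stabilizer Cfsg.M24 Q) X₄ := by
  obtain ⟨c, hc, rfl, rfl⟩ := exists_conj hd hQ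
  have hv : ∀ g ∈ stabM D' ⊓ MulAction.stabilizer _ Q', ∀ x ∈ quartets D',
      famInv Q' (g • x) = famInv Q' x := fun g hg x _ => famInv_invariant hg.2 x
  have hmemT : ∀ x : Finset (Finset GolayPt), c • x ∈ quartets (c • D') ↔ x ∈ quartets D' :=
    fun x => ⟨fun h => by simpa using MathieuIso.smul_mem_quartets (M24.inv_mem hc) h,
      MathieuIso.smul_mem_quartets hc⟩
  have hd' : ∀ (i : ℕ) (hi : i < (quartQuartReps.map famOf).length) (hi' : i < 5),
      c • (quartQuartReps.map famOf)[i]'hi ∈ quartets (c • D') ∧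
      MulAction.orbit ↥(MulAction.stabilizer M24 (c • D') ⊓ MulAction.stabilizer M24 (c • Q'))
        (c • (quartQuartReps.map famOf)[i]'hi) ⊆ quartets (c • D') ∧
      (MulAction.orbit ↥(MulAction.stabilizer M24 (c • D') ⊓ MulAction.stabilizer M24 (c • Q'))
        (c • (quartQuartReps.map famOf)[i]'hi)).ncard = [1, 12, 27, 72, 108].getD i 0 := by
    intro i hi hi'
    have hm := quart_setup.mem _ (List.getElem_mem hi)
    refine ⟨(hmemT _).2 hm, ?_, ?_⟩
    · rw [orbit_eq c hc]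
      rintro _ ⟨_, ⟨g, hg, rfl⟩, rfl⟩
      exact (hmemT _).2 (quart_setup.inv g hg _ hm)
    · obtain ⟨e1, e2⟩ := level_eq_orbit _ quart_setup hv quart_sep hi
      rw [orbit_eq c hc, Set.ncard_image_of_injective _ (MulAction.injective c), ← e1, e2,
        certCount_of_map quartQuart_count hi']
  have hl : (quartQuartReps.map famOf).length = 5 := by decide +kernel
  obtain ⟨m1, s1, c1⟩ := hd' 1 (by omega) (by omega)
  obtain ⟨m2, s2, c2⟩ := hd' 2 (by omega) (by omega)
  obtain ⟨m3, s3, c3⟩ := hd' 3 (by omega) (by omega)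
  obtain ⟨m4, s4, c4⟩ := hd' 4 (by omega) (by omega)
  refine ⟨_, m1, _, m2, _, m3, _, m4, c1.trans rfl, c2.trans rfl, c3.trans rfl, c4.trans rfl,
    Set.ext fun y => ⟨?_, ?_⟩⟩
  · intro hy
    obtain ⟨i, hi, g, hg, e⟩ := exists_rep quart_setup
      ((hmemT (c⁻¹ • y)).1 (by rw [smul_inv_smul]; exact hy))
    have hm : y ∈ MulAction.orbit
        ↥(MulAction.stabilizer M24 (c • D') ⊓ MulAction.stabilizer M24 (c • Q'))
        (c • (quartQuartReps.map famOf)[i]) := by
      rw [orbit_eq c hc]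
      exact ⟨c⁻¹ • y, ⟨g, hg, e⟩, smul_inv_smul c y⟩
    have h3 : i = 0 ∨ i = 1 ∨ i = 2 ∨ i = 3 ∨ i = 4 := by omega
    rcases h3 with rfl | rfl | rfl | rfl | rfl
    · refine Or.inl (Or.inl (Or.inl (Or.inl ?_)))
      rw [Set.mem_singleton_iff, ← smul_inv_smul c y, ← e,
        show (quartQuartReps.map famOf)[0]'hi = Q' from rfl, show g • Q' = Q' from hg.2]
    · exact Or.inl (Or.inl (Or.inl (Or.inr hm)))
    · exact Or.inl (Or.inl (Or.inr hm))
    · exact Or.inl (Or.inr hm)
    · exact Or.inr hm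
  · rintro ((((hy | hm) | hm) | hm) | hm)
    · rw [Set.mem_singleton_iff] at hy; subst hy; exact hQ
    exacts [s1 hm, s2 hm, s3 hm, s4 hm]

end Cfsg.Agent.S1599
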