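import Cfsg.Statements.S1596
import Cfsg.Agent.Eq.Def_SporadicCombinatorics
import Cfsg.Agent.S1599

set_option autoImplicit false
open scoped Pointwise symmDiff
open Cfsg

open CfsgLib CfsgLib.Golay CfsgLib.Mathieu

namespace Cfsg.Agent.S1596

open CfsgLib.MathieuIso

theorem mask_d0 : Spor.squareDodecad = ofMask maskD0 := Mathieu.squareDodecad_eq

/-- The partners of the standard triple. -/
theorem partner_mem {u : Finset GolayPt} (hdisj : Disjoint (ofMask 7) u)
    (h : ofMask 7 ∪ u ∈ hexadsOn (ofMask maskD0)) : toMask u ∈ partnersQ := by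
  have hall : allSpan (fun w => !((pop w == 8) && (pop (w &&& maskD0) == 6) &&
      (w &&& maskD0 &&& 7 == 7)) || partnersQ.contains ((w &&& maskD0) ^^^ 7)) basisMasks 0 = true := by
    decide +kernel
  obtain ⟨h6, o, ho, hod⟩ := h
  rw [mem_octads_iff_mask] at ho
  have hm : toMask (ofMask 7 ∪ u) = toMask o &&& maskD0 := by
    rw [← hod, toMask_inter, toMask_ofMask (by decide +kernel)]
  have hsym : (ofMask 7 ∪ u) ∆ ofMask 7 = u := by
    ext x
    rw [Finset.mem_symmDiff, Finset.mem_union]
    constructor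
    · rintro (⟨h1 | h1, h2⟩ | ⟨h1, h2⟩)
      · exact absurd h1 h2
      · exact h1
      · exact absurd (Or.inl h1) h2
    · exact fun h1 => Or.inl ⟨Or.inr h1, fun h2 => Finset.disjoint_left.1 hdisj h2 h1⟩
  have := of_allSpan hall ho.1
  simp only [ho.2, beq_self_eq_true, Bool.true_and, Bool.or_eq_true, Bool.not_eq_true',
    Bool.and_eq_false_iff, beq_eq_false_iff_ne, List.contains_iff_mem] at this
  rcases this with (h | h) | h
  · exact absurd (by rw [← hm, ← card_eq_pop, h6]) h
  · refine absurd ?_ h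
    rw [← hm]
    have := (subset_iff_land (s := ofMask 7) (t := ofMask 7 ∪ u)).1 Finset.subset_union_left
    rw [toMask_ofMask (by decide +kernel : 7 < 2 ^ 24)] at this
    rw [Nat.land_comm]; exact this
  · rw [← hm, ← toMask_ofMask (by decide +kernel : 7 < 2 ^ 24), ← toMask_symmDiff] at h
    rwa [toMask_ofMask (by decide +kernel : 7 < 2 ^ 24), hsym] at h

theorem quartSet_mem {l : List ℕ} (hl : l ∈ quartsQ) : quartSet l ∈ quartets (ofMask maskD0) := by
  obtain ⟨g, hg, e⟩ := exists_map_stdQuartet hl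
  have hQ : stdQuartet ∈ quartets (ofMask maskD0) := by
    rw [← mask_d0, S1599.std_eq, S1599.stdQuartet_eq]
    exact S1599.famOf_mem_quartets (by decide +kernel)
  have h := MathieuIso.smul_mem_quartets hg.1 hQ
  rw [← mask_d0, show g • Spor.squareDodecad = Spor.squareDodecad from hg.2, mask_d0, e] at h
  exact h

theorem quarts_facts :
    (quartsQ.all fun l => (l.all fun m => decide (m < 16777216)) && l.contains 7 &&
      quartsQ.all fun l' => l.all fun a => a == 7 || !(l'.contains a) || l == l') = true ∧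
    (partnersQ.all fun a => a != 7 && quartsQ.any fun l => l.contains a) = true := by
  decide +kernel

theorem mem_quartSet {l : List ℕ} (hl : ∀ m ∈ l, m < 16777216) {u : Finset GolayPt} :
    u ∈ quartSet l ↔ toMask u ∈ l := by
  simp only [quartSet, List.mem_toFinset, List.mem_map]
  constructor
  · rintro ⟨m, hm, rfl⟩
    rwa [toMask_ofMask (by simpa using hl m hm)]
  · exact fun h => ⟨_, h, ofMask_toMask u⟩

/-- The standard case. -/
theorem base_unique {u : Finset GolayPt} (hdisj : Disjoint (ofMask 7) u)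
    (h : ofMask 7 ∪ u ∈ hexadsOn (ofMask maskD0)) :
    ∃! Q : Finset (Finset GolayPt), Q ∈ quartets (ofMask maskD0) ∧ ofMask 7 ∈ Q ∧ u ∈ Q := by
  obtain ⟨hall, hpart⟩ := quarts_facts
  simp only [List.all_eq_true, Bool.and_eq_true, decide_eq_true_eq, List.any_eq_true,
    List.contains_eq_mem, Bool.or_eq_true, beq_iff_eq, Bool.not_eq_true', decide_eq_false_iff_not,
    bne_iff_ne, ne_eq] at hall hpart
  obtain ⟨hne7, l, hl, hul⟩ := hpart _ (partner_mem hdisj h)
  obtain ⟨⟨hlt, h7⟩, huniq⟩ := hall l hl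
  have h7m : toMask (ofMask 7) = 7 := toMask_ofMask (by decide +kernel)
  refine ⟨quartSet l, ⟨quartSet_mem hl, (mem_quartSet hlt).2 (h7m.symm ▸ h7),
    (mem_quartSet hlt).2 hul⟩, fun Q' ⟨hQ', h7', hu'⟩ => ?_⟩
  obtain ⟨l', hl', rfl⟩ := quartets_std hQ' h7'
  have hul' := (mem_quartSet (hall l' hl').1.1).1 hu'
  rcases huniq l' hl' _ hul with (e | e) | e
  · exact absurd e hne7
  · exact absurd hul' e
  · rw [e]


/-- A quartet of a dodecad is determined by any two of its triples: two disjoint triples uniting to a hexad extend to exactly one quartet. -/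
theorem result (d : Finset Cfsg.GolayPt) (hd : d ∈ Cfsg.dodecads) (t u : Finset Cfsg.GolayPt) (ht : t.card = 3) (hu : u.card = 3) (htu : Disjoint t u) (hh : t ∪ u ∈ Cfsg.hexadsOn d) : ∃! Q : Finset (Finset Cfsg.GolayPt), Q ∈ Cfsg.quartets d ∧ t ∈ Q ∧ u ∈ Q := by
  obtain ⟨c₀, hc₀, hc₀d⟩ := exists_map_squareDodecad hd
  obtain ⟨hcard, o, ho, hod⟩ := hh
  have htd : t ⊆ d := fun q hq =>
    (Finset.mem_inter.1 (hod.symm ▸ Finset.mem_union_left u hq : q ∈ o ∩ d)).2
  obtain ⟨s, hs, hsc⟩ := Finset.exists_subset_card_eq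
    (show 2 ≤ (d \ t).card by rw [Finset.card_sdiff_of_subset htd, hd.2, ht]; norm_num)
  obtain ⟨b, hb, hmap⟩ := exists_map_five_dodecad hd
    (xs := [0, 1, 2, 3, 4].map fun i => c₀ (i2p i)) (ys := t.toList ++ s.toList) rfl
    (by
      have : ([0, 1, 2, 3, 4].map i2p).Nodup := by decide +kernel
      simpa [List.map_map] using this.map c₀.injective)
    (by
      simp only [List.mem_map, forall_exists_index, and_imp, forall_apply_eq_imp_iff₂]
      intro i hi
      rw [← hc₀d, ← Equiv.Perm.smul_def, Finset.smul_mem_smul_finset_iff, mem_squareDodecad]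
      revert i
      decide +kernel)
    (by simp [ht, hsc])
    (List.nodup_append.2 ⟨t.nodup_toList, s.nodup_toList, fun x hx y hy e => by
      rw [Finset.mem_toList] at hx hy
      exact (Finset.mem_sdiff.1 (hs hy)).2 (e ▸ hx)⟩)
    (by
      intro x hx
      rcases List.mem_append.1 hx with hx | hx <;> rw [Finset.mem_toList] at hx
      exacts [htd hx, (Finset.mem_sdiff.1 (hs hx)).1])
  set k := b * c₀ with hk
  have htmap : k • ofMask 7 = t := by
    have h := congrArg (List.take 3) hmap
    rw [List.take_left' (show t.toList.length = 3 by simp [ht])] at h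
    ext x
    rw [← Finset.mem_toList (s := t), ← h,
      show ofMask 7 = {i2p 0, i2p 1, i2p 2} by decide +kernel]
    simp only [hk, Finset.smul_finset_insert, Finset.smul_finset_singleton, Equiv.Perm.smul_def,
      Equiv.Perm.mul_apply]
    simp
  have hkM : k ∈ M24 := M24.mul_mem hb.1 hc₀
  have hkd : k • ofMask maskD0 = d := by rw [← mask_d0, hk, mul_smul, hc₀d]; exact hb.2
  obtain ⟨u', rfl⟩ : ∃ u', k • u' = u := ⟨k⁻¹ • u, smul_inv_smul k u⟩
  subst htmap hkd
  have hdisj : Disjoint (ofMask 7) u' := Finset.disjoint_left.2 fun x hx hx' =>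
    Finset.disjoint_left.1 htu (Finset.smul_mem_smul_finset hx) (Finset.smul_mem_smul_finset hx')
  have hh' : ofMask 7 ∪ u' ∈ hexadsOn (ofMask maskD0) := by
    refine ⟨by rw [← Finset.card_smul_finset k, Finset.smul_finset_union]; exact hcard,
      k⁻¹ • o, smul_mem_octads (M24.inv_mem hkM) ho, ?_⟩
    rw [← inv_smul_smul k (ofMask maskD0), ← Finset.smul_finset_inter, hod,
      Finset.smul_finset_union, inv_smul_smul, inv_smul_smul]
  obtain ⟨Q, ⟨hQ, h1, h2⟩, huniq⟩ := base_unique hdisj hh'
  refine ⟨k • Q, ⟨MathieuIso.smul_mem_quartets hkM hQ, Finset.smul_mem_smul_finset h1,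
    Finset.smul_mem_smul_finset h2⟩, fun Q' ⟨hQ', h1', h2'⟩ => ?_⟩
  have h := huniq (k⁻¹ • Q') ⟨by
    have := MathieuIso.smul_mem_quartets (M24.inv_mem hkM) hQ'
    rwa [inv_smul_smul] at this,
    by rw [← Finset.smul_mem_smul_finset_iff k, smul_inv_smul]; exact h1',
    by rw [← Finset.smul_mem_smul_finset_iff k, smul_inv_smul]; exact h2'⟩
  rw [← h, smul_inv_smul]

end Cfsg.Agent.S1596
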