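import Cfsg.Statements.S1598
import Cfsg.Agent.MathieuIso.Quartet
-- import your own Cfsg.Agent.* helpers here

set_option autoImplicit false
open scoped Pointwise
open Cfsg

namespace Cfsg.Agent.S1598

/-- A quartet stabiliser inside the dodecad stabiliser has order 432, a normal subgroup of order 9 with quotient GL(2, 3), and is transitive on the dodecad. -/
theorem result (d : Finset Cfsg.GolayPt) (hd : d ∈ Cfsg.dodecads) (Q : Finset (Finset Cfsg.GolayPt)) (hQ : Q ∈ Cfsg.quartets d) : Nat.card ↥(MulAction.stabilizer Cfsg.M24 d ⊓ MulAction.stabilizer Cfsg.M24 Q) = 432 ∧ (∃ (N : Subgroup ↥(MulAction.stabilizer Cfsg.M24 d ⊓ MulAction.stabilizer Cfsg.M24 Q)) (_ : N.Normal), Nat.card N = 9 ∧ Nonempty (↥(MulAction.stabilizer Cfsg.M24 d ⊓ MulAction.stabilizer Cfsg.M24 Q) ⧸ N ≃* GL (Fin 2) (ZMod 3))) ∧ ∀ p ∈ d, ∀ q ∈ d, ∃ g ∈ (MulAction.stabilizer Cfsg.M24 d ⊓ MulAction.stabilizer Cfsg.M24 Q), ((g : ↥Cfsg.M24) :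 Equiv.Perm Cfsg.GolayPt) p = q := by
  obtain ⟨⟨e⟩, htrans⟩ := CfsgLib.MathieuIso.quartet_stabilizer hd hQ
  obtain ⟨hcard, ⟨N, hN, hN9, ⟨f⟩⟩, -⟩ := CfsgLib.MathieuIso.quartStab_structure
  refine ⟨(Nat.card_congr e.toEquiv).trans hcard,
    ⟨N.comap e.toMonoidHom, Subgroup.Normal.comap hN _, ?_, ⟨?_⟩⟩, htrans⟩
  · refine (Nat.card_congr ?_).trans hN9
    exact ⟨fun x => ⟨e x.1, x.2⟩, fun y => ⟨e.symm y.1, by simp⟩,
      fun x => Subtype.ext (e.symm_apply_apply _), fun y => Subtype.ext (e.apply_symm_apply _)⟩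
  · haveI := hN
    refine (QuotientGroup.congr _ N e ?_).trans f
    exact Subgroup.map_comap_eq_self_of_surjective e.surjective N

end Cfsg.Agent.S1598
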