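import Cfsg.Statements.S1604
import Cfsg.Agent.Eq.Def_SporadicCombinatorics
import Cfsg.Agent.M24Orbits.Transitive

set_option autoImplicit false
open scoped Pointwise
open Cfsg

open CfsgLib.Golay CfsgLib.Mathieu CfsgLib.M24Orbits CfsgLib.M24Orbits.Data

namespace Cfsg.Agent.S1604

/-- A hexad stabiliser in the two-point stabiliser has orbits of sizes 1, 16, 60 on the 77 hexads: the 16 hexads disjoint from it and the 60 meeting it in two points. -/
theorem result (p q : Cfsg.GolayPt) (hpq : p ≠ q) (o o' o'' : Finset Cfsg.GolayPt) (ho : o ∈ Cfsg.octads) (ho' : o' ∈ Cfsg.octads) (ho'' : o'' ∈ Cfsg.octads) (hp : p ∈ o ∧ p ∈ o' ∧ p ∈ o'') (hq : q ∈ o ∧ q ∈ o' ∧ q ∈ o'') (h : (o ∩ o').card = (o ∩ o'').card) : {x : Finset Cfsg.GolayPt | x ∈ Cfsg.octads ∧ p ∈ x ∧ q ∈ x ∧ (o ∩ x).card = 2}.ncard = 16 ∧ {x : Finset Cfsg.GolayPt | x ∈ Cfsg.octads ∧ p ∈ x ∧ q ∈ x ∧ (o ∩ x).card = 4}.ncard = 60 ∧ ∃ g : Equiv.Perm Cfsg.GolayPt, g ∈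 Cfsg.M24 ∧ g p = p ∧ g q = q ∧ g • o = o ∧ g • o' = o'' := by
  obtain ⟨k, hk, eo, ep, eq⟩ := exists_map_octad_two hpq ho hp.1 hq.1
  have hfix : ∀ g ∈ stabM O₀ ⊓ MulAction.stabilizer _ P₀ ⊓ MulAction.stabilizer _ Q₀,
      g • O₀ = O₀ := fun g hg => smul_eq_self hg.1.1
  have hcount : ∀ j, {x : Finset GolayPt | x ∈ octads ∧ p ∈ x ∧ q ∈ x ∧ (o ∩ x).card = j}.ncard =
      pqOctCert.flatten.countP
        (fun c => pop (5279 &&& (pqOctReps.getD (eRep c) []).headI) == j) := by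
    intro j
    rw [← ncard_inter_eq pqOct_setup 5279 j hfix]
    refine ncard_translate k fun x => ?_
    rw [octads_translate hk, mem_translate ep, mem_translate eq, inter_translate eo]
    simp only [Set.mem_setOf_eq, and_assoc]
  refine ⟨(hcount 2).trans (by decide +kernel), (hcount 4).trans (by decide +kernel), ?_⟩
  obtain ⟨g, hg, hgo⟩ := exists_map_level (fun s : Finset GolayPt => (O₀ ∩ s).card) pqOct_setup
    (fun g hg x _ => inter_invariant (hfix g hg) x)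
    (by rw [map_inter_card]; decide +kernel) k
    (x := o') (y := o'')
    ⟨smul_mem_octads (M24.inv_mem hk) ho', (mem_inv_translate ep _).2 hp.2.1,
      (mem_inv_translate eq _).2 hq.2.1⟩
    ⟨smul_mem_octads (M24.inv_mem hk) ho'', (mem_inv_translate ep _).2 hp.2.2,
      (mem_inv_translate eq _).2 hq.2.2⟩
    (by rw [inter_inv_translate eo, inter_inv_translate eo]; exact h)
  exact ⟨k * g * k⁻¹, conj_mem hk hg.1.1.1,
    by rw [← Equiv.Perm.smul_def, ← ep]; exact conj_fixes hg.1.2,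
    by rw [← Equiv.Perm.smul_def, ← eq]; exact conj_fixes hg.2,
    eo ▸ conj_fixes (hfix g hg), hgo⟩

end Cfsg.Agent.S1604
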