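import Cfsg.Statements.S1605
import Cfsg.Agent.Eq.Def_SporadicCombinatorics
import Cfsg.Agent.M24Orbits.Transitive

set_option autoImplicit false
open scoped Pointwise
open Cfsg

open CfsgLib.Golay CfsgLib.Mathieu CfsgLib.M24Orbits CfsgLib.M24Orbits.Data

namespace Cfsg.Agent.S1605

/-- The two-point stabiliser acts on the 176 octads through the first point avoiding the second with rank 3 and subdegrees 1, 70, 105 (intersections 8, 2, 4). -/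
theorem result (p q : Cfsg.GolayPt) (hpq : p ≠ q) : {x : Finset Cfsg.GolayPt | (x ∈ Cfsg.octads ∧ p ∈ x ∧ q ∉ x)}.ncard = 176 ∧ (∀ o o' : Finset Cfsg.GolayPt, (o ∈ Cfsg.octads ∧ p ∈ o ∧ q ∉ o) → (o' ∈ Cfsg.octads ∧ p ∈ o' ∧ q ∉ o') → ∃ g : Equiv.Perm Cfsg.GolayPt, g ∈ Cfsg.M24 ∧ g p = p ∧ g q = q ∧ g • o = o') ∧ ∀ o : Finset Cfsg.GolayPt, (o ∈ Cfsg.octads ∧ p ∈ o ∧ q ∉ o) → {x : Finset Cfsg.GolayPt | (x ∈ Cfsg.octads ∧ p ∈ x ∧ q ∉ x) ∧ (o ∩ x).card = 2}.ncard = 70 ∧ {x : Finset Cfsg.GolayPt | (x ∈ Cfsg.octads ∧ p ∈ x ∧ q ∉ x) ∧ (o ∩ x).card = 4}.ncard = 105 ∧ ∀ o' o'' : Finset Cfsg.GolayPt, (o' ∈ Cfsg.octads ∧ p ∈ o' ∧ q ∉ o') → (o'' ∈ Cfsg.octads ∧ p ∈ o'' ∧ q ∉ o'') → (o ∩ o').card = (o ∩ o'').card → ∃ g : Equiv.Perm Cfsg.GolayPt, g ∈ Cfsg.M24 ∧ g p = p ∧ g q = q ∧ g • o = o ∧ g • o' = o'' := by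
  obtain ⟨k₀, hk₀, ep0, eq0⟩ := exists_map_two (show P₀ ≠ X₀ by decide) hpq
  have hmem : ∀ o : Finset GolayPt, o ∈ octads ∧ p ∈ o ∧ q ∉ o →
      k₀⁻¹ • o ∈ {o | o ∈ octads ∧ P₀ ∈ o ∧ X₀ ∉ o} := fun o ho =>
    ⟨smul_mem_octads (M24.inv_mem hk₀) ho.1, (mem_inv_translate ep0 _).2 ho.2.1,
      fun h => ho.2.2 ((mem_inv_translate eq0 _).1 h)⟩
  have hO : O₀ ∈ {o | o ∈ octads ∧ P₀ ∈ o ∧ X₀ ∉ o} := ⟨O₀_mem, by decide +kernel⟩
  refine ⟨?_, fun o o' ho ho' => ?_, fun o ho => ?_⟩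
  · rw [← ncard_octads_in_out (show P₀ ≠ X₀ by decide)]
    refine ncard_translate k₀ fun x => ?_
    rw [octads_translate hk₀, mem_translate ep0, mem_translate eq0]
  · obtain ⟨g, hg, hgo⟩ := transport_single pxAll_setup (by decide +kernel) (hmem o ho) (hmem o' ho')
    refine ⟨k₀ * g * k₀⁻¹, conj_mem hk₀ hg.1.1, ?_, ?_, ?_⟩
    · rw [← Equiv.Perm.smul_def, ← ep0]; exact conj_fixes hg.1.2
    · rw [← Equiv.Perm.smul_def, ← eq0]; exact conj_fixes hg.2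
    · rw [mul_smul, mul_smul, hgo, smul_inv_smul]
  obtain ⟨g₀, hg₀, hgO⟩ := transport_single pxAll_setup (by decide +kernel) hO (hmem o ho)
  have hk : k₀ * g₀ ∈ M24 := M24.mul_mem hk₀ hg₀.1.1
  have eo : (k₀ * g₀) • O₀ = o := by rw [mul_smul, hgO, smul_inv_smul]
  have ep : (k₀ * g₀) • P₀ = p := by
    rw [mul_smul, show g₀ • P₀ = P₀ from hg₀.1.2, Equiv.Perm.smul_def, ep0]
  have eq : (k₀ * g₀) • X₀ = q := by
    rw [mul_smul, show g₀ • X₀ = X₀ from hg₀.2, Equiv.Perm.smul_def, eq0]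
  have hfix : ∀ g ∈ stabM O₀ ⊓ MulAction.stabilizer _ P₀ ⊓ MulAction.stabilizer _ X₀,
      g • O₀ = O₀ := fun g hg => smul_eq_self hg.1.1
  have hcount : ∀ j, {x : Finset GolayPt | (x ∈ octads ∧ p ∈ x ∧ q ∉ x) ∧ (o ∩ x).card = j}.ncard =
      pxOctCert.flatten.countP
        (fun c => pop (5279 &&& (pxOctReps.getD (eRep c) []).headI) == j) := by
    intro j
    rw [← ncard_inter_eq pxOct_setup 5279 j hfix]
    refine ncard_translate (k₀ * g₀) fun x => ?_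
    rw [octads_translate hk, mem_translate ep, mem_translate eq, inter_translate eo]
    simp only [Set.mem_setOf_eq, and_assoc]
  refine ⟨(hcount 2).trans (by decide +kernel), (hcount 4).trans (by decide +kernel),
    fun o' o'' ho' ho'' h => ?_⟩
  obtain ⟨g, hg, hgo⟩ := exists_map_level (fun s : Finset GolayPt => (O₀ ∩ s).card) pxOct_setup
    (fun g hg x _ => inter_invariant (hfix g hg) x)
    (by rw [map_inter_card]; decide +kernel) (k₀ * g₀)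
    (x := o') (y := o'')
    ⟨smul_mem_octads (M24.inv_mem hk) ho'.1, (mem_inv_translate ep _).2 ho'.2.1,
      fun h' => ho'.2.2 ((mem_inv_translate eq _).1 h')⟩
    ⟨smul_mem_octads (M24.inv_mem hk) ho''.1, (mem_inv_translate ep _).2 ho''.2.1,
      fun h' => ho''.2.2 ((mem_inv_translate eq _).1 h')⟩
    (by rw [inter_inv_translate eo, inter_inv_translate eo]; exact h)
  exact ⟨k₀ * g₀ * g * (k₀ * g₀)⁻¹, conj_mem hk hg.1.1.1,
    by rw [← Equiv.Perm.smul_def, ← ep]; exact conj_fixes hg.1.2,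
    by rw [← Equiv.Perm.smul_def, ← eq]; exact conj_fixes hg.2,
    eo ▸ conj_fixes (hfix g hg), hgo⟩

end Cfsg.Agent.S1605
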