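import Cfsg.Statements.S1607
import Cfsg.Agent.Eq.Def_SporadicCombinatorics
import Cfsg.Agent.M24Orbits.Transitive

set_option autoImplicit false
open scoped Pointwise
open Cfsg

open CfsgLib.Golay CfsgLib.Mathieu CfsgLib.M24Orbits CfsgLib.M24Orbits.Data

namespace Cfsg.Agent.S1607

/-- The point stabiliser acts on the 253 heptads of its S(4, 7, 23) with rank 3 and subdegrees 1, 112, 140 (intersections 8, 2, 4). -/
theorem result (x : Cfsg.GolayPt) (o : Finset Cfsg.GolayPt) (ho : o ∈ Cfsg.octads) (hx : x ∈ o) : {o' : Finset Cfsg.GolayPt | o' ∈ Cfsg.octads ∧ x ∈ o' ∧ (o ∩ o').card = 2}.ncard = 112 ∧ {o' : Finset Cfsg.GolayPt | o' ∈ Cfsg.octads ∧ x ∈ o' ∧ (o ∩ o').card = 4}.ncard = 140 ∧ ∀ o' o'' : Finset Cfsg.GolayPt, o' ∈ Cfsg.octads → o'' ∈ Cfsg.octads → x ∈ o' → x ∈ o'' → (o ∩ o').card = (o ∩ o'').card → ∃ g : Equiv.Perm Cfsg.GolayPt, g ∈ Cfsg.M24 ∧ g x = x ∧ g • o = o ∧ g • o' = o'' := by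
  obtain ⟨k, hk, eo, ex⟩ := exists_map_octad_point ho hx
  have hfix : ∀ g ∈ stabM O₀ ⊓ MulAction.stabilizer _ P₀, g • O₀ = O₀ :=
    fun g hg => smul_eq_self hg.1
  have hcount : ∀ j, {o' : Finset GolayPt | o' ∈ octads ∧ x ∈ o' ∧ (o ∩ o').card = j}.ncard =
      xoInCert.flatten.countP
        (fun c => pop (5279 &&& (xoInReps.getD (eRep c) []).headI) == j) := by
    intro j
    rw [← ncard_inter_eq xoIn_setup 5279 j hfix]
    refine ncard_translate k fun y => ?_
    rw [octads_translate hk, mem_translate ex, inter_translate eo]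
    simp only [Set.mem_setOf_eq, and_assoc]
  refine ⟨(hcount 2).trans (by decide +kernel), (hcount 4).trans (by decide +kernel),
    fun o' o'' ho' ho'' hx' hx'' h => ?_⟩
  obtain ⟨g, hg, hgo⟩ := exists_map_level (fun s : Finset GolayPt => (O₀ ∩ s).card) xoIn_setup
    (fun g hg x _ => inter_invariant (hfix g hg) x)
    (by rw [map_inter_card]; decide +kernel) k
    (x := o') (y := o'')
    ⟨smul_mem_octads (M24.inv_mem hk) ho', (mem_inv_translate ex _).2 hx'⟩
    ⟨smul_mem_octads (M24.inv_mem hk) ho'', (mem_inv_translate ex _).2 hx''⟩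
    (by rw [inter_inv_translate eo, inter_inv_translate eo]; exact h)
  exact ⟨k * g * k⁻¹, conj_mem hk hg.1.1,
    by rw [← Equiv.Perm.smul_def, ← ex]; exact conj_fixes hg.2,
    eo ▸ conj_fixes (hfix g hg), hgo⟩

end Cfsg.Agent.S1607
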