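import Cfsg.Statements.S1609
import Cfsg.Agent.Eq.Def_SporadicCombinatorics
import Cfsg.Agent.M24Orbits.IndexSub23

set_option autoImplicit false
open scoped Pointwise
open Cfsg

open CfsgLib.Golay CfsgLib.Mathieu CfsgLib.M24Orbits

namespace Cfsg.Agent.S1609

/-- Subgroups of index 253 in the Mathieu group of degree 23 are exactly the duad stabilisers and the heptad stabilisers. -/
theorem result (x : Cfsg.GolayPt) (H : Subgroup ↥(MulAction.stabilizer Cfsg.M24 x)) (hH : H.index = 253) : (∃ s : Finset Cfsg.GolayPt, s.card = 2 ∧ x ∉ s ∧ H = (MulAction.stabilizer Cfsg.M24 s).subgroupOf (MulAction.stabilizer Cfsg.M24 x)) ∨ ∃ o ∈ Cfsg.octads, x ∈ o ∧ H = (MulAction.stabilizer Cfsg.M24 o).subgroupOf (MulAction.stabilizer Cfsg.M24 x) := by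
  have hcard : Nat.card (H.map (MulAction.stabilizer M24 x).subtype) = 40320 := by
    rw [Subgroup.card_map_of_injective (Subgroup.subtype_injective _)]
    have h := Subgroup.card_mul_index H
    rw [hH] at h
    have hM : Nat.card (MulAction.stabilizer M24 x) = 10200960 := by
      rw [← CfsgLib.Mathieu.card_fixPt x]
      exact Nat.card_congr
        { toFun := fun g => ⟨g.1.1, g.1.2, g.2⟩
          invFun := fun g => ⟨⟨g.1, g.2.1⟩, g.2.2⟩
          left_inv := fun _ => rfl
          right_inv := fun _ => rfl }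
    omega
  set f := M24.subtype.comp (MulAction.stabilizer M24 x).subtype with hf
  have hle : H.map f ≤ fixPt M24 x := by
    rintro _ ⟨g, -, rfl⟩
    exact ⟨g.1.2, g.2⟩
  have hfinj : Function.Injective f :=
    M24.subtype_injective.comp (Subgroup.subtype_injective _)
  have hc : Nat.card (H.map f) = 40320 := by
    rw [Subgroup.card_map_of_injective hfinj,
      ← Subgroup.card_map_of_injective (MulAction.stabilizer M24 x).subtype_injective]
    exact hcard
  have key : ∀ {s : Finset GolayPt}, H.map f = fixPt (stabM s) x →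
      H = (MulAction.stabilizer M24 s).subgroupOf (MulAction.stabilizer M24 x) := by
    intro s e
    ext g
    rw [Subgroup.mem_subgroupOf, MulAction.mem_stabilizer_iff, ← Subgroup.mem_map_iff_mem hfinj, e]
    exact ⟨fun hg => hg.1.2, fun hg => ⟨⟨g.1.2, hg⟩, g.2⟩⟩
  rcases classify_253 hle hc with ⟨s, h1, h2, e⟩ | ⟨o, h1, h2, e⟩
  · exact Or.inl ⟨s, h1, h2, key e⟩
  · exact Or.inr ⟨o, h1, h2, key e⟩

end Cfsg.Agent.S1609
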