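import Cfsg.Statements.S1610
import Cfsg.Agent.Eq.Def_Sporadic_a
import Cfsg.Agent.Eq.Def_SporadicCombinatorics

set_option autoImplicit false
open Cfsg

namespace Cfsg.Agent.S1610

/-- The field with four elements on indices: 0, 1, ω, ω² ↦ 0, 1, 2, 3. -/
def qAdd (a b : Fin 4) : Fin 4 :=
  ![![0, 1, 2, 3], ![1, 0, 3, 2], ![2, 3, 0, 1], ![3, 2, 1, 0]] a b

def qMul (a b : Fin 4) : Fin 4 :=
  ![![0, 0, 0, 0], ![0, 1, 2, 3], ![0, 2, 3, 1], ![0, 3, 1, 2]] a b

def qWord (t : Fin 4 × Fin 4 × Fin 4) : Fin 6 → Fin 4 := fun i =>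
  qAdd (qAdd (qMul t.1 (![2, 3, 3, 2, 3, 2] i)) (qMul t.2.1 (![3, 2, 2, 3, 3, 2] i)))
    (qMul t.2.2 (![3, 2, 3, 2, 2, 3] i))

def qWt (t : Fin 4 × Fin 4 × Fin 4) : ℕ :=
  (Finset.univ.filter fun i => qWord t i ≠ 0).card

theorem qWord_eq_zero_imp : ∀ t, (∀ i, qWord t i = 0) → t = (0, 0, 0) := by decide

theorem qWord_inj_aux : ∀ t u, (∀ i, qWord t i = qWord u i) → t = u := by decide +kernel

theorem qWt_cases : ∀ t, t = (0, 0, 0) ∨ qWt t = 4 ∨ qWt t = 6 := by decide +kernel

theorem qWt_four : (Finset.univ.filter fun t => qWt t = 4).card = 45 := by decide +kernel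

theorem qWt_six : (Finset.univ.filter fun t => qWt t = 6).card = 18 := by decide +kernel

theorem result (F : Type*) [Field F] [Fintype F] [DecidableEq F] (hF : Fintype.card F = 4) (ω : F) (hω : ω ^ 2 + ω + 1 = 0) : Nat.card ↥(Cfsg.hexacode F ω) = 64 ∧ (∀ x ∈ Cfsg.hexacode F ω, x ≠ 0 → (Finset.univ.filter fun i => x i ≠ 0).card = 4 ∨ (Finset.univ.filter fun i => x i ≠ 0).card = 6) ∧ {x : Fin 6 → F | x ∈ Cfsg.hexacode F ω ∧ (Finset.univ.filter fun i => x i ≠ 0).card = 4}.ncard = 45 ∧ {x : Fin 6 → F | x ∈ Cfsg.hexacode F ω ∧ (Finset.univ.filter fun i => x i ≠ 0).card = 6}.ncard = 18 := by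
  have h2 : (2 : F) = 0 := by
    have h4 : ((4 : ℕ) : F) = 0 := by rw [← hF]; exact Nat.cast_card_eq_zero F
    have : (2 : F) * 2 = 0 := by push_cast at h4; rw [← h4]; norm_num
    simpa using this
  have w0 : ω ≠ 0 := by intro h; rw [h] at hω; simp at hω
  have w1 : ω ≠ 1 := by
    intro h; rw [h] at hω
    apply one_ne_zero (α := F)
    linear_combination hω - h2
  let e : Fin 4 → F := ![0, 1, ω, ω ^ 2]
  have einj : Function.Injective e := by
    have a : ω ^ 2 ≠ 0 := pow_ne_zero 2 w0
    have b : ω ^ 2 ≠ 1 := by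
      intro h; apply w0; linear_combination hω - h - h2
    have c : ω ^ 2 ≠ ω := by
      intro h; apply one_ne_zero (α := F); linear_combination hω - h - ω * h2
    intro i j hij
    fin_cases i <;> fin_cases j <;>
      simp [e, w0, w1, a, b, c, w0.symm, w1.symm, a.symm, b.symm, c.symm] at hij ⊢
  have esurj : Function.Surjective e :=
    ((Fintype.bijective_iff_injective_and_card e).2 ⟨einj, by simp [hF]⟩).2
  have eadd : ∀ a b, e (qAdd a b) = e a + e b := by
    intro a b
    fin_cases a <;> fin_cases b <;>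
      simp [e, qAdd] <;> first
        | linear_combination hω
        | linear_combination -hω
        | linear_combination hω - h2
        | linear_combination -hω + h2
        | linear_combination hω - (1 + ω) * h2
        | linear_combination -hω + (1 + ω) * h2
        | linear_combination hω - ω * h2
        | linear_combination -hω + ω * h2
        | linear_combination hω - ω ^ 2 * h2
        | linear_combination -hω + ω ^ 2 * h2
        | linear_combination h2
        | linear_combination -h2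
        | linear_combination ω * h2
        | linear_combination -ω * h2
        | linear_combination ω ^ 2 * h2
        | linear_combination -ω ^ 2 * h2
        | ring
  have w3 : ω ^ 3 = 1 := by linear_combination (ω - 1) * hω
  have emul : ∀ a b, e (qMul a b) = e a * e b := by
    intro a b
    fin_cases a <;> fin_cases b <;>
      simp [e, qMul] <;> first
        | linear_combination w3
        | linear_combination -w3
        | linear_combination ω * w3
        | linear_combination -ω * w3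
        | ring
  let Φ : Fin 4 × Fin 4 × Fin 4 → (Fin 6 → F) := fun t => e ∘ qWord t
  have hΦ : ∀ t, Φ t = e t.1 • ![ω, ω ^ 2, ω ^ 2, ω, ω ^ 2, ω] +
      e t.2.1 • ![ω ^ 2, ω, ω, ω ^ 2, ω ^ 2, ω] + e t.2.2 • ![ω ^ 2, ω, ω ^ 2, ω, ω, ω ^ 2] := by
    intro t
    funext i
    simp only [Φ, Function.comp, qWord, eadd, emul, Pi.add_apply, Pi.smul_apply, smul_eq_mul]
    fin_cases i <;> simp [e]
  have hmem : ∀ x, x ∈ Cfsg.hexacode F ω ↔ ∃ t, Φ t = x := by
    intro x
    rw [hexacode, Submodule.mem_span_triple]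
    constructor
    · rintro ⟨a, b, c, rfl⟩
      obtain ⟨i, rfl⟩ := esurj a
      obtain ⟨j, rfl⟩ := esurj b
      obtain ⟨k, rfl⟩ := esurj c
      exact ⟨(i, j, k), hΦ _⟩
    · rintro ⟨t, rfl⟩
      exact ⟨_, _, _, (hΦ t).symm⟩
  have Φinj : Function.Injective Φ := fun t u h =>
    qWord_inj_aux t u fun i => einj (congrFun h i)
  have e0 : e 0 = 0 := rfl
  have hwt : ∀ t, (Finset.univ.filter fun i => Φ t i ≠ 0).card = qWt t := by
    intro t
    apply congrArg Finset.card
    refine Finset.filter_congr fun i _ => not_congr ?_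
    show e (qWord t i) = 0 ↔ _
    rw [← e0]
    exact einj.eq_iff
  have hcount : ∀ n, {x : Fin 6 → F | x ∈ Cfsg.hexacode F ω ∧
      (Finset.univ.filter fun i => x i ≠ 0).card = n}.ncard =
      (Finset.univ.filter fun t => qWt t = n).card := by
    intro n
    rw [← Finset.card_image_of_injective _ Φinj, ← Set.ncard_coe_finset]
    congr 1
    ext x
    simp only [Set.mem_setOf_eq, hmem, Finset.coe_image, Finset.coe_filter, Finset.mem_univ,
      true_and, Set.mem_image]
    constructor
    · rintro ⟨⟨t, rfl⟩, h⟩; exact ⟨t, (hwt t) ▸ h, rfl⟩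
    · rintro ⟨t, h, rfl⟩; exact ⟨⟨t, rfl⟩, (hwt t).trans h⟩
  refine ⟨?_, ?_, ?_, ?_⟩
  · have : Fintype.card (Fin 4 × Fin 4 × Fin 4) = 64 := by decide
    rw [← this, ← Nat.card_eq_fintype_card]
    refine (Nat.card_eq_of_bijective (fun t => ⟨Φ t, (hmem _).2 ⟨t, rfl⟩⟩) ⟨?_, ?_⟩).symm
    · exact fun t u h => Φinj (congrArg Subtype.val h)
    · rintro ⟨x, hx⟩
      obtain ⟨t, rfl⟩ := (hmem x).1 hx
      exact ⟨t, rfl⟩
  · intro x hx hx0
    obtain ⟨t, rfl⟩ := (hmem x).1 hx
    rcases qWt_cases t with rfl | h | h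
    · exact absurd (funext fun i => by
        show e (qWord (0, 0, 0) i) = 0
        have : qWord (0, 0, 0) i = 0 := by revert i; decide
        rw [this]; rfl) hx0
    · exact Or.inl ((hwt t).trans h)
    · exact Or.inr ((hwt t).trans h)
  · rw [hcount, qWt_four]
  · rw [hcount, qWt_six]

end Cfsg.Agent.S1610
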