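import Cfsg.Statements.S1611
import Cfsg.Agent.Eq.Def_SporadicCombinatorics
import Cfsg.Agent.Mathieu.HexacodeModel

set_option autoImplicit false
open Cfsg CfsgLib.Hexacode

namespace Cfsg.Agent.S1611

theorem vec6 (d : Fin 6 → Fin 3) : d = ![d 0, d 1, d 2, d 3, d 4, d 5] := by
  funext i; fin_cases i <;> rfl

theorem monomialMap_mul {F : Type*} [Field F] (σ τ : Equiv.Perm (Fin 6)) (c c' : Fin 6 → Fˣ)
    (x : Fin 6 → F) :
    monomialMap σ c (monomialMap τ c' x) = monomialMap (σ * τ) (fun i => c i * c' (σ.symm i)) x := by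
  funext i
  simp [monomialMap, mul_assoc, Equiv.Perm.mul_def]

theorem exists_cycle_form (σ : Equiv.Perm (Fin 6)) (h : σ.IsThreeCycle) :
    ∃ i j k : Fin 6, i ≠ j ∧ i ≠ k ∧ j ≠ k ∧ σ = Equiv.swap i k * Equiv.swap i j := by
  obtain ⟨i, hi⟩ : σ.support.Nonempty := Finset.card_pos.1 (by rw [h.card_support]; norm_num)
  have h3 : ∀ x, σ (σ (σ x)) = x := by
    intro x
    have : σ ^ 3 = 1 := by rw [← h.orderOf]; exact pow_orderOf_eq_one σ
    have := Equiv.Perm.congr_fun this x
    simpa [pow_succ] using this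
  rw [Equiv.Perm.mem_support] at hi
  have hij : i ≠ σ i := fun e => hi e.symm
  have hik : i ≠ σ (σ i) := by
    intro e; apply hi; have := h3 i; rwa [← e] at this
  have hjk : σ i ≠ σ (σ i) := fun e => hij (σ.injective e)
  refine ⟨i, σ i, σ (σ i), hij, hik, hjk, ?_⟩
  have hsupp : ({i, σ i, σ (σ i)} : Finset (Fin 6)) = σ.support := by
    apply Finset.eq_of_subset_of_card_le
    · intro x hx
      simp only [Finset.mem_insert, Finset.mem_singleton] at hx
      rw [Equiv.Perm.mem_support]
      rcases hx with rfl | rfl | rfl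
      · exact hi
      · exact hjk.symm
      · intro e; exact hik ((h3 i).symm.trans e)
    · simp [h.card_support, hij, hik, hjk]
  ext x : 1
  by_cases hx : x ∈ σ.support
  · rw [← hsupp] at hx
    simp only [Finset.mem_insert, Finset.mem_singleton] at hx
    rcases hx with rfl | rfl | rfl
    · simp [Equiv.swap_apply_of_ne_of_ne, hij.symm, hjk]
    · simp
    · simp [Equiv.swap_apply_of_ne_of_ne, hik.symm, hjk.symm, h3]
  · have hx' := hx
    rw [← hsupp] at hx'
    simp only [Finset.mem_insert, Finset.mem_singleton, not_or] at hx'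
    simp [Equiv.swap_apply_of_ne_of_ne, hx'.1, hx'.2.1, hx'.2.2, Equiv.Perm.notMem_support.1 hx]

theorem result (F : Type*) [Field F] [Fintype F] [DecidableEq F] (hF : Fintype.card F = 4) (ω : F) (hω : ω ^ 2 + ω + 1 = 0) : Nat.card {f : Equiv.Perm (Fin 6) × (Fin 6 → Fˣ) // (∀ x ∈ Cfsg.hexacode F ω, Cfsg.monomialMap f.1 f.2 x ∈ Cfsg.hexacode F ω)} = 1080 ∧ (∀ c : Fin 6 → Fˣ, (∀ x ∈ Cfsg.hexacode F ω, Cfsg.monomialMap 1 c x ∈ Cfsg.hexacode F ω) → ∀ i j, c i = c j) ∧ {σ : Equiv.Perm (Fin 6) | ∃ c : Fin 6 → Fˣ, (∀ x ∈ Cfsg.hexacode F ω, Cfsg.monomialMap σ c x ∈ Cfsg.hexacode F ω)} = (alternatingGroup (Fin 6) : Set (Equiv.Perm (Fin 6))) := by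
  obtain ⟨e, e0, eadd, emul, hspan, hmem⟩ := exists_model F hF ω hω
  set C := Cfsg.hexacode F ω with hC
  let P : Equiv.Perm (Fin 6) → (Fin 6 → Fˣ) → Prop :=
    fun σ c => ∀ x ∈ C, monomialMap σ c x ∈ C
  have hne : ∀ a : Fin 3, e a.succ ≠ 0 := fun a h =>
    Fin.succ_ne_zero a (e.injective (h.trans e0.symm))
  let u : Fin 3 → Fˣ := fun a => Units.mk0 _ (hne a)
  have ubij : Function.Bijective u := by
    constructor
    · intro a b hab
      exact Fin.succ_injective _ (e.injective (congrArg Units.val hab))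
    · intro v
      obtain ⟨a, ha⟩ : ∃ a : Fin 3, a.succ = e.symm v := Fin.exists_succ_eq.2 fun h =>
        v.ne_zero (by rw [← e0, ← h, Equiv.apply_symm_apply])
      exact ⟨a, Units.ext (by simp [u, ha])⟩
  have hgen : ∀ σ d k, monomialMap σ (u ∘ d) (e ∘ qGen k) =
      e ∘ (fun i => qMul (d i).succ (qGen k (σ.symm i))) := by
    intro σ d k; funext i; simp [monomialMap, u, emul]
  have hP : ∀ σ d, P σ (u ∘ d) ↔ qPres σ d = true := by
    intro σ d
    simp only [qPres, Bool.and_eq_true, ← hmem, ← hgen]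
    constructor
    · intro h
      have hg : ∀ k, e ∘ qGen k ∈ C := fun k => hspan ▸ Submodule.subset_span ⟨k, rfl⟩
      exact ⟨⟨h _ (hg 0), h _ (hg 1)⟩, h _ (hg 2)⟩
    · rintro ⟨⟨h0, h1⟩, h2⟩ x hx
      rw [hspan] at hx
      induction hx using Submodule.span_induction with
      | mem x hx =>
        obtain ⟨k, rfl⟩ := hx
        fin_cases k
        · exact h0
        · exact h1
        · exact h2
      | zero =>
        have : monomialMap σ (u ∘ d) (0 : Fin 6 → F) = 0 := by funext i; simp [monomialMap, Equiv.Perm.one_def]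
        rw [this]; exact C.zero_mem
      | add x y _ _ hx hy =>
        have : monomialMap σ (u ∘ d) (x + y) =
            monomialMap σ (u ∘ d) x + monomialMap σ (u ∘ d) y := by
          funext i; simp [monomialMap, mul_add]
        rw [this]; exact C.add_mem hx hy
      | smul a x _ hx =>
        have : monomialMap σ (u ∘ d) (a • x) = a • monomialMap σ (u ∘ d) x := by
          funext i; simp [monomialMap, mul_left_comm]
        rw [this]; exact C.smul_mem a hx
  have hlift : ∀ c : Fin 6 → Fˣ, ∃ d, u ∘ d = c := fun c => by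
    choose d hd using fun i => ubij.2 (c i)
    exact ⟨d, funext hd⟩
  have diag : ∀ c, P 1 c → ∀ i j, c i = c j := by
    intro c hc i j
    obtain ⟨d, rfl⟩ := hlift c
    rw [hP, vec6 d] at hc
    obtain ⟨h1, h2, h3, h4, h5⟩ := qPres_one _ _ _ _ _ _ hc
    have : ∀ i, d i = d 0 := by
      intro i; fin_cases i <;> first | rfl | assumption | exact (by assumption : d 0 = _).symm
    simp [this i, this j]
  let H : Equiv.Perm (Fin 6) → Prop := fun σ => ∃ c, P σ c
  have Hone : H 1 := ⟨fun _ => 1, fun x hx => by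
    have : monomialMap (1 : Equiv.Perm (Fin 6)) (fun _ => (1 : Fˣ)) x = x := by
      funext i; simp [monomialMap, Equiv.Perm.one_def]
    rwa [this]⟩
  have Hmul : ∀ σ τ, H σ → H τ → H (σ * τ) := by
    rintro σ τ ⟨c, hc⟩ ⟨c', hc'⟩
    exact ⟨fun i => c i * c' (σ.symm i), fun x hx => monomialMap_mul σ τ c c' x ▸ hc _ (hc' x hx)⟩
  have Hinv : ∀ σ, H σ → H σ⁻¹ := by
    intro σ h
    have hpow : ∀ n : ℕ, H (σ ^ n) := fun n => by
      induction n with
      | zero => simpa using Hone
      | succ n ih => rw [pow_succ]; exact Hmul _ _ ih h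
    have hpos : 0 < orderOf σ := orderOf_pos σ
    have : σ⁻¹ = σ ^ (orderOf σ - 1) := by
      rw [inv_eq_iff_mul_eq_one, ← pow_succ', Nat.sub_add_cancel hpos, pow_orderOf_eq_one]
    rw [this]; exact hpow _
  have Halt : ∀ σ ∈ alternatingGroup (Fin 6), H σ := by
    intro σ hσ
    rw [← Equiv.Perm.closure_three_cycles_eq_alternating] at hσ
    induction hσ using Subgroup.closure_induction with
    | mem x hx =>
      obtain ⟨i, j, k, h1, h2, h3, rfl⟩ := exists_cycle_form x hx
      exact ⟨_, (hP _ _).2 (qPres_threeCycle i j k h1 h2 h3)⟩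
    | one => exact Hone
    | mul x y _ _ hx hy => exact Hmul x y hx hy
    | inv x _ hx => exact Hinv x hx
  have Hswap : ¬ H (Equiv.swap 0 1) := by
    rintro ⟨c, hc⟩
    obtain ⟨d, rfl⟩ := hlift c
    rw [hP, vec6 d, qPres_swap] at hc
    exact Bool.false_ne_true hc
  have Hiff : ∀ σ, H σ ↔ σ ∈ alternatingGroup (Fin 6) := by
    refine fun σ => ⟨fun h => ?_, Halt σ⟩
    by_contra hn
    rw [Equiv.Perm.mem_alternatingGroup] at hn
    have hs : Equiv.Perm.sign σ = -1 := (Int.units_eq_one_or _).resolve_left hn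
    have : H (σ * Equiv.swap 0 1) := Halt _ <| by
      rw [Equiv.Perm.mem_alternatingGroup, map_mul, hs,
        Equiv.Perm.sign_swap (by decide : (0 : Fin 6) ≠ 1)]
      rfl
    apply Hswap
    have := Hmul _ _ (Hinv σ h) this
    rwa [inv_mul_cancel_left] at this
  refine ⟨?_, diag, Set.ext fun σ => Hiff σ⟩
  choose c hc using fun σ : alternatingGroup (Fin 6) => Halt σ σ.2
  have scal : ∀ a : Fˣ, ∀ σ d, P σ d → P σ (fun i => a * d i) := by
    intro a σ d hd x hx
    have : monomialMap σ (fun i => a * d i) x = (a : F) • monomialMap σ d x := by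
      funext i; simp [monomialMap, mul_assoc]
    rw [this]; exact C.smul_mem _ (hd x hx)
  let Ψ : alternatingGroup (Fin 6) × Fin 3 →
      {f : Equiv.Perm (Fin 6) × (Fin 6 → Fˣ) // (∀ x ∈ C, monomialMap f.1 f.2 x ∈ C)} :=
    fun p => ⟨(p.1.1, fun i => u p.2 * c p.1 i), scal _ _ _ (hc p.1)⟩
  have Ψbij : Function.Bijective Ψ := by
    constructor
    · rintro ⟨s, a⟩ ⟨t, b⟩ hst
      obtain ⟨h1, h2⟩ := Prod.ext_iff.1 (congrArg Subtype.val hst)
      obtain rfl : s = t := Subtype.ext h1
      have : u a = u b := mul_right_cancel (congrFun h2 0)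
      rw [ubij.1 this]
    · rintro ⟨⟨σ, d⟩, hd⟩
      have hσ : σ ∈ alternatingGroup (Fin 6) := (Hiff σ).1 ⟨d, hd⟩
      let s : alternatingGroup (Fin 6) := ⟨σ, hσ⟩
      -- the restriction of the chosen map to the code is onto
      let R : C → C := fun x => ⟨monomialMap σ (c s) x.1, hc s x.1 x.2⟩
      have Rinj : Function.Injective R := by
        intro x y hxy
        apply Subtype.ext
        funext j
        have := congrFun (congrArg Subtype.val hxy) (σ j)
        simpa [R, monomialMap] using this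
      have Rsurj : Function.Surjective R := Finite.surjective_of_injective Rinj
      have hdiag : P 1 (fun i => d i / c s i) := by
        intro x hx
        obtain ⟨y, hy⟩ := Rsurj ⟨x, hx⟩
        have hy' : monomialMap σ (c s) y.1 = x := congrArg Subtype.val hy
        have : monomialMap 1 (fun i => d i / c s i) x = monomialMap σ d y.1 := by
          rw [← hy']; funext i
          simp [monomialMap, Equiv.Perm.one_def]
          field_simp
        rw [this]; exact hd y.1 y.2
      obtain ⟨a, ha⟩ := ubij.2 (d 0 / c s 0)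
      refine ⟨(s, a), Subtype.ext (Prod.ext rfl (funext fun i => ?_))⟩
      show u a * c s i = d i
      rw [ha, diag _ hdiag 0 i, div_mul_cancel]
  rw [← Nat.card_eq_of_bijective Ψ Ψbij, Nat.card_prod, nat_card_alternatingGroup]
  simp [Nat.card_eq_fintype_card, Nat.factorial]

end Cfsg.Agent.S1611
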