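import Cfsg.Statements.S1614
import Cfsg.Agent.FischerGQ.IdentFive
import Cfsg.Agent.FischerGQ.Sixteen
-- import your own Cfsg.Agent.* helpers here

set_option autoImplicit false
set_option linter.style.haveILetI false
open Cfsg

namespace Cfsg.Agent.S1614

/-- If the commuting transpositions of one transposition generate a solvable group, a Fischer 3-transposition group is S5, S6, PSU(4, 2) or PSU(5, 2). -/
theorem result {G : Type*} [Group G] [Finite G] (hsol : ∀ N : Subgroup G, N.Normal → Group.IsSolvable ↥N → N = ⊥) (hperf : ⁅commutator G, commutator G⁆ = commutator G) {D : Set G} (hD : Cfsg.IsThreeTranspositionClass D) (x : G) (hx : x ∈ D) (hs : Group.IsSolvable ↥(Subgroup.closure {y : G | y ∈ D ∧ y ≠ x ∧ Commute x y})) : Nonempty (G ≃* Equiv.Perm (Fin 5)) ∨ Nonempty (G ≃* Equiv.Perm (Fin 6)) ∨ ∃ (F : Type) (_ : Field F) (_ : Fintype F), Fintype.card F = 4 ∧ (Nonempty (G ≃* Cfsg.PSU 4 F 2) ∨ Nonempty (G ≃* Cfsg.PSU 5 F 2)) := by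
  classical
  have hG := CfsgLib.ThreeTransp.ttg_of_class hD
  have hnsol : ¬ Group.IsSolvable G := by
    intro h'
    have htop := hsol ⊤ inferInstance inferInstance
    have hx1 : x = 1 := by
      have := Subgroup.mem_top x
      rw [htop] at this
      exact Subgroup.mem_bot.1 this
    have := hG.1.1 x hx
    rw [hx1, orderOf_one] at this
    exact absurd this (by norm_num)
  have h2 : ∃ a ∈ D, ∃ b ∈ D, a ≠ b := by
    by_contra hall
    push Not at hall
    refine hnsol (CfsgLib.ThreeTransp.WidthOne.isSolvable ?_ hG)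
    exact fun a ha b hb _ => hall a ha b hb
  have hprim := CfsgLib.ThreeTransp.primitive_of_perfect hD h2 hperf
    (fun N hN _ hs' => hsol N hN hs')
  have hnc := CfsgLib.ThreeTransp.exists_not_commute_of_class hD h2
  have hcent : ∀ u : G, (∀ d ∈ D, Commute u d) → u = 1 := by
    intro u hu
    have hmem : u ∈ Subgroup.center G := by
      rw [Subgroup.mem_center_iff]
      intro k
      have hk : k ∈ Subgroup.closure D := hG.2.2 ▸ Subgroup.mem_top k
      exact ((CfsgLib.ThreeTransp.commute_closure_iff.2 fun d hd => (hu d hd).symm) k hk).eq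
    have hz := hsol (Subgroup.center G) inferInstance
      (Group.isSolvable_of_comm fun a b => Subtype.ext (Subgroup.mem_center_iff.1 b.2 a.1))
    rw [hz] at hmem
    exact Subgroup.mem_bot.1 hmem
  have hne : ∀ y ∈ D, (CfsgLib.ThreeTransp.nbr D y).Nonempty := by
    intro y hy
    by_contra hemp
    rw [Set.not_nonempty_iff_eq_empty] at hemp
    refine hnsol (CfsgLib.ThreeTransp.WidthOne.isSolvable ?_ hG)
    intro a ha b hb hab
    by_contra hne
    obtain ⟨k, hk⟩ := hprim.1 y hy a ha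
    have hb' : b ∈ CfsgLib.ThreeTransp.nbr D a := ⟨hb, Ne.symm hne, hab⟩
    rw [← hk, CfsgLib.ThreeTransp.nbr_conjImg hG, hemp] at hb'
    obtain ⟨f, hf, -⟩ := hb'
    exact hf
  have hsolv : ∀ y ∈ D, Group.IsSolvable ↥(Subgroup.closure (CfsgLib.ThreeTransp.nbr D y)) := by
    intro y hy
    obtain ⟨k, hk⟩ := hprim.1 x hx y hy
    have : Group.IsSolvable ↥(Subgroup.closure (CfsgLib.ThreeTransp.nbr D x)) := hs
    have e : Subgroup.closure (CfsgLib.ThreeTransp.nbr D y) =
        (Subgroup.closure (CfsgLib.ThreeTransp.nbr D x)).map (MulAut.conj k).toMonoidHom := by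
      rw [MonoidHom.map_closure]
      congr 1
      rw [← hk, CfsgLib.ThreeTransp.nbr_conjImg hG]
      ext f
      exact ⟨fun ⟨f', hf', hf''⟩ => ⟨f', hf', by simpa using hf''⟩,
        fun ⟨f', hf', hf''⟩ => ⟨f', hf', by simpa using hf''⟩⟩
    rw [e]
    exact Group.isSolvable_of_surjective
      ((MulAut.conj k).toMonoidHom.subgroupMap_surjective
        (Subgroup.closure (CfsgLib.ThreeTransp.nbr D x)))
  by_cases hodd : ∀ y ∈ D, Cfsg.pPrimeCore 2 ↥(Subgroup.closure (CfsgLib.ThreeTransp.nbr D y)) ≤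
      Subgroup.center ↥(Subgroup.closure (CfsgLib.ThreeTransp.nbr D y))
  swap
  · left
    push Not at hodd
    obtain ⟨y, hy, h⟩ := hodd
    obtain ⟨e, e', he, hne', ht⟩ := CfsgLib.FischerCore.exists_local_twin hG (x := y) h
    exact CfsgLib.FischerCore.Setting.iso_five ⟨hG, hprim, hnc, ⟨y, e, e', hy, he, hne', ht⟩⟩
  have hgq : CfsgLib.FischerGQ.IsGQ D :=
    CfsgLib.FischerGQ.Hyp.isGQ ⟨hG, hprim, hnc, hcent, hne, hsolv, hodd⟩
  obtain ⟨s, t, hp⟩ := hgq.exists_params
  letI : Fintype (GaloisField 2 2) := Fintype.ofFinite _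
  have hF : Fintype.card (GaloisField 2 2) = 2 ^ 2 := by
    rw [← Nat.card_eq_fintype_card, GaloisField.card 2 2 two_ne_zero]
  rcases hgq.params_list hp with h | h | h | h | h | h
  · exact Or.inr (Or.inl (hgq.exists_iso_six hp h.1 h.2))
  · obtain ⟨e⟩ := hgq.exists_iso_four hp h.1 h.2 hF
    refine Or.inr (Or.inr ⟨GaloisField 2 2, inferInstance, inferInstance, hF, Or.inl ⟨e.trans ?_⟩⟩)
    exact (CfsgLib.FischerGQ.quotientCenterEquiv hF (Or.inl rfl)).symm
  · obtain ⟨e⟩ := hgq.exists_iso_five hp h.1 h.2 hF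
    refine Or.inr (Or.inr ⟨GaloisField 2 2, inferInstance, inferInstance, hF, Or.inr ⟨e.trans ?_⟩⟩)
    exact (CfsgLib.FischerGQ.quotientCenterEquiv hF (Or.inr rfl)).symm
  · exact absurd h (hgq.not_eight_eight hp)
  · obtain ⟨rfl, rfl⟩ := h
    exact absurd hp hgq.not_sixteen_eight
  · exact absurd h (hgq.not_sixteen_eighty hp)

end Cfsg.Agent.S1614
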