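import Cfsg.Statements.S1616
import Cfsg.Agent.FischerPolar.Unitary
-- import your own Cfsg.Agent.* helpers here

set_option autoImplicit false
set_option linter.style.haveILetI false
open Cfsg

namespace Cfsg.Agent.S1616

/-- If O₂(⟨D_x⟩) is not central in ⟨D_x⟩ for some transposition x, the 3-transposition group is some Sp(2n, 2) or PSU(n, 2). -/
theorem result {G : Type*} [Group G] [Finite G] (hsol : ∀ N : Subgroup G, N.Normal → Group.IsSolvable ↥N → N = ⊥) (hperf : ⁅commutator G, commutator G⁆ = commutator G) {D : Set G} (hD : Cfsg.IsThreeTranspositionClass D) (x : G) (hx : x ∈ D) (h : ¬ Cfsg.pCore 2 ↥(Subgroup.closure {y : G | y ∈ D ∧ y ≠ x ∧ Commute x y}) ≤ Subgroup.center ↥(Subgroup.closure {y : G | y ∈ D ∧ y ≠ x ∧ Commute x y})) : (∃ n : ℕ, Nonempty (G ≃* Matrix.symplecticGroup (Fin n) (ZMod 2))) ∨ ∃ (F : Type) (_ : Field F) (_ : Fintype F) (n : ℕ), Fintype.card F = 4 ∧ Nonempty (G ≃* Cfsg.PSU n F 2) := by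
  classical
  have hG := CfsgLib.ThreeTransp.ttg_of_class hD
  have hnsol : ¬ Group.IsSolvable G := by
    intro h'
    have htop := hsol ⊤ inferInstance inferInstance
    have hx1 : x = 1 := by
      have := Subgroup.mem_top x
      rw [htop] at this
      exact Subgroup.mem_bot.1 this
    have := hG.1.1 x hx
    rw [hx1, orderOf_one] at this
    exact absurd this (by norm_num)
  have h2 : ∃ a ∈ D, ∃ b ∈ D, a ≠ b := by
    by_contra hall
    push Not at hall
    refine hnsol (CfsgLib.ThreeTransp.WidthOne.isSolvable ?_ hG)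
    exact fun a ha b hb _ => hall a ha b hb
  have hprim := CfsgLib.ThreeTransp.primitive_of_perfect hD h2 hperf
    (fun N hN _ hs' => hsol N hN hs')
  have hnc := CfsgLib.ThreeTransp.exists_not_commute_of_class hD h2
  have hcent : ∀ u : G, (∀ d ∈ D, Commute u d) → u = 1 := by
    intro u hu
    have hmem : u ∈ Subgroup.center G := by
      rw [Subgroup.mem_center_iff]
      intro k
      have hk : k ∈ Subgroup.closure D := hG.2.2 ▸ Subgroup.mem_top k
      exact ((CfsgLib.ThreeTransp.commute_closure_iff.2 fun d hd => (hu d hd).symm) k hk).eq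
    have hz := hsol (Subgroup.center G) inferInstance
      (Group.isSolvable_of_comm fun a b => Subtype.ext (Subgroup.mem_center_iff.1 b.2 a.1))
    rw [hz] at hmem
    exact Subgroup.mem_bot.1 hmem
  have hne : ∀ y ∈ D, (CfsgLib.ThreeTransp.nbr D y).Nonempty := by
    intro y hy
    by_contra hemp
    rw [Set.not_nonempty_iff_eq_empty] at hemp
    refine hnsol (CfsgLib.ThreeTransp.WidthOne.isSolvable ?_ hG)
    intro a ha b hb hab
    by_contra hne
    obtain ⟨k, hk⟩ := hprim.1 y hy a ha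
    have hb' : b ∈ CfsgLib.ThreeTransp.nbr D a := ⟨hb, Ne.symm hne, hab⟩
    rw [← hk, CfsgLib.ThreeTransp.nbr_conjImg hG, hemp] at hb'
    obtain ⟨f, hf, -⟩ := hb'
    exact hf
  have hcore : ∀ y ∈ D, ¬ Cfsg.pCore 2 ↥(Subgroup.closure (CfsgLib.ThreeTransp.nbr D y)) ≤
      Subgroup.center ↥(Subgroup.closure (CfsgLib.ThreeTransp.nbr D y)) := by
    intro y hy hle
    obtain ⟨k, hk⟩ := hprim.1 y hy x hx
    apply h
    change Cfsg.pCore 2 ↥(Subgroup.closure (CfsgLib.ThreeTransp.nbr D x)) ≤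
      Subgroup.center ↥(Subgroup.closure (CfsgLib.ThreeTransp.nbr D x))
    have e : Subgroup.closure (CfsgLib.ThreeTransp.nbr D x) =
        (Subgroup.closure (CfsgLib.ThreeTransp.nbr D y)).map (MulAut.conj k).toMonoidHom := by
      rw [MonoidHom.map_closure]
      congr 1
      rw [← hk, CfsgLib.ThreeTransp.nbr_conjImg hG]
      ext f
      exact ⟨fun ⟨f', hf', hf''⟩ => ⟨f', hf', by simpa using hf''⟩,
        fun ⟨f', hf', hf''⟩ => ⟨f', hf', by simpa using hf''⟩⟩
    rw [e]
    let φ := (Subgroup.closure (CfsgLib.ThreeTransp.nbr D y)).equivMapOfInjective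
      (MulAut.conj k).toMonoidHom (MulAut.conj k).injective
    intro u hu
    have h1 : φ.symm u ∈ Subgroup.center ↥(Subgroup.closure (CfsgLib.ThreeTransp.nbr D y)) := by
      apply hle
      have hmap : (Cfsg.pCore 2 _).map φ.symm.toMonoidHom ≤
          Cfsg.pCore 2 ↥(Subgroup.closure (CfsgLib.ThreeTransp.nbr D y)) := by
        rw [Subgroup.map_le_iff_le_comap]
        refine sSup_le ?_
        rintro N ⟨hN, hp⟩
        rw [← Subgroup.map_le_iff_le_comap]
        exact le_sSup ⟨hN.map φ.symm.toMonoidHom φ.symm.surjective, hp.map _⟩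
      exact hmap (Subgroup.mem_map_of_mem _ hu)
    rw [Subgroup.mem_center_iff] at h1 ⊢
    intro v
    have := congrArg φ (h1 (φ.symm v))
    rw [map_mul, map_mul, MulEquiv.apply_symm_apply, MulEquiv.apply_symm_apply] at this
    exact this
  have hh : CfsgLib.FischerPolar.Hyp D := ⟨hG, hprim, hnc, hcent, hne, hcore⟩
  obtain ⟨R, hR, hl, ht⟩ := hh.exists_rankTwo
  obtain ⟨s, t, hst⟩ := hh.twoFacts hR hl ht
  obtain ⟨a, ha, b, hb, hab⟩ := hl
  have hline := hst.line a ha b hb hab
  have hall : ∀ c ∈ D, ∀ d ∈ CfsgLib.ThreeTransp.nbr D c,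
      (CfsgLib.FischerPolar.pl D c d).ncard = s + 1 := fun c hc d hd => by
    rw [hh.ncard_pl (hR.sub ha) hab hc hd, hline]
  rcases hst.cases with ⟨rfl, -⟩ | ⟨rfl, -⟩ | ⟨rfl, -⟩
  · exact Or.inl (hh.exists_iso_sp hall)
  · exact Or.inr (hh.exists_iso_psu hall)
  · exact Or.inr (hh.exists_iso_psu hall)

end Cfsg.Agent.S1616
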