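import Cfsg.Statements.S1620
import Cfsg.Agent.Eq.Def_Spor_J2
import Cfsg.Agent.SporJ2.Center

set_option autoImplicit false
open Quaternion
open Cfsg

namespace Cfsg.Agent.S1620

/-- The Hall–Janko group is simple and non-abelian. -/
theorem result : IsSimpleGroup Cfsg.Spor.J2 ∧ ∃ a b : Cfsg.Spor.J2, a * b ≠ b * a := by
  obtain ⟨e⟩ := CfsgLib.SporJ2.exists_equiv_J2
  have := CfsgLib.SporJ2.Hundred.simple
  refine ⟨e.isSimpleGroup, ?_⟩
  by_contra! h
  have htop : Subgroup.center CfsgLib.SporJ2.Hundred.grp = ⊤ := by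
    refine eq_top_iff.2 fun a _ => Subgroup.mem_center_iff.2 fun b => ?_
    apply e.symm.injective
    rw [map_mul, map_mul]; exact h _ _
  have hnt : Nontrivial CfsgLib.SporJ2.Hundred.grp := IsSimpleGroup.toNontrivial
  rw [CfsgLib.SporJ2.center_grp] at htop
  exact absurd htop bot_ne_top

end Cfsg.Agent.S1620
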