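import Cfsg.Statements.S1631
import Cfsg.Agent.Classical.Unitary.RankOne
import Cfsg.Agent.Classical.Unitary.Generation
import Cfsg.Agent.Eq.Def_SporadicB

set_option autoImplicit false
open scoped MatrixGroups
open Cfsg

namespace Cfsg.Agent.S1631
open Matrix CfsgLib.Unitary in
theorem three_transp {F : Type*} [Field F] [Fintype F] (hF : Fintype.card F = 2 ^ 2) {n : ℕ} {v w : Fin n → F} {c : F}
    (hv : hermForm n F 2 v v = 0) (hw : hermForm n F 2 w w = 0) (hc : c = 1) (ht : c + c ^ 2 = 0) :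
    (transvSU hF v c hv ht * transvSU hF w c hw ht) ^ 2 = 1 ∨
      (transvSU hF v c hv ht * transvSU hF w c hw ht) ^ 3 = 1 := by
  subst hc
  have h2 : (2 : F) = 0 := by linear_combination ht
  have hsq : ∀ {u : Fin n → F} (hu : hermForm n F 2 u u = 0), transvSU hF u 1 hu ht * transvSU hF u 1 hu ht = 1 := by
    intro u hu
    rw [transvSU_mul hF hu ht ht (by linear_combination (3 : F) * h2)]
    exact transvSU_eq_one hF _ _ (Or.inl (by linear_combination h2))
  have hinv : ∀ {u : Fin n → F} (hu : hermForm n F 2 u u = 0), (transvSU hF u 1 hu ht)⁻¹ = transvSU hF u 1 hu ht :=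
    fun hu => inv_eq_of_mul_eq_one_right (hsq hu)
  set a := hermForm n F 2 v w with ha
  have hwv : hermForm n F 2 w v = a ^ 2 := herm_conj hF v w
  set A := transvSU hF v 1 hv ht
  set B := transvSU hF w 1 hw ht
  by_cases h0 : a = 0
  · left
    have hAB : A * B * A⁻¹ = B := by
      rw [conj_transvSU]
      refine transvSU_congr hF _ _ _ _ fun x => ?_
      rw [sv_transvSU, hwv, h0]
      simp
    rw [hinv hv] at hAB
    rw [pow_two, ← mul_assoc, hAB, hsq hw]
  · right
    have ha3 : a ^ 3 = 1 := by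
      have h := FiniteField.pow_card_sub_one_eq_one a h0
      rwa [hF, show 2 ^ 2 - 1 = 3 from rfl] at h
    have hvw : sv B v = a • sv A w := by
      rw [sv_transvSU, sv_transvSU, hwv, one_mul, one_mul, smul_add, smul_smul, ← pow_succ', ha3, one_smul, ← ha, add_comm]
    have h3 : A * B * A⁻¹ = B * A * B⁻¹ := by
      rw [conj_transvSU, conj_transvSU]
      refine transvSU_congr hF _ _ _ _ fun x => ?_
      rw [hvw, herm_smul_right, smul_smul]
      congr 1
      linear_combination -(hermForm n F 2 x (sv A w)) * ha3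
    rw [hinv hv, hinv hw] at h3
    calc (A * B) ^ 3 = (A * B * A) * (B * A * B) := by simp only [pow_succ, pow_zero, one_mul, mul_assoc]
      _ = (B * A * B) * (B * A * B) := by rw [h3]
      _ = B * A * (B * B) * A * B := by simp only [mul_assoc]
      _ = B * (A * A) * B := by rw [hsq hw]; simp only [mul_assoc, one_mul, mul_one]
      _ = 1 := by rw [hsq hv, mul_one, hsq hw]


/-- The unitary transvections of SU(n, 2), n ≥ 4, form a generating conjugacy class of 3-transpositions. -/
theorem result (F : Type) [Field F] [Fintype F] [DecidableEq F] (hF : Fintype.card F = 4) (n : ℕ) (hn : 4 ≤ n) : Cfsg.IsThreeTranspositionClass {g : ↥(Cfsg.SU n F 2) | (((g : Matrix.SpecialLinearGroup (Fin n) F) : Matrix (Fin n) (Fin n) F) - 1).rank = 1} := by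
  classical
  open CfsgLib.Unitary in
  have hF2 : Fintype.card F = 2 ^ 2 := hF
  have h2 : (2 : F) = 0 := by
    haveI : CharP F 2 := charP_of_card_eq_prime_pow (f := 2) hF2
    exact CharTwo.two_eq_zero
  have ht : (1 : F) + 1 ^ 2 = 0 := by linear_combination h2
  have hone : ∀ c : F, c + c ^ 2 = 0 → c ≠ 0 → c = 1 := fun c hc h0 => by
    have : c * (c + 1) = 0 := by linear_combination hc
    have h1 := (mul_eq_zero.1 this).resolve_left h0
    linear_combination h1 - h2
  have hmem : ∀ (v : Fin n → F) (hv : hermForm n F 2 v v = 0), v ≠ 0 →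
      CfsgLib.Unitary.transvSU hF2 v 1 hv ht ∈ {g : ↥(Cfsg.SU n F 2) |
        (((g : Matrix.SpecialLinearGroup (Fin n) F) : Matrix (Fin n) (Fin n) F) - 1).rank = 1} :=
    fun v hv hv0 => rank_transvSU_sub_one hF2 hv ht hv0 one_ne_zero
  have hex : ∀ g : ↥(Cfsg.SU n F 2), (((g : Matrix.SpecialLinearGroup (Fin n) F) : Matrix (Fin n) (Fin n) F) - 1).rank = 1 →
      ∃ (v : Fin n → F) (hv : hermForm n F 2 v v = 0), v ≠ 0 ∧ g = transvSU hF2 v 1 hv ht := fun g hg => by
    obtain ⟨v, c, hv, hc, hv0, hc0, rfl⟩ := exists_transvSU_of_rank_one hF2 g hg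
    obtain rfl := hone c hc hc0
    exact ⟨v, hv, hv0, rfl⟩
  have hord : ∀ (v : Fin n → F) (hv : hermForm n F 2 v v = 0), v ≠ 0 → orderOf (transvSU hF2 v 1 hv ht) = 2 := by
    intro v hv hv0
    have hne : transvSU hF2 v 1 hv ht ≠ 1 := fun h => by
      have := rank_transvSU_sub_one hF2 hv ht hv0 one_ne_zero
      rw [h] at this
      simp at this
    refine orderOf_eq_prime ?_ hne
    rw [pow_two, transvSU_mul hF2 hv ht ht (by linear_combination (3 : F) * h2)]
    exact transvSU_eq_one hF2 _ _ (Or.inl (by linear_combination h2))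
  refine ⟨⟨fun d hd => ?_, fun d hd e he => ?_⟩, ?_, ?_⟩
  · obtain ⟨v, hv, hv0, rfl⟩ := hex d hd
    exact hord v hv hv0
  · obtain ⟨v, hv, hv0, rfl⟩ := hex d hd
    obtain ⟨w, hw, hw0, rfl⟩ := hex e he
    exact three_transp hF2 hv hw rfl ht
  · obtain ⟨v, hv, hv0⟩ : ∃ v : Fin n → F, hermForm n F 2 v v = 0 ∧ v ≠ 0 := by
      refine ⟨fun i => if i.1 < 2 then 1 else 0, ?_, ?_⟩
      · obtain ⟨m, rfl⟩ : ∃ m, n = m + 2 := ⟨n - 2, by omega⟩
        simp [hermForm, Fin.sum_univ_succ]
        linear_combination h2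
      · exact fun h => by simpa using congrFun h ⟨0, by omega⟩
    refine ⟨_, hmem v hv hv0, Set.ext fun g => ⟨fun hg => ?_, fun hg => ?_⟩⟩
    · obtain ⟨w, hw, hw0, rfl⟩ := hex g hg
      obtain ⟨A, hA⟩ := exists_SU_map_isotropic hF2 (by omega) hv0 hw0 hv hw
      refine isConj_iff.2 ⟨A, ?_⟩
      rw [conj_transvSU]
      subst hA
      rfl
    · obtain ⟨A, rfl⟩ := isConj_iff.1 hg
      rw [conj_transvSU]
      refine hmem _ _ fun h => hv0 ?_
      rw [← sv_one v, ← inv_mul_cancel A, sv_mul, h]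
      exact Matrix.mulVec_zero _
  · rw [eq_top_iff, ← transvGroup_eq_top (n := n) (q := 2) hF2 (by omega), transvGroup, Subgroup.closure_le]
    rintro g ⟨v, c, hv, hg⟩
    obtain ⟨c', hc', rfl, -⟩ := eq_transvSU_of_matrix_eq hF2 hv hg
    by_cases h0 : c' = 0 ∨ v = 0
    · rw [transvSU_eq_one hF2 hv hc' h0]; exact one_mem _
    rw [not_or] at h0
    obtain rfl := hone c' hc' h0.1
    exact Subgroup.subset_closure (hmem v hv h0.2)

end Cfsg.Agent.S1631
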