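import Cfsg.Statements.S1632
import Cfsg.Agent.EvenLattice.Theta

set_option autoImplicit false
open Matrix
open Cfsg

namespace Cfsg.Agent.S1632

/-- An even unimodular lattice of rank 24 without roots has 196560, 16773120 and 398034000 vectors of norms 4, 6 and 8. -/
theorem result (B : Matrix (Fin 24) (Fin 24) ℤ) (hsymm : B.IsSymm) (hpos : ∀ x : Fin 24 → ℤ, x ≠ 0 → 0 < x ⬝ᵥ (B *ᵥ x)) (heven : ∀ x : Fin 24 → ℤ, (2 : ℤ) ∣ x ⬝ᵥ (B *ᵥ x)) (hdet : B.det = 1) (h2 : ∀ x : Fin 24 → ℤ, x ⬝ᵥ (B *ᵥ x) ≠ 2) : {x : Fin 24 → ℤ | x ⬝ᵥ (B *ᵥ x) = 4}.ncard = 196560 ∧ {x : Fin 24 → ℤ | x ⬝ᵥ (B *ᵥ x) = 6}.ncard = 16773120 ∧ {x : Fin 24 → ℤ | x ⬝ᵥ (B *ᵥ x) = 8}.ncard = 398034000 := by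
  obtain ⟨a, b, c⟩ := CfsgLib.EvenLattice.repNum_eq (B := B) ⟨hsymm, hpos, heven, h2⟩ hdet
  exact ⟨by simpa [CfsgLib.EvenLattice.repNum, CfsgLib.EvenLattice.qn] using a,
    by simpa [CfsgLib.EvenLattice.repNum, CfsgLib.EvenLattice.qn] using b,
    by simpa [CfsgLib.EvenLattice.repNum, CfsgLib.EvenLattice.qn] using c⟩

end Cfsg.Agent.S1632
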