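import Cfsg.Statements.S1635
import Cfsg.Agent.Eq.Def_Sporadic_a
import Cfsg.Agent.Golay.Weights
import Cfsg.Agent.Golay.Perfect

set_option autoImplicit false
open Cfsg

namespace Cfsg.Agent.S1635

/-- Coset leaders of the length-24 code: a coset contains a unique word of weight ≤ 3, or else exactly six words of weight 4 and none lighter. -/
theorem result (w : Cfsg.GolayPt → ZMod 2) : ({v : Cfsg.GolayPt → ZMod 2 | hammingNorm v ≤ 4 ∧ w - v ∈ Cfsg.golayCode}.ncard = 1 ∧ ∃ v : Cfsg.GolayPt → ZMod 2, hammingNorm v ≤ 3 ∧ w - v ∈ Cfsg.golayCode) ∨ ({v : Cfsg.GolayPt → ZMod 2 | hammingNorm v ≤ 4 ∧ w - v ∈ Cfsg.golayCode}.ncard = 6 ∧ ∀ v : Cfsg.GolayPt → ZMod 2, w - v ∈ Cfsg.golayCode → hammingNorm v ≤ 4 → hammingNorm v = 4) := by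
  have hα : Fintype.card Cfsg.GolayPt = 24 := rfl
  have hmin : ∀ w ∈ Cfsg.golayCode, w ≠ 0 → 8 ≤ hammingNorm w := fun v hv hne =>
    CfsgLib.Golay.eight_le_card (⟨v, hv, rfl⟩ : Cfsg.support₂ v ∈ Cfsg.supports _)
      (fun e => hne (CfsgLib.Golay.supp_eq_empty.mp e))
  exact CfsgLib.Golay.coset_leaders hα CfsgLib.Golay.natCard_golayCode hmin w

end Cfsg.Agent.S1635
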