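import Cfsg.Statements.S1636
import Cfsg.Agent.Eq.Def_Sporadic_a
import Cfsg.Agent.Golay.Weights

set_option autoImplicit false
open Cfsg

namespace Cfsg.Agent.S1636

/-- Puncturing at the extra point. -/
def punct (s : Finset Cfsg.GolayPt) : ZMod 23 → ZMod 2 :=
  fun x => CfsgLib.Golay.wordOf s (some x)

theorem norm_punct (s : Finset Cfsg.GolayPt) : hammingNorm (punct s) = (s.erase none).card := by
  rw [hammingNorm]
  refine Finset.card_nbij' (fun x => some x) (fun o => o.getD 0) ?_ ?_ ?_ ?_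
  · intro x hx; simp [punct, CfsgLib.Golay.wordOf] at hx; simp [hx]
  · rintro (_ | x) hx
    · simp at hx
    · simp at hx; simp [punct, CfsgLib.Golay.wordOf, hx]
  · intro x _; rfl
  · rintro (_ | x) hx
    · simp at hx
    · rfl

theorem punct_inj {s t : Finset Cfsg.GolayPt}
    (hs : s ∈ Cfsg.supports (Cfsg.golayCode : Set (Cfsg.GolayPt → ZMod 2)))
    (ht : t ∈ Cfsg.supports (Cfsg.golayCode : Set (Cfsg.GolayPt → ZMod 2)))
    (e : punct s = punct t) : s = t := by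
  by_contra hne
  have h8 := CfsgLib.Golay.eight_le_card (CfsgLib.Golay.symmDiff_mem hs ht)
    (fun h => hne (symmDiff_eq_bot.mp h))
  have hsub : symmDiff s t ⊆ {none} := by
    intro p hp
    rcases p with _ | x
    · simp
    · have := congrFun e x
      by_cases h1 : some x ∈ s <;> by_cases h2 : some x ∈ t <;>
        simp_all [punct, CfsgLib.Golay.wordOf, Finset.mem_symmDiff]
  have := Finset.card_le_card hsub
  simp at this; omega

theorem card_erase_none (n : ℕ) :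
    ((CfsgLib.Golay.ofMask n).erase none).card =
      (CfsgLib.Golay.ofMask n).card - n / 8388608 % 2 := by
  rw [Finset.card_erase_eq_ite]
  have h : ((none : Cfsg.GolayPt) ∈ CfsgLib.Golay.ofMask n) ↔ n / 8388608 % 2 = 1 := by
    rw [CfsgLib.Golay.mem_ofMask, Nat.testBit_eq_decide_div_mod_eq]
    simp [CfsgLib.Golay.idx]
  split_ifs with h1
  · rw [h.mp h1]
  · have : n / 8388608 % 2 = 0 := by
      rcases Nat.mod_two_eq_zero_or_one (n / 8388608) with q | q
      · exact q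
      · exact absurd (h.mpr q) h1
    omega


/-- The punctured length-23 code has weight distribution 0^1 7^253 8^506 11^1288 12^1288 15^506 16^253 23^1. -/
theorem result : {u : ZMod 23 → ZMod 2 | ∃ w ∈ Cfsg.golayCode, ∀ x : ZMod 23, u x = w (some x)}.ncard = 4096 ∧ {u : ZMod 23 → ZMod 2 | u ∈ {u : ZMod 23 → ZMod 2 | ∃ w ∈ Cfsg.golayCode, ∀ x : ZMod 23, u x = w (some x)} ∧ hammingNorm u = 7}.ncard = 253 ∧ {u : ZMod 23 → ZMod 2 | u ∈ {u : ZMod 23 → ZMod 2 | ∃ w ∈ Cfsg.golayCode, ∀ x : ZMod 23, u x = w (some x)} ∧ hammingNorm u = 8}.ncard = 506 ∧ {u : ZMod 23 → ZMod 2 | u ∈ {u : ZMod 23 → ZMod 2 | ∃ w ∈ Cfsg.golayCode, ∀ x : ZMod 23, u x = w (some x)} ∧ hammingNorm u = 11}.ncard = 1288 ∧ {u : ZMod 23 → ZMod 2 | u ∈ {u : ZMod 23 → ZMod 2 | ∃ w ∈ Cfsg.golayCode, ∀ x : ZMod 23, u x = w (some x)} ∧ hammingNorm u = 12}.ncard = 1288 ∧ {u : ZMod 23 → ZMod 2 | u ∈ {u : ZMod 23 → ZMod 2 | ∃ w ∈ Cfsg.golayCode, ∀ x : ZMod 23, u x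 = w (some x)} ∧ hammingNorm u = 15}.ncard = 506 ∧ {u : ZMod 23 → ZMod 2 | u ∈ {u : ZMod 23 → ZMod 2 | ∃ w ∈ Cfsg.golayCode, ∀ x : ZMod 23, u x = w (some x)} ∧ hammingNorm u = 16}.ncard = 253 ∧ ∀ u ∈ {u : ZMod 23 → ZMod 2 | ∃ w ∈ Cfsg.golayCode, ∀ x : ZMod 23, u x = w (some x)}, u ≠ 0 → 7 ≤ hammingNorm u := by
  have hset : ∀ k : ℕ, {u : ZMod 23 → ZMod 2 | u ∈ {u : ZMod 23 → ZMod 2 |
      ∃ w ∈ Cfsg.golayCode, ∀ x : ZMod 23, u x = w (some x)} ∧ hammingNorm u = k}.ncard =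
      CfsgLib.Golay.countSpan
        (fun n => CfsgLib.Golay.pop n - n / 8388608 % 2 == k) CfsgLib.Golay.basisMasks 0 := by
    intro k
    rw [← CfsgLib.Golay.ncard_supports (q := fun s => (s.erase none).card = k) (fun n hn => by
      rw [beq_iff_eq, CfsgLib.Golay.pop_eq_card, card_erase_none])]
    rw [← Set.InjOn.ncard_image (f := punct) (fun s hs t ht e => punct_inj hs.1 ht.1 e)]
    congr 1
    ext u
    simp only [Set.mem_ofPred_eq, Set.mem_image]
    constructor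
    · rintro ⟨⟨w, hw, huw⟩, hk⟩
      have hu : u = punct (Cfsg.support₂ w) := by
        funext x; rw [huw, punct, CfsgLib.Golay.wordOf_support₂]
      exact ⟨_, ⟨⟨w, hw, rfl⟩, by rw [← hk, hu, norm_punct]⟩, hu.symm⟩
    · rintro ⟨s, ⟨hs, hk⟩, rfl⟩
      exact ⟨⟨_, CfsgLib.Golay.mem_supports_iff_wordOf.mp hs, fun x => rfl⟩, by rw [norm_punct, hk]⟩
  refine ⟨?_, ?_, ?_, ?_, ?_, ?_, ?_, ?_⟩
  · rw [← CfsgLib.Golay.card_codeSets, ← Set.ncard_coe_finset, CfsgLib.Golay.coe_codeSets,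
      ← Set.InjOn.ncard_image (f := punct) (fun s hs t ht e => punct_inj hs ht e)]
    congr 1
    ext u
    simp only [Set.mem_ofPred_eq, Set.mem_image]
    constructor
    · rintro ⟨w, hw, huw⟩
      exact ⟨_, ⟨w, hw, rfl⟩, (funext fun x => by
        rw [huw, punct, CfsgLib.Golay.wordOf_support₂]).symm⟩
    · rintro ⟨s, hs, rfl⟩
      exact ⟨_, CfsgLib.Golay.mem_supports_iff_wordOf.mp hs, fun x => rfl⟩
  all_goals try (rw [hset]; decide +kernel)
  rintro u ⟨w, hw, huw⟩ hne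
  have hu : u = punct (Cfsg.support₂ w) := by
    funext x; rw [huw, punct, CfsgLib.Golay.wordOf_support₂]
  have hs : Cfsg.support₂ w ∈ Cfsg.supports (Cfsg.golayCode : Set _) := ⟨w, hw, rfl⟩
  rw [hu, norm_punct]
  have hne' : Cfsg.support₂ w ≠ ∅ := by
    intro e
    apply hne
    funext x
    rw [hu, e]; simp [punct, CfsgLib.Golay.wordOf]
  have := CfsgLib.Golay.eight_le_card hs hne'
  have := Finset.pred_card_le_card_erase (s := Cfsg.support₂ w) (a := none)
  omega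

end Cfsg.Agent.S1636
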