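import Cfsg.Statements.S1637
import Cfsg.Agent.Eq.Def_Sporadic_a
import Cfsg.Agent.Golay.Weights
import Cfsg.Agent.Golay.Perfect

set_option autoImplicit false
open Cfsg

namespace Cfsg.Agent.S1637

/-- The punctured length-23 code is a perfect 3-error-correcting code: each word of length 23 is within distance 3 of exactly one codeword. -/
theorem result (u : ZMod 23 → ZMod 2) : ∃! c : ZMod 23 → ZMod 2, c ∈ {u : ZMod 23 → ZMod 2 | ∃ w ∈ Cfsg.golayCode, ∀ x : ZMod 23, u x = w (some x)} ∧ hammingDist u c ≤ 3 := by
  have hα : Fintype.card Cfsg.GolayPt = 24 := rfl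
  have hmin : ∀ w ∈ Cfsg.golayCode, w ≠ 0 → 8 ≤ hammingNorm w := fun v hv hne =>
    CfsgLib.Golay.eight_le_card (⟨v, hv, rfl⟩ : Cfsg.support₂ v ∈ Cfsg.supports _)
      (fun e => hne (CfsgLib.Golay.supp_eq_empty.mp e))
  classical
  set w : Cfsg.GolayPt → ZMod 2 := fun o => o.elim 0 u with hw
  obtain ⟨v, hv, hv3⟩ :=
    CfsgLib.Golay.exists_near hα CfsgLib.Golay.natCard_golayCode hmin none w
  have dist : ∀ c : Cfsg.GolayPt → ZMod 2, hammingDist u (fun x => c (some x)) =
      ((CfsgLib.Golay.supp (w - c)).erase none).card := by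
    intro c
    rw [hammingDist]
    refine Finset.card_nbij' (fun x => some x) (fun o => o.getD 0) ?_ ?_ ?_ ?_
    · intro x hx
      simp only [Finset.coe_filter, Finset.mem_univ, true_and, Set.mem_ofPred_eq] at hx
      simp [CfsgLib.Golay.mem_supp, hw, sub_ne_zero, hx]
    · rintro (_ | x) hx
      · simp at hx
      · simp [CfsgLib.Golay.mem_supp, hw, sub_ne_zero] at hx
        simp [hx]
    · intro x _; rfl
    · rintro (_ | x) hx
      · simp at hx
      · rfl
  refine ⟨fun x => (w - v) (some x), ⟨⟨w - v, hv, fun _ => rfl⟩, ?_⟩, ?_⟩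
  · rw [dist, sub_sub_cancel]; exact hv3
  · rintro c ⟨⟨c', hc', hcc⟩, hdist⟩
    have hc : c = fun x => c' (some x) := funext hcc
    rw [hc, dist] at hdist
    have hsame : w - c' = v := by
      by_contra hne
      have hmem : w - c' - v ∈ Cfsg.golayCode := by
        have h := sub_mem hv hc'
        rwa [sub_right_comm] at h
      have h8 := hmin _ hmem (sub_ne_zero.mpr hne)
      rw [CfsgLib.Golay.hammingNorm_eq_card_supp, CfsgLib.Golay.supp_sub] at h8
      have hsub : symmDiff (CfsgLib.Golay.supp (w - c')) (CfsgLib.Golay.supp v) ⊆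
          insert none ((CfsgLib.Golay.supp (w - c')).erase none ∪
            (CfsgLib.Golay.supp v).erase none) := by
        intro a
        simp only [Finset.mem_symmDiff, Finset.mem_insert, Finset.mem_union, Finset.mem_erase]
        tauto
      have := (Finset.card_le_card hsub).trans ((Finset.card_insert_le _ _).trans
        (Nat.add_le_add_right (Finset.card_union_le _ _) 1))
      omega
    rw [hc, ← hsame, sub_sub_cancel]

end Cfsg.Agent.S1637
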