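import Cfsg.Statements.S1638
import Cfsg.Agent.Eq.Def_SporadicCombinatorics
import Cfsg.Agent.M24Orbits.Transitive

set_option autoImplicit false
open scoped Pointwise
open Cfsg

open CfsgLib.Golay CfsgLib.Mathieu CfsgLib.M24Orbits CfsgLib.M24Orbits.Data

namespace Cfsg.Agent.S1638

theorem duad_val (i : ℕ) (hi : i < (pqsDuadReps.map mOf).length) :
    ((i != 3) = true ↔ hexadIn (ofMask 15 ∪ (pqsDuadReps.map mOf)[i])) ∧
      (ofMask 12 ∩ (pqsDuadReps.map mOf)[i]).card = [2, 1, 0, 0].getD i 0 := by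
  have hi' : i < 4 := lt_of_lt_of_eq hi (by decide +kernel)
  interval_cases i
  · refine ⟨iff_of_true rfl ?_, ?_⟩
    · show hexadIn (ofMask 15 ∪ ofMask 12)
      rw [← ofMask_lor]; exact hexadIn_of (m := 5279) (by decide +kernel)
    · show (ofMask 12 ∩ ofMask 12).card = 2
      rw [card_inter_ofMask]; decide +kernel
  · refine ⟨iff_of_true rfl ?_, ?_⟩
    · show hexadIn (ofMask 15 ∪ ofMask 20)
      rw [← ofMask_lor]; exact hexadIn_of (m := 5279) (by decide +kernel)
    · show (ofMask 12 ∩ ofMask 20).card = 1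
      rw [card_inter_ofMask]; decide +kernel
  · refine ⟨iff_of_true rfl ?_, ?_⟩
    · show hexadIn (ofMask 15 ∪ ofMask 144)
      rw [← ofMask_lor]; exact hexadIn_of (m := 5279) (by decide +kernel)
    · show (ofMask 12 ∩ ofMask 144).card = 0
      rw [card_inter_ofMask]; decide +kernel
  · refine ⟨iff_of_false (by decide) ?_, ?_⟩
    · show ¬ hexadIn (ofMask 15 ∪ ofMask 48)
      rw [← ofMask_lor]; exact not_hexadIn_of (m := 5279) (by decide +kernel)
    · show (ofMask 12 ∩ ofMask 48).card = 0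
      rw [card_inter_ofMask]; decide +kernel


/-- Fix two points p ≠ q and a pair s of two further points. Among the pairs avoiding p, q and disjoint from s, exactly 30 lie in an octad together with p, q and s and exactly 160 do not; and any two pairs other than s that meet s in equally many points and agree on that octad property are carried to one another by an element of the group of the length-24 code fixing p, q and s. -/
theorem result (p q : Cfsg.GolayPt) (hpq : p ≠ q) (s : Finset Cfsg.GolayPt) (hs : (s.card = 2 ∧ p ∉ s ∧ q ∉ s)) : {t : Finset Cfsg.GolayPt | (t.card = 2 ∧ p ∉ t ∧ q ∉ t) ∧ Disjoint s t ∧ (∃ o ∈ Cfsg.octads, p ∈ o ∧ q ∈ o ∧ s ∪ t ⊆ o)}.ncard = 30 ∧ {t : Finset Cfsg.GolayPt | (t.card = 2 ∧ p ∉ t ∧ q ∉ t) ∧ Disjoint s t ∧ ¬ (∃ o ∈ Cfsg.octads, p ∈ o ∧ q ∈ o ∧ s ∪ t ⊆ o)}.ncard = 160 ∧ ∀ t t' : Finset Cfsg.GolayPt, (t.card = 2 ∧ p ∉ t ∧ q ∉ t) → (t'.card = 2 ∧ p ∉ t' ∧ q ∉ t') → t ≠ s → t' ≠ s → (s ∩ t).card = (s ∩ t').card → ((∃ o ∈ Cfsg.octads,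 p ∈ o ∧ q ∈ o ∧ s ∪ t ⊆ o) ↔ (∃ o ∈ Cfsg.octads, p ∈ o ∧ q ∈ o ∧ s ∪ t' ⊆ o)) → ∃ g : Equiv.Perm Cfsg.GolayPt, g ∈ Cfsg.M24 ∧ g p = p ∧ g q = q ∧ g • s = s ∧ g • t = t' := by
  classical
  obtain ⟨⟨a, b, hab, rfl⟩, hps, hqs⟩ := Finset.card_eq_two.1 hs.1, hs.2.1, hs.2.2
  simp only [Finset.mem_insert, Finset.mem_singleton, not_or] at hps hqs
  obtain ⟨k, hk, h4⟩ := exists_map_four (x := ![P₀, Q₀, i2p 2, i2p 3]) (y := ![p, q, a, b])
    (by decide) (by
      intro i j h
      fin_cases i <;> fin_cases j <;> simp_all [eq_comm])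
  have ep : k • P₀ = p := h4 0
  have eq : k • Q₀ = q := h4 1
  have es : k • ofMask 12 = ({a, b} : Finset GolayPt) := by
    rw [show ofMask 12 = ({i2p 2, i2p 3} : Finset GolayPt) by decide +kernel,
      Finset.smul_finset_insert, Finset.smul_finset_singleton, Equiv.Perm.smul_def,
      Equiv.Perm.smul_def, show k (i2p 2) = a from h4 2, show k (i2p 3) = b from h4 3]
  have h15 : ∀ t : Finset GolayPt,
      (∃ o ∈ octads, p ∈ o ∧ q ∈ o ∧ {a, b} ∪ k • t ⊆ o) ↔ hexadIn (ofMask 15 ∪ t) := by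
    intro t
    rw [← hexadIn_smul hk, hexadIn]
    refine exists_congr fun o => and_congr_right fun _ => ?_
    rw [show ofMask 15 = {P₀, Q₀} ∪ ofMask 12 by decide +kernel, Finset.union_assoc,
      smul_union', smul_union', es, Finset.smul_finset_insert, Finset.smul_finset_singleton, ep,
      eq, Finset.union_subset_iff (s := ({p, q} : Finset GolayPt)), Finset.insert_subset_iff,
      Finset.singleton_subset_iff, and_assoc]
  have haway : ∀ t : Finset GolayPt, ((k • t).card = 2 ∧ p ∉ k • t ∧ q ∉ k • t) ↔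
      t ∈ awaySets (ofMask 3) 2 := by
    intro t
    rw [Finset.card_smul_finset, mem_translate ep, mem_translate eq, ofMask_three, awaySets,
      Set.mem_setOf_eq, Finset.disjoint_insert_left, Finset.disjoint_singleton_left]
  have hfix : ∀ g ∈ stabM (ofMask 12) ⊓ MulAction.stabilizer _ P₀ ⊓ MulAction.stabilizer _ Q₀,
      g • ofMask 12 = ofMask 12 ∧ g • ofMask 15 = ofMask 15 := by
    intro g hg
    refine ⟨smul_eq_self hg.1.1, ?_⟩
    rw [show ofMask 15 = {P₀, Q₀} ∪ ofMask 12 by decide +kernel, smul_union',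
      smul_eq_self hg.1.1, fix_smul_pair hg.1.2 hg.2]
  have hinv : ∀ g ∈ stabM (ofMask 12) ⊓ MulAction.stabilizer _ P₀ ⊓ MulAction.stabilizer _ Q₀,
      ∀ t ∈ awaySets (ofMask 3) 2,
        (hexadIn (ofMask 15 ∪ g • t) ↔ hexadIn (ofMask 15 ∪ t)) := by
    intro g hg t _
    conv_lhs => rw [← (hfix g hg).2, ← smul_union', hexadIn_smul hg.1.1.1]
  have hdisj : ∀ t : Finset GolayPt,
      Disjoint ({a, b} : Finset GolayPt) (k • t) ↔ (ofMask 12 ∩ t).card = 0 := by
    intro t
    rw [← es, Finset.disjoint_iff_inter_eq_empty, ← Finset.smul_finset_inter,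
      Finset.smul_finset_eq_empty, Finset.card_eq_zero]
  have hP0 : ∀ g ∈ stabM (ofMask 12) ⊓ MulAction.stabilizer _ P₀ ⊓ MulAction.stabilizer _ Q₀,
      ∀ t : Finset GolayPt, (ofMask 12 ∩ g • t).card = (ofMask 12 ∩ t).card :=
    fun g hg t => inter_invariant (hfix g hg).1 t
  refine ⟨?_, ?_, fun t t' ht ht' hts hts' hc h => ?_⟩
  · rw [ncard_translate k (Q := fun t => t ∈ awaySets (ofMask 3) 2 ∧
        ((ofMask 12 ∩ t).card = 0 ∧ hexadIn (ofMask 15 ∪ t)))
      (fun t => by rw [haway t, hdisj t, h15 t]),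
      ncard_of_invariant pqsDuad_setup
        (fun t => (ofMask 12 ∩ t).card = 0 ∧ hexadIn (ofMask 15 ∪ t))
        (fun g hg t ht => by rw [hP0 g hg t, hinv g hg t ht])
        (fun i => [2, 1, 0, 0].getD i 0 == 0 && i != 3)
        (fun i hi => by rw [Bool.and_eq_true, beq_iff_eq, (duad_val i hi).2, (duad_val i hi).1])]
    decide +kernel
  · rw [ncard_translate k (Q := fun t => t ∈ awaySets (ofMask 3) 2 ∧
        ((ofMask 12 ∩ t).card = 0 ∧ ¬ hexadIn (ofMask 15 ∪ t)))
      (fun t => by rw [haway t, hdisj t, h15 t]),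
      ncard_of_invariant pqsDuad_setup
        (fun t => (ofMask 12 ∩ t).card = 0 ∧ ¬ hexadIn (ofMask 15 ∪ t))
        (fun g hg t ht => by rw [hP0 g hg t, hinv g hg t ht])
        (fun i => [2, 1, 0, 0].getD i 0 == 0 && !(i != 3))
        (fun i hi => by
          rw [Bool.and_eq_true, beq_iff_eq, (duad_val i hi).2, ← (duad_val i hi).1,
            Bool.not_eq_true', Bool.eq_false_iff])]
    decide +kernel
  obtain ⟨g, hg, hgo⟩ := exists_map_level
    (fun t => ((ofMask 12 ∩ t).card, decide (hexadIn (ofMask 15 ∪ t)))) pqsDuad_setup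
    (fun g hg t ht => by
      simp only [hP0 g hg t, hinv g hg t ht])
    (by
      have hval : (pqsDuadReps.map mOf).map
          (fun t => ((ofMask 12 ∩ t).card, decide (hexadIn (ofMask 15 ∪ t)))) =
          [(2, true), (1, true), (0, true), (0, false)] := by
        refine List.ext_getElem (by decide +kernel) fun i h1 h2 => ?_
        have hi : i < (pqsDuadReps.map mOf).length := by simpa using h1
        rw [List.getElem_map, (duad_val i hi).2,
          show decide (hexadIn (ofMask 15 ∪ (pqsDuadReps.map mOf)[i])) = (i != 3) from by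
            rw [Bool.eq_iff_iff, decide_eq_true_eq, (duad_val i hi).1]]
        have : i < 4 := h2
        interval_cases i <;> rfl
      rw [hval]; decide) k
    (x := t) (y := t')
    ((haway _).1 (by rw [smul_inv_smul]; exact ht))
    ((haway _).1 (by rw [smul_inv_smul]; exact ht'))
    (by
      simp only [Prod.mk.injEq, decide_eq_decide]
      rw [inter_inv_translate es, inter_inv_translate es, ← h15, ← h15, smul_inv_smul,
        smul_inv_smul]
      exact ⟨hc, h⟩)
  exact ⟨k * g * k⁻¹, conj_mem hk hg.1.1.1,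
    by rw [← Equiv.Perm.smul_def, ← ep]; exact conj_fixes hg.1.2,
    by rw [← Equiv.Perm.smul_def, ← eq]; exact conj_fixes hg.2,
    es ▸ conj_fixes (hfix g hg).1, hgo⟩

end Cfsg.Agent.S1638
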