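import Cfsg.Statements.S1639
import Cfsg.Agent.Eq.Def_SporadicCombinatorics
import Cfsg.Agent.M24Orbits.Transitive

set_option autoImplicit false
open scoped Pointwise
open Cfsg

open CfsgLib.Golay CfsgLib.Mathieu CfsgLib.M24Orbits CfsgLib.M24Orbits.Data

namespace Cfsg.Agent.S1639

/-- The point stabiliser acts on the 1288 dodecads through the point with rank 4 and subdegrees 1, 165, 330, 792, distinguished by intersection 4, 8, 6 with the fixed dodecad. -/
theorem result (x : Cfsg.GolayPt) (d : Finset Cfsg.GolayPt) (hd : d ∈ Cfsg.dodecads) (hx : x ∈ d) : {d' : Finset Cfsg.GolayPt | d' ∈ Cfsg.dodecads ∧ x ∈ d' ∧ (d ∩ d').card = 4}.ncard = 165 ∧ {d' : Finset Cfsg.GolayPt | d' ∈ Cfsg.dodecads ∧ x ∈ d' ∧ (d ∩ d').card = 8}.ncard = 330 ∧ {d' : Finset Cfsg.GolayPt | d' ∈ Cfsg.dodecads ∧ x ∈ d' ∧ (d ∩ d').card = 6}.ncard = 792 ∧ ∀ d' d'' : Finset Cfsg.GolayPt, d' ∈ Cfsg.dodecads → d'' ∈ Cfsg.dodecads → x ∈ d' → x ∈ d'' → (d ∩ d').card = (d ∩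 d'').card → ∃ g : Equiv.Perm Cfsg.GolayPt, g ∈ Cfsg.M24 ∧ g x = x ∧ g • d = d ∧ g • d' = d'' := by
  obtain ⟨k, hk, eo, ex⟩ := exists_map_dodecad_point hd hx
  have hfix : ∀ g ∈ stabM D₀ ⊓ MulAction.stabilizer _ P₀, g • D₀ = D₀ :=
    fun g hg => smul_eq_self hg.1
  have hcount : ∀ j, {d' : Finset GolayPt | d' ∈ dodecads ∧ x ∈ d' ∧ (d ∩ d').card = j}.ncard =
      xDodCert.flatten.countP
        (fun c => pop (28637 &&& (xDodReps.getD (eRep c) []).headI) == j) := by
    intro j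
    rw [← ncard_inter_eq xDod_setup 28637 j hfix]
    refine ncard_translate k fun y => ?_
    rw [dodecads_translate hk, mem_translate ex, inter_translate eo]
    simp only [Set.mem_setOf_eq, and_assoc]
  refine ⟨(hcount 4).trans (by decide +kernel), (hcount 8).trans (by decide +kernel),
    (hcount 6).trans (by decide +kernel), fun o' o'' ho' ho'' hx' hx'' h => ?_⟩
  obtain ⟨g, hg, hgo⟩ := exists_map_level (fun s : Finset GolayPt => (D₀ ∩ s).card) xDod_setup
    (fun g hg x _ => inter_invariant (hfix g hg) x)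
    (by rw [map_inter_card]; decide +kernel) k
    (x := o') (y := o'')
    ⟨smul_mem_dodecads (M24.inv_mem hk) ho', (mem_inv_translate ex _).2 hx'⟩
    ⟨smul_mem_dodecads (M24.inv_mem hk) ho'', (mem_inv_translate ex _).2 hx''⟩
    (by rw [inter_inv_translate eo, inter_inv_translate eo]; exact h)
  exact ⟨k * g * k⁻¹, conj_mem hk hg.1.1,
    by rw [← Equiv.Perm.smul_def, ← ex]; exact conj_fixes hg.2,
    eo ▸ conj_fixes (hfix g hg), hgo⟩

end Cfsg.Agent.S1639
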