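import Cfsg.Statements.S1643
import Cfsg.Agent.Eq.Def_SporadicCombinatorics
import Cfsg.Agent.M24Orbits.IndexSub23
import Cfsg.Agent.S1606

set_option autoImplicit false
open scoped Pointwise
open Cfsg

open CfsgLib.Golay CfsgLib.Mathieu CfsgLib.M24Orbits

namespace Cfsg.Agent.S1643

/-- An orbit of length 253 on sextets of the group `PSL(2,23)`. -/
def sextOrbit : List (List ℕ) := [
  [71,45088,459776,1065232,4196872,11010176],
  [101,45058,262536,3277312,4800512,8391696],
  [105,262532,1075200,2162706,4330496,8946176],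
  [135,5144,140032,1116192,4505600,11010112],
  [142,5137,90176,919552,2130464,13631744],
  [202,90116,525072,1212417,6554624,8394784],
  [210,272385,525064,2150400,4325412,9503744],
  [270,10288,280064,622593,2232384,13631616],
  [275,69120,1065028,2633728,4587528,8421536],
  [284,10274,180352,1839104,4260928,10486273],
  [293,51712,200720,262344,6292482,9969664],
  [305,200708,541704,3409920,4203072,8421506],
  [404,180232,1050144,2424834,4720641,8400960],
  [420,262217,544770,1050128,4300800,10618880],
  [449,262188,581632,2229264,4263938,9439744],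
  [525,74784,430080,1589376,4196418,10486032],
  [540,20576,560128,1245186,4464768,10486017],
  [547,17600,786452,1052936,4423680,10496000],
  [550,138240,786449,2130056,5267456,8454464],
  [568,20548,133249,360704,3678208,12583938],
  [581,98448,529664,3276832,4196362,8675328],
  [586,103424,401440,524688,4196357,11550720],
  [593,98436,1311752,2639872,4202784,8523778],
  [610,17537,401416,1083408,6819840,8454404],
  [643,17504,139524,563200,7340048,8716296],
  [808,360464,1052675,2100288,4849668,8413312],
  [840,212993,524434,1089540,2100256,12849152],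
  [898,139269,524376,1163264,4458528,10490880],
  [1050,4229,149568,860160,3178752,12583456],
  [1065,74244,296962,540944,4329536,11534464],
  [1080,41152,540929,1120256,2490372,12583426],
  [1094,35200,458753,1572904,2105872,12603392],
  [1100,276480,1572898,2146305,4260112,8520320],
  [1136,41096,266498,721408,7356416,8390661],
  [1162,4117,196896,1059328,6553664,8962048],
  [1172,4107,206848,802880,1049376,14712832],
  [1186,16961,196872,2623504,5279744,8658948],
  [1220,35074,802832,2166816,5251073,8520200],
  [1286,35008,279048,1126400,6291489,9043984],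
  [1289,540720,1181700,2428928,4227712,8396866],
  [1409,14368,1835010,2228304,4227592,8470532],
  [1616,720928,1310729,2105350,4200576,8438016],
  [1665,16482,1249280,2361348,4227336,8921104],
  [1680,425986,1048868,2179080,4200512,8921089],
  [1796,278538,528449,1048752,2326528,12593152],
  [2069,344072,1061376,2260994,4718976,8389728],
  [2073,37184,131744,344068,6300672,9961474],
  [2100,8458,299136,1720320,6357504,8389697],
  [2130,148488,270465,593924,1081888,14680320],
  [2160,82304,1081858,2240512,4980744,8389637],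
  [2188,70400,917506,3145808,4211744,8429569],
  [2200,131617,552960,3145796,4292610,8652032],
  [2272,82192,532996,1442816,6324225,8392714],
  [2324,8234,393792,2118656,4718721,9535488],
  [2337,13440,49668,655426,3407888,12648456],
  [2344,8214,413696,1605760,2098752,12648449],
  [2372,33922,393744,2170881,5247008,8929288],
  [2440,70148,1605664,2113539,4333632,8651792],
  [2572,70016,558096,2252800,4194371,9699360],
  [2577,66818,131240,1060868,2637888,12877824],
  [2578,66817,1081440,2363400,4857856,8405124],
  [2593,49412,131224,331840,5768192,10493954],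
  [2818,28736,66577,3670020,4456608,8552456],
  [3081,294946,590016,1179908,6299664,8409600],
  [3232,12545,1441856,2621458,4210700,8487424],
  [3330,32964,66065,2498560,4722696,9453600],
  [3360,12417,851972,2097736,4358160,9453570],
  [3592,557076,1056898,2097504,4653056,8409089],
  [4138,688144,1049345,2122752,4521988,8390848],
  [4146,74368,263488,688136,4212737,11534340],
  [4200,16916,598272,3440640,4326401,8390786],
  [4260,296976,540930,1187848,2163776,12583425],
  [4320,164608,1572881,2163716,4481024,8390666],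
  [4376,34881,140800,1835012,6291616,8470530],
  [4400,196613,263234,1105920,6291592,8915456],
  [4544,164384,1065992,2885632,4259843,8396820],
  [4648,16468,787584,1048835,4237312,10682368],
  [4674,26880,99336,1310852,6815776,8519697],
  [4688,16428,827392,3211520,4197504,8519683],
  [4744,67844,787488,2105409,4341762,9469968],
  [4880,140296,278657,3211328,4227078,8914976],
  [5154,133636,262480,2121736,5275776,8978433],
  [5156,133634,1327105,2162880,4726800,8421640],
  [5185,90128,525060,3147778,4325416,8683648],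
  [5186,98824,262448,663680,3147777,12599300],
  [5633,524612,1245312,2129968,4464642,8407048],
  [5636,57472,133154,524609,7340040,8716304],
  [6153,33104,204802,2621476,5505152,8406528],
  [6162,589892,1180032,2359816,4210721,8430592],
  [6401,9376,32856,1654784,6423040,8650758],
  [6464,25090,32793,2883712,5242916,8586240],
  [6660,65928,132130,1056785,4997120,10518592],
  [6720,24834,327713,1703944,4195472,10518532],
  [7184,917505,1114152,2113796,4195008,8429570],
  [8241,624640,1180674,2113668,4195136,8654856],
  [8276,655369,1376288,2098690,4245504,8393088],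
  [8292,36867,148736,526976,1376272,14680072],
  [8337,264258,1114376,2113572,4362240,8914432],
  [8400,33832,264195,1196544,6881280,8392964],
  [8451,131716,344096,2625552,5277696,8389704],
  [8520,593952,1081860,2375696,4327552,8389635],
  [8640,329216,573441,3145762,4327432,8392724],
  [8713,49170,66596,788736,2101440,13762560],
  [8752,69762,281600,3670024,4194625,8552452],
  [8800,393226,526468,2211840,4194577,9442304],
  [9088,131079,328768,2131984,5771264,8405032],
  [9219,542724,1179696,2195584,4461056,8388936],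
  [9296,32936,86017,1575168,2097670,12976128],
  [9348,53760,198672,2621704,5242945,8650786],
  [9488,135688,294917,1574976,4210818,10551328],
  [9729,65580,165952,3162368,4460546,8913040],
  [9760,65549,280592,557314,6422656,9441344],
  [10308,267272,524960,2162945,4243472,9568258],
  [10312,267268,1064993,2654210,4325760,8454672],
  [10370,180256,262225,1050120,6295556,8978688],
  [10372,197648,524896,1327360,6295554,8421385],
  [10753,164928,786696,1052692,4276352,10485794],
  [11266,540677,1049224,2490624,4259936,8425488],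
  [11272,114944,266308,1049218,6291473,9044000],
  [12306,66208,409604,2621697,5242952,8424448],
  [12324,32835,1179784,2360064,4719632,8472576],
  [12353,32806,82960,1442048,2097800,13109248],
  [12802,18752,65712,3309568,4457473,8912908],
  [12928,50180,65586,2097225,5767424,8783872],
  [13320,131856,264260,1605633,2113570,12648576],
  [16395,41488,790592,2099584,5309440,8519716],
  [16403,41480,721024,1048900,4200480,10748928],
  [16405,329736,1048898,2105504,4326912,8949760],
  [16552,102401,1310738,2752576,4197380,8397568],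
  [16584,73734,297472,1053952,2752544,12582929],
  [16649,197184,525360,2099330,4206596,9732096],
  [16674,335873,528516,2228752,4227144,9440256],
  [16800,67664,528390,2393088,5373953,8397320],
  [16902,263432,688192,2166785,5251104,8390800],
  [17040,266497,1187904,2163720,4751392,8390662],
  [17153,34852,196680,266384,3154944,13107202],
  [17280,266257,658432,1146882,6291524,8396840],
  [17426,98340,133192,1577472,4202880,10747905],
  [18176,262158,657536,3153921,4263968,8421456],
  [18438,533505,1085448,2359392,4391168,8389264],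
  [18561,135236,1082384,2097418,4268544,9175072],
  [18592,65872,172034,3150336,4195340,9175041],
  [18696,107520,397344,2097283,5243408,8912964],
  [18976,33029,271376,589834,3149952,12714048],
  [19458,131160,331904,532485,6324736,9437472],
  [19520,131098,561184,1114628,4456705,10494080],
  [20616,98337,534544,1049920,4325890,10747908],
  [20624,262913,534536,2129986,5308420,8520736],
  [20740,360512,524450,2100240,4202505,9568768],
  [20744,395296,1049792,2654720,4202501,8454162],
  [21506,164097,329856,1573392,2105384,12582980],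
  [22529,131268,1638656,2400256,4194354,8390152],
  [22532,131265,1081354,2098448,4981248,8462368],
  [22544,229888,532616,2098436,4194339,9699392],
  [24585,33298,394368,1050720,4198660,11075584],
  [24609,327938,659968,1050696,2097300,12616704],
  [24612,132416,819208,2097297,5243394,8460288],
  [24648,65670,1050657,2359568,4720128,8556544],
  [24706,65612,165920,2884096,4195600,9441281],
  [25604,37504,131424,526339,6619136,9437208],
  [25856,100360,131172,3146241,4194450,9179136],
  [26640,263712,528520,3211266,4227140,8519937],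
  [32790,82976,1581184,2230273,4199168,8650824],
  [32810,265217,659472,2097796,4211008,9510912],
  [32817,409664,600064,2102784,5242892,8388994],
  [32929,86024,656388,1319424,6293568,8388882],
  [33168,147468,594944,2107904,5505088,8388643],
  [33348,65681,671746,1057032,4457504,10491904],
  [33409,65620,530434,1318944,4195592,10633216],
  [33600,135328,1056780,2359299,4786176,8406032],
  [33795,151808,264232,2171008,4718672,9437700],
  [33804,526864,1376384,2113601,4333570,8392992],
  [33809,270596,1067136,2101792,4718658,8585224],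
  [34080,532994,1114177,2375808,4327440,8392716],
  [34306,69704,393360,532768,6309888,9437189],
  [34560,532514,1316864,2293764,4194441,8405072],
  [36352,139329,524316,1315072,6307842,8454304],
  [36876,393729,1067010,2170896,4718784,8389920],
  [37122,148481,270472,2164768,4194836,9961536],
  [37392,215040,794688,2098209,4194566,9437320],
  [37952,66058,542752,1179668,6299904,8650881],
  [38916,262320,663808,1064970,4260865,10486336],
  [39040,262196,524803,1122368,2229256,12599552],
  [41217,263188,540864,2228264,5244930,8458752],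
  [41232,196674,263173,1069088,2099840,13107208],
  [41248,525826,1069072,2228233,4259972,8652864],
  [43009,132672,589872,2379776,5243138,8388748],
  [43012,328194,659712,3146784,4210768,8388745],
  [45064,262530,1573889,2162708,4196896,8536128],
  [49218,655876,1319936,2101392,4194600,8456193],
  [49224,264832,1638416,2098181,4194594,8531968],
  [49296,131340,1051649,2101314,4719136,8724480],
  [50177,135426,852480,1050768,2097228,12591136],
  [51208,75008,262848,1052678,4849665,10485808],
  [53280,65673,527424,1057040,6422532,8651266],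
  [65547,145408,557316,2097264,5260288,8651392],
  [65633,268800,1082624,2097178,4734980,8528000],
  [65634,819328,1200128,2097177,4205568,8389380],
  [65797,135216,557066,2107456,5505536,8406144],
  [65858,172048,1312776,2638848,4198529,8389156],
  [66336,294936,1189888,2621569,4215808,8388678],
  [66696,131362,526401,1343492,2114064,12595200],
  [67200,270656,1183745,2113560,4718598,8423456],
  [67590,303616,528464,1048737,4342016,10486792],
  [67608,278533,1053728,2752768,4227202,8397376],
  [67618,541192,1048709,2134272,4203584,8781840],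
  [67649,266784,525448,2105604,5373968,8437762],
  [67713,426240,525384,1048614,4219392,10489872],
  [68160,266273,1065988,2228354,4751616,8396824],
  [68612,139408,786720,1065536,4231169,10485770],
  [72704,278658,1048632,2630144,4227077,8520000],
  [73731,137224,278816,1573440,2131072,12582932],
  [73752,787458,1048961,2134020,4341792,8391232],
  [75904,132116,1085504,2359336,4211201,8913154],
  [77832,133123,524640,1327616,2129940,12584064],
  [78080,524392,1049606,2244736,4458512,8421889],
  [82434,526376,1081728,2101253,4456528,8528896],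
  [82464,393348,526346,2138176,4199680,9437201],
  [82496,131337,1051652,2138144,4456466,8917120],
  [86018,265344,1179744,2097669,4759552,8388888],
  [98592,262680,1049665,2103298,4202628,9060352],
  [100354,270852,1704960,2101536,4194456,8405057],
  [102416,150016,525696,1310723,2105356,12583008],
  [106560,131346,1054848,2114080,4456457,8913924],
  [131094,290816,1114632,2131969,4194528,8914176],
  [131153,311328,532492,2098560,5310464,8393218],
  [131266,537600,1081353,2165248,4194356,8667392],
  [131594,270432,1114132,2622465,4214912,8423680],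
  [132129,557188,1056786,2181120,4198472,8651520],
  [133392,262724,1052802,2686984,4228128,8413185],
  [134400,541312,1048589,2367490,4227120,8458304],
  [135180,295425,607232,1056928,2097474,12584976],
  [135298,533568,1050896,2359329,4211208,8486916],
  [135681,294924,548896,1115264,6293760,8388690],
  [136320,532546,1114625,2131976,4456708,8405040],
  [139297,545280,1049618,2130184,4458500,8454336],
  [147462,274448,557632,3146880,4262144,8388649],
  [147473,295008,589954,3149832,4195844,8399104],
  [147504,294977,1574916,2097922,4268040,8393856],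
  [155664,266246,1049280,2655232,4259880,8390913],
  [156160,528417,1048784,2099212,4489472,8455170],
  [163969,329984,525348,1048650,4206608,10502656],
  [164868,524449,1052752,2163456,4202506,8669184],
  [164992,262674,524325,2103304,4276288,9445632],
  [172036,530688,1130497,2359488,4195338,8389168],
  [204832,300032,1051392,2621446,4210712,8388801],
  [213120,262692,524307,2109696,4228160,9439240],
  [262306,622656,1064984,2232321,4197120,8397828],
  [270360,590850,1214464,2113856,4194948,8392737],
  [271362,589848,1097792,2230528,4198913,8388772],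
  [272640,524809,1065092,2229250,4263952,8421472],
  [278594,528393,1090560,2099236,4260368,8520064],
  [312320,590337,1056834,2097568,4198424,8521732]]

/-- The multiplications by the squares. -/
def squareTabs : List (List ℕ) := [
  [0,1,2,3,4,5,6,7,8,9,10,11,12,13,14,15,16,17,18,19,20,21,22,23],
  [0,2,4,6,8,10,12,14,16,18,20,22,1,3,5,7,9,11,13,15,17,19,21,23],
  [0,4,8,12,16,20,1,5,9,13,17,21,2,6,10,14,18,22,3,7,11,15,19,23],
  [0,8,16,1,9,17,2,10,18,3,11,19,4,12,20,5,13,21,6,14,22,7,15,23],
  [0,16,9,2,18,11,4,20,13,6,22,15,8,1,17,10,3,19,12,5,21,14,7,23],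
  [0,9,18,4,13,22,8,17,3,12,21,7,16,2,11,20,6,15,1,10,19,5,14,23],
  [0,18,13,8,3,21,16,11,6,1,19,14,9,4,22,17,12,7,2,20,15,10,5,23],
  [0,13,3,16,6,19,9,22,12,2,15,5,18,8,21,11,1,14,4,17,7,20,10,23],
  [0,3,6,9,12,15,18,21,1,4,7,10,13,16,19,22,2,5,8,11,14,17,20,23],
  [0,6,12,18,1,7,13,19,2,8,14,20,3,9,15,21,4,10,16,22,5,11,17,23],
  [0,12,1,13,2,14,3,15,4,16,5,17,6,18,7,19,8,20,9,21,10,22,11,23]]



/-- The translation of the finite points. -/
abbrev c₁ : Equiv.Perm GolayPt := Equiv.optionCongr (Equiv.addRight (1 : ZMod 23))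

/-- The set of multiplications by squares. -/
abbrev sqSet : Set (Equiv.Perm GolayPt) :=
  {g : Equiv.Perm GolayPt | ∃ u : (ZMod 23)ˣ, IsSquare u ∧ g = Equiv.optionCongr (Units.mulLeft u)}

/-- The Frobenius group of order 253. -/
abbrev frob : Subgroup (Equiv.Perm GolayPt) := Subgroup.closure ({c₁} ∪ sqSet)

/-- The projective group. -/
abbrev psl : Subgroup (Equiv.Perm GolayPt) :=
  Subgroup.closure ({Equiv.optionCongr (Equiv.addRight (1 : ZMod 23)), Cfsg.projInv} ∪ sqSet)

/-- The stabiliser of the infinite point. -/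
abbrev G23 : Subgroup (Equiv.Perm GolayPt) := fixPt M24 (none : GolayPt)

/-- The Mathieu normaliser of a cyclic group. -/
abbrev nm (ρ : Equiv.Perm GolayPt) : Subgroup (Equiv.Perm GolayPt) := S1606.nm ρ

theorem square_tab : ∀ v : (ZMod 23)ˣ,
    toTab (Equiv.optionCongr (Units.mulLeft (v * v)) : Equiv.Perm GolayPt) ∈ squareTabs := by
  decide +kernel

theorem squareTabs_facts :
    (squareTabs.all fun t => autoOK t && app t 23 == 23 &&
      (List.range 23).any fun j => compTab t shiftTab == compTab (CfsgLib.Mathieu.powTab shiftTab j) t) = true ∧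
    (squareTabs.all fun t => sextOrbit.all fun S => sextOrbit.any fun T => actF t S == T) = true ∧
    (sextOrbit.all fun S => sextOrbit.any fun T => actF shiftTab S == T) = true ∧
    (sextOrbit.all fun S => sextOrbit.any fun T => actF projInvTab S == T) = true ∧
    sextetOK (sextOrbit.headI) = true ∧ sextOrbit.contains (sextOrbit.headI) = true ∧
    sextOrbit.length = 253 ∧ CfsgLib.Mathieu.orderTabOK 23 shiftTab = true ∧
    CfsgLib.Mathieu.orderTabOK 11 (squareTabs.getD 1 []) = true ∧
    app shiftTab 23 = 23 ∧ (∀ i < 23, app (CfsgLib.Mathieu.powTab shiftTab i) 0 = i) ∧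
    app projInvTab 23 = 0 := by
  decide +kernel

theorem square_props {g : Equiv.Perm GolayPt} (hg : g ∈ sqSet) :
    toTab g ∈ squareTabs ∧ g ∈ G23 := by
  obtain ⟨u, ⟨v, rfl⟩, rfl⟩ := hg
  have hmem := square_tab v
  have h := List.all_eq_true.1 squareTabs_facts.1 _ hmem
  simp only [Bool.and_eq_true] at h
  refine ⟨hmem, ?_, rfl⟩
  obtain ⟨k, hk, e⟩ := rep_of_autoOK h.1.1
  rwa [CfsgLib.Mathieu.toTab_injective e] at hk

theorem orderOf_c₁ : orderOf c₁ = 23 :=
  CfsgLib.Mathieu.orderOf_of_tab (by norm_num) (by rw [toTab_shift]; exact squareTabs_facts.2.2.2.2.2.2.2.1)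

theorem c₁_mem : c₁ ∈ G23 := ⟨shift_mem, rfl⟩

theorem pow_apply_zero {i : ℕ} (hi : i < 23) : (c₁ ^ i) (i2p 0) = i2p i := by
  apply p2i_injective
  rw [← app_toTab (c₁ ^ i) 0 (by norm_num), CfsgLib.Mathieu.toTab_pow, toTab_shift,
    p2i_i2p i (by omega)]
  exact squareTabs_facts.2.2.2.2.2.2.2.2.2.2.1 i hi

theorem hfac {q a b : ℕ} (hq : q.Prime) (e : a = q * b) (hb : ¬ q ∣ b) :
    a.factorization q = 1 := by
  rw [e, Nat.factorization_mul hq.ne_zero (fun h => hb (by rw [h]; exact dvd_zero q)),
    Finsupp.add_apply, Nat.Prime.factorization_self hq,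
    Nat.factorization_eq_zero_of_not_dvd hb]

theorem sylow_count (p : ℕ) [hp : Fact p.Prime] {K : Subgroup (Equiv.Perm GolayPt)}
    (hK : (Nat.card K).factorization p = 1) {ρ : Equiv.Perm GolayPt} (hρ : ρ ∈ K)
    (hord : orderOf ρ = p) : ∃ n,
      Nat.card (K ⊓ nm ρ : Subgroup (Equiv.Perm GolayPt)) * n = Nat.card K ∧ n % p = 1 := by
  have hc : orderOf (⟨ρ, hρ⟩ : K) = p := by rw [← Subgroup.orderOf_coe]; exact hord
  let P : Sylow p K := Sylow.ofCard (Subgroup.zpowers (⟨ρ, hρ⟩ : K))
    (by rw [Nat.card_zpowers, hc, hK, pow_one])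
  rw [← S1606.card_inf_nm hρ]
  refine ⟨_, Subgroup.card_mul_index _, ?_⟩
  have hidx : Nat.card (Sylow p K) = (Subgroup.normalizer
      ((Subgroup.zpowers (⟨ρ, hρ⟩ : K) : Subgroup K) : Set K)).index := P.card_eq_index_normalizer
  have h := card_sylow_modEq_one p K
  rw [hidx] at h
  exact Nat.mod_eq_of_modEq h hp.out.one_lt

/-- The normaliser of a Sylow subgroup at 23. -/
theorem card_nm23 : Nat.card (G23 ⊓ nm c₁ : Subgroup (Equiv.Perm GolayPt)) = 253 := by
  classical
  haveI : Fact (Nat.Prime 23) := ⟨by norm_num⟩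
  obtain ⟨n, hn, hn1⟩ := sylow_count 23 (K := G23)
    (by
      rw [CfsgLib.Mathieu.card_fixPt]
      exact hfac (by norm_num) (show 10200960 = 23 * 443520 by norm_num) (by norm_num))
    c₁_mem orderOf_c₁
  rw [CfsgLib.Mathieu.card_fixPt] at hn
  set N := G23 ⊓ nm c₁
  choose j hj hjeq using fun x : N => S1606.exists_pow_of_mem_nm orderOf_c₁ x.2.2
  have hle : Nat.card N ≤ 552 := by
    have hinj : Function.Injective
        (fun x : N => ((⟨j x, hj x⟩ : Fin 23), (x : Equiv.Perm GolayPt) (i2p 0))) := by
      intro a b e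
      simp only [Prod.mk.injEq, Fin.mk.injEq] at e
      apply Subtype.ext
      ext q : 1
      have hrec : ∀ (x : N) (i : ℕ), (x : Equiv.Perm GolayPt) * c₁ ^ i =
          (c₁ ^ j x) ^ i * x := by
        intro x i
        induction i with
        | zero => simp
        | succ i ih => rw [pow_succ, ← mul_assoc, ih, mul_assoc, hjeq x, ← mul_assoc, ← pow_succ]
      rw [← i2p_p2i q]
      by_cases hq : p2i q = 23
      · rw [hq, show i2p 23 = (none : GolayPt) from rfl]
        exact (show (a : Equiv.Perm GolayPt) none = none from a.2.1.2).trans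
          (show (b : Equiv.Perm GolayPt) none = none from b.2.1.2).symm
      · have hlt : p2i q < 23 := by have := p2i_lt q; omega
        rw [← pow_apply_zero hlt, ← Equiv.Perm.mul_apply, ← Equiv.Perm.mul_apply, hrec, hrec,
          Equiv.Perm.mul_apply, Equiv.Perm.mul_apply, e.1, e.2]
    have := Nat.card_le_card_of_injective _ hinj
    rwa [Nat.card_prod, Nat.card_eq_fintype_card (α := Fin 23), Fintype.card_fin, natCard_pt] at this
  have h23 : 23 ∣ Nat.card N := by
    rw [← orderOf_c₁]
    exact Subgroup.orderOf_coe (⟨c₁, c₁_mem, S1606.mem_nm (j := 1) (by rw [pow_one])⟩ : N) ▸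
      orderOf_dvd_natCard _
  have hall : ∀ k < 25, (23 * k ∣ 10200960 ∧ 10200960 / (23 * k) % 23 = 1) → k = 11 := by
    decide +kernel
  obtain ⟨k, hk⟩ := h23
  rw [hk] at hn hle ⊢
  have := hall k (by omega) ⟨⟨n, hn.symm⟩, by
    rw [← hn, Nat.mul_div_cancel_left _ (by rcases Nat.eq_zero_or_pos k with rfl | h <;> simp_all)]
    exact hn1⟩
  omega

theorem frob_eq : frob = G23 ⊓ nm c₁ := by
  have hle : frob ≤ G23 ⊓ nm c₁ := by
    rw [frob, Subgroup.closure_le]
    rintro g (rfl | hg)
    · exact ⟨c₁_mem, S1606.mem_nm (j := 1) (by rw [pow_one])⟩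
    · obtain ⟨ht, hG⟩ := square_props hg
      refine ⟨hG, ?_⟩
      have h := List.all_eq_true.1 squareTabs_facts.1 _ ht
      simp only [Bool.and_eq_true, List.any_eq_true, beq_iff_eq] at h
      obtain ⟨-, j, -, ej⟩ := h
      refine S1606.mem_nm (j := j) (CfsgLib.Mathieu.toTab_injective ?_)
      rw [toTab_mul, toTab_mul, CfsgLib.Mathieu.toTab_pow, toTab_shift]
      exact ej
  refine Subgroup.eq_of_le_of_card_ge hle ?_
  rw [card_nm23]
  have h23 : 23 ∣ Nat.card frob := by
    rw [← orderOf_c₁]
    exact Subgroup.orderOf_coe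
      (⟨c₁, Subgroup.subset_closure (Or.inl rfl)⟩ : frob) ▸ orderOf_dvd_natCard _
  have h11 : 11 ∣ Nat.card frob := by
    obtain ⟨v, hv⟩ : ∃ v : (ZMod 23)ˣ,
        toTab (Equiv.optionCongr (Units.mulLeft (v * v)) : Equiv.Perm GolayPt) =
          squareTabs.getD 1 [] := by decide +kernel
    have hmem : (Equiv.optionCongr (Units.mulLeft (v * v)) : Equiv.Perm GolayPt) ∈ frob :=
      Subgroup.subset_closure (Or.inr ⟨v * v, ⟨v, rfl⟩, rfl⟩)
    have hord := CfsgLib.Mathieu.orderOf_of_tab (p := 11)
      (g := (Equiv.optionCongr (Units.mulLeft (v * v)) : Equiv.Perm GolayPt)) (by norm_num)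
      (by rw [hv]; exact squareTabs_facts.2.2.2.2.2.2.2.2.1)
    rw [← hord]
    exact Subgroup.orderOf_coe (⟨_, hmem⟩ : frob) ▸ orderOf_dvd_natCard _
  exact Nat.le_of_dvd Nat.card_pos
    (Nat.Coprime.mul_dvd_of_dvd_of_dvd (by norm_num : Nat.Coprime 23 11) h23 h11)

theorem card_frob : Nat.card frob = 253 := by rw [frob_eq]; exact card_nm23

/-- Overgroups of the Frobenius group in the point stabiliser. -/
theorem overgroup {K : Subgroup (Equiv.Perm GolayPt)} (hFK : frob ≤ K) (hK : K ≤ G23) :
    K = frob ∨ K = G23 := by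
  classical
  haveI : Fact (Nat.Prime 23) := ⟨by norm_num⟩
  haveI : Fact (Nat.Prime 11) := ⟨by norm_num⟩
  have hdvd : Nat.card K ∣ 10200960 :=
    CfsgLib.Mathieu.card_fixPt (none : GolayPt) ▸ Subgroup.card_dvd_of_le hK
  have hFd : 253 ∣ Nat.card K := card_frob ▸ Subgroup.card_dvd_of_le hFK
  obtain ⟨m, hm⟩ := hFd
  have hm' : m ∣ 40320 := by
    rw [hm, show 10200960 = 253 * 40320 by norm_num] at hdvd
    exact Nat.dvd_of_mul_dvd_mul_left (by norm_num) hdvd
  have hmne : ∀ q, q = 11 ∨ q = 23 → ¬ q ∣ m := by
    intro q hq hd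
    have := hd.trans hm'
    rcases hq with rfl | rfl <;> norm_num at this
  have hc : c₁ ∈ K := hFK (Subgroup.subset_closure (Or.inl rfl))
  obtain ⟨n, hn, hn1⟩ := sylow_count 23
    (by
      rw [hm]
      exact hfac (by norm_num) (show 253 * m = 23 * (11 * m) by ring) fun h =>
        ((Nat.Prime.dvd_mul (by norm_num)).1 h).elim (by norm_num) (hmne 23 (Or.inr rfl)))
    hc orderOf_c₁
  have hKN : K ⊓ nm c₁ = frob := by
    refine le_antisymm (fun x hx => frob_eq.ge ⟨hK hx.1, hx.2⟩) fun x hx => ?_
    exact ⟨hFK hx, (frob_eq.le hx).2⟩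
  rw [hKN, card_frob, hm] at hn
  have hnm : n = m := Nat.eq_of_mul_eq_mul_left (by norm_num) hn
  -- the count at eleven
  obtain ⟨a, ha⟩ := exists_prime_orderOf_dvd_card' (G := K) 11 ⟨23 * m, by rw [hm]; ring⟩
  set α : Equiv.Perm GolayPt := (a : Equiv.Perm GolayPt)
  have hαK : α ∈ K := a.2
  have hαord : orderOf α = 11 := (Subgroup.orderOf_coe a).trans ha
  have h2 := fixedPts_eleven (hK a.2).1 hαord
  obtain ⟨q, hq, hqne⟩ := Finset.exists_mem_ne (show 1 < (fixedPts α).card by rw [h2]; norm_num) none
  have hfix : fixedPts α = {none, q} := by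
    refine (Finset.eq_of_subset_of_card_le ?_ ?_).symm
    · intro w hw
      simp only [Finset.mem_insert, Finset.mem_singleton] at hw
      rcases hw with rfl | rfl
      · exact mem_fixedPts.2 (hK a.2).2
      · exact hq
    · rw [h2, Finset.card_pair hqne.symm]
  set G2 := fixPt G23 q
  have hαG2 : α ∈ G2 := ⟨hK a.2, mem_fixedPts.1 hq⟩
  have hG2 : Nat.card G2 = 443520 := card_fixPair hqne.symm
  have hinto : ∀ x ∈ G23 ⊓ nm α, x q = q := by
    intro x hx
    obtain ⟨i, -, hi⟩ := S1606.exists_pow_of_mem_nm hαord (inv_mem hx.2)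
    have hpow : ∀ i : ℕ, (α ^ i) q = q := fun i => by
      induction i with
      | zero => rfl
      | succ i ih => rw [pow_succ, Equiv.Perm.mul_apply, mem_fixedPts.1 hq, ih]
    have e : α * x = x * α ^ i := by
      have := congrArg (fun y => x * y * x) hi
      simpa [mul_assoc] using this
    have hαx : α (x q) = x q := by
      rw [← Equiv.Perm.mul_apply, e, Equiv.Perm.mul_apply, hpow]
    have hmem := mem_fixedPts.2 hαx
    rw [hfix, Finset.mem_insert, Finset.mem_singleton] at hmem
    exact hmem.resolve_left fun e' => hqne (x.injective (e'.trans (show x none = none from hx.1.2).symm))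
  have h55 : Nat.card (G23 ⊓ nm α : Subgroup (Equiv.Perm GolayPt)) = 55 := by
    have e : G23 ⊓ nm α = G2 ⊓ nm α :=
      le_antisymm (fun x hx => ⟨⟨hx.1, hinto x hx⟩, hx.2⟩) fun x hx => ⟨hx.1.1, hx.2⟩
    rw [e]
    have hf : (Nat.card G2).factorization 11 = 1 := by
      rw [hG2]; exact hfac (by norm_num) (show 443520 = 11 * 40320 by norm_num) (by norm_num)
    obtain ⟨k, h220, hk, hk1⟩ := S1606.card_normalizer_eleven hqne.symm
      (le_refl G2) hf (c := ⟨α, hαG2⟩) (by rw [← Subgroup.orderOf_coe]; exact hαord)
    rw [S1606.card_inf_nm hαG2] at h220 hk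
    rw [hG2] at hk
    have hall : ∀ d ∈ Nat.divisors 220, 443520 % d = 0 → 443520 / d % 11 = 1 → d = 55 := by
      decide +kernel
    refine hall _ (Nat.mem_divisors.2 ⟨h220, by norm_num⟩) ?_ ?_
    · rw [← hk, Nat.mul_mod_right]
    · rw [← hk, Nat.mul_div_cancel_left _ Nat.card_pos]; exact hk1
  obtain ⟨l, hl, hl1⟩ := sylow_count 11
    (by
      rw [hm]
      exact hfac (by norm_num) (show 253 * m = 11 * (23 * m) by ring) fun h =>
        ((Nat.Prime.dvd_mul (by norm_num)).1 h).elim (by norm_num) (hmne 11 (Or.inl rfl)))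
    hαK hαord
  have hN : Nat.card (K ⊓ nm α : Subgroup (Equiv.Perm GolayPt)) ∈ Nat.divisors 55 :=
    Nat.mem_divisors.2 ⟨h55 ▸ Subgroup.card_dvd_of_le (inf_le_inf_right _ hK), by norm_num⟩
  have hall : ((Nat.divisors 40320).filter fun m => m % 23 = 1).filter (fun m =>
      ∃ N ∈ Nat.divisors 55, 253 * m % N = 0 ∧ 253 * m / N % 11 = 1) ⊆ {1, 40320} := by
    decide +kernel
  have hmem : m ∈ ({1, 40320} : Finset ℕ) := by
    refine hall (Finset.mem_filter.2 ⟨Finset.mem_filter.2
      ⟨Nat.mem_divisors.2 ⟨hm', by norm_num⟩, hnm ▸ hn1⟩, _, hN, ?_, ?_⟩)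
    · rw [← hm, ← hl, Nat.mul_mod_right]
    · rw [← hm, ← hl, Nat.mul_div_cancel_left _ Nat.card_pos]; exact hl1
  simp only [Finset.mem_insert, Finset.mem_singleton] at hmem
  rcases hmem with rfl | rfl
  · exact Or.inl (Subgroup.eq_of_le_of_card_ge hFK (by rw [hm, card_frob])).symm
  · exact Or.inr (Subgroup.eq_of_le_of_card_ge hK (by rw [hm, CfsgLib.Mathieu.card_fixPt]))

theorem psl_le : psl ≤ M24 := by
  rw [psl, Subgroup.closure_le]
  rintro g ((rfl | rfl) | hg)
  · exact shift_mem
  · exact CfsgLib.Golay.projInv_mem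
  · exact (square_props hg).2.1

theorem frob_le_psl : frob ≤ psl := by
  apply Subgroup.closure_mono
  rintro g (rfl | hg)
  · exact Or.inl (Or.inl rfl)
  · exact Or.inr hg

theorem psl_transitive (q : GolayPt) : ∃ g ∈ psl, g none = q := by
  by_cases hq : p2i q = 23
  · refine ⟨1, psl.one_mem, ?_⟩
    rw [← i2p_p2i q, hq]; rfl
  have hlt : p2i q < 23 := by have := p2i_lt q; omega
  refine ⟨c₁ ^ p2i q * projInv, psl.mul_mem (psl.pow_mem (Subgroup.subset_closure
    (Or.inl (Or.inl rfl))) _) (Subgroup.subset_closure (Or.inl (Or.inr rfl))), ?_⟩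
  rw [Equiv.Perm.mul_apply, show projInv (none : GolayPt) = i2p 0 by decide, pow_apply_zero hlt,
    i2p_p2i]

theorem top_of_contains {J : Subgroup (Equiv.Perm GolayPt)} (hJ : J ≤ M24) (hG : G23 ≤ J)
    (htr : ∀ q, ∃ g ∈ J, g none = q) : J = M24 := by
  refine le_antisymm hJ fun x hx => ?_
  obtain ⟨g, hg, e⟩ := htr (x none)
  have : g⁻¹ * x ∈ G23 := ⟨M24.mul_mem (M24.inv_mem (hJ hg)) hx, by
    show (g⁻¹ * x) • (none : GolayPt) = none
    rw [mul_smul, inv_smul_eq_iff]; exact e.symm⟩
  have := J.mul_mem hg (hG this)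
  rwa [mul_inv_cancel_left] at this

theorem psl_ne : psl ≠ M24 := by
  classical
  intro e
  let C : Set (Finset (Finset GolayPt)) := {S | encF S ∈ sextOrbit}
  have hinv : ∀ g ∈ psl, ∀ S ∈ C, g • S ∈ C := by
    intro g hg
    have hg' : g ∈ Submonoid.closure ({Equiv.optionCongr (Equiv.addRight (1 : ZMod 23)),
        Cfsg.projInv} ∪ sqSet) := by
      rw [← Subgroup.closure_toSubmonoid_of_finite]; exact hg
    induction hg' using Submonoid.closure_induction with
    | mem x hx =>
      intro S hS
      have hstep : (sextOrbit.all fun S => sextOrbit.any fun T => actF (toTab x) S == T) = true := by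
        rcases hx with (rfl | rfl) | hx
        · rw [toTab_shift]; exact squareTabs_facts.2.2.1
        · rw [toTab_projInv]; exact squareTabs_facts.2.2.2.1
        · exact List.all_eq_true.1 squareTabs_facts.2.1 _ (square_props hx).1
      have h := List.all_eq_true.1 hstep _ hS
      simp only [List.any_eq_true, beq_iff_eq] at h
      obtain ⟨T, hT, eT⟩ := h
      show encF (x • S) ∈ sextOrbit
      rw [encF_smul, eT]; exact hT
    | one => intro S hS; rwa [one_smul]
    | mul x y hx hy ihx ihy =>
      intro S hS
      rw [mul_smul]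
      refine ihx ?_ _ (ihy ?_ S hS)
      · rw [← Subgroup.mem_toSubmonoid, Subgroup.closure_toSubmonoid_of_finite]; exact hx
      · rw [← Subgroup.mem_toSubmonoid, Subgroup.closure_toSubmonoid_of_finite]; exact hy
  have h0ok := squareTabs_facts.2.2.2.2.1
  have h0 : famOf sextOrbit.headI ∈ C := by
    show encF (famOf sextOrbit.headI) ∈ sextOrbit
    rw [encF_famOf (by simp only [sextetOK, Bool.and_eq_true] at h0ok; exact h0ok.1.1.1)]
    exact List.contains_iff_mem.1 squareTabs_facts.2.2.2.2.2.1
  have hsub : sextets ⊆ C := fun S hS => by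
    obtain ⟨k, hk, ek⟩ := exists_map_sextet (famOf_mem_sextets h0ok)
    obtain ⟨l, hl, el⟩ := exists_map_sextet hS
    have : (l * k⁻¹) • famOf sextOrbit.headI = S := by
      rw [mul_smul, ← ek, inv_smul_smul, el]
    exact this ▸ hinv _ (e ▸ M24.mul_mem hl (M24.inv_mem hk)) _ h0
  have hC : C.ncard ≤ 253 := by
    have h1 : (encF '' C).ncard ≤ 253 := by
      refine (Set.ncard_le_ncard (t := (↑sextOrbit.toFinset : Set (List ℕ))) ?_
        (Finset.finite_toSet _)).trans ?_
      · rintro _ ⟨S, hS, rfl⟩
        exact List.mem_toFinset.2 hS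
      · rw [Set.ncard_coe_finset]
        exact (List.toFinset_card_le _).trans squareTabs_facts.2.2.2.2.2.2.1.le
    rwa [Set.ncard_image_of_injective _ encF_injective] at h1
  have := Set.ncard_le_ncard hsub (Set.toFinite _)
  rw [ncard_sextets] at this
  omega

theorem psl_stab {J : Subgroup (Equiv.Perm GolayPt)} (hJ : J ≤ M24) (hFJ : psl ≤ J) :
    (Nat.card J = 6072 ∧ fixPt J none = frob) ∨ J = M24 := by
  have htr : ∀ q, ∃ g ∈ J, g none = q := fun q =>
    (psl_transitive q).imp fun g hg => ⟨hFJ hg.1, hg.2⟩
  have hF : frob ≤ fixPt J none := fun x hx => ⟨hFJ (frob_le_psl hx), (frob_eq.le hx).1.2⟩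
  rcases overgroup hF (fun x hx => ⟨hJ hx.1, hx.2⟩) with h | h
  · refine Or.inl ⟨?_, h⟩
    have horb : orbFin J none = Finset.univ :=
      Finset.eq_univ_iff_forall.2 fun q => mem_orbFin.2 (htr q)
    rw [card_orbFin_mul J none, horb, h, card_frob]
    rfl
  · exact Or.inr (top_of_contains hJ (fun x hx => (h.ge hx).1) htr)

theorem card_psl : Nat.card psl = 6072 := by
  rcases psl_stab psl_le le_rfl with h | h
  · exact h.1
  · exact absurd h psl_ne


/-- PSL(2, 23) = ⟨t ↦ t+1, t ↦ u t (u square), t ↦ −1/t⟩ is maximal of order 6072 in the group of the length-24 code, and its point stabiliser 23:11 (order 253) is maximal in the Mathieu group of degree 23. -/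
theorem result : (Subgroup.closure ({Equiv.optionCongr (Equiv.addRight (1 : ZMod 23)), Cfsg.projInv} ∪ {g : Equiv.Perm Cfsg.GolayPt | ∃ u : (ZMod 23)ˣ, IsSquare u ∧ g = Equiv.optionCongr (Units.mulLeft u)}) ≤ Cfsg.M24 ∧ Nat.card ↥(Subgroup.closure ({Equiv.optionCongr (Equiv.addRight (1 : ZMod 23)), Cfsg.projInv} ∪ {g : Equiv.Perm Cfsg.GolayPt | ∃ u : (ZMod 23)ˣ, IsSquare u ∧ g = Equiv.optionCongr (Units.mulLeft u)})) = 6072 ∧ IsCoatom ((Subgroup.closure ({Equiv.optionCongr (Equiv.addRight (1 : ZMod 23)), Cfsg.projInv} ∪ {g : Equiv.Perm Cfsg.GolayPt | ∃ u : (ZMod 23)ˣ, IsSquare u ∧ g = Equiv.optionCongr (Units.mulLeft u)})).subgroupOf Cfsg.M24)) ∧ (Subgroup.closure ({Equiv.optionCongr (Equiv.addRight (1 : ZMod 23))} ∪ {g : Equiv.Perm Cfsg.GolayPt | ∃ u : (ZMod 23)ˣ, IsSquare u ∧ g = Equiv.optionCongr (Units.mulLeft u)}) ≤ Cfsg.M24 ⊓ MulAction.stabilizer (Equiv.Perm Cfsg.GolayPt) (none : Cfsg.GolayPt) ∧ Nat.card ↥(Subgroup.closure ({Equiv.optionCongr (Equiv.addRight (1 : ZMod 23))} ∪ {g : Equiv.Perm Cfsg.GolayPt | ∃ u : (ZMod 23)ˣ, IsSquare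 u ∧ g = Equiv.optionCongr (Units.mulLeft u)})) = 253 ∧ IsCoatom (((Subgroup.closure ({Equiv.optionCongr (Equiv.addRight (1 : ZMod 23))} ∪ {g : Equiv.Perm Cfsg.GolayPt | ∃ u : (ZMod 23)ˣ, IsSquare u ∧ g = Equiv.optionCongr (Units.mulLeft u)})).subgroupOf Cfsg.M24).subgroupOf (MulAction.stabilizer Cfsg.M24 (none : Cfsg.GolayPt)))) := by
  refine ⟨⟨psl_le, card_psl, ?_, fun B hB => ?_⟩, fun x hx => (frob_eq.le hx).1, card_frob, ?_,
    fun B hB => ?_⟩
  · intro htop
    rw [Subgroup.subgroupOf_eq_top] at htop
    exact psl_ne (le_antisymm psl_le htop)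
  · have hle : psl ≤ B.map M24.subtype := fun x hx =>
      ⟨⟨x, psl_le hx⟩, hB.le (Subgroup.mem_subgroupOf.2 hx), rfl⟩
    rcases psl_stab (Subgroup.map_subtype_le B) hle with h | h
    · exfalso
      have e : psl = B.map M24.subtype :=
        Subgroup.eq_of_le_of_card_ge hle (by rw [h.1, card_psl])
      refine hB.not_ge fun x hx => Subgroup.mem_subgroupOf.2 (e.ge ⟨x, hx, rfl⟩)
    · rw [eq_top_iff]
      intro x _
      obtain ⟨y, hy, e⟩ := h.ge x.2
      exact (Subtype.ext e : y = x) ▸ hy
  · intro htop
    have hle : G23 ≤ frob := fun x hx => by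
      have := htop.ge (Subgroup.mem_top (⟨⟨x, hx.1⟩, hx.2⟩ : MulAction.stabilizer M24 (none : GolayPt)))
      exact this
    have := Subgroup.card_le_of_le hle
    rw [CfsgLib.Mathieu.card_fixPt, card_frob] at this
    norm_num at this
  · set f := M24.subtype.comp (MulAction.stabilizer M24 (none : GolayPt)).subtype with hf
    have hfinj : Function.Injective f :=
      M24.subtype_injective.comp (Subgroup.subtype_injective _)
    have hle : frob ≤ B.map f := fun x hx => by
      obtain ⟨h1, h2⟩ := (frob_eq.le hx).1
      exact ⟨⟨⟨x, h1⟩, h2⟩, hB.le (Subgroup.mem_subgroupOf.2 (Subgroup.mem_subgroupOf.2 hx)), rfl⟩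
    have hleG : B.map f ≤ G23 := by
      rintro _ ⟨x, -, rfl⟩
      exact ⟨x.1.2, x.2⟩
    rcases overgroup hle hleG with h | h
    · exfalso
      exact hB.not_ge fun x hx => Subgroup.mem_subgroupOf.2 (Subgroup.mem_subgroupOf.2
        (h.le ⟨x, hx, rfl⟩))
    · rw [eq_top_iff]
      intro x _
      exact (Subgroup.mem_map_iff_mem hfinj).1 (h.ge ⟨x.1.2, x.2⟩)

end Cfsg.Agent.S1643
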