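import Cfsg.Statements.S1691
import Cfsg.Agent.Eq.Def_Spor_Fi24

set_option autoImplicit false
open Cfsg

namespace Cfsg.Agent.S1691

open Cfsg.Spor

abbrev rels : Set (FreeGroup Fi24.Gen) := coxRelators Fi24.edges ∪ {r | r ∈ Fi24.extra}

abbrev q : Fi24.Gen → Abelianization Fi24 := fun x => Abelianization.of (PresentedGroup.of x)

theorem rel_cox {x y : Fi24.Gen} (hx : x ∈ coxNodes Fi24.edges) (hy : y ∈ coxNodes Fi24.edges)
    {m : ℕ} (hm : coxLabel Fi24.edges x y = m) : (q x * q y) ^ m = 1 := by
  have h : PresentedGroup.mk rels ((FreeGroup.of x * FreeGroup.of y) ^ coxLabel Fi24.edges x y) = 1 :=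
    PresentedGroup.one_of_mem (Or.inl ⟨x, hx, y, hy, rfl⟩)
  have h2 := congrArg Abelianization.of h
  simpa [q, hm, PresentedGroup.of] using h2

theorem nodes_mem (x : Fi24.Gen) : x ∈ coxNodes Fi24.edges := by cases x <;> decide

theorem sq_one (x : Fi24.Gen) : q x * q x = 1 := by
  have h := rel_cox (nodes_mem x) (nodes_mem x) (m := 1) (by simp [coxLabel])
  simpa using h

theorem adj_eq {x y : Fi24.Gen} (hm : coxLabel Fi24.edges x y = 3) : q x = q y := by
  have h := rel_cox (nodes_mem x) (nodes_mem y) hm
  rw [mul_pow, pow_succ, pow_two, sq_one, one_mul, pow_succ, pow_two, sq_one, one_mul] at h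
  calc q x = q x * (q y * q y) := by rw [sq_one, mul_one]
    _ = (q x * q y) * q y := by rw [mul_assoc]
    _ = q y := by rw [h, one_mul]

theorem all_eq (x : Fi24.Gen) : q x = q .d := by
  have lk : q .l = q .k := adj_eq (by decide)
  have ka : q .k = q .a := adj_eq (by decide)
  have ab : q .a = q .b := adj_eq (by decide)
  have bc : q .b = q .c := adj_eq (by decide)
  have cd : q .c = q .d := adj_eq (by decide)
  have de : q .d = q .e := adj_eq (by decide)
  have dh : q .d = q .h := adj_eq (by decide)
  have ef : q .e = q .f := adj_eq (by decide)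
  have fg : q .f = q .g := adj_eq (by decide)
  have gj : q .g = q .j := adj_eq (by decide)
  have hi : q .h = q .i := adj_eq (by decide)
  cases x <;> simp only [lk, ka, ab, bc, cd, ← de, ← dh, ← ef, ← fg, ← gj, ← hi]

abbrev par : Fi24.Gen → Multiplicative (ZMod 2) := fun _ => Multiplicative.ofAdd 1

theorem par_rels : ∀ r ∈ rels, FreeGroup.lift par r = 1 := by
  rintro r (⟨x, -, y, -, rfl⟩ | hr)
  · have h2 : ∀ a b : Fi24.Gen, (par a * par b) = 1 := fun _ _ => by show (Multiplicative.ofAdd (1 : ZMod 2)) * Multiplicative.ofAdd 1 = 1; decide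
    simp only [map_pow, map_mul, FreeGroup.lift_apply_of, h2 x y, one_pow]
  · simp only [Set.mem_ofPred_eq, Fi24.extra, List.mem_cons, List.not_mem_nil, or_false] at hr
    rcases hr with rfl | rfl <;>
      simp only [map_pow, map_mul, map_inv, FreeGroup.lift_apply_of] <;> decide

/-- The commutator subgroup of the presented group Fi₂₄ has index 2 (the presented group is Fi₂₄′:2 with Fi₂₄′ its derived subgroup). -/
theorem result : (commutator Cfsg.Spor.Fi24).index = 2 := by
  have htop : Subgroup.zpowers (q .d) = ⊤ := by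
    refine eq_top_iff.2 fun z _ => ?_
    obtain ⟨w, rfl⟩ := QuotientGroup.mk_surjective z
    have : w ∈ (Subgroup.zpowers (q .d)).comap Abelianization.of := by
      have hc := PresentedGroup.closure_range_of rels
      have hle : Subgroup.closure (Set.range (PresentedGroup.of (rels := rels))) ≤
          (Subgroup.zpowers (q .d)).comap Abelianization.of := by
        rw [Subgroup.closure_le]
        rintro _ ⟨x, rfl⟩
        show q x ∈ Subgroup.zpowers (q .d)
        rw [all_eq x]
        exact Subgroup.mem_zpowers _
      exact hle (hc ▸ Subgroup.mem_top w)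
    exact this
  have hpos : q .d ≠ 1 := by
    intro h
    have h2 := congrArg (Abelianization.lift (PresentedGroup.toGroup par_rels)) h
    simp [q] at h2
  have hord : orderOf (q .d) = 2 := orderOf_eq_prime (by rw [pow_two, sq_one]) hpos
  show Nat.card (Abelianization Fi24) = 2
  rw [← Subgroup.card_top (G := Abelianization Fi24), ← htop, Nat.card_zpowers, hord]

end Cfsg.Agent.S1691
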