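import Cfsg.Statements.S1717

set_option autoImplicit false
open Cfsg

namespace Cfsg.Agent.S1717

open Matrix

abbrev SL5 := Matrix.SpecialLinearGroup (Fin 5) (ZMod 2)

/-- unipotent matrices for the flag 0, 2, 3, 4, 1 -/
def uMat (v : Fin 10 → ZMod 2) : Matrix (Fin 5) (Fin 5) (ZMod 2) :=
  !![1, v 0, v 1, v 2, v 3;
     0, 1, 0, 0, 0;
     0, v 4, 1, v 5, v 6;
     0, v 7, 0, 1, v 8;
     0, v 9, 0, 0, 1]

theorem uMat_det (v : Fin 10 → ZMod 2) : (uMat v).det = 1 := by
  simp [uMat, Matrix.det_succ_row_zero, Fin.sum_univ_succ]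

def uEl (v : Fin 10 → ZMod 2) : SL5 := ⟨uMat v, uMat_det v⟩

def uMul (v w : Fin 10 → ZMod 2) : Fin 10 → ZMod 2 :=
  ![w 0 + v 0 + v 1 * w 4 + v 2 * w 7 + v 3 * w 9, w 1 + v 1, w 2 + v 1 * w 5 + v 2,
    w 3 + v 1 * w 6 + v 2 * w 8 + v 3, v 4 + w 4 + v 5 * w 7 + v 6 * w 9, w 5 + v 5,
    w 6 + v 5 * w 8 + v 6, v 7 + w 7 + v 8 * w 9, w 8 + v 8, v 9 + w 9]

theorem uEl_mul (v w : Fin 10 → ZMod 2) : uEl v * uEl w = uEl (uMul v w) := by
  apply Subtype.ext
  show uMat v * uMat w = uMat (uMul v w)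
  ext i j
  fin_cases i <;> fin_cases j <;>
    simp [uMat, uMul, Matrix.mul_apply, Fin.sum_univ_five]

theorem uEl_inj : Function.Injective uEl := by
  intro v w h
  have h' : uMat v = uMat w := congrArg Subtype.val h
  funext k
  fin_cases k
  exacts [congrFun₂ h' 0 1, congrFun₂ h' 0 2, congrFun₂ h' 0 3, congrFun₂ h' 0 4, congrFun₂ h' 2 1,
    congrFun₂ h' 2 3, congrFun₂ h' 2 4, congrFun₂ h' 3 1, congrFun₂ h' 3 4, congrFun₂ h' 4 1]

theorem uEl_zero : uEl 0 = 1 := by
  apply Subtype.ext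
  show uMat 0 = 1
  ext i j
  fin_cases i <;> fin_cases j <;> simp [uMat]

def uSubmonoid : Submonoid SL5 where
  carrier := Set.range uEl
  mul_mem' := by
    rintro _ _ ⟨v, rfl⟩ ⟨w, rfl⟩
    exact ⟨uMul v w, (uEl_mul v w).symm⟩
  one_mem' := ⟨0, uEl_zero⟩

def uGroup : Subgroup SL5 :=
  { uSubmonoid with
    inv_mem' := by
      intro x hx
      have hp : IsOfFinOrder x := isOfFinOrder_of_finite x
      have : x⁻¹ ∈ Submonoid.powers x :=
        (hp.mem_powers_iff_mem_zpowers).2 (Subgroup.inv_mem _ (Subgroup.mem_zpowers x))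
      exact (Submonoid.powers_le.2 hx) this }

theorem card_uGroup : Nat.card uGroup = 2 ^ 10 := by
  have : Nat.card uGroup = Nat.card (Set.range uEl) := rfl
  rw [this, Nat.card_range_of_injective uEl_inj]
  simp

theorem uGroup_center (u : SL5) (hu : u ∈ uGroup)
    (hc : ∀ x ∈ uGroup, x * u = u * x) : ∃ a : ZMod 2, u = uEl (Pi.single 0 a) := by
  obtain ⟨v, rfl⟩ := hu
  have key : ∀ k : Fin 10, uMul (Pi.single k 1) v = uMul v (Pi.single k 1) := fun k => by
    apply uEl_inj
    rw [← uEl_mul, ← uEl_mul]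
    exact hc _ ⟨_, rfl⟩
  have h4 : v 4 = 0 := by simpa [uMul] using congrFun (key 1) 0
  have h7 : v 7 = 0 := by simpa [uMul] using congrFun (key 2) 0
  have h9 : v 9 = 0 := by simpa [uMul] using congrFun (key 3) 0
  have h5 : v 5 = 0 := by simpa [uMul] using congrFun (key 1) 2
  have h6 : v 6 = 0 := by simpa [uMul] using congrFun (key 1) 3
  have h8 : v 8 = 0 := by simpa [uMul] using congrFun (key 2) 3
  have h1 : v 1 = 0 := by simpa [uMul] using congrFun (key 4) 0
  have h2 : v 2 = 0 := by simpa [uMul] using congrFun (key 7) 0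
  have h3 : v 3 = 0 := by simpa [uMul] using congrFun (key 9) 0
  refine ⟨v 0, congrArg uEl ?_⟩
  funext k
  fin_cases k <;> simp [*]

theorem card_SL_dvd : Nat.card SL5 ∣ 2 ^ 10 * 9765 := by
  have h := Subgroup.card_dvd_of_injective (Matrix.SpecialLinearGroup.toGL (n := Fin 5) (R := ZMod 2))
    Matrix.SpecialLinearGroup.toGL_injective
  rw [Matrix.card_GL_field] at h
  simpa [Fin.prod_univ_five] using h

/-- every Sylow 2-subgroup of the centralizer of `s` has centre of order at most two -/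
theorem center_card_le (H : Subgroup SL5) (hH : uGroup ≤ H) (P : Sylow 2 H) :
    Nat.card (Subgroup.center (P : Subgroup H)) ≤ 2 := by
  have : Fact (Nat.Prime 2) := ⟨Nat.prime_two⟩
  let P' : Subgroup SL5 := (P : Subgroup H).map H.subtype
  have hP' : Nat.card P' = Nat.card (P : Subgroup H) :=
    (Nat.card_congr (Subgroup.equivMapOfInjective _ _ H.subtype_injective).toEquiv).symm
  have hle : 2 ^ 10 ∣ Nat.card (P : Subgroup H) := by
    apply P.pow_dvd_card_of_pow_dvd_card
    rw [← card_uGroup]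
    exact Subgroup.card_dvd_of_le hH
  obtain ⟨n, hn⟩ := (IsPGroup.iff_card.1 P.isPGroup')
  have hn10 : n ≤ 10 := by
    have h1 : 2 ^ n ∣ 2 ^ 10 * 9765 :=
      (hn ▸ hP' ▸ Subgroup.card_subgroup_dvd_card P').trans card_SL_dvd
    have h2 : 2 ^ n ∣ 2 ^ 10 := (Nat.Coprime.pow_left n (by norm_num)).dvd_of_dvd_mul_right h1
    exact (Nat.pow_dvd_pow_iff_le_right (by norm_num)).1 h2
  have hn' : n = 10 := le_antisymm hn10 <| (Nat.pow_dvd_pow_iff_le_right (by norm_num)).1 (hn ▸ hle)
  subst hn'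
  have hfac : (Nat.card SL5).factorization 2 = 10 := by
    apply le_antisymm
    · have hne : Nat.card SL5 ≠ 0 := Nat.card_pos.ne'
      refine ((Nat.factorization_le_iff_dvd hne (by norm_num)).2 card_SL_dvd 2).trans ?_
      rw [Nat.factorization_mul (by norm_num) (by norm_num), Finsupp.add_apply,
        Nat.prime_two.factorization_pow, Finsupp.single_eq_same,
        Nat.factorization_eq_zero_of_not_dvd (show ¬ 2 ∣ 9765 by norm_num)]
    · rw [← Nat.prime_two.pow_dvd_iff_le_factorization Nat.card_pos.ne', ← card_uGroup]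
      exact Subgroup.card_subgroup_dvd_card _
  let S1 : Sylow 2 SL5 := Sylow.ofCard P' (by rw [hP', hn, hfac])
  let S2 : Sylow 2 SL5 := Sylow.ofCard uGroup (by rw [card_uGroup, hfac])
  let f : (P : Subgroup H) ≃* uGroup :=
    ((Subgroup.equivMapOfInjective (P : Subgroup H) _ H.subtype_injective).trans (S1.equiv S2))
  rw [Nat.card_congr (Subgroup.centerCongr f).toEquiv]
  have hz : Nat.card (Subgroup.center uGroup) ≤ Nat.card (ZMod 2) := by
    have : ∀ u : Subgroup.center uGroup, ∃ a : ZMod 2, ((u : uGroup) : SL5) = uEl (Pi.single 0 a) :=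
      fun u => uGroup_center _ u.1.2 fun x hx =>
        congrArg Subtype.val (Subgroup.mem_center_iff.1 u.2 ⟨x, hx⟩)
    choose a ha using this
    refine Nat.card_le_card_of_injective a fun u w huw => ?_
    apply Subtype.ext; apply Subtype.ext
    rw [ha u, ha w, huw]
  simpa using hz

theorem uGroup_le_centralizer (s : SL5)
    (hs : (s : Matrix (Fin 5) (Fin 5) (ZMod 2)) = Matrix.transvection 0 1 1) :
    uGroup ≤ Subgroup.centralizer ({s} : Set SL5) := by
  rintro _ ⟨v, rfl⟩
  rw [Subgroup.mem_centralizer_singleton_iff]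
  apply Subtype.ext
  show uMat v * (s : Matrix (Fin 5) (Fin 5) (ZMod 2)) = (s : Matrix (Fin 5) (Fin 5) (ZMod 2)) * uMat v
  rw [hs]
  ext i j
  fin_cases i <;> fin_cases j <;>
    simp [uMat, Matrix.transvection, Matrix.single, Matrix.mul_apply, Fin.sum_univ_five] <;> ring

/-- Let G be a finite group with an involution z whose centraliser C is isomorphic to the centraliser of a transvection of SL(5, 2). Then a Sylow 2-subgroup of C, viewed in G, is a Sylow 2-subgroup of G (its index in G is odd). -/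
theorem result {G : Type*} [Group G] [Finite G] (s : Matrix.SpecialLinearGroup (Fin 5) (ZMod 2)) (hs : (s : Matrix (Fin 5) (Fin 5) (ZMod 2)) = Matrix.transvection 0 1 1) (z : G) (hz : orderOf z = 2) (e : (Subgroup.centralizer ({z} : Set G)) ≃* Subgroup.centralizer ({s} : Set (Matrix.SpecialLinearGroup (Fin 5) (ZMod 2)))) (T : Sylow 2 (Subgroup.centralizer ({z} : Set G))) : ¬ 2 ∣ ((T : Subgroup (Subgroup.centralizer ({z} : Set G))).map (Subgroup.subtype (Subgroup.centralizer ({z} : Set G)))).index := by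
  have : Fact (Nat.Prime 2) := ⟨Nat.prime_two⟩
  revert T
  set C := Subgroup.centralizer ({z} : Set G) with hC
  intro T
  set T' := (T : Subgroup C).map C.subtype with hT'
  have hp : IsPGroup 2 T' := T.isPGroup'.map _
  have hcenT : Nat.card (Subgroup.center (T : Subgroup C)) ≤ 2 := by
    let P : Sylow 2 (Subgroup.centralizer ({s} : Set SL5)) := T.mapSurjective (f := e.toMonoidHom) e.surjective
    rw [Nat.card_congr (Subgroup.centerCongr (e.subgroupMap (T : Subgroup C))).toEquiv]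
    exact center_card_le _ (uGroup_le_centralizer s hs) P
  have hzC : z ∈ C := Subgroup.mem_centralizer_singleton_iff.2 rfl
  have hzcen : (⟨z, hzC⟩ : C) ∈ Subgroup.center C :=
    Subgroup.mem_center_iff.2 fun w => Subtype.ext (Subgroup.mem_centralizer_singleton_iff.1 w.2)
  have hzT : (⟨z, hzC⟩ : C) ∈ (T : Subgroup C) := by
    have hzp : IsPGroup 2 (Subgroup.zpowers (⟨z, hzC⟩ : C)) :=
      IsPGroup.of_card (n := 1) (by rw [Nat.card_zpowers, pow_one, ← hz, ← Subgroup.orderOf_coe])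
    have : (Subgroup.zpowers (⟨z, hzC⟩ : C)).Normal :=
      ⟨fun n hn g => by
        have h := Subgroup.mem_center_iff.1 ((Subgroup.zpowers_le.2 hzcen) hn) g
        rw [h, mul_inv_cancel_right]
        exact hn⟩
    exact (T.is_maximal' (T.isPGroup'.to_sup_of_normal_right hzp) le_sup_left) ▸
      (Subgroup.mem_sup_right (Subgroup.mem_zpowers _))
  have huniq : ∀ w : (T : Subgroup C), w ∈ Subgroup.center (T : Subgroup C) → w ≠ 1 → ((w : C) : G) = z := by
    intro w hw hw1
    let zc : (T : Subgroup C) := ⟨⟨z, hzC⟩, hzT⟩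
    have hzc : zc ∈ Subgroup.center (T : Subgroup C) :=
      Subgroup.mem_center_iff.2 fun x => Subtype.ext (Subgroup.mem_center_iff.1 hzcen x)
    by_contra hne
    have hz1 : z ≠ 1 := fun h => by simp [h] at hz
    have h3 : ({1, w, zc} : Set (T : Subgroup C)) ⊆ Subgroup.center (T : Subgroup C) := by
      rintro x (rfl | rfl | rfl)
      exacts [one_mem _, hw, hzc]
    have := (Set.ncard_le_ncard h3 (Set.toFinite _)).trans hcenT
    rw [Set.ncard_eq_three.2 ⟨1, w, zc, (Ne.symm hw1), fun h => hz1 (congrArg (fun x : (T : Subgroup C) => ((x : C) : G)) h).symm,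
      fun h => hne (congrArg (fun x : (T : Subgroup C) => ((x : C) : G)) h), rfl⟩] at this
    omega
  intro hdvd
  obtain ⟨S, hS⟩ := hp.exists_le_sylow
  have hne : T'.subgroupOf S ≠ ⊤ := by
    intro htop
    have hST : (S : Subgroup G) = T' := le_antisymm (Subgroup.subgroupOf_eq_top.1 htop) hS
    exact Sylow.not_dvd_index S (by rw [hST]; exact hdvd)
  have : Group.IsNilpotent S := S.isPGroup'.isNilpotent
  have hlt := Group.normalizerCondition_of_isNilpotent (G := S) (T'.subgroupOf S) (lt_top_iff_ne_top.2 hne)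
  obtain ⟨g, hgn, hgT⟩ := SetLike.exists_of_lt hlt
  have hconj : ∀ x ∈ T', (g : G) * x * (g : G)⁻¹ ∈ T' := fun x hx =>
    (Subgroup.mem_normalizer_iff.1 hgn ⟨x, hS hx⟩).1 hx
  have hconj' : ∀ x ∈ T', (g : G)⁻¹ * x * (g : G) ∈ T' := fun x hx => by
    have := (Subgroup.mem_normalizer_iff.1 (inv_mem hgn) ⟨x, hS hx⟩).1 hx
    simpa [Subgroup.mem_subgroupOf] using this
  have hzT' : z ∈ T' := ⟨⟨z, hzC⟩, hzT, rfl⟩
  have hgz : (g : G) * z * (g : G)⁻¹ = z := by
    obtain ⟨w, hw, hwe⟩ := hconj z hzT'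
    have hwc : (⟨w, hw⟩ : (T : Subgroup C)) ∈ Subgroup.center (T : Subgroup C) := by
      refine Subgroup.mem_center_iff.2 fun x => Subtype.ext (Subtype.ext ?_)
      obtain ⟨y, hy, hye⟩ := hconj' _ (⟨x.1, x.2, rfl⟩ : ((x : C) : G) ∈ T')
      have hcomm : (y : G) * z = z * (y : G) := Subgroup.mem_centralizer_singleton_iff.1 y.2
      have hye' : (y : G) = (g : G)⁻¹ * ((x : C) : G) * (g : G) := hye
      rw [hye'] at hcomm
      change ((x : C) : G) * (w : G) = (w : G) * ((x : C) : G)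
      rw [show (w : G) = (g : G) * z * (g : G)⁻¹ from hwe]
      calc ((x : C) : G) * ((g : G) * z * (g : G)⁻¹)
          = (g : G) * (((g : G)⁻¹ * ((x : C) : G) * (g : G)) * z) * (g : G)⁻¹ := by group
        _ = (g : G) * (z * ((g : G)⁻¹ * ((x : C) : G) * (g : G))) * (g : G)⁻¹ := by rw [hcomm]
        _ = (g : G) * z * (g : G)⁻¹ * ((x : C) : G) := by group
    have := huniq _ hwc fun h => by
      have h1 : (w : G) = 1 := congrArg (fun x : (T : Subgroup C) => ((x : C) : G)) h
      rw [show (w : G) = (g : G) * z * (g : G)⁻¹ from hwe, conj_eq_one_iff] at h1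
      simp [h1] at hz
    exact hwe.symm.trans this
  have hgC : (g : G) ∈ C := Subgroup.mem_centralizer_singleton_iff.2 (mul_inv_eq_iff_eq_mul.1 hgz)
  have hmax : (S : Subgroup G).subgroupOf C = T :=
    T.is_maximal' (S.isPGroup'.comap_subtype) fun x hx => hS ⟨x, hx, rfl⟩
  exact hgT (⟨⟨g, hgC⟩, hmax ▸ g.2, rfl⟩ : (g : G) ∈ T')

end Cfsg.Agent.S1717
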