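import Cfsg.Statements.S1754
import Cfsg.Agent.Eq.Def_Local

set_option autoImplicit false
open Cfsg

namespace Cfsg.Agent.S1754

theorem isQuasisimple_of_equiv {A B : Type*} [Group A] [Group B] (e : A ≃* B)
    (h : Cfsg.IsQuasisimple A) : Cfsg.IsQuasisimple B := by
  obtain ⟨hp, hs⟩ := h
  haveI := hp
  refine ⟨Group.IsPerfect.ofSurjective (f := e.toMonoidHom) e.surjective, ?_⟩
  have hc : (Subgroup.center A).map e.toMonoidHom = Subgroup.center B := by
    ext b
    constructor
    · rintro ⟨a, ha, rfl⟩
      rw [Subgroup.mem_center_iff]
      intro c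
      obtain ⟨d, rfl⟩ := e.surjective c
      show e d * e a = e a * e d
      rw [← map_mul, ← map_mul, Subgroup.mem_center_iff.1 ha d]
    · intro hb
      refine ⟨e.symm b, ?_, by simp⟩
      rw [SetLike.mem_coe, Subgroup.mem_center_iff]
      intro c
      apply e.injective
      simp [Subgroup.mem_center_iff.1 hb (e c)]
  exact (QuotientGroup.congr _ _ e hc).symm.isSimpleGroup

/-- Let A be a standard subgroup of the finite group G (A quasisimple, C_G(A) tightly embedded of even order, A commuting elementwise with no other conjugate of itself, and N_G(A) = N_G(C_G(A))), and let t be an involution of G centralizing A. Then the centralizer of t lies in the normalizer of A; in particular A, viewed inside C_G(t), is a component of C_G(t). -/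
theorem result {G : Type*} [Group G] [Finite G]
    (A : Subgroup G) (hA : Cfsg.IsStandardSubgroup A) (t : G) (ht : orderOf t = 2) (htA : t ∈ Subgroup.centralizer (A : Set G)) :
    Subgroup.centralizer ({t} : Set G) ≤ Subgroup.normalizer (A : Set G) ∧
      Cfsg.IsComponent (A.subgroupOf (Subgroup.centralizer ({t} : Set G))) := by
  obtain ⟨hq, htight, -, hnorm⟩ := hA
  have hle : Subgroup.centralizer ({t} : Set G) ≤ Subgroup.normalizer (A : Set G) := by
    intro g hg
    rw [hnorm]
    by_contra hgn
    have hodd := htight.2 g hgn
    set D := Subgroup.centralizer (A : Set G) ⊓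
      (Subgroup.centralizer (A : Set G)).map (MulAut.conj g).toMonoidHom with hD
    have htD : t ∈ D := by
      refine Subgroup.mem_inf.2 ⟨htA, Subgroup.mem_map.2 ⟨t, htA, ?_⟩⟩
      have := Subgroup.mem_centralizer_singleton_iff.1 hg
      show g * t * g⁻¹ = t
      simp [this]
    have h2 : 2 ∣ Nat.card D := by
      have := orderOf_dvd_natCard (⟨t, htD⟩ : D)
      rwa [Subgroup.orderOf_mk, ht] at this
    exact (Nat.not_even_iff_odd.2 hodd) (even_iff_two_dvd.2 h2)
  refine ⟨hle, ?_, ?_⟩
  · have : (A.subgroupOf (Subgroup.centralizer ({t} : Set G))).Normal := by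
      constructor
      intro n hn g
      rw [Subgroup.mem_subgroupOf] at hn ⊢
      exact (Subgroup.mem_normalizer_iff.1 (hle g.2) _).1 hn
    exact this.isSubnormal
  · have hAC : A ≤ Subgroup.centralizer ({t} : Set G) := by
      intro a ha
      rw [Subgroup.mem_centralizer_singleton_iff]
      exact htA a ha
    let e := Subgroup.subgroupOfEquivOfLe hAC
    exact isQuasisimple_of_equiv e.symm hq

end Cfsg.Agent.S1754
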