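import Cfsg.Statements.S1755
import Cfsg.Agent.Eq.Def_ClassificationK

set_option autoImplicit false
open Cfsg

namespace Cfsg.Agent.S1755

theorem cyclic_involution_unique {A : Type*} [Group A] [Finite A] [IsCyclic A] {x y : A}
    (hx : orderOf x = 2) (hy : orderOf y = 2) : x = y := by
  classical
  letI := Fintype.ofFinite A
  have h := IsCyclic.card_pow_eq_one_le (α := A) (n := 2) (by norm_num)
  by_contra hne
  have hs : ({1, x, y} : Finset A) ⊆ Finset.univ.filter (fun a => a ^ 2 = 1) := by
    intro a ha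
    simp only [Finset.mem_insert, Finset.mem_singleton] at ha
    rcases ha with rfl | rfl | rfl
    · simp
    · simp [← hx, pow_orderOf_eq_one]
    · simp [← hy, pow_orderOf_eq_one]
  have h3 : ({1, x, y} : Finset A).card = 3 := by
    have hx1 : (1 : A) ≠ x := by rintro rfl; simp at hx
    have hy1 : (1 : A) ≠ y := by rintro rfl; simp at hy
    simp [hne, hx1, hy1]
  have := Finset.card_le_card hs
  omega

theorem isQuasisimple_of_equiv {A B : Type*} [Group A] [Group B] (e : A ≃* B)
    (h : Cfsg.IsQuasisimple A) : Cfsg.IsQuasisimple B := by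
  obtain ⟨hp, hs⟩ := h
  haveI := hp
  refine ⟨Group.IsPerfect.ofSurjective (f := e.toMonoidHom) e.surjective, ?_⟩
  have hc : (Subgroup.center A).map e.toMonoidHom = Subgroup.center B := by
    ext b
    constructor
    · rintro ⟨a, ha, rfl⟩
      rw [Subgroup.mem_center_iff]
      intro c
      obtain ⟨d, rfl⟩ := e.surjective c
      show e d * e a = e a * e d
      rw [← map_mul, ← map_mul, Subgroup.mem_center_iff.1 ha d]
    · intro hb
      refine ⟨e.symm b, ?_, by simp⟩
      rw [SetLike.mem_coe, Subgroup.mem_center_iff]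
      intro c
      apply e.injective
      simp [Subgroup.mem_center_iff.1 hb (e c)]
  exact (QuotientGroup.congr _ _ e hc).symm.isSimpleGroup

theorem isComponent_map {H : Type*} [Group H] (e : H ≃* H) {K : Subgroup H}
    (hK : Cfsg.IsComponent K) : Cfsg.IsComponent (K.map e.toMonoidHom) :=
  ⟨hK.1.map e.surjective, isQuasisimple_of_equiv (K.equivMapOfInjective e.toMonoidHom e.injective) hK.2⟩

theorem gFitting_normal {H : Type*} [Group H] : (Cfsg.generalizedFittingSubgroup H).Normal := by
  haveI : (Cfsg.fittingSubgroup H).Normal := Subgroup.sSup_normal _ (fun _ h => h.1)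
  haveI : (Cfsg.layer H).Normal := by
    apply Subgroup.normalizer_eq_top_iff.mp
    rw [eq_top_iff]
    intro h _
    rw [Subgroup.mem_normalizer_iff_map_conj_eq]
    have key : ∀ a : H, (Cfsg.layer H).map (MulAut.conj a).toMonoidHom ≤ Cfsg.layer H := by
      intro a
      rw [Subgroup.map_le_iff_le_comap]
      refine sSup_le ?_
      intro K hK
      rw [← Subgroup.map_le_iff_le_comap]
      exact le_sSup (isComponent_map (MulAut.conj a) hK)
    refine le_antisymm (key h) ?_
    intro x hx
    refine ⟨h⁻¹ * x * h, ?_, by simp [mul_assoc]⟩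
    have := key h⁻¹ ⟨x, hx, rfl⟩
    simpa using this
  exact Subgroup.sup_normal _ _

theorem ti_of_char {G : Type*} [Group G] [Finite G] (z : G) (hz : orderOf z = 2) (C : Subgroup G)
    (hCeq : C = Subgroup.centralizer ({z} : Set G)) (hzC : z ∈ C) (Q : Subgroup ↥C) (hQn : Q.Normal)
    (hz0Q : (⟨z, hzC⟩ : ↥C) ∈ Q)
    (hQ : Cfsg.IsOfSymplecticType ↥Q) (B : Subgroup ↥Q) (hBc : B.Characteristic)
    (hBa : IsMulCommutative ↥B) (g : G) :
    let B' := (B.map Q.subtype).map C.subtype
    B'.map (MulAut.conj g).toMonoidHom = B' ∨ B'.map (MulAut.conj g).toMonoidHom ⊓ B' = ⊥ := by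
  intro B'
  haveI := hQn
  haveI := hBc
  haveI hBn : (B.map Q.subtype).Normal := ConjAct.normal_of_characteristic_of_normal
  have hB' : B' = (B.map Q.subtype).map C.subtype := rfl
  by_cases hbot : B'.map (MulAut.conj g).toMonoidHom ⊓ B' = ⊥
  · exact Or.inr hbot
  left
  have hBcyc : IsCyclic ↥B := hQ.2 B hBc hBa
  have hB'cyc : IsCyclic ↥B' := by
    have e := ((B.equivMapOfInjective Q.subtype Q.subtype_injective).trans
      ((B.map Q.subtype).equivMapOfInjective C.subtype C.subtype_injective))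
    exact isCyclic_of_surjective e.toMonoidHom e.surjective
  -- the central involution
  let z0 : ↥C := ⟨z, hzC⟩
  have hz0 : z0 ∈ Subgroup.center ↥C := by
    subst hCeq
    rw [Subgroup.mem_center_iff]
    intro c
    exact Subtype.ext (Subgroup.mem_centralizer_singleton_iff.1 c.2)
  let zQ : ↥Q := ⟨z0, hz0Q⟩
  have hzQ : zQ ∈ Subgroup.center ↥Q := by
    rw [Subgroup.mem_center_iff]
    intro c
    exact Subtype.ext (Subgroup.mem_center_iff.1 hz0 c)
  have hZcyc : IsCyclic ↥(Subgroup.center ↥Q) :=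
    hQ.2 _ inferInstance inferInstance
  have hzB' : ∀ h : G, B'.map (MulAut.conj h).toMonoidHom ⊓ B' ≠ ⊥ → z ∈ B' := by
    intro h hne
    have hB0 : B ≠ ⊥ := by
      intro h0
      apply hne
      simp [hB', h0]
    have hp2 : IsPGroup 2 ↥B := hQ.1.to_subgroup B
    haveI : Nontrivial ↥B := (Subgroup.nontrivial_iff_ne_bot B).2 hB0
    obtain ⟨n, hn⟩ := hp2.exists_card_eq
    have h2 : 2 ∣ Nat.card ↥B := by
      cases n with
      | zero =>
        have : 1 < Nat.card ↥B := Finite.one_lt_card
        simp [hn] at this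
      | succ k => exact ⟨2 ^ k, by rw [hn, pow_succ]; ring⟩
    obtain ⟨b, hb⟩ := exists_prime_orderOf_dvd_card' 2 h2
    -- b is central in Q
    have hbc : (b : ↥Q) ∈ Subgroup.center ↥Q := by
      rw [Subgroup.mem_center_iff]
      intro c
      have hmem : c * (b : ↥Q) * c⁻¹ ∈ B := Subgroup.Normal.conj_mem inferInstance _ b.2 c
      have hord : orderOf (⟨c * (b : ↥Q) * c⁻¹, hmem⟩ : ↥B) = 2 := by
        rw [Subgroup.orderOf_mk]
        have : c * (b : ↥Q) * c⁻¹ = MulAut.conj c (b : ↥Q) := rfl
        rw [this, MulEquiv.orderOf_eq, Subgroup.orderOf_coe, hb]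
      have := cyclic_involution_unique hord hb
      have h' : c * (b : ↥Q) * c⁻¹ = b := congrArg Subtype.val this
      calc c * (b : ↥Q) = c * b * c⁻¹ * c := by group
        _ = b * c := by rw [h']
    have h1 : orderOf (⟨(b : ↥Q), hbc⟩ : ↥(Subgroup.center ↥Q)) = 2 := by
      rw [Subgroup.orderOf_mk, Subgroup.orderOf_coe, hb]
    have h2' : orderOf (⟨zQ, hzQ⟩ : ↥(Subgroup.center ↥Q)) = 2 := by
      rw [Subgroup.orderOf_mk, Subgroup.orderOf_mk, Subgroup.orderOf_mk, hz]
    have heq := congrArg Subtype.val (cyclic_involution_unique h1 h2')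
    simp only at heq
    refine ⟨z0, ⟨zQ, ?_, rfl⟩, rfl⟩
    rw [← heq]
    exact b.2
  have hz1 := hzB' g hbot
  obtain ⟨w, hw, hw1⟩ := (Subgroup.bot_or_exists_ne_one _).resolve_left hbot
  obtain ⟨hwl, hwr⟩ := Subgroup.mem_inf.1 hw
  obtain ⟨v, hv, hvw⟩ := Subgroup.mem_map.1 hwl
  -- an involution in the intersection
  set D := B'.map (MulAut.conj g).toMonoidHom ⊓ B' with hD
  have hgz : g * z * g⁻¹ = z := by
    have hp2 : IsPGroup 2 ↥D := ((hQ.1.to_subgroup B).of_equiv
      ((B.equivMapOfInjective Q.subtype Q.subtype_injective).trans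
      ((B.map Q.subtype).equivMapOfInjective C.subtype C.subtype_injective))).to_le inf_le_right
    haveI : Nontrivial ↥D := (Subgroup.nontrivial_iff_ne_bot D).2 hbot
    obtain ⟨n, hn⟩ := hp2.exists_card_eq
    have h2 : 2 ∣ Nat.card ↥D := by
      cases n with
      | zero =>
        have : 1 < Nat.card ↥D := Finite.one_lt_card
        simp [hn] at this
      | succ k => exact ⟨2 ^ k, by rw [hn, pow_succ]; ring⟩
    obtain ⟨d, hd⟩ := exists_prime_orderOf_dvd_card' 2 h2
    obtain ⟨hdl, hdr⟩ := Subgroup.mem_inf.1 d.2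
    obtain ⟨u, hu, hud⟩ := Subgroup.mem_map.1 hdl
    have hou : orderOf u = 2 := by
      have : orderOf (g * u * g⁻¹) = 2 := by
        rw [show g * u * g⁻¹ = (d : G) from hud, Subgroup.orderOf_coe, hd]
      rwa [show g * u * g⁻¹ = MulAut.conj g u from rfl, MulEquiv.orderOf_eq] at this
    have e1 : (d : G) = z := congrArg Subtype.val
      (cyclic_involution_unique (x := (⟨(d : G), hdr⟩ : ↥B')) (y := ⟨z, hz1⟩)
        (by rw [Subgroup.orderOf_mk, Subgroup.orderOf_coe, hd]) (by rw [Subgroup.orderOf_mk, hz]))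
    have e2 : u = z := congrArg Subtype.val
      (cyclic_involution_unique (x := (⟨u, hu⟩ : ↥B')) (y := ⟨z, hz1⟩)
        (by rw [Subgroup.orderOf_mk, hou]) (by rw [Subgroup.orderOf_mk, hz]))
    calc g * z * g⁻¹ = g * u * g⁻¹ := by rw [e2]
      _ = z := hud.trans e1
  have hgC : g ∈ C := by
    rw [hCeq, Subgroup.mem_centralizer_singleton_iff]
    calc g * z = g * z * g⁻¹ * g := by group
      _ = z * g := by rw [hgz]
  ext x
  constructor
  · rintro ⟨y, ⟨y0, hy0, rfl⟩, rfl⟩
    exact ⟨⟨g, hgC⟩ * y0 * ⟨g, hgC⟩⁻¹, hBn.conj_mem _ hy0 _, rfl⟩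
  · rintro ⟨y0, hy0, rfl⟩
    refine ⟨g⁻¹ * y0 * g, ⟨⟨g, hgC⟩⁻¹ * y0 * (⟨g, hgC⟩⁻¹)⁻¹, hBn.conj_mem _ hy0 _, by simp⟩, ?_⟩
    show g * (g⁻¹ * y0 * g) * g⁻¹ = (y0 : G)
    group


/-- Let G be a finite group and let z be an involution of G such that Q, the generalized Fitting subgroup of the centralizer C of z, is a 2-group of symplectic type (every characteristic abelian subgroup of Q is cyclic). Let B be a characteristic abelian subgroup of Q, viewed as a subgroup of G. Then for every g in G, the conjugate of B by g either equals B or meets B trivially. -/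
theorem result {G : Type*} [Group G] [Finite G] (z : G) (hz : orderOf z = 2) (hQ : Cfsg.IsOfSymplecticType ↥(Cfsg.generalizedFittingSubgroup ↥(Subgroup.centralizer ({z} : Set G))))
    (B : Subgroup ↥(Cfsg.generalizedFittingSubgroup ↥(Subgroup.centralizer ({z} : Set G)))) (hBc : B.Characteristic) (hBa : IsMulCommutative ↥B) (g : G) :
    ((B.map (Cfsg.generalizedFittingSubgroup ↥(Subgroup.centralizer ({z} : Set G))).subtype).map (Subgroup.centralizer ({z} : Set G)).subtype).map (MulAut.conj g).toMonoidHom =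
        (B.map (Cfsg.generalizedFittingSubgroup ↥(Subgroup.centralizer ({z} : Set G))).subtype).map (Subgroup.centralizer ({z} : Set G)).subtype ∨
      ((B.map (Cfsg.generalizedFittingSubgroup ↥(Subgroup.centralizer ({z} : Set G))).subtype).map (Subgroup.centralizer ({z} : Set G)).subtype).map (MulAut.conj g).toMonoidHom ⊓
        (B.map (Cfsg.generalizedFittingSubgroup ↥(Subgroup.centralizer ({z} : Set G))).subtype).map (Subgroup.centralizer ({z} : Set G)).subtype = ⊥ := by
  refine ti_of_char z hz _ rfl (Subgroup.mem_centralizer_singleton_iff.mpr rfl) _ gFitting_normal ?_ hQ B hBc hBa g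
  apply Subgroup.mem_sup_right
  let C := Subgroup.centralizer ({z} : Set G)
  have hn : Group.IsNilpotent ↥(Subgroup.center ↥C) := by
    letI : CommGroup ↥(Subgroup.center ↥C) := { (inferInstance : Group ↥(Subgroup.center ↥C)) with mul_comm := fun a b => Subtype.ext (Subgroup.mem_center_iff.1 b.2 a) }
    exact CommGroup.isNilpotent
  have hz0 : (⟨z, Subgroup.mem_centralizer_singleton_iff.mpr rfl⟩ : ↥C) ∈ Subgroup.center ↥C := by
    rw [Subgroup.mem_center_iff]
    intro c
    exact Subtype.ext (Subgroup.mem_centralizer_singleton_iff.1 c.2)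
  exact le_sSup (show Subgroup.center ↥C ∈
    {N : Subgroup ↥C | N.Normal ∧ Group.IsNilpotent N} from ⟨inferInstance, hn⟩) hz0

end Cfsg.Agent.S1755
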