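import Cfsg.Statements.S1756
import Cfsg.Agent.Eq.Def_Transfer

set_option autoImplicit false
open Cfsg

namespace Cfsg.Agent.S1756

theorem centralizer_card_bound {Q : Type*} [Group Q] [Finite Q]
    (hcomm : ∀ a b : Q, a * b * a⁻¹ * b⁻¹ ∈ Subgroup.center Q)
    (hc : Nat.card (Subgroup.center Q) = 2) (s : Finset Q) :
    Nat.card Q * 2 ≤ Nat.card ↥(Subgroup.center Q ⊔ Subgroup.closure (s : Set Q)) *
      Nat.card ↥(Subgroup.centralizer (s : Set Q)) := by
  classical
  induction s using Finset.induction_on with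
  | empty =>
    have h1 : Subgroup.centralizer ((∅ : Finset Q) : Set Q) = ⊤ := by
      ext a; simp [Subgroup.mem_centralizer_iff]
    rw [h1, Finset.coe_empty, Subgroup.closure_empty, sup_bot_eq, hc, Subgroup.card_top]
    omega
  | @insert b s _ ih =>
    set H := Subgroup.center Q ⊔ Subgroup.closure (s : Set Q) with hH
    set H' := Subgroup.center Q ⊔ Subgroup.closure ((insert b s : Finset Q) : Set Q) with hH'
    set C := Subgroup.centralizer (s : Set Q) with hC
    set C' := Subgroup.centralizer ((insert b s : Finset Q) : Set Q) with hC'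
    have hle : H ≤ H' := sup_le_sup le_rfl (Subgroup.closure_mono (by intro a ha; simp [ha]))
    have hbH' : b ∈ H' := Subgroup.mem_sup_right (Subgroup.subset_closure (by simp))
    by_cases hb : b ∈ H
    · have hCC : C ≤ C' := by
        intro a ha
        rw [hC', Subgroup.mem_centralizer_iff]
        intro d hd
        have hdH : d ∈ H := by
          rcases (by simpa using hd : d = b ∨ d ∈ s) with rfl | h
          · exact hb
          · exact Subgroup.mem_sup_right (Subgroup.subset_closure h)
        have hHle : H ≤ Subgroup.centralizer ({a} : Set Q) := by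
          refine sup_le (Subgroup.center_le_centralizer _) ((Subgroup.closure_le _).2 ?_)
          intro e he
          rw [SetLike.mem_coe, Subgroup.mem_centralizer_singleton_iff]
          exact ha e he
        exact Subgroup.mem_centralizer_singleton_iff.1 (hHle hdH)
      exact ih.trans (Nat.mul_le_mul (Subgroup.card_le_of_le hle) (Subgroup.card_le_of_le hCC))
    · have hH2 : 2 * Nat.card H ≤ Nat.card H' := by
        have hlt : H < H' := lt_of_le_of_ne hle (fun h => hb (h ▸ hbH'))
        have hd := Subgroup.card_dvd_of_le hle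
        obtain ⟨k, hk⟩ := hd
        have hne : Nat.card H ≠ Nat.card H' := by
          intro h
          exact hlt.ne (Subgroup.eq_of_le_of_card_ge hle h.ge)
        have hpos : 0 < Nat.card H' := Nat.card_pos
        rcases k with _ | _ | k
        · simp [hk] at hpos
        · simp [hk] at hne
        · rw [hk, mul_comm]
          exact Nat.mul_le_mul le_rfl (by omega)
      have hC2 : Nat.card C ≤ 2 * Nat.card C' := by
        let f : ↥C →* ↥(Subgroup.center Q) :=
          { toFun := fun a => ⟨(a : Q) * b * (a : Q)⁻¹ * b⁻¹, hcomm _ _⟩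
            map_one' := by ext; simp
            map_mul' := by
              intro a a'
              ext
              have h := Subgroup.mem_center_iff.1 (hcomm (a' : Q) b) (a : Q)
              calc ((a : Q) * a') * b * ((a : Q) * a')⁻¹ * b⁻¹
                  = (a : Q) * ((a' : Q) * b * (a' : Q)⁻¹ * b⁻¹) * (b * (a : Q)⁻¹ * b⁻¹) := by group
                _ = ((a' : Q) * b * (a' : Q)⁻¹ * b⁻¹) * (a : Q) * (b * (a : Q)⁻¹ * b⁻¹) := by rw [h]
                _ = ((a' : Q) * b * (a' : Q)⁻¹ * b⁻¹) * ((a : Q) * b * (a : Q)⁻¹ * b⁻¹) := by group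
                _ = ((a : Q) * b * (a : Q)⁻¹ * b⁻¹) * ((a' : Q) * b * (a' : Q)⁻¹ * b⁻¹) :=
                  (Subgroup.mem_center_iff.1 (hcomm (a' : Q) b) _).symm }
        have hker : f.ker.map C.subtype ≤ C' := by
          rintro _ ⟨a, ha, rfl⟩
          have h1 : (a : Q) * b * (a : Q)⁻¹ * b⁻¹ = 1 := congrArg Subtype.val ha
          rw [hC', Subgroup.mem_centralizer_iff]
          intro d hd
          rcases (by simpa using hd : d = b ∨ d ∈ s) with rfl | h
          · show d * (a : Q) = (a : Q) * d
            calc d * (a : Q) = ((a : Q) * d * (a : Q)⁻¹ * d⁻¹) * (d * (a : Q)) := by rw [h1, one_mul]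
              _ = (a : Q) * d := by group
          · exact a.2 d h
        have h2 : Nat.card f.ker ≤ Nat.card C' := by
          rw [← Subgroup.card_map_of_injective C.subtype_injective]
          exact Subgroup.card_le_of_le hker
        have h3 : Nat.card (↥C ⧸ f.ker) ≤ 2 := by
          rw [← hc]
          exact Nat.card_le_card_of_injective _ (QuotientGroup.kerLift_injective f)
        calc Nat.card C = Nat.card (↥C ⧸ f.ker) * Nat.card f.ker :=
              Subgroup.card_eq_card_quotient_mul_card_subgroup _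
          _ ≤ 2 * Nat.card C' := Nat.mul_le_mul h3 h2
      calc Nat.card Q * 2 ≤ Nat.card H * Nat.card C := ih
        _ ≤ Nat.card H * (2 * Nat.card C') := Nat.mul_le_mul le_rfl hC2
        _ = 2 * Nat.card H * Nat.card C' := by ring
        _ ≤ Nat.card H' * Nat.card C' := Nat.mul_le_mul hH2 le_rfl

theorem involutory_aut_inner {Q : Type*} [Group Q] [Finite Q] (hQ : Cfsg.IsExtraspecial 2 Q)
    (φ : Q ≃* Q) (hφ : ∀ a, φ (φ a) = a) (M : Subgroup Q) (hM : ∀ a, a ∈ M ↔ φ a = a)
    (hi : M.index = 2) : ∃ y : Q, ∀ a, φ a = y * a * y⁻¹ := by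
  classical
  letI := Fintype.ofFinite Q
  have hc : Nat.card (Subgroup.center Q) = 2 := hQ.2
  have hcomm : ∀ a b : Q, a * b * a⁻¹ * b⁻¹ ∈ Subgroup.center Q := by
    intro a b
    rw [← hQ.1.2.2]
    exact Subgroup.commutator_mem_commutator (Subgroup.mem_top a) (Subgroup.mem_top b)
  obtain ⟨c, c', hcc, huniv⟩ := Nat.card_eq_two_iff.1 hc
  have huniq : ∀ u v : Q, u ∈ Subgroup.center Q → v ∈ Subgroup.center Q → u ≠ 1 → v ≠ 1 → u = v := by
    intro u v hu hv hu1 hv1
    have := (Nat.card_eq_two_iff' (1 : ↥(Subgroup.center Q))).1 hc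
    obtain ⟨w, hw, hwu⟩ := this
    have e1 := hwu ⟨u, hu⟩ (fun h => hu1 (congrArg Subtype.val h))
    have e2 := hwu ⟨v, hv⟩ (fun h => hv1 (congrArg Subtype.val h))
    exact congrArg Subtype.val (e1.trans e2.symm)
  have hZM : Subgroup.center Q ≤ M := by
    intro u hu
    rw [hM]
    by_cases hu1 : u = 1
    · simp [hu1]
    · refine huniq _ _ ?_ hu (fun h => hu1 (φ.injective (by rw [h, map_one]))) hu1
      rw [Subgroup.mem_center_iff]
      intro d
      obtain ⟨d, rfl⟩ := φ.surjective d
      rw [← map_mul, ← map_mul, Subgroup.mem_center_iff.1 hu d]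
  obtain ⟨x, hx⟩ : ∃ x, x ∉ M := by
    by_contra h
    push Not at h
    have : M = ⊤ := (Subgroup.eq_top_iff' M).2 h
    simp [this] at hi
  have hMn : M.Normal := by
    constructor
    intro n hn g
    rw [Subgroup.mul_mem_iff_of_index_two hi, Subgroup.mul_mem_iff_of_index_two hi]
    simp [hn]
  have hxM : φ x ∉ M := by
    intro h
    apply hx
    have := (hM _).1 h
    rw [hM]
    conv_rhs => rw [← hφ x]
    exact this.symm
  set m := x⁻¹ * φ x with hm
  have hmM : m ∈ M := by
    rw [hm, Subgroup.mul_mem_iff_of_index_two hi]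
    simp [hx, hxM]
  have hφx : φ x = x * m := by simp [hm]
  have hm2 : m * m = 1 := by
    have h := hφ x
    rw [hφx, map_mul, hφx, (hM m).1 hmM, mul_assoc] at h
    exact mul_eq_left.1 h
  have hmx : x * m = m * x := by
    have hxx : x * x ∈ M := Subgroup.mul_self_mem_of_index_two hi x
    have h := (hM _).1 hxx
    rw [map_mul, hφx] at h
    have h' : m * x * m = x := by
      calc m * x * m = x⁻¹ * ((x * m) * (x * m)) := by group
        _ = x⁻¹ * (x * x) := by rw [h]
        _ = x := by group
    calc x * m = (m * x * m) * m := by rw [h']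
      _ = m * x := by rw [mul_assoc, hm2, mul_one]
  have hmMc : ∀ a ∈ M, a * m = m * a := by
    intro a ha
    have hc1 : x * a * x⁻¹ ∈ M := hMn.conj_mem a ha x
    have h := (hM _).1 hc1
    rw [map_mul, map_mul, map_inv, hφx, (hM a).1 ha] at h
    have h' : m * a * m⁻¹ = a := by
      calc m * a * m⁻¹ = x⁻¹ * ((x * m) * a * (x * m)⁻¹) * x := by group
        _ = x⁻¹ * (x * a * x⁻¹) * x := by rw [h]
        _ = a := by group
    calc a * m = m * a * m⁻¹ * m := by rw [h']
      _ = m * a := by group
  have hsplit : ∀ a, a ∈ M ∨ x⁻¹ * a ∈ M := by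
    intro a
    by_cases ha : a ∈ M
    · exact Or.inl ha
    · right
      rw [Subgroup.mul_mem_iff_of_index_two hi]
      simp [ha, hx]
  have hmc : m ∈ Subgroup.center Q := by
    rw [Subgroup.mem_center_iff]
    intro a
    rcases hsplit a with ha | ha
    · exact hmMc a ha
    · calc a * m = x * ((x⁻¹ * a) * m) := by group
        _ = x * (m * (x⁻¹ * a)) := by rw [hmMc _ ha]
        _ = x * m * x⁻¹ * a := by group
        _ = m * x * x⁻¹ * a := by rw [hmx]
        _ = m * a := by group
  have hm1 : m ≠ 1 := by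
    intro h
    exact hx ((hM x).2 (by rw [hφx, h, mul_one]))
  -- y centralises M and is not central
  have hb := centralizer_card_bound hcomm hc (Finset.univ.filter (fun a => a ∈ M))
  have hs : ((Finset.univ.filter (fun a => a ∈ M) : Finset Q) : Set Q) = (M : Set Q) := by
    ext a; simp
  rw [hs, Subgroup.closure_eq, sup_eq_right.2 hZM] at hb
  have hMc : Nat.card Q = Nat.card M * 2 := by
    rw [← hi, Subgroup.card_mul_index]
  obtain ⟨y, hy, hyc⟩ : ∃ y, y ∈ Subgroup.centralizer (M : Set Q) ∧ y ∉ Subgroup.center Q := by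
    by_contra h
    push Not at h
    have h1 : Nat.card ↥(Subgroup.centralizer (M : Set Q)) ≤ 2 := by
      rw [← hc]
      exact Subgroup.card_le_of_le h
    have hpos : 0 < Nat.card M := Nat.card_pos
    have h2 : Nat.card M * Nat.card ↥(Subgroup.centralizer (M : Set Q)) ≤ Nat.card M * 2 :=
      Nat.mul_le_mul le_rfl h1
    omega
  have hyx : y * x * y⁻¹ * x⁻¹ ≠ 1 := by
    intro h
    apply hyc
    rw [Subgroup.mem_center_iff]
    intro a
    have hyx' : y * x = x * y := by
      calc y * x = (y * x * y⁻¹ * x⁻¹) * (x * y) := by group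
        _ = x * y := by rw [h, one_mul]
    rcases hsplit a with ha | ha
    · exact hy a ha
    · calc a * y = x * ((x⁻¹ * a) * y) := by group
        _ = x * (y * (x⁻¹ * a)) := by rw [hy _ ha]
        _ = x * y * x⁻¹ * a := by group
        _ = y * x * x⁻¹ * a := by rw [hyx']
        _ = y * a := by group
  have hym : y * x * y⁻¹ * x⁻¹ = m := huniq _ _ (hcomm y x) hmc hyx hm1
  have hfix : ∀ a ∈ M, φ a = y * a * y⁻¹ := by
    intro a ha
    rw [(hM a).1 ha, ← hy a ha]
    group
  refine ⟨y, fun a => ?_⟩
  rcases hsplit a with ha | ha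
  · exact hfix a ha
  · have hax : a = x * (x⁻¹ * a) := by group
    rw [hax, map_mul, hfix _ ha, hφx, hmx, ← hym]
    group

/-- Let Q be an extraspecial 2-subgroup of the finite group G (special with centre of order 2) and t an involution of G normalizing Q such that the centralizer of t in Q has index at most 2 in Q. Then t lies in the product of Q with the centralizer of Q. -/
theorem result {G : Type*} [Group G] [Finite G] (Q : Subgroup G)
    (hQ : Cfsg.IsExtraspecial 2 ↥Q) (t : G) (ht : orderOf t = 2) (htN : t ∈ Subgroup.normalizer (Q : Set G))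
    (hi : (Subgroup.centralizer ({t} : Set G) ⊓ Q).relIndex Q ≤ 2) :
    t ∈ Q ⊔ Subgroup.centralizer (Q : Set G) := by
  classical
  have hconj : ∀ a : G, a ∈ Q → t * a * t⁻¹ ∈ Q := fun a ha =>
    (Subgroup.mem_normalizer_iff.1 htN a).1 ha
  have ht2 : t * t = 1 := by
    have := pow_orderOf_eq_one t
    rwa [ht, pow_two] at this
  have htinv : t⁻¹ = t := inv_eq_of_mul_eq_one_right ht2
  set M : Subgroup ↥Q := (Subgroup.centralizer ({t} : Set G) ⊓ Q).subgroupOf Q with hMdef
  have hmemM : ∀ a : ↥Q, a ∈ M ↔ t * (a : G) * t⁻¹ = a := by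
    intro a
    rw [hMdef, Subgroup.mem_subgroupOf, Subgroup.mem_inf, Subgroup.mem_centralizer_singleton_iff]
    constructor
    · rintro ⟨h, -⟩
      rw [← h]; group
    · intro h
      refine ⟨?_, a.2⟩
      calc (a : G) * t = t * (a : G) * t⁻¹ * t := by rw [h]
        _ = t * (a : G) := by group
  have hi' : M.index ≤ 2 := hi
  by_cases h1 : M.index = 1
  · refine Subgroup.mem_sup_right ?_
    rw [Subgroup.mem_centralizer_iff]
    intro a ha
    have hm : (⟨a, ha⟩ : ↥Q) ∈ M := by rw [Subgroup.index_eq_one.1 h1]; exact Subgroup.mem_top _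
    have := (hmemM _).1 hm
    calc a * t = t * a * t⁻¹ * t := by rw [this]
      _ = t * a := by group
  · have h2 : M.index = 2 := by
      have := Subgroup.index_ne_zero_of_finite (H := M)
      omega
    let φ : ↥Q ≃* ↥Q :=
      { toFun := fun a => ⟨t * a * t⁻¹, hconj _ a.2⟩
        invFun := fun a => ⟨t * a * t⁻¹, hconj _ a.2⟩
        left_inv := fun a => Subtype.ext (show t * (t * (a : G) * t⁻¹) * t⁻¹ = (a : G) by
          rw [htinv]; simp [mul_assoc, ht2, ← mul_assoc t t])
        right_inv := fun a => Subtype.ext (show t * (t * (a : G) * t⁻¹) * t⁻¹ = (a : G) by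
          rw [htinv]; simp [mul_assoc, ht2, ← mul_assoc t t])
        map_mul' := fun a b => Subtype.ext (show t * ((a : G) * b) * t⁻¹ = (t * (a : G) * t⁻¹) * (t * (b : G) * t⁻¹) by group) }
    obtain ⟨y, hy⟩ := involutory_aut_inner hQ φ φ.left_inv M
      (fun a => (hmemM a).trans ⟨fun h => Subtype.ext h, fun h => congrArg Subtype.val h⟩) h2
    have hcen : (y : G)⁻¹ * t ∈ Subgroup.centralizer (Q : Set G) := by
      rw [Subgroup.mem_centralizer_iff]
      intro a ha
      have h : t * a * t⁻¹ = (y : G) * a * (y : G)⁻¹ := congrArg Subtype.val (hy ⟨a, ha⟩)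
      calc a * ((y : G)⁻¹ * t) = (y : G)⁻¹ * ((y : G) * a * (y : G)⁻¹) * t := by group
        _ = (y : G)⁻¹ * (t * a * t⁻¹) * t := by rw [h]
        _ = (y : G)⁻¹ * t * a := by group
    have : t = (y : G) * ((y : G)⁻¹ * t) := by group
    rw [this]
    exact Subgroup.mul_mem _ (Subgroup.mem_sup_left y.2) (Subgroup.mem_sup_right hcen)

end Cfsg.Agent.S1756
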