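import Cfsg.Statements.S1757

set_option autoImplicit false
open Cfsg
open scoped Pointwise

namespace Cfsg.Agent.S1757

/-- Let p be a prime and A, B p-subgroups of the finite group G, each of which meets every conjugate of itself other than itself trivially. Suppose the order of A is at most that of B, A and B intersect trivially, and B normalizes A. Then A and B commute elementwise. -/
theorem result {G : Type*} [Group G] [Finite G] (p : ℕ) [Fact p.Prime] (A B : Subgroup G)
    (hA : IsPGroup p ↥A) (hB : IsPGroup p ↥B)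
    (hAti : ∀ g : G, A.map (MulAut.conj g).toMonoidHom = A ∨ A.map (MulAut.conj g).toMonoidHom ⊓ A = ⊥)
    (hBti : ∀ g : G, B.map (MulAut.conj g).toMonoidHom = B ∨ B.map (MulAut.conj g).toMonoidHom ⊓ B = ⊥)
    (hle : Nat.card ↥A ≤ Nat.card ↥B) (hAB : A ⊓ B = ⊥) (hN : B ≤ Subgroup.normalizer (A : Set G)) : ⁅A, B⁆ = ⊥ := by
  rw [Subgroup.commutator_eq_bot_iff_le_centralizer]
  have key : ∀ a ∈ A, ∀ b ∈ B, a * b * a⁻¹ ∈ B := by
    intro a ha
    by_cases hne : a = 1
    · subst hne; simp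
    rcases hBti a with h | h
    · intro b hb
      rw [← h]
      exact ⟨b, hb, rfl⟩
    · exfalso
      set B1 := B.map (MulAut.conj a).toMonoidHom with hB1
      have hAB1 : A ⊔ B = A ⊔ B := rfl
      have hb1le : B1 ≤ A ⊔ B := by
        rintro x ⟨b, hb, rfl⟩
        exact Subgroup.mul_mem _ (Subgroup.mul_mem _ (Subgroup.mem_sup_left ha)
          (Subgroup.mem_sup_right hb)) (Subgroup.inv_mem _ (Subgroup.mem_sup_left ha))
      have hcard : Nat.card ↥(A ⊔ B) ≤ Nat.card ↥A * Nat.card ↥B := by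
        rw [← Nat.card_prod]
        refine Nat.card_le_card_of_surjective
          (fun p : ↥A × ↥B => (⟨p.1 * p.2, Subgroup.mul_mem _ (Subgroup.mem_sup_left p.1.2)
            (Subgroup.mem_sup_right p.2.2)⟩ : ↥(A ⊔ B))) ?_
        rintro ⟨x, hx⟩
        have hs : x ∈ ((↑A : Set G) * (↑B : Set G)) := by
          rw [← Subgroup.coe_mul_of_right_le_normalizer_left A B hN]; exact hx
        obtain ⟨u, hu, v, hv, rfl⟩ := Set.mem_mul.1 hs
        exact ⟨(⟨u, hu⟩, ⟨v, hv⟩), rfl⟩
      -- multiplication B x B1 -> A sup B is injective, hence bijective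
      let f : ↥B × ↥B1 → ↥(A ⊔ B) := fun p => ⟨p.1 * p.2,
        Subgroup.mul_mem _ (Subgroup.mem_sup_right p.1.2) (hb1le p.2.2)⟩
      have finj : Function.Injective f := by
        intro p q hpq
        have hpq' : (p.1 : G) * p.2 = q.1 * q.2 := congrArg Subtype.val hpq
        exact Subgroup.mul_injective_of_disjoint (H₁ := B) (H₂ := B1) (disjoint_iff.2 (by rw [inf_comm]; exact h)) hpq'

      have hB1card : Nat.card ↥B1 = Nat.card ↥B :=
        (Nat.card_congr (B.equivMapOfInjective _ (MulAut.conj a).injective).toEquiv).symm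
      have hle2 : Nat.card ↥(A ⊔ B) ≤ Nat.card (↥B × ↥B1) := by
        rw [Nat.card_prod, hB1card]
        exact hcard.trans (Nat.mul_le_mul hle le_rfl)
      obtain ⟨⟨⟨b1, hb1⟩, ⟨c, b2, hb2, rfl⟩⟩, hp⟩ :=
        (Function.Injective.bijective_of_nat_card_le finj hle2).2 ⟨a⁻¹, Subgroup.mem_sup_left (A.inv_mem ha)⟩
      have hp' : b1 * (a * b2 * a⁻¹) = a⁻¹ := congrArg Subtype.val hp
      have haB : a ∈ B := by
        have : a = b1⁻¹ * b2⁻¹ := by
          calc a = b1⁻¹ * (b1 * (a * b2 * a⁻¹)) * a * b2⁻¹ := by group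
            _ = b1⁻¹ * b2⁻¹ := by rw [hp']; group
        rw [this]
        exact B.mul_mem (B.inv_mem hb1) (B.inv_mem hb2)
      exact hne (Subgroup.mem_bot.1 (hAB ▸ Subgroup.mem_inf.2 ⟨ha, haB⟩))
  intro a ha b hb
  have h1 : a * b * a⁻¹ * b⁻¹ ∈ A ⊓ B := by
    refine ⟨?_, B.mul_mem (key a ha b hb) (B.inv_mem hb)⟩
    have : a * b * a⁻¹ * b⁻¹ = a * (b * a⁻¹ * b⁻¹) := by group
    rw [this]
    exact A.mul_mem ha ((Subgroup.mem_normalizer_iff.1 (hN hb) _).1 (A.inv_mem ha))
  rw [hAB, Subgroup.mem_bot] at h1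
  have : a * b = b * a := by
    calc a * b = a * b * a⁻¹ * b⁻¹ * (b * a) := by group
      _ = b * a := by rw [h1, one_mul]
  exact this.symm

end Cfsg.Agent.S1757
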