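import Cfsg.Statements.S1774
import Cfsg.Agent.Eq.Def_ClassificationK
import Cfsg.Agent.Balance.ExtendedLayer
import Cfsg.Agent.SymplecticType.SelfCentralizing
import Cfsg.Agent.SymplecticType.ExponentFour
import Cfsg.Agent.SymplecticType.ConjugatePair

set_option autoImplicit false
open Cfsg
open scoped commutatorElement

namespace Cfsg.Agent.S1774

theorem gFitting_normal {H : Type*} [Group H] : (Cfsg.generalizedFittingSubgroup H).Normal := by
  haveI : (Cfsg.fittingSubgroup H).Normal := Subgroup.sSup_normal _ (fun _ h => h.1)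
  haveI : (Cfsg.layer H).Normal := by
    constructor
    intro x hx g
    have : (Cfsg.layer H).map (MulAut.conj g).toMonoidHom ≤ Cfsg.layer H := by
      rw [Subgroup.map_le_iff_le_comap]
      refine sSup_le fun K hK => ?_
      rw [← Subgroup.map_le_iff_le_comap]
      exact le_sSup (⟨hK.1.map (MulAut.conj g).surjective,
        CfsgLib.Balance.isQuasisimple_of_mulEquiv
          (K.equivMapOfInjective _ (MulAut.conj g).injective) hK.2⟩ : Cfsg.IsComponent _)
    simpa using this ⟨x, hx, rfl⟩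
  exact Subgroup.sup_normal _ _

theorem datum {G : Type*} [Group G] [Finite G] (z : G) (hz : orderOf z = 2)
    (hQ : Cfsg.IsOfSymplecticType ↥(Cfsg.generalizedFittingSubgroup ↥(Subgroup.centralizer ({z} : Set G))))
    (h4 : ∀ q ∈ (Cfsg.generalizedFittingSubgroup ↥(Subgroup.centralizer ({z} : Set G))).map (Subgroup.centralizer ({z} : Set G)).subtype, q ^ 4 = 1) :
    CfsgLib.SymplecticType.Datum ((Cfsg.generalizedFittingSubgroup ↥(Subgroup.centralizer ({z} : Set G))).map (Subgroup.centralizer ({z} : Set G)).subtype) z := by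
  haveI : Fact (Nat.Prime 2) := ⟨Nat.prime_two⟩
  set C := Subgroup.centralizer ({z} : Set G) with hC
  set F := Cfsg.generalizedFittingSubgroup ↥C with hF
  haveI hFn : F.Normal := gFitting_normal
  have hzz : z * z = 1 := by
    have := pow_orderOf_eq_one z
    rwa [hz, pow_two] at this
  have hz1 : z ≠ 1 := by intro h; simp [h] at hz
  let zC : ↥C := ⟨z, Subgroup.mem_centralizer_singleton_iff.mpr rfl⟩
  have hzc : zC ∈ Subgroup.center ↥C := by
    rw [Subgroup.mem_center_iff]
    intro c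
    exact Subtype.ext (Subgroup.mem_centralizer_singleton_iff.1 c.2)
  have hzF : zC ∈ F := by
    apply Subgroup.mem_sup_right
    have hn : Group.IsNilpotent ↥(Subgroup.center ↥C) := by
      letI : CommGroup ↥(Subgroup.center ↥C) := { (inferInstance : Group ↥(Subgroup.center ↥C)) with
        mul_comm := fun a b => Subtype.ext (Subgroup.mem_center_iff.1 b.2 a) }
      exact CommGroup.isNilpotent
    exact CfsgLib.Constrained.le_fitting inferInstance hn hzc
  have hnear : CfsgLib.SymplecticType.IsNearExtraspecial ↥F := by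
    refine CfsgLib.SymplecticType.isNearExtraspecial_of_symplecticType hQ fun p => ?_
    exact Subtype.ext (Subtype.ext (by simpa using h4 _ ⟨(p : ↥C), p.2, rfl⟩))
  obtain ⟨hc, hs, hu⟩ := hnear
  let zF : ↥F := ⟨zC, hzF⟩
  have hzFc : zF ∈ Subgroup.center ↥F := by
    rw [Subgroup.mem_center_iff]
    intro c
    exact Subtype.ext (Subgroup.mem_center_iff.1 hzc (c : ↥C))
  have hzF2 : zF * zF = 1 := Subtype.ext (Subtype.ext hzz)
  have hzF1 : zF ≠ 1 := fun h => hz1 (congrArg (fun a : ↥F => ((a : ↥C) : G)) h)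
  have huniq : ∀ u : ↥F, u ∈ Subgroup.center ↥F → u * u = 1 → u = 1 ∨ u = zF := by
    intro u huc hu2
    by_cases h1 : u = 1
    · exact Or.inl h1
    · exact Or.inr (hu u zF huc hzFc hu2 hzF2 h1 hzF1)
  refine ⟨⟨zC, hzF, rfl⟩, hzz, hz1, ?_, ?_, ?_, ?_, ?_, ?_, ?_⟩
  · rintro _ ⟨q, -, rfl⟩
    exact Subgroup.mem_centralizer_singleton_iff.1 q.2
  · rintro _ ⟨p, hp, rfl⟩ _ ⟨q, hq, rfl⟩
    rcases huniq _ (hc ⟨p, hp⟩ ⟨q, hq⟩).1 (hc ⟨p, hp⟩ ⟨q, hq⟩).2 with h | h
    · left
      have := congrArg (fun a : ↥F => ((a : ↥C) : G)) h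
      simpa [commutatorElement_def] using this
    · right
      have := congrArg (fun a : ↥F => ((a : ↥C) : G)) h
      simpa [commutatorElement_def, zF, zC] using this
  · rintro _ ⟨p, hp, rfl⟩ _ ⟨q, hq, rfl⟩
    exact (congrArg (fun a : ↥F => ((a : ↥C) : G)) (Subgroup.mem_center_iff.1 (hs ⟨p, hp⟩) ⟨q, hq⟩)).symm
  · intro p hp
    have := h4 p hp
    rwa [show (4 : ℕ) = 2 + 2 from rfl, pow_add, pow_two] at this
  · rintro _ ⟨u, huF, rfl⟩ hcen hu2
    have huc : (⟨u, huF⟩ : ↥F) ∈ Subgroup.center ↥F := by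
      rw [Subgroup.mem_center_iff]
      intro c
      exact Subtype.ext (Subtype.ext (hcen _ ⟨(c : ↥C), c.2, rfl⟩).symm)
    rcases huniq _ huc (Subtype.ext (Subtype.ext hu2)) with h | h
    · exact Or.inl (congrArg (fun a : ↥F => ((a : ↥C) : G)) h)
    · exact Or.inr (congrArg (fun a : ↥F => ((a : ↥C) : G)) h)
  · rintro h hh _ ⟨q, hq, rfl⟩
    exact ⟨(⟨h, Subgroup.mem_centralizer_singleton_iff.2 hh⟩ : ↥C) * q * _⁻¹,
      hFn.conj_mem q hq _, rfl⟩
  · intro h hh hcen
    let hC' : ↥C := ⟨h, Subgroup.mem_centralizer_singleton_iff.2 hh⟩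
    refine ⟨hC', CfsgLib.SymplecticType.centralizer_gFitting_le_of_isPGroup 2 hQ.1 ?_, rfl⟩
    rw [Subgroup.mem_centralizer_iff]
    intro q hq
    exact Subtype.ext (hcen _ ⟨q, hq, rfl⟩).symm

/-- Let G be a finite group and let z be an involution of G such that Q, the generalized Fitting subgroup of the centralizer C of z, is a 2-group of symplectic type (every characteristic abelian subgroup of Q is cyclic); suppose every element of Q has order dividing 4. Let g ∈ G with z' = g z g⁻¹ ≠ z and z' ∈ Q. Then z lies in the conjugate g Q g⁻¹, and the subgroup X generated by Q and g Q g⁻¹ induces every automorphism of the four-group generated by z and z': for any two distinct non-identity elements u, v of that four-group there is x ∈ X with x z x⁻¹ = u and x z' x⁻¹ = v. -/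
theorem result {G : Type*} [Group G] [Finite G] (z : G) (hz : orderOf z = 2) (hQ : Cfsg.IsOfSymplecticType ↥(Cfsg.generalizedFittingSubgroup ↥(Subgroup.centralizer ({z} : Set G))))
    (h4 : ∀ q ∈ (Cfsg.generalizedFittingSubgroup ↥(Subgroup.centralizer ({z} : Set G))).map (Subgroup.centralizer ({z} : Set G)).subtype, q ^ 4 = 1) (g : G) (hne : g * z * g⁻¹ ≠ z) (hin : g * z * g⁻¹ ∈ (Cfsg.generalizedFittingSubgroup ↥(Subgroup.centralizer ({z} : Set G))).map (Subgroup.centralizer ({z} : Set G)).subtype) :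
    z ∈ ((Cfsg.generalizedFittingSubgroup ↥(Subgroup.centralizer ({z} : Set G))).map (Subgroup.centralizer ({z} : Set G)).subtype).map (MulAut.conj g).toMonoidHom ∧
      ∀ u ∈ Subgroup.closure ({z, g * z * g⁻¹} : Set G), ∀ v ∈ Subgroup.closure ({z, g * z * g⁻¹} : Set G),
        u ≠ 1 → v ≠ 1 → u ≠ v →
          ∃ x ∈ (Cfsg.generalizedFittingSubgroup ↥(Subgroup.centralizer ({z} : Set G))).map (Subgroup.centralizer ({z} : Set G)).subtype ⊔ ((Cfsg.generalizedFittingSubgroup ↥(Subgroup.centralizer ({z} : Set G))).map (Subgroup.centralizer ({z} : Set G)).subtype).map (MulAut.conj g).toMonoidHom, x * z * x⁻¹ = u ∧ x * (g * z * g⁻¹) * x⁻¹ = v := by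
  have D := datum z hz hQ h4
  set Q := (Cfsg.generalizedFittingSubgroup ↥(Subgroup.centralizer ({z} : Set G))).map
    (Subgroup.centralizer ({z} : Set G)).subtype
  set R := Q.map (MulAut.conj g).toMonoidHom
  have hzR : z ∈ R := CfsgLib.SymplecticType.mem_conj_of_mem D hne hin
  refine ⟨hzR, ?_⟩
  set a := g * z * g⁻¹ with ha
  have E : CfsgLib.SymplecticType.Datum R a := D.map g
  have haz : a * z = z * a := D.central a hin
  obtain ⟨x, hxQ, hxa⟩ := D.exists_moving hin hne E.ne_one E.sq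
  obtain ⟨y, hyR, hyz⟩ := E.exists_moving hzR (Ne.symm hne) D.ne_one D.sq
  have hxz : x * z * x⁻¹ = z := by rw [D.central x hxQ]; group
  have hya : y * a * y⁻¹ = a := by rw [E.central y hyR]; group
  have hyz' : y * z * y⁻¹ = z * a := by rw [hyz, haz]
  have hxza : x * (z * a) * x⁻¹ = a := by
    calc x * (z * a) * x⁻¹ = (x * z * x⁻¹) * (x * a * x⁻¹) := by group
      _ = a := by rw [hxz, hxa, ← mul_assoc, D.sq, one_mul]
  have hyza : y * (z * a) * y⁻¹ = z := by
    calc y * (z * a) * y⁻¹ = (y * z * y⁻¹) * (y * a * y⁻¹) := by group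
      _ = z := by rw [hyz', hya, mul_assoc, E.sq, mul_one]
  have hsub : ∀ w ∈ Subgroup.closure ({z, a} : Set G), w ≠ 1 → w = z ∨ w = a ∨ w = z * a := by
    have : ∀ w ∈ Subgroup.closure ({z, a} : Set G), w = 1 ∨ w = z ∨ w = a ∨ w = z * a := by
      intro w hw
      induction hw using Subgroup.closure_induction with
      | mem w hw => rcases hw with rfl | rfl <;> simp
      | one => exact Or.inl rfl
      | mul u v _ _ hu hv =>
        have e1 : a * (z * a) = z := by rw [← mul_assoc, haz, mul_assoc, E.sq, mul_one]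
        have e2 : z * (z * a) = a := by rw [← mul_assoc, D.sq, one_mul]
        have e3 : z * a * z = a := by rw [mul_assoc, haz, e2]
        have e4 : z * a * a = z := by rw [mul_assoc, E.sq, mul_one]
        have e5 : z * a * (z * a) = 1 := by rw [mul_assoc, e1, D.sq]
        rcases hu with rfl | rfl | rfl | rfl <;> rcases hv with rfl | rfl | rfl | rfl <;>
          simp [D.sq, E.sq, haz, e1, e2, e3, e4, e5]
      | inv u _ hu =>
        rcases hu with rfl | rfl | rfl | rfl
        · simp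
        · exact Or.inr (Or.inl (inv_eq_of_mul_eq_one_right D.sq))
        · exact Or.inr (Or.inr (Or.inl (inv_eq_of_mul_eq_one_right E.sq)))
        · refine Or.inr (Or.inr (Or.inr ?_))
          rw [mul_inv_rev, inv_eq_of_mul_eq_one_right E.sq, inv_eq_of_mul_eq_one_right D.sq, haz]
    intro w hw hw1
    exact (this w hw).resolve_left hw1
  have mx : x ∈ Q ⊔ R := Subgroup.mem_sup_left hxQ
  have my : y ∈ Q ⊔ R := Subgroup.mem_sup_right hyR
  have comp : ∀ p q u v u' v' : G, q * z * q⁻¹ = u → q * a * q⁻¹ = v → p * u * p⁻¹ = u' →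
      p * v * p⁻¹ = v' → (p * q) * z * (p * q)⁻¹ = u' ∧ (p * q) * a * (p * q)⁻¹ = v' := by
    intro p q u v u' v' h1 h2 h3 h4
    subst h1 h2 h3 h4
    constructor <;> group
  intro u hu v hv hu1 hv1 huv
  rcases hsub u hu hu1 with rfl | rfl | rfl <;> rcases hsub v hv hv1 with rfl | rfl | rfl
  · exact absurd rfl huv
  · exact ⟨1, one_mem _, by simp, by simp [ha]⟩
  · exact ⟨x, mx, hxz, hxa⟩
  · -- z ↦ a, a ↦ z
    have h1 := comp y x _ _ _ _ hxz hxa hyz' hyza
    exact ⟨x * (y * x), mul_mem mx (mul_mem my mx), comp x (y * x) _ _ _ _ h1.1 h1.2 hxza hxz⟩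
  · exact absurd rfl huv
  · exact ⟨x * y, mul_mem mx my, comp x y _ _ _ _ hyz' hya hxza hxa⟩
  · exact ⟨y * x, mul_mem my mx, comp y x _ _ _ _ hxz hxa hyz' hyza⟩
  · exact ⟨y, my, hyz', hya⟩
  · exact absurd rfl huv

end Cfsg.Agent.S1774
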