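import Cfsg.Statements.S1775
import Cfsg.Agent.TwoComponents.DoubleLayer

set_option autoImplicit false
open Cfsg
open scoped commutatorElement

namespace Cfsg.Agent.S1775

theorem centralizer_involution_ne_top {G : Type*} [Group G]
    (hF : IsSimpleGroup ↥(Cfsg.generalizedFittingSubgroup G))
    (hF' : ¬ IsMulCommutative ↥(Cfsg.generalizedFittingSubgroup G)) (y : G) (hy : y ≠ 1) :
    Subgroup.centralizer ({y} : Set G) ≠ ⊤ := by
  intro h
  set F := Cfsg.generalizedFittingSubgroup G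
  have hyZ : y ∈ Subgroup.center G := by
    rw [Subgroup.mem_center_iff]
    intro g
    exact Subgroup.mem_centralizer_singleton_iff.1 (h ▸ Subgroup.mem_top g)
  have hZF : Subgroup.center G ≤ F := by
    refine le_trans ?_ le_sup_right
    have hn : Group.IsNilpotent ↥(Subgroup.center G) := by
      letI : CommGroup ↥(Subgroup.center G) := { (inferInstance : Group ↥(Subgroup.center G)) with
        mul_comm := fun a b => Subtype.ext (Subgroup.mem_center_iff.1 b.2 a) }
      exact CommGroup.isNilpotent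
    exact le_sSup (show Subgroup.center G ∈ {N : Subgroup G | N.Normal ∧ Group.IsNilpotent N} from
      ⟨inferInstance, hn⟩)
  haveI := hF
  rcases ((inferInstance : (Subgroup.center G).Normal).comap F.subtype).eq_bot_or_eq_top with hb | ht
  · have : (⟨y, hZF hyZ⟩ : ↥F) ∈ (Subgroup.center G).comap F.subtype := hyZ
    rw [hb, Subgroup.mem_bot] at this
    exact hy (congrArg Subtype.val this)
  · apply hF'
    refine ⟨⟨fun a b => Subtype.ext ?_⟩⟩
    exact (Subgroup.mem_center_iff.1 (show (b : G) ∈ Subgroup.center G from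
      (ht ▸ Subgroup.mem_top b : b ∈ (Subgroup.center G).comap F.subtype)) a)

theorem aux {G : Type*} [Group G] [Finite G] (x : G) (hx : orderOf x = 2) (Cy D : Subgroup G)
    (hxy : x ∈ Cy) (hB : Cfsg.HasBProperty (↥Cy ⧸ Cfsg.oddCore ↥Cy)) (hDy : D ≤ Cy)
    (hDx : ∀ d : G, d ∈ D → d * x = x * d)
    (hDn : ∀ h ∈ Cy, h * x = x * h → ∀ d ∈ D, h * d * h⁻¹ ∈ D)
    (J : Subgroup ↥D) (hJ : Cfsg.IsPComponent 2 J) :
    Cfsg.IsComponent
        ((((J.map D.subtype).subgroupOf Cy).map (QuotientGroup.mk' (Cfsg.oddCore ↥Cy))).subgroupOf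
          (Subgroup.centralizer ({(QuotientGroup.mk' (Cfsg.oddCore ↥Cy) ⟨x, hxy⟩ : ↥Cy ⧸ Cfsg.oddCore ↥Cy)} : Set _))) ∧
      ∀ E : Subgroup G, (∀ e ∈ E, e ∈ Cy ∧ e * x = x * e) → Odd (Nat.card ↥E) →
        (∀ j ∈ J.map D.subtype, ∀ e ∈ E, j * e * j⁻¹ ∈ E) →
          ⁅J.map D.subtype, E⁆ ≤ (Cfsg.oddCore ↥Cy).map Cy.subtype := by
  classical
  let π := QuotientGroup.mk' (Cfsg.oddCore ↥Cy)
  let x0 : ↥Cy := ⟨x, hxy⟩
  let CQ := Subgroup.centralizer ({π x0} : Set (↥Cy ⧸ Cfsg.oddCore ↥Cy))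
  have hx2 : x * x = 1 := by
    have := pow_orderOf_eq_one x
    rwa [hx, pow_two] at this
  have hX : orderOf (π x0) = 2 := by
    apply orderOf_eq_prime
    · rw [← map_pow, show x0 ^ 2 = 1 from Subtype.ext (by simp [x0, pow_two, hx2]), map_one]
    · intro h
      have hmem : x0 ∈ Cfsg.oddCore ↥Cy := (QuotientGroup.eq_one_iff x0).1 h
      have h2 : orderOf (⟨x0, hmem⟩ : ↥(Cfsg.oddCore ↥Cy)) = 2 := by
        rw [Subgroup.orderOf_mk, Subgroup.orderOf_mk, hx]
      have := h2 ▸ orderOf_dvd_natCard (⟨x0, hmem⟩ : ↥(Cfsg.oddCore ↥Cy))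
      exact absurd (CfsgLib.TwoComponents.odd_card_oddCore ↥Cy) (Nat.not_odd_iff_even.2 (even_iff_two_dvd.2 this))
  have hcent : ⁅Cfsg.pLayer 2 ↥CQ, Cfsg.oddCore ↥CQ⁆ = ⊥ := by
    have h := hB (π x0) hX
    have h1 : Cfsg.oddCore (↥Cy ⧸ Cfsg.oddCore ↥Cy) = ⊥ :=
      CfsgLib.SolvableCore.pPrimeCore_quotient_eq_bot
    rw [h1, le_bot_iff] at h
    exact (Subgroup.map_eq_bot_iff_of_injective _ CQ.subtype_injective).1 h
  let φ : ↥D →* ↥CQ :=
    (π.comp (Subgroup.inclusion hDy)).codRestrict CQ (fun d => by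
      rw [Subgroup.mem_centralizer_singleton_iff, MonoidHom.comp_apply, ← map_mul, ← map_mul]
      exact congrArg π (Subtype.ext (hDx d d.2)))
  have hker : Odd (Nat.card ↥φ.ker) := by
    refine (CfsgLib.TwoComponents.odd_card_oddCore ↥Cy).of_dvd_nat ?_
    rw [← Subgroup.card_map_of_injective (Subgroup.inclusion_injective hDy)]
    refine Subgroup.card_dvd_of_le ?_
    rintro _ ⟨a, ha, rfl⟩
    exact (QuotientGroup.eq_one_iff _).1 (congrArg Subtype.val (MonoidHom.mem_ker.1 ha))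
  have hrange : φ.range.Normal := by
    constructor
    rintro _ ⟨d, rfl⟩ q
    obtain ⟨h0, hh0⟩ := QuotientGroup.mk'_surjective (Cfsg.oddCore ↥Cy) (q : ↥Cy ⧸ Cfsg.oddCore ↥Cy)
    obtain ⟨h, hhx, hhπ⟩ := CfsgLib.TwoComponents.exists_commuting_lift x0 h0
      (Subtype.ext (by simpa [x0] using hx2)) (by
        rw [hh0]
        exact Subgroup.mem_centralizer_singleton_iff.1 q.2)
    have hmem : (h : G) * (d : G) * (h : G)⁻¹ ∈ D :=
      hDn h h.2 (congrArg Subtype.val hhx) d d.2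
    refine ⟨⟨_, hmem⟩, Subtype.ext ?_⟩
    show π ⟨(h : G) * (d : G) * (h : G)⁻¹, _⟩ = (q : _) * π ⟨(d : G), _⟩ * (q : _)⁻¹
    rw [← hh0, ← hhπ]
    have he : (⟨(h : G) * (d : G) * (h : G)⁻¹, hDy hmem⟩ : ↥Cy) =
        h * Subgroup.inclusion hDy d * h⁻¹ := Subtype.ext rfl
    rw [show π ⟨(h : G) * (d : G) * (h : G)⁻¹, hDy hmem⟩ = _ from congrArg π he, map_mul, map_mul, map_inv]
    simp only [Subgroup.coe_inv, ← hh0, ← hhπ]
    rfl
  have hP : Cfsg.IsPComponent 2 (J.map φ) :=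
    CfsgLib.TwoComponents.isPComponent_map_hom φ hker hrange.isSubnormal hJ
  have hPc : ⁅J.map φ, Cfsg.oddCore ↥CQ⁆ = ⊥ := by
    rw [eq_bot_iff, ← hcent]
    exact Subgroup.commutator_mono (le_sSup hP) le_rfl
  have hcomp := CfsgLib.TwoComponents.isComponent_of_isPComponent hP hPc
  refine ⟨?_, ?_⟩
  · have heq : J.map φ =
        (((J.map D.subtype).subgroupOf Cy).map π).subgroupOf CQ := by
      ext q
      rw [Subgroup.mem_subgroupOf, Subgroup.mem_map, Subgroup.mem_map]
      constructor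
      · rintro ⟨j, hj, rfl⟩
        exact ⟨Subgroup.inclusion hDy j, ⟨j, hj, rfl⟩, rfl⟩
      · rintro ⟨c, ⟨j, hj, hjc⟩, hc⟩
        refine ⟨j, hj, Subtype.ext ?_⟩
        rw [← hc]
        exact congrArg π (Subtype.ext hjc)
    exact heq ▸ hcomp
  · intro E hE hodd hinv
    have hEy : E ≤ Cy := fun e he => (hE e he).1
    let ψ : ↥E →* ↥CQ :=
      (π.comp (Subgroup.inclusion hEy)).codRestrict CQ (fun e => by
        rw [Subgroup.mem_centralizer_singleton_iff, MonoidHom.comp_apply, ← map_mul, ← map_mul]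
        exact congrArg π (Subtype.ext
          (hE e e.2).2))
    have hψodd : Odd (Nat.card ↥ψ.range) := hodd.of_dvd_nat (Subgroup.card_range_dvd ψ)
    set X := J.map φ ⊔ ψ.range with hX'
    have hJX : J.map φ ≤ X := le_sup_left
    have hEX : ψ.range ≤ X := le_sup_right
    have hnorm : X ≤ Subgroup.normalizer (ψ.range : Set ↥CQ) := by
      refine sup_le ?_ Subgroup.le_normalizer
      intro a ha
      rw [Subgroup.mem_normalizer_iff]
      have key : ∀ j ∈ J, ∀ b ∈ ψ.range, φ j * b * (φ j)⁻¹ ∈ ψ.range := by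
        rintro j hj _ ⟨e, rfl⟩
        exact ⟨⟨(j : G) * e * (j : G)⁻¹, hinv _ ⟨j, hj, rfl⟩ _ e.2⟩, Subtype.ext rfl⟩
      obtain ⟨j, hj, rfl⟩ := ha
      intro b
      refine ⟨key j hj b, fun hb => ?_⟩
      have h := key j⁻¹ (J.inv_mem hj) _ hb
      simpa [mul_assoc] using h
    haveI hEn : (ψ.range.subgroupOf X).Normal :=
      (Subgroup.normal_subgroupOf_iff_le_normalizer hEX).2 hnorm
    have hq : Cfsg.IsQuasisimple ↥((J.map φ).subgroupOf X) :=
      CfsgLib.Balance.isQuasisimple_of_mulEquiv (Subgroup.subgroupOfEquivOfLe hJX).symm hcomp.2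
    rcases CfsgLib.TwoComponents.component_le_or_commute _ hq hcomp.1.subgroupOf _ hEn with h | h
    · exfalso
      apply CfsgLib.TwoComponents.not_odd_of_isPComponent hP
      refine hψodd.of_dvd_nat (Subgroup.card_dvd_of_le ?_)
      intro a ha
      exact h (show (⟨a, hJX ha⟩ : ↥X) ∈ (J.map φ).subgroupOf X from ha)
    · rw [Subgroup.commutator_le]
      rintro _ ⟨j, hj, rfl⟩ e he
      have hjX : φ j ∈ X := hJX ⟨j, hj, rfl⟩
      have heX : ψ ⟨e, he⟩ ∈ X := hEX ⟨_, rfl⟩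
      have h1 : ⁅(⟨φ j, hjX⟩ : ↥X), ⟨ψ ⟨e, he⟩, heX⟩⁆ ∈ (⊥ : Subgroup ↥X) := by
        rw [← h]
        exact Subgroup.commutator_mem_commutator ⟨j, hj, rfl⟩ ⟨_, rfl⟩
      rw [Subgroup.mem_bot, commutatorElement_def] at h1
      have h2 := congrArg (fun a : ↥X => ((a : ↥CQ) : ↥Cy ⧸ Cfsg.oddCore ↥Cy)) h1
      refine ⟨⁅Subgroup.inclusion hDy j, Subgroup.inclusion hEy ⟨e, he⟩⁆, ?_, ?_⟩
      · refine (QuotientGroup.eq_one_iff _).1 ?_
        rw [commutatorElement_def]
        exact h2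
      · simp [commutatorElement_def]


/-- Let G be a finite group whose generalized Fitting subgroup is a non-abelian simple group and in which every proper section (every quotient H/N of a proper subgroup H, or of G by a nontrivial normal subgroup) has the B-property. Let x, y be commuting involutions, let D be the intersection of the 2-layer of C_G(x) with C_G(y), and let J be a 2-component of D. Write Q for the quotient of C_G(y) by its largest normal odd-order subgroup. Then (i) the image of J in Q is a component of the centralizer in Q of the image of x; and (ii) for every J-invariant subgroup E of odd order of C_G(x) ∩ C_G(y), the commutator subgroup [J, E] lies in the largest normal odd-order subgroup of C_G(y). -/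
theorem result {G : Type*} [Group G] [Finite G]
    (hF : IsSimpleGroup ↥(Cfsg.generalizedFittingSubgroup G)) (hF' : ¬ IsMulCommutative ↥(Cfsg.generalizedFittingSubgroup G))
    (hsec : ∀ (H : Subgroup G) (N : Subgroup ↥H) [N.Normal], (H ≠ ⊤ ∨ N ≠ ⊥) → Cfsg.HasBProperty (↥H ⧸ N))
    (x y : G) (hx : orderOf x = 2) (hy : orderOf y = 2) (hxy : x * y = y * x)
    (J : Subgroup ↥((Cfsg.pLayer 2 ↥(Subgroup.centralizer ({x} : Set G))).map (Subgroup.centralizer ({x} : Set G)).subtype ⊓ Subgroup.centralizer ({y} : Set G)))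
    (hJ : Cfsg.IsPComponent 2 J) :
    Cfsg.IsComponent
        ((((J.map (Subgroup.subtype _)).subgroupOf (Subgroup.centralizer ({y} : Set G))).map (QuotientGroup.mk' (Cfsg.oddCore ↥(Subgroup.centralizer ({y} : Set G))))).subgroupOf
          (Subgroup.centralizer ({(QuotientGroup.mk' (Cfsg.oddCore ↥(Subgroup.centralizer ({y} : Set G))) ⟨x, Subgroup.mem_centralizer_singleton_iff.mpr hxy⟩ : ↥(Subgroup.centralizer ({y} : Set G)) ⧸ Cfsg.oddCore ↥(Subgroup.centralizer ({y} : Set G)))} : Set _))) ∧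
      ∀ E : Subgroup G, E ≤ Subgroup.centralizer ({x} : Set G) ⊓ Subgroup.centralizer ({y} : Set G) → Odd (Nat.card ↥E) →
        (∀ j ∈ J.map (Subgroup.subtype _), ∀ e ∈ E, j * e * j⁻¹ ∈ E) →
          ⁅J.map (Subgroup.subtype _), E⁆ ≤ (Cfsg.oddCore ↥(Subgroup.centralizer ({y} : Set G))).map (Subgroup.centralizer ({y} : Set G)).subtype := by
  have hy1 : y ≠ 1 := by intro h; simp [h] at hy
  have hB : Cfsg.HasBProperty (↥(Subgroup.centralizer ({y} : Set G)) ⧸
      Cfsg.oddCore ↥(Subgroup.centralizer ({y} : Set G))) :=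
    hsec _ _ (Or.inl (centralizer_involution_ne_top hF hF' y hy1))
  obtain ⟨h1, h2⟩ := aux x hx _ _ (Subgroup.mem_centralizer_singleton_iff.mpr hxy) hB inf_le_right
    (fun d hd => Subgroup.mem_centralizer_singleton_iff.1
      (Subgroup.map_subtype_le _ (Subgroup.mem_inf.1 hd).1))
    (fun h hh hhx d hd => by
      obtain ⟨⟨l, hl, hld⟩, hdy⟩ := Subgroup.mem_inf.1 hd
      let h0 : ↥(Subgroup.centralizer ({x} : Set G)) :=
        ⟨h, Subgroup.mem_centralizer_singleton_iff.2 hhx⟩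
      refine Subgroup.mem_inf.2 ⟨⟨h0 * l * h0⁻¹,
        (CfsgLib.Balance.pLayer_normal 2).conj_mem l hl _, ?_⟩, ?_⟩
      · simp only [map_mul, map_inv, hld]
        rfl
      · exact Subgroup.mul_mem _ (Subgroup.mul_mem _ hh hdy) (Subgroup.inv_mem _ hh))
    J hJ
  refine ⟨h1, fun E hE hodd hinv => h2 E (fun e he => ?_) hodd hinv⟩
  exact ⟨(Subgroup.mem_inf.1 (hE he)).2,
    Subgroup.mem_centralizer_singleton_iff.1 (Subgroup.mem_inf.1 (hE he)).1⟩

end Cfsg.Agent.S1775
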