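import Cfsg.Statements.S1780
-- import your own Cfsg.Agent.* helpers here

set_option autoImplicit false
open Cfsg

namespace Cfsg.Agent.S1780

/-- If some element is moved, some element is moved by multiplication with a nontrivial fixed element. -/
theorem exists_shift {A : Type*} [CommGroup A] [Finite A] (hA : IsPGroup 2 A) (t : MulAut A)
    (ht : ∃ k : ℕ, orderOf t = 2 ^ k) (a₀ : A) (ha₀ : t a₀ ≠ a₀) :
    ∃ a c : A, c ≠ 1 ∧ t c = c ∧ t a = a * c := by
  obtain ⟨k, hk⟩ := ht
  let d : A →* A :=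
    { toFun := fun a => t a * a⁻¹
      map_one' := by simp
      map_mul' := fun a b => by simp [mul_comm, mul_left_comm, mul_assoc] }
  let H := Subgroup.zpowers t
  have hH : IsPGroup 2 H := IsPGroup.of_card (p := 2) (n := k) (by rw [Nat.card_zpowers, hk])
  have hmem : ∀ h : H, ∀ x ∈ d.range, (h : MulAut A) x ∈ d.range := by
    rintro h x ⟨a, rfl⟩
    refine ⟨(h : MulAut A) a, ?_⟩
    obtain ⟨n, hn⟩ := h.2
    have hcomm : t * (h : MulAut A) = (h : MulAut A) * t := by
      rw [← hn]; exact (Commute.refl t).zpow_right n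
    have h2 : t ((h : MulAut A) a) = (h : MulAut A) (t a) :=
      DFunLike.congr_fun hcomm a
    simp [d, h2]
  letI : MulAction H d.range :=
    { smul := fun h x => ⟨(h : MulAut A) x, hmem h x x.2⟩
      one_smul := fun x => Subtype.ext rfl
      mul_smul := fun a b x => Subtype.ext rfl }
  haveI : Fact (Nat.Prime 2) := ⟨Nat.prime_two⟩
  have hne : d.range ≠ ⊥ := by
    intro h
    have : d a₀ ∈ d.range := ⟨a₀, rfl⟩
    rw [h, Subgroup.mem_bot] at this
    exact ha₀ (mul_inv_eq_one.mp this)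
  have hdvd : 2 ∣ Nat.card d.range := by
    haveI := (Subgroup.nontrivial_iff_ne_bot d.range).mpr hne
    obtain ⟨n, hn0, hn⟩ := (hA.to_subgroup d.range).nontrivial_iff_card.mp inferInstance
    exact hn ▸ dvd_pow_self 2 (by omega)
  have h1 : (1 : d.range) ∈ MulAction.fixedPoints H d.range := fun h =>
    Subtype.ext (map_one (h : MulAut A))
  obtain ⟨c, hcfix, hc⟩ := hH.exists_fixed_point_of_prime_dvd_card_of_fixed_point d.range hdvd h1
  obtain ⟨a, ha⟩ := c.2
  refine ⟨a, c, fun h => hc (Subtype.ext h.symm), congrArg Subtype.val (hcfix ⟨t, Subgroup.mem_zpowers t⟩), ?_⟩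
  rw [← ha]
  simp [d]

/-- Let A be a finite abelian 2-group and t an automorphism of A whose order is a power of 2. If every element of A fixed by t² is fixed by t, then t fixes every element of A. -/
theorem result {A : Type*} [CommGroup A] [Finite A]
    (hA : IsPGroup 2 A) (t : MulAut A) (ht : ∃ k : ℕ, orderOf t = 2 ^ k) (hC : ∀ a : A, t (t a) = a → t a = a) :
    ∀ a : A, t a = a := by
  classical
  intro a₀
  by_contra ha₀
  obtain ⟨a, c, hc1, hc, ha⟩ := exists_shift hA t ht a₀ ha₀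
  obtain ⟨n, hn⟩ := hA c
  have hex : ∃ n, c ^ (2 ^ n) = 1 := ⟨n, hn⟩
  have hn0 : Nat.find hex ≠ 0 := fun h => hc1 (by simpa [h] using Nat.find_spec hex)
  obtain ⟨m, hm⟩ := Nat.exists_eq_succ_of_ne_zero hn0
  have hlt : ¬ c ^ (2 ^ m) = 1 := Nat.find_min hex (by omega)
  have hspec : c ^ (2 ^ m) * c ^ (2 ^ m) = 1 := by
    have := Nat.find_spec hex
    rwa [hm, pow_succ, mul_two, pow_add] at this
  have h1 : t (a ^ (2 ^ m)) = a ^ (2 ^ m) * c ^ (2 ^ m) := by rw [map_pow, ha, mul_pow]
  have h2 : t (t (a ^ (2 ^ m))) = a ^ (2 ^ m) := by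
    rw [h1, map_mul, h1, map_pow, hc, mul_assoc, hspec, mul_one]
  exact hlt (mul_eq_left.mp (h1.symm.trans (hC _ h2)))

end Cfsg.Agent.S1780
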