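import Cfsg.Statements.S1781
import Cfsg.Agent.S1780

set_option autoImplicit false
open Cfsg

namespace Cfsg.Agent.S1781

/-- An element centralizing a nontrivial element of a TI subgroup normalizes it. -/
theorem normalizes_of_ti {G : Type*} [Group G] {A : Subgroup G}
    (hti : ∀ h : G, A.map (MulAut.conj h).toMonoidHom = A ∨ A.map (MulAut.conj h).toMonoidHom ⊓ A = ⊥)
    {a c : G} (ha : a ∈ A) (ha1 : a ≠ 1) (hca : c * a = a * c) :
    c ∈ Subgroup.normalizer (A : Set G) := by
  rcases hti c with h | h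
  · rw [Subgroup.mem_normalizer_iff]
    intro x
    conv_rhs => rw [← h, Subgroup.mem_map_equiv, MulAut.conj_symm_apply]
    simp [mul_assoc]
  · exfalso
    apply ha1
    rw [← Subgroup.mem_bot, ← h]
    refine ⟨⟨a, ha, ?_⟩, ha⟩
    simp [hca]

/-- The commutator of two elements normalizing trivially intersecting subgroups. -/
theorem commute_of_normalize {G : Type*} [Group G] {A B : Subgroup G} (hAB : A ⊓ B = ⊥) {a b : G}
    (ha : a ∈ A) (hb : b ∈ B) (haB : a ∈ Subgroup.normalizer (B : Set G))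
    (hbA : b ∈ Subgroup.normalizer (A : Set G)) : a * b = b * a := by
  have h1 : a * b * a⁻¹ * b⁻¹ ∈ B :=
    B.mul_mem ((Subgroup.mem_normalizer_iff.mp haB b).mp hb) (B.inv_mem hb)
  have h2 : a * b * a⁻¹ * b⁻¹ ∈ A := by
    have := A.mul_mem ha ((Subgroup.mem_normalizer_iff.mp hbA _).mp (A.inv_mem ha))
    simpa [mul_assoc] using this
  have h3 : a * b * a⁻¹ * b⁻¹ = 1 := by rw [← Subgroup.mem_bot, ← hAB]; exact ⟨h2, h1⟩
  rw [mul_inv_eq_one, mul_inv_eq_iff_eq_mul] at h3
  exact h3

/-- An element of order at least 4 of `A` normalizing `B` centralizes `B`. -/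
theorem centralizes_of_sq_ne {G : Type*} [Group G] [Finite G] {A B : Subgroup G}
    (hA2 : IsPGroup 2 A) (hB2 : IsPGroup 2 B) (hBa : IsMulCommutative B)
    (htiA : ∀ h : G, A.map (MulAut.conj h).toMonoidHom = A ∨ A.map (MulAut.conj h).toMonoidHom ⊓ A = ⊥)
    (hAB : A ⊓ B = ⊥) {a : G} (ha : a ∈ A) (haB : a ∈ Subgroup.normalizer (B : Set G)) (ha2 : a ^ 2 ≠ 1) :
    ∀ b ∈ B, a * b = b * a := by
  letI : CommGroup B := { (inferInstance : Group B) with mul_comm := fun x y => hBa.is_comm.comm x y }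
  let t : MulAut B := Subgroup.normalizerMonoidHom B ⟨a, haB⟩
  have ht : ∃ k : ℕ, orderOf t = 2 ^ k := by
    obtain ⟨k, hk⟩ := hA2 ⟨a, ha⟩
    have hk' : (⟨a, haB⟩ : Subgroup.normalizer (B : Set G)) ^ (2 ^ k) = 1 :=
      Subtype.ext (by simpa using congrArg Subtype.val hk)
    obtain ⟨j, -, hj⟩ := (Nat.dvd_prime_pow Nat.prime_two).mp
      ((orderOf_map_dvd (Subgroup.normalizerMonoidHom B) _).trans (orderOf_dvd_of_pow_eq_one hk'))
    exact ⟨j, hj⟩
  have htv : ∀ x : B, ((t x : B) : G) = a * x * a⁻¹ := fun x => rfl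
  have hfix : ∀ x : B, t (t x) = x → t x = x := by
    intro x hx
    have h2 : (a ^ 2) * (x : G) = (x : G) * a ^ 2 := by
      have h := congrArg (fun y : B => (y : G)) hx
      simp only [htv] at h
      calc a ^ 2 * (x : G) = a * (a * x * a⁻¹) * a⁻¹ * (a * a) := by
            simp [pow_two, mul_assoc]
        _ = (x : G) * a ^ 2 := by rw [h, pow_two]
    have hxA := normalizes_of_ti htiA (A.pow_mem ha 2) ha2 h2.symm
    apply Subtype.ext
    rw [htv, commute_of_normalize hAB ha x.2 haB hxA, mul_inv_cancel_right]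
  intro b hb
  have h := congrArg (fun y : B => (y : G)) (Cfsg.Agent.S1780.result hB2 t ht hfix ⟨b, hb⟩)
  simp only [htv] at h
  calc a * b = a * b * a⁻¹ * a := by group
    _ = b * a := by rw [h]

/-- Let A be an abelian 2-subgroup of the finite group G such that every conjugate of A equals A or meets A trivially, and let g ∈ G with g A g⁻¹ ≠ A. Then either the subgroup of those elements of A that normalize g A g⁻¹ is an elementary abelian 2-group, or A and g A g⁻¹ commute elementwise. -/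
theorem result {G : Type*} [Group G] [Finite G] (A : Subgroup G)
    (hA2 : IsPGroup 2 ↥A) (hAa : IsMulCommutative ↥A)
    (hti : ∀ h : G, A.map (MulAut.conj h).toMonoidHom = A ∨ A.map (MulAut.conj h).toMonoidHom ⊓ A = ⊥)
    (g : G) (hg : A.map (MulAut.conj g).toMonoidHom ≠ A) :
    Cfsg.IsElementaryAbelian 2 (A ⊓ Subgroup.normalizer ((A.map (MulAut.conj g).toMonoidHom : Subgroup G) : Set G)) ∨
      ⁅A, A.map (MulAut.conj g).toMonoidHom⁆ = ⊥ := by
  set B := A.map (MulAut.conj g).toMonoidHom with hB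
  have hAB : A ⊓ B = ⊥ := by rw [inf_comm]; exact (hti g).resolve_left hg
  have hB2 : IsPGroup 2 B := hA2.map _
  have hBa : IsMulCommutative B := Subgroup.map_isMulCommutative A _
  have htiB : ∀ h : G, B.map (MulAut.conj h).toMonoidHom = B ∨ B.map (MulAut.conj h).toMonoidHom ⊓ B = ⊥ := by
    intro h
    have hcomp : B.map (MulAut.conj h).toMonoidHom =
        (A.map (MulAut.conj (g⁻¹ * h * g)).toMonoidHom).map (MulAut.conj g).toMonoidHom := by
      rw [hB, Subgroup.map_map, Subgroup.map_map]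
      congr 1
      ext x
      simp [mul_assoc]
    rw [hcomp]
    rcases hti (g⁻¹ * h * g) with h' | h'
    · left; rw [h']
    · right
      rw [hB, ← Subgroup.map_inf _ _ _ (MulAut.conj g).injective, h', Subgroup.map_bot]
  by_cases hE : ∀ a ∈ A ⊓ Subgroup.normalizer (B : Set G), a ^ 2 = 1
  · left
    exact ⟨⟨⟨fun x y => Subtype.ext (by simpa using congrArg Subtype.val (hAa.is_comm.comm ⟨x.1, x.2.1⟩ ⟨y.1, y.2.1⟩))⟩⟩, hE⟩
  · right
    push Not at hE
    obtain ⟨a, ⟨ha, haB⟩, ha2⟩ := hE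
    have ha1 : a ≠ 1 := by rintro rfl; simp at ha2
    have hcomm := centralizes_of_sq_ne hA2 hB2 hBa hti hAB ha haB ha2
    have hBA : ∀ b ∈ B, b ∈ Subgroup.normalizer (A : Set G) := fun b hb =>
      normalizes_of_ti hti ha ha1 (hcomm b hb).symm
    have hBA' : B ⊓ A = ⊥ := by rw [inf_comm]; exact hAB
    have hb0 : (MulAut.conj g) a ∈ B := Subgroup.mem_map_of_mem _ ha
    have hb02 : ((MulAut.conj g) a) ^ 2 ≠ 1 := by
      rw [← map_pow]; exact fun h => ha2 ((MulAut.conj g).injective (h.trans (map_one _).symm))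
    have hb01 : (MulAut.conj g) a ≠ 1 := fun h => hb02 (by rw [h, one_pow])
    have hcomm' := centralizes_of_sq_ne hB2 hA2 hAa htiB hBA' hb0 (hBA _ hb0) hb02
    rw [Subgroup.commutator_eq_bot_iff_le_centralizer]
    intro a' ha'
    rw [Subgroup.mem_centralizer_iff]
    intro b hb
    exact (commute_of_normalize hAB ha' hb (normalizes_of_ti htiB hb0 hb01 (hcomm' a' ha').symm) (hBA b hb)).symm

end Cfsg.Agent.S1781
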