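import Cfsg.Statements.S1782
-- import your own Cfsg.Agent.* helpers here

set_option autoImplicit false
open Cfsg
open scoped commutatorElement

namespace Cfsg.Agent.S1782

/-- A nontrivial normal subgroup of a finite 2-group contains a nontrivial central element. -/
theorem exists_central_mem {P : Type*} [Group P] [Finite P] (hP : IsPGroup 2 P) (K : Subgroup P)
    [K.Normal] (hK : K ≠ ⊥) : ∃ y ∈ K, y ≠ 1 ∧ ∀ x : P, x * y = y * x := by
  haveI : Fact (Nat.Prime 2) := ⟨Nat.prime_two⟩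
  letI : MulAction P K :=
    { smul := fun x k => ⟨x * k * x⁻¹, Subgroup.Normal.conj_mem inferInstance (k : P) k.2 x⟩
      one_smul := fun k => Subtype.ext (by show (1 : P) * k * 1⁻¹ = k; simp)
      mul_smul := fun a b k => Subtype.ext (by
        show a * b * k * (a * b)⁻¹ = a * (b * k * b⁻¹) * a⁻¹; simp [mul_assoc]) }
  haveI := (Subgroup.nontrivial_iff_ne_bot K).mpr hK
  obtain ⟨n, hn0, hn⟩ := (hP.to_subgroup K).nontrivial_iff_card.mp inferInstance
  have h1 : (1 : K) ∈ MulAction.fixedPoints P K := fun x =>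
    Subtype.ext (by show x * ((1 : K) : P) * x⁻¹ = ((1 : K) : P); simp)
  obtain ⟨y, hy, hy1⟩ := hP.exists_fixed_point_of_prime_dvd_card_of_fixed_point K
    (hn ▸ dvd_pow_self 2 (by omega)) h1
  refine ⟨y, y.2, fun h => hy1 (Subtype.ext h.symm), fun x => ?_⟩
  have h : x * y * x⁻¹ = y := congrArg Subtype.val (hy x)
  exact mul_inv_eq_iff_eq_mul.mp h

/-- A finite group all of whose squares are trivial has trivial Frattini subgroup. -/
theorem frattini_eq_bot_of_sq {P : Type*} [Group P] [Finite P] (h : ∀ x : P, x ^ 2 = 1) :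
    frattini P = ⊥ := by
  classical
  rw [eq_bot_iff]
  intro x hx
  by_contra hx1
  rw [Subgroup.mem_bot] at hx1
  obtain ⟨K, hK⟩ := (Set.toFinite {K : Subgroup P | x ∉ K}).exists_maximal
    ⟨⊥, by simpa using hx1⟩
  have hinv : ∀ a : P, a⁻¹ = a := fun a =>
    inv_eq_of_mul_eq_one_right (by rw [← pow_two, h])
  have hcomm : ∀ a b : P, a * b = b * a := fun a b => by
    rw [← hinv (a * b), mul_inv_rev, hinv, hinv]
  have hco : IsCoatom K := by
    refine ⟨fun hKt => hK.1 (by simp [hKt]), fun L hL => ?_⟩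
    have hxL : x ∈ L := by
      by_contra hxL
      exact hL.not_ge (hK.2 hxL hL.le)
    rw [eq_top_iff]
    intro y _
    by_cases hy : y ∈ K
    · exact hL.le hy
    · let K' : Subgroup P :=
        { carrier := {w | w ∈ K ∨ w * y ∈ K}
          one_mem' := Or.inl K.one_mem
          inv_mem' := fun {a} ha => by
            show a⁻¹ ∈ K ∨ a⁻¹ * y ∈ K
            rwa [hinv]
          mul_mem' := fun {a b} ha hb => by
            rcases ha with ha | ha <;> rcases hb with hb | hb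
            · exact Or.inl (K.mul_mem ha hb)
            · exact Or.inr (by rw [mul_assoc]; exact K.mul_mem ha hb)
            · exact Or.inr (by rw [mul_assoc, hcomm b y, ← mul_assoc]; exact K.mul_mem ha hb)
            · refine Or.inl ?_
              have := K.mul_mem ha hb
              rwa [hcomm b y, ← mul_assoc, mul_assoc a y y, ← pow_two, h, mul_one] at this }
      have hxK' : x ∈ K' := by
        by_contra hxK'
        exact hy (hK.2 hxK' (fun w hw => Or.inl hw)
          (show y ∈ K' from Or.inr (by rw [← pow_two, h]; exact K.one_mem)))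
      rcases hxK' with hxy | hxy
      · exact absurd hxy hK.1
      · have := L.mul_mem (L.inv_mem hxL) (hL.le hxy)
        simpa using this
  exact hK.1 (frattini_le_coatom hco hx)

section Step

variable {S : Type*} [Group S]

/-- A statement about `R`, `T` used symmetrically: conjugates of `R` under `T` other than `R` centralize `R`. -/
def ConjCommutes (R T : Subgroup S) : Prop :=
  ∀ t ∈ T, t ∉ Subgroup.normalizer (R : Set S) → ∀ r ∈ R, ∀ r' ∈ R, r * (t * r' * t⁻¹) = (t * r' * t⁻¹) * r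

theorem conj_mem_of_mem_normalizer {R : Subgroup S} {x r : S}
    (hx : x ∈ Subgroup.normalizer (R : Set S)) (hr : r ∈ R) : x * r * x⁻¹ ∈ R :=
  (Subgroup.mem_normalizer_iff.mp hx r).mp hr

/-- The trivial intersection of a member with a conjugate it differs from. -/
def TIWith (R T : Subgroup S) : Prop :=
  ∀ t ∈ T, t ∉ Subgroup.normalizer (R : Set S) → ∀ r ∈ R, t * r * t⁻¹ ∈ R → r = 1

variable [Finite S]

/-- If `T` normalizes `R`, then `R` normalizes `T`. -/
theorem normalizes_back {R T : Subgroup S} (hRT : R ⊓ T = ⊥) (hc : Nat.card R = Nat.card T)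
    (hTR : T ≤ Subgroup.normalizer (R : Set S)) (hC : ConjCommutes T R) (hI : TIWith T R) :
    R ≤ Subgroup.normalizer (T : Set S) := by
  classical
  intro r hr
  by_contra hrn
  set c : S → S := fun t => r * t * r⁻¹ * t⁻¹ with hc_def
  have hcR : ∀ t ∈ T, c t ∈ R := by
    intro t ht
    have h1 := conj_mem_of_mem_normalizer (hTR ht) (R.inv_mem hr)
    have h2 := R.mul_mem hr h1
    simpa [hc_def, mul_assoc] using h2
  have hu : ∀ t, c t * t = r * t * r⁻¹ := fun t => by simp [hc_def]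
  have hcen : ∀ t ∈ T, ∀ t' ∈ T, t' * c t = c t * t' ∧ t' * t = t * t' := by
    intro t ht t' ht'
    have h1 : t' * (c t * t) = (c t * t) * t' := by rw [hu]; exact hC r hr hrn t' ht' t ht
    have h2 : t' * c t * t'⁻¹ ∈ R := conj_mem_of_mem_normalizer (hTR ht') (hcR t ht)
    have h3 : (c t)⁻¹ * (t' * c t * t'⁻¹) = t * t' * t⁻¹ * t'⁻¹ := by
      have : t' * c t * t'⁻¹ = c t * t * t' * t⁻¹ * t'⁻¹ := by
        rw [← h1]; group
      rw [this]; group
    have h4 : t * t' * t⁻¹ * t'⁻¹ = 1 := by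
      rw [← Subgroup.mem_bot, ← hRT]
      refine ⟨h3 ▸ R.mul_mem (R.inv_mem (hcR t ht)) h2, ?_⟩
      exact T.mul_mem (T.mul_mem (T.mul_mem ht ht') (T.inv_mem ht)) (T.inv_mem ht')
    have h5 : t * t' = t' * t := by
      calc t * t' = (t * t' * t⁻¹ * t'⁻¹) * (t' * t) := by group
        _ = t' * t := by rw [h4, one_mul]
    refine ⟨?_, h5.symm⟩
    apply mul_right_cancel (b := t)
    calc t' * c t * t = t' * (c t * t) := mul_assoc _ _ _
      _ = c t * t * t' := h1
      _ = c t * (t * t') := mul_assoc _ _ _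
      _ = c t * t' * t := by rw [h5, ← mul_assoc]
  let D : Subgroup S := R ⊓ Subgroup.centralizer (T : Set S)
  let ψ : T → D := fun t => ⟨c t, hcR t t.2, Subgroup.mem_centralizer_iff.mpr fun t' ht' => (hcen t t.2 t' ht').1⟩
  have hψ : Function.Injective ψ := by
    intro a b hab
    have hcab : c (a : S) = c (b : S) := congrArg Subtype.val hab
    have hmem : (a : S) * (b : S)⁻¹ ∈ T := T.mul_mem a.2 (T.inv_mem b.2)
    have hfix : r * ((a : S) * (b : S)⁻¹) * r⁻¹ = (a : S) * (b : S)⁻¹ := by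
      calc r * ((a : S) * (b : S)⁻¹) * r⁻¹ = (r * a * r⁻¹) * (r * b * r⁻¹)⁻¹ := by group
        _ = c (a : S) * ((a : S) * (b : S)⁻¹) * (c (a : S))⁻¹ := by rw [← hu, ← hu, hcab]; group
        _ = (a : S) * (b : S)⁻¹ := by
          rw [← (hcen a a.2 _ hmem).1, mul_inv_cancel_right]
    exact Subtype.ext (mul_inv_eq_one.mp (hI r hr hrn _ hmem (by rw [hfix]; exact hmem)))
  have hDR : D = R := Subgroup.eq_of_le_of_card_ge inf_le_left
    (hc ▸ Nat.card_le_card_of_injective ψ hψ)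
  have hrC : r ∈ Subgroup.centralizer (T : Set S) := (hDR.symm ▸ hr : r ∈ D).2
  exact hrn (Subgroup.centralizer_le_normalizer _ hrC)

/-- A non-normalized member is abelian. -/
theorem comm_of_not_normalizes {R T : Subgroup S} (hS : IsPGroup 2 S)
    (hTR : ¬ T ≤ Subgroup.normalizer (R : Set S)) (hRT : ¬ R ≤ Subgroup.normalizer (T : Set S))
    (hCR : ConjCommutes R T) (hIR : TIWith R T) (hIT : TIWith T R)
    (hN : ∀ r ∈ R, ∀ t ∈ T, r * t * r⁻¹ ∈ Subgroup.normalizer (T : Set S)) :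
    ∀ a ∈ R, ∀ b ∈ R, a * b = b * a := by
  intro a ha b hb
  by_contra hab
  obtain ⟨t, ht, htn⟩ := SetLike.not_le_iff_exists.mp hTR
  obtain ⟨r, hr, hrn⟩ := SetLike.not_le_iff_exists.mp hRT
  have hne : commutator R ≠ ⊥ := by
    intro h
    apply hab
    have hm : ⁅(⟨a, ha⟩ : R), (⟨b, hb⟩ : R)⁆ ∈ commutator R :=
      Subgroup.commutator_mem_commutator (Subgroup.mem_top _) (Subgroup.mem_top _)
    rw [h, Subgroup.mem_bot, commutatorElement_eq_one_iff_mul_comm] at hm
    exact congrArg Subtype.val hm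
  obtain ⟨y, hy, hy1, hyc⟩ := exists_central_mem (hS.to_subgroup R) (commutator R) hne
  have hyN : (y : S) ∈ Subgroup.normalizer (T : Set S) := by
    have hle : commutator R ≤ (Subgroup.normalizer (T : Set S)).comap R.subtype := by
      rw [commutator_def, Subgroup.commutator_le]
      intro u _ v _
      show ((⁅u, v⁆ : R) : S) ∈ Subgroup.normalizer (T : Set S)
      have hcom := hCR t ht htn (v : S) v.2 (u : S) u.2
      have e : ((⁅u, v⁆ : R) : S) = ((u : S) * t * (u : S)⁻¹) * t⁻¹ *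
          (((v : S) * t * (v : S)⁻¹) * (((v : S) * u) * t * ((v : S) * u)⁻¹)⁻¹) := by
        have h' : t * (u : S)⁻¹ * t⁻¹ * v = v * (t * (u : S)⁻¹ * t⁻¹) := by
          have h'' := hCR t ht htn (v : S) v.2 ((u : S)⁻¹) (R.inv_mem u.2)
          exact h''.symm
        calc ((⁅u, v⁆ : R) : S) = (u : S) * v * (u : S)⁻¹ * (v : S)⁻¹ := by simp [commutatorElement_def]
          _ = (u : S) * ((v * (t * (u : S)⁻¹ * t⁻¹)) * (v : S)⁻¹) * (t * t⁻¹) * ((v * (t * (u : S)⁻¹ * t⁻¹)) * (v : S)⁻¹)⁻¹ * ((v : S) * (u : S)⁻¹ * (v : S)⁻¹) := by group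
          _ = (u : S) * ((t * (u : S)⁻¹ * t⁻¹ * v) * (v : S)⁻¹) * (t * t⁻¹) * ((v * (t * (u : S)⁻¹ * t⁻¹)) * (v : S)⁻¹)⁻¹ * ((v : S) * (u : S)⁻¹ * (v : S)⁻¹) := by rw [h']
          _ = _ := by group
      rw [e]
      exact Subgroup.mul_mem _ (Subgroup.mul_mem _ (hN _ u.2 t ht)
        (Subgroup.le_normalizer (T.inv_mem ht))) (Subgroup.mul_mem _ (hN _ v.2 t ht)
        (Subgroup.inv_mem _ (hN _ (R.mul_mem v.2 u.2) t ht)))
    exact hle hy
  set s : S := ((y : S)⁻¹ * t⁻¹ * y) * t with hs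
  have hsT : s ∈ T := by
    refine T.mul_mem ?_ ht
    have h := conj_mem_of_mem_normalizer (Subgroup.inv_mem _ hyN) (T.inv_mem ht)
    simpa using h
  have htn' : t⁻¹ ∉ Subgroup.normalizer (R : Set S) := fun h => htn (by simpa using Subgroup.inv_mem _ h)
  have hsR : r * s = s * r := by
    have h1 : r * (y : S) = y * r := congrArg Subtype.val (hyc ⟨r, hr⟩)
    have h2 := hCR t⁻¹ (T.inv_mem ht) htn' r hr (y : S) y.2
    rw [inv_inv] at h2
    have e : s = (y : S)⁻¹ * (t⁻¹ * y * t) := by simp [hs, mul_assoc]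
    rw [e, ← mul_assoc, (show r * (y : S)⁻¹ = (y : S)⁻¹ * r by
      rw [eq_inv_mul_iff_mul_eq, ← mul_assoc, ← h1, mul_inv_cancel_right]), mul_assoc, h2, ← mul_assoc]
  have hs1 : s = 1 := hIT r hr hrn s hsT (by rw [hsR, mul_inv_cancel_right]; exact hsT)
  apply hy1
  apply Subtype.ext
  apply hIR t⁻¹ (T.inv_mem ht) htn' (y : S) y.2
  have : t⁻¹ * (y : S) * t⁻¹⁻¹ = y := by
    calc t⁻¹ * (y : S) * t⁻¹⁻¹ = (y : S) * s := by simp [hs, mul_assoc]
      _ = y := by rw [hs1, mul_one]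
  rw [this]; exact y.2

/-- The mutual non-normalizing case forces exponent 2. -/
theorem sq_eq_one_of_not_normalizes {R T : Subgroup S} (hS : IsPGroup 2 S)
    (hRa : ∀ a ∈ R, ∀ b ∈ R, a * b = b * a) (hTa : ∀ a ∈ T, ∀ b ∈ T, a * b = b * a)
    (hTR : ¬ T ≤ Subgroup.normalizer (R : Set S))
    (hCR : ConjCommutes R T) (hCT : ConjCommutes T R) (hIR : TIWith R T) :
    ∀ r ∈ R, r ^ 2 = 1 := by
  classical
  obtain ⟨t₀, ht₀, ht₀n⟩ := SetLike.not_le_iff_exists.mp hTR
  obtain ⟨n, hn⟩ := hS t₀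
  have hex : ∃ n, t₀ ^ (2 ^ n) ∈ Subgroup.normalizer (R : Set S) := ⟨n, by rw [hn]; exact Subgroup.one_mem _⟩
  have hn0 : Nat.find hex ≠ 0 := fun h => ht₀n (by simpa [h] using Nat.find_spec hex)
  obtain ⟨m, hm⟩ := Nat.exists_eq_succ_of_ne_zero hn0
  set t := t₀ ^ (2 ^ m) with ht_def
  have htn : t ∉ Subgroup.normalizer (R : Set S) := Nat.find_min hex (by omega)
  have htT : t ∈ T := T.pow_mem ht₀ _
  have ht2 : t * t ∈ Subgroup.normalizer (R : Set S) := by
    have := Nat.find_spec hex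
    rwa [hm, pow_succ, mul_two, pow_add] at this
  -- commutators of R and T centralize R and T
  have hcenR : ∀ r ∈ R, ∀ u ∈ T, ∀ a ∈ R, a * (r * u * r⁻¹ * u⁻¹) = (r * u * r⁻¹ * u⁻¹) * a := by
    intro r hr u hu a ha
    have h1 : a * (u * r⁻¹ * u⁻¹) = (u * r⁻¹ * u⁻¹) * a := by
      by_cases hun : u ∈ Subgroup.normalizer (R : Set S)
      · exact hRa a ha _ (conj_mem_of_mem_normalizer hun (R.inv_mem hr))
      · exact hCR u hu hun a ha _ (R.inv_mem hr)
    calc a * (r * u * r⁻¹ * u⁻¹) = (a * r) * (u * r⁻¹ * u⁻¹) := by group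
      _ = r * (a * (u * r⁻¹ * u⁻¹)) := by rw [hRa a ha r hr, mul_assoc]
      _ = (r * u * r⁻¹ * u⁻¹) * a := by rw [h1]; group
  have hcenT : ∀ r ∈ R, ∀ u ∈ T, ∀ b ∈ T, b * (r * u * r⁻¹ * u⁻¹) = (r * u * r⁻¹ * u⁻¹) * b := by
    intro r hr u hu b hb
    have h1 : b * (r * u * r⁻¹) = (r * u * r⁻¹) * b := by
      by_cases hrn : r ∈ Subgroup.normalizer (T : Set S)
      · exact hTa b hb _ (conj_mem_of_mem_normalizer hrn hu)
      · exact hCT r hr hrn b hb _ hu
    calc b * (r * u * r⁻¹ * u⁻¹) = (b * (r * u * r⁻¹)) * u⁻¹ := by group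
      _ = (r * u * r⁻¹) * (b * u⁻¹) := by rw [h1, mul_assoc]
      _ = (r * u * r⁻¹ * u⁻¹) * b := by rw [hTa b hb _ (T.inv_mem hu)]; group
  intro r hr
  set z := r * t * r⁻¹ * t⁻¹ with hz
  have e1 : r * r * t * (r * r)⁻¹ * t⁻¹ = z * z := by
    calc r * r * t * (r * r)⁻¹ * t⁻¹ = (r * z) * (t * r⁻¹ * t⁻¹) := by rw [hz]; group
      _ = (z * r) * (t * r⁻¹ * t⁻¹) := by rw [hcenR r hr t htT r hr]
      _ = z * z := by rw [hz]; group
  have e2 : r * (t * t) * r⁻¹ * (t * t)⁻¹ = z * z := by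
    calc r * (t * t) * r⁻¹ * (t * t)⁻¹ = z * (t * z) * t⁻¹ := by rw [hz]; group
      _ = z * (z * t) * t⁻¹ := by rw [hcenT r hr t htT t htT]
      _ = z * z := by group
  have hc0 : r * (t * t) * r⁻¹ * (t * t)⁻¹ ∈ R := by
    have := R.mul_mem hr (conj_mem_of_mem_normalizer ht2 (R.inv_mem hr))
    simpa [mul_assoc] using this
  have hzz : r * (t * t) * r⁻¹ * (t * t)⁻¹ = 1 := by
    refine hIR t htT htn _ hc0 ?_
    have h := hcenT r hr (t * t) (T.mul_mem htT htT) t htT
    rw [h, mul_inv_cancel_right]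
    exact hc0
  rw [e2] at hzz
  rw [hzz, mul_inv_eq_one, mul_inv_eq_iff_eq_mul] at e1
  rw [pow_two]
  refine hIR t htT htn _ (R.mul_mem hr hr) ?_
  rw [← e1, mul_inv_cancel_right]
  exact R.mul_mem hr hr

end Step

/-- Let S be a finite 2-group and Δ a set of subgroups of S closed under conjugation by S, all of the same order, each with nontrivial Frattini subgroup, and such that two distinct members of Δ meet trivially. Then any two distinct members of Δ commute elementwise. -/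
theorem result {S : Type*} [Group S] [Finite S] (hS : IsPGroup 2 S)
    (Δ : Set (Subgroup S)) (hinv : ∀ s : S, ∀ R ∈ Δ, R.map (MulAut.conj s).toMonoidHom ∈ Δ)
    (hΦ : ∀ R ∈ Δ, frattini ↥R ≠ ⊥) (hord : ∀ R ∈ Δ, ∀ T ∈ Δ, Nat.card ↥R = Nat.card ↥T)
    (hti : ∀ R ∈ Δ, ∀ T ∈ Δ, R = T ∨ R ⊓ T = ⊥) :
    ∀ R ∈ Δ, ∀ T ∈ Δ, R ≠ T → ⁅R, T⁆ = ⊥ := by
  haveI : Fact (Nat.Prime 2) := ⟨Nat.prime_two⟩
  suffices h : ∀ n : ℕ, ∀ M : Subgroup S, Nat.card M = n → ∀ R ∈ Δ, ∀ T ∈ Δ, R ≤ M → T ≤ M → R ≠ T → ⁅R, T⁆ = ⊥ from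
    fun R hR T hT => h _ ⊤ rfl R hR T hT le_top le_top
  intro n
  induction n using Nat.strong_induction_on with
  | _ n ih =>
  intro M hMn R hR T hT hRM hTM hne
  have hconj : ∀ A ∈ Δ, ∀ B ∈ Δ, A ≤ M → B ≤ M → A ≠ B → ∀ x ∈ M,
      A.map (MulAut.conj x).toMonoidHom ≠ A → ⁅A, A.map (MulAut.conj x).toMonoidHom⁆ = ⊥ := by
    intro A hA B hB hAM hBM hAB x hx hxA
    have hAne : A ≠ M := by
      intro h
      have hBA : B ≤ A := h ▸ hBM
      exact hAB (Subgroup.eq_of_le_of_card_ge hBA (hord A hA B hB).le).symm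
    have hlt : A.subgroupOf M ≠ ⊤ := fun h => hAne (le_antisymm hAM (Subgroup.subgroupOf_eq_top.mp h))
    obtain ⟨K, hK, hAK⟩ := (eq_top_or_exists_le_coatom (A.subgroupOf M)).resolve_left hlt
    haveI : Group.IsNilpotent M := (hS.to_subgroup M).isNilpotent
    haveI : K.Normal := Subgroup.NormalizerCondition.normal_of_coatom K Group.normalizerCondition_of_isNilpotent hK
    have hKM : K.map M.subtype ≤ M := by rintro _ ⟨k, -, rfl⟩; exact k.2
    have hcard : Nat.card (K.map M.subtype) < n := by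
      rw [← hMn]
      rcases lt_or_ge (Nat.card (K.map M.subtype)) (Nat.card M) with h | h
      · exact h
      · exfalso
        apply hK.1
        apply Subgroup.map_injective M.subtype_injective
        rw [Subgroup.eq_of_le_of_card_ge hKM h, ← MonoidHom.range_eq_map, Subgroup.range_subtype]
    have hA' : A ≤ K.map M.subtype := fun a ha => ⟨⟨a, hAM ha⟩, hAK ha, rfl⟩
    have hAx : A.map (MulAut.conj x).toMonoidHom ≤ K.map M.subtype := by
      rintro _ ⟨a, ha, rfl⟩
      exact ⟨⟨x, hx⟩ * ⟨a, hAM ha⟩ * ⟨x, hx⟩⁻¹, Subgroup.Normal.conj_mem inferInstance _ (hAK ha) _, rfl⟩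
    exact ih _ hcard _ rfl A hA _ (hinv x A hA) hA' hAx (Ne.symm hxA)
  have hfix : ∀ A : Subgroup S, ∀ x : S, x ∉ Subgroup.normalizer (A : Set S) →
      A.map (MulAut.conj x).toMonoidHom ≠ A := by
    intro A x hx h
    apply hx
    rw [Subgroup.mem_normalizer_iff]
    intro y
    conv_rhs => rw [← h, Subgroup.mem_map_equiv, MulAut.conj_symm_apply]
    simp [mul_assoc]
  have hCC : ∀ A ∈ Δ, ∀ B ∈ Δ, A ≤ M → B ≤ M → A ≠ B → ConjCommutes A B ∧ TIWith A B := by
    intro A hA B hB hAM hBM hAB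
    refine ⟨fun b hb hbn a ha a' ha' => ?_, fun b hb hbn a ha hba => ?_⟩
    · have h := hconj A hA B hB hAM hBM hAB b (hBM hb) (hfix A b hbn)
      rw [Subgroup.commutator_eq_bot_iff_le_centralizer] at h
      exact (Subgroup.mem_centralizer_iff.mp (h ha) _ (Subgroup.mem_map_of_mem _ ha')).symm
    · have h := (hti _ (hinv b A hA) A hA).resolve_left (hfix A b hbn)
      have hm : b * a * b⁻¹ = 1 := by
        rw [← Subgroup.mem_bot, ← h]
        exact ⟨⟨a, ha, rfl⟩, hba⟩
      simpa using hm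
  obtain ⟨hCR, hIR⟩ := hCC R hR T hT hRM hTM hne
  obtain ⟨hCT, hIT⟩ := hCC T hT R hR hTM hRM hne.symm
  have hRT : R ⊓ T = ⊥ := (hti R hR T hT).resolve_left hne
  have hTR' : T ⊓ R = ⊥ := by rw [inf_comm]; exact hRT
  have hmutual : T ≤ Subgroup.normalizer (R : Set S) → R ≤ Subgroup.normalizer (T : Set S) → ⁅R, T⁆ = ⊥ := by
    intro h1 h2
    rw [eq_bot_iff, ← hRT]
    refine le_inf ?_ ?_
    · rw [Subgroup.commutator_le]
      intro a ha b hb
      rw [commutatorElement_def]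
      simpa [mul_assoc] using R.mul_mem ha (conj_mem_of_mem_normalizer (h1 hb) (R.inv_mem ha))
    · rw [Subgroup.commutator_le]
      intro a ha b hb
      rw [commutatorElement_def]
      exact T.mul_mem (conj_mem_of_mem_normalizer (h2 ha) hb) (T.inv_mem hb)
  by_cases h1 : T ≤ Subgroup.normalizer (R : Set S)
  · exact hmutual h1 (normalizes_back hRT (hord R hR T hT) h1 hCT hIT)
  by_cases h2 : R ≤ Subgroup.normalizer (T : Set S)
  · exact hmutual (normalizes_back hTR' (hord T hT R hR) h2 hCR hIR) h2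
  exfalso
  have hN : ∀ A B : Subgroup S, ConjCommutes A B → ∀ b ∈ B, ∀ a ∈ A,
      b * a * b⁻¹ ∈ Subgroup.normalizer (A : Set S) := by
    intro A B hC b hb a ha
    by_cases hbn : b ∈ Subgroup.normalizer (A : Set S)
    · exact Subgroup.le_normalizer (conj_mem_of_mem_normalizer hbn ha)
    · apply Subgroup.centralizer_le_normalizer
      exact Subgroup.mem_centralizer_iff.mpr fun a' ha' => hC b hb hbn a' ha' a ha
  have hRa := comm_of_not_normalizes hS h1 h2 hCR hIR hIT (fun r hr t ht => hN T R hCT r hr t ht)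
  have hTa := comm_of_not_normalizes hS h2 h1 hCT hIT hIR (fun t ht r hr => hN R T hCR t ht r hr)
  have hsq := sq_eq_one_of_not_normalizes hS hRa hTa h1 hCR hCT hIR
  exact hΦ R hR (frattini_eq_bot_of_sq fun x => Subtype.ext (by simpa using hsq x x.2))

end Cfsg.Agent.S1782
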