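import Cfsg.Statements.S1783
import Cfsg.Agent.Eq.Def_Local
import Cfsg.Agent.Eq.Def_Transfer
import Cfsg.Agent.S1782
import Cfsg.Agent.LocalCharP.NoComponent
import Cfsg.Agent.PGroup.Aut
import Cfsg.Agent.LocalP.Basic

set_option autoImplicit false
open Cfsg

namespace Cfsg.Agent.S1783

/-- A non-elementary abelian TI subgroup commutes with its conjugates inside a common 2-group. -/
theorem commute_conj_of_le {X : Type*} [Group X] [Finite X] {A S : Subgroup X} (hS : IsPGroup 2 S)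
    (hAa : ∀ a ∈ A, ∀ b ∈ A, a * b = b * a)
    (hti : ∀ h : X, A.map (MulAut.conj h).toMonoidHom = A ∨ A.map (MulAut.conj h).toMonoidHom ⊓ A = ⊥)
    (hne : ∃ a ∈ A, a ^ 2 ≠ 1) (hAS : A ≤ S) {g : X} (hg : A.map (MulAut.conj g).toMonoidHom ≤ S) :
    ∀ a ∈ A, ∀ b ∈ A, a * (g * b * g⁻¹) = (g * b * g⁻¹) * a := by
  haveI : Fact (Nat.Prime 2) := ⟨Nat.prime_two⟩
  let Δ : Set (Subgroup S) := {R | ∃ h : X, A.map (MulAut.conj h).toMonoidHom ≤ S ∧
    R.map S.subtype = A.map (MulAut.conj h).toMonoidHom}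
  have hcard : ∀ R ∈ Δ, Nat.card R = Nat.card A := by
    rintro R ⟨h, -, hR⟩
    have h1 := congrArg (fun K : Subgroup X => Nat.card K) hR
    rwa [Subgroup.card_map_of_injective S.subtype_injective,
      Subgroup.card_map_of_injective (f := (MulAut.conj h).toMonoidHom) (MulAut.conj h).injective] at h1
  have hinv : ∀ s : S, ∀ R ∈ Δ, R.map (MulAut.conj s).toMonoidHom ∈ Δ := by
    rintro s R ⟨h, -, hR⟩
    have e1 : (R.map (MulAut.conj s).toMonoidHom).map S.subtype =
        (R.map S.subtype).map (MulAut.conj (s : X)).toMonoidHom := by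
      rw [Subgroup.map_map, Subgroup.map_map]
      congr 1
    have e2 : (A.map (MulAut.conj h).toMonoidHom).map (MulAut.conj (s : X)).toMonoidHom =
        A.map (MulAut.conj ((s : X) * h)).toMonoidHom := by
      rw [Subgroup.map_map]
      congr 1
      ext x
      simp [mul_assoc]
    refine ⟨(s : X) * h, ?_, by rw [e1, hR, e2]⟩
    rw [← e2, ← hR, ← e1]
    rintro _ ⟨x, -, rfl⟩
    exact x.2
  have htiΔ : ∀ R ∈ Δ, ∀ T ∈ Δ, R = T ∨ R ⊓ T = ⊥ := by
    rintro R ⟨h, -, hR⟩ T ⟨k, -, hT⟩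
    have e : A.map (MulAut.conj k).toMonoidHom =
        (A.map (MulAut.conj (h⁻¹ * k)).toMonoidHom).map (MulAut.conj h).toMonoidHom := by
      rw [Subgroup.map_map]
      congr 1
      ext x
      simp [mul_assoc]
    rcases hti (h⁻¹ * k) with hk | hk
    · left
      apply Subgroup.map_injective S.subtype_injective
      rw [hR, hT, e, hk]
    · right
      apply Subgroup.map_injective S.subtype_injective
      rw [Subgroup.map_inf _ _ _ S.subtype_injective, hR, hT, e,
        ← Subgroup.map_inf _ _ (MulAut.conj h).toMonoidHom (MulAut.conj h).injective, inf_comm, hk,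
        Subgroup.map_bot, Subgroup.map_bot]
  have hΦ : ∀ R ∈ Δ, frattini R ≠ ⊥ := by
    rintro R ⟨h, -, hR⟩ hbot
    obtain ⟨a, ha, ha2⟩ := hne
    have hmem : h * a * h⁻¹ ∈ R.map S.subtype := hR ▸ ⟨a, ha, rfl⟩
    obtain ⟨r, hr, hr'⟩ := hmem
    have hsq := CfsgLib.PGroup.pow_prime_mem_frattini (p := 2) (hS.to_subgroup R) (⟨r, hr⟩ : R)
    rw [hbot, Subgroup.mem_bot] at hsq
    have h2 : (h * a * h⁻¹) ^ 2 = 1 := by
      rw [← hr']
      exact congrArg (fun x : R => ((x : S) : X)) hsq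
    rw [← MulAut.conj_apply, ← map_pow] at h2
    exact ha2 ((MulAut.conj h).injective (h2.trans (map_one _).symm))
  have hAmem : A.subgroupOf S ∈ Δ := by
    have hid : A.map (MulAut.conj (1 : X)).toMonoidHom = A := by
      ext x
      simp
    refine ⟨1, by rw [hid]; exact hAS, ?_⟩
    rw [hid, Subgroup.map_subgroupOf_eq_of_le hAS]
  have hgmem : (A.map (MulAut.conj g).toMonoidHom).subgroupOf S ∈ Δ :=
    ⟨g, hg, Subgroup.map_subgroupOf_eq_of_le hg⟩
  intro a ha b hb
  by_cases heq : A.subgroupOf S = (A.map (MulAut.conj g).toMonoidHom).subgroupOf S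
  · have : (⟨g * b * g⁻¹, hg ⟨b, hb, rfl⟩⟩ : S) ∈ (A.map (MulAut.conj g).toMonoidHom).subgroupOf S :=
      ⟨b, hb, rfl⟩
    rw [← heq] at this
    exact hAa a ha _ this
  · have h := Cfsg.Agent.S1782.result hS Δ hinv hΦ (fun R hR T hT => (hcard R hR).trans (hcard T hT).symm)
      htiΔ _ hAmem _ hgmem heq
    rw [Subgroup.commutator_eq_bot_iff_le_centralizer] at h
    have h' := Subgroup.mem_centralizer_iff.mp (h (show (⟨a, hAS ha⟩ : S) ∈ A.subgroupOf S from ha))
      (⟨g * b * g⁻¹, hg ⟨b, hb, rfl⟩⟩ : S) ⟨b, hb, rfl⟩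
    exact (congrArg Subtype.val h').symm

/-- The subgroup of the elements acting trivially on the Frattini quotient of the normal subgroup `Q`. -/
def trivialModFrattini {X : Type*} [Group X] (Q : Subgroup X) [Q.Normal] : Subgroup X where
  carrier := {x | ∀ q : Q, MulAut.conjNormal x q * q⁻¹ ∈ frattini Q}
  one_mem' := fun q => by simp
  mul_mem' := fun {a b} ha hb q => by
    have h : MulAut.conjNormal (a * b) q * q⁻¹ =
        (MulAut.conjNormal a (MulAut.conjNormal b q) * (MulAut.conjNormal b q)⁻¹) *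
          (MulAut.conjNormal b q * q⁻¹) := by
      rw [map_mul, MulAut.mul_apply]; group
    rw [h]
    exact mul_mem (ha _) (hb q)
  inv_mem' := fun {a} ha q => by
    have h := inv_mem (ha ((MulAut.conjNormal a)⁻¹ q))
    rwa [MulAut.apply_inv_self, mul_inv_rev, inv_inv, ← map_inv] at h

theorem trivialModFrattini_normal {X : Type*} [Group X] (Q : Subgroup X) [Q.Normal] :
    (trivialModFrattini Q).Normal := by
  refine ⟨fun x hx g q => ?_⟩
  have h := hx ((MulAut.conjNormal g)⁻¹ q)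
  have hchar : ∀ σ : MulAut Q, ∀ y ∈ frattini Q, σ y ∈ frattini Q := fun σ y hy =>
    (Subgroup.characteristic_iff_map_le.mp inferInstance σ) ⟨y, hy, rfl⟩
  have h2 := hchar (MulAut.conjNormal g) _ h
  rw [map_mul, map_inv, MulAut.apply_inv_self] at h2
  rwa [map_mul, map_mul, map_inv, MulAut.mul_apply, MulAut.mul_apply]

/-- Let X be a finite group whose generalized Fitting subgroup equals its largest normal 2-subgroup Q, and let A be an abelian 2-subgroup of X such that every conjugate of A equals A or meets A trivially. Let B be the subgroup generated by the squares of the elements of A. Then B lies in Q, and if B is not an elementary abelian 2-group then the normal closure of B in X is commutative. -/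
theorem result {X : Type*} [Group X] [Finite X]
    (hX : Cfsg.generalizedFittingSubgroup X = Cfsg.pCore 2 X) (A : Subgroup X) (hA2 : IsPGroup 2 ↥A) (hAa : IsMulCommutative ↥A)
    (hti : ∀ h : X, A.map (MulAut.conj h).toMonoidHom = A ∨ A.map (MulAut.conj h).toMonoidHom ⊓ A = ⊥) :
    Subgroup.closure ((fun a : X => a ^ 2) '' (A : Set X)) ≤ Cfsg.pCore 2 X ∧
      (¬ Cfsg.IsElementaryAbelian 2 (Subgroup.closure ((fun a : X => a ^ 2) '' (A : Set X))) →
        IsMulCommutative ↥(Subgroup.normalClosure ((fun a : X => a ^ 2) '' (A : Set X)))) := by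
  haveI : Fact (Nat.Prime 2) := ⟨Nat.prime_two⟩
  haveI := Cfsg.pCore_normal 2 X
  set Q := Cfsg.pCore 2 X with hQ
  have hQ2 : IsPGroup 2 Q := CfsgLib.LocalP.isPGroup_pCore
  set B := Subgroup.closure ((fun a : X => a ^ 2) '' (A : Set X)) with hB
  have hAc : ∀ a ∈ A, ∀ b ∈ A, a * b = b * a := fun a ha b hb =>
    congrArg Subtype.val (hAa.is_comm.comm ⟨a, ha⟩ ⟨b, hb⟩)
  have hBA : B ≤ A := (Subgroup.closure_le _).mpr (by rintro _ ⟨a, ha, rfl⟩; exact A.pow_mem ha 2)
  by_cases hne : ∃ a ∈ A, a ^ 2 ≠ 1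
  case neg =>
    push Not at hne
    have hB1 : B = ⊥ := by
      rw [eq_bot_iff, hB, Subgroup.closure_le]
      rintro _ ⟨a, ha, rfl⟩
      exact Subgroup.mem_bot.mpr (hne a ha)
    refine ⟨hB1.symm ▸ bot_le, fun h => (h ⟨⟨⟨fun x y => ?_⟩⟩, ?_⟩).elim⟩
    · exact Subtype.ext (hAc x (hBA x.2) y (hBA y.2))
    · intro a ha; exact hne a (hBA ha)
  have hsq : ∀ a ∈ A, a ^ 2 ∈ Q := by
    intro a ha
    haveI := trivialModFrattini_normal Q
    suffices h : a ^ 2 ∈ trivialModFrattini Q by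
      refine CfsgLib.LocalP.le_pCore inferInstance (CfsgLib.LocalP.isPGroup_of_forall_coprime _ ?_) h
      intro x hx hcop
      refine CfsgLib.LocalP.eq_one_of_centralizes_pCore
        (CfsgLib.NoComponent.centralizer_pCore_le_of_gfit hX) hcop fun q hq => ?_
      have h1 : (MulAut.conjNormal x : MulAut Q) = 1 :=
        CfsgLib.PGroup.aut_eq_one_of_trivial_frattini hQ2
          (hcop.coprime_dvd_left (orderOf_map_dvd (MulAut.conjNormal : X →* MulAut Q) x)) hx
      have h2 := congrArg (fun σ : MulAut Q => ((σ ⟨q, hq⟩ : Q) : X)) h1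
      simp only [MulAut.conjNormal_apply, MulAut.one_apply] at h2
      exact mul_inv_eq_iff_eq_mul.mp h2
    intro q
    set d : Q := MulAut.conjNormal a q * q⁻¹ with hd
    have hS : IsPGroup 2 ↥(A ⊔ Q) := hA2.to_sup_of_normal_right hQ2
    have hgS : A.map (MulAut.conj (q : X)).toMonoidHom ≤ A ⊔ Q := by
      rintro _ ⟨b, hb, rfl⟩
      exact mul_mem (mul_mem (Subgroup.mem_sup_right q.2) (Subgroup.mem_sup_left hb))
        (inv_mem (Subgroup.mem_sup_right q.2))
    have hc := commute_conj_of_le hS hAc hti hne le_sup_left hgS a ha a⁻¹ (A.inv_mem ha)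
    have hd' : (d : X) = a * ((q : X) * a⁻¹ * (q : X)⁻¹) := by
      simp [hd, mul_assoc]
    have had : a * (d : X) = (d : X) * a := by
      rw [hd', mul_assoc a _ a, ← hc]
    have key : MulAut.conjNormal (a ^ 2) q * q⁻¹ = d ^ 2 := by
      apply Subtype.ext
      have hdq : (d : X) * q = a * q * a⁻¹ := by simp [hd]
      calc ((MulAut.conjNormal (a ^ 2) q * q⁻¹ : Q) : X) = a * (a * q * a⁻¹) * a⁻¹ * (q : X)⁻¹ := by
            simp [pow_two, mul_assoc]
        _ = (a * (d : X)) * (q * a⁻¹ * (q : X)⁻¹) := by rw [← hdq]; group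
        _ = (d : X) * (a * ((q : X) * a⁻¹ * (q : X)⁻¹)) := by rw [had, mul_assoc]
        _ = ((d ^ 2 : Q) : X) := by rw [← hd', pow_two]; rfl
    rw [key]
    exact CfsgLib.PGroup.pow_prime_mem_frattini hQ2 d
  have hBQ : B ≤ Q := (Subgroup.closure_le _).mpr (by rintro _ ⟨a, ha, rfl⟩; exact hsq a ha)
  refine ⟨hBQ, fun hBne => ?_⟩
  have hBne' : ∃ b ∈ B, b ^ 2 ≠ 1 := by
    by_contra hno
    push Not at hno
    exact hBne ⟨⟨⟨fun x y => Subtype.ext (hAc x (hBA x.2) y (hBA y.2))⟩⟩, hno⟩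
  have hmapB : ∀ g : X, B.map (MulAut.conj g).toMonoidHom =
      Subgroup.closure ((fun a : X => a ^ 2) '' (A.map (MulAut.conj g).toMonoidHom : Set X)) := by
    intro g
    rw [hB, MonoidHom.map_closure, ← Set.image_comp, Subgroup.coe_map, ← Set.image_comp]
    congr 1
    ext x
    simp [conj_pow]
  have htiB : ∀ g : X, B.map (MulAut.conj g).toMonoidHom = B ∨ B.map (MulAut.conj g).toMonoidHom ⊓ B = ⊥ := by
    intro g
    rcases hti g with h | h
    · left; rw [hmapB, h]
    · right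
      exact le_bot_iff.mp (h ▸ inf_le_inf (Subgroup.map_mono hBA) hBA)
  refine Subgroup.isMulCommutative_closure ?_
  intro u hu v hv
  obtain ⟨_, ⟨a, ha, rfl⟩, hu⟩ := Group.mem_conjugatesOfSet_iff.mp hu
  obtain ⟨_, ⟨b, hb, rfl⟩, hv⟩ := Group.mem_conjugatesOfSet_iff.mp hv
  obtain ⟨g, rfl⟩ := isConj_iff.mp hu
  obtain ⟨k, rfl⟩ := isConj_iff.mp hv
  have hg : B.map (MulAut.conj (g⁻¹ * k)).toMonoidHom ≤ Q := by
    rintro _ ⟨y, hy, rfl⟩
    exact Subgroup.Normal.conj_mem inferInstance y (hBQ hy) _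
  have hc := commute_conj_of_le hQ2 (fun x hx y hy => hAc x (hBA hx) y (hBA hy)) htiB hBne' hBQ hg
    (a ^ 2) (Subgroup.subset_closure ⟨a, ha, rfl⟩) (b ^ 2) (Subgroup.subset_closure ⟨b, hb, rfl⟩)
  calc g * a ^ 2 * g⁻¹ * (k * b ^ 2 * k⁻¹)
      = g * (a ^ 2 * ((g⁻¹ * k) * b ^ 2 * (g⁻¹ * k)⁻¹)) * g⁻¹ := by group
    _ = g * (((g⁻¹ * k) * b ^ 2 * (g⁻¹ * k)⁻¹) * a ^ 2) * g⁻¹ := by rw [hc]
    _ = k * b ^ 2 * k⁻¹ * (g * a ^ 2 * g⁻¹) := by group

end Cfsg.Agent.S1783
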