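import Cfsg.Statements.S1784
import Cfsg.Agent.Eq.Def_ClassificationK
import Cfsg.Agent.Eq.Def_Transfer
import Cfsg.Agent.LocalCharP.NoComponent
import Cfsg.Agent.LargeExtraspecial.Extraspecial
import Cfsg.Agent.S1755

set_option autoImplicit false
open Cfsg

namespace Cfsg.Agent.S1784

section Pairing

variable {G : Type*} [Group G]

/-- In a group with central commutators on `Q`: multiplicativity in the second variable. -/
theorem comm_mul_right {Q : Subgroup G} {z : G}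
    (hcomm : ∀ a ∈ Q, ∀ b ∈ Q, a * b * a⁻¹ * b⁻¹ ∈ Subgroup.zpowers z)
    (hzc : ∀ a ∈ Q, a * z = z * a) {a b c : G} (ha : a ∈ Q) (hb : b ∈ Q) (hc : c ∈ Q) :
    a * (b * c) * a⁻¹ * (b * c)⁻¹ = (a * b * a⁻¹ * b⁻¹) * (a * c * a⁻¹ * c⁻¹) := by
  obtain ⟨n, hn⟩ := hcomm a ha c hc
  simp only at hn
  have hb' : b * z ^ n = z ^ n * b := (Commute.zpow_right (show Commute b z from hzc b hb) n).eq
  calc a * (b * c) * a⁻¹ * (b * c)⁻¹ = (a * b * a⁻¹) * (a * c * a⁻¹ * c⁻¹) * b⁻¹ := by group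
    _ = (a * b * a⁻¹) * (z ^ n * b⁻¹) := by rw [← hn, mul_assoc]
    _ = (a * b * a⁻¹ * b⁻¹) * ((b * z ^ n) * b⁻¹) := by group
    _ = (a * b * a⁻¹ * b⁻¹) * ((z ^ n * b) * b⁻¹) := by rw [hb']
    _ = (a * b * a⁻¹ * b⁻¹) * (a * c * a⁻¹ * c⁻¹) := by rw [mul_inv_cancel_right, hn]

variable [Finite G]

/-- `|C_Q(H)| |H|` does not decrease when `H` grows. -/
theorem card_centralizer_mul_mono {Q : Subgroup G} {z : G}
    (hcomm : ∀ a ∈ Q, ∀ b ∈ Q, a * b * a⁻¹ * b⁻¹ ∈ Subgroup.zpowers z)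
    (hzc : ∀ a ∈ Q, a * z = z * a) (hz : orderOf z = 2) :
    ∀ H K : Subgroup G, H ≤ K → K ≤ Q →
      Nat.card ↥(Q ⊓ Subgroup.centralizer (H : Set G)) * Nat.card H ≤
        Nat.card ↥(Q ⊓ Subgroup.centralizer (K : Set G)) * Nat.card K := by
  intro H K
  induction' h : Nat.card K - Nat.card H using Nat.strong_induction_on with n ih generalizing H
  intro hHK hKQ
  by_cases hne : H = K
  · rw [hne]
  obtain ⟨x, hxK, hxH⟩ := SetLike.exists_of_lt (lt_of_le_of_ne hHK hne)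
  set H' := H ⊔ Subgroup.zpowers x with hH'
  have hH'K : H' ≤ K := sup_le hHK (Subgroup.zpowers_le.mpr hxK)
  have hlt : H < H' := lt_of_le_of_ne le_sup_left
    (fun e => hxH (e.symm ▸ le_sup_right (a := H) (Subgroup.mem_zpowers x)))
  have h2 : 2 * Nat.card H ≤ Nat.card H' := by
    obtain ⟨c, hc⟩ := Subgroup.card_dvd_of_le hlt.le
    have h0 : 0 < Nat.card H' := Nat.card_pos
    have h1 : c ≠ 1 := fun hc1 =>
      hlt.ne (Subgroup.eq_of_le_of_card_ge hlt.le (by rw [hc, hc1, mul_one]))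
    have h2 : c ≠ 0 := fun hc0 => by rw [hc, hc0, mul_zero] at h0; omega
    rw [hc, mul_comm 2]
    exact Nat.mul_le_mul_left _ (by omega)
  have hK' : Nat.card H' ≤ Nat.card K := Subgroup.card_le_of_le hH'K
  have hpos : 0 < Nat.card H := Nat.card_pos
  refine le_trans ?_ (ih (Nat.card K - Nat.card H') (by omega) H' rfl hH'K hKQ)
  set C := Q ⊓ Subgroup.centralizer (H : Set G)
  set C' := Q ⊓ Subgroup.centralizer (H' : Set G)
  let f : C →* Subgroup.zpowers z :=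
    { toFun := fun c => ⟨x * c * x⁻¹ * (c : G)⁻¹, hcomm x (hKQ hxK) c c.2.1⟩
      map_one' := Subtype.ext (by simp)
      map_mul' := fun a b => Subtype.ext (by
        simpa using comm_mul_right hcomm hzc (hKQ hxK) a.2.1 b.2.1) }
  have hker : Nat.card f.ker ≤ Nat.card C' := by
    refine Nat.card_le_card_of_injective (fun c => (⟨((c : C) : G), (c : C).2.1, ?_⟩ : C')) ?_
    · have hcx : ((c : C) : G) ∈ Subgroup.centralizer {x} := by
        have h : x * ((c : C) : G) * x⁻¹ * ((c : C) : G)⁻¹ = 1 := congrArg Subtype.val (MonoidHom.mem_ker.mp c.2)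
        rw [mul_inv_eq_one, mul_inv_eq_iff_eq_mul] at h
        exact Subgroup.mem_centralizer_singleton_iff.mpr h.symm
      have hle : H' ≤ Subgroup.centralizer {((c : C) : G)} := by
        refine sup_le (fun y hy => ?_) (Subgroup.zpowers_le.mpr ?_)
        · exact Subgroup.mem_centralizer_singleton_iff.mpr (Subgroup.mem_centralizer_iff.mp (c : C).2.2 y hy)
        · exact Subgroup.mem_centralizer_singleton_iff.mpr
            (Subgroup.mem_centralizer_singleton_iff.mp hcx).symm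
      exact Subgroup.mem_centralizer_iff.mpr fun y hy =>
        Subgroup.mem_centralizer_singleton_iff.mp (hle hy)
    · intro a b e
      exact Subtype.ext (Subtype.ext (congrArg (fun k : C' => (k : G)) e))
  have hrange : Nat.card f.range ≤ 2 := by
    refine le_trans (Subgroup.card_le_card_group _) ?_
    rw [Nat.card_zpowers, hz]
  have hr := Subgroup.card_mul_index f.ker
  rw [Subgroup.index_ker] at hr
  calc Nat.card C * Nat.card H = (Nat.card f.ker * Nat.card f.range) * Nat.card H := by rw [hr]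
    _ ≤ (Nat.card C' * 2) * Nat.card H := Nat.mul_le_mul_right _ (Nat.mul_le_mul hker hrange)
    _ ≤ Nat.card C' * Nat.card H' := by rw [mul_assoc]; exact Nat.mul_le_mul_left _ h2

/-- Double centralizer property. -/
theorem centralizer_centralizer_le {Q : Subgroup G} {z : G}
    (hcomm : ∀ a ∈ Q, ∀ b ∈ Q, a * b * a⁻¹ * b⁻¹ ∈ Subgroup.zpowers z)
    (hzc : ∀ a ∈ Q, a * z = z * a) (hz : orderOf z = 2) (hzQ : z ∈ Q)
    (hcen : ∀ a ∈ Q, (∀ b ∈ Q, b * a = a * b) → a ∈ Subgroup.zpowers z)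
    {W : Subgroup G} (hWQ : W ≤ Q) (hzW : z ∈ W) :
    Q ⊓ Subgroup.centralizer ((Q ⊓ Subgroup.centralizer (W : Set G) : Subgroup G) : Set G) ≤ W := by
  set C := Q ⊓ Subgroup.centralizer (W : Set G) with hC
  set W' := Q ⊓ Subgroup.centralizer (C : Set G) with hW'
  have hWW' : W ≤ W' := le_inf hWQ fun w hw => Subgroup.mem_centralizer_iff.mpr fun c hc =>
    (Subgroup.mem_centralizer_iff.mp hc.2 w hw).symm
  have hCC : Q ⊓ Subgroup.centralizer (W' : Set G) = C := by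
    refine le_antisymm (inf_le_inf_left _ (Subgroup.centralizer_le hWW')) fun c hc => ⟨hc.1, ?_⟩
    exact Subgroup.mem_centralizer_iff.mpr fun w hw => (Subgroup.mem_centralizer_iff.mp hw.2 c hc).symm
  have mono := card_centralizer_mul_mono hcomm hzc hz
  have h1 := mono (Subgroup.zpowers z) W (Subgroup.zpowers_le.mpr hzW) hWQ
  have h2 := mono W' Q inf_le_left le_rfl
  have hz1 : Q ⊓ Subgroup.centralizer ((Subgroup.zpowers z : Subgroup G) : Set G) = Q := by
    refine inf_eq_left.mpr fun q hq => Subgroup.mem_centralizer_iff.mpr ?_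
    rintro _ ⟨n, rfl⟩
    exact (Commute.zpow_right (show Commute q z from hzc q hq) n).eq.symm
  have hQ1 : Nat.card ↥(Q ⊓ Subgroup.centralizer (Q : Set G)) ≤ Nat.card (Subgroup.zpowers z) :=
    Subgroup.card_le_of_le fun a ha => hcen a ha.1 (Subgroup.mem_centralizer_iff.mp ha.2)
  rw [hz1] at h1
  rw [hCC] at h2
  have h3 : Nat.card C * Nat.card W' ≤ Nat.card C * Nat.card W :=
    calc Nat.card C * Nat.card W' ≤ _ := h2
      _ ≤ Nat.card (Subgroup.zpowers z) * Nat.card Q := Nat.mul_le_mul_right _ hQ1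
      _ = Nat.card Q * Nat.card (Subgroup.zpowers z) := mul_comm _ _
      _ ≤ _ := h1
  exact (Subgroup.eq_of_le_of_card_ge hWW' (Nat.le_of_mul_le_mul_left h3 Nat.card_pos)).ge

end Pairing

/-- Let G be a finite group and let z be an involution of G such that Q, the generalized Fitting subgroup of the centralizer C of z, is a 2-group of symplectic type (every characteristic abelian subgroup of Q is cyclic); suppose Q is extraspecial, and view Q inside G. Let α be an involution of C that is not in Q, and let Q₀ be the subgroup of those q ∈ Q whose commutator with α lies in the subgroup generated by z. Then (a) the subgroup generated by the commutators α q α⁻¹ q⁻¹, q ∈ Q, equals the centre of Q₀; and (b) if Q₀ is not contained in the product of the centralizer of α in Q with the subgroup generated by z, then some element of Q conjugates α to α z. -/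
theorem result {G : Type*} [Group G] [Finite G] (z : G) (hz : orderOf z = 2) (hQ : Cfsg.IsOfSymplecticType ↥(Cfsg.generalizedFittingSubgroup ↥(Subgroup.centralizer ({z} : Set G)))) (hE : Cfsg.IsExtraspecial 2 ↥(Cfsg.generalizedFittingSubgroup ↥(Subgroup.centralizer ({z} : Set G))))
    (α : G) (hα : orderOf α = 2) (hαC : α ∈ Subgroup.centralizer ({z} : Set G)) (hαQ : α ∉ (Cfsg.generalizedFittingSubgroup ↥(Subgroup.centralizer ({z} : Set G))).map (Subgroup.centralizer ({z} : Set G)).subtype)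
    (Q₀ : Subgroup G) (hQ₀ : ∀ q : G, q ∈ Q₀ ↔ (q ∈ (Cfsg.generalizedFittingSubgroup ↥(Subgroup.centralizer ({z} : Set G))).map (Subgroup.centralizer ({z} : Set G)).subtype ∧ α * q * α⁻¹ * q⁻¹ ∈ Subgroup.zpowers z)) :
    Subgroup.closure ((fun q : G => α * q * α⁻¹ * q⁻¹) '' ((Cfsg.generalizedFittingSubgroup ↥(Subgroup.centralizer ({z} : Set G))).map (Subgroup.centralizer ({z} : Set G)).subtype : Set G)) = (Subgroup.center ↥Q₀).map Q₀.subtype ∧
      (¬ Q₀ ≤ ((Cfsg.generalizedFittingSubgroup ↥(Subgroup.centralizer ({z} : Set G))).map (Subgroup.centralizer ({z} : Set G)).subtype ⊓ Subgroup.centralizer ({α} : Set G)) ⊔ Subgroup.zpowers z →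
        ∃ q ∈ (Cfsg.generalizedFittingSubgroup ↥(Subgroup.centralizer ({z} : Set G))).map (Subgroup.centralizer ({z} : Set G)).subtype, q * α * q⁻¹ = α * z) := by
  haveI : Fact (Nat.Prime 2) := ⟨Nat.prime_two⟩
  set C := Subgroup.centralizer ({z} : Set G) with hC
  set F := Cfsg.generalizedFittingSubgroup ↥C with hF
  haveI hFn : F.Normal := Cfsg.Agent.S1755.gFitting_normal
  set Q := F.map C.subtype with hQdef
  have hFeq : F = Cfsg.pCore 2 ↥C := by
    refine le_antisymm (CfsgLib.CharP.le_pCore hFn hQ.1) ?_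
    refine le_trans ?_ le_sup_right
    exact le_sSup ⟨Cfsg.pCore_normal 2 ↥C, (CfsgLib.CharP.isPGroup_pCore (p := 2) (G := ↥C)).isNilpotent⟩
  have hchar := CfsgLib.NoComponent.centralizer_pCore_le_of_gfit (G := ↥C) (p := 2) hFeq
  have hzC : z ∈ C := Subgroup.mem_centralizer_singleton_iff.mpr rfl
  have hz0c : (⟨z, hzC⟩ : ↥C) ∈ Subgroup.center ↥C := Subgroup.mem_center_iff.mpr fun c =>
    Subtype.ext (Subgroup.mem_centralizer_singleton_iff.mp c.2)
  have hz0F : (⟨z, hzC⟩ : ↥C) ∈ F := hFeq.symm ▸ hchar (Subgroup.mem_centralizer_iff.mpr fun y _ =>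
    Subgroup.mem_center_iff.mp hz0c y)
  obtain ⟨w, hw2, hwF, hw⟩ := CfsgLib.LargeExtraspecial.exists_gen hE
  have hz1 : z ≠ 1 := by intro e; rw [e, orderOf_one] at hz; omega
  have hzw : (⟨z, hzC⟩ : ↥C) = w := by
    have : (⟨z, hzC⟩ : ↥C) ∈ CfsgLib.LargeExtraspecial.zOf F :=
      CfsgLib.LargeExtraspecial.mem_zOf.mpr ⟨hz0F, fun q _ => Subgroup.mem_center_iff.mp hz0c q⟩
    exact ((hw _).mp this).resolve_left fun e => hz1 (congrArg Subtype.val e)
  have hzpow : ∀ x : ↥C, x ∈ CfsgLib.LargeExtraspecial.zOf F → (x : G) ∈ Subgroup.zpowers z := by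
    intro x hx
    rcases (hw x).mp hx with e | e
    · rw [e]; exact Subgroup.one_mem _
    · rw [e, ← hzw]; exact Subgroup.mem_zpowers z
  have hzQ : z ∈ Q := ⟨_, hz0F, rfl⟩
  have hcomm : ∀ a ∈ Q, ∀ b ∈ Q, a * b * a⁻¹ * b⁻¹ ∈ Subgroup.zpowers z := by
    rintro _ ⟨a, ha, rfl⟩ _ ⟨b, hb, rfl⟩
    exact hzpow _ (CfsgLib.LargeExtraspecial.comm_mem hE ha hb)
  have hsq : ∀ a ∈ Q, a * a ∈ Subgroup.zpowers z := by
    rintro _ ⟨a, ha, rfl⟩
    exact hzpow _ (CfsgLib.LargeExtraspecial.sq_mem hE ha)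
  have hzc : ∀ a ∈ Q, a * z = z * a := by
    rintro _ ⟨a, -, rfl⟩
    exact Subgroup.mem_centralizer_singleton_iff.mp a.2
  have hcen : ∀ a ∈ Q, (∀ b ∈ Q, b * a = a * b) → a ∈ Subgroup.zpowers z := by
    rintro _ ⟨a, ha, rfl⟩ h
    exact hzpow _ (CfsgLib.LargeExtraspecial.mem_zOf.mpr
      ⟨ha, fun q hq => Subtype.ext (h q ⟨q, hq, rfl⟩)⟩)
  have hαQn : ∀ q ∈ Q, α * q * α⁻¹ ∈ Q := by
    rintro _ ⟨q, hq, rfl⟩
    exact ⟨_, hFn.conj_mem q hq ⟨α, hαC⟩, rfl⟩
  set c : G → G := fun q => α * q * α⁻¹ * q⁻¹ with hc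
  have hcQ : ∀ q ∈ Q, c q ∈ Q := fun q hq => Q.mul_mem (hαQn q hq) (Q.inv_mem hq)
  set W := Subgroup.closure (c '' (Q : Set G)) with hW
  have hcW : ∀ q ∈ Q, c q ∈ W := fun q hq => Subgroup.subset_closure ⟨q, hq, rfl⟩
  have hαα : α * α = 1 := by rw [← pow_two, ← hα, pow_orderOf_eq_one]
  have hzpQ : Subgroup.zpowers z ≤ Q := Subgroup.zpowers_le.mpr hzQ
  have hcQ0 : ∀ q ∈ Q, c q ∈ Q₀ := by
    intro q hq
    rw [hQ₀]
    refine ⟨hcQ q hq, ?_⟩
    have e : α * c q * α⁻¹ * (c q)⁻¹ = (c q * c q)⁻¹ := by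
      have hinv : α⁻¹ = α := inv_eq_of_mul_eq_one_right hαα
      calc α * c q * α⁻¹ * (c q)⁻¹ = (α * α) * q * α⁻¹ * q⁻¹ * α⁻¹ * (c q)⁻¹ := by simp only [hc]; group
        _ = (c q)⁻¹ * (c q)⁻¹ := by rw [hαα, one_mul]; simp [hc, hinv, mul_assoc]
        _ = _ := (mul_inv_rev (c q) (c q)).symm
    rw [e]
    exact Subgroup.inv_mem _ (hsq _ (hcQ q hq))
  have hW0 : W ≤ Q₀ := (Subgroup.closure_le _).mpr (by rintro _ ⟨q, hq, rfl⟩; exact hcQ0 q hq)
  have hQ0Q : Q₀ ≤ Q := fun q hq => ((hQ₀ q).mp hq).1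
  have hαz : α * z = z * α := (Subgroup.mem_centralizer_singleton_iff.mp hαC)
  have hαzp : ∀ w ∈ Subgroup.zpowers z, α * w * α⁻¹ = w := by
    rintro _ ⟨n, rfl⟩
    show α * z ^ n * α⁻¹ = z ^ n
    rw [(Commute.zpow_right (show Commute α z from hαz) n).eq, mul_inv_cancel_right]
  have hzpc : ∀ w ∈ Subgroup.zpowers z, ∀ a ∈ Q, a * w = w * a := by
    rintro _ ⟨n, rfl⟩ a ha
    exact (Commute.zpow_right (show Commute a z from hzc a ha) n).eq
  have hαimg : ∀ q, α * q * α⁻¹ = c q * q := fun q => by simp [hc]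
  -- elements of `Q₀` centralize all the commutators
  have hperp : ∀ u ∈ Q₀, ∀ q ∈ Q, c q * u = u * c q := by
    intro u hu q hq
    obtain ⟨huQ, huz⟩ := (hQ₀ u).mp hu
    have h1 := hαzp _ (hcomm u huQ q hq)
    have h2 : α * (u * q * u⁻¹ * q⁻¹) * α⁻¹ =
        (c u * u) * (c q * q) * (c u * u)⁻¹ * (c q * q)⁻¹ := by
      rw [← hαimg u, ← hαimg q]; group
    have h3 : (c u * u) * (c q * q) * (c u * u)⁻¹ * (c q * q)⁻¹ =
        u * (c q * q) * u⁻¹ * (c q * q)⁻¹ := by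
      have := hzpc _ huz (u * (c q * q) * u⁻¹)
        (Q.mul_mem (Q.mul_mem huQ (Q.mul_mem (hcQ q hq) hq)) (Q.inv_mem huQ))
      calc (c u * u) * (c q * q) * (c u * u)⁻¹ * (c q * q)⁻¹
          = (c u * (u * (c q * q) * u⁻¹)) * (c u)⁻¹ * (c q * q)⁻¹ := by group
        _ = ((u * (c q * q) * u⁻¹) * c u) * (c u)⁻¹ * (c q * q)⁻¹ := by rw [this]
        _ = _ := by group
    rw [h2, h3, comm_mul_right hcomm hzc huQ (hcQ q hq) hq] at h1
    have h4 : u * c q * u⁻¹ * (c q)⁻¹ = 1 := mul_eq_right.mp h1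
    rw [mul_inv_eq_one, mul_inv_eq_iff_eq_mul] at h4
    exact h4.symm
  -- conversely
  have hperp' : ∀ u ∈ Q, (∀ q ∈ Q, c q * u = u * c q) → u ∈ Q₀ := by
    intro u hu hcomm'
    rw [hQ₀]
    refine ⟨hu, hcen _ (hcQ u hu) fun q hq => ?_⟩
    have h1 := hαzp _ (hcomm u hu q hq)
    have h2 : α * (u * q * u⁻¹ * q⁻¹) * α⁻¹ =
        (c u * u) * (c q * q) * (c u * u)⁻¹ * (c q * q)⁻¹ := by
      rw [← hαimg u, ← hαimg q]; group
    have h3 : c u * c q = c q * c u := hperp _ (hcQ0 q hq) u hu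
    have h4 : (c u * u) * (c q * q) * (c u * u)⁻¹ * (c q * q)⁻¹ =
        (c u * q * (c u)⁻¹ * q⁻¹) * (u * q * u⁻¹ * q⁻¹) := by
      have hw := hcomm u hu q hq
      calc (c u * u) * (c q * q) * (c u * u)⁻¹ * (c q * q)⁻¹
          = c u * ((u * c q) * u⁻¹) * (u * q * u⁻¹ * q⁻¹) * q * (c u)⁻¹ * q⁻¹ * (c q)⁻¹ := by group
        _ = c u * ((c q * u) * u⁻¹) * (u * q * u⁻¹ * q⁻¹) * q * (c u)⁻¹ * q⁻¹ * (c q)⁻¹ := by
            rw [hcomm' q hq]
        _ = c q * c u * ((u * q * u⁻¹ * q⁻¹) * (q * (c u)⁻¹ * q⁻¹)) * (c q)⁻¹ := by rw [← h3]; group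
        _ = c q * c u * ((q * (c u)⁻¹ * q⁻¹) * (u * q * u⁻¹ * q⁻¹)) * (c q)⁻¹ := by
            rw [← hzpc _ hw (q * (c u)⁻¹ * q⁻¹) (Q.mul_mem (Q.mul_mem hq (Q.inv_mem (hcQ u hu))) (Q.inv_mem hq))]
        _ = c q * ((c u * q * (c u)⁻¹ * q⁻¹) * (u * q * u⁻¹ * q⁻¹)) * (c q)⁻¹ := by group
        _ = _ := by
            rw [hzpc _ (Subgroup.mul_mem _ (hcomm _ (hcQ u hu) q hq) hw) _ (hcQ q hq), mul_inv_cancel_right]
    rw [h2, h4] at h1
    have h5 := mul_eq_right.mp h1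
    rw [mul_inv_eq_one, mul_inv_eq_iff_eq_mul] at h5
    exact h5.symm
  have hzW : z ∈ W := by
    obtain ⟨q, hq, hcq⟩ : ∃ q ∈ Q, c q ≠ 1 := by
      by_contra! h
      refine hαQ ⟨⟨α, hαC⟩, hFeq.symm ▸ hchar (Subgroup.mem_centralizer_iff.mpr fun y hy => ?_), rfl⟩
      have h1 := h (y : G) ⟨y, hFeq.symm ▸ hy, rfl⟩
      simp only [hc] at h1
      rw [mul_inv_eq_one, mul_inv_eq_iff_eq_mul] at h1
      exact Subtype.ext h1.symm
    by_cases hcz : c q ∈ Subgroup.zpowers z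
    · haveI : Finite (Subgroup.zpowers z) := inferInstance
      have hle : Subgroup.zpowers (c q) = Subgroup.zpowers z := by
        refine Subgroup.eq_of_le_of_card_ge (Subgroup.zpowers_le.mpr hcz) ?_
        rw [Nat.card_zpowers z, hz]
        exact (Finite.one_lt_card_iff_nontrivial.mpr
          ((Subgroup.nontrivial_iff_ne_bot _).mpr (Subgroup.zpowers_ne_bot.mpr hcq)))
      exact (Subgroup.zpowers_le.mpr (hcW q hq)) (hle.symm ▸ Subgroup.mem_zpowers z)
    · obtain ⟨⟨y, hy⟩, hyF, hyq⟩ := hcQ q hq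
      have hzF : ⟨y, hy⟩ ∉ CfsgLib.LargeExtraspecial.zOf F := fun h => hcz (by
        have := hzpow _ h
        rwa [show (⟨y, hy⟩ : ↥C).val = c q from hyq] at this)
      obtain ⟨u, hu, hu'⟩ := CfsgLib.LargeExtraspecial.exists_conj_eq_mul hE hw hyF hzF
      have huQ : (u : G) ∈ Q := ⟨u, hu, rfl⟩
      have hu'' : (u : G) * c q * (u : G)⁻¹ = z * c q := by
        have h := congrArg (fun k : ↥C => (k : G)) hu'
        rw [← hzw] at h
        simp only [Subgroup.coe_mul, Subgroup.coe_inv] at h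
        rwa [show y = c q from hyq] at h
      have e : c ((u : G) * q) = c u * ((u : G) * c q * (u : G)⁻¹) := by simp only [hc]; group
      rw [hu''] at e
      have e2 : z = (c u)⁻¹ * c ((u : G) * q) * (c q)⁻¹ := by rw [e]; group
      rw [e2]
      exact W.mul_mem (W.mul_mem (W.inv_mem (hcW u huQ)) (hcW _ (Q.mul_mem huQ hq))) (W.inv_mem (hcW q hq))
  have hWQ : W ≤ Q := hW0.trans hQ0Q
  have hQ0eq : Q₀ = Q ⊓ Subgroup.centralizer (W : Set G) := by
    refine le_antisymm (le_inf hQ0Q fun u hu => ?_) fun u hu => ?_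
    · rw [hW, Subgroup.centralizer_closure, Subgroup.mem_centralizer_iff]
      rintro _ ⟨q, hq, rfl⟩
      exact hperp u hu q hq
    · exact hperp' u hu.1 fun q hq => Subgroup.mem_centralizer_iff.mp hu.2 _ (hcW q hq)
  refine ⟨le_antisymm ?_ ?_, fun hnle => ?_⟩
  · intro w hw
    refine CfsgLib.LargeExtraspecial.mem_zOf.mpr ⟨hW0 hw, fun u hu => ?_⟩
    rw [hQ0eq] at hu
    exact (Subgroup.mem_centralizer_iff.mp hu.2 w hw).symm
  · intro x hx
    obtain ⟨hx0, hxc⟩ := CfsgLib.LargeExtraspecial.mem_zOf.mp hx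
    refine centralizer_centralizer_le hcomm hzc hz hzQ hcen hWQ hzW ⟨hQ0Q hx0, ?_⟩
    rw [← hQ0eq]
    exact Subgroup.mem_centralizer_iff.mpr hxc
  · obtain ⟨q, hq, hqn⟩ := SetLike.not_le_iff_exists.mp hnle
    obtain ⟨hqQ, n, hn⟩ := (hQ₀ q).mp hq
    simp only at hn
    have hne : c q ≠ 1 := by
      intro e
      refine hqn (Subgroup.mem_sup_left ⟨hqQ, Subgroup.mem_centralizer_singleton_iff.mpr ?_⟩)
      simp only [hc] at e
      rw [mul_inv_eq_one, mul_inv_eq_iff_eq_mul] at e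
      exact e.symm
    have hcz : c q = z := by
      show α * q * α⁻¹ * q⁻¹ = z
      rcases Int.emod_two_eq_zero_or_one n with h | h
      · exfalso
        apply hne
        show α * q * α⁻¹ * q⁻¹ = 1
        rw [← hn, ← zpow_mod_orderOf, hz, Nat.cast_ofNat, h, zpow_zero]
      · rw [← hn, ← zpow_mod_orderOf, hz, Nat.cast_ofNat, h, zpow_one]
    refine ⟨q, hqQ, ?_⟩
    have hinv : α⁻¹ = α := inv_eq_of_mul_eq_one_right hαα
    rw [← hcz]
    simp only [hc, hinv]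
    calc q * α * q⁻¹ = (α * α) * q * α * q⁻¹ := by rw [hαα, one_mul]
      _ = α * (α * q * α * q⁻¹) := by group

end Cfsg.Agent.S1784
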