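import Cfsg.Statements.S1785
import Cfsg.Agent.Eq.Def_Transfer
import Cfsg.Agent.S1782

set_option autoImplicit false
open Cfsg

namespace Cfsg.Agent.S1785

section
variable {X : Type*} [Group X]

/-- Closure of commuting involutions is elementary abelian. -/
theorem elem_closure {k : Set X} (hc : ∀ x ∈ k, ∀ y ∈ k, x * y = y * x) (hs : ∀ x ∈ k, x ^ 2 = 1) :
    Cfsg.IsElementaryAbelian 2 (Subgroup.closure k) := by
  have hcom : IsMulCommutative (Subgroup.closure k) := Subgroup.isMulCommutative_closure hc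
  refine ⟨hcom, fun a ha => ?_⟩
  induction ha using Subgroup.closure_induction with
  | mem x hx => exact hs x hx
  | one => simp
  | mul x y hx hy hxs hys =>
    have h : x * y = y * x := congrArg Subtype.val (hcom.is_comm.comm ⟨x, hx⟩ ⟨y, hy⟩)
    rw [(Commute.mul_pow (show Commute x y from h) 2), hxs, hys, one_mul]
  | inv x _ hxs => rw [inv_pow, hxs, inv_one]

theorem elem_comm {A : Subgroup X} (hA : Cfsg.IsElementaryAbelian 2 A) {a b : X} (ha : a ∈ A) (hb : b ∈ A) :
    a * b = b * a := congrArg Subtype.val (hA.1.is_comm.comm ⟨a, ha⟩ ⟨b, hb⟩)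

theorem elem_sup {A B : Subgroup X} (hA : Cfsg.IsElementaryAbelian 2 A) (hB : Cfsg.IsElementaryAbelian 2 B)
    (hAB : A ≤ Subgroup.centralizer (B : Set X)) : Cfsg.IsElementaryAbelian 2 (A ⊔ B) := by
  rw [Subgroup.sup_eq_closure]
  refine elem_closure ?_ ?_
  · rintro x (hx | hx) y (hy | hy)
    · exact elem_comm hA hx hy
    · exact (Subgroup.mem_centralizer_iff.mp (hAB hx) y hy).symm
    · exact Subgroup.mem_centralizer_iff.mp (hAB hy) x hx
    · exact elem_comm hB hx hy
  · rintro x (hx | hx)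
    · exact hA.2 x hx
    · exact hB.2 x hx

theorem elem_mono {A B : Subgroup X} (hB : Cfsg.IsElementaryAbelian 2 B) (h : A ≤ B) :
    Cfsg.IsElementaryAbelian 2 A :=
  ⟨⟨⟨fun a b => Subtype.ext (elem_comm hB (h a.2) (h b.2))⟩⟩, fun a ha => hB.2 a (h ha)⟩

theorem comm_of_le {A B C D : Subgroup X} (hA : A ≤ C) (hB : B ≤ D)
    (hCD : C ≤ Subgroup.centralizer (D : Set X)) : ⁅A, B⁆ = ⊥ := by
  rw [Subgroup.commutator_eq_bot_iff_le_centralizer]
  intro a ha
  exact Subgroup.mem_centralizer_iff.mpr fun b hb => Subgroup.mem_centralizer_iff.mp (hCD (hA ha)) b (hB hb)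

variable [Finite X]

theorem two_mul_card_le {H K : Subgroup X} (h : H < K) : 2 * Nat.card H ≤ Nat.card K := by
  obtain ⟨c, hc⟩ := Subgroup.card_dvd_of_le h.le
  have h0 : 0 < Nat.card K := Nat.card_pos
  have h1 : c ≠ 1 := fun hc1 =>
    h.ne (Subgroup.eq_of_le_of_card_ge h.le (by rw [hc, hc1, mul_one]))
  have h2 : c ≠ 0 := fun hc0 => by rw [hc, hc0, mul_zero] at h0; omega
  rw [hc, mul_comm 2]
  exact Nat.mul_le_mul_left _ (by omega)

/-- An involution centralizes at least the square root of an elementary abelian group it normalizes. -/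
theorem card_le_sq_centralizer {K : Subgroup X} (hK : Cfsg.IsElementaryAbelian 2 K) {x : X} (hx : x ^ 2 = 1)
    (hn : ∀ k ∈ K, x * k * x⁻¹ ∈ K) :
    Nat.card K ≤ Nat.card ↥(K ⊓ Subgroup.centralizer {x}) ^ 2 := by
  let f : K →* K :=
    { toFun := fun k => ⟨x * k * x⁻¹, hn k k.2⟩ * k⁻¹
      map_one' := Subtype.ext (by simp)
      map_mul' := fun k l => by
        apply Subtype.ext
        show x * ((k : X) * l) * x⁻¹ * ((k : X) * l)⁻¹ = x * (k : X) * x⁻¹ * (k : X)⁻¹ * (x * (l : X) * x⁻¹ * (l : X)⁻¹)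
        have h := elem_comm hK (K.inv_mem k.2) (K.mul_mem (hn l l.2) (K.inv_mem l.2))
        calc x * ((k : X) * l) * x⁻¹ * ((k : X) * l)⁻¹
            = x * (k : X) * x⁻¹ * ((x * (l : X) * x⁻¹ * (l : X)⁻¹) * (k : X)⁻¹) := by group
          _ = _ := by rw [← h]; group }
  have hker : f.range ≤ f.ker := by
    rintro _ ⟨k, rfl⟩
    rw [MonoidHom.mem_ker]
    apply Subtype.ext
    show x * (x * (k : X) * x⁻¹ * (k : X)⁻¹) * x⁻¹ * (x * (k : X) * x⁻¹ * (k : X)⁻¹)⁻¹ = 1
    have hxx : x * x = 1 := by rw [← pow_two, hx]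
    have h2 : x⁻¹ * x⁻¹ = 1 := by rw [← mul_inv_rev, hxx, inv_one]
    have h3 : x * (x * (k : X) * x⁻¹ * (k : X)⁻¹) * x⁻¹ = (x * (k : X) * x⁻¹ * (k : X)⁻¹)⁻¹ := by
      calc x * (x * (k : X) * x⁻¹ * (k : X)⁻¹) * x⁻¹ = (x * x) * (k : X) * (x⁻¹ * (k : X)⁻¹ * x⁻¹) := by group
        _ = (k : X) * (x⁻¹ * (k : X)⁻¹ * x⁻¹) := by rw [hxx, one_mul]
        _ = (x * (k : X) * x⁻¹ * (k : X)⁻¹)⁻¹ := by
          rw [show x⁻¹ * (k : X)⁻¹ * x⁻¹ = x * (k : X)⁻¹ * x⁻¹ by rw [show x⁻¹ = x from inv_eq_of_mul_eq_one_right hxx]]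
          group
    have hy : (x * (k : X) * x⁻¹ * (k : X)⁻¹) ^ 2 = 1 := hK.2 _ (K.mul_mem (hn k k.2) (K.inv_mem k.2))
    rw [h3, ← mul_inv_rev, ← pow_two, hy, inv_one]
  have hkerle : Nat.card f.ker ≤ Nat.card ↥(K ⊓ Subgroup.centralizer {x}) := by
    refine Nat.card_le_card_of_injective (fun k => (⟨((k : K) : X), (k : K).2, ?_⟩ : ↥(K ⊓ Subgroup.centralizer {x}))) ?_
    · have h : x * ((k : K) : X) * x⁻¹ * ((k : K) : X)⁻¹ = 1 := congrArg Subtype.val (MonoidHom.mem_ker.mp k.2)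
      rw [mul_inv_eq_one, mul_inv_eq_iff_eq_mul] at h
      exact Subgroup.mem_centralizer_singleton_iff.mpr h.symm
    · intro a b h
      exact Subtype.ext (Subtype.ext (congrArg (fun k : ↥(K ⊓ Subgroup.centralizer {x}) => (k : X)) h))
  have hr := Subgroup.card_mul_index f.ker
  rw [Subgroup.index_ker] at hr
  calc Nat.card K = Nat.card f.ker * Nat.card f.range := hr.symm
    _ ≤ Nat.card f.ker * Nat.card f.ker := Nat.mul_le_mul_left _ (Subgroup.card_le_of_le hker)
    _ ≤ _ := by rw [pow_two]; exact Nat.mul_le_mul hkerle hkerle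

theorem exists_eight {W V : Subgroup X} (hW : IsPGroup 2 W) (h8 : 8 ≤ Nat.card W) (hVW : V ≤ W)
    {n : ℕ} (hV : Nat.card V = 2 ^ n) (hn : n ≤ 3) :
    ∃ A : Subgroup X, V ≤ A ∧ A ≤ W ∧ Nat.card A = 8 := by
  haveI : Fact (Nat.Prime 2) := ⟨Nat.prime_two⟩
  obtain ⟨k, hk⟩ := IsPGroup.iff_card.mp hW
  have h3 : 3 ≤ k := by
    by_contra h
    have : 2 ^ k ≤ 2 ^ 2 := Nat.pow_le_pow_right (by norm_num) (by omega)
    rw [hk] at h8
    omega
  obtain ⟨A, hA, hVA⟩ := Sylow.exists_subgroup_card_pow_prime_le 2 (m := 3) (G := W)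
    (hk ▸ pow_dvd_pow 2 h3) (V.subgroupOf W)
    (by rw [Nat.card_congr (Subgroup.subgroupOfEquivOfLe hVW).toEquiv, hV]) hn
  refine ⟨A.map W.subtype, fun v hv => ⟨⟨v, hVW hv⟩, hVA hv, rfl⟩, ?_, ?_⟩
  · rintro _ ⟨a, -, rfl⟩; exact a.2
  · rw [Subgroup.card_map_of_injective W.subtype_injective, hA]; norm_num

theorem pow_le_of_le_sq {H : Subgroup X} (hH : IsPGroup 2 H) {n : ℕ} (h : 2 ^ (2 * n) < Nat.card H ^ 2) :
    2 ^ (n + 1) ≤ Nat.card H := by
  haveI : Fact (Nat.Prime 2) := ⟨Nat.prime_two⟩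
  obtain ⟨k, hk⟩ := IsPGroup.iff_card.mp hH
  rw [hk, ← pow_mul] at h
  rw [hk]
  have := (Nat.pow_lt_pow_iff_right (by norm_num : 1 < 2)).mp h
  exact Nat.pow_le_pow_right (by norm_num) (by omega)

/-- An elementary abelian subgroup of order at least 32 and two commuting involutions. -/
theorem card_centralizer_bounds (hX : IsPGroup 2 X) {E : Subgroup X} [E.Normal]
    (hE : Cfsg.IsElementaryAbelian 2 E) (hE32 : 32 ≤ Nat.card E) {a : X} (ha : a ^ 2 = 1) :
    8 ≤ Nat.card ↥(E ⊓ Subgroup.centralizer {a}) ∧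
      ∀ b : X, b ^ 2 = 1 → a * b = b * a →
        4 ≤ Nat.card ↥(E ⊓ Subgroup.centralizer {a} ⊓ Subgroup.centralizer {b}) := by
  have h1 := card_le_sq_centralizer hE ha (fun k hk => Subgroup.Normal.conj_mem inferInstance k hk a)
  have h8 : 8 ≤ Nat.card ↥(E ⊓ Subgroup.centralizer {a}) := by
    have h := pow_le_of_le_sq (hX.to_subgroup (E ⊓ Subgroup.centralizer {a})) (n := 2)
      (lt_of_lt_of_le (lt_of_lt_of_le (by norm_num) hE32) h1)
    norm_num at h
    exact h
  refine ⟨h8, fun b hb hab => ?_⟩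
  have h2 := card_le_sq_centralizer (elem_mono hE inf_le_left) hb
    (K := E ⊓ Subgroup.centralizer {a}) (fun k hk => ⟨Subgroup.Normal.conj_mem inferInstance k hk.1 b, by
      have hka : Commute k a := Subgroup.mem_centralizer_singleton_iff.mp hk.2
      have hba : Commute b a := hab.symm
      exact Subgroup.mem_centralizer_singleton_iff.mpr ((hba.mul_left hka).mul_left hba.inv_left).eq⟩)
  have h := pow_le_of_le_sq (hX.to_subgroup (E ⊓ Subgroup.centralizer {a} ⊓ Subgroup.centralizer {b})) (n := 1)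
    (lt_of_lt_of_le (lt_of_lt_of_le (by norm_num) h8) h2)
  norm_num at h
  exact h

theorem orderOf_two {a : X} (ha : a ^ 2 = 1) (ha1 : a ≠ 1) : Nat.card (Subgroup.zpowers a) = 2 := by
  haveI : Fact (Nat.Prime 2) := ⟨Nat.prime_two⟩
  rw [Nat.card_zpowers, orderOf_eq_prime ha ha1]

omit [Finite X] in
theorem zpowers_lt_closure_pair {a b : X} (hb : b ∉ Subgroup.zpowers a) :
    Subgroup.zpowers a < Subgroup.closure {a, b} := by
  refine lt_of_le_of_ne (Subgroup.zpowers_le.mpr (Subgroup.subset_closure (Set.mem_insert a {b}))) ?_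
  intro h
  exact hb (h ▸ Subgroup.subset_closure (Set.mem_insert_of_mem a rfl))

theorem exists_not_mem {A H : Subgroup X} (h : Nat.card H < Nat.card A) : ∃ x ∈ A, x ∉ H := by
  by_contra hn
  push Not at hn
  exact absurd (Subgroup.card_le_of_le (show A ≤ H from hn)) (not_le.mpr h)

theorem card_closure_pair {a z : X} (ha : a ^ 2 = 1) (hz : z ^ 2 = 1) (haz : a * z = z * a) :
    Nat.card (Subgroup.closure ({a, z} : Set X)) ≤ 4 := by
  let P : X → Prop := fun x => ∃ i j : Fin 2, x = a ^ (i : ℕ) * z ^ (j : ℕ)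
  have ha' : a * a = 1 := by rw [← pow_two, ha]
  have hz' : z * z = 1 := by rw [← pow_two, hz]
  have hstep : ∀ u ∈ ({a, z} : Set X), ∀ y, P y → P (u * y) := by
    rintro u hu y ⟨i, j, rfl⟩
    rcases hu with hu | hu <;> rw [hu]
    · fin_cases i
      · exact ⟨1, j, by simp⟩
      · exact ⟨0, j, by simp [← mul_assoc, ha']⟩
    · have hc : z * a ^ (i : ℕ) = a ^ (i : ℕ) * z := (Commute.pow_left (show Commute a z from haz) _).eq.symm
      fin_cases j
      · exact ⟨i, 1, by simpa using hc⟩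
      · exact ⟨i, 0, by
          simp only [Fin.val_one, pow_one, Fin.val_zero, pow_zero, mul_one, Fin.mk_one, Fin.zero_eta]
          rw [← mul_assoc, hc, mul_assoc, hz', mul_one]⟩
  have hmem : ∀ x ∈ Subgroup.closure ({a, z} : Set X), P x := by
    intro x hx
    induction hx using Subgroup.closure_induction_left with
    | one => exact ⟨0, 0, by simp⟩
    | mul_left u hu y _ ih => exact hstep u hu y ih
    | inv_mul_cancel u hu y _ ih =>
      have hu' : u⁻¹ = u := by
        rcases hu with hu | hu <;> rw [hu]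
        · exact inv_eq_of_mul_eq_one_right ha'
        · exact inv_eq_of_mul_eq_one_right hz'
      rw [hu']
      exact hstep u hu y ih
  choose i j hij using hmem
  refine le_trans (Nat.card_le_card_of_injective
    (fun x : Subgroup.closure ({a, z} : Set X) => (i x x.2, j x x.2)) ?_) (by simp)
  intro x y h
  simp only [Prod.mk.injEq] at h
  exact Subtype.ext (by rw [hij x x.2, hij y y.2, h.1, h.2])

/-- From any elementary subgroup of order 8 there is a chain to one inside `E`. -/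
theorem chain_into (hX : IsPGroup 2 X) {E : Subgroup X} [E.Normal]
    (hE : Cfsg.IsElementaryAbelian 2 E) (hE32 : 32 ≤ Nat.card E) {A : Subgroup X}
    (hA : Cfsg.IsElementaryAbelian 2 A) (hA8 : Nat.card A = 8) :
    ∃ A₁ A₂ D : Subgroup X, (Cfsg.IsElementaryAbelian 2 A₁ ∧ Nat.card A₁ = 8 ∧ ⁅A, A₁⁆ = ⊥) ∧
      (Cfsg.IsElementaryAbelian 2 A₂ ∧ Nat.card A₂ = 8 ∧ ⁅A₁, A₂⁆ = ⊥) ∧
      (Cfsg.IsElementaryAbelian 2 D ∧ Nat.card D = 8 ∧ ⁅A₂, D⁆ = ⊥ ∧ D ≤ E) := by
  have hEne : E ≠ ⊥ := fun h => by rw [h, Subgroup.card_bot] at hE32; omega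
  obtain ⟨z, hzE, hz1, hzc⟩ := Cfsg.Agent.S1782.exists_central_mem hX E hEne
  have hz : z ^ 2 = 1 := hE.2 z hzE
  obtain ⟨a, haA, haz⟩ := exists_not_mem (A := A) (H := Subgroup.zpowers z) (by rw [orderOf_two hz hz1]; omega)
  have ha : a ^ 2 = 1 := hA.2 a haA
  have hza : z * a = a * z := (hzc a).symm
  obtain ⟨b, hbA, hbz⟩ := exists_not_mem (A := A) (H := Subgroup.closure ({z, a} : Set X))
    (by have := card_closure_pair hz ha hza; omega)
  have hb : b ^ 2 = 1 := hA.2 b hbA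
  have hab : a * b = b * a := elem_comm hA haA hbA
  set W : Subgroup X := Subgroup.closure {z, a, b} with hW
  have hWel : Cfsg.IsElementaryAbelian 2 W := by
    refine elem_closure ?_ ?_
    · rintro x (rfl | rfl | rfl) y (rfl | rfl | rfl) <;>
        first | rfl | exact (hzc _).symm | exact hzc _ | exact hab | exact hab.symm
    · rintro x (rfl | rfl | rfl) <;> assumption
  have hW8 : 8 ≤ Nat.card W := by
    have h1 := two_mul_card_le (zpowers_lt_closure_pair (a := z) (b := a) haz)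
    rw [orderOf_two hz hz1] at h1
    have h2 : Subgroup.closure ({z, a} : Set X) < W := by
      refine lt_of_le_of_ne ((Subgroup.closure_le _).mpr ?_) ?_
      · rintro x (rfl | rfl) <;> exact Subgroup.subset_closure (by simp)
      · intro h
        exact hbz (h ▸ Subgroup.subset_closure (by simp))
    have := two_mul_card_le h2
    omega
  obtain ⟨A₁, -, hA₁W, hA₁8⟩ := exists_eight (hX.to_subgroup W) hW8 (bot_le (a := W))
    (n := 0) (by simp) (by omega)
  set C : Subgroup X := E ⊓ Subgroup.centralizer {a} ⊓ Subgroup.centralizer {b} with hC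
  have hC4 : 4 ≤ Nat.card C := (card_centralizer_bounds hX hE hE32 ha).2 b hb hab
  have hCel : Cfsg.IsElementaryAbelian 2 C := elem_mono hE (inf_le_left.trans inf_le_left)
  have hzaC : Subgroup.zpowers a ≤ Subgroup.centralizer (C : Set X) :=
    Subgroup.zpowers_le.mpr (Subgroup.mem_centralizer_iff.mpr fun c hc =>
      Subgroup.mem_centralizer_singleton_iff.mp hc.1.2)
  set W₁ : Subgroup X := Subgroup.zpowers a ⊔ C with hW₁
  have hW₁el : Cfsg.IsElementaryAbelian 2 W₁ := by
    refine elem_sup (elem_mono hA (Subgroup.zpowers_le.mpr haA)) hCel hzaC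
  have hW₁8 : 8 ≤ Nat.card W₁ := by
    by_cases haE : a ∈ E
    · have h8 := (card_centralizer_bounds hX hE hE32 hb).1
      refine h8.trans (Subgroup.card_le_of_le ?_)
      intro x hx
      exact le_sup_right (a := Subgroup.zpowers a)
        (show x ∈ C from ⟨⟨hx.1, Subgroup.mem_centralizer_singleton_iff.mpr (elem_comm hE hx.1 haE)⟩, hx.2⟩)
    · have hlt : C < W₁ := lt_of_le_of_ne le_sup_right
        (fun h => haE (h.symm ▸ le_sup_left (b := C) (Subgroup.mem_zpowers a) : a ∈ C).1.1)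
      have := two_mul_card_le hlt
      omega
  obtain ⟨A₂, -, hA₂W, hA₂8⟩ := exists_eight (hX.to_subgroup W₁) hW₁8 (bot_le (a := W₁))
    (n := 0) (by simp) (by omega)
  obtain ⟨D, -, hDW, hD8⟩ := exists_eight (hX.to_subgroup (E ⊓ Subgroup.centralizer {a}))
    (card_centralizer_bounds hX hE hE32 ha).1 (bot_le (a := E ⊓ Subgroup.centralizer {a}))
    (n := 0) (by simp) (by omega)
  refine ⟨A₁, A₂, D, ⟨elem_mono hWel hA₁W, hA₁8, ?_⟩, ⟨elem_mono hW₁el hA₂W, hA₂8, ?_⟩,
    ⟨elem_mono hE (hDW.trans inf_le_left), hD8, ?_, hDW.trans inf_le_left⟩⟩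
  · refine comm_of_le le_rfl hA₁W ?_
    rw [hW, Subgroup.centralizer_closure]
    intro x hx
    rw [Subgroup.mem_centralizer_iff]
    rintro y (rfl | rfl | rfl)
    · exact (hzc x).symm
    · exact elem_comm hA haA hx
    · exact elem_comm hA hbA hx
  · refine comm_of_le hA₁W hA₂W ?_
    rw [hW, Subgroup.closure_le]
    intro x hx
    rw [SetLike.mem_coe]
    have hx' : W₁ ≤ Subgroup.centralizer {x} := by
      refine sup_le (Subgroup.zpowers_le.mpr ?_) fun c hc => ?_
      · rw [Subgroup.mem_centralizer_singleton_iff]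
        rcases hx with rfl | rfl | rfl
        · exact hza.symm
        · rfl
        · exact hab
      · rw [Subgroup.mem_centralizer_singleton_iff]
        rcases hx with rfl | rfl | rfl
        · exact hzc c
        · exact Subgroup.mem_centralizer_singleton_iff.mp hc.1.2
        · exact Subgroup.mem_centralizer_singleton_iff.mp hc.2
    exact Subgroup.mem_centralizer_iff.mpr fun y hy => Subgroup.mem_centralizer_singleton_iff.mp (hx' hy)
  · refine comm_of_le hA₂W hDW (sup_le (Subgroup.zpowers_le.mpr ?_) fun c hc => ?_)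
    · exact Subgroup.mem_centralizer_iff.mpr fun d hd => Subgroup.mem_centralizer_singleton_iff.mp hd.2
    · exact Subgroup.mem_centralizer_iff.mpr fun d hd => elem_comm hE hd.1 hc.1.1

end

/-- Let X be a finite 2-group having a normal elementary abelian subgroup of order at least 32. Then (a) for any two elementary abelian subgroups A, B of X of order 8 there is a chain A = A₁, A₂, …, Aₙ = B of elementary abelian subgroups of order 8 in which consecutive members commute elementwise; and (b) every elementary abelian subgroup of X of order 4 is contained in an elementary abelian subgroup of order 8. -/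
theorem result {X : Type*} [Group X] [Finite X]
    (hX : IsPGroup 2 X) (E : Subgroup X) [E.Normal] (hE : Cfsg.IsElementaryAbelian 2 E) (hE32 : 32 ≤ Nat.card ↥E) :
    (∀ A B : Subgroup X, Cfsg.IsElementaryAbelian 2 A → Nat.card ↥A = 8 → Cfsg.IsElementaryAbelian 2 B → Nat.card ↥B = 8 →
        Relation.ReflTransGen
          (fun C D : Subgroup X => Cfsg.IsElementaryAbelian 2 C ∧ Nat.card ↥C = 8 ∧ Cfsg.IsElementaryAbelian 2 D ∧ Nat.card ↥D = 8 ∧ ⁅C, D⁆ = ⊥)
          A B) ∧
      (∀ V : Subgroup X, Cfsg.IsElementaryAbelian 2 V → Nat.card ↥V = 4 →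
        ∃ A : Subgroup X, V ≤ A ∧ Cfsg.IsElementaryAbelian 2 A ∧ Nat.card ↥A = 8) := by
  refine ⟨fun A B hA hA8 hB hB8 => ?_, fun V hV hV4 => ?_⟩
  · obtain ⟨A₁, A₂, D, ⟨hA₁, hA₁8, hAA₁⟩, ⟨hA₂, hA₂8, hA₁A₂⟩, hD, hD8, hA₂D, hDE⟩ :=
      chain_into hX hE hE32 hA hA8
    obtain ⟨B₁, B₂, F, ⟨hB₁, hB₁8, hBB₁⟩, ⟨hB₂, hB₂8, hB₁B₂⟩, hF, hF8, hB₂F, hFE⟩ :=
      chain_into hX hE hE32 hB hB8
    refine .head ⟨hA, hA8, hA₁, hA₁8, hAA₁⟩ (.head ⟨hA₁, hA₁8, hA₂, hA₂8, hA₁A₂⟩
      (.head ⟨hA₂, hA₂8, hD, hD8, hA₂D⟩ (.head (b := F) ⟨hD, hD8, hF, hF8, ?_⟩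
      (.head ⟨hF, hF8, hB₂, hB₂8, ?_⟩ (.head ⟨hB₂, hB₂8, hB₁, hB₁8, ?_⟩
      (.single ⟨hB₁, hB₁8, hB, hB8, ?_⟩))))))
    · exact comm_of_le hDE hFE fun x hx => Subgroup.mem_centralizer_iff.mpr fun y hy => elem_comm hE hy hx
    · rw [Subgroup.commutator_comm]; exact hB₂F
    · rw [Subgroup.commutator_comm]; exact hB₁B₂
    · rw [Subgroup.commutator_comm]; exact hBB₁
  · obtain ⟨a, haV, ha1⟩ := exists_not_mem (A := V) (H := ⊥) (by simp; omega)
    rw [Subgroup.mem_bot] at ha1
    obtain ⟨b, hbV, hba⟩ := exists_not_mem (A := V) (H := Subgroup.zpowers a)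
      (by rw [orderOf_two (hV.2 a haV) ha1]; omega)
    have hVeq : Subgroup.closure ({a, b} : Set X) = V := by
      refine Subgroup.eq_of_le_of_card_ge ((Subgroup.closure_le _).mpr ?_) ?_
      · rintro x (rfl | rfl) <;> assumption
      · have := two_mul_card_le (zpowers_lt_closure_pair hba)
        rw [orderOf_two (hV.2 a haV) ha1] at this
        omega
    set C : Subgroup X := E ⊓ Subgroup.centralizer {a} ⊓ Subgroup.centralizer {b} with hC
    have hC4 : 4 ≤ Nat.card C :=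
      (card_centralizer_bounds hX hE hE32 (hV.2 a haV)).2 b (hV.2 b hbV) (elem_comm hV haV hbV)
    have hVC : V ≤ Subgroup.centralizer (C : Set X) := by
      rw [← hVeq, Subgroup.closure_le]
      rintro x (rfl | rfl) <;> refine Subgroup.mem_centralizer_iff.mpr fun c hc => ?_
      · exact Subgroup.mem_centralizer_singleton_iff.mp hc.1.2
      · exact Subgroup.mem_centralizer_singleton_iff.mp hc.2
    have hW : Cfsg.IsElementaryAbelian 2 (V ⊔ C) :=
      elem_sup hV (elem_mono hE (inf_le_left.trans inf_le_left)) hVC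
    have h8 : 8 ≤ Nat.card ↥(V ⊔ C) := by
      have hlt : V < V ⊔ C := by
        refine lt_of_le_of_ne le_sup_left fun h => ?_
        have hCV : C = V := Subgroup.eq_of_le_of_card_ge (h ▸ le_sup_right) (by omega)
        have haE : a ∈ E := (hCV.symm ▸ haV : a ∈ C).1.1
        have hbE : b ∈ E := (hCV.symm ▸ hbV : b ∈ C).1.1
        have hEC : E ≤ C := fun x hx => ⟨⟨hx, Subgroup.mem_centralizer_singleton_iff.mpr (elem_comm hE hx haE)⟩,
          Subgroup.mem_centralizer_singleton_iff.mpr (elem_comm hE hx hbE)⟩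
        have := Subgroup.card_le_of_le hEC
        rw [hCV] at this
        omega
      have := two_mul_card_le hlt
      omega
    obtain ⟨A, hVA, hAW, hA8⟩ := exists_eight (hX.to_subgroup (V ⊔ C)) h8 le_sup_left
      (n := 2) (by rw [hV4]; norm_num) (by omega)
    exact ⟨A, hVA, elem_mono hW hAW, hA8⟩

end Cfsg.Agent.S1785
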