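import Cfsg.Statements.S1786
-- import your own Cfsg.Agent.* helpers here
import Cfsg.Agent.Timmesfeld.TIPair
import Cfsg.Agent.Timmesfeld.SLTwo
import Cfsg.Agent.LocalCharP.NoComponent
import Cfsg.Agent.PGroup.Frattini
import Cfsg.Agent.Eq.Def_Local
import Cfsg.Agent.Eq.Def_Transfer

set_option autoImplicit false
open Cfsg

namespace Cfsg.Agent.S1786

open CfsgLib.Timmesfeld
open scoped commutatorElement

universe u

/-- The quotient `H / C_H(W)` for `H = ⟨P, P^g⟩` is `SL₂(|V|)`. -/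
theorem exists_field_and_hom {G : Type u} [Group G] [Finite G] {V Q C : Subgroup G}
    (d : TIData V Q) (m : Mate V Q C) {g h : G} (hC : cj h V = C) (hW : cj h (V ⊔ C) = V ⊔ C)
    (hgh : cj g (cP V Q) = cj h (cP V Q)) :
    ∃ (F : Type) (_ : Field F) (_ : Fintype F), Fintype.card F = Nat.card ↥V ∧
      ∃ φ : ↥(cP V Q ⊔ cj g (cP V Q)) →* Matrix.SpecialLinearGroup (Fin 2) F,
        Function.Surjective φ ∧ φ.ker =
          (Subgroup.centralizer ((V ⊔ C : Subgroup G) : Set G)).subgroupOf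
            (cP V Q ⊔ cj g (cP V Q)) := by
  classical
  have hQ := m.cP_eq d hC hW
  obtain ⟨D, mD, hD⟩ := m.exists_partner d
  obtain ⟨z, hz, hz1⟩ := mD.ne_bot d
  have hzP : z ∈ cP V Q := mD.le_cP d hz
  have hsurj := mD.exists_commutator_eq d m
    (fun c hc hc1 y hy hy1 h => hD y hy hy1 c hc hc1 h.symm) hz hz1
  -- `ι v` is the member `c` of `C` with `⁅z, c⁆ = v`
  choose ι0 hι0C hι0 using hsurj
  let ι : ↥V → G := fun v => ι0 v v.2
  have hιC : ∀ v, ι v ∈ C := fun v => hι0C v v.2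
  have hιz : ∀ v, ⁅z, ι v⁆ = (v : G) := fun v => by
    rw [← commutatorElement_inv (ι v) z, hι0 v v.2]
    exact CfsgLib.Timmesfeld.inv_eq_self_of_sq (d.sq _ v.2)
  have hιuniq : ∀ (v : ↥V) (c : G), c ∈ C → ⁅z, c⁆ = (v : G) → ι v = c := by
    intro v c hc he
    have h1 : ⁅z, ι v * c⁆ = 1 := by
      rw [d.commutator_mul_right (m.le_cP d (hιC v)) (m.le_cP d hc) hzP, hιz, he]
      exact d.sq _ v.2
    have h2 : ι v * c = 1 := by
      by_contra hne
      exact hD z hz hz1 _ (C.mul_mem (hιC v) hc) hne (commutatorElement_eq_one_iff_mul_comm.1 h1)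
    rw [eq_inv_of_mul_eq_one_left h2, CfsgLib.Timmesfeld.inv_eq_self_of_sq (m.sq' d c hc)]
  have hιmul : ∀ v w, ι (v * w) = ι v * ι w := fun v w =>
    hιuniq _ _ (C.mul_mem (hιC v) (hιC w)) (by
      rw [d.commutator_mul_right (m.le_cP d (hιC v)) (m.le_cP d (hιC w)) hzP, hιz, hιz]; rfl)
  have hι1 : ι 1 = 1 := hιuniq 1 1 C.one_mem (commutatorElement_one_right z)
  have hιinj : Function.Injective ι := fun v w he =>
    Subtype.ext (by rw [← hιz v, he, hιz])
  have hιsurj : ∀ c ∈ C, ∃ v, ι v = c := fun c hc =>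
    ⟨⟨⁅z, c⁆, d.commutator_mem hzP (m.le_cP d hc)⟩, hιuniq _ c hc rfl⟩
  letI icg : CommGroup ↥V :=
    { (inferInstance : Group ↥V) with
      mul_comm := fun a b => Subtype.ext (d.comm a a.2 b b.2) }
  let A := Additive ↥V
  haveI : Nontrivial A := by
    obtain ⟨b, hb, hb1⟩ := m.ne_bot d
    obtain ⟨v, rfl⟩ := hιsurj b hb
    exact ⟨Additive.ofMul v, 0, fun h => hb1 (by
      rw [show v = 1 from Additive.ofMul.injective h, hι1])⟩
  have two : ∀ a : A, a + a = 0 := fun a => congrArg Additive.ofMul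
    (Subtype.ext (d.sq _ (Additive.toMul a).2) : Additive.toMul a * Additive.toMul a = 1)
  let val : A → G := fun a => ((Additive.toMul a : ↥V) : G)
  have hval0 : ∀ a, val a = 1 → a = 0 := fun a ha =>
    Additive.toMul.injective (Subtype.ext ha)
  have hvaladd : ∀ a b, val (a + b) = val a * val b := fun a b => rfl
  let κ : A → G := fun a => ι (Additive.toMul a)
  have hκadd : ∀ a b, κ (a + b) = κ a * κ b := fun a b => hιmul _ _
  have hκ1 : ∀ a, κ a = 1 → a = 0 := fun a ha =>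
    Additive.toMul.injective (hιinj (ha.trans hι1.symm))
  have m' := m.swap_mate d hC hW
  -- facts about `P^h`
  have hr : ∀ r ∈ cj h (cP V Q),
      (∀ a ∈ V, ⁅r, a⁆ ∈ C) ∧ ∀ c ∈ C, r * c = c * r := by
    rintro _ ⟨p, hp, rfl⟩
    refine ⟨fun a ha => ?_, fun c hc => ?_⟩
    · have ha' : h⁻¹ * a * h ∈ cj h⁻¹ V := by simpa using conj_mem_cj (x := h⁻¹) ha
      have h2 := d.commutator_mem hp (m'.le_cP d ha')
      rw [← hC, mem_cj]
      rwa [show h⁻¹ * ⁅(MulAut.conj h).toMonoidHom p, a⁆ * h = ⁅p, h⁻¹ * a * h⁆ by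
        simp only [commutatorElement_def, MulEquiv.coe_toMonoidHom, MulAut.conj_apply]; group]
    · have hc' : h⁻¹ * c * h ∈ V := mem_cj.1 (hC.symm ▸ hc)
      have h2 := (mem_cP.1 hp).2 _ hc'
      simp only [MulEquiv.coe_toMonoidHom, MulAut.conj_apply]
      calc h * p * h⁻¹ * c = h * (p * (h⁻¹ * c * h)) * h⁻¹ := by group
        _ = h * ((h⁻¹ * c * h) * p) * h⁻¹ := by rw [h2]
        _ = c * (h * p * h⁻¹) := by group
  let S : AddSubgroup (AddMonoid.End A) :=
    { carrier := {s | ∃ p ∈ cP V Q, ∀ a, val (s a) = ⁅p, κ a⁆}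
      zero_mem' := ⟨1, (cP V Q).one_mem, fun a => (commutatorElement_one_left _).symm⟩
      add_mem' := by
        rintro s t ⟨p, hp, hs⟩ ⟨q, hq, ht⟩
        refine ⟨q * p, (cP V Q).mul_mem hq hp, fun a => ?_⟩
        rw [d.commutator_mul_left hq hp (m.le_cP d (hιC _)), ← hs, ← ht, ← hvaladd]
        rfl
      neg_mem' := by
        rintro s ⟨p, hp, hs⟩
        refine ⟨p, hp, fun a => ?_⟩
        rw [← hs a]
        exact congrArg val (neg_eq_of_add_eq_zero_left (two (s a))) }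
  let S' : AddSubgroup (AddMonoid.End A) :=
    { carrier := {t | ∃ r ∈ cj h (cP V Q), ∀ a, κ (t a) = ⁅r, val a⁆}
      zero_mem' := ⟨1, Subgroup.one_mem _, fun a => by
        rw [commutatorElement_one_left]; exact hι1⟩
      add_mem' := by
        rintro s t ⟨p, hp, hs⟩ ⟨q, hq, ht⟩
        refine ⟨q * p, Subgroup.mul_mem _ hq hp, fun a => ?_⟩
        have hc := (hr p hp).1 _ (Additive.toMul a).2
        have h2 := (hr q hq).2 _ hc
        rw [show ⁅q * p, val a⁆ = q * ⁅p, val a⁆ * q⁻¹ * ⁅q, val a⁆ by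
          simp only [commutatorElement_def]; group, h2, mul_inv_cancel_right, ← hs, ← ht, ← hκadd]
        rfl
      neg_mem' := by
        rintro s ⟨p, hp, hs⟩
        refine ⟨p, hp, fun a => ?_⟩
        rw [← hs a]
        exact congrArg κ (neg_eq_of_add_eq_zero_left (two (s a))) }
  have hSof : ∀ p ∈ cP V Q, ∃ s ∈ S, ∀ a, val (s a) = ⁅p, κ a⁆ := by
    intro p hp
    let s : A →+ A := AddMonoidHom.mk'
      (fun a => Additive.ofMul ⟨⁅p, κ a⁆, d.commutator_mem hp (m.le_cP d (hιC _))⟩)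
      fun a b => congrArg Additive.ofMul (Subtype.ext (by
        show ⁅p, κ (a + b)⁆ = ⁅p, κ a⁆ * ⁅p, κ b⁆
        rw [hκadd, d.commutator_mul_right (m.le_cP d (hιC _)) (m.le_cP d (hιC _)) hp]))
    exact ⟨s, ⟨p, hp, fun a => rfl⟩, fun a => rfl⟩
  have hS'of : ∀ r ∈ cj h (cP V Q), ∃ t ∈ S', ∀ a, κ (t a) = ⁅r, val a⁆ := by
    intro r hr'
    have hex : ∀ a : A, ∃ b : A, κ b = ⁅r, val a⁆ := fun a => by
      obtain ⟨v, hv⟩ := hιsurj _ ((hr r hr').1 _ (Additive.toMul a).2)
      exact ⟨Additive.ofMul v, hv⟩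
    choose t0 ht0 using hex
    let t : A →+ A := AddMonoidHom.mk' t0 fun a b =>
      Additive.toMul.injective (hιinj (by
        show κ (t0 (a + b)) = κ (t0 a + t0 b)
        have hc := (hr r hr').1 _ (Additive.toMul b).2
        rw [hκadd, ht0, ht0, ht0, hvaladd,
          show ⁅r, val a * val b⁆ = ⁅r, val a⁆ * (val a * ⁅r, val b⁆ * (val a)⁻¹) by
            simp only [commutatorElement_def]; group,
          m.commute d _ (Additive.toMul a).2 _ hc, mul_inv_cancel_right]))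
    exact ⟨t, ⟨r, hr', ht0⟩, ht0⟩
  have hSzero : ∀ s ∈ S, ∀ a, a ≠ 0 → s a = 0 → s = 0 := by
    rintro s ⟨p, hp, hs⟩ a ha hsa
    have h1 : ⁅p, κ a⁆ = 1 := by rw [← hs, hsa]; rfl
    have h2 := m.commute_of_commute d hp (hιC _) (fun he => ha (hκ1 a he))
      (commutatorElement_eq_one_iff_mul_comm.1 h1)
    refine DFunLike.ext _ _ fun b => hval0 _ ?_
    rw [hs]
    exact commutatorElement_eq_one_iff_mul_comm.2 (h2 _ (hιC _))
  have hS'zero : ∀ t ∈ S', ∀ a, a ≠ 0 → t a = 0 → t = 0 := by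
    rintro t ⟨_, ⟨p, hp, rfl⟩, ht⟩ a ha hta
    have h1 : ⁅(MulAut.conj h).toMonoidHom p, val a⁆ = 1 := by rw [← ht, hta]; exact hι1
    have hmem : ∀ b : A, h⁻¹ * val b * h ∈ cj h⁻¹ V := fun b => by
      rw [mem_cj, show h⁻¹⁻¹ * (h⁻¹ * val b * h) * h⁻¹ = val b by group]
      exact (Additive.toMul b).2
    have hconj : ∀ x : G, ⁅(MulAut.conj h).toMonoidHom p, x⁆ = h * ⁅p, h⁻¹ * x * h⁆ * h⁻¹ :=
      fun x => by
        simp only [commutatorElement_def, MulEquiv.coe_toMonoidHom, MulAut.conj_apply]; group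
    rw [hconj, mul_inv_eq_one, mul_eq_left] at h1
    have h2 := m'.commute_of_commute d hp (hmem a) (fun he => ha (hval0 a (by
      calc val a = h * (h⁻¹ * val a * h) * h⁻¹ := by group
        _ = 1 := by rw [he, mul_one, mul_inv_cancel]))) (commutatorElement_eq_one_iff_mul_comm.1 h1)
    refine DFunLike.ext _ _ fun b => hκ1 _ ?_
    rw [ht, hconj, commutatorElement_eq_one_iff_mul_comm.2 (h2 _ (hmem b)), mul_one,
      mul_inv_cancel]
  obtain ⟨a₀, ha₀⟩ := exists_ne (0 : A)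
  have hcardS : Nat.card S = Nat.card A := by
    refine Nat.card_congr (Equiv.ofBijective (fun s : S => (s : AddMonoid.End A) a₀) ⟨?_, ?_⟩)
    · intro s t hst
      have hst' : (s : AddMonoid.End A) a₀ = (t : AddMonoid.End A) a₀ := hst
      have := hSzero _ (S.sub_mem s.2 t.2) a₀ ha₀
        (show (s : AddMonoid.End A) a₀ - (t : AddMonoid.End A) a₀ = 0 by rw [hst', sub_self])
      exact Subtype.ext (sub_eq_zero.1 this)
    · intro b
      obtain ⟨p, hp, hpe⟩ := m.exists_conj d (hιC (Additive.toMul a₀))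
        (fun he => ha₀ (hκ1 a₀ he)) (Additive.toMul b).2
      obtain ⟨s, hs, hse⟩ := hSof p hp
      refine ⟨⟨s, hs⟩, Additive.toMul.injective (Subtype.ext ((hse a₀).trans ?_))⟩
      rw [commutatorElement_def]
      show p * κ a₀ * p⁻¹ * (κ a₀)⁻¹ = val b
      rw [hpe]; exact mul_inv_cancel_right _ _
  have hcardS' : Nat.card S' = Nat.card A := by
    refine Nat.card_congr (Equiv.ofBijective (fun t : S' => (t : AddMonoid.End A) a₀) ⟨?_, ?_⟩)
    · intro s t hst
      have hst' : (s : AddMonoid.End A) a₀ = (t : AddMonoid.End A) a₀ := hst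
      have := hS'zero _ (S'.sub_mem s.2 t.2) a₀ ha₀
        (show (s : AddMonoid.End A) a₀ - (t : AddMonoid.End A) a₀ = 0 by rw [hst', sub_self])
      exact Subtype.ext (sub_eq_zero.1 this)
    · intro b
      obtain ⟨r, hr', hre⟩ := m.exists_conj_swap d hC hW (Additive.toMul a₀).2
        (fun he => ha₀ (hval0 a₀ he)) (hιC (Additive.toMul b))
      obtain ⟨t, ht, hte⟩ := hS'of r hr'
      refine ⟨⟨t, ht⟩, Additive.toMul.injective (hιinj ((hte a₀).trans ?_))⟩
      rw [commutatorElement_def]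
      show r * val a₀ * r⁻¹ * (val a₀)⁻¹ = κ b
      rw [hre]; exact mul_inv_cancel_right _ _
  have hunit : ∀ s ∈ S, s ≠ 0 → IsUnit s := fun s hs hs0 =>
    CfsgLib.Timmesfeld.isUnit_of_injective ((injective_iff_map_eq_zero s).2 fun a ha =>
      by_contra fun hne => hs0 (hSzero s hs a hne ha))
  let e : A × A → G := fun x => val x.1 * κ x.2
  have he : ∀ w, w ∈ V ⊔ C ↔ ∃ x, e x = w := by
    intro w
    rw [m.mem_sup d]
    constructor
    · rintro ⟨v, hv, c, hc, rfl⟩
      obtain ⟨u, rfl⟩ := hιsurj c hc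
      exact ⟨(Additive.ofMul ⟨v, hv⟩, Additive.ofMul u), rfl⟩
    · rintro ⟨x, rfl⟩
      exact ⟨_, (Additive.toMul x.1).2, _, hιC _, rfl⟩
  have hinj : Function.Injective e := by
    intro x y hxy
    obtain ⟨h1, h2⟩ := m.decomp_unique d (Additive.toMul x.1).2 (Additive.toMul y.1).2
      (hιC _) (hιC _) hxy
    exact Prod.ext (Additive.toMul.injective (Subtype.ext h1))
      (Additive.toMul.injective (hιinj h2))
  have hmatch : ∀ t ∈ S', t ≠ 0 → ∃ s ∈ S, s * t = 1 := by
    intro t ht ht0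
    obtain ⟨r, hr', hte⟩ := id ht
    have hra : ∀ a, r * val a * r⁻¹ = val a * κ (t a) := fun a => by
      rw [m.commute d _ (Additive.toMul a).2 _ (hιC _)]
      show _ = κ (t a) * val a
      rw [hte, commutatorElement_def, inv_mul_cancel_right]
    have hta : t a₀ ≠ 0 := fun he => ht0 (hS'zero t ht a₀ ha₀ he)
    have hc1 : κ (t a₀) ≠ 1 := fun he => hta (hκ1 _ he)
    obtain ⟨p, hp, hpe⟩ := m.exists_conj d (hιC _) hc1 (Additive.toMul a₀).2
    obtain ⟨s, hs, hse⟩ := hSof p hp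
    obtain ⟨k, hk⟩ := m.conj
    have hw1 : r * val a₀ * r⁻¹ ≠ 1 := fun he => ha₀ (hval0 a₀ (by
      calc val a₀ = r⁻¹ * (r * val a₀ * r⁻¹) * r := by group
        _ = 1 := by rw [he, mul_one, inv_mul_cancel]))
    have heq : cj r V = cj p C := by
      rw [hk, cj_cj]
      refine d.ti_eq (conj_mem_cj (Additive.toMul a₀).2) ?_ hw1
      rw [← cj_cj, ← hk]
      show r * val a₀ * r⁻¹ ∈ cj p C
      rw [hra, ← hpe]
      exact conj_mem_cj (hιC _)
    refine ⟨s, hs, DFunLike.ext _ _ fun a => ?_⟩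
    have hmem : r * val a * r⁻¹ ∈ cj p C := heq ▸ conj_mem_cj (Additive.toMul a).2
    obtain ⟨c, hc, hce⟩ := hmem
    have hce' : val a * κ (t a) = ⁅p, c⁆ * c := by
      rw [← hra a, ← hce, commutatorElement_def, inv_mul_cancel_right]; rfl
    obtain ⟨h1, h2⟩ := m.decomp_unique d (Additive.toMul a).2
      (d.commutator_mem hp (m.le_cP d hc)) (hιC _) hc hce'
    refine Additive.toMul.injective (Subtype.ext ?_)
    show val (s (t a)) = val a
    rw [hse, show κ (t a) = c from h2]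
    exact h1.symm
  have hone : (1 : AddMonoid.End A) ∈ S := ⟨z, hzP, fun a => (hιz _).symm⟩
  have hXe : ∀ p ∈ cP V Q, ∀ s : AddMonoid.End A, (∀ a, val (s a) = ⁅p, κ a⁆) →
      ∀ a b, p * e (a, b) * p⁻¹ = e (a + s b, b) := by
    intro p hp s hs a b
    show p * (val a * κ b) * p⁻¹ = val (a + s b) * κ b
    rw [hvaladd, hs, commutatorElement_def]
    calc p * (val a * κ b) * p⁻¹ = p * val a * (κ b * p⁻¹) := by group
      _ = val a * p * (κ b * p⁻¹) := by rw [← (mem_cP.1 hp).2 (val a) (Additive.toMul a).2]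
      _ = val a * (p * κ b * p⁻¹ * (κ b)⁻¹) * κ b := by group
  have hYe : ∀ r ∈ cj h (cP V Q), ∀ t : AddMonoid.End A, (∀ a, κ (t a) = ⁅r, val a⁆) →
      ∀ a b, r * e (a, b) * r⁻¹ = e (a, b + t a) := by
    intro r hr' t ht a b
    show r * (val a * κ b) * r⁻¹ = val a * κ (b + t a)
    have h1 : r * κ b * r⁻¹ = κ b := by rw [(hr r hr').2 _ (hιC _), mul_inv_cancel_right]
    calc r * (val a * κ b) * r⁻¹ = ⁅r, val a⁆ * val a * (r * κ b * r⁻¹) := by
          rw [commutatorElement_def]; group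
      _ = κ (t a) * val a * κ b := by rw [h1, ht]
      _ = val a * κ (t a) * κ b := by rw [m.commute d _ (Additive.toMul a).2 _ (hιC _)]
      _ = val a * κ (b + t a) := by rw [mul_assoc, ← hκadd, add_comm]
  refine exists_sl2 two (V ⊔ C) (cP V Q) (cj g (cP V Q)) e he hinj S S' hone hunit hcardS hcardS'
    hmatch ?_ ?_ ?_ ?_
  · intro x hx
    obtain ⟨s, hs, hse⟩ := hSof x hx
    exact ⟨s, hs, hXe x hx s hse⟩
  · rintro s ⟨p, hp, hs⟩
    exact ⟨p, hp, hXe p hp s hs⟩
  · intro y hy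
    obtain ⟨t, ht, hte⟩ := hS'of y (hgh ▸ hy)
    exact ⟨t, ht, hYe y (hgh ▸ hy) t hte⟩
  · rintro t ⟨r, hr', ht⟩
    exact ⟨r, hgh.symm ▸ hr', hYe r hr' t ht⟩

/-- Let G be a finite group, V an elementary abelian 2-subgroup of G and M the normalizer of V; write Q for the largest normal 2-subgroup of M. Suppose (1) the generalized Fitting subgroup of M equals Q; (2) V is a maximal abelian normal subgroup of M; (3) every conjugate of V equals V or meets V trivially, and for some g ∈ G the conjugate V' = g V g⁻¹ is different from V and contained in Q. Let P be the centralizer of V in Q, W the subgroup generated by V and V', and H the subgroup generated by P and g P g⁻¹. Then: (a) V is contained in g Q g⁻¹; (b) every non-identity element of W lies in exactly one conjugate of V contained in W, H normalizes W, and H modulo the centralizer of W in H is isomorphic to the special linear group of dimension 2 over the field with |V| elements; (c) P = Q, and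 V equals the Frattini subgroup, the centre and the commutator subgroup of Q. -/
theorem result {G : Type*} [Group G] [Finite G] (V : Subgroup G)
    (hV : Cfsg.IsElementaryAbelian 2 V)
    (h1 : (Cfsg.generalizedFittingSubgroup ↥(Subgroup.normalizer (V : Set G))).map (Subgroup.normalizer (V : Set G)).subtype =
      (Cfsg.pCore 2 ↥(Subgroup.normalizer (V : Set G))).map (Subgroup.normalizer (V : Set G)).subtype)
    (h2 : ∀ A : Subgroup G, V ≤ A → A ≤ Subgroup.normalizer (V : Set G) → IsMulCommutative ↥A →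
      (∀ m ∈ Subgroup.normalizer (V : Set G), ∀ a ∈ A, m * a * m⁻¹ ∈ A) → A = V)
    (hti : ∀ x : G, V.map (MulAut.conj x).toMonoidHom = V ∨ V.map (MulAut.conj x).toMonoidHom ⊓ V = ⊥)
    (g : G) (hg : V.map (MulAut.conj g).toMonoidHom ≠ V)
    (hgQ : V.map (MulAut.conj g).toMonoidHom ≤ (Cfsg.pCore 2 ↥(Subgroup.normalizer (V : Set G))).map (Subgroup.normalizer (V : Set G)).subtype) :
    let Q : Subgroup G := (Cfsg.pCore 2 ↥(Subgroup.normalizer (V : Set G))).map (Subgroup.normalizer (V : Set G)).subtype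
    let P : Subgroup G := Q ⊓ Subgroup.centralizer (V : Set G)
    let W : Subgroup G := V ⊔ V.map (MulAut.conj g).toMonoidHom
    let H : Subgroup G := P ⊔ P.map (MulAut.conj g).toMonoidHom
    V ≤ Q.map (MulAut.conj g).toMonoidHom ∧
      (∀ w ∈ W, w ≠ 1 → ∃! U : Subgroup G, (∃ x : G, U = V.map (MulAut.conj x).toMonoidHom) ∧ U ≤ W ∧ w ∈ U) ∧
      H ≤ Subgroup.normalizer (W : Set G) ∧
      (∀ hN : ((Subgroup.centralizer (W : Set G)).subgroupOf H).Normal, ∃ (F : Type) (_ : Field F) (_ : Fintype F), Fintype.card F = Nat.card ↥V ∧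
        Nonempty (↥H ⧸ (Subgroup.centralizer (W : Set G)).subgroupOf H ≃* Matrix.SpecialLinearGroup (Fin 2) F)) ∧
      P = Q ∧ (frattini ↥Q).map Q.subtype = V ∧ (Subgroup.center ↥Q).map Q.subtype = V ∧ (commutator ↥Q).map Q.subtype = V := by
  classical
  haveI : Fact (Nat.Prime 2) := ⟨Nat.prime_two⟩
  set N := Subgroup.normalizer (V : Set G) with hNdef
  intro Q P W H
  have hF : Cfsg.generalizedFittingSubgroup ↥N = Cfsg.pCore 2 ↥N :=
    Subgroup.map_injective N.subtype_injective h1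
  have hcomm : ∀ a ∈ V, ∀ b ∈ V, a * b = b * a := fun a ha b hb =>
    haveI := hV.1
    congrArg Subtype.val (mul_comm' (⟨a, ha⟩ : ↥V) ⟨b, hb⟩)
  have hsq : ∀ a ∈ V, a * a = 1 := fun a ha => by rw [← pow_two]; exact hV.2 a ha
  have hlargest : ∀ K : Subgroup G, K ≤ N → (∀ n ∈ N, ∀ k ∈ K, n * k * n⁻¹ ∈ K) →
      IsPGroup 2 K → K ≤ Q := by
    intro K hKN hn hK x hx
    refine ⟨⟨x, hKN hx⟩, CfsgLib.CharP.le_pCore (N := K.subgroupOf N) ⟨fun k hk n => ?_⟩
      hK.comap_subtype (show (⟨x, hKN hx⟩ : N) ∈ K.subgroupOf N from hx), rfl⟩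
    exact hn n n.2 k hk
  have hnormal : ∀ n ∈ N, ∀ q ∈ Q, n * q * n⁻¹ ∈ Q := by
    rintro n hn _ ⟨q, hq, rfl⟩
    exact ⟨⟨n, hn⟩ * q * ⟨n, hn⟩⁻¹, (Cfsg.pCore_normal 2 ↥N).conj_mem q hq _, rfl⟩
  have d : TIData V Q :=
    { comm := hcomm
      sq := hsq
      le_normalizer := Subgroup.map_subtype_le _
      isPGroup := CfsgLib.CharP.isPGroup_pCore.map _
      vle := hlargest V Subgroup.le_normalizer
        (fun n hn v hv => (Subgroup.mem_normalizer_iff.1 hn v).1 hv)
        (IsPGroup.of_card (n := (Nat.card ↥V).factorization 2) (by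
          have h2 : IsPGroup 2 ↥V := fun v => ⟨1, Subtype.ext (hV.2 v v.2)⟩
          obtain ⟨k, hk⟩ := IsPGroup.iff_card.1 h2
          rw [hk, Nat.Prime.factorization_pow Nat.prime_two, Finsupp.single_eq_same]))
      normal := hnormal
      cent := fun x hx hc => ⟨⟨x, hx⟩,
        CfsgLib.NoComponent.centralizer_pCore_le_of_gfit hF (Subgroup.mem_centralizer_iff.2
          fun q hq => Subtype.ext (hc q ⟨q, hq, rfl⟩).symm), rfl⟩
      largest := hlargest
      maxab := fun A hA hAN hAc hAn =>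
        h2 A hA hAN ⟨⟨fun a b => Subtype.ext (hAc a a.2 b b.2)⟩⟩ hAn
      ti := hti }
  have m : Mate V Q (cj g V) := ⟨⟨g, rfl⟩, hgQ, hg⟩
  obtain ⟨h, hC, hW⟩ := m.exists_swap d
  have hPQ : P = Q := m.cP_eq d hC hW
  have hn : cj (g⁻¹ * h) V = V := by rw [← cj_cj, hC, cj_inv_cj]
  have hghQ : cj g Q = cj h Q := by
    have e : cj (g⁻¹ * h) Q = Q := by
      refine Subgroup.eq_of_le_of_card_ge ?_
        (Subgroup.card_map_of_injective (MulAut.conj (g⁻¹ * h)).injective).ge
      rintro _ ⟨q, hq, rfl⟩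
      exact hnormal _ (mem_normalizer_iff_cj.2 hn) q hq
    conv_lhs => rw [← e]
    rw [cj_cj, mul_inv_cancel_left]
  have hgh : cj g (cP V Q) = cj h (cP V Q) := by
    rw [show cP V Q = Q from hPQ]; exact hghQ
  have hWQ : V ⊔ cj g V ≤ Q := (m.sup_le_cP d).trans inf_le_left
  have hnormW : ∀ x : G, cj x W ≤ W → x ∈ Subgroup.normalizer (W : Set G) := fun x hx =>
    mem_normalizer_iff_cj.2 (Subgroup.eq_of_le_of_card_ge hx
      (Subgroup.card_map_of_injective (MulAut.conj x).injective).ge)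
  refine ⟨?_, ?_, ?_, ?_, hPQ, ?_, ?_, ?_⟩
  · show V ≤ cj g Q
    rw [hghQ]
    intro v hv
    rw [mem_cj]
    refine hWQ ?_
    show h⁻¹ * v * h ∈ V ⊔ cj g V
    exact mem_cj.1 (hW.symm ▸ Subgroup.mem_sup_left hv)
  · intro w hw hw1
    obtain ⟨v, hv, c, hc, rfl⟩ := (m.mem_sup d).1 hw
    have hex : ∃ x : G, cj x V ≤ W ∧ v * c ∈ cj x V := by
      by_cases hc1 : c = 1
      · exact ⟨1, (cj_one V).symm ▸ le_sup_left, by rw [cj_one, hc1, mul_one]; exact hv⟩
      obtain ⟨p, hp, hpe⟩ := m.exists_conj d hc hc1 hv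
      refine ⟨p * g, ?_, ?_⟩
      · rw [← cj_cj]
        rintro _ ⟨y, hy, rfl⟩
        exact m.conj_mem_sup d hp (Subgroup.mem_sup_right hy)
      · rw [← cj_cj, ← hpe]
        exact conj_mem_cj hc
    obtain ⟨x, hxW, hxw⟩ := hex
    refine ⟨cj x V, ⟨⟨x, rfl⟩, hxW, hxw⟩, ?_⟩
    rintro U ⟨⟨y, rfl⟩, -, hyw⟩
    exact d.ti_eq hyw hxw hw1
  · refine sup_le (fun p hp => hnormW p ?_) ?_
    · rintro _ ⟨w, hw, rfl⟩
      exact m.conj_mem_sup d hp hw
    · show cj g (cP V Q) ≤ _
      rw [hgh]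
      rintro _ ⟨p, hp, rfl⟩
      refine hnormW _ ?_
      show cj (h * p * h⁻¹) (V ⊔ cj g V) ≤ V ⊔ cj g V
      rw [← cj_cj, ← cj_cj]
      have e : cj h⁻¹ (V ⊔ cj g V) = V ⊔ cj g V := by
        conv_lhs => rw [← hW]
        rw [cj_inv_cj]
      rw [e]
      refine le_trans (Subgroup.map_mono ?_) hW.le
      rintro _ ⟨w, hw, rfl⟩
      exact m.conj_mem_sup d hp hw
  · intro hN
    obtain ⟨F, _, _, hF', φ, hφ, hker⟩ := exists_field_and_hom d m hC hW hgh
    refine ⟨F, inferInstance, inferInstance, hF', ⟨?_⟩⟩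
    exact (QuotientGroup.quotientMulEquivOfEq (hker.symm)).trans
      (QuotientGroup.quotientKerEquivOfSurjective φ hφ)
  all_goals
    obtain ⟨D, mD, hD⟩ := m.exists_partner d
    obtain ⟨b, hb, hb1⟩ := m.ne_bot d
    have hQP : ∀ q : ↥Q, (q : G) ∈ cP V Q := fun q => by
      rw [show cP V Q = Q from hPQ]; exact q.2
    haveI hVn : (V.subgroupOf Q).Normal := by
      refine ⟨fun x hx y => ?_⟩
      rw [Subgroup.mem_subgroupOf] at hx ⊢
      exact (Subgroup.mem_normalizer_iff.1 (d.le_normalizer y.2) _).1 hx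
    have hcomle : commutator ↥Q ≤ V.subgroupOf Q := by
      rw [commutator_def, Subgroup.commutator_le]
      intro a _ c _
      exact d.commutator_mem (hQP a) (hQP c)
    have hlecom : V.subgroupOf Q ≤ commutator ↥Q := by
      intro v hv
      obtain ⟨x, hx, hxe⟩ := m.exists_commutator_eq d mD hD hb hb1 v hv
      have e : v = ⁅(⟨x, mD.le hx⟩ : ↥Q), ⟨b, m.le hb⟩⁆ := Subtype.ext hxe.symm
      rw [e]
      exact Subgroup.commutator_mem_commutator (Subgroup.mem_top _) (Subgroup.mem_top _)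
  · rw [show frattini ↥Q = V.subgroupOf Q from le_antisymm
      (CfsgLib.PGroup.frattini_le_of_elementary (p := 2)
        (fun a c => d.commutator_mem (hQP a) (hQP c))
        (fun a => by rw [Subgroup.mem_subgroupOf, Subgroup.coe_pow, pow_two]; exact d.sq_mem (hQP a)))
      (hlecom.trans (CfsgLib.PGroup.commutator_le_frattini d.isPGroup))]
    exact Subgroup.map_subgroupOf_eq_of_le d.vle
  · rw [show Subgroup.center ↥Q = V.subgroupOf Q from le_antisymm ?_ ?_]
    · exact Subgroup.map_subgroupOf_eq_of_le d.vle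
    · intro x hx
      refine d.mem_of_central (hQP x) fun p hp => ?_
      exact congrArg Subtype.val (Subgroup.mem_center_iff.1 hx ⟨p, hp.1⟩).symm
    · intro v hv
      rw [Subgroup.mem_center_iff]
      exact fun q => Subtype.ext ((mem_cP.1 (hQP q)).2 v hv).symm
  · rw [le_antisymm hcomle hlecom]
    exact Subgroup.map_subgroupOf_eq_of_le d.vle

end Cfsg.Agent.S1786
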