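import Cfsg.Statements.S1850
import Cfsg.Agent.Eq.Def_QuasithinSetup
import Cfsg.Agent.CharP.Climb

set_option autoImplicit false
open Cfsg

namespace Cfsg.Agent.S1850

open CfsgLib.CharPClimb

/-- Let G be a non-abelian finite simple QTKE-group and T a Sylow 2-subgroup of G. If U is a nontrivial 2-subgroup of G with U ∩ Z(T) ≠ 1, then F*(N_G(U)) = O₂(N_G(U)). -/
theorem result {G : Type*} [Group G] [Finite G] [IsSimpleGroup G]
    (hG : ¬ IsMulCommutative G) (hQ : Cfsg.IsQTKE G) (T : Sylow 2 G) (U : Subgroup G)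
    (hU : IsPGroup 2 ↥U) (hZ : U ⊓ ((T : Subgroup G) ⊓ Subgroup.centralizer ((T : Subgroup G) : Set G)) ≠ ⊥) :
    Subgroup.normalizer (U : Set G) ∈ Cfsg.calHe G := by
  set Z := U ⊓ ((T : Subgroup G) ⊓ Subgroup.centralizer ((T : Subgroup G) : Set G)) with hZdef
  have hZp : IsPGroup 2 ↥Z := hU.to_le inf_le_left
  have hdvd : 2 ∣ Nat.card ↥Z := by
    obtain ⟨k, hk⟩ := IsPGroup.iff_card.mp hZp
    rcases k with _ | k
    · exact absurd (Subgroup.card_eq_one.mp hk) hZ
    · exact hk ▸ dvd_pow_self 2 (Nat.succ_ne_zero k)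
  obtain ⟨⟨z, hzU, hzT, hzC⟩, hz⟩ := exists_prime_orderOf_dvd_card' (G := ↥Z) 2 hdvd
  rw [← Subgroup.orderOf_coe] at hz
  change orderOf z = 2 at hz
  have hTC : (T : Subgroup G) ≤ Subgroup.centralizer ({z} : Set G) := fun t ht =>
    Subgroup.mem_centralizer_singleton_iff.mpr (hzC t ht)
  have hloc : Cfsg.IsTwoLocal (Subgroup.centralizer ({z} : Set G)) := by
    refine ⟨Subgroup.zpowers z, IsPGroup.of_card (n := 1) (by rw [Nat.card_zpowers, hz, pow_one]),
      Subgroup.zpowers_ne_bot.mpr (fun h => by simp [h] at hz), ?_⟩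
    have hzp : ∀ w ∈ Subgroup.zpowers z, w = 1 ∨ w = z := by
      rintro _ ⟨k, rfl⟩
      show z ^ k = 1 ∨ z ^ k = z
      rw [← zpow_mod_orderOf, hz]
      rcases Int.emod_two_eq_zero_or_one k with h | h <;> simp [h]
    ext g
    rw [Subgroup.mem_centralizer_singleton_iff, Subgroup.mem_normalizer_iff]
    constructor
    · intro hg x
      constructor
      · intro hx
        rcases hzp x hx with rfl | rfl
        · simp
        · rw [hg]; simp
      · intro hx
        rcases hzp _ hx with h | h
        · simp [conj_eq_one_iff.mp h]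
        · have : x = z := by
            calc x = g⁻¹ * (g * x * g⁻¹) * g := by group
              _ = g⁻¹ * (z * g) := by rw [h, mul_assoc]
              _ = g⁻¹ * (g * z) := by rw [hg]
              _ = z := by group
          rw [this]; exact Subgroup.mem_zpowers z
    · intro h
      rcases hzp _ ((h z).mp (Subgroup.mem_zpowers z)) with h' | h'
      · rw [conj_eq_one_iff] at h'
        simp [h'] at hz
      · calc g * z = g * z * g⁻¹ * g := by group
          _ = z * g := by rw [h']
  have hchar : CharP 2 (Subgroup.centralizer ({z} : Set G)) := hQ.2.2 _ hloc ⟨T, hTC⟩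
  have hV : Subgroup.centralizer ((Subgroup.zpowers z : Subgroup G) : Set G) =
      Subgroup.centralizer ({z} : Set G) := by
    rw [Subgroup.zpowers_eq_closure, Subgroup.centralizer_closure]
  have hCU := charP_centralizer_of_le hU (Subgroup.zpowers z) (Subgroup.zpowers_le.mpr hzU) (hV ▸ hchar)
  exact generalizedFitting_eq_pCore (charP_normalizer hU hCU)

end Cfsg.Agent.S1850
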