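import Cfsg.Statements.S1851
import Cfsg.Agent.Eq.Def_QuasithinSetup
import Cfsg.Agent.CharP.Climb

set_option autoImplicit false
open Cfsg

namespace Cfsg.Agent.S1851

open CfsgLib.CharPClimb
open scoped commutatorElement

/-- A perfect subgroup lies in every subnormal subgroup of `p`-power index. -/
theorem perfect_le {W : Type*} [Group W] [Finite W] {p : ℕ} [Fact p.Prime] (Y : Subgroup W)
    (hY : Y.IsSubnormal) : ∀ k : ℕ, Y.index = p ^ k → ∀ X : Subgroup W, ⁅X, X⁆ = X → X ≤ Y := by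
  induction hY with
  | top => exact fun _ _ X _ => le_top
  | step H K h_le _ hN ih =>
    intro k hk X hX
    have hmul : H.relIndex K * K.index = p ^ k := by rw [Subgroup.relIndex_mul_index h_le, hk]
    obtain ⟨a, -, ha⟩ := (Nat.dvd_prime_pow (Fact.out : p.Prime)).mp ⟨_, hmul.symm⟩
    obtain ⟨b, -, hb⟩ := (Nat.dvd_prime_pow (Fact.out : p.Prime)).mp (Dvd.intro_left _ hmul)
    have hXK : X ≤ K := ih b hb X hX
    haveI := hN
    haveI : Group.IsNilpotent (↥K ⧸ H.subgroupOf K) := (IsPGroup.of_card (n := a) ha).isNilpotent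
    haveI hperf : Group.IsPerfect ↥(X.subgroupOf K) := by
      rw [Subgroup.isPerfect_iff]
      apply Subgroup.map_injective K.subtype_injective
      rw [Subgroup.map_commutator, Subgroup.map_subgroupOf_eq_of_le hXK, hX]
    have himg : Group.IsPerfect ↥((X.subgroupOf K).map (QuotientGroup.mk' (H.subgroupOf K))) :=
      Group.IsPerfect.map (f := QuotientGroup.mk' (H.subgroupOf K))
    intro x hx
    by_contra hxH
    have hne : Nontrivial ↥((X.subgroupOf K).map (QuotientGroup.mk' (H.subgroupOf K))) :=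
      ⟨⟨_, ⟨⟨x, hXK hx⟩, Subgroup.mem_subgroupOf.mpr hx, rfl⟩⟩, 1,
        fun h => hxH (Subgroup.mem_subgroupOf.mp ((QuotientGroup.eq_one_iff _).mp (congrArg Subtype.val h)))⟩
    haveI := himg
    haveI := hne
    exact Group.IsPerfect.not_isNilpotent
      (G := ↥((X.subgroupOf K).map (QuotientGroup.mk' (H.subgroupOf K)))) inferInstance

/-- A normal `p`-subgroup normalizes every perfect subnormal subgroup. -/
theorem le_normalizer_perfect {W : Type*} [Group W] [Finite W] {p : ℕ} [Fact p.Prime]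
    (L R : Subgroup W) (hL : L.IsSubnormal) (hLp : ⁅L, L⁆ = L) [R.Normal] (hR : IsPGroup p ↥R) :
    R ≤ Subgroup.normalizer (L : Set W) := by
  set V := L ⊔ R with hV
  obtain ⟨r, hr⟩ := IsPGroup.iff_card.mp hR
  have h1 : R.relIndex V * Nat.card ↥R = Nat.card ↥V := by
    have := Subgroup.relIndex_mul_relIndex (⊥ : Subgroup W) R V bot_le le_sup_right
    rw [Subgroup.relIndex_bot_left, Subgroup.relIndex_bot_left] at this
    rw [mul_comm]; exact this
  have h2 : Nat.card ↥L * L.relIndex V = Nat.card ↥V := by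
    have := Subgroup.relIndex_mul_relIndex (⊥ : Subgroup W) L V bot_le le_sup_left
    rwa [Subgroup.relIndex_bot_left, Subgroup.relIndex_bot_left] at this
  have h3 : R.relIndex V ∣ Nat.card ↥L := by
    rw [hV, Subgroup.relIndex_sup_right]
    exact Subgroup.index_dvd_card _
  have h4 : L.relIndex V ∣ Nat.card ↥R := by
    refine (Nat.mul_dvd_mul_iff_left (Nat.card_pos (α := ↥L))).mp ?_
    rw [h2, ← h1]
    exact mul_dvd_mul_right h3 _
  rw [hr] at h4
  obtain ⟨k, -, hk⟩ := (Nat.dvd_prime_pow (Fact.out : p.Prime)).mp h4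
  have key : ∀ g ∈ R, L.map (MulAut.conj g).toMonoidHom ≤ L := by
    intro g hg
    have hle : L.map (MulAut.conj g).toMonoidHom ≤ V := by
      rintro _ ⟨x, hx, rfl⟩
      exact mul_mem (mul_mem (Subgroup.mem_sup_right hg) (Subgroup.mem_sup_left hx))
        (inv_mem (Subgroup.mem_sup_right hg))
    have := perfect_le (p := p) (L.subgroupOf V) (hL.subgroupOf) k hk
      ((L.map (MulAut.conj g).toMonoidHom).subgroupOf V) (by
        apply Subgroup.map_injective V.subtype_injective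
        rw [Subgroup.map_commutator, Subgroup.map_subgroupOf_eq_of_le hle, ← Subgroup.map_commutator, hLp])
    intro x hx
    exact Subgroup.mem_subgroupOf.mp (this (show (⟨x, hle hx⟩ : ↥V) ∈ _ from Subgroup.mem_subgroupOf.mpr hx))
  intro g hg
  rw [Subgroup.mem_normalizer_iff]
  refine fun x => ⟨fun hx => key g hg ⟨x, hx, rfl⟩, fun hx => ?_⟩
  have := key g⁻¹ (inv_mem hg) ⟨_, hx, rfl⟩
  simpa [mul_assoc] using this

/-- The `p`-core of a subnormal subgroup lies in the `p`-core. -/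
theorem pCore_subnormal_le {W : Type*} [Group W] [Finite W] {p : ℕ} [Fact p.Prime] (Y : Subgroup W)
    (hY : Y.IsSubnormal) : (Cfsg.pCore p ↥Y).map Y.subtype ≤ Cfsg.pCore p W := by
  induction hY with
  | top =>
    exact CfsgLib.LocalP.le_pCore ((Cfsg.pCore_normal p ↥(⊤ : Subgroup W)).map _
      (fun w => ⟨⟨w, trivial⟩, rfl⟩)) ((CfsgLib.LocalP.isPGroup_pCore).map _)
  | step H K h_le _ hN ih =>
    refine le_trans ?_ ih
    refine le_pCoreIn ((pCoreIn_le H).trans h_le) ?_ (isPGroup_pCoreIn H)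
    refine le_trans ?_ (normalizer_le_normalizer_pCoreIn H)
    intro k hk
    rw [Subgroup.mem_normalizer_iff]
    intro h
    constructor
    · intro hh
      exact Subgroup.mem_subgroupOf.mp (hN.conj_mem ⟨h, h_le hh⟩ (Subgroup.mem_subgroupOf.mpr hh) ⟨k, hk⟩)
    · intro hh
      have := Subgroup.mem_subgroupOf.mp
        (hN.conj_mem ⟨_, h_le hh⟩ (Subgroup.mem_subgroupOf.mpr hh) ⟨k, hk⟩⁻¹)
      simpa [mul_assoc] using this

/-- The facts used about a member `L` of `ℒ(G, T)`. -/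
theorem calL_facts {G : Type*} [Group G] [Finite G] (hQ : Cfsg.IsQTKE G) (T : Sylow 2 G) (L : Subgroup G)
    (hL : L ∈ Cfsg.calL (T : Subgroup G)) :
    CharP 2 (L ⊔ (T : Subgroup G)) ∧
    CharP 2 L ∧ ⁅L, L⁆ = L ∧ L ≠ ⊥ ∧
    pCoreIn 2 (L ⊔ (T : Subgroup G)) ≤ (T : Subgroup G) ∧
    pCoreIn 2 (L ⊔ (T : Subgroup G)) ≤ Subgroup.normalizer (L : Set G) ∧
    pCoreIn 2 L ≤ pCoreIn 2 (L ⊔ (T : Subgroup G)) := by
  obtain ⟨⟨hne, hperf, hsub, -⟩, -, hcore⟩ := hL
  set H := L ⊔ (T : Subgroup G) with hH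
  have hLH : L ≤ H := le_sup_left
  have hTH : (T : Subgroup G) ≤ H := le_sup_right
  set R := pCoreIn 2 H with hR
  have hRn : H ≤ Subgroup.normalizer (R : Set G) :=
    Subgroup.le_normalizer.trans (normalizer_le_normalizer_pCoreIn H)
  have hRT : R ≤ (T : Subgroup G) := by
    have hp : IsPGroup 2 ↥((T : Subgroup G) ⊔ R) :=
      T.isPGroup'.to_sup_of_normal_right' (isPGroup_pCoreIn H) (hTH.trans hRn)
    exact le_sup_right.trans (T.3 hp le_sup_left).le
  have hRne : R ≠ ⊥ := fun h => hcore ((Subgroup.map_eq_bot_iff_of_injective _ H.subtype_injective).mp h)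
  have hH2 : CharP 2 H := by
    have hHN : H ≤ Subgroup.normalizer (R : Set G) := hRn
    have hM : CharP 2 (Subgroup.normalizer (R : Set G)) :=
      hQ.2.2 _ ⟨R, isPGroup_pCoreIn H, hRne, rfl⟩ ⟨T, hTH.trans hHN⟩
    have hO : pCoreIn 2 (Subgroup.normalizer (R : Set G)) ≤ (T : Subgroup G) := by
      have hp : IsPGroup 2 ↥((T : Subgroup G) ⊔ pCoreIn 2 (Subgroup.normalizer (R : Set G))) :=
        T.isPGroup'.to_sup_of_normal_right' (isPGroup_pCoreIn _)
          ((hTH.trans hHN).trans (Subgroup.le_normalizer.trans (normalizer_le_normalizer_pCoreIn _)))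
      exact le_sup_right.trans (T.3 hp le_sup_left).le
    refine charP_of_forall fun x hx hcop hc => eq_one_of_centralizes hM (hHN hx) hcop fun q hq => hc q ?_
    refine le_pCoreIn (hO.trans hTH) ?_ (isPGroup_pCoreIn _) hq
    exact hHN.trans (Subgroup.le_normalizer.trans (normalizer_le_normalizer_pCoreIn _))
  refine ⟨hH2, ?_, ?_, ?_, hRT, ?_, ?_⟩
  · exact CfsgLib.LocalP.charP_of_mulEquiv (Subgroup.subgroupOfEquivOfLe hLH)
      (CfsgLib.LocalP.charP_of_isSubnormal hH2 _ hsub)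
  · have := congrArg (Subgroup.map H.subtype) hperf
    rwa [Subgroup.map_commutator, Subgroup.map_subgroupOf_eq_of_le hLH] at this
  · intro h
    exact hne (by rw [h, Subgroup.bot_subgroupOf])
  · intro r hr
    have h1 := le_normalizer_perfect (p := 2) (L.subgroupOf H) (Cfsg.pCore 2 ↥H) hsub hperf
      CfsgLib.LocalP.isPGroup_pCore
    obtain ⟨r', hr', rfl⟩ := hr
    rw [Subgroup.mem_normalizer_iff]
    intro x
    constructor
    · intro hx
      exact Subgroup.mem_subgroupOf.mp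
        ((Subgroup.mem_normalizer_iff.mp (h1 hr') ⟨x, hLH hx⟩).mp (Subgroup.mem_subgroupOf.mpr hx))
    · intro hx
      have hxH : x ∈ H := by
        simpa [mul_assoc] using mul_mem (mul_mem (inv_mem r'.2) (hLH hx)) r'.2
      exact Subgroup.mem_subgroupOf.mp
        ((Subgroup.mem_normalizer_iff.mp (h1 hr') ⟨x, hxH⟩).mpr (Subgroup.mem_subgroupOf.mpr hx))
  · rintro _ ⟨y, hy, rfl⟩
    have h1 := pCore_subnormal_le (p := 2) (L.subgroupOf H) hsub
    let e := (Subgroup.subgroupOfEquivOfLe hLH)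
    have hy' : e.symm y ∈ Cfsg.pCore 2 ↥(L.subgroupOf H) :=
      CfsgLib.LocalP.le_pCore ((Cfsg.pCore_normal 2 ↥L).map e.symm.toMonoidHom e.symm.surjective)
        (CfsgLib.LocalP.isPGroup_pCore.map _) ⟨y, hy, rfl⟩
    exact ⟨_, h1 ⟨_, hy', rfl⟩, rfl⟩

/-- `Ω₁(Z(O₂(Y)))` consists of elements of square 1 centralizing `O₂(Y)`. -/
theorem omega_facts {G : Type*} [Group G] (Y : Subgroup G) :
    ∀ z ∈ omegaOne 2 (pCoreTwoOf Y ⊓ Subgroup.centralizer (pCoreTwoOf Y : Set G)),
      z ∈ pCoreTwoOf Y ∧ z ∈ Subgroup.centralizer (pCoreTwoOf Y : Set G) ∧ z ^ 2 = 1 := by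
  intro z hz
  induction hz using Subgroup.closure_induction with
  | mem x hx => exact ⟨hx.1.1, hx.1.2, hx.2⟩
  | one => exact ⟨one_mem _, one_mem _, one_pow _⟩
  | mul x y _ _ hx hy =>
    refine ⟨mul_mem hx.1 hy.1, mul_mem hx.2.1 hy.2.1, ?_⟩
    have hc : Commute x y := (hy.2.1 x hx.1)
    rw [hc.mul_pow, hx.2.2, hy.2.2, one_mul]
  | inv x _ hx => exact ⟨inv_mem hx.1, inv_mem hx.2.1, by rw [inv_pow, hx.2.2, inv_one]⟩

/-- A subgroup normalizing `Y` normalizes `Ω₁(Z(O₂(Y)))`. -/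
theorem omega_normalizer {G : Type*} [Group G] [Finite G] (Y : Subgroup G) :
    Subgroup.normalizer (Y : Set G) ≤
      Subgroup.normalizer (omegaOne 2 (pCoreTwoOf Y ⊓ Subgroup.centralizer (pCoreTwoOf Y : Set G)) : Set G) := by
  have key : ∀ g ∈ Subgroup.normalizer (Y : Set G),
      ∀ z ∈ omegaOne 2 (pCoreTwoOf Y ⊓ Subgroup.centralizer (pCoreTwoOf Y : Set G)),
        g * z * g⁻¹ ∈ omegaOne 2 (pCoreTwoOf Y ⊓ Subgroup.centralizer (pCoreTwoOf Y : Set G)) := by
    intro g hg z hz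
    obtain ⟨h1, h2, h3⟩ := omega_facts Y z hz
    have hn := normalizer_le_normalizer_pCoreIn (p := 2) Y hg
    refine Subgroup.subset_closure ⟨⟨(Subgroup.mem_normalizer_iff.mp hn z).mp h1, ?_⟩, ?_⟩
    · intro q hq
      have hq' : g⁻¹ * q * g ∈ pCoreTwoOf Y :=
        (Subgroup.mem_normalizer_iff.mp hn (g⁻¹ * q * g)).mpr
          (by rw [show g * (g⁻¹ * q * g) * g⁻¹ = q by group]; exact hq)
      calc q * (g * z * g⁻¹) = g * ((g⁻¹ * q * g) * z) * g⁻¹ := by group
        _ = g * (z * (g⁻¹ * q * g)) * g⁻¹ := by rw [h2 _ hq']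
        _ = g * z * g⁻¹ * q := by group
    · calc (g * z * g⁻¹) ^ 2 = g * z ^ 2 * g⁻¹ := by simp [pow_two, mul_assoc]
        _ = 1 := by rw [h3]; group
  intro g hg
  rw [Subgroup.mem_normalizer_iff]
  refine fun z => ⟨key g hg z, fun hz => ?_⟩
  simpa [mul_assoc] using key g⁻¹ (inv_mem hg) _ hz

/-- Elements generated by odd-order elements: a perfect group is generated by them. -/
theorem oddGenerated_eq_self {G : Type*} [Group G] [Finite G] (K : Subgroup G) (hK : ⁅K, K⁆ = K) :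
    Cfsg.oddGenerated K = K := by
  have hle : Cfsg.oddGenerated K ≤ K := (Subgroup.closure_le K).mpr fun x hx => hx.1
  have hn : ((Cfsg.oddGenerated K).subgroupOf K).Normal := by
    refine ⟨fun n hn k => ?_⟩
    rw [Subgroup.mem_subgroupOf] at hn ⊢
    show (k : G) * n * (k : G)⁻¹ ∈ Cfsg.oddGenerated K
    have hsub : Cfsg.oddGenerated K ≤ (Cfsg.oddGenerated K).comap (MulAut.conj (k : G)).toMonoidHom := by
      refine (Subgroup.closure_le _).mpr fun x hx => Subgroup.subset_closure ?_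
      refine ⟨mul_mem (mul_mem k.2 hx.1) (inv_mem k.2), ?_⟩
      rw [MulEquiv.coe_toMonoidHom, MulEquiv.orderOf_eq]
      exact hx.2
    exact hsub hn
  haveI := hn
  have hp : IsPGroup 2 (↥K ⧸ (Cfsg.oddGenerated K).subgroupOf K) := by
    intro q
    obtain ⟨x, rfl⟩ := QuotientGroup.mk_surjective q
    obtain ⟨a, m, hm, ham⟩ := Nat.exists_eq_pow_mul_and_not_dvd (orderOf_pos x).ne' 2 (by norm_num)
    refine ⟨a, ?_⟩
    rw [← QuotientGroup.mk_pow, QuotientGroup.eq_one_iff, Subgroup.mem_subgroupOf]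
    refine Subgroup.subset_closure ⟨(x ^ 2 ^ a).2, ?_⟩
    have h1 : orderOf (x ^ 2 ^ a) = m := by
      rw [orderOf_pow' x (pow_ne_zero a (by norm_num)), ham, Nat.gcd_eq_right (dvd_mul_right _ _),
        Nat.mul_div_cancel_left m (pow_pos (by norm_num) a)]
    rw [Subgroup.orderOf_coe, h1, Nat.odd_iff]
    omega
  obtain ⟨k, hk⟩ := IsPGroup.iff_card.mp hp
  have := perfect_le (p := 2) ((Cfsg.oddGenerated K).subgroupOf K) hn.isSubnormal k hk ⊤ (by
    apply Subgroup.map_injective K.subtype_injective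
    rw [Subgroup.map_commutator, ← MonoidHom.range_eq_map, Subgroup.range_subtype, hK])
  exact le_antisymm hle fun x hx => Subgroup.mem_subgroupOf.mp (this (Subgroup.mem_top ⟨x, hx⟩))

/-- Let G be a non-abelian finite simple QTKE-group and T a Sylow 2-subgroup of G, and let L be a member of ℒ_f(G, T) (a member of ℒ(G, T) that lies in 𝒳 — L ≠ 1, L = O²(L), F*(L) = O₂(L) — and acts nontrivially on Ω₁(Z(O₂(L)))). Then (1) every member K of ℒ(G, T) containing L is again in ℒ_f(G, T) (a sharper form of (1) also compares the modules [Ω₁(Z(R)), L] and [Ω₁(Z(R')), K] for suitable 2-subgroups R, R'; that comparison is not included); and (2) if L is maximal under inclusion among the members of ℒ_f(G, T), then L is a maximal member of ℒ(G, T), hence a member of ℒ_f*(G, T). -/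
theorem result {G : Type*} [Group G] [Finite G] [IsSimpleGroup G]
    (hG : ¬ IsMulCommutative G) (hQ : Cfsg.IsQTKE G) (T : Sylow 2 G) (L : Subgroup G)
    (hL : L ∈ Cfsg.calLf (T : Subgroup G)) :
    (∀ K ∈ Cfsg.calL (T : Subgroup G), L ≤ K → K ∈ Cfsg.calLf (T : Subgroup G)) ∧
    ((∀ K ∈ Cfsg.calLf (T : Subgroup G), L ≤ K → K = L) → L ∈ Cfsg.calLfMax (T : Subgroup G)) := by
  obtain ⟨hLL, ⟨-, hLodd, -⟩, hLV⟩ := hL
  obtain ⟨hH, hL2, -, -, hRT, hRL, hOL⟩ := calL_facts hQ T L hLL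
  have main : ∀ K ∈ Cfsg.calL (T : Subgroup G), L ≤ K → K ∈ Cfsg.calLf (T : Subgroup G) := by
    intro K hK hLK
    obtain ⟨hH', hK2, hKp, hKne, hQT, hQK, hOK⟩ := calL_facts hQ T K hK
    refine ⟨hK, ⟨hKne, oddGenerated_eq_self K hKp, generalizedFitting_eq_pCore hK2⟩, ?_⟩
    set R := pCoreIn 2 (L ⊔ (T : Subgroup G)) with hR
    set Q := pCoreIn 2 (K ⊔ (T : Subgroup G)) with hQdef
    set ZL := omegaOne 2 (pCoreTwoOf L ⊓ Subgroup.centralizer (pCoreTwoOf L : Set G)) with hZL
    have hHK : L ⊔ (T : Subgroup G) ≤ K ⊔ (T : Subgroup G) := sup_le_sup_right hLK _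
    have hQR : Q ≤ R :=
      le_pCoreIn (hQT.trans le_sup_right)
        (hHK.trans (Subgroup.le_normalizer.trans (normalizer_le_normalizer_pCoreIn _))) (isPGroup_pCoreIn _)
    -- an element of odd order moving some element of `C_{ZL}(R)`
    obtain ⟨x, hxL, hxodd, w, hw, hwR, hxw⟩ :
        ∃ x ∈ L, Odd (orderOf x) ∧ ∃ w ∈ ZL, (∀ r ∈ R, r * w = w * r) ∧ x * w ≠ w * x := by
      by_contra! hall
      apply hLV
      rw [moduleV, Subgroup.commutator_eq_bot_iff_le_centralizer]
      suffices hsuff : Cfsg.oddGenerated L ≤ Subgroup.centralizer (ZL : Set G) by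
        rw [hLodd] at hsuff
        exact fun z hz => fun x hx => (hsuff hx z hz).symm
      refine (Subgroup.closure_le _).mpr fun x ⟨hxL, hxodd⟩ => ?_
      intro z hz
      refine (commute_of_commute_fixed_abelian (p := 2) (A := R) (R := ZL) (isPGroup_pCoreIn _)
        ((isPGroup_pCoreIn L).to_le fun a ha => (omega_facts L a ha).1)
        (fun a ha b hb => ((omega_facts L b hb).2.1 a (omega_facts L a ha).1))
        (hRL.trans (omega_normalizer L))
        (omega_normalizer L (Subgroup.le_normalizer hxL)) ?_ (by simpa using hxodd)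
        (fun r hr hrR => hall x hxL hxodd r hr hrR) z hz).symm
      intro a ha r hr
      have hc : x⁻¹ * a⁻¹ * x * a ∈ pCoreTwoOf L := by
        have h1 : x⁻¹ * a⁻¹ * x * a ∈ L := by
          have := (Subgroup.mem_normalizer_iff.mp (hRL (inv_mem ha)) x).mp hxL
          have h2 := mul_mem (inv_mem hxL) this
          simpa [mul_assoc] using h2
        have h3 : x⁻¹ * a⁻¹ * x * a ∈ R := by
          have hn := normalizer_le_normalizer_pCoreIn (p := 2) _
            (Subgroup.le_normalizer (inv_mem (Subgroup.mem_sup_left (T := (T : Subgroup G)) hxL)))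
          have := mul_mem ((Subgroup.mem_normalizer_iff.mp hn a⁻¹).mp (inv_mem ha)) ha
          simpa [mul_assoc] using this
        refine le_pCoreIn (N := L ⊓ R) inf_le_left ?_ ((isPGroup_pCoreIn _).to_le inf_le_right) ⟨h1, h3⟩
        intro g hg
        have hn := normalizer_le_normalizer_pCoreIn (p := 2) _
          (Subgroup.le_normalizer (Subgroup.mem_sup_left (T := (T : Subgroup G)) hg))
        rw [Subgroup.mem_normalizer_iff]
        intro q
        simp only [Subgroup.mem_inf]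
        rw [← Subgroup.mem_normalizer_iff.mp hn q, ← Subgroup.mem_normalizer_iff.mp (Subgroup.le_normalizer hg) q]
      exact (omega_facts L r hr).2.1 _ hc
    obtain ⟨hw1, hw2, hw3⟩ := omega_facts L w hw
    have hwH : w ∈ L ⊔ (T : Subgroup G) := Subgroup.mem_sup_left (pCoreIn_le L hw1)
    have hwQ : w ∈ Q := mem_pCoreIn_of_centralizes hH' (hHK hwH) fun q hq => hwR q (hQR hq)
    set ZQ := omegaOne 2 (pCoreTwoOf (K ⊔ (T : Subgroup G)) ⊓
      Subgroup.centralizer (pCoreTwoOf (K ⊔ (T : Subgroup G)) : Set G)) with hZQ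
    set ZK := omegaOne 2 (pCoreTwoOf K ⊓ Subgroup.centralizer (pCoreTwoOf K : Set G)) with hZK
    have hwZ : w ∈ ZQ := Subgroup.subset_closure ⟨⟨hwQ, fun q hq => hwR q (hQR hq)⟩, hw3⟩
    intro hV
    have hV' : K ≤ Subgroup.centralizer (ZK : Set G) := by
      rw [moduleV, Subgroup.commutator_comm, Subgroup.commutator_eq_bot_iff_le_centralizer] at hV
      exact hV
    have hC : ⁅ZQ, K⁆ ≤ ZK := by
      rw [Subgroup.commutator_le]
      intro z hz k hk
      obtain ⟨hz1, hz2, hz3⟩ := omega_facts (K ⊔ (T : Subgroup G)) z hz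
      have hcK : ⁅z, k⁆ ∈ K :=
        mul_mem ((Subgroup.mem_normalizer_iff.mp (hQK hz1) k).mp hk) (inv_mem hk)
      have hkz : k * z⁻¹ * k⁻¹ ∈ ZQ :=
        (Subgroup.mem_normalizer_iff.mp
          (omega_normalizer _ (Subgroup.le_normalizer (Subgroup.mem_sup_left hk))) z⁻¹).mp (inv_mem hz)
      have hcZ : ⁅z, k⁆ ∈ ZQ := by
        have := mul_mem hz hkz
        simpa [commutatorElement_def, mul_assoc] using this
      obtain ⟨hc1, hc2, hc3⟩ := omega_facts (K ⊔ (T : Subgroup G)) _ hcZ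
      refine Subgroup.subset_closure ⟨⟨?_, fun q hq => hc2 q (hOK hq)⟩, hc3⟩
      refine le_pCoreIn (N := K ⊓ Q) inf_le_left ?_ ((isPGroup_pCoreIn _).to_le inf_le_right) ⟨hcK, hc1⟩
      intro g hg
      have hn := normalizer_le_normalizer_pCoreIn (p := 2) _
        (Subgroup.le_normalizer (Subgroup.mem_sup_left (T := (T : Subgroup G)) hg))
      rw [Subgroup.mem_normalizer_iff]
      intro q
      simp only [Subgroup.mem_inf]
      rw [← Subgroup.mem_normalizer_iff.mp hn q, ← Subgroup.mem_normalizer_iff.mp (Subgroup.le_normalizer hg) q]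
    have h3 : ⁅⁅ZQ, K⁆, K⁆ = ⊥ := by
      rw [Subgroup.commutator_eq_bot_iff_le_centralizer]
      exact hC.trans fun z hz k hk => (hV' hk z hz).symm
    have h4 : ⁅⁅K, K⁆, ZQ⁆ = ⊥ :=
      Subgroup.commutator_commutator_eq_bot_of_rotate (by rw [Subgroup.commutator_comm K ZQ]; exact h3) h3
    rw [hKp, Subgroup.commutator_eq_bot_iff_le_centralizer] at h4
    exact hxw (h4 (hLK hxL) w hwZ).symm
  refine ⟨main, fun hmax => ⟨⟨hLL, fun K hK hLK => hmax K (main K hK hLK) hLK⟩, ?_⟩⟩
  exact ⟨⟨(calL_facts hQ T L hLL).2.2.2.1, hLodd, generalizedFitting_eq_pCore hL2⟩, hLV⟩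

end Cfsg.Agent.S1851
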