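import Cfsg.Statements.S1957
import Cfsg.Agent.LocalP.Basic
import Cfsg.Agent.LocalCharP.PReduced
import Cfsg.Agent.Coprime.Generation
import Cfsg.Agent.PGroup.Normal
import Cfsg.Agent.Eq.Def_CaseTheorems

set_option autoImplicit false
open Cfsg

namespace Cfsg.Agent.S1957


open CfsgLib.LocalCharP

section
variable {G : Type*} [Group G] [Finite G]

private theorem four_cases {U : Subgroup G} (h4 : IsKleinFour ↥U) {a b : G} (ha : a ∈ U) (hb : b ∈ U)
    (ha1 : a ≠ 1) (hb1 : b ≠ 1) (hab : a ≠ b) :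
    ∀ w ∈ U, w = 1 ∨ w = a ∨ w = b ∨ w = a * b := by
  classical
  have hsq : ∀ w ∈ U, w * w = 1 := fun w hw => by
    have h := Monoid.pow_exponent_eq_one (⟨w, hw⟩ : ↥U)
    rw [h4.exponent_two] at h
    simpa [Subtype.ext_iff, sq] using h
  have hne : a * b ≠ 1 := fun h => hab (by
    calc a = a * (b * b) := by rw [hsq b hb, mul_one]
      _ = (a * b) * b := by group
      _ = b := by rw [h, one_mul])
  have h := Set.eq_of_subset_of_ncard_le (s := ({1, a, b, a * b} : Set G)) (t := (U : Set G))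
    (by
      rintro u (rfl | rfl | rfl | rfl)
      exacts [one_mem U, ha, hb, mul_mem ha hb])
    (by
      rw [← Nat.card_coe_set_eq, SetLike.coe_sort_coe, h4.card_four, Set.ncard_insert_of_notMem,
        Set.ncard_insert_of_notMem, Set.ncard_pair]
      · simpa [eq_comm] using ha1
      · simp [hab, hb1]
      · simp [ha1.symm, hb1.symm, hne.symm])
    (Set.toFinite _)
  intro u hu
  have hu' : u ∈ ({1, a, b, a * b} : Set G) := h.symm ▸ hu
  simpa using hu'

/-- A four-group normal in a Sylow 2-subgroup centralizing `u` lies in the 2-core of `C(u)`. -/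
private theorem le_pCoreOf_of_normal {U : Subgroup G} (h4 : IsKleinFour ↥U) (Q : Sylow 2 G)
    (hUn : (Q : Subgroup G) ≤ Subgroup.normalizer (U : Set G)) {u : G} (hu : u ∈ U) (hu1 : u ≠ 1)
    (hQu : (Q : Subgroup G) ≤ Subgroup.centralizer {u})
    (hc : Subgroup.centralizer ({u} : Set G) ⊓
      Subgroup.centralizer (Cfsg.pCoreOf 2 (Subgroup.centralizer ({u} : Set G)) : Set G) ≤
      Cfsg.pCoreOf 2 (Subgroup.centralizer ({u} : Set G))) :
    U ≤ Cfsg.pCoreOf 2 (Subgroup.centralizer ({u} : Set G)) := by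
  haveI : Fact (Nat.Prime 2) := ⟨Nat.prime_two⟩
  haveI := h4.isMulCommutative
  have hUc : ∀ a ∈ U, ∀ b ∈ U, a * b = b * a := fun a ha b hb =>
    congrArg Subtype.val (mul_comm' (⟨a, ha⟩ : ↥U) ⟨b, hb⟩)
  have hsq : u * u = 1 := by
    have h := Monoid.pow_exponent_eq_one (⟨u, hu⟩ : ↥U)
    rw [h4.exponent_two] at h
    simpa [Subtype.ext_iff, sq] using h
  have huinv : u⁻¹ = u := inv_eq_of_mul_eq_one_right hsq
  set C := Subgroup.centralizer ({u} : Set G) with hC
  set O := Cfsg.pCoreOf 2 C with hO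
  have hOQ : O ≤ (Q : Subgroup G) := pCoreOf_le_of_le hQu
  have hCu : ∀ c ∈ C, c * u = u * c := fun c hc => Subgroup.mem_centralizer_singleton_iff.mp hc
  have hcO : ∀ c ∈ C, ∀ o ∈ O, c * o * c⁻¹ ∈ O := fun c hc o ho =>
    (Subgroup.mem_normalizer_iff.mp (le_normalizer_pCoreOf C hc) o).mp ho
  have hconju : ∀ c ∈ C, ∀ e : G, (e = 1 ∨ e = u) → c * e * c⁻¹ = e := by
    intro c hc e he
    rcases he with rfl | rfl
    · group
    · rw [hCu c hc]; group
  let X : Subgroup G :=
    { carrier := {c | c ∈ C ∧ ∀ o ∈ O, c * o * c⁻¹ * o⁻¹ = 1 ∨ c * o * c⁻¹ * o⁻¹ = u}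
      one_mem' := ⟨one_mem _, fun o _ => by simp⟩
      mul_mem' := by
        rintro c d ⟨hc, hc'⟩ ⟨hd, hd'⟩
        refine ⟨mul_mem hc hd, fun o ho => ?_⟩
        have e1 : c * d * o * (c * d)⁻¹ * o⁻¹
            = (c * (d * o * d⁻¹ * o⁻¹) * c⁻¹) * (c * o * c⁻¹ * o⁻¹) := by group
        rw [e1, hconju c hc _ (hd' o ho)]
        rcases hd' o ho with h | h <;> rcases hc' o ho with h' | h' <;> rw [h, h']
        · simp
        · simp
        · simp
        · exact Or.inl hsq
      inv_mem' := by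
        rintro c ⟨hc, hc'⟩
        refine ⟨inv_mem hc, fun o ho => ?_⟩
        have ho' := hcO c⁻¹ (inv_mem hc) o ho
        have e1 : c⁻¹ * o * c⁻¹⁻¹ * o⁻¹
            = (c * (c⁻¹ * o * c⁻¹⁻¹) * c⁻¹ * (c⁻¹ * o * c⁻¹⁻¹)⁻¹)⁻¹ := by group
        rw [e1]
        rcases hc' _ ho' with h | h <;> rw [h]
        · simp
        · exact Or.inr huinv }
  have hUC : U ≤ C := fun w hw => Subgroup.mem_centralizer_singleton_iff.mpr (hUc w hw u hu)
  have hUX : U ≤ X := by
    intro v hv
    refine ⟨hUC hv, fun o ho => ?_⟩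
    by_cases hv1 : v = 1
    · simp [hv1]
    by_cases hvu : v = u
    · left
      subst hvu
      rw [← hCu o ((hOQ.trans hQu) ho)]
      group
    have hov : o * v⁻¹ * o⁻¹ ∈ U :=
      (Subgroup.mem_normalizer_iff.mp (hUn (hOQ ho)) v⁻¹).mp (inv_mem hv)
    have hmem : v * o * v⁻¹ * o⁻¹ ∈ U := by
      simpa [mul_assoc] using mul_mem hv hov
    rcases four_cases h4 hu hv hu1 hv1 (Ne.symm hvu) _ hmem with h | h | h | h
    · exact Or.inl h
    · exact Or.inr h
    · exfalso
      apply hv1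
      have h' : o * v⁻¹ * o⁻¹ = 1 := by
        calc o * v⁻¹ * o⁻¹ = v⁻¹ * (v * o * v⁻¹ * o⁻¹) := by group
          _ = 1 := by rw [h]; group
      exact inv_eq_one.mp (conj_eq_one_iff.mp h')
    · exfalso
      apply hvu
      have h' : o * v⁻¹ * o⁻¹ = u := by
        calc o * v⁻¹ * o⁻¹ = v⁻¹ * (v * o * v⁻¹ * o⁻¹) := by group
          _ = v⁻¹ * (v * u) := by rw [h, hUc u hu v hv]
          _ = u := by group
      have hou := hCu o ((hOQ.trans hQu) ho)
      have h'' : v⁻¹ = u := by
        calc v⁻¹ = o⁻¹ * (o * v⁻¹ * o⁻¹) * o := by group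
          _ = o⁻¹ * (u * o) := by rw [h']; group
          _ = u := by rw [← hou]; group
      rw [← inv_inv v, h'', huinv]
  have hXn : C ≤ Subgroup.normalizer (X : Set G) := by
    have key : ∀ c ∈ C, ∀ x ∈ X, c * x * c⁻¹ ∈ X := by
      rintro c hc x ⟨hx, hx'⟩
      refine ⟨mul_mem (mul_mem hc hx) (inv_mem hc), fun o ho => ?_⟩
      have e1 : c * x * c⁻¹ * o * (c * x * c⁻¹)⁻¹ * o⁻¹
          = c * (x * (c⁻¹ * o * c⁻¹⁻¹) * x⁻¹ * (c⁻¹ * o * c⁻¹⁻¹)⁻¹) * c⁻¹ := by group
      rw [e1, hconju c hc _ (hx' _ (hcO c⁻¹ (inv_mem hc) o ho))]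
      exact hx' _ (hcO c⁻¹ (inv_mem hc) o ho)
    intro c hc
    rw [Subgroup.mem_normalizer_iff]
    exact fun x => ⟨key c hc x, fun h => by simpa [mul_assoc] using key c⁻¹ (inv_mem hc) _ h⟩
  have hXp : IsPGroup 2 ↥X := by
    refine CfsgLib.LocalP.isPGroup_of_forall_coprime X fun x hx hcop => ?_
    have hxO : x ∈ O := by
      refine hc ⟨hx.1, Subgroup.mem_centralizer_iff.mpr fun o ho => ?_⟩
      have hodd : Odd (orderOf x) := Nat.coprime_two_right.mp hcop
      obtain ⟨m, hm⟩ := hodd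
      set e := x * o * x⁻¹ * o⁻¹ with he
      have hxe : x * e * x⁻¹ = e := hconju x hx.1 e (hx.2 o ho)
      have hee : e * e = 1 := by
        rcases hx.2 o ho with h | h <;> rw [he, h]
        · simp
        · exact hsq
      have h2 : x ^ 2 * o * (x ^ 2)⁻¹ = o := by
        calc x ^ 2 * o * (x ^ 2)⁻¹ = (x * e * x⁻¹) * (x * o * x⁻¹) := by rw [he, sq]; group
          _ = e * (e * o) := by rw [hxe, he]; group
          _ = o := by rw [← mul_assoc, hee, one_mul]
      have h3 : Commute ((x ^ 2) ^ (m + 1)) o :=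
        Commute.pow_left (mul_inv_eq_iff_eq_mul.mp h2) _
      have h4 : (x ^ 2) ^ (m + 1) = x := by
        rw [← pow_mul, show 2 * (m + 1) = orderOf x + 1 by omega, pow_succ, pow_orderOf_eq_one,
          one_mul]
      rw [h4] at h3
      exact h3.eq.symm
    exact CfsgLib.LocalP.eq_one_of_mem_of_coprime (isPGroup_pCoreOf C) hxO hcop
  exact hUX.trans (le_pCoreOf (fun x hx => hx.1) hXp hXn)

end


/-- Let `G` be a finite non-abelian simple group in which every local subgroup is solvable and which is of characteristic 2 type. Let `P` be a Sylow 2-subgroup of `G` and `U` a normal subgroup of `P` that is a four-group, with `U` central in `P` if the centre of `P` is not cyclic. Then `U` centralizes every subgroup of odd order of `G` that it normalizes. -/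
theorem result {G : Type*} [Group G] [Finite G]
    [IsSimpleGroup G] (hna : ¬ IsMulCommutative G) (hN : Cfsg.IsNGroup G) (h2 : Cfsg.IsCharacteristicTwoType G)
    (P : Sylow 2 G) (U : Subgroup G) (hUP : U ≤ (P : Subgroup G)) (hUn : (P : Subgroup G) ≤ Subgroup.normalizer (U : Set G))
    (hU4 : IsKleinFour ↥U)
    (hUZ : ¬ IsCyclic ↥((P : Subgroup G) ⊓ Subgroup.centralizer ((P : Subgroup G) : Set G)) →
      U ≤ Subgroup.centralizer ((P : Subgroup G) : Set G))
    (K : Subgroup G) (hK : Odd (Nat.card K)) (hUK : U ≤ Subgroup.normalizer (K : Set G)) :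
    U ≤ Subgroup.centralizer (K : Set G) := by

  classical
  haveI : Fact (Nat.Prime 2) := ⟨Nat.prime_two⟩
  haveI := hU4.isMulCommutative
  have hUc : ∀ a ∈ U, ∀ b ∈ U, a * b = b * a := fun a ha b hb =>
    congrArg Subtype.val (mul_comm' (⟨a, ha⟩ : ↥U) ⟨b, hb⟩)
  have hsq : ∀ w ∈ U, w * w = 1 := fun w hw => by
    have h := Monoid.pow_exponent_eq_one (⟨w, hw⟩ : ↥U)
    rw [hU4.exponent_two] at h
    simpa [Subtype.ext_iff, sq] using h
  have hUp : IsPGroup 2 ↥U := P.isPGroup'.to_le hUP
  have hnc : ¬ IsCyclic ↥U := fun hc => by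
    have := IsCyclic.exponent_eq_card (α := ↥U)
    rw [hU4.exponent_two, hU4.card_four] at this
    exact absurd this (by decide)
  -- the key fact
  have key : ∀ u ∈ U, u ≠ 1 → U ≤ Cfsg.pCoreOf 2 (Subgroup.centralizer ({u} : Set G)) := by
    intro u hu hu1
    set C := Subgroup.centralizer ({u} : Set G) with hC
    have hord : orderOf u = 2 := orderOf_eq_prime (by rw [sq, hsq u hu]) hu1
    have hCN : Subgroup.normalizer (Subgroup.zpowers u : Set G) = C := by
      refine le_antisymm (fun g hg => ?_) ?_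
      · rw [hC, Subgroup.mem_centralizer_singleton_iff]
        have h := (Subgroup.mem_normalizer_iff.mp hg u).mp (Subgroup.mem_zpowers u)
        obtain ⟨k, hk, hk'⟩ : ∃ k, k < 2 ∧ u ^ k = g * u * g⁻¹ := by
          rw [← hord]
          obtain ⟨k, hk⟩ := (isOfFinOrder_of_finite u).mem_zpowers_iff_mem_range_orderOf.mp h |>
            Finset.mem_image.mp
          exact ⟨k, Finset.mem_range.mp hk.1, hk.2⟩
        interval_cases k
        · rw [pow_zero] at hk'
          exact absurd (conj_eq_one_iff.mp hk'.symm) hu1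
        · rw [pow_one] at hk'
          exact (mul_inv_eq_iff_eq_mul.mp hk'.symm)
      · rw [hC, show Subgroup.centralizer ({u} : Set G) = Subgroup.centralizer (Subgroup.zpowers u : Set G) by
          rw [Subgroup.zpowers_eq_closure, Subgroup.centralizer_closure]]
        exact Subgroup.centralizer_le_normalizer _
    have hchar : C ⊓ Subgroup.centralizer (Cfsg.pCoreOf 2 C : Set G) ≤ Cfsg.pCoreOf 2 C := by
      have h := h2.2 (Subgroup.zpowers u)
        (IsPGroup.of_card (n := 1) (by rw [Nat.card_zpowers, hord, pow_one]))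
        (by rw [Ne, Subgroup.zpowers_eq_bot]; exact hu1)
      rw [hCN] at h
      exact inf_centralizer_le_of_charP h
    have hcen : ∀ Q : Subgroup G, U ≤ Subgroup.centralizer (Q : Set G) →
        Cfsg.pCoreOf 2 C ≤ Q → U ≤ Cfsg.pCoreOf 2 C := fun Q hQ hOQ w hw =>
      hchar ⟨Subgroup.mem_centralizer_singleton_iff.mpr (hUc w hw u hu),
        Subgroup.centralizer_le hOQ (hQ hw)⟩
    by_cases hcyc : IsCyclic ↥((P : Subgroup G) ⊓ Subgroup.centralizer ((P : Subgroup G) : Set G))
    swap
    · have hPU := hUZ hcyc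
      exact hcen _ hPU (pCoreOf_le_of_le fun s hs => Subgroup.mem_centralizer_singleton_iff.mpr
        (Subgroup.mem_centralizer_iff.mp (hPU hu) s hs))
    -- at most one central involution in a Sylow subgroup
    have huniq : ∀ Q : Sylow 2 G, ∀ a b : G, a ∈ (Q : Subgroup G) → b ∈ (Q : Subgroup G) →
        (∀ s ∈ (Q : Subgroup G), s * a = a * s) → (∀ s ∈ (Q : Subgroup G), s * b = b * s) →
        a * a = 1 → b * b = 1 → a ≠ 1 → b ≠ 1 → a = b := by
      intro Q a b haQ hbQ ha hb ha2 hb2 ha1 hb1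
      obtain ⟨g, hg⟩ := MulAction.exists_smul_eq G P Q
      have hmem : ∀ s, s ∈ (Q : Subgroup G) → g⁻¹ * s * g ∈ (P : Subgroup G) := by
        intro s hs
        rw [← hg, Sylow.coe_subgroup_smul] at hs
        obtain ⟨t, ht, rfl⟩ := hs
        simpa [mul_assoc] using (show t ∈ (P : Subgroup G) from ht)
      have hmem' : ∀ t, t ∈ (P : Subgroup G) → g * t * g⁻¹ ∈ (Q : Subgroup G) := by
        intro t ht
        rw [← hg, Sylow.coe_subgroup_smul]
        exact ⟨t, ht, rfl⟩
      have hz : ∀ a, a ∈ (Q : Subgroup G) → (∀ s ∈ (Q : Subgroup G), s * a = a * s) →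
          g⁻¹ * a * g ∈ (P : Subgroup G) ⊓ Subgroup.centralizer ((P : Subgroup G) : Set G) := by
        intro a haQ ha
        refine ⟨hmem a haQ, Subgroup.mem_centralizer_iff.mpr fun t ht => ?_⟩
        calc t * (g⁻¹ * a * g) = g⁻¹ * ((g * t * g⁻¹) * a) * g := by group
          _ = g⁻¹ * (a * (g * t * g⁻¹)) * g := by rw [ha _ (hmem' t ht)]
          _ = g⁻¹ * a * g * t := by group
      set Z := (P : Subgroup G) ⊓ Subgroup.centralizer ((P : Subgroup G) : Set G)
      haveI := hcyc
      haveI : Fintype ↥Z := Fintype.ofFinite _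
      by_contra hab
      have hsub : ({1, ⟨_, hz a haQ ha⟩, ⟨_, hz b hbQ hb⟩} : Finset ↥Z) ⊆
          (Finset.univ.filter fun x : ↥Z => x ^ 2 = 1) := by
        intro x hx
        simp only [Finset.mem_insert, Finset.mem_singleton] at hx
        rcases hx with rfl | rfl | rfl <;> simp [Subtype.ext_iff, sq, mul_assoc]
        · simp [← mul_assoc a, ha2]
        · simp [← mul_assoc b, hb2]
      have h3 := (Finset.card_le_card hsub).trans (IsCyclic.card_pow_eq_one_le two_pos)
      rw [Finset.card_insert_of_notMem, Finset.card_pair] at h3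
      · omega
      · simp [Subtype.ext_iff, hab]
      · have e : ∀ a : G, a ≠ 1 → (1 : G) ≠ g⁻¹ * a * g := fun a ha he => ha (by
          calc a = g * (g⁻¹ * a * g) * g⁻¹ := by group
            _ = 1 := by rw [← he]; group)
        simp [Subtype.ext_iff, e a ha1, e b hb1]
    -- a central involution of `P` in `U`
    obtain ⟨z, hzU, hz1, hzP⟩ : ∃ z ∈ U, z ≠ 1 ∧ ∀ s ∈ (P : Subgroup G), s * z = z * s := by
      haveI : (U.subgroupOf (P : Subgroup G)).Normal := Subgroup.normal_subgroupOf_of_le_normalizer hUn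
      have hne : U.subgroupOf (P : Subgroup G) ≠ ⊥ := by
        rw [Ne, Subgroup.subgroupOf_eq_bot, disjoint_iff, inf_eq_left.mpr hUP]
        intro h
        rw [h] at hu
        exact hu1 (Subgroup.mem_bot.mp hu)
      obtain ⟨⟨w, hwP⟩, hw, hw1⟩ := (Subgroup.bot_or_exists_ne_one _).resolve_left
        (CfsgLib.PGroup.inf_center_ne_bot P.isPGroup' _ hne)
      exact ⟨w, hw.1, fun h => hw1 (Subtype.ext h), fun s hs =>
        congrArg Subtype.val (Subgroup.mem_center_iff.mp hw.2 ⟨s, hs⟩)⟩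
    by_cases huz : u = z
    · subst huz
      exact le_pCoreOf_of_normal hU4 P hUn hu hu1
        (fun s hs => Subgroup.mem_centralizer_singleton_iff.mpr (hzP s hs)) hchar
    have hcases := four_cases hU4 hzU hu hz1 hu1 (Ne.symm huz)
    set P₀ := (P : Subgroup G) ⊓ C with hP₀
    have hP₀U : U ≤ P₀ := fun w hw =>
      ⟨hUP hw, Subgroup.mem_centralizer_singleton_iff.mpr (hUc w hw u hu)⟩
    have hP₀c : ∀ s ∈ P₀, ∀ w ∈ U, s * w = w * s := by
      rintro s ⟨hsP, hsC⟩ w hw
      have h1 : Commute s z := hzP s hsP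
      have h2' : Commute s u := Subgroup.mem_centralizer_singleton_iff.mp hsC
      rcases hcases w hw with rfl | rfl | rfl | rfl
      exacts [Commute.one_right s, h1, h2', h1.mul_right h2']
    have hidx : Nat.card ↥(P : Subgroup G) ≤ 2 * Nat.card ↥P₀ := by
      by_cases hall : (P : Subgroup G) ≤ C
      · rw [hP₀, inf_eq_left.mpr hall]; omega
      obtain ⟨q, hq, hqC⟩ := SetLike.not_le_iff_exists.mp hall
      have hmove : ∀ e ∈ (P : Subgroup G), e ∉ C → e * u * e⁻¹ = z * u := by
        intro e he heC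
        have h1 : e * z * e⁻¹ = z := mul_inv_eq_iff_eq_mul.mpr (hzP e he)
        rcases hcases _ ((Subgroup.mem_normalizer_iff.mp (hUn he) u).mp hu) with h | h | h | h
        · exact absurd (conj_eq_one_iff.mp h) hu1
        · exact absurd ((MulAut.conj e).injective (h.trans h1.symm)) huz
        · exact absurd (Subgroup.mem_centralizer_singleton_iff.mpr (mul_inv_eq_iff_eq_mul.mp h)) heC
        · exact h
      have hsub : ((P : Subgroup G) : Set G) ⊆ (P₀ : Set G) ∪ (fun e => q * e) '' (P₀ : Set G) := by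
        intro e he
        by_cases heC : e ∈ C
        · exact Or.inl ⟨he, heC⟩
        refine Or.inr ⟨q⁻¹ * e, Subgroup.mem_inf.mpr ⟨mul_mem (inv_mem hq) he, ?_⟩, by group⟩
        refine Subgroup.mem_centralizer_singleton_iff.mpr (mul_inv_eq_iff_eq_mul.mp ?_)
        calc q⁻¹ * e * u * (q⁻¹ * e)⁻¹ = q⁻¹ * (e * u * e⁻¹) * q := by group
          _ = q⁻¹ * (q * u * q⁻¹) * q := by rw [hmove e he heC, hmove q hq hqC]
          _ = u := by group
      have h1 := (Set.ncard_le_ncard hsub (Set.toFinite _)).trans (Set.ncard_union_le _ _)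
      have h2' := Set.ncard_image_le (s := (P₀ : Set G)) (f := fun e => q * e) (Set.toFinite _)
      simp only [← Nat.card_coe_set_eq, SetLike.coe_sort_coe] at h1 h2'
      omega
    -- a Sylow subgroup of `C` above `P₀`
    have hP₀p : IsPGroup 2 ↥(P₀.subgroupOf C) :=
      (P.isPGroup'.to_le inf_le_left).comap_of_injective C.subtype C.subtype_injective
    obtain ⟨R', hR'⟩ := hP₀p.exists_le_sylow
    set R := (R' : Subgroup ↥C).map C.subtype with hR
    have hRC : R ≤ C := Subgroup.map_subtype_le _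
    have hP₀R : P₀ ≤ R := fun s hs => ⟨⟨s, hs.2⟩, hR' (show (⟨s, hs.2⟩ : ↥C) ∈ P₀.subgroupOf C from hs), rfl⟩
    have hOR : Cfsg.pCoreOf 2 C ≤ R := Subgroup.map_mono (CfsgLib.CharP.pCore_le_sylow R')
    by_cases hReq : Nat.card ↥R ≤ Nat.card ↥P₀
    · exact hcen R (fun w hw => Subgroup.mem_centralizer_iff.mpr fun s hs =>
        hP₀c s (Subgroup.eq_of_le_of_card_ge hP₀R hReq ▸ hs) w hw) hOR
    obtain ⟨Q, hQ⟩ := (R'.isPGroup'.map C.subtype).exists_le_sylow
    have hRQ : R = (Q : Subgroup G) := by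
      refine Subgroup.eq_of_le_of_card_ge hQ ?_
      have hd := Subgroup.card_dvd_of_le hP₀R
      have hQP : Nat.card ↥(Q : Subgroup G) = Nat.card ↥(P : Subgroup G) := by
        rw [Q.card_eq_multiplicity, P.card_eq_multiplicity]
      obtain ⟨k, hk⟩ := hd
      rcases k with _ | _ | k
      · have := Nat.card_pos (α := ↥R); omega
      · omega
      · rw [hQP, hk]; nlinarith
    have hQC : (Q : Subgroup G) ≤ C := hRQ ▸ hRC
    have hP₀Q : P₀ ≤ (Q : Subgroup G) := hRQ ▸ hP₀R
    have hUQ : U ≤ (Q : Subgroup G) := hP₀U.trans hP₀Q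
    -- `U` is normal in `Q`
    have hQn : (Q : Subgroup G) ≤ Subgroup.normalizer (U : Set G) := by
      haveI hn : (P₀.subgroupOf (Q : Subgroup G)).Normal := by
        rcases eq_or_ne (P₀.subgroupOf (Q : Subgroup G)) ⊤ with h | h
        · rw [h]; infer_instance
        refine Subgroup.normal_of_index_eq_two ?_
        have hpos : 1 < (P₀.subgroupOf (Q : Subgroup G)).index :=
          Subgroup.one_lt_index_of_ne_top h
        have hmul := (P₀.subgroupOf (Q : Subgroup G)).index_mul_card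
        rw [Nat.card_congr (Subgroup.subgroupOfEquivOfLe hP₀Q).toEquiv,
          show Nat.card ↥(Q : Subgroup G) = Nat.card ↥(P : Subgroup G) by
            rw [Q.card_eq_multiplicity, P.card_eq_multiplicity]] at hmul
        have hp0 := Nat.card_pos (α := ↥P₀)
        nlinarith
      have hnorm : ∀ q ∈ (Q : Subgroup G), ∀ s ∈ P₀, q * s * q⁻¹ ∈ P₀ := fun q hq s hs =>
        hn.conj_mem (⟨s, hP₀Q hs⟩ : ↥(Q : Subgroup G)) hs ⟨q, hq⟩
      have hzQ : ∀ q ∈ (Q : Subgroup G), q * z * q⁻¹ ∈ U := by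
        intro q hq
        by_cases hq₀ : q ∈ P₀
        · rw [hP₀c q hq₀ z hzU]; simpa using hzU
        have hzP₀ := hP₀U hzU
        have hqz := hnorm q hq z hzP₀
        have hc1 : ∀ s ∈ P₀, s * (q * z * q⁻¹) = q * z * q⁻¹ * s := by
          intro s hs
          have h1 := hP₀c _ (hnorm q⁻¹ (inv_mem hq) s hs) z hzU
          calc s * (q * z * q⁻¹) = q * ((q⁻¹ * s * q⁻¹⁻¹) * z) * q⁻¹ := by group
            _ = q * (z * (q⁻¹ * s * q⁻¹⁻¹)) * q⁻¹ := by rw [h1]
            _ = q * z * q⁻¹ * s := by group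
        set x := q * z * q⁻¹ * z with hx
        have hxP₀ : x ∈ P₀ := mul_mem hqz hzP₀
        have hxc : ∀ s ∈ P₀, s * x = x * s := fun s hs =>
          (Commute.mul_right (hc1 s hs) (hP₀c s hs z hzU)).eq
        have hq2 : q * q ∈ P₀ := by
          have h2' : (P₀.subgroupOf (Q : Subgroup G)).index = 2 := by
            have hne : P₀.subgroupOf (Q : Subgroup G) ≠ ⊤ := fun h => hq₀
              (show (⟨q, hq⟩ : ↥(Q : Subgroup G)) ∈ P₀.subgroupOf (Q : Subgroup G) from h ▸ Subgroup.mem_top _)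
            have hpos := Subgroup.one_lt_index_of_ne_top hne
            have hmul := (P₀.subgroupOf (Q : Subgroup G)).index_mul_card
            rw [Nat.card_congr (Subgroup.subgroupOfEquivOfLe hP₀Q).toEquiv,
              show Nat.card ↥(Q : Subgroup G) = Nat.card ↥(P : Subgroup G) by
                rw [Q.card_eq_multiplicity, P.card_eq_multiplicity]] at hmul
            have hp0 := Nat.card_pos (α := ↥P₀)
            nlinarith
          exact Subgroup.mul_self_mem_of_index_two h2' ⟨q, hq⟩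
        have hqx : q * x = x * q := by
          refine mul_inv_eq_iff_eq_mul.mp ?_
          calc q * x * q⁻¹ = (q * q * z * (q * q)⁻¹) * (q * z * q⁻¹) := by rw [hx]; group
            _ = z * (q * z * q⁻¹) := by rw [hP₀c _ hq2 z hzU]; group
            _ = x := by rw [hx, hc1 z hzP₀]
        have hxQ : ∀ t ∈ (Q : Subgroup G), t * x = x * t := by
          intro t ht
          by_cases ht₀ : t ∈ P₀
          · exact hxc t ht₀
          have h2' : (P₀.subgroupOf (Q : Subgroup G)).index = 2 := by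
            have hne : P₀.subgroupOf (Q : Subgroup G) ≠ ⊤ := fun h => hq₀
              (show (⟨q, hq⟩ : ↥(Q : Subgroup G)) ∈ P₀.subgroupOf (Q : Subgroup G) from h ▸ Subgroup.mem_top _)
            have hpos := Subgroup.one_lt_index_of_ne_top hne
            have hmul := (P₀.subgroupOf (Q : Subgroup G)).index_mul_card
            rw [Nat.card_congr (Subgroup.subgroupOfEquivOfLe hP₀Q).toEquiv,
              show Nat.card ↥(Q : Subgroup G) = Nat.card ↥(P : Subgroup G) by
                rw [Q.card_eq_multiplicity, P.card_eq_multiplicity]] at hmul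
            have hp0 := Nat.card_pos (α := ↥P₀)
            nlinarith
          have hmem : q⁻¹ * t ∈ P₀ :=
            (Subgroup.mul_mem_iff_of_index_two h2' (a := (⟨q⁻¹, inv_mem hq⟩ : ↥(Q : Subgroup G)))
              (b := ⟨t, ht⟩)).mpr ⟨fun h => absurd (by simpa using inv_mem (show q⁻¹ ∈ P₀ from h)) hq₀,
                fun h => absurd h ht₀⟩
          have h := (Commute.mul_left (show Commute q x from hqx) (show Commute (q⁻¹ * t) x from hxc _ hmem)).eq
          simpa [← mul_assoc] using h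
        have hx2 : x * x = 1 := by
          calc x * x = q * z * q⁻¹ * (z * (q * z * q⁻¹)) * z := by rw [hx]; group
            _ = (q * (z * z) * q⁻¹) * (z * z) := by rw [hc1 z hzP₀]; group
            _ = 1 := by rw [hsq z hzU]; group
        have hxU : x ∈ U := by
          by_cases hx1 : x = 1
          · rw [hx1]; exact one_mem U
          rw [huniq Q x u (hP₀Q hxP₀) (hUQ hu) hxQ
            (fun s hs => Subgroup.mem_centralizer_singleton_iff.mp (hQC hs)) hx2 (hsq u hu) hx1 hu1]
          exact hu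
        have := mul_mem hxU hzU
        rwa [hx, mul_assoc, hsq z hzU, mul_one] at this
      intro q hq
      have hclosed : ∀ q ∈ (Q : Subgroup G), ∀ w ∈ U, q * w * q⁻¹ ∈ U := by
        intro q hq w hw
        have hqu : q * u * q⁻¹ = u :=
          mul_inv_eq_iff_eq_mul.mpr (Subgroup.mem_centralizer_singleton_iff.mp (hQC hq))
        rcases hcases w hw with rfl | rfl | rfl | rfl
        · simp
        · exact hzQ q hq
        · rw [hqu]; exact hu
        · rw [show q * (z * u) * q⁻¹ = (q * z * q⁻¹) * (q * u * q⁻¹) by group, hqu]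
          exact mul_mem (hzQ q hq) hu
      rw [Subgroup.mem_normalizer_iff]
      exact fun w => ⟨hclosed q hq w, fun h => by simpa [mul_assoc] using hclosed q⁻¹ (inv_mem hq) _ h⟩
    exact le_pCoreOf_of_normal hU4 Q hQn hu hu1 hQC hchar
  -- generation
  have hcop : (Nat.card ↥U).Coprime (Nat.card ↥K) := by
    rw [hU4.card_four, show (4 : ℕ) = 2 ^ 2 from rfl]
    exact (Nat.coprime_two_left.mpr hK).pow_left 2
  suffices h : K ≤ K ⊓ Subgroup.centralizer (U : Set G) from
    Subgroup.le_centralizer_iff.mp (h.trans inf_le_right)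
  refine CfsgLib.Coprime.le_of_centralizers hU4.isMulCommutative hnc hUK hcop fun u hu hu1 => ?_
  rintro k ⟨hkK, hkC⟩
  refine ⟨hkK, Subgroup.mem_centralizer_iff.mpr fun w hw => ?_⟩
  have hwO := key u hu hu1 hw
  have h1 : k * w⁻¹ * k⁻¹ ∈ Cfsg.pCoreOf 2 (Subgroup.centralizer ({u} : Set G)) :=
    (Subgroup.mem_normalizer_iff.mp (le_normalizer_pCoreOf _ hkC) w⁻¹).mp (inv_mem hwO)
  have hO : w * k * w⁻¹ * k⁻¹ ∈ Cfsg.pCoreOf 2 (Subgroup.centralizer ({u} : Set G)) := by
    simpa [mul_assoc] using mul_mem hwO h1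
  have hKm : w * k * w⁻¹ * k⁻¹ ∈ K :=
    mul_mem ((Subgroup.mem_normalizer_iff.mp (hUK hw) k).mp hkK) (inv_mem hkK)
  have hodd : (orderOf (w * k * w⁻¹ * k⁻¹)).Coprime 2 :=
    Nat.coprime_two_right.mpr (hK.of_dvd_nat (Subgroup.orderOf_dvd_natCard K hKm))
  have h1' := CfsgLib.LocalP.eq_one_of_mem_of_coprime (isPGroup_pCoreOf _) hO hodd
  exact mul_inv_eq_iff_eq_mul.mp (mul_inv_eq_one.mp h1')

end Cfsg.Agent.S1957
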