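import Cfsg.Statements.S1958
import Cfsg.Agent.Constrained.Local

set_option autoImplicit false
open Cfsg

namespace Cfsg.Agent.S1958

/-- Let `G` be a finite group, `p` a prime, and `x, y` commuting elements of order `p` whose centralizers `C_G(x)` and `C_G(y)` are both solvable. Then `O_{p'}(C_G(x)) ∩ C_G(y) = O_{p'}(C_G(y)) ∩ C_G(x)` (balance). -/
theorem result {G : Type*} [Group G] [Finite G]
    (p : ℕ) [Fact p.Prime] (x y : G) (hx : orderOf x = p) (hy : orderOf y = p) (hxy : x * y = y * x)
    (hCx : Group.IsSolvable ↥(Subgroup.centralizer ({x} : Set G))) (hCy : Group.IsSolvable ↥(Subgroup.centralizer ({y} : Set G))) :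
    Cfsg.centralizerPPrimeCore p x ⊓ Subgroup.centralizer {y} = Cfsg.centralizerPPrimeCore p y ⊓ Subgroup.centralizer {x} := by
  suffices key : ∀ a b : G, orderOf a = p → a * b = b * a →
      Group.IsSolvable ↥(Subgroup.centralizer ({b} : Set G)) →
      Cfsg.centralizerPPrimeCore p a ⊓ Subgroup.centralizer {b} ≤ Cfsg.centralizerPPrimeCore p b by
    exact le_antisymm (le_inf (key x y hx hxy hCy) (inf_le_left.trans (Subgroup.map_subtype_le _)))
      (le_inf (key y x hy hxy.symm hCx) (inf_le_left.trans (Subgroup.map_subtype_le _)))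
  intro a b ha hab hCb
  haveI := hCb
  set H := Subgroup.centralizer ({b} : Set G) with hH
  have haH : a ∈ H := Subgroup.mem_centralizer_singleton_iff.mpr hab
  intro z hz
  obtain ⟨hz1, hz2⟩ := hz
  set Q := (Cfsg.centralizerPPrimeCore p a).subgroupOf H with hQdef
  set P := Subgroup.zpowers (⟨a, haH⟩ : H) with hPdef
  have hP : IsPGroup p ↥P := IsPGroup.of_card (n := 1) (by
    rw [Nat.card_zpowers, ← Subgroup.orderOf_coe, pow_one]
    exact ha)
  have hQ : ¬ p ∣ Nat.card ↥Q := by
    intro hd
    refine CfsgLib.Constrained.pPrimeCore_not_dvd (G := ↥(Subgroup.centralizer ({a} : Set G)))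
      (hd.trans ?_)
    rw [← CfsgLib.Constrained.card_map_of_injective H.subtype H.subtype_injective,
      Subgroup.subgroupOf_map_subtype]
    exact (Subgroup.card_dvd_of_le inf_le_left).trans (CfsgLib.Constrained.card_map_dvd_card _ _)
  have hQP : Q ≤ Subgroup.centralizer (P : Set H) := by
    intro w hw
    rw [hPdef, Subgroup.zpowers_eq_closure, Subgroup.centralizer_closure,
      Subgroup.mem_centralizer_singleton_iff]
    apply Subtype.ext
    exact Subgroup.mem_centralizer_singleton_iff.mp (Subgroup.map_subtype_le _ hw)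
  have hnorm : Subgroup.centralizer (P : Set H) ≤ Subgroup.normalizer (Q : Set H) := by
    intro h hh
    rw [hPdef, Subgroup.zpowers_eq_closure, Subgroup.centralizer_closure,
      Subgroup.mem_centralizer_singleton_iff] at hh
    have hha : (h : G) ∈ Subgroup.centralizer ({a} : Set G) :=
      Subgroup.mem_centralizer_singleton_iff.mpr (congrArg Subtype.val hh)
    have hn : (h : G) ∈ Subgroup.normalizer (Cfsg.centralizerPPrimeCore p a : Set G) :=
      Subgroup.le_normalizer_map _ ⟨⟨h, hha⟩, Subgroup.le_normalizer_of_normal (K := ⊤)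
        (Subgroup.mem_top _), rfl⟩
    rw [Subgroup.mem_normalizer_iff] at hn ⊢
    exact fun w => hn w
  have hmem := CfsgLib.Constrained.le_pPrimeCore_of_centralizes_of_normalized
    (CfsgLib.Constrained.centralizer_pCore_quotient_le
      CfsgLib.Constrained.isPSolvable_of_isSolvable) hP hQ hQP hnorm
    (show (⟨z, hz2⟩ : H) ∈ Q from hz1)
  exact ⟨⟨z, hz2⟩, hmem, rfl⟩

end Cfsg.Agent.S1958
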