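import Cfsg.Statements.S1966
import Cfsg.Agent.ConjFunctor.Basic

set_option autoImplicit false
open Cfsg

namespace Cfsg.Agent.S1966

/-- Let p be a prime, G a finite group with Sylow p-subgroup S and 𝓕 a conjugation family for S in G. Then the members of 𝓕 containing O_p(G) still form a conjugation family for S in G. -/
theorem result {G : Type*} [Group G] [Finite G] {p : ℕ} [Fact p.Prime] (S : Sylow p G) (𝓕 : Set (Subgroup G)) (h : Cfsg.IsConjugationFamily 𝓕 (S : Subgroup G)) : Cfsg.IsConjugationFamily {T : Subgroup G | T ∈ 𝓕 ∧ Cfsg.pCore p G ≤ T} (S : Subgroup G) := by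
  refine ⟨fun T hT => h.1 T hT.1, fun A g hne hA hg => ?_⟩
  have hQn := CfsgLib.ConjFunctor.pCore_normal (G := G) p
  have hQS := CfsgLib.ConjFunctor.pCore_le_sylow S
  obtain ⟨n, T, x, hprod, hT, hx, h0, hstep⟩ := h.2 (A ∪ (Cfsg.pCore p G : Set G)) g hne.inl
    (Set.union_subset hA hQS) (by
      rw [Set.image_union]
      refine Set.union_subset hg ?_
      rintro _ ⟨q, hq, rfl⟩
      exact hQS (by simpa using hQn.conj_mem q hq g⁻¹))
  refine ⟨n, T, x, hprod, fun i => ⟨hT i, fun q hq => ?_⟩, hx, fun h => Set.subset_union_left.trans (h0 h), fun i hi => (Set.image_mono Set.subset_union_left).trans (hstep i hi)⟩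
  rcases i with ⟨_ | j, hj⟩
  · exact h0 hj (Or.inr hq)
  · set y := ((List.ofFn x).take (j + 1)).prod with hy
    exact hstep ⟨j, Nat.lt_of_succ_lt hj⟩ hj ⟨y * q * y⁻¹, Or.inr (hQn.conj_mem q hq y), by simp [← hy, mul_assoc]⟩

end Cfsg.Agent.S1966
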