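import Cfsg.Statements.S1967
import Cfsg.Agent.ConjFunctor.Basic

set_option autoImplicit false
open Cfsg

namespace Cfsg.Agent.S1967

/-- Let p be a prime, G a finite group with Sylow p-subgroup S and W a conjugacy functor for p on G. Then W controls strong fusion in G if and only if, whenever T ≤ S and g ∈ G satisfy gTg⁻¹ ≤ S, one can write g = n c with n ∈ N_G(W(S)) and c ∈ C_G(T). -/
theorem result {G : Type*} [Group G] [Finite G] {p : ℕ} [Fact p.Prime] (S : Sylow p G) (W : Subgroup G → Subgroup G) (hW : Cfsg.IsConjugacyFunctor p W) : Cfsg.ControlsStrongFusionIn p W ⊤ ↔ ∀ (T : Subgroup G) (g : G), T ≤ (S : Subgroup G) → T.map (MulAut.conj g).toMonoidHom ≤ (S : Subgroup G) → ∃ n ∈ Subgroup.normalizer ((W (S : Subgroup G) : Subgroup G) : Set G), ∃ c ∈ Subgroup.centralizer (T : Set G), g = n * c := by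
  open CfsgLib.ConjFunctor in
  constructor
  · rintro ⟨T0, -, hp0, hidx, h⟩ T g hTS hgT
    rw [Subgroup.relIndex_top_right] at hidx
    obtain ⟨k, hk⟩ := exists_conjOf_eq hp0 hidx S
    have hA : ∀ t ∈ T, k⁻¹ * t * k ∈ T0 := fun t ht => mem_conjOf.mp (hk ▸ hTS ht)
    obtain ⟨x, hx, hxa⟩ := h {a : G | k * a * k⁻¹ ∈ T} (k⁻¹ * g * k) trivial
      (fun a ha => by simpa [mul_assoc] using hA _ ha) (by
        rintro _ ⟨a, ha, rfl⟩
        have h1 : g * (k * a * k⁻¹) * g⁻¹ ∈ (S : Subgroup G) := hgT (conj_mem_conjOf ha)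
        rw [← hk, mem_conjOf] at h1
        simpa [mul_assoc] using h1)
    refine ⟨k * x * k⁻¹, ?_, (k * x * k⁻¹)⁻¹ * g, ?_, by group⟩
    · rw [← hk, conjugacyFunctor_conjOf hW hp0, mem_normalizer_conjOf]
      simpa [mul_assoc] using hx.2
    · intro t ht
      have h1 := hxa (k⁻¹ * t * k) (show k * (k⁻¹ * t * k) * k⁻¹ ∈ T by simpa [mul_assoc] using ht)
      have h2 : (k * x * k⁻¹) * t * (k * x * k⁻¹)⁻¹ = g * t * g⁻¹ := by
        calc (k * x * k⁻¹) * t * (k * x * k⁻¹)⁻¹ = k * (x * (k⁻¹ * t * k) * x⁻¹) * k⁻¹ := by group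
          _ = k * (k⁻¹ * g * k * (k⁻¹ * t * k) * (k⁻¹ * g * k)⁻¹) * k⁻¹ := by rw [h1]
          _ = g * t * g⁻¹ := by group
      show t * ((k * x * k⁻¹)⁻¹ * g) = (k * x * k⁻¹)⁻¹ * g * t
      calc t * ((k * x * k⁻¹)⁻¹ * g) = (k * x * k⁻¹)⁻¹ * ((k * x * k⁻¹) * t * (k * x * k⁻¹)⁻¹) * g := by group
        _ = (k * x * k⁻¹)⁻¹ * (g * t * g⁻¹) * g := by rw [h2]
        _ = (k * x * k⁻¹)⁻¹ * g * t := by group
  · intro h
    refine ⟨S, le_top, S.2, by rw [Subgroup.relIndex_top_right]; exact S.not_dvd_index, fun A g _ hA hgA => ?_⟩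
    obtain ⟨n, hn, c, hc, rfl⟩ := h (Subgroup.closure A) g ((Subgroup.closure_le _).mpr hA) (by
      rw [MonoidHom.map_closure]
      refine (Subgroup.closure_le _).mpr ?_
      rintro _ ⟨a, ha, rfl⟩
      exact hgA ⟨a, ha, by simp⟩)
    refine ⟨n, ⟨trivial, hn⟩, fun a ha => ?_⟩
    have hca : a * c = c * a := hc a (Subgroup.subset_closure ha)
    calc n * a * n⁻¹ = n * (a * c) * c⁻¹ * n⁻¹ := by group
      _ = n * (c * a) * c⁻¹ * n⁻¹ := by rw [hca]
      _ = n * c * a * (n * c)⁻¹ := by group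

end Cfsg.Agent.S1967
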