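import Cfsg.Statements.S1968
import Cfsg.Agent.ConjFunctor.WeakClosure

set_option autoImplicit false
open Cfsg

namespace Cfsg.Agent.S1968

/-- Let p be a prime, G a finite group with Sylow p-subgroup S and W a conjugacy functor for p on G with Z(P) ≤ W(P) for every p-subgroup P. Let A be a subgroup of Z(S) normalized by N_G(W(S)) that is not weakly closed in S with respect to G. Then there is a subgroup T of S, well placed in S with respect to W, such that: A ≤ T; N_G(W(N_S(T))) normalizes A; N_S(T) is a Sylow p-subgroup of N_G(T); A ≤ Z(N_S(T)); and A is not weakly closed in N_S(T) with respect to N_G(T), that is, some N_G(T)-conjugate of A other than A lies in N_S(T). -/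
theorem result {G : Type*} [Group G] [Finite G] {p : ℕ} [Fact p.Prime] (S : Sylow p G) (W : Subgroup G → Subgroup G) (hW : Cfsg.IsConjugacyFunctor p W) (hWZ : ∀ P : Subgroup G, IsPGroup p ↥P → P ⊓ Subgroup.centralizer (P : Set G) ≤ W P) (A : Subgroup G) (hAZ : A ≤ (S : Subgroup G) ⊓ Subgroup.centralizer ((S : Subgroup G) : Set G)) (hAN : Subgroup.normalizer ((W (S : Subgroup G) : Subgroup G) : Set G) ≤ Subgroup.normalizer ((A : Subgroup G) : Set G)) (hnwc : ¬ Cfsg.IsWeaklyClosed A (S : Subgroup G)) : ∃ T : Subgroup G, Cfsg.IsWellPlaced p W (S : Subgroup G) T ∧ A ≤ T ∧ Subgroup.normalizer ((W ((S : Subgroup G) ⊓ Subgroup.normalizer ((T : Subgroup G) : Set G)) : Subgroup G) : Set G) ≤ Subgroup.normalizer ((A : Subgroup G) : Set G) ∧ ¬ p ∣ ((S : Subgroup G) ⊓ Subgroup.normalizer ((T : Subgroup G) : Set G)).relIndex (Subgroup.normalizer ((T : Subgroup G) : Set G)) ∧ A ≤ Subgroup.centralizer (((S : Subgroup G) ⊓ Subgroup.normalizer ((T : Subgroup G) : Set G)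 : Subgroup G) : Set G) ∧ ∃ g ∈ Subgroup.normalizer ((T : Subgroup G) : Set G), A.map (MulAut.conj g).toMonoidHom ≤ (S : Subgroup G) ⊓ Subgroup.normalizer ((T : Subgroup G) : Set G) ∧ A.map (MulAut.conj g).toMonoidHom ≠ A := by
  open CfsgLib.ConjFunctor in
  have hA : CentralIn (A : Set G) (S : Subgroup G) := ⟨fun a ha => (hAZ ha).1, fun a ha => (hAZ ha).2⟩
  have hAS : A ≤ (S : Subgroup G) := hAZ.trans inf_le_left
  obtain ⟨g, hgS, hgA⟩ : ∃ g : G, A.map (MulAut.conj g).toMonoidHom ≤ (S : Subgroup G) ∧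
      A.map (MulAut.conj g).toMonoidHom ≠ A := by
    by_contra h
    push Not at h
    exact hnwc ⟨hAS, h⟩
  open CfsgLib.ConjFunctor in
  obtain ⟨U, hU, hmax, -⟩ := exists_mover S hW hWZ hA hAN (g := g) (fun a ha => hgS (conj_mem_conjOf ha))
    (fun h => hgA (Subgroup.mem_normalizer_iff_map_conj_eq.mp h))
  open CfsgLib.ConjFunctor in
  obtain ⟨g1, hwp⟩ := exists_wellPlaced hW S hU.1.1
  open CfsgLib.ConjFunctor in
  obtain ⟨k, hk, hkR⟩ := exists_conj_to_fullyNormalized S (wellPlaced_fullyNormalized hwp) ⟨g1, rfl⟩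
    (Q := (S : Subgroup G) ⊓ Subgroup.normalizer (U : Set G)) inf_le_right (isPGroup_inf _)
  rw [← hk] at hwp
  open CfsgLib.ConjFunctor in
  have hkA : k ∈ Subgroup.normalizer (A : Set G) := mem_normalizer_of_threshold S hW hA hAN hmax ((S : Subgroup G) ⊓ Subgroup.normalizer (U : Set G)) k
    (fun a ha => ⟨hAS ha, Subgroup.le_normalizer (hU.2.1 ha)⟩) inf_le_left hkR le_rfl
  set T := CfsgLib.ConjFunctor.conjOf k U with hT
  have hAT : A ≤ T := fun a ha =>
    CfsgLib.ConjFunctor.mem_conjOf.mpr (hU.2.1 ((Subgroup.mem_set_normalizer_iff''.mp hkA a).mp ha))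
  have hRT : Nat.card ↥((S : Subgroup G) ⊓ Subgroup.normalizer (U : Set G)) ≤
      Nat.card ↥((S : Subgroup G) ⊓ Subgroup.normalizer (T : Set G)) := by
    rw [← CfsgLib.ConjFunctor.card_conjOf k ((S : Subgroup G) ⊓ Subgroup.normalizer (U : Set G))]
    exact Subgroup.card_le_of_le (le_inf hkR (by
      rw [hT, CfsgLib.ConjFunctor.normalizer_conjOf]; exact CfsgLib.ConjFunctor.conjOf_mono inf_le_right))
  obtain ⟨y, hy, hyA⟩ := SetLike.not_le_iff_exists.mp hU.2.2
  have hyT : k * y * k⁻¹ ∈ Subgroup.normalizer (T : Set G) := by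
    rw [hT, CfsgLib.ConjFunctor.normalizer_conjOf]; exact CfsgLib.ConjFunctor.conj_mem_conjOf hy
  refine ⟨T, hwp, hAT, CfsgLib.ConjFunctor.threshold_functor S hW hWZ hA hAN hmax hAT hRT, hwp.2 0,
    fun a ha b hb => (hAZ ha).2 b hb.1, k * y * k⁻¹, hyT, ?_, fun h => hyA ?_⟩
  · refine le_trans ?_ (le_inf hwp.1 Subgroup.le_normalizer)
    rw [← Subgroup.mem_normalizer_iff_map_conj_eq.mp hyT]
    exact Subgroup.map_mono hAT
  · have h1 := mul_mem (mul_mem (inv_mem hkA) (Subgroup.mem_normalizer_iff_map_conj_eq.mpr h)) hkA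
    simpa [mul_assoc] using h1

end Cfsg.Agent.S1968
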