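import Cfsg.Statements.S1981
import Cfsg.Agent.ConjFunctor.KInf

set_option autoImplicit false
open Cfsg

namespace Cfsg.Agent.S1981

/-- Let P be a finite p-group generated by its abelian normal subgroups. Then both K-infinity subgroups of P equal P. -/
theorem result {P : Type*} [Group P] [Finite P] {p : ℕ} [Fact p.Prime] (hP : IsPGroup p P) (hgen : ⨆ A ∈ {A : Subgroup P | A.Normal ∧ IsMulCommutative ↥A}, A = ⊤) : Cfsg.kInfLower P = ⊤ ∧ Cfsg.kInfUpper P = ⊤ := by
  refine ⟨top_le_iff.mp (hgen ▸ iSup₂_le fun A hA => ?_), top_le_iff.mp (hgen ▸ iSup₂_le fun A hA => ?_)⟩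
  · haveI := hA.1
    exact (CfsgLib.ConjFunctor.normal_abelian_le_kSeqEven A hA.2 0).trans (CfsgLib.ConjFunctor.le_kInfLower 0)
  · haveI := hA.1
    exact le_iInf fun n => CfsgLib.ConjFunctor.normal_abelian_le_kSeqOdd A hA.2 n

end Cfsg.Agent.S1981
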