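import Cfsg.Statements.S1985
import Cfsg.Agent.ConjFunctor.KInfFunctor

set_option autoImplicit false
universe u
open Cfsg

namespace Cfsg.Agent.S1985

/-- Let p be an odd prime and G a finite group. Then the lower K-infinity subgroup controls weak closure of elements in G: the lower K-infinity subgroup of every p-subgroup P of G contains Z(P), and for some (equivalently, every) Sylow p-subgroup S of G, with K the lower K-infinity subgroup of S, every element of S commuting with all of N_G(K) is weakly closed in S with respect to G (every G-conjugate of it lying in S equals it). -/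
theorem result {G : Type u} [Group G] [Finite G] {p : ℕ} [Fact p.Prime] (hp : p ≠ 2) : Cfsg.ControlsWeakClosureOfElementsIn p (Cfsg.inducedFunctor (G := G) Cfsg.kInfLower) ⊤ := by
  open CfsgLib.ConjFunctor in
  refine ⟨inducedFunctor_kInfLower_centre, ?_⟩
  obtain ⟨S⟩ : Nonempty (Sylow p G) := inferInstance
  refine ⟨S, le_top, S.2, by rw [Subgroup.relIndex_top_right]; exact S.not_dvd_index, fun x hx g _ hg => ?_⟩
  rw [top_inf_eq] at hx
  exact CfsgLib.ConjFunctor.conj_eq_of_engel S
    (CfsgLib.ConjFunctor.isConjugacyFunctor_inducedFunctor CfsgLib.ConjFunctor.isCharPFunctor_kInfLower)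
    CfsgLib.ConjFunctor.inducedFunctor_kInfLower_centre
    (CfsgLib.ConjFunctor.exists_engel_kInfLower hp) hx.1 hx.2 hg

end Cfsg.Agent.S1985
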