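import Cfsg.Statements.S1986
import Cfsg.Agent.ConjFunctor.KInfFunctor

set_option autoImplicit false
universe u
open Cfsg

namespace Cfsg.Agent.S1986

/-- Let p be a prime, G a finite group with Sylow p-subgroup S, K the lower K-infinity subgroup of S, and Z the subgroup of p-th powers of elements of Z(S). Then every element of Z commuting with all of N_G(K) is weakly closed in S with respect to G, and every subgroup of Z that is normal in N_G(K) is weakly closed in S with respect to G. -/
theorem result {G : Type u} [Group G] [Finite G] {p : ℕ} [Fact p.Prime] (S : Sylow p G) (Z : Subgroup G) (hZ : Z = Subgroup.closure ((fun z : G => z ^ p) '' (((S : Subgroup G) ⊓ Subgroup.centralizer (((S : Subgroup G) : Subgroup G) : Set G) : Subgroup G) : Set G))) : (∀ x ∈ Z ⊓ Subgroup.centralizer ((Subgroup.normalizer ((Cfsg.inducedFunctor Cfsg.kInfLower (S : Subgroup G) : Subgroup G) : Set G) : Subgroup G) : Set G), ∀ g : G, g * x * g⁻¹ ∈ (S : Subgroup G) → g * x * g⁻¹ = x) ∧ ∀ A : Subgroup G, A ≤ Z → Subgroup.normalizer ((Cfsg.inducedFunctor Cfsg.kInfLower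 (S : Subgroup G) : Subgroup G) : Set G) ≤ Subgroup.normalizer ((A : Subgroup G) : Set G) → Cfsg.IsWeaklyClosed A (S : Subgroup G) := by
  open CfsgLib.ConjFunctor in
  have key := fun (A : Set G) hA hAN (g : G) => mem_normalizer_of_quadratic S
    (isConjugacyFunctor_inducedFunctor (isCharPFunctor_kInfLower (p := p))) inducedFunctor_kInfLower_centre
    exists_quadratic_kInfLower hZ (A := A) hA hAN (g := g)
  refine ⟨fun x hx g hg => ?_, fun A hA hAN => ⟨?_, fun g hg => ?_⟩⟩
  · have h := key {x} (by simpa using hx.1) (fun n hn => by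
      rw [Subgroup.mem_normalizer_iff_conj_image_eq]
      simp [hx.2 n hn]) g (by simpa using hg)
    rw [Subgroup.mem_normalizer_iff_conj_image_eq] at h
    simpa using h
  · refine hA.trans ?_
    rw [hZ, Subgroup.closure_le]
    rintro _ ⟨z, hz, rfl⟩
    exact (S : Subgroup G).pow_mem hz.1 p
  · exact Subgroup.mem_normalizer_iff_map_conj_eq.mp (key (A : Set G) hA hAN g
      (fun a ha => hg (CfsgLib.ConjFunctor.conj_mem_conjOf ha)))

end Cfsg.Agent.S1986
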