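import Cfsg.Statements.S1990
import Cfsg.Agent.Constrained.MaximalSylow

set_option autoImplicit false
universe u
open Cfsg

namespace Cfsg.Agent.S1990

/-- Let p be an odd prime, G a finite group with Sylow p-subgroup S, and W an isomorphism-invariant p-group functor (W assigns to every group Q a subgroup W(Q), nontrivial whenever Q is a nontrivial finite p-group, and every isomorphism from a finite p-group Q onto a group R carries W(Q) onto W(R)). Suppose N_G(W(S)) has a normal p-complement, and W(T) controls strong fusion in every section G* = K/R of G all of whose sections are p-stable in the normalizer form, for every Sylow p-subgroup T of G*. Then G has a normal p-complement. -/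
theorem result {G : Type u} [Group G] [Finite G] {p : ℕ} [Fact p.Prime] (hp : p ≠ 2) (W : ∀ (Q : Type u) [Group Q], Subgroup Q) (hW : Cfsg.IsCharPFunctor.{u} p W) (S : Sylow p G) (hN : Cfsg.HasNormalPComplement p ↥(Subgroup.normalizer ((Cfsg.inducedFunctor (G := G) W (S : Subgroup G) : Subgroup G) : Set G))) (hctl : ∀ (K R : Subgroup G) [hR : (R.subgroupOf K).Normal], (∀ (K' R' : Subgroup (↥K ⧸ R.subgroupOf K)) [hR' : (R'.subgroupOf K').Normal], Cfsg.IsNormalizerPStable p (↥K' ⧸ R'.subgroupOf K')) → ∀ T : Sylow p (↥K ⧸ R.subgroupOf K), Cfsg.ControlsStrongFusion p (Cfsg.inducedFunctor (G := (↥K ⧸ R.subgroupOf K)) W (T : Subgroup (↥K ⧸ R.subgroupOf K)))) : Cfsg.HasNormalPComplement p G := by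
  refine CfsgLib.SectionFunctors.hasNormalPComplement_of_normalInMaximalSections W hW _ G rfl ?_ S hN
  intro K R _ hc hq T hT
  have hns := (CfsgLib.Constrained.noSL2Section_of_maximal_sylow hp hq T hT).2
  obtain ⟨T', _, hctl'⟩ := hctl K R (fun K' R' _ => CfsgLib.Constrained.isNormalizerPStable_section hns K' R') T
  set X := ↥K ⧸ R.subgroupOf K
  set U := Cfsg.inducedFunctor (G := X) W (T : Subgroup X)
  have hTN : (T : Subgroup X) ≤ Subgroup.normalizer (U : Set X) :=
    CfsgLib.SectionFunctors.le_normalizer_inducedFunctor hW T.2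
  have hQT : Cfsg.pCore p X ≤ (T : Subgroup X) := CfsgLib.ConjFunctor.pCore_le_sylow T
  have hQT' : Cfsg.pCore p X ≤ (T' : Subgroup X) := CfsgLib.ConjFunctor.pCore_le_sylow T'
  haveI := CfsgLib.ConjFunctor.pCore_normal (G := X) p
  refine Subgroup.normalizer_eq_top_iff.mp (eq_top_iff.mpr fun g _ => ?_)
  obtain ⟨x, hx, hgx⟩ := (hctl' (Cfsg.pCore p X : Set X) (fun a ha => hQT' ha)).2 g (by
    rintro _ ⟨a, ha, rfl⟩
    exact hQT' (Subgroup.Normal.conj_mem ‹_› a ha g))
  have h1 : x⁻¹ * g ∈ Subgroup.centralizer (Cfsg.pCore p X : Set X) := by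
    rw [Subgroup.mem_centralizer_iff]
    intro a ha
    have h := hgx a ha
    calc a * (x⁻¹ * g) = x⁻¹ * (x * a * x⁻¹) * g := by group
      _ = x⁻¹ * (g * a * g⁻¹) * g := by rw [h]
      _ = x⁻¹ * g * a := by group
  simpa using mul_mem hx (hTN (hQT (hc h1)))

end Cfsg.Agent.S1990
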