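import Cfsg.Statements.S1998
import Cfsg.Agent.SectionFunctors.Transfer
import Cfsg.Agent.ConjFunctor.Engel

set_option autoImplicit false
universe u
open Cfsg

namespace Cfsg.Agent.S1998

open Cfsg
open CfsgLib.ConjFunctor
open CfsgLib.SectionFunctors
open scoped commutatorElement

universe v

/-- A normal subgroup on which `G` acts trivially modulo `F` meets the derived group in `F`. -/
theorem inf_commutator_le_of_invariant {G : Type v} [Group G] [Finite G] {p : ℕ} [Fact p.Prime] (S : Sylow p G)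
    {Q F : Subgroup G} [Q.Normal] (hQS : Q ≤ (S : Subgroup G)) (hS' : ⁅(S : Subgroup G), (S : Subgroup G)⁆ ≤ F)
    (hinv : ∀ g : G, ∀ q ∈ Q, g * q * g⁻¹ * q⁻¹ ∈ F) : Q ⊓ ⁅(⊤ : Subgroup G), ⊤⁆ ≤ F := by
  intro q hq
  set F₁ := F.subgroupOf (S : Subgroup G) with hF₁
  haveI : ((F₁.map Abelianization.of) : Subgroup (Abelianization ↥(S : Subgroup G))).Normal :=
    Subgroup.normal_of_comm _
  let φ : ↥(S : Subgroup G) →* Abelianization ↥(S : Subgroup G) ⧸ F₁.map Abelianization.of :=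
    (QuotientGroup.mk' _).comp Abelianization.of
  haveI : Fintype (G ⧸ (S : Subgroup G)) := Fintype.ofFinite _
  have hker : ∀ z : ↥(S : Subgroup G), (z : G) ∈ F → φ z = 1 := fun z hz =>
    (QuotientGroup.eq_one_iff _).mpr ⟨z, hz, rfl⟩
  have hconst : ∀ x : G, ∀ hx : x⁻¹ * q * x ∈ (S : Subgroup G), φ ⟨x⁻¹ * q * x, hx⟩ = φ ⟨q, hQS hq.1⟩ := by
    intro x hx
    rw [← mul_inv_eq_one, ← map_inv, ← map_mul]
    exact hker _ (by simpa [mul_assoc] using hinv x⁻¹ q hq.1)
  have htr : MonoidHom.transfer φ q = φ ⟨q, hQS hq.1⟩ ^ (S : Subgroup G).index := by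
    rw [MonoidHom.transfer_def φ default q, Subgroup.leftTransversals.diff, Subgroup.index_eq_card,
      Nat.card_eq_fintype_card, ← Finset.card_univ, ← Finset.prod_const]
    refine Finset.prod_congr (by ext; simp) fun x _ => ?_
    set T : (S : Subgroup G).LeftTransversal := default with hT
    have hfix : q⁻¹ • x = x := by
      induction x using QuotientGroup.induction_on with
      | H g =>
        apply Quotient.sound'
        rw [QuotientGroup.leftRel_apply]
        refine hQS ?_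
        have h1 := (‹Q.Normal›).conj_mem q hq.1 g⁻¹
        simpa [mul_assoc] using h1
    have hval : ((q • T).2.leftQuotientEquiv x : G) = q * (T.2.leftQuotientEquiv x : G) := by
      rw [Subgroup.smul_apply_eq_smul_apply_inv_smul, hfix]; rfl
    have hmem : (T.2.leftQuotientEquiv x : G)⁻¹ * q * (T.2.leftQuotientEquiv x : G) ∈ (S : Subgroup G) := by
      refine hQS ?_
      have h1 := (‹Q.Normal›).conj_mem q hq.1 (T.2.leftQuotientEquiv x : G)⁻¹
      simpa [mul_assoc] using h1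
    rw [← hconst _ hmem]
    congr 1
    apply Subtype.ext
    show _⁻¹ * _ = _
    rw [hval]
    exact (mul_assoc _ _ _).symm
  have h1 : MonoidHom.transfer φ q = 1 := by
    have h := Abelianization.commutator_subset_ker (MonoidHom.transfer φ)
    rw [commutator_def] at h
    exact h hq.2
  rw [htr] at h1
  obtain ⟨m, hm⟩ := S.2 ⟨q, hQS hq.1⟩
  have h2 : φ ⟨q, hQS hq.1⟩ = 1 := orderOf_eq_one_iff.mp (Nat.eq_one_of_dvd_coprimes
    ((((Fact.out : p.Prime).coprime_iff_not_dvd).mpr S.not_dvd_index).symm.pow_right m)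
    (orderOf_dvd_of_pow_eq_one h1) (orderOf_dvd_of_pow_eq_one (by rw [← map_pow, hm, map_one])))
  have h3 : Abelianization.of (⟨q, hQS hq.1⟩ : ↥(S : Subgroup G)) ∈ F₁.map Abelianization.of :=
    (QuotientGroup.eq_one_iff _).mp h2
  obtain ⟨y, hy, hye⟩ := h3
  have h4 : y⁻¹ * ⟨q, hQS hq.1⟩ ∈ commutator ↥(S : Subgroup G) := by
    rw [← Abelianization.ker_of, MonoidHom.mem_ker, map_mul, map_inv, hye, inv_mul_cancel]
  have h5 : (y⁻¹ * ⟨q, hQS hq.1⟩ : ↥(S : Subgroup G)).1 ∈ F := by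
    apply hS'
    have h6 := Subgroup.mem_map_of_mem (S : Subgroup G).subtype h4
    rwa [commutator_def, Subgroup.map_commutator, ← MonoidHom.range_eq_map, Subgroup.range_subtype] at h6
  have h7 := F.mul_mem (show (y : G) ∈ F from hy) h5
  simpa using h7


/-- Let p be a prime, G a finite group with Sylow p-subgroup S, and 𝓦 a nonempty set of isomorphism-invariant p-group functors (W assigns to every group Q a subgroup W(Q), nontrivial whenever Q is a nontrivial finite p-group, and every isomorphism from a finite p-group Q onto a group R carries W(Q) onto W(R)). Suppose the induced conjugacy functors control transfer in every section of G other than G itself, but not in G. Let T be the subgroup generated by the S ∩ (N_G(W(S)))', W ∈ 𝓦, and M = N_G(T ∩ O_p(G)). Then: C_G(O_p(G)) ≤ O_p(G); M is a proper subgroup of G containing every proper subgroup of G that contains S (the unique maximal subgroup over S); [O_p(G), M] ≤ O_p(G) ∩ M' ≤ O_p(G) ∩ T; and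 every element u of S outside O_p(G) satisfies [X, u, …, u] ≰ Y with p − 1 entries u, for some chief factor X/Y of G with X ≤ O_p(G). -/
theorem result {G : Type u} [Group G] [Finite G] {p : ℕ} [Fact p.Prime] (S : Sylow p G) (𝓦 : Set (∀ (Q : Type u) [Group Q], Subgroup Q)) (h𝓦 : ∀ W ∈ 𝓦, Cfsg.IsCharPFunctor.{u} p W) (hne : 𝓦.Nonempty) (hsec : ∀ (K R : Subgroup G) [hR : (R.subgroupOf K).Normal], (K = ⊤ → R ≠ ⊥) → Cfsg.FamilyControlsTransferIn p ((fun W => Cfsg.inducedFunctor (G := (↥K ⧸ R.subgroupOf K)) W) '' 𝓦) ⊤) (hG : ¬ Cfsg.FamilyControlsTransferIn p ((fun W => Cfsg.inducedFunctor (G := G) W) '' 𝓦) ⊤) (T M : Subgroup G) (hT : T = (⨆ W ∈ 𝓦, (S : Subgroup G) ⊓ ⁅Subgroup.normalizer ((Cfsg.inducedFunctor (G := G) W (S : Subgroup G) : Subgroup G) : Set G), Subgroup.normalizer ((Cfsg.inducedFunctor (G := G) W (S : Subgroup G) : Subgroup G) : Set G)⁆)) (hM : M = Subgroup.normalizer ((T ⊓ Cfsg.pCore p G : Subgroup G) : Set G)) : Subgroup.centralizer ((Cfsg.pCore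 p G : Subgroup G) : Set G) ≤ Cfsg.pCore p G ∧ (M ≠ ⊤ ∧ ∀ H : Subgroup G, (S : Subgroup G) ≤ H → H ≠ ⊤ → H ≤ M) ∧ (⁅Cfsg.pCore p G, M⁆ ≤ Cfsg.pCore p G ⊓ ⁅M, M⁆ ∧ Cfsg.pCore p G ⊓ ⁅M, M⁆ ≤ Cfsg.pCore p G ⊓ T) ∧ ∀ u : G, u ∈ (S : Subgroup G) → u ∉ Cfsg.pCore p G → ∃ U V : Subgroup G, Cfsg.IsChiefFactor U V ∧ U ≤ Cfsg.pCore p G ∧ ¬ Cfsg.iterCommutator U (Subgroup.zpowers u) (p - 1) ≤ V := by
  -- set up
  have hWG : ∀ W' ∈ (fun W => inducedFunctor (G := G) W) '' 𝓦, IsConjugacyFunctor p W' := by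
    rintro _ ⟨W, hW, rfl⟩
    exact CfsgLib.SectionFunctors.isConjugacyFunctor_inducedFunctor (h𝓦 W hW)
  set Q := pCore p G with hQ
  haveI hQn : Q.Normal := CfsgLib.Constrained.instNormalPCore p
  have hQS : Q ≤ (S : Subgroup G) := CfsgLib.ConjFunctor.pCore_le_sylow S
  have hTS : T ≤ (S : Subgroup G) := by rw [hT]; exact iSup₂_le fun _ _ => inf_le_left
  have hTW : ∀ W ∈ 𝓦, (S : Subgroup G) ⊓
      ⁅Subgroup.normalizer ((inducedFunctor (G := G) W (S : Subgroup G) : Subgroup G) : Set G),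
        Subgroup.normalizer ((inducedFunctor (G := G) W (S : Subgroup G) : Subgroup G) : Set G)⁆ ≤ T := by
    intro W hW
    rw [hT]
    exact le_biSup (fun W => (S : Subgroup G) ⊓
      ⁅Subgroup.normalizer ((inducedFunctor (G := G) W (S : Subgroup G) : Subgroup G) : Set G),
        Subgroup.normalizer ((inducedFunctor (G := G) W (S : Subgroup G) : Subgroup G) : Set G)⁆) hW
  have hTG : T ≤ ⁅(⊤ : Subgroup G), ⊤⁆ := by
    rw [hT]; exact iSup₂_le fun _ _ => inf_le_right.trans (Subgroup.commutator_mono le_top le_top)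
  have hfail : ¬ (S : Subgroup G) ⊓ ⁅(⊤ : Subgroup G), ⊤⁆ ≤ T := by
    intro hle
    refine hG (CfsgLib.ConjFunctor.familyControlsTransferIn_of_at (CfsgLib.ConjFunctor.sylowIn_top S)
      (CfsgLib.SectionFunctors.TransferLe.controlledAt ?_))
    refine hle.trans ?_
    rw [hT]
    refine iSup₂_le fun W hW => ?_
    exact le_biSup (fun N => (S : Subgroup G) ⊓ ⁅N, N⁆) ⟨_, ⟨W, hW, rfl⟩, top_inf_eq _⟩
  have hsecLe : ∀ (K R : Subgroup G) [(R.subgroupOf K).Normal], (K = ⊤ → R ≠ ⊥) →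
      ∀ T' : Sylow p (↥K ⧸ R.subgroupOf K),
      TransferLe ((fun W => inducedFunctor (G := ↥K ⧸ R.subgroupOf K) W) '' 𝓦) ⊤
        (T' : Subgroup (↥K ⧸ R.subgroupOf K)) := by
    intro K R _ hKR T'
    refine le_of_eq (CfsgLib.ConjFunctor.familyControlsTransferIn_at (hsec K R hKR) ?_ (CfsgLib.ConjFunctor.sylowIn_top T'))
    rintro _ ⟨W, hW, rfl⟩
    exact CfsgLib.SectionFunctors.isConjugacyFunctor_inducedFunctor (h𝓦 W hW)
  -- constrained
  have hCQ : Subgroup.centralizer (Q : Set G) ≤ Q := by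
    by_contra hnc
    refine hG (CfsgLib.ConjFunctor.familyControlsTransferIn_of_at (CfsgLib.ConjFunctor.sylowIn_top S)
      (CfsgLib.SectionFunctors.transferLe_top_of_constrained 𝓦 h𝓦 _ G rfl ?_ S).controlledAt)
    intro K R _ hc T'
    refine hsecLe K R ?_ T'
    rintro rfl rfl
    exact hnc (centralizer_pCore_le_of_equiv
      (((QuotientGroup.quotientMulEquivOfEq (Subgroup.bot_subgroupOf (⊤ : Subgroup G))).trans
        QuotientGroup.quotientBot).trans Subgroup.topEquiv) hc)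
  -- proper overgroups
  have hover : ∀ H : Subgroup G, (S : Subgroup G) ≤ H → H ≠ ⊤ → (S : Subgroup G) ⊓ ⁅H, H⁆ ≤ T := by
    intro H hSH hH
    haveI : ((⊥ : Subgroup G).subgroupOf H).Normal := by rw [Subgroup.bot_subgroupOf]; infer_instance
    have e : (↥H ⧸ (⊥ : Subgroup G).subgroupOf H) ≃* ↥H :=
      (QuotientGroup.quotientMulEquivOfEq (Subgroup.bot_subgroupOf H)).trans QuotientGroup.quotientBot
    have h1 := transferLe_map h𝓦 H.subtype H.subtype_injective (S.subtype hSH).2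
      (transferLe_of_equiv h𝓦 e (hsecLe H ⊥ (fun h => absurd h hH)) (S.subtype hSH))
    change TransferLe _ H.subtype.range (((S : Subgroup G).subgroupOf H).map H.subtype) at h1
    rw [Subgroup.range_subtype, Subgroup.subgroupOf_map_subtype, inf_eq_left.mpr hSH] at h1
    refine h1.trans (iSup₂_le ?_)
    rintro _ ⟨_, ⟨W, hW, rfl⟩, rfl⟩
    exact le_trans (inf_le_inf_left _ (Subgroup.commutator_mono inf_le_right inf_le_right)) (hTW W hW)
  have hStop : (S : Subgroup G) ≠ ⊤ := by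
    intro h
    obtain ⟨W, hW⟩ := hne
    refine hfail (le_trans (inf_le_inf_left _ ?_) (hTW W hW))
    have hN : Subgroup.normalizer ((inducedFunctor (G := G) W (S : Subgroup G) : Subgroup G) : Set G) = ⊤ :=
      top_le_iff.mp (h ▸ CfsgLib.SectionFunctors.le_normalizer_inducedFunctor (h𝓦 W hW) S.2)
    rw [hN]
  have hS' : ⁅(S : Subgroup G), (S : Subgroup G)⁆ ≤ T :=
    (le_inf (Subgroup.commutator_le_self _) le_rfl).trans (hover _ le_rfl hStop)
  have hQH : ∀ H : Subgroup G, (S : Subgroup G) ≤ H → H ≠ ⊤ → ∀ h ∈ H, ∀ q ∈ Q, h * q * h⁻¹ * q⁻¹ ∈ T ⊓ Q := by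
    intro H hSH hH h hh q hq
    have h1 : h * q * h⁻¹ * q⁻¹ ∈ Q := Q.mul_mem (hQn.conj_mem q hq h) (Q.inv_mem hq)
    exact ⟨hover H hSH hH ⟨hQS h1, Subgroup.commutator_mem_commutator hh (hSH (hQS hq))⟩, h1⟩
  have hHM : ∀ H : Subgroup G, (S : Subgroup G) ≤ H → H ≠ ⊤ → H ≤ M := by
    intro H hSH hH h hh
    rw [hM]
    refine CfsgLib.ConjFunctor.mem_normalizer_iff_conjOf.mpr (Subgroup.eq_of_le_of_card_ge
      (CfsgLib.ConjFunctor.conjOf_le_iff.mpr fun t ht => ?_) (CfsgLib.ConjFunctor.card_conjOf _ _).ge)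
    have h1 := (T ⊓ Q).mul_mem (hQH H hSH hH h hh t ht.2) ht
    simpa using h1
  have hSnot : ¬ (S : Subgroup G).Normal := by
    intro h
    obtain ⟨W, hW⟩ := hne
    refine hfail (le_trans (inf_le_inf_left _ ?_) (hTW W hW))
    have hN : Subgroup.normalizer ((inducedFunctor (G := G) W (S : Subgroup G) : Subgroup G) : Set G) = ⊤ :=
      top_le_iff.mp ((Subgroup.normalizer_eq_top_iff.mpr h).ge.trans
        (CfsgLib.SectionFunctors.normalizer_le_normalizer_inducedFunctor (h𝓦 W hW) S.2))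
    rw [hN]
  have hMtop : M ≠ ⊤ := by
    intro hMtop
    rw [hM] at hMtop
    haveI hZn : (T ⊓ Q).Normal := Subgroup.normalizer_eq_top_iff.mp hMtop
    -- `G` acts trivially on `Q / (T ⊓ Q)`
    let C₁ : Subgroup G :=
      { carrier := {g | ∀ q ∈ Q, g * q * g⁻¹ * q⁻¹ ∈ T ⊓ Q}
        one_mem' := fun q _ => by simp
        mul_mem' := fun {a b} ha hb q hq => by
          have h := (T ⊓ Q).mul_mem (ha (b * q * b⁻¹) (hQn.conj_mem q hq b)) (hb q hq)
          simpa [mul_assoc] using h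
        inv_mem' := fun {a} ha q hq => by
          have h := (T ⊓ Q).inv_mem (ha (a⁻¹ * q * a) (by simpa using hQn.conj_mem q hq a⁻¹))
          simpa [mul_assoc] using h }
    have hC₁ : ∀ g, g ∈ C₁ := by
      by_contra hc
      have hC₁top : C₁ ≠ ⊤ := fun h => hc fun g => by rw [h]; trivial
      haveI : C₁.Normal := by
        constructor
        intro a ha x q hq
        have h := hZn.conj_mem _ (ha (x⁻¹ * q * x) (by simpa using hQn.conj_mem q hq x⁻¹)) x
        simpa [mul_assoc] using h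
      have hSC : (S : Subgroup G) ≤ C₁ := fun s hs => hQH _ le_rfl hStop s hs
      have hN : Subgroup.normalizer ((S : Subgroup G) : Set G) ≤ C₁ := fun s hs =>
        hQH _ Subgroup.le_normalizer (fun h => hSnot (Subgroup.normalizer_eq_top_iff.mp h)) s hs
      refine hC₁top (top_le_iff.mp ?_)
      rw [← Sylow.normalizer_sup_eq_top' S hSC]
      exact sup_le hN le_rfl
    have hQT : Q ⊓ ⁅(⊤ : Subgroup G), ⊤⁆ ≤ T :=
      inf_commutator_le_of_invariant S hQS hS' fun g q hq => (hC₁ g q hq).1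
    apply hfail
    intro x hx
    set f := QuotientGroup.mk' Q with hf
    have hfs : Function.Surjective f := QuotientGroup.mk'_surjective Q
    have hker : f.ker = Q := QuotientGroup.ker_mk' Q
    set Sb := S.mapSurjective (f := f) hfs with hSb
    have hScomap : (Sb : Subgroup (G ⧸ Q)).comap f = (S : Subgroup G) := by
      rw [hSb, Sylow.coe_mapSurjective, Subgroup.comap_map_eq, hker, sup_eq_left.mpr hQS]
    by_cases hSQ : (S : Subgroup G) ≤ Q
    · exact hQT ⟨hSQ hx.1, hx.2⟩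
    have hQ1 : Q ≠ ⊥ := by
      intro h0
      apply hSQ
      have htop : Subgroup.centralizer (Q : Set G) = ⊤ := by
        rw [h0]; exact eq_top_iff.mpr fun g _ => Subgroup.mem_centralizer_iff.mpr fun y hy => by
          rw [Subgroup.mem_bot.mp hy]; simp
      exact fun s _ => hCQ (by rw [htop]; trivial)
    haveI hQn' : (Q.subgroupOf (⊤ : Subgroup G)).Normal := inferInstance
    have e : (↥(⊤ : Subgroup G) ⧸ Q.subgroupOf (⊤ : Subgroup G)) ≃* (G ⧸ Q) :=
      QuotientGroup.congr _ _ Subgroup.topEquiv (show (Q.subgroupOf (⊤ : Subgroup G)).map (⊤ : Subgroup G).subtype = Q by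
        rw [Subgroup.subgroupOf_map_subtype, inf_top_eq])
    have hquot := transferLe_of_equiv h𝓦 e (hsecLe ⊤ Q (fun _ => hQ1)) Sb
    have hSbne : (Sb : Subgroup (G ⧸ Q)) ≠ ⊥ := by
      intro h
      apply hSQ
      rw [← hScomap, h, MonoidHom.comap_bot, hker]
    have hcore : ∀ W ∈ 𝓦, (Sb : Subgroup (G ⧸ Q)) ⊓
        ⁅Subgroup.normalizer ((inducedFunctor (G := G ⧸ Q) W (Sb : Subgroup (G ⧸ Q)) : Subgroup (G ⧸ Q)) : Set (G ⧸ Q)),
          Subgroup.normalizer ((inducedFunctor (G := G ⧸ Q) W (Sb : Subgroup (G ⧸ Q)) : Subgroup (G ⧸ Q)) : Set (G ⧸ Q))⁆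
        ≤ T.map f := by
      intro W hW
      set U := (inducedFunctor (G := G ⧸ Q) W (Sb : Subgroup (G ⧸ Q))).comap f with hU
      have hUS : U ≤ (S : Subgroup G) := by
        rw [← hScomap]; exact Subgroup.comap_mono (CfsgLib.SectionFunctors.inducedFunctor_le _)
      have hUN : (Subgroup.normalizer ((inducedFunctor (G := G ⧸ Q) W (Sb : Subgroup (G ⧸ Q)) : Subgroup (G ⧸ Q)) : Set (G ⧸ Q))).comap f =
          Subgroup.normalizer (U : Set G) := by
        rw [hU, Subgroup.comap_normalizer_eq_of_surjective _ hfs]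
      have hSU : (S : Subgroup G) ≤ Subgroup.normalizer (U : Set G) := by
        rw [← hUN, ← hScomap]
        exact Subgroup.comap_mono (CfsgLib.SectionFunctors.le_normalizer_inducedFunctor (h𝓦 W hW) Sb.2)
      have hUtop : Subgroup.normalizer (U : Set G) ≠ ⊤ := by
        intro htop
        have h1 : U ≤ Q := CfsgLib.Constrained.le_pCore (Subgroup.normalizer_eq_top_iff.mp htop) (S.2.to_le hUS)
        apply CfsgLib.SectionFunctors.inducedFunctor_ne_bot (h𝓦 W hW) Sb.2 hSbne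
        rw [← Subgroup.map_comap_eq_self_of_surjective hfs (inducedFunctor (G := G ⧸ Q) W (Sb : Subgroup (G ⧸ Q))),
          Subgroup.map_eq_bot_iff, hker]
        exact h1
      rw [← Subgroup.map_comap_eq_self_of_surjective hfs
        (Subgroup.normalizer ((inducedFunctor (G := G ⧸ Q) W (Sb : Subgroup (G ⧸ Q)) : Subgroup (G ⧸ Q)) : Set (G ⧸ Q))),
        hUN, ← Subgroup.map_commutator]
      rintro _ ⟨hsS, y, hy, rfl⟩
      refine ⟨y, hover _ hSU hUtop ⟨?_, hy⟩, rfl⟩
      rw [← hScomap]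
      exact hsS
    have h1 : f x ∈ (Sb : Subgroup (G ⧸ Q)) ⊓ ⁅(⊤ : Subgroup (G ⧸ Q)), ⊤⁆ := by
      refine ⟨?_, ?_⟩
      · show x ∈ (Sb : Subgroup (G ⧸ Q)).comap f
        rw [hScomap]; exact hx.1
      · rw [← Subgroup.map_top_of_surjective f hfs, ← Subgroup.map_commutator]
        exact ⟨x, hx.2, rfl⟩
    have h2 : f x ∈ T.map f := by
      refine (hquot.trans (iSup₂_le ?_) : _ ≤ T.map f) h1
      rintro _ ⟨_, ⟨W, hW, rfl⟩, rfl⟩
      exact le_trans (inf_le_inf_left _ (Subgroup.commutator_mono inf_le_right inf_le_right)) (hcore W hW)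
    obtain ⟨y, hy, hyx⟩ := h2
    have h3 : y⁻¹ * x ∈ Q := by
      rw [← hker, MonoidHom.mem_ker, map_mul, map_inv, hyx, inv_mul_cancel]
    have h4 := T.mul_mem hy (hQT ⟨h3,
      (⁅(⊤ : Subgroup G), ⊤⁆ : Subgroup G).mul_mem ((⁅(⊤ : Subgroup G), ⊤⁆ : Subgroup G).inv_mem (hTG hy)) hx.2⟩)
    simpa using h4
  have hSM : (S : Subgroup G) ≤ M := hHM _ le_rfl hStop
  have hQMT : ∀ m ∈ M, ∀ q ∈ Q, m * q * m⁻¹ * q⁻¹ ∈ T ⊓ Q := fun m hm q hq => hQH M hSM hMtop m hm q hq
  refine ⟨hCQ, ⟨hMtop, hHM⟩, ⟨le_inf (Subgroup.commutator_le_left _ _)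
      (Subgroup.commutator_mono (hQS.trans hSM) le_rfl), ?_⟩, ?_⟩
  · exact le_inf inf_le_left ((inf_le_inf_right _ hQS).trans (hover M hSM hMtop))
  intro u huS huQ
  by_contra hc
  simp only [not_exists, not_and, not_not] at hc
  -- all conjugates of `u` in `S` are Engel on `Q`
  set Y : Set G := {y | y ∈ (S : Subgroup G) ∧ ∃ g : G, g * u * g⁻¹ = y} with hY
  have hEngel : EngelOn p Q Y := by
    rintro y ⟨-, g, rfl⟩ U V hch hUQ
    have hU := hch.2.1
    have hV := hch.2.2.1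
    have h := Subgroup.map_mono (f := (MulAut.conj g).toMonoidHom) (hc U V hch hUQ)
    have hfix : ∀ N : Subgroup G, N.Normal → N.map (MulAut.conj g).toMonoidHom = N := by
      intro N hN
      haveI := hN
      exact CfsgLib.ConjFunctor.mem_normalizer_iff_conjOf.mp (by rw [Subgroup.normalizer_eq_top]; trivial)
    have hiter : ∀ k, (iterCommutator U (Subgroup.zpowers u) k).map (MulAut.conj g).toMonoidHom =
        iterCommutator U (Subgroup.zpowers (g * u * g⁻¹)) k := by
      intro k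
      induction k with
      | zero => exact hfix U hU
      | succ k ih =>
        show (⁅iterCommutator U (Subgroup.zpowers u) k, Subgroup.zpowers u⁆).map _ = _
        rw [Subgroup.map_commutator, ih, MonoidHom.map_zpowers]
        rfl
    rwa [hfix V hV, hiter] at h
  have hYS : Y ⊆ ((S : Subgroup G) : Set G) := fun y hy => hy.1
  have hmove : ∀ h, h ∉ M → ∃ y ∈ Y, h⁻¹ * y * h ∉ M := by
    intro h hh
    by_contra hno
    simp only [not_exists, not_and, not_not] at hno
    set A := Subgroup.closure Y with hA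
    have hAS : A ≤ (S : Subgroup G) := (Subgroup.closure_le _).mpr hYS
    have huA : u ∈ A := Subgroup.subset_closure ⟨huS, 1, by simp⟩
    have hAM : CfsgLib.ConjFunctor.conjOf h⁻¹ A ≤ M := by
      rw [CfsgLib.ConjFunctor.conjOf, hA, MonoidHom.map_closure, Subgroup.closure_le]
      rintro _ ⟨y, hy, rfl⟩
      simpa using hno y hy
    obtain ⟨m, hm, hle⟩ := CfsgLib.ConjFunctor.exists_conj_le_of_sylowIn
      (⟨hSM, S.2, fun hd => S.not_dvd_index (hd.trans (Subgroup.relIndex_dvd_index_of_le hSM))⟩ :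
        CfsgLib.ConjFunctor.SylowIn p (S : Subgroup G) M) hAM ((S.2.to_le hAS).map _)
    rw [CfsgLib.ConjFunctor.conjOf_conjOf] at hle
    have hnorm : ∀ x : G, CfsgLib.ConjFunctor.conjOf x A ≤ (S : Subgroup G) →
        x ∈ Subgroup.normalizer (A : Set G) := by
      intro x hx
      refine CfsgLib.ConjFunctor.mem_normalizer_iff_conjOf.mpr
        (Subgroup.eq_of_le_of_card_ge ?_ (CfsgLib.ConjFunctor.card_conjOf _ _).ge)
      show A.map _ ≤ A
      rw [hA, MonoidHom.map_closure, Subgroup.closure_le]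
      rintro _ ⟨y, hy, rfl⟩
      obtain ⟨g, hg⟩ := hy.2
      exact Subgroup.subset_closure ⟨hx (CfsgLib.ConjFunctor.conj_mem_conjOf (Subgroup.subset_closure hy)),
        x * g, by rw [← hg]; simp [mul_assoc]⟩
    have hSA : (S : Subgroup G) ≤ Subgroup.normalizer (A : Set G) := fun s hs => hnorm s
      (CfsgLib.ConjFunctor.conjOf_le_iff.mpr fun y hy =>
        (S : Subgroup G).mul_mem ((S : Subgroup G).mul_mem hs (hAS hy)) ((S : Subgroup G).inv_mem hs))
    have hAtop : Subgroup.normalizer (A : Set G) ≠ ⊤ := fun htop =>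
      huQ (CfsgLib.Constrained.le_pCore (Subgroup.normalizer_eq_top_iff.mp htop) (S.2.to_le hAS) huA)
    have h1 : m * h⁻¹ ∈ M := hHM _ hSA hAtop (hnorm _ hle)
    have h2 := M.inv_mem (M.mul_mem (M.inv_mem hm) h1)
    simp at h2
    exact hh h2
  -- the action on `Q / (T ⊓ Q)`
  haveI hTQn : ((T ⊓ Q).subgroupOf Q).Normal := by
    rw [Subgroup.normal_subgroupOf_iff_le_normalizer inf_le_right, ← hM]
    exact hQS.trans hSM
  haveI hcomm : IsMulCommutative (↥Q ⧸ (T ⊓ Q).subgroupOf Q) :=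
    Subgroup.Normal.quotient_commutative_iff_commutator_le.mpr (by
      intro z hz
      show (z : G) ∈ T ⊓ Q
      refine ⟨hS' ?_, z.2⟩
      refine Subgroup.commutator_mono hQS hQS ?_
      rw [← Subgroup.map_subtype_commutator Q]
      exact ⟨z, hz, rfl⟩)
  open scoped IsMulCommutative in
  have hinv := CfsgLib.ConjFunctor.hom_invariant_of_engel hQn CfsgLib.Constrained.isPGroup_pCore S.2 hSM
    (fun hd => S.not_dvd_index (hd.trans (Subgroup.index_dvd_of_le hSM))) hYS hmove hEngel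
    (QuotientGroup.mk' ((T ⊓ Q).subgroupOf Q)) (fun l hl q => by
      rw [QuotientGroup.mk'_apply, QuotientGroup.mk'_apply, eq_comm, QuotientGroup.eq]
      show ((q⁻¹ * MulAut.conjNormal l q : ↥Q) : G) ∈ T ⊓ Q
      have h1 := hQMT l hl (q : G) q.2
      have h2 : (q : G)⁻¹ * (l * q * l⁻¹ * (q : G)⁻¹) * (q : G) ∈ T ⊓ Q := by
        have h3 : (q : G)⁻¹ ∈ Subgroup.normalizer ((T ⊓ Q : Subgroup G) : Set G) :=
          hM ▸ hSM (hQS (Q.inv_mem q.2))
        simpa using (Subgroup.mem_normalizer_iff.mp h3 _).mp h1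
      simpa [mul_assoc] using h2)
  apply hMtop
  rw [hM, eq_top_iff]
  intro g _
  refine CfsgLib.ConjFunctor.mem_normalizer_iff_conjOf.mpr (Subgroup.eq_of_le_of_card_ge
    (CfsgLib.ConjFunctor.conjOf_le_iff.mpr fun t ht => ?_) (CfsgLib.ConjFunctor.card_conjOf _ _).ge)
  open scoped IsMulCommutative in
  have h1 := hinv g ⟨t, ht.2⟩
  rw [QuotientGroup.mk'_apply, QuotientGroup.mk'_apply, eq_comm, QuotientGroup.eq] at h1
  have h2 : t⁻¹ * (g * t * g⁻¹) ∈ T ⊓ Q :=
    ⟨by simpa [Subgroup.mem_subgroupOf] using h1, Q.mul_mem (Q.inv_mem ht.2) (hQn.conj_mem t ht.2 g)⟩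
  simpa using (T ⊓ Q).mul_mem ht h2

end Cfsg.Agent.S1998
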