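import Cfsg.Statements.S2004
import Cfsg.Agent.GlaubermanZJ.SectionsPStable
import Cfsg.Agent.QdSection.Stability

set_option autoImplicit false
open Cfsg

namespace Cfsg.Agent.S2004

/-- Let p be an odd prime and G a finite group such that SL₂(p) is not involved in N_G(P) for any nonidentity p-subgroup P of G. Then every section of G is p-stable in the normalizer form: in each section, whenever an element of the normalizer of a p-subgroup Q acts quadratically on Q, its image in N(Q)/C(Q) lies in O_p(N(Q)/C(Q)). -/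
theorem result {G : Type*} [Group G] [Finite G] {p : ℕ} [Fact p.Prime] (hp : p ≠ 2) (h : ∀ P : Subgroup G, IsPGroup p ↥P → P ≠ ⊥ → ¬ Cfsg.Involves (Matrix.SpecialLinearGroup (Fin 2) (ZMod p)) ↥(Subgroup.normalizer ((P : Subgroup G) : Set G))) : ∀ (K R : Subgroup G) [hR : (R.subgroupOf K).Normal], Cfsg.IsNormalizerPStable p (↥K ⧸ R.subgroupOf K) := by
  intro K R hR Q hQ g hg hq
  set f := QuotientGroup.mk' (R.subgroupOf K) with hf
  rcases eq_or_ne Q ⊥ with rfl | hne
  · have h1 : Subgroup.centralizer (((⊥ : Subgroup (↥K ⧸ R.subgroupOf K))) : Set (↥K ⧸ R.subgroupOf K)) = ⊤ :=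
      eq_top_iff.mpr fun x _ => Subgroup.mem_centralizer_iff.mpr fun y hy => by
        rw [Subgroup.mem_bot.mp hy, one_mul, mul_one]
    have h2 : (QuotientGroup.mk (s := (Subgroup.centralizer ((⊥ : Subgroup (↥K ⧸ R.subgroupOf K)) :
        Set (↥K ⧸ R.subgroupOf K))).subgroupOf _)
        (⟨g, hg⟩ : ↥(Subgroup.normalizer ((⊥ : Subgroup (↥K ⧸ R.subgroupOf K)) : Set (↥K ⧸ R.subgroupOf K))))) = 1 :=
      (QuotientGroup.eq_one_iff _).mpr (Subgroup.mem_subgroupOf.mpr (by rw [h1]; trivial))
    rw [h2]; exact one_mem _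
  refine CfsgLib.GlaubermanZJ.mem_pCore_of_isPStableOn_normalizer hQ (fun P hPn hP => ?_) g hg hq
  refine CfsgLib.QdSection.isPStableOn_of_qdFree hp (fun hqd => ?_) P hP
  obtain ⟨P0, hP0, hPQ, hN⟩ := CfsgLib.GlaubermanZJ.exists_lift_pgroup_normalizer f (QuotientGroup.mk'_surjective _) hQ
  have hPne : P0.map K.subtype ≠ ⊥ := fun h0 => hne (by
    rw [← hPQ, (Subgroup.map_eq_bot_iff_of_injective _ K.subtype_injective).mp h0, Subgroup.map_bot])
  obtain ⟨K', L', hL', he⟩ := CfsgLib.QdSection.sl_two_section_of_involves_qd hqd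
  refine h _ (hP0.map K.subtype) hPne (CfsgLib.QdSection.involves_of_injective
    ((K.subtype.comp (Subgroup.normalizer (P0 : Set ↥K)).subtype).codRestrict _ fun x =>
      Subgroup.le_normalizer_map K.subtype ⟨x, x.2, rfl⟩)
    (fun a b hab => by
      have h2 := congrArg Subtype.val hab
      exact Subtype.ext (K.subtype_injective h2))
    (CfsgLib.QdSection.involves_of_surjective
      ((f.comp (Subgroup.normalizer (P0 : Set ↥K)).subtype).codRestrict _ fun x => by
        rw [← hN]; exact ⟨x, x.2, rfl⟩)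
      (fun y => by
        obtain ⟨x, hx, hxy⟩ : (y : ↥K ⧸ R.subgroupOf K) ∈ (Subgroup.normalizer (P0 : Set ↥K)).map f := by
          rw [hN]; exact y.2
        exact ⟨⟨x, hx⟩, Subtype.ext hxy⟩)
      ⟨K', L', hL', he⟩))

end Cfsg.Agent.S2004
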