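import Cfsg.Statements.S2008

set_option autoImplicit false
open Cfsg

namespace Cfsg.Agent.S2008

theorem aux_exists_other {H : Type*} [Group H] [Finite H] (z : H) (E : Subgroup H)
    (hE : IsKleinFour ↥E) : ∃ e ∈ E, e ≠ 1 ∧ e ≠ z := by
  by_contra hcon
  push Not at hcon
  have hsub : (E : Set H) ⊆ {1, z} := by
    intro e he
    by_cases h : e = 1
    · exact Or.inl h
    · exact Or.inr (hcon e he h)
  have h1 : (E : Set H).ncard ≤ ({1, z} : Set H).ncard := Set.ncard_le_ncard hsub (Set.toFinite _)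
  have h2 : ({1, z} : Set H).ncard ≤ 2 := by
    refine (Set.ncard_insert_le _ _).trans ?_
    simp
  have h4 : (E : Set H).ncard = 4 := by
    rw [← Nat.card_coe_set_eq]
    exact hE.card_four
  omega


/-- Let H be a finite group and z an involution such that every proper normal subgroup of H meets the centralizer of z trivially, and suppose z lies in a Klein four-subgroup E of H all three of whose involutions are conjugate to z in H. Then H has no non-trivial abelian normal subgroup. -/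
theorem result {H : Type*} [Group H] [Finite H] (z : H) (hz : orderOf z = 2) (hN : ∀ N : Subgroup H, N.Normal → N ≠ ⊤ → N ⊓ Subgroup.centralizer ({z} : Set H) = ⊥) (E : Subgroup H) (hE : IsKleinFour ↥E) (hzE : z ∈ E) (hc : ∀ e ∈ E, e ≠ 1 → IsConj z e) (N : Subgroup H) [N.Normal] (hab : IsMulCommutative ↥N) : N = ⊥ := by
  have hz1 : z ≠ 1 := by
    intro h; rw [h, orderOf_one] at hz; norm_num at hz
  have hsq : ∀ e ∈ E, e * e = 1 := by
    intro e he
    have := IsKleinFour.mul_self (⟨e, he⟩ : ↥E)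
    exact congrArg Subtype.val this
  obtain ⟨e, heE, he1, hez⟩ := aux_exists_other z E hE
  have hcomm : ∀ a ∈ N, ∀ b ∈ N, a * b = b * a := by
    intro a ha b hb
    exact congrArg Subtype.val (hab.is_comm.comm (⟨a, ha⟩ : ↥N) ⟨b, hb⟩)
  by_cases hT : N = ⊤
  · exfalso
    obtain ⟨c, hc'⟩ := isConj_iff.1 (hc e heE he1)
    apply hez
    rw [← hc', hcomm c (by simp [hT]) z (by simp [hT]), mul_inv_cancel_right]
  have hfix : ∀ e ∈ E, e ≠ 1 → ∀ n ∈ N, e * n * e⁻¹ = n → n = 1 := by
    intro e he he1 n hn hen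
    obtain ⟨c, hc'⟩ := isConj_iff.1 (hc e he he1)
    have hm : c⁻¹ * n * c ∈ N ⊓ Subgroup.centralizer ({z} : Set H) := by
      refine ⟨?_, ?_⟩
      · simpa using Subgroup.Normal.conj_mem ‹N.Normal› n hn c⁻¹
      · show c⁻¹ * n * c ∈ Subgroup.centralizer ({z} : Set H)
        rw [Subgroup.mem_centralizer_singleton_iff]
        have : e * n = n * e := by
          calc e * n = (e * n * e⁻¹) * e := by group
            _ = n * e := by rw [hen]
        have h2 : z = c⁻¹ * e * c := by rw [← hc']; group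
        rw [h2]
        calc c⁻¹ * n * c * (c⁻¹ * e * c) = c⁻¹ * (n * e) * c := by group
          _ = c⁻¹ * (e * n) * c := by rw [this]
          _ = c⁻¹ * e * c * (c⁻¹ * n * c) := by group
    rw [hN N inferInstance hT, Subgroup.mem_bot] at hm
    calc n = c * (c⁻¹ * n * c) * c⁻¹ := by group
      _ = 1 := by rw [hm]; group
  have hinv : ∀ e ∈ E, e ≠ 1 → ∀ n ∈ N, e * n * e⁻¹ = n⁻¹ := by
    intro e he he1 n hn
    have hn' : e * n * e⁻¹ ∈ N := Subgroup.Normal.conj_mem ‹N.Normal› n hn e
    have hee : e⁻¹ = e := inv_eq_of_mul_eq_one_right (hsq e he)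
    have h1 : n * (e * n * e⁻¹) = 1 := by
      apply hfix e he he1 _ (N.mul_mem hn hn')
      calc e * (n * (e * n * e⁻¹)) * e⁻¹ = (e * n * e⁻¹) * ((e * e) * n * (e⁻¹ * e⁻¹)) := by group
        _ = (e * n * e⁻¹) * n := by rw [hee, hsq e he]; group
        _ = n * (e * n * e⁻¹) := hcomm _ hn' _ hn
    exact (inv_eq_of_mul_eq_one_right h1).symm
  rw [Subgroup.eq_bot_iff_forall]
  intro n hn
  have h3 : z * e ≠ 1 := by
    intro h
    apply hez
    calc e = z⁻¹ * (z * e) := by group
      _ = z⁻¹ := by rw [h, mul_one]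
      _ = z := inv_eq_of_mul_eq_one_right (hsq z hzE)
  have h4 := hinv (z * e) (E.mul_mem hzE heE) h3 n hn
  have h5 : z * e * n * (z * e)⁻¹ = n := by
    calc z * e * n * (z * e)⁻¹ = z * (e * n * e⁻¹) * z⁻¹ := by group
      _ = z * n⁻¹ * z⁻¹ := by rw [hinv e heE he1 n hn]
      _ = n⁻¹⁻¹ := hinv z hzE hz1 _ (N.inv_mem hn)
      _ = n := inv_inv n
  apply hfix z hzE hz1 n hn
  rw [hinv z hzE hz1 n hn]
  exact h4.symm.trans h5

end Cfsg.Agent.S2008
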