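import Cfsg.Statements.S2009
import Cfsg.Agent.S2008

set_option autoImplicit false
open Cfsg

namespace Cfsg.Agent.S2009

/-- Let H be a finite group and z an involution such that every proper normal subgroup of H meets the centralizer of z trivially, and suppose z lies in a Klein four-subgroup E of H all three of whose involutions are conjugate to z in H. Then H is simple. -/
theorem result {H : Type*} [Group H] [Finite H] (z : H) (hz : orderOf z = 2) (hN : ∀ N : Subgroup H, N.Normal → N ≠ ⊤ → N ⊓ Subgroup.centralizer ({z} : Set H) = ⊥) (E : Subgroup H) (hE : IsKleinFour ↥E) (hzE : z ∈ E) (hc : ∀ e ∈ E, e ≠ 1 → IsConj z e) : IsSimpleGroup H := by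
  have hz1 : z ≠ 1 := by
    intro h; rw [h, orderOf_one] at hz; norm_num at hz
  haveI : Nontrivial H := ⟨⟨z, 1, hz1⟩⟩
  constructor
  intro N hNn
  by_cases hT : N = ⊤
  · exact Or.inr hT
  left
  haveI := hNn
  apply Cfsg.Agent.S2008.result z hz hN E hE hzE hc N
  let φ : ↥N →* ↥N := (MulAut.conjNormal z).toMonoidHom
  have hzz : z * z = 1 := by rw [← sq, ← hz]; exact pow_orderOf_eq_one z
  have hφ : MonoidHom.FixedPointFree φ := by
    intro n hn
    have h1 : z * (n : H) * z⁻¹ = n := by
      have := congrArg Subtype.val hn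
      simpa [φ, MulAut.conjNormal_apply] using this
    have hm : (n : H) ∈ N ⊓ Subgroup.centralizer ({z} : Set H) := by
      refine ⟨n.2, ?_⟩
      show (n : H) ∈ Subgroup.centralizer ({z} : Set H)
      rw [Subgroup.mem_centralizer_singleton_iff]
      calc (n : H) * z = z * n * z⁻¹ * z := by rw [h1]
        _ = z * n := by group
    rw [hN N hNn hT, Subgroup.mem_bot] at hm
    exact Subtype.ext hm
  have h2 : Function.Involutive φ := by
    intro n
    apply Subtype.ext
    simp only [φ, MulEquiv.coe_toMonoidHom, MulAut.conjNormal_apply]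
    calc z * (z * (n : H) * z⁻¹) * z⁻¹ = (z * z) * n * (z * z)⁻¹ := by group
      _ = n := by rw [hzz]; group
  exact ⟨⟨hφ.commute_all_of_involutive h2⟩⟩

end Cfsg.Agent.S2009
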