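import Cfsg.Statements.S2035
import Cfsg.Agent.Mathieu.DoubleTwelve
import Cfsg.Agent.SchurMult.Cover

set_option autoImplicit false
open Cfsg

namespace Cfsg.Agent.S2035

/-- The Schur multiplier of the Mathieu group M₁₂ (the stabiliser of a dodecad in the automorphism group of the length-24 binary code) is cyclic of order 2; here the Schur multiplier is described through stem extensions, as in the definitions: surjective homomorphisms onto the group from a finite group, whose kernel is central in that finite group and contained in that finite group's commutator subgroup. -/
theorem result : Cfsg.HasCyclicSchurMultiplier ↥Cfsg.Spor.M12 2 := by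
  haveI : Finite ↥CfsgLib.Mathieu.DoubleTwelve.Cover := inferInstance
  refine CfsgLib.SchurMult.hasSchurMultiplier_of_trivial_cover CfsgLib.Mathieu.DoubleTwelve.isStem
    CfsgLib.Mathieu.DoubleTwelve.cover_trivial (mulEquivOfPrimeCardEq (p := 2)
      CfsgLib.Mathieu.DoubleTwelve.card_ker_proj (by simp))

end Cfsg.Agent.S2035
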