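import Cfsg.Statements.S2039
import Cfsg.Agent.JankoOne.Structure
import Cfsg.Agent.Schur.StemSylow

set_option autoImplicit false
open Cfsg

namespace Cfsg.Agent.S2039

open CfsgLib.JankoOne Subgroup

open scoped commutatorElement

/-- Four lifts in a cycle of an automorphism, the fourth being the product of the first and third up to a
central element, force the first three to commute. -/
theorem lifts_commute {Γ : Type*} [Group Γ] (K : Subgroup Γ) (hK : K ≤ center Γ) (S A z : Γ)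
    (hz : z ∈ K) (hAB : ⁅A, S⁻¹ * A * S⁆ ∈ K)
    (hAC : ⁅A, S⁻¹ * (S⁻¹ * A * S) * S⁆ ∈ K)
    (hd : S⁻¹ * (S⁻¹ * (S⁻¹ * A * S) * S) * S = A * (S⁻¹ * (S⁻¹ * A * S) * S) * z) :
    Commute A (S⁻¹ * A * S) ∧ Commute A (S⁻¹ * (S⁻¹ * A * S) * S) ∧
      Commute (S⁻¹ * A * S) (S⁻¹ * (S⁻¹ * A * S) * S) := by
  set B := S⁻¹ * A * S with hB
  set C := S⁻¹ * B * S with hC
  have hc : ∀ k ∈ K, ∀ g, g * k = k * g := fun k hk g => mem_center_iff.1 (hK hk) g
  have conjfix : ∀ k ∈ K, S⁻¹ * k * S = k := fun k hk => by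
    rw [mul_assoc, ← hc k hk S, inv_mul_cancel_left]
  have hconj : ∀ X Y : Γ, ⁅S⁻¹ * X * S, S⁻¹ * Y * S⁆ = S⁻¹ * ⁅X, Y⁆ * S := fun X Y => by
    simp only [commutatorElement_def]; group
  have rightz : ∀ X Y : Γ, ⁅X, Y * z⁆ = ⁅X, Y⁆ := fun X Y => by
    have h := hc z hz
    calc ⁅X, Y * z⁆ = X * Y * (z * X⁻¹) * z⁻¹ * Y⁻¹ := by rw [commutatorElement_def]; group
      _ = X * Y * (X⁻¹ * z) * z⁻¹ * Y⁻¹ := by rw [h X⁻¹]
      _ = ⁅X, Y⁆ := by rw [commutatorElement_def]; group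
  set k := ⁅A, B⁆ with hk
  have hBC : ⁅B, C⁆ = k := (hconj A B).trans (conjfix _ hAB)
  have hCD : ⁅C, S⁻¹ * C * S⁆ = k := by
    rw [show ⁅C, S⁻¹ * C * S⁆ = S⁻¹ * ⁅B, C⁆ * S from hconj B C, hBC, conjfix _ hAB]
  have hCA : ⁅C, A⁆ = k := by
    rw [← hCD, hd, rightz]
    simp only [commutatorElement_def]
    group
  have hkC : ⁅C, A⁆ ∈ K := by rw [← commutatorElement_inv]; exact inv_mem hAC
  -- one more step of the cycle
  have hDB : ⁅S⁻¹ * C * S, B⁆ = k := by
    rw [show ⁅S⁻¹ * C * S, B⁆ = S⁻¹ * ⁅C, A⁆ * S from hconj C A, conjfix _ hkC, hCA]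
  have hk1 : k = 1 := by
    rw [← hDB, ← commutatorElement_inv, inv_eq_one, hd, rightz]
    have e : ⁅B, A * C⁆ = ⁅B, A⁆ * (A * ⁅B, C⁆ * A⁻¹) := by
      simp only [commutatorElement_def]; group
    rw [e, hBC, hc k hAB A, mul_inv_cancel_right, ← commutatorElement_inv A B, ← hk,
      inv_mul_cancel]
  have toC : ∀ X Y : Γ, ⁅X, Y⁆ = 1 → Commute X Y := fun X Y h =>
    commutatorElement_eq_one_iff_mul_comm.1 h
  exact ⟨toC _ _ hk1, (toC _ _ (hCA.trans hk1)).symm, toC _ _ (hBC.trans hk1)⟩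

/-- the words of the Sylow 2-subgroup in three generators -/
def checkSylowTwo : Bool :=
  beq (CfsgLib.JankoOne.mul (mw (eWords.getD 1 [])) (mw wS))
      (CfsgLib.JankoOne.mul (mw wS) (mw (eWords.getD 6 []))) &&
  beq (CfsgLib.JankoOne.mul (mw (eWords.getD 6 [])) (mw wS))
      (CfsgLib.JankoOne.mul (mw wS) (mw (eWords.getD 5 []))) &&
  beq (CfsgLib.JankoOne.mul (mw (eWords.getD 5 [])) (mw wS))
      (CfsgLib.JankoOne.mul (mw wS)
        (CfsgLib.JankoOne.mul (mw (eWords.getD 1 [])) (mw (eWords.getD 5 [])))) &&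
  allLt 8 fun n => (List.range 8).any fun m => beq (mw (eWords.getD n []))
    (CfsgLib.JankoOne.mul (powM (mw (eWords.getD 1 [])) (m % 2))
      (CfsgLib.JankoOne.mul (powM (mw (eWords.getD 6 [])) (m / 2 % 2))
        (powM (mw (eWords.getD 5 [])) (m / 4))))

theorem checkSylowTwo_true : checkSylowTwo = true := by decide +kernel

theorem sylowTwo_facts :
    eElt 1 * gw wS = gw wS * eElt 6 ∧ eElt 6 * gw wS = gw wS * eElt 5 ∧
    eElt 5 * gw wS = gw wS * (eElt 1 * eElt 5) ∧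
    sylowTwo ≤ Subgroup.closure {eElt 1, eElt 6, eElt 5} := by
  have h := checkSylowTwo_true
  simp only [checkSylowTwo, Bool.and_eq_true, allLt_iff, List.any_eq_true, List.mem_range] at h
  obtain ⟨⟨⟨h1, h2⟩, h3⟩, h4⟩ := h
  refine ⟨Subtype.ext (((rep_gw _).mul (rep_gw _)).eq ((rep_gw _).mul (rep_gw _)) h1),
    Subtype.ext (((rep_gw _).mul (rep_gw _)).eq ((rep_gw _).mul (rep_gw _)) h2),
    Subtype.ext (((rep_gw _).mul (rep_gw _)).eq ((rep_gw _).mul ((rep_gw _).mul (rep_gw _))) h3), ?_⟩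
  rintro _ ⟨n, rfl⟩
  obtain ⟨m, -, hm⟩ := h4 n n.2
  have e : eElt n = eElt 1 ^ (m % 2) * (eElt 6 ^ (m / 2 % 2) * eElt 5 ^ (m / 4)) :=
    Subtype.ext ((rep_gw _).eq
      (((rep_gw _).pow _).mul (((rep_gw _).pow _).mul ((rep_gw _).pow _))) hm)
  rw [e]
  exact mul_mem (pow_mem (Subgroup.subset_closure (Set.mem_insert _ _)) _)
    (mul_mem (pow_mem (Subgroup.subset_closure
        (Set.mem_insert_of_mem _ (Set.mem_insert _ _))) _)
      (pow_mem (Subgroup.subset_closure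
        (Set.mem_insert_of_mem _ (Set.mem_insert_of_mem _ (Set.mem_singleton _)))) _))

theorem two_not_dvd {Γ : Type} [Group Γ] [Finite Γ] (σ : Γ →* ↥Spor.J1)
    (hσ : Cfsg.IsStemExtension σ) : ¬ 2 ∣ Nat.card σ.ker := by
  haveI : Fact (Nat.Prime 2) := ⟨Nat.prime_two⟩
  obtain ⟨f1, f2, f3, hgen⟩ := sylowTwo_facts
  refine CfsgLib.Schur.not_dvd_card_ker hσ sylowTwo ?_ fun z _ hz => ?_
  · have h := Subgroup.card_mul_index sylowTwo
    rw [card_sylowTwo, card_J1] at h
    omega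
  obtain ⟨A, hA⟩ := hσ.1 (eElt 1)
  obtain ⟨S, hS⟩ := hσ.1 (gw wS)
  have hB : σ (S⁻¹ * A * S) = eElt 6 := by
    rw [map_mul, map_mul, map_inv, hA, hS, mul_assoc, f1, inv_mul_cancel_left]
  have hC : σ (S⁻¹ * (S⁻¹ * A * S) * S) = eElt 5 := by
    rw [map_mul, map_mul (f := σ) S⁻¹, map_inv, hB, hS, mul_assoc, f2, inv_mul_cancel_left]
  have hD : σ (S⁻¹ * (S⁻¹ * (S⁻¹ * A * S) * S) * S) = eElt 1 * eElt 5 := by
    rw [map_mul, map_mul (f := σ) S⁻¹, map_inv, hC, hS, mul_assoc, f3, inv_mul_cancel_left]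
  have hee : ∀ i j, eElt i * eElt j = eElt j * eElt i := fun i j => by
    have hsq : ∀ l, eElt l * eElt l = 1 := fun l => (eElt_facts l l).1
    obtain ⟨l, hl⟩ := (eElt_facts i j).2.1
    have := hsq l
    rw [← hl] at this
    calc eElt i * eElt j = (eElt i * eElt j)⁻¹ := eq_inv_of_mul_eq_one_left this
      _ = eElt j * eElt i := by
          rw [mul_inv_rev, inv_eq_of_mul_eq_one_right (hsq i), inv_eq_of_mul_eq_one_right (hsq j)]
  have hab : ⁅A, S⁻¹ * A * S⁆ ∈ σ.ker := by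
    rw [MonoidHom.mem_ker, map_commutatorElement, hA, hB, commutatorElement_eq_one_iff_mul_comm]
    exact hee 1 6
  have hac : ⁅A, S⁻¹ * (S⁻¹ * A * S) * S⁆ ∈ σ.ker := by
    rw [MonoidHom.mem_ker, map_commutatorElement, hA, hC, commutatorElement_eq_one_iff_mul_comm]
    exact hee 1 5
  obtain ⟨cAB, cAC, cBC⟩ := lifts_commute σ.ker hσ.2.1 S A
    ((A * (S⁻¹ * (S⁻¹ * A * S) * S))⁻¹ * (S⁻¹ * (S⁻¹ * (S⁻¹ * A * S) * S) * S))
    (by rw [MonoidHom.mem_ker, map_mul, map_inv, map_mul (f := σ) A, hA, hC, hD, inv_mul_cancel])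
    hab hac (by rw [mul_inv_cancel_left])
  set B := S⁻¹ * A * S
  set C := S⁻¹ * B * S
  have hle : sylowTwo.comap σ ≤ Subgroup.closure ((σ.ker : Set Γ) ∪ {A, B, C}) := by
    intro g hg
    have h2 : σ g ∈ (Subgroup.closure {A, B, C}).map σ := by
      rw [MonoidHom.map_closure, Set.image_insert_eq, Set.image_pair, hA, hB, hC]
      exact hgen hg
    obtain ⟨w, hw, hwg⟩ := h2
    have : g = (g * w⁻¹) * w := by group
    rw [this]
    refine mul_mem (Subgroup.subset_closure (Or.inl ?_)) (closure_mono Set.subset_union_right hw)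
    rw [SetLike.mem_coe, MonoidHom.mem_ker, map_mul, map_inv, hwg, mul_inv_cancel]
  have hz' := Subgroup.commutator_mono hle hle hz
  rw [CfsgLib.Schur.commutator_eq_bot_of_commute, Subgroup.mem_bot] at hz'
  · exact hz'
  intro x hx y hy
  have hcen : ∀ k ∈ σ.ker, ∀ g, k * g = g * k := fun k hk g => (mem_center_iff.1 (hσ.2.1 hk) g).symm
  refine Subgroup.closure_induction₂ (p := fun x y _ _ => Commute x y) ?_
    (fun x _ => Commute.one_left x) (fun x _ => Commute.one_right x)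
    (fun _ _ _ _ _ _ h1 h2 => h1.mul_left h2) (fun _ _ _ _ _ _ h1 h2 => h1.mul_right h2)
    (fun _ _ _ _ h => h.inv_left) (fun _ _ _ _ h => h.inv_right) hx hy
  intro x y hx hy
  rcases hx with hx | hx
  · exact hcen x hx y
  rcases hy with hy | hy
  · exact (hcen y hy x).symm
  rcases hx with rfl | rfl | rfl <;> rcases hy with rfl | rfl | rfl
  exacts [Commute.refl _, cAB, cAC, cAB.symm, Commute.refl _, cBC, cAC.symm, cBC.symm, Commute.refl _]

/-- The Schur multiplier of the Janko group J₁ (the group generated by two explicit 7 × 7 matrices over the integers modulo 11) is trivial; here the Schur multiplier is described through stem extensions, as in the definitions: surjective homomorphisms onto the group from a finite group, whose kernel is central in that finite group and contained in that finite group's commutator subgroup. -/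
theorem result : Cfsg.HasCyclicSchurMultiplier ↥Cfsg.Spor.J1 1 := by
  refine CfsgLib.Schur.hasCyclicSchurMultiplier_one fun Γ _ _ σ hσ p hp => ?_
  haveI := Fact.mk hp
  by_cases h2 : p = 2
  · subst h2
    exact two_not_dvd σ hσ
  by_cases hd : p ∣ 175560
  · have hsq : ¬ p ^ 2 ∣ 175560 := by
      have h8 : 175560 = 2 ^ 3 * (3 * (5 * (7 * (11 * 19)))) := by decide +kernel
      rw [h8] at hd
      have h : p = 3 ∨ p = 5 ∨ p = 7 ∨ p = 11 ∨ p = 19 := by
        rcases hp.dvd_mul.1 hd with h | hd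
        · exact absurd ((Nat.prime_dvd_prime_iff_eq hp Nat.prime_two).1 (hp.dvd_of_dvd_pow h)) h2
        have eq : ∀ q, q.Prime → p ∣ q → p = q := fun q hq => (Nat.prime_dvd_prime_iff_eq hp hq).1
        rcases hp.dvd_mul.1 hd with h | hd
        · exact Or.inl (eq 3 (by decide +kernel) h)
        rcases hp.dvd_mul.1 hd with h | hd
        · exact Or.inr (Or.inl (eq 5 (by decide +kernel) h))
        rcases hp.dvd_mul.1 hd with h | hd
        · exact Or.inr (Or.inr (Or.inl (eq 7 (by decide +kernel) h)))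
        rcases hp.dvd_mul.1 hd with h | h
        · exact Or.inr (Or.inr (Or.inr (Or.inl (eq 11 (by decide +kernel) h))))
        · exact Or.inr (Or.inr (Or.inr (Or.inr (eq 19 (by decide +kernel) h))))
      rcases h with rfl | rfl | rfl | rfl | rfl <;> decide +kernel
    obtain ⟨x, hx⟩ := exists_prime_orderOf_dvd_card' p (CfsgLib.JankoOne.card_J1.symm ▸ hd)
    refine CfsgLib.Schur.not_dvd_card_ker_of_isCyclic hσ (Subgroup.zpowers x) fun hi => hsq ?_
    rw [← CfsgLib.JankoOne.card_J1, ← Subgroup.card_mul_index (Subgroup.zpowers x), Nat.card_zpowers,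
      hx, pow_two]
    exact Nat.mul_dvd_mul_left p hi
  · refine CfsgLib.Schur.not_dvd_card_ker_of_isCyclic hσ ⊥ ?_
    rwa [Subgroup.index_bot, CfsgLib.JankoOne.card_J1]

end Cfsg.Agent.S2039
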