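import Cfsg.Statements.S2042
import Cfsg.Agent.J4Cover26.Main
import Cfsg.Agent.J4Main61.Main

set_option autoImplicit false
open Cfsg

namespace Cfsg.Agent.S2042

/-- The Schur multiplier of the Janko group J₄ (the finitely presented group of the definitions) is trivial; here the Schur multiplier is described through stem extensions, as in the definitions: surjective homomorphisms onto the group from a finite group, whose kernel is central in that finite group and contained in that finite group's commutator subgroup. -/
theorem result : Cfsg.HasCyclicSchurMultiplier Cfsg.Spor.J4 1 := by
  have h := CfsgLib.J4Main61.isJ4
  haveI : Finite Cfsg.Spor.J4 := Nat.finite_of_card_ne_zero (by rw [h.2]; decide)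
  exact CfsgLib.J4Cover26.hasMultiplier CfsgLib.J4Main61.faithful

end Cfsg.Agent.S2042
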