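import Cfsg.Statements.S2053
import Cfsg.Agent.Fi22Cover.Multiplier
import Cfsg.Agent.Eq.Def_SporadicB

set_option autoImplicit false
open Cfsg

namespace Cfsg.Agent.S2053

/-- The Schur multiplier of the Fischer group Fi₂₂ (the finitely presented group of the definitions) is cyclic of order 6; here the Schur multiplier is described through stem extensions, as in the definitions: surjective homomorphisms onto the group from a finite group, whose kernel is central in that finite group and contained in that finite group's commutator subgroup. -/
theorem result : Cfsg.HasCyclicSchurMultiplier Cfsg.Spor.Fi22 6 := by
  exact CfsgLib.Fi22Cover.multiplier_fi22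

end Cfsg.Agent.S2053
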