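import Cfsg.Statements.S2055
import Cfsg.Agent.CosetEnum.Fi24.Checked
import Cfsg.Agent.Fi24Mult30.Checks.Chain
import Cfsg.Agent.Fi24Mult30.Checks.Branch
import Cfsg.Agent.Fi24Mult30.Main
import Cfsg.Agent.Fi24Mult30.Witness

set_option autoImplicit false
open Cfsg

namespace Cfsg.Agent.S2055

/-- The Schur multiplier of the Fischer group Fi₂₄′ (the commutator subgroup of the presented group Fi₂₄) is cyclic of order 3; here the Schur multiplier is described through stem extensions, as in the definitions: surjective homomorphisms onto the group from a finite group, whose kernel is central in that finite group and contained in that finite group's commutator subgroup. -/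
theorem result : Cfsg.HasCyclicSchurMultiplier Cfsg.Spor.Fi24' 3 :=
  CfsgLib.Fi24Mult30.fi24_multiplier CfsgLib.CosetEnum.Fi24.checksOK
    (CfsgLib.Fi24Mult30.exists_witness CfsgLib.CosetEnum.Fi24.checksOK.toTabOK
      ⟨CfsgLib.Fi24Mult30.Tab.chain, CfsgLib.Fi24Mult30.Tab.branch⟩)

end Cfsg.Agent.S2055
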