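import Cfsg.Statements.S2056
import Cfsg.Agent.HNCover80.Final
import Cfsg.Agent.HN133.TenBound
import Cfsg.Agent.HNOrder51.Inj
import Cfsg.Agent.HNOrder51.CoverOK
import Cfsg.Agent.HNOrder54.Index
-- import your own Cfsg.Agent.* helpers here

set_option autoImplicit false
open Cfsg

namespace Cfsg.Agent.S2056

/-- The Schur multiplier of the Harada–Norton group (the finitely presented group of the definitions) is trivial; here the Schur multiplier is described through stem extensions, as in the definitions: surjective homomorphisms onto the group from a finite group, whose kernel is central in that finite group and contained in that finite group's commutator subgroup. -/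
theorem result : Cfsg.HasCyclicSchurMultiplier Cfsg.Spor.HN 1 := by
  have hb : CfsgLib.HN51.Bound10 := fun P _ x y z h hc => CfsgLib.HN133.tenBound P x y z h hc
  have hF := CfsgLib.HN51.faith hb
  have hC := CfsgLib.HN51.cfix hb
  haveI := CfsgLib.HNOrder54.finite_Nsub hF hC
  haveI : Finite Cfsg.Spor.HN := by
    refine Nat.finite_of_card_ne_zero ?_
    rw [← Subgroup.card_mul_index CfsgLib.HN51.Nsub,
      CfsgLib.HNOrder54.index_eq hF hC (CfsgLib.HN51.cover hF hC)]
    exact Nat.mul_ne_zero Nat.card_pos.ne' (by norm_num)
  exact CfsgLib.HNCover80.multiplier_HN_of_bound CfsgLib.HN133.tenBound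

end Cfsg.Agent.S2056
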