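import Cfsg.Statements.S2087
import Cfsg.Agent.Eq.Def_KGroupFacts
import Cfsg.Agent.Schur.StemSylow

set_option autoImplicit false
open Cfsg Matrix

namespace Cfsg.Agent.S2087

open scoped commutatorElement

abbrev Z7 := ZMod 7
abbrev M3 := Matrix (Fin 3) (Fin 3) (ZMod 2)

/-- Inverse table modulo 7. -/
def i7 : Z7 → Z7 := ![0, 1, 4, 5, 2, 3, 6]

def bit (n k : ℕ) : ZMod 2 := ((n / 2 ^ k % 2 : ℕ) : ZMod 2)

/-- Decode a nine-bit code. -/
def dec (n : ℕ) : M3 := !![bit n 0, bit n 1, bit n 2; bit n 3, bit n 4, bit n 5; bit n 6, bit n 7, bit n 8]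

/-- Encode a matrix by nine bits. -/
def code (M : M3) : ℕ :=
  (M 0 0).val + 2 * (M 0 1).val + 4 * (M 0 2).val + 8 * (M 1 0).val + 16 * (M 1 1).val +
  32 * (M 1 2).val + 64 * (M 2 0).val + 128 * (M 2 1).val + 256 * (M 2 2).val

theorem dec_code (M : M3) : dec (code M) = M := by
  have key : ∀ a b c d e f g h i : ZMod 2,
      dec (code !![a, b, c; d, e, f; g, h, i]) = !![a, b, c; d, e, f; g, h, i] := by decide +kernel
  rw [Matrix.eta_fin_three M]; exact key ..

def tone : M3 := !![0, 0, 1; 1, 0, 1; 0, 1, 0]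

def ss : M3 := !![0, 0, 1; 1, 1, 1; 1, 0, 0]

def rT (n : ℕ) : ℕ := code (dec n * tone)

def rS (n : ℕ) : ℕ := code (dec n * ss)

/-- Image of the upper triangular matrix with diagonal entry `m` and upper entry `x / m`, as a code. -/
def tbl : Z7 → Z7 → ℕ :=
  ![![0, 0, 0, 0, 0, 0, 0],
    ![273, 172, 370, 445, 478, 207, 99],
    ![380, 461, 87, 177, 410, 230, 299],
    ![117, 417, 318, 468, 159, 234, 331],
    ![117, 417, 318, 468, 159, 234, 331],
    ![380, 461, 87, 177, 410, 230, 299],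
    ![273, 172, 370, 445, 478, 207, 99]]

/-- Image of a matrix as a code. -/
def phc (a b c d : Z7) : ℕ :=
  if c = 0 then tbl a (a * b) else rT^[(d * i7 c).val] (rS (tbl (i7 c) (a * i7 c)))

def det3 (A : M3) : ZMod 2 :=
  A 0 0 * A 1 1 * A 2 2 - A 0 0 * A 1 2 * A 2 1 - A 0 1 * A 1 0 * A 2 2
    + A 0 1 * A 1 2 * A 2 0 + A 0 2 * A 1 0 * A 2 1 - A 0 2 * A 1 1 * A 2 0

/-- All residues modulo 7. -/
def els : List Z7 := [0, 1, 2, 3, 4, 5, 6]

theorem mem_els : ∀ a : Z7, a ∈ els := by decide +kernel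

def test0 (a b : Z7) : Bool :=
  let n := phc a b 0 (i7 a)
  phc a (a + b) 0 (i7 a) == rT n && phc b (-a) (i7 a) 0 == rS n && det3 (dec n) == 1 &&
    code (dec n) == n && (n != 273 || (b == 0 && (a == 1 || a == -1)))

def test1 (a c d : Z7) : Bool :=
  let b := (a * d - 1) * i7 c
  let n := phc a b c d
  phc a (a + b) c (c + d) == rT n && phc b (-a) d (-c) == rS n && det3 (dec n) == 1 &&
    code (dec n) == n && n != 273

theorem run0 : (els.all fun a => els.all fun b => a == 0 || test0 a b) = true := by decide +kernel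

theorem run1 : (els.all fun a => els.all fun c => els.all fun d => c == 0 || test1 a c d) = true := by
  decide +kernel

theorem check0 (a b : Z7) (ha : a ≠ 0) :
    phc a (a + b) 0 (i7 a) = rT (phc a b 0 (i7 a)) ∧
    phc b (-a) (i7 a) 0 = rS (phc a b 0 (i7 a)) ∧
    det3 (dec (phc a b 0 (i7 a))) = 1 ∧
    code (dec (phc a b 0 (i7 a))) = phc a b 0 (i7 a) ∧
    (phc a b 0 (i7 a) = 273 → b = 0 ∧ (a = 1 ∨ a = -1)) := by
  have h := List.all_eq_true.1 (List.all_eq_true.1 run0 a (mem_els a)) b (mem_els b)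
  simp [ha, test0, and_assoc] at h
  refine ⟨h.1, h.2.1, h.2.2.1, h.2.2.2.1, fun hn => ?_⟩
  exact h.2.2.2.2.resolve_left (by simp [hn])

theorem check1 (a c d : Z7) (hc : c ≠ 0) :
    phc a (a + (a * d - 1) * i7 c) c (c + d) = rT (phc a ((a * d - 1) * i7 c) c d) ∧
    phc ((a * d - 1) * i7 c) (-a) d (-c) = rS (phc a ((a * d - 1) * i7 c) c d) ∧
    det3 (dec (phc a ((a * d - 1) * i7 c) c d)) = 1 ∧
    code (dec (phc a ((a * d - 1) * i7 c) c d)) = phc a ((a * d - 1) * i7 c) c d ∧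
    phc a ((a * d - 1) * i7 c) c d ≠ 273 := by
  have h := List.all_eq_true.1 (List.all_eq_true.1 (List.all_eq_true.1 run1 a (mem_els a)) c
    (mem_els c)) d (mem_els d)
  simp [hc, test1, and_assoc] at h
  exact h

theorem i7_spec : ∀ a : Z7, a ≠ 0 → a * i7 a = 1 := by decide +kernel

abbrev SL7 := Matrix.SpecialLinearGroup (Fin 2) Z7
abbrev SL32 := Matrix.SpecialLinearGroup (Fin 3) (ZMod 2)

def T7 : SL7 := ⟨!![1, 1; 0, 1], by simp [Matrix.det_fin_two]⟩
def S7 : SL7 := ⟨!![0, -1; 1, 0], by simp [Matrix.det_fin_two]⟩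

theorem T7_coe : (T7 : Matrix (Fin 2) (Fin 2) Z7) = !![1, 1; 0, 1] := rfl
theorem S7_coe : (S7 : Matrix (Fin 2) (Fin 2) Z7) = !![0, -1; 1, 0] := rfl

theorem det7 (g : SL7) : g.1 0 0 * g.1 1 1 - g.1 0 1 * g.1 1 0 = 1 := by
  have := g.2; rwa [Matrix.det_fin_two] at this

/-- The value of the map to `SL(3,2)` as a matrix. -/
def phg (g : SL7) : M3 := dec (phc (g.1 0 0) (g.1 0 1) (g.1 1 0) (g.1 1 1))

theorem facts (g : SL7) :
    phg (g * T7) = phg g * tone ∧ phg (g * S7) = phg g * ss ∧ (phg g).det = 1 ∧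
    (phg g = 1 → g.1 1 0 = 0 ∧ g.1 0 1 = 0 ∧ (g.1 0 0 = 1 ∨ g.1 0 0 = -1)) := by
  have hd := det7 g
  have hT : phg (g * T7) = dec (phc (g.1 0 0) (g.1 0 0 + g.1 0 1) (g.1 1 0) (g.1 1 0 + g.1 1 1)) := by
    simp [phg, T7_coe, Matrix.mul_apply, Fin.sum_univ_two]
  have hS : phg (g * S7) = dec (phc (g.1 0 1) (-g.1 0 0) (g.1 1 1) (-g.1 1 0)) := by
    simp [phg, S7_coe, Matrix.mul_apply, Fin.sum_univ_two]
  have hdet : ∀ A : M3, det3 A = 1 → A.det = 1 := fun A h => by rw [Matrix.det_fin_three]; exact h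
  have h1 : code (1 : M3) = 273 := by decide +kernel
  rw [hT, hS, phg]
  revert hd
  generalize g.1 0 0 = a; generalize g.1 0 1 = b; generalize g.1 1 0 = c; generalize g.1 1 1 = d
  intro hd
  by_cases hc : c = 0
  · subst hc
    have ha : a ≠ 0 := by rintro rfl; simp at hd; exact absurd hd (by decide)
    have hd' : d = i7 a := by
      have e := i7_spec a ha
      linear_combination i7 a * hd - d * e
    subst hd'
    obtain ⟨h1', h2, h3, hcan, h4⟩ := check0 a b ha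
    simp only [zero_add, neg_zero]
    exact ⟨by rw [h1', rT, dec_code], by rw [h2, rS, dec_code], hdet _ h3,
      fun h => ⟨trivial, h4 (by rw [← hcan, h, h1])⟩⟩
  · have hb : b = (a * d - 1) * i7 c := by
      have e := i7_spec c hc
      linear_combination -i7 c * hd - b * e
    subst hb
    obtain ⟨h1', h2, h3, hcan, h4⟩ := check1 a c d hc
    exact ⟨by rw [h1', rT, dec_code], by rw [h2, rS, dec_code], hdet _ h3,
      fun h => absurd (by rw [← hcan, h, h1]) h4⟩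

def phS (g : SL7) : SL32 := ⟨phg g, (facts g).2.2.1⟩

theorem phg_one : phg 1 = 1 := by decide +kernel

/-- The multiplicative locus of `phS`. -/
def locus : Subgroup SL7 where
  carrier := {h | ∀ g, phS (g * h) = phS g * phS h}
  one_mem' := fun g => by
    have : phS 1 = 1 := Subtype.ext phg_one
    simp [this]
  mul_mem' := fun {x y} hx hy g => by rw [← mul_assoc, hy, hx, hy x, mul_assoc]
  inv_mem' := fun {x} hx g => by
    have h1 : phS g = phS (g * x⁻¹) * phS x := by rw [← hx, inv_mul_cancel_right]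
    have h2 : phS (1 : SL7) = phS x⁻¹ * phS x := by rw [← hx, inv_mul_cancel]
    have h3 : phS (1 : SL7) = 1 := Subtype.ext phg_one
    rw [h3] at h2
    rw [h1, mul_assoc, mul_eq_one_comm.1 h2.symm, mul_one]

theorem ph_T7 : phg T7 = tone := by decide +kernel
theorem ph_S7 : phg S7 = ss := by decide +kernel

theorem T7_mem : T7 ∈ locus := fun g => Subtype.ext (by
  show phg (g * T7) = phg g * phg T7
  rw [(facts g).1, ph_T7])

theorem S7_mem : S7 ∈ locus := fun g => Subtype.ext (by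
  show phg (g * S7) = phg g * phg S7
  rw [(facts g).2.1, ph_S7])

/-- Unipotent element. -/
def Tx (x : Z7) : SL7 := ⟨!![1, x; 0, 1], by simp [Matrix.det_fin_two]⟩

theorem Tx_coe (x : Z7) : (Tx x : Matrix (Fin 2) (Fin 2) Z7) = !![1, x; 0, 1] := rfl

theorem Tx_mem (x : Z7) : Tx x ∈ locus := by
  have h : ∀ x : Z7, Tx x = T7 ^ x.val := by decide +kernel
  rw [h]; exact pow_mem T7_mem _

theorem diag_word (l i : Z7) (h : l * i = 1) :
    ((Tx l * S7 * Tx i * S7 * Tx l * S7 * (S7 * S7) : SL7) : Matrix (Fin 2) (Fin 2) Z7) =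
      !![l, 0; 0, i] := by
  ext r s
  fin_cases r <;> fin_cases s <;>
    simp [Tx_coe, S7_coe, Matrix.mul_apply, Fin.sum_univ_two] <;> grind

theorem locus_top (g : SL7) : g ∈ locus := by
  have hd := det7 g
  have hw : ∀ l : Z7, l ≠ 0 →
      ∃ w ∈ locus, ((w : SL7) : Matrix (Fin 2) (Fin 2) Z7) = !![l, 0; 0, i7 l] := fun l hl =>
    ⟨_, by repeat' apply mul_mem
           all_goals first | exact S7_mem | exact Tx_mem _, diag_word l (i7 l) (i7_spec l hl)⟩
  by_cases hc : g.1 1 0 = 0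
  · have ha : g.1 0 0 ≠ 0 := by intro h; simp [h, hc] at hd; exact absurd hd (by decide)
    obtain ⟨w, hw1, hw2⟩ := hw _ ha
    have e := i7_spec _ ha
    rw [hc] at hd
    have hg : g = Tx (g.1 0 0 * g.1 0 1) * w := by
      apply Subtype.ext
      rw [Matrix.SpecialLinearGroup.coe_mul, hw2]
      ext r s
      fin_cases r <;> fin_cases s <;>
        simp [Tx_coe, Matrix.mul_apply, Fin.sum_univ_two, hc] <;> grind
    rw [hg]
    exact mul_mem (Tx_mem _) hw1
  · have e := i7_spec _ hc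
    obtain ⟨w, hw1, hw2⟩ := hw (i7 (g.1 1 0)) (by intro h; simp [h] at e; exact absurd e (by decide))
    have hi : i7 (i7 (g.1 1 0)) = g.1 1 0 := by
      have : ∀ x : Z7, i7 (i7 x) = x := by decide +kernel
      exact this _
    rw [hi] at hw2
    have hg : g = Tx (g.1 0 0 * i7 (g.1 1 0)) * w * S7 * Tx (g.1 1 1 * i7 (g.1 1 0)) := by
      apply Subtype.ext
      simp only [Matrix.SpecialLinearGroup.coe_mul, hw2]
      ext r s
      fin_cases r <;> fin_cases s <;>
        simp [Tx_coe, S7_coe, Matrix.mul_apply, Fin.sum_univ_two] <;> grind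
    rw [hg]
    exact mul_mem (mul_mem (mul_mem (Tx_mem _) hw1) S7_mem) (Tx_mem _)

def phi : SL7 →* SL32 := MonoidHom.mk' phS fun g h => locus_top h g

theorem phi_ker {g : SL7} (h : g ∈ phi.ker) : g = 1 ∨ g = -1 := by
  have h' : phS g = 1 := h
  obtain ⟨h1, h2, h3⟩ := (facts g).2.2.2 (show phg g = 1 from congrArg (fun A : SL32 => (A : M3)) h')
  have hd := det7 g
  rw [h1, h2] at hd
  rcases h3 with h3 | h3 <;> rw [h3] at hd
  · left; ext i j; fin_cases i <;> fin_cases j <;> simp_all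
  · right; ext i j; fin_cases i <;> fin_cases j <;> simp_all <;> linear_combination -hd

/-- Parameters for 168 elements of the image. -/
def par : List (Z7 × Z7 × Z7 × Z7) :=
  [(1, 0, 0, 1), (2, 0, 0, 4), (3, 0, 0, 5), (1, 1, 0, 1), (2, 4, 0, 4), (3, 5, 0, 5),
   (1, 2, 0, 1), (2, 1, 0, 4), (3, 3, 0, 5), (1, 3, 0, 1), (2, 5, 0, 4), (3, 1, 0, 5),
   (1, 4, 0, 1), (2, 2, 0, 4), (3, 6, 0, 5), (1, 5, 0, 1), (2, 6, 0, 4), (3, 4, 0, 5),
   (1, 6, 0, 1), (2, 3, 0, 4), (3, 2, 0, 5), (0, 6, 1, 0), (0, 6, 1, 1), (0, 6, 1, 2),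
   (0, 6, 1, 3), (0, 6, 1, 4), (0, 6, 1, 5), (0, 6, 1, 6), (0, 3, 2, 0), (0, 3, 2, 2),
   (0, 3, 2, 4), (0, 3, 2, 6), (0, 3, 2, 1), (0, 3, 2, 3), (0, 3, 2, 5), (0, 2, 3, 0),
   (0, 2, 3, 3), (0, 2, 3, 6), (0, 2, 3, 2), (0, 2, 3, 5), (0, 2, 3, 1), (0, 2, 3, 4),
   (1, 6, 1, 0), (1, 0, 1, 1), (1, 1, 1, 2), (1, 2, 1, 3), (1, 3, 1, 4), (1, 4, 1, 5),
   (1, 5, 1, 6), (2, 3, 2, 0), (2, 5, 2, 2), (2, 0, 2, 4), (2, 2, 2, 6), (2, 4, 2, 1),
   (2, 6, 2, 3), (2, 1, 2, 5), (3, 2, 3, 0), (3, 5, 3, 3), (3, 1, 3, 6), (3, 4, 3, 2),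
   (3, 0, 3, 5), (3, 3, 3, 1), (3, 6, 3, 4), (2, 6, 1, 0), (2, 1, 1, 1), (2, 3, 1, 2),
   (2, 5, 1, 3), (2, 0, 1, 4), (2, 2, 1, 5), (2, 4, 1, 6), (4, 3, 2, 0), (4, 0, 2, 2),
   (4, 4, 2, 4), (4, 1, 2, 6), (4, 5, 2, 1), (4, 2, 2, 3), (4, 6, 2, 5), (6, 2, 3, 0),
   (6, 1, 3, 3), (6, 0, 3, 6), (6, 6, 3, 2), (6, 5, 3, 5), (6, 4, 3, 1), (6, 3, 3, 4),
   (3, 6, 1, 0), (3, 2, 1, 1), (3, 5, 1, 2), (3, 1, 1, 3), (3, 4, 1, 4), (3, 0, 1, 5),
   (3, 3, 1, 6), (6, 3, 2, 0), (6, 2, 2, 2), (6, 1, 2, 4), (6, 0, 2, 6), (6, 6, 2, 1),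
   (6, 5, 2, 3), (6, 4, 2, 5), (2, 2, 3, 0), (2, 4, 3, 3), (2, 6, 3, 6), (2, 1, 3, 2),
   (2, 3, 3, 5), (2, 5, 3, 1), (2, 0, 3, 4), (4, 6, 1, 0), (4, 3, 1, 1), (4, 0, 1, 2),
   (4, 4, 1, 3), (4, 1, 1, 4), (4, 5, 1, 5), (4, 2, 1, 6), (1, 3, 2, 0), (1, 4, 2, 2),
   (1, 5, 2, 4), (1, 6, 2, 6), (1, 0, 2, 1), (1, 1, 2, 3), (1, 2, 2, 5), (5, 2, 3, 0),
   (5, 0, 3, 3), (5, 5, 3, 6), (5, 3, 3, 2), (5, 1, 3, 5), (5, 6, 3, 1), (5, 4, 3, 4),
   (5, 6, 1, 0), (5, 4, 1, 1), (5, 2, 1, 2), (5, 0, 1, 3), (5, 5, 1, 4), (5, 3, 1, 5),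
   (5, 1, 1, 6), (3, 3, 2, 0), (3, 6, 2, 2), (3, 2, 2, 4), (3, 5, 2, 6), (3, 1, 2, 1),
   (3, 4, 2, 3), (3, 0, 2, 5), (1, 2, 3, 0), (1, 3, 3, 3), (1, 4, 3, 6), (1, 5, 3, 2),
   (1, 6, 3, 5), (1, 0, 3, 1), (1, 1, 3, 4), (6, 6, 1, 0), (6, 5, 1, 1), (6, 4, 1, 2),
   (6, 3, 1, 3), (6, 2, 1, 4), (6, 1, 1, 5), (6, 0, 1, 6), (5, 3, 2, 0), (5, 1, 2, 2),
   (5, 6, 2, 4), (5, 4, 2, 6), (5, 2, 2, 1), (5, 0, 2, 3), (5, 5, 2, 5), (4, 2, 3, 0),
   (4, 6, 3, 3), (4, 3, 3, 6), (4, 0, 3, 2), (4, 4, 3, 5), (4, 1, 3, 1), (4, 5, 3, 4)]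

theorem par_det : ∀ p ∈ par, p.1 * p.2.2.2 - p.2.1 * p.2.2.1 = 1 := by
  have h : (par.all fun p => p.1 * p.2.2.2 - p.2.1 * p.2.2.1 == 1) = true := by decide +kernel
  intro p hp
  exact beq_iff_eq.1 (List.all_eq_true.1 h p hp)

theorem par_codes :
    ((par.map fun p => code (dec (phc p.1 p.2.1 p.2.2.1 p.2.2.2))).Nodup) ∧ par.length = 168 := by
  decide +kernel

theorem card_sl32 : Nat.card SL32 ≤ 168 := by
  have h : Nat.card (GL (Fin 3) (ZMod 2)) = 168 := by
    rw [Matrix.card_GL_field, Fin.prod_univ_three, ZMod.card]; rfl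
  rw [← h]
  exact Nat.card_le_card_of_injective _ Matrix.SpecialLinearGroup.toGL_injective

theorem range_card : 168 ≤ Nat.card phi.range := by
  have h : ∀ i : Fin par.length, ∃ g : SL7, phg g =
      dec (phc (par.get i).1 (par.get i).2.1 (par.get i).2.2.1 (par.get i).2.2.2) := by
    intro i
    have := par_det _ (List.get_mem par i)
    exact ⟨⟨!![(par.get i).1, (par.get i).2.1; (par.get i).2.2.1, (par.get i).2.2.2],
      by simpa [Matrix.det_fin_two] using this⟩, by simp [phg]⟩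
  choose f hf using h
  let F : Fin par.length → phi.range := fun i => ⟨phi (f i), f i, rfl⟩
  have hF : Function.Injective F := by
    intro i j hij
    have h1 : phg (f i) = phg (f j) := congrArg (fun x : phi.range => x.1.1) hij
    rw [hf, hf] at h1
    have h2 := par_codes.1
    rw [List.nodup_map_iff_inj_on (List.Nodup.of_map _ h2)] at h2
    exact (List.Nodup.of_map _ par_codes.1).injective_get
      (h2 _ (List.get_mem par i) _ (List.get_mem par j) (congrArg code h1))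
  have := Nat.card_le_card_of_injective F hF
  simpa [par_codes.2] using this

theorem card_eq : Nat.card SL32 = 168 :=
  le_antisymm card_sl32 (range_card.trans (Subgroup.card_le_card_group _))

theorem phi_surjective : Function.Surjective phi := by
  rw [← MonoidHom.range_eq_top]
  apply Subgroup.eq_top_of_card_eq
  have := Subgroup.card_le_card_group phi.range
  have := range_card
  rw [card_eq] at *
  omega

theorem neg_one_commutator : (-1 : SL7) ∈ commutator SL7 := by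
  let j : SL7 := ⟨!![2, 3; 3, -2], by decide +kernel⟩
  have h : ⁅S7, j⁆ = -1 := by decide +kernel
  rw [← h]
  exact Subgroup.commutator_mem_commutator (Subgroup.mem_top _) (Subgroup.mem_top _)

/-- Element of order 3 of `SL(3,2)`. -/
def e3 : SL32 := ⟨!![0, 1, 0; 0, 0, 1; 1, 0, 0], by decide +kernel⟩
def e7 : SL32 := ⟨!![0, 0, 1; 1, 0, 1; 0, 1, 0], by decide +kernel⟩
def ea : SL32 := ⟨!![1, 1, 0; 0, 1, 1; 0, 0, 1], by decide +kernel⟩
def ey : SL32 := ⟨!![1, 1, 0; 0, 1, 0; 0, 0, 1], by decide +kernel⟩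

/-- Upper unitriangular subgroup of `SL(3,2)`. -/
def D8 : Subgroup SL32 where
  carrier := {A | A.1 0 0 = 1 ∧ A.1 1 1 = 1 ∧ A.1 2 2 = 1 ∧ A.1 1 0 = 0 ∧ A.1 2 0 = 0 ∧ A.1 2 1 = 0}
  one_mem' := by simp
  mul_mem' := by
    rintro A B ⟨a1, a2, a3, a4, a5, a6⟩ ⟨b1, b2, b3, b4, b5, b6⟩
    simp [Matrix.mul_apply, Fin.sum_univ_three, a1, a2, a3, a4, a5, a6, b1, b2, b3, b4, b5, b6]
  inv_mem' := by
    rintro A ⟨a1, a2, a3, a4, a5, a6⟩
    simp [Matrix.SpecialLinearGroup.coe_inv, Matrix.adjugate_fin_three, a1, a2, a3, a4, a5, a6]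

def uni (x y z : ZMod 2) : SL32 := ⟨!![1, x, y; 0, 1, z; 0, 0, 1], by simp [Matrix.det_fin_three]⟩

theorem card_D8 : Nat.card D8 = 8 := by
  let f : D8 ≃ ZMod 2 × ZMod 2 × ZMod 2 :=
    { toFun := fun A => (A.1.1 0 1, A.1.1 0 2, A.1.1 1 2)
      invFun := fun p => ⟨uni p.1 p.2.1 p.2.2, ⟨rfl, rfl, rfl, rfl, rfl, rfl⟩⟩
      left_inv := fun ⟨A, a1, a2, a3, a4, a5, a6⟩ => by
        apply Subtype.ext; apply Subtype.ext
        ext i j
        fin_cases i <;> fin_cases j <;> simp [uni, a1, a2, a3, a4, a5, a6]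
      right_inv := fun p => by simp [uni] }
  rw [Nat.card_congr f]
  simp [Nat.card_eq_fintype_card]

theorem D8_le : D8 ≤ Subgroup.closure {ea, ey} := by
  intro A hA
  obtain ⟨a1, a2, a3, a4, a5, a6⟩ := hA
  have h : A = uni (A.1 0 1) (A.1 0 2) (A.1 1 2) := by
    apply Subtype.ext
    ext i j
    fin_cases i <;> fin_cases j <;> simp [uni, a1, a2, a3, a4, a5, a6]
  have key : ∀ x y z, ∃ i : Fin 4, ∃ j : Fin 2, uni x y z = ea ^ i.val * ey ^ j.val := by decide +kernel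
  obtain ⟨i, j, hij⟩ := key (A.1 0 1) (A.1 0 2) (A.1 1 2)
  rw [h, hij]
  exact mul_mem (pow_mem (Subgroup.subset_closure (Set.mem_insert ea _)) _)
    (pow_mem (Subgroup.subset_closure (Set.mem_insert_of_mem ea (Set.mem_singleton ey))) _)

theorem e_orders : orderOf e3 = 3 ∧ orderOf e7 = 7 ∧ e3 ^ 3 = 1 := by
  refine ⟨orderOf_eq_prime (p := 3) (hp := ⟨by norm_num⟩) (by decide +kernel) (by decide +kernel),
    orderOf_eq_prime (p := 7) (hp := ⟨by norm_num⟩) (by decide +kernel) (by decide +kernel),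
    by decide +kernel⟩

theorem index_eq (H : Subgroup SL32) (k : ℕ) (h : Nat.card H = k) : k * H.index = 168 := by
  rw [← h, Subgroup.card_mul_index, card_eq]

universe u

theorem upper {Γ : Type u} [Group Γ] [Finite Γ] (σ : Γ →* SL32) (hσ : Cfsg.IsStemExtension σ) :
    ∃ π : Multiplicative (ZMod 2) →* σ.ker, Function.Surjective π := by
  obtain ⟨o3, o7, _⟩ := e_orders
  have i8 := index_eq _ 8 card_D8
  have h3 : ¬ 3 ∣ Nat.card σ.ker := by
    have i3 := index_eq (Subgroup.zpowers e3) 3 (by rw [Nat.card_zpowers, o3])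
    exact @CfsgLib.Schur.not_dvd_card_ker_of_isCyclic _ _ _ _ σ hσ _ (Subgroup.zpowers e3) _ 3
      ⟨by norm_num⟩ (by omega)
  have h7 : ¬ 7 ∣ Nat.card σ.ker := by
    have i7' := index_eq (Subgroup.zpowers e7) 7 (by rw [Nat.card_zpowers, o7])
    exact @CfsgLib.Schur.not_dvd_card_ker_of_isCyclic _ _ _ _ σ hσ _ (Subgroup.zpowers e7) _ 7
      ⟨by norm_num⟩ (by omega)
  obtain ⟨a, ha⟩ := hσ.1 ea
  obtain ⟨y, hy⟩ := hσ.1 ey
  have hyk : y * a * y⁻¹ * a ∈ σ.ker := by
    rw [MonoidHom.mem_ker]; simp only [map_mul, map_inv, ha, hy]; decide +kernel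
  have ha4 : a ^ 4 ∈ σ.ker := by
    rw [MonoidHom.mem_ker]; simp only [map_pow, ha]; decide +kernel
  have hR : D8.comap σ ≤ σ.ker ⊔ Subgroup.closure {a, y} := by
    intro g hg
    have : σ g ∈ (Subgroup.closure {a, y}).map σ := by
      rw [MonoidHom.map_closure, Set.image_pair, ha, hy]; exact D8_le hg
    obtain ⟨b, hb, hbg⟩ := this
    have : g * b⁻¹ ∈ σ.ker := by simp [MonoidHom.mem_ker, hbg]
    have h := Subgroup.mul_mem _ (Subgroup.mem_sup_left this : _ ∈ σ.ker ⊔ Subgroup.closure {a, y})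
      (Subgroup.mem_sup_right hb)
    simpa using h
  have hx := CfsgLib.Schur.commutator_pow_eq_one hσ.2.1 a y hyk ha4
  have hle := CfsgLib.Schur.commutator_le_zpowers hσ.2.1 _ a y hR hyk
  obtain ⟨x, hxdef⟩ : ∃ x, x = ⁅a⁻¹, y⁆ := ⟨_, rfl⟩
  rw [← hxdef] at hx hle
  have hx2 : x ^ 2 ∈ σ.ker := by
    rw [MonoidHom.mem_ker, hxdef, map_pow, map_commutatorElement, map_inv, ha, hy]
    decide +kernel
  have hx1 : x ∉ σ.ker := by
    rw [MonoidHom.mem_ker, hxdef, map_commutatorElement, map_inv, ha, hy]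
    decide +kernel
  have key : ∀ z ∈ σ.ker, z = 1 ∨ z = x ^ 2 := by
    intro z hz
    have hco : (orderOf z).Coprime D8.index := by
      have h21 : D8.index = 21 := by omega
      rw [h21, show (21 : ℕ) = 3 * 7 by norm_num]
      have hd : orderOf z ∣ Nat.card σ.ker := Subgroup.orderOf_dvd_natCard _ hz
      exact (((Nat.Prime.coprime_iff_not_dvd (by norm_num)).2 fun h => h3 (h.trans hd)).mul_left
        ((Nat.Prime.coprime_iff_not_dvd (by norm_num)).2 fun h => h7 (h.trans hd))).symm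
    obtain ⟨i, rfl⟩ := hle (CfsgLib.Schur.mem_commutator_comap hσ D8 hz hco)
    have hx4 : x ^ (4 : ℤ) = 1 := by exact_mod_cast hx
    have hi : x ^ i = x ^ (i % 4) := by
      conv_lhs => rw [← Int.ediv_mul_add_emod i 4, _root_.zpow_add, mul_comm (i / 4), _root_.zpow_mul, hx4,
        _root_.one_zpow, one_mul]
    beta_reduce at hz ⊢
    rw [hi] at hz ⊢
    have h0 := Int.emod_nonneg i (b := 4) (by norm_num)
    have h4 := Int.emod_lt_of_pos i (b := 4) (by norm_num)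
    obtain h | h | h | h : i % 4 = 0 ∨ i % 4 = 1 ∨ i % 4 = 2 ∨ i % 4 = 3 := by omega
    all_goals rw [h] at hz ⊢
    · left; simp
    · exact absurd (by simpa using hz) hx1
    · right; norm_cast
    · exfalso; apply hx1
      have : x = x ^ (3 : ℤ) * (x ^ 2)⁻¹ := by group
      rw [this]; exact mul_mem hz (inv_mem hx2)
  let k : σ.ker := ⟨x ^ 2, hx2⟩
  have hk2 : k ^ 2 = 1 := Subtype.ext (by simp [k, ← pow_mul, hx])
  let f : ZMod 2 →+ Additive σ.ker := ZMod.lift 2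
    ⟨(zmultiplesHom (Additive σ.ker)) (Additive.ofMul k), by
      simp only [zmultiplesHom_apply, Nat.cast_ofNat]
      apply Additive.toMul.injective
      simpa using hk2⟩
  refine ⟨f.toMultiplicativeLeft, ?_⟩
  rintro ⟨z, hz⟩
  rcases key z hz with rfl | rfl
  · exact ⟨1, by simp; rfl⟩
  · refine ⟨Multiplicative.ofAdd 1, ?_⟩
    show Additive.toMul (f ((1 : ℤ) : ZMod 2)) = _
    simp only [f, ZMod.lift_coe, zmultiplesHom_apply, one_smul, toMul_ofMul]
    rfl

/-- Exceptional Schur multiplier of L₃(2): if F has two elements, the Schur multiplier of PSL₃(F) is cyclic of order 2 (here the Schur multiplier is described through stem extensions, as in the definitions). -/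
theorem result {F : Type*} [Field F] [Fintype F] (hF : Fintype.card F = 2) : Cfsg.HasCyclicSchurMultiplier (Matrix.ProjectiveSpecialLinearGroup (Fin 3) F) 2 := by
  let e : F ≃+* ZMod 2 := (ZMod.ringEquivOfPrime F Nat.prime_two hF).symm
  let E : Matrix.SpecialLinearGroup (Fin 3) F ≃* SL32 :=
    { toFun := Matrix.SpecialLinearGroup.map e.toRingHom
      invFun := Matrix.SpecialLinearGroup.map e.symm.toRingHom
      left_inv := fun g => by ext i j; simp
      right_inv := fun g => by ext i j; simp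
      map_mul' := map_mul _ }
  have hu : ∀ r : F, r ≠ 0 → r = 1 := by
    intro r hr
    apply e.injective
    have : ∀ s : ZMod 2, s ≠ 0 → s = 1 := by decide
    simpa using this (e r) (by simpa using hr)
  have hZ : Subgroup.center (Matrix.SpecialLinearGroup (Fin 3) F) = ⊥ := by
    rw [eq_bot_iff]
    intro A hA
    obtain ⟨r, hr1, hr⟩ := Matrix.SpecialLinearGroup.mem_center_iff.1 hA
    have : r = 1 := hu r (by rintro rfl; simp at hr1)
    subst this
    rw [Subgroup.mem_bot]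
    exact Subtype.ext (by rw [← hr]; simp)
  let Q : Matrix.ProjectiveSpecialLinearGroup (Fin 3) F ≃* SL32 :=
    ((QuotientGroup.quotientMulEquivOfEq hZ).trans QuotientGroup.quotientBot).trans E
  refine CfsgLib.Schur.hasSchurMultiplier_congr Q
    ⟨ULift SL7, inferInstance, inferInstance, phi.comp MulEquiv.ulift.toMonoidHom, ?_, ?_⟩
    fun Δ _ _ σ hσ => upper σ hσ
  · refine ⟨phi_surjective.comp MulEquiv.ulift.surjective, fun g hg => ?_, fun g hg => ?_⟩
    · have : g.down = 1 ∨ g.down = -1 := phi_ker hg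
      rw [Subgroup.mem_center_iff]
      intro h
      apply ULift.ext
      rcases this with e | e <;> simp [e]
    · rcases phi_ker (g := g.down) hg with e | e
      · rw [show g = 1 from ULift.ext _ _ e]; exact one_mem _
      · have hmap : commutator SL7 ≤ (commutator (ULift SL7)).comap MulEquiv.ulift.symm.toMonoidHom := by
          rw [commutator_def, Subgroup.commutator_le]
          intro a _ b _
          rw [Subgroup.mem_comap, map_commutatorElement]
          exact Subgroup.commutator_mem_commutator (Subgroup.mem_top _) (Subgroup.mem_top _)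
        have h := hmap neg_one_commutator
        rw [Subgroup.mem_comap] at h
        rw [show g = MulEquiv.ulift.symm (-1 : SL7) from ULift.ext _ _ e]
        exact h
  · let m : (phi.comp MulEquiv.ulift.toMonoidHom).ker := ⟨MulEquiv.ulift.symm (-1), by
      rw [MonoidHom.mem_ker]; show phi (-1) = 1; exact Subtype.ext (by decide +kernel)⟩
    have hne : (-1 : SL7) ≠ 1 := by decide +kernel
    have hcard : Nat.card (phi.comp MulEquiv.ulift.toMonoidHom).ker = 2 := by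
      rw [Nat.card_eq_two_iff]
      refine ⟨1, m, fun h => hne (congrArg (fun x => x.1.down) h).symm, ?_⟩
      ext ⟨g, hg⟩
      simp only [Set.mem_insert_iff, Set.mem_singleton_iff, Set.mem_univ, iff_true]
      rcases phi_ker (g := g.down) hg with e | e
      · exact Or.inl (Subtype.ext (ULift.ext _ _ e))
      · exact Or.inr (Subtype.ext (ULift.ext _ _ e))
    have : IsCyclic (phi.comp MulEquiv.ulift.toMonoidHom).ker := isCyclic_of_prime_card hcard
    exact ⟨mulEquivOfCyclicCardEq (by rw [hcard]; simp)⟩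

end Cfsg.Agent.S2087
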