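import Cfsg.Statements.S2088
import Cfsg.Agent.L34Mult.Bound
import Cfsg.Agent.SchurMult.Multiplier

set_option autoImplicit false
open Cfsg

namespace Cfsg.Agent.S2088

open CfsgLib.CosetEnum.Suz.G2

theorem nonempty_pslEquiv {K L : Type*} [Field K] [Field L] (e : K ≃+* L) :
    Nonempty (Matrix.ProjectiveSpecialLinearGroup (Fin 3) K ≃* Matrix.ProjectiveSpecialLinearGroup (Fin 3) L) := by
  let f := Matrix.SpecialLinearGroup.map (n := Fin 3) (e : K →+* L)
  have hf : Function.Bijective f := by
    refine ⟨fun x y h => Subtype.ext (Matrix.ext fun i j => e.injective ?_), fun y => ?_⟩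
    · exact congrFun (congrFun (congrArg Subtype.val h) i) j
    · exact ⟨Matrix.SpecialLinearGroup.map (e.symm : L →+* K) y,
        Subtype.ext (Matrix.ext fun i j => e.apply_symm_apply _)⟩
  let g := MulEquiv.ofBijective f hf
  refine ⟨QuotientGroup.congr _ _ g ?_⟩
  ext y
  simp only [Subgroup.mem_map, Subgroup.mem_center_iff]
  constructor
  · rintro ⟨x, hx, rfl⟩ z
    obtain ⟨z, rfl⟩ := g.surjective z
    simp [← map_mul, hx z]
  · intro hy
    obtain ⟨x, rfl⟩ := g.surjective y
    exact ⟨x, fun z => g.injective (by simpa using hy (g z)), rfl⟩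

/-- Exceptional Schur multiplier: over the field with 4 elements, PSL₃ has Schur multiplier isomorphic to the product of cyclic groups of orders 3, 4 and 4 (order 48, not cyclic; here the Schur multiplier is described through stem extensions, as in the definitions). -/
theorem result {F : Type*} [Field F] [Fintype F] (hF : Fintype.card F = 4) : Cfsg.HasSchurMultiplier (Matrix.ProjectiveSpecialLinearGroup (Fin 3) F) (Multiplicative (ZMod 3 × ZMod 4 × ZMod 4)) := by
  obtain ⟨e⟩ := nonempty_pslEquiv (FiniteField.ringEquivOfCardEq (K := F4) (K' := F) (F4.card_eq.trans hF.symm))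
  exact CfsgLib.SchurMult.hasSchurMultiplier_congr_left e CfsgLib.L34Mult.hasSchurMultiplier_P3

end Cfsg.Agent.S2088
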