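import Cfsg.Statements.S2089
import Cfsg.Agent.SchurClassical.UnitDefiningTwo
import Cfsg.Agent.SchurClassical.UnitSmall

set_option autoImplicit false
open Cfsg

namespace Cfsg.Agent.S2089

/-- Schur multipliers of the unitary groups: for n ≥ 3 and a field F with q² elements, (n, q) ≠ (3, 2), apart from the exceptional pairs (n, q) = (4, 2), (4, 3), (6, 2), the Schur multiplier of PSU_n(q) is cyclic of order gcd(n, q + 1); here the Schur multiplier is described through stem extensions, as in the definitions. -/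
theorem result {F : Type*} [Field F] [Fintype F] (n q : ℕ) (hF : Fintype.card F = q ^ 2) (hn : 3 ≤ n) (h3 : ¬ (n = 3 ∧ q = 2)) (hexc : (n, q) ∉ ({(4, 2), (4, 3), (6, 2)} : Set (ℕ × ℕ))) : Cfsg.HasCyclicSchurMultiplier (Cfsg.PSU n F q) (Nat.gcd n (q + 1)) := by
  classical
  obtain ⟨p, hcp⟩ := CharP.exists F
  obtain ⟨f, hp, hcard⟩ := FiniteField.card F p
  haveI := Fact.mk hp
  have hq := CfsgLib.Unitary.two_le_q hF
  have hperf := CfsgLib.Unitary.commutator_SU_eq_top hF hn h3
  simp only [Set.mem_insert_iff, Set.mem_singleton_iff, Prod.mk.injEq, not_or] at hexc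
  have hno : ∀ r, r.Prime → CfsgLib.SchurClassical.NoMult r ↥(Cfsg.SU n F q) := by
    intro r hr
    by_cases hne : r = p
    · subst hne
      obtain ⟨m, rfl⟩ : ∃ m, n = m + 2 := ⟨n - 2, by omega⟩
      by_cases h : 3 ≤ q ∨ m % 3 ≠ 1
      · exact CfsgLib.SchurClassical.Un.noMult_su_defining hF r (by omega) (by omega) (by omega) h
      · exact CfsgLib.SchurClassical.Un.noMult_su_defining_two hF r (by omega) (by omega) (by omega)
    · exact CfsgLib.SchurClassical.Un.noMult_su_cross hF p hr hne n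
  have hcardc : Nat.card (Subgroup.center ↥(Cfsg.SU n F q)) = Nat.gcd n (q + 1) :=
    CfsgLib.Unitary.card_center_SU hF (by omega)
  let i₀ : Fin n := ⟨0, by omega⟩
  haveI hcyc : IsCyclic ↥(Subgroup.center ↥(Cfsg.SU n F q)) := by
    have hsc : ∀ A : ↥(Subgroup.center ↥(Cfsg.SU n F q)), ∃ c : F,
        ((A.1 : Matrix.SpecialLinearGroup (Fin n) F) : Matrix (Fin n) (Fin n) F) = Matrix.scalar (Fin n) c :=
      fun A => (CfsgLib.Unitary.mem_center_SU_iff hF (by omega) A.1).1 A.2
    refine isCyclic_of_subgroup_isDomain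
      (⟨⟨fun A => ((A.1 : Matrix.SpecialLinearGroup (Fin n) F) : Matrix (Fin n) (Fin n) F) i₀ i₀, by simp⟩,
        fun A B => ?_⟩ : ↥(Subgroup.center ↥(Cfsg.SU n F q)) →* F) fun A B h => ?_
    · obtain ⟨a, ha⟩ := hsc A
      obtain ⟨b, hb⟩ := hsc B
      show (((A.1 : Matrix.SpecialLinearGroup (Fin n) F) : Matrix (Fin n) (Fin n) F) *
        ((B.1 : Matrix.SpecialLinearGroup (Fin n) F) : Matrix (Fin n) (Fin n) F)) i₀ i₀ = _
      simp [ha, hb]
    · obtain ⟨a, ha⟩ := hsc A
      obtain ⟨b, hb⟩ := hsc B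
      have h' : ((A.1 : Matrix.SpecialLinearGroup (Fin n) F) : Matrix (Fin n) (Fin n) F) i₀ i₀ =
          ((B.1 : Matrix.SpecialLinearGroup (Fin n) F) : Matrix (Fin n) (Fin n) F) i₀ i₀ := h
      rw [ha, hb] at h'
      simp at h'
      exact Subtype.ext (Subtype.ext (Subtype.ext (by rw [ha, hb, h'])))
  let q' := QuotientGroup.mk' (Subgroup.center ↥(Cfsg.SU n F q))
  have hk : q'.ker = Subgroup.center ↥(Cfsg.SU n F q) := QuotientGroup.ker_mk' _
  have hstem : Cfsg.IsStemExtension q' :=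
    ⟨QuotientGroup.mk'_surjective _, hk.le, by rw [hperf]; exact le_top⟩
  haveI : IsCyclic q'.ker := by rw [hk]; exact hcyc
  exact CfsgLib.SchurClassical.hasSchurMultiplier_of_cover q' hstem hperf hno
    (mulEquivOfCyclicCardEq (by
      rw [Nat.card_congr Multiplicative.toAdd, Nat.card_zmod, hk, hcardc]))

end Cfsg.Agent.S2089
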