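import Cfsg.Statements.S2094
import Cfsg.Agent.SchurOrth.OddBound
import Cfsg.Agent.SchurOrth.SpinCover
import Cfsg.Agent.SchurOrth.Existence

set_option autoImplicit false
open Cfsg

namespace Cfsg.Agent.S2094

open CfsgLib.SchurOrth CfsgLib.OrthGeo Matrix in
/-- Schur multipliers of the odd-dimensional orthogonal groups: for m ≥ 3 and a field F of odd order q with (m, q) ≠ (3, 3), the Schur multiplier of PΩ_(2m+1)(F) (for the form x₀² + Σ xᵢyᵢ) is cyclic of order 2 = gcd(2, q − 1); here the Schur multiplier is described through stem extensions, as in the definitions. -/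
theorem result {F : Type*} [Field F] [Fintype F] {q : ℕ} (hF : Fintype.card F = q) (hq : Odd q) (m : ℕ) (hm : 3 ≤ m) (hexc : ¬ (m = 3 ∧ q = 3)) : Cfsg.HasCyclicSchurMultiplier (Cfsg.POmega F (Cfsg.quadFormOdd m F)) 2 := by
  obtain ⟨n, rfl⟩ : ∃ n, m = n + 1 := ⟨m - 1, by omega⟩
  have h2 : (2 : F) ≠ 0 := Ring.two_ne_zero fun h => by
    have := (FiniteField.even_card_iff_char_two (F := F)).1 h
    rw [hF] at this
    exact absurd (Nat.odd_iff.1 hq) (by omega)
  have hexc' : ¬ (n = 2 ∧ Nat.card F = 3) := fun h =>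
    hexc ⟨by omega, by rw [← hF, ← Nat.card_eq_fintype_card]; exact h.2⟩
  have hQ := isNondegenerateQuadraticForm_quadFormOdd (n + 1) h2
  obtain ⟨a, b, c, ha, hb, hc, hab, hac, hbc⟩ := (oddPolar n h2).exists_orth_triple (by omega)
  obtain ⟨Γ, _, _, θ, hs, hθc, hperf, hne⟩ := exists_spinCover hQ h2 (by simp; omega)
    (ha ▸ one_ne_zero) (hb.trans ha.symm) (hc.trans ha.symm) hab hac hbc
  refine hasSchurMultiplier_of_bound _
    (fun Γ _ _ σ hσ => exists_surj_odd n h2 (by omega) hexc' σ hσ) (isStem_prΩ hs hθc hperf) ?_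
  rw [card_ker_prΩ_comp hs, Nat.card_eq_fintype_card, Fintype.card_multiplicative, ZMod.card]
  exact le_trans ((Subgroup.one_lt_card_iff_ne_bot _).2 hne) (Nat.le_mul_of_pos_right _ Nat.card_pos)

end Cfsg.Agent.S2094
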