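import Cfsg.Statements.S2095
import Cfsg.Agent.O7Mult.Main
import Cfsg.Agent.O7Mult.Transport
import Cfsg.Agent.SchurMult.Multiplier
-- import your own Cfsg.Agent.* helpers here

set_option autoImplicit false
open Cfsg

namespace Cfsg.Agent.S2095

/-- Exceptional Schur multiplier: over the field with 3 elements, PΩ₇ (for the form x₀² + Σ xᵢyᵢ) has Schur multiplier cyclic of order 6 (the product of cyclic groups of orders 3 and 2; here the Schur multiplier is described through stem extensions, as in the definitions). -/
theorem result {F : Type*} [Field F] [Fintype F] (hF : Fintype.card F = 3) : Cfsg.HasCyclicSchurMultiplier (Cfsg.POmega F (Cfsg.quadFormOdd 3 F)) 6 := by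
  exact CfsgLib.SchurMult.hasSchurMultiplier_congr_left
    (CfsgLib.O7Mult.Transport.pomegaEquiv (ZMod.ringEquivOfPrime F Nat.prime_three hF) 3)
    CfsgLib.O7Mult.hasSchurMultiplier_P7

end Cfsg.Agent.S2095
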