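import Cfsg.Statements.S2096
import Cfsg.Agent.SchurOrth.EvenFrames
import Cfsg.Agent.SchurOrth.EvenBound
import Cfsg.Agent.SchurOrth.EvenCover
import Cfsg.Agent.S0790

set_option autoImplicit false
open Cfsg

namespace Cfsg.Agent.S2096

open CfsgLib.SchurOrth in
/-- Schur multipliers of the even-dimensional orthogonal groups of plus type and odd rank: for odd l ≥ 5 and a field F with q elements, the Schur multiplier of PΩ⁺_2l(F) (for the form Σ xᵢyᵢ) is cyclic of order gcd(4, q^l − 1); here the Schur multiplier is described through stem extensions, as in the definitions. -/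
theorem result {F : Type*} [Field F] [Fintype F] {q : ℕ} (hF : Fintype.card F = q) (l : ℕ) (hl : 5 ≤ l) (hodd : Odd l) : Cfsg.HasCyclicSchurMultiplier (Cfsg.POmega F (Cfsg.quadFormPlus l F)) (Nat.gcd 4 (q ^ l - 1)) := by
  obtain ⟨n, rfl⟩ : ∃ n, l = n + 2 := ⟨l - 2, by omega⟩
  have hn : 5 ≤ Fintype.card (Fin (n + 2) ⊕ Fin (n + 2)) := by simp; omega
  have hq : Nat.card F = q := Nat.card_eq_fintype_card.trans hF
  have hg : Nat.gcd 4 (q ^ (n + 2) - 1) ∣ 4 := Nat.gcd_dvd_left _ _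
  haveI : NeZero (Nat.gcd 4 (q ^ (n + 2) - 1)) := ⟨Nat.gcd_ne_zero_left (by norm_num)⟩
  have hcard : Nat.card (Multiplicative (ZMod (Nat.gcd 4 (q ^ (n + 2) - 1)))) = Nat.gcd 4 (q ^ (n + 2) - 1) := by
    rw [Nat.card_congr Multiplicative.toAdd, Nat.card_zmod]
  have hq1 : 1 ≤ q ^ (n + 2) := Nat.one_le_pow _ _ (hF ▸ Fintype.card_pos)
  refine hasSchurMultiplier_of_cover (plusPolar F (n + 2)) (by omega) hn _ (fun h2 => ?_)
    (hcard.trans_le (Nat.le_of_dvd (by norm_num) hg)) (fun h2 h => ?_) fun Γ _ _ σ hσ => by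
      rw [← hq]
      exact exists_surj_long_odd σ hσ (plusPolar F (n + 2)) (plusPolar_W F _) hn (by omega) hodd
  · have he := even_card_of_two_eq_zero h2
    rw [hF] at he
    have : q ^ (n + 2) % 2 = 0 := by rw [Nat.pow_mod, he, zero_pow (by omega)]; rfl
    rw [hcard]
    refine le_of_eq (Nat.Coprime.gcd_eq_one ?_)
    exact Nat.Coprime.pow_left 2 ((Nat.Prime.coprime_iff_not_dvd Nat.prime_two).2 (by omega))
  · have ho : Odd q := hF ▸ odd_card_of_two_ne_zero h2
    refine (Cfsg.Agent.S0790.result hF ho (n + 2) (by omega)).2 ?_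
    rw [hcard] at h
    have h2' : q ^ (n + 2) % 2 = 1 := Nat.odd_iff.1 ho.pow
    by_contra hne
    have h3 : q ^ (n + 2) % 4 = 3 := by omega
    rw [Nat.gcd_rec, show (q ^ (n + 2) - 1) % 4 = 2 by omega] at h
    simp at h

end Cfsg.Agent.S2096
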