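import Cfsg.Statements.S2097
import Cfsg.Agent.SchurOrth.EvenFrames
import Cfsg.Agent.SchurOrth.EvenBound
import Cfsg.Agent.SchurOrth.EvenCover
import Cfsg.Agent.S0790

set_option autoImplicit false
open Cfsg

namespace Cfsg.Agent.S2097

open CfsgLib.SchurOrth in
/-- Schur multipliers of the even-dimensional orthogonal groups of plus type and even rank: for even l ≥ 4 and a field F with q elements, (l, q) ≠ (4, 2), the Schur multiplier of PΩ⁺_2l(F) (for the form Σ xᵢyᵢ) is the product of two cyclic groups of order gcd(2, q^l − 1) (so trivial for q even and a four-group for q odd; here the Schur multiplier is described through stem extensions, as in the definitions). -/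
theorem result {F : Type*} [Field F] [Fintype F] {q : ℕ} (hF : Fintype.card F = q) (l : ℕ) (hl : 4 ≤ l) (heven : Even l) (hexc : ¬ (l = 4 ∧ q = 2)) : Cfsg.HasSchurMultiplier (Cfsg.POmega F (Cfsg.quadFormPlus l F)) (Multiplicative (ZMod (Nat.gcd 2 (q ^ l - 1)) × ZMod (Nat.gcd 2 (q ^ l - 1)))) := by
  obtain ⟨n, rfl⟩ : ∃ n, l = n + 2 := ⟨l - 2, by omega⟩
  have hn : 5 ≤ Fintype.card (Fin (n + 2) ⊕ Fin (n + 2)) := by simp; omega
  have hq : Nat.card F = q := Nat.card_eq_fintype_card.trans hF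
  have hg : Nat.gcd 2 (q ^ (n + 2) - 1) ≤ 2 := Nat.le_of_dvd (by norm_num) (Nat.gcd_dvd_left _ _)
  haveI : NeZero (Nat.gcd 2 (q ^ (n + 2) - 1)) := ⟨Nat.gcd_ne_zero_left (by norm_num)⟩
  have hcard : Nat.card (Multiplicative (ZMod (Nat.gcd 2 (q ^ (n + 2) - 1)) ×
      ZMod (Nat.gcd 2 (q ^ (n + 2) - 1)))) =
      Nat.gcd 2 (q ^ (n + 2) - 1) * Nat.gcd 2 (q ^ (n + 2) - 1) := by
    rw [Nat.card_congr Multiplicative.toAdd, Nat.card_prod, Nat.card_zmod]
  have hq1 : 1 ≤ q ^ (n + 2) := Nat.one_le_pow _ _ (hF ▸ Fintype.card_pos)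
  refine hasSchurMultiplier_of_cover (plusPolar F (n + 2)) (by omega) hn _ (fun h2 => ?_)
    (hcard.trans_le (Nat.mul_le_mul hg hg)) (fun h2 h => ?_) fun Γ _ _ σ hσ => by
      rw [← hq]
      exact exists_surj_long_even σ hσ (plusPolar F (n + 2)) (plusPolar_W F _) hn (by omega)
        (by rw [hq]; exact hexc) heven
  · have he := even_card_of_two_eq_zero h2
    rw [hF] at he
    have : q ^ (n + 2) % 2 = 0 := by rw [Nat.pow_mod, he, zero_pow (by omega)]; rfl
    rw [hcard, Nat.gcd_rec, show (q ^ (n + 2) - 1) % 2 = 1 by omega, Nat.gcd_one_left]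
  · have ho : Odd q := hF ▸ odd_card_of_two_ne_zero h2
    refine (Cfsg.Agent.S0790.result hF ho (n + 2) (by omega)).2 ?_
    obtain ⟨k, hk⟩ := heven
    obtain ⟨j, rfl⟩ := ho
    rw [hk, ← two_mul, pow_mul, Nat.pow_mod,
      show (2 * j + 1) ^ 2 % 4 = 1 by rw [show (2 * j + 1) ^ 2 = 4 * (j * j + j) + 1 by ring]; omega,
      one_pow]
    rfl

end Cfsg.Agent.S2097
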