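import Cfsg.Statements.S2099
import Cfsg.Agent.SchurOrth.EvenFrames
import Cfsg.Agent.SchurOrth.EvenBound
import Cfsg.Agent.SchurOrth.EvenCover
import Cfsg.Agent.S0791

set_option autoImplicit false
open Cfsg

namespace Cfsg.Agent.S2099

open CfsgLib.SchurOrth in
/-- Schur multipliers of the even-dimensional orthogonal groups of minus type: for l ≥ 4 and a field F with q elements, the Schur multiplier of PΩ⁻_2l(F) (for the form Σ_{i<l−1} xᵢyᵢ + z₁² + a z₁z₂ + b z₂² with the binary part anisotropic) is cyclic of order gcd(4, q^l + 1); here the Schur multiplier is described through stem extensions, as in the definitions. -/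
theorem result {F : Type*} [Field F] [Fintype F] {q : ℕ} (hF : Fintype.card F = q) (l : ℕ) (hl : 4 ≤ l) (a b : F) (hab : ∀ z₁ z₂ : F, z₁ ^ 2 + a * z₁ * z₂ + b * z₂ ^ 2 = 0 → z₁ = 0 ∧ z₂ = 0) : Cfsg.HasCyclicSchurMultiplier (Cfsg.POmega F (Cfsg.quadFormMinus (l - 1) F a b)) (Nat.gcd 4 (q ^ l + 1)) := by
  obtain ⟨n, rfl⟩ : ∃ n, l = n + 2 := ⟨l - 2, by omega⟩
  have hn : 5 ≤ Fintype.card ((Fin (n + 2 - 1) ⊕ Fin (n + 2 - 1)) ⊕ Fin 2) := by simp; omega
  have hq : Nat.card F = q := Nat.card_eq_fintype_card.trans hF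
  have hg : Nat.gcd 4 (q ^ (n + 2) + 1) ∣ 4 := Nat.gcd_dvd_left _ _
  haveI : NeZero (Nat.gcd 4 (q ^ (n + 2) + 1)) := ⟨Nat.gcd_ne_zero_left (by norm_num)⟩
  have hcard : Nat.card (Multiplicative (ZMod (Nat.gcd 4 (q ^ (n + 2) + 1)))) = Nat.gcd 4 (q ^ (n + 2) + 1) := by
    rw [Nat.card_congr Multiplicative.toAdd, Nat.card_zmod]
  refine hasSchurMultiplier_of_cover (minusPolar (n + 2 - 1) hab) (by omega) hn _ (fun h2 => ?_)
    (hcard.trans_le (Nat.le_of_dvd (by norm_num) hg)) (fun h2 h => ?_) fun Γ _ _ σ hσ => by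
      rw [← hq]
      exact exists_surj_short σ hσ (minusShort (n + 1) hab) (minusShort_moved (n + 1) hab) hn (by omega)
  · have he := even_card_of_two_eq_zero h2
    rw [hF] at he
    have : q ^ (n + 2) % 2 = 0 := by rw [Nat.pow_mod, he, zero_pow (by omega)]; rfl
    rw [hcard]
    refine le_of_eq (Nat.Coprime.gcd_eq_one ?_)
    exact Nat.Coprime.pow_left 2 ((Nat.Prime.coprime_iff_not_dvd Nat.prime_two).2 (by omega))
  · have ho : Odd q := hF ▸ odd_card_of_two_ne_zero h2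
    refine (Cfsg.Agent.S0791.result hF ho (n + 2) (by omega) a b hab).2 ?_
    rw [hcard] at h
    have h2' : q ^ (n + 2) % 2 = 1 := Nat.odd_iff.1 ho.pow
    by_contra hne
    have h3 : q ^ (n + 2) % 4 = 1 := by omega
    rw [Nat.gcd_rec, show (q ^ (n + 2) + 1) % 4 = 2 by omega] at h
    simp at h

end Cfsg.Agent.S2099
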