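import Cfsg.Statements.S2102
import Cfsg.Agent.GTwoFourCover.Mult
import Cfsg.Agent.ChevField.RingEquiv
import Mathlib.FieldTheory.Finite.GaloisField

set_option autoImplicit false
open Cfsg

namespace Cfsg.Agent.S2102

/-- Exceptional Schur multiplier: over the field with 4 elements the Chevalley group of type G₂ has Schur multiplier cyclic of order 2 (here the Schur multiplier is described through stem extensions, as in the definitions). -/
theorem result {F : Type*} [Field F] [Fintype F] (hF : Fintype.card F = 4) : Cfsg.HasCyclicSchurMultiplier ↥(Cfsg.Lie.chevG2.group F) 2 := by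
  haveI : Fact (Nat.Prime 2) := ⟨Nat.prime_two⟩
  haveI : Fintype (GaloisField 2 2) := Fintype.ofFinite _
  have hK : Fintype.card (GaloisField 2 2) = 4 := by
    rw [← Nat.card_eq_fintype_card, GaloisField.card 2 2 (by norm_num)]; norm_num
  obtain ⟨φ⟩ := CfsgLib.ChevField.nonempty_groupEquiv Cfsg.Lie.chevG2
    (FiniteField.ringEquivOfCardEq (K := GaloisField 2 2) (K' := F) (by rw [hF, hK]))
  exact CfsgLib.SchurMult.hasSchurMultiplier_congr_left φ
    (CfsgLib.GTwoFourCover.hasMultiplier hK)

end Cfsg.Agent.S2102
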