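import Cfsg.Statements.S2111
import Cfsg.Agent.Eq.Def_KGroupFacts
import Cfsg.Agent.Eq.Def_Sz
import Cfsg.Agent.Schur.SuzukiKernel

set_option autoImplicit false
open Cfsg

namespace Cfsg.Agent.S2111

/-- Schur multipliers of the Suzuki groups: for q = 2^(2m+1) with m ≥ 2 the Schur multiplier of Sz(q) is trivial (here the Schur multiplier is described through stem extensions, as in the definitions); q = 8 is exceptional. -/
theorem result {F : Type*} [Field F] [Fintype F] {m : ℕ} (hm : 2 ≤ m) (hF : Fintype.card F = 2 ^ (2 * m + 1)) : Cfsg.HasCyclicSchurMultiplier ↥(Cfsg.Lie.Sz F (2 ^ (m + 1))) 1 := by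
  haveI := CfsgLib.Suzuki.charP_two hF
  have hm1 : 1 ≤ m := by omega
  have hT := CfsgLib.Suzuki.titsEndo_theta (F := F) hm1 hF
  have hq : 9 ≤ Fintype.card F := by
    rw [hF]
    exact le_trans (by norm_num) (Nat.pow_le_pow_right (by norm_num : 0 < 2) (show 4 ≤ 2 * m + 1 by omega))
  have h : Cfsg.HasCyclicSchurMultiplier (CfsgLib.Suzuki.grp (CfsgLib.Suzuki.theta F m)) 1 := by
    refine CfsgLib.Schur.hasCyclicSchurMultiplier_one fun Γ _ _ σ hσ p hp => ?_
    haveI : Fact p.Prime := ⟨hp⟩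
    by_cases hp2 : p = 2
    · subst hp2; exact CfsgLib.Schur.suzuki_not_two_dvd_ker hT hq hσ
    · obtain ⟨H, hH, hidx⟩ := CfsgLib.SuzukiAut.exists_cyclic_index_not_dvd hT hp2
      haveI := hH
      exact CfsgLib.Schur.not_dvd_card_ker_of_isCyclic hσ H hidx
  exact CfsgLib.Schur.hasSchurMultiplier_congr
    ((CfsgLib.Suzuki.lieSzEquiv hm1 hF).symm.trans (MulEquiv.subgroupCongr CfsgLib.Suzuki.sz_eq)) h.1
    fun Γ _ _ σ hσ => h.2 Γ σ hσ

end Cfsg.Agent.S2111
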