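import Cfsg.Statements.S2112
import Cfsg.Agent.Eq.Def_KGroupFacts
import Cfsg.Agent.Eq.Def_Sz
import Cfsg.Agent.Suzuki.LieModel
import Cfsg.Agent.SuzukiEight.Bound

set_option autoImplicit false
open Cfsg

namespace Cfsg.Agent.S2112

/-- Exceptional Schur multiplier: the Suzuki group Sz(8), built over the field with 8 elements using the map x ↦ x⁴, has Schur multiplier a four-group, the product of two cyclic groups of order 2 (here the Schur multiplier is described through stem extensions, as in the definitions). -/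
theorem result {F : Type*} [Field F] [Fintype F] (hF : Fintype.card F = 8) : Cfsg.HasSchurMultiplier ↥(Cfsg.Lie.Sz F 4) (Multiplicative (ZMod 2 × ZMod 2)) := by
  have hF' : Fintype.card F = 2 ^ (2 * 1 + 1) := by rw [hF]; norm_num
  haveI := CfsgLib.Suzuki.charP_two hF'
  have hT := CfsgLib.Suzuki.titsEndo_theta (F := F) le_rfl hF'
  have hθ : ∀ x : F, CfsgLib.Suzuki.theta F 1 x = x ^ 4 := fun x => by
    rw [CfsgLib.Suzuki.theta_apply]; norm_num
  obtain ⟨E, -, hE1⟩ := CfsgLib.SuzukiEight.exists_coord hF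
  exact CfsgLib.Schur.hasSchurMultiplier_congr
    ((CfsgLib.Suzuki.lieSzEquiv le_rfl hF').symm.trans (MulEquiv.subgroupCongr CfsgLib.Suzuki.sz_eq))
    (CfsgLib.SuzukiEight.stem_exists hF hθ hT)
    fun Γ _ _ σ hσ => CfsgLib.SuzukiEight.kernel_bound hF hθ hT E hE1 hσ

end Cfsg.Agent.S2112
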