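import Cfsg.Statements.S2114
import Cfsg.Agent.SchurRee4.OddLifts

set_option autoImplicit false
open Cfsg

namespace Cfsg.Agent.S2114

/-- Schur multipliers of the large Ree groups: for q = 2^(2m+1) with m ≥ 1 the Schur multiplier of ²F₄(q) is trivial (here the Schur multiplier is described through stem extensions, as in the definitions). -/
theorem result {K : Type*} [Field K] [Fintype K] {m : ℕ} (hm : 1 ≤ m) (hK : Fintype.card K = 2 ^ (2 * m + 1)) : Cfsg.HasCyclicSchurMultiplier ↥(Cfsg.Lie.twistedF4 K (2 ^ m)) 1 := by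
  haveI : Finite ↥(Cfsg.Lie.twistedF4 K (2 ^ m)) := Subtype.finite
  refine CfsgLib.Schur.hasCyclicSchurMultiplier_one ?_
  intro Γ _ _ σ hσ p hp hdvd
  have hall : ∀ r, r.Prime → CfsgLib.SchurClassical.NoMult r ↥(Cfsg.Lie.twistedF4 K (2 ^ m)) := by
    intro r hr
    by_cases h : r = 2
    · subst h
      exact CfsgLib.SchurRee4.noMult_two hK hm
    · exact CfsgLib.SchurRee4.noMult_odd hK hr h
  rw [CfsgLib.SchurClassical.stem_ker_eq_bot hall hσ, Subgroup.card_bot] at hdvd
  exact hp.one_lt.ne' (Nat.dvd_one.1 hdvd)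

end Cfsg.Agent.S2114
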