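import Cfsg.Statements.S2121
import Cfsg.Agent.Chevalley.OutOrder
import Cfsg.Agent.Eq.Def_LieChev
import Cfsg.Agent.Eq.Def_KGroupFacts

set_option autoImplicit false
open Cfsg

namespace Cfsg.Agent.S2121

/-- The functional separating the cokernel of the Cartan matrix. -/
def weightV : List ℤ := [1, 0]

/-- The integral section. -/
def sectR : List (List ℤ) := [[0, 0], [1, 2]]

/-- The preimage of the distinguished multiple. -/
def sectW : List ℤ := [2, 3]

/-- The exact quotients. -/
def quotS (j : ℕ) : ℤ :=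
  (∑ i ∈ Finset.range Cfsg.Lie.chevG2.rank, weightV.getD i 0 * Cfsg.Lie.chevG2.cartan j (Cfsg.Lie.chevG2.simple i)) / 1

theorem index_cartan {F : Type*} [Field F] [Finite F] :
    (CfsgLib.Chevalley.sysG2.cartanHom F).range.index = Nat.gcd (Nat.card Fˣ) 1 :=
  CfsgLib.Chevalley.sysG2.index_cartanHom F 1 (fun i => weightV.getD i 0) quotS (fun j => sectW.getD j 0)
    (fun a b => (sectR.getD a []).getD b 0) 0 (by decide +kernel) (by decide +kernel)
    (by decide +kernel) (by decide +kernel) (by decide +kernel)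

theorem mem_list : Cfsg.Lie.chevG2 ∈ CfsgLib.Chevalley.dataList := by simp [CfsgLib.Chevalley.dataList]

theorem support : CfsgLib.Chevalley.sysG2.SupportEq :=
  CfsgLib.Chevalley.supportEq_of_chk CfsgLib.Chevalley.checkedG2 CfsgLib.Chevalley.chkSupp_G2

theorem symmetries (π : Equiv.Perm (Fin Cfsg.Lie.chevG2.rank)) (h : Cfsg.Lie.chevG2.IsDiagramSymmetry π) : π = 1 ∨
    ∃ (q : List ℕ) (w : List ℕ × ℕ × List ℕ × ℕ),
      (∀ i : Fin Cfsg.Lie.chevG2.rank, q.getD i 0 = (π i : ℕ)) ∧
        CfsgLib.Chevalley.chkWitnessPair Cfsg.Lie.chevG2 q 3 w = true := by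
  have hm := CfsgLib.Chevalley.mem_diagCands h Cfsg.Lie.chevG2.rank le_rfl
  rw [show CfsgLib.Chevalley.diagCands Cfsg.Lie.chevG2 Cfsg.Lie.chevG2.rank = [[0, 1], [1, 0]] from by decide +kernel] at hm
  simp only [List.mem_cons, List.not_mem_nil, or_false] at hm
  rcases hm with hm | hm
  · refine Or.inl (Equiv.ext fun i => Fin.ext ?_)
    have h1 := congrArg (fun L : List ℕ => L.getD i 0) hm
    beta_reduce at h1
    rw [List.getD_eq_getElem _ _ (by simp), List.getElem_map, List.getElem_range, dif_pos i.isLt] at h1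
    fin_cases i <;> simpa using h1
  · refine Or.inr ⟨[1, 0], ([], 1, [1, 0], 1), fun i => ?_, by decide +kernel⟩
    have h1 := congrArg (fun L : List ℕ => L.getD i 0) hm
    beta_reduce at h1
    rw [List.getD_eq_getElem _ _ (by simp), List.getElem_map, List.getElem_range, dif_pos i.isLt] at h1
    fin_cases i <;> simpa using h1.symm

/-- Outer automorphisms of the Chevalley groups of type G₂: over a field with q = p^f (p prime) ≥ 3 elements, the outer automorphism group of G₂(q) has order f when p ≠ 3 and 2f when p = 3 (field automorphisms, and in characteristic 3 also the exceptional graph automorphism). -/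
theorem result {F : Type*} [Field F] [Fintype F] (p f : ℕ) [Fact p.Prime] [CharP F p] (hF : Fintype.card F = p ^ f) (hq : 3 ≤ p ^ f) : Nat.card (Cfsg.Out ↥(Cfsg.Lie.chevG2.group F)) = (if p = 3 then 2 * f else f) := by
  have hp : ringChar F = p := ringChar.eq F p
  rw [CfsgLib.Chevalley.sysG2.natCard_out F support mem_list (by decide +kernel), index_cartan,
    CfsgLib.Chevalley.natCard_ringAut p f hF, Nat.gcd_one_right, one_mul]
  by_cases hc : p = 3
  · subst hc
    have hperf : ∀ x : F, ∃ y : F, y ^ 3 = x := fun x =>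
      (Finite.injective_iff_bijective.mp (frobenius_inj F 3)).2 x
    obtain ⟨α, hα⟩ := CfsgLib.Chevalley.exists_twistG2 hperf
    have hP : CfsgLib.Chevalley.sysG2.Permutes F α CfsgLib.Chevalley.twistG2.r := fun r hr t => by
      have hl : CfsgLib.Chevalley.twistG2.r r < Cfsg.Lie.chevG2.nroots :=
        (show ∀ r < Cfsg.Lie.chevG2.nroots, CfsgLib.Chevalley.twistG2.r r < Cfsg.Lie.chevG2.nroots by decide +kernel) r hr
      exact ⟨hl, _, Subtype.ext (hα (CfsgLib.Chevalley.sysG2.xGG F hr t) r t hr rfl)⟩
    rw [CfsgLib.Chevalley.sysG2.index_dfBar_eq_two F mem_list (by decide +kernel)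
      (CfsgLib.Chevalley.sysG2.not_mem_dfBar F support mem_list hP (by decide +kernel)
        (i := (⟨0, by decide +kernel⟩ : Fin Cfsg.Lie.chevG2.rank))
        (j := (⟨1, by decide +kernel⟩ : Fin Cfsg.Lie.chevG2.rank)) (by decide +kernel)
        (fun e => absurd (congrArg Fin.val e) (by decide)))]
    simp [mul_comm]
  · rw [CfsgLib.Chevalley.sysG2.index_dfBar_eq_one F mem_list fun g hg => CfsgLib.Chevalley.sysG2.graph_eq_one F (c := 3) (by norm_num)
      (hp ▸ hc) symmetries (by decide +kernel) hg, mul_one]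
    rw [if_neg hc]

end Cfsg.Agent.S2121
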