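import Cfsg.Statements.S2140
import Cfsg.Agent.MinIndex.Main

set_option autoImplicit false
open Cfsg
open scoped LinearAlgebra.Projectivization Matrix

namespace Cfsg.Agent.S2140

/-- Minimal index of a proper subgroup of the linear groups: for n ≥ 3 and a field F with q elements, (n, q) ≠ (4, 2), every proper subgroup of PSL_n(F) has index at least (q^n − 1)/(q − 1), and some subgroup has exactly that index (the stabiliser of a point of the projective space). -/
theorem result {F : Type*} [Field F] [Fintype F] {q : ℕ} (hF : Fintype.card F = q) (n : ℕ) (hn : 3 ≤ n) (hexc : ¬ (n = 4 ∧ q = 2)) : (∀ H : Subgroup (Matrix.ProjectiveSpecialLinearGroup (Fin n) F), H ≠ ⊤ → (q ^ n - 1) / (q - 1) ≤ H.index) ∧ (∃ H : Subgroup (Matrix.ProjectiveSpecialLinearGroup (Fin n) F), H.index = (q ^ n - 1) / (q - 1)) := by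
  classical
  subst hF
  have hN : Nat.card (ℙ F (Fin n → F)) = (Fintype.card F ^ n - 1) / (Fintype.card F - 1) := by
    rw [CfsgLib.AutPSL.card_points, Nat.geomSum_eq Fintype.one_lt_card]
  rw [← hN]
  refine ⟨fun H hH => CfsgLib.MinIndex.card_points_le_index_psl n hn hexc H hH, ?_⟩
  let e : Fin n → F := Pi.single ⟨0, by omega⟩ 1
  let P : ℙ F (Fin n → F) := Projectivization.mk F e (by simp [e, Pi.single_eq_zero_iff])
  refine ⟨(MulAction.stabilizer (Matrix.SpecialLinearGroup (Fin n) F) P).map (QuotientGroup.mk' _), ?_⟩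
  have hle : (QuotientGroup.mk' (Subgroup.center (Matrix.SpecialLinearGroup (Fin n) F))).ker ≤
      MulAction.stabilizer (Matrix.SpecialLinearGroup (Fin n) F) P := by
    rw [QuotientGroup.ker_mk']
    intro g hg
    obtain ⟨c, -, hgc⟩ := Matrix.SpecialLinearGroup.mem_center_iff.1 hg
    rw [MulAction.mem_stabilizer_iff, Projectivization.smul_mk, Projectivization.mk_eq_mk_iff']
    refine ⟨c, ?_⟩
    show c • e = (g : Matrix (Fin n) (Fin n) F) *ᵥ e
    rw [← hgc]
    ext i
    simp [Matrix.mulVec_diagonal]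
  rw [Subgroup.index_map, sup_eq_left.2 hle,
    MonoidHom.range_eq_top.2 (QuotientGroup.mk'_surjective _), Subgroup.index_top, mul_one,
    CfsgLib.AutPSL.index_stabilizer_point (by omega)]

end Cfsg.Agent.S2140
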