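import Cfsg.Statements.S2141
import Cfsg.Agent.MinIndexPSp.Main

-- import your own Cfsg.Agent.* helpers here

set_option autoImplicit false
open Cfsg

namespace Cfsg.Agent.S2141

/-- Minimal index of a proper subgroup of the symplectic groups over fields with at least 3 elements: for m ≥ 2 and a field F with q ≥ 3 elements, (m, q) ≠ (2, 3), every proper subgroup of PSp_2m(F) has index at least (q^(2m) − 1)/(q − 1), and that index is attained. -/
theorem result {F : Type*} [Field F] [Fintype F] {q : ℕ} (hF : Fintype.card F = q) (m : ℕ) (hm : 2 ≤ m) (hq : 3 ≤ q) (hexc : ¬ (m = 2 ∧ q = 3)) : (∀ H : Subgroup (Cfsg.PSp m F), H ≠ ⊤ → (q ^ (2 * m) - 1) / (q - 1) ≤ H.index) ∧ (∃ H : Subgroup (Cfsg.PSp m F), H.index = (q ^ (2 * m) - 1) / (q - 1)) := by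
  subst hF
  have hN : (Fintype.card F ^ (2 * m) - 1) / (Fintype.card F - 1) = CfsgLib.MinIndexPSp.pts (Fintype.card F) (2 * m) :=
    (Nat.geomSum_eq (by omega) _).symm
  rw [hN]
  have hsurj := QuotientGroup.mk'_surjective (Subgroup.center (Matrix.symplecticGroup (Fin m) F))
  refine ⟨fun H hH => ?_, ?_⟩
  · rw [← Subgroup.index_comap_of_surjective H hsurj]
    refine CfsgLib.MinIndexPSp.pts_le_index hq m hm hexc _ fun h => hH (Subgroup.comap_injective hsurj ?_)
    rw [h, Subgroup.comap_top]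
  · obtain ⟨n, rfl⟩ : ∃ n, m = n + 1 := ⟨m - 1, by omega⟩
    refine ⟨(CfsgLib.MinIndexPSp.lineStab n F).map (QuotientGroup.mk' _), ?_⟩
    rw [Subgroup.index_map_eq _ hsurj]
    · have h := CfsgLib.MinIndexPSp.index_lineStab_mul (n := n) (F := F)
      rw [← CfsgLib.MinIndexPSp.pts_mul_pred (by omega)] at h
      exact Nat.eq_of_mul_eq_mul_right (by omega) h
    · rw [QuotientGroup.ker_mk']
      intro g hg
      rcases CfsgLib.Classical.Symp.mem_center_iff.mp hg with h | h
      · exact ⟨1, one_ne_zero, by rw [h, Matrix.one_mulVec, one_smul]⟩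
      · exact ⟨-1, neg_ne_zero.mpr one_ne_zero, by rw [h, Matrix.neg_mulVec, Matrix.one_mulVec, neg_one_smul]⟩

end Cfsg.Agent.S2141
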