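import Cfsg.Statements.S2142
import Cfsg.Agent.MinIndexSp.TwoMain

set_option autoImplicit false
open Cfsg

namespace Cfsg.Agent.S2142

/-- Minimal index of a proper subgroup of the symplectic groups over the field with 2 elements: for m ≥ 3, every proper subgroup of Sp_2m(2) has index at least 2^(m−1)(2^m − 1), and that index is attained. -/
theorem result {F : Type*} [Field F] [Fintype F] (hF : Fintype.card F = 2) (m : ℕ) (hm : 3 ≤ m) : (∀ H : Subgroup (Cfsg.PSp m F), H ≠ ⊤ → 2 ^ (m - 1) * (2 ^ m - 1) ≤ H.index) ∧ (∃ H : Subgroup (Cfsg.PSp m F), H.index = 2 ^ (m - 1) * (2 ^ m - 1)) := by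
  have hsurj := QuotientGroup.mk'_surjective (Subgroup.center (Matrix.symplecticGroup (Fin m) F))
  have hc : Subgroup.center (Matrix.symplecticGroup (Fin m) F) = ⊥ :=
    Subgroup.eq_bot_of_card_eq _ (CfsgLib.Classical.Symp.card_center_of_two_eq_zero
      (CfsgLib.MinIndexSp.two_eq_zero hF))
  refine ⟨fun H hH => ?_, ?_⟩
  · rw [← Subgroup.index_comap_of_surjective H hsurj]
    refine CfsgLib.MinIndexSp.index_le_of_ne_top hF hm _ fun h => hH (Subgroup.comap_injective hsurj ?_)
    rw [h, Subgroup.comap_top]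
  · obtain ⟨H, hH⟩ := CfsgLib.MinIndexSp.exists_index_eq (m := m) hF (by omega)
    refine ⟨H.map (QuotientGroup.mk' _), ?_⟩
    rw [Subgroup.index_map_eq H hsurj (by rw [QuotientGroup.ker_mk', hc]; exact bot_le), hH]

end Cfsg.Agent.S2142
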