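import Cfsg.Statements.S2148
import Cfsg.Agent.MinIndexPSU3.Main

set_option autoImplicit false
open Cfsg

namespace Cfsg.Agent.S2148
open CfsgLib.MinIndexPSU3 CfsgLib.Unitary

/-- Minimal index of a proper subgroup of the three-dimensional unitary groups: for a field F with q² elements, q ≥ 3 and q ≠ 5, every proper subgroup of PSU₃(q) has index at least q³ + 1, and that index is attained. -/
theorem result {F : Type*} [Field F] [Fintype F] (q : ℕ) (hF : Fintype.card F = q ^ 2) (hq : 3 ≤ q) (h5 : q ≠ 5) : (∀ H : Subgroup (Cfsg.PSU 3 F q), H ≠ ⊤ → q ^ 3 + 1 ≤ H.index) ∧ (∃ H : Subgroup (Cfsg.PSU 3 F q), H.index = q ^ 3 + 1) := by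
  set π := QuotientGroup.mk' (Subgroup.center ↥(Cfsg.SU 3 F q)) with hπ
  have hπs : Function.Surjective π := QuotientGroup.mk'_surjective _
  refine ⟨fun H hH => ?_, ?_⟩
  · rw [← Subgroup.index_comap_of_surjective H hπs]
    refine le_index hF hq h5 (fun z hz => ?_) fun h => hH ?_
    · rw [Subgroup.mem_comap, hπ, QuotientGroup.mk'_apply, (QuotientGroup.eq_one_iff z).mpr hz]
      exact one_mem H
    · rw [← Subgroup.map_comap_eq_self_of_surjective hπs H, h, Subgroup.map_top_of_surjective _ hπs]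
  haveI := isPretransitive (F := F) (q := q) hF
  obtain ⟨L⟩ : Nonempty (Pt q F) := (Nat.card_pos_iff.mp (by rw [card_Pt hF]; positivity)).1
  refine ⟨(MulAction.stabilizer ↥(Cfsg.SU 3 F q) L).map π, ?_⟩
  rw [Subgroup.index_map_eq _ hπs, MulAction.index_stabilizer_of_transitive, card_Pt hF]
  intro z hz
  rw [hπ, QuotientGroup.ker_mk'] at hz
  obtain ⟨a, ha⟩ := (mem_center_SU_iff hF (by norm_num) z).1 hz
  obtain ⟨x, hx0, hx, rfl⟩ := exists_eq_pt L
  rw [MulAction.mem_stabilizer_iff, smul_pt_eq_iff]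
  refine ⟨a, ?_⟩
  show ((z : Matrix.SpecialLinearGroup (Fin 3) F) : Matrix (Fin 3) (Fin 3) F).mulVec x = a • x
  rw [ha, Matrix.scalar_apply]
  funext i
  simp [Matrix.mulVec_diagonal]

end Cfsg.Agent.S2148
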