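import Cfsg.Statements.S2155
import Cfsg.Agent.Chevalley.StepData
import Cfsg.Agent.Balance.SelfCentralPCore

set_option autoImplicit false
open Cfsg

namespace Cfsg.Agent.S2155

/-- In a Chevalley group of type G₂, B₂, D₄, F₄, E₆, E₇ or E₈ over a finite field of characteristic p (for types G₂ and B₂ the field is assumed to have at least 3 elements, so that the group is simple), the generalized Fitting subgroup of every proper standard parabolic subgroup P_J is a p-group (P_J is p-constrained with trivial largest normal subgroup of order prime to p). -/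
theorem result {F : Type*} [Field F] [Fintype F] (p : ℕ) [Fact p.Prime] [CharP F p] (D : Cfsg.Lie.ChevalleyDatum) (hD : D ∈ [Cfsg.Lie.chevG2, Cfsg.Lie.chevB2, Cfsg.Lie.chevD4, Cfsg.Lie.chevF4, Cfsg.Lie.chevE6, Cfsg.Lie.chevE7, Cfsg.Lie.chevE8]) (hq : (D = Cfsg.Lie.chevG2 ∨ D = Cfsg.Lie.chevB2) → 3 ≤ Fintype.card F) (J : Set ℕ) (hJ : ∃ i, i < D.rank ∧ i ∉ J) : IsPGroup p ↥(Cfsg.generalizedFittingSubgroup ↥(D.parabolicSubgroup F J)) := by
  obtain ⟨S, hS, hst⟩ := CfsgLib.Chevalley.exists_sys_step hD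
  set Q := CfsgLib.Chevalley.uSub D F (CfsgLib.Chevalley.outSet D J) with hQ
  have hN := S.parabolic_le_normalizer F hS J
  rw [CfsgLib.Chevalley.unipotentRadical_eq, ← hQ] at hN
  haveI hn : (Q.subgroupOf (D.parabolicSubgroup F J)).Normal :=
    ⟨fun x hx g => by
      rw [Subgroup.mem_subgroupOf] at hx ⊢
      exact (Subgroup.mem_normalizer_iff.mp (hN g.2) _).mp hx⟩
  have hQp : IsPGroup p ↥Q :=
    S.uSub_isPGroup F Fact.out (CfsgLib.Chevalley.uSub_le_posUnipotent F _)
  have hle : Q.subgroupOf (D.parabolicSubgroup F J) ≤ pCore p ↥(D.parabolicSubgroup F J) :=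
    le_sSup ⟨hn, hQp.comap_of_injective _ (D.parabolicSubgroup F J).subtype_injective⟩
  have hQP : Q ≤ D.parabolicSubgroup F J :=
    (CfsgLib.Chevalley.uSub_le_posUnipotent F _).trans (le_sup_left.trans le_sup_left)
  have hC : Subgroup.centralizer (pCore p ↥(D.parabolicSubgroup F J) :
      Set ↥(D.parabolicSubgroup F J)) ≤ pCore p ↥(D.parabolicSubgroup F J) := by
    intro g hg
    refine hle ?_
    rw [Subgroup.mem_subgroupOf]
    refine S.centralizer_radical_le F hS hst hJ g.2 fun x hx => ?_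
    have := Subgroup.mem_centralizer_iff.mp hg ⟨x, hQP hx⟩ (hle hx)
    exact (congrArg Subtype.val this).symm
  rw [CfsgLib.Balance.generalizedFitting_eq_pCore_of_selfCentralizing p hC]
  exact Sylow.sSup_of_normal _ (fun N hN => hN.2) (fun N hN => hN.1)

end Cfsg.Agent.S2155
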