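import Cfsg.Statements.S2158
import Cfsg.Agent.ChevField.Fixed
import Cfsg.Agent.Chevalley.All
import Cfsg.Agent.Eq.Def_ChevAutomorphisms

set_option autoImplicit false
open Cfsg

namespace Cfsg.Agent.S2158

open Cfsg.Lie CfsgLib.Chevalley in
/-- A diagonal matrix in the group lies in `H`. -/
theorem diag_mem {D : ChevalleyDatum} (S : Sys D) {F : Type*} [Field F] {g : GL D.Idx F}
    (hg : g ∈ D.group F) (hd : ∀ a b, a ≠ b → (g : Matrix D.Idx D.Idx F) a b = 0) :
    g ∈ D.diagonalSubgroup F := by
  obtain ⟨b, hb, n, u, hu, e⟩ := S.normal_form_exists F hg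
  have huB : u ∈ D.borelSubgroup F := Subgroup.mem_sup_left (uSub_le_posUnipotent F _ hu)
  set low : GL D.Idx F → Prop := fun g => ∀ row col,
    pos D row < pos D col → (g : Matrix D.Idx D.Idx F) row col = 0 with hlow
  have lmul : ∀ {x y}, low x → low y → low (x * y) := by
    intro x y hx hy row col h
    rw [Units.val_mul, Matrix.mul_apply]
    refine Finset.sum_eq_zero fun m _ => ?_
    rcases lt_or_ge (pos D row) (pos D m) with h1 | h1
    · rw [hx row m h1, zero_mul]
    · rw [hy m col (by omega), mul_zero]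
  have hn : low (n : GL D.Idx F) := by
    have : (n : GL D.Idx F) = b⁻¹ * g * u⁻¹ := by rw [e]; group
    rw [this]
    exact lmul (lmul (fun r c h => S.borel_uni_lower F (inv_mem hb) h)
      (fun r c h => hd r c fun e => by rw [e] at h; omega))
      (fun r c h => S.borel_uni_lower F (inv_mem huB) h)
  obtain ⟨σ, hm⟩ := S.exists_mono F n.2
  have hσ : ∀ s : Fin D.nroots, (s : ℕ) ≤ (σ s : ℕ) := by
    intro s
    obtain ⟨row, hrow⟩ := exists_col_ne_zero (n : GL D.Idx F) (Sum.inr s)
    rcases row with j | v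
    · exact absurd (hm.2.1 j s) hrow
    · obtain rfl := hm.1 v s hrow
      by_contra hlt
      refine hrow (hn _ _ ?_)
      simp only [pos]
      split_ifs <;> omega
  have hσ1 : σ = 1 := by
    refine Equiv.ext fun s => Fin.ext ?_
    have hsum : ∑ s, (σ s : ℕ) = ∑ s : Fin D.nroots, (s : ℕ) :=
      Equiv.sum_comp σ (fun s => (s : ℕ))
    have := (Finset.sum_eq_sum_iff_of_le (fun s _ => hσ s)).1 hsum.symm s (Finset.mem_univ _)
    exact this.symm
  have hk : n ∈ (S.perm F).ker := by rw [MonoidHom.mem_ker, S.perm_eq F hm, hσ1]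
  rw [S.ker_perm F] at hk
  have hgB : g ∈ D.borelSubgroup F :=
    e ▸ mul_mem (mul_mem hb (Subgroup.mem_sup_right hk)) huB
  obtain ⟨v, hv, c, rfl⟩ := (S.mem_borel F).1 hgB
  suffices v = 1 by
    rw [this, one_mul, S.diagonal_eq]
    exact ⟨c, rfl⟩
  refine Units.ext ?_
  rw [Units.val_one]
  ext row col
  by_contra hne
  have h1 := (S.posUnipotent_le F hv).1 row col (by
    rw [Matrix.sub_apply]; exact sub_ne_zero.mpr hne)
  have hrc : row ≠ col := fun e => by rw [e] at h1; omega
  have h2 : ((v * tor D F c : GL D.Idx F) : Matrix D.Idx D.Idx F) row col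
      = (v : Matrix D.Idx D.Idx F) row col * (tor D F c : Matrix D.Idx D.Idx F) col col := by
    rw [Units.val_mul, Matrix.mul_apply, Finset.sum_eq_single col]
    · intro m _ hm; rw [S.tor_diag F c hm, mul_zero]
    · intro h; exact absurd (Finset.mem_univ _) h
  rw [hd _ _ hrc] at h2
  have hne0 : (tor D F c : Matrix D.Idx D.Idx F) col col ≠ 0 := by
    obtain ⟨r, hr⟩ : ∃ r, (tor D F c : Matrix D.Idx D.Idx F) r col ≠ 0 := by
      rcases col with j | s
      · exact ⟨Sum.inl j, by simp [S.tor_val, dg]⟩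
      · exact exists_col_ne_zero _ _
    by_cases h : r = col
    · rwa [h] at hr
    · exact absurd (S.tor_diag F c h) hr
  rcases mul_eq_zero.1 h2.symm with h | h
  · rw [h, Matrix.one_apply_ne hrc] at hne
    exact hne rfl
  · exact hne0 h

/-- In a Chevalley group of type G₂, B₂, D₄, F₄, E₆, E₇ or E₈ over any field, an element of the group whose matrix is the diagonal matrix `ĥ(χ)` of a character `χ` of the root lattice already lies in the diagonal subgroup H (the non-trivial inclusion of the statement that the group meets the group of all such diagonal matrices in H). -/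
theorem result {F : Type*} [Field F] (D : Cfsg.Lie.ChevalleyDatum) (hD : D ∈ [Cfsg.Lie.chevG2, Cfsg.Lie.chevB2, Cfsg.Lie.chevD4, Cfsg.Lie.chevF4, Cfsg.Lie.chevE6, Cfsg.Lie.chevE7, Cfsg.Lie.chevE8]) (χ : ℕ → Fˣ) (hχ : D.IsRootCharacter χ) (g : GL D.Idx F) (hg : g ∈ D.group F)
    (hgχ : (g : Matrix D.Idx D.Idx F) = D.charDiag F χ) : g ∈ D.diagonalSubgroup F := by
  obtain ⟨S⟩ := CfsgLib.Chevalley.sys_of_mem hD
  refine diag_mem S hg fun a b hab => ?_
  rw [hgχ]
  exact Matrix.diagonal_apply_ne _ hab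

end Cfsg.Agent.S2158
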