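import Cfsg.Statements.S2161
import Cfsg.Agent.ChevField.Gen
import Cfsg.Agent.Chevalley.All
import Cfsg.Agent.Eq.Def_ChevAutomorphisms

set_option autoImplicit false
open Cfsg

namespace Cfsg.Agent.S2161

open Cfsg.Lie in
/-- the bond condition as a Boolean -/
def symB (D : ChevalleyDatum) (π : Equiv.Perm (Fin D.rank)) : Bool :=
  (List.finRange D.rank).all fun i => (List.finRange D.rank).all fun j =>
    i == j || D.bonds (π i) (π j) == D.bonds i j

open Cfsg.Lie in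
/-- compatibility of `permRoot` with the reflections -/
def chkPerm (D : ChevalleyDatum) (π : Equiv.Perm (Fin D.rank)) : Bool :=
  (List.finRange D.rank).all fun i =>
    (D.permRoot π (D.simple i) == D.simple (π i)) &&
    (List.range D.nroots).all fun r =>
      (D.permRoot π r == D.reflectRoot (π i) (D.permRoot π (D.reflectRoot i r))) &&
        decide (D.permRoot π r < D.nroots)

theorem chk_D4 : ∀ π : Equiv.Perm (Fin Cfsg.Lie.chevD4.rank),
    symB Cfsg.Lie.chevD4 π = true → chkPerm Cfsg.Lie.chevD4 π = true := by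
  decide +kernel

theorem chk_E6 : ∀ π : Equiv.Perm (Fin Cfsg.Lie.chevE6.rank),
    symB Cfsg.Lie.chevE6 π = true → chkPerm Cfsg.Lie.chevE6 π = true := by
  decide +kernel

open Cfsg.Lie in
theorem chk_mem {D : ChevalleyDatum} (hD : D ∈ [chevD4, chevE6])
    (π : Equiv.Perm (Fin D.rank)) (hπ : D.IsDiagramSymmetry π) : chkPerm D π = true := by
  have hb : symB D π = true := by
    simp only [symB, List.all_eq_true, Bool.or_eq_true, beq_iff_eq]
    intro i _ j _
    exact or_iff_not_imp_left.2 fun h => hπ i j h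
  simp only [List.mem_cons, List.not_mem_nil, or_false] at hD
  rcases hD with rfl | rfl
  · exact chk_D4 π hb
  · exact chk_E6 π hb

/-- For the Chevalley groups of types D₄ and E₆ (one root length) over any field: if `π` is a symmetry of the Dynkin diagram and `φ` is an automorphism sending `x_{p_i}(t)` to `x_{p_{π i}}(t)` and `x_{-p_i}(t)` to `x_{-p_{π i}}(t)` for every fundamental root `p_i`, then for every root `r` there is a sign `ε = ±1` with `φ(x_r(t)) = x_{π·r}(ε t)` for all `t`, where `π·r` is the root whose coefficients are those of `r` permuted by `π`. -/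
theorem result {F : Type*} [Field F] (D : Cfsg.Lie.ChevalleyDatum) (hD : D ∈ [Cfsg.Lie.chevD4, Cfsg.Lie.chevE6])
    (π : Equiv.Perm (Fin D.rank)) (hπ : D.IsDiagramSymmetry π) (φ : ↥(D.group F) ≃* ↥(D.group F))
    (hφ : ∀ (g : ↥(D.group F)) (i : Fin D.rank) (t : F),
      (((g : GL D.Idx F) : Matrix D.Idx D.Idx F) = D.x F (D.simple i) t →
        ((φ g : GL D.Idx F) : Matrix D.Idx D.Idx F) = D.x F (D.simple (π i)) t) ∧
      (((g : GL D.Idx F) : Matrix D.Idx D.Idx F) = D.x F (D.neg (D.simple i)) t →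
        ((φ g : GL D.Idx F) : Matrix D.Idx D.Idx F) = D.x F (D.neg (D.simple (π i))) t))
    (r : ℕ) (hr : r < D.nroots) :
    ∃ ε : F, (ε = 1 ∨ ε = -1) ∧ ∀ (g : ↥(D.group F)) (t : F),
      ((g : GL D.Idx F) : Matrix D.Idx D.Idx F) = D.x F r t →
        ((φ g : GL D.Idx F) : Matrix D.Idx D.Idx F) = D.x F (D.permRoot π r) (ε * t) := by
  obtain ⟨S⟩ := CfsgLib.Chevalley.sys_of_mem
    (show D ∈ [Cfsg.Lie.chevG2, Cfsg.Lie.chevB2, Cfsg.Lie.chevD4, Cfsg.Lie.chevF4, Cfsg.Lie.chevE6,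
      Cfsg.Lie.chevE7, Cfsg.Lie.chevE8] by
      simp only [List.mem_cons, List.not_mem_nil, or_false] at hD ⊢
      rcases hD with rfl | rfl <;> simp)
  have hc := chk_mem hD π hπ
  simp only [chkPerm, List.all_eq_true, Bool.and_eq_true, beq_iff_eq, decide_eq_true_eq] at hc
  suffices ∀ r < D.nroots, ∃ ε : F, (ε = 1 ∨ ε = -1) ∧ ∀ t : F,
      ((φ ⟨S.xG F r t, if h : r < D.nroots then S.xG_mem F h t else
        by rw [show S.xG F r t = 1 from Units.ext (CfsgLib.Chevalley.x_out h t)]; exact one_mem _⟩ :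
        GL D.Idx F)) = S.xG F (D.permRoot π r) (ε * t) by
    obtain ⟨ε, hε, h⟩ := this r hr
    refine ⟨ε, hε, fun g t hg => ?_⟩
    rw [← S.xG_val, ← h t]
    congr 3
    exact Subtype.ext (S.eq_xG F hg)
  have hn : ∀ i : Fin D.rank, ∀ h : S.nG F (D.simple i) 1 ∈ D.group F,
      (φ ⟨_, h⟩ : GL D.Idx F) = S.nG F (D.simple (π i)) 1 := by
    intro i h
    have hl := S.wf.simple_lt i i.isLt
    have hl' := S.wf.neg_lt _ hl
    have e : (⟨_, h⟩ : ↥(D.group F)) = ⟨_, S.xG_mem F hl 1⟩ *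
        ⟨_, S.xG_mem F hl' (-(1 : F)⁻¹)⟩ * ⟨_, S.xG_mem F hl 1⟩ :=
      Subtype.ext (S.nG_eq F _ _)
    rw [e, map_mul, map_mul, Subgroup.coe_mul, Subgroup.coe_mul, S.nG_eq]
    rw [S.eq_xG F ((hφ ⟨_, S.xG_mem F hl 1⟩ i 1).1 rfl),
      S.eq_xG F ((hφ ⟨_, S.xG_mem F hl' (-(1 : F)⁻¹)⟩ i _).2 rfl)]
  intro r hr
  refine S.root_induction (P := fun r => ∃ ε : F, (ε = 1 ∨ ε = -1) ∧ ∀ t : F,
      ((φ ⟨S.xG F r t, if h : r < D.nroots then S.xG_mem F h t else
        by rw [show S.xG F r t = 1 from Units.ext (CfsgLib.Chevalley.x_out h t)]; exact one_mem _⟩ :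
        GL D.Idx F)) = S.xG F (D.permRoot π r) (ε * t)) ?_ ?_ r hr
  · intro i hi
    refine ⟨1, Or.inl rfl, fun t => ?_⟩
    rw [one_mul]
    refine Units.ext ?_
    rw [((hc ⟨i, hi⟩ (List.mem_finRange _)).1 : D.permRoot π (D.simple i) = _), S.xG_val]
    exact (hφ _ ⟨i, hi⟩ t).1 rfl
  · intro i hi r hr ⟨ε, hε, hεt⟩
    have hwr := S.w_lt i hi r hr
    obtain ⟨hperm, hlt⟩ := (hc ⟨i, hi⟩ (List.mem_finRange _)).2 r (List.mem_range.2 hr)
    obtain ⟨-, hwlt⟩ := (hc ⟨i, hi⟩ (List.mem_finRange _)).2 _ (List.mem_range.2 hwr)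
    have hπi : (π ⟨i, hi⟩ : ℕ) < D.rank := (π ⟨i, hi⟩).isLt
    have hsgn : ∀ a : ℤ, a = 1 ∨ a = -1 → ((a : F) = 1 ∨ (a : F) = -1) := by
      rintro a (rfl | rfl) <;> simp
    refine ⟨(S.eta (π ⟨i, hi⟩) (D.permRoot π r) : F) * (ε * (S.eta i r : F)), ?_, ?_⟩
    · rcases hsgn _ (S.eta_sign _ hπi _ hlt) with h1 | h1 <;> rcases hε with rfl | rfl <;>
        rcases hsgn _ (S.eta_sign i hi r hr) with h2 | h2 <;> simp [h1, h2]
    · intro t
      have hnm := S.nG_mem F (S.wf.simple_lt i hi) (1 : F)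
      have e : ∀ h : S.xG F r t ∈ D.group F, (⟨S.xG F r t, h⟩ : ↥(D.group F)) =
          (⟨_, hnm⟩ : ↥(D.group F))⁻¹ * ⟨_, S.xG_mem F hwr ((S.eta i r : F) * t)⟩ * ⟨_, hnm⟩ :=
        fun h => Subtype.ext (CfsgLib.ChevField.xG_eq_conj S hi hr t)
      have h1 : (φ ⟨S.xG F (D.reflectRoot i r) ((S.eta i r : F) * t), S.xG_mem F hwr _⟩ :
          GL D.Idx F) = S.xG F (D.permRoot π (D.reflectRoot i r)) (ε * ((S.eta i r : F) * t)) :=
        hεt _
      rw [e, map_mul, map_mul, map_inv, Subgroup.coe_mul, Subgroup.coe_mul, Subgroup.coe_inv,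
        hn ⟨i, hi⟩ hnm, h1, CfsgLib.ChevField.xG_eq_conj (F := F) S hπi hlt]
      have hw : D.reflectRoot (π ⟨i, hi⟩) (D.permRoot π r) = D.permRoot π (D.reflectRoot i r) := by
        rw [hperm, S.w_w _ hπi _ hwlt]
      have hsq : (S.eta (π ⟨i, hi⟩) (D.permRoot π r) : F) *
          (S.eta (π ⟨i, hi⟩) (D.permRoot π r) : F) = 1 := by
        rcases S.eta_sign _ hπi _ hlt with h | h <;> simp [h]
      rw [hw, ← mul_assoc (S.eta (π ⟨i, hi⟩) (D.permRoot π r) : F), ← mul_assoc (S.eta (π ⟨i, hi⟩) (D.permRoot π r) : F),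
        hsq, one_mul, mul_assoc ε]

end Cfsg.Agent.S2161
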