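import Cfsg.Statements.S2299
import Cfsg.Agent.Sl2Chars.Degrees
import Cfsg.Agent.Eq.Def_Characters
-- import your own Cfsg.Agent.* helpers here

set_option autoImplicit false
open Cfsg

namespace Cfsg.Agent.S2299

/-- Over a finite field F with q elements, q odd, every irreducible complex character of SL₂ has degree 1, q, q + 1, q − 1, (q + 1)/2 or (q − 1)/2; and when q ≥ 5 (so that these six numbers are distinct) there are exactly one irreducible character of degree 1, one of degree q, (q − 3)/2 of degree q + 1, (q − 1)/2 of degree q − 1, two of degree (q + 1)/2 and two of degree (q − 1)/2. -/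
theorem result {F : Type*} [Field F] [Fintype F] (hodd : Odd (Fintype.card F)) :
    (∀ χ : Matrix.SpecialLinearGroup (Fin 2) F → ℂ, Cfsg.IsIrrCharacter (Matrix.SpecialLinearGroup (Fin 2) F) χ →
      χ 1 = 1 ∨ χ 1 = (Fintype.card F : ℂ) ∨ χ 1 = (Fintype.card F : ℂ) + 1 ∨ χ 1 = (Fintype.card F : ℂ) - 1 ∨
        χ 1 = (((Fintype.card F + 1) / 2 : ℕ) : ℂ) ∨ χ 1 = (((Fintype.card F - 1) / 2 : ℕ) : ℂ)) ∧
    (5 ≤ Fintype.card F →
      Nat.card {χ : Cfsg.IrrCharacter (Matrix.SpecialLinearGroup (Fin 2) F) // (χ : Matrix.SpecialLinearGroup (Fin 2) F → ℂ) 1 = 1} = 1 ∧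
      Nat.card {χ : Cfsg.IrrCharacter (Matrix.SpecialLinearGroup (Fin 2) F) // (χ : Matrix.SpecialLinearGroup (Fin 2) F → ℂ) 1 = (Fintype.card F : ℂ)} = 1 ∧
      Nat.card {χ : Cfsg.IrrCharacter (Matrix.SpecialLinearGroup (Fin 2) F) // (χ : Matrix.SpecialLinearGroup (Fin 2) F → ℂ) 1 = (Fintype.card F : ℂ) + 1} = (Fintype.card F - 3) / 2 ∧
      Nat.card {χ : Cfsg.IrrCharacter (Matrix.SpecialLinearGroup (Fin 2) F) // (χ : Matrix.SpecialLinearGroup (Fin 2) F → ℂ) 1 = (Fintype.card F : ℂ) - 1} = (Fintype.card F - 1) / 2 ∧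
      Nat.card {χ : Cfsg.IrrCharacter (Matrix.SpecialLinearGroup (Fin 2) F) // (χ : Matrix.SpecialLinearGroup (Fin 2) F → ℂ) 1 = (((Fintype.card F + 1) / 2 : ℕ) : ℂ)} = 2 ∧
      Nat.card {χ : Cfsg.IrrCharacter (Matrix.SpecialLinearGroup (Fin 2) F) // (χ : Matrix.SpecialLinearGroup (Fin 2) F → ℂ) 1 = (((Fintype.card F - 1) / 2 : ℕ) : ℂ)} = 2) := by
  classical
  have h2 : (2 : F) ≠ 0 := CfsgLib.SL2.two_ne_zero_iff_odd.2 hodd
  obtain ⟨ν, hν⟩ := CfsgLib.Sl2Chars.exists_nonsquare h2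
  refine ⟨fun χ hχ => ?_, fun hq => ?_⟩
  · obtain ⟨n, hn⟩ := CfsgLib.Chars.exists_natCast_map_one
      (CfsgLib.Chars.isCharacter_of_isIrrCharacter hχ)
    rw [hn]
    have hpos := Fintype.card_pos (α := F)
    rcases CfsgLib.Sl2Chars.pat_deg_cases h2 hν ⟨χ, hχ⟩ hn with
      ⟨-, e⟩ | ⟨-, e⟩ | ⟨-, e⟩ | ⟨-, e⟩ | ⟨-, e⟩ | ⟨-, e⟩
    · exact Or.inr (Or.inr (Or.inl (by rw [e]; push_cast; rfl)))
    · exact Or.inl (by rw [e, Nat.cast_one])
    · exact Or.inr (Or.inl (by rw [e]))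
    · exact Or.inr (Or.inr (Or.inr (Or.inr (Or.inl (by rw [e])))))
    · exact Or.inr (Or.inr (Or.inr (Or.inl (by rw [e, Nat.cast_sub hpos, Nat.cast_one]))))
    · exact Or.inr (Or.inr (Or.inr (Or.inr (Or.inr (by rw [e])))))
  obtain ⟨k, hk⟩ := hodd
  have count : ∀ (n m : ℕ) (S : Finset (ℕ × ℕ × ℕ)),
      (∀ χ : IrrCharacter (Matrix.SpecialLinearGroup (Fin 2) F),
        (χ : Matrix.SpecialLinearGroup (Fin 2) F → ℂ) 1 = n ↔ CfsgLib.Sl2Chars.pat ν χ ∈ S) →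
      ((Fintype.card F : ℂ) - 3) / 2 * (if (2, 1, 1) ∈ S then 1 else 0) +
        ((if (1, 0, 0) ∈ S then 1 else 0) + (if (1, 1, 1) ∈ S then 1 else 0) +
          ((if (1, 1, 0) ∈ S then 1 else 0) + (if (1, 0, 1) ∈ S then 1 else 0))) +
      (((Fintype.card F : ℂ) - 1) / 2 * (if (0, 1, 1) ∈ S then 1 else 0) +
        ((if (0, 1, 0) ∈ S then 1 else 0) + (if (0, 0, 1) ∈ S then 1 else 0))) = (m : ℂ) →
      Nat.card {χ : IrrCharacter (Matrix.SpecialLinearGroup (Fin 2) F) //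
        (χ : Matrix.SpecialLinearGroup (Fin 2) F → ℂ) 1 = n} = m := by
    intro n m S hS hm
    rw [Nat.card_congr (Equiv.subtypeEquivRight hS), Nat.card_eq_fintype_card,
      Fintype.card_subtype]
    apply Nat.cast_injective (R := ℂ)
    rw [Finset.natCast_card_filter, ← hm]
    exact CfsgLib.Sl2Chars.sum_pat h2 hν fun p => if p ∈ S then (1 : ℂ) else 0
  have key : ∀ (n : ℕ) (χ : IrrCharacter (Matrix.SpecialLinearGroup (Fin 2) F)),
      (χ : Matrix.SpecialLinearGroup (Fin 2) F → ℂ) 1 = n ↔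
        n = CfsgLib.Sl2Chars.patDeg (Fintype.card F) (CfsgLib.Sl2Chars.pat ν χ) := by
    intro n χ
    rw [CfsgLib.Sl2Chars.apply_one_pat h2 hν, Nat.cast_inj, eq_comm]
  have setEq : ∀ (n : ℕ) (S : Finset (ℕ × ℕ × ℕ)),
      (∀ p ∈ ({(2, 1, 1), (1, 0, 0), (1, 1, 1), (1, 1, 0), (1, 0, 1), (0, 1, 1), (0, 1, 0),
        (0, 0, 1)} : Finset (ℕ × ℕ × ℕ)), n = CfsgLib.Sl2Chars.patDeg (Fintype.card F) p ↔ p ∈ S) →
      ∀ χ : IrrCharacter (Matrix.SpecialLinearGroup (Fin 2) F),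
        (χ : Matrix.SpecialLinearGroup (Fin 2) F → ℂ) 1 = n ↔ CfsgLib.Sl2Chars.pat ν χ ∈ S :=
    fun n S h χ => (key n χ).trans (h _ (CfsgLib.Sl2Chars.pat_cases h2 hν χ))
  rw [show (Fintype.card F - 3) / 2 = k - 1 by omega]
  rw [← Nat.cast_add_one, ← Nat.cast_one (R := ℂ), ← Nat.cast_sub (show 1 ≤ Fintype.card F by omega)]
  refine ⟨count _ _ _ (setEq _ {(1, 0, 0)} ?_) ?_, count _ _ _ (setEq _ {(1, 1, 1)} ?_) ?_,
    count _ _ _ (setEq _ {(2, 1, 1)} ?_) ?_, count _ _ _ (setEq _ {(0, 1, 1)} ?_) ?_,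
    count _ _ _ (setEq _ {(1, 1, 0), (1, 0, 1)} ?_) ?_,
    count _ _ _ (setEq _ {(0, 1, 0), (0, 0, 1)} ?_) ?_⟩
  all_goals first
    | (intro p hp
       simp only [Finset.mem_insert, Finset.mem_singleton] at hp ⊢
       rcases hp with rfl | rfl | rfl | rfl | rfl | rfl | rfl | rfl <;>
         simp [CfsgLib.Sl2Chars.patDeg, Prod.mk.injEq] <;> omega)
    | (simp only [hk]
       simp [Nat.cast_sub (show 1 ≤ k by omega)]
       try ring)

end Cfsg.Agent.S2299
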