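import Cfsg.Statements.S2301
import Cfsg.Agent.PSL2.Sl2Unipotent

set_option autoImplicit false
open Cfsg

namespace Cfsg.Agent.S2301

/-- Over a finite field with q elements of odd characteristic p, the elements of order p of SL₂ (the non-identity unipotent elements) fall into exactly two conjugacy classes, each of size (q² − 1)/2; two upper unitriangular matrices with non-zero off-diagonal entries b and b′ are conjugate exactly when bb′ is a square. -/
theorem result {F : Type*} [Field F] [Fintype F] (p : ℕ) [Fact p.Prime] [CharP F p] (hp : p ≠ 2) :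
    Nat.card {C : ConjClasses (Matrix.SpecialLinearGroup (Fin 2) F) // ∃ g : Matrix.SpecialLinearGroup (Fin 2) F, orderOf g = p ∧ ConjClasses.mk g = C} = 2 ∧
    (∀ g : Matrix.SpecialLinearGroup (Fin 2) F, orderOf g = p → Nat.card (ConjClasses.mk g).carrier = (Fintype.card F ^ 2 - 1) / 2) ∧
    ∀ g h : Matrix.SpecialLinearGroup (Fin 2) F, (g : Matrix (Fin 2) (Fin 2) F) 0 0 = 1 → (g : Matrix (Fin 2) (Fin 2) F) 1 1 = 1 → (g : Matrix (Fin 2) (Fin 2) F) 1 0 = 0 → (g : Matrix (Fin 2) (Fin 2) F) 0 1 ≠ 0 →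
      (h : Matrix (Fin 2) (Fin 2) F) 0 0 = 1 → (h : Matrix (Fin 2) (Fin 2) F) 1 1 = 1 → (h : Matrix (Fin 2) (Fin 2) F) 1 0 = 0 → (h : Matrix (Fin 2) (Fin 2) F) 0 1 ≠ 0 →
      (IsConj g h ↔ IsSquare ((g : Matrix (Fin 2) (Fin 2) F) 0 1 * (h : Matrix (Fin 2) (Fin 2) F) 0 1)) := by
  classical
  have hp2 : ringChar F ≠ 2 := by rwa [ringChar.eq F p]
  obtain ⟨ν, hν⟩ := FiniteField.exists_nonsquare (F := F) hp2
  have hν0 : ν ≠ 0 := fun h => hν (h ▸ ⟨0, (mul_zero _).symm⟩)
  have hord : ∀ t : F, t ≠ 0 → orderOf (CfsgLib.Psl2Unipotent.upperU t) = p := by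
    intro t ht
    refine orderOf_eq_prime ?_ ?_
    · apply Subtype.ext
      have hN : ((CfsgLib.Psl2Unipotent.upperU t : Matrix.SpecialLinearGroup (Fin 2) F) :
          Matrix (Fin 2) (Fin 2) F) - 1 = !![0, t; 0, 0] := by
        ext i j; fin_cases i <;> fin_cases j <;> simp
      have h2 : (((CfsgLib.Psl2Unipotent.upperU t : Matrix.SpecialLinearGroup (Fin 2) F) :
          Matrix (Fin 2) (Fin 2) F) - 1) ^ p ^ 1 = 0 := by
        refine pow_eq_zero_of_le (m := 2) ?_ ?_
        · rw [pow_one]; exact (Fact.out : p.Prime).two_le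
        · rw [hN, pow_two]
          ext i j; fin_cases i <;> fin_cases j <;> simp
      rw [sub_pow_char_pow_of_commute p 1 (Commute.one_right _), one_pow, sub_eq_zero, pow_one] at h2
      simpa using h2
    · intro h
      have := congrArg (fun x : Matrix.SpecialLinearGroup (Fin 2) F =>
        (x : Matrix (Fin 2) (Fin 2) F) 0 1) h
      simp at this
      exact ht this
  have hcls : ∀ t : F, t ≠ 0 → IsConj (CfsgLib.Psl2Unipotent.upperU t) (CfsgLib.Psl2Unipotent.upperU (1 : F)) ∨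
      IsConj (CfsgLib.Psl2Unipotent.upperU t) (CfsgLib.Psl2Unipotent.upperU ν) := by
    intro t ht
    by_cases h : IsSquare t
    · exact Or.inl ((CfsgLib.Psl2Unipotent.isConj_upperU_iff ht one_ne_zero).2 (by rwa [mul_one]))
    · refine Or.inr ((CfsgLib.Psl2Unipotent.isConj_upperU_iff ht hν0).2 ?_)
      have h1 : quadraticChar F t = -1 := quadraticChar_neg_one_iff_not_isSquare.2 h
      have h2 : quadraticChar F ν = -1 := quadraticChar_neg_one_iff_not_isSquare.2 hν
      refine (quadraticChar_one_iff_isSquare (mul_ne_zero ht hν0)).1 ?_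
      rw [map_mul, h1, h2]; norm_num
  refine ⟨?_, ?_, ?_⟩
  · suffices hset : {C | ∃ g : Matrix.SpecialLinearGroup (Fin 2) F, orderOf g = p ∧ ConjClasses.mk g = C} =
        ({ConjClasses.mk (CfsgLib.Psl2Unipotent.upperU (1 : F)),
          ConjClasses.mk (CfsgLib.Psl2Unipotent.upperU ν)} : Set (ConjClasses _)) by
      rw [← Set.coe_ofPred, hset, Nat.card_coe_set_eq, Set.ncard_pair]
      intro h
      have h2 := (CfsgLib.Psl2Unipotent.isConj_upperU_iff one_ne_zero hν0).1
        (ConjClasses.mk_eq_mk_iff_isConj.1 h)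
      rw [one_mul] at h2
      exact hν h2
    ext C
    constructor
    · rintro ⟨g, hg, rfl⟩
      obtain ⟨t, ht, hgt⟩ := CfsgLib.Psl2Unipotent.exists_isConj_upperU g hg
      rcases hcls t ht with h | h
      · exact Or.inl (ConjClasses.mk_eq_mk_iff_isConj.2 (hgt.trans h))
      · exact Or.inr (ConjClasses.mk_eq_mk_iff_isConj.2 (hgt.trans h))
    · rintro (rfl | rfl)
      · exact ⟨_, hord 1 one_ne_zero, rfl⟩
      · exact ⟨_, hord ν hν0, rfl⟩
  · intro g hg
    obtain ⟨t, ht, hgt⟩ := CfsgLib.Psl2Unipotent.exists_isConj_upperU g hg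
    rw [ConjClasses.mk_eq_mk_iff_isConj.2 hgt]
    have h := CfsgLib.Psl2Unipotent.card_conj_carrier (CfsgLib.Psl2Unipotent.upperU t)
    rw [CfsgLib.Psl2Unipotent.card_centralizer_upperU ht,
      CfsgLib.Psl2Unipotent.card_sq_eq_one_of_ne hp, CfsgLib.Psl2Unipotent.card_sl2,
      ← mul_assoc, mul_comm (Fintype.card F)] at h
    have h2 := Nat.eq_of_mul_eq_mul_right Fintype.card_pos h
    omega
  · intro g h g00 g11 g10 g01 h00 h11 h10 h01
    rw [CfsgLib.Psl2Unipotent.eq_upperU g g00 g11 g10, CfsgLib.Psl2Unipotent.eq_upperU h h00 h11 h10]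
    simpa using CfsgLib.Psl2Unipotent.isConj_upperU_iff g01 h01

end Cfsg.Agent.S2301
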