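import Cfsg.Statements.S2303
-- import your own Cfsg.Agent.* helpers here

set_option autoImplicit false
open Cfsg

namespace Cfsg.Agent.S2303

/-- Over a finite field with q elements: a diagonal element of GL₂ with two distinct diagonal entries has centralizer of order (q − 1)² (so q(q + 1) conjugates), and an element of GL₂ with no eigenvector in F² has centralizer of order q² − 1 (so q(q − 1) conjugates). -/
theorem result {F : Type*} [Field F] [Fintype F] (g : Matrix.GeneralLinearGroup (Fin 2) F) :
    ((g : Matrix (Fin 2) (Fin 2) F) 0 1 = 0 → (g : Matrix (Fin 2) (Fin 2) F) 1 0 = 0 → (g : Matrix (Fin 2) (Fin 2) F) 0 0 ≠ (g : Matrix (Fin 2) (Fin 2) F) 1 1 →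
      Nat.card (Subgroup.centralizer ({g} : Set (Matrix.GeneralLinearGroup (Fin 2) F))) = (Fintype.card F - 1) ^ 2) ∧
    ((∀ (c : F) (v : Fin 2 → F), v ≠ 0 → (g : Matrix (Fin 2) (Fin 2) F).mulVec v ≠ c • v) →
      Nat.card (Subgroup.centralizer ({g} : Set (Matrix.GeneralLinearGroup (Fin 2) F))) = Fintype.card F ^ 2 - 1) := by
  classical
  set M : Matrix (Fin 2) (Fin 2) F := (g : Matrix (Fin 2) (Fin 2) F) with hM
  have hmem : ∀ h : Matrix.GeneralLinearGroup (Fin 2) F,
      h ∈ Subgroup.centralizer ({g} : Set (Matrix.GeneralLinearGroup (Fin 2) F)) ↔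
        M * (h : Matrix (Fin 2) (Fin 2) F) = (h : Matrix (Fin 2) (Fin 2) F) * M := by
    intro h
    rw [Subgroup.mem_centralizer_singleton_iff, Units.ext_iff]
    exact eq_comm
  constructor
  · intro h01 h10 hne
    have hc : Nat.card {h : Matrix.GeneralLinearGroup (Fin 2) F //
        h ∈ Subgroup.centralizer ({g} : Set (Matrix.GeneralLinearGroup (Fin 2) F))} =
        Nat.card (Fˣ × Fˣ) := by
      refine (Nat.card_eq_of_bijective (fun p : Fˣ × Fˣ =>
        (⟨Matrix.GeneralLinearGroup.mkOfDetNeZero !![(p.1 : F), 0; 0, (p.2 : F)]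
          (by simp [Matrix.det_fin_two]), ?_⟩ : {h : Matrix.GeneralLinearGroup (Fin 2) F //
            h ∈ Subgroup.centralizer ({g} : Set (Matrix.GeneralLinearGroup (Fin 2) F))})) ⟨?_, ?_⟩).symm
      · rw [hmem]
        ext i j
        fin_cases i <;> fin_cases j <;>
          simp [Matrix.mul_apply, Fin.sum_univ_two, Matrix.GeneralLinearGroup.mkOfDetNeZero,
            h01, h10, mul_comm]
      · intro a b hab
        have h := congrArg (fun x : {h : Matrix.GeneralLinearGroup (Fin 2) F //
          h ∈ Subgroup.centralizer ({g} : Set (Matrix.GeneralLinearGroup (Fin 2) F))} =>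
            (x.1 : Matrix (Fin 2) (Fin 2) F)) hab
        have h0 := congrFun (congrFun h 0) 0
        have h1 := congrFun (congrFun h 1) 1
        simp [Matrix.GeneralLinearGroup.mkOfDetNeZero] at h0 h1
        exact Prod.ext (Units.ext h0) (Units.ext h1)
      · rintro ⟨h, hh⟩
        rw [hmem] at hh
        have e01 := congrFun (congrFun hh 0) 1
        have e10 := congrFun (congrFun hh 1) 0
        simp [Matrix.mul_apply, Fin.sum_univ_two, h01, h10] at e01 e10
        set H : Matrix (Fin 2) (Fin 2) F := (h : Matrix (Fin 2) (Fin 2) F) with hH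
        have z01 : H 0 1 = 0 := by
          have : (M 0 0 - M 1 1) * H 0 1 = 0 := by rw [sub_mul, e01]; ring
          exact (mul_eq_zero.1 this).resolve_left (sub_ne_zero.2 hne)
        have z10 : H 1 0 = 0 := by
          have : (M 1 1 - M 0 0) * H 1 0 = 0 := by rw [sub_mul, e10]; ring
          exact (mul_eq_zero.1 this).resolve_left (sub_ne_zero.2 (Ne.symm hne))
        have hd : H.det ≠ 0 := h.det_ne_zero
        rw [Matrix.det_fin_two, z01, z10] at hd
        simp at hd
        refine ⟨(Units.mk0 _ hd.1, Units.mk0 _ hd.2), Subtype.ext (Units.ext ?_)⟩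
        ext i j
        fin_cases i <;> fin_cases j <;>
          simp [Matrix.GeneralLinearGroup.mkOfDetNeZero, ← hH, z01, z10]
    rw [hc, Nat.card_prod, Nat.card_units, Nat.card_eq_fintype_card, pow_two]
  · intro hno
    have h10 : M 1 0 ≠ 0 := by
      intro h
      refine hno (M 0 0) ![1, 0] (fun h0 => by simpa using congrFun h0 0) ?_
      funext i
      fin_cases i <;> simp [Matrix.mulVec, dotProduct, Fin.sum_univ_two, h]
    have hdet : ∀ p : {p : F × F // p ≠ 0}, (p.1.1 • (1 : Matrix (Fin 2) (Fin 2) F) + p.1.2 • M).det ≠ 0 := by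
      rintro ⟨⟨a, b⟩, hp⟩ hd
      obtain ⟨v, hv, hv0⟩ := Matrix.exists_mulVec_eq_zero_iff.2 hd
      simp only [Matrix.add_mulVec, Matrix.smul_mulVec, Matrix.one_mulVec] at hv0
      by_cases hb : b = 0
      · subst hb
        have : a ≠ 0 := fun ha => hp (by simp [ha])
        simp [this, hv] at hv0
      · refine hno (-a / b) v hv ?_
        have h2 : b • M.mulVec v = (-a) • v := by
          rw [eq_comm, neg_smul, neg_eq_iff_add_eq_zero]; exact hv0
        calc M.mulVec v = b⁻¹ • b • M.mulVec v := (inv_smul_smul₀ hb _).symm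
          _ = _ := by rw [h2, smul_smul]; congr 1; ring
    have hc : Nat.card {h : Matrix.GeneralLinearGroup (Fin 2) F //
        h ∈ Subgroup.centralizer ({g} : Set (Matrix.GeneralLinearGroup (Fin 2) F))} =
        Nat.card {p : F × F // p ≠ 0} := by
      refine (Nat.card_eq_of_bijective (fun p : {p : F × F // p ≠ 0} =>
        (⟨Matrix.GeneralLinearGroup.mkOfDetNeZero _ (hdet p), ?_⟩ : {h : Matrix.GeneralLinearGroup (Fin 2) F //
            h ∈ Subgroup.centralizer ({g} : Set (Matrix.GeneralLinearGroup (Fin 2) F))})) ⟨?_, ?_⟩).symm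
      · rw [hmem]
        show M * (p.1.1 • 1 + p.1.2 • M) = (p.1.1 • 1 + p.1.2 • M) * M
        rw [mul_add, add_mul, mul_smul_comm, mul_smul_comm, smul_mul_assoc, smul_mul_assoc, mul_one, one_mul]
      · rintro ⟨⟨a, b⟩, hp⟩ ⟨⟨a', b'⟩, hp'⟩ hab
        have h : a • (1 : Matrix (Fin 2) (Fin 2) F) + b • M = a' • 1 + b' • M :=
          congrArg (fun x : {h : Matrix.GeneralLinearGroup (Fin 2) F //
            h ∈ Subgroup.centralizer ({g} : Set (Matrix.GeneralLinearGroup (Fin 2) F))} =>
              (x.1 : Matrix (Fin 2) (Fin 2) F)) hab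
        have h0 := congrFun (congrFun h 0) 0
        have h1 := congrFun (congrFun h 1) 0
        simp [h10] at h0 h1
        subst h1
        simp at h0
        subst h0
        rfl
      · rintro ⟨h, hh⟩
        rw [hmem] at hh
        set H : Matrix (Fin 2) (Fin 2) F := (h : Matrix (Fin 2) (Fin 2) F) with hH
        have e00 := congrFun (congrFun hh 0) 0
        have e10 := congrFun (congrFun hh 1) 0
        simp [Matrix.mul_apply, Fin.sum_univ_two] at e00 e10
        set b := H 1 0 / M 1 0 with hb
        set a := H 0 0 - b * M 0 0 with ha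
        have hbe : b * M 1 0 = H 1 0 := by rw [hb]; field_simp
        have hEq : a • (1 : Matrix (Fin 2) (Fin 2) F) + b • M = H := by
          ext i j
          fin_cases i <;> fin_cases j <;>
            simp [ha, hbe]
          · apply mul_right_cancel₀ h10
            linear_combination M 0 1 * hbe + e00
          · apply mul_right_cancel₀ h10
            linear_combination M 1 1 * hbe - M 0 0 * hbe + e10
        have hp : ((a, b) : F × F) ≠ 0 := by
          intro h0
          simp only [Prod.mk_eq_zero] at h0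
          refine h.det_ne_zero ?_
          rw [← hH, ← hEq, h0.1, h0.2]
          simp
        exact ⟨⟨(a, b), hp⟩, Subtype.ext (Units.ext hEq)⟩
    rw [hc, Nat.card_eq_fintype_card, Fintype.card_subtype_compl]
    simp [pow_two]

end Cfsg.Agent.S2303
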