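import Cfsg.Statements.S2307
import Cfsg.Agent.Sl2Chars.Degrees
import Cfsg.Agent.Eq.Def_Characters
import Cfsg.Agent.Sl2Chars.BorelEq
import Cfsg.Agent.Eq.Def_ParabolicCharacters
-- import your own Cfsg.Agent.* helpers here

set_option autoImplicit false
open Cfsg

namespace Cfsg.Agent.S2307

/-- Over a finite field F with q elements, q odd, let α be the multiplicative character of F of order 2. The character of SL₂ induced from the linear character b ↦ α(b₁₁) of the upper triangular subgroup is the sum of two distinct irreducible characters, each of degree (q + 1)/2, which are conjugate under GL₂: some fixed element of GL₂ conjugates the one into the other. -/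
theorem result {F : Type*} [Field F] [Fintype F] [DecidableEq F] (hodd : Odd (Fintype.card F)) (α : MulChar F ℂ)
    (hα : α ^ 2 = 1) (hα1 : α ≠ 1) :
    ∃ χ₁ χ₂ : Matrix.SpecialLinearGroup (Fin 2) F → ℂ, Cfsg.IsIrrCharacter (Matrix.SpecialLinearGroup (Fin 2) F) χ₁ ∧ Cfsg.IsIrrCharacter (Matrix.SpecialLinearGroup (Fin 2) F) χ₂ ∧ χ₁ ≠ χ₂ ∧
      Cfsg.indFun ((Cfsg.upperTriangularGL 2 F).comap Matrix.SpecialLinearGroup.toGL) (fun b => α (((b : Matrix.SpecialLinearGroup (Fin 2) F) : Matrix (Fin 2) (Fin 2) F) 0 0)) = χ₁ + χ₂ ∧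
      χ₁ 1 = (((Fintype.card F + 1) / 2 : ℕ) : ℂ) ∧ χ₂ 1 = (((Fintype.card F + 1) / 2 : ℕ) : ℂ) ∧
      ∃ x : Matrix.GeneralLinearGroup (Fin 2) F, ∀ g h : Matrix.SpecialLinearGroup (Fin 2) F,
        Matrix.SpecialLinearGroup.toGL h = x * Matrix.SpecialLinearGroup.toGL g * x⁻¹ → χ₂ h = χ₁ g := by
  classical
  have h2 : (2 : F) ≠ 0 := CfsgLib.SL2.two_ne_zero_iff_odd.2 hodd
  obtain ⟨ν, hν⟩ := CfsgLib.Sl2Chars.exists_nonsquare h2
  obtain ⟨χ, φ, hne, he⟩ := CfsgLib.Sl2Chars.exists_pair hα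
  have htw := CfsgLib.Sl2Chars.twistChar_half h2 hν hα hα1 he
  have hdeg : ∀ ψ : IrrCharacter (Matrix.SpecialLinearGroup (Fin 2) F),
      CfsgLib.Sl2Chars.pat ν ψ = (1, 1, 0) ∨ CfsgLib.Sl2Chars.pat ν ψ = (1, 0, 1) →
      (ψ : Matrix.SpecialLinearGroup (Fin 2) F → ℂ) 1 = (((Fintype.card F + 1) / 2 : ℕ) : ℂ) := by
    obtain ⟨k, hk⟩ := hodd
    intro ψ h
    rw [CfsgLib.Sl2Chars.apply_one_pat h2 hν, Nat.cast_inj]
    rcases h with h | h <;> rw [h] <;> simp [CfsgLib.Sl2Chars.patDeg] <;> omega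
  have hp := CfsgLib.Sl2Chars.pat_half h2 hν hα hα1 he
  refine ⟨χ, φ, χ.2, φ.2, fun h => hne (Subtype.ext h).symm, ?_, hdeg χ ?_, hdeg φ ?_,
    (CfsgLib.Sl2Chars.diagE ν (CfsgLib.Sl2Chars.ne_zero_of_not_isSquare hν))⁻¹, fun g h hgh => ?_⟩
  · rw [CfsgLib.Sl2Chars.indFun_comap_eq_P]; exact he
  · rcases hp with ⟨h, -⟩ | ⟨h, -⟩
    · exact Or.inl h
    · exact Or.inr h
  · rcases hp with ⟨-, h⟩ | ⟨-, h⟩
    · exact Or.inr h
    · exact Or.inl h
  · rw [← htw, CfsgLib.Sl2Chars.twistChar_apply]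
    exact congrArg _ (CfsgLib.Sl2Chars.twist_eq_of_conj _ g h hgh)

end Cfsg.Agent.S2307
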