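import Cfsg.Statements.S2315
import Cfsg.Agent.LinAlg.NilpotentCount

set_option autoImplicit false
open Cfsg

namespace Cfsg.Agent.S2315

/-- Steinberg's count of unipotent elements for the general linear group: over a finite field with q elements of characteristic p, the number of elements of GL_n of p-power order (the unipotent matrices) is q^(n(n−1)). -/
theorem result {F : Type*} [Field F] [Fintype F] (p : ℕ) [Fact p.Prime] [CharP F p] (n : ℕ) :
    Nat.card {g : Matrix.GeneralLinearGroup (Fin n) F // ∃ k : ℕ, orderOf g = p ^ k} = Fintype.card F ^ (n * (n - 1)) := by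
  classical
  rw [← CfsgLib.LinAlg.NilpotentCount.nilCount_eq (F := F) n, CfsgLib.LinAlg.NilpotentCount.nilCount]
  have hpow : ∀ (x : Matrix (Fin n) (Fin n) F) (k : ℕ), (x - 1) ^ (p ^ k) = x ^ (p ^ k) - 1 := by
    intro x k
    have h : ((Polynomial.X : Polynomial F) - 1) ^ (p ^ k) = Polynomial.X ^ (p ^ k) - 1 := by
      rw [sub_pow_char_pow, one_pow]
    have := congrArg (Polynomial.aeval x) h
    simpa using this
  refine Nat.card_congr
    { toFun := fun g => ⟨(g.1 : Matrix (Fin n) (Fin n) F) - 1, ?_⟩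
      invFun := fun A => ⟨A.2.isUnit_one_add.unit, ?_⟩
      left_inv := fun g => Subtype.ext (Units.ext (by simp))
      right_inv := fun A => Subtype.ext (by simp) }
  · obtain ⟨k, hk⟩ := g.2
    refine ⟨p ^ k, ?_⟩
    rw [hpow, ← Units.val_pow_eq_pow_val, ← hk, pow_orderOf_eq_one, Units.val_one, sub_self]
  · obtain ⟨m, hm⟩ := A.2
    have h1 : A.2.isUnit_one_add.unit ^ (p ^ m) = 1 := by
      refine Units.ext ?_
      rw [Units.val_pow_eq_pow_val, IsUnit.unit_spec, Units.val_one, ← sub_eq_zero, ← hpow,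
        add_sub_cancel_left]
      exact pow_eq_zero_of_le (Nat.lt_pow_self (Fact.out : p.Prime).one_lt).le hm
    obtain ⟨j, -, hj⟩ := (Nat.dvd_prime_pow Fact.out).1 (orderOf_dvd_of_pow_eq_one h1)
    exact ⟨j, hj⟩

end Cfsg.Agent.S2315
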