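import Cfsg.Statements.S2322
import Cfsg.Agent.Sl2Chars.Degrees
import Cfsg.Agent.Eq.Def_Characters
-- import your own Cfsg.Agent.* helpers here

set_option autoImplicit false
open Cfsg

namespace Cfsg.Agent.S2322

/-- Over a finite field F with q elements, q odd: every irreducible complex character of SL₂ of degree q − 1 or (q − 1)/2 vanishes at every diagonal matrix whose diagonal entry a has a² ≠ 1, and every irreducible complex character of degree q + 1 or (q + 1)/2 vanishes at every element with no eigenvector in F². -/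
theorem result {F : Type*} [Field F] [Fintype F] (hodd : Odd (Fintype.card F)) (χ : Matrix.SpecialLinearGroup (Fin 2) F → ℂ) (hχ : Cfsg.IsIrrCharacter (Matrix.SpecialLinearGroup (Fin 2) F) χ) (g : Matrix.SpecialLinearGroup (Fin 2) F) :
    ((χ 1 = (Fintype.card F : ℂ) - 1 ∨ χ 1 = (((Fintype.card F - 1) / 2 : ℕ) : ℂ)) →
      (g : Matrix (Fin 2) (Fin 2) F) 0 1 = 0 → (g : Matrix (Fin 2) (Fin 2) F) 1 0 = 0 → (g : Matrix (Fin 2) (Fin 2) F) 0 0 ^ 2 ≠ 1 → χ g = 0) ∧
    ((χ 1 = (Fintype.card F : ℂ) + 1 ∨ χ 1 = (((Fintype.card F + 1) / 2 : ℕ) : ℂ)) →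
      (∀ (c : F) (v : Fin 2 → F), v ≠ 0 → (g : Matrix (Fin 2) (Fin 2) F).mulVec v ≠ c • v) → χ g = 0) := by
  classical
  have h2 : (2 : F) ≠ 0 := CfsgLib.SL2.two_ne_zero_iff_odd.2 hodd
  obtain ⟨ν, hν⟩ := CfsgLib.Sl2Chars.exists_nonsquare h2
  obtain ⟨k, hk⟩ := hodd
  obtain ⟨χ, rfl⟩ : ∃ x : IrrCharacter (Matrix.SpecialLinearGroup (Fin 2) F),
      (x : Matrix.SpecialLinearGroup (Fin 2) F → ℂ) = χ := ⟨⟨χ, hχ⟩, rfl⟩
  have hq := Fintype.one_lt_card (α := F)
  refine ⟨fun hd h01 h10 h00 => ?_, fun hd hg => ?_⟩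
  · obtain ⟨a, ha, rfl⟩ := CfsgLib.Sl2Chars.exists_d_of_diag h01 h10 h00
    have h3 : Fintype.card F ≠ 3 := fun h3 => ha (by
      apply Units.ext
      rw [Units.val_mul, Units.val_one, ← sq,
        show (2 : ℕ) = Fintype.card F - 1 by omega]
      exact FiniteField.pow_card_sub_one_eq_one _ a.ne_zero)
    refine CfsgLib.Sl2Chars.apply_d_eq_zero ?_ ha
    obtain ⟨n, hn, hd'⟩ : ∃ n : ℕ, (χ : Matrix.SpecialLinearGroup (Fin 2) F → ℂ) 1 = n ∧
        (n = Fintype.card F - 1 ∨ n = (Fintype.card F - 1) / 2) := by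
      rcases hd with hd | hd
      · exact ⟨_, by rw [hd, Nat.cast_sub (by omega), Nat.cast_one], Or.inl rfl⟩
      · exact ⟨_, hd, Or.inr rfl⟩
    rcases CfsgLib.Sl2Chars.pat_deg_cases h2 hν χ hn with
      ⟨h, e⟩ | ⟨h, e⟩ | ⟨h, e⟩ | ⟨h, e⟩ | ⟨h, e⟩ | ⟨h, e⟩
    all_goals try omega
    · exact congrArg Prod.fst h
    · rcases h with h | h <;> exact congrArg Prod.fst h
  · have hns := CfsgLib.Sl2Chars.not_isSplitTrace_of_forall hg
    obtain ⟨n, hn, hd'⟩ : ∃ n : ℕ, (χ : Matrix.SpecialLinearGroup (Fin 2) F → ℂ) 1 = n ∧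
        (n = Fintype.card F + 1 ∨ n = (Fintype.card F + 1) / 2) := by
      rcases hd with hd | hd
      · exact ⟨_, by rw [hd, Nat.cast_add_one], Or.inl rfl⟩
      · exact ⟨_, hd, Or.inr rfl⟩
    have hcases : CfsgLib.Sl2Chars.nU χ 0 ≠ 0 ∧ χ ≠ CfsgLib.Chars.oneChar _ ∧
        χ ≠ CfsgLib.Sl2Chars.stChar F ∨
        Fintype.card F = 3 ∧ CfsgLib.Sl2Chars.pat ν χ = (0, 1, 1) := by
      rcases CfsgLib.Sl2Chars.pat_deg_cases h2 hν χ hn with
        ⟨h, e⟩ | ⟨h, e⟩ | ⟨h, e⟩ | ⟨h, e⟩ | ⟨h, e⟩ | ⟨h, e⟩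
      all_goals try omega
      · refine Or.inl ⟨fun h0 => ?_, fun he => ?_, fun he => ?_⟩
        · simp [CfsgLib.Sl2Chars.pat, h0] at h
        · simp [he, CfsgLib.Sl2Chars.pat_oneChar hν] at h
        · simp [he, CfsgLib.Sl2Chars.pat_stChar] at h
      · refine Or.inl ⟨fun h0 => ?_, fun he => ?_, fun he => ?_⟩
        · simp [CfsgLib.Sl2Chars.pat, h0] at h
        · simp [he, CfsgLib.Sl2Chars.pat_oneChar hν] at h
        · simp [he, CfsgLib.Sl2Chars.pat_stChar] at h
      · exact Or.inr ⟨by omega, h⟩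
    rcases hcases with ⟨h0, h1, hst⟩ | ⟨h3, hp⟩
    · rcases CfsgLib.Sl2Chars.noncusp_cases h2 hν h0 with
        h | h | ⟨α, -, h, -⟩ | ⟨α, φ, hα, hα1, -, he, -⟩
      · exact absurd h h1
      · exact absurd h hst
      · rw [h]; exact CfsgLib.Sl2Chars.P_apply_nonsplit α hns
      · exact CfsgLib.Sl2Chars.apply_nonsplit_half h2 hν hα hα1 he hns
    · -- the case `q = 3`: four other characters already fill the column of `g`
      have hl : ∀ p : ℕ × ℕ × ℕ, p = (0, 1, 0) ∨ p = (0, 0, 1) →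
          ∃ l : IrrCharacter (Matrix.SpecialLinearGroup (Fin 2) F),
            CfsgLib.Sl2Chars.pat ν l = p ∧
              ‖(l : Matrix.SpecialLinearGroup (Fin 2) F → ℂ) g‖ = 1 := by
        intro p hp'
        have hcard : (Finset.univ.filter fun l : IrrCharacter (Matrix.SpecialLinearGroup (Fin 2) F) =>
            CfsgLib.Sl2Chars.pat ν l = p).card = 1 := by
          apply Nat.cast_injective (R := ℂ)
          rw [CfsgLib.Sl2Chars.card_pat h2 hν]
          rcases hp' with rfl | rfl <;> norm_num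
        obtain ⟨l, hl⟩ := Finset.card_eq_one.1 hcard
        have hl' : CfsgLib.Sl2Chars.pat ν l = p := by
          have hm := Finset.mem_singleton_self l
          rw [← hl] at hm
          exact (Finset.mem_filter.1 hm).2
        refine ⟨l, hl', ?_⟩
        have h1 : (l : Matrix.SpecialLinearGroup (Fin 2) F → ℂ) 1 = 1 := by
          rw [CfsgLib.Sl2Chars.apply_one_pat h2 hν, hl']
          rcases hp' with rfl | rfl <;> simp [CfsgLib.Sl2Chars.patDeg, h3]
        obtain ⟨f, rfl⟩ := CfsgLib.Chars.exists_linChar_eq l h1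
        refine CfsgLib.Chars.norm_eq_one_of_pow_orderOf (g := g) ?_
        rw [CfsgLib.Chars.linChar_apply, ← Units.val_pow_eq_pow_val, ← map_pow, pow_orderOf_eq_one,
          map_one, Units.val_one]
      obtain ⟨l₁, hl₁, hn₁⟩ := hl _ (Or.inl rfl)
      obtain ⟨l₂, hl₂, hn₂⟩ := hl _ (Or.inr rfl)
      have hs := CfsgLib.Chars.sum_irr_norm_sq g
      rw [CfsgLib.SL2.card_centralizer_nonsplit hns, h3] at hs
      have hle := Finset.sum_le_univ_sum_of_nonneg
        (f := fun x : IrrCharacter (Matrix.SpecialLinearGroup (Fin 2) F) =>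
          ‖(x : Matrix.SpecialLinearGroup (Fin 2) F → ℂ) g‖ ^ 2)
        (fun _ => sq_nonneg _)
        (s := ({CfsgLib.Chars.oneChar _, CfsgLib.Sl2Chars.stChar F, l₁, l₂, χ} :
          Finset (IrrCharacter (Matrix.SpecialLinearGroup (Fin 2) F))))
      have hne : ∀ {x y : IrrCharacter (Matrix.SpecialLinearGroup (Fin 2) F)},
          CfsgLib.Sl2Chars.pat ν x ≠ CfsgLib.Sl2Chars.pat ν y → x ≠ y :=
        fun h he => h (congrArg _ he)
      have p1 := CfsgLib.Sl2Chars.pat_oneChar hν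
      have p2 := CfsgLib.Sl2Chars.pat_stChar (F := F) ν
      rw [hs, Finset.sum_insert, Finset.sum_insert, Finset.sum_insert, Finset.sum_pair] at hle
      · have hst : (CfsgLib.Sl2Chars.stChar F : Matrix.SpecialLinearGroup (Fin 2) F → ℂ) g = -1 := by
          simp [CfsgLib.Sl2Chars.stChar, CfsgLib.Sl2Chars.stFun,
            CfsgLib.Sl2Chars.P_apply_nonsplit _ hns]
        rw [hn₁, hn₂, hst, CfsgLib.Chars.oneChar_apply, norm_neg, norm_one] at hle
        push_cast at hle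
        have h0 : ‖(χ : Matrix.SpecialLinearGroup (Fin 2) F → ℂ) g‖ ^ 2 = 0 :=
          le_antisymm (by linarith) (sq_nonneg _)
        simpa using h0
      all_goals try simp only [Finset.mem_insert, Finset.mem_singleton, not_or]
      all_goals repeat' apply And.intro
      all_goals apply hne
      all_goals simp [p1, p2, hl₁, hl₂, hp]

end Cfsg.Agent.S2322
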