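import Cfsg.Statements.S2324
import Cfsg.Agent.Sl2Chars.Degrees
import Cfsg.Agent.Eq.Def_Characters
-- import your own Cfsg.Agent.* helpers here

set_option autoImplicit false
open Cfsg

namespace Cfsg.Agent.S2324

/-- Over a finite field F with q elements, q odd and q ≥ 5, let u be the upper unitriangular matrix of SL₂ with off-diagonal entry 1 and let δ = (−1)^((q−1)/2). Every irreducible complex character χ of SL₂ of degree (q + 1)/2 satisfies (2χ(u) − 1)² = δq, and every irreducible complex character χ of degree (q − 1)/2 satisfies (2χ(u) + 1)² = δq; that is, χ(u) = (1 ± √(δq))/2 in the first case and χ(u) = (−1 ± √(δq))/2 in the second. Moreover two different irreducible characters of degree (q + 1)/2 take the two different values (their values at u add up to 1), and likewise for degree (q − 1)/2 (values adding up to −1). -/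
theorem result {F : Type*} [Field F] [Fintype F] (hodd : Odd (Fintype.card F)) (hq : 5 ≤ Fintype.card F)
    (u : Matrix.SpecialLinearGroup (Fin 2) F) (hu : (u : Matrix (Fin 2) (Fin 2) F) = !![1, 1; 0, 1]) :
    (∀ χ : Matrix.SpecialLinearGroup (Fin 2) F → ℂ, Cfsg.IsIrrCharacter (Matrix.SpecialLinearGroup (Fin 2) F) χ → χ 1 = (((Fintype.card F + 1) / 2 : ℕ) : ℂ) → (2 * χ u - 1) ^ 2 = (-1 : ℂ) ^ ((Fintype.card F - 1) / 2) * (Fintype.card F : ℂ)) ∧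
    (∀ χ : Matrix.SpecialLinearGroup (Fin 2) F → ℂ, Cfsg.IsIrrCharacter (Matrix.SpecialLinearGroup (Fin 2) F) χ → χ 1 = (((Fintype.card F - 1) / 2 : ℕ) : ℂ) → (2 * χ u + 1) ^ 2 = (-1 : ℂ) ^ ((Fintype.card F - 1) / 2) * (Fintype.card F : ℂ)) ∧
    (∀ χ₁ χ₂ : Matrix.SpecialLinearGroup (Fin 2) F → ℂ, Cfsg.IsIrrCharacter (Matrix.SpecialLinearGroup (Fin 2) F) χ₁ → Cfsg.IsIrrCharacter (Matrix.SpecialLinearGroup (Fin 2) F) χ₂ → χ₁ ≠ χ₂ →
      χ₁ 1 = (((Fintype.card F + 1) / 2 : ℕ) : ℂ) → χ₂ 1 = (((Fintype.card F + 1) / 2 : ℕ) : ℂ) → χ₁ u + χ₂ u = 1) ∧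
    (∀ χ₁ χ₂ : Matrix.SpecialLinearGroup (Fin 2) F → ℂ, Cfsg.IsIrrCharacter (Matrix.SpecialLinearGroup (Fin 2) F) χ₁ → Cfsg.IsIrrCharacter (Matrix.SpecialLinearGroup (Fin 2) F) χ₂ → χ₁ ≠ χ₂ →
      χ₁ 1 = (((Fintype.card F - 1) / 2 : ℕ) : ℂ) → χ₂ 1 = (((Fintype.card F - 1) / 2 : ℕ) : ℂ) → χ₁ u + χ₂ u = -1) := by
  classical
  obtain rfl : u = CfsgLib.SL2.u 1 := Subtype.ext hu
  have h2 : (2 : F) ≠ 0 := CfsgLib.SL2.two_ne_zero_iff_odd.2 hodd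
  obtain ⟨ν, hν⟩ := CfsgLib.Sl2Chars.exists_nonsquare h2
  rw [← CfsgLib.Sl2Chars.gaussQ_sq h2]
  have hG : ∀ (χ : IrrCharacter (Matrix.SpecialLinearGroup (Fin 2) F)) (a b c : ℕ),
      CfsgLib.Sl2Chars.pat ν χ = (a, b, c) → (χ : Matrix.SpecialLinearGroup (Fin 2) F → ℂ)
        (CfsgLib.SL2.u 1) = a - ((b : ℂ) + c) / 2 + ((b : ℂ) - c) / 2 *
          CfsgLib.Sl2Chars.gaussQ F := by
    intro χ a b c h
    rw [CfsgLib.Sl2Chars.apply_u_pat hν χ one_ne_zero h, MulChar.map_one, one_mul]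
  have hh : ∀ χ : IrrCharacter (Matrix.SpecialLinearGroup (Fin 2) F),
      (χ : Matrix.SpecialLinearGroup (Fin 2) F → ℂ) 1 = (((Fintype.card F + 1) / 2 : ℕ) : ℂ) →
      CfsgLib.Sl2Chars.pat ν χ = (1, 1, 0) ∨ CfsgLib.Sl2Chars.pat ν χ = (1, 0, 1) := by
    intro χ hd
    obtain ⟨k, hk⟩ := hodd
    rcases CfsgLib.Sl2Chars.pat_deg_cases h2 hν χ hd with
      ⟨h, e⟩ | ⟨h, e⟩ | ⟨h, e⟩ | ⟨h, e⟩ | ⟨h, e⟩ | ⟨h, e⟩ <;> first | omega | exact h
  have hc : ∀ χ : IrrCharacter (Matrix.SpecialLinearGroup (Fin 2) F),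
      (χ : Matrix.SpecialLinearGroup (Fin 2) F → ℂ) 1 = (((Fintype.card F - 1) / 2 : ℕ) : ℂ) →
      CfsgLib.Sl2Chars.pat ν χ = (0, 1, 0) ∨ CfsgLib.Sl2Chars.pat ν χ = (0, 0, 1) := by
    intro χ hd
    obtain ⟨k, hk⟩ := hodd
    rcases CfsgLib.Sl2Chars.pat_deg_cases h2 hν χ hd with
      ⟨h, e⟩ | ⟨h, e⟩ | ⟨h, e⟩ | ⟨h, e⟩ | ⟨h, e⟩ | ⟨h, e⟩ <;> first | omega | exact h
  refine ⟨fun χ hχ hd => ?_, fun χ hχ hd => ?_, fun χ φ hχ hφ hne hd hd' => ?_,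
    fun χ φ hχ hφ hne hd hd' => ?_⟩
  · rcases hh ⟨χ, hχ⟩ hd with h | h <;>
      rw [show χ (CfsgLib.SL2.u 1) = _ from hG _ _ _ _ h] <;> push_cast <;> ring
  · rcases hc ⟨χ, hχ⟩ hd with h | h <;>
      rw [show χ (CfsgLib.SL2.u 1) = _ from hG _ _ _ _ h] <;> push_cast <;> ring
  · rcases hh ⟨χ, hχ⟩ hd with h | h <;> rcases hh ⟨φ, hφ⟩ hd' with h' | h'
    · exact absurd (congrArg Subtype.val
        (CfsgLib.Sl2Chars.eq_of_pat_eq h2 hν (Or.inl rfl) h h')) hne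
    all_goals first
      | exact absurd (congrArg Subtype.val
          (CfsgLib.Sl2Chars.eq_of_pat_eq h2 hν (Or.inr (Or.inl rfl)) h h')) hne
      | (rw [show χ (CfsgLib.SL2.u 1) = _ from hG _ _ _ _ h,
          show φ (CfsgLib.SL2.u 1) = _ from hG _ _ _ _ h']; push_cast; ring)
  · rcases hc ⟨χ, hχ⟩ hd with h | h <;> rcases hc ⟨φ, hφ⟩ hd' with h' | h'
    · exact absurd (congrArg Subtype.val
        (CfsgLib.Sl2Chars.eq_of_pat_eq h2 hν (Or.inr (Or.inr (Or.inl rfl))) h h')) hne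
    all_goals first
      | exact absurd (congrArg Subtype.val
          (CfsgLib.Sl2Chars.eq_of_pat_eq h2 hν (Or.inr (Or.inr (Or.inr rfl))) h h')) hne
      | (rw [show χ (CfsgLib.SL2.u 1) = _ from hG _ _ _ _ h,
          show φ (CfsgLib.SL2.u 1) = _ from hG _ _ _ _ h']; push_cast; ring)

end Cfsg.Agent.S2324
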