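import Cfsg.Statements.S2329
import Cfsg.Agent.Gl2.Companion

set_option autoImplicit false
open Cfsg

namespace Cfsg.Agent.S2329

/-- Over a finite field of characteristic p, any two elements of order p of GL₂ are conjugate: there is a single conjugacy class of non-identity unipotent elements. -/
theorem result {F : Type*} [Field F] [Fintype F] (p : ℕ) [Fact p.Prime] [CharP F p] (g h : Matrix.GeneralLinearGroup (Fin 2) F)
    (hg : orderOf g = p) (hh : orderOf h = p) : IsConj g h := by
  have key : ∀ g : Matrix.GeneralLinearGroup (Fin 2) F, orderOf g = p →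
      ¬ CfsgLib.Gl2.IsScalar2 (g : Matrix (Fin 2) (Fin 2) F) ∧
        (g : Matrix (Fin 2) (Fin 2) F).trace = 2 ∧ Matrix.GeneralLinearGroup.det g = 1 := by
    intro g hg
    have hp : p.Prime := Fact.out
    have hgp : g ^ p = 1 := hg ▸ pow_orderOf_eq_one g
    have hM : ((g : Matrix (Fin 2) (Fin 2) F)) ^ p = 1 := by
      rw [← Units.val_pow_eq_pow_val, hgp]; rfl
    have hN : ((g : Matrix (Fin 2) (Fin 2) F) - 1) ^ p = 0 := by
      rw [sub_pow_char_of_commute p (Commute.one_right _), hM, one_pow, sub_self]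
    have hnil : IsNilpotent ((g : Matrix (Fin 2) (Fin 2) F) - 1) := ⟨p, hN⟩
    have htr : (g : Matrix (Fin 2) (Fin 2) F).trace = 2 := by
      have := Matrix.isNilpotent_trace_of_isNilpotent hnil
      rw [isNilpotent_iff_eq_zero, Matrix.trace_sub, sub_eq_zero] at this
      rw [this]; simp
    have hdet : Matrix.GeneralLinearGroup.det g = 1 := by
      have h1 : (Matrix.GeneralLinearGroup.det g) ^ p = 1 := by
        rw [← map_pow, hgp, map_one]
      apply Units.ext
      have h2 : ((Matrix.GeneralLinearGroup.det g : F) - 1) ^ p = 0 := by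
        rw [sub_pow_char, one_pow, ← Units.val_pow_eq_pow_val, h1]; simp
      exact sub_eq_zero.mp (pow_eq_zero_iff hp.ne_zero |>.mp h2)
    refine ⟨?_, htr, hdet⟩
    rintro ⟨h01, h10, h00⟩
    have hne : g ≠ 1 := fun h => hp.one_lt.ne' (by rw [← hg, h, orderOf_one])
    refine hne (Units.ext ?_)
    have hd : (g : Matrix (Fin 2) (Fin 2) F) 0 0 ^ 2 = 1 := by
      have : (g : Matrix (Fin 2) (Fin 2) F).det = 1 := by
        simpa using congrArg Units.val hdet
      rw [Matrix.det_fin_two, h01, h10, ← h00] at this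
      linear_combination this
    rw [Matrix.trace_fin_two, ← h00] at htr
    have h0 : (g : Matrix (Fin 2) (Fin 2) F) 0 0 = 1 := by
      have : ((g : Matrix (Fin 2) (Fin 2) F) 0 0 - 1) ^ 2 = 0 := by linear_combination hd - htr
      exact sub_eq_zero.mp (pow_eq_zero_iff two_ne_zero |>.mp this)
    ext i j
    fin_cases i <;> fin_cases j <;> simp [h01, h10, ← h00, h0]
  obtain ⟨a1, a2, a3⟩ := key g hg
  obtain ⟨b1, b2, b3⟩ := key h hh
  exact CfsgLib.Gl2.isConj_iff_trace_det g h a1 b1 (a2.trans b2.symm) (a3.trans b3.symm)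

end Cfsg.Agent.S2329
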