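import Cfsg.Statements.S2330
import Cfsg.Agent.Gl2.Companion

set_option autoImplicit false
open Cfsg

namespace Cfsg.Agent.S2330

/-- Over a finite field with q elements, the general linear group GL₂ has exactly q² − 1 conjugacy classes. -/
theorem result {F : Type*} [Field F] [Fintype F] :
    Nat.card (ConjClasses (Matrix.GeneralLinearGroup (Fin 2) F)) = Fintype.card F ^ 2 - 1 := by
  classical
  let M : Matrix.GeneralLinearGroup (Fin 2) F → Matrix (Fin 2) (Fin 2) F := fun g => ↑g
  let Φ : Fˣ ⊕ F × Fˣ → ConjClasses (Matrix.GeneralLinearGroup (Fin 2) F) :=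
    Sum.elim (fun a => ConjClasses.mk (Matrix.GeneralLinearGroup.scalar (Fin 2) a))
      (fun x => ConjClasses.mk (CfsgLib.Gl2.companionGL x.1 x.2))
  have hscal : ∀ (a : Fˣ) (g : Matrix.GeneralLinearGroup (Fin 2) F),
      IsConj (Matrix.GeneralLinearGroup.scalar (Fin 2) a) g →
        g = Matrix.GeneralLinearGroup.scalar (Fin 2) a := by
    intro a g h
    obtain ⟨c, hc⟩ := isConj_iff.mp h
    rw [← hc]
    have : Commute (Matrix.GeneralLinearGroup.scalar (Fin 2) a) c := by
      apply Units.ext
      exact (Matrix.scalar_commute (a : F) (fun r => Commute.all _ r) (M c)).eq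
    rw [← this.eq, mul_inv_cancel_right]
  have hns : ∀ (a : Fˣ) (t : F) (d : Fˣ),
      CfsgLib.Gl2.companionGL t d ≠ Matrix.GeneralLinearGroup.scalar (Fin 2) a := by
    intro a t d h
    have := congrArg (fun g => M g 1 0) h
    simp [M, CfsgLib.Gl2.companionGL, CfsgLib.Gl2.companion2] at this
  have hbij : Function.Bijective Φ := by
    constructor
    · rintro (a | ⟨t, d⟩) (b | ⟨s, e⟩) h <;>
        simp only [Φ, Sum.elim_inl, Sum.elim_inr, ConjClasses.mk_eq_mk_iff_isConj] at h
      · have := congrArg (fun g => M g 0 0) (hscal a _ h)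
        simp [M] at this
        exact congrArg Sum.inl (Units.ext this.symm)
      · exact absurd (hscal a _ h) (hns a s e)
      · exact absurd (hscal b _ h.symm) (hns b t d)
      · obtain ⟨c, hc⟩ := isConj_iff.mp h
        have h1 : Matrix.GeneralLinearGroup.det (CfsgLib.Gl2.companionGL t d) =
            Matrix.GeneralLinearGroup.det (CfsgLib.Gl2.companionGL s e) := by
          rw [← hc, map_mul, map_mul, map_inv, mul_comm, inv_mul_cancel_left]
        have hd : d = e := by
          apply Units.ext
          have := congrArg Units.val h1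
          simpa [CfsgLib.Gl2.companionGL, CfsgLib.Gl2.det_companion2] using this
        have ht : (M (CfsgLib.Gl2.companionGL t d)).trace =
            (M (CfsgLib.Gl2.companionGL s e)).trace := by
          rw [← hc]
          exact (Matrix.trace_units_conj c _).symm
        rw [CfsgLib.Gl2.companionGL, CfsgLib.Gl2.companionGL] at ht
        simp [M, CfsgLib.Gl2.trace_companion2] at ht
        rw [ht, hd]
    · intro C
      induction C using Quotient.inductionOn with
      | h g =>
        by_cases hg : CfsgLib.Gl2.IsScalar2 (M g)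
        · obtain ⟨h01, h10, h00⟩ := hg
          have hne : M g 0 0 ≠ 0 := by
            intro h0
            have := (g.isUnit.map Matrix.detMonoidHom).ne_zero
            simp [Matrix.det_fin_two, M] at h0 h01 this
            rw [h0, h01] at this
            simp at this
          refine ⟨Sum.inl (Units.mk0 _ hne), congrArg ConjClasses.mk (Units.ext ?_)⟩
          ext i j
          fin_cases i <;> fin_cases j <;> simp [M] at h01 h10 h00 ⊢ <;> simp [h01, h10, h00]
        · exact ⟨Sum.inr ((M g).trace, Matrix.GeneralLinearGroup.det g),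
            ConjClasses.mk_eq_mk_iff_isConj.mpr (CfsgLib.Gl2.isConj_companionGL g hg)⟩
  rw [← Nat.card_congr (Equiv.ofBijective Φ hbij), Nat.card_sum, Nat.card_prod, Nat.card_units,
    Nat.card_eq_fintype_card]
  have hq : 1 ≤ Fintype.card F := Fintype.card_pos
  obtain ⟨k, hk⟩ : ∃ k, Fintype.card F = k + 1 := ⟨_, (Nat.sub_add_cancel hq).symm⟩
  rw [hk, Nat.add_sub_cancel]
  apply Nat.eq_sub_of_add_eq
  ring

end Cfsg.Agent.S2330
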