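import Cfsg.Statements.S2362
import Cfsg.Agent.Eq.Def_Classical
import Cfsg.Agent.Spec53.SpTorusUnipotent

set_option autoImplicit false
open Cfsg

namespace Cfsg.Agent.S2362

/-- Let F be a finite field of odd order and n ≥ 3. The simple orthogonal group PΩ(2n+1, F) (type B_n) and the projective symplectic group PSp(2n, F) (type C_n), which have the same order, do not have the same set of element orders. -/
theorem result {F : Type*} [Field F] [Fintype F] (hodd : Odd (Fintype.card F)) (n : ℕ) (hn : 3 ≤ n) :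
    Set.range (orderOf : Cfsg.POmega F (Cfsg.quadFormOdd n F) → ℕ) ≠ Set.range (orderOf : Cfsg.PSp n F → ℕ) := by
  classical
  obtain ⟨p, hp⟩ := CharP.exists F
  haveI := hp
  obtain ⟨e, hprime, he⟩ := FiniteField.card F p
  haveI : Fact p.Prime := ⟨hprime⟩
  have hp2 : p ≠ 2 := by
    rintro rfl
    rw [he, Nat.odd_pow_iff e.ne_zero] at hodd
    exact absurd hodd (by decide)
  obtain ⟨m, rfl⟩ := Nat.exists_eq_add_of_le (show 1 ≤ n by omega)
  intro h
  obtain ⟨x, hx⟩ := CfsgLib.Spec53.exists_psp_orderOf_torus_unipotent (F := F) p hp2 m (by omega)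
  obtain ⟨y, hy⟩ := (h.symm ▸ ⟨x, hx⟩ :
    p * (Fintype.card F ^ m + 1) ∈
      Set.range (orderOf : Cfsg.POmega F (Cfsg.quadFormOdd (1 + m) F) → ℕ))
  exact CfsgLib.Spec53.not_orderOf_pomega_odd p hp2 m (by omega) y hy

end Cfsg.Agent.S2362
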