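import Cfsg.Statements.S2364
import Cfsg.Agent.CommutingOrderP.Basic
-- import your own Cfsg.Agent.* helpers here

set_option autoImplicit false
open Cfsg

namespace Cfsg.Agent.S2364

/-- Let F be a finite field of characteristic p, n ≥ 4, and let a, b be commuting elements of PSL(n, F) with a of order p. Then every prime divisor of the order of b divides the order of SL(n − 2, F). -/
theorem result {F : Type*} [Field F] [Fintype F] (p : ℕ) [Fact p.Prime] [CharP F p] (n : ℕ) (hn : 4 ≤ n)
    (a b : Matrix.ProjectiveSpecialLinearGroup (Fin n) F) (ha : orderOf a = p) (hab : Commute a b) :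
    (orderOf b).primeFactors ⊆ (Nat.card (Matrix.SpecialLinearGroup (Fin (n - 2)) F)).primeFactors := by
  classical
  obtain ⟨m, rfl⟩ : ∃ m, n = m + 2 := ⟨n - 2, by omega⟩
  rw [Nat.add_sub_cancel]
  have hp : p.Prime := Fact.out
  intro r hr
  rw [Nat.mem_primeFactors] at hr ⊢
  refine ⟨hr.1, ?_, Nat.card_pos.ne'⟩
  by_contra hnd
  have hrp : r ≠ p := fun h => hnd (h ▸ CfsgLib.CommutingOrderP.char_dvd_card_sl hp (by omega))
  have hrq : ¬ r ∣ Fintype.card F - 1 :=
    fun h => hnd (CfsgLib.CommutingOrderP.dvd_card_sl_of_sub_one (by omega) h)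
  set G := Matrix.SpecialLinearGroup (Fin (m + 2)) F
  set Z := Subgroup.center G
  have hZdvd : Nat.card Z ∣ Fintype.card F - 1 := by
    rw [CfsgLib.Classical.Linear.center_sl_card]
    exact Nat.gcd_dvd_right _ _
  have hpq : ¬ p ∣ Fintype.card F - 1 := fun h => by
    obtain ⟨k, -, hk⟩ := FiniteField.card F p
    have hq : p ∣ Fintype.card F := hk ▸ dvd_pow_self p k.pos.ne'
    have := Nat.dvd_sub hq h
    rw [Nat.sub_sub_self (Fintype.card_pos)] at this
    exact hp.not_dvd_one this
  have hcp : Nat.Coprime p (Nat.card Z) :=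
    hp.coprime_iff_not_dvd.2 fun h => hpq (h.trans hZdvd)
  have hcr : Nat.Coprime r (Nat.card Z) :=
    hr.1.coprime_iff_not_dvd.2 fun h => hrq (h.trans hZdvd)
  obtain ⟨u, hu, hua, huo⟩ := CfsgLib.CommutingOrderP.exists_lift_pow Z hcp a ha
  have hco : orderOf (b ^ (orderOf b / r)) = r :=
    orderOf_pow_orderOf_div (orderOf_pos b).ne' hr.2.1
  obtain ⟨y, hy, hyc, hyo⟩ := CfsgLib.CommutingOrderP.exists_lift_pow Z hcr _ hco
  have hcomm : Commute u y :=
    CfsgLib.CommutingOrderP.commute_of_lifts Z le_rfl hcp u y hu (by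
      rw [hua, hyc]
      exact ((hab.pow_right _).pow_pow _ _))
  let Φ : G →* Module.End F (Fin (m + 2) → F) :=
    (Matrix.toLinAlgEquiv' : Matrix (Fin (m + 2)) (Fin (m + 2)) F ≃ₐ[F]
      Module.End F (Fin (m + 2) → F)).toMonoidHom.comp
      { toFun := fun g : G => (g : Matrix (Fin (m + 2)) (Fin (m + 2)) F)
        map_one' := rfl
        map_mul' := fun _ _ => rfl }
  have hΦinj : Function.Injective Φ := fun g h e =>
    Subtype.ext (Matrix.toLinAlgEquiv'.injective e)
  have hN : (Φ u - 1) ^ p = 0 := by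
    have h0 : ((u : Matrix (Fin (m + 2)) (Fin (m + 2)) F) - 1) ^ p = 0 := by
      rw [sub_pow_char_of_commute p (Commute.one_right _), one_pow,
        ← Matrix.SpecialLinearGroup.coe_pow, hu, Matrix.SpecialLinearGroup.coe_one, sub_self]
    have h1 : Φ u - 1 = Matrix.toLinAlgEquiv' ((u : Matrix (Fin (m + 2)) (Fin (m + 2)) F) - 1) := by
      rw [map_sub, map_one]
      rfl
    rw [h1, ← map_pow, h0, map_zero]
  have hY : Φ y ^ r = 1 := by rw [← map_pow, hy, map_one]
  have hr0 : (r : F) ≠ 0 := fun h =>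
    hrp ((Nat.prime_dvd_prime_iff_eq hp hr.1).1 ((CharP.cast_eq_zero_iff F p r).1 h)).symm
  rcases CfsgLib.CommutingOrderP.eq_zero_or_eq_one hr0 (by simp : _ = m + 2) (by omega)
      (Φ u - 1) (Φ y) hN hY
      ((show Commute (Φ y) (Φ u) from (hcomm.map Φ).symm).sub_right (Commute.one_right _))
      (fun W hW hd => CfsgLib.CommutingOrderP.eq_self_of_finrank_le hp hr.1 (by omega) hnd _ hY W hW hd)
    with h | h
  · have h1 : u = 1 := hΦinj (by rw [map_one]; exact sub_eq_zero.1 h)
    rw [h1] at hua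
    rw [← hua, QuotientGroup.mk_one, orderOf_one] at huo
    exact hp.one_lt.ne huo
  · have h1 : y = 1 := hΦinj (by rw [map_one]; exact h)
    rw [h1] at hyc
    rw [← hyc, QuotientGroup.mk_one, orderOf_one] at hyo
    exact hr.1.one_lt.ne hyo
end Cfsg.Agent.S2364
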