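import Cfsg.Statements.S2365
import Cfsg.Agent.UnitaryCommutingOrderP.Basic
import Cfsg.Agent.CommutingOrderP.Basic
import Cfsg.Agent.Classical.Unitary.Center
import Cfsg.Agent.Eq.Def_Classical
-- import your own Cfsg.Agent.* helpers here

set_option autoImplicit false
open Cfsg

namespace Cfsg.Agent.S2365

/-- Let q be a power of the prime p, F the field with q² elements, m ≥ 4, and let a, b be commuting elements of PSU(m, q) with a of order p. Then every prime divisor of the order of b divides the order of SU(m − 2, q). -/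
theorem result {F : Type*} [Field F] [Fintype F] (p : ℕ) [Fact p.Prime] [CharP F p] (m q : ℕ) (hm : 4 ≤ m) (hF : Fintype.card F = q ^ 2)
    (a b : Cfsg.PSU m F q) (ha : orderOf a = p) (hab : Commute a b) :
    (orderOf b).primeFactors ⊆ (Nat.card ↥(Cfsg.SU (m - 2) F q)).primeFactors := by
  classical
  obtain ⟨l, rfl⟩ : ∃ l, m = l + 2 := ⟨m - 2, by omega⟩
  rw [Nat.add_sub_cancel]
  have hp : p.Prime := Fact.out
  intro r hr
  rw [Nat.mem_primeFactors] at hr ⊢
  refine ⟨hr.1, ?_, Nat.card_pos.ne'⟩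
  by_contra hnd
  haveI := Fact.mk hr.1
  have hrp : r ≠ p := fun h =>
    hnd (h ▸ CfsgLib.UnitaryCommutingOrderP.char_dvd_card_SU hF hp (by omega))
  have he : ∀ j, 1 ≤ j → j + 2 ≤ l + 2 → ((-(q : ℤ)) ^ j : ZMod r) ≠ 1 := fun j h1 h2 h =>
    hnd (CfsgLib.UnitaryCommutingOrderP.dvd_card_SU_of_pow_eq_one hF hr.1 (by omega) h1 (by omega) h)
  set Z := Subgroup.center ↥(SU (l + 2) F q)
  have hZdvd : Nat.card Z ∣ q + 1 := by
    rw [CfsgLib.Unitary.card_center_SU hF (by omega)]
    exact Nat.gcd_dvd_right _ _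
  have hpq : p ∣ q := by
    obtain ⟨k, -, hk⟩ := FiniteField.card F p
    exact hp.dvd_of_dvd_pow (n := 2) (hF ▸ hk ▸ dvd_pow_self p k.pos.ne')
  have hcp : Nat.Coprime p (Nat.card Z) :=
    hp.coprime_iff_not_dvd.2 fun h => hp.not_dvd_one ((Nat.dvd_add_right hpq).1 (h.trans hZdvd))
  have hcr : Nat.Coprime r (Nat.card Z) :=
    hr.1.coprime_iff_not_dvd.2 fun h => he 1 le_rfl (by omega) (by
      have h0 : ((q : ZMod r) + 1) = 0 := by
        exact_mod_cast (ZMod.natCast_eq_zero_iff (q + 1) r).2 (h.trans hZdvd)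
      push_cast
      linear_combination -h0)
  obtain ⟨u, hu, hua, huo⟩ := CfsgLib.CommutingOrderP.exists_lift_pow Z hcp a ha
  have hco : orderOf (b ^ (orderOf b / r)) = r :=
    orderOf_pow_orderOf_div (orderOf_pos b).ne' hr.2.1
  obtain ⟨y, hy, hyc, hyo⟩ := CfsgLib.CommutingOrderP.exists_lift_pow Z hcr _ hco
  have hcomm : Commute u y :=
    CfsgLib.CommutingOrderP.commute_of_lifts Z le_rfl hcp u y hu (by
      rw [hua, hyc]
      exact ((hab.pow_right _).pow_pow _ _))
  let Φ : ↥(SU (l + 2) F q) →* Matrix (Fin (l + 2)) (Fin (l + 2)) F :=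
    { toFun := fun g => ((g : Matrix.SpecialLinearGroup (Fin (l + 2)) F) : Matrix (Fin (l + 2)) (Fin (l + 2)) F)
      map_one' := rfl
      map_mul' := fun _ _ => rfl }
  have hΦinj : Function.Injective Φ := fun g h e => Subtype.ext (Subtype.ext e)
  have hN : (Φ u - 1) ^ p = 0 := by
    rw [sub_pow_char_of_commute p (Commute.one_right _), one_pow, ← map_pow, hu, map_one, sub_self]
  have hY : Φ y ^ r = 1 := by rw [← map_pow, hy, map_one]
  have hr0 : (r : F) ≠ 0 := fun h =>
    hrp ((Nat.prime_dvd_prime_iff_eq hp hr.1).1 ((CharP.cast_eq_zero_iff F p r).1 h)).symm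
  rcases CfsgLib.UnitaryCommutingOrderP.eq_zero_of_commute hF hr0 (by omega) he (Φ y) (Φ u - 1)
      (CfsgLib.Unitary.conjTranspose_mul_self hF
        ((CfsgLib.Unitary.preserves_iff_orthonorm_cols hF _).1 (CfsgLib.Unitary.mem_SU.1 y.2)))
      y.1.2 hY hN
      ((show Commute (Φ y) (Φ u) from (hcomm.map Φ).symm).sub_right (Commute.one_right _))
    with h | h
  · have h1 : y = 1 := hΦinj (by rw [map_one]; exact h)
    rw [h1] at hyc
    rw [← hyc, QuotientGroup.mk_one, orderOf_one] at hyo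
    exact hr.1.one_lt.ne hyo
  · have h1 : u = 1 := hΦinj (by rw [map_one]; exact sub_eq_zero.1 h)
    rw [h1] at hua
    rw [← hua, QuotientGroup.mk_one, orderOf_one] at huo
    exact hp.one_lt.ne huo
end Cfsg.Agent.S2365
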