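import Cfsg.Statements.S2366
import Cfsg.Agent.Eq.Def_Classical
import Cfsg.Agent.Spec53.PSU3Spectrum

set_option autoImplicit false
open Cfsg

namespace Cfsg.Agent.S2366

/-- The set of element orders of PSU(3, q) for an odd prime power q = p^n: writing d = gcd(3, q + 1), a positive integer is the order of some element exactly when it divides one of q + 1, p(q + 1)/d, (q² − 1)/d, (q² − q + 1)/d. -/
theorem result {F : Type*} [Field F] [Fintype F] (p : ℕ) [Fact p.Prime] [CharP F p] (hp : p ≠ 2) (q : ℕ) (hF : Fintype.card F = q ^ 2) :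
    Set.range (orderOf : Cfsg.PSU 3 F q → ℕ) =
      {s : ℕ | s ∣ q + 1} ∪ {s : ℕ | s ∣ p * (q + 1) / Nat.gcd 3 (q + 1)} ∪
        {s : ℕ | s ∣ (q ^ 2 - 1) / Nat.gcd 3 (q + 1)} ∪ {s : ℕ | s ∣ (q ^ 2 - q + 1) / Nat.gcd 3 (q + 1)} := by
  classical
  rw [CfsgLib.Spec53.range_orderOf_eq_of_targets _ (CfsgLib.Spec53.psu3_upper hF p)
    (fun n hn => CfsgLib.Spec53.psu3_lower hF p hp hn)]
  have hq : 2 ≤ q := CfsgLib.Unitary.two_le_q hF
  have hq2 : 1 ≤ q ^ 2 := Nat.one_le_pow _ _ (by omega)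
  have e1 : (-(q : ℤ) - 1).natAbs = q + 1 := by omega
  have e2 : ((-(q : ℤ)) ^ 2 - 1).natAbs = q ^ 2 - 1 := by
    rw [show (-(q : ℤ)) ^ 2 - 1 = ((q ^ 2 - 1 : ℕ) : ℤ) by rw [Nat.cast_sub hq2]; push_cast; ring]
    rfl
  have e3 : ((-(q : ℤ)) ^ 2 + -(q : ℤ) + 1).natAbs = q ^ 2 - q + 1 := by
    rw [show (-(q : ℤ)) ^ 2 + -(q : ℤ) + 1 = ((q ^ 2 - q + 1 : ℕ) : ℤ) by
      push_cast [Nat.le_self_pow two_ne_zero q]; ring]
    rfl
  ext m
  simp only [Set.mem_ofPred_eq, Set.mem_union, CfsgLib.Spec53.Cubic3Target, e1, e2, e3]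
  constructor
  · rintro ⟨n, rfl | rfl | rfl | rfl | ⟨h, -⟩, hm⟩
    · exact .inl (.inl (.inl hm))
    · exact .inl (.inl (.inr hm))
    · exact .inl (.inr hm)
    · exact .inr hm
    · exact absurd h hp
  · rintro (((hm | hm) | hm) | hm)
    · exact ⟨_, .inl rfl, hm⟩
    · exact ⟨_, .inr (.inl rfl), hm⟩
    · exact ⟨_, .inr (.inr (.inl rfl)), hm⟩
    · exact ⟨_, .inr (.inr (.inr (.inl rfl))), hm⟩

end Cfsg.Agent.S2366
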