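import Cfsg.Statements.S2367
import Cfsg.Agent.Eq.Def_Classical
import Cfsg.Agent.Eq.Def_Sporadic
-- import your own Cfsg.Agent.* helpers here

set_option autoImplicit false
open Cfsg

namespace Cfsg.Agent.S2367

/-- Let G be an alternating group of degree at least 5 or a simple group with the order of one of the 26 sporadic groups, and let p be an odd prime such that p³ is the exact power of p dividing the order of G. Then p³ is less than the 2-part of the order of G. -/
theorem result {G : Type*} [Group G] [Finite G] (hG : Cfsg.IsAlternating G ∨ Cfsg.IsSporadic G)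
    (p : ℕ) (hp : p.Prime) (hodd : p ≠ 2) (h3 : (Nat.card G).factorization p = 3) :
    p ^ 3 < 2 ^ (Nat.card G).factorization 2 := by
  have key : ∀ N : ℕ, N ∣ (Nat.factorial 74) ^ 6 → N ≠ 0 →
      (∀ q ∈ Finset.range 75, Nat.Prime q → q ≠ 2 → q ^ 3 ∣ N → ¬ q ^ 4 ∣ N →
        ∃ k ∈ Finset.range 64, 2 ^ k ∣ N ∧ q ^ 3 < 2 ^ k) →
      N.factorization p = 3 → p ^ 3 < 2 ^ N.factorization 2 := by
    intro N hd h0 hchk hp3
    have h3' : p ^ 3 ∣ N := (hp.pow_dvd_iff_le_factorization h0).2 (by omega)
    have h4' : ¬ p ^ 4 ∣ N := fun h => by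
      have := (hp.pow_dvd_iff_le_factorization h0).1 h
      omega
    have hle : p ≤ 74 := (hp.dvd_factorial).1
      (hp.dvd_of_dvd_pow ((dvd_pow_self p (by norm_num)).trans (h3'.trans hd)))
    obtain ⟨k, -, hk, hlt⟩ := hchk p (Finset.mem_range.2 (by omega)) hp hodd h3' h4'
    exact hlt.trans_le (Nat.pow_le_pow_right (by norm_num)
      ((Nat.prime_two.pow_dvd_iff_le_factorization h0).1 hk))
  rcases hG with ⟨n, hn, ⟨e⟩⟩ | h
  · haveI : Nontrivial (Fin n) := Fin.nontrivial_iff_two_le.2 (by omega)
    have hc : 2 * Nat.card G = n.factorial := by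
      rw [Nat.card_congr e.toEquiv, two_mul_nat_card_alternatingGroup, Nat.card_perm,
        Nat.card_eq_fintype_card, Fintype.card_fin]
    have h0 : Nat.card G ≠ 0 := Nat.card_pos.ne'
    have hfp : n.factorial.factorization p = 3 := by
      rw [← hc, Nat.factorization_mul two_ne_zero h0, Finsupp.add_apply,
        Nat.prime_two.factorization, Finsupp.single_eq_of_ne hodd, h3]
    have hf2 : n.factorial.factorization 2 = 1 + (Nat.card G).factorization 2 := by
      rw [← hc, Nat.factorization_mul two_ne_zero h0, Finsupp.add_apply,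
        Nat.prime_two.factorization, Finsupp.single_eq_same]
    rcases eq_or_ne p 3 with rfl | hne
    · exfalso
      rcases Nat.lt_or_ge n 9 with h9 | h9
      · have hdvd : n.factorial ∣ Nat.factorial 8 := Nat.factorial_dvd_factorial (by omega)
        have : 3 ^ 3 ∣ Nat.factorial 8 :=
          ((Nat.prime_three.pow_dvd_iff_le_factorization n.factorial_ne_zero).2 (by omega)).trans hdvd
        revert this
        decide
      · have : 3 ^ 4 ∣ n.factorial :=
          (show 3 ^ 4 ∣ Nat.factorial 9 by decide).trans (Nat.factorial_dvd_factorial h9)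
        have := (Nat.prime_three.pow_dvd_iff_le_factorization n.factorial_ne_zero).1 this
        omega
    have h5 : 5 ≤ p := by
      have := hp.two_le
      rcases Nat.lt_or_ge p 5 with h | h
      · interval_cases p <;> simp_all (config := {decide := true})
      · exact h
    have h3n : 3 * p ≤ n := by
      by_contra hlt
      haveI := Fact.mk hp
      have h := sub_one_mul_padicValNat_factorial (p := p) n
      rw [← Nat.factorization_def _ hp, hfp] at h
      have hd : (p.digits n).sum ≥ 0 := Nat.zero_le _
      have : (p - 1) * 3 ≤ n := by omega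
      have hq : p ^ 3 ∣ n.factorial :=
        (hp.pow_dvd_iff_le_factorization n.factorial_ne_zero).2 (by omega)
      have hq' : p ^ 3 ∣ (3 * p - 1).factorial :=
        hq.trans (Nat.factorial_dvd_factorial (by omega))
      have h2 := (hp.pow_dvd_iff_le_factorization (Nat.factorial_ne_zero _)).1 hq'
      rw [Nat.factorization_def _ hp, padicValNat_factorial (b := 2) (by
        apply Nat.log_lt_of_lt_pow
        · omega
        · exact lt_of_le_of_lt (Nat.sub_le _ _) (by rw [sq]; nlinarith))] at h2
      simp only [show Finset.Ico 1 2 = {1} by rfl, Finset.sum_singleton, pow_one] at h2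
      have : (3 * p - 1) / p < 3 := by
        rw [Nat.div_lt_iff_lt_mul hp.pos]; omega
      omega
    have h2n : 2 * p ≤ n.factorial.factorization 2 := by
      haveI := Fact.mk Nat.prime_two
      have hb : Nat.log 2 n < n + 3 := lt_of_le_of_lt (Nat.log_le_self 2 n) (by omega)
      rw [Nat.factorization_def _ Nat.prime_two, padicValNat_factorial hb]
      have hsub : ({1, 2} : Finset ℕ) ⊆ Finset.Ico 1 (n + 3) := by
        intro x hx
        simp only [Finset.mem_insert, Finset.mem_singleton] at hx
        rw [Finset.mem_Ico]; omega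
      refine le_trans ?_ (Finset.sum_le_sum_of_subset hsub)
      rw [Finset.sum_pair (by norm_num)]
      omega
    have hlt : p ^ 3 < 2 ^ (2 * p - 1) := by
      clear h3n h2n hfp h3 hne hodd hp key
      induction p, h5 using Nat.le_induction with
      | base => norm_num
      | succ q hq ih =>
        have e1 : 2 * (q + 1) - 1 = (2 * q - 1) + 2 := by omega
        rw [e1, pow_add]
        nlinarith [Nat.mul_le_mul hq (le_refl (q * q))]
    exact hlt.trans_le (Nat.pow_le_pow_right (by norm_num) (by omega))
  · simp only [IsSporadic, IsM11, IsM12, IsM22, IsM23, IsM24, IsJ1, IsJ2, IsJ3, IsJ4, IsCo1, IsCo2, IsCo3,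
      IsFi22, IsFi23, IsFi24', IsHS, IsMcL, IsHe, IsRu, IsSuz, IsON, IsHN, IsLy, IsTh, IsB, IsM] at h
    rcases h with h | h | h | h | h | h | h | h | h | h | h | h | h | h | h | h | h | h | h | h | h | h | h | h | h | h <;>
      (rw [h.2] at h3 ⊢; exact key _ (by decide +kernel) (by norm_num) (by decide +kernel) h3)
end Cfsg.Agent.S2367
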