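import Cfsg.Statements.S2368
import Mathlib

set_option autoImplicit false
open Cfsg

namespace Cfsg.Agent.S2368

/-- Let F be a finite field of characteristic p and m ≥ 1. Every element of GL(m, F) of p-power order has order less than p·m, and GL(m, F) has an element of p-power order at least m; so the largest order of a p-element of GL(m, F) is the least power of p that is at least m. -/
theorem result {F : Type*} [Field F] [Fintype F] (p : ℕ) [Fact p.Prime] [CharP F p] (m : ℕ) (hm : 1 ≤ m) :
    (∀ g : Matrix.GeneralLinearGroup (Fin m) F, (∃ j : ℕ, orderOf g = p ^ j) → orderOf g < p * m) ∧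
      ∃ g : Matrix.GeneralLinearGroup (Fin m) F, (∃ j : ℕ, orderOf g = p ^ j) ∧ m ≤ orderOf g := by
  classical
  have hp : p.Prime := Fact.out
  have : Nonempty (Fin m) := ⟨⟨0, hm⟩⟩
  refine ⟨?_, ?_⟩
  · rintro g ⟨j, hj⟩
    set M : Matrix (Fin m) (Fin m) F := (g : Matrix (Fin m) (Fin m) F) with hMdef
    have hM : M ^ (p ^ j) = 1 := by
      rw [hMdef, ← Units.val_pow_eq_pow_val, ← hj, pow_orderOf_eq_one]; rfl
    have hnil : IsNilpotent (M - 1) := ⟨p ^ j, by
      rw [sub_pow_char_pow_of_commute p j (Commute.one_right _), hM, one_pow, sub_self]⟩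
    have hNm : (M - 1) ^ m = 0 := by
      have h := Matrix.isNilpotent_charpoly_sub_pow_of_isNilpotent hnil
      rw [isNilpotent_iff_eq_zero, sub_eq_zero] at h
      have h2 := Matrix.aeval_self_charpoly (M - 1)
      rw [h] at h2
      simpa using h2
    obtain ⟨e, he, he'⟩ : ∃ e, m ≤ p ^ e ∧ p ^ e < p * m := by
      refine ⟨Nat.clog p m, Nat.le_pow_clog hp.one_lt m, ?_⟩
      rcases eq_or_lt_of_le hm with h | h
      · rw [← h, Nat.clog_of_right_le_one le_rfl]; simpa using hp.one_lt
      · have hpos : 0 < Nat.clog p m := Nat.clog_pos hp.one_lt h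
        have h2 := Nat.pow_pred_clog_lt_self hp.one_lt h
        have h3 : p ^ Nat.clog p m = p * p ^ (Nat.clog p m).pred := by
          rw [← pow_succ', Nat.pred_eq_sub_one, Nat.sub_add_cancel hpos]
        rw [h3]
        exact Nat.mul_lt_mul_of_pos_left h2 hp.pos
    have hpe : M ^ (p ^ e) = 1 := by
      have h0 : (M - 1) ^ (p ^ e) = 0 := pow_eq_zero_of_le he hNm
      rwa [sub_pow_char_pow_of_commute p e (Commute.one_right _), one_pow, sub_eq_zero] at h0
    have hge : g ^ (p ^ e) = 1 := Units.ext (by rw [Units.val_pow_eq_pow_val]; exact hpe)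
    exact lt_of_le_of_lt (Nat.le_of_dvd (pow_pos hp.pos e) (orderOf_dvd_of_pow_eq_one hge)) he'
  · let N : Matrix (Fin m) (Fin m) F := Matrix.of fun i j => if j.val = i.val + 1 then 1 else 0
    have hNi : ∀ (k : ℕ) (i j : Fin m), (N ^ k) i j = if j.val = i.val + k then 1 else 0 := by
      intro k
      induction k with
      | zero => intro i j; simp [Matrix.one_apply, Fin.ext_iff, eq_comm]
      | succ k ih =>
        intro i j
        rw [pow_succ, Matrix.mul_apply]
        simp only [ih]
        by_cases h : i.val + k < m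
        · rw [Finset.sum_eq_single ⟨i.val + k, h⟩]
          · simp [N, ← add_assoc]
          · intro b _ hb
            rw [if_neg (fun h' => hb (Fin.ext h')), zero_mul]
          · simp
        · rw [if_neg (by have := j.isLt; omega)]
          exact Finset.sum_eq_zero fun b _ => by
            rw [if_neg (by have := b.isLt; omega), zero_mul]
    have hNnil : ∀ k, m ≤ k → N ^ k = 0 := by
      intro k hk
      ext i j
      rw [hNi, if_neg (by have := j.isLt; omega)]
      rfl
    have hNne : ∀ k, k < m → N ^ k ≠ 0 := by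
      intro k hk h
      have := congrFun₂ h ⟨0, by omega⟩ ⟨k, hk⟩
      rw [hNi, if_pos (by simp)] at this
      exact one_ne_zero this
    have hu : IsUnit (1 + N) := IsNilpotent.isUnit_one_add ⟨m, hNnil m le_rfl⟩
    have hpow : ∀ e, (hu.unit ^ (p ^ e) = 1) ↔ N ^ (p ^ e) = 0 := by
      intro e
      rw [Units.ext_iff, Units.val_pow_eq_pow_val, IsUnit.unit_spec,
        add_pow_char_pow_of_commute p e (Commute.one_left _), one_pow, Units.val_one,
        add_eq_left]
    have hdvd : orderOf hu.unit ∣ p ^ m :=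
      orderOf_dvd_of_pow_eq_one ((hpow m).mpr (hNnil _ (Nat.lt_pow_self hp.one_lt).le))
    obtain ⟨j, _, hj⟩ := (Nat.dvd_prime_pow hp).mp hdvd
    refine ⟨hu.unit, ⟨j, hj⟩, ?_⟩
    by_contra hlt
    rw [hj] at hlt
    exact hNne _ (not_le.mp hlt) ((hpow j).mp (hj ▸ pow_orderOf_eq_one hu.unit))

end Cfsg.Agent.S2368
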