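import Cfsg.Statements.S2369
import Cfsg.Agent.ReeInvolCent.Symmetric

set_option autoImplicit false
open Cfsg

namespace Cfsg.Agent.S2369

/-- Let q = 2^(2m+1) with m ≥ 1 and let a, b be commuting elements of the large Ree group ²F₄(q) with a an involution. Then every prime divisor of the order of b divides q(q⁴ − 1). -/
theorem result {K : Type*} [Field K] [Fintype K] (m : ℕ) (hm : 1 ≤ m) (hK : Fintype.card K = 2 ^ (2 * m + 1))
    (a b : ↥(Cfsg.Lie.twistedF4 K (2 ^ m))) (ha : orderOf a = 2) (hab : Commute a b) :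
    (orderOf b).primeFactors ⊆ (2 ^ (2 * m + 1) * ((2 ^ (2 * m + 1)) ^ 4 - 1)).primeFactors := by
  intro r hr
  obtain ⟨hrp, hrb, -⟩ := Nat.mem_primeFactors.mp hr
  have ha' := CfsgLib.TwistedLie.F4.sigma_gen hK a.2
  have hb' := CfsgLib.TwistedLie.F4.sigma_gen hK b.2
  have h := CfsgLib.ReeInvolCent.prime_dvd hK ha' (by rw [Subgroup.orderOf_coe]; exact ha) hb'.1
    (congrArg Subtype.val hab) hrp (by rwa [Subgroup.orderOf_coe])
  rw [hK] at h
  refine Nat.mem_primeFactors.mpr ⟨hrp, h, mul_ne_zero (pow_ne_zero _ two_ne_zero) ?_⟩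
  exact (Nat.sub_pos_of_lt (Nat.one_lt_pow (by norm_num) (Nat.one_lt_two_pow (by omega)))).ne'

end Cfsg.Agent.S2369
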