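import Cfsg.Statements.S2372
import Cfsg.Agent.ChevTori.Inst
-- import your own Cfsg.Agent.* helpers here

set_option autoImplicit false
open Cfsg

namespace Cfsg.Agent.S2372

/-- The group F₄(q) contains a cyclic subgroup of order q⁴ + 1 which is its own centralizer. -/
theorem result {F : Type*} [Field F] [Fintype F] (q : ℕ) (hF : Fintype.card F = q) :
    ∃ H : Subgroup ↥(Cfsg.Lie.chevF4.group F), IsCyclic ↥H ∧ Nat.card ↥H = q ^ 4 + 1 ∧
      Subgroup.centralizer (H : Set ↥(Cfsg.Lie.chevF4.group F)) = H := by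
  have hq2 : 2 ≤ q := hF ▸ Fintype.one_lt_card
  have hN : ((q ^ 4 + 1 : ℕ) : ℤ) = CfsgLib.ChevTori.lev q CfsgLib.ChevTori.certF4.N := by
    simp only [CfsgLib.ChevTori.certF4, CfsgLib.ChevTori.lev]
    push_cast
    ring
  obtain ⟨H, hc, hn, hz⟩ := CfsgLib.ChevTori.exists_torus CfsgLib.Chevalley.sysF4
    CfsgLib.ChevSteinberg.witness_F4 hF CfsgLib.ChevTori.certF4 CfsgLib.ChevTori.certF4_chk
    (fun K _ => CfsgLib.ChevTori.torHom_injective_of_ker CfsgLib.Chevalley.sysF4 CfsgLib.ChevSteinberg.witness_F4 K CfsgLib.ChevSteinberg.ker_torF_F4)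
    (fun h6 => by
      have h6' : (6 : ℤ) ≤ q := by exact_mod_cast h6
      simp only [CfsgLib.ChevTori.certF4, CfsgLib.ChevTori.lev, Cfsg.Lie.chevF4]
      nlinarith [pow_pos (show (0:ℤ) < q by omega) 4]) hN
  refine ⟨H, hc, ?_, hz⟩
  rw [hn]
  simp [CfsgLib.ChevTori.certF4]

end Cfsg.Agent.S2372
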