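import Cfsg.Statements.S2374
import Cfsg.Agent.ChevTori.Inst
-- import your own Cfsg.Agent.* helpers here

set_option autoImplicit false
open Cfsg

namespace Cfsg.Agent.S2374

/-- The group E₇(q) (the simple Chevalley group of type E₇) contains a cyclic subgroup of order (q⁴ − q² + 1)(q³ + 1)/gcd(2, q − 1) which is its own centralizer. -/
theorem result {F : Type*} [Field F] [Fintype F] (q : ℕ) (hF : Fintype.card F = q) :
    ∃ H : Subgroup ↥(Cfsg.Lie.chevE7.group F), IsCyclic ↥H ∧ Nat.card ↥H = (q ^ 4 - q ^ 2 + 1) * (q ^ 3 + 1) / Nat.gcd 2 (q - 1) ∧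
      Subgroup.centralizer (H : Set ↥(Cfsg.Lie.chevE7.group F)) = H := by
  have hq2 : 2 ≤ q := hF ▸ Fintype.one_lt_card
  have h42 : q ^ 2 ≤ q ^ 4 := Nat.pow_le_pow_right (by omega) (by norm_num)
  have hN : (((q ^ 4 - q ^ 2 + 1) * (q ^ 3 + 1) : ℕ) : ℤ) = CfsgLib.ChevTori.lev q CfsgLib.ChevTori.certE7.N := by
    simp only [CfsgLib.ChevTori.certE7, CfsgLib.ChevTori.lev]
    rw [Nat.cast_mul, Nat.cast_add, Nat.cast_sub h42]
    push_cast
    ring
  obtain ⟨H, hc, hn, hz⟩ := CfsgLib.ChevTori.exists_torus CfsgLib.Chevalley.sysE7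
    CfsgLib.ChevSteinberg.witness_E7 hF CfsgLib.ChevTori.certE7 CfsgLib.ChevTori.certE7_chk
    (fun K _ => CfsgLib.ChevTori.torHom_injective_E7 K)
    (fun h6 => by
      have h6' : (6 : ℤ) ≤ q := by exact_mod_cast h6
      simp only [CfsgLib.ChevTori.certE7, CfsgLib.ChevTori.lev, Cfsg.Lie.chevE7]
      nlinarith [pow_le_pow_right₀ (show (1:ℤ) ≤ q by omega) (show 2 ≤ 3 by norm_num), pow_pos (show (0:ℤ) < q by omega) 4, mul_le_mul_of_nonneg_right (show (36:ℤ) ≤ (q:ℤ) ^ 2 by nlinarith) (pow_nonneg (show (0:ℤ) ≤ q by omega) 5), pow_pos (show (0:ℤ) < q by omega) 7, pow_pos (show (0:ℤ) < q by omega) 5]) hN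
  refine ⟨H, hc, ?_, hz⟩
  rw [hn]
  simp [CfsgLib.ChevTori.certE7]

end Cfsg.Agent.S2374
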