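import Cfsg.Statements.S2375
import Cfsg.Agent.ChevTori.Inst
-- import your own Cfsg.Agent.* helpers here

set_option autoImplicit false
open Cfsg

namespace Cfsg.Agent.S2375

/-- The group E₈(q) contains a cyclic subgroup of order q⁸ + q⁷ − q⁵ − q⁴ − q³ + q + 1 which is its own centralizer. -/
theorem result {F : Type*} [Field F] [Fintype F] (q : ℕ) (hF : Fintype.card F = q) :
    ∃ H : Subgroup ↥(Cfsg.Lie.chevE8.group F), IsCyclic ↥H ∧ Nat.card ↥H = q ^ 8 + q ^ 7 - q ^ 5 - q ^ 4 - q ^ 3 + q + 1 ∧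
      Subgroup.centralizer (H : Set ↥(Cfsg.Lie.chevE8.group F)) = H := by
  have hq2 : 2 ≤ q := hF ▸ Fintype.one_lt_card
  have e5 : q ^ 5 ≤ q ^ 7 := Nat.pow_le_pow_right (by omega) (by norm_num)
  have e4 : q ^ 4 ≤ q ^ 7 := Nat.pow_le_pow_right (by omega) (by norm_num)
  have e3 : q ^ 3 ≤ q ^ 7 := Nat.pow_le_pow_right (by omega) (by norm_num)
  have e8 : q ^ 8 = q * q ^ 7 := by ring
  have h87 : 2 * q ^ 7 ≤ q ^ 8 := by rw [e8]; exact Nat.mul_le_mul_right _ hq2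
  have h5 : q ^ 5 ≤ q ^ 8 + q ^ 7 := by omega
  have h4 : q ^ 4 ≤ q ^ 8 + q ^ 7 - q ^ 5 := by omega
  have h3 : q ^ 3 ≤ q ^ 8 + q ^ 7 - q ^ 5 - q ^ 4 := by omega
  have eN : CfsgLib.ChevTori.certE8.N = [1, 1, 0, -1, -1, -1, 0, 1, 1] := rfl
  have ed : CfsgLib.ChevTori.certE8.d = 1 := rfl
  have el : Cfsg.Lie.chevE8.rank = 8 := rfl
  have hN : ((q ^ 8 + q ^ 7 - q ^ 5 - q ^ 4 - q ^ 3 + q + 1 : ℕ) : ℤ) = CfsgLib.ChevTori.lev q CfsgLib.ChevTori.certE8.N := by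
    simp only [eN, CfsgLib.ChevTori.lev]
    rw [Nat.cast_add, Nat.cast_add, Nat.cast_sub h3, Nat.cast_sub h4, Nat.cast_sub h5]
    push_cast
    ring
  obtain ⟨H, hc, hn, hz⟩ := CfsgLib.ChevTori.exists_torus CfsgLib.Chevalley.sysE8
    CfsgLib.ChevSteinberg.witness_E8 hF CfsgLib.ChevTori.certE8 CfsgLib.ChevTori.certE8_chk
    (fun K _ => CfsgLib.ChevTori.torHom_injective_of_ker CfsgLib.Chevalley.sysE8 CfsgLib.ChevSteinberg.witness_E8 K CfsgLib.ChevSteinberg.ker_torF_E8)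
    (fun h6 => by
      have h6' : (6 : ℤ) ≤ q := by exact_mod_cast h6
      simp only [eN, el, CfsgLib.ChevTori.lev]
      nlinarith [pow_le_pow_right₀ (show (1:ℤ) ≤ q by omega) (show 3 ≤ 4 by norm_num), pow_pos (show (0:ℤ) < q by omega) 8, mul_le_mul_of_nonneg_right (show (36:ℤ) ≤ (q:ℤ) ^ 2 by nlinarith) (pow_nonneg (show (0:ℤ) ≤ q by omega) 5), mul_le_mul_of_nonneg_right (show (6:ℤ) ≤ (q:ℤ) by omega) (pow_nonneg (show (0:ℤ) ≤ q by omega) 4), pow_pos (show (0:ℤ) < q by omega) 5]) hN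
  refine ⟨H, hc, ?_, hz⟩
  rw [hn]
  simp [ed]

end Cfsg.Agent.S2375
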