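import Cfsg.Statements.S2383
import Cfsg.Agent.SteinbergChar.TorusChev
import Cfsg.Agent.Chevalley.Weights.B2
import Cfsg.Agent.Chevalley.Weights.D4
import Cfsg.Agent.Chevalley.Weights.E7

set_option autoImplicit false
open Cfsg CfsgLib.SteinbergChar

namespace Cfsg.Agent.S2383

/-- Steinberg's count of semisimple classes in characteristic 2 for the types B₂, D₄, E₇, where the finite simply connected group has trivial centre and so coincides with the Chevalley group: for the Chevalley group of type B₂, D₄ or E₇ over a field with `q` elements of characteristic 2, the conjugacy classes of elements of odd order number exactly `q^l`, `l` the rank. -/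
theorem result {F : Type*} [Field F] [Fintype F] {q : ℕ} (hq : Fintype.card F = q) [CharP F 2]
    (D : Cfsg.Lie.ChevalleyDatum) (hD : D ∈ [Cfsg.Lie.chevB2, Cfsg.Lie.chevD4, Cfsg.Lie.chevE7]) :
    Nat.card {c : ConjClasses ↥(D.group F) // ∃ g : ↥(D.group F), ConjClasses.mk g = c ∧ Odd (orderOf g)} = q ^ D.rank := by
  subst hq
  have : Fact (2 : ℕ).Prime := ⟨Nat.prime_two⟩
  have hco : (Fintype.card F - 1).gcd 2 = 1 := by
    simpa using coprime_card_sub_one (F := F) 2 1
  have hodd : Nat.card {c : ConjClasses ↥(D.group F) // ∃ g : ↥(D.group F), ConjClasses.mk g = c ∧ Odd (orderOf g)} =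
      Nat.card {c : ConjClasses ↥(D.group F) // ∃ g : ↥(D.group F), ConjClasses.mk g = c ∧ ¬ 2 ∣ orderOf g} :=
    Nat.card_congr (Equiv.subtypeEquivRight fun _ => exists_congr fun _ => and_congr_right fun _ => by
      rw [Nat.odd_iff, Nat.dvd_iff_mod_eq_zero]; omega)
  rw [hodd]
  simp only [List.mem_cons, List.not_mem_nil, or_false] at hD
  rcases hD with rfl | rfl | rfl
  · exact natCard_regular_classes_chev CfsgLib.Chevalley.sysB2 F 2
      (by have h := CfsgLib.Chevalley.natCardDiagonalB2 F; rwa [hco, one_mul] at h)
  · exact natCard_regular_classes_chev CfsgLib.Chevalley.sysD4 F 2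
      (by have h := CfsgLib.Chevalley.natCardDiagonalD4 F; rwa [hco, one_mul, one_mul] at h)
  · exact natCard_regular_classes_chev CfsgLib.Chevalley.sysE7 F 2
      (by have h := CfsgLib.Chevalley.natCardDiagonalE7 F; rwa [hco, one_mul] at h)

end Cfsg.Agent.S2383
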