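import Cfsg.Statements.S2589
import Cfsg.Agent.Eq.Def_Classical
import Cfsg.Agent.Classical.Orth.SympConj
import Cfsg.Agent.LinAlg.Witt.Std
import Cfsg.Agent.Classical.SympFormStd

set_option autoImplicit false
open Cfsg

namespace Cfsg.Agent.S2589
open CfsgLib.Classical.Orth CfsgLib.LinAlg.Witt

/-- Two semisimple elements of the finite symplectic group Sp_2m(F) (elements of order prime to the characteristic) are conjugate in Sp_2m(F) if and only if they are conjugate in GL_2m(F). -/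
theorem result {F : Type*} [Field F] [Fintype F] {p : ℕ} [Fact p.Prime] [CharP F p] {m : ℕ} (A B : Matrix.symplecticGroup (Fin m) F) (hA : (orderOf A).Coprime p) : IsConj A B ↔ IsConj (A : Matrix (Fin m ⊕ Fin m) (Fin m ⊕ Fin m) F) (B : Matrix (Fin m ⊕ Fin m) (Fin m ⊕ Fin m) F) := by
  classical
  refine ⟨fun h => (Submonoid.subtype _).map_isConj h, fun h => ?_⟩
  obtain ⟨x, hx⟩ := h
  set a : GL (Fin m ⊕ Fin m) F := (Submonoid.subtype (Matrix.symplecticGroup (Fin m) F)).toHomUnits A with ha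
  set f := Cfsg.sympForm m F
  have hf : Cfsg.Geo.IsSymplecticForm f := CfsgLib.SympFormStd.isSymplecticForm m F
  have hAf := (mem_symplecticGroup_iff_preserves m _).1 A.2
  have hBf := (mem_symplecticGroup_iff_preserves m _).1 B.2
  let Ae : (Fin m ⊕ Fin m → F) ≃ₗ[F] (Fin m ⊕ Fin m → F) :=
    LinearEquiv.ofLinearMap (Matrix.mulVecLin (a : Matrix (Fin m ⊕ Fin m) (Fin m ⊕ Fin m) F)) (Matrix.mulVecLin ((a⁻¹ : GL (Fin m ⊕ Fin m) F) : Matrix (Fin m ⊕ Fin m) (Fin m ⊕ Fin m) F))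
      (LinearMap.ext fun v => by
        rw [LinearMap.comp_apply, Matrix.mulVecLin_apply, Matrix.mulVecLin_apply, Matrix.mulVec_mulVec,
          ← Units.val_mul, mul_inv_cancel, Units.val_one, Matrix.one_mulVec, LinearMap.id_apply])
      (LinearMap.ext fun v => by
        rw [LinearMap.comp_apply, Matrix.mulVecLin_apply, Matrix.mulVecLin_apply, Matrix.mulVec_mulVec,
          ← Units.val_mul, inv_mul_cancel, Units.val_one, Matrix.one_mulVec, LinearMap.id_apply])
  have hAe : ∀ v, Ae v = (A : Matrix (Fin m ⊕ Fin m) (Fin m ⊕ Fin m) F).mulVec v := fun v => rfl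
  have hxA : ∀ v, (x : Matrix (Fin m ⊕ Fin m) (Fin m ⊕ Fin m) F).mulVec (Ae v) = (B : Matrix (Fin m ⊕ Fin m) (Fin m ⊕ Fin m) F).mulVec ((x : Matrix (Fin m ⊕ Fin m) (Fin m ⊕ Fin m) F).mulVec v) :=
    fun v => by rw [hAe, Matrix.mulVec_mulVec, Matrix.mulVec_mulVec, hx]
  have hk : ∀ i v, (Ae : _ → _)^[i] v = ((A ^ i : Matrix.symplecticGroup (Fin m) F) : Matrix (Fin m ⊕ Fin m) (Fin m ⊕ Fin m) F).mulVec v := by
    intro i v
    induction i with
    | zero => simp
    | succ i ih => rw [Function.iterate_succ', Function.comp_apply, ih, hAe, Matrix.mulVec_mulVec, pow_succ']; rfl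
  let X := Matrix.mulVecLin (x : Matrix (Fin m ⊕ Fin m) (Fin m ⊕ Fin m) F)
  let β := bilinOfFun f hf.bilinear
  have hXb : Function.Bijective X :=
    ⟨Matrix.mulVec_injective_iff_isUnit.2 x.isUnit, Matrix.mulVec_surjective_iff_isUnit.2 x.isUnit⟩
  have hn : ∀ u, (∀ v, f u v = 0) → u = 0 := fun u hu => by
    by_contra h0
    obtain ⟨-, v, hv⟩ := hf.nondegenerate u h0
    exact hv (hu v)
  obtain ⟨Y, hYA, hY⟩ := exists_centralizer_map_alt β (β.compl₁₂ X X) Ae hf.alternating (fun u => hf.alternating _)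
    hn (fun u hu => hXb.1 (by
      rw [map_zero]
      refine hn _ fun v => ?_
      obtain ⟨w, rfl⟩ := hXb.2 v
      exact hu w))
    hAf (fun u v => by
      show f ((x : Matrix (Fin m ⊕ Fin m) (Fin m ⊕ Fin m) F).mulVec (Ae u)) ((x : Matrix (Fin m ⊕ Fin m) (Fin m ⊕ Fin m) F).mulVec (Ae v)) = _
      rw [hxA, hxA]; exact hBf _ _)
    (k := orderOf A) (fun v => by rw [hk, pow_orderOf_eq_one]; exact Matrix.one_mulVec v)
    (by
      rw [Ne, CharP.cast_eq_zero_iff F p]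
      intro hdvd
      exact (Fact.out : p.Prime).ne_one (Nat.eq_one_of_dvd_coprimes hA hdvd dvd_rfl))
  set G := LinearMap.toMatrix' (X.comp Y.toLinearMap) with hG
  have hGv : ∀ v, G.mulVec v = X (Y v) := fun v => by
    rw [hG, ← Matrix.toLin'_apply, Matrix.toLin'_toMatrix']; rfl
  have hGs : G ∈ Matrix.symplecticGroup (Fin m) F :=
    (mem_symplecticGroup_iff_preserves m _).2 fun u v => by rw [hGv, hGv]; exact hY u v
  refine isConj_iff.2 ⟨⟨G, hGs⟩, ?_⟩
  rw [mul_inv_eq_iff_eq_mul]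
  refine Subtype.ext (Matrix.ext_of_mulVec_single fun i => ?_)
  show (G * (A : Matrix (Fin m ⊕ Fin m) (Fin m ⊕ Fin m) F)).mulVec _ = ((B : Matrix (Fin m ⊕ Fin m) (Fin m ⊕ Fin m) F) * G).mulVec _
  rw [← Matrix.mulVec_mulVec, ← Matrix.mulVec_mulVec, hGv, hGv, ← hAe, hYA]
  exact hxA _

end Cfsg.Agent.S2589
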