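import Cfsg.Statements.S2389
import Cfsg.Agent.Eq.Def_Classical
import Cfsg.Agent.S2589
import Cfsg.Agent.Classical.Semisimple.ClassCount

set_option autoImplicit false
open Cfsg

namespace Cfsg.Agent.S2389

/-- In the symplectic group `Sp_{2n}(q)`, `q` a power of the prime `p`, two elements of order prime to `p` with the same characteristic polynomial are conjugate in `Sp_{2n}(q)`. -/
theorem result {F : Type*} [Field F] [Fintype F] (p : ℕ) [Fact p.Prime] [CharP F p] (n : ℕ)
    (g h : ↥(Matrix.symplecticGroup (Fin n) F)) (hg : (orderOf g).Coprime p) (hh : (orderOf h).Coprime p)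
    (hc : (g : Matrix (Fin n ⊕ Fin n) (Fin n ⊕ Fin n) F).charpoly = (h : Matrix (Fin n ⊕ Fin n) (Fin n ⊕ Fin n) F).charpoly) :
    IsConj g h := by
  classical
  refine (Cfsg.Agent.S2589.result g h hg).2 ?_
  set φ := (Submonoid.subtype (Matrix.symplecticGroup (Fin n) F)).toHomUnits with hφ
  have hval : ∀ x, ((φ x : GL (Fin n ⊕ Fin n) F) : Matrix (Fin n ⊕ Fin n) (Fin n ⊕ Fin n) F) =
      (x : Matrix (Fin n ⊕ Fin n) (Fin n ⊕ Fin n) F) := fun x => rfl
  have h' := CfsgLib.Classical.Semisimple.gl_isConj_of_charpoly_eq p (g := φ g) (h := φ h)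
    (hg.coprime_dvd_left (orderOf_map_dvd φ g)) (hh.coprime_dvd_left (orderOf_map_dvd φ h))
    (by rw [hval, hval]; exact hc)
  have h2 := (Units.coeHom (Matrix (Fin n ⊕ Fin n) (Fin n ⊕ Fin n) F)).map_isConj h'
  simpa [Units.coeHom_apply, hval] using h2

end Cfsg.Agent.S2389
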