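import Cfsg.Statements.S2391
-- import your own Cfsg.Agent.* helpers here

set_option autoImplicit false
open Cfsg

namespace Cfsg.Agent.S2391

/-- The Borel–Tits property of `SL_n(q)` in flag form: for a field `F` of characteristic `p` with finitely many elements and a non-trivial `p`-subgroup `U` of `SL_n(F)`, there is a flag `0 = V₀ < V₁ < ⋯ < V_{k+1} = F^n` with at least one proper non-zero member such that every element of the normaliser of `U` maps each `V_i` onto itself and every element of `U` acts trivially on each quotient `V_{i+1}/V_i` (so the normaliser lies in the parabolic subgroup of the flag and `U` in its unipotent radical). -/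
theorem result {F : Type*} [Field F] [Fintype F] (p : ℕ) [Fact p.Prime] [CharP F p] (n : ℕ)
    (U : Subgroup (Matrix.SpecialLinearGroup (Fin n) F)) (hU : IsPGroup p ↥U) (hne : U ≠ ⊥) :
    ∃ (k : ℕ) (V : Fin (k + 2) → Submodule F (Fin n → F)), 1 ≤ k ∧ StrictMono V ∧ V 0 = ⊥ ∧ V (Fin.last (k + 1)) = ⊤ ∧
      (∀ g ∈ Subgroup.normalizer (U : Set (Matrix.SpecialLinearGroup (Fin n) F)), ∀ i, (V i).map (Matrix.mulVecLin (g : Matrix (Fin n) (Fin n) F)) = V i) ∧
      (∀ u ∈ U, ∀ i : Fin (k + 1), ∀ v ∈ V i.succ, (u : Matrix (Fin n) (Fin n) F).mulVec v - v ∈ V (Fin.castSucc i)) := by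
  classical
  let T : Matrix.SpecialLinearGroup (Fin n) F → ((Fin n → F) →ₗ[F] (Fin n → F)) :=
    fun g => Matrix.mulVecLin (g : Matrix (Fin n) (Fin n) F)
  have hT : ∀ g h v, T (g * h) v = T g (T h v) := by
    intro g h v
    simp [T, Matrix.mulVec_mulVec]
  have hT1 : ∀ v, T 1 v = v := by
    intro v
    simp [T]
  let next : Submodule F (Fin n → F) → Submodule F (Fin n → F) := fun W =>
    ⨅ u : U, W.comap (T u - LinearMap.id)
  have hnext : ∀ W v, v ∈ next W ↔ ∀ u ∈ U, T u v - v ∈ W := by
    intro W v
    simp [next, Submodule.mem_iInf]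
  let S : ℕ → Submodule F (Fin n → F) := fun i => next^[i] ⊥
  have hS : ∀ i, S (i + 1) = next (S i) := fun i => by
    simp [S, Function.iterate_succ_apply']
  have hinv : ∀ i, ∀ g ∈ Subgroup.normalizer (U : Set (Matrix.SpecialLinearGroup (Fin n) F)),
      ∀ v ∈ S i, T g v ∈ S i := by
    intro i
    induction i with
    | zero =>
      intro g _ v hv
      simp [S] at hv ⊢
      simp [hv]
    | succ i ih =>
      intro g hg v hv
      rw [hS, hnext] at hv ⊢
      intro u hu
      have hu' : g⁻¹ * u * g ∈ U := by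
        have := (Subgroup.mem_normalizer_iff''.mp hg u).mp hu
        simpa using this
      have h1 := ih g hg _ (hv _ hu')
      rw [map_sub, ← hT, ← mul_assoc, ← mul_assoc, mul_inv_cancel, one_mul, hT] at h1
      exact h1
  have hmonoS : ∀ i, S i ≤ S (i + 1) := by
    intro i v hv
    rw [hS, hnext]
    intro u hu
    exact (S i).sub_mem (hinv i u (Subgroup.le_normalizer hu) v hv) hv
  have hstrict : ∀ i, S i ≠ ⊤ → S i < S (i + 1) := by
    intro i hi
    refine lt_of_le_of_ne (hmonoS i) fun heq => ?_
    let W := S i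
    have hW : ∀ u : U, W ≤ W.comap (T u) := fun u v hv =>
      hinv i u (Subgroup.le_normalizer u.2) v hv
    let _ : MulAction U ((Fin n → F) ⧸ W) :=
      { smul := fun u x => W.mapQ W (T u) (hW u) x
        one_smul := fun x => by
          induction x using Submodule.Quotient.induction_on with
          | _ v => exact congrArg Submodule.Quotient.mk (hT1 v)
        mul_smul := fun a b x => by
          induction x using Submodule.Quotient.induction_on with
          | _ v => exact congrArg Submodule.Quotient.mk (hT a b v) }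
    have : Nontrivial ((Fin n → F) ⧸ W) := Submodule.Quotient.nontrivial_iff.mpr hi
    have hdvd : p ∣ Nat.card ((Fin n → F) ⧸ W) := by
      rw [Module.natCard_eq_pow_finrank (K := F), Nat.card_eq_fintype_card]
      obtain ⟨m, hp, hm⟩ := FiniteField.card F p
      rw [hm, ← pow_mul]
      exact dvd_pow_self p (Nat.mul_pos m.pos Module.finrank_pos).ne'
    have h0 : (0 : (Fin n → F) ⧸ W) ∈ MulAction.fixedPoints U ((Fin n → F) ⧸ W) := by
      intro u
      exact map_zero (W.mapQ W (T u) (hW u))
    obtain ⟨x, hx, hne0⟩ := hU.exists_fixed_point_of_prime_dvd_card_of_fixed_point _ hdvd h0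
    induction x using Submodule.Quotient.induction_on with
    | _ v =>
      have hv : v ∈ S (i + 1) := by
        rw [hS, hnext]
        intro u hu
        exact (Submodule.Quotient.eq W).mp (hx ⟨u, hu⟩)
      rw [← heq] at hv
      exact hne0 ((Submodule.Quotient.mk_eq_zero W).mpr hv).symm
  obtain ⟨N, hN⟩ : ∃ N, S N = ⊤ := by
    by_contra hc
    push Not at hc
    have hfin : ∀ i, i ≤ Module.finrank F (S i) := by
      intro i
      induction i with
      | zero => exact Nat.zero_le _
      | succ i ih =>
        have := Submodule.finrank_lt_finrank_of_lt (hstrict i (hc i))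
        omega
    have h1 := hfin (Module.finrank F (Fin n → F) + 1)
    have h2 := Submodule.finrank_le (S (Module.finrank F (Fin n → F) + 1))
    omega
  let m := Nat.find (⟨N, hN⟩ : ∃ N, S N = ⊤)
  have hm : S m = ⊤ := Nat.find_spec (⟨N, hN⟩ : ∃ N, S N = ⊤)
  have hm' : ∀ i < m, S i ≠ ⊤ := fun i hi => Nat.find_min (⟨N, hN⟩ : ∃ N, S N = ⊤) hi
  have h1 : S 1 ≠ ⊤ := by
    intro h
    refine hne ((Subgroup.eq_bot_iff_forall U).mpr fun u hu => ?_)
    apply Subtype.ext
    apply Matrix.ext_of_mulVec_single
    intro j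
    have : Pi.single j (1 : F) ∈ next (S 0) := by rw [← hS, h]; trivial
    have h3 := (hnext _ _).mp this u hu
    simp only [S, Function.iterate_zero, id, Submodule.mem_bot, sub_eq_zero] at h3
    rw [show ((1 : Matrix.SpecialLinearGroup (Fin n) F) : Matrix (Fin n) (Fin n) F) = 1 from rfl,
      Matrix.one_mulVec]
    exact h3
  have hm2 : 2 ≤ m := by
    by_contra hlt
    interval_cases m
    · exact h1 (top_le_iff.mp (hm ▸ hmonoS 0))
    · exact h1 hm
  obtain ⟨k, hk⟩ : ∃ k, m = k + 1 := ⟨m - 1, by omega⟩
  refine ⟨k, fun i => S i, by omega, ?_, by simp [S], ?_, ?_, ?_⟩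
  · refine Fin.strictMono_iff_lt_succ.mpr fun i => ?_
    exact hstrict _ (hm' _ (by have := i.isLt; simp; omega))
  · simpa [← hk] using hm
  · intro g hg i
    refine le_antisymm (Submodule.map_le_iff_le_comap.mpr fun v hv => hinv _ g hg v hv)
      fun v hv => ?_
    refine ⟨T g⁻¹ v, hinv _ _ (inv_mem hg) v hv, ?_⟩
    change T g (T g⁻¹ v) = v
    rw [← hT, mul_inv_cancel, hT1]
  · intro u hu i v hv
    have : v ∈ next (S i) := by rw [← hS]; simpa using hv
    exact (hnext _ _).mp this u hu

end Cfsg.Agent.S2391
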