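import Cfsg.Statements.S2392
import Cfsg.Agent.Classical.CrossChar

set_option autoImplicit false
open scoped MatrixGroups
open Cfsg

namespace Cfsg.Agent.S2392

open Matrix

private theorem exists_mulVec_single {F : Type*} [Field F] {m : ℕ} (hm : 2 ≤ m) (w : Fin m → F) (hw : w ≠ 0) :
    ∃ C : SpecialLinearGroup (Fin m) F, (C : Matrix (Fin m) (Fin m) F) *ᵥ Pi.single ⟨0, by omega⟩ 1 = w := by
  classical
  obtain ⟨k, hk⟩ := Function.ne_iff.mp hw
  let z : Fin m := ⟨0, by omega⟩
  -- completing `w` to a basis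
  let M : Matrix (Fin m) (Fin m) F := ((1 : Matrix (Fin m) (Fin m) F).updateCol k w).submatrix id (Equiv.swap z k)
  have hdet : M.det ≠ 0 := by
    have h1 : ((1 : Matrix (Fin m) (Fin m) F).updateCol k w).det = w k := by
      rw [← cramer_apply, cramer_one]; rfl
    simp only [M, det_permute', h1]
    exact mul_ne_zero (by rcases Int.units_eq_one_or (Equiv.Perm.sign (Equiv.swap z k)) with h | h <;> simp [h]) hk
  let o : Fin m := ⟨1, by omega⟩
  let D : Fin m → F := Function.update 1 o M.det⁻¹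
  refine ⟨⟨M * diagonal D, ?_⟩, ?_⟩
  · rw [det_mul, det_diagonal, Finset.prod_update_of_mem (Finset.mem_univ o)]
    simp [mul_inv_cancel₀ hdet]
  · have hzo : z ≠ o := by simp [z, o, Fin.ext_iff]
    change (M * diagonal D) *ᵥ Pi.single z 1 = w
    ext i
    simp [mulVec_single, col, mul_diagonal, D, Function.update_of_ne hzo, M, updateCol_self]

private def blockMat {F : Type*} [Field F] {m : ℕ} (v : Fin m → F) (C : Matrix (Fin m) (Fin m) F) :
    Matrix (Fin (1 + m)) (Fin (1 + m)) F :=
  reindexAlgEquiv F F finSumFinEquiv (fromBlocks 1 (replicateRow (Fin 1) v) 0 C)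

private theorem det_blockMat {F : Type*} [Field F] {m : ℕ} (v : Fin m → F) (C : Matrix (Fin m) (Fin m) F) :
    (blockMat v C).det = C.det := by
  simp [blockMat, det_reindexAlgEquiv, det_fromBlocks_zero₂₁]

private theorem blockMat_mul {F : Type*} [Field F] {m : ℕ} (v v' : Fin m → F) (C C' : Matrix (Fin m) (Fin m) F) :
    blockMat v C * blockMat v' C' = blockMat (v' + v ᵥ* C') (C * C') := by
  simp only [blockMat, ← map_mul, fromBlocks_multiply, replicateRow_add, replicateRow_vecMul]
  simp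

private def uTop {F : Type*} [Field F] {m : ℕ} (v : Fin m → F) : SpecialLinearGroup (Fin (1 + m)) F :=
  ⟨blockMat v 1, by rw [det_blockMat, det_one]⟩

private def gLow {F : Type*} [Field F] {m : ℕ} (C : SpecialLinearGroup (Fin m) F) :
    SpecialLinearGroup (Fin (1 + m)) F :=
  ⟨blockMat 0 (C : Matrix (Fin m) (Fin m) F), by rw [det_blockMat, C.det_coe]⟩

private theorem uTop_mul {F : Type*} [Field F] {m : ℕ} (u v : Fin m → F) : uTop (u + v) = uTop u * uTop v := by
  apply Subtype.ext
  change blockMat (u + v) 1 = blockMat u 1 * blockMat v 1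
  rw [blockMat_mul, vecMul_one, mul_one, add_comm v u]

private theorem uTop_zero {F : Type*} [Field F] {m : ℕ} : uTop (0 : Fin m → F) = 1 := by
  have := uTop_mul (0 : Fin m → F) 0
  rwa [add_zero, left_eq_mul] at this

private theorem uTop_gLow {F : Type*} [Field F] {m : ℕ} (v : Fin m → F) (C : SpecialLinearGroup (Fin m) F) :
    uTop v * gLow C = gLow C * uTop (v ᵥ* (C : Matrix (Fin m) (Fin m) F)) := by
  apply Subtype.ext
  change blockMat v 1 * blockMat 0 (C : Matrix (Fin m) (Fin m) F) = blockMat 0 (C : Matrix (Fin m) (Fin m) F) * blockMat _ 1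
  rw [blockMat_mul, blockMat_mul]
  simp

private theorem eq_zero_of_uTop_central {F : Type*} [Field F] {m : ℕ} (v : Fin m → F)
    (h : uTop v ∈ Subgroup.center (SpecialLinearGroup (Fin (1 + m)) F)) : v = 0 := by
  obtain ⟨r, -, hr⟩ := Matrix.SpecialLinearGroup.mem_center_iff.mp h
  ext j
  have h2 := congrFun (congrFun hr (finSumFinEquiv (Sum.inl 0))) (finSumFinEquiv (Sum.inr j))
  have hne : (finSumFinEquiv (Sum.inl (0 : Fin 1)) : Fin (1 + m)) ≠ finSumFinEquiv (Sum.inr j) :=
    fun he => Sum.inl_ne_inr (finSumFinEquiv.injective he)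
  rw [scalar_apply, diagonal_apply_ne _ hne] at h2
  simpa [uTop, blockMat, -finSumFinEquiv_apply_left, -finSumFinEquiv_apply_right] using h2.symm


/-- A lower bound for representations in cross characteristic: for `n ≥ 3` and a field `F` with `q` elements, every homomorphism from `SL_n(F)` to `GL_d(K)`, `K` a field of characteristic different from that of `F`, whose kernel is central has `d ≥ q^(n-1) - 1`. -/
theorem result {F : Type*} [Field F] [Fintype F] {q : ℕ} (hq : Fintype.card F = q) (n : ℕ) (hn : 3 ≤ n)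
    {K : Type*} [Field K] (hK : ringChar K ≠ ringChar F) {d : ℕ}
    (ρ : Matrix.SpecialLinearGroup (Fin n) F →* GL (Fin d) K) (hker : ρ.ker ≤ Subgroup.center (Matrix.SpecialLinearGroup (Fin n) F)) :
    q ^ (n - 1) - 1 ≤ d := by
  classical
  obtain ⟨m, rfl⟩ : ∃ m, n = 1 + m := ⟨n - 1, by omega⟩
  simp only [Nat.add_sub_cancel_left]
  let L := AlgebraicClosure K
  have hL : ringChar L ≠ ringChar F := fun h => hK (by rw [← h]; exact Algebra.ringChar_eq K L)
  obtain ⟨ψ, hψ⟩ := CfsgLib.CrossChar.exists_primitive_char (F := F) L hL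
  have hcard := CfsgLib.CrossChar.card_ne_zero (F := F) (L := L) hL
  let Φ : SpecialLinearGroup (Fin (1 + m)) F →* GL (Fin d) L :=
    (GeneralLinearGroup.map (algebraMap K L)).comp ρ
  have hinj : ∀ g, Φ g = 1 → ρ g = 1 := by
    intro g hg
    apply Units.ext
    have h1 := congrArg (fun x : GL (Fin d) L => (x : Matrix (Fin d) (Fin d) L)) hg
    exact Matrix.map_injective (algebraMap K L).injective (by simpa [Φ] using h1)
  let R : (Fin m → F) → Matrix (Fin d) (Fin d) L := fun v => (Φ (uTop v) : Matrix (Fin d) (Fin d) L)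
  have h0 : R 0 = 1 := by simp [R, uTop_zero]
  have hadd : ∀ u v, R (u + v) = R u * R v := fun u v => by simp [R, uTop_mul]
  let v₀ : Fin m → F := Pi.single ⟨0, by omega⟩ 1
  have hv₀ : R v₀ ≠ 1 := by
    intro h
    have hk : uTop v₀ ∈ ρ.ker := hinj _ (Units.ext h)
    simpa [v₀] using congrFun (eq_zero_of_uTop_central v₀ (hker hk)) ⟨0, by omega⟩
  obtain ⟨w, y, hy, hwv⟩ := CfsgLib.CrossChar.exists_isWeightVec ψ R hψ hcard h0 hadd v₀ hv₀
  have hw : w ≠ 0 := by rintro rfl; simp at hwv
  have hall : ∀ w' ∈ Finset.univ.filter (fun w' : Fin m → F => w' ≠ 0), ∃ y', CfsgLib.CrossChar.IsWeightVec ψ R w' y' := by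
    intro w' hw'
    rw [Finset.mem_filter] at hw'
    obtain ⟨C, hC⟩ := exists_mulVec_single (by omega) w hw
    obtain ⟨C', hC'⟩ := exists_mulVec_single (by omega) w' hw'.2
    let E := C' * C⁻¹
    have hE : (E : Matrix (Fin m) (Fin m) F) *ᵥ w = w' := by
      rw [← hC, ← hC', mulVec_mulVec, ← Matrix.SpecialLinearGroup.coe_mul, inv_mul_cancel_right]
    refine ⟨_, CfsgLib.CrossChar.transport_isWeightVec ψ R (Φ (gLow E) : Matrix (Fin d) (Fin d) L)
      (((Φ (gLow E))⁻¹ : GL (Fin d) L) : Matrix (Fin d) (Fin d) L) (Units.inv_mul _)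
      (fun v => v ᵥ* (E : Matrix (Fin m) (Fin m) F)) (fun v => ?_) (fun v => ?_) hy⟩
    · simp only [R, ← Units.val_mul, ← map_mul, uTop_gLow]
    · rw [← hE, dotProduct_comm, ← dotProduct_mulVec, dotProduct_comm]
  have h := CfsgLib.CrossChar.card_weights_le ψ R hψ hcard _ hall
  rw [Finset.filter_ne' , Finset.card_erase_of_mem (Finset.mem_univ _), Finset.card_univ, Fintype.card_fun, Fintype.card_fin, hq] at h
  exact h

end Cfsg.Agent.S2392
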