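import Cfsg.Statements.S2393
import Cfsg.Agent.Classical.CrossChar

set_option autoImplicit false
open scoped MatrixGroups
open Cfsg

namespace Cfsg.Agent.S2393

open Matrix

private def symTop {F : Type*} [Field F] {m : ℕ} (v : Fin (m + 1) → F) : Matrix (Fin (m + 1)) (Fin (m + 1)) F :=
  Matrix.of fun i j => if i = 0 then v j else if j = 0 then v i else 0

private theorem symTop_transpose {F : Type*} [Field F] {m : ℕ} (v : Fin (m + 1) → F) :
    (symTop v)ᵀ = symTop v := by
  ext i j; by_cases hi : i = 0 <;> by_cases hj : j = 0 <;> simp [symTop, hi, hj]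

private theorem symTop_add {F : Type*} [Field F] {m : ℕ} (u v : Fin (m + 1) → F) :
    symTop (u + v) = symTop u + symTop v := by
  ext i j; by_cases hi : i = 0 <;> by_cases hj : j = 0 <;> simp [symTop, hi, hj]

private def uSiegel {F : Type*} [Field F] {m : ℕ} (v : Fin (m + 1) → F) :
    symplecticGroup (Fin (m + 1)) F :=
  ⟨fromBlocks 1 (symTop v) 0 1, by
    rw [SymplecticGroup.mem_iff]
    simp [J, fromBlocks_multiply, fromBlocks_transpose, symTop_transpose]⟩

private theorem uSiegel_mul {F : Type*} [Field F] {m : ℕ} (u v : Fin (m + 1) → F) :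
    uSiegel (u + v) = uSiegel u * uSiegel v := by
  apply Subtype.ext
  change fromBlocks 1 (symTop (u + v)) 0 1 = fromBlocks 1 (symTop u) 0 1 * fromBlocks 1 (symTop v) 0 1
  simp [fromBlocks_multiply, symTop_add, add_comm (symTop u)]

private theorem uSiegel_zero {F : Type*} [Field F] {m : ℕ} : uSiegel (0 : Fin (m + 1) → F) = 1 := by
  have := uSiegel_mul (0 : Fin (m + 1) → F) 0
  rwa [add_zero, left_eq_mul] at this

private theorem uSiegel_not_central {F : Type*} [Field F] {m : ℕ} (v : Fin (m + 1) → F)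
    (h : uSiegel v ∈ Subgroup.center (symplecticGroup (Fin (m + 1)) F)) : v = 0 := by
  have h1 := congrArg Subtype.val (Subgroup.mem_center_iff.mp h ⟨J (Fin (m + 1)) F, SymplecticGroup.J_mem _ _⟩)
  change J (Fin (m + 1)) F * fromBlocks 1 (symTop v) 0 1 = fromBlocks 1 (symTop v) 0 1 * J (Fin (m + 1)) F at h1
  simp [J, fromBlocks_multiply, fromBlocks_inj] at h1
  ext j
  have h2 : symTop v = 0 := by
    rcases h1 with ⟨h1, -⟩
    exact h1.symm
  simpa [symTop] using congrFun (congrFun h2 0) j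

private theorem det_rowOne {F : Type*} [Field F] {m : ℕ} (a : Fin (m + 1) → F) :
    ((1 : Matrix (Fin (m + 1)) (Fin (m + 1)) F).updateRow 0 a).det = a 0 := by
  rw [← det_transpose, transpose_one.symm, ← updateCol_transpose, transpose_transpose, ← cramer_apply, cramer_one]; rfl

private theorem conj_symTop {F : Type*} [Field F] {m : ℕ} (a v : Fin (m + 1) → F) :
    (1 : Matrix (Fin (m + 1)) (Fin (m + 1)) F).updateRow 0 a * symTop v *
      ((1 : Matrix (Fin (m + 1)) (Fin (m + 1)) F).updateRow 0 a)ᵀ =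
      symTop (Fin.cons (a 0 * (2 * (a ⬝ᵥ v) - a 0 * v 0)) (fun j => a 0 * v j.succ)) := by
  ext i j
  refine Fin.cases ?_ (fun i => ?_) i <;> refine Fin.cases ?_ (fun j => ?_) j <;>
    simp [symTop, mul_apply, updateRow_apply, Fin.sum_univ_succ, Fin.succ_ne_zero, dotProduct,
      one_apply, Fin.succ_inj, Finset.sum_ite_eq, Finset.sum_ite_eq']
  rotate_left
  · ring
  have : (∑ x : Fin m, a 0 * v x.succ * a x.succ) = a 0 * ∑ x : Fin m, a x.succ * v x.succ := by
    rw [Finset.mul_sum]; exact Finset.sum_congr rfl fun x _ => by ring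
  rw [this]; ring

private noncomputable def gLevi {F : Type*} [Field F] {m : ℕ} (a : Fin (m + 1) → F) (ha : a 0 ≠ 0) :
    symplecticGroup (Fin (m + 1)) F :=
  ⟨fromBlocks ((1 : Matrix (Fin (m + 1)) (Fin (m + 1)) F).updateRow 0 a) 0 0
    (((1 : Matrix (Fin (m + 1)) (Fin (m + 1)) F).updateRow 0 a)⁻¹)ᵀ, by
    have hu : IsUnit ((1 : Matrix (Fin (m + 1)) (Fin (m + 1)) F).updateRow 0 a).det := by
      rw [det_rowOne]; exact ha.isUnit
    have h2 : ((1 : Matrix (Fin (m + 1)) (Fin (m + 1)) F).updateRow 0 a)⁻¹ᵀ *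
        ((1 : Matrix (Fin (m + 1)) (Fin (m + 1)) F).updateRow 0 a)ᵀ = 1 := by
      rw [← transpose_mul, mul_nonsing_inv _ hu, transpose_one]
    rw [SymplecticGroup.mem_iff]
    simp [J, fromBlocks_multiply, fromBlocks_transpose, mul_nonsing_inv _ hu, h2]⟩

private theorem gLevi_uSiegel {F : Type*} [Field F] {m : ℕ} (a : Fin (m + 1) → F) (ha : a 0 ≠ 0)
    (v : Fin (m + 1) → F) :
    gLevi a ha * uSiegel v =
      uSiegel (Fin.cons (a 0 * (2 * (a ⬝ᵥ v) - a 0 * v 0)) (fun j => a 0 * v j.succ)) * gLevi a ha := by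
  have hu : IsUnit ((1 : Matrix (Fin (m + 1)) (Fin (m + 1)) F).updateRow 0 a).det := by
    rw [det_rowOne]; exact ha.isUnit
  have h2 : ((1 : Matrix (Fin (m + 1)) (Fin (m + 1)) F).updateRow 0 a)ᵀ *
      ((1 : Matrix (Fin (m + 1)) (Fin (m + 1)) F).updateRow 0 a)⁻¹ᵀ = 1 := by
    rw [← transpose_mul, nonsing_inv_mul _ hu, transpose_one]
  apply Subtype.ext
  change fromBlocks _ _ _ _ * fromBlocks _ _ _ _ = fromBlocks _ _ _ _ * fromBlocks _ _ _ _
  simp only [fromBlocks_multiply, ← conj_symTop a v]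
  simp [Matrix.mul_assoc, h2]


/-- A lower bound for representations in cross characteristic: for `n ≥ 2` and a field `F` with `q` elements, `q` odd, every homomorphism from the symplectic group `Sp_{2n}(F)` to `GL_d(K)`, `K` a field of characteristic different from that of `F`, whose kernel is central has `d ≥ q^(n-1)(q-1)/2`. -/
theorem result {F : Type*} [Field F] [Fintype F] {q : ℕ} (hq : Fintype.card F = q) (hodd : Odd q) (n : ℕ) (hn : 2 ≤ n)
    {K : Type*} [Field K] (hK : ringChar K ≠ ringChar F) {d : ℕ}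
    (ρ : ↥(Matrix.symplecticGroup (Fin n) F) →* GL (Fin d) K) (hker : ρ.ker ≤ Subgroup.center ↥(Matrix.symplecticGroup (Fin n) F)) :
    q ^ (n - 1) * (q - 1) / 2 ≤ d := by
  classical
  obtain ⟨m, rfl⟩ : ∃ m, n = m + 1 := ⟨n - 1, by omega⟩
  simp only [Nat.add_sub_cancel]
  let L := AlgebraicClosure K
  have hL : ringChar L ≠ ringChar F := fun h => hK (by rw [← h]; exact Algebra.ringChar_eq K L)
  obtain ⟨ψ, hψ⟩ := CfsgLib.CrossChar.exists_primitive_char (F := F) L hL
  have hcard := CfsgLib.CrossChar.card_ne_zero (F := F) (L := L) hL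
  have htwo : (2 : F) ≠ 0 := by
    refine Ring.two_ne_zero fun h2 => ?_
    have he := FiniteField.even_card_of_char_two h2
    rw [hq] at he
    rw [Nat.odd_iff] at hodd
    omega
  let Φ : symplecticGroup (Fin (m + 1)) F →* GL (Fin d) L :=
    (GeneralLinearGroup.map (algebraMap K L)).comp ρ
  have hinj : ∀ g, Φ g = 1 → ρ g = 1 := by
    intro g hg
    apply Units.ext
    have h1 := congrArg (fun x : GL (Fin d) L => (x : Matrix (Fin d) (Fin d) L)) hg
    exact Matrix.map_injective (algebraMap K L).injective (by simpa [Φ] using h1)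
  let R : (Fin (m + 1) → F) → Matrix (Fin d) (Fin d) L := fun v => (Φ (uSiegel v) : Matrix (Fin d) (Fin d) L)
  have h0 : R 0 = 1 := by simp [R, uSiegel_zero]
  have hadd : ∀ u v, R (u + v) = R u * R v := fun u v => by simp [R, uSiegel_mul]
  let v₀ : Fin (m + 1) → F := Pi.single 0 1
  have hv₀ : R v₀ ≠ 1 := by
    intro h
    have hk : uSiegel v₀ ∈ ρ.ker := hinj _ (Units.ext h)
    simpa [v₀] using congrFun (uSiegel_not_central v₀ (hker hk)) 0
  obtain ⟨w, y, hy, hwv⟩ := CfsgLib.CrossChar.exists_isWeightVec ψ R hψ hcard h0 hadd v₀ hv₀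
  have hw : w 0 ≠ 0 := by intro h; simp [v₀, h] at hwv
  let T : Finset F := (Finset.univ.filter (fun s : F => s ≠ 0)).image (fun s => s ^ 2 * w 0)
  have hT : q - 1 ≤ 2 * T.card := by
    have h1 : (Finset.univ.filter (fun s : F => s ≠ 0)).card ≤ 2 * T.card := by
      refine Finset.card_le_mul_card_image _ 2 fun b hb => ?_
      obtain ⟨s, -, rfl⟩ := Finset.mem_image.mp hb
      refine (Finset.card_le_card (t := {s, -s}) fun x hx => ?_).trans Finset.card_le_two
      have hx2 : x ^ 2 = s ^ 2 := mul_right_cancel₀ hw (Finset.mem_filter.mp hx).2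
      simpa using sq_eq_sq_iff_eq_or_eq_neg.mp hx2
    rwa [Finset.filter_ne', Finset.card_erase_of_mem (Finset.mem_univ _), Finset.card_univ, hq] at h1
  let S : Finset (Fin (m + 1) → F) := (T ×ˢ (Finset.univ : Finset (Fin m → F))).image (fun p => Fin.cons p.1 p.2)
  have hS : S.card = T.card * q ^ m := by
    rw [Finset.card_image_of_injective, Finset.card_product, Finset.card_univ, Fintype.card_fun, Fintype.card_fin, hq]
    rintro ⟨a, b⟩ ⟨a', b'⟩ h
    have := Fin.cons_inj.mp h
    exact Prod.ext this.1 this.2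
  have hall : ∀ w' ∈ S, ∃ y', CfsgLib.CrossChar.IsWeightVec ψ R w' y' := by
    intro w' hw'
    obtain ⟨⟨c, u⟩, hp, rfl⟩ := Finset.mem_image.mp hw'
    obtain ⟨s, hs, rfl⟩ := Finset.mem_image.mp (Finset.mem_product.mp hp).1
    have hs0 : s ≠ 0 := (Finset.mem_filter.mp hs).2
    let a : Fin (m + 1) → F := Fin.cons s (fun j => (u j / s - w j.succ) / (2 * w 0))
    have ha : a 0 ≠ 0 := by simpa [a] using hs0
    refine ⟨_, CfsgLib.CrossChar.transport_isWeightVec ψ R
      ((Φ (gLevi a ha)⁻¹ : GL (Fin d) L) : Matrix (Fin d) (Fin d) L)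
      (Φ (gLevi a ha) : Matrix (Fin d) (Fin d) L) ?_
      (fun v => Fin.cons (a 0 * (2 * (a ⬝ᵥ v) - a 0 * v 0)) (fun j => a 0 * v j.succ))
      (fun v => ?_) (fun v => ?_) hy⟩
    · rw [← Units.val_mul, ← map_mul, mul_inv_cancel, map_one, Units.val_one]
    · simp only [R, ← Units.val_mul, ← map_mul]
      congr 2
      rw [eq_inv_mul_iff_mul_eq, ← mul_assoc, gLevi_uSiegel, mul_assoc, mul_inv_cancel, mul_one]
    · have key : ∀ j : Fin m, w 0 * s * (2 * ((u j / s - w j.succ) / (2 * w 0) * v j.succ)) + w j.succ * (s * v j.succ) = u j * v j.succ := fun j => by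
        field_simp
        ring
      simp only [a, dotProduct, Fin.sum_univ_succ, Fin.cons_zero, Fin.cons_succ]
      calc _ = s ^ 2 * w 0 * v 0 + ∑ j : Fin m, (w 0 * s * (2 * ((u j / s - w j.succ) / (2 * w 0) * v j.succ)) + w j.succ * (s * v j.succ)) := by
            rw [Finset.sum_add_distrib, ← Finset.mul_sum, ← Finset.mul_sum]; ring
        _ = _ := by rw [Finset.sum_congr rfl fun j _ => key j]
  have h := CfsgLib.CrossChar.card_weights_le ψ R hψ hcard _ hall
  rw [hS] at h
  refine le_trans (Nat.div_le_of_le_mul ?_) h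
  calc q ^ m * (q - 1) ≤ q ^ m * (2 * T.card) := Nat.mul_le_mul_left _ hT
    _ = 2 * (T.card * q ^ m) := by ring

end Cfsg.Agent.S2393
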