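import Cfsg.Statements.S2399
import Cfsg.Agent.ChevSteinberg.UniExt
import Cfsg.Agent.ChevSteinberg.FiniteLift
import Cfsg.Agent.ChevSteinberg.Perfect
import Cfsg.Agent.ChevSteinberg.Data

set_option autoImplicit false
open scoped MatrixGroups
open Cfsg

namespace Cfsg.Agent.S2399

/-- Projective representations in the natural characteristic lift: for each of the types G₂, B₂, D₄, F₄, E₆, E₇, E₈ over any field `K` (for types B₂ and G₂ the field must have more than two elements — the cases where the Chevalley group is not simple are set aside), every homomorphism from the Chevalley group to `PGL_n(L) = GL_n(L)/Z`, `L` a field of the same characteristic as `K`, lifts uniquely to a homomorphism from the group Δ presented by (R1), (R2) to `GL_n(L)`, compatibly with the projection Δ → Chevalley group sending x̄_r(t) to x_r(t). -/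
theorem result {K : Type*} [Field K] (D : Cfsg.Lie.ChevalleyDatum) (hD : D ∈ [Cfsg.Lie.chevG2, Cfsg.Lie.chevB2, Cfsg.Lie.chevD4, Cfsg.Lie.chevF4, Cfsg.Lie.chevE6, Cfsg.Lie.chevE7, Cfsg.Lie.chevE8]) (hK : D ∈ [Cfsg.Lie.chevB2, Cfsg.Lie.chevG2] → ∃ x : K, x ≠ 0 ∧ x ≠ 1)
    (θ : D.SteinbergCover K →* ↥(D.group K))
    (hθ : ∀ (r : ℕ) (t : K), r < D.nroots → ((θ (D.scGen K r t) : GL D.Idx K) : Matrix D.Idx D.Idx K) = D.x K r t)
    {L : Type*} [Field L] (hL : ringChar L = ringChar K) {n : ℕ}
    (φ : ↥(D.group K) →* GL (Fin n) L ⧸ Subgroup.center (GL (Fin n) L)) :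
    ∃! ψ : D.SteinbergCover K →* GL (Fin n) L, (QuotientGroup.mk' (Subgroup.center (GL (Fin n) L))).comp ψ = φ.comp θ := by
  have hperf := CfsgLib.ChevSteinberg.commutator_cover_eq_top hD hK
  have hsurj : Function.Surjective (QuotientGroup.mk' (Subgroup.center (GL (Fin n) L))) :=
    QuotientGroup.mk'_surjective _
  have hc : (QuotientGroup.mk' (Subgroup.center (GL (Fin n) L))).ker ≤
      Subgroup.center (GL (Fin n) L) := (QuotientGroup.ker_mk' _).le
  by_cases hfin : Finite K
  · obtain ⟨S, W⟩ := CfsgLib.ChevSteinberg.exists_witness hD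
    obtain ⟨p, hp⟩ := CharP.exists K
    have hpp : Fact p.Prime := ⟨CharP.char_is_prime K p⟩
    have : CharP L p := ringChar.of_eq (hL.trans (ringChar.eq K p))
    refine CfsgLib.ChevSteinberg.existsUnique_lift_finite (S := S) (p := p) W hperf _ hsurj hc
      (fun z hz h => ?_) (φ.comp θ)
    exact CfsgLib.ChevSteinberg.gl_center_no_char (p := p) (hc hz) h
  · have : Infinite K := not_finite_iff_infinite.1 hfin
    have hK5 : ∃ s : Finset K, 4 < s.card := by
      obtain ⟨s, hs⟩ := Infinite.exists_subset_card_eq K 5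
      exact ⟨s, by omega⟩
    obtain ⟨S, W, hst⟩ := CfsgLib.ChevSteinberg.exists_stSys_of_large hD hK5
    exact CfsgLib.ChevSteinberg.existsUnique_lift W hperf (fun π h1 h2 => hst π h1 h2) _ hsurj hc
      (φ.comp θ)

end Cfsg.Agent.S2399
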