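import Cfsg.Statements.S2400
import Cfsg.Agent.ChevSteinberg.TrivialMult
import Cfsg.Agent.ChevSteinberg.UniSmall
import Cfsg.Agent.ChevSteinberg.OrthThree
import Cfsg.Agent.ChevSteinberg.B2Three
import Cfsg.Agent.ChevSteinberg.Universal
import Cfsg.Agent.ChevSteinberg.FiniteLift
import Cfsg.Agent.ChevSteinberg.Perfect
import Cfsg.Agent.ChevSteinberg.Data

set_option autoImplicit false
open Cfsg

namespace Cfsg.Agent.S2400

open Cfsg.Lie CfsgLib.Chevalley CfsgLib.ChevSteinberg

universe v

theorem of_stSys {F : Type v} [Field F] [Finite F] {D : ChevalleyDatum} {S : Sys D} (W : Witness S)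
    (hperf : commutator (D.SteinbergCover F) = ⊤)
    (hst : ∀ {Γ : Type v} [Group Γ] (π : Γ →* GL D.Idx F), π.range = D.group F →
      π.ker ≤ Subgroup.center Γ → ∃ T : StSys S F Γ, T.θ = π) :
    Cfsg.HasCyclicSchurMultiplier (D.SteinbergGroup F) 1 :=
  trivialMult_of_lift W fun _E _ _ π₁ hs hc _ σ =>
    (existsUnique_lift W hperf (fun π h1 h2 => hst π h1 h2) π₁ hs hc σ).exists

theorem b2_three {F : Type v} [Field F] [Fintype F] (hF : Fintype.card F = 3)
    (hperf : commutator (chevB2.SteinbergCover F) = ⊤) :
    Cfsg.HasCyclicSchurMultiplier (chevB2.SteinbergGroup F) 1 := by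
  refine trivialMult_of_lift witness_B2 fun E _ _ π₁ hs hc hd σ => ?_
  have : Fact (Nat.Prime 3) := ⟨Nat.prime_three⟩
  have : CharP F 3 := by
    have h0 : ((3 : ℕ) : F) = 0 := by rw [← hF]; exact FiniteField.cast_card_eq_zero F
    exact (CharP.ringChar_of_prime_eq_zero Nat.prime_three h0) ▸ ringChar.charP F
  obtain ⟨e, -⟩ := exists_coverEquiv sysB2 F witness_B2
  have hG : commutator (chevB2.SteinbergGroup F) = ⊤ := by
    rw [commutator_def, ← Subgroup.map_top_of_surjective e.toMonoidHom e.surjective,
      ← Subgroup.map_commutator, ← commutator_def, hperf]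
  have hperfE := perfect_of_stem π₁ hs hd hG
  set π : E →* GL chevB2.Idx F := (groupSys sysB2 F).θ.comp π₁
  have hc' : π.ker ≤ Subgroup.center E := fun x hx =>
    center_preimage_le π₁ hc hperfE
      ((groupSys sysB2 F).ker_le witness_B2 (group_gen sysB2 F) _ hx).1
  have hrange : π.range = chevB2.group F := by
    rw [MonoidHom.range_comp, MonoidHom.range_eq_top.2 hs, ← MonoidHom.range_eq_map]
    show ((chevB2.group F).subtype.comp (groupProj sysB2 F)).range = _
    rw [MonoidHom.range_comp, MonoidHom.range_eq_top.2 (proj_surjective sysB2 F _ (chevB2.stGen F)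
      (groupProj_gen sysB2 F)), ← MonoidHom.range_eq_map, Subgroup.range_subtype]
  refine (existsUnique_lift_finite (p := 3) witness_B2 hperf π₁ hs hc (fun z hz h => ?_) σ).exists
  exact ker_no_three hF hrange hc' hperfE
    (by rw [MonoidHom.mem_ker, MonoidHom.comp_apply, MonoidHom.mem_ker.1 hz, map_one]) h

/-- Over a finite field `K`, the group presented by Steinberg's relators (R1)–(R3) (the universal Chevalley group) of type E₆ or E₇, or of type B₂ or D₄ with `K` of more than two elements, has trivial Schur multiplier: every finite stem extension of it is an isomorphism (Schur multiplier described through stem extensions as in the definitions). Types G₂, F₄ and E₈ are not covered here. -/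
theorem result {K : Type*} [Field K] [Fintype K] (e : Cfsg.Lie.ChevalleyDatum × ℕ)
    (he : e ∈ [(Cfsg.Lie.chevE6, 0), (Cfsg.Lie.chevE7, 0), (Cfsg.Lie.chevB2, 2), (Cfsg.Lie.chevD4, 2)]) (hK : Fintype.card K ≠ e.2) :
    Cfsg.HasCyclicSchurMultiplier (e.1.SteinbergGroup K) 1 := by
  classical
  have hone : 1 < Fintype.card K := Fintype.one_lt_card
  have h2 : Fintype.card K ≠ 2 → ∃ x : K, x ≠ 0 ∧ x ≠ 1 := by
    intro h
    have h2' : 1 < Fintype.card Kˣ := by
      rw [Fintype.card_units]
      omega
    obtain ⟨z, hz⟩ := Fintype.exists_ne_of_one_lt_card h2' 1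
    exact ⟨z, z.ne_zero, fun e => hz (Units.ext e)⟩
  have hlarge : 4 < Fintype.card K → ∃ s : Finset K, 4 < s.card := fun h =>
    ⟨Finset.univ, by rwa [Finset.card_univ]⟩
  simp only [List.mem_cons, List.not_mem_nil, or_false] at he
  rcases he with rfl | rfl | rfl | rfl
  · exact of_stSys witness_E6 (commutator_cover_eq_top (D := chevE6) (by simp) (fun h => by
      simp only [List.mem_cons, List.not_mem_nil, or_false] at h
      rcases h with h | h <;> exact absurd (congrArg ChevalleyDatum.rank h) (by decide)))
      (fun π => exists_stSys_of_simply CfsgLib.ChevUniversal.simply_E6)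
  · exact of_stSys witness_E7 (commutator_cover_eq_top (D := chevE7) (by simp) (fun h => by
      simp only [List.mem_cons, List.not_mem_nil, or_false] at h
      rcases h with h | h <;> exact absurd (congrArg ChevalleyDatum.rank h) (by decide)))
      (fun π => exists_stSys_of_simply CfsgLib.ChevUniversal.simply_E7)
  · have hperf := commutator_cover_eq_top (F := K) (D := chevB2) (by simp) fun _ => h2 hK
    rcases (show Fintype.card K = 3 ∨ Fintype.card K = 4 ∨ 4 < Fintype.card K by
      have : Fintype.card K ≠ 2 := hK
      omega) with h | h | h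
    · exact b2_three h hperf
    · exact of_stSys witness_B2 hperf fun π hr hc => exists_stSys_B2_four h hr hc
    · obtain ⟨S, W, hst⟩ := exists_stSys_of_large (D := chevB2) (by simp) (hlarge h)
      exact of_stSys W hperf fun π hr hc => hst π hr hc
  · have hperf := commutator_cover_eq_top (F := K) (D := chevD4) (by simp) fun _ => h2 hK
    rcases (show Fintype.card K = 3 ∨ Fintype.card K = 4 ∨ 4 < Fintype.card K by
      have : Fintype.card K ≠ 2 := hK
      omega) with h | h | h
    · exact of_stSys witness_D4 hperf fun π hr hc => exists_stSys_D4_three h hr hc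
    · exact of_stSys witness_D4 hperf fun π hr hc => exists_stSys_D4_four h hr hc
    · obtain ⟨S, W, hst⟩ := exists_stSys_of_large (D := chevD4) (by simp) (hlarge h)
      exact of_stSys W hperf fun π hr hc => hst π hr hc

end Cfsg.Agent.S2400
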