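import Cfsg.Statements.S2402
import Cfsg.Agent.Classical.SLCycleGen

set_option autoImplicit false
open Cfsg

namespace Cfsg.Agent.S2402

open Matrix CfsgLib.SLTransvGen CfsgLib.SLCycleGen

private theorem diagonal_conj_tv {K : Type*} [Field K] {n : ℕ} (d : Fin (n + 1) → K) (t : K)
    (e0 e1 : K) (h0 : d 0 = e0) (h1 : d 1 = e1) (he1 : e1 ≠ 0) :
    diagonal d * Matrix.transvection (0 : Fin (n + 1)) 1 t =
      Matrix.transvection (0 : Fin (n + 1)) 1 (e0 / e1 * t) * diagonal d := by
  simp only [Matrix.transvection, mul_add, add_mul, mul_one, one_mul]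
  congr 1
  ext a b
  simp only [diagonal_mul, mul_diagonal, Matrix.single_apply]
  split_ifs with h
  · obtain ⟨rfl, rfl⟩ := h
    rw [h0, h1]; field_simp
  · simp

private theorem span_squares {K : Type*} [Field K] [Fintype K] (A : AddSubgroup K) (c : K) (hc : c ≠ 0)
    (h : ∀ s : K, c * s ^ 2 ∈ A) (t : K) : t ∈ A := by
  by_cases h2 : ringChar K = 2
  · obtain ⟨s, hs⟩ := FiniteField.isSquare_of_char_two h2 (t / c)
    have := h s
    rwa [sq, ← hs, mul_div_cancel₀ _ hc] at this
  · have h20 : (2 : K) ≠ 0 := Ring.two_ne_zero h2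
    have := A.sub_mem (h ((t / c + 1) / 2)) (h ((t / c - 1) / 2))
    have e : c * ((t / c + 1) / 2) ^ 2 - c * ((t / c - 1) / 2) ^ 2 = t := by field_simp; ring
    rwa [e] at this


/-- Explicit two-element generation of `PSL_{n+1}(K)` for a finite field `K` with more than three elements: let `k` generate the multiplicative group of `K`, `h = diag(k, k⁻¹, 1, …, 1)`, `x = 1 + E₁₂` (the elementary transvection) and `w` the monomial matrix with entries `1` in positions `(i, i+1)` and `(−1)^n` in position `(n+1, 1)`. Then `h` and `x·w` generate `SL_{n+1}(K)` modulo its centre: the subgroup they generate together with the centre is everything. -/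
theorem result {K : Type*} [Field K] [Fintype K] (hK : 3 < Fintype.card K) (n : ℕ) (hn : 1 ≤ n)
    (k : Kˣ) (hk : ∀ u : Kˣ, u ∈ Subgroup.zpowers k)
    (h x w : Matrix.SpecialLinearGroup (Fin (n + 1)) K)
    (hh : (h : Matrix (Fin (n + 1)) (Fin (n + 1)) K) =
      Matrix.diagonal (fun i => if i.val = 0 then (k : K) else if i.val = 1 then ((k⁻¹ : Kˣ) : K) else 1))
    (hx : (x : Matrix (Fin (n + 1)) (Fin (n + 1)) K) = Matrix.transvection (0 : Fin (n + 1)) (1 : Fin (n + 1)) 1)
    (hw : (w : Matrix (Fin (n + 1)) (Fin (n + 1)) K) =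
      Matrix.of (fun i j => if j.val = i.val + 1 then 1 else if i.val = n ∧ j.val = 0 then (-1) ^ n else 0)) :
    Subgroup.closure ({h, x * w} : Set (Matrix.SpecialLinearGroup (Fin (n + 1)) K)) ⊔
      Subgroup.center (Matrix.SpecialLinearGroup (Fin (n + 1)) K) = ⊤ := by
  classical
  set S := Subgroup.closure ({h, x * w} : Set (Matrix.SpecialLinearGroup (Fin (n + 1)) K)) ⊔
      Subgroup.center (Matrix.SpecialLinearGroup (Fin (n + 1)) K) with hS
  have hhS : h ∈ S := Subgroup.mem_sup_left (Subgroup.subset_closure (by simp))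
  have hyS : x * w ∈ S := Subgroup.mem_sup_left (Subgroup.subset_closure (by simp))
  have h1n : ((1 : Fin (n + 1)) : ℕ) = 1 := by simp [Nat.mod_eq_of_lt (show 1 < n + 1 by omega)]
  have hne : (0 : Fin (n + 1)) ≠ 1 := fun e => by
    have e' := congrArg Fin.val e
    rw [h1n, Fin.val_zero] at e'
    omega
  have hxtv : x = tv hne 1 := Subtype.ext hx
  set D : Fin (n + 1) → K :=
    fun i => if i.val = 0 then (k : K) else if i.val = 1 then ((k⁻¹ : Kˣ) : K) else 1 with hDdef
  have hk2 : (k : K) ^ 2 ≠ 1 := by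
    intro e
    have e' : k ^ 2 = 1 := Units.ext (by simpa using e)
    have h1 : orderOf k ≤ 2 := Nat.le_of_dvd two_pos (orderOf_dvd_of_pow_eq_one e')
    rw [orderOf_eq_card_of_forall_mem_zpowers hk, Nat.card_units, Nat.card_eq_fintype_card] at h1
    omega
  have hk0 : (k : K) ≠ 0 := k.ne_zero
  have hD0 : D 0 = (k : K) := by simp [hDdef]
  have hD1 : D 1 = (k : K)⁻¹ := by
    simp only [hDdef]; rw [if_neg (by omega), if_pos (by omega)]; simp
  have hcoe : (h : Matrix (Fin (n + 1)) (Fin (n + 1)) K) = diagonal D := hh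
  let E : Fin (n + 1) → K := fun i => D (finRotate (n + 1) i)
  have hWD : (w : Matrix (Fin (n + 1)) (Fin (n + 1)) K) * diagonal D = diagonal E * (w : Matrix (Fin (n + 1)) (Fin (n + 1)) K) := by
    ext i j
    rw [diagonal_mul, mul_diagonal, hw, Matrix.of_apply]
    by_cases hij : finRotate (n + 1) i = j
    · simp only [E, hij]; ring
    · have : (if j.val = i.val + 1 then (1 : K) else if i.val = n ∧ j.val = 0 then (-1) ^ n else 0) = 0 := by
        rw [if_neg, if_neg]
        · rintro ⟨hi, hj⟩
          apply hij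
          rw [show i = Fin.last n from Fin.ext hi, finRotate_last]
          exact Fin.ext (by simp [hj])
        · intro hj
          apply hij
          have hi : i ≠ Fin.last n := fun e => by rw [e, Fin.val_last] at hj; omega
          apply Fin.ext
          rw [coe_finRotate_of_ne_last hi, hj]
      rw [this]; simp
  have hE0 : E 0 = (k : K)⁻¹ := by
    have : finRotate (n + 1) (0 : Fin (n + 1)) = 1 := by simp
    simp only [E, this, hD1]
  have hE1 : E 1 ≠ (k : K)⁻¹ ∧ E 1 ≠ 0 := by
    simp only [E]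
    have : finRotate (n + 1) (1 : Fin (n + 1)) = 1 + 1 := by simp
    rw [this]
    by_cases hn1 : n = 1
    · subst hn1
      rw [show ((1 : Fin (1 + 1)) + 1) = 0 from rfl, hD0]
      exact ⟨fun e => hk2 (by field_simp at e; linear_combination e), hk0⟩
    · have hv : ((1 + 1 : Fin (n + 1)) : ℕ) = 2 := by
        rw [Fin.val_add, h1n]; exact Nat.mod_eq_of_lt (by omega)
      simp only [hDdef]
      rw [if_neg (by omega), if_neg (by omega)]
      exact ⟨fun e => hk2 (by field_simp at e; rw [e]; ring), one_ne_zero⟩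
  let e01 := E 0 / E 1
  let hE : Matrix.SpecialLinearGroup (Fin (n + 1)) K := w * h * w⁻¹
  have hEcoe : (hE : Matrix (Fin (n + 1)) (Fin (n + 1)) K) = diagonal E := by
    have : hE * w = w * h := by simp [hE, mul_assoc]
    have e2 : (hE : Matrix (Fin (n + 1)) (Fin (n + 1)) K) * (w : Matrix (Fin (n + 1)) (Fin (n + 1)) K) =
        diagonal E * (w : Matrix (Fin (n + 1)) (Fin (n + 1)) K) := by
      rw [← Matrix.SpecialLinearGroup.coe_mul, this, Matrix.SpecialLinearGroup.coe_mul, hcoe, hWD]
    have e3 := congrArg (· * ((w⁻¹ : Matrix.SpecialLinearGroup (Fin (n + 1)) K) : Matrix (Fin (n + 1)) (Fin (n + 1)) K)) e2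
    simp only [mul_assoc, ← Matrix.SpecialLinearGroup.coe_mul, mul_inv_cancel, Matrix.SpecialLinearGroup.coe_one, mul_one] at e3
    exact e3
  have hgS : x * hE * x⁻¹ ∈ S := by
    have : x * hE * x⁻¹ = (x * w) * h * (x * w)⁻¹ := by simp [hE, mul_assoc]
    rw [this]; exact S.mul_mem (S.mul_mem hyS hhS) (S.inv_mem hyS)
  have hconjE : ∀ t, hE * tv hne t = tv hne (e01 * t) * hE := fun t => by
    apply Subtype.ext
    simp only [Matrix.SpecialLinearGroup.coe_mul, tv_coe, hEcoe]
    exact diagonal_conj_tv E t _ _ rfl rfl hE1.2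
  have hconjh : ∀ t, h * tv hne t = tv hne ((k : K) ^ 2 * t) * h := fun t => by
    apply Subtype.ext
    simp only [Matrix.SpecialLinearGroup.coe_mul, tv_coe, hcoe]
    rw [diagonal_conj_tv D t _ _ hD0 hD1 (inv_ne_zero hk0), div_inv_eq_mul, sq]
  have hcomm : Commute h hE := by
    apply Subtype.ext
    simp only [Matrix.SpecialLinearGroup.coe_mul, hcoe, hEcoe, diagonal_mul_diagonal, mul_comm]
  set c := (1 : K) - e01 with hcdef
  have hg : x * hE * x⁻¹ = tv hne c * hE := by
    rw [hxtv, tv_inv, mul_assoc, hconjE, ← mul_assoc, ← tv_add]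
    congr 2
    rw [hcdef]; ring
  have hc : c ≠ 0 := by
    rw [hcdef, sub_ne_zero]
    intro e
    simp only [e01, hE0] at e
    rw [eq_div_iff hE1.2, one_mul] at e
    exact hE1.1 e
  have hc0S : tv hne (((k : K) ^ 2 - 1) * c) ∈ S := by
    have : h * (x * hE * x⁻¹) * h⁻¹ * (x * hE * x⁻¹)⁻¹ = tv hne (((k : K) ^ 2 - 1) * c) := by
      rw [hg, _root_.mul_inv_rev, ← mul_assoc h, hconjh, mul_assoc (tv hne _) h, hcomm.eq]
      simp only [mul_assoc, mul_inv_cancel_left, mul_inv_cancel, mul_one]
      rw [tv_inv, ← tv_add]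
      congr 1; ring
    rw [← this]
    exact S.mul_mem (S.mul_mem (S.mul_mem hhS hgS) (S.inv_mem hhS)) (S.inv_mem hgS)
  let A : AddSubgroup K :=
    { carrier := {t | tv hne t ∈ S}
      zero_mem' := by simp [tv_zero, S.one_mem]
      add_mem' := fun {a b} ha hb => by
        change tv hne (a + b) ∈ S
        rw [tv_add]; exact S.mul_mem ha hb
      neg_mem' := fun {a} ha => by
        change tv hne (-a) ∈ S
        rw [← tv_inv]; exact S.inv_mem ha }
  have hstep : ∀ t, t ∈ A → (k : K) ^ 2 * t ∈ A := by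
    intro t ht
    change tv hne ((k : K) ^ 2 * t) ∈ S
    rw [show tv hne ((k : K) ^ 2 * t) = h * tv hne t * h⁻¹ by rw [hconjh, mul_inv_cancel_right]]
    exact S.mul_mem (S.mul_mem hhS ht) (S.inv_mem hhS)
  set c0 := ((k : K) ^ 2 - 1) * c with hc0
  have hpow : ∀ m : ℕ, c0 * ((k : K) ^ m) ^ 2 ∈ A := by
    intro m
    induction m with
    | zero => rw [pow_zero, one_pow, mul_one]; exact hc0S
    | succ m ih => convert hstep _ ih using 1; ring
  have hall : ∀ t, t ∈ A := by
    refine span_squares A c0 (mul_ne_zero (sub_ne_zero.mpr hk2) hc) fun s => ?_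
    by_cases hs : s = 0
    · simp [hs]
    · obtain ⟨m, hm⟩ := (mem_powers_iff_mem_zpowers (x := k) (y := Units.mk0 s hs)).mpr (hk _)
      have := hpow m
      rwa [show (k : K) ^ m = s by simpa using congrArg Units.val hm] at this
  refine eq_top_of_root_and_cycle hn S w hw ?_ fun _ t => hall t
  have hxS : x ∈ S := hxtv ▸ hall 1
  simpa using S.mul_mem (S.inv_mem hxS) hyS

end Cfsg.Agent.S2402
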