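import Cfsg.Statements.S2403
import Cfsg.Agent.Classical.SLCycleGen

set_option autoImplicit false
open Cfsg

namespace Cfsg.Agent.S2403

/-- Explicit two-element generation of `PSL_{n+1}(K)` over the fields with two or three elements: with `x = 1 + E₁₂` and `w` the monomial matrix with entries `1` in positions `(i, i+1)` and `(−1)^n` in position `(n+1, 1)`, the elements `x` and `w` generate `SL_{n+1}(K)` modulo its centre. -/
theorem result {K : Type*} [Field K] [Fintype K] (hK : Fintype.card K ≤ 3) (n : ℕ) (hn : 1 ≤ n)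
    (x w : Matrix.SpecialLinearGroup (Fin (n + 1)) K)
    (hx : (x : Matrix (Fin (n + 1)) (Fin (n + 1)) K) = Matrix.transvection (0 : Fin (n + 1)) (1 : Fin (n + 1)) 1)
    (hw : (w : Matrix (Fin (n + 1)) (Fin (n + 1)) K) =
      Matrix.of (fun i j => if j.val = i.val + 1 then 1 else if i.val = n ∧ j.val = 0 then (-1) ^ n else 0)) :
    Subgroup.closure ({x, w} : Set (Matrix.SpecialLinearGroup (Fin (n + 1)) K)) ⊔
      Subgroup.center (Matrix.SpecialLinearGroup (Fin (n + 1)) K) = ⊤ := by
  classical
  set S := Subgroup.closure ({x, w} : Set (Matrix.SpecialLinearGroup (Fin (n + 1)) K)) ⊔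
      Subgroup.center (Matrix.SpecialLinearGroup (Fin (n + 1)) K) with hS
  have hxS : x ∈ S := Subgroup.mem_sup_left (Subgroup.subset_closure (by simp))
  have hwS : w ∈ S := Subgroup.mem_sup_left (Subgroup.subset_closure (by simp))
  refine CfsgLib.SLCycleGen.eq_top_of_root_and_cycle hn S w hw hwS fun hne t => ?_
  let A : AddSubgroup K :=
    { carrier := {t | CfsgLib.SLTransvGen.tv hne t ∈ S}
      zero_mem' := by simp [CfsgLib.SLTransvGen.tv_zero, S.one_mem]
      add_mem' := fun {a b} ha hb => by
        change CfsgLib.SLTransvGen.tv hne (a + b) ∈ S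
        rw [CfsgLib.SLTransvGen.tv_add]; exact S.mul_mem ha hb
      neg_mem' := fun {a} ha => by
        change CfsgLib.SLTransvGen.tv hne (-a) ∈ S
        rw [← CfsgLib.SLTransvGen.tv_inv]; exact S.inv_mem ha }
  have h1 : (1 : K) ∈ A := by
    change CfsgLib.SLTransvGen.tv hne 1 ∈ S
    rwa [show CfsgLib.SLTransvGen.tv hne (1 : K) = x from Subtype.ext hx.symm]
  have hp : (Nat.card K).Prime := by
    rw [Nat.card_eq_fintype_card]
    have := Fintype.one_lt_card (α := K)
    rcases (show Fintype.card K = 2 ∨ Fintype.card K = 3 by omega) with h | h <;> rw [h] <;> norm_num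
  have : Fact (Nat.card K).Prime := ⟨hp⟩
  rcases AddSubgroup.eq_bot_or_eq_top_of_prime_card A with h | h
  · rw [h, AddSubgroup.mem_bot] at h1; exact absurd h1 one_ne_zero
  · exact (h ▸ AddSubgroup.mem_top t : t ∈ A)

end Cfsg.Agent.S2403
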