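import Cfsg.Statements.S2404
import Cfsg.Agent.SteinbergChar.TorusChev
import Cfsg.Agent.Chevalley.Weights.E6

set_option autoImplicit false
open Cfsg CfsgLib.SteinbergChar

namespace Cfsg.Agent.S2404

/-- Steinberg's count of semisimple classes for type E₆ when the finite simply connected group has trivial centre: over a field with `q` elements of characteristic `p` with `q ≢ 1 (mod 3)`, the simply connected group E₆(q) coincides with the Chevalley group, and the conjugacy classes of elements of order prime to `p` in the Chevalley group of type E₆ number exactly `q^6`. -/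
theorem result {F : Type*} [Field F] [Fintype F] {q : ℕ} (hq : Fintype.card F = q) (hq3 : q % 3 ≠ 1) (p : ℕ) [Fact p.Prime] [CharP F p] :
    Nat.card {c : ConjClasses ↥(Cfsg.Lie.chevE6.group F) // ∃ g : ↥(Cfsg.Lie.chevE6.group F), ConjClasses.mk g = c ∧ (orderOf g).Coprime p} = q ^ 6 := by
  subst hq
  have hco : (Fintype.card F - 1).gcd 3 = 1 := by
    have := Fintype.one_lt_card (α := F)
    rw [← Nat.coprime_iff_gcd_eq_one, Nat.coprime_comm, Nat.prime_three.coprime_iff_not_dvd]
    omega
  rw [natCard_coprime_classes]
  exact natCard_regular_classes_chev CfsgLib.Chevalley.sysE6 F p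
    (by have h := CfsgLib.Chevalley.natCardDiagonalE6 F; rwa [hco, one_mul] at h)

end Cfsg.Agent.S2404
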