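import Cfsg.Statements.S2416
import Cfsg.Agent.Chevalley.All
import Cfsg.Agent.Chevalley.Generation
import Cfsg.Agent.Eq.Def_ChevAutomorphisms

set_option autoImplicit false
open scoped MatrixGroups
open Cfsg

namespace Cfsg.Agent.S2416

/-- A Chevalley group of type G₂, B₂, D₄, F₄, E₆, E₇ or E₈ over a finite field lies in (indeed equals) the subgroup generated by its monomial subgroup `N` and a single fundamental root subgroup `X_p`, where `p` is a short fundamental root if there are two root lengths (any fundamental root otherwise), provided the characteristic is not 2 for types B₂, F₄ and not 3 for type G₂ (and the field has more than two elements for B₂, G₂). -/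
theorem result {K : Type*} [Field K] [Finite K] (D : Cfsg.Lie.ChevalleyDatum) (hD : D ∈ [Cfsg.Lie.chevG2, Cfsg.Lie.chevB2, Cfsg.Lie.chevD4, Cfsg.Lie.chevF4, Cfsg.Lie.chevE6, Cfsg.Lie.chevE7, Cfsg.Lie.chevE8])
    (hK : D ∈ [Cfsg.Lie.chevB2, Cfsg.Lie.chevG2] → ∃ x : K, x ≠ 0 ∧ x ≠ 1)
    (h2 : D ∈ [Cfsg.Lie.chevB2, Cfsg.Lie.chevF4] → ringChar K ≠ 2) (h3 : D = Cfsg.Lie.chevG2 → ringChar K ≠ 3)
    (i : ℕ) (hi : i < D.rank) (hshort : D.isLong (D.simple i) = false) :
    D.group K ≤ D.monomialSubgroup K ⊔ D.rootSubgroup K (D.simple i) := by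
  classical
  simp only [List.mem_cons, List.not_mem_nil, or_false] at hD
  have hN : D.monomialSubgroup K ≤ D.monomialSubgroup K ⊔ D.rootSubgroup K (D.simple i) := le_sup_left
  have hp : D.rootSubgroup K (D.simple i) ≤ D.monomialSubgroup K ⊔ D.rootSubgroup K (D.simple i) :=
    le_sup_right
  rcases hD with rfl | rfl | rfl | rfl | rfl | rfl | rfl
  · have key : ∀ j < Cfsg.Lie.chevG2.rank, Cfsg.Lie.chevG2.isLong (Cfsg.Lie.chevG2.simple j) = false →
        CfsgLib.Chevalley.climb Cfsg.Lie.chevG2 Cfsg.Lie.chevG2.nroots (Cfsg.Lie.chevG2.simple j) =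
          CfsgLib.Chevalley.climb Cfsg.Lie.chevG2 Cfsg.Lie.chevG2.nroots 9 := by decide +kernel
    have hs : CfsgLib.Chevalley.sysG2.RootIn K _ 9 := CfsgLib.Chevalley.sysG2.rootIn_of_climb_eq K hN (CfsgLib.Chevalley.sysG2.wf.simple_lt i hi)
      (by decide +kernel) (key i hi hshort) (CfsgLib.Chevalley.sysG2.rootIn_rootSubgroup K hp)
    refine CfsgLib.Chevalley.sysG2.group_le_of_tops K hN fun r hr => ?_
    replace hr : r ∈ CfsgLib.Chevalley.tabG2.tops := hr
    simp only [CfsgLib.Chevalley.tabG2, List.mem_cons, List.not_mem_nil, or_false] at hr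
    rcases hr with rfl | rfl
    · exact hs
    · have hc : ((3 : ℤ) : K) ≠ 0 := by
        intro h0
        have hd : ringChar K ∣ 3 := (ringChar.spec K 3).mp (by exact_mod_cast h0)
        rcases (Nat.prime_three.eq_one_or_self_of_dvd _ hd) with h | h
        · exact CharP.ringChar_ne_one h
        · exact h3 rfl h
      exact CfsgLib.Chevalley.sysG2.rootIn_of_comm K (a := 8) (b := 9) (c := 3) (by decide +kernel) (by decide +kernel)
        (by decide) (by decide +kernel) (by decide +kernel) hc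
        (CfsgLib.Chevalley.sysG2.rootIn_of_climb_eq K hN (p := 9) (by decide +kernel) (by decide +kernel) (by decide +kernel) hs)
        (CfsgLib.Chevalley.sysG2.rootIn_of_climb_eq K hN (p := 9) (by decide +kernel) (by decide +kernel) (by decide +kernel) hs)
  · have key : ∀ j < Cfsg.Lie.chevB2.rank, Cfsg.Lie.chevB2.isLong (Cfsg.Lie.chevB2.simple j) = false →
        CfsgLib.Chevalley.climb Cfsg.Lie.chevB2 Cfsg.Lie.chevB2.nroots (Cfsg.Lie.chevB2.simple j) =
          CfsgLib.Chevalley.climb Cfsg.Lie.chevB2 Cfsg.Lie.chevB2.nroots 6 := by decide +kernel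
    have hs : CfsgLib.Chevalley.sysB2.RootIn K _ 6 := CfsgLib.Chevalley.sysB2.rootIn_of_climb_eq K hN (CfsgLib.Chevalley.sysB2.wf.simple_lt i hi)
      (by decide +kernel) (key i hi hshort) (CfsgLib.Chevalley.sysB2.rootIn_rootSubgroup K hp)
    refine CfsgLib.Chevalley.sysB2.group_le_of_tops K hN fun r hr => ?_
    replace hr : r ∈ CfsgLib.Chevalley.tabB2.tops := hr
    simp only [CfsgLib.Chevalley.tabB2, List.mem_cons, List.not_mem_nil, or_false] at hr
    rcases hr with rfl | rfl
    · exact hs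
    · have hc : ((2 : ℤ) : K) ≠ 0 := by
        intro h0
        have hd : ringChar K ∣ 2 := (ringChar.spec K 2).mp (by exact_mod_cast h0)
        rcases (Nat.prime_two.eq_one_or_self_of_dvd _ hd) with h | h
        · exact CharP.ringChar_ne_one h
        · exact h2 (by simp) h
      exact CfsgLib.Chevalley.sysB2.rootIn_of_comm K (a := 5) (b := 6) (c := 2) (by decide +kernel) (by decide +kernel)
        (by decide) (by decide +kernel) (by decide +kernel) hc
        (CfsgLib.Chevalley.sysB2.rootIn_of_climb_eq K hN (p := 6) (by decide +kernel) (by decide +kernel) (by decide +kernel) hs)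
        (CfsgLib.Chevalley.sysB2.rootIn_of_climb_eq K hN (p := 6) (by decide +kernel) (by decide +kernel) (by decide +kernel) hs)
  · have key : ∀ j < Cfsg.Lie.chevD4.rank, Cfsg.Lie.chevD4.isLong (Cfsg.Lie.chevD4.simple j) = false →
        CfsgLib.Chevalley.climb Cfsg.Lie.chevD4 Cfsg.Lie.chevD4.nroots (Cfsg.Lie.chevD4.simple j) =
          CfsgLib.Chevalley.climb Cfsg.Lie.chevD4 Cfsg.Lie.chevD4.nroots 23 := by decide +kernel
    have hs : CfsgLib.Chevalley.sysD4.RootIn K _ 23 := CfsgLib.Chevalley.sysD4.rootIn_of_climb_eq K hN (CfsgLib.Chevalley.sysD4.wf.simple_lt i hi)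
      (by decide +kernel) (key i hi hshort) (CfsgLib.Chevalley.sysD4.rootIn_rootSubgroup K hp)
    refine CfsgLib.Chevalley.sysD4.group_le_of_tops K hN fun r hr => ?_
    replace hr : r ∈ CfsgLib.Chevalley.tabD4.tops := hr
    simp only [CfsgLib.Chevalley.tabD4, List.mem_cons, List.not_mem_nil, or_false] at hr
    subst hr
    exact hs
  · have key : ∀ j < Cfsg.Lie.chevF4.rank, Cfsg.Lie.chevF4.isLong (Cfsg.Lie.chevF4.simple j) = false →
        CfsgLib.Chevalley.climb Cfsg.Lie.chevF4 Cfsg.Lie.chevF4.nroots (Cfsg.Lie.chevF4.simple j) =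
          CfsgLib.Chevalley.climb Cfsg.Lie.chevF4 Cfsg.Lie.chevF4.nroots 44 := by decide +kernel
    have hs : CfsgLib.Chevalley.sysF4.RootIn K _ 44 := CfsgLib.Chevalley.sysF4.rootIn_of_climb_eq K hN (CfsgLib.Chevalley.sysF4.wf.simple_lt i hi)
      (by decide +kernel) (key i hi hshort) (CfsgLib.Chevalley.sysF4.rootIn_rootSubgroup K hp)
    refine CfsgLib.Chevalley.sysF4.group_le_of_tops K hN fun r hr => ?_
    replace hr : r ∈ CfsgLib.Chevalley.tabF4.tops := hr
    simp only [CfsgLib.Chevalley.tabF4, List.mem_cons, List.not_mem_nil, or_false] at hr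
    rcases hr with rfl | rfl
    · exact hs
    · have hc : ((2 : ℤ) : K) ≠ 0 := by
        intro h0
        have hd : ringChar K ∣ 2 := (ringChar.spec K 2).mp (by exact_mod_cast h0)
        rcases (Nat.prime_two.eq_one_or_self_of_dvd _ hd) with h | h
        · exact CharP.ringChar_ne_one h
        · exact h2 (by simp) h
      exact CfsgLib.Chevalley.sysF4.rootIn_of_comm K (a := 29) (b := 44) (c := 2) (by decide +kernel) (by decide +kernel)
        (by decide) (by decide +kernel) (by decide +kernel) hc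
        (CfsgLib.Chevalley.sysF4.rootIn_of_climb_eq K hN (p := 44) (by decide +kernel) (by decide +kernel) (by decide +kernel) hs)
        (CfsgLib.Chevalley.sysF4.rootIn_of_climb_eq K hN (p := 44) (by decide +kernel) (by decide +kernel) (by decide +kernel) hs)
  · have key : ∀ j < Cfsg.Lie.chevE6.rank, Cfsg.Lie.chevE6.isLong (Cfsg.Lie.chevE6.simple j) = false →
        CfsgLib.Chevalley.climb Cfsg.Lie.chevE6 Cfsg.Lie.chevE6.nroots (Cfsg.Lie.chevE6.simple j) =
          CfsgLib.Chevalley.climb Cfsg.Lie.chevE6 Cfsg.Lie.chevE6.nroots 71 := by decide +kernel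
    have hs : CfsgLib.Chevalley.sysE6.RootIn K _ 71 := CfsgLib.Chevalley.sysE6.rootIn_of_climb_eq K hN (CfsgLib.Chevalley.sysE6.wf.simple_lt i hi)
      (by decide +kernel) (key i hi hshort) (CfsgLib.Chevalley.sysE6.rootIn_rootSubgroup K hp)
    refine CfsgLib.Chevalley.sysE6.group_le_of_tops K hN fun r hr => ?_
    replace hr : r ∈ CfsgLib.Chevalley.tabE6.tops := hr
    simp only [CfsgLib.Chevalley.tabE6, List.mem_cons, List.not_mem_nil, or_false] at hr
    subst hr
    exact hs
  · have key : ∀ j < Cfsg.Lie.chevE7.rank, Cfsg.Lie.chevE7.isLong (Cfsg.Lie.chevE7.simple j) = false →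
        CfsgLib.Chevalley.climb Cfsg.Lie.chevE7 Cfsg.Lie.chevE7.nroots (Cfsg.Lie.chevE7.simple j) =
          CfsgLib.Chevalley.climb Cfsg.Lie.chevE7 Cfsg.Lie.chevE7.nroots 125 := by decide +kernel
    have hs : CfsgLib.Chevalley.sysE7.RootIn K _ 125 := CfsgLib.Chevalley.sysE7.rootIn_of_climb_eq K hN (CfsgLib.Chevalley.sysE7.wf.simple_lt i hi)
      (by decide +kernel) (key i hi hshort) (CfsgLib.Chevalley.sysE7.rootIn_rootSubgroup K hp)
    refine CfsgLib.Chevalley.sysE7.group_le_of_tops K hN fun r hr => ?_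
    replace hr : r ∈ CfsgLib.Chevalley.tabE7.tops := hr
    simp only [CfsgLib.Chevalley.tabE7, List.mem_cons, List.not_mem_nil, or_false] at hr
    subst hr
    exact hs
  · have key : ∀ j < Cfsg.Lie.chevE8.rank, Cfsg.Lie.chevE8.isLong (Cfsg.Lie.chevE8.simple j) = false →
        CfsgLib.Chevalley.climb Cfsg.Lie.chevE8 Cfsg.Lie.chevE8.nroots (Cfsg.Lie.chevE8.simple j) =
          CfsgLib.Chevalley.climb Cfsg.Lie.chevE8 Cfsg.Lie.chevE8.nroots 239 := by decide +kernel
    have hs : CfsgLib.Chevalley.sysE8.RootIn K _ 239 := CfsgLib.Chevalley.sysE8.rootIn_of_climb_eq K hN (CfsgLib.Chevalley.sysE8.wf.simple_lt i hi)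
      (by decide +kernel) (key i hi hshort) (CfsgLib.Chevalley.sysE8.rootIn_rootSubgroup K hp)
    refine CfsgLib.Chevalley.sysE8.group_le_of_tops K hN fun r hr => ?_
    replace hr : r ∈ CfsgLib.Chevalley.tabE8.tops := hr
    simp only [CfsgLib.Chevalley.tabE8, List.mem_cons, List.not_mem_nil, or_false] at hr
    subst hr
    exact hs


end Cfsg.Agent.S2416
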