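import Cfsg.Statements.S2417
import Cfsg.Agent.Chevalley.All
import Cfsg.Agent.Chevalley.Generation
import Cfsg.Agent.Eq.Def_ChevAutomorphisms

set_option autoImplicit false
open scoped MatrixGroups
open Cfsg

namespace Cfsg.Agent.S2417

/-- In the characteristics with an exceptional graph symmetry — type B₂ or F₄ in characteristic 2 (field of more than two elements for B₂) and type G₂ in characteristic 3 — the Chevalley group lies in the subgroup generated by its monomial subgroup `N` and the two fundamental root subgroups `X_a`, `X_b` of a short root `a` and a long root `b` joined in the Dynkin diagram. -/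
theorem result {K : Type*} [Field K] [Finite K] (e : Cfsg.Lie.ChevalleyDatum × ℕ)
    (he : e ∈ [(Cfsg.Lie.chevB2, 2), (Cfsg.Lie.chevF4, 2), (Cfsg.Lie.chevG2, 3)]) [CharP K e.2]
    (hK : e.1 = Cfsg.Lie.chevB2 → ∃ x : K, x ≠ 0 ∧ x ≠ 1)
    (i j : ℕ) (hi : i < e.1.rank) (hj : j < e.1.rank) (hshort : e.1.isLong (e.1.simple i) = false)
    (hlong : e.1.isLong (e.1.simple j) = true) (hbond : e.1.bonds i j ≠ 0) :
    e.1.group K ≤ e.1.monomialSubgroup K ⊔ e.1.rootSubgroup K (e.1.simple i) ⊔ e.1.rootSubgroup K (e.1.simple j) := by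
  classical
  simp only [List.mem_cons, List.not_mem_nil, or_false] at he
  have hN : e.1.monomialSubgroup K ≤ e.1.monomialSubgroup K ⊔ e.1.rootSubgroup K (e.1.simple i) ⊔
      e.1.rootSubgroup K (e.1.simple j) := le_sup_left.trans le_sup_left
  have hp : e.1.rootSubgroup K (e.1.simple i) ≤ e.1.monomialSubgroup K ⊔
      e.1.rootSubgroup K (e.1.simple i) ⊔ e.1.rootSubgroup K (e.1.simple j) :=
    le_sup_right.trans le_sup_left
  have hq : e.1.rootSubgroup K (e.1.simple j) ≤ e.1.monomialSubgroup K ⊔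
      e.1.rootSubgroup K (e.1.simple i) ⊔ e.1.rootSubgroup K (e.1.simple j) := le_sup_right
  rcases he with rfl | rfl | rfl
  · have keyS : ∀ m < Cfsg.Lie.chevB2.rank, Cfsg.Lie.chevB2.isLong (Cfsg.Lie.chevB2.simple m) = false →
        CfsgLib.Chevalley.climb Cfsg.Lie.chevB2 Cfsg.Lie.chevB2.nroots (Cfsg.Lie.chevB2.simple m) =
          CfsgLib.Chevalley.climb Cfsg.Lie.chevB2 Cfsg.Lie.chevB2.nroots 6 := by decide +kernel
    have keyL : ∀ m < Cfsg.Lie.chevB2.rank, Cfsg.Lie.chevB2.isLong (Cfsg.Lie.chevB2.simple m) = true →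
        CfsgLib.Chevalley.climb Cfsg.Lie.chevB2 Cfsg.Lie.chevB2.nroots (Cfsg.Lie.chevB2.simple m) =
          CfsgLib.Chevalley.climb Cfsg.Lie.chevB2 Cfsg.Lie.chevB2.nroots 7 := by decide +kernel
    refine CfsgLib.Chevalley.sysB2.group_le_of_tops K hN fun r hr => ?_
    replace hr : r ∈ CfsgLib.Chevalley.tabB2.tops := hr
    simp only [CfsgLib.Chevalley.tabB2, List.mem_cons, List.not_mem_nil, or_false] at hr
    rcases hr with rfl | rfl
    · exact CfsgLib.Chevalley.sysB2.rootIn_of_climb_eq K hN (CfsgLib.Chevalley.sysB2.wf.simple_lt i hi) (by decide +kernel) (keyS i hi hshort)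
        (CfsgLib.Chevalley.sysB2.rootIn_rootSubgroup K hp)
    · exact CfsgLib.Chevalley.sysB2.rootIn_of_climb_eq K hN (CfsgLib.Chevalley.sysB2.wf.simple_lt j hj) (by decide +kernel) (keyL j hj hlong)
        (CfsgLib.Chevalley.sysB2.rootIn_rootSubgroup K hq)
  · have keyS : ∀ m < Cfsg.Lie.chevF4.rank, Cfsg.Lie.chevF4.isLong (Cfsg.Lie.chevF4.simple m) = false →
        CfsgLib.Chevalley.climb Cfsg.Lie.chevF4 Cfsg.Lie.chevF4.nroots (Cfsg.Lie.chevF4.simple m) =
          CfsgLib.Chevalley.climb Cfsg.Lie.chevF4 Cfsg.Lie.chevF4.nroots 44 := by decide +kernel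
    have keyL : ∀ m < Cfsg.Lie.chevF4.rank, Cfsg.Lie.chevF4.isLong (Cfsg.Lie.chevF4.simple m) = true →
        CfsgLib.Chevalley.climb Cfsg.Lie.chevF4 Cfsg.Lie.chevF4.nroots (Cfsg.Lie.chevF4.simple m) =
          CfsgLib.Chevalley.climb Cfsg.Lie.chevF4 Cfsg.Lie.chevF4.nroots 47 := by decide +kernel
    refine CfsgLib.Chevalley.sysF4.group_le_of_tops K hN fun r hr => ?_
    replace hr : r ∈ CfsgLib.Chevalley.tabF4.tops := hr
    simp only [CfsgLib.Chevalley.tabF4, List.mem_cons, List.not_mem_nil, or_false] at hr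
    rcases hr with rfl | rfl
    · exact CfsgLib.Chevalley.sysF4.rootIn_of_climb_eq K hN (CfsgLib.Chevalley.sysF4.wf.simple_lt i hi) (by decide +kernel) (keyS i hi hshort)
        (CfsgLib.Chevalley.sysF4.rootIn_rootSubgroup K hp)
    · exact CfsgLib.Chevalley.sysF4.rootIn_of_climb_eq K hN (CfsgLib.Chevalley.sysF4.wf.simple_lt j hj) (by decide +kernel) (keyL j hj hlong)
        (CfsgLib.Chevalley.sysF4.rootIn_rootSubgroup K hq)
  · have keyS : ∀ m < Cfsg.Lie.chevG2.rank, Cfsg.Lie.chevG2.isLong (Cfsg.Lie.chevG2.simple m) = false →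
        CfsgLib.Chevalley.climb Cfsg.Lie.chevG2 Cfsg.Lie.chevG2.nroots (Cfsg.Lie.chevG2.simple m) =
          CfsgLib.Chevalley.climb Cfsg.Lie.chevG2 Cfsg.Lie.chevG2.nroots 9 := by decide +kernel
    have keyL : ∀ m < Cfsg.Lie.chevG2.rank, Cfsg.Lie.chevG2.isLong (Cfsg.Lie.chevG2.simple m) = true →
        CfsgLib.Chevalley.climb Cfsg.Lie.chevG2 Cfsg.Lie.chevG2.nroots (Cfsg.Lie.chevG2.simple m) =
          CfsgLib.Chevalley.climb Cfsg.Lie.chevG2 Cfsg.Lie.chevG2.nroots 11 := by decide +kernel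
    refine CfsgLib.Chevalley.sysG2.group_le_of_tops K hN fun r hr => ?_
    replace hr : r ∈ CfsgLib.Chevalley.tabG2.tops := hr
    simp only [CfsgLib.Chevalley.tabG2, List.mem_cons, List.not_mem_nil, or_false] at hr
    rcases hr with rfl | rfl
    · exact CfsgLib.Chevalley.sysG2.rootIn_of_climb_eq K hN (CfsgLib.Chevalley.sysG2.wf.simple_lt i hi) (by decide +kernel) (keyS i hi hshort)
        (CfsgLib.Chevalley.sysG2.rootIn_rootSubgroup K hp)
    · exact CfsgLib.Chevalley.sysG2.rootIn_of_climb_eq K hN (CfsgLib.Chevalley.sysG2.wf.simple_lt j hj) (by decide +kernel) (keyL j hj hlong)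
        (CfsgLib.Chevalley.sysG2.rootIn_rootSubgroup K hq)


end Cfsg.Agent.S2417
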