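import Cfsg.Statements.S2419
import Cfsg.Agent.Eq.Def_ChevStructure

set_option autoImplicit false
open Cfsg

namespace Cfsg.Agent.S2419

section

variable {G : Type*} [Group G] {H : Subgroup G}

/-- The Coxeter element conjugates a simple reflection to the next one in a chain. -/
lemma shift {c p a b q : G} (hc : c ∈ H) (ha : a ∈ H) (e : c = p * (a * (b * q)))
    (hab : a * b * a = b * a * b) (hp : Commute p b) (hq : Commute q a) : b ∈ H := by
  suffices h : c * a * c⁻¹ = b from h ▸ H.mul_mem (H.mul_mem hc ha) (H.inv_mem hc)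
  have h1 : c * a = b * c := by
    rw [e]
    calc p * (a * (b * q)) * a = p * (a * (b * (q * a))) := by group
      _ = p * (a * b * a) * q := by rw [hq.eq]; group
      _ = p * (b * a * b) * q := by rw [hab]
      _ = p * b * (a * (b * q)) := by group
      _ = b * p * (a * (b * q)) := by rw [hp.eq]
      _ = _ := by group
  rw [h1]; group

/-- The bottom of the diagram of type `E`. -/
lemma ebase {a0 a1 a2 a3 : G} (hw : a0 * a1 * a2 ∈ H) (h3 : a3 ∈ H)
    (q0 : a0 * a0 = 1) (q1 : a1 * a1 = 1) (q2 : a2 * a2 = 1) (q3 : a3 * a3 = 1)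
    (c01 : Commute a0 a1) (c12 : Commute a1 a2) (c03 : Commute a0 a3)
    (u3 : (a0 * a2) ^ 3 = 1) (b23 : a2 * a3 * a2 = a3 * a2 * a3) :
    a0 ∈ H ∧ a1 ∈ H ∧ a2 ∈ H := by
  have hcu : Commute a1 (a0 * a2) := (c01.symm).mul_right c12
  have hw1 : a0 * a1 * a2 = a1 * (a0 * a2) := by rw [c01.eq]; group
  have h1 : a1 ∈ H := by
    have := H.pow_mem hw 3
    rwa [hw1, hcu.mul_pow, u3, mul_one, pow_succ, pow_two, q1, one_mul] at this
  have hu : a0 * a2 ∈ H := by
    have := H.mul_mem h1 hw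
    rwa [hw1, ← mul_assoc, q1, one_mul] at this
  have hi0 : a0⁻¹ = a0 := inv_eq_of_mul_eq_one_right q0
  have hi2 : a2⁻¹ = a2 := inv_eq_of_mul_eq_one_right q2
  have hm : a0 * a2 * a0 ∈ H := by
    have h := H.mul_mem (H.mul_mem h3 (H.mul_mem (H.mul_mem hu h3) (H.inv_mem hu))) h3
    have e : a3 * (a0 * a2 * a3 * (a0 * a2)⁻¹) * a3 = a0 * a2 * a0 := by
      rw [mul_inv_rev, hi0, hi2]
      calc a3 * (a0 * a2 * a3 * (a2 * a0)) * a3
          = (a3 * a0) * (a2 * a3 * a2) * (a0 * a3) := by group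
        _ = (a0 * a3) * (a3 * a2 * a3) * (a3 * a0) := by rw [b23, c03.eq]
        _ = a0 * (a3 * a3) * a2 * (a3 * a3) * a0 := by group
        _ = a0 * a2 * a0 := by rw [q3]; group
    rwa [e] at h
  have h0 : a0 ∈ H := by
    have h := H.mul_mem (H.inv_mem hu) hm
    rwa [inv_mul_cancel_left] at h
  have h2 := H.mul_mem h0 hu
  rw [← mul_assoc, q0, one_mul] at h2
  exact ⟨h0, h1, h2⟩

end

variable {B : Type*} {M : CoxeterMatrix B}

lemma sq (i : B) : M.simple i * M.simple i = 1 :=
  M.toCoxeterSystem.simple_mul_simple_self i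

lemma pow_M {i j : B} {m : ℕ} (h : M i j = m) : (M.simple i * M.simple j) ^ m = 1 :=
  h ▸ M.toCoxeterSystem.simple_mul_simple_pow i j

lemma comm {i j : B} (h : M i j = 2) : Commute (M.simple i) (M.simple j) := by
  have h2 := pow_M h
  rw [pow_two] at h2
  have := eq_inv_of_mul_eq_one_left h2
  rwa [mul_inv_rev, inv_eq_of_mul_eq_one_right (sq i), inv_eq_of_mul_eq_one_right (sq j)] at this

lemma braid {i j : B} (h : M i j = 3) :
    M.simple i * M.simple j * M.simple i = M.simple j * M.simple i * M.simple j := by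
  have h3 := pow_M h
  rw [pow_succ, pow_two] at h3
  have : M.simple i * M.simple j * M.simple i * (M.simple j * M.simple i * M.simple j) = 1 := by
    rw [← h3]; group
  rw [eq_inv_of_mul_eq_one_left this]
  simp [inv_eq_of_mul_eq_one_right (sq i), inv_eq_of_mul_eq_one_right (sq j), mul_assoc]

lemma closure_eq_top {H : Subgroup M.Group} (h : ∀ i, M.simple i ∈ H) : H = ⊤ :=
  top_le_iff.mp (M.toCoxeterSystem.subgroup_closure_range_simple ▸
    (Subgroup.closure_le H).mpr (by rintro _ ⟨i, rfl⟩; exact h i))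

lemma simple_ne {G : Type*} [Monoid G] (f : B → G) (hf : M.IsLiftable f) {i j : B}
    (h : f i ≠ f j) : M.simple i ≠ M.simple j := by
  intro e
  apply h
  have e' := congrArg (M.toCoxeterSystem.lift ⟨f, hf⟩) e
  rwa [← CoxeterMatrix.toCoxeterSystem_simple, M.toCoxeterSystem.lift_apply_simple hf,
    M.toCoxeterSystem.lift_apply_simple hf] at e'

lemma typeE6 : ∀ M : CoxeterMatrix (Fin 6), M = CoxeterMatrix.E₆ → ∀ H : Subgroup M.Group,
    ((List.finRange 6).map M.simple).prod ∈ H → M.simple 3 ∈ H → H = ⊤ := by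
  intro M hM H hc h3
  subst hM
  have hprod : ((List.finRange 6).map (CoxeterMatrix.E₆).simple).prod = ((CoxeterMatrix.E₆).simple 0) * ((CoxeterMatrix.E₆).simple 1) * ((CoxeterMatrix.E₆).simple 2) * ((CoxeterMatrix.E₆).simple 3) * ((CoxeterMatrix.E₆).simple 4) * ((CoxeterMatrix.E₆).simple 5) := by
    simp [List.finRange_succ, mul_assoc]
  have h4 : ((CoxeterMatrix.E₆).simple 4) ∈ H := shift (p := ((CoxeterMatrix.E₆).simple 0) * ((CoxeterMatrix.E₆).simple 1) * ((CoxeterMatrix.E₆).simple 2)) (q := ((CoxeterMatrix.E₆).simple 5)) hc h3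
    (by rw [hprod]; simp only [mul_assoc, one_mul, mul_one]) (braid (by decide))
    (((comm (i := 0) (j := 4) (by decide)).mul_left (comm (i := 1) (j := 4) (by decide))).mul_left (comm (i := 2) (j := 4) (by decide))) (comm (i := 5) (j := 3) (by decide))
  have h5 : ((CoxeterMatrix.E₆).simple 5) ∈ H := shift (p := ((CoxeterMatrix.E₆).simple 0) * ((CoxeterMatrix.E₆).simple 1) * ((CoxeterMatrix.E₆).simple 2) * ((CoxeterMatrix.E₆).simple 3)) (q := 1) hc h4
    (by rw [hprod]; simp only [mul_assoc, one_mul, mul_one]) (braid (by decide))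
    ((((comm (i := 0) (j := 5) (by decide)).mul_left (comm (i := 1) (j := 5) (by decide))).mul_left (comm (i := 2) (j := 5) (by decide))).mul_left (comm (i := 3) (j := 5) (by decide))) (Commute.one_left _)
  have hw : ((CoxeterMatrix.E₆).simple 0) * ((CoxeterMatrix.E₆).simple 1) * ((CoxeterMatrix.E₆).simple 2) ∈ H := by
    have hq : ((CoxeterMatrix.E₆).simple 3) * ((CoxeterMatrix.E₆).simple 4) * ((CoxeterMatrix.E₆).simple 5) ∈ H := H.mul_mem (H.mul_mem h3 h4) h5
    have h := H.mul_mem hc (H.inv_mem hq)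
    rw [hprod] at h
    simpa [mul_assoc] using h
  obtain ⟨h0, h1, h2⟩ := ebase hw h3 (sq _) (sq _) (sq _) (sq _) (comm (by decide)) (comm (by decide))
    (comm (by decide)) (pow_M (by decide)) (braid (by decide))
  exact closure_eq_top fun i => by fin_cases i <;> assumption

lemma typeE7 : ∀ M : CoxeterMatrix (Fin 7), M = CoxeterMatrix.E₇ → ∀ H : Subgroup M.Group,
    ((List.finRange 7).map M.simple).prod ∈ H → M.simple 3 ∈ H → H = ⊤ := by
  intro M hM H hc h3
  subst hM
  have hprod : ((List.finRange 7).map (CoxeterMatrix.E₇).simple).prod = ((CoxeterMatrix.E₇).simple 0) * ((CoxeterMatrix.E₇).simple 1) * ((CoxeterMatrix.E₇).simple 2) * ((CoxeterMatrix.E₇).simple 3) * ((CoxeterMatrix.E₇).simple 4) * ((CoxeterMatrix.E₇).simple 5) * ((CoxeterMatrix.E₇).simple 6) := by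
    simp [List.finRange_succ, mul_assoc]
  have h4 : ((CoxeterMatrix.E₇).simple 4) ∈ H := shift (p := ((CoxeterMatrix.E₇).simple 0) * ((CoxeterMatrix.E₇).simple 1) * ((CoxeterMatrix.E₇).simple 2)) (q := ((CoxeterMatrix.E₇).simple 5) * ((CoxeterMatrix.E₇).simple 6)) hc h3
    (by rw [hprod]; simp only [mul_assoc, one_mul, mul_one]) (braid (by decide))
    (((comm (i := 0) (j := 4) (by decide)).mul_left (comm (i := 1) (j := 4) (by decide))).mul_left (comm (i := 2) (j := 4) (by decide))) ((comm (i := 5) (j := 3) (by decide)).mul_left (comm (i := 6) (j := 3) (by decide)))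
  have h5 : ((CoxeterMatrix.E₇).simple 5) ∈ H := shift (p := ((CoxeterMatrix.E₇).simple 0) * ((CoxeterMatrix.E₇).simple 1) * ((CoxeterMatrix.E₇).simple 2) * ((CoxeterMatrix.E₇).simple 3)) (q := ((CoxeterMatrix.E₇).simple 6)) hc h4
    (by rw [hprod]; simp only [mul_assoc, one_mul, mul_one]) (braid (by decide))
    ((((comm (i := 0) (j := 5) (by decide)).mul_left (comm (i := 1) (j := 5) (by decide))).mul_left (comm (i := 2) (j := 5) (by decide))).mul_left (comm (i := 3) (j := 5) (by decide))) (comm (i := 6) (j := 4) (by decide))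
  have h6 : ((CoxeterMatrix.E₇).simple 6) ∈ H := shift (p := ((CoxeterMatrix.E₇).simple 0) * ((CoxeterMatrix.E₇).simple 1) * ((CoxeterMatrix.E₇).simple 2) * ((CoxeterMatrix.E₇).simple 3) * ((CoxeterMatrix.E₇).simple 4)) (q := 1) hc h5
    (by rw [hprod]; simp only [mul_assoc, one_mul, mul_one]) (braid (by decide))
    (((((comm (i := 0) (j := 6) (by decide)).mul_left (comm (i := 1) (j := 6) (by decide))).mul_left (comm (i := 2) (j := 6) (by decide))).mul_left (comm (i := 3) (j := 6) (by decide))).mul_left (comm (i := 4) (j := 6) (by decide))) (Commute.one_left _)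
  have hw : ((CoxeterMatrix.E₇).simple 0) * ((CoxeterMatrix.E₇).simple 1) * ((CoxeterMatrix.E₇).simple 2) ∈ H := by
    have hq : ((CoxeterMatrix.E₇).simple 3) * ((CoxeterMatrix.E₇).simple 4) * ((CoxeterMatrix.E₇).simple 5) * ((CoxeterMatrix.E₇).simple 6) ∈ H := H.mul_mem (H.mul_mem (H.mul_mem h3 h4) h5) h6
    have h := H.mul_mem hc (H.inv_mem hq)
    rw [hprod] at h
    simpa [mul_assoc] using h
  obtain ⟨h0, h1, h2⟩ := ebase hw h3 (sq _) (sq _) (sq _) (sq _) (comm (by decide)) (comm (by decide))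
    (comm (by decide)) (pow_M (by decide)) (braid (by decide))
  exact closure_eq_top fun i => by fin_cases i <;> assumption

lemma typeE8 : ∀ M : CoxeterMatrix (Fin 8), M = CoxeterMatrix.E₈ → ∀ H : Subgroup M.Group,
    ((List.finRange 8).map M.simple).prod ∈ H → M.simple 3 ∈ H → H = ⊤ := by
  intro M hM H hc h3
  subst hM
  have hprod : ((List.finRange 8).map (CoxeterMatrix.E₈).simple).prod = ((CoxeterMatrix.E₈).simple 0) * ((CoxeterMatrix.E₈).simple 1) * ((CoxeterMatrix.E₈).simple 2) * ((CoxeterMatrix.E₈).simple 3) * ((CoxeterMatrix.E₈).simple 4) * ((CoxeterMatrix.E₈).simple 5) * ((CoxeterMatrix.E₈).simple 6) * ((CoxeterMatrix.E₈).simple 7) := by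
    simp [List.finRange_succ, mul_assoc]
  have h4 : ((CoxeterMatrix.E₈).simple 4) ∈ H := shift (p := ((CoxeterMatrix.E₈).simple 0) * ((CoxeterMatrix.E₈).simple 1) * ((CoxeterMatrix.E₈).simple 2)) (q := ((CoxeterMatrix.E₈).simple 5) * ((CoxeterMatrix.E₈).simple 6) * ((CoxeterMatrix.E₈).simple 7)) hc h3
    (by rw [hprod]; simp only [mul_assoc, one_mul, mul_one]) (braid (by decide))
    (((comm (i := 0) (j := 4) (by decide)).mul_left (comm (i := 1) (j := 4) (by decide))).mul_left (comm (i := 2) (j := 4) (by decide))) (((comm (i := 5) (j := 3) (by decide)).mul_left (comm (i := 6) (j := 3) (by decide))).mul_left (comm (i := 7) (j := 3) (by decide)))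
  have h5 : ((CoxeterMatrix.E₈).simple 5) ∈ H := shift (p := ((CoxeterMatrix.E₈).simple 0) * ((CoxeterMatrix.E₈).simple 1) * ((CoxeterMatrix.E₈).simple 2) * ((CoxeterMatrix.E₈).simple 3)) (q := ((CoxeterMatrix.E₈).simple 6) * ((CoxeterMatrix.E₈).simple 7)) hc h4
    (by rw [hprod]; simp only [mul_assoc, one_mul, mul_one]) (braid (by decide))
    ((((comm (i := 0) (j := 5) (by decide)).mul_left (comm (i := 1) (j := 5) (by decide))).mul_left (comm (i := 2) (j := 5) (by decide))).mul_left (comm (i := 3) (j := 5) (by decide))) ((comm (i := 6) (j := 4) (by decide)).mul_left (comm (i := 7) (j := 4) (by decide)))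
  have h6 : ((CoxeterMatrix.E₈).simple 6) ∈ H := shift (p := ((CoxeterMatrix.E₈).simple 0) * ((CoxeterMatrix.E₈).simple 1) * ((CoxeterMatrix.E₈).simple 2) * ((CoxeterMatrix.E₈).simple 3) * ((CoxeterMatrix.E₈).simple 4)) (q := ((CoxeterMatrix.E₈).simple 7)) hc h5
    (by rw [hprod]; simp only [mul_assoc, one_mul, mul_one]) (braid (by decide))
    (((((comm (i := 0) (j := 6) (by decide)).mul_left (comm (i := 1) (j := 6) (by decide))).mul_left (comm (i := 2) (j := 6) (by decide))).mul_left (comm (i := 3) (j := 6) (by decide))).mul_left (comm (i := 4) (j := 6) (by decide))) (comm (i := 7) (j := 5) (by decide))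
  have h7 : ((CoxeterMatrix.E₈).simple 7) ∈ H := shift (p := ((CoxeterMatrix.E₈).simple 0) * ((CoxeterMatrix.E₈).simple 1) * ((CoxeterMatrix.E₈).simple 2) * ((CoxeterMatrix.E₈).simple 3) * ((CoxeterMatrix.E₈).simple 4) * ((CoxeterMatrix.E₈).simple 5)) (q := 1) hc h6
    (by rw [hprod]; simp only [mul_assoc, one_mul, mul_one]) (braid (by decide))
    ((((((comm (i := 0) (j := 7) (by decide)).mul_left (comm (i := 1) (j := 7) (by decide))).mul_left (comm (i := 2) (j := 7) (by decide))).mul_left (comm (i := 3) (j := 7) (by decide))).mul_left (comm (i := 4) (j := 7) (by decide))).mul_left (comm (i := 5) (j := 7) (by decide))) (Commute.one_left _)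
  have hw : ((CoxeterMatrix.E₈).simple 0) * ((CoxeterMatrix.E₈).simple 1) * ((CoxeterMatrix.E₈).simple 2) ∈ H := by
    have hq : ((CoxeterMatrix.E₈).simple 3) * ((CoxeterMatrix.E₈).simple 4) * ((CoxeterMatrix.E₈).simple 5) * ((CoxeterMatrix.E₈).simple 6) * ((CoxeterMatrix.E₈).simple 7) ∈ H := H.mul_mem (H.mul_mem (H.mul_mem (H.mul_mem h3 h4) h5) h6) h7
    have h := H.mul_mem hc (H.inv_mem hq)
    rw [hprod] at h
    simpa [mul_assoc] using h
  obtain ⟨h0, h1, h2⟩ := ebase hw h3 (sq _) (sq _) (sq _) (sq _) (comm (by decide)) (comm (by decide))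
    (comm (by decide)) (pow_M (by decide)) (braid (by decide))
  exact closure_eq_top fun i => by fin_cases i <;> assumption

lemma typeF4 : ∀ M : CoxeterMatrix (Fin 4), M = CoxeterMatrix.F₄ → ∀ H : Subgroup M.Group,
    ((List.finRange 4).map M.simple).prod ∈ H → M.simple 0 ∈ H → M.simple 2 ∈ H → H = ⊤ := by
  intro M hM H hc h0 h2
  subst hM
  have hprod : ((List.finRange 4).map (CoxeterMatrix.F₄).simple).prod = ((CoxeterMatrix.F₄).simple 0) * ((CoxeterMatrix.F₄).simple 1) * ((CoxeterMatrix.F₄).simple 2) * ((CoxeterMatrix.F₄).simple 3) := by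
    simp [List.finRange_succ, mul_assoc]
  have h1 : ((CoxeterMatrix.F₄).simple 1) ∈ H := shift (p := 1) (q := ((CoxeterMatrix.F₄).simple 2) * ((CoxeterMatrix.F₄).simple 3)) hc h0
    (by rw [hprod]; simp only [mul_assoc, one_mul, mul_one]) (braid (by decide))
    (Commute.one_left _) ((comm (i := 2) (j := 0) (by decide)).mul_left (comm (i := 3) (j := 0) (by decide)))
  have h3 : ((CoxeterMatrix.F₄).simple 3) ∈ H := shift (p := ((CoxeterMatrix.F₄).simple 0) * ((CoxeterMatrix.F₄).simple 1)) (q := 1) hc h2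
    (by rw [hprod]; simp only [mul_assoc, one_mul, mul_one]) (braid (by decide))
    ((comm (i := 0) (j := 3) (by decide)).mul_left (comm (i := 1) (j := 3) (by decide))) (Commute.one_left _)
  exact closure_eq_top fun i => by fin_cases i <;> assumption

lemma typeD4 : ∀ M : CoxeterMatrix (Fin 4), M = Cfsg.Lie.coxeterD4 → ∀ H : Subgroup M.Group,
    ((List.finRange 4).map M.simple).prod ∈ H → M.simple 0 ∈ H → M.simple 2 ∈ H → H = ⊤ := by
  intro M hM H hc h0 h2
  subst hM
  have hprod : ((List.finRange 4).map (Cfsg.Lie.coxeterD4).simple).prod = ((Cfsg.Lie.coxeterD4).simple 0) * ((Cfsg.Lie.coxeterD4).simple 1) * ((Cfsg.Lie.coxeterD4).simple 2) * ((Cfsg.Lie.coxeterD4).simple 3) := by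
    simp [List.finRange_succ, mul_assoc]
  have h1 : ((Cfsg.Lie.coxeterD4).simple 1) ∈ H := shift (p := 1) (q := ((Cfsg.Lie.coxeterD4).simple 2) * ((Cfsg.Lie.coxeterD4).simple 3)) hc h0
    (by rw [hprod]; simp only [mul_assoc, one_mul, mul_one]) (braid (by decide))
    (Commute.one_left _) ((comm (i := 2) (j := 0) (by decide)).mul_left (comm (i := 3) (j := 0) (by decide)))
  have h3 : ((Cfsg.Lie.coxeterD4).simple 3) ∈ H := by
    have h := H.mul_mem (H.inv_mem (H.mul_mem (H.mul_mem h0 h1) h2)) hc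
    rw [hprod] at h
    simpa [mul_assoc] using h
  exact closure_eq_top fun i => by fin_cases i <;> assumption

lemma typeB2 : ∀ M : CoxeterMatrix (Fin 2), M = CoxeterMatrix.B 2 → ∀ H : Subgroup M.Group,
    ((List.finRange 2).map M.simple).prod ∈ H → M.simple 0 ∈ H → H = ⊤ := by
  intro M hM H hc h0
  subst hM
  have hprod : ((List.finRange 2).map (CoxeterMatrix.B 2).simple).prod = ((CoxeterMatrix.B 2).simple 0) * ((CoxeterMatrix.B 2).simple 1) := by
    simp [List.finRange_succ, mul_assoc]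
  have h1 : ((CoxeterMatrix.B 2).simple 1) ∈ H := by
    have h := H.mul_mem (H.inv_mem h0) hc
    rw [hprod] at h
    simpa [mul_assoc] using h
  exact closure_eq_top fun i => by fin_cases i <;> assumption

lemma typeG2 : ∀ M : CoxeterMatrix (Fin 2), M = CoxeterMatrix.G₂ → ∀ H : Subgroup M.Group,
    ((List.finRange 2).map M.simple).prod ∈ H → M.simple 0 ∈ H → H = ⊤ := by
  intro M hM H hc h0
  subst hM
  have hprod : ((List.finRange 2).map (CoxeterMatrix.G₂).simple).prod = ((CoxeterMatrix.G₂).simple 0) * ((CoxeterMatrix.G₂).simple 1) := by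
    simp [List.finRange_succ, mul_assoc]
  have h1 : ((CoxeterMatrix.G₂).simple 1) ∈ H := by
    have h := H.mul_mem (H.inv_mem h0) hc
    rw [hprod] at h
    simpa [mul_assoc] using h
  exact closure_eq_top fun i => by fin_cases i <;> assumption

end Cfsg.Agent.S2419

namespace Cfsg.Agent.S2419

/-- The Coxeter groups of types B₂, G₂, E₆, E₇, E₈ are generated by the Coxeter element `s₁ s₂ ⋯ s_l` together with one suitable reflection (a conjugate of a simple reflection); for types D₄ and F₄ the Coxeter element together with two suitable reflections suffices. -/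
theorem result (c : (Σ n : ℕ, CoxeterMatrix (Fin n)) × ℕ)
    (hc : c ∈ [(⟨2, CoxeterMatrix.B 2⟩, 1), (⟨2, CoxeterMatrix.G₂⟩, 1), (⟨4, Cfsg.Lie.coxeterD4⟩, 2), (⟨4, CoxeterMatrix.F₄⟩, 2),
      (⟨6, CoxeterMatrix.E₆⟩, 1), (⟨7, CoxeterMatrix.E₇⟩, 1), (⟨8, CoxeterMatrix.E₈⟩, 1)]) :
    ∃ T : Finset c.1.2.Group, T.card = c.2 ∧ (∀ t ∈ T, ∃ (g : c.1.2.Group) (i : Fin c.1.1), t = g * c.1.2.simple i * g⁻¹) ∧
      Subgroup.closure (({((List.finRange c.1.1).map c.1.2.simple).prod} : Set c.1.2.Group) ∪ ↑T) = ⊤ := by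
  classical
  simp only [List.mem_cons, List.not_mem_nil, or_false] at hc
  rcases hc with rfl | rfl | rfl | rfl | rfl | rfl | rfl
  · exact ⟨{(CoxeterMatrix.B 2).simple 0}, Finset.card_singleton _,
      fun t ht => ⟨1, 0, by simp [Finset.mem_singleton.mp ht]⟩,
      typeB2 _ rfl _ (Subgroup.subset_closure (Or.inl rfl)) (Subgroup.subset_closure (Or.inr (by simp)))⟩
  · exact ⟨{CoxeterMatrix.G₂.simple 0}, Finset.card_singleton _,
      fun t ht => ⟨1, 0, by simp [Finset.mem_singleton.mp ht]⟩,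
      typeG2 _ rfl _ (Subgroup.subset_closure (Or.inl rfl)) (Subgroup.subset_closure (Or.inr (by simp)))⟩
  · have hne : Cfsg.Lie.coxeterD4.simple 0 ≠ Cfsg.Lie.coxeterD4.simple 2 :=
      simple_ne ![Equiv.swap (0 : Fin 4) 1, Equiv.swap 1 2, Equiv.swap 2 3, Equiv.swap 0 1]
        (by intro i j; revert i j; decide +kernel) (by decide +kernel)
    refine ⟨{Cfsg.Lie.coxeterD4.simple 0, Cfsg.Lie.coxeterD4.simple 2}, Finset.card_pair hne,
      fun t ht => ?_,
      typeD4 _ rfl _ (Subgroup.subset_closure (Or.inl rfl)) (Subgroup.subset_closure (Or.inr (by simp)))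
        (Subgroup.subset_closure (Or.inr (by simp)))⟩
    rcases Finset.mem_insert.mp ht with rfl | ht
    · exact ⟨1, 0, by simp⟩
    · exact ⟨1, 2, by simp [Finset.mem_singleton.mp ht]⟩
  · have hne : CoxeterMatrix.F₄.simple 0 ≠ CoxeterMatrix.F₄.simple 2 :=
      simple_ne ![(-1 : ℤ), -1, 1, 1] (by intro i j; revert i j; decide +kernel) (by decide)
    refine ⟨{CoxeterMatrix.F₄.simple 0, CoxeterMatrix.F₄.simple 2}, Finset.card_pair hne,
      fun t ht => ?_,
      typeF4 _ rfl _ (Subgroup.subset_closure (Or.inl rfl)) (Subgroup.subset_closure (Or.inr (by simp)))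
        (Subgroup.subset_closure (Or.inr (by simp)))⟩
    rcases Finset.mem_insert.mp ht with rfl | ht
    · exact ⟨1, 0, by simp⟩
    · exact ⟨1, 2, by simp [Finset.mem_singleton.mp ht]⟩
  · exact ⟨{CoxeterMatrix.E₆.simple 3}, Finset.card_singleton _,
      fun t ht => ⟨1, 3, by simp [Finset.mem_singleton.mp ht]⟩,
      typeE6 _ rfl _ (Subgroup.subset_closure (Or.inl rfl)) (Subgroup.subset_closure (Or.inr (by simp)))⟩
  · exact ⟨{CoxeterMatrix.E₇.simple 3}, Finset.card_singleton _,
      fun t ht => ⟨1, 3, by simp [Finset.mem_singleton.mp ht]⟩,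
      typeE7 _ rfl _ (Subgroup.subset_closure (Or.inl rfl)) (Subgroup.subset_closure (Or.inr (by simp)))⟩
  · exact ⟨{CoxeterMatrix.E₈.simple 3}, Finset.card_singleton _,
      fun t ht => ⟨1, 3, by simp [Finset.mem_singleton.mp ht]⟩,
      typeE8 _ rfl _ (Subgroup.subset_closure (Or.inl rfl)) (Subgroup.subset_closure (Or.inr (by simp)))⟩

end Cfsg.Agent.S2419
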