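import Cfsg.Statements.S2425
import Cfsg.Agent.SteinbergValues.Flags
import Cfsg.Agent.SteinbergValues.Moebius
import Cfsg.Agent.Classical.Semisimple.ClassCount

set_option autoImplicit false
open scoped MatrixGroups
open Cfsg

namespace Cfsg.Agent.S2425

/-- The signed weight of a monic polynomial as a product over its irreducible factors. -/
theorem value_eq {F : Type*} [Field F] [inst : DecidableEq F] (q : ℕ) {P : Polynomial F} (hP : P.Monic) :
    (((-1) ^ P.natDegree * CfsgLib.SteinbergValues.weight q P : ℤ) : ℂ) =
      ∏ g ∈ (UniqueFactorizationMonoid.normalizedFactors P).toFinset,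
        (-1 : ℂ) ^ ((g.natDegree - 1) * (UniqueFactorizationMonoid.normalizedFactors P).count g) *
          (q : ℂ) ^ (g.natDegree * (UniqueFactorizationMonoid.normalizedFactors P).count g *
            ((UniqueFactorizationMonoid.normalizedFactors P).count g - 1) / 2) := by
  obtain rfl : inst = Classical.decEq F := Subsingleton.elim _ _
  classical
  rw [CfsgLib.SteinbergValues.weight]
  set s := UniqueFactorizationMonoid.normalizedFactors P with hsdef
  have hn : P.natDegree = ∑ g ∈ s.toFinset, s.count g * g.natDegree := by
    have h2 : s.prod.natDegree = P.natDegree :=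
      Polynomial.natDegree_eq_of_degree_eq
        (Polynomial.degree_eq_degree_of_associated (UniqueFactorizationMonoid.prod_normalizedFactors hP.ne_zero))
    rw [Polynomial.natDegree_multiset_prod s (UniqueFactorizationMonoid.zero_notMem_normalizedFactors P),
      Finset.sum_multiset_map_count] at h2
    rw [← h2]
    simp
  have hcard : s.card = ∑ g ∈ s.toFinset, s.count g := (Multiset.toFinset_sum_count_eq s).symm
  rw [hn, hcard]
  push_cast
  rw [← mul_assoc, ← pow_add, ← Finset.sum_add_distrib, ← Finset.prod_pow_eq_pow_sum,
    ← Finset.prod_pow_eq_pow_sum, ← Finset.prod_mul_distrib]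
  refine Finset.prod_congr rfl fun g hg => ?_
  have hd : 1 ≤ g.natDegree := (UniqueFactorizationMonoid.irreducible_of_normalized_factor g
    (Multiset.mem_toFinset.1 hg)).natDegree_pos
  congr 1
  · rw [show s.count g * g.natDegree + s.count g = (g.natDegree - 1) * s.count g + 2 * s.count g by
      have : (g.natDegree - 1) * s.count g + s.count g = s.count g * g.natDegree := by
        rw [← Nat.succ_mul, Nat.succ_eq_add_one, Nat.sub_add_cancel hd, mul_comm]
      omega, pow_add, pow_mul (-1 : ℂ) 2]
    norm_num
  · rw [Nat.choose_two_right, ← Nat.mul_div_assoc _ (Nat.even_mul_pred_self _).two_dvd, ← mul_assoc]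

/-- Values of the Steinberg character of `GL_n(q)` (the partition-indexed character for `ν = (1,…,1)`, of degree `q^(n(n−1)/2)`) at elements of order prime to the characteristic: if the characteristic polynomial of such an element is `∏ f^(m_f)` over distinct monic irreducible `f`, the value is `∏_f (−1)^((deg f − 1) m_f) q^(deg f · m_f (m_f − 1)/2)`. (At elements of order divisible by the characteristic the value is 0; that is not part of this statement.) -/
theorem result {F : Type*} [Field F] [Fintype F] [DecidableEq F] {q : ℕ} (hq : Fintype.card F = q) (p : ℕ) [Fact p.Prime] [CharP F p]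
    {n : ℕ} (x : GL (Fin n) F) (hx : (orderOf x).Coprime p) :
    Cfsg.unipotentCharacterGL n F (fun _ => 1) x =
      ∏ f ∈ (UniqueFactorizationMonoid.normalizedFactors (x : Matrix (Fin n) (Fin n) F).charpoly).toFinset,
        (-1 : ℂ) ^ ((f.natDegree - 1) * (UniqueFactorizationMonoid.normalizedFactors (x : Matrix (Fin n) (Fin n) F).charpoly).count f) *
          (q : ℂ) ^ (f.natDegree * (UniqueFactorizationMonoid.normalizedFactors (x : Matrix (Fin n) (Fin n) F).charpoly).count f *
            ((UniqueFactorizationMonoid.normalizedFactors (x : Matrix (Fin n) (Fin n) F).charpoly).count f - 1) / 2) := by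
  classical
  subst hq
  set f := CfsgLib.SteinbergValues.glMap x with hf
  have hs : f.IsSemisimple := CfsgLib.Classical.Semisimple.gl_isSemisimple p hx
  haveI := Fintype.ofFinite (CfsgLib.SteinbergValues.Inv f)
  have hterm : ∀ κ : Equiv.Perm (Fin n), (∀ i : Fin n, (κ i).val ≤ 1 + i.val) →
      Cfsg.fixedPointCharacter (Cfsg.parabolicGL n F fun i => 1 + i.val - (κ i).val) x =
        (CfsgLib.SteinbergValues.numAbove f (CfsgLib.SteinbergValues.permType 0 κ) ⊥ : ℂ) := by
    intro κ hκ
    have hc : ∑ i : Fin n, (1 + i.val - (κ i).val) = n := by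
      have h1 : ∑ i : Fin n, (1 + i.val - (κ i).val) + ∑ i : Fin n, (κ i).val = ∑ i : Fin n, (1 + i.val) := by
        rw [← Finset.sum_add_distrib]
        exact Finset.sum_congr rfl fun i _ => Nat.sub_add_cancel (hκ i)
      have h2 := Equiv.sum_comp κ (fun i : Fin n => i.val)
      rw [Finset.sum_add_distrib (f := fun _ : Fin n => (1 : ℕ))] at h1
      simp at h1 h2
      omega
    rw [CfsgLib.SteinbergValues.fixedPointCharacter_parabolicGL hc]
    congr 2
    funext i
    have := hκ i
    simp only [CfsgLib.SteinbergValues.permType]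
    split_ifs <;> omega
  have hval : Cfsg.unipotentCharacterGL n F (fun _ => 1) x =
      ((CfsgLib.SteinbergValues.signedSum f n ⊥ 0 : ℤ) : ℂ) := by
    rw [CfsgLib.SteinbergValues.signedSum, Int.cast_sum, Cfsg.unipotentCharacterGL]
    refine Finset.sum_congr rfl fun κ _ => ?_
    by_cases h : ∀ i : Fin n, (κ i).val ≤ 1 + i.val
    · rw [if_pos h, if_pos (fun i => by have := h i; omega), hterm κ h]
      push_cast
      rfl
    · rw [if_neg h, if_neg (fun h' => h fun i => by have := h' i; omega)]
      simp
  have hdim : Module.finrank F (Fin n → F) = n := Module.finrank_fin_fun F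
  have hsum := CfsgLib.SteinbergValues.signedSum_bot f
    (fun U => CfsgLib.SteinbergValues.moebiusVal f (Fintype.card F) U.1)
    (CfsgLib.SteinbergValues.moebiusVal_top _) (CfsgLib.SteinbergValues.sum_moebiusVal hs)
  rw [hdim] at hsum
  rw [hval, hsum, CfsgLib.SteinbergValues.moebiusVal_bot, hf, CfsgLib.SteinbergValues.glMap,
    Matrix.charpoly_toLin']
  have hkey := value_eq (Fintype.card F) (P := (x : Matrix (Fin n) (Fin n) F).charpoly)
    (Matrix.charpoly_monic _)
  rw [Matrix.charpoly_natDegree_eq_dim, Fintype.card_fin] at hkey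
  exact hkey

end Cfsg.Agent.S2425
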