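import Cfsg.Statements.S2426
import Cfsg.Agent.Classical.Linear.SteinbergRankOne
-- import your own Cfsg.Agent.* helpers here

set_option autoImplicit false
open Cfsg

namespace Cfsg.Agent.S2426

/-- The rank-one Steinberg presentation of `SL₂` over a finite field `K`: generators `x(t)`, `y(t)` (`t ∈ K`; the two opposite root subgroups) subject to additivity `x(t)x(u) = x(t+u)`, `y(t)y(u) = y(t+u)` and, with `w(t) = x(t) y(−t⁻¹) x(t)` and `w'(t) = y(t) x(−t⁻¹) y(t)` for `t ≠ 0`, the relations `w(t) x(u) w(t)⁻¹ = y(−t⁻² u)` and `w'(t) y(u) w'(t)⁻¹ = x(−t⁻² u)`, present `SL₂(K)`, with `x(t) ↦ (1 t; 0 1)` and `y(t) ↦ (1 0; t 1)`. -/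
theorem result {K : Type*} [Field K] [Finite K] :
    ∃ e : PresentedGroup
        ({g : FreeGroup (Bool × K) | ∃ (b : Bool) (t u : K), g = FreeGroup.of (b, t) * FreeGroup.of (b, u) * (FreeGroup.of (b, t + u))⁻¹} ∪
          {g | ∃ (b : Bool) (t u : K), t ≠ 0 ∧
            g = (FreeGroup.of (b, t) * FreeGroup.of (!b, -t⁻¹) * FreeGroup.of (b, t)) * FreeGroup.of (b, u) *
                  (FreeGroup.of (b, t) * FreeGroup.of (!b, -t⁻¹) * FreeGroup.of (b, t))⁻¹ * (FreeGroup.of (!b, -(t⁻¹ ^ 2 * u)))⁻¹})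
        ≃* Matrix.SpecialLinearGroup (Fin 2) K,
      (∀ t : K, ((e (PresentedGroup.of (true, t)) : Matrix (Fin 2) (Fin 2) K)) = !![1, t; 0, 1]) ∧
      (∀ t : K, ((e (PresentedGroup.of (false, t)) : Matrix (Fin 2) (Fin 2) K)) = !![1, 0; t, 1]) := by
  classical
  set R : Set (FreeGroup (Bool × K)) :=
    {g : FreeGroup (Bool × K) | ∃ (b : Bool) (t u : K), g = FreeGroup.of (b, t) * FreeGroup.of (b, u) * (FreeGroup.of (b, t + u))⁻¹} ∪
          {g | ∃ (b : Bool) (t u : K), t ≠ 0 ∧
            g = (FreeGroup.of (b, t) * FreeGroup.of (!b, -t⁻¹) * FreeGroup.of (b, t)) * FreeGroup.of (b, u) *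
                  (FreeGroup.of (b, t) * FreeGroup.of (!b, -t⁻¹) * FreeGroup.of (b, t))⁻¹ * (FreeGroup.of (!b, -(t⁻¹ ^ 2 * u)))⁻¹}
    with hR
  let S : CfsgLib.Classical.Linear.RankOneSys K (PresentedGroup R) :=
    { x := fun t => PresentedGroup.of (true, t)
      y := fun t => PresentedGroup.of (false, t)
      addx := fun a b => by
        have h : PresentedGroup.mk R (FreeGroup.of (true, a) * FreeGroup.of (true, b) *
            (FreeGroup.of (true, a + b))⁻¹) = 1 :=
          PresentedGroup.one_of_mem (.inl ⟨true, a, b, rfl⟩)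
        rw [map_mul, map_mul, map_inv, mul_inv_eq_one] at h
        exact h
      addy := fun a b => by
        have h : PresentedGroup.mk R (FreeGroup.of (false, a) * FreeGroup.of (false, b) *
            (FreeGroup.of (false, a + b))⁻¹) = 1 :=
          PresentedGroup.one_of_mem (.inl ⟨false, a, b, rfl⟩)
        rw [map_mul, map_mul, map_inv, mul_inv_eq_one] at h
        exact h
      braid := fun t ht a => by
        have h : PresentedGroup.mk R ((FreeGroup.of (true, t) * FreeGroup.of (false, -t⁻¹) *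
            FreeGroup.of (true, t)) * FreeGroup.of (true, a) *
            (FreeGroup.of (true, t) * FreeGroup.of (false, -t⁻¹) * FreeGroup.of (true, t))⁻¹ *
            (FreeGroup.of (false, -(t⁻¹ ^ 2 * a)))⁻¹) = 1 :=
          PresentedGroup.one_of_mem (.inr ⟨true, t, a, ht, rfl⟩)
        simp only [map_mul, map_inv] at h
        rw [mul_inv_eq_one, mul_inv_eq_iff_eq_mul] at h
        show _ = _
        rw [show -(a / t ^ 2) = -(t⁻¹ ^ 2 * a) by ring]
        exact h
      gen := fun H hx hy => by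
        rw [eq_top_iff, ← PresentedGroup.closure_range_of R, Subgroup.closure_le]
        rintro _ ⟨⟨b, t⟩, rfl⟩
        cases b
        · exact hy t
        · exact hx t }
  let f : Bool × K → Matrix.SpecialLinearGroup (Fin 2) K := fun p =>
    if p.1 then CfsgLib.SL2.u p.2 else CfsgLib.SL2.l p.2
  have hu : ∀ t : K, ((CfsgLib.SL2.u t : Matrix.SpecialLinearGroup (Fin 2) K) :
      Matrix (Fin 2) (Fin 2) K) = !![1, t; 0, 1] := fun t => rfl
  have hl : ∀ t : K, ((CfsgLib.SL2.l t : Matrix.SpecialLinearGroup (Fin 2) K) :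
      Matrix (Fin 2) (Fin 2) K) = !![1, 0; t, 1] := fun t => rfl
  have hrel : ∀ r ∈ R, FreeGroup.lift f r = 1 := by
    rintro r (⟨b, t, u, rfl⟩ | ⟨b, t, u, ht, rfl⟩)
    · simp only [map_mul, map_inv, FreeGroup.lift_apply_of, mul_inv_eq_one]
      cases b <;>
        (refine Subtype.ext ?_
         simp only [f, Bool.false_eq_true, if_false, if_true, Matrix.SpecialLinearGroup.coe_mul, hu, hl]
         ext i j
         fin_cases i <;> fin_cases j <;> simp [Matrix.mul_apply, Fin.sum_univ_two, add_comm])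
    · simp only [map_mul, map_inv, FreeGroup.lift_apply_of]
      rw [mul_inv_eq_one, mul_inv_eq_iff_eq_mul]
      cases b <;>
        (refine Subtype.ext ?_
         simp only [f, Bool.not_true, Bool.not_false, Bool.false_eq_true, if_false, if_true,
           Matrix.SpecialLinearGroup.coe_mul, hu, hl]
         ext i j
         fin_cases i <;> fin_cases j <;> simp [Matrix.mul_apply, Fin.sum_univ_two] <;>
           field_simp <;> ring_nf <;> simp)
  let φ := PresentedGroup.toGroup hrel
  have hx : ∀ a, (φ (S.x a) : Matrix (Fin 2) (Fin 2) K) = !![1, a; 0, 1] := fun a => by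
    show ((PresentedGroup.toGroup hrel (PresentedGroup.of (true, a))) : Matrix (Fin 2) (Fin 2) K) = _
    rw [PresentedGroup.toGroup.of]
    exact hu a
  have hy : ∀ a, (φ (S.y a) : Matrix (Fin 2) (Fin 2) K) = !![1, 0; a, 1] := fun a => by
    show ((PresentedGroup.toGroup hrel (PresentedGroup.of (false, a))) : Matrix (Fin 2) (Fin 2) K) = _
    rw [PresentedGroup.toGroup.of]
    exact hl a
  have hsurj : Function.Surjective φ := by
    rw [← MonoidHom.range_eq_top, eq_top_iff, ← CfsgLib.SL2.U_sup_L, sup_le_iff]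
    constructor
    · rintro _ ⟨t, rfl⟩
      exact ⟨S.x (Multiplicative.toAdd t), Subtype.ext ((hx _).trans (hu _).symm)⟩
    · rintro _ ⟨t, rfl⟩
      exact ⟨S.y (Multiplicative.toAdd t), Subtype.ext ((hy _).trans (hl _).symm)⟩
  exact ⟨MulEquiv.ofBijective φ ⟨S.injective_of_map φ hx hy, hsurj⟩, hx, hy⟩

end Cfsg.Agent.S2426
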