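import Cfsg.Statements.S2427
import Cfsg.Agent.SL2.ThreeQuaternion

set_option autoImplicit false
open Cfsg

namespace Cfsg.Agent.S2427

/-- The group SL₂ over the field with 3 elements has order 24 and centre of order 2; its commutator subgroup has order 8, is isomorphic to the quaternion group of order 8 and is complemented by every Sylow 3-subgroup (so the group is a semidirect product of a quaternion group of order 8 by a cyclic group of order 3); and its only normal subgroups besides the trivial subgroup and the whole group are the centre and the commutator subgroup. -/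
theorem result :
    Nat.card (Matrix.SpecialLinearGroup (Fin 2) (ZMod 3)) = 24 ∧
    Nat.card (Subgroup.center (Matrix.SpecialLinearGroup (Fin 2) (ZMod 3))) = 2 ∧
    Nat.card (commutator (Matrix.SpecialLinearGroup (Fin 2) (ZMod 3))) = 8 ∧
    Nonempty (commutator (Matrix.SpecialLinearGroup (Fin 2) (ZMod 3)) ≃* QuaternionGroup 2) ∧
    (∀ P : Sylow 3 (Matrix.SpecialLinearGroup (Fin 2) (ZMod 3)),
      Subgroup.IsComplement' (commutator (Matrix.SpecialLinearGroup (Fin 2) (ZMod 3)))
        (P : Subgroup (Matrix.SpecialLinearGroup (Fin 2) (ZMod 3)))) ∧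
    ∀ N : Subgroup (Matrix.SpecialLinearGroup (Fin 2) (ZMod 3)), N.Normal →
      N = ⊥ ∨ N = ⊤ ∨ N = Subgroup.center (Matrix.SpecialLinearGroup (Fin 2) (ZMod 3)) ∨
        N = commutator (Matrix.SpecialLinearGroup (Fin 2) (ZMod 3)) := by
  classical
  haveI : Fact (Nat.Prime 3) := ⟨Nat.prime_three⟩
  haveI : Fact (Nat.Prime 2) := ⟨Nat.prime_two⟩
  obtain ⟨Q, hN, hi, ⟨e⟩⟩ := CfsgLib.SL2Three.exists_quaternion_three
  obtain ⟨-, hz⟩ := CfsgLib.SL2Three.sl_two_three (F := ZMod 3) (ZMod.card 3)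
  have hG : Nat.card (Matrix.SpecialLinearGroup (Fin 2) (ZMod 3)) = 24 := by
    rw [CfsgLib.SL2.card_SL, ZMod.card]; rfl
  have hQ : Nat.card Q = 8 := by
    have := Q.card_mul_index
    rw [hG, hi] at this
    omega
  have hpow : ∀ g : Matrix.SpecialLinearGroup (Fin 2) (ZMod 3),
      g ∈ Q ↔ ((g * g) * (g * g)) * ((g * g) * (g * g)) = 1 := by
    have hsub : ∀ g ∈ Q, ((g * g) * (g * g)) * ((g * g) * (g * g)) = 1 := fun g hg => by
      have h : (⟨g, hg⟩ : Q) ^ 8 = 1 := by rw [← hQ]; exact pow_card_eq_one'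
      have h' : g ^ 8 = 1 := congrArg Subtype.val h
      simpa [pow_succ, mul_assoc] using h'
    have heq : (Finset.univ.filter fun g => g ∈ Q) = Finset.univ.filter
        (fun g : Matrix.SpecialLinearGroup (Fin 2) (ZMod 3) =>
          ((g * g) * (g * g)) * ((g * g) * (g * g)) = 1) := by
      refine Finset.eq_of_subset_of_card_le (fun g hg => ?_) (le_of_eq ?_)
      · rw [Finset.mem_filter] at hg ⊢
        exact ⟨hg.1, hsub g hg.2⟩
      · rw [CfsgLib.SL2Three.card_pow_eight, ← hQ, Nat.card_eq_fintype_card, Fintype.card_subtype]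
    intro g
    simpa using Finset.ext_iff.1 heq g
  have hcomm : commutator (Matrix.SpecialLinearGroup (Fin 2) (ZMod 3)) = Q := by
    haveI := hN
    refine le_antisymm ?_ fun g hg => ?_
    · haveI : IsCyclic (Matrix.SpecialLinearGroup (Fin 2) (ZMod 3) ⧸ Q) :=
        isCyclic_of_prime_card (p := 3) (by rw [← Subgroup.index_eq_card, hi])
      rw [← QuotientGroup.ker_mk' Q, commutator_def, Subgroup.commutator_le]
      intro x _ y _
      show (QuotientGroup.mk' Q) (x * y * x⁻¹ * y⁻¹) = 1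
      obtain ⟨a, ha⟩ := IsCyclic.exists_generator (α := Matrix.SpecialLinearGroup (Fin 2) (ZMod 3) ⧸ Q)
      obtain ⟨m, hm⟩ := Subgroup.mem_zpowers_iff.1 (ha (QuotientGroup.mk' Q x))
      obtain ⟨k, hk⟩ := Subgroup.mem_zpowers_iff.1 (ha (QuotientGroup.mk' Q y))
      rw [map_mul, map_mul, map_mul, map_inv, map_inv, ← hm, ← hk]
      group
    · have key : ∀ g : Matrix.SpecialLinearGroup (Fin 2) (ZMod 3),
          ((g * g) * (g * g)) * ((g * g) * (g * g)) = 1 → ∃ a b, a * b * a⁻¹ * b⁻¹ = g := by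
        decide +kernel
      obtain ⟨a, b, rfl⟩ := key g ((hpow g).1 hg)
      exact Subgroup.commutator_mem_commutator (Subgroup.mem_top a) (Subgroup.mem_top b)
  rw [hcomm]
  refine ⟨hG, hz, hQ, ⟨e⟩, fun P => ?_, fun N hNn => ?_⟩
  · have hP : Nat.card P = 3 := by
      have hdvd := Subgroup.card_subgroup_dvd_card (P : Subgroup (Matrix.SpecialLinearGroup (Fin 2) (ZMod 3)))
      obtain ⟨k, hk⟩ := IsPGroup.iff_card.1 P.isPGroup'
      have h3 : 3 ∣ Nat.card P := P.dvd_card_of_dvd_card (by rw [hG]; norm_num)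
      rw [hG, hk] at hdvd
      rw [hk] at h3 ⊢
      have : k < 3 := by
        by_contra hc
        have := (Nat.pow_dvd_pow 3 (not_lt.1 hc)).trans hdvd
        norm_num at this
      interval_cases k <;> first | rfl | (exfalso; omega) | (norm_num at hdvd h3 ⊢)
    exact Subgroup.isComplement'_of_coprime (by rw [hQ, hP, hG]) (by rw [hQ, hP]; norm_num)
  · have hc : ∀ g : Matrix.SpecialLinearGroup (Fin 2) (ZMod 3), g * g = 1 → g = 1 ∨ g = -1 := by
      decide +kernel
    have hone : ∀ g : Matrix.SpecialLinearGroup (Fin 2) (ZMod 3), g * g ≠ 1 →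
        ∃ a, ((a * g * a⁻¹ * g⁻¹) * (a * g * a⁻¹ * g⁻¹) ≠ 1) ∧
          ((((a * g * a⁻¹ * g⁻¹) * (a * g * a⁻¹ * g⁻¹)) * ((a * g * a⁻¹ * g⁻¹) * (a * g * a⁻¹ * g⁻¹))) *
          (((a * g * a⁻¹ * g⁻¹) * (a * g * a⁻¹ * g⁻¹)) * ((a * g * a⁻¹ * g⁻¹) * (a * g * a⁻¹ * g⁻¹))) = 1) := by
      decide +kernel
    have htwo : ∀ g : Matrix.SpecialLinearGroup (Fin 2) (ZMod 3),
        ((g * g) * (g * g)) * ((g * g) * (g * g)) = 1 → g * g ≠ 1 →
        ∀ t : Matrix.SpecialLinearGroup (Fin 2) (ZMod 3),
          ((t * t) * (t * t)) * ((t * t) * (t * t)) = 1 →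
          ∃ a b, a * g * a⁻¹ * (b * g * b⁻¹) = t := by
      decide +kernel
    by_cases hsmall : ∀ g ∈ N, g * g = 1
    · have hle : N ≤ Subgroup.center _ := fun g hg => by
        rcases hc g (hsmall g hg) with rfl | rfl
        · exact one_mem _
        · exact CfsgLib.SL2.neg_one_mem_center
      by_cases hbot : N = ⊥
      · exact Or.inl hbot
      · refine Or.inr (Or.inr (Or.inl (le_antisymm hle ?_)))
        obtain ⟨g, hg, hg1⟩ := N.bot_or_exists_ne_one.resolve_left hbot
        intro z hz'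
        rcases CfsgLib.SL2.mem_center_iff'.1 hz' with rfl | rfl
        · exact one_mem _
        · exact ((hc g (hsmall g hg)).resolve_left hg1) ▸ hg
    · push Not at hsmall
      obtain ⟨g, hg, hg2⟩ := hsmall
      obtain ⟨a, ha2, ha8⟩ := hone g hg2
      have hh : a * g * a⁻¹ * g⁻¹ ∈ N := mul_mem (hNn.conj_mem g hg a) (inv_mem hg)
      have hQN : Q ≤ N := fun t ht => by
        obtain ⟨c, d, rfl⟩ := htwo _ ha8 ha2 t ((hpow t).1 ht)
        exact mul_mem (hNn.conj_mem _ hh c) (hNn.conj_mem _ hh d)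
      have hdvd := Subgroup.index_dvd_of_le hQN
      rw [hi, Nat.dvd_prime Nat.prime_three] at hdvd
      rcases hdvd with h | h
      · exact Or.inr (Or.inl (Subgroup.index_eq_one.1 h))
      · refine Or.inr (Or.inr (Or.inr (le_antisymm ?_ hQN)))
        have h' : Nat.card N = Nat.card Q := by
          have := N.card_mul_index
          rw [hG, h] at this
          omega
        exact (Subgroup.eq_of_le_of_card_ge hQN h'.le).ge

end Cfsg.Agent.S2427
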