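import Cfsg.Statements.S2428
import Cfsg.Agent.SL2.Dicyclic

set_option autoImplicit false
open Cfsg

namespace Cfsg.Agent.S2428

/-- Let F be a finite field with q elements, q odd, and let d be a diagonal element of SL₂ over F whose diagonal entry a has a² ≠ 1 (such d exist exactly when q > 3). Then the centraliser of d is precisely the diagonal subgroup T; the normaliser of T has order 2(q − 1) and exactly (q + 5)/2 conjugacy classes; and every element of that normaliser outside T has square equal to −1. -/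
theorem result {F : Type*} [Field F] [Fintype F] (hodd : Odd (Fintype.card F))
    (d : Matrix.SpecialLinearGroup (Fin 2) F) (hd01 : (d : Matrix (Fin 2) (Fin 2) F) 0 1 = 0) (hd10 : (d : Matrix (Fin 2) (Fin 2) F) 1 0 = 0) (hda : (d : Matrix (Fin 2) (Fin 2) F) 0 0 ^ 2 ≠ 1) :
    (∀ g : Matrix.SpecialLinearGroup (Fin 2) F, g ∈ Subgroup.centralizer ({d} : Set (Matrix.SpecialLinearGroup (Fin 2) F)) ↔ ((g : Matrix (Fin 2) (Fin 2) F) 0 1 = 0 ∧ (g : Matrix (Fin 2) (Fin 2) F) 1 0 = 0)) ∧
    Nat.card (Subgroup.normalizer ((Subgroup.centralizer ({d} : Set (Matrix.SpecialLinearGroup (Fin 2) F))) : Set (Matrix.SpecialLinearGroup (Fin 2) F))) = 2 * (Fintype.card F - 1) ∧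
    Nat.card (ConjClasses (Subgroup.normalizer ((Subgroup.centralizer ({d} : Set (Matrix.SpecialLinearGroup (Fin 2) F))) : Set (Matrix.SpecialLinearGroup (Fin 2) F)))) = (Fintype.card F + 5) / 2 ∧
    ∀ g : Matrix.SpecialLinearGroup (Fin 2) F, g ∈ Subgroup.normalizer ((Subgroup.centralizer ({d} : Set (Matrix.SpecialLinearGroup (Fin 2) F))) : Set (Matrix.SpecialLinearGroup (Fin 2) F)) →
      g ∉ Subgroup.centralizer ({d} : Set (Matrix.SpecialLinearGroup (Fin 2) F)) → ((g * g) : Matrix (Fin 2) (Fin 2) F) = -1 := by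
  obtain ⟨a, rfl⟩ : ∃ a : Fˣ, d = CfsgLib.SL2.d a := by
    obtain ⟨a, ha⟩ := CfsgLib.SL2.mem_T.2 ⟨hd01, hd10⟩
    exact ⟨a, ha.symm⟩
  have h2 : (2 : F) ≠ 0 := CfsgLib.SL2.two_ne_zero_iff_odd.2 hodd
  have haa : a * a ≠ 1 := by
    intro h
    refine hda ?_
    simpa [pow_two] using congrArg Units.val h
  have hT := CfsgLib.SL2.centralizer_d (F := F) haa
  have ht : CfsgLib.SL2.tr (CfsgLib.SL2.d a) ^ 2 ≠ 4 := by
    intro h
    apply haa
    apply Units.ext
    simp at h
    field_simp at h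
    have : ((a : F) * a - 1) ^ 2 = 0 := by linear_combination h
    simpa [sub_eq_zero] using pow_eq_zero_iff (n := 2) two_ne_zero |>.1 this
  have hcard : Nat.card (Subgroup.centralizer ({CfsgLib.SL2.d a} : Set _)) = Fintype.card F - 1 := by
    rw [hT, CfsgLib.SL2.T_nat_card, Nat.card_eq_fintype_card]
  refine ⟨fun g => by rw [hT]; exact CfsgLib.SL2.mem_T, ?_, ?_, ?_⟩
  · rw [CfsgLib.SL2.card_normalizer_torus ht, hcard]
  · have h := CfsgLib.SL2.card_conjClasses_normalizer_torus h2 ht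
    rw [hcard] at h
    obtain ⟨j, hj⟩ := hodd
    omega
  · intro g hg hgn
    have hinv := ((CfsgLib.SL2.mem_normalizer_torus_iff ht).1 hg).resolve_left fun e =>
      hgn (Subgroup.mem_centralizer_singleton_iff.2 (mul_inv_eq_iff_eq_mul.1 e))
    rw [← Matrix.SpecialLinearGroup.coe_mul, CfsgLib.SL2.sq_of_inverting ht h2 hinv]
    simp

end Cfsg.Agent.S2428
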