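import Cfsg.Statements.S2429
import Cfsg.Agent.SL2.Dicyclic

set_option autoImplicit false
open Cfsg

namespace Cfsg.Agent.S2429

/-- Let F be a finite field with q elements, q odd. Then SL₂ over F contains a cyclic subgroup T′ of order q + 1 (a non-split torus) with the following properties: T′ is its own centraliser, and indeed the centraliser of each element of T′ other than 1 and −1 is exactly T′; every element of SL₂ having no eigenvector in F² is conjugate to an element of T′; the normaliser of T′ has order 2(q + 1) and exactly (q + 7)/2 conjugacy classes; and every element of that normaliser outside T′ has square −1. -/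
theorem result {F : Type*} [Field F] [Fintype F] (hodd : Odd (Fintype.card F)) :
    ∃ T' : Subgroup (Matrix.SpecialLinearGroup (Fin 2) F), IsCyclic T' ∧ Nat.card T' = Fintype.card F + 1 ∧
      Subgroup.centralizer ((T' : Set (Matrix.SpecialLinearGroup (Fin 2) F))) = T' ∧
      (∀ g : Matrix.SpecialLinearGroup (Fin 2) F, g ∈ T' → (g : Matrix (Fin 2) (Fin 2) F) ≠ 1 → (g : Matrix (Fin 2) (Fin 2) F) ≠ -1 → Subgroup.centralizer ({g} : Set (Matrix.SpecialLinearGroup (Fin 2) F)) = T') ∧
      (∀ g : Matrix.SpecialLinearGroup (Fin 2) F, (∀ (c : F) (v : Fin 2 → F), v ≠ 0 → (g : Matrix (Fin 2) (Fin 2) F).mulVec v ≠ c • v) → ∃ h : Matrix.SpecialLinearGroup (Fin 2) F, h * g * h⁻¹ ∈ T') ∧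
      Nat.card (Subgroup.normalizer (T' : Set (Matrix.SpecialLinearGroup (Fin 2) F))) = 2 * (Fintype.card F + 1) ∧
      Nat.card (ConjClasses (Subgroup.normalizer (T' : Set (Matrix.SpecialLinearGroup (Fin 2) F)))) = (Fintype.card F + 7) / 2 ∧
      ∀ g : Matrix.SpecialLinearGroup (Fin 2) F, g ∈ Subgroup.normalizer (T' : Set (Matrix.SpecialLinearGroup (Fin 2) F)) → g ∉ T' → ((g * g) : Matrix (Fin 2) (Fin 2) F) = -1 := by
  have h2 : (2 : F) ≠ 0 := CfsgLib.SL2.two_ne_zero_iff_odd.2 hodd
  obtain ⟨g0, hs, hcyc, hcard⟩ := CfsgLib.SL2.exists_card_centralizer_eq_add_one (F := F)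
  have ht := CfsgLib.SL2.sq_ne_four_of_not_isSplitTrace hs
  have hg0 := CfsgLib.SL2.not_mem_center_of_tr_sq_ne ht
  refine ⟨Subgroup.centralizer ({g0} : Set _), hcyc, hcard, ?_, ?_, ?_, ?_, ?_, ?_⟩
  · apply le_antisymm
    · intro k hk
      exact Subgroup.mem_centralizer_singleton_iff.2
        (hk g0 (Subgroup.mem_centralizer_singleton_iff.2 rfl)).symm
    · intro k hk x hx
      exact CfsgLib.SL2.centralizer_commute hg0 hx hk
  · intro g hg h1 h2'
    refine CfsgLib.SL2.centralizer_eq_of_mem hg0 hg fun hc => ?_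
    rcases CfsgLib.SL2.mem_center_iff'.1 hc with rfl | rfl
    · exact h1 rfl
    · exact h2' (by simp)
  · intro g hg
    exact CfsgLib.SL2.exists_conj_mem_nonsplit hs (CfsgLib.SL2.not_isSplitTrace_of_no_eigvec hg)
  · rw [CfsgLib.SL2.card_normalizer_torus ht, hcard]
  · have h := CfsgLib.SL2.card_conjClasses_normalizer_torus h2 ht
    rw [hcard] at h
    obtain ⟨j, hj⟩ := hodd
    omega
  · intro g hg hgn
    have hinv := ((CfsgLib.SL2.mem_normalizer_torus_iff ht).1 hg).resolve_left fun e =>
      hgn (Subgroup.mem_centralizer_singleton_iff.2 (mul_inv_eq_iff_eq_mul.1 e))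
    rw [← Matrix.SpecialLinearGroup.coe_mul, CfsgLib.SL2.sq_of_inverting ht h2 hinv]
    simp

end Cfsg.Agent.S2429
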