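import Cfsg.Statements.S2430
import Cfsg.Agent.SL2.Sylow

set_option autoImplicit false
open Cfsg

namespace Cfsg.Agent.S2430

/-- Let F be a finite field with q elements, q odd, ℓ an odd prime, and P a Sylow ℓ-subgroup of SL₂ over F. If ℓ divides q − 1, the centraliser of P is cyclic of order q − 1 (a split torus) and the normaliser of P has order 2(q − 1); if ℓ divides q + 1, the centraliser of P is cyclic of order q + 1 (a non-split torus) and the normaliser of P has order 2(q + 1). -/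
theorem result {F : Type*} [Field F] [Fintype F] (hodd : Odd (Fintype.card F)) (ℓ : ℕ) [Fact ℓ.Prime] (hℓ : ℓ ≠ 2)
    (P : Sylow ℓ (Matrix.SpecialLinearGroup (Fin 2) F)) :
    (ℓ ∣ Fintype.card F - 1 →
      Nat.card (Subgroup.centralizer ((P : Subgroup (Matrix.SpecialLinearGroup (Fin 2) F)) : Set (Matrix.SpecialLinearGroup (Fin 2) F))) = Fintype.card F - 1 ∧
      IsCyclic (Subgroup.centralizer ((P : Subgroup (Matrix.SpecialLinearGroup (Fin 2) F)) : Set (Matrix.SpecialLinearGroup (Fin 2) F))) ∧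
      Nat.card (Subgroup.normalizer ((P : Subgroup (Matrix.SpecialLinearGroup (Fin 2) F)) : Set (Matrix.SpecialLinearGroup (Fin 2) F))) = 2 * (Fintype.card F - 1)) ∧
    (ℓ ∣ Fintype.card F + 1 →
      Nat.card (Subgroup.centralizer ((P : Subgroup (Matrix.SpecialLinearGroup (Fin 2) F)) : Set (Matrix.SpecialLinearGroup (Fin 2) F))) = Fintype.card F + 1 ∧
      IsCyclic (Subgroup.centralizer ((P : Subgroup (Matrix.SpecialLinearGroup (Fin 2) F)) : Set (Matrix.SpecialLinearGroup (Fin 2) F))) ∧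
      Nat.card (Subgroup.normalizer ((P : Subgroup (Matrix.SpecialLinearGroup (Fin 2) F)) : Set (Matrix.SpecialLinearGroup (Fin 2) F))) = 2 * (Fintype.card F + 1)) := by
  classical
  obtain ⟨p, hp⟩ := CharP.exists F
  haveI : Fact p.Prime := ⟨CharP.char_is_prime F p⟩
  have hl := (Fact.out : ℓ.Prime)
  have hcard := CfsgLib.SL2.card_SL (F := F)
  have hq : 1 < Fintype.card F := Fintype.one_lt_card
  have hfac : Fintype.card F ^ 2 - 1 = (Fintype.card F + 1) * (Fintype.card F - 1) := by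
    rw [pow_two, ← Nat.mul_self_sub_mul_self_eq]
  have key : ∀ M : ℕ, ℓ ∣ M → M ∣ Fintype.card F ^ 2 - 1 →
      ∃ z : Matrix.SpecialLinearGroup (Fin 2) F, orderOf z = ℓ ∧ CfsgLib.SL2.tr z ^ 2 ≠ 4 ∧
      Subgroup.centralizer ((P : Subgroup (Matrix.SpecialLinearGroup (Fin 2) F)) : Set (Matrix.SpecialLinearGroup (Fin 2) F)) =
        Subgroup.centralizer ({z} : Set (Matrix.SpecialLinearGroup (Fin 2) F)) ∧
      Subgroup.normalizer ((P : Subgroup (Matrix.SpecialLinearGroup (Fin 2) F)) : Set (Matrix.SpecialLinearGroup (Fin 2) F)) =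
        Subgroup.normalizer ((Subgroup.centralizer ({z} : Set (Matrix.SpecialLinearGroup (Fin 2) F)) :
          Subgroup (Matrix.SpecialLinearGroup (Fin 2) F)) : Set (Matrix.SpecialLinearGroup (Fin 2) F)) := by
    intro M hlM hM
    have hlp : ℓ ≠ p := by
      rintro rfl
      exact CfsgLib.SL2.p_not_dvd_sq_sub_one (F := F) (p := ℓ) (hlM.trans hM)
    have hP : (P : Subgroup (Matrix.SpecialLinearGroup (Fin 2) F)) ≠ ⊥ := by
      intro hb
      have h1 := P.dvd_card_of_dvd_card ((hlM.trans hM).trans (hcard ▸ dvd_mul_left _ _))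
      rw [show (Nat.card P) = Nat.card (P : Subgroup (Matrix.SpecialLinearGroup (Fin 2) F)) from rfl,
        hb, Subgroup.card_bot] at h1
      exact hl.ne_one (Nat.dvd_one.1 h1)
    obtain ⟨z, hzP, hzo, hzt, hle⟩ := CfsgLib.SL2.sylow_odd hℓ hlp P hP
    have hz0 := CfsgLib.SL2.not_mem_center_of_tr_sq_ne hzt
    have hC : Subgroup.centralizer ((P : Subgroup (Matrix.SpecialLinearGroup (Fin 2) F)) : Set (Matrix.SpecialLinearGroup (Fin 2) F)) =
        Subgroup.centralizer ({z} : Set (Matrix.SpecialLinearGroup (Fin 2) F)) := by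
      apply le_antisymm
      · intro k hk
        exact Subgroup.mem_centralizer_singleton_iff.2 (hk z hzP).symm
      · intro k hk x hx
        exact CfsgLib.SL2.centralizer_commute hz0 (hle hx) hk
    refine ⟨z, hzo, hzt, hC, le_antisymm ?_ ?_⟩
    · intro g hg
      rw [CfsgLib.SL2.mem_normalizer_torus_iff hzt]
      exact CfsgLib.SL2.eq_or_eq_inv_of_tr_eq hzt (hle ((Subgroup.mem_normalizer_iff.1 hg z).1 hzP))
        (CfsgLib.SL2.tr_conj z g)
    · intro g hg
      have hgz := (CfsgLib.SL2.mem_normalizer_torus_iff hzt).1 hg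
      have hsub : ∀ g, (g * z * g⁻¹ = z ∨ g * z * g⁻¹ = z⁻¹) →
          ∀ x ∈ (P : Subgroup (Matrix.SpecialLinearGroup (Fin 2) F)),
            g * x * g⁻¹ ∈ (P : Subgroup (Matrix.SpecialLinearGroup (Fin 2) F)) := by
        intro g hgz x hx
        rcases hgz with e | e
        · have hgC : g ∈ Subgroup.centralizer ({z} : Set (Matrix.SpecialLinearGroup (Fin 2) F)) :=
            Subgroup.mem_centralizer_singleton_iff.2 (mul_inv_eq_iff_eq_mul.1 e)
          rw [CfsgLib.SL2.centralizer_commute hz0 hgC (hle hx), mul_inv_cancel_right]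
          exact hx
        · rw [CfsgLib.SL2.inverts_torus hzt e (hle hx)]
          exact inv_mem hx
      refine Subgroup.mem_normalizer_iff.2 fun x => ⟨hsub g hgz x, fun hx => ?_⟩
      have := hsub g⁻¹ ((CfsgLib.SL2.mem_normalizer_torus_iff hzt).1 (inv_mem hg)) _ hx
      simpa [mul_assoc] using this
  have fin : ∀ M N : ℕ, ℓ ∣ M → M ∣ Fintype.card F ^ 2 - 1 → (M = N + 2 ∨ N = M + 2) →
      (∀ z : Matrix.SpecialLinearGroup (Fin 2) F, CfsgLib.SL2.tr z ^ 2 ≠ 4 →
        Nat.card (Subgroup.centralizer ({z} : Set _)) = M ∨ Nat.card (Subgroup.centralizer ({z} : Set _)) = N) →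
      Nat.card (Subgroup.centralizer ((P : Subgroup (Matrix.SpecialLinearGroup (Fin 2) F)) : Set (Matrix.SpecialLinearGroup (Fin 2) F))) = M ∧
      IsCyclic (Subgroup.centralizer ((P : Subgroup (Matrix.SpecialLinearGroup (Fin 2) F)) : Set (Matrix.SpecialLinearGroup (Fin 2) F))) ∧
      Nat.card (Subgroup.normalizer ((P : Subgroup (Matrix.SpecialLinearGroup (Fin 2) F)) : Set (Matrix.SpecialLinearGroup (Fin 2) F))) = 2 * M := by
    intro M N hlM hM hMN hcases
    obtain ⟨z, hzo, hzt, hC, hN⟩ := key M hlM hM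
    have hz : Nat.card (Subgroup.centralizer ({z} : Set _)) = M := by
      refine (hcases z hzt).resolve_right fun h => ?_
      have hd : ℓ ∣ N := by
        rw [← h, ← hzo, ← Subgroup.orderOf_mk z (Subgroup.mem_centralizer_singleton_iff.2 rfl)]
        exact orderOf_dvd_natCard _
      have h2 : ℓ ∣ 2 := by
        rcases hMN with e | e
        · exact (Nat.dvd_add_right hd).1 (e ▸ hlM)
        · exact (Nat.dvd_add_right hlM).1 (e ▸ hd)
      exact hℓ ((Nat.prime_dvd_prime_iff_eq hl Nat.prime_two).1 h2)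
    rw [hC, hN]
    exact ⟨hz, CfsgLib.SL2.isCyclic_centralizer hzt,
      by rw [CfsgLib.SL2.card_normalizer_torus hzt, hz]⟩
  refine ⟨fun h => fin _ (Fintype.card F + 1) h (hfac ▸ dvd_mul_left _ _) (Or.inr (by omega)) ?_,
    fun h => fin _ (Fintype.card F - 1) h (hfac ▸ dvd_mul_right _ _) (Or.inl (by omega)) ?_⟩
  · intro z hz
    by_cases hs : CfsgLib.SL2.IsSplitTrace (CfsgLib.SL2.tr z)
    · exact Or.inl (CfsgLib.SL2.card_centralizer_split hz hs)
    · exact Or.inr (CfsgLib.SL2.card_centralizer_nonsplit hs)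
  · intro z hz
    by_cases hs : CfsgLib.SL2.IsSplitTrace (CfsgLib.SL2.tr z)
    · exact Or.inr (CfsgLib.SL2.card_centralizer_split hz hs)
    · exact Or.inl (CfsgLib.SL2.card_centralizer_nonsplit hs)

end Cfsg.Agent.S2430
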