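import Cfsg.Statements.S2431
import Cfsg.Agent.SL2.Sylow

set_option autoImplicit false
open Cfsg

namespace Cfsg.Agent.S2431

open QuaternionGroup in
lemma exists_mul_of_gens {k : ℕ} [NeZero (2 * k)] (g : QuaternionGroup k) :
    ∃ i : ℕ, g = a 1 ^ i ∨ g = xa 0 * a 1 ^ i := by
  rcases g with i | i <;> refine ⟨i.val, ?_⟩
  · left; simp
  · right; simp

/-- The Sylow 2-subgroup is centralised only by the centre. -/
lemma centralizer_sylow {F : Type*} [Field F] [Fintype F] (h2 : (2 : F) ≠ 0)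
    (S : Sylow 2 (Matrix.SpecialLinearGroup (Fin 2) F)) :
    Subgroup.centralizer ((S : Subgroup (Matrix.SpecialLinearGroup (Fin 2) F)) : Set (Matrix.SpecialLinearGroup (Fin 2) F)) =
      Subgroup.center (Matrix.SpecialLinearGroup (Fin 2) F) := by
  refine le_antisymm (fun c hc => ?_) (Subgroup.center_le_centralizer _)
  by_contra hne
  refine CfsgLib.SL2.sylow_two_not_isCyclic h2 S
    (CfsgLib.TwoGroup.isCyclic_of_comm_atMostOneInvolution S.isPGroup'
      (fun x y => Subtype.ext ?_) ((CfsgLib.SL2.atMostOneInvolution h2).subgroup _))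
  exact CfsgLib.SL2.centralizer_commute hne
    (Subgroup.mem_centralizer_singleton_iff.2 (hc _ x.2))
    (Subgroup.mem_centralizer_singleton_iff.2 (hc _ y.2))

lemma sq_eq_neg_one_of_pow_four {F : Type*} [Field F] (h2 : (2 : F) ≠ 0)
    {x : Matrix.SpecialLinearGroup (Fin 2) F} (hx : orderOf x = 4) : x * x = -1 := by
  have h4 := pow_orderOf_eq_one x
  rw [hx] at h4
  have h1 : x * x ≠ 1 := by
    intro h
    have := orderOf_dvd_of_pow_eq_one (show x ^ 2 = 1 by rw [pow_two, h])
    rw [hx] at this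
    norm_num at this
  exact CfsgLib.SL2.eq_neg_one_of_mul_self h2 h1
    (by rw [← pow_two x, ← pow_two (x ^ 2), ← pow_mul]; exact h4)

/-- A group acting on a quaternion group of order 8 with kernel of order two has order at most 48. -/
lemma card_normalizer_le {G : Type*} [Group G] [Finite G] (N Z : Subgroup G) (hZ : Nat.card Z = 2)
    (S : Subgroup G) (e : S ≃* QuaternionGroup (2 ^ 1)) {x y : G} (hx : x ∈ S) (hy : y ∈ S)
    (hconj : ∀ g ∈ N, ∀ s ∈ S, g * s * g⁻¹ ∈ S) (hne : y * x ≠ x * y)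
    (hcent : ∀ u, Commute x u → Commute y u → u ∈ Z) : Nat.card N ≤ 48 := by
  classical
  let ψ : N → QuaternionGroup (2 ^ 1) × QuaternionGroup (2 ^ 1) := fun g =>
    (e ⟨(g : G) * x * (g : G)⁻¹, hconj g g.2 x hx⟩, e ⟨(g : G) * y * (g : G)⁻¹, hconj g g.2 y hy⟩)
  have := Fintype.ofFinite N
  have h1 : (Finset.univ.image ψ).card ≤ 24 := by
    refine le_of_le_of_eq (Finset.card_le_card (t := Finset.univ.filter
      (fun q : QuaternionGroup (2 ^ 1) × QuaternionGroup (2 ^ 1) => q.2 * q.1 ≠ q.1 * q.2)) ?_)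
      (by decide)
    intro q hq
    obtain ⟨g, -, rfl⟩ := Finset.mem_image.1 hq
    simp only [Finset.mem_filter, Finset.mem_univ, true_and, ψ, ← map_mul]
    intro hc
    apply hne
    have h := congrArg Subtype.val (e.injective hc)
    exact (MulAut.conj (g : G)).injective (by rw [map_mul, map_mul]; exact h)
  have h2 : Nat.card N ≤ 2 * (Finset.univ.image ψ).card := by
    rw [Nat.card_eq_fintype_card, ← Finset.card_univ]
    refine Finset.card_le_mul_card_image _ 2 fun t ht => ?_
    obtain ⟨g0, -, hg0⟩ := Finset.mem_image.1 ht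
    have := Fintype.ofFinite Z
    refine le_of_le_of_eq ?_ hZ
    rw [Nat.card_eq_fintype_card, ← Finset.card_univ, ← Finset.card_map (Function.Embedding.subtype (· ∈ Z))]
    refine Finset.card_le_card_of_injOn (fun g => (g0 : G)⁻¹ * (g : G)) ?_ ?_
    · intro g hg
      simp only [Finset.coe_filter, Finset.mem_univ, true_and] at hg
      have hg' : ψ g = ψ g0 := (show ψ g = t from hg).trans hg0.symm
      have key : ∀ {s : G} (hs : s ∈ S),
          e ⟨(g : G) * s * (g : G)⁻¹, hconj g g.2 s hs⟩ = e ⟨(g0 : G) * s * (g0 : G)⁻¹, hconj g0 g0.2 s hs⟩ →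
          Commute s ((g0 : G)⁻¹ * g) := by
        intro s hs he
        have h := congrArg Subtype.val (e.injective he)
        show s * ((g0 : G)⁻¹ * g) = (g0 : G)⁻¹ * g * s
        calc s * ((g0 : G)⁻¹ * g) = (g0 : G)⁻¹ * ((g0 : G) * s * (g0 : G)⁻¹) * g := by group
          _ = (g0 : G)⁻¹ * ((g : G) * s * (g : G)⁻¹) * g := by
            have h' : (g : G) * s * (g : G)⁻¹ = (g0 : G) * s * (g0 : G)⁻¹ := h
            rw [h']
          _ = _ := by group
      simp only [Finset.coe_map, Set.mem_image, Finset.mem_coe, Finset.mem_univ, true_and]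
      exact ⟨⟨_, hcent _ (key hx (congrArg Prod.fst hg')) (key hy (congrArg Prod.snd hg'))⟩, rfl⟩
    · intro a _ b _ hab
      exact Subtype.ext (mul_left_cancel hab)
  omega

/-- Two anticommuting elements of trace zero are permuted cyclically by an element of order 3. -/
lemma exists_three {F : Type*} [Field F] (h2 : (2 : F) ≠ 0)
    {I J : Matrix.SpecialLinearGroup (Fin 2) F} (hI : I * I = -1) (hJ : J * J = -1)
    (hIJ : J * I = -(I * J)) :
    ∃ h : Matrix.SpecialLinearGroup (Fin 2) F, orderOf h = 3 ∧ h * J * h⁻¹ = I ∧ h * I * h⁻¹ = I * J := by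
  set X := (I : Matrix (Fin 2) (Fin 2) F) with hX
  set Y := (J : Matrix (Fin 2) (Fin 2) F) with hY
  have hX2 : X * X = -1 := by
    simpa using congrArg (fun z : Matrix.SpecialLinearGroup (Fin 2) F => (z : Matrix (Fin 2) (Fin 2) F)) hI
  have hY2 : Y * Y = -1 := by
    simpa using congrArg (fun z : Matrix.SpecialLinearGroup (Fin 2) F => (z : Matrix (Fin 2) (Fin 2) F)) hJ
  have hYX : Y * X = -(X * Y) := by
    simpa using congrArg (fun z : Matrix.SpecialLinearGroup (Fin 2) F => (z : Matrix (Fin 2) (Fin 2) F)) hIJ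
  set Z := X * Y with hZ
  have hXZ : X * Z = -Y := by rw [hZ, ← mul_assoc, hX2, neg_one_mul]
  have hYZ : Y * Z = X := by
    rw [hZ, ← mul_assoc, hYX, neg_mul, hZ, mul_assoc, hY2, mul_neg, mul_one, neg_neg]
  have hZX : Z * X = Y := by
    rw [hZ, mul_assoc, hYX, mul_neg, hXZ, neg_neg]
  have hZY : Z * Y = -X := by rw [hZ, mul_assoc, hY2, mul_neg, mul_one]
  have hZ2 : Z * Z = -1 := by
    nth_rw 1 [hZ]
    rw [mul_assoc, hYZ, hX2]
  set A : Matrix (Fin 2) (Fin 2) F := -1 + X + Y + Z with hA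
  have hAY : A * Y = X * A := by
    rw [hA]
    simp only [add_mul, mul_add, neg_mul, mul_neg, one_mul, mul_one, hX2, hY2, hZY, hXZ, ← hZ]
    abel
  have hAX : A * X = Z * A := by
    rw [hA]
    simp only [add_mul, mul_add, neg_mul, mul_neg, one_mul, mul_one, hX2, hYX, hZX, hZY, hZ2]
    abel
  have hA2 : A * A = (-2 : F) • A - (4 : F) • 1 := by
    rw [hA]
    simp only [add_mul, mul_add, neg_mul, mul_neg, one_mul, mul_one, hX2, hYX, hY2, hXZ, hZX, hYZ, hZY, hZ2, ← hZ]
    simp only [smul_add, smul_neg, show (-2 : F) = -((1 : F) + 1) by norm_num,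
      show (4 : F) = 1 + 1 + 1 + 1 by norm_num, neg_smul, add_smul, one_smul]
    abel
  have htr : ∀ x : Matrix.SpecialLinearGroup (Fin 2) F, x * x = -1 →
      CfsgLib.SL2.tr x = 0 := by
    intro x hx
    have h := CfsgLib.SL2.coe_sq x
    have hx' : (x : Matrix (Fin 2) (Fin 2) F) * x = -1 := by
      simpa using congrArg (fun z : Matrix.SpecialLinearGroup (Fin 2) F => (z : Matrix (Fin 2) (Fin 2) F)) hx
    rw [hx', eq_sub_iff_add_eq, neg_add_cancel, eq_comm, smul_eq_zero] at h
    exact h.resolve_right fun h0 => x.det_ne_zero (by rw [h0, Matrix.det_zero])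
  have hIJ2 : I * J * (I * J) = -1 := by
    apply Subtype.ext
    simpa [← hX, ← hY, ← hZ] using hZ2
  have tX := htr I hI
  have tY := htr J hJ
  have tZ := htr (I * J) hIJ2
  have dX := CfsgLib.SL2.det_eq I
  simp only [CfsgLib.SL2.tr] at tX tY tZ
  rw [Matrix.SpecialLinearGroup.coe_mul, ← hX, ← hY, ← hZ] at tZ
  rw [← hX] at tX
  rw [← hY] at tY
  have hdet : ((1 / 2 : F) • A).det = 1 := by
    have h00 := congrFun (congrFun hA2 0) 0
    have h10 := congrFun (congrFun hA2 1) 1
    simp [Matrix.mul_apply, Fin.sum_univ_two] at h00 h10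
    have e00 : A 0 0 = -1 + X 0 0 + Y 0 0 + Z 0 0 := by simp [hA]
    have e11 : A 1 1 = -1 + X 1 1 + Y 1 1 + Z 1 1 := by simp [hA]
    have etr : A 0 0 + A 1 1 = -2 := by rw [e00, e11]; linear_combination tX + tY + tZ
    rw [Matrix.det_fin_two]
    simp
    field_simp
    linear_combination -h00 + A 0 0 * etr
  let h : Matrix.SpecialLinearGroup (Fin 2) F := ⟨(1 / 2 : F) • A, hdet⟩
  refine ⟨h, ?_, ?_, ?_⟩
  · refine orderOf_eq_prime ?_ ?_
    · apply Subtype.ext
      show ((1 / 2 : F) • A) ^ 3 = 1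
      rw [smul_pow, show A ^ 3 = A * A * A by rw [pow_succ, pow_two], hA2, sub_mul, smul_mul_assoc,
        hA2, smul_mul_assoc, one_mul]
      match_scalars <;> (field_simp; ring)
    · intro h1
      have h' : (1 / 2 : F) • A = 1 :=
        congrArg (fun z : Matrix.SpecialLinearGroup (Fin 2) F => (z : Matrix (Fin 2) (Fin 2) F)) h1
      have hA2' : A = (2 : F) • 1 := by
        rw [← h', smul_smul, mul_one_div, div_self h2, one_smul]
      rw [hA2', smul_mul_assoc, mul_smul_comm, one_mul, mul_one] at hAX hAY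
      have hXZ' : X = Z := smul_right_injective _ h2 hAX
      have hYX' : Y = X := smul_right_injective _ h2 hAY
      rw [hYX', ← hXZ'] at hXZ
      rw [hX2] at hXZ
      have hX1 : X = 1 := by rw [← neg_neg X, ← hXZ, neg_neg]
      rw [hX1, one_mul] at hX2
      have := congrFun (congrFun hX2 0) 0
      simp at this
      exact h2 (by linear_combination this)
  · rw [mul_inv_eq_iff_eq_mul]
    apply Subtype.ext
    show (1 / 2 : F) • A * Y = X * ((1 / 2 : F) • A)
    rw [smul_mul_assoc, mul_smul_comm, hAY]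
  · rw [mul_inv_eq_iff_eq_mul]
    apply Subtype.ext
    show (1 / 2 : F) • A * X = X * Y * ((1 / 2 : F) • A)
    rw [smul_mul_assoc, mul_smul_comm, hAX, ← hZ]

/-- Let F be a finite field with q elements, q odd, and S a Sylow 2-subgroup of SL₂ over F. The centraliser of S is the centre of SL₂ (of order 2); S is its own normaliser when q ≡ ±1 mod 8, and has index 3 in its normaliser when q ≡ ±3 mod 8. -/
theorem result {F : Type*} [Field F] [Fintype F] (hodd : Odd (Fintype.card F)) (S : Sylow 2 (Matrix.SpecialLinearGroup (Fin 2) F)) :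
    Subgroup.centralizer ((S : Subgroup (Matrix.SpecialLinearGroup (Fin 2) F)) : Set (Matrix.SpecialLinearGroup (Fin 2) F)) = Subgroup.center (Matrix.SpecialLinearGroup (Fin 2) F) ∧
    ((Fintype.card F % 8 = 1 ∨ Fintype.card F % 8 = 7) →
      Subgroup.normalizer ((S : Subgroup (Matrix.SpecialLinearGroup (Fin 2) F)) : Set (Matrix.SpecialLinearGroup (Fin 2) F)) = (S : Subgroup (Matrix.SpecialLinearGroup (Fin 2) F))) ∧
    ((Fintype.card F % 8 = 3 ∨ Fintype.card F % 8 = 5) →
      Nat.card (Subgroup.normalizer ((S : Subgroup (Matrix.SpecialLinearGroup (Fin 2) F)) : Set (Matrix.SpecialLinearGroup (Fin 2) F))) = 3 * Nat.card S) := by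
  classical
  have h2 : (2 : F) ≠ 0 := CfsgLib.SL2.two_ne_zero_iff_odd.2 hodd
  obtain ⟨p, hp⟩ := CharP.exists F
  haveI : Fact p.Prime := ⟨CharP.char_is_prime F p⟩
  refine ⟨centralizer_sylow h2 S, ?_, ?_⟩
  all_goals intro hq8
  all_goals obtain ⟨k, hk, ⟨e⟩⟩ := CfsgLib.SL2.sylow_two_quaternion h2 S
  all_goals haveI : NeZero (2 * 2 ^ k) := ⟨by positivity⟩
  all_goals haveI : NeZero (2 ^ k) := ⟨by positivity⟩
  all_goals
    have hScard : Nat.card (S : Subgroup (Matrix.SpecialLinearGroup (Fin 2) F)) = 4 * 2 ^ k := by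
      rw [Nat.card_congr e.toEquiv, Nat.card_eq_fintype_card, QuaternionGroup.card]
  all_goals set x : Matrix.SpecialLinearGroup (Fin 2) F := ((e.symm (QuaternionGroup.a 1) : (S : Subgroup (Matrix.SpecialLinearGroup (Fin 2) F))) : Matrix.SpecialLinearGroup (Fin 2) F) with hx
  all_goals set y : Matrix.SpecialLinearGroup (Fin 2) F := ((e.symm (QuaternionGroup.xa 0) : (S : Subgroup (Matrix.SpecialLinearGroup (Fin 2) F))) : Matrix.SpecialLinearGroup (Fin 2) F) with hy
  all_goals
    have hxo : orderOf x = 2 * 2 ^ k := by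
      rw [hx, Subgroup.orderOf_coe, MulEquiv.orderOf_eq, QuaternionGroup.orderOf_a_one]
  all_goals
    have hyx : y * x * y⁻¹ = x⁻¹ := by
      rw [hx, hy, ← Subgroup.coe_inv, ← Subgroup.coe_inv, ← Subgroup.coe_mul, ← Subgroup.coe_mul,
        ← map_inv, ← map_inv, ← map_mul, ← map_mul, mul_inv_eq_iff_eq_mul.2 (show
        QuaternionGroup.xa (0 : ZMod (2 * 2 ^ k)) * QuaternionGroup.a 1 =
          (QuaternionGroup.a 1)⁻¹ * QuaternionGroup.xa 0 by
        rw [show (QuaternionGroup.a (1 : ZMod (2 * 2 ^ k)))⁻¹ = QuaternionGroup.a (-1) from rfl]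
        simp)]
  all_goals
    have hgen : ∀ s ∈ (S : Subgroup (Matrix.SpecialLinearGroup (Fin 2) F)), ∃ i : ℕ, s = x ^ i ∨ s = y * x ^ i := by
      intro s hs
      obtain ⟨i, hi⟩ := exists_mul_of_gens (e ⟨s, hs⟩)
      refine ⟨i, ?_⟩
      rcases hi with hi | hi
      · left
        have := congrArg (fun z => ((e.symm z : (S : Subgroup (Matrix.SpecialLinearGroup (Fin 2) F))) : Matrix.SpecialLinearGroup (Fin 2) F)) hi
        simpa only [map_pow, MulEquiv.symm_apply_apply, SubgroupClass.coe_pow] using this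
      · right
        have := congrArg (fun z => ((e.symm z : (S : Subgroup (Matrix.SpecialLinearGroup (Fin 2) F))) : Matrix.SpecialLinearGroup (Fin 2) F)) hi
        simpa only [map_pow, map_mul, MulEquiv.symm_apply_apply, SubgroupClass.coe_pow, Subgroup.coe_mul] using this
  all_goals have hxS : x ∈ (S : Subgroup (Matrix.SpecialLinearGroup (Fin 2) F)) := (e.symm _).2
  all_goals have hyS : y ∈ (S : Subgroup (Matrix.SpecialLinearGroup (Fin 2) F)) := (e.symm _).2
  all_goals
    have hdiv : ∀ n : ℕ, 2 ^ n ∣ Nat.card (Matrix.SpecialLinearGroup (Fin 2) F) ↔ n ≤ k + 2 := by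
      have hS' : Nat.card (S : Subgroup (Matrix.SpecialLinearGroup (Fin 2) F)) = 2 ^ (k + 2) := by
        rw [hScard, pow_add]; ring
      intro n
      constructor
      · intro h
        exact (Nat.pow_dvd_pow_iff_le_right (by norm_num)).1 (hS' ▸ S.pow_dvd_card_of_pow_dvd_card h)
      · intro h
        exact (Nat.pow_dvd_pow 2 h).trans (hS' ▸ Subgroup.card_subgroup_dvd_card _)
  all_goals have hcardSL := CfsgLib.SL2.card_SL (F := F)
  · -- `q ≡ ±1 (mod 8)`: the Sylow subgroup is its own normaliser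
    have hk2 : 2 ≤ k := by
      have h16 : 2 ^ 4 ∣ Nat.card (Matrix.SpecialLinearGroup (Fin 2) F) := by
        rw [hcardSL, pow_two, show 1 = 1 * 1 from rfl, Nat.mul_self_sub_mul_self_eq]
        refine Dvd.dvd.mul_left ?_ _
        obtain ⟨i, hi⟩ : ∃ i, Fintype.card F = 8 * i + 1 ∨ Fintype.card F = 8 * i + 7 :=
          ⟨Fintype.card F / 8, by omega⟩
        rcases hi with h | h
        · rw [h, Nat.add_sub_cancel]; exact ⟨i * (4 * i + 1), by ring⟩
        · rw [h, show 8 * i + 7 - 1 = 8 * i + 6 by omega]; exact ⟨(i + 1) * (4 * i + 3), by ring⟩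
      have := (hdiv 4).1 h16
      omega
    have hxt : CfsgLib.SL2.tr x ^ 2 ≠ 4 := by
      intro h
      have h1 := orderOf_dvd_of_pow_eq_one (CfsgLib.SL2.pow_two_mul_char_eq_one (p := p) h)
      rw [hxo] at h1
      have h2' : 2 ^ k ∣ p := Nat.dvd_of_mul_dvd_mul_left (by norm_num) h1
      have h22 : (2 : ℕ) ∣ p := (dvd_pow_self 2 (by omega : k ≠ 0)).trans h2'
      have : p = 2 := ((Nat.prime_dvd_prime_iff_eq Nat.prime_two (Fact.out : p.Prime)).1 h22).symm
      subst this
      exact h2 CharTwo.two_eq_zero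
    have hx0 := CfsgLib.SL2.not_mem_center_of_tr_sq_ne hxt
    have hxC : x ∈ Subgroup.centralizer ({x} : Set (Matrix.SpecialLinearGroup (Fin 2) F)) :=
      Subgroup.mem_centralizer_singleton_iff.2 rfl
    refine le_antisymm (fun g hg => ?_) Subgroup.le_normalizer
    -- the conjugate of `x` is `x` or `x⁻¹`
    have hgx : g * x * g⁻¹ = x ∨ g * x * g⁻¹ = x⁻¹ := by
      refine CfsgLib.SL2.eq_or_eq_inv_of_tr_eq hxt ?_ (CfsgLib.SL2.tr_conj x g)
      obtain ⟨i, hi⟩ := hgen _ ((Subgroup.mem_normalizer_iff.1 hg x).1 hxS)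
      rcases hi with hi | hi
      · rw [hi]; exact pow_mem hxC i
      · exfalso
        have hio : orderOf (g * x * g⁻¹) = 2 * 2 ^ k := by
          rw [← hxo]
          exact orderOf_injective (MulAut.conj g).toMonoidHom (MulAut.conj g).injective x
        have hsq : (y * x ^ i) * (y * x ^ i) = -1 := by
          refine CfsgLib.SL2.sq_of_inverting hxt h2 ?_
          rw [show y * x ^ i * x * (y * x ^ i)⁻¹ = y * x * y⁻¹ by group, hyx]
        have h4 : (y * x ^ i) ^ 4 = 1 := by
          rw [show (4 : ℕ) = 2 * 2 from rfl, pow_mul, pow_two (y * x ^ i), hsq, neg_one_sq]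
        have h5 := orderOf_dvd_of_pow_eq_one h4
        rw [← hi, hio] at h5
        have h6 := Nat.le_of_dvd (by norm_num) h5
        have : 2 ^ 2 ≤ 2 ^ k := Nat.pow_le_pow_right (by norm_num) hk2
        omega
    -- reduce to an element centralising `x`
    obtain ⟨g', hg', hg'x, hgg'⟩ : ∃ g' ∈ Subgroup.normalizer ((S : Subgroup (Matrix.SpecialLinearGroup (Fin 2) F)) : Set (Matrix.SpecialLinearGroup (Fin 2) F)),
        g' * x * g'⁻¹ = x ∧ (g' ∈ (S : Subgroup (Matrix.SpecialLinearGroup (Fin 2) F)) → g ∈ (S : Subgroup (Matrix.SpecialLinearGroup (Fin 2) F))) := by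
      rcases hgx with h | h
      · exact ⟨g, hg, h, id⟩
      · refine ⟨g * y, mul_mem hg (Subgroup.le_normalizer hyS), ?_, fun h' => (Subgroup.mul_mem_cancel_right _ hyS).1 h'⟩
        rw [show g * y * x * (g * y)⁻¹ = g * (y * x * y⁻¹) * g⁻¹ by group, hyx,
          show g * x⁻¹ * g⁻¹ = (g * x * g⁻¹)⁻¹ by group, h, inv_inv]
    apply hgg'
    have hg'C : g' ∈ Subgroup.centralizer ({x} : Set (Matrix.SpecialLinearGroup (Fin 2) F)) :=
      Subgroup.mem_centralizer_singleton_iff.2 (mul_inv_eq_iff_eq_mul.1 hg'x)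
    have hinv := CfsgLib.SL2.inverts_torus hxt hyx hg'C
    have hsqS : g' * g' ∈ (S : Subgroup (Matrix.SpecialLinearGroup (Fin 2) F)) := by
      have h := (Subgroup.mem_normalizer_iff.1 hg' y).1 hyS
      have e1 : g' * y * g'⁻¹ = g' * g' * y := by
        calc g' * y * g'⁻¹ = g' * (y * g'⁻¹ * y⁻¹) * y := by group
          _ = g' * (y * g' * y⁻¹)⁻¹ * y := by group
          _ = g' * g' * y := by rw [hinv, inv_inv]
      rw [e1] at h
      exact (Subgroup.mul_mem_cancel_right _ hyS).1 h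
    obtain ⟨m, hm⟩ := IsPGroup.iff_card.1 S.isPGroup'
    have hpow : g' ^ 2 ^ (m + 1) = 1 := by
      have h := congrArg Subtype.val (pow_card_eq_one' (x := (⟨g' * g', hsqS⟩ : (S : Subgroup (Matrix.SpecialLinearGroup (Fin 2) F)))))
      rw [hm] at h
      rw [pow_succ', pow_mul, pow_two]
      simpa using h
    have hPG : IsPGroup 2 (Subgroup.zpowers g') := by
      obtain ⟨j, -, hj⟩ := (Nat.dvd_prime_pow Nat.prime_two).1 (orderOf_dvd_of_pow_eq_one hpow)
      exact IsPGroup.of_card (n := j) (by rw [Nat.card_zpowers, hj])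
    have hsup := hPG.to_sup_of_normal_right' S.isPGroup' ((Subgroup.zpowers_le).2 hg')
    rw [← S.is_maximal' hsup le_sup_right]
    exact Subgroup.mem_sup_left (Subgroup.mem_zpowers g')
  · -- `q ≡ ±3 (mod 8)`: index three
    have hk1 : k = 1 := by
      have h16 : ¬ 2 ^ 4 ∣ Nat.card (Matrix.SpecialLinearGroup (Fin 2) F) := by
        rw [hcardSL, pow_two, show 1 = 1 * 1 from rfl, Nat.mul_self_sub_mul_self_eq]
        obtain ⟨i, hi⟩ : ∃ i, Fintype.card F = 8 * i + 3 ∨ Fintype.card F = 8 * i + 5 :=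
          ⟨Fintype.card F / 8, by omega⟩
        rintro ⟨c, hc⟩
        rcases hi with h | h
        · rw [h, show 8 * i + 3 - 1 = 8 * i + 2 by omega] at hc
          have : (8 * i + 3) * ((8 * i + 3 + 1) * (8 * i + 2)) = 16 * (32 * i ^ 3 + 36 * i ^ 2 + 13 * i + 1) + 8 := by ring
          omega
        · rw [h, show 8 * i + 5 - 1 = 8 * i + 4 by omega] at hc
          have : (8 * i + 5) * ((8 * i + 5 + 1) * (8 * i + 4)) = 16 * (32 * i ^ 3 + 60 * i ^ 2 + 37 * i + 7) + 8 := by ring
          omega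
      by_contra hk'
      exact h16 ((hdiv 4).2 (by omega))
    subst hk1
    replace hScard : Nat.card (S : Subgroup (Matrix.SpecialLinearGroup (Fin 2) F)) = 8 :=
      hScard.trans (by norm_num)
    replace hxo : orderOf x = 4 := hxo.trans (by norm_num)
    have hyo : orderOf y = 4 := by
      rw [hy, Subgroup.orderOf_coe, MulEquiv.orderOf_eq, QuaternionGroup.orderOf_xa]
    have hI := sq_eq_neg_one_of_pow_four h2 hxo
    have hJ := sq_eq_neg_one_of_pow_four h2 hyo
    have hIJ : y * x = -(x * y) := by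
      rw [mul_inv_eq_iff_eq_mul] at hyx
      rw [hyx, show x⁻¹ = -x from inv_eq_of_mul_eq_one_right (by rw [mul_neg, hI, neg_neg]), neg_mul]
    obtain ⟨h, ho, hhy, hhx⟩ := exists_three h2 hI hJ hIJ
    have hfin : ∀ s ∈ (S : Subgroup (Matrix.SpecialLinearGroup (Fin 2) F)), h * s * h⁻¹ ∈ (S : Subgroup (Matrix.SpecialLinearGroup (Fin 2) F)) := by
      intro s hs
      obtain ⟨i, hi⟩ := hgen s hs
      have e1 : h * x ^ i * h⁻¹ = (x * y) ^ i := by rw [← conj_pow, hhx]
      rcases hi with rfl | rfl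
      · rw [e1]; exact pow_mem (mul_mem hxS hyS) i
      · rw [show h * (y * x ^ i) * h⁻¹ = (h * y * h⁻¹) * (h * x ^ i * h⁻¹) by group, e1, hhy]
        exact mul_mem hxS (pow_mem (mul_mem hxS hyS) i)
    have hhN : h ∈ Subgroup.normalizer ((S : Subgroup (Matrix.SpecialLinearGroup (Fin 2) F)) : Set (Matrix.SpecialLinearGroup (Fin 2) F)) :=
      Subgroup.mem_normalizer_fintype hfin
    set N := Subgroup.normalizer ((S : Subgroup (Matrix.SpecialLinearGroup (Fin 2) F)) : Set (Matrix.SpecialLinearGroup (Fin 2) F)) with hN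
    have h8 : 8 ∣ Nat.card N := by
      have hle : (S : Subgroup (Matrix.SpecialLinearGroup (Fin 2) F)) ≤ N := Subgroup.le_normalizer
      have h := Subgroup.card_dvd_of_le hle
      rwa [hScard] at h
    have h3 : 3 ∣ Nat.card N := by
      rw [← ho, ← Subgroup.orderOf_mk h hhN]
      exact orderOf_dvd_natCard _
    have h16 : ¬ 16 ∣ Nat.card N := fun hd => by
      have := (hdiv 4).1 (hd.trans (Subgroup.card_subgroup_dvd_card N))
      omega
    have h48 : Nat.card N ≤ 48 := by
      refine card_normalizer_le N (Subgroup.center (Matrix.SpecialLinearGroup (Fin 2) F))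
        (CfsgLib.SL2.card_center_odd h2) (S : Subgroup (Matrix.SpecialLinearGroup (Fin 2) F)) e
        (x := x) (y := y) hxS hyS (fun g hg s hs => (Subgroup.mem_normalizer_iff.1 hg s).1 hs) ?_ ?_
      · intro hc
        rw [hIJ] at hc
        exact CfsgLib.SL2.neg_one_ne_one h2
          (mul_right_cancel (b := x * y) (by rw [neg_one_mul, hc, one_mul]))
      · intro u cx cy
        rw [← centralizer_sylow h2 S]
        intro s hs
        obtain ⟨i, rfl | rfl⟩ := hgen s hs
        · exact (cx.pow_left i).eq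
        · exact (cy.mul_left (cx.pow_left i)).eq
    obtain ⟨m, hm⟩ : 24 ∣ Nat.card N := Nat.Coprime.mul_dvd_of_dvd_of_dvd (by norm_num) h3 h8
    have hpos : 0 < Nat.card N := Nat.card_pos
    rw [show Nat.card S = Nat.card (S : Subgroup (Matrix.SpecialLinearGroup (Fin 2) F)) from rfl, hScard]
    omega

end Cfsg.Agent.S2431
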