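import Cfsg.Statements.S2433
import Cfsg.Agent.Sl2Chars.BorelEq
import Cfsg.Agent.Sl2Chars.Degrees
import Cfsg.Agent.Eq.Def_Characters
import Cfsg.Agent.Eq.Def_ParabolicCharacters
-- import your own Cfsg.Agent.* helpers here

set_option autoImplicit false
open Cfsg

namespace Cfsg.Agent.S2433

/-- Let F be a finite field with q elements, q odd, α a multiplicative character of F, and R(α) the function on SL₂ induced from the linear character b ↦ α(b₁₁) of the upper triangular subgroup. Then R(α) takes the value α(a) + α(a⁻¹) at a diagonal element with entries a, a⁻¹, a² ≠ 1; the value 0 at every element with no eigenvector in F²; the value α(ε) at an upper triangular element with both diagonal entries ε and non-zero upper right entry; and the value (q + 1)α(ε) at the scalar element ε (ε = ±1). -/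
theorem result {F : Type*} [Field F] [Fintype F] [DecidableEq F] (hodd : Odd (Fintype.card F)) (α : MulChar F ℂ) (g : Matrix.SpecialLinearGroup (Fin 2) F) :
    ((g : Matrix (Fin 2) (Fin 2) F) 0 1 = 0 → (g : Matrix (Fin 2) (Fin 2) F) 1 0 = 0 → (g : Matrix (Fin 2) (Fin 2) F) 0 0 ^ 2 ≠ 1 →
      (Cfsg.indFun ((Cfsg.upperTriangularGL 2 F).comap Matrix.SpecialLinearGroup.toGL) (fun b => α (((b : Matrix.SpecialLinearGroup (Fin 2) F) : Matrix (Fin 2) (Fin 2) F) 0 0))) g = α ((g : Matrix (Fin 2) (Fin 2) F) 0 0) + α ((g : Matrix (Fin 2) (Fin 2) F) 1 1)) ∧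
    ((∀ (c : F) (v : Fin 2 → F), v ≠ 0 → (g : Matrix (Fin 2) (Fin 2) F).mulVec v ≠ c • v) → (Cfsg.indFun ((Cfsg.upperTriangularGL 2 F).comap Matrix.SpecialLinearGroup.toGL) (fun b => α (((b : Matrix.SpecialLinearGroup (Fin 2) F) : Matrix (Fin 2) (Fin 2) F) 0 0))) g = 0) ∧
    ((g : Matrix (Fin 2) (Fin 2) F) 1 0 = 0 → (g : Matrix (Fin 2) (Fin 2) F) 0 0 = (g : Matrix (Fin 2) (Fin 2) F) 1 1 → (g : Matrix (Fin 2) (Fin 2) F) 0 1 ≠ 0 →
      (Cfsg.indFun ((Cfsg.upperTriangularGL 2 F).comap Matrix.SpecialLinearGroup.toGL) (fun b => α (((b : Matrix.SpecialLinearGroup (Fin 2) F) : Matrix (Fin 2) (Fin 2) F) 0 0))) g = α ((g : Matrix (Fin 2) (Fin 2) F) 0 0)) ∧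
    ((g : Matrix (Fin 2) (Fin 2) F) 0 1 = 0 → (g : Matrix (Fin 2) (Fin 2) F) 1 0 = 0 → (g : Matrix (Fin 2) (Fin 2) F) 0 0 = (g : Matrix (Fin 2) (Fin 2) F) 1 1 →
      (Cfsg.indFun ((Cfsg.upperTriangularGL 2 F).comap Matrix.SpecialLinearGroup.toGL) (fun b => α (((b : Matrix.SpecialLinearGroup (Fin 2) F) : Matrix (Fin 2) (Fin 2) F) 0 0))) g = ((Fintype.card F : ℂ) + 1) * α ((g : Matrix (Fin 2) (Fin 2) F) 0 0)) := by
  rw [CfsgLib.Sl2Chars.indFun_comap_eq_P]
  refine ⟨fun h01 h10 h00 => ?_, fun hg => ?_, fun h10 heq h01 => ?_, fun h01 h10 heq => ?_⟩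
  · obtain ⟨a, ha, rfl⟩ := CfsgLib.Sl2Chars.exists_d_of_diag h01 h10 h00
    have h := CfsgLib.Sl2Chars.P_apply_split α ha 0
    rw [CfsgLib.SL2.u_zero, mul_one] at h
    simpa using h
  · exact CfsgLib.Sl2Chars.P_apply_nonsplit α (CfsgLib.Sl2Chars.not_isSplitTrace_of_forall hg)
  · obtain ⟨a, t, rfl⟩ := CfsgLib.Sl2Chars.exists_eq_d_mul_u (CfsgLib.SL2.mem_B.2 h10)
    simp [Matrix.mul_apply, Fin.sum_univ_two] at heq h01
    have ha : a * a = 1 := Units.ext (by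
      rw [Units.val_mul, Units.val_one]; nth_rw 2 [heq]; exact mul_inv_cancel₀ a.ne_zero)
    rw [CfsgLib.Sl2Chars.P_apply_unip α ha h01, CfsgLib.Sl2Chars.d_mul_u_zero_zero]
  · obtain ⟨a, rfl⟩ := CfsgLib.SL2.mem_T.2 ⟨h01, h10⟩
    simp at heq
    have h := CfsgLib.Sl2Chars.P_apply_d_mul_u α a 0
    rw [CfsgLib.SL2.u_zero, mul_one] at h
    rw [h]
    have he : ((a⁻¹ : Fˣ) : F) = (a : F) := by rw [Units.val_inv_eq_inv_val]; exact heq.symm
    rw [he, sub_self]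
    simp
    ring

end Cfsg.Agent.S2433
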