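import Cfsg.Statements.S2434
import Cfsg.Agent.Sl2Chars.TorusCount
import Cfsg.Agent.Eq.Def_Characters
-- import your own Cfsg.Agent.* helpers here

set_option autoImplicit false
open Cfsg
open scoped CfsgLib.Sl2Chars

namespace Cfsg.Agent.S2434

/-- Let F be a finite field with q elements, q odd, and C a cyclic subgroup of order q + 1 of SL₂ over F (a non-split torus; it contains the centre). For every homomorphism θ from C to the non-zero complex numbers with θ² ≠ 1 there is an irreducible complex character χ of degree q − 1 such that χ(c) = −θ(c) − θ(c)⁻¹ for every non-central c in C, χ(zg) = θ(z)χ(g) for central z in C, χ vanishes at diagonal elements with entry a, a² ≠ 1, and χ takes the value −1 at every upper unitriangular element other than 1. Conversely every irreducible character of degree q − 1 has, for some such θ, the values −θ(c) − θ(c)⁻¹ at the non-central elements c of C (for q ≥ 5 these are exactly the cuspidal characters of degree q − 1). -/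
theorem result {F : Type*} [Field F] [Fintype F] (hodd : Odd (Fintype.card F))
    (C : Subgroup (Matrix.SpecialLinearGroup (Fin 2) F)) (hC : IsCyclic C) (hcard : Nat.card C = Fintype.card F + 1) :
    (∀ θ : C →* ℂˣ, (∃ c : C, θ c ^ 2 ≠ 1) →
      ∃ χ : Matrix.SpecialLinearGroup (Fin 2) F → ℂ, Cfsg.IsIrrCharacter (Matrix.SpecialLinearGroup (Fin 2) F) χ ∧ χ 1 = (Fintype.card F : ℂ) - 1 ∧
        (∀ c : C, (c : Matrix.SpecialLinearGroup (Fin 2) F) ∉ Subgroup.center (Matrix.SpecialLinearGroup (Fin 2) F) → χ c = -((θ c).val + (θ c)⁻¹.val)) ∧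
        (∀ c : C, (c : Matrix.SpecialLinearGroup (Fin 2) F) ∈ Subgroup.center (Matrix.SpecialLinearGroup (Fin 2) F) → ∀ g : Matrix.SpecialLinearGroup (Fin 2) F, χ ((c : Matrix.SpecialLinearGroup (Fin 2) F) * g) = (θ c).val * χ g) ∧
        (∀ g : Matrix.SpecialLinearGroup (Fin 2) F, (g : Matrix (Fin 2) (Fin 2) F) 0 1 = 0 → (g : Matrix (Fin 2) (Fin 2) F) 1 0 = 0 → (g : Matrix (Fin 2) (Fin 2) F) 0 0 ^ 2 ≠ 1 → χ g = 0) ∧
        (∀ g : Matrix.SpecialLinearGroup (Fin 2) F, (g : Matrix (Fin 2) (Fin 2) F) 1 0 = 0 → (g : Matrix (Fin 2) (Fin 2) F) 0 0 = 1 → (g : Matrix (Fin 2) (Fin 2) F) 1 1 = 1 → (g : Matrix (Fin 2) (Fin 2) F) 0 1 ≠ 0 → χ g = -1)) ∧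
    (∀ χ : Matrix.SpecialLinearGroup (Fin 2) F → ℂ, Cfsg.IsIrrCharacter (Matrix.SpecialLinearGroup (Fin 2) F) χ → χ 1 = (Fintype.card F : ℂ) - 1 →
      ∃ θ : C →* ℂˣ, (∃ c : C, θ c ^ 2 ≠ 1) ∧
        ∀ c : C, (c : Matrix.SpecialLinearGroup (Fin 2) F) ∉ Subgroup.center (Matrix.SpecialLinearGroup (Fin 2) F) → χ c = -((θ c).val + (θ c)⁻¹.val)) := by
  classical
  have h2 : (2 : F) ≠ 0 := CfsgLib.SL2.two_ne_zero_iff_odd.2 hodd
  obtain ⟨ν, hν⟩ := CfsgLib.Sl2Chars.exists_nonsquare h2
  obtain ⟨k, hk⟩ := hodd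
  have hq := Fintype.one_lt_card (α := F)
  have hiff : ∀ θ : C →* ℂˣ, θ * θ ≠ 1 ↔ ∃ c : C, θ c ^ 2 ≠ 1 := by
    intro θ
    rw [← not_iff_not, not_not, not_exists, MonoidHom.ext_iff]
    simp [sq]
  have hval : ∀ (θ : C →* ℂˣ) (c : C),
      (c : Matrix.SpecialLinearGroup (Fin 2) F) ∉
        Subgroup.center (Matrix.SpecialLinearGroup (Fin 2) F) →
      CfsgLib.Sl2Chars.piC h2 hcard θ c = -((θ c).val + (θ c)⁻¹.val) := fun θ c hc => by
    rw [CfsgLib.Sl2Chars.piC_torus h2 hC hcard θ c]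
    simp [hc]
  refine ⟨fun θ hθ => ?_, fun χ hχ hd => ?_⟩
  · have hθ' := (hiff θ).2 hθ
    refine ⟨_, CfsgLib.Sl2Chars.piC_isIrr h2 hC hcard hθ', CfsgLib.Sl2Chars.piC_one h2 hC hcard θ,
      hval θ, fun c hc g => ?_, fun g h01 h10 h00 => ?_, fun g h10 h00 h11 h01 => ?_⟩
    · obtain ⟨n, ρ, -, hρ⟩ := CfsgLib.Sl2Chars.piC_isIrr h2 hC hcard hθ'
      have hn : (n : ℂ) = (Fintype.card F : ℂ) - 1 := by
        rw [← CfsgLib.Sl2Chars.piC_one h2 hC hcard θ, ← hρ, Representation.char_one]
        simp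
      have hn0 : n ≠ 0 := by
        rintro rfl
        rw [Nat.cast_zero] at hn
        have : (Fintype.card F : ℂ) = ((1 : ℕ) : ℂ) := by rw [Nat.cast_one]; linear_combination -hn
        rw [Nat.cast_inj] at this
        omega
      have hc' : ρ.character c = (n : ℂ) * (θ c).val := by
        have hinv : ((θ c)⁻¹ : ℂˣ) = θ c := by
          rw [← map_inv]
          congr 1
          apply Subtype.ext
          rcases CfsgLib.SL2.mem_center_iff'.1 hc with h | h <;> rw [Subgroup.coe_inv, h]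
          · exact inv_one
          · exact inv_eq_of_mul_eq_one_right (by simp)
        rw [hρ, CfsgLib.Sl2Chars.piC_torus h2 hC hcard θ c, hinv, hn]
        simp [hc]
        ring
      have hs := CfsgLib.Chars.rep_eq_smul_of_norm_character_eq ρ hn0 (g := (c : _)) (by
        have h := (CfsgLib.Chars.norm_eq_one_of_pow_orderOf (z := (θ c).val) (g := c) (by
          rw [← Units.val_pow_eq_pow_val, ← map_pow, pow_orderOf_eq_one, map_one, Units.val_one]))
        rw [hc', norm_mul, h, mul_one, Complex.norm_natCast])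
      rw [hc', mul_div_cancel_left₀ _ (Nat.cast_ne_zero.2 hn0)] at hs
      rw [← hρ]
      show LinearMap.trace ℂ _ (ρ ((c : _) * g)) = (θ c).val * LinearMap.trace ℂ _ (ρ g)
      rw [map_mul, hs, smul_mul_assoc, one_mul, map_smul, smul_eq_mul]
    · obtain ⟨a, ha, rfl⟩ := CfsgLib.Sl2Chars.exists_d_of_diag h01 h10 h00
      exact CfsgLib.Sl2Chars.piC_split h2 hC hcard θ ha
    · have e : g = CfsgLib.SL2.d (1 : Fˣ) * CfsgLib.SL2.u ((g : Matrix (Fin 2) (Fin 2) F) 0 1) := by
        rw [map_one, one_mul]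
        apply CfsgLib.SL2.ext4 <;> simp [h00, h11, h10]
      rw [e, CfsgLib.Sl2Chars.piC_unip h2 hC hcard θ (one_mul 1) h01, Units.val_one, MulChar.map_one]
  · have hd' : χ 1 = ((Fintype.card F - 1 : ℕ) : ℂ) := by
      rw [hd, Nat.cast_sub (by omega), Nat.cast_one]
    rcases CfsgLib.Sl2Chars.pat_deg_cases h2 hν ⟨χ, hχ⟩ hd' with
      ⟨-, e⟩ | ⟨-, e⟩ | ⟨-, e⟩ | ⟨h, e⟩ | ⟨h, -⟩ | ⟨-, e⟩
    all_goals try omega
    · -- `q = 3`
      have h0 : CfsgLib.Sl2Chars.nU (F := F) ⟨χ, hχ⟩ 0 ≠ 0 := by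
        rcases h with h | h <;> simp only [CfsgLib.Sl2Chars.pat, Prod.mk.injEq] at h <;> omega
      obtain ⟨θ₀, hne, hf, -⟩ := CfsgLib.Sl2Chars.exists_theta_quad h2 hC hcard
      obtain ⟨θ, hθ⟩ : ∃ θ : C →* ℂˣ, θ * θ ≠ 1 := by
        by_contra hall
        push Not at hall
        have hu : (Finset.univ.filter fun θ : C →* ℂˣ => θ * θ = 1) = Finset.univ :=
          Finset.filter_true_of_mem fun θ _ => hall θ
        have hcount := congrArg Finset.card (hu.symm.trans hf)
        rw [Finset.card_univ, Finset.card_pair (Ne.symm hne), ← Nat.card_eq_fintype_card,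
          CfsgLib.Chars.card_monoidHom_units, CfsgLib.Sl2Chars.torus_commutator hC,
          Subgroup.index_bot, hcard] at hcount
        omega
      refine ⟨θ, (hiff θ).1 hθ, fun c hc => ?_⟩
      have hns := CfsgLib.Sl2Chars.not_isSplitTrace_of_mem h2 hC hcard c.2 hc
      have hz : χ c = 0 := by
        rcases CfsgLib.Sl2Chars.noncusp_cases h2 hν h0 with
          h' | h' | ⟨α, -, h', -⟩ | ⟨α, φ, hα, hα1, -, he, -⟩
        · rcases h with h | h <;> simp [h', CfsgLib.Sl2Chars.pat_oneChar hν] at h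
        · rcases h with h | h <;> simp [h', CfsgLib.Sl2Chars.pat_stChar] at h
        · rw [show χ = _ from h']; exact CfsgLib.Sl2Chars.P_apply_nonsplit α hns
        · exact CfsgLib.Sl2Chars.apply_nonsplit_half h2 hν hα hα1 he hns
      -- `c` generates `C`, of order four
      have hord : orderOf c = 4 := by
        have hdvd : orderOf c ∣ 2 ^ 2 := by
          rw [show 2 ^ 2 = Nat.card C by omega]; exact orderOf_dvd_natCard c
        obtain ⟨i, hi, hi'⟩ := (Nat.dvd_prime_pow Nat.prime_two).1 hdvd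
        interval_cases i
        · exact absurd (by rw [orderOf_eq_one_iff.1 hi', OneMemClass.coe_one]; exact one_mem _) hc
        · rw [← Subgroup.orderOf_coe, pow_one, CfsgLib.SL2.orderOf_eq_two_iff h2] at hi'
          exact absurd (by rw [hi']; exact CfsgLib.SL2.neg_one_mem_center) hc
        · rw [hi']; norm_num
      have hsq : (θ c).val * (θ c).val ≠ 1 := fun hsq => hθ (by
        refine MonoidHom.ext fun x => ?_
        have htop : Subgroup.zpowers c = ⊤ :=
          Subgroup.eq_top_of_card_eq _ (by rw [Nat.card_zpowers, hord]; omega)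
        obtain ⟨i, rfl⟩ : x ∈ Subgroup.zpowers c := htop ▸ Subgroup.mem_top x
        show θ (c ^ i) * θ (c ^ i) = 1
        rw [map_zpow, ← mul_zpow,
          show θ c * θ c = 1 from Units.ext (by rw [Units.val_mul, hsq, Units.val_one]), one_zpow])
      have h4 : ((θ c).val * (θ c).val) * ((θ c).val * (θ c).val) = 1 := by
        have : θ c ^ 4 = 1 := by rw [← map_pow, ← hord, pow_orderOf_eq_one, map_one]
        have := congrArg Units.val this
        rw [Units.val_pow_eq_pow_val, Units.val_one] at this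
        linear_combination this
      have hneg := (mul_self_eq_one_iff.1 h4).resolve_left hsq
      have hinv : ((θ c)⁻¹ : ℂˣ).val = -(θ c).val := by
        rw [Units.val_inv_eq_inv_val]
        exact inv_eq_of_mul_eq_one_right (by linear_combination -hneg)
      rw [hz, hinv]
      ring
    · obtain ⟨θ, hθ, he⟩ := (CfsgLib.Sl2Chars.torus_main h2 hC hcard hν).1 _ h
      exact ⟨θ, (hiff θ).1 hθ, fun c hc => (congrFun he c).trans (hval θ c hc)⟩

end Cfsg.Agent.S2434
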