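import Cfsg.Statements.S2435
import Cfsg.Agent.Sl2Chars.TorusCount
import Cfsg.Agent.Eq.Def_Characters
-- import your own Cfsg.Agent.* helpers here

set_option autoImplicit false
open Cfsg

namespace Cfsg.Agent.S2435

/-- Let F be a finite field with q elements, q odd and q ≥ 5, and χ an irreducible complex character of SL₂ over F. If χ has degree (q + 1)/2, then at a diagonal element with entry a, a² ≠ 1, χ takes the value 1 when a is a square in F and −1 otherwise. If χ has degree (q − 1)/2, then at an element g with no eigenvector in F² (so g has order dividing q + 1), χ takes the value −1 when g raised to the power (q + 1)/2 is the identity and the value 1 otherwise. -/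
theorem result {F : Type*} [Field F] [Fintype F] (hodd : Odd (Fintype.card F)) (hq : 5 ≤ Fintype.card F)
    (χ : Matrix.SpecialLinearGroup (Fin 2) F → ℂ) (hχ : Cfsg.IsIrrCharacter (Matrix.SpecialLinearGroup (Fin 2) F) χ) (g : Matrix.SpecialLinearGroup (Fin 2) F) :
    (χ 1 = (((Fintype.card F + 1) / 2 : ℕ) : ℂ) → (g : Matrix (Fin 2) (Fin 2) F) 0 1 = 0 → (g : Matrix (Fin 2) (Fin 2) F) 1 0 = 0 → (g : Matrix (Fin 2) (Fin 2) F) 0 0 ^ 2 ≠ 1 →
      (IsSquare ((g : Matrix (Fin 2) (Fin 2) F) 0 0) → χ g = 1) ∧ (¬ IsSquare ((g : Matrix (Fin 2) (Fin 2) F) 0 0) → χ g = -1)) ∧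
    (χ 1 = (((Fintype.card F - 1) / 2 : ℕ) : ℂ) → (∀ (c : F) (v : Fin 2 → F), v ≠ 0 → (g : Matrix (Fin 2) (Fin 2) F).mulVec v ≠ c • v) →
      (((g ^ ((Fintype.card F + 1) / 2)) : Matrix (Fin 2) (Fin 2) F) = 1 → χ g = -1) ∧ (((g ^ ((Fintype.card F + 1) / 2)) : Matrix (Fin 2) (Fin 2) F) ≠ 1 → χ g = 1)) := by
  classical
  have h2 : (2 : F) ≠ 0 := CfsgLib.SL2.two_ne_zero_iff_odd.2 hodd
  obtain ⟨ν, hν⟩ := CfsgLib.Sl2Chars.exists_nonsquare h2
  obtain ⟨k, hk⟩ := hodd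
  refine ⟨fun hd h01 h10 h00 => ?_, fun hd hg => ?_⟩
  · obtain ⟨a, ha, rfl⟩ := CfsgLib.Sl2Chars.exists_d_of_diag h01 h10 h00
    rcases CfsgLib.Sl2Chars.pat_deg_cases h2 hν ⟨χ, hχ⟩ hd with
      ⟨-, e⟩ | ⟨-, e⟩ | ⟨-, e⟩ | ⟨h, -⟩ | ⟨-, e⟩ | ⟨-, e⟩
    all_goals try omega
    have h0 : CfsgLib.Sl2Chars.nU (F := F) ⟨χ, hχ⟩ 0 ≠ 0 := by
      rcases h with h | h <;> simp only [CfsgLib.Sl2Chars.pat, Prod.mk.injEq] at h <;> omega
    rcases CfsgLib.Sl2Chars.noncusp_cases h2 hν h0 with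
      h' | h' | ⟨α, -, -, h'⟩ | ⟨α, φ, hα, hα1, -, he, -⟩
    · rcases h with h | h <;> simp [h', CfsgLib.Sl2Chars.pat_oneChar hν] at h
    · rcases h with h | h <;> simp [h', CfsgLib.Sl2Chars.pat_stChar] at h
    · rcases h with h | h <;> simp [h'] at h
    · rw [show χ (CfsgLib.SL2.d a) = _ from CfsgLib.Sl2Chars.apply_d_half h2 hν hα hα1 he ha]
      simp only [CfsgLib.SL2.coe_d, Matrix.of_apply, Matrix.cons_val', Matrix.cons_val_zero,
        Matrix.empty_val', Matrix.cons_val_fin_one]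
      exact ⟨fun hs => CfsgLib.Sl2Chars.chiQ_of_isSquare a.ne_zero hs,
        fun hs => CfsgLib.Sl2Chars.chiQ_of_not hs⟩
  · have hns := CfsgLib.Sl2Chars.not_isSplitTrace_of_forall hg
    obtain ⟨hcyc, hcard⟩ := CfsgLib.SL2.centralizer_nonsplit hns
    have hmem : g ∈ Subgroup.centralizer ({g} : Set (Matrix.SpecialLinearGroup (Fin 2) F)) :=
      Subgroup.mem_centralizer_singleton_iff.2 rfl
    have hz := CfsgLib.SL2.not_mem_center_of_tr_sq_ne
      (CfsgLib.SL2.sq_ne_four_of_not_isSplitTrace hns)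
    rcases CfsgLib.Sl2Chars.pat_deg_cases h2 hν ⟨χ, hχ⟩ hd with
      ⟨-, e⟩ | ⟨-, e⟩ | ⟨-, e⟩ | ⟨-, e⟩ | ⟨-, e⟩ | ⟨h, -⟩
    all_goals try omega
    have hv : χ g = _ := CfsgLib.Sl2Chars.apply_cuspHalf h2 hcyc hcard hν h (c := ⟨g, hmem⟩) hz
    have hm : ((g ^ ((Fintype.card F + 1) / 2)) : Matrix (Fin 2) (Fin 2) F) = 1 ↔
        g ^ ((Fintype.card F + 1) / 2) = 1 := by
      rw [← Matrix.SpecialLinearGroup.coe_pow, ← Matrix.SpecialLinearGroup.coe_one]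
      exact Subtype.ext_iff.symm
    rw [hv]
    exact ⟨fun hp => if_pos (hm.1 hp), fun hp => if_neg fun hp' => hp (hm.2 hp')⟩

end Cfsg.Agent.S2435
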