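import Cfsg.Statements.S2438
import Cfsg.Agent.Sl2Chars.Degrees
import Cfsg.Agent.Eq.Def_Characters
-- import your own Cfsg.Agent.* helpers here

set_option autoImplicit false
open Cfsg

namespace Cfsg.Agent.S2438

/-- Let F be a finite field with q elements, q odd, q ≥ 5, U the upper unitriangular subgroup of SL₂ over F, and χ an irreducible complex character. The sum of the values of χ over U equals 2q, q, 0, q, 0 according as the degree of χ is q + 1, q, q − 1, (q + 1)/2, (q − 1)/2; so among these five degrees the sum vanishes exactly for the degrees q − 1 and (q − 1)/2, i.e. the irreducible characters of those two degrees are the ones whose restriction to U does not contain the trivial character (the cuspidal characters), while those of degree q + 1, q and (q + 1)/2 are not cuspidal. -/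
theorem result {F : Type*} [Field F] [Fintype F] [DecidableEq F] (hodd : Odd (Fintype.card F)) (hq : 5 ≤ Fintype.card F)
    (χ : Matrix.SpecialLinearGroup (Fin 2) F → ℂ) (hχ : Cfsg.IsIrrCharacter (Matrix.SpecialLinearGroup (Fin 2) F) χ) :
    (χ 1 = (Fintype.card F : ℂ) + 1 →
      (∑ g : Matrix.SpecialLinearGroup (Fin 2) F, if (g : Matrix (Fin 2) (Fin 2) F) 1 0 = 0 ∧ (g : Matrix (Fin 2) (Fin 2) F) 0 0 = 1 ∧ (g : Matrix (Fin 2) (Fin 2) F) 1 1 = 1 then χ g else 0) = 2 * (Fintype.card F : ℂ)) ∧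
    (χ 1 = (Fintype.card F : ℂ) →
      (∑ g : Matrix.SpecialLinearGroup (Fin 2) F, if (g : Matrix (Fin 2) (Fin 2) F) 1 0 = 0 ∧ (g : Matrix (Fin 2) (Fin 2) F) 0 0 = 1 ∧ (g : Matrix (Fin 2) (Fin 2) F) 1 1 = 1 then χ g else 0) = (Fintype.card F : ℂ)) ∧
    (χ 1 = (Fintype.card F : ℂ) - 1 →
      (∑ g : Matrix.SpecialLinearGroup (Fin 2) F, if (g : Matrix (Fin 2) (Fin 2) F) 1 0 = 0 ∧ (g : Matrix (Fin 2) (Fin 2) F) 0 0 = 1 ∧ (g : Matrix (Fin 2) (Fin 2) F) 1 1 = 1 then χ g else 0) = 0) ∧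
    (χ 1 = (((Fintype.card F + 1) / 2 : ℕ) : ℂ) →
      (∑ g : Matrix.SpecialLinearGroup (Fin 2) F, if (g : Matrix (Fin 2) (Fin 2) F) 1 0 = 0 ∧ (g : Matrix (Fin 2) (Fin 2) F) 0 0 = 1 ∧ (g : Matrix (Fin 2) (Fin 2) F) 1 1 = 1 then χ g else 0) = (Fintype.card F : ℂ)) ∧
    (χ 1 = (((Fintype.card F - 1) / 2 : ℕ) : ℂ) →
      (∑ g : Matrix.SpecialLinearGroup (Fin 2) F, if (g : Matrix (Fin 2) (Fin 2) F) 1 0 = 0 ∧ (g : Matrix (Fin 2) (Fin 2) F) 0 0 = 1 ∧ (g : Matrix (Fin 2) (Fin 2) F) 1 1 = 1 then χ g else 0) = 0) := by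
  classical
  have h2 : (2 : F) ≠ 0 := CfsgLib.SL2.two_ne_zero_iff_odd.2 hodd
  obtain ⟨ν, hν⟩ := CfsgLib.Sl2Chars.exists_nonsquare h2
  obtain ⟨χ, rfl⟩ : ∃ x : IrrCharacter (Matrix.SpecialLinearGroup (Fin 2) F),
      (x : Matrix.SpecialLinearGroup (Fin 2) F → ℂ) = χ := ⟨⟨χ, hχ⟩, rfl⟩
  have hsum : (∑ g : Matrix.SpecialLinearGroup (Fin 2) F,
      if (g : Matrix (Fin 2) (Fin 2) F) 1 0 = 0 ∧ (g : Matrix (Fin 2) (Fin 2) F) 0 0 = 1 ∧
        (g : Matrix (Fin 2) (Fin 2) F) 1 1 = 1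
      then (χ : Matrix.SpecialLinearGroup (Fin 2) F → ℂ) g else 0) =
      (Fintype.card F : ℂ) * (CfsgLib.Sl2Chars.nU χ 0 : ℂ) := by
    rw [← CfsgLib.Sl2Chars.nU_spec, CfsgLib.Sl2Chars.mU, ← mul_assoc,
      mul_inv_cancel₀ CfsgLib.Sl2Chars.card_cast_ne_zero, one_mul, ← Finset.sum_filter]
    refine Finset.sum_bij' (fun g _ => (g : Matrix (Fin 2) (Fin 2) F) 0 1)
      (fun t _ => CfsgLib.SL2.u t) (fun _ _ => Finset.mem_univ _) (fun t _ => by simp)
      (fun g hg => ?_) (fun t _ => by simp) (fun g hg => ?_)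
    all_goals
      simp only [Finset.mem_filter, Finset.mem_univ, true_and] at hg
      have hu : CfsgLib.SL2.u ((g : Matrix (Fin 2) (Fin 2) F) 0 1) = g := by
        apply CfsgLib.SL2.ext4 <;> simp [hg.1, hg.2.1, hg.2.2]
    · exact hu
    · simp [hu]
  obtain ⟨k, hk⟩ := hodd
  rw [hsum, ← Nat.cast_add_one,
    show (Fintype.card F : ℂ) - 1 = ((Fintype.card F - 1 : ℕ) : ℂ) by
      rw [Nat.cast_sub (by omega), Nat.cast_one]]
  refine ⟨fun hd => ?_, fun hd => ?_, fun hd => ?_, fun hd => ?_, fun hd => ?_⟩ <;>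
    rcases CfsgLib.Sl2Chars.pat_deg_cases h2 hν χ hd with
      ⟨h, e⟩ | ⟨h, e⟩ | ⟨h, e⟩ | ⟨h, e⟩ | ⟨h, e⟩ | ⟨h, e⟩
  all_goals try omega
  all_goals simp only [CfsgLib.Sl2Chars.pat, Prod.mk.injEq] at h
  all_goals first
    | (rw [h.1]; norm_num [mul_comm])
    | (rcases h with h | h <;> rw [h.1] <;> norm_num)

end Cfsg.Agent.S2438
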