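import Cfsg.Statements.S2439
import Cfsg.Agent.SlBlocks.Count
-- import your own Cfsg.Agent.* helpers here

set_option autoImplicit false
open Cfsg

namespace Cfsg.Agent.S2439

/-- Let F be a finite field with q elements of odd characteristic p, and M a maximal ideal of the algebraic integers containing p. Then SL₂ over F has exactly three p-blocks relative to M: the irreducible character of degree q (the Steinberg character) alone; the other irreducible characters taking the same value at −1 as at 1 (the principal block); and the irreducible characters χ with χ(−1) = −χ(1). Every Sylow p-subgroup is a defect group of each of the last two blocks. -/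
theorem result {F : Type*} [Field F] [Fintype F] (p : ℕ) [Fact p.Prime] [CharP F p] (hp : p ≠ 2)
    (M : Ideal Cfsg.AlgInt) (hM : Cfsg.IsPModular p M) :
    (∀ B : Set (Cfsg.IrrCharacter (Matrix.SpecialLinearGroup (Fin 2) F)), Cfsg.IsPBlock M B ↔
      (B = {χ : Cfsg.IrrCharacter (Matrix.SpecialLinearGroup (Fin 2) F) | (χ : Matrix.SpecialLinearGroup (Fin 2) F → ℂ) 1 = (Fintype.card F : ℂ)} ∨
       B = {χ : Cfsg.IrrCharacter (Matrix.SpecialLinearGroup (Fin 2) F) | (χ : Matrix.SpecialLinearGroup (Fin 2) F → ℂ) (-1) = (χ : Matrix.SpecialLinearGroup (Fin 2) F → ℂ) 1 ∧ (χ : Matrix.SpecialLinearGroup (Fin 2) F → ℂ) 1 ≠ (Fintype.card F : ℂ)} ∨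
       B = {χ : Cfsg.IrrCharacter (Matrix.SpecialLinearGroup (Fin 2) F) | (χ : Matrix.SpecialLinearGroup (Fin 2) F → ℂ) (-1) = -(χ : Matrix.SpecialLinearGroup (Fin 2) F → ℂ) 1})) ∧
    Nat.card {B : Set (Cfsg.IrrCharacter (Matrix.SpecialLinearGroup (Fin 2) F)) // Cfsg.IsPBlock M B} = 3 ∧
    ∀ P : Sylow p (Matrix.SpecialLinearGroup (Fin 2) F),
      Cfsg.IsDefectGroup p M {χ : Cfsg.IrrCharacter (Matrix.SpecialLinearGroup (Fin 2) F) | (χ : Matrix.SpecialLinearGroup (Fin 2) F → ℂ) (-1) = (χ : Matrix.SpecialLinearGroup (Fin 2) F → ℂ) 1 ∧ (χ : Matrix.SpecialLinearGroup (Fin 2) F → ℂ) 1 ≠ (Fintype.card F : ℂ)} (P : Subgroup (Matrix.SpecialLinearGroup (Fin 2) F)) ∧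
      Cfsg.IsDefectGroup p M {χ : Cfsg.IrrCharacter (Matrix.SpecialLinearGroup (Fin 2) F) | (χ : Matrix.SpecialLinearGroup (Fin 2) F → ℂ) (-1) = -(χ : Matrix.SpecialLinearGroup (Fin 2) F → ℂ) 1} (P : Subgroup (Matrix.SpecialLinearGroup (Fin 2) F)) := by
  classical
  open CfsgLib.SlBlocks CfsgLib.Blocks in
  haveI := hM.2.1
  haveI : Fact (Even (Fintype.card (Fin (1 + 1)))) := ⟨by simp⟩
  change (∀ B : Set (IrrCharacter (SLG 1 F)), _) ∧ _
  have hm : (0 : ℕ) < 1 := one_pos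
  -- the Steinberg character
  have hU : Nat.card (UU 1 F) = Fintype.card F := by
    rw [CfsgLib.Classical.Linear.card_upperUnitriSL]; simp
  have hst1 : (stIrr 1 F : SLG 1 F → ℂ) 1 = (Fintype.card F : ℂ) := by
    rw [← hU]; exact stChar_one (m := 1) (F := F)
  have hdeg : ∀ χ : IrrCharacter (SLG 1 F),
      (χ : SLG 1 F → ℂ) 1 = (Fintype.card F : ℂ) ↔ χ = stIrr 1 F := by
    intro χ
    refine ⟨fun h => ?_, fun h => h ▸ hst1⟩
    have hd : charDegree (χ : SLG 1 F → ℂ) = p ^ (Nat.card (SLG 1 F)).factorization p := by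
      rw [CfsgLib.Chars.charDegree_eq_of_map_one h, ← hU, card_UU_eq (p := p)]
    have hb := (Cfsg.Agent.S0914.result p M hM χ).1 (by
      rw [hd]; exact Nat.not_dvd_ordCompl (Fact.out : p.Prime) Nat.card_pos.ne')
    have hB : IsPBlock M ({χ} : Set (IrrCharacter (SLG 1 F))) := ⟨χ, hb.symm⟩
    by_contra hne
    have h2 := blockDefect_of_ne (p := p) hM hm hB fun e => hne (Set.singleton_injective e)
    rw [blockDefect, Set.image_singleton, csInf_singleton, hd,
      Nat.Prime.factorization_pow Fact.out, Finsupp.single_eq_same, Nat.sub_self] at h2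
    exact (factorization_pos (p := p) (F := F) hm).ne h2
  -- scalars
  have hsc : ∀ s : SLG 1 F, IsScalar s → s = 1 ∨ s = -1 := by
    intro s hs
    have hd := s.2
    rw [Matrix.det_fin_two] at hd
    have h01 : ent s 0 1 = 0 := hs.1 0 1 (by decide)
    simp only [ent] at h01
    rw [h01, zero_mul, sub_zero, show (s : Matrix (Fin 2) (Fin 2) F) 1 1 =
      (s : Matrix (Fin 2) (Fin 2) F) 0 0 from hs.2 1 0, mul_self_eq_one_iff] at hd
    refine hd.imp (fun h => slg_ext fun a b => ?_) (fun h => slg_ext fun a b => ?_)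
    · by_cases hab : a = b
      · subst hab; rw [hs.2 a 0, ent_one, if_pos rfl]; exact h
      · rw [hs.1 a b hab, ent_one, if_neg hab]
    · show ent s a b = -(1 : Matrix (Fin (1 + 1)) (Fin (1 + 1)) F) a b
      by_cases hab : a = b
      · subst hab; rw [hs.2 a 0, Matrix.one_apply_eq]; exact h
      · rw [hs.1 a b hab, Matrix.one_apply_ne hab, neg_zero]
  have hneg : IsScalar (-1 : SLG 1 F) :=
    ⟨fun a b h => by
      show -(1 : Matrix (Fin (1 + 1)) (Fin (1 + 1)) F) a b = 0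
      rw [Matrix.one_apply_ne h, neg_zero],
     fun a b => by
      show -(1 : Matrix (Fin (1 + 1)) (Fin (1 + 1)) F) a a = -(1 : Matrix (Fin (1 + 1)) (Fin (1 + 1)) F) b b
      rw [Matrix.one_apply_eq, Matrix.one_apply_eq]⟩
  have hval : ∀ χ : IrrCharacter (SLG 1 F),
      (χ : SLG 1 F → ℂ) (-1) = omg χ (-1) * (χ : SLG 1 F → ℂ) 1 := fun χ => by
    conv_lhs => rw [← mul_one (-1 : SLG 1 F)]
    exact omg_mul χ hneg 1
  have hpm : ∀ χ : IrrCharacter (SLG 1 F), omg χ (-1) = 1 ∨ omg χ (-1) = -1 := fun χ => by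
    have h := omg_mul_omg χ hneg (-1)
    rw [neg_mul_neg, mul_one, omg_one] at h
    exact mul_self_eq_one_iff.1 h.symm
  have homg : ∀ {χ ψ : IrrCharacter (SLG 1 F)}, omg χ (-1) = omg ψ (-1) →
      ∀ s, IsScalar s → omg χ s = omg ψ s := by
    intro χ ψ h s hs
    rcases hsc s hs with rfl | rfl
    · rw [omg_one, omg_one]
    · exact h
  set A : Set (IrrCharacter (SLG 1 F)) :=
    {χ | (χ : SLG 1 F → ℂ) 1 = (Fintype.card F : ℂ)} with hA
  set Bp : Set (IrrCharacter (SLG 1 F)) :=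
    {χ | (χ : SLG 1 F → ℂ) (-1) = (χ : SLG 1 F → ℂ) 1 ∧
      (χ : SLG 1 F → ℂ) 1 ≠ (Fintype.card F : ℂ)} with hBp
  set Bm : Set (IrrCharacter (SLG 1 F)) :=
    {χ | (χ : SLG 1 F → ℂ) (-1) = -(χ : SLG 1 F → ℂ) 1} with hBm
  have hAst : A = {stIrr 1 F} := Set.ext fun χ => hdeg χ
  have memp : ∀ χ : IrrCharacter (SLG 1 F), χ ∈ Bp ↔ omg χ (-1) = 1 ∧ χ ≠ stIrr 1 F := fun χ => by
    show _ ∧ _ ↔ _
    rw [hval χ, mul_eq_right₀ (CfsgLib.Chars.map_one_ne_zero χ)]
    exact and_congr_right fun _ => not_congr (hdeg χ)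
  have memm : ∀ χ : IrrCharacter (SLG 1 F), χ ∈ Bm ↔ omg χ (-1) = -1 := fun χ => by
    show _ = _ ↔ _
    rw [hval χ, ← neg_one_mul ((χ : SLG 1 F → ℂ) 1),
      mul_left_inj' (CfsgLib.Chars.map_one_ne_zero χ)]
  have hblock : ∀ χ : IrrCharacter (SLG 1 F), χ ≠ stIrr 1 F →
      blockOf M (χ : SLG 1 F → ℂ) = if omg χ (-1) = 1 then Bp else Bm := by
    intro χ hχ
    have hB : IsPBlock M (blockOf M (χ : SLG 1 F → ℂ)) := ⟨χ, rfl⟩
    ext ψ
    constructor
    · intro hψ
      have hne : ψ ≠ stIrr 1 F := fun e => by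
        subst e
        have := eq_blockOf_of_mem hB hψ
        rw [blockOf_stIrr hM] at this
        exact blockOf_ne_st hχ this
      have he := omg_eq_of_mem hM hB hψ (self_mem_blockOf χ) hneg
      rcases hpm χ with h | h
      · rw [if_pos h]; exact (memp ψ).2 ⟨he.trans h, hne⟩
      · rw [if_neg (by rw [h]; norm_num)]; exact (memm ψ).2 (he.trans h)
    · intro hψ
      have hh : omg ψ (-1) = omg χ (-1) ∧ ψ ≠ stIrr 1 F := by
        rcases hpm χ with h | h
        · rw [if_pos h, memp] at hψ; exact ⟨hψ.1.trans h.symm, hψ.2⟩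
        · rw [if_neg (by rw [h]; norm_num), memm] at hψ
          refine ⟨hψ.trans h.symm, fun e => ?_⟩
          rw [e, omg_stIrr hneg] at hψ
          norm_num at hψ
      rw [← eq_of_omg_eq hM hm ⟨ψ, rfl⟩ (blockOf_ne_st hh.2) hB (blockOf_ne_st hχ)
        (self_mem_blockOf ψ) (self_mem_blockOf χ) (homg hh.1)]
      exact self_mem_blockOf ψ
  have hp2 : (-1 : SLG 1 F) ≠ 1 := fun e => by
    have h := congrArg (fun g : SLG 1 F => ent g 0 0) e
    simp only [ent_one] at h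
    change -(1 : Matrix (Fin (1 + 1)) (Fin (1 + 1)) F) 0 0 = _ at h
    rw [Matrix.one_apply_eq, if_pos trivial] at h
    exact Ring.neg_one_ne_one_of_char_ne_two (by rwa [ringChar.eq F p]) h
  obtain ⟨χm, hχm⟩ : ∃ χ : IrrCharacter (SLG 1 F), omg χ (-1) = -1 := by
    by_contra hc
    push_neg at hc
    refine hp2 (CfsgLib.Chars.eq_one_of_forall_eq fun χ => ?_)
    rw [hval χ, (hpm χ).resolve_right (hc χ), one_mul]
  have hm_st : χm ≠ stIrr 1 F := fun e => by
    rw [e, omg_stIrr hneg] at hχm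
    norm_num at hχm
  have h1_st : CfsgLib.Chars.oneChar (SLG 1 F) ≠ stIrr 1 F := fun e => by
    have h := hst1
    rw [← e, CfsgLib.Chars.oneChar_apply] at h
    exact Fintype.one_lt_card.ne (Nat.cast_injective (R := ℂ) (by exact_mod_cast h))
  have hone : omg (CfsgLib.Chars.oneChar (SLG 1 F)) (-1) = 1 := by simp [omg]
  have hPb : IsPBlock M Bp := ⟨CfsgLib.Chars.oneChar (SLG 1 F), by rw [hblock _ h1_st, if_pos hone]⟩
  have hMb : IsPBlock M Bm := ⟨χm, by rw [hblock _ hm_st, if_neg (by rw [hχm]; norm_num)]⟩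
  have hPne : Bp ≠ {stIrr 1 F} := fun e =>
    ((memp _).1 (by rw [e]; rfl : stIrr 1 F ∈ Bp)).2 rfl
  have hMne : Bm ≠ {stIrr 1 F} := fun e => by
    have h := (memm _).1 (by rw [e]; rfl : stIrr 1 F ∈ Bm)
    rw [omg_stIrr hneg] at h
    norm_num at h
  refine ⟨fun B => ⟨fun hB => ?_, fun h => ?_⟩, ?_, fun P =>
    ⟨isDefectGroup_sylow hM hm hPb hPne P, isDefectGroup_sylow hM hm hMb hMne P⟩⟩
  · obtain ⟨χ, rfl⟩ := hB
    by_cases hχ : χ = stIrr 1 F
    · exact Or.inl (by rw [hχ, blockOf_stIrr hM, ← hAst])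
    · rw [hblock χ hχ]
      split_ifs
      · exact Or.inr (Or.inl rfl)
      · exact Or.inr (Or.inr rfl)
  · rcases h with h | h | h <;> rw [h]
    · exact (show IsPBlock M A by rw [hAst]; exact isPBlock_st hM)
    · exact hPb
    · exact hMb
  · refine (card_blocks hM hm).trans ?_
    obtain ⟨k, hk⟩ := Nat.Odd.sub_odd (Nat.odd_iff.2 (FiniteField.odd_card_of_char_ne_two (F := F)
      (by rwa [ringChar.eq F p]))) odd_one
    rw [show Nat.gcd (1 + 1) (Fintype.card F - 1) = 2 from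
      Nat.gcd_eq_left ⟨k, by omega⟩]

end Cfsg.Agent.S2439
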