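import Cfsg.Statements.S2441
import Cfsg.Agent.SteinbergChar.BlockCount
import Cfsg.Agent.Chevalley.All

set_option autoImplicit false
open Cfsg CfsgLib.SteinbergChar

namespace Cfsg.Agent.S2441

/-- For a prime p, the Chevalley groups of types G₂, F₄ and E₈ over the field with p elements (types for which the simply connected and adjoint groups coincide, so the group has trivial centre) each have exactly two p-blocks relative to any maximal ideal of the algebraic integers containing p (only the count is asserted; it arises as the defect-zero block of the Steinberg character plus a single block of maximal defect). -/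
theorem result (p : ℕ) [Fact p.Prime] (M : Ideal Cfsg.AlgInt) (hM : Cfsg.IsPModular p M) :
    Nat.card {B : Set (Cfsg.IrrCharacter (Cfsg.Lie.chevG2.group (ZMod p))) // Cfsg.IsPBlock M B} = 2 ∧
    Nat.card {B : Set (Cfsg.IrrCharacter (Cfsg.Lie.chevF4.group (ZMod p))) // Cfsg.IsPBlock M B} = 2 ∧
    Nat.card {B : Set (Cfsg.IrrCharacter (Cfsg.Lie.chevE8.group (ZMod p))) // Cfsg.IsPBlock M B} = 2 := by
  have hG : Spread CfsgLib.Chevalley.sysG2 := by
    show ∀ s < Cfsg.Lie.chevG2.rank, ∀ j < Cfsg.Lie.chevG2.rank, j ≠ s → ∃ r < Cfsg.Lie.chevG2.nroots,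
      0 < CfsgLib.Chevalley.tabG2.coord Cfsg.Lie.chevG2.rank s r ∧ Cfsg.Lie.chevG2.cartan j r = -1
    decide +kernel
  have hF : Spread CfsgLib.Chevalley.sysF4 := by
    show ∀ s < Cfsg.Lie.chevF4.rank, ∀ j < Cfsg.Lie.chevF4.rank, j ≠ s → ∃ r < Cfsg.Lie.chevF4.nroots,
      0 < CfsgLib.Chevalley.tabF4.coord Cfsg.Lie.chevF4.rank s r ∧ Cfsg.Lie.chevF4.cartan j r = -1
    decide +kernel
  have hE : Spread CfsgLib.Chevalley.sysE8 := by
    show ∀ s < Cfsg.Lie.chevE8.rank, ∀ j < Cfsg.Lie.chevE8.rank, j ≠ s → ∃ r < Cfsg.Lie.chevE8.nroots,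
      0 < CfsgLib.Chevalley.tabE8.coord Cfsg.Lie.chevE8.rank s r ∧ Cfsg.Lie.chevE8.cartan j r = -1
    decide +kernel
  exact ⟨natCard_blocks _ (ZMod p) p hG (by decide +kernel) M hM,
    natCard_blocks _ (ZMod p) p hF (by decide +kernel) M hM,
    natCard_blocks _ (ZMod p) p hE (by decide +kernel) M hM⟩

end Cfsg.Agent.S2441
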