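import Cfsg.Statements.S2442
import Cfsg.Agent.GLCusp.Count

set_option autoImplicit false
open scoped MatrixGroups
open Cfsg

namespace Cfsg.Agent.S2442

open Classical in
/-- Let F be a finite field with q elements and n ≥ 2. Call a complex character χ of GL_n over F cuspidal when, for every 0 < m < n, the sum of χ over the subgroup of matrices that agree with the identity outside the upper right m × (n − m) block vanishes (the restriction of χ to the unipotent radical of each maximal standard parabolic subgroup contains no principal constituent). Then GL_n has at least φ(qⁿ − 1)/n distinct cuspidal irreducible characters of degree (q − 1)(q² − 1)⋯(q^(n−1) − 1), φ being Euler's function (in particular at least one). -/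
theorem result {F : Type*} [Field F] [Fintype F] [DecidableEq F] (n : ℕ) (hn : 2 ≤ n) :
    Nat.totient (Fintype.card F ^ n - 1) / n ≤
      Nat.card {χ : Cfsg.IrrCharacter (GL (Fin n) F) //
        (χ : GL (Fin n) F → ℂ) 1 = ∏ i ∈ Finset.Ico 1 n, ((Fintype.card F : ℂ) ^ i - 1) ∧
        ∀ m : ℕ, 0 < m → m < n →
          (∑ g : GL (Fin n) F,
            if (∀ i j : Fin n, ¬ (i.val < m ∧ m ≤ j.val) → (g : Matrix (Fin n) (Fin n) F) i j = (1 : Matrix (Fin n) (Fin n) F) i j)
            then (χ : GL (Fin n) F → ℂ) g else 0) = 0} := by
  refine (CfsgLib.GLCusp.totient_div_le_card_cusp (F := F) hn).trans ?_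
  refine Nat.card_le_card_of_injective (fun χ => ⟨χ.1, χ.2.1, fun m hm hmn => ?_⟩)
    fun χ χ' e => Subtype.ext (congrArg Subtype.val e :)
  refine Eq.trans ?_ (CfsgLib.GLCusp.cuts_of_isCusp χ.2.2 m hm hmn)
  rw [CfsgLib.GLCusp.psum]
  refine Finset.sum_congr rfl fun g _ => ?_
  simp only [CfsgLib.GLCusp.Pat]
  congr 1

end Cfsg.Agent.S2442
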