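import Cfsg.Statements.S2500
import Cfsg.Agent.TwoClassCover.Linear
import Cfsg.Agent.TwoClassCover.G2
import Cfsg.Agent.TwoClassCover.SympTwo
import Cfsg.Agent.TwoClassCover.UnitaryFour
import Cfsg.Agent.TwoClassCover.UnitaryThree
import Cfsg.Agent.TwoClassCover.SixMain

set_option autoImplicit false
set_option linter.style.haveILetI false
open Cfsg

namespace Cfsg.Agent.S2500

/-- The infinite families of simple groups with normal covering number 2. For a finite field F: each of PSL_2(F) (|F| ≥ 4), PSL_3(F), PSL_4(F), PSU_4 over F (|F| = q²), PSU_3 over F when |F| = q² with q a power of 3, PSp_{2m}(F) for |F| even, m ≥ 2 and (m, |F|) ≠ (2, 2), PSp_6(F) for |F| a power of 3, and G_2(F) (automorphisms of the split octonions) for |F| = 2^a ≥ 4 is the union of the conjugates of two proper subgroups: there are proper subgroups H, K such that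 every element is conjugate into H or into K. -/
theorem result {F : Type} [Field F] [Fintype F] :
    (4 ≤ Fintype.card F → (∃ H K : Subgroup (Matrix.ProjectiveSpecialLinearGroup (Fin 2) F), H ≠ ⊤ ∧ K ≠ ⊤ ∧ ∀ g : (Matrix.ProjectiveSpecialLinearGroup (Fin 2) F), ∃ x : (Matrix.ProjectiveSpecialLinearGroup (Fin 2) F), x * g * x⁻¹ ∈ H ∨ x * g * x⁻¹ ∈ K)) ∧
    (∃ H K : Subgroup (Matrix.ProjectiveSpecialLinearGroup (Fin 3) F), H ≠ ⊤ ∧ K ≠ ⊤ ∧ ∀ g : (Matrix.ProjectiveSpecialLinearGroup (Fin 3) F), ∃ x : (Matrix.ProjectiveSpecialLinearGroup (Fin 3) F), x * g * x⁻¹ ∈ H ∨ x * g * x⁻¹ ∈ K) ∧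
    (∃ H K : Subgroup (Matrix.ProjectiveSpecialLinearGroup (Fin 4) F), H ≠ ⊤ ∧ K ≠ ⊤ ∧ ∀ g : (Matrix.ProjectiveSpecialLinearGroup (Fin 4) F), ∃ x : (Matrix.ProjectiveSpecialLinearGroup (Fin 4) F), x * g * x⁻¹ ∈ H ∨ x * g * x⁻¹ ∈ K) ∧
    (∀ q : ℕ, Fintype.card F = q ^ 2 → (∃ H K : Subgroup (Cfsg.PSU 4 F q), H ≠ ⊤ ∧ K ≠ ⊤ ∧ ∀ g : (Cfsg.PSU 4 F q), ∃ x : (Cfsg.PSU 4 F q), x * g * x⁻¹ ∈ H ∨ x * g * x⁻¹ ∈ K)) ∧
    (∀ q a : ℕ, Fintype.card F = q ^ 2 → 1 ≤ a → q = 3 ^ a → (∃ H K : Subgroup (Cfsg.PSU 3 F q), H ≠ ⊤ ∧ K ≠ ⊤ ∧ ∀ g : (Cfsg.PSU 3 F q), ∃ x : (Cfsg.PSU 3 F q), x * g * x⁻¹ ∈ H ∨ x * g * x⁻¹ ∈ K)) ∧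
    (∀ m : ℕ, 2 ≤ m → ¬ Odd (Fintype.card F) → ¬ (m = 2 ∧ Fintype.card F = 2) → (∃ H K : Subgroup (Cfsg.PSp m F), H ≠ ⊤ ∧ K ≠ ⊤ ∧ ∀ g : (Cfsg.PSp m F), ∃ x : (Cfsg.PSp m F), x * g * x⁻¹ ∈ H ∨ x * g * x⁻¹ ∈ K)) ∧
    (∀ a : ℕ, 1 ≤ a → Fintype.card F = 3 ^ a → (∃ H K : Subgroup (Cfsg.PSp 3 F), H ≠ ⊤ ∧ K ≠ ⊤ ∧ ∀ g : (Cfsg.PSp 3 F), ∃ x : (Cfsg.PSp 3 F), x * g * x⁻¹ ∈ H ∨ x * g * x⁻¹ ∈ K)) ∧
    (∀ a : ℕ, 2 ≤ a → Fintype.card F = 2 ^ a → (∃ H K : Subgroup (Cfsg.Lie.G2 F), H ≠ ⊤ ∧ K ≠ ⊤ ∧ ∀ g : (Cfsg.Lie.G2 F), ∃ x : (Cfsg.Lie.G2 F), x * g * x⁻¹ ∈ H ∨ x * g * x⁻¹ ∈ K)) := by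
  have char_of : ∀ p a : ℕ, p.Prime → 1 ≤ a → Fintype.card F = p ^ a → CharP F p := by
    intro p a hp ha h
    obtain ⟨r, hr⟩ := CharP.exists F
    haveI := hr
    obtain ⟨n, hrp, hn⟩ := FiniteField.card F r
    have hdvd : p ∣ r ^ (n : ℕ) := by rw [← hn, h]; exact dvd_pow_self p (by omega)
    rw [(Nat.prime_dvd_prime_iff_eq hp hrp).1 (hp.dvd_of_dvd_pow hdvd)]
    exact hr
  refine ⟨fun _ => CfsgLib.TwoClassCover.covered_psl_two, CfsgLib.TwoClassCover.covered_psl_three,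
    CfsgLib.TwoClassCover.covered_psl_four, fun q hF => CfsgLib.TwoClassCover.covered_psu_four hF,
    fun q a hF ha hq => CfsgLib.TwoClassCover.covered_psu_three hF ha hq, fun m hm hodd _ => ?_,
    fun a ha hF => ?_, fun a ha hF => ?_⟩
  · obtain ⟨r, hr⟩ := CharP.exists F
    haveI := hr
    obtain ⟨n, hrp, hn⟩ := FiniteField.card F r
    have h2 : 2 ∣ r ^ (n : ℕ) := by rw [← hn]; exact (Nat.not_odd_iff_even.1 hodd).two_dvd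
    have hr2 := (Nat.prime_dvd_prime_iff_eq Nat.prime_two hrp).1 (Nat.prime_two.dvd_of_dvd_pow h2)
    subst hr2
    exact CfsgLib.TwoClassCover.covered_psp_two hm
  · haveI := char_of 3 a Nat.prime_three ha hF
    exact CfsgLib.TwoClassCover.Six.covered_psp_six
  · haveI := char_of 2 a Nat.prime_two (by omega) hF
    refine CfsgLib.TwoClassCover.covered_G2 ?_
    calc 4 = 2 ^ 2 := rfl
      _ ≤ 2 ^ a := Nat.pow_le_pow_right (by norm_num) ha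
      _ = _ := hF.symm

end Cfsg.Agent.S2500
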