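import Cfsg.Statements.S2531
-- import your own Cfsg.Agent.* helpers here

set_option autoImplicit false
open Cfsg

namespace Cfsg.Agent.S2531

/-- Let `F` be a finite field and `n ≥ 3`. No set of permutations of the points of the projective space of `Fⁿ`, each induced by an invertible semilinear transformation of `Fⁿ` (so a subset of the full projective semilinear group), is sharply 2-transitive on the points: it is impossible that for all pairs of distinct points `(a, b)` and `(c, d)` exactly one member of the set sends `a` to `c` and `b` to `d`. -/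
theorem result {F : Type*} [Field F] [Finite F]
    (n : ℕ) (hn : 3 ≤ n) (S : Set (Equiv.Perm (Projectivization F (Fin n → F))))
    (hS : ∀ s ∈ S, ∃ (σ : F ≃+* F) (f : (Fin n → F) →ₛₗ[(σ : F →+* F)] (Fin n → F)) (hf : Function.Injective f),
      ∀ x, s x = Projectivization.map f hf x) :
    ¬ (∀ a b c d : Projectivization F (Fin n → F), a ≠ b → c ≠ d →
        ∃! s, s ∈ S ∧ s a = c ∧ s b = d) := by
  classical
  intro h
  haveI : Fintype F := Fintype.ofFinite F
  let P := Projectivization F (Fin n → F)
  have hcard : ∀ (X : Submodule F (Fin n → F)), X ≠ ⊥ → ((Nat.card {x : P // x.rep ∈ X}) : F) = 1 := by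
    intro X hX
    let f : Projectivization F X → {x : P // x.rep ∈ X} := fun x =>
      ⟨Projectivization.map X.subtype X.injective_subtype x, by
        induction x using Projectivization.ind with
        | h v hv =>
          rw [Projectivization.map_mk]
          obtain ⟨a, ha⟩ := Projectivization.exists_smul_eq_mk_rep F (X.subtype v)
            (fun h0 => hv (X.injective_subtype (by simpa using h0)))
          rw [← ha]
          exact X.smul_mem _ v.2⟩
    have hf : Function.Bijective f := by
      constructor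
      · intro a b hab
        exact Projectivization.map_injective (τ := RingHom.id F) X.subtype X.injective_subtype (congrArg Subtype.val hab)
      · rintro ⟨x, hx⟩
        refine ⟨Projectivization.mk F (⟨x.rep, hx⟩ : X) (fun h0 => x.rep_nonzero (congrArg Subtype.val h0)), Subtype.ext ?_⟩
        simp only [f, Projectivization.map_mk, Submodule.subtype_apply, Projectivization.mk_rep]
    rw [← Nat.card_eq_of_bijective f hf]
    have h1 := Projectivization.card' (k := F) (V := X)
    rw [Module.natCard_eq_pow_finrank (K := F)] at h1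
    have h2 := congrArg (fun a : ℕ => (a : F)) h1
    have hq : ((Nat.card F : ℕ) : F) = 0 := by
      rw [Nat.card_eq_fintype_card]; exact Nat.cast_card_eq_zero F
    have hd : Module.finrank F X ≠ 0 := fun h0 => hX (Submodule.finrank_eq_zero.1 h0)
    simp [hq, zero_pow hd, Nat.cast_sub (Nat.one_le_iff_ne_zero.2 (Nat.card_pos (α := F)).ne')] at h2
    rw [Nat.cast_sub Fintype.card_pos] at h2
    simp at h2
    linear_combination h2
  have hne : ∀ (ψ : (Fin n → F) →ₗ[F] F × F), LinearMap.ker ψ ≠ ⊥ := by
    intro ψ h0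
    have := LinearMap.finrank_le_finrank_of_injective (LinearMap.ker_eq_bot.1 h0)
    simp [Module.finrank_prod] at this
    omega
  let i0 : Fin n := ⟨0, by omega⟩
  have he : (Pi.single i0 1 : (Fin n → F)) ≠ 0 := by simp
  let a : P := Projectivization.mk F (Pi.single i0 1 : (Fin n → F)) he
  haveI : Fintype P := Fintype.ofFinite P
  let B : Finset P := Finset.univ.filter fun x => x.rep i0 = 0
  let S0 : Finset (Equiv.Perm P) := Finset.univ.filter fun s => s ∈ S ∧ s a = a
  have haB : ∀ x : P, x.rep i0 = 0 → x ≠ a := by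
    rintro x hx rfl
    obtain ⟨c, hc⟩ := Projectivization.exists_smul_eq_mk_rep F (Pi.single i0 1 : (Fin n → F)) he
    rw [show a.rep = c • (Pi.single i0 1 : (Fin n → F)) from hc.symm] at hx
    simp [Units.smul_def] at hx
  have hex : ∀ b c : P, b ≠ a → c ≠ a → ∃! s, s ∈ S0 ∧ s b = c := by
    intro b c hb hc
    obtain ⟨s, hs, hu⟩ := h a b a c hb.symm hc.symm
    exact ⟨s, ⟨by simp [S0, hs.1, hs.2.1], hs.2.2⟩, fun t ht => hu t ⟨(Finset.mem_filter.1 ht.1).2.1, (Finset.mem_filter.1 ht.1).2.2, ht.2⟩⟩
  have hone : ∀ s ∈ S0, (((B.filter fun b => s b ∈ B).card : ℕ) : F) = 1 := by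
    intro s hs
    obtain ⟨σ, f, hf, hsf⟩ := hS s (Finset.mem_filter.1 hs).2.1
    let ψ : (Fin n → F) →ₗ[F] F × F :=
      { toFun := fun v => (v i0, σ.symm (f v i0))
        map_add' := fun u v => by simp [map_add]
        map_smul' := fun c v => by simp [LinearMap.map_smulₛₗ, map_mul] }
    rw [← hcard (LinearMap.ker ψ) (hne ψ), Nat.card_eq_fintype_card, Fintype.card_subtype]
    congr 2
    ext x
    have hfx : f x.rep ≠ 0 := fun h0 => x.rep_nonzero (hf (h0.trans (map_zero f).symm))
    have hsx : s x = Projectivization.mk F (f x.rep) hfx := by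
      rw [hsf x]
      conv_lhs => rw [← Projectivization.mk_rep x]
      rw [Projectivization.map_mk]
    obtain ⟨c, hc⟩ := Projectivization.exists_smul_eq_mk_rep F (f x.rep) hfx
    simp [B, ψ, hsx, ← hc, Units.smul_def, Prod.ext_iff]
  have hsum : ∑ s ∈ S0, (B.filter fun b => s b ∈ B).card = B.card * B.card := by
    simp only [Finset.card_filter]
    rw [Finset.sum_comm]
    rw [show B.card * B.card = ∑ b ∈ B, B.card by simp]
    refine Finset.sum_congr rfl fun b hb => ?_
    rw [← Finset.card_filter]
    refine Finset.card_bij (fun s _ => s b) (fun s hs => (Finset.mem_filter.1 hs).2) ?_ ?_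
    · intro s hs t ht hst
      simp only [Finset.mem_filter] at hs ht
      obtain ⟨r, -, hr⟩ := hex b (s b) (haB b (Finset.mem_filter.1 hb).2) (haB _ (Finset.mem_filter.1 hs.2).2)
      rw [hr s ⟨hs.1, rfl⟩, hr t ⟨ht.1, hst.symm⟩]
    · intro c hc
      obtain ⟨r, hr, -⟩ := hex b c (haB b (Finset.mem_filter.1 hb).2) (haB _ (Finset.mem_filter.1 hc).2)
      exact ⟨r, Finset.mem_filter.2 ⟨hr.1, hr.2 ▸ hc⟩, hr.2⟩
  have hB : ((B.card : ℕ) : F) = 1 := by
    have := hcard (LinearMap.ker ((LinearMap.proj i0 : (Fin n → F) →ₗ[F] F).prod 0)) (hne _)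
    rw [Nat.card_eq_fintype_card, Fintype.card_subtype] at this
    rw [← this]; congr 2; ext x; simp [B]
  obtain ⟨b0, hb0⟩ : B.Nonempty := by
    rw [Finset.nonempty_iff_ne_empty]
    intro h0; rw [h0] at hB; simp at hB
  have hb0a := haB b0 (Finset.mem_filter.1 hb0).2
  have hS0 : S0.card = (Finset.univ.erase a).card := by
    refine Finset.card_bij (fun s _ => s b0) ?_ ?_ ?_
    · intro s hs
      refine Finset.mem_erase.2 ⟨fun h1 => hb0a (s.injective ?_), Finset.mem_univ _⟩
      rw [h1, (Finset.mem_filter.1 hs).2.2]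
    · intro s hs t ht hst
      have hsa : s b0 ≠ a := fun h1 => hb0a (s.injective (by rw [h1, (Finset.mem_filter.1 hs).2.2]))
      obtain ⟨r, -, hr⟩ := hex b0 (s b0) hb0a hsa
      rw [hr s ⟨hs, rfl⟩, hr t ⟨ht, hst.symm⟩]
    · intro c hc
      obtain ⟨r, hr, -⟩ := hex b0 c hb0a (Finset.mem_erase.1 hc).1
      exact ⟨r, hr.1, hr.2⟩
  have hP : ((Fintype.card P : ℕ) : F) = 1 := by
    have := hcard ⊤ (by intro h0; exact he (by simpa [h0] using (Submodule.mem_top : (Pi.single i0 1 : (Fin n → F)) ∈ (⊤ : Submodule F (Fin n → F)))))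
    rwa [Nat.card_eq_fintype_card, Fintype.card_congr (Equiv.subtypeUnivEquiv (p := fun x : P => x.rep ∈ (⊤ : Submodule F (Fin n → F))) (fun _ => trivial))] at this
  haveI : Nonempty P := ⟨a⟩
  have hfin := congrArg (fun k : ℕ => (k : F)) hsum
  simp only [Nat.cast_sum, Nat.cast_mul, hB] at hfin
  rw [Finset.sum_congr rfl hone, Finset.sum_const, hS0, Finset.card_erase_of_mem (Finset.mem_univ a), Finset.card_univ,
    nsmul_one, Nat.cast_sub Fintype.card_pos, hP] at hfin
  simp at hfin

end Cfsg.Agent.S2531
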