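import Cfsg.Statements.S2532


set_option autoImplicit false
open Cfsg

namespace Cfsg.Agent.S2532

/-- There is a function `f` of two natural-number arguments such that, whenever `m ≥ f(n, r)`, every subgroup of order `n` of the alternating group of degree `m` centralizes some subgroup of that alternating group isomorphic to the alternating group of degree `r`. -/
theorem result :
    ∃ f : ℕ → ℕ → ℕ, ∀ (m r : ℕ) (H : Subgroup ↥(alternatingGroup (Fin m))), f (Nat.card H) r ≤ m →
      ∃ K : Subgroup ↥(alternatingGroup (Fin m)), Nonempty (↥K ≃* ↥(alternatingGroup (Fin r))) ∧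
        K ≤ Subgroup.centralizer (H : Set ↥(alternatingGroup (Fin m))) := by
  classical
  refine ⟨fun a r => a * (r * 2 ^ a), fun m r H hm => ?_⟩
  rcases Nat.eq_zero_or_pos r with rfl | hr
  · exact ⟨⊥, ⟨(MulEquiv.ofUnique : (⊥ : Subgroup ↥(alternatingGroup (Fin m))) ≃* ↥(alternatingGroup (Fin 0)))⟩, bot_le⟩
  let Ω := MulAction.orbitRel.Quotient H (Fin m)
  haveI : Fintype Ω := Fintype.ofFinite _
  haveI : Fintype H := Fintype.ofFinite _
  let stab : Ω → Finset H := fun w => Finset.univ.filter fun h => h • (Quotient.out w : Fin m) = Quotient.out w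
  have hΩ : m ≤ Nat.card H * Fintype.card Ω := by
    have hs : Function.Surjective (fun p : H × Ω => p.1 • (Quotient.out p.2 : Fin m)) := by
      intro x
      have h := Quotient.mk_out (s := MulAction.orbitRel H (Fin m)) x
      obtain ⟨g, hg⟩ := MulAction.orbitRel_apply.1 ((MulAction.orbitRel H (Fin m)).symm' h)
      exact ⟨(g, Quotient.mk _ x), hg⟩
    have := Fintype.card_le_of_surjective _ hs
    simpa [Nat.card_eq_fintype_card] using this
  obtain ⟨S0, hS0⟩ := Fintype.exists_le_card_fiber_of_mul_le_card stab (n := r) (by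
    rw [Fintype.card_finset]
    have h := le_trans hm hΩ
    rw [← Nat.card_eq_fintype_card (α := H), mul_comm]
    exact Nat.le_of_mul_le_mul_left h Nat.card_pos)
  obtain ⟨ι⟩ : Nonempty (Fin r ↪ {w // stab w = S0}) :=
    Function.Embedding.nonempty_of_card_le (by rw [Fintype.card_fin, Fintype.card_subtype]; exact hS0)
  let x : Fin r → Fin m := fun i => Quotient.out (ι i).1
  let i0 : Fin r := ⟨0, hr⟩
  let S : Subgroup H := MulAction.stabilizer H (x i0)
  have hstab : ∀ i, ∀ h : H, h • x i = x i ↔ h ∈ S := by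
    intro i h
    have e : stab (ι i).1 = stab (ι i0).1 := (ι i).2.trans (ι i0).2.symm
    have := Finset.ext_iff.1 e h
    simpa [stab, S, x, MulAction.mem_stabilizer_iff] using this
  let ev : Fin r → H ⧸ S → Fin m := fun i => Quotient.lift (fun h : H => h • x i) (fun a b hab => by
    have := (hstab i (a⁻¹ * b)).2 (QuotientGroup.leftRel_apply.1 hab)
    rw [mul_smul, inv_smul_eq_iff] at this
    exact this.symm)
  have hev : ∀ i (h : H), ev i (QuotientGroup.mk h) = h • x i := fun _ _ => rfl
  let E : Fin r × (H ⧸ S) ↪ Fin m := ⟨fun p => ev p.1 p.2, by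
    rintro ⟨i, a⟩ ⟨j, b⟩ hab
    induction a using QuotientGroup.induction_on with
    | H a =>
      induction b using QuotientGroup.induction_on with
      | H b =>
        simp only [hev] at hab
        have hij : (ι i).1 = (ι j).1 := by
          rw [← Quotient.out_eq (ι i).1, ← Quotient.out_eq (ι j).1]
          refine Quotient.sound (MulAction.orbitRel_apply.2 ⟨a⁻¹ * b, ?_⟩)
          show (a⁻¹ * b) • x j = x i
          rw [mul_smul, ← hab, inv_smul_smul]
        obtain rfl : i = j := ι.injective (Subtype.ext hij)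
        refine Prod.ext rfl (QuotientGroup.eq.2 ((hstab i _).1 ?_))
        rw [mul_smul, ← hab, inv_smul_smul]⟩
  let pc : Equiv.Perm (Fin r) →* Equiv.Perm (Fin r × (H ⧸ S)) :=
    { toFun := fun σ => σ.prodCongr (1 : Equiv.Perm (H ⧸ S))
      map_one' := rfl
      map_mul' := fun _ _ => rfl }
  let Φ : Equiv.Perm (Fin r) →* Equiv.Perm (Fin m) := (Equiv.Perm.viaEmbeddingHom E).comp pc
  have hΦ1 : ∀ σ p, Φ σ (E p) = E (pc σ p) := fun σ p => Equiv.Perm.viaEmbedding_apply _ _ _
  have hΦ2 : ∀ σ y, y ∉ Set.range E → Φ σ y = y := fun σ y hy => Equiv.Perm.viaEmbedding_apply_of_notMem _ _ _ hy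
  have heven : alternatingGroup (Fin r) ≤ (Equiv.Perm.sign.comp Φ).ker := by
    rw [← Equiv.Perm.closure_three_cycles_eq_alternating, Subgroup.closure_le]
    intro σ hσ
    have h3 : σ ^ 3 = 1 := by rw [← hσ.orderOf, pow_orderOf_eq_one]
    show Equiv.Perm.sign (Φ σ) = 1
    have h := congrArg (Equiv.Perm.sign.comp Φ) h3
    rw [map_pow, map_one, MonoidHom.comp_apply] at h
    rcases Int.units_eq_one_or (Equiv.Perm.sign (Φ σ)) with h' | h'
    · exact h'
    · rw [h'] at h; exact absurd h (by decide)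
  let Ψ : ↥(alternatingGroup (Fin r)) →* ↥(alternatingGroup (Fin m)) :=
    (Φ.comp (alternatingGroup (Fin r)).subtype).codRestrict _ fun σ => by
      rw [Equiv.Perm.mem_alternatingGroup]; exact heven σ.2
  have hinj : Function.Injective Ψ := by
    intro a b h
    have h1 : Φ a = Φ b := congrArg Subtype.val h
    apply Subtype.ext
    apply Equiv.ext
    intro i
    have h2 := congrArg (fun g : Equiv.Perm (Fin m) => g (E (i, QuotientGroup.mk 1))) h1
    simp only [hΦ1] at h2
    exact congrArg Prod.fst (E.injective h2)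
  refine ⟨Ψ.range, ⟨(MonoidHom.ofInjective hinj).symm⟩, ?_⟩
  rintro _ ⟨σ, rfl⟩
  rw [Subgroup.mem_centralizer_iff]
  intro h hh
  apply Subtype.ext
  apply Equiv.ext
  intro y
  show (h : Equiv.Perm (Fin m)) (Φ σ y) = Φ σ ((h : Equiv.Perm (Fin m)) y)
  have hE : ∀ p : Fin r × (H ⧸ S), (h : Equiv.Perm (Fin m)) (E p) = E (p.1, (⟨h, hh⟩ : H) • p.2) := by
    rintro ⟨i, a⟩
    induction a using QuotientGroup.induction_on with
    | H a => exact (mul_smul (⟨h, hh⟩ : H) a (x i)).symm
  by_cases hy : y ∈ Set.range E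
  · obtain ⟨p, rfl⟩ := hy
    rw [hΦ1, hE, hE, hΦ1]
    rfl
  · rw [hΦ2 _ _ hy, hΦ2]
    rintro ⟨p, hp⟩
    refine hy ⟨(p.1, (⟨h, hh⟩ : H)⁻¹ • p.2), (h : Equiv.Perm (Fin m)).injective ?_⟩
    rw [hE, smul_inv_smul, ← hp]

end Cfsg.Agent.S2532
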