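import Cfsg.Statements.S2533


set_option autoImplicit false
open Cfsg

namespace Cfsg.Agent.S2533

abbrev blk (a : ℕ) : Type := Fin a ⊕ Fin (a + 1)

variable (p : ℕ)

abbrev Vec : Type := Multiplicative (Fin 3 → ZMod p)
abbrev Cy : Type := Multiplicative (ZMod 2)

def flip : Cy →* MulAut (Vec p) where
  toFun c := if Multiplicative.toAdd c = 0 then 1 else MulEquiv.inv (Vec p)
  map_one' := by simp
  map_mul' c d := by
    have h : ∀ x : ZMod 2, x = 0 ∨ x = 1 := by decide
    rcases h (Multiplicative.toAdd c) with hc | hc <;> rcases h (Multiplicative.toAdd d) with hd | hd <;>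
      simp [toAdd_mul, hc, hd, show (1 : ZMod 2) + 1 = 0 from rfl]
    all_goals (ext x; simp [MulAut.mul_apply])

abbrev Hgrp : Type := Vec p ⋊[flip p] Cy

theorem finite_Hgrp [Fact p.Prime] : Finite (Hgrp p) := Finite.of_equiv _ SemidirectProduct.equivProd.symm

theorem card_Hgrp [Fact p.Prime] : Nat.card (Hgrp p) = 2 * p ^ 3 := by
  rw [SemidirectProduct.card, Nat.card_congr Multiplicative.toAdd, Nat.card_congr Multiplicative.toAdd,
    Nat.card_fun, Nat.card_fin, Nat.card_zmod, Nat.card_zmod]
  ring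

variable (a : ℕ)

def amat (j : Fin (a + 1)) (i : Fin a) : ZMod p := if (j : ℕ) = (i : ℕ) then 1 else 0
def bmat (j : Fin (a + 1)) (i : Fin a) : ZMod p := if (j : ℕ) = (i : ℕ) + 1 then 1 else 0
def cmat (j : Fin (a + 1)) (i : Fin a) : ZMod p := if (j : ℕ) = a ∧ (i : ℕ) = 0 then 1 else 0

def arrows (v : Fin 3 → ZMod p) : Matrix (Fin (a + 1)) (Fin a) (ZMod p) :=
  v 0 • Matrix.of (amat p a) + v 1 • Matrix.of (bmat p a) + v 2 • Matrix.of (cmat p a)

theorem arrows_add (v w : Fin 3 → ZMod p) : arrows p a (v + w) = arrows p a v + arrows p a w := by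
  simp only [arrows, Pi.add_apply, add_smul]; abel

theorem arrows_zero : arrows p a 0 = 0 := by simp [arrows]

theorem arrows_neg (v : Fin 3 → ZMod p) : arrows p a (-v) = -arrows p a v := by
  simp only [arrows, Pi.neg_apply, neg_smul]; abel

theorem arrows_injective (ha : 2 ≤ a) (v : Fin 3 → ZMod p) (h : arrows p a v = 0) : v = 0 := by
  have h0 : v 0 = 0 := by
    have := congrFun (congrFun h ⟨1, by omega⟩) ⟨1, by omega⟩
    simpa [arrows, amat, bmat, cmat, show ¬ (1 : ℕ) = a by omega] using this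
  have h1 : v 1 = 0 := by
    have := congrFun (congrFun h ⟨1, by omega⟩) ⟨0, by omega⟩
    simpa [arrows, amat, bmat, cmat, show ¬ (1 : ℕ) = a by omega] using this
  have h2 : v 2 = 0 := by
    have := congrFun (congrFun h ⟨a, by omega⟩) ⟨0, by omega⟩
    simpa [arrows, amat, bmat, cmat, show ¬ a = 0 by omega, show ¬ a = 1 by omega] using this
  funext i
  fin_cases i <;> assumption

def trans [Fact p.Prime] (v : Vec p) : Matrix.SpecialLinearGroup (blk a) (ZMod p) :=
  ⟨Matrix.fromBlocks 1 0 (arrows p a (Multiplicative.toAdd v)) 1, by simp⟩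

def transHom [Fact p.Prime] : Vec p →* Matrix.SpecialLinearGroup (blk a) (ZMod p) where
  toFun := trans p a
  map_one' := by
    apply Subtype.ext
    simp [trans, arrows_zero, Matrix.fromBlocks_one]
  map_mul' v w := by
    apply Subtype.ext
    show Matrix.fromBlocks 1 0 (arrows p a (Multiplicative.toAdd (v * w))) 1 =
      Matrix.fromBlocks 1 0 (arrows p a (Multiplicative.toAdd v)) 1 * Matrix.fromBlocks 1 0 (arrows p a (Multiplicative.toAdd w)) 1
    simp [toAdd_mul, arrows_add, Matrix.fromBlocks_multiply]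

def sgn2 (c : Cy) : ZMod p := if Multiplicative.toAdd c = 0 then 1 else -1

def signHom [Fact p.Prime] (ha : Odd a) : Cy →* Matrix.SpecialLinearGroup (blk a) (ZMod p) where
  toFun c := ⟨Matrix.fromBlocks 1 0 0 (sgn2 p c • 1), by
    rw [Matrix.det_fromBlocks_zero₁₂, Matrix.det_one, Matrix.det_smul, Matrix.det_one, Fintype.card_fin, one_mul, mul_one]
    unfold sgn2
    split_ifs
    · simp
    · exact (ha.add_one).neg_one_pow⟩
  map_one' := by apply Subtype.ext; simp [sgn2, Matrix.fromBlocks_one]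
  map_mul' c d := by
    apply Subtype.ext
    have h : ∀ x : ZMod 2, x = 0 ∨ x = 1 := by decide
    show Matrix.fromBlocks 1 0 0 (sgn2 p (c * d) • 1) =
      (Matrix.fromBlocks 1 0 0 (sgn2 p c • 1) : Matrix (blk a) (blk a) (ZMod p)) * Matrix.fromBlocks 1 0 0 (sgn2 p d • 1)
    rcases h (Multiplicative.toAdd c) with hc | hc <;> rcases h (Multiplicative.toAdd d) with hd | hd <;>
      simp [sgn2, toAdd_mul, hc, hd, show (1 : ZMod 2) + 1 = 0 from rfl, Matrix.fromBlocks_multiply]

def rep [Fact p.Prime] (ha : Odd a) : Hgrp p →* Matrix.SpecialLinearGroup (blk a) (ZMod p) :=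
  SemidirectProduct.lift (transHom p a) (signHom p a ha) (by
    intro c
    refine MonoidHom.ext fun v => ?_
    show trans p a (flip p c v) = signHom p a ha c * trans p a v * (signHom p a ha c)⁻¹
    rw [eq_mul_inv_iff_mul_eq]
    apply Subtype.ext
    have h : ∀ x : ZMod 2, x = 0 ∨ x = 1 := by decide
    show Matrix.fromBlocks 1 0 (arrows p a (Multiplicative.toAdd (flip p c v))) 1 *
        Matrix.fromBlocks 1 0 0 (sgn2 p c • 1) =
      Matrix.fromBlocks 1 0 0 (sgn2 p c • 1) * Matrix.fromBlocks 1 0 (arrows p a (Multiplicative.toAdd v)) 1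
    rcases h (Multiplicative.toAdd c) with hc | hc
    · have hf : flip p c v = v := by
        show (if Multiplicative.toAdd c = 0 then (1 : MulAut (Vec p)) else MulEquiv.inv (Vec p)) v = v
        rw [if_pos hc]; rfl
      rw [hf]
      simp [sgn2, hc, Matrix.fromBlocks_multiply]
    · have hf : flip p c v = v⁻¹ := by
        show (if Multiplicative.toAdd c = 0 then (1 : MulAut (Vec p)) else MulEquiv.inv (Vec p)) v = v⁻¹
        rw [if_neg (by rw [hc]; decide)]; rfl
      rw [hf]
      simp [sgn2, hc, toAdd_inv, arrows_neg, Matrix.fromBlocks_multiply])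

theorem rep_spec [Fact p.Prime] (ha : Odd a) (h : Hgrp p) :
    (rep p a ha h : Matrix (blk a) (blk a) (ZMod p)) =
      Matrix.fromBlocks 1 0 (arrows p a (Multiplicative.toAdd h.left)) (sgn2 p h.right • 1) := by
  rw [← SemidirectProduct.inl_left_mul_inr_right h, map_mul]
  rw [rep, SemidirectProduct.lift_inl, SemidirectProduct.lift_inr]
  show Matrix.fromBlocks 1 0 (arrows p a _) 1 * Matrix.fromBlocks 1 0 0 (sgn2 p h.right • 1) = _
  simp [Matrix.fromBlocks_multiply]

theorem rep_injective_mod [Fact p.Prime] (hp : p ≠ 2) (ha : Odd a) (ha2 : 2 ≤ a) (h : Hgrp p)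
    (hc : rep p a ha h ∈ Subgroup.center (Matrix.SpecialLinearGroup (blk a) (ZMod p))) : h = 1 := by
  obtain ⟨r, -, hr⟩ := Matrix.SpecialLinearGroup.mem_center_iff.1 hc
  rw [rep_spec, Matrix.scalar_apply] at hr
  have hr1 : r = 1 := by
    have := congrFun (congrFun hr (Sum.inl ⟨0, by omega⟩)) (Sum.inl ⟨0, by omega⟩)
    simpa using this
  subst hr1
  have hv : arrows p a (Multiplicative.toAdd h.left) = 0 := by
    ext j i
    have := congrFun (congrFun hr (Sum.inr j)) (Sum.inl i)
    simpa using this.symm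
  have hs : sgn2 p h.right = 1 := by
    have := congrFun (congrFun hr (Sum.inr 0)) (Sum.inr 0)
    simpa using this.symm
  refine SemidirectProduct.ext ?_ ?_
  · exact Multiplicative.toAdd.injective (arrows_injective p a ha2 _ hv)
  · by_contra hne
    have hne' : Multiplicative.toAdd h.right ≠ 0 := fun h0 => hne (Multiplicative.toAdd.injective h0)
    rw [sgn2, if_neg hne'] at hs
    exact Ring.neg_one_ne_one_of_char_ne_two (by rw [ZMod.ringChar_zmod_n]; exact hp) hs

theorem scalar_of_twisted_commute [Fact p.Prime] (hp : p ≠ 2) (ha : Odd a) (ha2 : 2 ≤ a)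
    (g : Matrix.SpecialLinearGroup (blk a) (ZMod p))
    (hg : ∀ h, ∃ z ∈ Subgroup.center (Matrix.SpecialLinearGroup (blk a) (ZMod p)), g * rep p a ha h = z * (rep p a ha h * g)) :
    g ∈ Subgroup.center (Matrix.SpecialLinearGroup (blk a) (ZMod p)) := by
  set G : Matrix (blk a) (blk a) (ZMod p) := (g : Matrix (blk a) (blk a) (ZMod p)) with hG
  have hgu : IsUnit G := (Matrix.isUnit_iff_isUnit_det _).2 (by rw [hG, g.2]; exact isUnit_one)
  have hv : ∀ v : Fin 3 → ZMod p, G * Matrix.fromBlocks 1 0 (arrows p a v) 1 = Matrix.fromBlocks 1 0 (arrows p a v) 1 * G := by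
    intro v
    obtain ⟨z, hz, hzg⟩ := hg (SemidirectProduct.inl (Multiplicative.ofAdd v))
    set M := rep p a ha (SemidirectProduct.inl (Multiplicative.ofAdd v)) with hM
    have hpow : M ^ p = 1 := by
      rw [hM, ← map_pow, ← map_pow, ← ofAdd_nsmul]
      have : p • v = 0 := by funext i; simp [nsmul_eq_mul]
      rw [this, ofAdd_zero, map_one, map_one]
    have h1 : g * M * g⁻¹ = z * M := by rw [hzg]; group
    have h2 : z ^ p = 1 := by
      have h3 : (g * M * g⁻¹) ^ p = (z * M) ^ p := by rw [h1]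
      rw [conj_pow, hpow, mul_one, mul_inv_cancel, Commute.mul_pow (Subgroup.mem_center_iff.1 hz M).symm, hpow, mul_one] at h3
      exact h3.symm
    obtain ⟨r, -, hr⟩ := Matrix.SpecialLinearGroup.mem_center_iff.1 hz
    have hr1 : r = 1 := by
      have h4 : ((z ^ p : Matrix.SpecialLinearGroup (blk a) (ZMod p)) : Matrix (blk a) (blk a) (ZMod p)) (Sum.inr 0) (Sum.inr 0) = 1 := by
        rw [h2]; simp
      rw [Matrix.SpecialLinearGroup.coe_pow, ← hr, ← map_pow, ZMod.pow_card] at h4
      simpa using h4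
    have hz1 : z = 1 := by apply Subtype.ext; rw [← hr, hr1]; simp
    rw [hz1, one_mul] at hzg
    have h5 := congrArg (fun x : Matrix.SpecialLinearGroup (blk a) (ZMod p) => (x : Matrix (blk a) (blk a) (ZMod p))) hzg
    simpa [hM, rep_spec, sgn2] using h5
  obtain ⟨z, hz, hzg⟩ := hg (SemidirectProduct.inr (Multiplicative.ofAdd (1 : ZMod 2)))
  obtain ⟨r, -, hr⟩ := Matrix.SpecialLinearGroup.mem_center_iff.1 hz
  have ht := congrArg (fun x : Matrix.SpecialLinearGroup (blk a) (ZMod p) => (x : Matrix (blk a) (blk a) (ZMod p))) hzg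
  simp only [Matrix.SpecialLinearGroup.coe_mul, rep_spec, ← hr] at ht
  simp [sgn2, arrows_zero, Matrix.smul_eq_diagonal_mul] at ht
  rw [← hG] at ht
  rw [← Matrix.fromBlocks_toBlocks G] at hv ht hgu
  set P := G.toBlocks₁₁
  set Q := G.toBlocks₁₂
  set R := G.toBlocks₂₁
  set S := G.toBlocks₂₂
  have hv' : ∀ v, Q * arrows p a v = 0 ∧ arrows p a v * Q = 0 ∧ S * arrows p a v = arrows p a v * P := by
    intro v
    have h := hv v
    simp only [Matrix.fromBlocks_multiply, Matrix.fromBlocks_inj] at h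
    obtain ⟨h1, -, h3, h4⟩ := h
    simp at h1 h3 h4
    refine ⟨by simpa using h1, by simpa using h4, ?_⟩
    rw [add_comm (arrows p a v * P) R] at h3
    exact add_left_cancel h3
  have hQ : Q = 0 := by
    ext k l
    have := congrFun (congrFun (hv' (Pi.single 0 1)).2.1 k.castSucc) l
    simpa [arrows, amat, Matrix.mul_apply, ← Fin.ext_iff, eq_comm] using this
  have hrow : ∀ k : Fin a, ∀ j, (Matrix.fromBlocks P Q R S) (Sum.inl k) j =
      if hj : j.isLeft then P k (j.getLeft hj) else 0 := by
    rintro k (j | j) <;> simp [hQ]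
  have hP1 : ∀ k l, P k l = r * P k l := by
    intro k l
    have := congrFun (congrFun ht (Sum.inl k)) (Sum.inl l)
    simpa [Matrix.fromBlocks_multiply, Matrix.mul_assoc, Matrix.diagonal_mul, hQ] using this
  have hR : ∀ j l, R j l = -(r * R j l) := by
    intro j l
    have := congrFun (congrFun ht (Sum.inr j)) (Sum.inl l)
    simpa [Matrix.fromBlocks_multiply, Matrix.mul_assoc, Matrix.diagonal_mul, hQ] using this
  have hr1 : r = 1 := by
    by_contra hne
    have hP0 : P = 0 := by
      ext k l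
      have h := hP1 k l
      have h' : (1 - r) * P k l = 0 := by linear_combination h
      exact (mul_eq_zero.1 h').resolve_left (sub_ne_zero.2 (Ne.symm hne))
    have hdet := (Matrix.isUnit_iff_isUnit_det _).1 hgu
    rw [hP0, hQ, Matrix.det_eq_zero_of_row_eq_zero (Sum.inl ⟨0, by omega⟩) (fun j => by rcases j with j | j <;> simp)] at hdet
    exact not_isUnit_zero hdet
  have hR0 : R = 0 := by
    ext j l
    have h := hR j l
    rw [hr1, one_mul] at h
    have h2 : (2 : ZMod p) * R j l = 0 := by linear_combination h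
    refine (mul_eq_zero.1 h2).resolve_left ?_
    exact Ring.two_ne_zero (by rw [ZMod.ringChar_zmod_n]; exact hp)
  let s : ℕ → ℕ → ZMod p := fun x y => if h : x < a + 1 ∧ y < a + 1 then S ⟨x, h.1⟩ ⟨y, h.2⟩ else 0
  have hS : ∀ x y (hx : x < a + 1) (hy : y < a + 1), S ⟨x, hx⟩ ⟨y, hy⟩ = s x y := fun x y hx hy =>
    (dif_pos (c := x < a + 1 ∧ y < a + 1) (t := fun h => S ⟨x, h.1⟩ ⟨y, h.2⟩) (e := fun _ => (0 : ZMod p)) ⟨hx, hy⟩).symm
  have eA : ∀ (j : Fin (a + 1)) (i : Fin a), s j i = if h : (j : ℕ) < a then P ⟨j, h⟩ i else 0 := by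
    intro j i
    have h := congrFun (congrFun (hv' (Pi.single 0 1)).2.2 j) i
    simp [arrows, Matrix.mul_apply, amat] at h
    rw [Finset.sum_eq_single i.castSucc (fun b _ hb => by
        rw [if_neg]; intro hh; exact hb (Fin.ext hh)) (by simp)] at h
    simp only [Fin.val_castSucc, if_true] at h
    rw [← hS j i j.2 (by omega)]
    refine Eq.trans h ?_
    split_ifs with hj
    · rw [Finset.sum_eq_single ⟨j, hj⟩]
      · simp
      · intro b _ hb; rw [if_neg]; intro hh; exact hb (Fin.ext hh.symm)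
      · simp
    · exact Finset.sum_eq_zero fun b _ => if_neg fun (hh : (j : ℕ) = (b : ℕ)) => hj (by rw [hh]; exact b.2)
  have eB : ∀ (j : Fin (a + 1)) (i : Fin a), s j (i + 1) = if h : 0 < (j : ℕ) then P ⟨j - 1, by omega⟩ i else 0 := by
    intro j i
    have h := congrFun (congrFun (hv' (Pi.single 1 1)).2.2 j) i
    simp [arrows, Matrix.mul_apply, bmat] at h
    rw [Finset.sum_eq_single i.succ (fun b _ hb => by
        rw [if_neg]; intro hh; exact hb (Fin.ext (by simpa using hh))) (by simp)] at h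
    simp only [Fin.val_succ, if_true] at h
    rw [← hS j (i + 1) j.2 (by omega)]
    refine Eq.trans h ?_
    split_ifs with hj
    · rw [Finset.sum_eq_single ⟨j - 1, by omega⟩]
      · simp; omega
      · intro b _ hb; rw [if_neg]; intro hh; exact hb (Fin.ext (by simp; omega))
      · simp
    · exact Finset.sum_eq_zero fun b _ => if_neg fun hh => hj (by omega)
  have shift : ∀ x y, x < a → y < a → s (x + 1) (y + 1) = s x y := by
    intro x y hx hy
    have h1 := eB ⟨x + 1, by omega⟩ ⟨y, hy⟩
    have h2 := eA ⟨x, by omega⟩ ⟨y, hy⟩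
    simp only [Nat.zero_lt_succ, dite_true, Nat.add_sub_cancel] at h1
    simp only [hx, dite_true] at h2
    rw [h1, h2]
  have iter : ∀ d x y, x + d ≤ a → y + d ≤ a → s (x + d) (y + d) = s x y := by
    intro d
    induction d with
    | zero => intros; rfl
    | succ d ih => intro x y hx hy; rw [← add_assoc, ← add_assoc, shift _ _ (by omega) (by omega), ih x y (by omega) (by omega)]
  have hs : ∀ x y, x ≤ a → y ≤ a → s x y = if x = y then s 0 0 else 0 := by
    intro x y hx hy
    rcases lt_trichotomy x y with h | h | h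
    · rw [if_neg h.ne]
      have := iter x 0 (y - x) (by omega) (by omega)
      rw [zero_add, Nat.sub_add_cancel h.le] at this
      rw [this]
      have h2 := eB ⟨0, by omega⟩ ⟨y - x - 1, by omega⟩
      simpa [show y - x - 1 + 1 = y - x by omega] using h2
    · subst h
      rw [if_pos rfl]
      have := iter x 0 0 (by omega) (by omega)
      simpa using this
    · rw [if_neg h.ne']
      have := iter (a - x) x y (by omega) (by omega)
      rw [Nat.add_sub_cancel' hx] at this
      rw [← this]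
      have h2 := eA ⟨a, by omega⟩ ⟨y + (a - x), by omega⟩
      simpa using h2
  refine Matrix.SpecialLinearGroup.mem_center_iff.2 ?_
  have hfin : G = Matrix.scalar (blk a) (s 0 0) := by
    rw [← Matrix.fromBlocks_toBlocks G]
    show Matrix.fromBlocks P Q R S = _
    ext (x | x) (y | y)
    · have h2 := eA x.castSucc y
      rw [hs _ _ (by simp) (by omega)] at h2
      simp only [Fin.val_castSucc, x.2, dite_true, ← Fin.ext_iff] at h2
      simp [Matrix.scalar_apply, Matrix.diagonal_apply, ← h2]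
    · simp [hQ, Matrix.scalar_apply]
    · simp [hR0, Matrix.scalar_apply]
    · rw [Matrix.fromBlocks_apply₂₂, hS x y x.2 y.2, hs _ _ (by omega) (by omega)]
      simp [Matrix.scalar_apply, Matrix.diagonal_apply, ← Fin.ext_iff]
  refine ⟨s 0 0, ?_, hfin.symm.trans hG⟩
  have := g.2
  rw [← hG, hfin] at this
  simpa [Matrix.scalar_apply] using this

/-- For every odd prime `p` there is a finite group `H` of order `2p³` which, for infinitely many `n`, embeds in the projective special linear group `PSL(n, p)` as a subgroup with trivial centralizer. -/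
theorem result
    (p : ℕ) [Fact p.Prime] (hp : p ≠ 2) :
    ∃ (H : Type) (_ : Group H) (_ : Finite H), Nat.card H = 2 * p ^ 3 ∧
      ∀ N : ℕ, ∃ n, N ≤ n ∧ ∃ φ : H →* Matrix.ProjectiveSpecialLinearGroup (Fin n) (ZMod p),
        Function.Injective φ ∧ Subgroup.centralizer (φ.range : Set (Matrix.ProjectiveSpecialLinearGroup (Fin n) (ZMod p))) = ⊥ := by
  refine ⟨Hgrp p, inferInstance, finite_Hgrp p, card_Hgrp p, fun N => ?_⟩
  obtain ⟨a, ha, ha2, haN⟩ : ∃ a, Odd a ∧ 2 ≤ a ∧ N ≤ a + (a + 1) :=
    ⟨2 * N + 3, ⟨N + 1, by ring⟩, by omega, by omega⟩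
  refine ⟨a + (a + 1), haN, ?_⟩
  let e : blk a ≃ Fin (a + (a + 1)) := finSumFinEquiv
  let ψ : Matrix.SpecialLinearGroup (blk a) (ZMod p) ≃* Matrix.SpecialLinearGroup (Fin (a + (a + 1))) (ZMod p) :=
    { toFun := fun g => ⟨Matrix.reindex e e g, by rw [Matrix.det_reindex_self]; exact g.2⟩
      invFun := fun g => ⟨Matrix.reindex e.symm e.symm g, by rw [Matrix.det_reindex_self]; exact g.2⟩
      left_inv := fun g => Subtype.ext (by ext x y; simp)
      right_inv := fun g => Subtype.ext (by ext x y; simp)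
      map_mul' := fun g h => Subtype.ext (by
        show Matrix.reindex e e ((g : Matrix (blk a) (blk a) (ZMod p)) * (h : Matrix (blk a) (blk a) (ZMod p))) = Matrix.reindex e e (g : Matrix (blk a) (blk a) (ZMod p)) * Matrix.reindex e e (h : Matrix (blk a) (blk a) (ZMod p))
        simp [Matrix.submatrix_mul_equiv]) }
  have hctr : ∀ g, ψ g ∈ Subgroup.center _ ↔ g ∈ Subgroup.center (Matrix.SpecialLinearGroup (blk a) (ZMod p)) := by
    intro g
    simp only [Subgroup.mem_center_iff]
    constructor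
    · intro h x; exact ψ.injective (by rw [map_mul, map_mul]; exact h (ψ x))
    · intro h x; obtain ⟨y, rfl⟩ := ψ.surjective x; rw [← map_mul, ← map_mul, h]
  let φ : Hgrp p →* Matrix.ProjectiveSpecialLinearGroup (Fin (a + (a + 1))) (ZMod p) :=
    (QuotientGroup.mk' _).comp (ψ.toMonoidHom.comp (rep p a ha))
  refine ⟨φ, ?_, ?_⟩
  · rw [injective_iff_map_eq_one]
    intro h hh
    exact rep_injective_mod p a hp ha ha2 h ((hctr _).1 ((QuotientGroup.eq_one_iff _).1 hh))
  · rw [eq_bot_iff]
    intro x hx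
    obtain ⟨y, rfl⟩ := QuotientGroup.mk'_surjective _ x
    obtain ⟨g, rfl⟩ := ψ.surjective y
    rw [Subgroup.mem_bot]
    refine (QuotientGroup.eq_one_iff _).2 ((hctr _).2 (scalar_of_twisted_commute p a hp ha ha2 g fun h => ?_))
    have hc := Subgroup.mem_centralizer_iff.1 hx (φ h) ⟨h, rfl⟩
    refine ⟨g * rep p a ha h * (rep p a ha h * g)⁻¹, (hctr _).1 ?_, by group⟩
    rw [← QuotientGroup.eq_one_iff, map_mul, map_inv, map_mul, map_mul]
    change φ h * _ = _ at hc
    show (QuotientGroup.mk' _) (ψ g) * φ h * (φ h * (QuotientGroup.mk' _) (ψ g))⁻¹ = 1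
    rw [hc, mul_inv_cancel]

end Cfsg.Agent.S2533
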