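import Cfsg.Statements.S2534
import Cfsg.Agent.Eq.Def_HallClasses
import Cfsg.Agent.Perm57.HallSym.Results

set_option autoImplicit false
open Cfsg

namespace Cfsg.Agent.S2534

/-- For `n ≥ 5` and a set of primes `π`, the alternating group of degree `n` satisfies the full Sylow analogue for `π` (its maximal `π`-subgroups are pairwise conjugate; for a finite group this says Hall `π`-subgroups exist, are all conjugate, and contain every `π`-subgroup up to conjugacy) if and only if either at most one prime of `π` divides its order or every prime dividing its order lies in `π`. -/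
theorem result (n : ℕ) (hn : 5 ≤ n) (π : Set ℕ) :
    Cfsg.IsDPiGroup π ↥(alternatingGroup (Fin n)) ↔
      ((∀ r s : ℕ, r.Prime → s.Prime → r ∈ π → s ∈ π → r ∣ Nat.card ↥(alternatingGroup (Fin n)) → s ∣ Nat.card ↥(alternatingGroup (Fin n)) → r = s) ∨
        ∀ r : ℕ, r.Prime → r ∣ Nat.card ↥(alternatingGroup (Fin n)) → r ∈ π) := by
  open CfsgLib.HallSym in
  have hdiv : ∀ r : ℕ, r.Prime → (r ∣ Nat.card ↥(alternatingGroup (Fin n)) ↔ r ≤ n) := by
    intro r hr
    refine ⟨fun h => hr.dvd_factorial.1 (h.trans (card_alt_dvd n)), fun h => ?_⟩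
    haveI : Nontrivial (Fin n) := Fin.nontrivial_iff_two_le.2 (by omega)
    have h2 := two_mul_nat_card_alternatingGroup (α := Fin n)
    rw [Nat.card_perm, Nat.card_fin] at h2
    have h4 : 2 * r ∣ n.factorial := by
      rcases eq_or_ne r 2 with rfl | hr2
      · exact (show 2 * 2 ∣ Nat.factorial 4 by decide).trans (Nat.factorial_dvd_factorial (by omega))
      · exact Nat.Coprime.mul_dvd_of_dvd_of_dvd
          ((Nat.coprime_primes Nat.prime_two hr).2 hr2.symm)
          (Nat.prime_two.dvd_factorial.2 (by omega)) (hr.dvd_factorial.2 h)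
    rw [← h2] at h4
    exact Nat.dvd_of_mul_dvd_mul_left two_pos h4
  constructor
  · intro hD
    by_contra hne
    simp only [not_or, not_forall, exists_prop] at hne
    obtain ⟨⟨r, s, hr, hs, hrπ, hsπ, hrd, hsd, hrs⟩, t, ht, htd, htπ⟩ := hne
    exact not_dPi_alt ⟨⟨r, s, hr, hs, hrs, hrπ, hsπ, (hdiv r hr).1 hrd, (hdiv s hs).1 hsd⟩,
      t, ht, (hdiv t ht).1 htd, htπ⟩ hD
  · intro h
    refine dPi_of_trivial (card_alt_dvd n) fun hN => ?_
    obtain ⟨⟨r, s, hr, hs, hrs, hrπ, hsπ, hrn, hsn⟩, t, ht, htn, htπ⟩ := hN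
    rcases h with h | h
    · exact hrs (h r s hr hs hrπ hsπ ((hdiv r hr).2 hrn) ((hdiv s hs).2 hsn))
    · exact htπ (h t ht ((hdiv t ht).2 htn))

end Cfsg.Agent.S2534
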