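import Cfsg.Statements.S2537
import Cfsg.Agent.Dickson.MaxPoly
import Cfsg.Agent.Solvable.Hall

set_option autoImplicit false
open Cfsg
open CfsgLib.Dickson Matrix
open scoped MatrixGroups commutatorElement

namespace Cfsg.Agent.S2537

theorem isSolvable_of_dihedral {G : Type*} [Group G] {n : ℕ} (e : G ≃* DihedralGroup n) :
    Group.IsSolvable G := by
  have hc : ∀ g h : G, ∃ i, e ⁅g, h⁆ = DihedralGroup.r i := by
    intro g h
    rw [map_commutatorElement, commutatorElement_def]
    cases e g <;> cases e h <;> exact ⟨_, rfl⟩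
  have hcl : ∀ g ∈ derivedSeries G 1, ∃ i, e g = DihedralGroup.r i := by
    intro g hg
    rw [derivedSeries_one, commutator_eq_closure] at hg
    induction hg using Subgroup.closure_induction with
    | mem g hg => obtain ⟨a, b, rfl⟩ := hg; exact hc a b
    | one => exact ⟨0, by rw [map_one, DihedralGroup.one_def]⟩
    | mul a b _ _ ha hb =>
      obtain ⟨i, hi⟩ := ha; obtain ⟨j, hj⟩ := hb
      exact ⟨i + j, by rw [map_mul, hi, hj, DihedralGroup.r_mul_r]⟩
    | inv a _ ha => obtain ⟨i, hi⟩ := ha; exact ⟨-i, by rw [map_inv, hi, DihedralGroup.inv_r]⟩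
  refine ⟨⟨2, ?_⟩⟩
  rw [derivedSeries_succ, eq_bot_iff, Subgroup.commutator_le]
  intro a ha b hb
  obtain ⟨i, hi⟩ := hcl a ha
  obtain ⟨j, hj⟩ := hcl b hb
  rw [Subgroup.mem_bot, commutatorElement_eq_one_iff_mul_comm]
  exact e.injective (by rw [map_mul, map_mul, hi, hj, DihedralGroup.r_mul_r, DihedralGroup.r_mul_r, add_comm])


/-- Let `F` be a finite field with `q` elements of characteristic `p ≥ 5`, and `ε = 1` if `q ≡ 1 (mod 4)`, `ε = -1` otherwise. Then `PSL(2, F)` has a Hall `{2, 3}`-subgroup if and only if `3` divides `q − ε`, or the `{2,3}`-part of `q² − 1` is 24, or the `{2,3}`-part of `q² − 1` is 48 (the `{2,3}`-part of `m` being the largest divisor of `m` with no prime factor other than 2 and 3). -/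
theorem result {F : Type*} [Field F] [Fintype F] {p : ℕ} [Fact p.Prime] [CharP F p]
    (hp : 5 ≤ p) (q : ℕ) (hq : Fintype.card F = q) :
    (∃ H : Subgroup (Matrix.ProjectiveSpecialLinearGroup (Fin 2) F), Cfsg.IsPiHall ({2, 3} : Set ℕ) H) ↔
      (3 ∣ q - 1 ∧ q % 4 = 1) ∨ (3 ∣ q + 1 ∧ q % 4 = 3) ∨
        2 ^ (q ^ 2 - 1).factorization 2 * 3 ^ (q ^ 2 - 1).factorization 3 = 24 ∨
        2 ^ (q ^ 2 - 1).factorization 2 * 3 ^ (q ^ 2 - 1).factorization 3 = 48 := by
  classical
  subst hq
  set q := Fintype.card F with hq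
  have hp2 : p ≠ 2 := by omega
  have hodd : Odd q := (odd_card_iff p).mpr hp2
  have hd : Nat.gcd 2 (q - 1) = 2 := by
    rcases gcd_two_pred (F := F) with ⟨he, -⟩ | ⟨-, hd⟩
    · exact absurd hodd (Nat.not_odd_iff_even.mpr he)
    · exact hd
  have hq1 : 1 < q := Fintype.one_lt_card
  obtain ⟨e, -, hqe⟩ := FiniteField.card F p
  rw [← hq] at hqe
  have hp : p.Prime := Fact.out
  have hcop : ∀ r, r.Prime → r ∣ 6 → ¬ r ∣ q := fun r hr h6 h => by
    rw [hqe] at h
    rw [(Nat.prime_dvd_prime_iff_eq hr hp).mp (hr.dvd_of_dvd_pow h)] at h6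
    have := Nat.le_of_dvd (by norm_num) h6
    interval_cases p <;> first | (norm_num at h6; done) | (norm_num at hp; done)
  have h2q : ¬ 2 ∣ q := hcop 2 Nat.prime_two (by norm_num)
  have h3q : ¬ 3 ∣ q := hcop 3 Nat.prime_three (by norm_num)
  set Q := q ^ 2 - 1 with hQ
  have hQe : Q = (q + 1) * (q - 1) := by
    rw [hQ, pow_two, show 1 = 1 * 1 from rfl, Nat.mul_self_sub_mul_self_eq]
  have hQ0 : Q ≠ 0 := by
    rw [hQe]
    exact Nat.mul_ne_zero (by omega) (by omega)
  have hG : Nat.card (Matrix.ProjectiveSpecialLinearGroup (Fin 2) F) * 2 = q * Q := psl_card_mul_two hodd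
  set N := 2 ^ Q.factorization 2 * 3 ^ Q.factorization 3 with hN
  have hNQ : N ∣ Q := ((Nat.coprime_primes Nat.prime_two Nat.prime_three).mpr (by norm_num)).pow _ _
    |>.mul_dvd_of_dvd_of_dvd (Nat.ordProj_dvd Q 2) (Nat.ordProj_dvd Q 3)
  have hN0 : N ≠ 0 := by positivity
  have hNf : ∀ r, N.factorization r = if r = 2 then Q.factorization 2 else if r = 3 then Q.factorization 3 else 0 := by
    intro r
    rw [hN, Nat.factorization_mul (by positivity) (by positivity),
      Nat.Prime.factorization_pow Nat.prime_two, Nat.Prime.factorization_pow Nat.prime_three,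
      Finsupp.add_apply, Finsupp.single_apply, Finsupp.single_apply]
    split_ifs <;> omega
  have hmax : ∀ d, d ∣ Q → (∀ r, r.Prime → r ∣ d → r = 2 ∨ r = 3) → d ∣ N := by
    intro d hdQ hpr
    have hd0 : d ≠ 0 := fun h => hQ0 (by rwa [h, zero_dvd_iff] at hdQ)
    rw [← Nat.factorization_le_iff_dvd hd0 hN0]
    intro r
    have hle := (Nat.factorization_le_iff_dvd hd0 hQ0).mpr hdQ r
    rw [hNf]
    split_ifs with h1 h2
    · subst h1; exact hle
    · subst h2; exact hle
    · refine Nat.le_of_eq ?_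
      by_contra h
      have hmem : r ∈ d.primeFactors := by
        rw [← Nat.support_factorization, Finsupp.mem_support_iff]; exact h
      rcases hpr r (Nat.prime_of_mem_primeFactors hmem) (Nat.dvd_of_mem_primeFactors hmem) with h' | h'
      · exact h1 h'
      · exact h2 h'
  have hfull : ∀ c, Q = N * c → ¬ 2 ∣ c ∧ ¬ 3 ∣ c := by
    intro c hc
    have hc0 : c ≠ 0 := fun h => hQ0 (by rw [hc, h, mul_zero])
    have hf : ∀ r, Q.factorization r = N.factorization r + c.factorization r := fun r => by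
      conv_lhs => rw [hc, Nat.factorization_mul hN0 hc0]
      rfl
    refine ⟨fun h => ?_, fun h => ?_⟩
    · have h1 := hf 2
      rw [hNf, if_pos rfl] at h1
      have := Nat.Prime.factorization_pos_of_dvd Nat.prime_two hc0 h
      omega
    · have h1 := hf 3
      rw [hNf, if_neg (by norm_num), if_pos rfl] at h1
      have := Nat.Prime.factorization_pos_of_dvd Nat.prime_three hc0 h
      omega
  have h8 : 8 ∣ N := by
    refine hmax 8 ?_ (fun r hr h => Or.inl ((Nat.prime_dvd_prime_iff_eq hr Nat.prime_two).mp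
      (hr.dvd_of_dvd_pow (show r ∣ 2 ^ 3 by simpa using h))))
    obtain ⟨k, hk⟩ := hodd
    rw [hQe, hk, show 2 * k + 1 - 1 = 2 * k by omega]
    obtain ⟨j, hj⟩ := Nat.even_mul_succ_self k
    exact ⟨j, by linear_combination 4 * hj⟩
  have h3N : 3 ∣ N := by
    refine hmax 3 ?_ (fun r hr h => Or.inr ((Nat.prime_dvd_prime_iff_eq hr Nat.prime_three).mp h))
    rw [hQe]
    rcases (show q % 3 = 1 ∨ q % 3 = 2 by omega) with h | h
    · exact Dvd.dvd.mul_left (Nat.dvd_of_mod_eq_zero (by omega)) _
    · exact Dvd.dvd.mul_right (Nat.dvd_of_mod_eq_zero (by omega)) _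
  have hcard : ∀ {H : Subgroup (Matrix.ProjectiveSpecialLinearGroup (Fin 2) F)},
      IsPiHall ({2, 3} : Set ℕ) H → Nat.card H * 2 = N := by
    intro H hH
    have hpr : ∀ r, r.Prime → r ∣ Nat.card H * 2 → r = 2 ∨ r = 3 := by
      intro r hr h
      rcases hr.dvd_mul.mp h with h | h
      · simpa using hH.1 r hr h
      · exact Or.inl ((Nat.prime_dvd_prime_iff_eq hr Nat.prime_two).mp h)
    have hdvd : Nat.card H * 2 ∣ q * Q := hG ▸ Nat.mul_dvd_mul_right (Subgroup.card_subgroup_dvd_card H) 2
    have hcq : (Nat.card H * 2).Coprime q := by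
      refine Nat.coprime_of_dvd fun r hr h h' => hcop r hr ?_ h'
      rcases hpr r hr h with rfl | rfl <;> norm_num
    refine Nat.dvd_antisymm (hmax _ (hcq.dvd_of_dvd_mul_left hdvd) hpr) ?_
    have hidx : q * Q = Nat.card H * 2 * H.index := by
      rw [← hG, ← H.card_mul_index]; ring
    have hci : N.Coprime H.index := by
      refine Nat.coprime_of_dvd fun r hr h h' => hH.2 r hr ?_ h'
      have := Nat.Prime.factorization_pos_of_dvd hr hN0 h
      rw [hNf] at this
      split_ifs at this with h1 h2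
      · simp [h1]
      · simp [h2]
      · omega
    exact hci.dvd_of_dvd_mul_right (hidx ▸ hNQ.mul_left q)
  constructor
  · rintro ⟨H, hH⟩
    have hh := hcard hH
    have hnot : ∀ s, (s = q - 1 ∨ s = q + 1) → ¬ N ∣ s := by
      rintro s hs ⟨c, hc⟩
      obtain ⟨k, hk⟩ := hodd
      rcases hs with rfl | rfl
      · exact (hfull (c * (q + 1)) (by rw [hQe, hc]; ring)).1 (Dvd.dvd.mul_left ⟨k + 1, by omega⟩ _)
      · exact (hfull (c * (q - 1)) (by rw [hQe, hc]; ring)).1 (Dvd.dvd.mul_left ⟨k, by omega⟩ _)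
    have hcq : N.Coprime q := by
      refine Nat.coprime_of_dvd fun r hr h h' => ?_
      have := Nat.Prime.factorization_pos_of_dvd hr hN0 h
      rw [hNf] at this
      split_ifs at this with h1 h2
      · exact h2q (h1 ▸ h')
      · exact h3q (h2 ▸ h')
      · omega
    have hhalf : ∀ n s, Odd q → (s = q - 1 ∨ s = q + 1) → n ∣ s / 2 → n * 2 ∣ s := by
      intro n s ho hs h
      obtain ⟨k, hk⟩ := ho
      have := Nat.mul_dvd_mul_right h 2
      rwa [Nat.div_mul_cancel (by rcases hs with rfl | rfl <;> omega)] at this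
    rcases classify_psl p H with ⟨x, hx⟩ | ⟨-, -, hc⟩ | ⟨n, -, -, ⟨i⟩, hc⟩ | ⟨-, ⟨i⟩⟩ | ⟨-, ⟨i⟩⟩ |
      ⟨-, ⟨i⟩⟩ | ⟨L, m, hm, hL⟩
    · exfalso
      have h := Nat.mul_dvd_mul_right (Subgroup.card_dvd_of_le hx) 2
      have h1 := card_pslStab x
      rw [← hq, hd] at h1
      rw [hh, h1] at h
      exact hnot _ (Or.inl rfl) (hcq.dvd_of_dvd_mul_left h)
    · exfalso
      rw [← hq, hd] at hc
      rcases hc with h | h
      · exact hnot _ (Or.inl rfl) (hh ▸ hhalf _ _ hodd (Or.inl rfl) h)
      · exact hnot _ (Or.inr rfl) (hh ▸ hhalf _ _ hodd (Or.inr rfl) h)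
    · rw [← hq, hd] at hc
      rw [Nat.card_congr i.toEquiv, DihedralGroup.nat_card, mul_comm 2 n] at hh
      rcases hc with h | h
      · have h' : N ∣ (q - 1) * 2 := hh ▸ Nat.mul_dvd_mul_right (hhalf _ _ hodd (Or.inl rfl) h) 2
        refine Or.inl ⟨(Nat.Coprime.dvd_of_dvd_mul_right (by norm_num) (h3N.trans h')), ?_⟩
        obtain ⟨k, hk⟩ := h8.trans h'
        omega
      · have h' : N ∣ (q + 1) * 2 := hh ▸ Nat.mul_dvd_mul_right (hhalf _ _ hodd (Or.inr rfl) h) 2
        refine Or.inr (Or.inl ⟨(Nat.Coprime.dvd_of_dvd_mul_right (by norm_num) (h3N.trans h')), ?_⟩)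
        obtain ⟨k, hk⟩ := h8.trans h'
        omega
    · exact Or.inr (Or.inr (Or.inl (by rw [← hh, Nat.card_congr i.toEquiv, card_alt_four])))
    · exact Or.inr (Or.inr (Or.inr (by rw [← hh, Nat.card_congr i.toEquiv, card_perm_four])))
    · exfalso
      have := hH.1 5 (by norm_num) (by rw [Nat.card_congr i.toEquiv, card_alt_five]; norm_num)
      simp at this
    · exfalso
      let _ : Fintype L := Fintype.ofFinite _
      have hpL : p ∣ Nat.card L := by
        have hm0 : m ≠ 0 := fun h => by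
          rw [h, pow_zero] at hm
          omega
        obtain ⟨f, -, hf⟩ := (Nat.dvd_prime_pow hp).mp (show Nat.card L ∣ p ^ (e : ℕ) by
          rw [← hqe, hq, ← hm]
          exact dvd_pow_self (Nat.card L) hm0)
        have : 1 < Nat.card L := Finite.one_lt_card
        rw [hf] at this ⊢
        exact dvd_pow_self p (fun h0 => by rw [h0, pow_zero] at this; omega)
      have hpH : p ∣ Nat.card H := by
        rcases hL with ⟨⟨i⟩, -⟩ | ⟨-, ⟨i⟩⟩
        · rw [Nat.card_congr i.toEquiv, card_pgl2_sq, ← Nat.card_eq_fintype_card]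
          exact hpL.mul_right _
        · have hLo : Odd (Fintype.card L) := by
            have : CharP L p := L.subtype.charP Subtype.val_injective p
            exact (odd_card_iff p).mpr hp2
          have h := psl_card_mul_two hLo
          rw [← Nat.card_eq_fintype_card] at h
          rw [Nat.card_congr i.toEquiv]
          refine Nat.Coprime.dvd_of_dvd_mul_right ?_ (h ▸ hpL.mul_right _)
          exact (Nat.coprime_primes hp Nat.prime_two).mpr hp2
      have := hH.1 p hp hpH
      simp at this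
      omega
  · intro hcond
    have hfin : ∀ H : Subgroup (Matrix.ProjectiveSpecialLinearGroup (Fin 2) F),
        Nat.card H * 2 = N → IsPiHall ({2, 3} : Set ℕ) H := by
      intro H hh
      refine ⟨fun r hr h => ?_, fun r hr h => ?_⟩
      · have := Nat.Prime.factorization_pos_of_dvd hr hN0 (hh ▸ h.mul_right 2)
        rw [hNf] at this
        split_ifs at this with h1 h2
        · simp [h1]
        · simp [h2]
        · omega
      · intro hi
        obtain ⟨c, hc⟩ := hNQ
        have he : N * H.index = N * (q * c) := by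
          calc N * H.index = Nat.card (Matrix.ProjectiveSpecialLinearGroup (Fin 2) F) * 2 := by
                rw [← hh, ← H.card_mul_index]; ring
            _ = N * (q * c) := by rw [hG, hc]; ring
        rw [Nat.eq_of_mul_eq_mul_left (Nat.pos_of_ne_zero hN0) he] at hi
        obtain ⟨h2c, h3c⟩ := hfull c hc
        simp only [Set.mem_insert_iff, Set.mem_singleton_iff] at h
        rcases h with rfl | rfl
        · exact (Nat.prime_two.dvd_mul.mp hi).elim h2q h2c
        · exact (Nat.prime_three.dvd_mul.mp hi).elim h3q h3c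
    rcases hcond with h | h | h | h
    rotate_left 2
    · obtain ⟨H, ⟨i⟩⟩ := exists_psl_a4_of_odd (F := F) (CfsgLib.SL2.two_ne_zero_iff_odd.mpr hodd)
      exact ⟨H, hfin H (by rw [Nat.card_congr i.toEquiv, card_alt_four, h])⟩
    · have h16 : 16 ∣ Q := dvd_trans (by rw [h]; norm_num) hNQ
      obtain ⟨H, ⟨i⟩⟩ := exists_psl_s4 (F := F) (CfsgLib.SL2.two_ne_zero_iff_odd.mpr hodd)
        (FiniteField.isSquare_two_iff.mpr (by
          rw [← hq]
          have hpw : 0 < q ^ 2 := by positivity
          have hm : q ^ 2 % 16 = 1 := by omega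
          rw [Nat.pow_mod] at hm
          have : q % 16 < 16 := Nat.mod_lt _ (by norm_num)
          constructor <;> intro h8' <;>
            (have : q % 16 = q % 8 ∨ q % 16 = q % 8 + 8 := by omega
             rcases this with h' | h' <;> rw [h', h8'] at hm <;> norm_num at hm)))
      exact ⟨H, hfin H (by rw [Nat.card_congr i.toEquiv, card_perm_four, h])⟩
    all_goals
      have h3G : 3 ∣ Nat.card (Matrix.ProjectiveSpecialLinearGroup (Fin 2) F) :=
        Nat.Coprime.dvd_of_dvd_mul_right (by norm_num) (hG ▸ (h3N.trans hNQ).mul_left q)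
      have : Fact (Nat.Prime 3) := ⟨Nat.prime_three⟩
      obtain ⟨a, ha⟩ := exists_prime_orderOf_dvd_card' 3 h3G
      obtain ⟨x, y, hxy, hle⟩ := exists_pslPairN_of_normal_cyclic p
        (H := Subgroup.zpowers a) (a := a) (fun h => by rw [h, orderOf_one] at ha; omega)
        (by rw [ha]; intro h; have := (Nat.prime_dvd_prime_iff_eq hp Nat.prime_three).mp h; omega)
        (fun g hg => (Subgroup.zpowers a).mul_mem ((Subgroup.zpowers a).mul_mem
          ((Subgroup.zpowers a).inv_mem hg) (Subgroup.mem_zpowers a)) hg)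
      have h3D : 3 ∣ Nat.card (pslPairN x y) :=
        ha ▸ Nat.card_zpowers a ▸ Subgroup.card_dvd_of_le hle
      obtain ⟨k, hk⟩ := hodd
      have key : ∃ m n, Nonempty (pslPairN x y ≃* DihedralGroup n) ∧
          Nat.card (pslPairN x y) * m = Q ∧ ¬ 4 ∣ m ∧ 2 ∣ m ∧ ¬ 3 ∣ m := by
        rcases hxy.pslPairN_dihedral with ⟨⟨i⟩, -⟩ | ⟨⟨i⟩, -⟩
        · refine ⟨q + 1, _, ⟨i⟩, ?_⟩
          rw [Nat.card_congr i.toEquiv, DihedralGroup.nat_card, ← hq, hd,
            Nat.mul_div_cancel' (by omega : 2 ∣ q - 1)] at h3D ⊢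
          refine ⟨by rw [hQe]; ring, ?_, ⟨k + 1, by omega⟩, by omega⟩
          obtain ⟨h1, h2⟩ := h
          omega
        · refine ⟨q - 1, _, ⟨i⟩, ?_⟩
          rw [Nat.card_congr i.toEquiv, DihedralGroup.nat_card, ← hq, hd,
            Nat.mul_div_cancel' (by omega : 2 ∣ q + 1)] at h3D ⊢
          refine ⟨by rw [hQe], ?_, ⟨k, by omega⟩, by omega⟩
          obtain ⟨h1, h2⟩ := h
          omega
      obtain ⟨m, n, ⟨i⟩, hm, h4m, h2m, h3m⟩ := key
      have := isSolvable_of_dihedral i
      obtain ⟨K, hK1, hK2⟩ := CfsgLib.Solvable.exists_piHall (G := pslPairN x y) ({2, 3} : Set ℕ)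
      refine ⟨K.map (pslPairN x y).subtype, fun r hr h' => hK1 r hr
        (by rwa [Subgroup.card_map_of_injective (pslPairN x y).subtype_injective] at h'), fun r hr hr' h' => ?_⟩
      obtain ⟨m', rfl⟩ := h2m
      have hcD : (pslPairN x y).index = q * m' := by
        refine Nat.eq_of_mul_eq_mul_left (Nat.mul_pos (Nat.card_pos (α := pslPairN x y)) (by norm_num : 0 < 2)) ?_
        calc Nat.card (pslPairN x y) * 2 * (pslPairN x y).index
            = Nat.card (Matrix.ProjectiveSpecialLinearGroup (Fin 2) F) * 2 := by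
              rw [← (pslPairN x y).card_mul_index]; ring
          _ = q * (Nat.card (pslPairN x y) * (2 * m')) := by rw [hG, hm]
          _ = _ := by ring
      rw [Subgroup.index_map_subtype, hcD] at h'
      simp only [Set.mem_insert_iff, Set.mem_singleton_iff] at hr'
      rcases hr.dvd_mul.mp h' with h'' | h''
      · exact hK2 r hr (by simpa using hr') h''
      · rcases hr.dvd_mul.mp h'' with hh | hh
        · rcases hr' with rfl | rfl
          · exact h2q hh
          · exact h3q hh
        · rcases hr' with rfl | rfl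
          · exact h4m (by omega)
          · exact h3m (hh.mul_left 2)

end Cfsg.Agent.S2537
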