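import Cfsg.Statements.S2538
import Cfsg.Agent.Eq.Def_HallClasses
import Cfsg.Agent.Perm57.HallSym.Results

set_option autoImplicit false
open Cfsg

namespace Cfsg.Agent.S2538

/-- For every `n` and every set of primes `π`, a subgroup of the alternating group of degree `n` is a Hall `π`-subgroup of it if and only if it is the intersection with the alternating group of some Hall `π`-subgroup of the symmetric group of degree `n`. -/
theorem result (n : ℕ) (π : Set ℕ)
    (M : Subgroup ↥(alternatingGroup (Fin n))) :
    Cfsg.IsPiHall π M ↔ ∃ M₀ : Subgroup (Equiv.Perm (Fin n)), Cfsg.IsPiHall π M₀ ∧ M = M₀.subgroupOf (alternatingGroup (Fin n)) := by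
  refine ⟨fun h => CfsgLib.HallSym.exists_hall_perm h, ?_⟩
  rintro ⟨M₀, hM₀, rfl⟩
  exact CfsgLib.HallSym.isPiHall_subgroupOf _ hM₀

end Cfsg.Agent.S2538
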