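import Cfsg.Statements.S2540
import Cfsg.Agent.Classical.Linear.Simple
import Cfsg.Agent.Classical.Linear.Card
-- import your own Cfsg.Agent.* helpers here

set_option autoImplicit false
open Cfsg

namespace Cfsg.Agent.S2540

/-- Let F be a finite field and n ≥ 1, excluding the case n = 2 with #F ≤ 3. A subgroup of GL_n(F) that is normalized by every element of SL_n(F) either consists of scalar matrices or contains SL_n(F). -/
theorem result {F : Type*} [Field F] [Fintype F] (n : ℕ) (hn : 1 ≤ n) (hex : ¬ (n = 2 ∧ Fintype.card F ≤ 3)) (G : Subgroup (Matrix.GeneralLinearGroup (Fin n) F)) (hG : ∀ s : Matrix.SpecialLinearGroup (Fin n) F, ∀ g ∈ G, (Matrix.SpecialLinearGroup.toGL s) * g * (Matrix.SpecialLinearGroup.toGL s)⁻¹ ∈ G) : (∀ g ∈ G, ∃ c : F, (g : Matrix (Fin n) (Fin n) F) = c • (1 : Matrix (Fin n) (Fin n) F)) ∨ (Matrix.SpecialLinearGroup.toGL : Matrix.SpecialLinearGroup (Fin n) F →* _).range ≤ G := by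
  classical
  set T : Matrix.SpecialLinearGroup (Fin n) F →* GL (Fin n) F :=
    Matrix.SpecialLinearGroup.toGL with hT
  rcases Nat.lt_or_ge n 2 with h2 | h2
  · obtain rfl : n = 1 := by omega
    exact .inl fun g _ => ⟨(g : Matrix (Fin 1) (Fin 1) F) 0 0, by
      ext a b
      simp [Subsingleton.elim a 0, Subsingleton.elim b 0]⟩
  have : Nontrivial (Fin n) := Fin.nontrivial_iff_two_le.2 h2
  have hperf : commutator (Matrix.SpecialLinearGroup (Fin n) F) = ⊤ :=
    CfsgLib.Classical.Linear.commutator_sl_fin_eq_top n fun he =>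
      CfsgLib.Classical.Linear.exists_sq_ne_one_of_four_le (by
        rw [Nat.card_eq_fintype_card]
        by_contra hc
        exact hex ⟨he, by omega⟩)
  have hnorm : (G.comap T).Normal := ⟨fun x hx s => by
    rw [Subgroup.mem_comap, map_mul, map_mul, map_inv]
    exact hG s (T x) hx⟩
  rcases CfsgLib.Classical.Linear.normal_le_center_or_eq_top hperf (G.comap T) with hc | ht
  · left
    intro g hg
    have hex' : ∀ s, ∃ z ∈ Subgroup.center (Matrix.SpecialLinearGroup (Fin n) F),
        T s * g = T z * g * T s := by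
      intro s
      have hmem : T s * g * (T s)⁻¹ * g⁻¹ ∈ G := G.mul_mem (hG s g hg) (G.inv_mem hg)
      have hdet : Matrix.GeneralLinearGroup.det (T s * g * (T s)⁻¹ * g⁻¹) = 1 := by
        simp [mul_comm]
      obtain ⟨z, hz⟩ := CfsgLib.Classical.Linear.mem_range_toGL.2 hdet
      refine ⟨z, hc (show T z ∈ G by rwa [← hz] at hmem), ?_⟩
      rw [show T z = T s * g * (T s)⁻¹ * g⁻¹ from hz]
      group
    choose z hzc hz using hex'
    have hcomm : ∀ a b, z (a * b) = z a * z b := by
      intro a b
      apply Matrix.SpecialLinearGroup.toGL_injective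
      change T (z (a * b)) = T (z a * z b)
      have hzb : T a * T (z b) = T (z b) * T a := by
        rw [← map_mul, ← map_mul, Subgroup.mem_center_iff.1 (hzc b) a]
      have h := hz (a * b)
      rw [map_mul, mul_assoc, hz b, ← mul_assoc, ← mul_assoc, hzb, mul_assoc (T (z b)) (T a) g,
        hz a, ← mul_assoc, ← mul_assoc, mul_assoc _ (T a) (T b), mul_left_inj, mul_left_inj] at h
      rw [map_mul, ← h, ← map_mul, ← map_mul, Subgroup.mem_center_iff.1 (hzc b) (z a)]
    have h1 : z 1 = 1 := by simpa using hcomm 1 1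
    let f : Matrix.SpecialLinearGroup (Fin n) F →*
        Subgroup.center (Matrix.SpecialLinearGroup (Fin n) F) :=
      { toFun := fun s => ⟨z s, hzc s⟩
        map_one' := Subtype.ext h1
        map_mul' := fun a b => Subtype.ext (hcomm a b) }
    have hf : ∀ s, z s = 1 := fun s => by
      letI : CommGroup (Subgroup.center (Matrix.SpecialLinearGroup (Fin n) F)) := { mul_comm := fun a b => Subtype.ext (Subgroup.mem_center_iff.1 b.2 a.1) }
      have := Abelianization.commutator_subset_ker (A := Subgroup.center (Matrix.SpecialLinearGroup (Fin n) F)) f (hperf ▸ Subgroup.mem_top s :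
        s ∈ commutator (Matrix.SpecialLinearGroup (Fin n) F))
      exact congrArg Subtype.val (MonoidHom.mem_ker.1 this)
    have hscal : (g : Matrix (Fin n) (Fin n) F) ∈ Set.range (Matrix.scalar (Fin n)) :=
      Matrix.mem_range_scalar_of_commute_transvectionStruct fun t => by
        have h := hz t.toSpecialLinearGroup
        rw [hf, map_one, one_mul] at h
        exact congrArg Units.val h
    obtain ⟨c, hc'⟩ := hscal
    exact ⟨c, by rw [← hc', Matrix.scalar_apply, Matrix.smul_one_eq_diagonal]⟩
  · right
    rintro _ ⟨s, rfl⟩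
    have hs : s ∈ G.comap T := ht ▸ Subgroup.mem_top s
    exact hs

end Cfsg.Agent.S2540
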