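import Cfsg.Statements.S2541
-- import your own Cfsg.Agent.* helpers here

set_option autoImplicit false
open Cfsg

namespace Cfsg.Agent.S2541

/-- Let F be a field with 9 elements. The symmetric group S_6 is not isomorphic to PGL_2(F) (although both have index-2 subgroups isomorphic to A_6). -/
theorem result {F : Type*} [Field F] [Fintype F] (hF : Fintype.card F = 9) : ¬ Nonempty (Equiv.Perm (Fin 6) ≃* Matrix.ProjGenLinGroup (Fin 2) F) := by
  rintro ⟨e⟩
  classical
  obtain ⟨ζ, hζ⟩ := IsCyclic.exists_ofOrder_eq_natCard (α := Fˣ)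
  have h8 : orderOf ζ = 8 := by rw [hζ, Nat.card_units, Nat.card_eq_fintype_card, hF]
  let d : Fin 2 → Fˣ := ![ζ, 1]
  let g : GL (Fin 2) F := Matrix.GeneralLinearGroup.mk'' (Matrix.diagonal fun i => (d i : F))
    (by rw [Matrix.det_diagonal]; exact IsUnit.mk0 _ (Finset.prod_ne_zero_iff.2 fun i _ => (d i).ne_zero))
  have hpow : ∀ k : ℕ, ((g ^ k : GL (Fin 2) F) : Matrix (Fin 2) (Fin 2) F) = Matrix.diagonal fun i => ((d i : F) ^ k) := by
    intro k
    rw [Units.val_pow_eq_pow_val]
    exact Matrix.diagonal_pow _ k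
  have ho : orderOf (Matrix.ProjGenLinGroup.mk g) = 2 ^ (2 + 1) := by
    apply orderOf_eq_prime_pow
    · rw [← map_pow]
      intro h
      have h' : g ^ 4 ∈ Subgroup.center (GL (Fin 2) F) := (QuotientGroup.eq_one_iff _).1 h
      obtain ⟨c, hc⟩ := Matrix.GeneralLinearGroup.mem_center_iff_val_eq_scalar.1 h'
      rw [hpow] at hc
      have h0 := congrFun (congrFun hc 0) 0
      have h1 := congrFun (congrFun hc 1) 1
      simp [d, Matrix.scalar_apply] at h0 h1
      have h4 : ζ ^ 4 = 1 := by
        apply Units.ext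
        rw [Units.val_pow_eq_pow_val, Units.val_one, ← h0, h1]
      have := Nat.le_of_dvd (by norm_num) (orderOf_dvd_of_pow_eq_one h4)
      omega
    · rw [← map_pow]
      have : g ^ (2 ^ (2 + 1)) = 1 := by
        apply Units.ext
        rw [hpow]
        have hz : (ζ : F) ^ 8 = 1 := by
          rw [← Units.val_pow_eq_pow_val, ← h8, pow_orderOf_eq_one, Units.val_one]
        ext i j
        fin_cases i <;> fin_cases j <;> simp [d, hz]
      rw [this, map_one]
  let σ := e.symm (Matrix.ProjGenLinGroup.mk g)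
  have hσ : orderOf σ = 8 := by
    rw [show orderOf σ = orderOf (Matrix.ProjGenLinGroup.mk g) from
      orderOf_injective e.symm.toMonoidHom e.symm.injective _, ho]
    norm_num
  have hle : ∀ a ∈ σ.cycleType, a ∣ 60 := by
    intro a ha
    have h1 := Multiset.le_sum_of_mem ha
    rw [Equiv.Perm.sum_cycleType] at h1
    have h2 : σ.support.card ≤ 6 := le_trans (Finset.card_le_univ _) (by simp)
    have h3 := Equiv.Perm.two_le_of_mem_cycleType ha
    have h4 : a ≤ 6 := le_trans h1 h2
    interval_cases a <;> norm_num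
  have := Multiset.lcm_dvd.2 hle
  rw [Equiv.Perm.lcm_cycleType, hσ] at this
  norm_num at this

end Cfsg.Agent.S2541
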