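import Cfsg.Statements.S2542
import Cfsg.Agent.Dickson.MaxPoly

set_option autoImplicit false
open Cfsg
open CfsgLib.Dickson Matrix
open scoped MatrixGroups commutatorElement Pointwise

namespace Cfsg.Agent.S2542

/-- A four-group in `A₅`. -/
def klein : Subgroup (alternatingGroup (Fin 5)) where
  carrier := {g | g.1 = 1 ∨ g.1 = Equiv.swap 0 1 * Equiv.swap 2 3 ∨
    g.1 = Equiv.swap 0 2 * Equiv.swap 1 3 ∨ g.1 = Equiv.swap 0 3 * Equiv.swap 1 2}
  one_mem' := Or.inl rfl
  mul_mem' := by
    intro g h hg hh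
    simp only [Set.mem_ofPred_eq, Subgroup.coe_mul] at *
    rcases hg with hg | hg | hg | hg <;> rcases hh with hh | hh | hh | hh <;> rw [hg, hh] <;>
      decide +kernel
  inv_mem' := by
    intro g hg
    simp only [Set.mem_ofPred_eq, Subgroup.coe_inv] at *
    rcases hg with hg | hg | hg | hg <;> rw [hg] <;> decide +kernel

theorem klein_facts : (∃ a b : alternatingGroup (Fin 5), a ^ 3 = 1 ∧ b ^ 3 = 1 ∧ a * b ≠ b * a ∧
    ⁅a, b⁆ ^ 2 = 1 ∧ a ∈ Subgroup.normalizer (klein : Set (alternatingGroup (Fin 5))) ∧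
    b ∈ Subgroup.normalizer (klein : Set (alternatingGroup (Fin 5)))) ∧ Nat.card klein = 4 := by
  have hmem : ∀ g : alternatingGroup (Fin 5), g ∈ klein ↔ g.1 = 1 ∨
      g.1 = Equiv.swap 0 1 * Equiv.swap 2 3 ∨ g.1 = Equiv.swap 0 2 * Equiv.swap 1 3 ∨
      g.1 = Equiv.swap 0 3 * Equiv.swap 1 2 := fun g => Iff.rfl
  constructor
  · refine ⟨⟨Equiv.swap 0 1 * Equiv.swap 1 2, Equiv.Perm.mem_alternatingGroup.mpr (by decide)⟩,
      ⟨Equiv.swap 0 1 * Equiv.swap 1 3, Equiv.Perm.mem_alternatingGroup.mpr (by decide)⟩,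
      by decide +kernel, by decide +kernel, by decide +kernel, by decide +kernel, ?_, ?_⟩ <;>
      · rw [Subgroup.mem_normalizer_iff]
        simp only [hmem]
        decide +kernel
  · have : DecidablePred (· ∈ klein) := fun g => decidable_of_iff _ (hmem g).symm
    rw [Nat.card_eq_fintype_card, Fintype.card_subtype]
    simp only [hmem]
    decide +kernel

/-- Let F be a field with 11 elements. PSL_2(F) has a subgroup H of index 11 isomorphic to the alternating group A_5, and the action of PSL_2(F) on the cosets of H is 2-transitive (of degree 11). -/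
theorem result {F : Type*} [Field F] [Fintype F] (hF : Fintype.card F = 11) : ∃ H : Subgroup (Matrix.ProjectiveSpecialLinearGroup (Fin 2) F), H.index = 11 ∧ Nonempty (H ≃* alternatingGroup (Fin 5)) ∧ MulAction.IsMultiplyPretransitive (Matrix.ProjectiveSpecialLinearGroup (Fin 2) F) ((Matrix.ProjectiveSpecialLinearGroup (Fin 2) F) ⧸ H) 2 := by
  classical
  have : Fact (Nat.Prime 11) := ⟨by norm_num⟩
  have : CharP F 11 := charP_of_card_eq_prime hF
  have hodd : Odd (Fintype.card F) := by rw [hF]; decide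
  obtain ⟨H, ⟨i⟩⟩ := exists_psl_a5_of_odd (F := F) (CfsgLib.SL2.two_ne_zero_iff_odd.mpr hodd)
    (by rw [hF]; norm_num)
  have hH : Nat.card H = 60 := by rw [Nat.card_congr i.toEquiv, card_alt_five]
  have hG : Nat.card (Matrix.ProjectiveSpecialLinearGroup (Fin 2) F) = 660 := by
    have h := psl_card_mul_two hodd
    rw [hF] at h
    omega
  have hidx : H.index = 11 := by
    have h := H.card_mul_index
    rw [hH, hG] at h
    omega
  obtain ⟨⟨a, b, ha3, hb3, hab, hc2, han, hbn⟩, hV4⟩ := klein_facts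
  have hHs : IsSimpleGroup H := MulEquiv.isSimpleGroup i
  set f : alternatingGroup (Fin 5) →* Matrix.ProjectiveSpecialLinearGroup (Fin 2) F :=
    H.subtype.comp i.symm.toMonoidHom with hf
  have hfinj : Function.Injective f := H.subtype_injective.comp i.symm.injective
  have hfH : ∀ u, f u ∈ H := fun u => (i.symm u).2
  set V := klein.map f
  have hV : Nat.card V = 4 := by rw [Subgroup.card_map_of_injective hfinj, hV4]
  have hVH : V ≤ H := by
    rintro _ ⟨u, -, rfl⟩
    exact hfH u
  set M := Subgroup.normalizer (V : Set (Matrix.ProjectiveSpecialLinearGroup (Fin 2) F)) with hM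
  have hfM : ∀ u ∈ Subgroup.normalizer (klein : Set (alternatingGroup (Fin 5))), f u ∈ M :=
    fun u hu => Subgroup.le_normalizer_map f ⟨u, hu, rfl⟩
  have hxa := hfM a han
  have hxb := hfM b hbn
  have hfab : f a * f b ≠ f b * f a := by
    rw [← map_mul, ← map_mul]
    exact fun h => hab (hfinj h)
  have hnotnormal : ∀ S : Subgroup (Matrix.ProjectiveSpecialLinearGroup (Fin 2) F), V ≤ S →
      IsSimpleGroup S → 4 < Nat.card S → ¬ S ≤ M := by
    intro S hVS hS h4 hSM
    have : (V.subgroupOf S).Normal := ⟨fun v hv g => ((Subgroup.mem_normalizer_iff.mp (hSM g.2)) _).mp hv⟩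
    have hc : Nat.card (V.subgroupOf S) = 4 := by
      rw [Nat.card_congr (Subgroup.subgroupOfEquivOfLe hVS).toEquiv, hV]
    rcases this.eq_bot_or_eq_top with h | h
    · rw [h, Subgroup.card_bot] at hc; omega
    · rw [h, Subgroup.card_top] at hc; omega
  have hMH : M ≤ H := by
    rcases classify_psl 11 M with ⟨z, hz⟩ | ⟨hcy, -⟩ | ⟨n, -, -, ⟨j⟩, -⟩ | ⟨-, ⟨j⟩⟩ | ⟨-, ⟨j⟩⟩ | ⟨-, ⟨j⟩⟩ |
      ⟨L, m, hm, hL⟩
    · exfalso
      have h := commutator_pow_char_eq_one_of_mem_pslStab 11 (hz hxa) (hz hxb)
      rw [← map_commutatorElement, ← map_pow, show (11 : ℕ) = 2 * 5 + 1 from rfl, pow_succ, pow_mul,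
        hc2, one_pow, one_mul] at h
      exact hab (commutatorElement_eq_one_iff_mul_comm.mp (hfinj (h.trans (map_one f).symm)))
    · exact absurd (congrArg Subtype.val ((inferInstance : IsMulCommutative M).is_comm.comm
        ⟨_, hxa⟩ ⟨_, hxb⟩)) hfab
    · exfalso
      have hsq : ∀ u : M, u ^ 3 = 1 → u = u ^ 2 * u ^ 2 := fun u hu => by
        rw [← pow_add, show 2 + 2 = 3 + 1 from rfl, pow_succ, hu, one_mul]
      have hA : (⟨_, hxa⟩ : M) ^ 3 = 1 := Subtype.ext (by
        show f a ^ 3 = 1
        rw [← map_pow, ha3, map_one])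
      have hB : (⟨_, hxb⟩ : M) ^ 3 = 1 := Subtype.ext (by
        show f b ^ 3 = 1
        rw [← map_pow, hb3, map_one])
      have key := dihedral_squares_commute (j (⟨_, hxa⟩ ^ 2)) (j (⟨_, hxb⟩ ^ 2))
      rw [← map_mul, ← map_mul, ← map_mul, ← map_mul, ← hsq _ hA, ← hsq _ hB] at key
      exact hfab (congrArg Subtype.val (j.injective key))
    · have h12 : Nat.card M = 12 := by rw [Nat.card_congr j.toEquiv, card_alt_four]
      have h3 : 3 ∣ Nat.card (M ⊓ H : Subgroup _) := by
        have : orderOf (f a) = 3 := orderOf_eq_prime (by rw [← map_pow, ha3, map_one]) fun h =>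
          hfab (by rw [h, one_mul, mul_one])
        rw [← this, ← Subgroup.orderOf_mk (f a) (show f a ∈ M ⊓ H from ⟨hxa, hfH a⟩)]
        exact orderOf_dvd_natCard _
      have h4' : 4 ∣ Nat.card (M ⊓ H : Subgroup _) := by
        rw [← hV]
        exact Subgroup.card_dvd_of_le (le_inf Subgroup.le_normalizer hVH)
      have h12' : 12 ∣ Nat.card (M ⊓ H : Subgroup _) := by omega
      have := Subgroup.eq_of_le_of_card_ge (inf_le_left : M ⊓ H ≤ M)
        (h12.le.trans (Nat.le_of_dvd Nat.card_pos h12'))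
      exact this ▸ inf_le_right
    · exfalso
      have h := Subgroup.card_subgroup_dvd_card M
      rw [Nat.card_congr j.toEquiv, card_perm_four, hG] at h
      norm_num at h
    · exfalso
      have : IsSimpleGroup M := MulEquiv.isSimpleGroup j
      refine hnotnormal M Subgroup.le_normalizer this ?_ le_rfl
      rw [Nat.card_congr j.toEquiv, card_alt_five]; norm_num
    · exfalso
      let _ : Fintype L := Fintype.ofFinite _
      have hm1 : m = 1 ∧ Nat.card L = 11 := by
        rw [hF] at hm
        have hm0 : m ≠ 0 := fun h => by rw [h, pow_zero] at hm; norm_num at hm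
        rcases (Nat.dvd_prime (by norm_num)).mp (hm ▸ dvd_pow_self (Nat.card L) hm0) with h | h
        · rw [h, one_pow] at hm; norm_num at hm
        · rw [h] at hm
          exact ⟨Nat.pow_right_injective (show 2 ≤ 11 by norm_num) (hm.trans (pow_one 11).symm), h⟩
      obtain ⟨rfl, hL11⟩ := hm1
      rcases hL with ⟨-, hev⟩ | ⟨-, ⟨j⟩⟩
      · exact absurd (hev (by norm_num)) (by norm_num)
      · have hLo : Odd (Fintype.card L) := by rw [← Nat.card_eq_fintype_card, hL11]; decide
        have htop : M = ⊤ := by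
          refine Subgroup.eq_top_of_card_eq _ ?_
          have h := psl_card_mul_two hLo
          rw [← Nat.card_eq_fintype_card, hL11, ← Nat.card_congr j.toEquiv] at h
          rw [hG]; omega
        exact hnotnormal H hVH hHs (by omega) (htop ▸ le_top)
  -- no further coset is fixed by `V`
  have hnofix : ∀ g, (∀ v ∈ V, g⁻¹ * v * g ∈ H) → g ∈ H := by
    intro g hg
    have : Fact (Nat.Prime 2) := ⟨Nat.prime_two⟩
    set V' := V.map (MulAut.conj g⁻¹).toMonoidHom
    have hV'H : V' ≤ H := by
      rintro _ ⟨v, hv, rfl⟩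
      simpa using hg v hv
    have hV' : Nat.card V' = 4 := by rw [card_map_conj, hV]
    have hsyl : ∀ W : Subgroup (Matrix.ProjectiveSpecialLinearGroup (Fin 2) F), W ≤ H → Nat.card W = 4 →
        ∃ P : Sylow 2 H, (P : Subgroup H) = W.subgroupOf H := by
      intro W hW hWc
      have hc : Nat.card (W.subgroupOf H) = 4 := by
        rw [Nat.card_congr (Subgroup.subgroupOfEquivOfLe hW).toEquiv, hWc]
      refine ⟨Sylow.ofCard (W.subgroupOf H) ?_, rfl⟩
      rw [hH, hc, show (60 : ℕ) = 2 ^ 2 * 15 by norm_num,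
        Nat.factorization_mul (by norm_num) (by norm_num), Nat.Prime.factorization_pow Nat.prime_two,
        Finsupp.add_apply, Finsupp.single_eq_same, Nat.factorization_eq_zero_of_not_dvd (by norm_num)]
      norm_num
    obtain ⟨P, hP⟩ := hsyl V hVH hV
    obtain ⟨Q, hQ⟩ := hsyl V' hV'H hV'
    obtain ⟨h, hh⟩ := MulAction.exists_smul_eq H P Q
    have hn : g * h ∈ M := by
      have hval : ∀ v ∈ V, g * (h * v * (↑h)⁻¹) * g⁻¹ ∈ V := by
        intro v hv
        have hm : (⟨v, hVH hv⟩ : H) ∈ (P : Subgroup H) := by rw [hP]; exact hv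
        have hm' : h * ⟨v, hVH hv⟩ * h⁻¹ ∈ (Q : Subgroup H) := by
          rw [← hh, Sylow.coe_subgroup_smul]
          exact ⟨_, hm, rfl⟩
        rw [hQ] at hm'
        obtain ⟨u, hu, he⟩ := hm'
        have : g⁻¹ * u * g = ↑h * v * (↑h)⁻¹ := by simpa using he
        rw [← this]
        simpa [mul_assoc] using hu
      have hle : V.map (MulAut.conj (g * h)).toMonoidHom ≤ V := by
        rintro _ ⟨v, hv, rfl⟩
        simpa [mul_assoc] using hval v hv
      have heq := Subgroup.eq_of_le_of_card_ge hle (card_map_conj V _).ge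
      rw [hM, Subgroup.mem_normalizer_iff]
      intro v
      constructor
      · intro hv; simpa [mul_assoc] using hval v hv
      · intro hv
        rw [← heq] at hv
        obtain ⟨u, hu, he⟩ := hv
        have : u = v := by simpa [mul_assoc] using he
        exact this ▸ hu
    simpa using H.mul_mem (hMH hn) (H.inv_mem h.2)
  -- the orbit of `H` on the other cosets
  set X := Matrix.ProjectiveSpecialLinearGroup (Fin 2) F ⧸ H
  have hX : Nat.card X = 11 := hidx
  set o : X := ((1 : Matrix.ProjectiveSpecialLinearGroup (Fin 2) F) : X)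
  have hfixo : ∀ h : H, h • o = o := fun h => by
    show ((h : Matrix.ProjectiveSpecialLinearGroup (Fin 2) F) • o) = o
    show ((((h : Matrix.ProjectiveSpecialLinearGroup (Fin 2) F) * 1 : _)) : X) = o
    rw [mul_one, QuotientGroup.eq, mul_one]
    exact H.inv_mem h.2
  have hsmall : ∀ ω : X, ω ≠ o → 4 < Nat.card (MulAction.orbit H ω) ∧
      2 ∣ Nat.card (MulAction.orbit H ω) ∧ Nat.card (MulAction.orbit H ω) ∣ 60 := by
    intro ω hω
    have hos : Nat.card (MulAction.orbit H ω) * Nat.card (MulAction.stabilizer H ω) = 60 := by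
      rw [← hH, ← Nat.card_prod]
      exact Nat.card_congr (MulAction.orbitProdStabilizerEquivGroup H ω)
    have h4 : ¬ 4 ∣ Nat.card (MulAction.stabilizer H ω) := by
      intro h4
      have : Fact (Nat.Prime 2) := ⟨Nat.prime_two⟩
      obtain ⟨W, hW⟩ := Sylow.exists_subgroup_card_pow_prime 2 (G := MulAction.stabilizer H ω) (n := 2) h4
      set W' := (W.map (MulAction.stabilizer H ω).subtype).map H.subtype
      have hW' : Nat.card W' = 4 := by
        rw [Subgroup.card_map_of_injective H.subtype_injective,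
          Subgroup.card_map_of_injective (Subgroup.subtype_injective _), hW]
        norm_num
      have hWH : W' ≤ H := by
        rintro _ ⟨u, -, rfl⟩
        exact u.2
      have hfix : ∀ v ∈ W', v • ω = ω := by
        rintro _ ⟨_, ⟨u, -, rfl⟩, rfl⟩
        exact u.2
      have hsyl : ∀ W : Subgroup (Matrix.ProjectiveSpecialLinearGroup (Fin 2) F), W ≤ H → Nat.card W = 4 →
          ∃ P : Sylow 2 H, (P : Subgroup H) = W.subgroupOf H := by
        intro W hW hWc
        have hc : Nat.card (W.subgroupOf H) = 4 := by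
          rw [Nat.card_congr (Subgroup.subgroupOfEquivOfLe hW).toEquiv, hWc]
        refine ⟨Sylow.ofCard (W.subgroupOf H) ?_, rfl⟩
        rw [hH, hc, show (60 : ℕ) = 2 ^ 2 * 15 by norm_num,
          Nat.factorization_mul (by norm_num) (by norm_num), Nat.Prime.factorization_pow Nat.prime_two,
          Finsupp.add_apply, Finsupp.single_eq_same, Nat.factorization_eq_zero_of_not_dvd (by norm_num)]
        norm_num
      obtain ⟨P, hP⟩ := hsyl W' hWH hW'
      obtain ⟨Q, hQ⟩ := hsyl V hVH hV
      obtain ⟨h, hh⟩ := MulAction.exists_smul_eq H P Q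
      obtain ⟨g, hg⟩ := QuotientGroup.mk_surjective (h • ω)
      have hgH : g ∈ H := hnofix g fun v hv => by
        have hm : (⟨v, hVH hv⟩ : H) ∈ (Q : Subgroup H) := by rw [hQ]; exact hv
        rw [← hh, Sylow.coe_subgroup_smul] at hm
        obtain ⟨u, hu, he⟩ := hm
        have hu' : (u : Matrix.ProjectiveSpecialLinearGroup (Fin 2) F) ∈ W' := by
          rw [SetLike.mem_coe, hP] at hu
          exact hu
        have he' : h * u * h⁻¹ = (⟨v, hVH hv⟩ : H) := he
        have hvf : (⟨v, hVH hv⟩ : H) • (h • ω) = h • ω := by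
          rw [← he', mul_smul, mul_smul, inv_smul_smul]
          exact congrArg (h • ·) (hfix _ hu')
        rw [← hg] at hvf
        have : ((v * g : Matrix.ProjectiveSpecialLinearGroup (Fin 2) F) : X) = (g : X) := hvf
        rw [QuotientGroup.eq] at this
        simpa [mul_assoc] using H.inv_mem this
      have : h • ω = h • o := by
        rw [hfixo h, ← hg]
        exact QuotientGroup.eq.mpr (by simpa using H.inv_mem hgH)
      exact hω (MulAction.injective h this)
    have hdvd : Nat.card (MulAction.orbit H ω) ∣ 60 := ⟨_, hos.symm⟩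
    have h2 : 2 ∣ Nat.card (MulAction.orbit H ω) := by
      by_contra h
      refine h4 (Nat.Coprime.dvd_of_dvd_mul_left ?_ (by rw [hos]; norm_num : 4 ∣ _ * _))
      exact (Nat.Coprime.pow_left 2 ((Nat.prime_two.coprime_iff_not_dvd).mpr h))
    refine ⟨?_, h2, hdvd⟩
    by_contra h4o
    have hne : MulAction.toPermHom H (MulAction.orbit H ω) ≠ 1 → False := by
      intro hne
      rcases (MonoidHom.normal_ker (MulAction.toPermHom H (MulAction.orbit H ω))).eq_bot_or_eq_top with h | h
      · have := Subgroup.card_dvd_of_injective _ ((MonoidHom.ker_eq_bot_iff _).mp h)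
        rw [hH, Nat.card_perm] at this
        have hk := Nat.le_of_dvd (Nat.factorial_pos _) this
        have := Nat.factorial_le (show Nat.card (MulAction.orbit H ω) ≤ 4 by omega)
        have : Nat.factorial 4 = 24 := rfl
        omega
      · exact hne (MonoidHom.ker_eq_top_iff.mp h)
    have htriv : ∀ h : H, h • ω = ω := by
      intro h
      by_contra hne'
      refine hne fun h1 => hne' ?_
      exact congrArg Subtype.val (DFunLike.congr_fun (DFunLike.congr_fun h1 h)
        ⟨ω, MulAction.mem_orbit_self ω⟩)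
    have : Nat.card (MulAction.orbit H ω) = 1 := by
      rw [Nat.card_eq_one_iff_unique]
      refine ⟨⟨fun u v => Subtype.ext ?_⟩, ⟨⟨ω, MulAction.mem_orbit_self ω⟩⟩⟩
      obtain ⟨u, hu, rfl⟩ := u
      obtain ⟨v, hv, rfl⟩ := v
      simp [htriv]
    omega
  have hbound : ∀ s : Set X, o ∉ s → Nat.card s ≤ 10 := by
    intro s hs
    have h1 : Nat.card s ≤ Nat.card ({o}ᶜ : Set X) :=
      Nat.card_mono (Set.toFinite _) fun u hu h => hs (h ▸ hu)
    have h2 := Set.ncard_add_ncard_compl ({o} : Set X)
    rw [Set.ncard_singleton, hX, ← Nat.card_coe_set_eq] at h2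
    omega
  have htrans : ∀ ω ω' : X, ω ≠ o → ω' ≠ o → ∃ h : H, h • ω = ω' := by
    intro ω ω' hω hω'
    by_contra hne
    have hno : ∀ z, z ≠ o → o ∉ MulAction.orbit H z := fun z hz ⟨h, hh⟩ =>
      hz (MulAction.injective h (hh.trans (hfixo h).symm))
    have hdis : Disjoint (MulAction.orbit H ω) (MulAction.orbit H ω') := by
      rcases MulAction.orbit.eq_or_disjoint (G := H) ω ω' with h | h
      · exact absurd (h ▸ MulAction.mem_orbit_self ω' : ω' ∈ MulAction.orbit H ω) hne
      · exact h
    have hle := hbound (MulAction.orbit H ω ∪ MulAction.orbit H ω') fun h =>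
      h.elim (hno ω hω) (hno ω' hω')
    rw [Nat.card_coe_set_eq, Set.ncard_union_eq hdis (Set.toFinite _) (Set.toFinite _),
      ← Nat.card_coe_set_eq, ← Nat.card_coe_set_eq] at hle
    obtain ⟨h1, h2, -⟩ := hsmall ω hω
    obtain ⟨h1', h2', -⟩ := hsmall ω' hω'
    omega
  refine ⟨H, hidx, ⟨i⟩, ?_⟩
  rw [MulAction.is_two_pretransitive_iff]
  intro a b c d hab' hcd
  obtain ⟨g, hg⟩ := MulAction.exists_smul_eq (Matrix.ProjectiveSpecialLinearGroup (Fin 2) F) a o
  obtain ⟨g', hg'⟩ := MulAction.exists_smul_eq (Matrix.ProjectiveSpecialLinearGroup (Fin 2) F) c o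
  obtain ⟨h, hh⟩ := htrans (g • b) (g' • d)
    (fun e => hab' (MulAction.injective g (hg.trans e.symm)))
    (fun e => hcd (MulAction.injective g' (hg'.trans e.symm)))
  refine ⟨g'⁻¹ * (h * g), ?_, ?_⟩
  · rw [mul_smul, mul_smul, hg, inv_smul_eq_iff, hg']
    exact hfixo h
  · rw [mul_smul, mul_smul, inv_smul_eq_iff]
    exact hh

end Cfsg.Agent.S2542
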