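import Cfsg.Statements.S2543
import Cfsg.Agent.Dickson.MaxPoly
import Cfsg.Agent.Classical.Linear.Simple

set_option autoImplicit false
open scoped Pointwise
open Cfsg
open CfsgLib.Dickson Matrix
open scoped MatrixGroups commutatorElement Pointwise

namespace Cfsg.Agent.S2543

section

variable {F : Type*} [Field F] [Finite F] {x y : F} (hxy : x ^ 2 + y ^ 2 = -1) (h2 : (2 : F) ≠ 0)
include hxy h2

/-- The two standard icosahedral groups are conjugate in `PGL(2, F)`. -/
theorem exists_conj_icosaRef {b : F} (hb : b ^ 2 + b - 1 = 0) :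
    ∃ k : PGL(2, F), (icosaRef x y b).map (MulAut.conj k).toMonoidHom = icosaRef x y (-1 - b) := by
  classical
  have := Fintype.ofFinite F
  have : Finite PGL(2, F) := Finite.of_surjective _ ProjGenLinGroup.mk_surjective
  have hb' : (-1 - b) ^ 2 + (-1 - b) - 1 = 0 := by linear_combination hb
  obtain ⟨ni, nj, -, nr, -⟩ := qnorm_ne_zero_of (F := F) h2
  have h4 := four_ne_zero' (F := F) h2
  have n3 : qnorm 0 1 b (-1 - b) ≠ 0 := (icosa_relations hxy h2 hb).1 ▸ h4
  have n3' : qnorm 0 1 (-1 - b) (-1 - (-1 - b)) ≠ 0 := (icosa_relations hxy h2 hb').1 ▸ h4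
  have ng : qnorm (1 : F) 1 0 0 ≠ 0 := by simpa [qnorm, one_add_one_eq_two] using h2
  set g := qp x y 1 1 0 0
  set r := qp x y 1 1 1 1
  set i' := qp x y 0 1 0 0
  set j := qp x y 0 0 1 0
  have hj : j ∈ icosaRef x y (-1 - b) := by
    obtain ⟨-, h, -⟩ := kleinSet_facts hxy h2
    show qp x y 0 0 1 0 ∈ _
    rw [← h]
    exact mul_mem (mul_mem (Subgroup.subset_closure (by simp)) (Subgroup.subset_closure (by simp)))
      (inv_mem (Subgroup.subset_closure (by simp)))
  have hm : ∀ {a b c d a' b' c' d' : F}, qnorm a b c d ≠ 0 → qnorm a' b' c' d' ≠ 0 →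
      qnorm (a * a' - b * b' - c * c' - d * d') (a * b' + b * a' + c * d' - d * c')
        (a * c' - b * d' + c * a' + d * b') (a * d' + b * c' - c * b' + d * a') ≠ 0 := fun h h' => by
    rw [qnorm_mul]; exact mul_ne_zero h h'
  have hmul := fun {a b c d a' b' c' d' : F} (h : qnorm a b c d ≠ 0) (h' : qnorm a' b' c' d' ≠ 0) =>
    qp_mul hxy h h'
  have E1 : j * r * j * (g * r) = g := by
    show qp x y 0 0 1 0 * qp x y 1 1 1 1 * qp x y 0 0 1 0 * (qp x y 1 1 0 0 * qp x y 1 1 1 1) =
      qp x y 1 1 0 0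
    rw [hmul nj nr, hmul (hm nj nr) nj, hmul ng nr, hmul (hm (hm nj nr) nj) (hm ng nr)]
    exact qp_eq_of_smul hxy (-4) (neg_ne_zero.mpr h4) ng (by ring) (by ring) (by ring) (by ring)
  have E2 : g * qp x y 0 1 b (-1 - b) = j * qp x y 0 1 (-1 - b) (-1 - (-1 - b)) * j * g := by
    show qp x y 1 1 0 0 * qp x y 0 1 b (-1 - b) =
      qp x y 0 0 1 0 * qp x y 0 1 (-1 - b) (-1 - (-1 - b)) * qp x y 0 0 1 0 * qp x y 1 1 0 0
    rw [hmul ng n3, hmul nj n3', hmul (hm nj n3') nj, hmul (hm (hm nj n3') nj) ng]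
    exact qp_eq_of_smul hxy 1 one_ne_zero (hm (hm (hm nj n3') nj) ng) (by ring) (by ring) (by ring) (by ring)
  have E3 : g * i' = i' * g := by
    show qp x y 1 1 0 0 * qp x y 0 1 0 0 = qp x y 0 1 0 0 * qp x y 1 1 0 0
    rw [hmul ng ni, hmul ni ng]
    exact qp_eq_of_smul hxy 1 one_ne_zero (hm ni ng) (by ring) (by ring) (by ring) (by ring)
  refine ⟨g, Subgroup.eq_of_le_of_card_ge ?_ ?_⟩
  · rw [icosaRef, MonoidHom.map_closure, Subgroup.closure_le]
    rintro _ ⟨u, (rfl | rfl | rfl), rfl⟩
    · show g * r * g⁻¹ ∈ icosaRef x y (-1 - b)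
      rw [show g * r * g⁻¹ = (j * r * j)⁻¹ by
        rw [eq_comm, inv_eq_iff_mul_eq_one, ← mul_assoc, ← mul_assoc, mul_inv_eq_one]
        simpa [mul_assoc] using E1]
      exact inv_mem (mul_mem (mul_mem hj (Subgroup.subset_closure (by simp [r]))) hj)
    · show g * i' * g⁻¹ ∈ icosaRef x y (-1 - b)
      rw [E3, mul_inv_cancel_right]
      exact Subgroup.subset_closure (by simp [i'])
    · show g * qp x y 0 1 b (-1 - b) * g⁻¹ ∈ icosaRef x y (-1 - b)
      rw [E2, mul_inv_cancel_right]
      exact mul_mem (mul_mem hj (Subgroup.subset_closure (by simp))) hj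
  · obtain ⟨e⟩ := icosaRef_equiv hxy h2 hb
    obtain ⟨e'⟩ := icosaRef_equiv hxy h2 hb'
    rw [card_map_conj, Nat.card_congr e.toEquiv, Nat.card_congr e'.toEquiv]

end

/-- Let F be a field with 11 elements. PSL_2(F) has exactly 22 subgroups isomorphic to the alternating group A_5, and they form two conjugacy classes: there are two such subgroups that are not conjugate, and every such subgroup is conjugate to one of these two. -/
theorem result {F : Type*} [Field F] [Fintype F] (hF : Fintype.card F = 11) : Nat.card {H : Subgroup (Matrix.ProjectiveSpecialLinearGroup (Fin 2) F) // Nonempty (H ≃* alternatingGroup (Fin 5))} = 22 ∧ ∃ H K : Subgroup (Matrix.ProjectiveSpecialLinearGroup (Fin 2) F), Nonempty (H ≃* alternatingGroup (Fin 5)) ∧ Nonempty (K ≃* alternatingGroup (Fin 5)) ∧ (∀ g : Matrix.ProjectiveSpecialLinearGroup (Fin 2) F, MulAut.conj g • H ≠ K) ∧ ∀ L : Subgroup (Matrix.ProjectiveSpecialLinearGroup (Fin 2) F), Nonempty (L ≃* alternatingGroup (Fin 5)) → ∃ g : Matrix.ProjectiveSpecialLinearGroup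 (Fin 2) F, MulAut.conj g • L = H ∨ MulAut.conj g • L = K := by
  classical
  have : Fact (Nat.Prime 11) := ⟨by norm_num⟩
  have : CharP F 11 := charP_of_card_eq_prime hF
  have hodd : Odd (Fintype.card F) := by rw [hF]; decide
  have h2 : (2 : F) ≠ 0 := CfsgLib.SL2.two_ne_zero_iff_odd.mpr hodd
  obtain ⟨x, y, hxy, hS⟩ := exists_quat_param (F := F)
  obtain ⟨b, hb⟩ := exists_golden h2 (by rw [hF]; norm_num)
  set π := ProjectiveSpecialLinearGroup.toPGL (n := Fin 2) (R := F)
  have hπ : Function.Injective π := ProjectiveSpecialLinearGroup.toPGL_injective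
  set R := icosaRef x y b with hRdef
  obtain ⟨eR⟩ := icosaRef_equiv hxy h2 hb
  have hRc : Nat.card R = 60 := by rw [Nat.card_congr eR.toEquiv, card_alt_five]
  set P := (SpecialLinearGroup.toPGL (n := Fin 2) (R := F)).range with hPdef
  have hPr : P = π.range := by
    ext g
    constructor
    · rintro ⟨s, rfl⟩; exact ⟨QuotientGroup.mk s, rfl⟩
    · rintro ⟨u, rfl⟩
      induction u using QuotientGroup.induction_on with
      | H s => exact ⟨s, rfl⟩
  have hG : Nat.card (Matrix.ProjectiveSpecialLinearGroup (Fin 2) F) = 660 := by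
    have h := psl_card_mul_two hodd
    rw [hF] at h
    omega
  have hT : Nat.card PGL(2, F) = 1320 := by rw [card_pgl2_sq, hF]; norm_num
  have hPi : P.index = 2 := by
    have h := P.card_mul_index
    rw [hT, show Nat.card P = 660 by
      rw [hPr, ← Nat.card_congr (MonoidHom.ofInjective hπ).toEquiv, hG]] at h
    omega
  have hPn : P.Normal := Subgroup.normal_of_index_eq_two hPi
  have hRP : R ≤ P := (icosaRef_le_pslImage hxy h2 hb (hS ⊤).1 (hS ⊤).2 (mem_top_subfield b)).trans
    (pslImage_le_range_toPGL _)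
  -- the conjugates of `R`
  set cR : PGL(2, F) → Subgroup (Matrix.ProjectiveSpecialLinearGroup (Fin 2) F) :=
    fun c => (R.map (MulAut.conj c).toMonoidHom).comap π with hcR
  have hmap : ∀ c, (cR c).map π = R.map (MulAut.conj c).toMonoidHom := fun c => by
    refine Subgroup.map_comap_eq_self (fun g hg => ?_)
    obtain ⟨u, hu, rfl⟩ := hg
    rw [← hPr]
    exact hPn.conj_mem u (hRP hu) c
  have hiso : ∀ c, Nonempty (cR c ≃* alternatingGroup (Fin 5)) := fun c =>
    ⟨((cR c).equivMapOfInjective π hπ).trans ((MulEquiv.subgroupCongr (hmap c)).trans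
      ((R.equivMapOfInjective _ (MulAut.conj c).injective).symm.trans eR))⟩
  have hall : ∀ L : Subgroup (Matrix.ProjectiveSpecialLinearGroup (Fin 2) F),
      Nonempty (L ≃* alternatingGroup (Fin 5)) → ∃ c, cR c = L := by
    rintro L ⟨e⟩
    let ι : alternatingGroup (Fin 5) →* PGL(2, F) := (π.comp L.subtype).comp e.symm.toMonoidHom
    obtain ⟨k, t, ht, hk⟩ := conj_alt_five hxy h2 ι ((hπ.comp L.subtype_injective).comp e.symm.injective)
    have hr : ι.range = L.map π := by
      ext g
      constructor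
      · rintro ⟨u, rfl⟩; exact ⟨_, (e.symm u).2, rfl⟩
      · rintro ⟨u, hu, rfl⟩; exact ⟨e ⟨u, hu⟩, by simp [ι]⟩
    rw [hr] at hk
    obtain ⟨c, hc⟩ : ∃ c, R.map (MulAut.conj c).toMonoidHom = icosaRef x y t := by
      have : (t - b) * (t - (-1 - b)) = 0 := by linear_combination ht - hb
      rcases mul_eq_zero.mp this with h | h
      · refine ⟨1, ?_⟩
        rw [sub_eq_zero.mp h]
        ext g
        simp [Subgroup.mem_map, R]
      · rw [sub_eq_zero.mp h]
        exact exists_conj_icosaRef hxy h2 hb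
    refine ⟨k⁻¹ * c, Subgroup.map_injective hπ ?_⟩
    rw [hmap]
    ext g
    constructor
    · rintro ⟨u, hu, rfl⟩
      have : MulAut.conj c u ∈ icosaRef x y t := hc ▸ ⟨u, hu, rfl⟩
      rw [← hk] at this
      obtain ⟨v, hv, hve⟩ := this
      have : MulAut.conj (k⁻¹ * c) u = v := by
        rw [map_mul, MulAut.mul_apply, ← hve]
        simp [mul_assoc]
      exact (show MulAut.conj (k⁻¹ * c) u ∈ L.map π from this ▸ hv)
    · intro hg
      have : MulAut.conj k g ∈ icosaRef x y t := hk ▸ ⟨g, hg, rfl⟩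
      rw [← hc] at this
      obtain ⟨v, hv, hve⟩ := this
      refine ⟨v, hv, ?_⟩
      show MulAut.conj (k⁻¹ * c) v = g
      rw [map_mul, MulAut.mul_apply, show MulAut.conj c v = MulAut.conj k g from hve]
      simp [mul_assoc]
  have hNR : Subgroup.normalizer (R : Set PGL(2, F)) = R := by
    set N := Subgroup.normalizer (R : Set PGL(2, F))
    have hle : R ≤ N := Subgroup.le_normalizer
    have hd : 60 ∣ Nat.card N := hRc ▸ Subgroup.card_dvd_of_le hle
    have hw : ∀ u : R, u ^ 3 = 1 → (u : PGL(2, F)) = (u : PGL(2, F)) ^ 2 * (u : PGL(2, F)) ^ 2 := by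
      intro u hu
      rw [← pow_add, show 2 + 2 = 3 + 1 from rfl, pow_succ, ← Subgroup.coe_pow, hu, Subgroup.coe_one,
        one_mul]
    let a : alternatingGroup (Fin 5) :=
      ⟨Equiv.swap 0 1 * Equiv.swap 1 2, Equiv.Perm.mem_alternatingGroup.mpr (by decide)⟩
    let a' : alternatingGroup (Fin 5) :=
      ⟨Equiv.swap 0 1 * Equiv.swap 1 3, Equiv.Perm.mem_alternatingGroup.mpr (by decide)⟩
    have ha : a * a' ≠ a' * a ∧ a ^ 3 = 1 ∧ a' ^ 3 = 1 := by decide +kernel
    have hne : ∀ u v : R, u * v ≠ v * u → (⟨u, hle u.2⟩ : N) * ⟨v, hle v.2⟩ ≠ ⟨v, hle v.2⟩ * ⟨u, hle u.2⟩ :=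
      fun u v h h' => h (Subtype.ext (by simpa using congrArg (fun w : N => (w : PGL(2, F))) h'))
    have hne' := hne (eR.symm a) (eR.symm a') (by
      rw [← map_mul, ← map_mul]; exact fun h => ha.1 (eR.symm.injective h))
    rcases classify_finite 11 N with ⟨z, hz⟩ | ⟨hcy, -⟩ | ⟨n, -, -, ⟨i⟩⟩ | ⟨-, ⟨i⟩⟩ | ⟨-, ⟨i⟩⟩ |
      ⟨-, ⟨i⟩⟩ | ⟨L, m, hm, hL⟩
    · exfalso
      have h := Subgroup.card_dvd_of_le (show N ≤ MulAction.stabilizer PGL(2, F) z from hz)
      rw [card_stabilizer_pgl, hF] at h
      exact absurd (hd.trans h) (by norm_num)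
    · exact absurd ((inferInstance : IsMulCommutative N).is_comm.comm _ _) hne'
    · exfalso
      set u : N := ⟨(eR.symm a : R), hle (eR.symm a).2⟩
      set v : N := ⟨(eR.symm a' : R), hle (eR.symm a').2⟩
      have key := dihedral_squares_commute (i (u ^ 2)) (i (v ^ 2))
      simp only [← map_mul] at key
      have hu : u = u ^ 2 * u ^ 2 := Subtype.ext (hw _ (by rw [← map_pow, ha.2.1, map_one]))
      have hv : v = v ^ 2 * v ^ 2 := Subtype.ext (hw _ (by rw [← map_pow, ha.2.2, map_one]))
      rw [← hu, ← hv] at key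
      exact hne' (i.injective key)
    · rw [Nat.card_congr i.toEquiv, card_alt_four] at hd
      norm_num at hd
    · rw [Nat.card_congr i.toEquiv, card_perm_four] at hd
      norm_num at hd
    · exact (Subgroup.eq_of_le_of_card_ge hle (by rw [hRc, Nat.card_congr i.toEquiv, card_alt_five])).symm
    · exfalso
      let _ : Fintype L := Fintype.ofFinite _
      have hL11 : Nat.card L = 11 := by
        rw [hF] at hm
        have hm0 : m ≠ 0 := fun h => by rw [h, pow_zero] at hm; norm_num at hm
        rcases (Nat.dvd_prime (by norm_num)).mp (hm ▸ dvd_pow_self (Nat.card L) hm0) with h | h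
        · rw [h, one_pow] at hm; norm_num at hm
        · exact h
      have hc : Nat.card N = 1320 ∨ Nat.card N = 660 := by
        rcases hL with ⟨⟨i⟩, -⟩ | ⟨-, ⟨i⟩⟩
        · left
          rw [Nat.card_congr i.toEquiv, card_pgl2_sq, ← Nat.card_eq_fintype_card, hL11]; norm_num
        · right
          have h := psl_card_mul_two (F := L) (by rw [← Nat.card_eq_fintype_card, hL11]; decide)
          rw [← Nat.card_eq_fintype_card, hL11, ← Nat.card_congr i.toEquiv] at h
          omega
      -- then `R` is normal in `PSL`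
      have hNP : P ≤ N := by
        have hle' : (N.subgroupOf P).index ≤ 2 := by
          have h1 := N.card_mul_index
          rw [hT] at h1
          have h2' := Subgroup.relIndex_le_of_le_right (H := N) (K := P) (L := ⊤) le_top (by
            rw [Subgroup.relIndex_top_right]; rcases hc with h | h <;> rw [h] at h1 <;> omega)
          rw [Subgroup.relIndex_top_right] at h2'
          rw [show (N.subgroupOf P).index = N.relIndex P from rfl]
          rcases hc with h | h <;> rw [h] at h1 <;> omega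
        have hsimp : IsSimpleGroup P := by
          have : IsSimpleGroup (Matrix.ProjectiveSpecialLinearGroup (Fin 2) F) :=
            CfsgLib.Classical.Linear.isSimpleGroup_psl_fin (by norm_num) (fun _ => by rw [Nat.card_eq_fintype_card, hF]; norm_num)
          exact MulEquiv.isSimpleGroup ((MulEquiv.subgroupCongr hPr).trans (MonoidHom.ofInjective hπ).symm)
        refine Subgroup.subgroupOf_eq_top.mp (Subgroup.index_eq_one.mp ?_)
        have hpos : (N.subgroupOf P).index ≠ 0 := Subgroup.index_ne_zero_of_finite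
        by_contra h1
        have h2' : (N.subgroupOf P).index = 2 := by omega
        have := Subgroup.normal_of_index_eq_two h2'
        rcases this.eq_bot_or_eq_top with h | h
        · rw [h, Subgroup.index_bot, hPr, ← Nat.card_congr (MonoidHom.ofInjective hπ).toEquiv, hG] at h2'
          omega
        · rw [h, Subgroup.index_top] at h2'; omega
      have hsimp : IsSimpleGroup P := by
        have : IsSimpleGroup (Matrix.ProjectiveSpecialLinearGroup (Fin 2) F) :=
          CfsgLib.Classical.Linear.isSimpleGroup_psl_fin (by norm_num) (fun _ => by rw [Nat.card_eq_fintype_card, hF]; norm_num)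
        exact MulEquiv.isSimpleGroup ((MulEquiv.subgroupCongr hPr).trans (MonoidHom.ofInjective hπ).symm)
      have : (R.subgroupOf P).Normal :=
        ⟨fun u hu g => ((Subgroup.mem_normalizer_iff.mp (hNP g.2)) _).mp hu⟩
      have hc' : Nat.card (R.subgroupOf P) = 60 := by
        rw [Nat.card_congr (Subgroup.subgroupOfEquivOfLe hRP).toEquiv, hRc]
      rcases this.eq_bot_or_eq_top with h | h
      · rw [h, Subgroup.card_bot] at hc'; omega
      · rw [h, Subgroup.card_top, hPr, ← Nat.card_congr (MonoidHom.ofInjective hπ).toEquiv, hG] at hc'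
        omega
  have hconjmem : ∀ c d, R.map (MulAut.conj c).toMonoidHom = R.map (MulAut.conj d).toMonoidHom →
      c⁻¹ * d ∈ R := by
    intro c d h
    rw [← hNR, Subgroup.mem_normalizer_iff]
    intro u
    constructor
    · intro hu
      obtain ⟨v, hv, hve⟩ := h.ge ⟨u, hu, rfl⟩
      have : v = c⁻¹ * d * u * (c⁻¹ * d)⁻¹ := by
        have h' : c * v * c⁻¹ = d * u * d⁻¹ := hve
        calc v = c⁻¹ * (c * v * c⁻¹) * c := by group
          _ = _ := by rw [h']; group
      exact this ▸ hv
    · intro hu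
      obtain ⟨v, hv, hve⟩ := h.le ⟨_, hu, rfl⟩
      have : v = u := by
        have h' : d * v * d⁻¹ = c * (c⁻¹ * d * u * (c⁻¹ * d)⁻¹) * c⁻¹ := hve
        calc v = d⁻¹ * (d * v * d⁻¹) * d := by group
          _ = _ := by rw [h']; group
      exact this ▸ hv
  have hwell : ∀ c : PGL(2, F), ∀ u ∈ R, cR (c * u) = cR c := by
    intro c u hu
    show Subgroup.comap π _ = Subgroup.comap π _
    congr 1
    refine Subgroup.eq_of_le_of_card_ge ?_ (by rw [card_map_conj, card_map_conj])
    rintro _ ⟨v, hv, rfl⟩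
    exact ⟨u * v * u⁻¹, R.mul_mem (R.mul_mem hu hv) (R.inv_mem hu), by simp [mul_assoc]⟩
  constructor
  · have hidx : R.index = 22 := by
      have h := R.card_mul_index
      rw [hRc, hT] at h
      omega
    rw [← hidx]
    refine (Nat.card_congr (Equiv.ofBijective (fun q : PGL(2, F) ⧸ R => Quotient.liftOn' q
      (fun c => (⟨cR c, hiso c⟩ : {H : Subgroup (Matrix.ProjectiveSpecialLinearGroup (Fin 2) F) //
        Nonempty (H ≃* alternatingGroup (Fin 5))})) ?_) ⟨?_, ?_⟩)).symm
    · intro c d h
      rw [QuotientGroup.leftRel_apply] at h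
      refine Subtype.ext ?_
      show cR c = cR d
      conv_rhs => rw [show d = c * (c⁻¹ * d) by group, hwell c _ h]
    · intro q q'
      induction q using QuotientGroup.induction_on with
      | H c =>
        induction q' using QuotientGroup.induction_on with
        | H d =>
          intro h
          have h' : cR c = cR d := congrArg Subtype.val h
          exact QuotientGroup.eq.mpr (hconjmem c d (by rw [← hmap c, ← hmap d, h']))
    · rintro ⟨L, hL⟩
      obtain ⟨c, rfl⟩ := hall L hL
      exact ⟨(c : PGL(2, F) ⧸ R), rfl⟩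
  · obtain ⟨t, ht⟩ : ∃ t, t ∉ P := by
      by_contra h
      push Not at h
      rw [(Subgroup.eq_top_iff' P).mpr h, Subgroup.index_top] at hPi
      omega
    have hsm : ∀ (g : Matrix.ProjectiveSpecialLinearGroup (Fin 2) F) (c : PGL(2, F)),
        MulAut.conj g • cR c = cR (π g * c) := by
      intro g c
      refine Subgroup.map_injective hπ ?_
      rw [hmap]
      show (((cR c).map (MulAut.conj g).toMonoidHom).map π) = _
      rw [Subgroup.map_map]
      ext u
      constructor
      · rintro ⟨v, hv, rfl⟩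
        obtain ⟨w, hw', hwe⟩ := (hmap c).le ⟨v, hv, rfl⟩
        refine ⟨w, hw', ?_⟩
        show π g * c * w * (π g * c)⁻¹ = π (g * v * g⁻¹)
        rw [map_mul, map_mul, map_inv, ← (show c * w * c⁻¹ = π v from hwe)]
        group
      · rintro ⟨w, hw', rfl⟩
        obtain ⟨v, hv, hve⟩ := (hmap c).ge ⟨w, hw', rfl⟩
        refine ⟨v, hv, ?_⟩
        show π (g * v * g⁻¹) = π g * c * w * (π g * c)⁻¹
        rw [map_mul, map_mul, map_inv, (show π v = c * w * c⁻¹ from hve)]
        group
    refine ⟨cR 1, cR t, hiso 1, hiso t, fun g h => ?_, fun L hL => ?_⟩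
    · rw [hsm, mul_one] at h
      have := hRP (hconjmem (π g) t (by rw [← hmap, ← hmap, h]))
      refine ht ?_
      have hg : π g ∈ P := hPr ▸ ⟨g, rfl⟩
      simpa using P.mul_mem hg this
    · obtain ⟨c, rfl⟩ := hall L hL
      by_cases hc : c ∈ P
      · obtain ⟨g, hg⟩ : c ∈ π.range := hPr ▸ hc
        refine ⟨g⁻¹, Or.inl ?_⟩
        rw [hsm, map_inv, hg, inv_mul_cancel]
      · have : t * c⁻¹ ∈ P := (Subgroup.mul_mem_iff_of_index_two hPi).mpr (by
          simp [ht, hc])
        obtain ⟨g, hg⟩ : t * c⁻¹ ∈ π.range := hPr ▸ this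
        refine ⟨g, Or.inr ?_⟩
        rw [hsm, hg, inv_mul_cancel_right]

end Cfsg.Agent.S2543
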