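import Cfsg.Statements.S2544
import Cfsg.Agent.SlBlocks.Count
-- import your own Cfsg.Agent.* helpers here

set_option autoImplicit false
open Cfsg

namespace Cfsg.Agent.S2544

/-- Let F be a finite field of characteristic p and consider the projective special linear group PSL_n(F) with n ≥ 2. This group has an irreducible complex character χ whose degree equals the order of a Sylow p-subgroup (namely q^(n(n−1)/2) when #F = q) and whose restriction to any Sylow p-subgroup P is the regular character of P: χ vanishes on the non-identity elements of P. (This is the Steinberg character.) -/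
theorem result {F : Type*} [Field F] [Fintype F] (p : ℕ) [Fact p.Prime] [CharP F p] (n : ℕ) (hn : 2 ≤ n) : ∃ χ : Matrix.ProjectiveSpecialLinearGroup (Fin n) F → ℂ, Cfsg.IsIrrCharacter (Matrix.ProjectiveSpecialLinearGroup (Fin n) F) χ ∧ ∀ P : Sylow p (Matrix.ProjectiveSpecialLinearGroup (Fin n) F), χ 1 = Nat.card P ∧ ∀ x : Matrix.ProjectiveSpecialLinearGroup (Fin n) F, x ∈ P → x ≠ 1 → χ x = 0 := by
  classical
  open CfsgLib.SlBlocks CfsgLib.Blocks in
  obtain ⟨m, rfl⟩ : ∃ m, n = m + 1 := ⟨n - 1, by omega⟩
  obtain ⟨M, hM⟩ := exists_isPModular p (Fact.out : p.Prime)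
  haveI := hM.2.1
  -- the Steinberg character is trivial on the centre
  have hker : Subgroup.center (SLG m F) ≤
      CfsgLib.Chars.charKer ((stIrr m F : IrrCharacter (SLG m F)) : SLG m F → ℂ) := by
    refine (CfsgLib.Chars.le_charKer_iff (CfsgLib.Chars.isCharacter_coe _)).2 fun z hz => ?_
    show stChar m F z = stChar m F 1
    conv_lhs => rw [← mul_one z]
    exact stChar_scalar_mul (isScalar_of_mem_center hz) 1
  obtain ⟨ψ, hψ⟩ := CfsgLib.Chars.exists_inflate_eq
    (N := Subgroup.center (SLG m F)) (stIrr m F) hker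
  have hval : ∀ g : SLG m F, (ψ : SLG m F ⧸ Subgroup.center (SLG m F) → ℂ) (g : _ ⧸ _) =
      stChar m F g := fun g => congrFun (congrArg Subtype.val hψ) g
  -- it vanishes on `p`-singular elements
  have hvan : ∀ g : SLG m F, p ∣ orderOf g → stChar m F g = 0 := by
    intro g hg
    have h := blockCoeff_eq_zero_of_singular hM (isPBlock_st hM) hg
    rw [blockCoeff, finsum_mem_singleton] at h
    simp only [mul_eq_zero, inv_eq_zero, Nat.cast_eq_zero, map_eq_zero] at h
    rcases h with h | h | h
    · exact absurd h Nat.card_pos.ne'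
    · exact absurd h (CfsgLib.Chars.map_one_ne_zero (stIrr m F))
    · exact h
  refine ⟨fun x => (ψ : SLG m F ⧸ Subgroup.center (SLG m F) → ℂ) x, ψ.2, fun P => ⟨?_, ?_⟩⟩
  · have h1 := hval 1
    rw [QuotientGroup.mk_one] at h1
    refine h1.trans (stChar_one.trans ?_)
    rw [card_UU_eq (p := p), P.card_eq_multiplicity]
    congr 2
    have hcard : Nat.card (SLG m F) =
        Nat.card (Subgroup.center (SLG m F)) *
          Nat.card (Matrix.ProjectiveSpecialLinearGroup (Fin (m + 1)) F) :=
      CfsgLib.Classical.Linear.card_sl_eq_center_mul_psl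
    have hZ : ¬ p ∣ Nat.card (Subgroup.center (SLG m F)) := fun h => by
      rw [CfsgLib.Classical.Linear.center_sl_card] at h
      exact not_dvd_card_sub_one (F := F) (p := p) (h.trans (Nat.gcd_dvd_right _ _))
    rw [hcard, Nat.factorization_mul Nat.card_pos.ne' Nat.card_pos.ne', Finsupp.add_apply,
      Nat.factorization_eq_zero_of_not_dvd hZ, zero_add]
  · intro x hx hne
    obtain ⟨g, rfl⟩ := QuotientGroup.mk_surjective x
    refine (hval g).trans (hvan g ?_)
    have h1 : p ∣ orderOf ((g : _ ⧸ _) : SLG m F ⧸ Subgroup.center (SLG m F)) := by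
      obtain ⟨k, hk⟩ := P.2 ⟨_, hx⟩
      obtain ⟨j, _, hj⟩ := (Nat.dvd_prime_pow (Fact.out : p.Prime)).1
        (orderOf_dvd_of_pow_eq_one (congrArg Subtype.val hk))
      rcases Nat.eq_zero_or_pos j with rfl | hj0
      · exact absurd (orderOf_eq_one_iff.1 (by rw [hj, pow_zero])) hne
      · exact (dvd_pow_self p hj0.ne').trans (dvd_of_eq hj.symm)
    exact h1.trans (orderOf_map_dvd (QuotientGroup.mk' _) g)

end Cfsg.Agent.S2544
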