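import Cfsg.Statements.S2566
import Cfsg.Agent.F2Forms.Basic

set_option autoImplicit false
open Cfsg CfsgLib

namespace Cfsg.Agent.S2566

open CfsgLib.F2Forms

/-- Matrices of `GL₂(2)` indexed by `Perm (Fin 3)`: columns are images of the three nonzero vectors. -/
def wmat (σ : Equiv.Perm (Fin 3)) : Matrix (Fin 2) (Fin 2) (ZMod 2) :=
  Matrix.of fun r c => (![![1, 0], ![0, 1], ![1, 1]] : Fin 3 → Fin 2 → ZMod 2) (σ c.castSucc) r

/-- Position in `[[x0, x1], [y1, y0]]` of a coordinate. -/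
def pos : Fin 2 ⊕ Fin 2 → Fin 2 × Fin 2
  | .inl i => (0, i)
  | .inr i => (1, i + 1)

abbrev M4 : Type := Matrix (Fin 2 ⊕ Fin 2) (Fin 2 ⊕ Fin 2) (ZMod 2)

/-- Left multiplication by `wmat σ`. -/
def ta (σ : Equiv.Perm (Fin 3)) : M4 :=
  Matrix.of fun j k => if (pos j).2 = (pos k).2 then wmat σ (pos j).1 (pos k).1 else 0

/-- Transposition. -/
def tg : M4 := Matrix.of fun j k => if (pos j).1 = (pos k).2 ∧ (pos j).2 = (pos k).1 then 1 else 0

theorem ta_mul : ∀ σ τ, ta (σ * τ) = ta σ * ta τ := by decide +kernel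
theorem ta_one : ta 1 = 1 := by decide +kernel
theorem tg_sq : tg * tg = 1 := by decide +kernel
theorem ta_inj : ∀ σ, ta σ = 1 → σ = 1 := by decide +kernel
theorem ta_tb : ∀ σ τ, ta σ * (tg * ta τ * tg) = (tg * ta τ * tg) * ta σ := by decide +kernel
theorem meet : ∀ σ τ, ta σ = tg * ta τ * tg → σ = 1 := by decide +kernel
theorem not_prod : ∀ σ τ, ta σ * (tg * ta τ * tg) ≠ tg := by decide +kernel
theorem ta_isom : ∀ σ, ∀ u : Fin 2 ⊕ Fin 2 → ZMod 2,
    quadFormPlus 2 (ZMod 2) (Matrix.mulVec (ta σ) u) = quadFormPlus 2 (ZMod 2) u := by decide +kernel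
theorem tg_isom : ∀ u : Fin 2 ⊕ Fin 2 → ZMod 2,
    quadFormPlus 2 (ZMod 2) (Matrix.mulVec tg u) = quadFormPlus 2 (ZMod 2) u := by decide +kernel

abbrev V4 : Type := ZMod 2 × ZMod 2 × ZMod 2 × ZMod 2

def q4 (v : V4) : ZMod 2 := v.1 * v.2.1 + v.2.2.1 * v.2.2.2
def b4 (u v : V4) : ZMod 2 := u.1 * v.2.1 + u.2.1 * v.1 + (u.2.2.1 * v.2.2.2 + u.2.2.2 * v.2.2.1)

def vecs : Finset V4 := Finset.univ.filter fun v => q4 v = 0
def tails (a b : V4) : Finset (V4 × V4) :=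
  (vecs ×ˢ vecs).filter fun p => b4 a p.1 = 0 ∧ b4 a p.2 = 0 ∧ b4 b p.1 = 0 ∧ b4 b p.2 = 0 ∧ b4 p.1 p.2 = 1
open scoped Classical in
noncomputable def frames : Finset ((V4 × V4) × (V4 × V4)) :=
  ((vecs ×ˢ vecs).filter fun p => b4 p.1 p.2 = 1).biUnion fun p => (tails p.1 p.2).image fun r => (p, r)

theorem card_frames_le : ((vecs ×ˢ vecs).filter fun p => b4 p.1 p.2 = 1).sum (fun p => (tails p.1 p.2).card) ≤ 72 := by
  decide +kernel

def toV4 (v : Fin 2 ⊕ Fin 2 → ZMod 2) : V4 := (v (.inl 0), v (.inr 0), v (.inl 1), v (.inr 1))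

theorem q4_toV4 (v : Fin 2 ⊕ Fin 2 → ZMod 2) : q4 (toV4 v) = quadFormPlus 2 (ZMod 2) v := by
  simp [q4, toV4, quadFormPlus, Fin.sum_univ_two]

theorem b4_toV4 (u v : Fin 2 ⊕ Fin 2 → ZMod 2) : b4 (toV4 u) (toV4 v) = hb 2 u v := by
  simp [b4, toV4, hb, Fin.sum_univ_two]

theorem card_isometry_le : Nat.card ↥(isometryGroup (ZMod 2) (quadFormPlus 2 (ZMod 2))) ≤ 72 := by
  classical
  let O := ↥(isometryGroup (ZMod 2) (quadFormPlus 2 (ZMod 2)))
  let col : O → (Fin 2 ⊕ Fin 2) → V4 := fun g j =>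
    toV4 (Matrix.mulVec ((g : GL (Fin 2 ⊕ Fin 2) (ZMod 2)) : M4) (Pi.single j 1))
  let f : O → (V4 × V4) × (V4 × V4) := fun g => ((col g (.inl 0), col g (.inr 0)), (col g (.inl 1), col g (.inr 1)))
  have hQ : ∀ g : O, ∀ u, quadFormPlus 2 (ZMod 2) (Matrix.mulVec ((g : GL (Fin 2 ⊕ Fin 2) (ZMod 2)) : M4) u) = quadFormPlus 2 (ZMod 2) u :=
    fun g u => g.2 u u
  have hB : ∀ g : O, ∀ i j, b4 (col g i) (col g j) = hb 2 (Pi.single i 1) (Pi.single j 1) := by
    intro g i j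
    rw [b4_toV4]
    have h := quadFormPlus_add 2 (Matrix.mulVec ((g : GL (Fin 2 ⊕ Fin 2) (ZMod 2)) : M4) (Pi.single i 1))
      (Matrix.mulVec ((g : GL (Fin 2 ⊕ Fin 2) (ZMod 2)) : M4) (Pi.single j 1))
    rw [← Matrix.mulVec_add, hQ, hQ, hQ, quadFormPlus_add] at h
    exact (add_left_cancel h).symm
  have hv : ∀ g j, col g j ∈ vecs := by
    intro g j
    refine Finset.mem_filter.2 ⟨Finset.mem_univ _, ?_⟩
    rw [q4_toV4, hQ]
    rcases j with j | j <;> simp [quadFormPlus, Pi.single_apply]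
  have hmem : ∀ g, f g ∈ frames := by
    intro g
    refine Finset.mem_biUnion.2 ⟨(col g (.inl 0), col g (.inr 0)), ?_, Finset.mem_image.2 ⟨_, ?_, rfl⟩⟩
    · refine Finset.mem_filter.2 ⟨Finset.mem_product.2 ⟨hv _ _, hv _ _⟩, ?_⟩
      rw [hB]; simp [hb_single_inl, Pi.single_apply]
    · refine Finset.mem_filter.2 ⟨Finset.mem_product.2 ⟨hv _ _, hv _ _⟩, ?_⟩
      refine ⟨?_, ?_, ?_, ?_, ?_⟩ <;> rw [hB] <;> simp [hb_single_inl, hb_single_inr, Pi.single_apply]
  have hinj : Function.Injective f := by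
    intro g h hgh
    apply Subtype.ext
    apply Units.ext
    refine Matrix.ext_of_mulVec_single fun j => ?_
    have e : ∀ v w : Fin 2 ⊕ Fin 2 → ZMod 2, toV4 v = toV4 w → v = w := by
      intro v w hvw
      simp only [toV4, Prod.mk.injEq] at hvw
      funext k
      rcases k with k | k <;> fin_cases k <;> simp [hvw]
    have h' := hgh
    simp only [f, Prod.mk.injEq] at h'
    apply e
    rcases j with j | j <;> fin_cases j
    · exact h'.1.1
    · exact h'.2.1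
    · exact h'.1.2
    · exact h'.2.2
  calc Nat.card O ≤ Nat.card frames := Nat.card_le_card_of_injective (fun g => (⟨f g, hmem g⟩ : frames))
        (fun a b hab => hinj (congrArg Subtype.val hab))
    _ = frames.card := Nat.card_eq_finsetCard frames
    _ ≤ _ := Finset.card_biUnion_le
    _ ≤ _ := Finset.sum_le_sum fun p _ => Finset.card_image_le
    _ ≤ 72 := card_frames_le

/-- The full orthogonal group of the plus-type form x₁y₁ + x₂y₂ in dimension 4 over the field of two elements has order 72 and is isomorphic to the wreath product of the symmetric group of degree 3 by a group of order 2: it has a normal subgroup isomorphic to the direct product of two symmetric groups of degree 3, of index 2, whose two direct factors are interchanged by conjugation by some element. -/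
theorem result :
    Nat.card ↥(Cfsg.isometryGroup (ZMod 2) (Cfsg.quadFormPlus 2 (ZMod 2))) = 72 ∧
    ∃ (A B : Subgroup ↥(Cfsg.isometryGroup (ZMod 2) (Cfsg.quadFormPlus 2 (ZMod 2)))),
      Nonempty (↥A ≃* Equiv.Perm (Fin 3)) ∧ Nonempty (↥B ≃* Equiv.Perm (Fin 3)) ∧ A ⊓ B = ⊥ ∧ (∀ a ∈ A, ∀ b ∈ B, a * b = b * a) ∧
      (A ⊔ B).index = 2 ∧ ∃ g : ↥(Cfsg.isometryGroup (ZMod 2) (Cfsg.quadFormPlus 2 (ZMod 2))), A.map (MulAut.conj g).toMonoidHom = B := by
  classical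
  let O := ↥(Cfsg.isometryGroup (ZMod 2) (Cfsg.quadFormPlus 2 (ZMod 2)))
  let fA : Equiv.Perm (Fin 3) →* M4 := { toFun := ta, map_one' := ta_one, map_mul' := ta_mul }
  let φA : Equiv.Perm (Fin 3) →* O := fA.toHomUnits.codRestrict _ fun σ u _ => ta_isom σ u
  let g : O := ⟨⟨tg, tg, tg_sq, tg_sq⟩, fun u _ => tg_isom u⟩
  let φB : Equiv.Perm (Fin 3) →* O := (MulAut.conj g).toMonoidHom.comp φA
  have val : O → M4 := fun x => ((x : GL (Fin 2 ⊕ Fin 2) (ZMod 2)) : M4)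
  have hA : ∀ σ, ((φA σ : GL (Fin 2 ⊕ Fin 2) (ZMod 2)) : M4) = ta σ := fun σ => rfl
  have hB : ∀ σ, ((φB σ : GL (Fin 2 ⊕ Fin 2) (ZMod 2)) : M4) = tg * ta σ * tg := fun σ => rfl
  have hval : ∀ x y : O, ((x : GL (Fin 2 ⊕ Fin 2) (ZMod 2)) : M4) = ((y : GL (Fin 2 ⊕ Fin 2) (ZMod 2)) : M4) → x = y :=
    fun x y h => Subtype.ext (Units.ext h)
  have hiA : Function.Injective φA := by
    rw [injective_iff_map_eq_one]
    intro σ h
    refine ta_inj σ ?_
    rw [← hA, h]; rfl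
  have hiB : Function.Injective φB := (MulAut.conj g).injective.comp hiA
  have hcomm : ∀ σ τ, Commute (φA σ) (φB τ) := fun σ τ => hval _ _ (ta_tb σ τ)
  have hinf : φA.range ⊓ φB.range = ⊥ := by
    rw [eq_bot_iff]
    rintro x ⟨⟨σ, hσ⟩, τ, hτ⟩
    have h : σ = 1 := meet σ τ (by rw [← hA, ← hB, hσ, hτ])
    rw [Subgroup.mem_bot, ← hσ, h, map_one]
  let Φ : Equiv.Perm (Fin 3) × Equiv.Perm (Fin 3) →* O := φA.noncommCoprod φB hcomm
  have hΦ : Function.Injective Φ :=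
    (MonoidHom.noncommCoprod_injective (φA) (φB) (comm := hcomm)).2 ⟨hiA, hiB, disjoint_iff.2 hinf⟩
  have hrange : Φ.range = φA.range ⊔ φB.range := MonoidHom.noncommCoprod_range _ _ hcomm
  have h36 : Nat.card Φ.range = 36 := by
    rw [← Nat.card_congr (MonoidHom.ofInjective hΦ).toEquiv, Nat.card_prod, Nat.card_perm, Nat.card_fin]
    rfl
  have hgnot : g ∉ Φ.range := by
    rintro ⟨⟨σ, τ⟩, h⟩
    exact not_prod σ τ (congrArg (fun x : O => ((x : GL (Fin 2 ⊕ Fin 2) (ZMod 2)) : M4)) h)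
  have hidx1 : Φ.range.index ≠ 1 := fun h => hgnot (by rw [Subgroup.index_eq_one.1 h]; trivial)
  have hmul := Subgroup.card_mul_index Φ.range
  rw [h36] at hmul
  have hle : Nat.card O ≤ 72 := card_isometry_le
  have hpos : 0 < Φ.range.index := Nat.pos_of_ne_zero Subgroup.index_ne_zero_of_finite
  have hidx : Φ.range.index = 2 := by omega
  refine ⟨?_, φA.range, φB.range, ⟨(MonoidHom.ofInjective hiA).symm⟩, ⟨(MonoidHom.ofInjective hiB).symm⟩, hinf, ?_, ?_, g, ?_⟩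
  · change Nat.card O = 72
    omega
  · rintro _ ⟨σ, rfl⟩ _ ⟨τ, rfl⟩
    exact hcomm σ τ
  · rw [← hrange]; exact hidx
  · exact (MonoidHom.range_comp _ _).symm

end Cfsg.Agent.S2566
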