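import Cfsg.Statements.S2548
import Cfsg.Agent.Classical.PolarCycle.OrthStd
import Cfsg.Agent.ExtraspecialTwo.MinusFour
import Cfsg.Agent.Chars.Basic
import Cfsg.Agent.S2566
import Cfsg.Agent.S0157
import Cfsg.Agent.Eq.Def_Classical
import Cfsg.Agent.Eq.Def_Characters

set_option autoImplicit false
open Cfsg
open scoped commutatorElement

namespace Cfsg.Agent.S2548

open Cfsg.Agent.S2566 in
/-- The group `Ω⁺₄(2)` maps onto `S₃` and its order divides 18. -/
theorem exists_proj :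
    ∃ π : ↥(commutator ↥(isometryGroup (ZMod 2) (quadFormPlus 2 (ZMod 2)))) →* Equiv.Perm (Fin 3),
      Function.Surjective π ∧
      Nat.card ↥(commutator ↥(isometryGroup (ZMod 2) (quadFormPlus 2 (ZMod 2)))) ∣ 18 := by
  classical
  let O := ↥(isometryGroup (ZMod 2) (quadFormPlus 2 (ZMod 2)))
  let fA : Equiv.Perm (Fin 3) →* M4 := { toFun := ta, map_one' := ta_one, map_mul' := ta_mul }
  let φA : Equiv.Perm (Fin 3) →* O := fA.toHomUnits.codRestrict _ fun σ u _ => ta_isom σ u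
  let g : O := ⟨⟨tg, tg, tg_sq, tg_sq⟩, fun u _ => tg_isom u⟩
  let φB : Equiv.Perm (Fin 3) →* O := (MulAut.conj g).toMonoidHom.comp φA
  have hval : ∀ x y : O, ((x : GL (Fin 2 ⊕ Fin 2) (ZMod 2)) : M4) = ((y : GL (Fin 2 ⊕ Fin 2) (ZMod 2)) : M4) → x = y :=
    fun x y h => Subtype.ext (Units.ext h)
  have hg2 : g * g = 1 := hval _ _ tg_sq
  have hgi : g⁻¹ = g := inv_eq_of_mul_eq_one_right hg2
  have hgg : ∀ x : O, g * (g * x) = x := fun x => by rw [← mul_assoc, hg2, one_mul]
  have hB : ∀ σ, φB σ = g * φA σ * g := fun σ => by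
    show g * φA σ * g⁻¹ = _
    rw [hgi]
  have hcomm : ∀ σ τ, Commute (φA σ) (φB τ) := fun σ τ => hval _ _ (ta_tb σ τ)
  have hinf : φA.range ⊓ φB.range = ⊥ := by
    rw [eq_bot_iff]
    rintro x ⟨⟨σ, hσ⟩, τ, hτ⟩
    have h : σ = 1 := meet σ τ
      (congrArg (fun x : O => ((x : GL (Fin 2 ⊕ Fin 2) (ZMod 2)) : M4)) (hσ.trans hτ.symm))
    rw [Subgroup.mem_bot, ← hσ, h, map_one]
  have hiA : Function.Injective φA := by
    rw [injective_iff_map_eq_one]
    intro σ h
    exact ta_inj σ (congrArg (fun x : O => ((x : GL (Fin 2 ⊕ Fin 2) (ZMod 2)) : M4)) h)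
  let Φ : Equiv.Perm (Fin 3) × Equiv.Perm (Fin 3) →* O := φA.noncommCoprod φB hcomm
  have hΦ : Function.Injective Φ :=
    (MonoidHom.noncommCoprod_injective φA φB (comm := hcomm)).2
      ⟨hiA, (MulAut.conj g).injective.comp hiA, disjoint_iff.2 hinf⟩
  have hΦap : ∀ σ τ, Φ (σ, τ) = φA σ * φB τ := fun σ τ => MonoidHom.noncommCoprod_apply _ _ _ _
  have hswap : ∀ h, g * Φ h * g = Φ (h.2, h.1) := by
    rintro ⟨σ, τ⟩
    rw [hΦap, hΦap, (hcomm τ σ).eq, hB, hB]
    simp only [mul_assoc, hgg, hg2, mul_one]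
  have h36 : Nat.card Φ.range = 36 := by
    rw [← Nat.card_congr (MonoidHom.ofInjective hΦ).toEquiv, Nat.card_prod, Nat.card_perm, Nat.card_fin]
    rfl
  have hgnot : g ∉ Φ.range := by
    rintro ⟨⟨σ, τ⟩, h⟩
    exact not_prod σ τ (congrArg (fun x : O => ((x : GL (Fin 2 ⊕ Fin 2) (ZMod 2)) : M4)) h)
  have hidx1 : Φ.range.index ≠ 1 := fun h => hgnot (by rw [Subgroup.index_eq_one.1 h]; trivial)
  have hmul := Subgroup.card_mul_index Φ.range
  rw [h36] at hmul
  have hle : Nat.card O ≤ 72 := card_isometry_le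
  have hpos : 0 < Φ.range.index := Nat.pos_of_ne_zero Subgroup.index_ne_zero_of_finite
  have hidx : Φ.range.index = 2 := by omega
  let s : Equiv.Perm (Fin 3) × Equiv.Perm (Fin 3) →* ℤˣ :=
    Equiv.Perm.sign.comp (MonoidHom.fst _ _) * Equiv.Perm.sign.comp (MonoidHom.snd _ _)
  have hs : ∀ h, s h = Equiv.Perm.sign h.1 * Equiv.Perm.sign h.2 := fun h => rfl
  let N : Subgroup O := s.ker.map Φ
  haveI : N.Normal := ⟨by
    rintro _ ⟨k, hk, rfl⟩ x
    have hk' : s k = 1 := hk
    by_cases hx : x ∈ Φ.range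
    · obtain ⟨h, rfl⟩ := hx
      exact ⟨h * k * h⁻¹, by simp [MonoidHom.mem_ker, hk'], by simp⟩
    · obtain ⟨h, hh⟩ : x * g ∈ Φ.range := by
        rw [Subgroup.mul_mem_iff_of_index_two hidx]; exact iff_of_false hx hgnot
      have hx' : x = Φ h * g := by rw [hh, mul_assoc, hg2, mul_one]
      refine ⟨h * (k.2, k.1) * h⁻¹, ?_, ?_⟩
      · have hk2 : s (k.2, k.1) = 1 := by rw [← hk', hs, hs, mul_comm]
        simp [MonoidHom.mem_ker, hk2]
      · rw [map_mul, map_mul, map_inv, ← hswap, hx']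
        calc Φ h * (g * Φ k * g) * (Φ h)⁻¹ = Φ h * g * Φ k * (g⁻¹ * (Φ h)⁻¹) := by
              rw [hgi]; simp only [mul_assoc]
          _ = Φ h * g * Φ k * (Φ h * g)⁻¹ := congrArg _ (mul_inv_rev (Φ h) g).symm⟩
  have hNcard : Nat.card N = 18 := by
    rw [← Nat.card_congr (s.ker.equivMapOfInjective Φ hΦ).toEquiv, Nat.card_eq_fintype_card]
    decide +kernel
  have hcN : commutator O ≤ N := by
    have h4 : Nat.card (O ⧸ N) = 2 ^ 2 := by
      have := N.card_mul_index
      rw [hNcard] at this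
      have h72 : Nat.card O = 72 := by omega
      rw [← Subgroup.index_eq_card]; omega
    haveI : Fact (Nat.Prime 2) := ⟨Nat.prime_two⟩
    haveI : IsMulCommutative (O ⧸ N) := IsPGroup.isMulCommutative_of_card_eq_prime_sq h4
    exact (Subgroup.Normal.quotient_commutative_iff_commutator_le).1 inferInstance
  have hcR : commutator O ≤ Φ.range := hcN.trans (by rintro _ ⟨k, -, rfl⟩; exact ⟨k, rfl⟩)
  let π : ↥(commutator O) →* Equiv.Perm (Fin 3) :=
    (MonoidHom.fst _ _).comp ((MonoidHom.ofInjective hΦ).symm.toMonoidHom.comp (Subgroup.inclusion hcR))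
  refine ⟨π, fun σ => ?_, ?_⟩
  · have hmem : Φ (σ, σ⁻¹) ∈ commutator O := by
      have h : Φ (σ, σ⁻¹) = ⁅φA σ, g⁆ := by
        rw [hΦap, hB, commutatorElement_def, hgi, map_inv]
        simp only [mul_assoc]
      rw [h, commutator_def]
      exact Subgroup.commutator_mem_commutator (Subgroup.mem_top _) (Subgroup.mem_top _)
    refine ⟨⟨_, hmem⟩, ?_⟩
    have h : (MonoidHom.ofInjective hΦ).symm (Subgroup.inclusion hcR ⟨_, hmem⟩) = (σ, σ⁻¹) := by
      rw [MulEquiv.symm_apply_eq]; rfl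
    exact congrArg Prod.fst h
  · exact hNcard ▸ Subgroup.card_dvd_of_le hcN

/-- The degree-two character of `S₃` vanishes on involutions. -/
theorem fix_three (σ : Equiv.Perm (Fin 3)) :
    (Nat.card (MulAction.fixedBy (Fin 3) σ) = (Finset.univ.filter fun i => σ i = i).card) := by
  rw [← Nat.card_eq_finsetCard]
  exact Nat.card_congr (Equiv.subtypeEquivRight fun i => by simp)

theorem fix_involution : ∀ σ : Equiv.Perm (Fin 3), σ * σ = 1 → σ ≠ 1 →
    (Finset.univ.filter fun i => σ i = i).card = 1 := by decide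

universe u in
/-- The exceptional case `PΩ⁺₄(2)`. -/
theorem exceptional {F : Type u} [Field F] [Fintype F] (p : ℕ) [Fact p.Prime] [CharP F p]
    (hF : Nat.card F = 2) :
    ∃ χ : Cfsg.POmega F (Cfsg.quadFormPlus 2 F) → ℂ,
      Cfsg.IsIrrCharacter (Cfsg.POmega F (Cfsg.quadFormPlus 2 F)) χ ∧
      ∀ S : Sylow p (Cfsg.POmega F (Cfsg.quadFormPlus 2 F)), χ 1 = Nat.card S ∧
        ∀ x : Cfsg.POmega F (Cfsg.quadFormPlus 2 F), x ∈ S → x ≠ 1 → χ x = 0 := by
  classical
  rw [Nat.card_eq_fintype_card] at hF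
  obtain rfl : p = 2 := by
    obtain ⟨n, hp, hn⟩ := FiniteField.card F p
    rw [hF] at hn
    exact (Nat.prime_dvd_prime_iff_eq hp Nat.prime_two).1 (hn ▸ dvd_pow_self p n.ne_zero)
  haveI : Fact (Nat.Prime 2) := ⟨Nat.prime_two⟩
  let e : F ≃+* ZMod 2 := (ZMod.ringEquivOfPrime F Nat.prime_two hF).symm
  obtain ⟨φ⟩ := CfsgLib.ExtraspecialTwo.nonempty_isometryGroup_field_equiv e
    (Q := Cfsg.quadFormPlus 2 F) (Q' := Cfsg.quadFormPlus 2 (ZMod 2))
    (fun v => by simp [Cfsg.quadFormPlus, map_sum, map_mul])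
  obtain ⟨π₀, hπ₀, hdvd₀⟩ := exists_proj
  have hmap : (Omega F (quadFormPlus 2 F)).map φ.toMonoidHom = commutator _ := by
    rw [Omega, commutator_def, Subgroup.map_commutator, Subgroup.map_top_of_surjective _ φ.surjective,
      ← commutator_def]
  let E : ↥(Omega F (quadFormPlus 2 F)) ≃*
      ↥(commutator ↥(isometryGroup (ZMod 2) (quadFormPlus 2 (ZMod 2)))) :=
    (φ.subgroupMap _).trans (MulEquiv.subgroupCongr hmap)
  let π : ↥(Omega F (quadFormPlus 2 F)) →* Equiv.Perm (Fin 3) := π₀.comp E.toMonoidHom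
  have hπ : Function.Surjective π := hπ₀.comp E.surjective
  have hdvd : Nat.card ↥(Omega F (quadFormPlus 2 F)) ∣ 18 := by
    rw [Nat.card_congr E.toEquiv]; exact hdvd₀
  have hZ : Subgroup.center ↥(Omega F (quadFormPlus 2 F)) ≤ π.ker := by
    intro z hz
    rw [MonoidHom.mem_ker]
    have hc : π z ∈ Subgroup.center (Equiv.Perm (Fin 3)) := by
      rw [Subgroup.mem_center_iff]
      intro s
      obtain ⟨y, rfl⟩ := hπ s
      rw [← map_mul, ← map_mul, Subgroup.mem_center_iff.1 hz y]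
    have h3 : ∀ s : Equiv.Perm (Fin 3), (∀ t, t * s = s * t) → s = 1 := by decide
    exact h3 _ (Subgroup.mem_center_iff.1 hc)
  let ψ : Cfsg.POmega F (Cfsg.quadFormPlus 2 F) →* Equiv.Perm (Fin 3) :=
    QuotientGroup.lift _ π hZ
  have hψ : Function.Surjective ψ := fun s => by
    obtain ⟨y, rfl⟩ := hπ s
    exact ⟨(y : Cfsg.POmega F (Cfsg.quadFormPlus 2 F)), rfl⟩
  haveI : Finite (Cfsg.POmega F (Cfsg.quadFormPlus 2 F)) := inferInstance
  have hG : Nat.card (Cfsg.POmega F (Cfsg.quadFormPlus 2 F)) ∣ 18 :=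
    (Subgroup.card_quotient_dvd_card _).trans hdvd
  have hker : Nat.card ψ.ker * 6 = Nat.card (Cfsg.POmega F (Cfsg.quadFormPlus 2 F)) := by
    have h := ψ.ker.card_mul_index
    rwa [Subgroup.index_ker, MonoidHom.range_eq_top.2 hψ, Subgroup.card_top, Nat.card_perm,
      Nat.card_fin] at h
  haveI : Nontrivial (Fin 3) := inferInstance
  haveI h2 : MulAction.IsMultiplyPretransitive (Equiv.Perm (Fin 3)) (Fin 3) 2 :=
    Equiv.Perm.isMultiplyPretransitive (Fin 3) 2
  haveI : MulAction.IsPretransitive (Equiv.Perm (Fin 3)) (Fin 3) := inferInstance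
  have hirr := (Cfsg.Agent.S0157.result (G := Equiv.Perm (Fin 3)) (Fin 3)
    (by rw [Nat.card_fin]; omega)).2 h2
  refine ⟨_, CfsgLib.Chars.isIrrCharacter_comp hirr ψ hψ, fun S => ⟨?_, ?_⟩⟩
  · obtain ⟨k, hk⟩ := IsPGroup.iff_card.1 S.isPGroup'
    have h1 : 2 ∣ Nat.card S := S.dvd_card_of_dvd_card (hker ▸ Dvd.dvd.mul_left (by norm_num) _)
    have h18 : Nat.card S ∣ 18 := (Subgroup.card_subgroup_dvd_card _).trans hG
    have hk1 : k = 1 := by
      rcases lt_or_ge k 2 with hlt | hge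
      · rcases Nat.eq_zero_or_pos k with rfl | hpos
        · rw [hk] at h1; norm_num at h1
        · omega
      · have := (pow_dvd_pow 2 hge).trans (hk ▸ h18)
        norm_num at this
    have hfix : (Finset.univ.filter fun i : Fin 3 => (1 : Equiv.Perm (Fin 3)) i = i).card = 3 := by
      decide
    rw [map_one, fix_three, hfix, hk, hk1]
    norm_num
  · intro x hx hne
    obtain ⟨k, hk⟩ := S.isPGroup' ⟨x, hx⟩
    have hx2 : orderOf x ∣ 2 ^ k := orderOf_dvd_of_pow_eq_one (congrArg Subtype.val hk)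
    have hx18 : orderOf x ∣ 18 := (orderOf_dvd_natCard x).trans hG
    have hcop : Nat.Coprime (2 ^ k) 9 := Nat.Coprime.pow_left k (by norm_num)
    have hx22 : orderOf x ∣ 2 :=
      (Nat.Coprime.coprime_dvd_left hx2 hcop).dvd_of_dvd_mul_right (by norm_num; exact hx18)
    have hxx : x * x = 1 := by rw [← pow_two]; exact orderOf_dvd_iff_pow_eq_one.1 hx22
    have hψne : ψ x ≠ 1 := by
      intro h
      have hk3 : Nat.card ψ.ker ∣ 3 :=
        Nat.dvd_of_mul_dvd_mul_right (by norm_num : 0 < 6) (hker ▸ hG)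
      have h3 : orderOf x ∣ 3 :=
        (Subgroup.orderOf_dvd_natCard ψ.ker (MonoidHom.mem_ker.2 h)).trans hk3
      exact hne (orderOf_eq_one_iff.1 (Nat.dvd_one.1
        (Nat.dvd_gcd hx22 h3)))
    show (Nat.card (MulAction.fixedBy (Fin 3) (ψ x)) : ℂ) - 1 = 0
    rw [fix_three, fix_involution _ (by rw [← map_mul, hxx, map_one]) hψne]
    norm_num

/-- Let F be a finite field of characteristic p and consider the group PΩ⁺_{2m}(F) of the hyperbolic quadratic form Σ x_i y_i with m ≥ 1, where Ω denotes the commutator subgroup of the full isometry group. This group has an irreducible complex character χ whose degree equals the order of a Sylow p-subgroup (equal to q^(m(m−1)) when #F = q, except in the degenerate case m = 2, q = 2, where this commutator subgroup has order 18 and its Sylow 2-subgroups have order 2) and whose restriction to any Sylow p-subgroup P is the regular character of P: χ vanishes on the non-identity elements of P. (This is the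 Steinberg character.) -/
theorem result {F : Type*} [Field F] [Fintype F] (p : ℕ) [Fact p.Prime] [CharP F p] (m : ℕ) (hm : 1 ≤ m) : ∃ χ : Cfsg.POmega F (Cfsg.quadFormPlus m F) → ℂ, Cfsg.IsIrrCharacter (Cfsg.POmega F (Cfsg.quadFormPlus m F)) χ ∧ ∀ P : Sylow p (Cfsg.POmega F (Cfsg.quadFormPlus m F)), χ 1 = Nat.card P ∧ ∀ x : Cfsg.POmega F (Cfsg.quadFormPlus m F), x ∈ P → x ≠ 1 → χ x = 0 := by
  by_cases h : Nat.card F = 2 ∧ m = 2
  · obtain ⟨hF, rfl⟩ := h
    exact exceptional p hF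
  · exact CfsgLib.PolarCycle.exists_steinberg_plus p m h

end Cfsg.Agent.S2548
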