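import Cfsg.Statements.S2550
import Cfsg.Agent.Classical.Linear.Card
import Cfsg.Agent.Classical.Linear.Transvection

set_option autoImplicit false
open Cfsg CfsgLib

namespace Cfsg.Agent.S2550

open CfsgLib.Classical.Linear

theorem charTwo_of_card {F : Type*} [Field F] [Fintype F] (k : ℕ) (h : Fintype.card F = 2 ^ k) : CharP F 2 := by
  obtain ⟨q, hq⟩ := CharP.exists F
  have hp : q.Prime := CharP.char_is_prime F q
  haveI : Fact q.Prime := ⟨hp⟩
  obtain ⟨n, -, hn⟩ := FiniteField.card F q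
  have : q = 2 := by
    refine (Nat.prime_dvd_prime_iff_eq hp Nat.prime_two).1 (hp.dvd_of_dvd_pow (n := k) ?_)
    rw [← h, hn]; exact dvd_pow_self _ (by exact_mod_cast n.pos.ne')
  subst this; exact hq

theorem fourth_power_three {K : Type*} [Field K] [CharP K 2] (g : Matrix (Fin 3) (Fin 3) K)
    (hg : Commute g (Matrix.single (0 : Fin 3) (1 : Fin 3) (1 : K) : Matrix (Fin 3) (Fin 3) K)) (hdet : g.det = 1) (hμ : ∀ x : K, x ≠ 0 → x ^ 3 = 1) :
    ∃ c : K, g ^ 4 = c • (1 : Matrix (Fin 3) (Fin 3) K) := by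
  have e : ∀ i j, (g * (Matrix.single (0 : Fin 3) (1 : Fin 3) (1 : K) : Matrix (Fin 3) (Fin 3) K)) i j = ((Matrix.single (0 : Fin 3) (1 : Fin 3) (1 : K) : Matrix (Fin 3) (Fin 3) K) * g) i j := fun i j => by rw [hg.eq]
  have h01 := e 0 1
  have h10 := e 1 1
  have h20 := e 2 1
  have h00 := e 0 0
  have h02 := e 0 2
  simp [Matrix.mul_apply, Fin.sum_univ_three, Matrix.single_apply] at h01 h10 h20 h00 h02
  set a := g 0 0 with ha
  have hd : a * a * g 2 2 = 1 := by
    rw [Matrix.det_fin_three] at hdet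
    have e10 : g 1 0 = 0 := by simpa [Matrix.mul_apply, Fin.sum_univ_three, Matrix.single_apply] using e 1 1
    have e20 : g 2 0 = 0 := by simpa [Matrix.mul_apply, Fin.sum_univ_three, Matrix.single_apply] using e 2 1
    have e12 : g 1 2 = 0 := by simpa [Matrix.mul_apply, Fin.sum_univ_three, Matrix.single_apply, eq_comm] using e 0 2
    have e11 : g 1 1 = a := by simpa [Matrix.mul_apply, Fin.sum_univ_three, Matrix.single_apply, eq_comm] using e 0 1
    rw [← ha, e10, e20, e12, e11] at hdet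
    linear_combination hdet
  have ha0 : a ≠ 0 := fun h => by rw [h] at hd; simp at hd
  have hb : g 2 2 = a := by
    have := hμ a ha0
    have h3 : a * a * g 2 2 = a * a * a := by rw [hd]; linear_combination -this
    exact mul_left_cancel₀ (mul_ne_zero ha0 ha0) h3
  set D := g - a • (1 : Matrix (Fin 3) (Fin 3) K) with hD
  have hcube : D ^ 3 = 0 := by
    have e10 : g 1 0 = 0 := by simpa [Matrix.mul_apply, Fin.sum_univ_three, Matrix.single_apply] using e 1 1
    have e20 : g 2 0 = 0 := by simpa [Matrix.mul_apply, Fin.sum_univ_three, Matrix.single_apply] using e 2 1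
    have e12 : g 1 2 = 0 := by simpa [Matrix.mul_apply, Fin.sum_univ_three, Matrix.single_apply, eq_comm] using e 0 2
    have e11 : g 1 1 = a := by simpa [Matrix.mul_apply, Fin.sum_univ_three, Matrix.single_apply, eq_comm] using e 0 1
    ext i j
    fin_cases i <;> fin_cases j <;>
      simp [hD, pow_succ, Matrix.mul_apply, Fin.sum_univ_three, e10, e20, e12, e11, hb, ← ha]
  refine ⟨a ^ 4, ?_⟩
  have hgD : g = D + a • (1 : Matrix (Fin 3) (Fin 3) K) := by rw [hD, sub_add_cancel]
  have hc : Commute D (a • (1 : Matrix (Fin 3) (Fin 3) K)) := (Commute.one_right D).smul_right a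
  rw [hgD, show (4 : ℕ) = 2 ^ 2 by rfl, add_pow_char_pow_of_commute _ _ hc, smul_pow, one_pow,
    show D ^ (2 ^ 2) = D ^ 3 * D from pow_succ D 3, hcube, zero_mul, zero_add]

theorem no_six {K : Type*} [Field K] [Fintype K] (hK : Fintype.card K = 4)
    (x : Matrix.ProjectiveSpecialLinearGroup (Fin 3) K) : orderOf x ≠ 6 := by
  haveI : CharP K 2 := charTwo_of_card 2 (by rw [hK]; rfl)
  have hμ : ∀ x : K, x ≠ 0 → x ^ 3 = 1 := fun x hx => by
    have := FiniteField.pow_card_sub_one_eq_one x hx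
    rwa [hK] at this
  intro hx
  obtain ⟨g, rfl⟩ := QuotientGroup.mk'_surjective (Subgroup.center (Matrix.SpecialLinearGroup (Fin 3) K)) x
  have h6 : (g ^ 3) * (g ^ 3) ∈ Subgroup.center (Matrix.SpecialLinearGroup (Fin 3) K) := by
    rw [← pow_add]
    refine (QuotientGroup.eq_one_iff _).1 ?_
    show QuotientGroup.mk' (Subgroup.center (Matrix.SpecialLinearGroup (Fin 3) K)) (g ^ (3 + 3)) = 1
    rw [map_pow, show 3 + 3 = orderOf ((QuotientGroup.mk' (Subgroup.center (Matrix.SpecialLinearGroup (Fin 3) K))) g) by rw [hx],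
      pow_orderOf_eq_one]
  have h3 : g ^ 3 ∉ Subgroup.center (Matrix.SpecialLinearGroup (Fin 3) K) := by
    intro h
    have := orderOf_dvd_of_pow_eq_one (show (QuotientGroup.mk' (Subgroup.center (Matrix.SpecialLinearGroup (Fin 3) K)) g) ^ 3 = 1 by
      rw [← map_pow]; exact (QuotientGroup.eq_one_iff _).2 h)
    rw [hx] at this
    exact absurd (Nat.le_of_dvd (by norm_num) this) (by norm_num)
  obtain ⟨z, hz3, hz⟩ := Matrix.SpecialLinearGroup.mem_center_iff.1 h6
  set H : Matrix (Fin 3) (Fin 3) K := ((g ^ 3 : Matrix.SpecialLinearGroup (Fin 3) K) : Matrix (Fin 3) (Fin 3) K) with hH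
  have hHH : H * H = Matrix.scalar (Fin 3) z := by rw [hz, hH, Matrix.SpecialLinearGroup.coe_mul]
  -- `z` is a square, `z = μ ^ 2`
  let μ : K := z ^ 2
  have hz0 : z ≠ 0 := fun h => by rw [h] at hz3; simp at hz3
  have hμz : μ ^ 2 = z := by
    show (z ^ 2) ^ 2 = z
    rw [← pow_mul, show 2 * 2 = 3 + 1 by rfl, pow_add, hμ z hz0, pow_one, one_mul]
  have hμ0 : μ ≠ 0 := pow_ne_zero _ hz0
  set T : Matrix (Fin 3) (Fin 3) K := μ⁻¹ • H with hT
  have hTT : T * T = 1 := by
    rw [hT, smul_mul_assoc, mul_smul_comm, smul_smul, hHH]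
    ext i j
    simp only [Matrix.smul_apply, Matrix.scalar_apply, Matrix.diagonal_apply, Matrix.one_apply, smul_eq_mul]
    split_ifs
    · rw [← hμz]; field_simp
    · simp
  have hN2 : (T - 1) * (T - 1) = 0 := by
    have h2 : (T - 1) * (T - 1) = T * T - (T + T) + 1 := by noncomm_ring
    rw [h2, hTT, CharTwo.add_self_eq_zero T |>.trans rfl, sub_zero]
    exact CharTwo.add_self_eq_zero 1
  have hN0 : T - 1 ≠ 0 := by
    intro h0
    have hH' : H = μ • (1 : Matrix (Fin 3) (Fin 3) K) := by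
      rw [← sub_eq_zero.1 h0, hT, smul_smul, mul_inv_cancel₀ hμ0, one_smul]
    refine h3 (Matrix.SpecialLinearGroup.mem_center_iff.2 ⟨μ, by simpa using hμ μ hμ0, ?_⟩)
    rw [← hH, hH']
    ext i j
    simp [Matrix.scalar_apply, Matrix.diagonal_apply, Matrix.one_apply]
  have hdetT : T.det = 1 := by
    rw [hT, Matrix.det_smul, Fintype.card_fin, inv_pow, hμ μ hμ0, inv_one, one_mul, hH]
    exact (g ^ 3).2
  have hrk : (T - 1).rank = 1 := by
    have h1 : (T - 1).rank ≠ 0 := fun h0 => hN0 (by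
      rw [Matrix.rank, Submodule.finrank_eq_zero, LinearMap.range_eq_bot] at h0
      exact Matrix.toLin'.injective (h0.trans (map_zero _).symm))
    have h2 : LinearMap.range (T - 1).mulVecLin ≤ LinearMap.ker (T - 1).mulVecLin := by
      rintro _ ⟨y, rfl⟩
      rw [LinearMap.mem_ker, Matrix.mulVecLin_apply, Matrix.mulVecLin_apply, Matrix.mulVec_mulVec, hN2, Matrix.zero_mulVec]
    have h3 := Submodule.finrank_mono h2
    have h4 := LinearMap.finrank_range_add_finrank_ker (T - 1).mulVecLin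
    rw [Module.finrank_fin_fun] at h4
    have h5 : (T - 1).rank = Module.finrank K (LinearMap.range (T - 1).mulVecLin) := rfl
    omega
  obtain ⟨c, hc0, hconj⟩ := exists_isConj_transvection (ι := Fin 3) (i := 0) (j := 1) (by decide)
    (t := (⟨T, hdetT⟩ : Matrix.SpecialLinearGroup (Fin 3) K)) ⟨hrk, hN2⟩
  obtain ⟨s, hs⟩ := isConj_iff.1 hconj
  set S : Matrix (Fin 3) (Fin 3) K := (s : Matrix (Fin 3) (Fin 3) K)
  set S' : Matrix (Fin 3) (Fin 3) K := ((s⁻¹ : Matrix.SpecialLinearGroup (Fin 3) K) : Matrix (Fin 3) (Fin 3) K)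
  have hSS : S' * S = 1 := by rw [← Matrix.SpecialLinearGroup.coe_mul, inv_mul_cancel]; rfl
  have hSS' : S * S' = 1 := by rw [← Matrix.SpecialLinearGroup.coe_mul, mul_inv_cancel]; rfl
  have hs' : S * T * S' = 1 + Matrix.single 0 1 c := by
    have := congrArg (fun x : Matrix.SpecialLinearGroup (Fin 3) K => (x : Matrix (Fin 3) (Fin 3) K)) hs
    simp only [Matrix.SpecialLinearGroup.coe_mul] at this
    refine this.trans ?_
    simp [Matrix.SpecialLinearGroup.transvection, Matrix.transvection]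
  set G : Matrix (Fin 3) (Fin 3) K := (g : Matrix (Fin 3) (Fin 3) K)
  have hGT : Commute G T := by
    rw [hT]
    refine Commute.smul_right ?_ _
    rw [hH, Matrix.SpecialLinearGroup.coe_pow]
    exact (Commute.refl _).pow_right 3
  have hcomm : Commute (S * G * S') (Matrix.single 0 1 1) := by
    have h1 : Commute (S * G * S') (S * T * S') := by
      show S * G * S' * (S * T * S') = S * T * S' * (S * G * S')
      calc S * G * S' * (S * T * S') = S * (G * (S' * S) * T) * S' := by noncomm_ring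
        _ = S * (T * (S' * S) * G) * S' := by rw [hSS, mul_one, mul_one, hGT.eq]
        _ = _ := by noncomm_ring
    rw [hs'] at h1
    have h2 : Commute (S * G * S') (Matrix.single 0 1 c) := by
      have := h1.sub_right (Commute.one_right _)
      rwa [add_sub_cancel_left] at this
    have h3 := h2.smul_right c⁻¹
    rwa [Matrix.smul_single, smul_eq_mul, inv_mul_cancel₀ hc0] at h3
  obtain ⟨d, hd⟩ := fourth_power_three (S * G * S') hcomm (by
    rw [Matrix.det_mul, Matrix.det_mul]
    show (s : Matrix (Fin 3) (Fin 3) K).det * (g : Matrix (Fin 3) (Fin 3) K).det * ((s⁻¹ : Matrix.SpecialLinearGroup (Fin 3) K) : Matrix (Fin 3) (Fin 3) K).det = 1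
    rw [s.2, g.2, (s⁻¹).2]; norm_num) hμ
  have hG4 : G ^ 4 = d • (1 : Matrix (Fin 3) (Fin 3) K) := by
    have hp : ∀ n, (S * G * S') ^ n = S * G ^ n * S' := by
      intro n
      induction n with
      | zero => simp [hSS']
      | succ n ih =>
        rw [pow_succ, ih, pow_succ]
        calc S * G ^ n * S' * (S * G * S') = S * G ^ n * (S' * S) * G * S' := by noncomm_ring
          _ = _ := by rw [hSS, mul_one, mul_assoc S (G ^ n) G]
    rw [hp] at hd
    calc G ^ 4 = S' * (S * G ^ 4 * S') * S := by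
          rw [← mul_assoc, ← mul_assoc, hSS, one_mul, mul_assoc, hSS, mul_one]
      _ = _ := by rw [hd, mul_smul_comm, mul_one, smul_mul_assoc, hSS]
  have h4 : g ^ 4 ∈ Subgroup.center (Matrix.SpecialLinearGroup (Fin 3) K) := by
    rw [Subgroup.mem_center_iff]
    intro y
    apply Subtype.ext
    simp only [Matrix.SpecialLinearGroup.coe_mul, Matrix.SpecialLinearGroup.coe_pow]
    show _ * G ^ 4 = G ^ 4 * _
    rw [hG4, mul_smul_comm, smul_mul_assoc, mul_one, one_mul]
  have := orderOf_dvd_of_pow_eq_one (show (QuotientGroup.mk' (Subgroup.center (Matrix.SpecialLinearGroup (Fin 3) K)) g) ^ 4 = 1 by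
    rw [← map_pow]; exact (QuotientGroup.eq_one_iff _).2 h4)
  rw [hx] at this
  exact absurd this (by decide)

def six : Matrix (Fin 4) (Fin 4) (ZMod 2) := !![0, 1, 0, 0; 1, 1, 0, 0; 0, 0, 1, 1; 0, 0, 0, 1]

theorem six_facts : six ^ 2 ≠ 1 ∧ six ^ 3 ≠ 1 ∧ six ^ 6 = 1 := by
  refine ⟨?_, ?_, ?_⟩
  · intro h
    have := congrFun (congrFun h 0) 1
    revert this; decide
  · intro h
    have := congrFun (congrFun h 2) 3
    revert this; decide
  · simp only [pow_succ, pow_zero, one_mul]
    decide +kernel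

/-- Let F be a field with 2 elements and K a field with 4 elements. PSL_4(F) and PSL_3(K) have the same order (20160) but are not isomorphic. -/
theorem result {F K : Type*} [Field F] [Fintype F] [Field K] [Fintype K] (hF : Fintype.card F = 2) (hK : Fintype.card K = 4) : Nat.card (Matrix.ProjectiveSpecialLinearGroup (Fin 4) F) = Nat.card (Matrix.ProjectiveSpecialLinearGroup (Fin 3) K) ∧ ¬ Nonempty (Matrix.ProjectiveSpecialLinearGroup (Fin 4) F ≃* Matrix.ProjectiveSpecialLinearGroup (Fin 3) K) := by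
  haveI : CharP F 2 := charTwo_of_card 1 (by rw [hF]; rfl)
  have h1 := card_psl (F := F) 4 (by norm_num)
  have h2 := card_psl (F := K) 3 (by norm_num)
  rw [hF] at h1
  rw [hK] at h2
  simp [Fin.prod_univ_four] at h1
  simp [Fin.prod_univ_three] at h2
  refine ⟨by omega, ?_⟩
  rintro ⟨e⟩
  have hdet : (six.map (ZMod.castHom (dvd_refl 2) F)).det = 1 := by
    rw [← RingHom.mapMatrix_apply, ← RingHom.map_det, show six.det = 1 by
      rw [Matrix.det_succ_row_zero]; decide, map_one]
  let g : Matrix.SpecialLinearGroup (Fin 4) F := ⟨six.map (ZMod.castHom (dvd_refl 2) F), hdet⟩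
  have hpow : ∀ k, ((g ^ k : Matrix.SpecialLinearGroup (Fin 4) F) : Matrix (Fin 4) (Fin 4) F) = (six ^ k).map (ZMod.castHom (dvd_refl 2) F) := by
    intro k
    rw [Matrix.SpecialLinearGroup.coe_pow]
    exact (map_pow (RingHom.mapMatrix (ZMod.castHom (dvd_refl 2) F)) six k).symm
  have hz : Nat.card (Subgroup.center (Matrix.SpecialLinearGroup (Fin 4) F)) = 1 := by
    rw [center_sl_card, hF]; rfl
  have hinj : Function.Injective (fun M : Matrix (Fin 4) (Fin 4) (ZMod 2) => M.map (ZMod.castHom (dvd_refl 2) F)) :=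
    Matrix.map_injective (RingHom.injective _)
  have hne : ∀ k, six ^ k ≠ 1 → (QuotientGroup.mk' (Subgroup.center (Matrix.SpecialLinearGroup (Fin 4) F)) g) ^ k ≠ 1 := by
    intro k hk h
    rw [← map_pow] at h
    have h' : g ^ k ∈ Subgroup.center (Matrix.SpecialLinearGroup (Fin 4) F) := (QuotientGroup.eq_one_iff _).1 h
    rw [Subgroup.card_eq_one.1 hz, Subgroup.mem_bot] at h'
    refine hk (hinj ?_)
    show (six ^ k).map _ = (1 : Matrix (Fin 4) (Fin 4) (ZMod 2)).map _
    rw [← hpow, h', Matrix.map_one _ (map_zero _) (map_one _)]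
    rfl
  have hord : orderOf (QuotientGroup.mk' (Subgroup.center (Matrix.SpecialLinearGroup (Fin 4) F)) g) = 6 := by
    rw [orderOf_eq_iff (by norm_num)]
    have h6 : (QuotientGroup.mk' (Subgroup.center (Matrix.SpecialLinearGroup (Fin 4) F)) g) ^ 6 = 1 := by
      rw [← map_pow, show g ^ 6 = 1 from Subtype.ext (by rw [hpow, six_facts.2.2, Matrix.map_one _ (map_zero _) (map_one _)]; rfl), map_one]
    refine ⟨h6, fun m hm hm0 h => ?_⟩
    have hd : (QuotientGroup.mk' (Subgroup.center (Matrix.SpecialLinearGroup (Fin 4) F)) g) ^ (Nat.gcd m 6) = 1 :=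
      pow_gcd_eq_one.2 ⟨h, h6⟩
    have : Nat.gcd m 6 = 1 ∨ Nat.gcd m 6 = 2 ∨ Nat.gcd m 6 = 3 := by
      interval_cases m <;> decide
    rcases this with h' | h' | h' <;> rw [h'] at hd
    · exact hne 2 six_facts.1 (by rw [show (2 : ℕ) = 1 * 2 by rfl, pow_mul, hd, one_pow])
    · exact hne 2 six_facts.1 hd
    · exact hne 3 six_facts.2.1 hd
  exact no_six hK (e (QuotientGroup.mk' _ g)) ((orderOf_injective e.toMonoidHom e.injective _).trans hord)

end Cfsg.Agent.S2550
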