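import Cfsg.Statements.S2552
-- import your own Cfsg.Agent.* helpers here

set_option autoImplicit false
open Cfsg

namespace Cfsg.Agent.S2552

/-- Let F be a finite field and n ≥ 1. For every k, the special linear group SL_n(F) acts transitively on the set of k-dimensional subspaces of F^n: any two subspaces of the same dimension are carried onto each other by some matrix of determinant 1. -/
theorem result {F : Type*} [Field F] [Fintype F] (n : ℕ) (hn : 1 ≤ n) (U₁ U₂ : Submodule F (Fin n → F)) (h : Module.finrank F U₁ = Module.finrank F U₂) : ∃ g : Matrix.SpecialLinearGroup (Fin n) F, U₁.map ((Matrix.SpecialLinearGroup.toLin' g : (Fin n → F) ≃ₗ[F] (Fin n → F)) : (Fin n → F) →ₗ[F] (Fin n → F)) = U₂ := by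
  classical
  obtain ⟨C₁, hC₁⟩ := Submodule.exists_isCompl U₁
  obtain ⟨C₂, hC₂⟩ := Submodule.exists_isCompl U₂
  have h1 := Submodule.finrank_add_eq_of_isCompl hC₁
  have h2 := Submodule.finrank_add_eq_of_isCompl hC₂
  let eU := LinearEquiv.ofFinrankEq U₁ U₂ h
  let eC := LinearEquiv.ofFinrankEq C₁ C₂ (show Module.finrank F C₁ = Module.finrank F C₂ by omega)
  let e : (Fin n → F) ≃ₗ[F] (Fin n → F) :=
    (Submodule.prodEquivOfIsCompl U₁ C₁ hC₁).symm ≪≫ₗ (eU.prodCongr eC) ≪≫ₗ Submodule.prodEquivOfIsCompl U₂ C₂ hC₂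
  have he : ∀ x ∈ U₁, e x ∈ U₂ := by
    intro x hx
    have : (Submodule.prodEquivOfIsCompl U₁ C₁ hC₁).symm x = (⟨x, hx⟩, 0) :=
      Submodule.prodEquivOfIsCompl_symm_apply_left U₁ C₁ hC₁ (⟨x, hx⟩ : ↥U₁)
    simp [e, this]
  obtain ⟨v, hv0, hv⟩ : ∃ v : Fin n → F, v ≠ 0 ∧ (U₂ = ⊥ ∨ v ∈ U₂) := by
    by_cases hU : U₂ = ⊥
    · exact ⟨Pi.single ⟨0, hn⟩ 1, by simp, Or.inl hU⟩
    · obtain ⟨v, hv, hv0⟩ := Submodule.exists_mem_ne_zero_of_ne_bot hU
      exact ⟨v, hv0, Or.inr hv⟩
  obtain ⟨φ, hφ⟩ := LinearMap.exists_extend ((LinearEquiv.toSpanNonzeroSingleton F (Fin n → F) v hv0).symm.toLinearMap)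
  have hφv : φ v = 1 := by
    have := LinearMap.congr_fun hφ ⟨v, Submodule.mem_span_singleton_self v⟩
    simp only [LinearMap.comp_apply, Submodule.subtype_apply, LinearEquiv.coe_coe] at this
    rw [this, LinearEquiv.symm_apply_eq]
    ext1; simp
  let c : F := (LinearMap.det (e : (Fin n → F) →ₗ[F] (Fin n → F)))⁻¹
  let D := LinearMap.transvection ((c - 1) • φ) v
  have hD : LinearMap.det D = c := by
    rw [LinearMap.transvection.det]; simp [hφv]
  let T := D.comp (e : (Fin n → F) →ₗ[F] (Fin n → F))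
  have hT : LinearMap.det T = 1 := by
    rw [LinearMap.det_comp, hD]
    exact inv_mul_cancel₀ e.isUnit_det'.ne_zero
  refine ⟨⟨LinearMap.toMatrix' T, by rw [LinearMap.det_toMatrix']; exact hT⟩, ?_⟩
  have hcoe : ((Matrix.SpecialLinearGroup.toLin' (⟨LinearMap.toMatrix' T, by rw [LinearMap.det_toMatrix']; exact hT⟩ : Matrix.SpecialLinearGroup (Fin n) F) : (Fin n → F) ≃ₗ[F] (Fin n → F)) : (Fin n → F) →ₗ[F] (Fin n → F)) = T := by
    exact Matrix.toLin'_toMatrix' T
  rw [hcoe]
  refine Submodule.eq_of_le_of_finrank_le ?_ ?_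
  · rintro _ ⟨x, hx, rfl⟩
    have hy := he x hx
    rcases hv with hU | hv
    · rw [hU, Submodule.mem_bot] at hy
      simp [T, hy]
    · simp only [T, D, LinearMap.comp_apply, LinearEquiv.coe_coe, LinearMap.transvection.apply]
      exact U₂.add_mem hy (U₂.smul_mem _ hv)
  · have hinj : Function.Injective T := by
      have hu : IsUnit T := (LinearMap.isUnit_iff_isUnit_det T).2 (by rw [hT]; exact isUnit_one)
      exact ((Module.End.isUnit_iff T).1 hu).injective
    rw [← LinearEquiv.finrank_eq (Submodule.equivMapOfInjective T hinj U₁), h]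

end Cfsg.Agent.S2552
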