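import Cfsg.Statements.S2561
import Cfsg.Agent.F2Forms.Basic

set_option autoImplicit false
open Cfsg CfsgLib

namespace Cfsg.Agent.S2561

/-- Fix the non-singular alternating form on the 2m-dimensional space over the field of two elements obtained by polarizing the plus-type form Σ xᵢyᵢ (m ≥ 1). The functions q on the space with q(u + v) = q(u) + q(v) + f(u, v) (the quadratic forms polarizing to f) number 2^(2m); each is equivalent under an invertible linear map either to the plus-type form or to the minus-type form Σ xᵢyᵢ + (z₁² + z₁z₂ + z₂²); and those of plus type number 2^(2m−1) + 2^(m−1), those of minus type 2^(2m−1) − 2^(m−1). -/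
theorem result (m : ℕ) (hm : 1 ≤ m) :
    Nat.card {q : (Fin m ⊕ Fin m → ZMod 2) → ZMod 2 // (∀ u v : (Fin m ⊕ Fin m → ZMod 2), q (u + v) = q u + q v + (Cfsg.quadFormPlus m (ZMod 2) (u + v) - Cfsg.quadFormPlus m (ZMod 2) u - Cfsg.quadFormPlus m (ZMod 2) v))} = 2 ^ (2 * m) ∧
    (∀ q : (Fin m ⊕ Fin m → ZMod 2) → ZMod 2, (∀ u v : (Fin m ⊕ Fin m → ZMod 2), q (u + v) = q u + q v + (Cfsg.quadFormPlus m (ZMod 2) (u + v) - Cfsg.quadFormPlus m (ZMod 2) u - Cfsg.quadFormPlus m (ZMod 2) v)) →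
      (∃ g : (Fin m ⊕ Fin m → ZMod 2) ≃ₗ[ZMod 2] (Fin m ⊕ Fin m → ZMod 2), ∀ v, q v = Cfsg.quadFormPlus m (ZMod 2) (g v)) ∨
      (∃ g : (Fin m ⊕ Fin m → ZMod 2) ≃ₗ[ZMod 2] ((Fin (m - 1) ⊕ Fin (m - 1)) ⊕ Fin 2 → ZMod 2), ∀ v, q v = Cfsg.quadFormMinus (m - 1) (ZMod 2) 1 1 (g v))) ∧
    Nat.card {q : (Fin m ⊕ Fin m → ZMod 2) → ZMod 2 // (∀ u v : (Fin m ⊕ Fin m → ZMod 2), q (u + v) = q u + q v + (Cfsg.quadFormPlus m (ZMod 2) (u + v) - Cfsg.quadFormPlus m (ZMod 2) u - Cfsg.quadFormPlus m (ZMod 2) v)) ∧ ∃ g : (Fin m ⊕ Fin m → ZMod 2) ≃ₗ[ZMod 2] (Fin m ⊕ Fin m → ZMod 2), ∀ v, q v = Cfsg.quadFormPlus m (ZMod 2) (g v)} = 2 ^ (2 * m - 1) + 2 ^ (m - 1) ∧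
    Nat.card {q : (Fin m ⊕ Fin m → ZMod 2) → ZMod 2 // (∀ u v : (Fin m ⊕ Fin m → ZMod 2), q (u + v) = q u + q v + (Cfsg.quadFormPlus m (ZMod 2) (u + v) - Cfsg.quadFormPlus m (ZMod 2) u - Cfsg.quadFormPlus m (ZMod 2) v)) ∧ ∃ g : (Fin m ⊕ Fin m → ZMod 2) ≃ₗ[ZMod 2] ((Fin (m - 1) ⊕ Fin (m - 1)) ⊕ Fin 2 → ZMod 2), ∀ v, q v = Cfsg.quadFormMinus (m - 1) (ZMod 2) 1 1 (g v)} = 2 ^ (2 * m - 1) - 2 ^ (m - 1) := by
  obtain ⟨k, rfl⟩ : ∃ k, m = k + 1 := ⟨m - 1, by omega⟩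
  simp only [Nat.add_sub_cancel, F2Forms.polar_eq_hb]
  have hsurj := F2Forms.eq_form_of_polar (k + 1)
  let e : F2Forms.Sp (k + 1) ≃ {q : F2Forms.Sp (k + 1) → ZMod 2 // ∀ u v, q (u + v) = q u + q v + F2Forms.hb (k + 1) u v} :=
    Equiv.ofBijective (fun w => ⟨F2Forms.form (k + 1) w, F2Forms.form_add (k + 1) w⟩)
      ⟨fun a b h => F2Forms.form_injective _ (congrArg Subtype.val h), fun q => by
        obtain ⟨w, hw, -⟩ := hsurj q.1 q.2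
        exact ⟨w, Subtype.ext hw.symm⟩⟩
  have hcnt : ∀ (a : ZMod 2) (P : (F2Forms.Sp (k + 1) → ZMod 2) → Prop),
      (∀ w, P (F2Forms.form (k + 1) w) ↔ Cfsg.quadFormPlus (k + 1) (ZMod 2) w = a) →
      2 * (Nat.card {q : F2Forms.Sp (k + 1) → ZMod 2 // (∀ u v, q (u + v) = q u + q v + F2Forms.hb (k + 1) u v) ∧ P q} : ℤ)
        = 2 ^ (2 * (k + 1)) + F2Forms.sgn a * 2 ^ (k + 1) := by
    intro a P hP
    have hc : Nat.card {w : F2Forms.Sp (k + 1) // Cfsg.quadFormPlus (k + 1) (ZMod 2) w = a} =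
        Nat.card {q : F2Forms.Sp (k + 1) → ZMod 2 // (∀ u v, q (u + v) = q u + q v + F2Forms.hb (k + 1) u v) ∧ P q} :=
      Nat.card_congr ((e.subtypeEquiv fun w => (hP w).symm).trans (Equiv.subtypeSubtypeEquivSubtypeInter _ P))
    rw [← hc, F2Forms.two_mul_card_fiber, F2Forms.gauss_plus, F2Forms.card_sp]
    push_cast
    ring
  have hpow : (2 : ℤ) ^ (2 * (k + 1)) = 2 * 2 ^ (2 * (k + 1) - 1) := by
    rw [← pow_succ']; congr 1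
  refine ⟨?_, ?_, ?_, ?_⟩
  · rw [← Nat.card_congr e, Nat.card_eq_fintype_card, F2Forms.card_sp]
  · intro q hq
    obtain ⟨w, rfl, -⟩ := hsurj q hq
    rcases F2Forms.eq_zero_or_one (Cfsg.quadFormPlus (k + 1) (ZMod 2) w) with h | h
    · exact Or.inl ((F2Forms.form_plus_iff _ w).2 h)
    · exact Or.inr ((F2Forms.form_minus_iff _ w).2 h)
  · have h := hcnt 0 (fun q => ∃ g : F2Forms.Sp (k + 1) ≃ₗ[ZMod 2] F2Forms.Sp (k + 1), ∀ v, q v = Cfsg.quadFormPlus (k + 1) (ZMod 2) (g v)) (fun w => F2Forms.form_plus_iff _ w)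
    rw [F2Forms.sgn_zero, hpow, pow_succ'] at h
    zify
    linarith
  · have h := hcnt 1 (fun q => ∃ g : F2Forms.Sp (k + 1) ≃ₗ[ZMod 2] ((Fin (k + 1 - 1) ⊕ Fin (k + 1 - 1)) ⊕ Fin 2 → ZMod 2), ∀ v, q v = Cfsg.quadFormMinus (k + 1 - 1) (ZMod 2) 1 1 (g v)) (fun w => F2Forms.form_minus_iff _ w)
    rw [F2Forms.sgn_one, hpow, pow_succ'] at h
    have hle : 2 ^ k ≤ 2 ^ (2 * (k + 1) - 1) := Nat.pow_le_pow_right (by norm_num) (by omega)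
    zify [hle]
    linarith

end Cfsg.Agent.S2561
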