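import Cfsg.Statements.S2562
import Cfsg.Agent.F2Forms.Basic

set_option autoImplicit false
open Cfsg CfsgLib

namespace Cfsg.Agent.S2562

/-- Witt indices over the field of two elements, m ≥ 1: for the plus-type form Σ xᵢyᵢ in dimension 2m some m-dimensional subspace is totally singular and no totally singular subspace has larger dimension; for the minus-type form Σ xᵢyᵢ + (z₁² + z₁z₂ + z₂²) in dimension 2m the maximal dimension of a totally singular subspace is m − 1. -/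
theorem result (m : ℕ) (hm : 1 ≤ m) :
    (∃ U : Submodule (ZMod 2) (Fin m ⊕ Fin m → ZMod 2), (∀ u ∈ U, Cfsg.quadFormPlus m (ZMod 2) u = 0) ∧ Module.finrank (ZMod 2) ↥U = m) ∧
    (∀ U : Submodule (ZMod 2) (Fin m ⊕ Fin m → ZMod 2), (∀ u ∈ U, Cfsg.quadFormPlus m (ZMod 2) u = 0) → Module.finrank (ZMod 2) ↥U ≤ m) ∧
    (∃ U : Submodule (ZMod 2) ((Fin (m - 1) ⊕ Fin (m - 1)) ⊕ Fin 2 → ZMod 2), (∀ u ∈ U, Cfsg.quadFormMinus (m - 1) (ZMod 2) 1 1 u = 0) ∧ Module.finrank (ZMod 2) ↥U = m - 1) ∧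
    (∀ U : Submodule (ZMod 2) ((Fin (m - 1) ⊕ Fin (m - 1)) ⊕ Fin 2 → ZMod 2), (∀ u ∈ U, Cfsg.quadFormMinus (m - 1) (ZMod 2) 1 1 u = 0) → Module.finrank (ZMod 2) ↥U ≤ m - 1) := by
  obtain ⟨k, rfl⟩ : ∃ k, m = k + 1 := ⟨m - 1, by omega⟩
  simp only [Nat.add_sub_cancel]
  have hbd : ∀ (q : F2Forms.Sp (k + 1) → ZMod 2), (∀ u v, q (u + v) = q u + q v + F2Forms.hb (k + 1) u v) →
      ∀ U : Submodule (ZMod 2) (F2Forms.Sp (k + 1)), (∀ u ∈ U, q u = 0) →
      Module.finrank (ZMod 2) ↥U ≤ k + 1 ∧ (Module.finrank (ZMod 2) ↥U = k + 1 → 0 < F2Forms.gauss q) := by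
    intro q hq U hU
    obtain ⟨h1, h2⟩ := F2Forms.totallySingular_card q (F2Forms.hb (k + 1)) hq (F2Forms.hb_add_left _)
      (F2Forms.hb_add_right _) (F2Forms.hb_nondeg _) U hU
    rw [Module.natCard_eq_pow_finrank (K := ZMod 2) (V := U), Nat.card_zmod, F2Forms.card_sp, ← pow_add] at h1 h2
    refine ⟨?_, fun hd => ?_⟩
    · have := (Nat.pow_le_pow_iff_right (by norm_num)).1 h1
      omega
    · rw [h2 (by rw [hd, two_mul])]
      positivity
  refine ⟨?_, fun U hU => (hbd _ (F2Forms.quadFormPlus_add _) U hU).1, ?_, ?_⟩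
  · let e : (Fin (k + 1) → ZMod 2) →ₗ[ZMod 2] F2Forms.Sp (k + 1) :=
      LinearMap.pi (Sum.elim (fun i => LinearMap.proj i) (fun _ => 0))
    refine ⟨LinearMap.range e, ?_, ?_⟩
    · rintro _ ⟨x, rfl⟩
      simp [Cfsg.quadFormPlus, e]
    · rw [LinearMap.finrank_range_of_inj, Module.finrank_fin_fun]
      intro x y h
      funext i
      exact congrFun h (Sum.inl i)
  · let e : (Fin k → ZMod 2) →ₗ[ZMod 2] ((Fin k ⊕ Fin k) ⊕ Fin 2 → ZMod 2) :=
      LinearMap.pi (Sum.elim (Sum.elim (fun i => LinearMap.proj i) (fun _ => 0)) (fun _ => 0))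
    refine ⟨LinearMap.range e, ?_, ?_⟩
    · rintro _ ⟨x, rfl⟩
      simp [Cfsg.quadFormMinus, e]
    · rw [LinearMap.finrank_range_of_inj, Module.finrank_fin_fun]
      intro x y h
      funext i
      exact congrFun h (Sum.inl (Sum.inl i))
  · intro U hU
    obtain ⟨g, hg⟩ := F2Forms.exists_minus k
    have h := hbd _ (F2Forms.form_add (k + 1) (F2Forms.wMinus k)) (U.comap g.toLinearMap)
      (fun u hu => by rw [hg]; exact hU _ hu)
    have hd : Module.finrank (ZMod 2) ↥(U.comap g.toLinearMap) = Module.finrank (ZMod 2) ↥U := by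
      rw [Submodule.comap_equiv_eq_map_symm]
      exact LinearEquiv.finrank_map_eq g.symm U
    rw [hd] at h
    by_contra hcon
    have := h.2 (by omega)
    rw [F2Forms.gauss_form, F2Forms.quadFormPlus_wMinus, F2Forms.sgn_one] at this
    have hp : (0 : ℤ) < 2 ^ (k + 1) := by positivity
    linarith

end Cfsg.Agent.S2562
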