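import Cfsg.Statements.S2563
import Cfsg.Agent.F2Forms.EvenWeight

set_option autoImplicit false
open Cfsg CfsgLib

namespace Cfsg.Agent.S2563

/-- For k ≥ 1 the symmetric group of degree 4k + 4 embeds in a full orthogonal group in dimension 4k + 2 over the field of two elements: in the isometry group of the plus-type form Σ xᵢyᵢ when k is odd, and in that of the minus-type form Σ xᵢyᵢ + (z₁² + z₁z₂ + z₂²) when k is even (through its action on even partitions of a (4k+4)-set, with the form 'half the size of a part, modulo 2'). -/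
theorem result (k : ℕ) (hk : 1 ≤ k) :
    (Odd k → ∃ φ : Equiv.Perm (Fin (4 * k + 4)) →* ↥(Cfsg.isometryGroup (ZMod 2) (Cfsg.quadFormPlus (2 * k + 1) (ZMod 2))), Function.Injective φ) ∧
    (Even k → ∃ φ : Equiv.Perm (Fin (4 * k + 4)) →* ↥(Cfsg.isometryGroup (ZMod 2) (Cfsg.quadFormMinus (2 * k) (ZMod 2) 1 1)), Function.Injective φ) := by
  obtain ⟨w, hw, hQ⟩ := F2Forms.Even.exists_type k
  let e : Fin (4 * k + 4) ≃ F2Forms.Even.Pt (2 * k + 1) :=
    (finCongr (show 4 * k + 4 = Fintype.card (F2Forms.Even.Pt (2 * k + 1)) by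
      simp [Fintype.card_prod, Fintype.card_option]; omega)).trans (Fintype.equivFin _).symm
  refine ⟨fun hodd => ?_, fun hev => ?_⟩
  · have h0 : Cfsg.quadFormPlus (2 * k + 1) (ZMod 2) w = 0 := by
      rw [hQ, CharP.cast_eq_zero_iff (ZMod 2) 2, ← even_iff_two_dvd]
      exact hodd.add_one
    obtain ⟨g, hg⟩ := (F2Forms.form_plus_iff _ w).2 h0
    obtain ⟨φ, hφ, -⟩ := F2Forms.Even.exists_hom_isometry k hk _ g (fun v => by rw [hw]; exact hg v)
    exact ⟨φ.comp e.permCongrHom.toMonoidHom, hφ.comp e.permCongrHom.injective⟩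
  · have h1 : Cfsg.quadFormPlus (2 * k + 1) (ZMod 2) w = 1 := by
      rw [hQ]
      exact ZMod.natCast_eq_one_iff_odd.2 hev.add_one
    obtain ⟨g, hg⟩ := (F2Forms.form_minus_iff _ w).2 h1
    obtain ⟨φ, hφ, -⟩ := F2Forms.Even.exists_hom_isometry k hk _ g (fun v => by rw [hw]; exact hg v)
    exact ⟨φ.comp e.permCongrHom.toMonoidHom, hφ.comp e.permCongrHom.injective⟩

end Cfsg.Agent.S2563
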