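import Cfsg.Statements.S2564
import Cfsg.Agent.F2Forms.Basic

set_option autoImplicit false
open Cfsg CfsgLib

namespace Cfsg.Agent.S2564

/-- On the 2m-dimensional space over the field of two elements (m ≥ 1) let f be the alternating form obtained by polarizing the plus-type form Σ xᵢyᵢ, and let q be any quadratic form polarizing to f. For a vector w, the function q + f(·, w) again polarizes to f, and it is equivalent to q under an invertible linear map (that is, has the same type) if and only if q(w) = 0. -/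
theorem result (m : ℕ) (hm : 1 ≤ m) (q : (Fin m ⊕ Fin m → ZMod 2) → ZMod 2) (hq : (∀ u v : (Fin m ⊕ Fin m → ZMod 2), q (u + v) = q u + q v + (Cfsg.quadFormPlus m (ZMod 2) (u + v) - Cfsg.quadFormPlus m (ZMod 2) u - Cfsg.quadFormPlus m (ZMod 2) v))) (w : (Fin m ⊕ Fin m → ZMod 2)) :
    (∀ u v : (Fin m ⊕ Fin m → ZMod 2), (q (u + v) + (Cfsg.quadFormPlus m (ZMod 2) (u + v + w) - Cfsg.quadFormPlus m (ZMod 2) (u + v) - Cfsg.quadFormPlus m (ZMod 2) w)) =
        (q u + (Cfsg.quadFormPlus m (ZMod 2) (u + w) - Cfsg.quadFormPlus m (ZMod 2) u - Cfsg.quadFormPlus m (ZMod 2) w)) + (q v + (Cfsg.quadFormPlus m (ZMod 2) (v + w) - Cfsg.quadFormPlus m (ZMod 2) v - Cfsg.quadFormPlus m (ZMod 2) w)) +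
        (Cfsg.quadFormPlus m (ZMod 2) (u + v) - Cfsg.quadFormPlus m (ZMod 2) u - Cfsg.quadFormPlus m (ZMod 2) v)) ∧
    ((∃ g : (Fin m ⊕ Fin m → ZMod 2) ≃ₗ[ZMod 2] (Fin m ⊕ Fin m → ZMod 2), ∀ v, q v + (Cfsg.quadFormPlus m (ZMod 2) (v + w) - Cfsg.quadFormPlus m (ZMod 2) v - Cfsg.quadFormPlus m (ZMod 2) w) = q (g v)) ↔ q w = 0) := by
  simp only [F2Forms.polar_eq_hb] at hq ⊢
  refine ⟨fun u v => ?_, ?_, fun hw => F2Forms.exists_transvection m q hq w hw⟩
  · rw [hq, F2Forms.hb_add_left]; ring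
  · rintro ⟨g, hg⟩
    have h := F2Forms.gauss_equiv _ _ g.toEquiv hg
    rw [F2Forms.gauss_translate q (F2Forms.hb m) hq w] at h
    have hsq := F2Forms.gauss_sq q (F2Forms.hb m) hq (F2Forms.hb_add_left m) (F2Forms.hb_nondeg m)
    have hne : F2Forms.gauss q ≠ 0 := by
      intro h0
      rw [h0, mul_zero] at hsq
      exact Fintype.card_ne_zero (α := F2Forms.Sp m) (by exact_mod_cast hsq.symm)
    exact F2Forms.sgn_inj _ 0 (mul_right_cancel₀ hne (h.trans (one_mul _).symm))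

end Cfsg.Agent.S2564
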