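import Cfsg.Statements.S2565
import Cfsg.Agent.F2Forms.EvenWeight

set_option autoImplicit false
open Cfsg CfsgLib

namespace Cfsg.Agent.S2565

/-- The commutator subgroup of the full orthogonal group of the plus-type form Σ xᵢyᵢ in dimension 6 over the field of two elements (the group Ω⁺₆(2), of index 2) is isomorphic to the alternating group of degree 8. -/
theorem result :
    (Cfsg.Omega (ZMod 2) (Cfsg.quadFormPlus 3 (ZMod 2))).index = 2 ∧
    Nonempty (↥(Cfsg.Omega (ZMod 2) (Cfsg.quadFormPlus 3 (ZMod 2))) ≃* alternatingGroup (Fin 8)) := by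
  obtain ⟨w, hw, hQ⟩ := F2Forms.Even.exists_type 1
  obtain ⟨g, hg⟩ := (F2Forms.form_plus_iff _ w).2 (hQ.trans (by decide))
  have hgq : ∀ v, F2Forms.Even.qForm 3 v = Cfsg.quadFormPlus 3 (ZMod 2) (g v) := fun v => by
    rw [show F2Forms.Even.qForm 3 = F2Forms.form 3 w from hw]; exact hg v
  obtain ⟨φ, hφ, hact⟩ := F2Forms.Even.exists_hom_isometry 1 le_rfl _ g hgq
  have hsurj : Function.Surjective φ := by
    intro x
    set A : Matrix (Fin 3 ⊕ Fin 3) (Fin 3 ⊕ Fin 3) (ZMod 2) :=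
      ((x : GL (Fin 3 ⊕ Fin 3) (ZMod 2)) : Matrix (Fin 3 ⊕ Fin 3) (Fin 3 ⊕ Fin 3) (ZMod 2))
    let L := Matrix.GeneralLinearGroup.toLin (x : GL (Fin 3 ⊕ Fin 3) (ZMod 2))
    let a : F2Forms.Sp 3 ≃ₗ[ZMod 2] F2Forms.Sp 3 := LinearMap.GeneralLinearGroup.generalLinearEquiv _ _ L
    have ha : ∀ v, a v = A.mulVec v := fun v => rfl
    let h : F2Forms.Sp 3 ≃ₗ[ZMod 2] F2Forms.Sp 3 := g.trans (a.trans g.symm)
    obtain ⟨σ, hσ⟩ := F2Forms.Even.exists_perm_of_isometry h (fun v => by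
      rw [hgq, hgq]
      show Cfsg.quadFormPlus 3 (ZMod 2) (g (g.symm (a (g v)))) = _
      rw [LinearEquiv.apply_symm_apply, ha]
      exact x.2 (g v) (g v))
    refine ⟨σ, Subtype.ext (Units.ext (Matrix.toLin'.injective (LinearMap.ext fun y => ?_)))⟩
    obtain ⟨v, rfl⟩ := g.surjective y
    simp only [Matrix.toLin'_apply]
    rw [hact, hσ]
    show g (g.symm (a (g v))) = _
    rw [LinearEquiv.apply_symm_apply, ha]
  let e : Fin 8 ≃ F2Forms.Even.Pt (2 * 1 + 1) :=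
    (finCongr (show 8 = Fintype.card (F2Forms.Even.Pt (2 * 1 + 1)) by simp)).trans (Fintype.equivFin _).symm
  let Φ : Equiv.Perm (Fin 8) ≃* ↥(Cfsg.isometryGroup (ZMod 2) (Cfsg.quadFormPlus 3 (ZMod 2))) :=
    e.permCongrHom.trans (MulEquiv.ofBijective φ ⟨hφ, hsurj⟩)
  have hc : (alternatingGroup (Fin 8)).map Φ.toMonoidHom = Cfsg.Omega (ZMod 2) (Cfsg.quadFormPlus 3 (ZMod 2)) := by
    rw [← alternatingGroup.commutator_perm_eq (α := Fin 8) (by simp), commutator_def, Subgroup.map_commutator,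
      Subgroup.map_top_of_surjective _ Φ.surjective]
    rfl
  refine ⟨?_, ⟨((alternatingGroup (Fin 8)).equivMapOfInjective Φ.toMonoidHom Φ.injective |>.trans
    (MulEquiv.subgroupCongr hc)).symm⟩⟩
  rw [← hc]
  exact (Subgroup.index_map_equiv _ Φ).trans alternatingGroup.index_eq_two

end Cfsg.Agent.S2565
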