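import Cfsg.Statements.S2567
-- import your own Cfsg.Agent.* helpers here

set_option autoImplicit false
open Cfsg

namespace Cfsg.Agent.S2567

/-- Lifting elements of prime order from PGL to GL: let F be a finite field with q elements, r a prime not dividing q − 1, and x an element of order r in GL_n(F) modulo its centre (the scalar matrices). Then x has exactly one preimage in GL_n(F) of order r. -/
theorem result {F : Type*} [Field F] [Fintype F] {q n r : ℕ} (hF : Fintype.card F = q) (hr : r.Prime) (hdiv : ¬ r ∣ q - 1) (x : GL (Fin n) F ⧸ Subgroup.center (GL (Fin n) F)) (hx : orderOf x = r) : ∃! g : GL (Fin n) F, (QuotientGroup.mk g : GL (Fin n) F ⧸ Subgroup.center (GL (Fin n) F)) = x ∧ orderOf g = r := by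
  rcases Nat.eq_zero_or_pos n with rfl | hn
  · have : Subsingleton (GL (Fin 0) F) := inferInstance
    obtain ⟨g, rfl⟩ := QuotientGroup.mk_surjective x
    rw [Subsingleton.elim g 1] at hx
    simp at hx
    exact absurd hx.symm hr.ne_one
  obtain ⟨g0, rfl⟩ := QuotientGroup.mk_surjective x
  set Z := Subgroup.center (GL (Fin n) F) with hZ
  have hm : Nat.card Z ∣ q - 1 := by
    rw [hZ, Matrix.GeneralLinearGroup.center_eq_range_scalar, ← hF, ← Nat.card_eq_fintype_card, ← Nat.card_units]
    exact Subgroup.card_range_dvd _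
  have hco : Nat.Coprime (Nat.card Z) r :=
    ((Nat.Prime.coprime_iff_not_dvd hr).2 (fun h => hdiv (h.trans hm))).symm
  obtain ⟨k, -, hk⟩ := Nat.exists_mul_mod_eq_one_of_coprime hco hr.one_lt
  set m := Nat.card Z with hmdef
  have hpow : (QuotientGroup.mk g0 : GL (Fin n) F ⧸ Z) ^ (m * k) = QuotientGroup.mk g0 := by
    rw [← pow_mod_orderOf, hx, hk, pow_one]
  have hr0 : g0 ^ r ∈ Z := by
    rw [← QuotientGroup.eq_one_iff, QuotientGroup.mk_pow, ← hx, pow_orderOf_eq_one]
  have hzm : ∀ z ∈ Z, z ^ m = 1 := by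
    intro z hz
    exact congrArg Subtype.val (pow_card_eq_one' (x := (⟨z, hz⟩ : Z)))
  have hg : (g0 ^ (m * k)) ^ r = 1 := by
    rw [← pow_mul, mul_comm (m * k) r, pow_mul, pow_mul, hzm _ hr0, one_pow]
  have : Fact r.Prime := ⟨hr⟩
  refine ⟨g0 ^ (m * k), ⟨?_, orderOf_eq_prime hg ?_⟩, ?_⟩
  · rw [QuotientGroup.mk_pow, hpow]
  · intro h
    have hx1 : (QuotientGroup.mk g0 : GL (Fin n) F ⧸ Z) = 1 := by
      rw [← hpow, ← QuotientGroup.mk_pow, h, QuotientGroup.mk_one]
    rw [hx1, orderOf_one] at hx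
    exact hr.ne_one hx.symm
  · rintro g ⟨hg1, hg2⟩
    set h := g0 ^ (m * k)
    have hz : h⁻¹ * g ∈ Z := by
      rw [← QuotientGroup.eq]
      rw [hg1]
      simp only [h, QuotientGroup.mk_pow]
      exact hpow
    have hcomm : Commute h (h⁻¹ * g) := Subgroup.mem_center_iff.1 hz h
    have hzr : (h⁻¹ * g) ^ r = 1 := by
      have : g ^ r = 1 := by rw [← hg2, pow_orderOf_eq_one]
      have h2 := hcomm.mul_pow r
      rw [mul_inv_cancel_left, this, hg, one_mul] at h2
      exact h2.symm
    have hone : orderOf (h⁻¹ * g) = 1 :=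
      Nat.eq_one_of_dvd_coprimes hco (orderOf_dvd_of_pow_eq_one (hzm _ hz)) (orderOf_dvd_of_pow_eq_one hzr)
    rw [orderOf_eq_one_iff, inv_mul_eq_one] at hone
    exact hone.symm

end Cfsg.Agent.S2567
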