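import Cfsg.Statements.S2568
import Cfsg.Agent.Classical.Semisimple.OrderRCount

set_option autoImplicit false
open Cfsg

namespace Cfsg.Agent.S2568

open CfsgLib.Classical.Semisimple in
/-- Number of conjugacy classes of elements of a given prime order r, coprime to the characteristic, in GL_n(q): if i is the multiplicative order of q modulo r and t = (r − 1)/i, the classes correspond to the non-zero t-tuples of natural numbers (a_1, …, a_t) with i(a_1 + ⋯ + a_t) ≤ n (a_j is the multiplicity of the j-th Frobenius orbit of nontrivial r-th roots of unity among the eigenvalues), so there are exactly C(⌊n/i⌋ + t, t) − 1 of them. -/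
theorem result {F : Type*} [Field F] [Fintype F] {p q : ℕ} [Fact p.Prime] [CharP F p] (hF : Fintype.card F = q) (n r i t : ℕ) (hr : r.Prime) (hrp : r ≠ p) (hi : i = orderOf (q : ZMod r)) (ht : t * i = r - 1) : Nat.card {C : ConjClasses (GL (Fin n) F) // ∃ g : GL (Fin n) F, ConjClasses.mk g = C ∧ orderOf g = r} = Nat.choose (n / i + t) t - 1 := by
  classical
  subst hF
  have : Fact r.Prime := ⟨hr⟩
  have hrF : (r : F) ≠ 0 := fun h => hrp (((Nat.prime_dvd_prime_iff_eq (Fact.out : p.Prime) hr).mp
    ((CharP.cast_eq_zero_iff F p r).mp h)).symm)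
  have h1 := card_classes_pow_eq_one (F := F) (r := r) p hrp n
  have h2 : (orbitPolys F r).card = t := by
    have h := card_orbitPolys_mul (F := F) (r := r) hrF
    rw [← hi, ← ht] at h
    exact Nat.eq_of_mul_eq_mul_right (hi ▸ orderOf_card_pos hrF) h
  rw [← hi, Nat.card_eq_fintype_card (α := Sym _ _), Sym.card_sym_eq_multichoose,
    Fintype.card_option, Fintype.card_coe, h2, Nat.multichoose_eq] at h1
  rw [show ∀ L : ℕ, t + 1 + L - 1 = L + t from fun L => by omega, Nat.choose_symm_add] at h1
  rw [← h1]
  let A := {C : ConjClasses (GL (Fin n) F) // ∃ g, ConjClasses.mk g = C ∧ g ^ r = 1}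
  let e : {C : ConjClasses (GL (Fin n) F) // ∃ g : GL (Fin n) F, ConjClasses.mk g = C ∧ orderOf g = r} ≃
      {a : A // a ≠ ⟨ConjClasses.mk 1, 1, rfl, one_pow r⟩} :=
    { toFun := fun C => ⟨⟨C.1, C.2.elim fun g hg => ⟨g, hg.1, hg.2 ▸ pow_orderOf_eq_one g⟩⟩,
        fun h => by
          obtain ⟨g, hg1, hg2⟩ := C.2
          have h' := congrArg Subtype.val h
          have hg : g = 1 := isConj_one_left.mp (ConjClasses.mk_eq_mk_iff_isConj.mp (hg1.trans h'))
          rw [hg, orderOf_one] at hg2
          exact hr.one_lt.ne hg2⟩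
      invFun := fun a => ⟨a.1.1, by
        obtain ⟨g, hg1, hg2⟩ := a.1.2
        refine ⟨g, hg1, orderOf_eq_prime hg2 fun h => a.2 ?_⟩
        exact Subtype.ext (by rw [← hg1, h])⟩
      left_inv := fun C => rfl
      right_inv := fun a => rfl }
  have : Fintype A := Fintype.ofFinite A
  rw [Nat.card_congr e, show Nat.card {C : ConjClasses (GL (Fin n) F) // ∃ g, ConjClasses.mk g = C ∧ g ^ r = 1} = Nat.card A from rfl, Nat.card_eq_fintype_card, Nat.card_eq_fintype_card,
    Fintype.card_subtype_compl, Fintype.card_subtype_eq]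

end Cfsg.Agent.S2568
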