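import Cfsg.Statements.S2570
import Mathlib
import Cfsg.Agent.Jordan.UnipotentClasses
-- import your own Cfsg.Agent.* helpers here

set_option autoImplicit false
open Cfsg

namespace Cfsg.Agent.S2570

open CfsgLib.Jordan

private theorem pow_eq_one_iff_nil {F : Type*} [Field F] {p n : ℕ} [Fact p.Prime] [CharP F p]
    (g : GL (Fin n) F) (j : ℕ) : g ^ p ^ j = 1 ↔ nilPart g ^ p ^ j = 0 := by
  rcases isEmpty_or_nonempty (Fin n) with hn | hn
  · exact iff_of_true (Subsingleton.elim _ _) (Subsingleton.elim _ _)
  rw [nilPart, ← map_pow, map_eq_zero_iff _ Matrix.toLinAlgEquiv'.injective,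
    sub_pow_char_pow_of_commute (p := p) j (Commute.one_right _), one_pow, sub_eq_zero,
    ← Units.val_pow_eq_pow_val, Units.val_eq_one]

private theorem nil_pow_eq_zero_iff {F : Type*} [Field F] {n : ℕ} (π : Nat.Partition n) (m : ℕ) :
    nilPart (partElt (F := F) π) ^ m = 0 ↔ ∀ a ∈ π.parts, a ≤ m := by
  rw [← LinearMap.range_eq_bot, ← Submodule.finrank_eq_zero, (isChainBasis_partElt π).rank_pow,
    Finset.sum_eq_zero_iff]
  constructor
  · intro h a ha
    rw [← map_partSize π, Multiset.mem_map] at ha
    obtain ⟨k, -, rfl⟩ := ha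
    exact Nat.sub_eq_zero_iff_le.1 (h k (Finset.mem_univ _))
  · intro h k _
    exact Nat.sub_eq_zero_of_le (h _ (Multiset.mem_toList.1 (List.get_mem _ k)))

/-- Number of conjugacy classes of elements of order p in GL_n over a finite field of characteristic p: they correspond to the Jordan types, that is, to the partitions of n with all parts at most p other than the partition into ones, so there are (number of partitions of n with parts ≤ p) − 1 of them. -/
theorem result {F : Type*} [Field F] [Fintype F] {p : ℕ} [Fact p.Prime] [CharP F p] (n : ℕ) : Nat.card {C : ConjClasses (GL (Fin n) F) // ∃ g : GL (Fin n) F, ConjClasses.mk g = C ∧ orderOf g = p} = (Finset.univ.filter (fun μ : Nat.Partition n => ∀ a ∈ μ.parts, a ≤ p)).card - 1 := by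
  classical
  set S := Finset.univ.filter (fun μ : Nat.Partition n => ∀ a ∈ μ.parts, a ≤ p) with hS
  have hp : p.Prime := Fact.out
  let o : Nat.Partition n :=
    { parts := Multiset.replicate n 1
      parts_pos := fun hi => by rw [Multiset.eq_of_mem_replicate hi]; exact one_pos
      parts_sum := by simp }
  have ho : ∀ μ : Nat.Partition n, (∀ a ∈ μ.parts, a ≤ 1) ↔ μ = o := by
    intro μ
    constructor
    · intro h
      have h1 : μ.parts = Multiset.replicate μ.parts.card 1 :=
        Multiset.eq_replicate_card.2 fun a ha => le_antisymm (h a ha) (μ.parts_pos ha)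
      have h2 : μ.parts.card = n := by
        have := congrArg Multiset.sum h1
        simpa [μ.parts_sum] using this.symm
      exact Nat.Partition.ext (by rw [h1, h2])
    · rintro rfl a ha
      rw [Multiset.eq_of_mem_replicate ha]
  have hord : ∀ π : Nat.Partition n, π ∈ S.erase o ↔ orderOf (partElt (F := F) π) = p := by
    intro π
    rw [Finset.mem_erase, hS, Finset.mem_filter, orderOf_eq_prime_iff,
      show (partElt (F := F) π ^ p = 1 ↔ _) by simpa using pow_eq_one_iff_nil (p := p) (partElt π) 1,
      show (partElt (F := F) π ≠ 1 ↔ _) by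
        simpa using (pow_eq_one_iff_nil (p := p) (partElt (F := F) π) 0).not,
      nil_pow_eq_zero_iff, show (nilPart (partElt (F := F) π) = 0 ↔ _) by
        simpa using nil_pow_eq_zero_iff (F := F) π 1, ho]
    simp [and_comm]
  have hmem : o ∈ S := by
    rw [hS, Finset.mem_filter]
    exact ⟨Finset.mem_univ _, fun a ha => ((ho o).2 rfl a ha).trans hp.one_lt.le⟩
  rw [← Finset.card_erase_of_mem hmem, ← Nat.card_eq_finsetCard (S.erase o)]
  refine (Nat.card_eq_of_bijective (fun π : ↥(S.erase o) =>
    (⟨ConjClasses.mk (partElt π.1), partElt π.1, rfl, (hord π.1).1 π.2⟩ :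
      {C : ConjClasses (GL (Fin n) F) // ∃ g : GL (Fin n) F, ConjClasses.mk g = C ∧ orderOf g = p}))
    ⟨?_, ?_⟩).symm
  · intro π π' h
    have hc := ConjClasses.mk_eq_mk_iff_isConj.1 (congrArg Subtype.val h)
    have hpos : ∀ (ρ : Nat.Partition n) k, 1 ≤ partSize ρ k := fun ρ k =>
      ρ.parts_pos (Multiset.mem_toList.1 (List.get_mem _ k))
    obtain ⟨σ, hσ⟩ := exists_equiv_of_rank_eq (isChainBasis_partElt (F := F) π.1)
      (isChainBasis_partElt (F := F) π'.1) (hpos _) (hpos _) (ranks_eq_of_isConj hc)
    refine Subtype.ext (Nat.Partition.ext ?_)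
    rw [← map_partSize π.1, ← map_partSize π'.1,
      ← Finset.map_univ_equiv σ, Finset.map_val, Multiset.map_map]
    exact Multiset.map_congr rfl fun k _ => (hσ k).symm
  · rintro ⟨C, g, rfl, hg⟩
    have hnil : IsNilpotent (nilPart g) := (isNilpotent_nilPart_iff g).2 ⟨1, by rw [pow_one, hg]⟩
    obtain ⟨ι, _, d, b, hd, hb⟩ := exists_chainBasis _ hnil
    let π : Nat.Partition n :=
      { parts := Finset.univ.val.map d
        parts_pos := fun hi => by
          obtain ⟨k, -, rfl⟩ := Multiset.mem_map.1 hi
          exact hd k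
        parts_sum := by
          rw [← Finset.sum_eq_multiset_sum]
          have h := Module.finrank_eq_card_basis b
          rw [Module.finrank_fin_fun, Fintype.card_sigma] at h
          simpa using h.symm }
    have hconj : IsConj (partElt (F := F) π) g := by
      refine isConj_of_ranks_eq (partElt_isNilpotent π) hnil fun j => ?_
      rw [(isChainBasis_partElt π).rank_pow, hb.rank_pow, Finset.sum_eq_multiset_sum,
        Finset.sum_eq_multiset_sum]
      have h := congrArg (fun s : Multiset ℕ => (s.map fun x => x - j).sum) (map_partSize π)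
      simp only [π, Multiset.map_map] at h
      exact h
    obtain ⟨c, hc⟩ := isConj_iff.1 hconj
    refine ⟨⟨π, (hord π).2 ?_⟩, Subtype.ext (ConjClasses.mk_eq_mk_iff_isConj.2 hconj)⟩
    rw [← hg, ← hc, ← MulAut.conj_apply, MulEquiv.orderOf_eq]

end Cfsg.Agent.S2570
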