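import Cfsg.Statements.S2571
import Cfsg.Agent.CyclicNilp.Basic
import Cfsg.Agent.Eq.Def_ClassicalGeometry

set_option autoImplicit false
open Cfsg CfsgLib

namespace Cfsg.Agent.S2571

/-- Centraliser of a regular unipotent element in GL_n(q): if u is an invertible n × n matrix over the field with q elements, n ≥ 1, with (u − 1)^n = 0 and rank(u − 1) = n − 1 (a single unipotent Jordan block), then its centraliser in GL_n(q) has order (q − 1) q^(n−1). -/
theorem result {F : Type*} [Field F] [Fintype F] {q n : ℕ} (hF : Fintype.card F = q) (hn : 1 ≤ n) (u : GL (Fin n) F) (hnil : ((u : Matrix (Fin n) (Fin n) F) - 1) ^ n = 0) (hreg : ((u : Matrix (Fin n) (Fin n) F) - 1).rank = n - 1) : Nat.card ↥(Subgroup.centralizer ({u} : Set (GL (Fin n) F))) = (q - 1) * q ^ (n - 1) := by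
  obtain ⟨k, rfl⟩ : ∃ k, n = k + 1 := ⟨n - 1, by omega⟩
  set U : Matrix (Fin (k + 1)) (Fin (k + 1)) F := (u : Matrix (Fin (k + 1)) (Fin (k + 1)) F) with hU
  set A := U - 1 with hA
  have hrank : A.rank = k := by rw [hreg]; rfl
  obtain ⟨v, hv⟩ := CyclicNilp.exists_cyclic A hnil hrank
  have hcomm : ∀ a, Commute (CyclicNilp.poly A a) U := fun a => by
    rw [show U = A + 1 by rw [hA, sub_add_cancel]]
    exact (CyclicNilp.poly_commute A a).add_right (Commute.one_right _)
  let e : {a : Fin (k + 1) → F // a 0 ≠ 0} ≃ ↥(Subgroup.centralizer ({u} : Set (GL (Fin (k + 1)) F))) :=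
    Equiv.ofBijective
      (fun a => ⟨Matrix.GeneralLinearGroup.mk'' (CyclicNilp.poly A a.1)
          (by rw [CyclicNilp.det_poly A hnil]; exact IsUnit.mk0 _ (pow_ne_zero _ a.2)),
        Subgroup.mem_centralizer_singleton_iff.2 (Units.ext (hcomm a.1))⟩)
      ⟨fun a b hab => by
        have h : CyclicNilp.poly A a.1 = CyclicNilp.poly A b.1 :=
          congrArg (fun g : GL (Fin (k + 1)) F => (g : Matrix (Fin (k + 1)) (Fin (k + 1)) F)) (congrArg Subtype.val hab)
        have h2 := CyclicNilp.exists_poly_of_commute A _ v hv (CyclicNilp.poly_commute A a.1)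
        exact Subtype.ext (h2.unique rfl h),
      fun g => by
        have hg : Commute ((g : GL (Fin (k + 1)) F) : Matrix (Fin (k + 1)) (Fin (k + 1)) F) A := by
          have h := congrArg (fun g : GL (Fin (k + 1)) F => (g : Matrix (Fin (k + 1)) (Fin (k + 1)) F))
            (Subgroup.mem_centralizer_singleton_iff.1 g.2)
          rw [hA]
          refine Commute.sub_right ?_ (Commute.one_right _)
          exact h
        obtain ⟨a, ha, -⟩ := CyclicNilp.exists_poly_of_commute A _ v hv hg
        have hdet : IsUnit ((g : GL (Fin (k + 1)) F) : Matrix (Fin (k + 1)) (Fin (k + 1)) F).det :=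
          (Matrix.isUnit_iff_isUnit_det _).1 (Units.isUnit _)
        rw [ha, CyclicNilp.det_poly A hnil] at hdet
        refine ⟨⟨a, fun h0 => ?_⟩, Subtype.ext (Units.ext ha.symm)⟩
        rw [h0, zero_pow (Nat.succ_ne_zero k)] at hdet
        exact not_isUnit_zero hdet⟩
  let e2 : {a : Fin (k + 1) → F // a 0 ≠ 0} ≃ {x : F // x ≠ 0} × (Fin k → F) :=
    ((Fin.consEquiv fun _ : Fin (k + 1) => F).symm.subtypeEquiv (p := fun a : Fin (k + 1) → F => a 0 ≠ 0)
      (q := fun p : F × (Fin k → F) => p.1 ≠ 0) (fun a => Iff.rfl)).trans (Equiv.prodSubtypeFstEquivSubtypeProd (p := fun x : F => x ≠ 0))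
  rw [← Nat.card_congr e, Nat.card_congr e2, Nat.card_prod, Nat.card_fun, Nat.card_fin, ← Nat.card_congr unitsEquivNeZero,
    Nat.card_units, Nat.card_eq_fintype_card, hF, Nat.add_sub_cancel]

end Cfsg.Agent.S2571
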