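import Cfsg.Statements.S2572
import Cfsg.Agent.Classical.Linear.Transvection

set_option autoImplicit false
open Cfsg CfsgLib

namespace Cfsg.Agent.S2572

open CfsgLib.Classical.Linear

abbrev bl (r : ℕ) : Type := Fin 2 ⊕ Fin r

variable {F : Type*} [Field F] {r : ℕ}

def std (c : F) : Matrix (bl r) (bl r) F := Matrix.single (Sum.inl 0) (Sum.inl 1) c

/-- The general commuting matrix. -/
def comm (p : F × F × (Fin r → F) × (Fin r → F) × Matrix (Fin r) (Fin r) F) : Matrix (bl r) (bl r) F :=
  Matrix.fromBlocks !![p.1, p.2.1; 0, p.1] (Matrix.of fun i k => if i = 0 then p.2.2.1 k else 0)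
    (Matrix.of fun k j => if j = 1 then p.2.2.2.1 k else 0) p.2.2.2.2

theorem comm_injective : Function.Injective (comm (F := F) (r := r)) := by
  rintro ⟨a, b, u, w, S⟩ ⟨a', b', u', w', S'⟩ h
  simp only [comm, Matrix.fromBlocks_inj] at h
  obtain ⟨hP, hQ, hR, hS⟩ := h
  have ha := congrFun (congrFun hP 0) 0
  have hb := congrFun (congrFun hP 0) 1
  simp at ha hb
  have hu : u = u' := funext fun k => by simpa using congrFun (congrFun hQ 0) k
  have hw : w = w' := funext fun k => by simpa using congrFun (congrFun hR k) 1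
  subst hu hw hS ha hb
  rfl

theorem commute_comm (c : F) (p : F × F × (Fin r → F) × (Fin r → F) × Matrix (Fin r) (Fin r) F) :
    Commute (comm p) (std c) := by
  have e : std (r := r) c = Matrix.fromBlocks !![0, c; 0, 0] 0 0 0 := by
    ext (i | i) (j | j) <;> simp [std, Matrix.single_apply]
    fin_cases i <;> fin_cases j <;> simp
  show _ * _ = _ * _
  rw [e, comm, Matrix.fromBlocks_multiply, Matrix.fromBlocks_multiply, Matrix.fromBlocks_inj]
  refine ⟨?_, ?_, ?_, by simp⟩
  · ext i j; fin_cases i <;> fin_cases j <;> simp [Matrix.mul_apply, Fin.sum_univ_two, mul_comm]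
  · ext i j; fin_cases i <;> simp [Matrix.mul_apply, Fin.sum_univ_two, Matrix.vecHead, Matrix.vecTail]
  · ext i j; fin_cases j <;> simp [Matrix.mul_apply, Fin.sum_univ_two]

theorem eq_comm_of_commute {c : F} (hc : c ≠ 0) (G : Matrix (bl r) (bl r) F) (h : Commute G (std c)) :
    ∃ p, G = comm p := by
  have e : ∀ i j : bl r, (G * (std c : Matrix (bl r) (bl r) F)) i j = ((std c : Matrix (bl r) (bl r) F) * G) i j := fun i j => by rw [h.eq]
  have hdiag := e (.inl 0) (.inl 1)
  have hlow := e (.inl 1) (.inl 1)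
  have hcol := fun k : Fin r => e (.inr k) (.inl 1)
  have hrow := fun k : Fin r => e (.inl 0) (.inr k)
  simp [std, Matrix.mul_apply, Matrix.single_apply, hc] at hdiag hlow hcol hrow
  refine ⟨(G (.inl 0) (.inl 0), G (.inl 0) (.inl 1), fun k => G (.inl 0) (.inr k), fun k => G (.inr k) (.inl 1),
    G.toBlocks₂₂), ?_⟩
  have hd : G (.inl 1) (.inl 1) = G (.inl 0) (.inl 0) := mul_left_cancel₀ hc (by rw [← hdiag, mul_comm])
  ext (i | i) (j | j)
  · fin_cases i <;> fin_cases j <;> simp [comm, hd, hlow]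
  · fin_cases i
    · simp [comm]
    · simpa [comm] using hrow j
  · fin_cases j
    · simpa [comm] using hcol i
    · simp [comm]
  · simp [comm, Matrix.toBlocks₂₂]

theorem det_comm (p : F × F × (Fin r → F) × (Fin r → F) × Matrix (Fin r) (Fin r) F) :
    (comm p).det = p.1 ^ 2 * p.2.2.2.2.det := by
  obtain ⟨a, b, u, w, S⟩ := p
  by_cases ha : a = 0
  · subst ha
    rw [Matrix.det_eq_zero_of_column_eq_zero (Sum.inl 0)]
    · simp
    · rintro (i | i)
      · fin_cases i <;> simp [comm]
      · simp [comm]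
  set P : Matrix (Fin 2) (Fin 2) F := !![a, b; 0, a]
  set Q : Matrix (Fin 2) (Fin r) F := Matrix.of fun i k => if i = 0 then u k else 0
  set R : Matrix (Fin r) (Fin 2) F := Matrix.of fun k j => if j = 1 then w k else 0
  show (Matrix.fromBlocks P Q R S).det = _
  let L : Matrix (bl r) (bl r) F := Matrix.fromBlocks 1 0 (a⁻¹ • R) 1
  have hfac : Matrix.fromBlocks P Q R S = L * Matrix.fromBlocks P Q 0 S := by
    simp only [L, Matrix.fromBlocks_multiply, Matrix.fromBlocks_inj]
    refine ⟨by simp, by simp, ?_, ?_⟩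
    · ext k j
      fin_cases j <;> simp [P, R, Matrix.mul_apply, Fin.sum_univ_two, mul_comm a⁻¹, mul_assoc, inv_mul_cancel₀ ha, mul_inv_cancel₀ ha]
    · ext k l
      simp [Q, R, Matrix.mul_apply, Fin.sum_univ_two]
  rw [hfac, Matrix.det_mul, Matrix.det_fromBlocks_zero₁₂, Matrix.det_fromBlocks_zero₂₁]
  simp [P, Matrix.det_fin_two, sq]

theorem card_centralizer_std [Fintype F] {c : F} (hc : c ≠ 0) :
    Nat.card {g : GL (bl r) F // Commute (g : Matrix (bl r) (bl r) F) (std c)} =
      (Fintype.card F - 1) * Fintype.card F ^ (2 * r + 1) * Nat.card (GL (Fin r) F) := by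
  classical
  let f : Fˣ × F × (Fin r → F) × (Fin r → F) × GL (Fin r) F →
      {g : GL (bl r) F // Commute (g : Matrix (bl r) (bl r) F) (std c)} := fun p =>
    ⟨Matrix.GeneralLinearGroup.mk'' (comm ((p.1 : F), p.2.1, p.2.2.1, p.2.2.2.1, (p.2.2.2.2 : Matrix (Fin r) (Fin r) F)))
      (by
        rw [det_comm]
        exact ((p.1.isUnit).pow 2).mul ((Matrix.isUnit_iff_isUnit_det _).1 (Units.isUnit _))),
      commute_comm c _⟩
  have hf : Function.Bijective f := by
    constructor
    · rintro ⟨a, b, u, w, S⟩ ⟨a', b', u', w', S'⟩ h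
      have h2 := comm_injective (congrArg (fun x : GL (bl r) F => (x : Matrix (bl r) (bl r) F)) (congrArg Subtype.val h))
      simp only [Prod.mk.injEq] at h2
      obtain ⟨h3, h4, h5, h6, h7⟩ := h2
      rw [Units.ext h3, h4, h5, h6, Units.ext h7]
    · rintro ⟨g, hg⟩
      obtain ⟨⟨a, b, u, w, S⟩, hp⟩ := eq_comm_of_commute hc _ hg
      have hdet : IsUnit (a ^ 2 * S.det) := by
        rw [← det_comm (a, b, u, w, S), ← hp]
        exact (Matrix.isUnit_iff_isUnit_det _).1 (Units.isUnit _)
      have ha : IsUnit a := (isUnit_pow_iff two_ne_zero).1 (isUnit_of_mul_isUnit_left hdet)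
      have hS : IsUnit S.det := isUnit_of_mul_isUnit_right hdet
      exact ⟨(ha.unit, b, u, w, Matrix.GeneralLinearGroup.mk'' S hS), Subtype.ext (Units.ext hp.symm)⟩
  rw [← Nat.card_congr (Equiv.ofBijective f hf)]
  simp only [Nat.card_prod, Nat.card_units, Nat.card_fun, Nat.card_fin, Nat.card_eq_fintype_card (α := F)]
  ring

/-- Centraliser of a transvection in GL_n(q), n ≥ 2: if t − 1 has rank one and square zero, the centraliser of t in GL_n(q) has order q^(2n−3) (q − 1) |GL_(n−2)(q)| (a group of order q^(2n−3) extended by GL_1(q) × GL_(n−2)(q)). -/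
theorem result {F : Type*} [Field F] [Fintype F] {q n : ℕ} (hF : Fintype.card F = q) (hn : 2 ≤ n) (t : GL (Fin n) F) (ht : Cfsg.IsTransvection (t : Matrix (Fin n) (Fin n) F)) : Nat.card ↥(Subgroup.centralizer ({t} : Set (GL (Fin n) F))) = q ^ (2 * n - 3) * (q - 1) * ∏ i : Fin (n - 2), (q ^ (n - 2) - q ^ (i : ℕ)) := by
  obtain ⟨r, rfl⟩ : ∃ r, n = 2 + r := ⟨n - 2, by omega⟩
  classical
  let e : Fin (2 + r) ≃ bl r := finSumFinEquiv.symm
  let R := Matrix.reindexAlgEquiv F F e
  let Ψ : GL (Fin (2 + r)) F ≃* GL (bl r) F := Units.mapEquiv R.toMulEquiv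
  have hΨ : ∀ g : GL (Fin (2 + r)) F, ((Ψ g : GL (bl r) F) : Matrix (bl r) (bl r) F) = R (g : Matrix _ _ F) := fun g => rfl
  set T : Matrix (bl r) (bl r) F := R (t : Matrix (Fin (2 + r)) (Fin (2 + r)) F) with hT
  have htT : Cfsg.IsTransvection T := by
    obtain ⟨h1, h2⟩ := ht
    have hsub : T - 1 = R ((t : Matrix (Fin (2 + r)) (Fin (2 + r)) F) - 1) := by rw [map_sub, map_one]
    refine ⟨?_, ?_⟩
    · rw [hsub]
      exact (Matrix.rank_reindex e e _).trans h1
    · rw [hsub, ← map_mul, h2, map_zero]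
  have hdet : T.det = 1 := by
    obtain ⟨v, φ, -, -, h, hv⟩ := isTransvection_iff.1 htT
    rw [hv, Matrix.vecMulVec_eq Unit, Matrix.det_one_add_replicateCol_mul_replicateRow, h, add_zero]
  haveI : Nontrivial (bl r) := ⟨⟨Sum.inl 0, Sum.inl 1, by simp⟩⟩
  obtain ⟨c, hc, hconj⟩ := exists_isConj_transvection (ι := bl r) (i := Sum.inl 0) (j := Sum.inl 1) (by simp)
    (t := (⟨T, hdet⟩ : Matrix.SpecialLinearGroup (bl r) F)) htT
  obtain ⟨s, hs⟩ := isConj_iff.1 hconj
  let S : GL (bl r) F := Matrix.SpecialLinearGroup.toGL s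
  have hS : (S : Matrix (bl r) (bl r) F) * T * ((S⁻¹ : GL (bl r) F) : Matrix (bl r) (bl r) F) = 1 + std c := by
    have h := congrArg (fun x : Matrix.SpecialLinearGroup (bl r) F => (x : Matrix (bl r) (bl r) F)) hs
    simp only [Matrix.SpecialLinearGroup.coe_mul] at h
    have hi : ((S⁻¹ : GL (bl r) F) : Matrix (bl r) (bl r) F) =
        ((s⁻¹ : Matrix.SpecialLinearGroup (bl r) F) : Matrix (bl r) (bl r) F) := by
      rw [← map_inv]; rfl
    rw [hi]
    refine Eq.trans ?_ (h.trans ?_)
    · rfl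
    · simp [std, Matrix.SpecialLinearGroup.transvection, Matrix.transvection]
  let Λ : GL (Fin (2 + r)) F ≃* GL (bl r) F := Ψ.trans (MulAut.conj S)
  have hΛt : ((Λ t : GL (bl r) F) : Matrix (bl r) (bl r) F) = 1 + std c := hS
  have hmem : ∀ g, g ∈ Subgroup.centralizer ({t} : Set (GL (Fin (2 + r)) F)) ↔
      Commute ((Λ g : GL (bl r) F) : Matrix (bl r) (bl r) F) (std c) := by
    intro g
    rw [Subgroup.mem_centralizer_singleton_iff]
    constructor
    · intro h
      have h' : Commute ((Λ g : GL (bl r) F) : Matrix (bl r) (bl r) F) (1 + std c) := by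
        rw [← hΛt]
        show _ * _ = _ * _
        rw [← Units.val_mul, ← Units.val_mul, ← map_mul, ← map_mul, h]
      simpa using h'.sub_right (Commute.one_right _)
    · intro h
      apply Λ.injective
      rw [map_mul, map_mul]
      apply Units.ext
      rw [Units.val_mul, Units.val_mul, hΛt]
      exact ((Commute.one_right _).add_right h).eq
  rw [Nat.card_congr (Λ.toEquiv.subtypeEquiv (p := fun g : GL (Fin (2 + r)) F => g ∈ Subgroup.centralizer ({t} : Set (GL (Fin (2 + r)) F)))
    (q := fun x : GL (bl r) F => Commute (x : Matrix (bl r) (bl r) F) (std c)) hmem), card_centralizer_std hc, Matrix.card_GL_field, hF,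
    show 2 * (2 + r) - 3 = 2 * r + 1 by omega, show 2 + r - 2 = r by omega]
  ring

end Cfsg.Agent.S2572
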