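import Cfsg.Statements.S2573
-- import your own Cfsg.Agent.* helpers here

set_option autoImplicit false
open Cfsg

namespace Cfsg.Agent.S2573

/-- The invariant subspaces of a regular unipotent matrix form a chain: over a finite field, if u is an n × n matrix with (u − 1)^n = 0 and rank(u − 1) = n − 1, then every subspace W of F^n with u W ⊆ W is the kernel of (u − 1)^(dim W); so u has at most one invariant subspace of each dimension. -/
theorem result {F : Type*} [Field F] [Finite F] {n : ℕ} (u : Matrix (Fin n) (Fin n) F) (hnil : (u - 1) ^ n = 0) (hreg : (u - 1).rank = n - 1) (W : Submodule F (Fin n → F)) (hW : ∀ v ∈ W, u.mulVec v ∈ W) : W = LinearMap.ker (Matrix.mulVecLin ((u - 1) ^ Module.finrank F W)) := by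
  let N : Module.End F (Fin n → F) := Matrix.mulVecLin (u - 1)
  have hpow : ∀ k : ℕ, Matrix.mulVecLin ((u - 1) ^ k) = N ^ k := fun k => Matrix.toLin'_pow (u - 1) k
  have hk1 : Module.finrank F (LinearMap.ker N) ≤ 1 := by
    have h := LinearMap.finrank_range_add_finrank_ker N
    have h2 : Module.finrank F (LinearMap.range N) = n - 1 := hreg
    rw [Module.finrank_fin_fun, h2] at h
    omega
  have hk : ∀ k, Module.finrank F (LinearMap.ker (N ^ k)) ≤ k := by
    intro k
    induction k with
    | zero => simp [Module.End.one_eq_id]
    | succ k ih =>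
      let K := LinearMap.ker (N ^ (k + 1))
      let f : K →ₗ[F] (Fin n → F) := N.comp K.subtype
      have h := LinearMap.finrank_range_add_finrank_ker f
      have hr : Module.finrank F (LinearMap.range f) ≤ k := by
        refine le_trans (Submodule.finrank_mono ?_) ih
        rintro y ⟨⟨x, hx⟩, rfl⟩
        simp only [K, LinearMap.mem_ker, pow_succ, Module.End.mul_apply] at hx
        exact hx
      have hkf : Module.finrank F (LinearMap.ker f) ≤ 1 := by
        refine le_trans ?_ hk1
        refine LinearMap.finrank_le_finrank_of_injective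
          (f := LinearMap.codRestrict (LinearMap.ker N) (K.subtype.comp (LinearMap.ker f).subtype)
            (fun x => x.2)) ?_
        intro a b hab
        have := congrArg (Subtype.val) hab
        exact Subtype.ext (Subtype.ext this)
      change Module.finrank F K ≤ k + 1
      omega
  have hinv : ∀ x ∈ W, N x ∈ W := by
    intro x hx
    change (u - 1).mulVec x ∈ W
    rw [Matrix.sub_mulVec, Matrix.one_mulVec]
    exact W.sub_mem (hW x hx) hx
  let NW : Module.End F W := N.restrict hinv
  have hres : ∀ (k : ℕ) (x : W), (((NW ^ k) x : W) : Fin n → F) = (N ^ k) x := by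
    intro k
    induction k with
    | zero => intro x; rfl
    | succ k ih =>
      intro x
      rw [pow_succ, pow_succ, Module.End.mul_apply, Module.End.mul_apply, ih]
      rfl
  have hnilN : N ^ n = 0 := by
    rw [← hpow, hnil]
    exact map_zero Matrix.toLin'
  have hNW : IsNilpotent NW := ⟨n, LinearMap.ext fun x => Subtype.ext (by rw [hres, hnilN]; rfl)⟩
  have hzero : NW ^ Module.finrank F W = 0 := by
    have h := LinearMap.aeval_self_charpoly NW
    rw [hNW.charpoly_eq_X_pow_finrank, map_pow, Polynomial.aeval_X] at h
    exact h
  rw [hpow]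
  refine Submodule.eq_of_le_of_finrank_le ?_ (hk _)
  intro x hx
  rw [LinearMap.mem_ker, ← hres _ ⟨x, hx⟩, hzero]
  rfl

end Cfsg.Agent.S2573
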