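import Cfsg.Statements.S2574
import Cfsg.Agent.CyclicNilp.Basic
import Cfsg.Agent.Eq.Def_ClassicalGeometry

set_option autoImplicit false
open Cfsg CfsgLib

namespace Cfsg.Agent.S2574

/-- A regular unipotent element of the symplectic group has totally isotropic small invariant subspaces: over a finite field, if u ∈ Sp_2m(F) satisfies (u − 1)^(2m) = 0 and rank(u − 1) = 2m − 1, and W is a u-invariant subspace with 2 dim W ≤ 2m, then the alternating form vanishes identically on W. -/
theorem result {F : Type*} [Field F] [Finite F] {m : ℕ} (u : Matrix.symplecticGroup (Fin m) F) (hnil : ((u : Matrix (Fin m ⊕ Fin m) (Fin m ⊕ Fin m) F) - 1) ^ (2 * m) = 0) (hreg : ((u : Matrix (Fin m ⊕ Fin m) (Fin m ⊕ Fin m) F) - 1).rank = 2 * m - 1) (W : Submodule F (Fin m ⊕ Fin m → F)) (hW : ∀ v ∈ W, (u : Matrix (Fin m ⊕ Fin m) (Fin m ⊕ Fin m) F).mulVec v ∈ W) (hdim : 2 * Module.finrank F W ≤ 2 * m) : ∀ v ∈ W, ∀ w ∈ W, Cfsg.sympForm m F v w = 0 := by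
  set M : Matrix (Fin m ⊕ Fin m) (Fin m ⊕ Fin m) F := (u : Matrix (Fin m ⊕ Fin m) (Fin m ⊕ Fin m) F) with hM
  set N : Module.End F (Fin m ⊕ Fin m → F) := (M - 1).mulVecLin with hN
  have hA : M.transpose * Matrix.J (Fin m) F * M = Matrix.J (Fin m) F := SymplecticGroup.mem_iff'.1 u.2
  have hinv : ∀ x y, Cfsg.sympForm m F (M.mulVec x) (M.mulVec y) = Cfsg.sympForm m F x y := by
    intro x y
    unfold Cfsg.sympForm
    conv_rhs => rw [← hA]
    rw [← Matrix.mulVec_mulVec, ← Matrix.mulVec_mulVec, Matrix.dotProduct_transpose_mulVec]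
    exact dotProduct_comm _ _
  have hnilN : IsNilpotent N := ⟨2 * m, by
    rw [hN, show ((M - 1).mulVecLin) ^ (2 * m) = ((M - 1) ^ (2 * m)).mulVecLin from (Matrix.toLin'_pow (M - 1) _).symm,
      hnil, Matrix.mulVecLin_zero]⟩
  have h1 : Module.finrank F (LinearMap.ker N) ≤ 1 :=
    CyclicNilp.finrank_ker_le_of_rank (M - 1) (by rw [hreg]; simp [two_mul])
  have hNW : ∀ v ∈ W, N v ∈ W := by
    intro v hv
    show (M - 1).mulVec v ∈ W
    rw [Matrix.sub_mulVec, Matrix.one_mulVec]
    exact W.sub_mem (hW v hv) hv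
  let B : (Fin m ⊕ Fin m → F) →ₗ[F] (W →ₗ[F] F) :=
    LinearMap.mk₂ F (fun w (v : W) => Cfsg.sympForm m F (v : Fin m ⊕ Fin m → F) w)
      (fun a b v => by simp [Cfsg.sympForm, Matrix.mulVec_add, dotProduct_add])
      (fun c a v => by simp [Cfsg.sympForm, Matrix.mulVec_smul, dotProduct_smul])
      (fun a v v' => by simp [Cfsg.sympForm, add_dotProduct])
      (fun c a v => by simp [Cfsg.sympForm, smul_dotProduct])
  let P := LinearMap.ker B
  have hP : ∀ w, w ∈ P ↔ ∀ v ∈ W, Cfsg.sympForm m F v w = 0 := fun w =>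
    ⟨fun h v hv => LinearMap.congr_fun (LinearMap.mem_ker.1 h) ⟨v, hv⟩,
      fun h => LinearMap.mem_ker.2 (LinearMap.ext fun v => h v v.2)⟩
  have hsurj : ∀ v ∈ W, ∃ v' ∈ W, M.mulVec v' = v := by
    intro v hv
    let f : W →ₗ[F] W := M.mulVecLin.restrict hW
    have hinj : Function.Injective f := by
      intro a b hab
      have h := congrArg Subtype.val hab
      change M.mulVec a = M.mulVec b at h
      apply Subtype.ext
      have hu : IsUnit M := by
        rw [Matrix.isUnit_iff_isUnit_det]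
        exact SymplecticGroup.symplectic_det u.2
      exact Matrix.mulVec_injective_iff_isUnit.2 hu h
    obtain ⟨v', hv'⟩ := LinearMap.injective_iff_surjective.1 hinj ⟨v, hv⟩
    exact ⟨v', v'.2, congrArg Subtype.val hv'⟩
  have hPN : ∀ w ∈ P, N w ∈ P := by
    intro w hw
    show (M - 1).mulVec w ∈ P
    rw [Matrix.sub_mulVec, Matrix.one_mulVec]
    refine P.sub_mem ((hP _).2 fun v hv => ?_) hw
    obtain ⟨v', hv', rfl⟩ := hsurj v hv
    rw [hinv]
    exact (hP w).1 hw v' hv'
  have hle : Module.finrank F W ≤ Module.finrank F P := by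
    have h := LinearMap.finrank_range_add_finrank_ker B
    have h2 : Module.finrank F (LinearMap.range B) ≤ Module.finrank F W :=
      (Submodule.finrank_le _).trans (Subspace.dual_finrank_eq (K := F) (V := W)).le
    rw [Module.finrank_fintype_fun_eq_card, Fintype.card_sum, Fintype.card_fin] at h
    change _ + Module.finrank F P = _ at h
    omega
  intro v hv w hw
  refine (hP w).1 ?_ v hv
  rw [CyclicNilp.invariant_eq_ker_pow N hnilN h1 P hPN]
  rw [CyclicNilp.invariant_eq_ker_pow N hnilN h1 W hNW] at hw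
  obtain ⟨d, hd⟩ := Nat.exists_eq_add_of_le hle
  rw [hd, add_comm, LinearMap.mem_ker, pow_add, Module.End.mul_apply, LinearMap.mem_ker.1 hw, map_zero]

end Cfsg.Agent.S2574
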