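import Cfsg.Statements.S2575
-- import your own Cfsg.Agent.* helpers here

set_option autoImplicit false
open Cfsg

namespace Cfsg.Agent.S2575

/-- Which diagonal involutions of PGL_n(q) lie in PSL_n(q), q odd: for the diagonal matrix t with i entries −1 and n − i entries 1, some non-zero scalar multiple of t has determinant one if and only if i is even or the 2-part of q − 1 exceeds the 2-part of n (that is, −1 is an n-th power in the field exactly in the latter case). -/
theorem result {F : Type*} [Field F] [Fintype F] {q : ℕ} (hF : Fintype.card F = q) (hq : Odd q) {n : ℕ} (hn : 1 ≤ n) (i : ℕ) (hi : i ≤ n) : (∃ c : F, c ≠ 0 ∧ (c • Matrix.diagonal (fun j : Fin n => if (j : ℕ) < i then (-1 : F) else 1)).det = 1) ↔ (Even i ∨ padicValNat 2 n < padicValNat 2 (q - 1)) := by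
  classical
  have hdet : ∀ c : F, (c • Matrix.diagonal (fun j : Fin n => if (j : ℕ) < i then (-1 : F) else 1)).det = c ^ n * (-1) ^ i := by
    intro c
    rw [Matrix.det_smul, Fintype.card_fin, Matrix.det_diagonal]
    congr 1
    rw [Finset.prod_ite, Finset.prod_const, Finset.prod_const_one, mul_one]
    congr 1
    rw [Fin.card_filter_val_lt]
    omega
  have h2 : (-1 : F) ≠ 1 := by
    intro h
    have hch : ringChar F ≠ 2 := by
      rw [Ne, FiniteField.even_card_iff_char_two, ← Nat.even_iff, hF]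
      exact Nat.not_even_iff_odd.2 hq
    exact Ring.neg_one_ne_one_of_char_ne_two hch h
  haveI : Fact (Nat.Prime 2) := ⟨Nat.prime_two⟩
  simp only [hdet]
  rcases Nat.even_or_odd i with hev | hod
  · refine iff_of_true ⟨1, one_ne_zero, ?_⟩ (Or.inl hev)
    rw [one_pow, one_mul, hev.neg_one_pow]
  have hnot : ¬ Even i := Nat.not_even_iff_odd.2 hod
  simp only [hnot, false_or, hod.neg_one_pow]
  obtain ⟨b, m, hm, hnm⟩ := Nat.exists_eq_two_pow_mul_odd (show n ≠ 0 by omega)
  have hq1 : q - 1 ≠ 0 := by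
    have := Fintype.one_lt_card (α := F); omega
  obtain ⟨a, o, ho, hqo⟩ := Nat.exists_eq_two_pow_mul_odd hq1
  have hval : ∀ b m : ℕ, Odd m → padicValNat 2 (2 ^ b * m) = b := by
    intro b m hm
    rw [padicValNat.mul (by positivity) hm.pos.ne', padicValNat.prime_pow,
      padicValNat.eq_zero_of_not_dvd (n := m) (by rw [← even_iff_two_dvd]; exact Nat.not_even_iff_odd.2 hm), add_zero]
  rw [hnm, hqo, hval b m hm, hval a o ho]
  constructor
  · rintro ⟨c, hc, hcn⟩
    by_contra hle
    obtain ⟨e, rfl⟩ := Nat.exists_eq_add_of_le (Nat.le_of_not_lt hle)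
    have hcm : c ^ (2 ^ (a + e) * m) = -1 := by
      linear_combination (-1 : F) * hcn
    have h1 : c ^ (q - 1) = 1 := by rw [← hF]; exact FiniteField.pow_card_sub_one_eq_one c hc
    have : (c ^ (2 ^ (a + e) * m)) ^ o = 1 := by
      rw [← pow_mul, show 2 ^ (a + e) * m * o = (q - 1) * (2 ^ e * m) by rw [hqo, pow_add]; ring, pow_mul, h1, one_pow]
    rw [hcm, ho.neg_one_pow] at this
    exact h2 this
  · intro hlt
    have hd : 2 ^ (b + 1) ∣ Nat.card Fˣ := by
      rw [Nat.card_units, Nat.card_eq_fintype_card, hF, hqo]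
      exact Dvd.dvd.mul_right (pow_dvd_pow _ (by omega)) _
    obtain ⟨ζ, hζ⟩ := IsCyclic.exists_ofOrder_eq_natCard (α := Fˣ)
    obtain ⟨d, hd⟩ := hd
    have hd0 : d ≠ 0 := by
      rintro rfl; simp at hd
    refine ⟨((ζ ^ d : Fˣ) : F), Units.ne_zero _, ?_⟩
    have hp : IsPrimitiveRoot ((ζ ^ d : Fˣ) : F) (2 ^ (b + 1)) := by
      have := (IsPrimitiveRoot.orderOf ζ).pow (by rw [hζ]; exact Nat.card_pos) (show orderOf ζ = d * 2 ^ (b + 1) by rw [hζ, hd, mul_comm])
      exact this.map_of_injective (f := Units.coeHom F) Units.val_injective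
    have hh : (((ζ ^ d : Fˣ) : F)) ^ (2 ^ b) = -1 := by
      exact (hp.pow (by positivity) (pow_succ' 2 b |>.trans (mul_comm _ _))).eq_neg_one_of_two_right
    rw [pow_mul, hh, hm.neg_one_pow]; norm_num

end Cfsg.Agent.S2575
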