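import Cfsg.Statements.S2576
-- import your own Cfsg.Agent.* helpers here

set_option autoImplicit false
open Cfsg

namespace Cfsg.Agent.S2576

/-- Which involutions of PGL_2m(q) coming from a scalar of the quadratic extension field lie in PSL_2m(q), q odd: let μ generate the Sylow 2-subgroup of the multiplicative group of the field with q elements (μ has order the 2-part of q − 1) and let t be the block-diagonal matrix with m diagonal blocks [[0, 1], [μ, 0]] (so t² is the scalar μ and t is an involution modulo scalars). Then some non-zero scalar multiple of t has determinant one if and only if q ≡ 3 (mod 4) or the 2-part of q − 1 is less than the 2-part of 2m. -/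
theorem result {F : Type*} [Field F] [Fintype F] {q : ℕ} (hF : Fintype.card F = q) (hq : Odd q) {m : ℕ} (hm : 1 ≤ m) (μ : F) (hμ : orderOf μ = 2 ^ padicValNat 2 (q - 1)) : (∃ c : F, c ≠ 0 ∧ (c • Matrix.blockDiagonal (fun _ : Fin m => !![(0 : F), 1; μ, 0])).det = 1) ↔ (q % 4 = 3 ∨ padicValNat 2 (q - 1) < padicValNat 2 (2 * m)) := by
  classical
  have hdet : ∀ c : F, (c • Matrix.blockDiagonal (fun _ : Fin m => !![(0 : F), 1; μ, 0])).det = (c ^ 2 * -μ) ^ m := by
    intro c
    rw [Matrix.det_smul, Matrix.det_blockDiagonal]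
    simp [Matrix.det_fin_two, Fintype.card_prod]
    ring
  simp only [hdet]
  haveI : Fact (Nat.Prime 2) := ⟨Nat.prime_two⟩
  obtain ⟨b, k, hk, hmk⟩ := Nat.exists_eq_two_pow_mul_odd (show m ≠ 0 by omega)
  have hq1 : q - 1 ≠ 0 := by
    have := Fintype.one_lt_card (α := F); omega
  obtain ⟨a, o, ho, hqo⟩ := Nat.exists_eq_two_pow_mul_odd hq1
  have hval : ∀ b m : ℕ, Odd m → padicValNat 2 (2 ^ b * m) = b := by
    intro b m hm
    rw [padicValNat.mul (by positivity) hm.pos.ne', padicValNat.prime_pow,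
      padicValNat.eq_zero_of_not_dvd (n := m) (by rw [← even_iff_two_dvd]; exact Nat.not_even_iff_odd.2 hm), add_zero]
  have h2m : 2 * m = 2 ^ (b + 1) * k := by rw [hmk, pow_succ]; ring
  rw [hqo, hval a o ho] at hμ ⊢
  rw [h2m, hval (b + 1) k hk]
  have ha : 1 ≤ a := by
    rcases a with _ | a
    · exfalso
      rcases hq with ⟨r, rfl⟩
      rcases ho with ⟨s, rfl⟩
      simp at hqo; omega
    · omega
  obtain ⟨a, rfl⟩ : ∃ a', a = a' + 1 := ⟨a - 1, by omega⟩
  have hhalf : μ ^ (2 ^ a) = -1 := by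
    have hp : IsPrimitiveRoot μ (2 ^ (a + 1)) := hμ ▸ IsPrimitiveRoot.orderOf μ
    exact (hp.pow (by positivity) (pow_succ 2 a)).eq_neg_one_of_two_right
  have hq4 : q % 4 = 3 ↔ a = 0 := by
    rcases a with _ | a
    · simp at hqo
      rcases ho with ⟨s, rfl⟩
      simp only [iff_true]; omega
    · rw [pow_succ, pow_succ] at hqo
      simp only [Nat.succ_ne_zero, iff_false]
      have : q - 1 = 4 * (2 ^ a * o) := by rw [hqo]; ring
      omega
  rw [hq4]
  constructor
  · rintro ⟨c, hc, hc1⟩
    by_contra hcon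
    push Not at hcon
    obtain ⟨ha0, hle⟩ := hcon
    obtain ⟨e, rfl⟩ := Nat.exists_eq_add_of_le (show b ≤ a by omega)
    have h1 : c ^ (q - 1) = 1 := by rw [← hF]; exact FiniteField.pow_card_sub_one_eq_one c hc
    have h3 := congrArg (· ^ (2 ^ e * o)) hc1
    simp only [one_pow] at h3
    rw [← pow_mul, mul_pow, ← pow_mul, show 2 * (m * (2 ^ e * o)) = (q - 1) * k by
      rw [hqo, hmk, pow_succ, pow_add]; ring, pow_mul, h1, one_pow, one_mul] at h3
    have he : Even (m * (2 ^ e * o)) := by
      rw [hmk, show 2 ^ b * k * (2 ^ e * o) = 2 ^ (b + e) * (k * o) by rw [pow_add]; ring]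
      exact (Nat.even_pow.2 ⟨even_two, ha0⟩).mul_right _
    rw [he.neg_pow, hmk, show 2 ^ b * k * (2 ^ e * o) = 2 ^ (b + e) * (k * o) by rw [pow_add]; ring,
      pow_mul, hhalf, (hk.mul ho).neg_one_pow] at h3
    have hch : ringChar F ≠ 2 := by
      rw [Ne, FiniteField.even_card_iff_char_two, ← Nat.even_iff, hF]
      exact Nat.not_even_iff_odd.2 hq
    exact Ring.neg_one_ne_one_of_char_ne_two hch h3
  · intro h
    refine ⟨1, one_ne_zero, ?_⟩
    rw [one_pow, one_mul]
    rcases h with rfl | h
    · simp at hhalf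
      rw [hhalf, neg_neg, one_pow]
    · obtain ⟨e, he⟩ := Nat.exists_eq_add_of_le (show a + 1 ≤ b by omega)
      have hev : Even m := by
        rw [hmk]; exact (Nat.even_pow.2 ⟨even_two, by omega⟩).mul_right _
      rw [hev.neg_pow, hmk, he, pow_add, pow_succ, mul_assoc, mul_assoc, pow_mul, hhalf]
      exact (even_two.mul_right _).neg_one_pow

end Cfsg.Agent.S2576
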