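import Cfsg.Statements.S2578
import Cfsg.Agent.CyclicNilp.Basic
import Cfsg.Agent.Classical.Linear.Card

set_option autoImplicit false
open Cfsg CfsgLib

namespace Cfsg.Agent.S2578

/-- Regular unipotent classes of SL_n(q): for n ≥ 2 over the field with q elements, the matrices u of determinant one with (u − 1)^n = 0 and rank(u − 1) = n − 1 form a single GL_n(q)-class which splits into exactly gcd(n, q − 1) conjugacy classes of SL_n(q). -/
theorem result {F : Type*} [Field F] [Fintype F] {q : ℕ} (hF : Fintype.card F = q) {n : ℕ} (hn : 2 ≤ n) : Nat.card {C : ConjClasses (Matrix.SpecialLinearGroup (Fin n) F) // ∃ u : Matrix.SpecialLinearGroup (Fin n) F, ConjClasses.mk u = C ∧ ((u : Matrix (Fin n) (Fin n) F) - 1) ^ n = 0 ∧ ((u : Matrix (Fin n) (Fin n) F) - 1).rank = n - 1} = Nat.gcd n (q - 1) := by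
  classical
  obtain ⟨k, rfl⟩ : ∃ k, n = k + 1 := ⟨n - 1, by omega⟩
  obtain ⟨A, hA, hrA, hdA⟩ := CyclicNilp.exists_shift (F := F) k
  obtain ⟨v, hv⟩ := CyclicNilp.exists_cyclic A hA hrA
  let u0 : Matrix.SpecialLinearGroup (Fin (k + 1)) F := ⟨1 + A, hdA⟩
  let dm : Fˣ → Matrix (Fin (k + 1)) (Fin (k + 1)) F := fun c => Matrix.diagonal (Function.update 1 0 (c : F))
  have hdm : ∀ c, (dm c).det = c := fun c => by
    simp [dm, Matrix.det_diagonal, Fin.prod_univ_succ, Function.update_self, Fin.succ_ne_zero]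
  let D : Fˣ → GL (Fin (k + 1)) F := fun c =>
    Matrix.GeneralLinearGroup.mk'' (dm c) (by rw [hdm]; exact c.isUnit)
  have hDdet : ∀ c, Matrix.GeneralLinearGroup.det (D c) = c := fun c => Units.ext (hdm c)
  let toG := (Matrix.SpecialLinearGroup.toGL : Matrix.SpecialLinearGroup (Fin (k + 1)) F →* GL (Fin (k + 1)) F)
  have hdetG : ∀ s, Matrix.GeneralLinearGroup.det (toG s) = 1 := fun s => Units.ext s.2
  have hdetconj : ∀ c, Matrix.GeneralLinearGroup.det (D c * toG u0 * (D c)⁻¹) = 1 := fun c => by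
    rw [map_mul, map_mul, map_inv, hdetG, mul_one, mul_inv_cancel]
  let cl : Fˣ → Matrix.SpecialLinearGroup (Fin (k + 1)) F := fun c =>
    ⟨((D c * toG u0 * (D c)⁻¹ : GL (Fin (k + 1)) F) : Matrix (Fin (k + 1)) (Fin (k + 1)) F),
      congrArg Units.val (hdetconj c)⟩
  have hcl : ∀ c, toG (cl c) = D c * toG u0 * (D c)⁻¹ := fun c => Units.ext rfl
  have hclmem : ∀ c, ((cl c : Matrix (Fin (k + 1)) (Fin (k + 1)) F) - 1) ^ (k + 1) = 0 ∧
      ((cl c : Matrix (Fin (k + 1)) (Fin (k + 1)) F) - 1).rank = k := by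
    intro c
    set P := D c
    have h : (cl c : Matrix (Fin (k + 1)) (Fin (k + 1)) F) - 1 =
        (P : Matrix (Fin (k + 1)) (Fin (k + 1)) F) * A * ((P⁻¹ : GL (Fin (k + 1)) F) : Matrix (Fin (k + 1)) (Fin (k + 1)) F) := by
      show ((P : Matrix (Fin (k + 1)) (Fin (k + 1)) F) * (1 + A)) * _ - 1 = _
      rw [mul_add, add_mul, mul_one, Units.mul_inv, add_sub_cancel_left]
    rw [h]
    constructor
    · rw [Units.conj_pow, hA]; simp
    · rw [Matrix.rank_mul_eq_left_of_isUnit_det _ _ ((Matrix.isUnit_iff_isUnit_det _).1 (Units.isUnit _)),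
        Matrix.rank_mul_eq_right_of_isUnit_det _ _ ((Matrix.isUnit_iff_isUnit_det _).1 (Units.isUnit _))]
      exact hrA
  let T := {C : ConjClasses (Matrix.SpecialLinearGroup (Fin (k + 1)) F) // ∃ u : Matrix.SpecialLinearGroup (Fin (k + 1)) F,
    ConjClasses.mk u = C ∧ ((u : Matrix (Fin (k + 1)) (Fin (k + 1)) F) - 1) ^ (k + 1) = 0 ∧
      ((u : Matrix (Fin (k + 1)) (Fin (k + 1)) F) - 1).rank = k + 1 - 1}
  let K := (powMonoidHom (k + 1) : Fˣ →* Fˣ).range
  have key : ∀ c c', ConjClasses.mk (cl c) = ConjClasses.mk (cl c') ↔ c⁻¹ * c' ∈ K := by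
    intro c c'
    rw [ConjClasses.mk_eq_mk_iff_isConj, isConj_iff]
    constructor
    · rintro ⟨s, hs⟩
      have h := congrArg toG hs
      rw [map_mul, map_mul, map_inv, hcl, hcl] at h
      set Z := (D c')⁻¹ * toG s * D c with hZ
      have hZu : Z * toG u0 = toG u0 * Z := by
        have h2 : toG s * D c * toG u0 * (toG s * D c)⁻¹ = D c' * toG u0 * (D c')⁻¹ := by rw [← h]; group
        calc Z * toG u0 = (D c')⁻¹ * (toG s * D c * toG u0 * (toG s * D c)⁻¹) * (toG s * D c) := by rw [hZ]; group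
          _ = toG u0 * Z := by rw [h2, hZ]; group
      have hZA : Commute (Z : Matrix (Fin (k + 1)) (Fin (k + 1)) F) A := by
        have h3 := congrArg Units.val hZu
        change (Z : Matrix (Fin (k + 1)) (Fin (k + 1)) F) * (1 + A) = (1 + A) * (Z : Matrix _ _ F) at h3
        rw [mul_add, add_mul, mul_one, one_mul] at h3
        exact add_left_cancel h3
      obtain ⟨a, ha, -⟩ := CyclicNilp.exists_poly_of_commute A _ v hv hZA
      have hd : Matrix.GeneralLinearGroup.det Z = c'⁻¹ * c := by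
        rw [hZ, map_mul, map_mul, map_inv, hdetG, hDdet, hDdet, mul_one]
      have hd2 : ((c'⁻¹ * c : Fˣ) : F) = a 0 ^ (k + 1) := by
        rw [← hd, ← CyclicNilp.det_poly A hA a, ← ha]; rfl
      have ha0 : a 0 ≠ 0 := fun h0 => (c'⁻¹ * c).ne_zero (by rw [hd2, h0, zero_pow (Nat.succ_ne_zero k)])
      refine ⟨(Units.mk0 (a 0) ha0)⁻¹, ?_⟩
      rw [powMonoidHom_apply, inv_pow, inv_eq_iff_eq_inv, _root_.mul_inv_rev, inv_inv]
      exact Units.ext (by rw [Units.val_pow_eq_pow_val, Units.val_mk0, ← hd2])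
    · rintro ⟨x, hx⟩
      let Xs : GL (Fin (k + 1)) F := Matrix.GeneralLinearGroup.mk'' (Matrix.scalar (Fin (k + 1)) (((x⁻¹ : Fˣ) : F)))
        (by simp [Matrix.scalar_apply, Matrix.det_diagonal])
      have hXc : ∀ g : GL (Fin (k + 1)) F, Xs * g = g * Xs := fun g =>
        Units.ext (Matrix.scalar_commute _ (fun _ => Commute.all _ _) _).eq
      have hXd : Matrix.GeneralLinearGroup.det Xs = (x ^ (k + 1))⁻¹ := Units.ext (by
        show (Matrix.scalar (Fin (k + 1)) (((x⁻¹ : Fˣ) : F))).det = _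
        simp [Matrix.scalar_apply, Matrix.det_diagonal])
      rw [powMonoidHom_apply] at hx
      obtain ⟨s, hs⟩ := (Classical.Linear.mem_range_toGL (g := D c' * Xs * (D c)⁻¹)).2 (by
        rw [map_mul, map_mul, map_inv, hXd, hx, hDdet, hDdet, _root_.mul_inv_rev, inv_inv]
        simp [mul_comm])
      refine ⟨s, Matrix.SpecialLinearGroup.toGL_injective ?_⟩
      change toG _ = toG _
      rw [map_mul, map_mul, map_inv, hcl, hcl, show toG s = D c' * Xs * (D c)⁻¹ from hs]
      calc D c' * Xs * (D c)⁻¹ * (D c * toG u0 * (D c)⁻¹) * (D c' * Xs * (D c)⁻¹)⁻¹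
          = D c' * (Xs * toG u0 * Xs⁻¹) * (D c')⁻¹ := by group
        _ = _ := by rw [hXc, mul_inv_cancel_right]
  let f : Fˣ ⧸ K → T := Quotient.lift
    (fun c => (⟨ConjClasses.mk (cl c), cl c, rfl, (hclmem c).1, by rw [(hclmem c).2]; rfl⟩ : T))
    (fun a b h => Subtype.ext ((key a b).2 (QuotientGroup.leftRel_apply.1 h)))
  have hf : Function.Bijective f := by
    constructor
    · rintro ⟨a⟩ ⟨b⟩ hab
      exact Quotient.sound (QuotientGroup.leftRel_apply.2 ((key a b).1 (congrArg Subtype.val hab)))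
    · rintro ⟨C, u, rfl, hu, hur⟩
      obtain ⟨P, hP⟩ := CyclicNilp.exists_conj A _ hA hu hrA (hur.trans rfl)
      refine ⟨Quotient.mk'' (Matrix.GeneralLinearGroup.det P), Subtype.ext ?_⟩
      set c := Matrix.GeneralLinearGroup.det P
      obtain ⟨s, hs⟩ := (Classical.Linear.mem_range_toGL (g := P * (D c)⁻¹)).2 (by
        rw [map_mul, map_inv, hDdet, mul_inv_cancel])
      refine ConjClasses.mk_eq_mk_iff_isConj.2 (isConj_iff.2 ⟨s, Matrix.SpecialLinearGroup.toGL_injective ?_⟩)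
      change toG _ = toG u
      rw [map_mul, map_mul, map_inv, hcl, show toG s = P * (D c)⁻¹ from hs]
      have h : P * toG u0 = toG u * P := Units.ext (by
        show (P : Matrix (Fin (k + 1)) (Fin (k + 1)) F) * (1 + A) = (u : Matrix _ _ F) * (P : Matrix _ _ F)
        rw [mul_add, mul_one, hP, sub_mul, one_mul, add_sub_cancel])
      calc P * (D c)⁻¹ * (D c * toG u0 * (D c)⁻¹) * (P * (D c)⁻¹)⁻¹ = P * toG u0 * P⁻¹ := by group
        _ = toG u := by rw [h, mul_inv_cancel_right]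
  rw [← Nat.card_congr (Equiv.ofBijective f hf)]
  change K.index = _
  rw [IsCyclic.index_powMonoidHom_range, Nat.card_units, Nat.card_eq_fintype_card, hF, Nat.gcd_comm]

end Cfsg.Agent.S2578
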