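import Cfsg.Statements.S2580


set_option autoImplicit false
open Cfsg

namespace Cfsg.Agent.S2580

/-- Over a finite field, a square matrix is similar to its transpose: for every n × n matrix A there is an invertible matrix P with P A P⁻¹ = Aᵀ (stated as conjugacy in the monoid of matrices, whose units are the invertible matrices). -/
theorem result {F : Type*} [Field F] [Finite F] {n : ℕ} (A : Matrix (Fin n) (Fin n) F) : IsConj A A.transpose := by
  classical
  let f : Module.End F (Fin n → F) := Matrix.toLin' A
  have htors : Module.IsTorsion (Polynomial F) (Module.AEval' f) := Module.AEval.isTorsion_of_finiteDimensional F (Fin n → F) f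
  obtain ⟨ι, hι, p, hp, e, ⟨E⟩⟩ := Module.equiv_directSum_of_isTorsion htors
  have key : ∀ q : Polynomial F, q ≠ 0 → ∃ b : LinearMap.BilinForm F (Polynomial F ⧸ (Polynomial F) ∙ q),
      (∀ y z : Polynomial F ⧸ (Polynomial F) ∙ q, b ((Polynomial.X : Polynomial F) • y) z = b y ((Polynomial.X : Polynomial F) • z)) ∧ ∀ y, (∀ z, b y z = 0) → y = 0 := by
    intro q hq
    have hm := Polynomial.monic_mul_leadingCoeff_inv hq
    set d := q * Polynomial.C q.leadingCoeff⁻¹ with hd
    have hspan : (Polynomial F) ∙ q = Ideal.span {d} :=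
      (Ideal.span_singleton_eq_span_singleton).2 (associated_mul_unit_right q _
        (Polynomial.isUnit_C.2 (IsUnit.mk0 _ (inv_ne_zero (Polynomial.leadingCoeff_ne_zero.2 hq)))))
    let lam0 : Polynomial F →ₗ[F] F := (Polynomial.lcoeff F (d.natDegree - 1)).comp (Polynomial.modByMonicHom d)
    let J : Submodule (Polynomial F) (Polynomial F) := (Polynomial F) ∙ q
    have hlam : J.restrictScalars F ≤ LinearMap.ker lam0 := by
      intro y hy
      have hy' : y ∈ Ideal.span {d} := hspan ▸ hy
      rw [LinearMap.mem_ker]
      show (y %ₘ d).coeff _ = 0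
      rw [(Polynomial.modByMonic_eq_zero_iff_dvd hm).2 (Ideal.mem_span_singleton.1 hy'), Polynomial.coeff_zero]
    let lam : (Polynomial F ⧸ J) →ₗ[F] F :=
      ((J.restrictScalars F).liftQ lam0 hlam).comp (Submodule.Quotient.restrictScalarsEquiv F J).symm.toLinearMap
    have hlam' : ∀ y : Polynomial F, lam (Submodule.Quotient.mk y) = (y %ₘ d).coeff (d.natDegree - 1) := fun y => rfl
    let b : LinearMap.BilinForm F (Polynomial F ⧸ J) :=
      LinearMap.mk₂ F (fun y z => lam (y * z)) (fun y y' z => by simp [add_mul]) (fun c y z => by simp [smul_mul_assoc])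
        (fun y z z' => by simp [mul_add]) (fun c y z => by simp [mul_smul_comm])
    refine ⟨b, fun y z => ?_, fun y hy => ?_⟩
    · show lam (Polynomial.X • y * z) = lam (y * Polynomial.X • z)
      rw [smul_mul_assoc, mul_smul_comm]
    · obtain ⟨y, rfl⟩ := Submodule.Quotient.mk_surjective J y
      have hmem : y %ₘ d - y ∈ J := by
        show _ ∈ (Polynomial F) ∙ q
        rw [hspan]
        refine Ideal.mem_span_singleton.2 ⟨-(y /ₘ d), ?_⟩
        have := Polynomial.modByMonic_add_div y d
        linear_combination this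
      rw [← (Submodule.Quotient.eq J).2 hmem] at hy ⊢
      set r := y %ₘ d with hr
      by_contra hne
      have hr0 : r ≠ 0 := fun h => hne (by rw [h]; rfl)
      have hdeg : r.natDegree < d.natDegree :=
        Polynomial.natDegree_modByMonic_lt y hm (fun h1 => hr0 (by rw [hr, h1, Polynomial.modByMonic_one]))
      have h := hy (Submodule.Quotient.mk (Polynomial.X ^ (d.natDegree - 1 - r.natDegree)))
      change lam (Submodule.Quotient.mk (r * Polynomial.X ^ (d.natDegree - 1 - r.natDegree))) = 0 at h
      rw [hlam', (Polynomial.modByMonic_eq_self_iff hm).2] at h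
      · rw [Polynomial.coeff_mul_X_pow', if_pos (by omega), show d.natDegree - 1 - (d.natDegree - 1 - r.natDegree) = r.natDegree by omega] at h
        exact hr0 (Polynomial.leadingCoeff_eq_zero.1 h)
      · refine lt_of_le_of_lt Polynomial.degree_le_natDegree ?_
        rw [Polynomial.degree_eq_natDegree hm.ne_zero, Nat.cast_lt, Polynomial.natDegree_mul_X_pow _ hr0]
        omega
  choose b hb1 hb2 using fun i : ι => key (p i ^ e i) (pow_ne_zero _ (hp i).ne_zero)
  let toM : (Fin n → F) ≃ₗ[F] Module.AEval' f := Module.AEval'.of f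
  let E' := (toM.trans (E.restrictScalars F))
  let β : LinearMap.BilinForm F (Fin n → F) :=
    LinearMap.mk₂ F (fun v w => ∑ i, b i (E' v i) (E' w i))
      (fun v v' w => by simp [Finset.sum_add_distrib])
      (fun c v w => by simp [DirectSum.smul_apply, Finset.mul_sum])
      (fun v w w' => by simp [Finset.sum_add_distrib])
      (fun c v w => by simp [DirectSum.smul_apply, Finset.mul_sum])
  have hX : ∀ (v : Fin n → F) (i : ι), E' (f v) i = (Polynomial.X : Polynomial F) • E' v i := by
    intro v i
    show E (Module.AEval'.of f (f v)) i = (Polynomial.X : Polynomial F) • E (Module.AEval'.of f v) i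
    rw [← Module.AEval'.X_smul_of, map_smul]
    rfl
  have hsym : ∀ v w, β (f v) w = β v (f w) := by
    intro v w
    simp only [β, LinearMap.mk₂_apply]
    exact Finset.sum_congr rfl fun i _ => by rw [hX, hX, hb1]
  have hnd : ∀ v, (∀ w, β v w = 0) → v = 0 := by
    intro v hv
    apply E'.injective
    rw [map_zero]
    refine DFinsupp.ext fun i => hb2 i _ fun z => ?_
    have h := hv (E'.symm (DirectSum.lof F ι _ i z))
    simp only [β, LinearMap.mk₂_apply, LinearEquiv.apply_symm_apply] at h
    rw [Finset.sum_eq_single i] at h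
    · rw [DirectSum.lof_eq_of, DirectSum.of_eq_same] at h
      exact h
    · intro j _ hj
      rw [DirectSum.lof_eq_of, DirectSum.of_eq_of_ne _ _ _ hj, map_zero]
    · simp
  let S : Matrix (Fin n) (Fin n) F := LinearMap.BilinForm.toMatrix' β
  have hS : IsUnit S := by
    rw [Matrix.isUnit_iff_isUnit_det, isUnit_iff_ne_zero]
    intro h0
    obtain ⟨v, hv0, hv⟩ := Matrix.exists_vecMul_eq_zero_iff.2 h0
    refine hv0 (hnd v fun w => ?_)
    rw [← Matrix.toBilin'_toMatrix' β, Matrix.toBilin'_apply', Matrix.dotProduct_mulVec, hv, zero_dotProduct]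
  have hA : A.transpose * S = S * A := by
    apply Matrix.toBilin'.injective
    refine LinearMap.ext fun v => LinearMap.ext fun w => ?_
    rw [Matrix.toBilin'_apply', Matrix.toBilin'_apply']
    have h := hsym v w
    rw [← Matrix.toBilin'_toMatrix' β, Matrix.toBilin'_apply', Matrix.toBilin'_apply'] at h
    simp only [f, Matrix.toLin'_apply] at h
    rw [← Matrix.mulVec_mulVec, ← Matrix.mulVec_mulVec, Matrix.dotProduct_mulVec, Matrix.vecMul_transpose]
    exact h
  exact ⟨hS.unit, hA.symm⟩

end Cfsg.Agent.S2580
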