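import Cfsg.Statements.S2582
import Cfsg.Agent.Jordan.IsometryTypes

set_option autoImplicit false
open Cfsg

namespace Cfsg.Agent.S2582

/-- Which unipotent Jordan types occur in the finite symplectic group: over a finite field, a unipotent matrix with Jordan block sizes d_1, …, d_t (sum 2m, all at least 1) is similar to an element of Sp_2m(F) if and only if every odd block size occurs an even number of times. -/
theorem result {F : Type*} [Field F] [Fintype F] {m t : ℕ} (d : Fin t → ℕ) (hd : ∀ k, 1 ≤ d k) (hsum : ∑ k, d k = 2 * m) : (∃ e : ((k : Fin t) × Fin (d k)) ≃ (Fin m ⊕ Fin m), ∃ A : Matrix.symplecticGroup (Fin m) F, IsConj (Matrix.reindex e e (Cfsg.jordanTypeMatrix d F)) (A : Matrix (Fin m ⊕ Fin m) (Fin m ⊕ Fin m) F)) ↔ ∀ j : ℕ, Odd j → Even (Finset.univ.filter (fun k : Fin t => d k = j)).card := by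
  open CfsgLib.Jordan in
  constructor
  · rintro ⟨e, A, hA⟩ j ⟨r, rfl⟩
    exact IsometryTypes.even_count_of_isConj e
      (M' := ((A⁻¹ : Matrix.symplecticGroup (Fin m) F) : Matrix (Fin m ⊕ Fin m) (Fin m ⊕ Fin m) F))
      (congrArg Subtype.val (mul_inv_cancel A)) hA (IsometryTypes.sympBil m F)
      (IsometryTypes.sympBil_nondeg m) (LinearMap.IsAlt.isRefl (IsometryTypes.sympBil_alt m))
      (CfsgLib.Classical.Symp.form_mulVec A) (2 * r)
      (fun g g' hg x hx => hg.zero_odd (IsometryTypes.sympBil_alt m) r hx)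
  · intro h
    refine IsometryTypes.exists_symplectic hsum (Pieces.spType_of_even _ ?_ ?_)
    · intro j hj
      obtain ⟨k, -, rfl⟩ := Multiset.mem_map.1 hj
      exact hd k
    · intro j hj
      rw [IsometryTypes.count_map_eq]
      exact h j hj

end Cfsg.Agent.S2582
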