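import Cfsg.Statements.S2583
import Cfsg.Agent.Jordan.IsometryTypes
import Cfsg.Agent.Eq.Def_Classical

set_option autoImplicit false
open Cfsg

namespace Cfsg.Agent.S2583

/-- Which unipotent Jordan types occur in a finite orthogonal group in odd characteristic: over a finite field of odd order, a unipotent matrix with Jordan block sizes d_1, …, d_t (sum n, all at least 1) is similar to an isometry of some quadratic form on F^n with non-degenerate polar form if and only if every even block size occurs an even number of times. -/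
theorem result {F : Type*} [Field F] [Fintype F] (h2 : (2 : F) ≠ 0) {n t : ℕ} (d : Fin t → ℕ) (hd : ∀ k, 1 ≤ d k) (hsum : ∑ k, d k = n) : (∃ Q : QuadraticForm F (Fin n → F), (QuadraticMap.polarBilin Q).Nondegenerate ∧ ∃ e : ((k : Fin t) × Fin (d k)) ≃ Fin n, ∃ A : ↥(Cfsg.isometryGroup F ⇑Q), IsConj (Matrix.reindex e e (Cfsg.jordanTypeMatrix d F)) ((A : Matrix.GeneralLinearGroup (Fin n) F) : Matrix (Fin n) (Fin n) F)) ↔ ∀ j : ℕ, Even j → 0 < j → Even (Finset.univ.filter (fun k : Fin t => d k = j)).card := by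
  open CfsgLib.Jordan in
  constructor
  · rintro ⟨Q, hQ, e, A, hA⟩ j ⟨r, rfl⟩ hj
    obtain ⟨r, rfl⟩ : ∃ r', r = r' + 1 := ⟨r - 1, by omega⟩
    have hiso : ∀ x, Q (Matrix.mulVec ((A : Matrix.GeneralLinearGroup (Fin n) F) : Matrix (Fin n) (Fin n) F) x) = Q x :=
      fun x => A.2 x x
    have := IsometryTypes.even_count_of_isConj e
      (M' := (((A : Matrix.GeneralLinearGroup (Fin n) F)⁻¹ : Matrix.GeneralLinearGroup (Fin n) F) :
        Matrix (Fin n) (Fin n) F))
      (Units.mul_inv _) hA (QuadraticMap.polarBilin Q) hQ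
      (LinearMap.IsSymm.isRefl ⟨fun p q => QuadraticMap.polar_comm _ p q⟩)
      (fun x y => by
        simp only [QuadraticMap.polarBilin_apply_apply, QuadraticMap.polar, ← Matrix.mulVec_add, hiso])
      (2 * r + 1)
      (fun g g' hg x hx => hg.zero_even (fun p q => QuadraticMap.polar_comm _ p q) h2 r hx)
    rwa [show r + 1 + (r + 1) = 2 * r + 1 + 1 by omega]
  · intro h
    obtain ⟨Q, hQ, e, M, hM, hc⟩ := IsometryTypes.exists_orthogonal hsum
      (Pieces.orType_of_even h2 (Finset.univ.val.map d) (fun j hj => by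
        obtain ⟨k, -, rfl⟩ := Multiset.mem_map.1 hj
        exact hd k) (fun j hj hj0 => by
        rw [IsometryTypes.count_map_eq]
        exact h j hj hj0))
    exact ⟨Q, hQ, e, ⟨M, fun u _ => hM u⟩, hc⟩

end Cfsg.Agent.S2583
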