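import Cfsg.Statements.S2585
import Cfsg.Agent.Eq.Def_ClassicalGeometry

set_option autoImplicit false
open Cfsg

namespace Cfsg.Agent.S2585

/-- Over a finite field of characteristic two every element of the symplectic group is orthogonal for a suitable quadratic form: for each A in Sp_2m(F) there is a quadratic form Q on F^(2m) whose polar form is the alternating form defining Sp_2m(F) (so Q is non-degenerate) and which A preserves. Equivalently, for m ≥ 1, Sp_2m(F) is the union of the conjugates of its two orthogonal subgroups O⁺_2m(F) and O⁻_2m(F). -/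
theorem result {F : Type*} [Field F] [Fintype F] [CharP F 2] {m : ℕ} (A : Matrix.symplecticGroup (Fin m) F) : ∃ Q : QuadraticForm F (Fin m ⊕ Fin m → F), (∀ u v : Fin m ⊕ Fin m → F, QuadraticMap.polar ⇑Q u v = Cfsg.sympForm m F u v) ∧ ∀ v : Fin m ⊕ Fin m → F, Q ((A : Matrix (Fin m ⊕ Fin m) (Fin m ⊕ Fin m) F).mulVec v) = Q v := by
  classical
  let Q0 : QuadraticForm F (Fin m ⊕ Fin m → F) :=
    ∑ i : Fin m, QuadraticMap.linMulLin (LinearMap.proj (R := F) (Sum.inl i)) (LinearMap.proj (R := F) (Sum.inr i))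
  have hQ0 : ∀ v, Q0 v = ∑ i : Fin m, v (Sum.inl i) * v (Sum.inr i) := fun v => by
    simp [Q0]
  have hS : ∀ u v : Fin m ⊕ Fin m → F, Cfsg.sympForm m F u v
      = ∑ i : Fin m, (u (Sum.inr i) * v (Sum.inl i) - u (Sum.inl i) * v (Sum.inr i)) := by
    intro u v
    simp [Cfsg.sympForm, Matrix.J, dotProduct, Fintype.sum_sum_type, Matrix.mulVec, Matrix.one_apply,
      ← Finset.sum_add_distrib]
    exact neg_add_eq_sub _ _
  have hpol : ∀ u v, Q0 (u + v) = Q0 u + Q0 v + Cfsg.sympForm m F u v := by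
    intro u v
    rw [hS, hQ0, hQ0, hQ0]
    simp only [Pi.add_apply, ← Finset.sum_add_distrib]
    refine Finset.sum_congr rfl fun i _ => ?_
    rw [CharTwo.sub_eq_add]; ring
  set M : Matrix (Fin m ⊕ Fin m) (Fin m ⊕ Fin m) F := (A : Matrix (Fin m ⊕ Fin m) (Fin m ⊕ Fin m) F) with hM
  have hA : M.transpose * Matrix.J (Fin m) F * M = Matrix.J (Fin m) F :=
    SymplecticGroup.mem_iff'.1 A.2
  have hinv : ∀ u v, Cfsg.sympForm m F (M.mulVec u) (M.mulVec v) = Cfsg.sympForm m F u v := by
    intro u v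
    unfold Cfsg.sympForm
    conv_rhs => rw [← hA]
    rw [← Matrix.mulVec_mulVec, ← Matrix.mulVec_mulVec, Matrix.dotProduct_transpose_mulVec]
    exact dotProduct_comm _ _
  haveI : ExpChar F 2 := ExpChar.prime Nat.prime_two
  haveI : PerfectRing F 2 := PerfectField.toPerfectRing 2
  let sq := (frobeniusEquiv F 2).symm
  have hsq : ∀ x, sq x ^ 2 = x := fun x => frobeniusEquiv_symm_pow_p F 2 x
  have hsqe : ∀ x, sq (x ^ 2) = x := fun x => by
    apply (frobeniusEquiv F 2).injective
    simp [sq, frobeniusEquiv_apply, frobenius_def]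
  let δ : (Fin m ⊕ Fin m → F) → F := fun v => Q0 v + Q0 (M.mulVec v)
  have hadd : ∀ u v, δ (u + v) = δ u + δ v := by
    intro u v
    simp only [δ, Matrix.mulVec_add, hpol, hinv]
    linear_combination (CharTwo.add_self_eq_zero (Cfsg.sympForm m F u v))
  have hsmul : ∀ (c : F) v, δ (c • v) = c ^ 2 * δ v := by
    intro c v
    simp only [δ, Matrix.mulVec_smul, QuadraticMap.map_smul, smul_eq_mul]; ring
  let d : (Fin m ⊕ Fin m → F) →ₗ[F] F :=
    { toFun := fun v => sq (δ v)
      map_add' := fun u v => by simp [hadd, sq, map_add]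
      map_smul' := fun c v => by simp [hsmul, hsqe, sq, map_mul] }
  let T : (Fin m ⊕ Fin m → F) →ₗ[F] (Fin m ⊕ Fin m → F) := Matrix.mulVecLin M - LinearMap.id
  have hd : d ∈ (LinearMap.ker T).dualAnnihilator := by
    rw [Submodule.mem_dualAnnihilator]
    intro v hv
    have hv' : M.mulVec v = v := sub_eq_zero.1 hv
    change sq (δ v) = 0
    simp only [δ, hv', CharTwo.add_self_eq_zero, map_zero]
  rw [← LinearMap.range_dualMap_eq_dualAnnihilator_ker] at hd
  obtain ⟨l, hl⟩ := hd
  refine ⟨Q0 + QuadraticMap.linMulLin l l, fun u v => ?_, fun v => ?_⟩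
  · simp only [QuadraticMap.polar, QuadraticMap.add_apply, QuadraticMap.linMulLin_apply, hpol, map_add]
    linear_combination (l u * l v) * (CharTwo.two_eq_zero (R := F))
  · have h1 : l (M.mulVec v) - l v = sq (δ v) := by
      rw [← map_sub]; exact LinearMap.congr_fun hl v
    have h2 := hsq (δ v)
    rw [← h1] at h2
    simp only [QuadraticMap.add_apply, QuadraticMap.linMulLin_apply]
    simp only [δ] at h2
    linear_combination h2 + (Q0 (M.mulVec v) + l v * l (M.mulVec v) - l v * l v) * (CharTwo.two_eq_zero (R := F))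

end Cfsg.Agent.S2585
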