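import Cfsg.Statements.S2584
import Cfsg.Agent.Jordan.IsometryTypes
import Cfsg.Agent.S2582
import Cfsg.Agent.S2585
import Cfsg.Agent.Eq.Def_Classical

set_option autoImplicit false
open Cfsg

namespace Cfsg.Agent.S2584

/-- Which unipotent Jordan types occur in a finite orthogonal group in characteristic two: over a finite field of characteristic 2 and in even dimension 2m, a unipotent matrix with Jordan block sizes d_1, …, d_t (sum 2m, all at least 1) is similar to an isometry of some quadratic form on F^(2m) with non-degenerate polar form if and only if every odd block size occurs an even number of times (the same condition as for the symplectic group, which contains these orthogonal groups). -/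
theorem result {F : Type*} [Field F] [Fintype F] [CharP F 2] {m t : ℕ} (d : Fin t → ℕ) (hd : ∀ k, 1 ≤ d k) (hsum : ∑ k, d k = 2 * m) : (∃ Q : QuadraticForm F (Fin (2 * m) → F), (QuadraticMap.polarBilin Q).Nondegenerate ∧ ∃ e : ((k : Fin t) × Fin (d k)) ≃ Fin (2 * m), ∃ A : ↥(Cfsg.isometryGroup F ⇑Q), IsConj (Matrix.reindex e e (Cfsg.jordanTypeMatrix d F)) ((A : Matrix.GeneralLinearGroup (Fin (2 * m)) F) : Matrix (Fin (2 * m)) (Fin (2 * m)) F)) ↔ ∀ j : ℕ, Odd j → Even (Finset.univ.filter (fun k : Fin t => d k = j)).card := by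
  open CfsgLib.Jordan in
  constructor
  · rintro ⟨Q, hQ, e, A, hA⟩ j ⟨r, rfl⟩
    have hiso : ∀ x, Q (Matrix.mulVec ((A : Matrix.GeneralLinearGroup (Fin (2 * m)) F) :
        Matrix (Fin (2 * m)) (Fin (2 * m)) F) x) = Q x :=
      fun x => A.2 x x
    have halt : LinearMap.BilinForm.IsAlt (QuadraticMap.polarBilin Q) := fun x => by
      rw [QuadraticMap.polarBilin_apply_apply, QuadraticMap.polar_self]
      rw [two_nsmul, CharTwo.add_self_eq_zero]
    exact IsometryTypes.even_count_of_isConj e
      (M' := (((A : Matrix.GeneralLinearGroup (Fin (2 * m)) F)⁻¹ : Matrix.GeneralLinearGroup (Fin (2 * m)) F) :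
        Matrix (Fin (2 * m)) (Fin (2 * m)) F))
      (Units.mul_inv _) hA (QuadraticMap.polarBilin Q) hQ
      (LinearMap.IsSymm.isRefl ⟨fun p q => QuadraticMap.polar_comm _ p q⟩)
      (fun x y => by
        simp only [QuadraticMap.polarBilin_apply_apply, QuadraticMap.polar, ← Matrix.mulVec_add, hiso])
      (2 * r)
      (fun g g' hg x hx => hg.zero_odd halt r hx)
  · intro h
    obtain ⟨e, A, hA⟩ := (Cfsg.Agent.S2582.result (F := F) d hd hsum).2 h
    obtain ⟨Q, hpol, hinv⟩ := Cfsg.Agent.S2585.result A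
    have hm : m + m = 2 * m := (two_mul m).symm
    let σ : Fin m ⊕ Fin m ≃ Fin (2 * m) := finSumFinEquiv.trans (finCongr hm)
    let L : (Fin (2 * m) → F) ≃ₗ[F] (Fin m ⊕ Fin m → F) := LinearEquiv.funCongrLeft F F σ
    let φ := (Matrix.reindexAlgEquiv F F σ).toRingEquiv.toMulEquiv
    let M : Matrix.GeneralLinearGroup (Fin (2 * m)) F :=
      Units.map φ.toMonoidHom ⟨(A : Matrix (Fin m ⊕ Fin m) (Fin m ⊕ Fin m) F),
        ((A⁻¹ : Matrix.symplecticGroup (Fin m) F) : Matrix (Fin m ⊕ Fin m) (Fin m ⊕ Fin m) F),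
        congrArg Subtype.val (mul_inv_cancel A), congrArg Subtype.val (inv_mul_cancel A)⟩
    have hM : ∀ x, L (Matrix.mulVec (M : Matrix (Fin (2 * m)) (Fin (2 * m)) F) x) =
        Matrix.mulVec (A : Matrix (Fin m ⊕ Fin m) (Fin m ⊕ Fin m) F) (L x) := by
      intro x
      show (Matrix.mulVec (Matrix.reindex σ σ (A : Matrix (Fin m ⊕ Fin m) (Fin m ⊕ Fin m) F)) x) ∘ σ = _
      rw [Matrix.reindex_apply, Matrix.submatrix_mulVec_equiv]
      funext i
      simp
      rfl
    refine ⟨Q.comp L.toLinearMap, ?_, e.trans σ, ⟨M, fun u _ => ?_⟩, ?_⟩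
    · have hsep : ∀ x : Fin (2 * m) → F, (∀ y, QuadraticMap.polar (Q.comp L.toLinearMap) x y = 0) → x = 0 := by
        intro x hx
        apply L.injective
        rw [map_zero]
        refine CfsgLib.Classical.Symp.eq_zero_of_form_eq_zero fun v => ?_
        obtain ⟨y, rfl⟩ := L.surjective v
        rw [← hpol]
        simpa [QuadraticMap.polar] using hx y
      exact (LinearMap.IsSymm.isRefl ⟨fun p q => QuadraticMap.polar_comm _ p q⟩).nondegenerate_iff_separatingLeft.2
        fun x hx => hsep x fun y => by simpa using hx y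
    · show (Q.comp L.toLinearMap) _ = (Q.comp L.toLinearMap) u
      simp only [QuadraticMap.comp_apply, LinearEquiv.coe_coe]
      rw [← hinv (L u), ← hM]
      rfl
    · obtain ⟨c, hc⟩ := hA
      exact ⟨Units.map φ.toMonoidHom c, (SemiconjBy.map hc φ.toMonoidHom)⟩

end Cfsg.Agent.S2584
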