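import Cfsg.Statements.S2586
import Cfsg.Agent.S2580

set_option autoImplicit false
open Cfsg

namespace Cfsg.Agent.S2586

/-- Over a finite field, every element of the symplectic group Sp_2m(F) is conjugate by an invertible matrix to its inverse. -/
theorem result {F : Type*} [Field F] [Finite F] {m : ℕ} (A : Matrix.symplecticGroup (Fin m) F) : IsConj (A : Matrix (Fin m ⊕ Fin m) (Fin m ⊕ Fin m) F) ((A⁻¹ : Matrix.symplecticGroup (Fin m) F) : Matrix (Fin m ⊕ Fin m) (Fin m ⊕ Fin m) F) := by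
  classical
  let e := Fintype.equivFin (Fin m ⊕ Fin m)
  let R := Matrix.reindexAlgEquiv F F e
  have hT : IsConj (A : Matrix (Fin m ⊕ Fin m) (Fin m ⊕ Fin m) F) (A : Matrix (Fin m ⊕ Fin m) (Fin m ⊕ Fin m) F).transpose := by
    have h := Cfsg.Agent.S2580.result (R (A : Matrix (Fin m ⊕ Fin m) (Fin m ⊕ Fin m) F))
    have h2 := (R.symm.toRingHom.toMonoidHom).map_isConj h
    have e1 : (R (A : Matrix (Fin m ⊕ Fin m) (Fin m ⊕ Fin m) F)).transpose = R (A : Matrix (Fin m ⊕ Fin m) (Fin m ⊕ Fin m) F).transpose := rfl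
    rw [e1] at h2
    simpa using h2
  refine hT.trans ⟨⟨-Matrix.J (Fin m) F, Matrix.J (Fin m) F, ?_, ?_⟩, ?_⟩
  · rw [neg_mul, Matrix.J_squared, neg_neg]
  · rw [mul_neg, Matrix.J_squared, neg_neg]
  · show -Matrix.J (Fin m) F * _ = _ * -Matrix.J (Fin m) F
    rw [SymplecticGroup.coe_inv]
    calc -Matrix.J (Fin m) F * (A : Matrix (Fin m ⊕ Fin m) (Fin m ⊕ Fin m) F).transpose
        = -Matrix.J (Fin m) F * (A : Matrix (Fin m ⊕ Fin m) (Fin m ⊕ Fin m) F).transpose * (Matrix.J (Fin m) F * -Matrix.J (Fin m) F) := by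
          rw [mul_neg, Matrix.J_squared, neg_neg, mul_one]
      _ = _ := by simp only [mul_assoc]

end Cfsg.Agent.S2586
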