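import Cfsg.Statements.S2588
import Cfsg.Agent.Classical.Unitary.LangFinite

set_option autoImplicit false
open Cfsg

namespace Cfsg.Agent.S2588
open CfsgLib.Unitary

/-- An invertible matrix A over the field with q² elements is conjugate in GL_n(q²) to an element of the general unitary group GU_n(q) (isometries of the Hermitian form Σ u_i v_i^q) if and only if A is similar to the inverse transpose of its entrywise q-th power (A ~ A^(−qT), the image of A under the map sending a matrix to the inverse transpose of its entrywise q-th power — inverse transpose composed with the field automorphism — whose fixed points form GU_n(q)). -/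
theorem result {K : Type*} [Field K] [Fintype K] {q n : ℕ} (hK : Fintype.card K = q ^ 2) (A : GL (Fin n) K) : (∃ B : ↥(Cfsg.GU n K q), IsConj A (B : GL (Fin n) K)) ↔ IsConj (A : Matrix (Fin n) (Fin n) K) (((A : Matrix (Fin n) (Fin n) K).map (fun x : K => x ^ q)).transpose)⁻¹ := by
  classical
  set a : Matrix (Fin n) (Fin n) K := (A : Matrix (Fin n) (Fin n) K) with ha
  show (∃ B : ↥(Cfsg.GU n K q), IsConj A (B : GL (Fin n) K)) ↔ IsConj a (cjT q a)⁻¹
  constructor
  · rintro ⟨B, hB⟩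
    set b : Matrix (Fin n) (Fin n) K := ((B : GL (Fin n) K) : Matrix (Fin n) (Fin n) K) with hb
    have h1 : IsConj a b := (Units.coeHom _).map_isConj hB
    refine h1.trans ?_
    have h2 : b = (cjT q b)⁻¹ := (Matrix.inv_eq_right_inv ((mem_GU_iff_cjT hK).1 B.2)).symm
    obtain ⟨c, hc⟩ := h1
    rw [h2]
    have hcu : IsUnit (cjT q (c : Matrix (Fin n) (Fin n) K)) := isUnit_cjT hK c.isUnit
    refine IsConj.symm ⟨(Matrix.nonsingInvUnit _ ((Matrix.isUnit_iff_isUnit_det _).1 hcu))⁻¹, ?_⟩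
    show (cjT q (c : Matrix (Fin n) (Fin n) K))⁻¹ * (cjT q a)⁻¹
      = (cjT q b)⁻¹ * (cjT q (c : Matrix (Fin n) (Fin n) K))⁻¹
    rw [← Matrix.mul_inv_rev, ← Matrix.mul_inv_rev, ← cjT_mul hK, ← cjT_mul hK, hc.eq]
  · rintro ⟨c, hc⟩
    set x : Matrix (Fin n) (Fin n) K := (c : Matrix (Fin n) (Fin n) K) with hx
    have hau : IsUnit (cjT q a) := isUnit_cjT hK A.isUnit
    have hX : cjT q a * x * a = x := by
      rw [mul_assoc, hc.eq, ← mul_assoc, Matrix.mul_nonsing_inv _ ((Matrix.isUnit_iff_isUnit_det _).1 hau),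
        one_mul]
    obtain ⟨H, hHu, hHh, hHA⟩ := exists_hermitian_invariant hK A.isUnit c.isUnit hX
    obtain ⟨Z, hZu, -, hZ⟩ := exists_cjT_mul_self hK hHh hHu
    set W := hZu.unit with hW
    have hWi : Z * ((W⁻¹ : GL (Fin n) K) : Matrix (Fin n) (Fin n) K) = 1 := W.mul_inv
    refine ⟨⟨W * A * W⁻¹, ?_⟩, isConj_iff.2 ⟨W, rfl⟩⟩
    rw [mem_GU_iff_cjT hK]
    show cjT q (Z * a * ((W⁻¹ : GL (Fin n) K) : Matrix (Fin n) (Fin n) K)) *
      (Z * a * ((W⁻¹ : GL (Fin n) K) : Matrix (Fin n) (Fin n) K)) = 1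
    rw [cjT_mul hK, cjT_mul hK]
    calc _ = cjT q ((W⁻¹ : GL (Fin n) K) : Matrix (Fin n) (Fin n) K) * (cjT q a * H * a) *
          ((W⁻¹ : GL (Fin n) K) : Matrix (Fin n) (Fin n) K) := by rw [← hZ]; simp only [mul_assoc]
      _ = cjT q (Z * ((W⁻¹ : GL (Fin n) K) : Matrix (Fin n) (Fin n) K)) *
          (Z * ((W⁻¹ : GL (Fin n) K) : Matrix (Fin n) (Fin n) K)) := by
        rw [hHA, ← hZ, cjT_mul hK]; simp only [mul_assoc]
      _ = 1 := by rw [hWi, cjT_one hK, one_mul]

end Cfsg.Agent.S2588
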