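import Cfsg.Statements.S2590
import Cfsg.Agent.Eq.Def_Classical
import Cfsg.Agent.Classical.Orth.OddConj
import Cfsg.Agent.Classical.Orth.Forms

set_option autoImplicit false
open Cfsg

namespace Cfsg.Agent.S2590
open CfsgLib.Classical.Orth

/-- Two semisimple elements of odd order of a finite orthogonal group (isometry group of a quadratic form on F^n with non-degenerate polar form, F finite of characteristic p; the elements have odd order prime to p) are conjugate in the orthogonal group if and only if they are conjugate in GL_n(F). -/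
theorem result {F : Type*} [Field F] [Fintype F] {p : ℕ} [Fact p.Prime] [CharP F p] {n : ℕ} (Q : QuadraticForm F (Fin n → F)) (hQ : (QuadraticMap.polarBilin Q).Nondegenerate) (A B : ↥(Cfsg.isometryGroup F ⇑Q)) (hodd : Odd (orderOf A)) (hA : (orderOf A).Coprime p) : IsConj A B ↔ IsConj ((A : Matrix.GeneralLinearGroup (Fin n) F) : Matrix (Fin n) (Fin n) F) ((B : Matrix.GeneralLinearGroup (Fin n) F) : Matrix (Fin n) (Fin n) F) := by
  refine ⟨fun h => ((Units.coeHom _).comp (Cfsg.isometryGroup F ⇑Q).subtype).map_isConj h, fun h => ?_⟩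
  obtain ⟨x, hx⟩ := h
  have hk : (A : Matrix.GeneralLinearGroup (Fin n) F) ^ orderOf A = 1 := by
    rw [← Subgroup.coe_pow, pow_orderOf_eq_one, Subgroup.coe_one]
  have hkF : ((orderOf A : ℕ) : F) ≠ 0 := by
    rw [Ne, CharP.cast_eq_zero_iff F p]
    intro hdvd
    exact (Fact.out : p.Prime).ne_one (Nat.eq_one_of_dvd_coprimes hA hdvd dvd_rfl)
  obtain ⟨g, hg, hga⟩ := exists_isometry_conj_of_conj (isNondegQF_of_quadraticForm Q hQ) A.2 B.2 hk hodd hkF
    (x := x) (Units.ext hx)
  refine isConj_iff.2 ⟨⟨g, hg⟩, Subtype.ext ?_⟩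
  show g * (A : Matrix.GeneralLinearGroup (Fin n) F) * g⁻¹ = (B : Matrix.GeneralLinearGroup (Fin n) F)
  rw [hga, mul_inv_cancel_right]

end Cfsg.Agent.S2590
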