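import Cfsg.Statements.S2591
import Cfsg.Agent.CyclicNilp.Symplectic
-- import your own Cfsg.Agent.* helpers here

set_option autoImplicit false
open Cfsg CfsgLib.CyclicNilpSp

namespace Cfsg.Agent.S2591

/-- Over a finite field of odd order and for m ≥ 1, the regular unipotent elements of Sp_2m(F) (u − 1 nilpotent of rank 2m − 1, a single Jordan block) form exactly two conjugacy classes of Sp_2m(F) (one class under the similarity group, which splits in two). -/
theorem result {F : Type*} [Field F] [Fintype F] {q : ℕ} (hF : Fintype.card F = q) (hq : Odd q) {m : ℕ} (hm : 1 ≤ m) : Nat.card {C : ConjClasses ↥(Matrix.symplecticGroup (Fin m) F) // ∃ u : Matrix.symplecticGroup (Fin m) F, ConjClasses.mk u = C ∧ ((u : Matrix (Fin m ⊕ Fin m) (Fin m ⊕ Fin m) F) - 1) ^ (2 * m) = 0 ∧ ((u : Matrix (Fin m ⊕ Fin m) (Fin m ⊕ Fin m) F) - 1).rank = 2 * m - 1} = 2 := by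
  subst hF
  have h2 : (2 : F) ≠ 0 := by
    refine Ring.two_ne_zero fun h => ?_
    exact (Nat.not_even_iff_odd.mpr hq) (Nat.even_iff.mpr (FiniteField.even_card_iff_char_two.mp h))
  obtain ⟨lam0, hlam⟩ := FiniteField.exists_nonsquare (F := F) fun h => by
    exact h2 (by
      haveI := ringChar.of_eq h
      exact CharTwo.two_eq_zero)
  obtain ⟨l, rfl⟩ : ∃ l, m = l + 1 := ⟨m - 1, by omega⟩
  set lam : Fˣ := Units.mk0 lam0 (fun h => hlam (h ▸ IsSquare.zero)) with hlamdef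
  obtain ⟨U, hU, hnilU, hrkU⟩ := exists_regular (F := F) (l := l) h2
  obtain ⟨hB, hskew, hcomm⟩ := sub_adj_data h2 hU hnilU hrkU
  set uU : (M F (l + 1))ˣ := toU hU with huU
  set g0 : (M F (l + 1))ˣ := simil lam with hg0
  have hgg : adjU g0 * g0 = sc lam := adjU_simil_mul lam
  set wU := g0 * uU * g0⁻¹ with hwU
  have hggi : g0⁻¹ * (adjU g0)⁻¹ = (sc lam)⁻¹ := by rw [← hgg, mul_inv_rev]
  have hw : wU * adjU wU = 1 := by
    rw [hwU, adjU_mul, adjU_mul, adjU_inv, huU, adjU_toU]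
    calc g0 * toU hU * g0⁻¹ * ((adjU g0)⁻¹ * ((toU hU)⁻¹ * adjU g0))
        = g0 * (toU hU * (g0⁻¹ * (adjU g0)⁻¹)) * ((toU hU)⁻¹ * adjU g0) := by group
      _ = g0 * ((sc lam)⁻¹ * toU hU) * ((toU hU)⁻¹ * adjU g0) := by
          rw [hggi, (show Commute (sc lam) (toU hU) from sc_comm _ _).inv_left.symm.eq]
      _ = g0 * (g0⁻¹ * (adjU g0)⁻¹) * adjU g0 := by rw [hggi]; group
      _ = 1 := by group
  let su : Matrix.symplecticGroup (Fin (l + 1)) F := ⟨U, mem_iff_adj.mpr hU⟩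
  let sw : Matrix.symplecticGroup (Fin (l + 1)) F := ⟨wU, mem_iff_adj.mpr (congrArg Units.val hw)⟩
  have hwm1 : (wU : M F (l + 1)) - 1 = (g0 : M F (l + 1)) * (U - 1) * ((g0⁻¹ : (M F (l + 1))ˣ) : M F (l + 1)) := by
    rw [mul_sub, sub_mul, mul_one, Units.mul_inv]
    rfl
  have hPsw : ((sw : M F (l + 1)) - 1) ^ (2 * (l + 1)) = 0 ∧
      ((sw : M F (l + 1)) - 1).rank = 2 * (l + 1) - 1 := by
    show ((wU : M F (l + 1)) - 1) ^ _ = 0 ∧ ((wU : M F (l + 1)) - 1).rank = _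
    rw [hwm1]
    refine ⟨by rw [Units.conj_pow, hnilU, mul_zero, zero_mul], ?_⟩
    rw [Matrix.rank_mul_eq_left_of_isUnit_det _ _ ((Matrix.isUnit_iff_isUnit_det _).mp (Units.isUnit _)),
      Matrix.rank_mul_eq_right_of_isUnit_det _ _ ((Matrix.isUnit_iff_isUnit_det _).mp (Units.isUnit _)),
      hrkU]
  -- conjugating by a symplectic unit
  have mkConj : ∀ (a b : Matrix.symplecticGroup (Fin (l + 1)) F) (h : (M F (l + 1))ˣ),
      adjU h * h = 1 → (h : M F (l + 1)) * a = (b : M F (l + 1)) * h → IsConj a b := by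
    intro a b h hh hab
    have hh' : (h : M F (l + 1)) * adj (h : M F (l + 1)) = 1 :=
      congrArg Units.val (mul_eq_one_comm.mp hh)
    exact isConj_iff.mpr ⟨⟨h, mem_iff_adj.mpr hh'⟩,
      mul_inv_eq_iff_eq_mul.mpr (Subtype.ext hab)⟩
  have hne : ¬ IsConj su sw := by
    intro hc
    obtain ⟨h, hh⟩ := isConj_iff.mp hc
    set hu := toU (mem_iff_adj.mp h.2) with hhu
    have e : hu * uU = wU * hu :=
      Units.ext (congrArg Subtype.val (mul_inv_eq_iff_eq_mul.mp hh))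
    set z := g0⁻¹ * hu with hz
    have hzu : z * uU = uU * z := by
      rw [hz, mul_assoc, e, hwU]; group
    have hzB : z ∈ CU (U - adj U) := (hcomm _).mpr (congrArg Units.val hzu)
    refine hlam ?_
    have hsq : IsSquare ((lam⁻¹ : Fˣ) : F) := isSquare_of_sc hB hskew ⟨z, hzB⟩ (by
      show sc lam⁻¹ = z * adjU z
      rw [hz, adjU_mul, adjU_inv, hhu, adjU_toU, mul_assoc, mul_inv_cancel_left, hggi]
      exact map_inv _ lam)
    obtain ⟨r, hr⟩ := hsq
    refine ⟨r⁻¹, ?_⟩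
    rw [← mul_inv, ← hr, Units.val_inv_eq_inv_val, inv_inv]
    rfl
  -- every regular unipotent element is conjugate to one of the two
  have hall : ∀ v : Matrix.symplecticGroup (Fin (l + 1)) F,
      ((v : M F (l + 1)) - 1) ^ (2 * (l + 1)) = 0 →
      ((v : M F (l + 1)) - 1).rank = 2 * (l + 1) - 1 → IsConj su v ∨ IsConj sw v := by
    intro v hvn hvr
    obtain ⟨P, hP⟩ := exists_gl_conj (A := U - 1) (A' := (v : M F (l + 1)) - 1) ⟨hnilU, hrkU⟩ ⟨hvn, hvr⟩
    have hPv : (P : M F (l + 1)) * U = (v : M F (l + 1)) * P := by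
      rw [mul_sub, sub_mul, mul_one, one_mul, sub_left_inj] at hP
      exact hP
    set vU := toU (mem_iff_adj.mp v.2) with hvU
    have hPvU : P * uU = vU * P := Units.ext hPv
    have hD : adjU P * P * uU = uU * (adjU P * P) := by
      have h1 := congrArg adjU hPvU
      rw [adjU_mul, adjU_mul, huU, hvU, adjU_toU, adjU_toU, ← huU, ← hvU] at h1
      rw [mul_assoc, hPvU, ← mul_assoc, ← mul_assoc]
      congr 1
      calc adjU P * vU = uU * (uU⁻¹ * adjU P) * vU := by group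
        _ = uU * (adjU P * vU⁻¹) * vU := by rw [h1]
        _ = uU * adjU P := by group
    obtain ⟨z, hz⟩ := (range_nrm_data hB hskew h2 (lam := lam) hlam).2 (adjU P * P)
      ((hcomm _).mpr (congrArg Units.val hD))
      (congrArg Units.val (show adjU (adjU P * P) = adjU P * P by rw [adjU_mul, adjU_adjU]))
    have hzu : z.1 * uU = uU * z.1 := Units.ext ((hcomm _).mp z.2).eq
    have hzz : (adjU z.1)⁻¹ * (z.1 * adjU z.1) * z.1⁻¹ = 1 := by
      have hc : z.1 * adjU z.1 = adjU z.1 * z.1 := congrArg Subtype.val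
        (CU_comm hB z ⟨_, adjU_mem hskew z.2⟩)
      rw [hc]; group
    rcases hz with hz | hz
    · refine Or.inl (mkConj su v (P * z.1⁻¹) ?_ (congrArg Units.val (show P * z.1⁻¹ * uU = vU * (P * z.1⁻¹) by
        rw [mul_assoc, (show Commute z.1 uU from hzu).inv_left.eq, ← mul_assoc, hPvU, mul_assoc])))
      rw [adjU_mul, adjU_inv, ← hzz, ← hz]
      group
    · refine Or.inr (mkConj sw v (P * z.1⁻¹ * g0⁻¹) ?_ (congrArg Units.val
        (show P * z.1⁻¹ * g0⁻¹ * wU = vU * (P * z.1⁻¹ * g0⁻¹) by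
          rw [hwU, show P * z.1⁻¹ * g0⁻¹ * (g0 * uU * g0⁻¹) = P * (z.1⁻¹ * uU) * g0⁻¹ by group,
            (show Commute z.1 uU from hzu).inv_left.eq, ← mul_assoc, hPvU]
          group)))
      rw [adjU_mul, adjU_mul, adjU_inv, adjU_inv]
      calc (adjU g0)⁻¹ * ((adjU z.1)⁻¹ * adjU P) * (P * z.1⁻¹ * g0⁻¹)
          = (adjU g0)⁻¹ * ((adjU z.1)⁻¹ * (adjU P * P) * z.1⁻¹) * g0⁻¹ := by group
        _ = (adjU g0)⁻¹ * (((adjU z.1)⁻¹ * sc lam) * (z.1 * adjU z.1) * z.1⁻¹) * g0⁻¹ := by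
            rw [hz]; group
        _ = (adjU g0)⁻¹ * (sc lam * ((adjU z.1)⁻¹ * (z.1 * adjU z.1) * z.1⁻¹)) * g0⁻¹ := by
            rw [← (sc_comm lam (adjU z.1)⁻¹)]; group
        _ = 1 := by rw [hzz, mul_one, ← hgg]; group
  classical
  have hneq : ConjClasses.mk su ≠ ConjClasses.mk sw :=
    fun h => hne (ConjClasses.mk_eq_mk_iff_isConj.mp h)
  refine Eq.trans (Nat.card_congr (Equiv.subtypeEquivRight (q := fun C => C ∈ ({ConjClasses.mk su,
    ConjClasses.mk sw} : Set _)) fun C => ⟨?_, ?_⟩)) ((Nat.card_coe_set_eq _).trans (Set.ncard_pair hneq))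
  · rintro ⟨v, rfl, hvn, hvr⟩
    rcases hall v hvn hvr with h | h
    · exact Or.inl (ConjClasses.mk_eq_mk_iff_isConj.mpr h).symm
    · exact Or.inr (ConjClasses.mk_eq_mk_iff_isConj.mpr h).symm
  · rintro (rfl | rfl)
    · exact ⟨su, rfl, hnilU, hrkU⟩
    · exact ⟨sw, rfl, hPsw⟩

end Cfsg.Agent.S2591
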