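import Cfsg.Statements.S2592
import Cfsg.Agent.CyclicNilp.Symplectic
-- import your own Cfsg.Agent.* helpers here

set_option autoImplicit false
open Cfsg

namespace Cfsg.Agent.S2592

/-- Over a finite field with q elements, q odd, the centraliser in Sp_2m(F) (m ≥ 1) of a regular unipotent element (u − 1 nilpotent of rank 2m − 1) has order 2 q^m. -/
theorem result {F : Type*} [Field F] [Fintype F] {q : ℕ} (hF : Fintype.card F = q) (hq : Odd q) {m : ℕ} (hm : 1 ≤ m) (u : Matrix.symplecticGroup (Fin m) F) (hnil : ((u : Matrix (Fin m ⊕ Fin m) (Fin m ⊕ Fin m) F) - 1) ^ (2 * m) = 0) (hreg : ((u : Matrix (Fin m ⊕ Fin m) (Fin m ⊕ Fin m) F) - 1).rank = 2 * m - 1) : Nat.card ↥(Subgroup.centralizer ({u} : Set ↥(Matrix.symplecticGroup (Fin m) F))) = 2 * q ^ m := by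
  subst hF
  have h2 : (2 : F) ≠ 0 := by
    refine Ring.two_ne_zero fun h => ?_
    exact (Nat.not_even_iff_odd.mpr hq) ((FiniteField.even_card_iff_char_two.mp h) |>
      Nat.even_iff.mpr)
  obtain ⟨lam, hlam⟩ := FiniteField.exists_nonsquare (F := F) fun h => by
    exact h2 (by
      haveI := ringChar.of_eq h
      exact CharTwo.two_eq_zero)
  obtain ⟨l, rfl⟩ : ∃ l, m = l + 1 := ⟨m - 1, by omega⟩
  have hU := CfsgLib.CyclicNilpSp.mem_iff_adj.mp u.2
  obtain ⟨hB, hskew, hcomm⟩ := CfsgLib.CyclicNilpSp.sub_adj_data h2 hU hnil hreg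
  set B := (u : CfsgLib.CyclicNilpSp.M F (l + 1)) - CfsgLib.CyclicNilpSp.adj (u : CfsgLib.CyclicNilpSp.M F (l + 1))
  have hl0 : lam ≠ 0 := fun h => hlam (h ▸ IsSquare.zero)
  refine Eq.trans ?_ (CfsgLib.CyclicNilpSp.range_nrm_data hB hskew h2 (lam := Units.mk0 lam hl0) hlam).1
  refine Nat.card_congr
    { toFun := fun g => ⟨⟨CfsgLib.CyclicNilpSp.toU (CfsgLib.CyclicNilpSp.mem_iff_adj.mp g.1.2),
        (hcomm _).mpr (congrArg Subtype.val (Subgroup.mem_centralizer_singleton_iff.mp g.2))⟩,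
        Subtype.ext (Units.ext (CfsgLib.CyclicNilpSp.mem_iff_adj.mp g.1.2))⟩
      invFun := fun z => ⟨⟨((z.1.1 : (CfsgLib.CyclicNilpSp.M F (l + 1))ˣ) : CfsgLib.CyclicNilpSp.M F (l + 1)),
        CfsgLib.CyclicNilpSp.mem_iff_adj.mpr
          (congrArg (fun x : CfsgLib.CyclicNilpSp.CU B => ((x.1 : (CfsgLib.CyclicNilpSp.M F (l + 1))ˣ) : CfsgLib.CyclicNilpSp.M F (l + 1)))
            (MonoidHom.mem_ker.mp z.2))⟩,
        Subgroup.mem_centralizer_singleton_iff.mpr (Subtype.ext ((hcomm _).mp z.1.2))⟩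
      left_inv := fun g => rfl
      right_inv := fun z => Subtype.ext (Subtype.ext (Units.ext rfl)) }

end Cfsg.Agent.S2592
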