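import Cfsg.Statements.S2593
import Cfsg.Agent.Classical.Symp.InvolutionTwoClasses

set_option autoImplicit false
open Cfsg CfsgLib.Classical.SympCharTwo

namespace Cfsg.Agent.S2593

theorem eq_one_of_invRank_eq_zero {F : Type*} [Field F] [Fintype F] [CharP F 2] {m : ℕ}
    (g : Matrix.symplecticGroup (Fin m) F) (h : invRank g = 0) : g = 1 := by
  have hz : disp g = 0 := LinearMap.range_eq_bot.1 (Submodule.finrank_eq_zero.1 h)
  refine CfsgLib.Classical.Symp.symp_ext fun x => ?_
  have := LinearMap.congr_fun hz x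
  rw [disp_apply, LinearMap.zero_apply] at this
  rw [OneMemClass.coe_one, Matrix.one_mulVec]
  funext i
  exact CharTwo.add_eq_zero.1 (congrFun this i)

theorem orderTwo {F : Type*} [Field F] [Fintype F] [CharP F 2] {m : ℕ}
    {g : Matrix.symplecticGroup (Fin m) F} (h : g * g = 1) (h0 : invRank g ≠ 0) : orderOf g = 2 := by
  refine orderOf_eq_prime (by rw [sq]; exact h) fun hg => h0 ?_
  subst hg
  show (((1 : Matrix.symplecticGroup (Fin m) F) : Matrix (Fin m ⊕ Fin m) (Fin m ⊕ Fin m) F) - 1).rank = 0
  rw [OneMemClass.coe_one, sub_self, Matrix.rank_zero]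

/-- Number of conjugacy classes of involutions in the symplectic group Sp_2m(F) over a finite field of characteristic two (m ≥ 1): for each s with 1 ≤ s ≤ m there is one class with rank(t − 1) = s if s is odd and two if s is even (according as v ↦ f(v, tv), f the symplectic form, vanishes identically or not), so m + ⌊m/2⌋ classes in all. -/
theorem result {F : Type*} [Field F] [Fintype F] [CharP F 2] {m : ℕ} (hm : 1 ≤ m) : Nat.card {C : ConjClasses ↥(Matrix.symplecticGroup (Fin m) F) // ∃ g : Matrix.symplecticGroup (Fin m) F, ConjClasses.mk g = C ∧ orderOf g = 2} = m + m / 2 := by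
  classical
  let f : Fin m ⊕ Fin (m / 2) → {C : ConjClasses ↥(Matrix.symplecticGroup (Fin m) F) //
      ∃ g : Matrix.symplecticGroup (Fin m) F, ConjClasses.mk g = C ∧ orderOf g = 2} :=
    Sum.elim
      (fun i => ⟨ConjClasses.mk (involNonalt (i.1 + 1) i.2), _, rfl, orderTwo
        (involNonalt_spec i.2 (Nat.succ_pos _)).1 (by
          rw [(involNonalt_spec i.2 (Nat.succ_pos _)).2.1]; omega)⟩)
      (fun i => ⟨ConjClasses.mk (involAlt (i.1 + 1) (by omega)), _, rfl, orderTwo
        (involAlt_spec (by omega)).1 (by rw [(involAlt_spec (by omega)).2.1]; omega)⟩)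
  have hf : Function.Bijective f := by
    constructor
    · rintro (i | i) (j | j) h <;>
        have h' := invariants_of_isConj (ConjClasses.mk_eq_mk_iff_isConj.1 (congrArg Subtype.val h))
      · rw [(involNonalt_spec i.2 (Nat.succ_pos _)).2.1, (involNonalt_spec j.2 (Nat.succ_pos _)).2.1] at h'
        exact congrArg Sum.inl (Fin.ext (by omega))
      · exact absurd (h'.2.2 (involAlt_spec (by omega)).2.2) (involNonalt_spec i.2 (Nat.succ_pos _)).2.2
      · exact absurd (h'.2.1 (involAlt_spec (by omega)).2.2) (involNonalt_spec j.2 (Nat.succ_pos _)).2.2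
      · rw [(involAlt_spec (by omega)).2.1, (involAlt_spec (by omega)).2.1] at h'
        exact congrArg Sum.inr (Fin.ext (by omega))
    · rintro ⟨_, g, rfl, hg⟩
      have hg2 : g * g = 1 := by
        have h := pow_orderOf_eq_one g
        rwa [hg, sq] at h
      obtain ⟨hle, hev, -⟩ := rank_le_and_parity hg2
      have h1 : 1 ≤ invRank g := by
        rcases Nat.eq_zero_or_pos (invRank g) with h | h
        · have := eq_one_of_invRank_eq_zero g h
          rw [this, orderOf_one] at hg; omega
        · exact h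
      by_cases ha : InvAlt g
      · obtain ⟨k, hk⟩ := hev ha
        refine ⟨Sum.inr ⟨k - 1, by omega⟩, Subtype.ext (ConjClasses.mk_eq_mk_iff_isConj.2 ?_)⟩
        obtain ⟨e1, e2, e3⟩ := involAlt_spec (F := F) (show (k - 1 + 1) + (k - 1 + 1) ≤ m by omega)
        exact isConj_of_invariants e1 hg2 (by rw [e2]; omega) (iff_of_true e3 ha)
      · refine ⟨Sum.inl ⟨invRank g - 1, by omega⟩, Subtype.ext (ConjClasses.mk_eq_mk_iff_isConj.2 ?_)⟩
        obtain ⟨e1, e2, e3⟩ := involNonalt_spec (F := F) (show invRank g - 1 + 1 ≤ m by omega) (Nat.succ_pos _)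
        exact isConj_of_invariants e1 hg2 (by rw [e2]; omega) (iff_of_false e3 ha)
  rw [← Nat.card_congr (Equiv.ofBijective f hf)]
  simp

end Cfsg.Agent.S2593
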