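import Cfsg.Statements.S2594
import Cfsg.Agent.Eq.Def_Classical
import Cfsg.Agent.Classical.Symp.Card
import Cfsg.Agent.Classical.Symp.Centralizer

set_option autoImplicit false
open Cfsg

namespace Cfsg.Agent.S2594

/-- Over a finite field with q elements, q even, an element t of Sp_2m(F) with rank(t − 1) = 1 (a symplectic transvection) has centraliser in Sp_2m(F) of order q^(2m−1) · |Sp_(2m−2)(q)| = q^(2m−1) · q^((m−1)²) · Π_(i=1)^(m−1) (q^(2i) − 1). -/
theorem result {F : Type*} [Field F] [Fintype F] [CharP F 2] {q : ℕ} (hF : Fintype.card F = q) {m : ℕ} (hm : 1 ≤ m) (t : Matrix.symplecticGroup (Fin m) F) (ht : ((t : Matrix (Fin m ⊕ Fin m) (Fin m ⊕ Fin m) F) - 1).rank = 1) : Nat.card ↥(Subgroup.centralizer ({t} : Set ↥(Matrix.symplecticGroup (Fin m) F))) = q ^ (2 * m - 1) * (q ^ ((m - 1) ^ 2) * ∏ i : Fin (m - 1), (q ^ (2 * ((i : ℕ) + 1)) - 1)) := by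
  classical
  obtain ⟨k, rfl⟩ : ∃ k, m = k + 1 := ⟨m - 1, by omega⟩
  obtain ⟨w, c, hw, hc, rfl⟩ := CfsgLib.Classical.Symp.exists_spT_of_rank_eq_one t ht
  have hcen : Subgroup.centralizer ({CfsgLib.Classical.Symp.spT w c} : Set ↥(Matrix.symplecticGroup (Fin (k + 1)) F)) =
      CfsgLib.Classical.Symp.vecStab w := by
    ext g
    rw [Subgroup.mem_centralizer_singleton_iff, CfsgLib.Classical.Symp.commute_spT_iff, CfsgLib.Classical.Symp.mem_vecStab]
    constructor
    · intro h
      obtain ⟨b, hb, hgw⟩ := CfsgLib.Classical.Symp.exists_sq_of_spT_eq hc hw h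
      rw [hgw, show b = 1 from ?_, one_smul]
      rcases sq_eq_one_iff.mp hb with rfl | rfl
      · rfl
      · exact CharTwo.neg_eq 1
    · intro h
      rw [h]
  rw [hcen, CfsgLib.Classical.Symp.card_vecStab hw, CfsgLib.Classical.Symp.card_symplecticGroup, hF,
    Finset.prod_range]
  simp only [Nat.add_sub_cancel]
  congr 2

end Cfsg.Agent.S2594
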