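import Cfsg.Statements.S2598
import Cfsg.Agent.OrthGeo.InvolutionCountStd
import Cfsg.Agent.S0824

set_option autoImplicit false
open Cfsg

namespace Cfsg.Agent.S2598

/-- Number of conjugacy classes of involutions in Ω⁻_2m(F) (the commutator subgroup of the orthogonal group of an elliptic quadratic form, Σ_(i<m−1) x_i y_i plus an anisotropic binary form) over a finite field F of characteristic two, m ≥ 1: the involutions of Ω are those with s = rank(t − 1) even, one O-class for each even s with 2 ≤ s ≤ m on which v ↦ f(v, tv) is not identically zero and one for each even s with 2 ≤ s < m on which it is zero (f the polar form; in characteristic 2, f(v, tv) = Q(v + tv)), none of which splits in Ω; in all ⌊m/2⌋ + ⌊(m − 1)/2⌋. -/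
theorem result {F : Type*} [Field F] [Fintype F] [CharP F 2] {m : ℕ} (hm : 1 ≤ m) (a b : F) (hab : ∀ z₁ z₂ : F, z₁ ^ 2 + a * z₁ * z₂ + b * z₂ ^ 2 = 0 → z₁ = 0 ∧ z₂ = 0) : Nat.card {C : ConjClasses ↥(Cfsg.Omega F (Cfsg.quadFormMinus (m - 1) F a b)) // ∃ g : ↥(Cfsg.Omega F (Cfsg.quadFormMinus (m - 1) F a b)), ConjClasses.mk g = C ∧ orderOf g = 2} = m / 2 + (m - 1) / 2 := by
  obtain ⟨k, rfl⟩ := Nat.exists_eq_add_of_le' hm
  simp only [Nat.add_sub_cancel]
  by_cases hex : Nat.card F = 2 ∧ k = 1
  · obtain ⟨hF, rfl⟩ := hex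
    rw [Nat.card_eq_fintype_card] at hF
    have h01 : ∀ x : F, x = 0 ∨ x = 1 := fun x => by
      have key : ∀ y : ZMod 2, y = 0 ∨ y = 1 := by decide
      haveI : Fact (Nat.Prime 2) := ⟨Nat.prime_two⟩
      let e : F ≃+* ZMod 2 := (ZMod.ringEquivOfPrime F Nat.prime_two hF).symm
      rcases key (e x) with h | h
      · exact Or.inl (e.injective (h.trans e.map_zero.symm))
      · exact Or.inr (e.injective (h.trans e.map_one.symm))
    obtain rfl : b = 1 := (h01 b).resolve_left fun h => one_ne_zero (hab 0 1 (by simp [h])).2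
    obtain rfl : a = 1 := (h01 a).resolve_left fun h => one_ne_zero (hab 1 1 (by
      simp [h, CharTwo.add_self_eq_zero])).2
    obtain ⟨e⟩ := Cfsg.Agent.S0824.result hF
    exact CfsgLib.OrthGeo.InvClass.card_five e
  · have hQ := CfsgLib.OrthGeo.isNondegenerateQuadraticForm_quadFormMinus k a b
      (CfsgLib.OrthGeo.discr_ne_zero_of_anisotropic a b hab)
    refine (CfsgLib.OrthGeo.InvClass.card_omega_classes hQ (by simp; omega)
      (CfsgLib.OrthGeo.InvClass.minus_data k a b hQ).1 (CfsgLib.OrthGeo.InvClass.minus_data k a b hQ).2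
      (CfsgLib.OrthGeo.InvClass.minus_bound k a b hab) (by
        rintro ⟨h1, h2⟩
        simp only [Fintype.card_sum, Fintype.card_fin] at h2
        exact hex ⟨h1, by omega⟩)).trans ?_
    rw [if_neg (by omega)]; omega

end Cfsg.Agent.S2598
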