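import Cfsg.Statements.S2599
import Cfsg.Agent.Eq.Def_Classical

set_option autoImplicit false
open Cfsg

namespace Cfsg.Agent.S2599


/-- An irreducible invariant subspace of a semisimple isometry is non-degenerate or totally singular: let Q be a quadratic form on F^n (F finite of characteristic p) with non-degenerate polar form f, x an isometry of Q of order prime to p, and U a non-zero x-invariant subspace containing no x-invariant subspace other than 0 and U. Then U meets its f-orthogonal trivially, or Q vanishes on U, or p = 2, U is a line spanned by a non-singular vector and x fixes U pointwise. -/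
theorem result {F : Type*} [Field F] [Fintype F] {p : ℕ} [Fact p.Prime] [CharP F p] {n : ℕ} (Q : QuadraticForm F (Fin n → F)) (hQ : (QuadraticMap.polarBilin Q).Nondegenerate) (x : ↥(Cfsg.isometryGroup F ⇑Q)) (hx : (orderOf x).Coprime p) (U : Submodule F (Fin n → F)) (hU0 : U ≠ ⊥) (hUx : ∀ u ∈ U, ((x : Matrix.GeneralLinearGroup (Fin n) F) : Matrix (Fin n) (Fin n) F).mulVec u ∈ U) (hirr : ∀ W : Submodule F (Fin n → F), W ≤ U → (∀ w ∈ W, ((x : Matrix.GeneralLinearGroup (Fin n) F) : Matrix (Fin n) (Fin n) F).mulVec w ∈ W) → W = ⊥ ∨ W = U) : U ⊓ LinearMap.BilinForm.orthogonal (QuadraticMap.polarBilin Q) U = ⊥ ∨ (∀ u ∈ U, Q u = 0) ∨ (p = 2 ∧ Module.finrank F U = 1 ∧ (∃ u ∈ U, Q u ≠ 0) ∧ ∀ u ∈ U, ((x : Matrix.GeneralLinearGroup (Fin n) F) : Matrix (Fin n) (Fin n) F).mulVec u = u) := by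
  classical
  let M := ((x : Matrix.GeneralLinearGroup (Fin n) F) : Matrix (Fin n) (Fin n) F)
  have hQM : ∀ v, Q (M.mulVec v) = Q v := fun v => x.2 v v
  have hpol : ∀ v w, QuadraticMap.polar ⇑Q (M.mulVec v) (M.mulVec w) = QuadraticMap.polar ⇑Q v w := by
    intro v w; simp only [QuadraticMap.polar, ← Matrix.mulVec_add, hQM]
  let f : U →ₗ[F] U := (M.mulVecLin).restrict hUx
  have hf : Function.Surjective f := by
    apply LinearMap.injective_iff_surjective.mp
    intro u v huv
    have h := congrArg Subtype.val huv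
    simp only [f, LinearMap.restrict_coe_apply, Matrix.mulVecLin_apply] at h
    apply Subtype.ext
    exact Matrix.mulVec_injective_iff_isUnit.mpr ⟨(x : Matrix.GeneralLinearGroup (Fin n) F), rfl⟩ h
  rcases hirr (U ⊓ LinearMap.BilinForm.orthogonal (QuadraticMap.polarBilin Q) U) inf_le_left (by
      rintro w ⟨hw, hw'⟩
      refine ⟨hUx w hw, ?_⟩
      intro u hu
      obtain ⟨u', hu'⟩ := hf ⟨u, hu⟩
      have h := congrArg Subtype.val hu'
      simp only [f, LinearMap.restrict_coe_apply, Matrix.mulVecLin_apply] at h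
      have hz := hw' (u' : Fin n → F) u'.2
      simp only [LinearMap.BilinForm.IsOrtho, QuadraticMap.polarBilin_apply_apply] at hz ⊢
      rw [← h]
      exact (hpol _ _).trans hz) with h | h
  · exact Or.inl h
  right
  have htot : ∀ u ∈ U, ∀ v ∈ U, QuadraticMap.polar ⇑Q u v = 0 := by
    intro u hu v hv
    have : v ∈ U ⊓ LinearMap.BilinForm.orthogonal (QuadraticMap.polarBilin Q) U := h.symm ▸ hv
    exact this.2 u hu
  by_cases hp : p = 2
  · subst hp
    have hadd : ∀ u ∈ U, ∀ v ∈ U, Q (u + v) = Q u + Q v := by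
      intro u hu v hv; rw [QuadraticMap.map_add ⇑Q, htot u hu v hv, add_zero]
    let W : Submodule F (Fin n → F) :=
      { carrier := {u | u ∈ U ∧ Q u = 0}
        add_mem' := fun {a b} ha hb => ⟨U.add_mem ha.1 hb.1, by rw [hadd a ha.1 b hb.1, ha.2, hb.2, add_zero]⟩
        zero_mem' := ⟨U.zero_mem, map_zero Q⟩
        smul_mem' := fun t a ha => ⟨U.smul_mem t ha.1, by rw [QuadraticMap.map_smul, ha.2, smul_zero]⟩ }
    rcases hirr W (fun u hu => hu.1) (fun w hw => ⟨hUx w hw.1, by rw [← hw.2]; exact hQM w⟩) with hW | hW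
    · right
      have hinj : ∀ u ∈ U, Q u = 0 → u = 0 := by
        intro u hu h0
        have : u ∈ W := ⟨hu, h0⟩
        rw [hW] at this; exact (Submodule.mem_bot F).mp this
      obtain ⟨u₀, hu₀, hne⟩ := Submodule.exists_mem_ne_zero_of_ne_bot hU0
      have hq0 : Q u₀ ≠ 0 := fun h => hne (hinj u₀ hu₀ h)
      refine ⟨rfl, ?_, ⟨u₀, hu₀, hq0⟩, ?_⟩
      · apply finrank_eq_one (⟨u₀, hu₀⟩ : U) (fun h => hne (congrArg Subtype.val h))
        intro v
        obtain ⟨t, ht⟩ := FiniteField.isSquare_of_char_two (CharP.ringChar_of_prime_eq_zero Nat.prime_two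
          (CharP.cast_eq_zero F 2)) (Q v.1 / Q u₀)
        refine ⟨t, Subtype.ext ?_⟩
        have : t • u₀ + v.1 = 0 := by
          apply hinj _ (U.add_mem (U.smul_mem t hu₀) v.2)
          rw [hadd _ (U.smul_mem t hu₀) _ v.2, QuadraticMap.map_smul, ← ht, smul_eq_mul,
            div_mul_cancel₀ _ hq0, CharTwo.add_self_eq_zero]
        have hv := eq_neg_of_add_eq_zero_left this
        simpa [← neg_smul, CharTwo.neg_eq] using hv.trans (by
          funext i; simp [CharTwo.neg_eq])
      · intro u hu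
        have h0 : Q (M.mulVec u + u) = 0 := by
          rw [hadd _ (hUx u hu) _ hu, hQM, CharTwo.add_self_eq_zero]
        have := hinj _ (U.add_mem (hUx u hu) hu) h0
        rw [eq_neg_of_add_eq_zero_left this]
        funext i; simp [CharTwo.neg_eq]
    · left; intro u hu; rw [← hW] at hu; exact hu.2
  · left
    intro u hu
    have h2 : (2 : F) ≠ 0 := by
      intro h2
      have : ((2 : ℕ) : F) = 0 := by simpa using h2
      rw [CharP.cast_eq_zero_iff F p] at this
      exact hp ((Nat.prime_dvd_prime_iff_eq Fact.out Nat.prime_two).mp this)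
    have := htot u hu u hu
    rw [QuadraticMap.polar_self] at this
    simpa [h2] using this

end Cfsg.Agent.S2599
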