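import Cfsg.Statements.S2612
import Cfsg.Agent.Eq.Def_ClassicalGeometry
import Cfsg.Agent.OrthGeo.Hyperbolic

set_option autoImplicit false
open Cfsg

namespace Cfsg.Agent.S2612

/-- For the hyperbolic quadratic form Σ x_i y_i on F^(2m) (F finite, m ≥ 1, excluding m = 2 over the field of two elements), Ω⁺_2m(F) (the commutator subgroup of the orthogonal group) contains an element interchanging the two complementary maximal totally singular subspaces {y = 0} and {x = 0} if and only if m is even (dimension divisible by 4). -/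
theorem result {F : Type*} [Field F] [Fintype F] {m : ℕ} (hm : 1 ≤ m) (h : Fintype.card F ≠ 2 ∨ m ≠ 2) : (∃ g : ↥(Cfsg.isometryGroup F (Cfsg.quadFormPlus m F)), g ∈ Cfsg.Omega F (Cfsg.quadFormPlus m F) ∧ (∀ v : Fin m ⊕ Fin m → F, (∀ i, v (Sum.inr i) = 0) → ∀ i, (((g : Matrix.GeneralLinearGroup (Fin m ⊕ Fin m) F) : Matrix (Fin m ⊕ Fin m) (Fin m ⊕ Fin m) F).mulVec v) (Sum.inl i) = 0) ∧ (∀ v : Fin m ⊕ Fin m → F, (∀ i, v (Sum.inl i) = 0) → ∀ i, (((g : Matrix.GeneralLinearGroup (Fin m ⊕ Fin m) F) : Matrix (Fin m ⊕ Fin m) (Fin m ⊕ Fin m) F).mulVec v) (Sum.inr i) = 0)) ↔ Even m := by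
  have hQ := CfsgLib.OrthGeo.isNondegenerateQuadraticForm_quadFormPlus (F := F) m
  have hexc := CfsgLib.OrthGeo.plus_exc (F := F) h
  have hU := CfsgLib.OrthGeo.isMaxTS_plus_inr (F := F) (m := m)
  have hW := CfsgLib.OrthGeo.isMaxTS_plus_inl (F := F) (m := m)
  set U := LinearMap.ker (LinearMap.funLeft F F (Sum.inr : Fin m → Fin m ⊕ Fin m)) with hUdef
  set W := LinearMap.ker (LinearMap.funLeft F F (Sum.inl : Fin m → Fin m ⊕ Fin m)) with hWdef
  have hdU : Module.finrank F U = m := CfsgLib.OrthGeo.finrank_ker_funLeft _ Sum.inr_injective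
  have hdW : Module.finrank F W = m := CfsgLib.OrthGeo.finrank_ker_funLeft _ Sum.inl_injective
  constructor
  · rintro ⟨g, hg, hgU, -⟩
    have himg : CfsgLib.OrthGeo.imgSub (g : Matrix.GeneralLinearGroup (Fin m ⊕ Fin m) F) U = W := by
      refine Submodule.eq_of_le_of_finrank_le ?_ (by rw [CfsgLib.OrthGeo.finrank_imgSub, hdU, hdW])
      rintro _ ⟨v, hv, rfl⟩
      rw [hWdef, CfsgLib.OrthGeo.plus_zero_inl_iff, Matrix.toLin'_apply]
      exact hgU v (CfsgLib.OrthGeo.plus_zero_inr_iff.1 hv)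
    have := CfsgLib.OrthGeo.omega_preserves_class hQ hU (g := (g : Matrix.GeneralLinearGroup (Fin m ⊕ Fin m) F))
      ⟨g, hg, rfl⟩
    rw [himg, hUdef, hWdef, CfsgLib.OrthGeo.plus_inr_inf_inl, finrank_bot, add_zero, ← hUdef, hdU] at this
    exact this
  · intro hev
    have hpair : ∀ u ∈ U, u ≠ 0 → ∃ w ∈ W, CfsgLib.OrthGeo.bform hQ u w ≠ 0 := by
      intro u hu hu0
      by_contra hcon
      push Not at hcon
      have huW : u ∈ W := by
        rw [← hW.perp_eq hQ, CfsgLib.OrthGeo.mem_perp' hQ]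
        exact hcon
      have hbot : u ∈ U ⊓ W := ⟨hu, huW⟩
      rw [hUdef, hWdef, CfsgLib.OrthGeo.plus_inr_inf_inl, Submodule.mem_bot] at hbot
      exact hu0 hbot
    obtain ⟨g, hg, hgU, hgW, -⟩ := CfsgLib.OrthGeo.exists_swap_paired hQ
      (Cfsg.Geo.omegaGL (Cfsg.quadFormPlus m F))
      (fun u x hu hx hux => CfsgLib.OrthGeo.eichler_singular_mem_omega hQ hexc hu hx hux)
      m U W hU.singular hW.singular hdU hdW hpair hev
    obtain ⟨g', hg', rfl⟩ := hg
    refine ⟨g', hg', fun v hv => ?_, fun v hv => ?_⟩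
    · refine CfsgLib.OrthGeo.plus_zero_inl_iff.1 (?_ : _ ∈ W)
      rw [← hgU]
      exact CfsgLib.OrthGeo.mem_imgSub.2 ⟨v, CfsgLib.OrthGeo.plus_zero_inr_iff.2 hv, rfl⟩
    · refine CfsgLib.OrthGeo.plus_zero_inr_iff.1 (?_ : _ ∈ U)
      rw [← hgW]
      exact CfsgLib.OrthGeo.mem_imgSub.2 ⟨v, CfsgLib.OrthGeo.plus_zero_inl_iff.2 hv, rfl⟩

end Cfsg.Agent.S2612
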