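import Cfsg.Statements.S2613
import Cfsg.Agent.Eq.Def_Classical
import Cfsg.Agent.Eq.Def_ClassicalGeometry
import Cfsg.Agent.Classical.Orth.Diag
import Cfsg.Agent.Classical.Orth.Pairs
import Cfsg.Agent.Classical.Orth.Forms

set_option autoImplicit false
open Cfsg

namespace Cfsg.Agent.S2613
open CfsgLib.Classical.Orth CfsgLib.OrthGeo


/-- For the hyperbolic form Σ x_j y_j on F^(2m), F finite with q elements, q odd, and 1 ≤ i ≤ m: the involution negating the first i hyperbolic pairs (x_j, y_j ↦ −x_j, −y_j for j < i) and fixing the rest lies in Ω⁺_2m(q) (commutator subgroup of the orthogonal group) if and only if q^i ≡ 1 (mod 4); its (−1)-eigenspace is a hyperbolic 2i-space. -/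
theorem result {F : Type*} [Field F] [Fintype F] {q : ℕ} (hF : Fintype.card F = q) (hq : Odd q) {m : ℕ} (i : ℕ) (hi : 1 ≤ i) (him : i ≤ m) : (∃ g : ↥(Cfsg.isometryGroup F (Cfsg.quadFormPlus m F)), g ∈ Cfsg.Omega F (Cfsg.quadFormPlus m F) ∧ ((g : Matrix.GeneralLinearGroup (Fin m ⊕ Fin m) F) : Matrix (Fin m ⊕ Fin m) (Fin m ⊕ Fin m) F) = Matrix.diagonal (fun k : Fin m ⊕ Fin m => if (Sum.elim (fun j : Fin m => (j : ℕ)) (fun j : Fin m => (j : ℕ)) k) < i then (-1 : F) else 1)) ↔ q ^ i % 4 = 1 := by
  have h2 : (2 : F) ≠ 0 := by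
    intro h2
    have h0 := FiniteField.even_card_of_char_two (F := F)
      (CharP.ringChar_of_prime_eq_zero Nat.prime_two (by simpa using h2))
    rw [hF, Nat.odd_iff.mp hq] at h0
    exact absurd h0 one_ne_zero
  have hN := isNondegQF_quadFormPlus (F := F) m
  rw [diag_pairs_mem_omega_iff hN h2 (fun j : Fin i => (Sum.inl (j.castLE him) : Fin m ⊕ Fin m))
    (fun j => Sum.inr (j.castLE him))]
  · exact isSquare_neg_one_pow_iff hF hq i
  · intro j; simp [quadFormPlus, Pi.single_apply]
  · intro j; simp [quadFormPlus, Pi.single_apply]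
  · intro j c
    rcases c with c | c <;>
      simp [QuadraticMap.polar, quadFormPlus, Pi.single_apply, add_mul, mul_add, Finset.sum_add_distrib, eq_comm]
  · intro j c
    rcases c with c | c <;>
      simp [QuadraticMap.polar, quadFormPlus, Pi.single_apply, add_mul, mul_add, Finset.sum_add_distrib, eq_comm]
  · intro j; simp
  · intro j; simp
  · intro c hc
    rw [if_neg]
    intro hlt
    rcases c with c | c
    · exact (hc ⟨c, hlt⟩).1 rfl
    · exact (hc ⟨c, hlt⟩).2 rfl
  · simp
  · intro j l h; simpa using h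
  · intro j l h; simpa using h

end Cfsg.Agent.S2613
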