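import Cfsg.Statements.S2615
import Cfsg.Agent.Eq.Def_Classical
import Cfsg.Agent.Eq.Def_ClassicalGeometry
import Cfsg.Agent.Classical.Orth.Diag
import Cfsg.Agent.Classical.Orth.Pairs
import Cfsg.Agent.Classical.Orth.Forms

set_option autoImplicit false
open Cfsg

namespace Cfsg.Agent.S2615
open CfsgLib.Classical.Orth CfsgLib.OrthGeo


/-- For an elliptic form Σ_(j<m−1) x_j y_j + (z₁² + a z₁z₂ + b z₂²) (anisotropic binary part) on F^(2m), F finite with q elements, q odd, and 1 ≤ i ≤ m − 1: the involution negating the first i hyperbolic pairs and fixing the rest lies in Ω⁻_2m(q) (commutator subgroup of the orthogonal group) if and only if q^i ≡ 1 (mod 4). -/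
theorem result {F : Type*} [Field F] [Fintype F] {q : ℕ} (hF : Fintype.card F = q) (hq : Odd q) {m : ℕ} (a b : F) (hab : ∀ z₁ z₂ : F, z₁ ^ 2 + a * z₁ * z₂ + b * z₂ ^ 2 = 0 → z₁ = 0 ∧ z₂ = 0) (i : ℕ) (hi : 1 ≤ i) (him : i + 1 ≤ m) : (∃ g : ↥(Cfsg.isometryGroup F (Cfsg.quadFormMinus (m - 1) F a b)), g ∈ Cfsg.Omega F (Cfsg.quadFormMinus (m - 1) F a b) ∧ ((g : Matrix.GeneralLinearGroup ((Fin (m - 1) ⊕ Fin (m - 1)) ⊕ Fin 2) F) : Matrix ((Fin (m - 1) ⊕ Fin (m - 1)) ⊕ Fin 2) ((Fin (m - 1) ⊕ Fin (m - 1)) ⊕ Fin 2) F) = Matrix.diagonal (fun k : (Fin (m - 1) ⊕ Fin (m - 1)) ⊕ Fin 2 => if (Sum.elim (Sum.elim (fun j : Fin (m - 1) => (j : ℕ)) (fun j : Fin (m - 1) => (j : ℕ))) (fun _ : Fin 2 => i) k) < i then (-1 : F) else 1)) ↔ q ^ i % 4 = 1 := by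
  have h2 : (2 : F) ≠ 0 := by
    intro h2
    have h0 := FiniteField.even_card_of_char_two (F := F)
      (CharP.ringChar_of_prime_eq_zero Nat.prime_two (by simpa using h2))
    rw [hF, Nat.odd_iff.mp hq] at h0
    exact absurd h0 one_ne_zero
  have hN := isNondegQF_quadFormMinus (F := F) (m - 1) a b hab
  have him' : i ≤ m - 1 := by omega
  rw [diag_pairs_mem_omega_iff hN h2
    (fun j : Fin i => (Sum.inl (Sum.inl (j.castLE him')) : (Fin (m - 1) ⊕ Fin (m - 1)) ⊕ Fin 2))
    (fun j => Sum.inl (Sum.inr (j.castLE him')))]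
  · exact isSquare_neg_one_pow_iff hF hq i
  · intro j; simp [quadFormMinus, Pi.single_apply]
  · intro j; simp [quadFormMinus, Pi.single_apply]
  · intro j c
    rcases c with (c | c) | c <;>
      simp [QuadraticMap.polar, quadFormMinus, Pi.single_apply, add_mul, mul_add, Finset.sum_add_distrib, eq_comm]
  · intro j c
    rcases c with (c | c) | c <;>
      simp [QuadraticMap.polar, quadFormMinus, Pi.single_apply, add_mul, mul_add, Finset.sum_add_distrib, eq_comm]
  · intro j; simp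
  · intro j; simp
  · intro c hc
    rw [if_neg]
    intro hlt
    rcases c with (c | c) | c
    · exact (hc ⟨c, hlt⟩).1 rfl
    · exact (hc ⟨c, hlt⟩).2 rfl
    · simp at hlt
  · simp
  · intro j l h; simpa using h
  · intro j l h; simpa using h

end Cfsg.Agent.S2615
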