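import Cfsg.Statements.S2616
import Cfsg.Agent.LinAlg.Witt.Decomp

set_option autoImplicit false
open Cfsg

namespace Cfsg.Agent.S2616

/-- Standard bases of a non-degenerate quadratic space of even dimension 2m over a finite field: either there is a hyperbolic basis e_i, f_i (Q(e_i) = Q(f_i) = 0, B(e_i, f_j) = δ_ij, the e's pairwise orthogonal and the f's pairwise orthogonal, B the polar form), or there is an elliptic basis: hyperbolic pairs e_i, f_i for i < m − 1 together with x, y orthogonal to them with Q(x) = 1, B(x, y) = 1, Q(y) = ζ where t² + t + ζ has no root in the field. -/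
theorem result {F V : Type*} [Field F] [Finite F] [AddCommGroup V] [Module F V] [FiniteDimensional F V] {m : ℕ} (hm : 1 ≤ m) (hV : Module.finrank F V = 2 * m) (Q : QuadraticForm F V) (hQ : (QuadraticMap.polarBilin Q).Nondegenerate) : (∃ b : Module.Basis (Fin m ⊕ Fin m) F V, (∀ i, Q (b (Sum.inl i)) = 0 ∧ Q (b (Sum.inr i)) = 0) ∧ (∀ i j, QuadraticMap.polar ⇑Q (b (Sum.inl i)) (b (Sum.inr j)) = if i = j then 1 else 0) ∧ (∀ i j, QuadraticMap.polar ⇑Q (b (Sum.inl i)) (b (Sum.inl j)) = 0 ∧ QuadraticMap.polar ⇑Q (b (Sum.inr i)) (b (Sum.inr j)) = 0)) ∨ (∃ (b : Module.Basis ((Fin (m - 1) ⊕ Fin (m - 1)) ⊕ Fin 2) F V) (ζ : F), (∀ t : F, t ^ 2 + t + ζ ≠ 0) ∧ (∀ i, Q (b (Sum.inl (Sum.inl i))) = 0 ∧ Q (b (Sum.inl (Sum.inr i))) = 0) ∧ (∀ i j, QuadraticMap.polar ⇑Q (b (Sum.inl (Sum.inl i))) (b (Sum.inl (Sum.inr j))) = if i = j then 1 else 0) ∧ (∀ i j, QuadraticMap.polar ⇑Q (b (Sum.inl (Sum.inl i))) (b (Sum.inl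 (Sum.inl j))) = 0 ∧ QuadraticMap.polar ⇑Q (b (Sum.inl (Sum.inr i))) (b (Sum.inl (Sum.inr j))) = 0) ∧ (∀ i (k : Fin 2), QuadraticMap.polar ⇑Q (b (Sum.inl (Sum.inl i))) (b (Sum.inr k)) = 0 ∧ QuadraticMap.polar ⇑Q (b (Sum.inl (Sum.inr i))) (b (Sum.inr k)) = 0) ∧ Q (b (Sum.inr 0)) = 1 ∧ QuadraticMap.polar ⇑Q (b (Sum.inr 0)) (b (Sum.inr 1)) = 1 ∧ Q (b (Sum.inr 1)) = ζ) := by
  classical
  obtain ⟨r, e, f, W₀, hd⟩ := CfsgLib.LinAlg.Witt.exists_wittDecomp Q (Module.finrank F V) ⊤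
    (by rw [finrank_top]) (fun w _ h => hQ.1 w fun w' => h w' trivial)
  have hle := CfsgLib.LinAlg.Witt.finrank_le_two_of_aniso Q W₀ hd.aniso
  have hdim := hd.dim
  rw [finrank_top, hV] at hdim
  obtain ⟨h0, rfl⟩ | ⟨h0, rfl⟩ : (Module.finrank F W₀ = 0 ∧ r = m) ∨
      (Module.finrank F W₀ = 2 ∧ r = m - 1) := by omega
  · left
    have hbot : W₀ = ⊥ := Submodule.finrank_eq_zero.1 h0
    have hspan : ⊤ ≤ Submodule.span F (Set.range (Sum.elim e f)) := by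
      rw [Set.Sum.elim_range]
      simpa [hbot] using hd.span
    refine ⟨basisOfTopLeSpanOfCardEqFinrank _ hspan
      (by rw [Fintype.card_sum, Fintype.card_fin, hV]; ring), ?_, ?_, ?_⟩ <;>
      rw [coe_basisOfTopLeSpanOfCardEqFinrank]
    · exact fun i => ⟨hd.qe i, hd.qf i⟩
    · exact hd.ef
    · exact fun i j => ⟨hd.ee i j, hd.ff i j⟩
  · right
    obtain ⟨v, w, hv, hw, -, hsp, hQv, hvw, hz⟩ :=
      CfsgLib.LinAlg.Witt.aniso_plane Q W₀ h0 hd.aniso hd.nondeg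
    have hspan : ⊤ ≤ Submodule.span F (Set.range (Sum.elim (Sum.elim e f) ![v, w])) := by
      rw [Set.Sum.elim_range, Set.Sum.elim_range, Matrix.range_cons_cons_empty,
        Submodule.span_union]
      exact hd.span.trans (sup_le_sup le_rfl hsp)
    refine ⟨basisOfTopLeSpanOfCardEqFinrank _ hspan
      (by simp only [Fintype.card_sum, Fintype.card_fin, hV]; omega), Q w, hz, ?_⟩
    rw [coe_basisOfTopLeSpanOfCardEqFinrank]
    refine ⟨fun i => ⟨hd.qe i, hd.qf i⟩, hd.ef, fun i j => ⟨hd.ee i j, hd.ff i j⟩,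
      fun i k => ?_, hQv, hvw, rfl⟩
    fin_cases k
    · exact ⟨hd.ew i v hv, hd.fw i v hv⟩
    · exact ⟨hd.ew i w hw, hd.fw i w hw⟩

end Cfsg.Agent.S2616
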