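import Cfsg.Statements.S2617
import Cfsg.Agent.Eq.Def_Classical

set_option autoImplicit false
open Cfsg

namespace Cfsg.Agent.S2617


/-- The two standard quadratic forms of even dimension 2m over a finite field are not isometric: there is no linear isomorphism carrying the elliptic form Σ_(i<m−1) x_i y_i + z₁² + z₁z₂ + ζ z₂² (t² + t + ζ without roots) to the hyperbolic form Σ_(i<m) x_i y_i (they have different Witt index). -/
theorem result {F : Type*} [Field F] [Finite F] {m : ℕ} (hm : 1 ≤ m) (ζ : F) (hζ : ∀ t : F, t ^ 2 + t + ζ ≠ 0) (g : (Fin m ⊕ Fin m → F) ≃ₗ[F] ((Fin (m - 1) ⊕ Fin (m - 1)) ⊕ Fin 2 → F)) : ¬ (∀ v : Fin m ⊕ Fin m → F, Cfsg.quadFormMinus (m - 1) F 1 ζ (g v) = Cfsg.quadFormPlus m F v) := by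
  classical
  intro hg
  obtain ⟨k, rfl⟩ : ∃ k, m = k + 1 := ⟨m - 1, by omega⟩
  change (Fin (k + 1) ⊕ Fin (k + 1) → F) ≃ₗ[F] ((Fin k ⊕ Fin k) ⊕ Fin 2 → F) at g
  change ∀ v, quadFormMinus k F 1 ζ (g v) = quadFormPlus (k + 1) F v at hg
  let E : (Fin (k + 1) → F) →ₗ[F] (Fin (k + 1) ⊕ Fin (k + 1) → F) :=
      { toFun := fun x => Sum.elim x (fun _ => 0)
        map_add' := by intro x y; funext i; rcases i with i | i <;> simp
        map_smul' := by intro t x; funext i; rcases i with i | i <;> simp }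
  let T : (Fin (k + 1) → F) →ₗ[F] ((Fin k ⊕ Fin k) ⊕ Fin 2 → F) := g.toLinearMap.comp E
  have hT0 : ∀ x, quadFormMinus k F 1 ζ (T x) = 0 := by
    intro x
    simp [T, E, hg, quadFormPlus]
  have hTinj : ∀ x, T x = 0 → x = 0 := by
    intro x hx
    have : (Sum.elim x (fun _ => 0) : Fin (k + 1) ⊕ Fin (k + 1) → F) = 0 := by
      apply g.injective; simpa [T, E] using hx
    funext i; simpa using congrFun this (Sum.inl i)
  let L : (Fin (k + 1) → F) →ₗ[F] (Fin k → F) := (LinearMap.funLeft F F (fun i => Sum.inl (Sum.inl i))).comp T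
  let P : (Fin (k + 1) → F) →ₗ[F] (Fin k → F) := (LinearMap.funLeft F F (fun i => Sum.inl (Sum.inr i))).comp T
  let K := LinearMap.ker P
  have hz : ∀ x ∈ K, T x (Sum.inr 0) = 0 ∧ T x (Sum.inr 1) = 0 := by
    intro x hx
    have h0 := hT0 x
    have hP : ∀ i, T x (Sum.inl (Sum.inr i)) = 0 := fun i => congrFun (LinearMap.mem_ker.mp hx) i
    simp only [quadFormMinus, hP, mul_zero, Finset.sum_const_zero, zero_add, one_mul] at h0
    by_cases hb : T x (Sum.inr 1) = 0
    · refine ⟨?_, hb⟩
      simpa [hb] using h0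
    · exfalso
      apply hζ (T x (Sum.inr 0) / T x (Sum.inr 1))
      field_simp
      linear_combination h0
  have horth : ∀ x ∈ K, ∀ y, dotProductEquiv F (Fin k) (P y) (L x) = 0 := by
    intro x hx y
    have hP : ∀ i, T x (Sum.inl (Sum.inr i)) = 0 := fun i => congrFun (LinearMap.mem_ker.mp hx) i
    have h1 := hT0 (x + y)
    simp only [map_add, quadFormMinus, Pi.add_apply, hP, (hz x hx).1, (hz x hx).2, zero_add, add_mul,
      Finset.sum_add_distrib] at h1
    have h2 := hT0 y
    simp only [quadFormMinus] at h2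
    have h3 : ∑ i, T x (Sum.inl (Sum.inl i)) * T y (Sum.inl (Sum.inr i)) = 0 := by
      linear_combination h1 - h2
    rw [← h3]
    simp [P, L, dotProduct, LinearMap.funLeft_apply, mul_comm]
  have hLinj : Function.Injective (L.domRestrict K) := by
    rw [← LinearMap.ker_eq_bot, LinearMap.ker_eq_bot']
    rintro ⟨x, hx⟩ hLx
    apply Subtype.ext
    apply hTinj
    funext i
    rcases i with (i | i) | i
    · exact congrFun hLx i
    · exact congrFun (LinearMap.mem_ker.mp hx) i
    · fin_cases i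
      · exact (hz x hx).1
      · exact (hz x hx).2
  let S := LinearMap.range (L.domRestrict K)
  have h1 : (LinearMap.range P).map (dotProductEquiv F (Fin k)).toLinearMap ≤ S.dualAnnihilator := by
    rintro _ ⟨_, ⟨y, rfl⟩, rfl⟩
    rw [Submodule.mem_dualAnnihilator]
    rintro _ ⟨⟨x, hx⟩, rfl⟩
    exact horth x hx y
  have h2 := Submodule.finrank_mono h1
  rw [LinearEquiv.finrank_map_eq] at h2
  have h3 := Subspace.finrank_add_finrank_dualAnnihilator_eq S
  have h4 : Module.finrank F S = Module.finrank F K := LinearMap.finrank_range_of_inj hLinj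
  have h5 := LinearMap.finrank_range_add_finrank_ker P
  simp only [Module.finrank_fin_fun] at h3 h5
  change Module.finrank F (LinearMap.range P) + Module.finrank F K = k + 1 at h5
  omega

end Cfsg.Agent.S2617
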