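import Cfsg.Statements.S2618
import Cfsg.Agent.LinAlg.Witt.Decomp

set_option autoImplicit false
open Cfsg

namespace Cfsg.Agent.S2618

/-- Standard (parabolic) basis of a non-degenerate quadratic space of odd dimension 2m + 1 over a finite field (the non-degeneracy of the polar form forces the characteristic to be odd): there is a basis e_i, f_i (i < m), x with Q(e_i) = Q(f_i) = 0, B(e_i, f_j) = δ_ij (B the polar form), the e's pairwise orthogonal and the f's pairwise orthogonal, x orthogonal to all of them and Q(x) ≠ 0. -/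
theorem result {F V : Type*} [Field F] [Finite F] [AddCommGroup V] [Module F V] [FiniteDimensional F V] {m : ℕ} (hV : Module.finrank F V = 2 * m + 1) (Q : QuadraticForm F V) (hQ : (QuadraticMap.polarBilin Q).Nondegenerate) : ∃ b : Module.Basis (Unit ⊕ (Fin m ⊕ Fin m)) F V, Q (b (Sum.inl ())) ≠ 0 ∧ (∀ i, QuadraticMap.polar ⇑Q (b (Sum.inl ())) (b (Sum.inr (Sum.inl i))) = 0 ∧ QuadraticMap.polar ⇑Q (b (Sum.inl ())) (b (Sum.inr (Sum.inr i))) = 0) ∧ (∀ i, Q (b (Sum.inr (Sum.inl i))) = 0 ∧ Q (b (Sum.inr (Sum.inr i))) = 0) ∧ (∀ i j, QuadraticMap.polar ⇑Q (b (Sum.inr (Sum.inl i))) (b (Sum.inr (Sum.inr j))) = if i = j then 1 else 0) ∧ (∀ i j, QuadraticMap.polar ⇑Q (b (Sum.inr (Sum.inl i))) (b (Sum.inr (Sum.inl j))) = 0 ∧ QuadraticMap.polar ⇑Q (b (Sum.inr (Sum.inr i))) (b (Sum.inr (Sum.inr j))) = 0) := by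
  classical
  obtain ⟨r, e, f, W₀, hd⟩ := CfsgLib.LinAlg.Witt.exists_wittDecomp Q (Module.finrank F V) ⊤
    (by rw [finrank_top]) (fun w _ h => hQ.1 w fun w' => h w' trivial)
  have hle := CfsgLib.LinAlg.Witt.finrank_le_two_of_aniso Q W₀ hd.aniso
  have hdim := hd.dim
  rw [finrank_top, hV] at hdim
  obtain ⟨h0, rfl⟩ : Module.finrank F W₀ = 1 ∧ r = m := by omega
  haveI : Nontrivial W₀ := Module.nontrivial_of_finrank_pos (R := F) (by omega)
  obtain ⟨⟨w, hw⟩, hw0⟩ := exists_ne (0 : W₀)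
  have hw0' : w ≠ 0 := fun h => hw0 (Subtype.ext h)
  have hW : Submodule.span F {w} = W₀ :=
    Submodule.eq_of_le_of_finrank_eq ((Submodule.span_singleton_le_iff_mem _ _).2 hw)
      (by rw [finrank_span_singleton hw0', h0])
  have hspan : ⊤ ≤ Submodule.span F (Set.range (Sum.elim (fun _ : Unit => w) (Sum.elim e f))) := by
    rw [Set.Sum.elim_range, Set.Sum.elim_range, Set.range_const, Submodule.span_union, sup_comm, hW]
    exact hd.span
  refine ⟨basisOfTopLeSpanOfCardEqFinrank _ hspan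
    (by simp only [Fintype.card_sum, Fintype.card_fin, Fintype.card_unit, hV]; omega), ?_⟩
  rw [coe_basisOfTopLeSpanOfCardEqFinrank]
  exact ⟨fun h => hw0' (hd.aniso w hw h),
    fun i => ⟨by rw [QuadraticMap.polar_comm]; exact hd.ew i w hw,
      by rw [QuadraticMap.polar_comm]; exact hd.fw i w hw⟩,
    fun i => ⟨hd.qe i, hd.qf i⟩, hd.ef, fun i j => ⟨hd.ee i j, hd.ff i j⟩⟩

end Cfsg.Agent.S2618
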