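import Cfsg.Statements.S2619

set_option autoImplicit false
open Cfsg

namespace Cfsg.Agent.S2619


/-- Over a finite field of characteristic two, given an alternating bilinear form B on a finite-dimensional space, a basis (v_i) and scalars (λ_i), there is exactly one quadratic form whose polar form is B and whose value at each v_i is λ_i. -/
theorem result {F V ι : Type*} [Field F] [Finite F] [CharP F 2] [AddCommGroup V] [Module F V] [Fintype ι] (b : Module.Basis ι F V) (B : LinearMap.BilinForm F V) (hB : B.IsAlt) (c : ι → F) : ∃! Q : QuadraticForm F V, QuadraticMap.polarBilin Q = B ∧ ∀ i, Q (b i) = c i := by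
  classical
  let e := Fintype.equivFin ι
  let A : LinearMap.BilinForm F V := b.constr F (fun i => b.constr F (fun j =>
    if e i < e j then B (b i) (b j) else if i = j then c i else 0))
  have hA : ∀ i j, A (b i) (b j) = if e i < e j then B (b i) (b j) else if i = j then c i else 0 := by
    intro i j; simp only [A, Module.Basis.constr_basis]
  have hAB : A + A.flip = B := by
    refine b.ext fun i => b.ext fun j => ?_
    simp only [LinearMap.add_apply, LinearMap.BilinForm.flip_apply, LinearMap.flip_apply, hA]
    rcases lt_trichotomy (e i) (e j) with h | h | h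
    · rw [if_pos h, if_neg (not_lt.mpr h.le), if_neg (fun hh => h.ne (by rw [hh])), add_zero]
    · obtain rfl := e.injective h
      rw [if_neg (lt_irrefl _), if_pos rfl, CharTwo.add_self_eq_zero, hB (b i)]
    · rw [if_pos h, if_neg (not_lt.mpr h.le), if_neg (fun hh => h.ne (by rw [hh])), zero_add]
      rw [← LinearMap.IsAlt.neg hB (b i) (b j), CharTwo.neg_eq]
  refine ⟨LinearMap.BilinMap.toQuadraticMap A, ⟨?_, ?_⟩, ?_⟩
  · rw [LinearMap.BilinMap.polarBilin_toQuadraticMap]; exact hAB
  · intro i
    rw [LinearMap.BilinMap.toQuadraticMap_apply, hA, if_neg (lt_irrefl _), if_pos rfl]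
  · rintro Q ⟨hQ1, hQ2⟩
    set Q' := LinearMap.BilinMap.toQuadraticMap A with hQ'
    have hp : QuadraticMap.polarBilin Q' = B := by
      rw [hQ', LinearMap.BilinMap.polarBilin_toQuadraticMap]; exact hAB
    have hv : ∀ i, Q' (b i) = c i := by
      intro i
      rw [hQ', LinearMap.BilinMap.toQuadraticMap_apply, hA, if_neg (lt_irrefl _), if_pos rfl]
    apply QuadraticMap.ext
    intro v
    have hv' : v = ∑ i, b.repr v i • b i := (b.sum_repr v).symm
    rw [hv']
    induction (Finset.univ : Finset ι) using Finset.induction with
    | empty => simp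
    | insert a s ha ih =>
      rw [Finset.sum_insert ha]
      generalize hw : ∑ i ∈ s, b.repr v i • b i = w at ih
      have h1 := QuadraticMap.map_add Q (b.repr v a • b a) w
      have h2 := QuadraticMap.map_add Q' (b.repr v a • b a) w
      rw [h1, h2, ← QuadraticMap.polarBilin_apply_apply, ← QuadraticMap.polarBilin_apply_apply, hQ1, hp,
        QuadraticMap.map_smul, QuadraticMap.map_smul, hQ2, hv, ih]

end Cfsg.Agent.S2619
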