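import Cfsg.Statements.S2622
import Mathlib

set_option autoImplicit false
open Cfsg

namespace Cfsg.Agent.S2622

open Module in
theorem perp_step {F V : Type*} [Field F] [AddCommGroup V] [Module F V] [FiniteDimensional F V]
    (B : LinearMap.BilinForm F V) (hS : B.IsSymm) (W : Submodule F V)
    (hnd : ∀ w ∈ W, (∀ w' ∈ W, B w w' = 0) → w = 0) (u : V) (hu : u ∈ W) (huu : B u u = 1) :
    ∃ W' : Submodule F V, W' ≤ W ∧ finrank F W' + 1 = finrank F W ∧
      (∀ w, w ∈ W' ↔ w ∈ W ∧ B u w = 0) ∧ ∀ w ∈ W', (∀ w' ∈ W', B w w' = 0) → w = 0 := by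
  set φ := (B u).domRestrict W with hφ
  have hmem : ∀ w, w ∈ (LinearMap.ker φ).map W.subtype ↔ w ∈ W ∧ B u w = 0 := by
    intro w
    constructor
    · rintro ⟨⟨w, hw⟩, hk, rfl⟩
      exact ⟨hw, hk⟩
    · rintro ⟨hw, h⟩
      exact ⟨⟨w, hw⟩, h, rfl⟩
  refine ⟨_, Submodule.map_subtype_le _ _, ?_, hmem, fun w hw hall => ?_⟩
  · have hsurj : LinearMap.range φ = ⊤ := LinearMap.range_eq_top.2 fun c =>
      ⟨c • ⟨u, hu⟩, by simp [hφ, huu]⟩
    rw [Submodule.finrank_map_subtype_eq, ← φ.finrank_range_add_finrank_ker, hsurj, finrank_top,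
      finrank_self, add_comm]
  · obtain ⟨hwW, huw⟩ := (hmem w).1 hw
    refine hnd w hwW fun z hz => ?_
    have h1 := hall (z - B u z • u) ((hmem _).2 ⟨W.sub_mem hz (W.smul_mem _ hu), by simp [huu]⟩)
    rw [map_sub, map_smul, hS.eq w u, huw, smul_zero, sub_zero] at h1
    exact h1

theorem orth_aux {F V : Type*} [Field F] [Finite F] [CharP F 2] [AddCommGroup V] [Module F V]
    [FiniteDimensional F V] (B : LinearMap.BilinForm F V) (hS : B.IsSymm) :
    ∀ (n : ℕ) (W : Submodule F V), Module.finrank F W = n →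
      (∀ w ∈ W, (∀ w' ∈ W, B w w' = 0) → w = 0) → (n = 0 ∨ ∃ v ∈ W, B v v ≠ 0) →
      ∃ b : Fin n → V, (∀ i, b i ∈ W) ∧ ∀ i j, B (b i) (b j) = if i = j then 1 else 0 := by
  intro n
  induction n with
  | zero => exact fun W _ _ _ => ⟨Fin.elim0, fun i => i.elim0, fun i => i.elim0⟩
  | succ n ih =>
      intro W hW hnd hna
      obtain ⟨v₀, hv₀, hv₀0⟩ := hna.resolve_left (by omega)
      obtain ⟨s, hs⟩ := FiniteField.isSquare_of_char_two (ringChar.eq F 2) (B v₀ v₀)⁻¹
      obtain ⟨v, hv, hvv⟩ : ∃ v ∈ W, B v v = 1 :=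
        ⟨s • v₀, W.smul_mem _ hv₀, by
          rw [map_smul, map_smul, LinearMap.smul_apply, smul_eq_mul, smul_eq_mul, ← mul_assoc, ← hs,
            inv_mul_cancel₀ hv₀0]⟩
      -- choose `u` with `B u u = 1` and non-alternating perp
      obtain ⟨u, W', hu, huu, hW', hdim, hmem, hnd', hna'⟩ : ∃ (u : V) (W' : Submodule F V),
          u ∈ W ∧ B u u = 1 ∧ W' ≤ W ∧ Module.finrank F W' + 1 = Module.finrank F W ∧
          (∀ w, w ∈ W' ↔ w ∈ W ∧ B u w = 0) ∧ (∀ w ∈ W', (∀ w' ∈ W', B w w' = 0) → w = 0) ∧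
          (n = 0 ∨ ∃ z ∈ W', B z z ≠ 0) := by
        obtain ⟨W', hle, hdim, hmem, hnd'⟩ := perp_step B hS W hnd v hv hvv
        by_cases hgood : n = 0 ∨ ∃ z ∈ W', B z z ≠ 0
        · exact ⟨v, W', hv, hvv, hle, hdim, hmem, hnd', hgood⟩
        push Not at hgood
        haveI : Nontrivial W' := Module.nontrivial_of_finrank_pos (R := F) (by omega)
        obtain ⟨⟨x, hx⟩, hx0⟩ := exists_ne (0 : W')
        obtain ⟨y₀, hy₀, hxy₀⟩ : ∃ y ∈ W', B x y ≠ 0 := by
          by_contra h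
          push Not at h
          exact hx0 (Subtype.ext (hnd' x hx h))
        obtain ⟨y, hy, hxy⟩ : ∃ y ∈ W', B x y = 1 :=
          ⟨(B x y₀)⁻¹ • y₀, W'.smul_mem _ hy₀, by
            rw [map_smul, smul_eq_mul, inv_mul_cancel₀ hxy₀]⟩
        have huu : B (v + x) (v + x) = 1 := by
          simp [hvv, ((hmem x).1 hx).2, hS.eq x v, hgood.2 x hx]
        obtain ⟨W'', hle', hdim', hmem', hnd''⟩ :=
          perp_step B hS W hnd (v + x) (W.add_mem hv (hle hx)) huu
        refine ⟨v + x, W'', W.add_mem hv (hle hx), huu, hle', hdim', hmem', hnd'',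
          Or.inr ⟨v + y, (hmem' _).2 ⟨W.add_mem hv (hle hy), ?_⟩, ?_⟩⟩
        · simp [hvv, ((hmem y).1 hy).2, hS.eq x v, ((hmem x).1 hx).2, hxy,
            CharTwo.add_self_eq_zero]
        · simp [hvv, ((hmem y).1 hy).2, hS.eq y v, hgood.2 y hy]
      obtain ⟨b, hb, hbo⟩ := ih W' (by omega) hnd' hna'
      refine ⟨Fin.cons u b, Fin.cases hu fun i => hW' (hb i),
        Fin.cases (Fin.cases (by simpa using huu) fun j => ?_) fun i => Fin.cases ?_ fun j => ?_⟩
      · simp [((hmem _).1 (hb j)).2, (Fin.succ_ne_zero j).symm]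
      · simp [hS.eq (b i) u, ((hmem _).1 (hb i)).2]
      · simp [hbo i j]

/-- Over a finite field of characteristic two, a non-degenerate symmetric bilinear form that is not alternating (some vector v has B(v, v) ≠ 0) admits an orthonormal basis. -/
theorem result {F V : Type*} [Field F] [Finite F] [CharP F 2] [AddCommGroup V] [Module F V] [FiniteDimensional F V] {n : ℕ} (hV : Module.finrank F V = n) (B : LinearMap.BilinForm F V) (hS : B.IsSymm) (hB : B.Nondegenerate) (hna : ∃ v : V, B v v ≠ 0) : ∃ b : Module.Basis (Fin n) F V, ∀ i j, B (b i) (b j) = if i = j then 1 else 0 := by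
  classical
  obtain ⟨b, -, hb⟩ := orth_aux B hS n ⊤ (by rw [finrank_top, hV])
    (fun w _ h => hB.1 w fun w' => h w' trivial)
    (Or.inr <| by obtain ⟨v, hv⟩ := hna; exact ⟨v, trivial, hv⟩)
  have hli : LinearIndependent F b := by
    rw [Fintype.linearIndependent_iff]
    intro c hc j
    have h := congrArg (fun t => B t (b j)) hc
    simpa [map_sum, hb] using h
  have hspan : ⊤ ≤ Submodule.span F (Set.range b) :=
    (hli.span_eq_top_of_card_eq_finrank' (by rw [Fintype.card_fin, hV])).ge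
  refine ⟨basisOfTopLeSpanOfCardEqFinrank b hspan (by rw [Fintype.card_fin, hV]), fun i j => ?_⟩
  rw [coe_basisOfTopLeSpanOfCardEqFinrank]
  exact hb i j

end Cfsg.Agent.S2622
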