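import Cfsg.Statements.S2623
import Cfsg.Agent.LinAlg.Witt.Discr

set_option autoImplicit false
open Cfsg

namespace Cfsg.Agent.S2623

/-- Over a finite field of odd order, two quadratic forms on F^n with non-degenerate polar forms are isometric (related by an invertible linear change of variables) if and only if their discriminants (determinants of the Gram matrices of their polar forms) lie in the same square class. -/
theorem result {F : Type*} [Field F] [Fintype F] (h2 : (2 : F) ≠ 0) {n : ℕ} (Q₁ Q₂ : QuadraticForm F (Fin n → F)) (h₁ : (QuadraticMap.polarBilin Q₁).Nondegenerate) (h₂ : (QuadraticMap.polarBilin Q₂).Nondegenerate) : (∃ g : (Fin n → F) ≃ₗ[F] (Fin n → F), ∀ v, Q₂ (g v) = Q₁ v) ↔ IsSquare ((Matrix.of (fun i j : Fin n => QuadraticMap.polar ⇑Q₁ (Pi.single i 1) (Pi.single j 1))).det * (Matrix.of (fun i j : Fin n => QuadraticMap.polar ⇑Q₂ (Pi.single i 1) (Pi.single j 1))).det) := by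
  classical
  have hker : ∀ Q : QuadraticForm F (Fin n → F), (QuadraticMap.polarBilin Q).Nondegenerate →
      LinearMap.ker (QuadraticMap.polarBilin Q) = ⊥ := fun Q h =>
    LinearMap.separatingLeft_iff_ker_eq_bot.1 h.1
  have hg : ∀ Q : QuadraticForm F (Fin n → F), (Matrix.of (fun i j : Fin n =>
      QuadraticMap.polar ⇑Q (Pi.single i 1) (Pi.single j 1))) =
      CfsgLib.LinAlg.Witt.gram (QuadraticMap.polarBilin Q) (Pi.basisFun F (Fin n)) := fun Q =>
    Matrix.ext fun i j => by simp [CfsgLib.LinAlg.Witt.gram_apply]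
  rw [hg Q₁, hg Q₂]
  constructor
  · rintro ⟨g, hgv⟩
    obtain ⟨s, hs0, hs⟩ := CfsgLib.LinAlg.Witt.exists_det_gram_eq (QuadraticMap.polarBilin Q₂)
      (Pi.basisFun F (Fin n)) ((Pi.basisFun F (Fin n)).map g)
    have he : CfsgLib.LinAlg.Witt.gram (QuadraticMap.polarBilin Q₂)
        ((Pi.basisFun F (Fin n)).map g) =
        CfsgLib.LinAlg.Witt.gram (QuadraticMap.polarBilin Q₁) (Pi.basisFun F (Fin n)) :=
      Matrix.ext fun i j => by
        simp [CfsgLib.LinAlg.Witt.gram_apply, QuadraticMap.polar, ← map_add, hgv]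
    rw [he] at hs
    rw [hs]
    exact ⟨s * (CfsgLib.LinAlg.Witt.gram (QuadraticMap.polarBilin Q₂)
      (Pi.basisFun F (Fin n))).det, by ring⟩
  · intro h
    obtain ⟨g, hgv⟩ := CfsgLib.LinAlg.Witt.exists_isometry_of_det h2 (QuadraticMap.polarBilin Q₁)
      (QuadraticMap.polarBilin Q₂) (fun u v => QuadraticMap.polar_comm _ u v)
      (fun u v => QuadraticMap.polar_comm _ u v) (hker _ h₁) (hker _ h₂) _ _ h
    refine ⟨g, fun v => ?_⟩
    have h1 := hgv v v
    rw [QuadraticMap.polarBilin_apply_apply, QuadraticMap.polarBilin_apply_apply,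
      QuadraticMap.polar_self, QuadraticMap.polar_self, nsmul_eq_mul, nsmul_eq_mul] at h1
    exact mul_left_cancel₀ h2 (by simpa using h1)

end Cfsg.Agent.S2623
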