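import Cfsg.Statements.S2624
import Cfsg.Agent.LinAlg.Witt.Discr

set_option autoImplicit false
open Cfsg

namespace Cfsg.Agent.S2624

/-- For a quadratic form Q on F^n with non-degenerate polar form, F finite and n ≥ 2 even, every non-zero scalar c is the multiplier of some similarity: there is an invertible linear map g with Q(g v) = c·Q(v) for all v. -/
theorem result {F : Type*} [Field F] [Fintype F] {n : ℕ} (hn : 2 ≤ n) (he : Even n) (Q : QuadraticForm F (Fin n → F)) (hQ : (QuadraticMap.polarBilin Q).Nondegenerate) (c : F) (hc : c ≠ 0) : ∃ g : (Fin n → F) ≃ₗ[F] (Fin n → F), ∀ v, Q (g v) = c * Q v := by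
  classical
  by_cases h2 : (2 : F) = 0
  · haveI : CharP F 2 :=
      CharP.ringChar_of_prime_eq_zero Nat.prime_two (by simpa using h2) ▸ inferInstance
    obtain ⟨s, hs⟩ := FiniteField.isSquare_of_char_two (ringChar.eq F 2) c
    have hs0 : s ≠ 0 := fun h => hc (by rw [hs, h, mul_zero])
    refine ⟨LinearEquiv.smulOfUnit (Units.mk0 s hs0), fun v => ?_⟩
    show Q (s • v) = c * Q v
    rw [QuadraticMap.map_smul, hs, smul_eq_mul]
  · have hker := LinearMap.separatingLeft_iff_ker_eq_bot.1 hQ.1
    have hker' : LinearMap.ker (c • QuadraticMap.polarBilin Q) = ⊥ := by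
      rw [LinearMap.ker_smul _ _ hc, hker]
    obtain ⟨g, hg⟩ := CfsgLib.LinAlg.Witt.exists_isometry_of_det h2 (c • QuadraticMap.polarBilin Q)
      (QuadraticMap.polarBilin Q)
      (fun u v => by simp [QuadraticMap.polar_comm _ u v])
      (fun u v => QuadraticMap.polar_comm _ u v) hker' hker (Pi.basisFun F (Fin n))
      (Pi.basisFun F (Fin n)) (by
        rw [show CfsgLib.LinAlg.Witt.gram (c • QuadraticMap.polarBilin Q)
            (Pi.basisFun F (Fin n)) =
            c • CfsgLib.LinAlg.Witt.gram (QuadraticMap.polarBilin Q) (Pi.basisFun F (Fin n)) from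
          Matrix.ext fun i j => rfl, Matrix.det_smul, Fintype.card_fin, mul_assoc]
        exact (he.isSquare_pow c).mul (IsSquare.mul_self _))
    refine ⟨g, fun v => ?_⟩
    have h1 := hg v v
    simp only [LinearMap.smul_apply, QuadraticMap.polarBilin_apply_apply,
      QuadraticMap.polar_self, nsmul_eq_mul, Nat.cast_ofNat, smul_eq_mul] at h1
    exact mul_left_cancel₀ h2 (by rw [h1]; ring)

end Cfsg.Agent.S2624
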