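import Cfsg.Statements.S2625

set_option autoImplicit false
open Cfsg

namespace Cfsg.Agent.S2625


/-- For a quadratic form Q on F^n with non-degenerate polar form, F finite and n odd (so |F| is odd), the multiplier of any similarity is a square: if g is an invertible linear map with Q(g v) = c·Q(v) for all v then c is a square. -/
theorem result {F : Type*} [Field F] [Fintype F] {n : ℕ} (hn : Odd n) (Q : QuadraticForm F (Fin n → F)) (hQ : (QuadraticMap.polarBilin Q).Nondegenerate) (g : (Fin n → F) ≃ₗ[F] (Fin n → F)) (c : F) (hg : ∀ v, Q (g v) = c * Q v) : IsSquare c := by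
  classical
  by_cases hc : c = 0
  · subst hc; exact IsSquare.zero
  let M : Matrix (Fin n) (Fin n) F := LinearMap.toMatrix' (g : (Fin n → F) →ₗ[F] (Fin n → F))
  let B : LinearMap.BilinForm F (Fin n → F) := QuadraticMap.polarBilin Q
  let G : Matrix (Fin n) (Fin n) F := LinearMap.BilinForm.toMatrix' B
  have hG : G.det ≠ 0 := by
    have := LinearMap.BilinForm.nondegenerate_toMatrix'_iff.mpr hQ
    exact Matrix.nondegenerate_iff_det_ne_zero.mp this
  have hcomp : B.comp (g : (Fin n → F) →ₗ[F] (Fin n → F)) (g : (Fin n → F) →ₗ[F] (Fin n → F)) = c • B := by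
    apply LinearMap.ext; intro u; apply LinearMap.ext; intro v
    simp only [LinearMap.BilinForm.comp_apply, LinearMap.smul_apply, smul_eq_mul, B, QuadraticMap.polarBilin_apply_apply,
      QuadraticMap.polar, LinearEquiv.coe_coe]
    rw [← map_add g u v, hg, hg, hg]; ring
  have hdet : M.det * G.det * M.det = c ^ n * G.det := by
    have h := congrArg LinearMap.BilinForm.toMatrix' hcomp
    rw [LinearMap.BilinForm.toMatrix'_comp, map_smul] at h
    have h' := congrArg Matrix.det h
    rw [Matrix.det_mul, Matrix.det_mul, Matrix.det_transpose, Matrix.det_smul, Fintype.card_fin] at h'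
    exact h'
  have h2 : c ^ n = M.det * M.det := by
    apply mul_right_cancel₀ hG
    rw [← hdet]; ring
  obtain ⟨k, rfl⟩ := hn
  refine ⟨M.det / c ^ k, ?_⟩
  field_simp
  rw [pow_two M.det, ← h2]; ring

end Cfsg.Agent.S2625
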