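import Cfsg.Statements.S2626
import Cfsg.Agent.Eq.Def_Classical

set_option autoImplicit false
open Cfsg

namespace Cfsg.Agent.S2626

theorem map_mem_commutator {G H : Type*} [Group G] [Group H] (f : G →* H) {x : G}
    (hx : x ∈ commutator G) : f x ∈ commutator H := by
  have : f x ∈ (commutator G).map f := Subgroup.mem_map_of_mem f hx
  rw [commutator_def, Subgroup.map_commutator] at this
  exact Subgroup.commutator_mono le_top le_top this

section
variable {F : Type*} [Field F] {k l : ℕ} (Q₁ : (Fin k → F) → F) (Q₂ : (Fin l → F) → F)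

def blockHom : isometryGroup F Q₁ × isometryGroup F Q₂ →*
    Matrix.GeneralLinearGroup (Fin k ⊕ Fin l) F :=
  MonoidHom.toHomUnits
    { toFun := fun g => Matrix.fromBlocks ((g.1 : Matrix.GeneralLinearGroup (Fin k) F) : Matrix (Fin k) (Fin k) F)
        0 0 ((g.2 : Matrix.GeneralLinearGroup (Fin l) F) : Matrix (Fin l) (Fin l) F)
      map_one' := by simp
      map_mul' := by intro a b; simp [Matrix.fromBlocks_multiply] }

theorem blockHom_mem (g : isometryGroup F Q₁ × isometryGroup F Q₂) :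
    blockHom Q₁ Q₂ g ∈ isometryGroup F (fun v : Fin k ⊕ Fin l → F => Q₁ (v ∘ Sum.inl) + Q₂ (v ∘ Sum.inr)) := by
  intro u _
  have h1 := g.1.2 (u ∘ Sum.inl) (u ∘ Sum.inl)
  have h2 := g.2.2 (u ∘ Sum.inr) (u ∘ Sum.inr)
  simp only [Units.coeHom_apply] at h1 h2
  simp [blockHom, MonoidHom.coe_toHomUnits, Matrix.fromBlocks_mulVec, h1, h2]

def sumHom : isometryGroup F Q₁ × isometryGroup F Q₂ →*
    isometryGroup F (fun v : Fin k ⊕ Fin l → F => Q₁ (v ∘ Sum.inl) + Q₂ (v ∘ Sum.inr)) :=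
  (blockHom Q₁ Q₂).codRestrict _ (blockHom_mem Q₁ Q₂)
end

/-- Ω of an orthogonal direct sum contains the product of the Ω's: for quadratic forms Q₁ on F^k and Q₂ on F^l with non-degenerate polar forms (F finite) and Q = Q₁ ⊕ Q₂ on F^(k+l), if g₁ lies in Ω(Q₁) and g₂ in Ω(Q₂) (commutator subgroups of the orthogonal groups) then the block-diagonal isometry diag(g₁, g₂) lies in Ω(Q). -/
theorem result {F : Type*} [Field F] [Fintype F] {k l : ℕ} (Q₁ : QuadraticForm F (Fin k → F)) (Q₂ : QuadraticForm F (Fin l → F)) (h₁ : (QuadraticMap.polarBilin Q₁).Nondegenerate) (h₂ : (QuadraticMap.polarBilin Q₂).Nondegenerate) (g₁ : ↥(Cfsg.isometryGroup F ⇑Q₁)) (g₂ : ↥(Cfsg.isometryGroup F ⇑Q₂)) (hg₁ : g₁ ∈ Cfsg.Omega F ⇑Q₁) (hg₂ : g₂ ∈ Cfsg.Omega F ⇑Q₂) : ∃ g : ↥(Cfsg.isometryGroup F (fun v : Fin k ⊕ Fin l → F => Q₁ (v ∘ Sum.inl) + Q₂ (v ∘ Sum.inr))), g ∈ Cfsg.Omega F (fun v : Fin k ⊕ Fin l → F => Q₁ (v ∘ Sum.inl) +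 Q₂ (v ∘ Sum.inr)) ∧ ((g : Matrix.GeneralLinearGroup (Fin k ⊕ Fin l) F) : Matrix (Fin k ⊕ Fin l) (Fin k ⊕ Fin l) F) = Matrix.fromBlocks ((g₁ : Matrix.GeneralLinearGroup (Fin k) F) : Matrix (Fin k) (Fin k) F) 0 0 ((g₂ : Matrix.GeneralLinearGroup (Fin l) F) : Matrix (Fin l) (Fin l) F) := by
  let f := sumHom (⇑Q₁) (⇑Q₂)
  refine ⟨f (g₁, g₂), ?_, rfl⟩
  have h1 := map_mem_commutator (f.comp (MonoidHom.inl _ _)) hg₁
  have h2 := map_mem_commutator (f.comp (MonoidHom.inr _ _)) hg₂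
  have := mul_mem h1 h2
  simpa [← map_mul] using this

end Cfsg.Agent.S2626
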