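import Cfsg.Statements.S2628
import Cfsg.Agent.Eq.Def_Classical
import Cfsg.Agent.Eq.Def_ClassicalGeometry
import Cfsg.Agent.Classical.Orth.Diag
import Cfsg.Agent.Classical.Orth.Pairs
import Cfsg.Agent.Classical.Orth.Forms
import Cfsg.Agent.Classical.Orth.Sum

set_option autoImplicit false
open Cfsg

namespace Cfsg.Agent.S2628
open CfsgLib.Classical.Orth CfsgLib.OrthGeo

theorem klein_sq {A : Type*} [CommGroup A] (hA : ∀ z : A, z * z = 1) (x y : A) :
    x * (y * x * y) = 1 := by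
  rw [mul_comm y x, mul_assoc x y y, hA y, mul_one, hA x]


/-- For the orthogonal direct sum Q ⊕ Q of two copies of a quadratic form Q with non-degenerate polar form on F^k (F finite), every isometry g of Q acting diagonally, diag(g, g), lies in Ω(Q ⊕ Q), the commutator subgroup of the orthogonal group of Q ⊕ Q. (Excluded: k = 2 over the field of two elements, where Q ⊕ Q is the hyperbolic 4-space whose orthogonal group's commutator subgroup is smaller than the group usually called Ω.) -/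
theorem result {F : Type*} [Field F] [Fintype F] {k : ℕ} (h : Fintype.card F ≠ 2 ∨ k ≠ 2) (Q : QuadraticForm F (Fin k → F)) (hQ : (QuadraticMap.polarBilin Q).Nondegenerate) (g : ↥(Cfsg.isometryGroup F ⇑Q)) : ∃ x : ↥(Cfsg.isometryGroup F (fun v : Fin k ⊕ Fin k → F => Q (v ∘ Sum.inl) + Q (v ∘ Sum.inr))), x ∈ Cfsg.Omega F (fun v : Fin k ⊕ Fin k → F => Q (v ∘ Sum.inl) + Q (v ∘ Sum.inr)) ∧ ((x : Matrix.GeneralLinearGroup (Fin k ⊕ Fin k) F) : Matrix (Fin k ⊕ Fin k) (Fin k ⊕ Fin k) F) = Matrix.fromBlocks ((g : Matrix.GeneralLinearGroup (Fin k) F) : Matrix (Fin k) (Fin k) F) 0 0 ((g : Matrix.GeneralLinearGroup (Fin k) F) : Matrix (Fin k) (Fin k) F) := by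
  classical
  have hN₁ := isNondegQF_of_quadraticForm Q hQ
  have hN := isNondegQF_sum hN₁ hN₁
  have hexc : ¬ (Nat.card F = 2 ∧ Fintype.card (Fin k ⊕ Fin k) = 4) := by
    rintro ⟨hc, h4⟩
    rw [Nat.card_eq_fintype_card] at hc
    simp only [Fintype.card_sum, Fintype.card_fin] at h4
    rcases h with h | h <;> omega
  let G : Subgroup (Matrix.GeneralLinearGroup (Fin k ⊕ Fin k) F) :=
    Cfsg.isometryGroup F (fun v : Fin k ⊕ Fin k → F => Q (v ∘ Sum.inl) + Q (v ∘ Sum.inr))
  let A : Matrix (Fin k) (Fin k) F := ((g : Matrix.GeneralLinearGroup (Fin k) F) : Matrix (Fin k) (Fin k) F)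
  let A' : Matrix (Fin k) (Fin k) F :=
    (((g⁻¹ : ↥(Cfsg.isometryGroup F ⇑Q)) : Matrix.GeneralLinearGroup (Fin k) F) : Matrix (Fin k) (Fin k) F)
  have hAA : A * A' = 1 := by simp [A, A', ← Units.val_mul]
  have hA'A : A' * A = 1 := by simp [A, A', ← Units.val_mul]
  have hgQ : ∀ w : Fin k → F, Q (A.mulVec w) = Q w := fun w => g.2 w w
  let a : G := ⟨⟨Matrix.fromBlocks A 0 0 1, Matrix.fromBlocks A' 0 0 1,
      by simp [Matrix.fromBlocks_multiply, hAA], by simp [Matrix.fromBlocks_multiply, hA'A]⟩, by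
    intro u _
    simp [Matrix.fromBlocks_mulVec, hgQ]⟩
  let s : G := ⟨⟨Matrix.fromBlocks 0 1 1 0, Matrix.fromBlocks 0 1 1 0,
      by simp [Matrix.fromBlocks_multiply], by simp [Matrix.fromBlocks_multiply]⟩, by
    intro u _
    simp [Matrix.fromBlocks_mulVec, add_comm]⟩
  refine ⟨a * (s * a * s), ?_, ?_⟩
  · have hA : ∀ z : Multiplicative (ZMod 2) × Multiplicative (ZMod 2), z * z = 1 := by decide
    rw [← ker_classHom hN hexc, MonoidHom.mem_ker, map_mul, map_mul, map_mul]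
    exact klein_sq hA _ _
  · show Matrix.fromBlocks A 0 0 1 * (Matrix.fromBlocks 0 1 1 0 * Matrix.fromBlocks A 0 0 1 *
      Matrix.fromBlocks 0 1 1 0) = Matrix.fromBlocks A 0 0 A
    simp [Matrix.fromBlocks_multiply]

end Cfsg.Agent.S2628
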