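import Cfsg.Statements.S2629
import Cfsg.Agent.Eq.Def_ClassicalGeometry
import Cfsg.Agent.OrthGeo.Hyperbolic
import Cfsg.Agent.OrthGeo.CharTwo

set_option autoImplicit false
open Cfsg

namespace Cfsg.Agent.S2629

lemma class_reflection_ne_one {ι : Type} [Fintype ι] [DecidableEq ι] {F : Type*} [Field F] {Q : (ι → F) → F}
    (hQ : Cfsg.Geo.IsNondegenerateQuadraticForm Q) {U : Submodule F (ι → F)} (hU : CfsgLib.OrthGeo.IsMaxTS Q U)
    {v : ι → F} (hv : Q v ≠ 0) :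
    CfsgLib.OrthGeo.classHom hQ hU ⟨_, CfsgLib.OrthGeo.reflection_mem hQ hv⟩ ≠ 1 := by
  rw [Ne, CfsgLib.OrthGeo.classHom_eq_one_iff, Nat.not_even_iff_odd]
  exact CfsgLib.OrthGeo.reflection_swaps_class hQ hU hv

/-- For the hyperbolic form Σ x_i y_i on F^(2m) over a finite field of odd order (m ≥ 1), an isometry g preserves the class of the maximal totally singular subspace U₀ = {y = 0} (that is, m − dim(U₀ ∩ gU₀) is even) if and only if det g = 1: the stabiliser of each of the two classes of maximal totally singular subspaces is SO. -/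
theorem result {F : Type*} [Field F] [Fintype F] (h2 : (2 : F) ≠ 0) {m : ℕ} (hm : 1 ≤ m) (g : ↥(Cfsg.isometryGroup F (Cfsg.quadFormPlus m F))) : Even (m - Module.finrank F ↥(LinearMap.ker (LinearMap.funLeft F F (Sum.inr : Fin m → Fin m ⊕ Fin m)) ⊓ (LinearMap.ker (LinearMap.funLeft F F (Sum.inr : Fin m → Fin m ⊕ Fin m))).map (Matrix.mulVecLin ((g : Matrix.GeneralLinearGroup (Fin m ⊕ Fin m) F) : Matrix (Fin m ⊕ Fin m) (Fin m ⊕ Fin m) F)))) ↔ ((g : Matrix.GeneralLinearGroup (Fin m ⊕ Fin m) F) : Matrix (Fin m ⊕ Fin m) (Fin m ⊕ Fin m) F).det = 1 := by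
  have hQ := CfsgLib.OrthGeo.isNondegenerateQuadraticForm_quadFormPlus (F := F) m
  have hexc : ¬ (Nat.card F = 2 ∧ Fintype.card (Fin m ⊕ Fin m) = 4) := by
    rintro ⟨hc, -⟩
    refine h2 ?_
    have := FiniteField.cast_card_eq_zero F
    rw [← Nat.card_eq_fintype_card, hc] at this
    exact_mod_cast this
  have hU := CfsgLib.OrthGeo.isMaxTS_plus_inr (F := F) (m := m)
  rw [← Matrix.toLin'_apply']
  set U := LinearMap.ker (LinearMap.funLeft F F (Sum.inr : Fin m → Fin m ⊕ Fin m)) with hUdef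
  have hdU : Module.finrank F U = m := CfsgLib.OrthGeo.finrank_ker_funLeft _ Sum.inr_injective
  have hle : ∀ x : Matrix.GeneralLinearGroup (Fin m ⊕ Fin m) F,
      Module.finrank F ↥(U ⊓ CfsgLib.OrthGeo.imgSub x U) ≤ m := fun x => (Submodule.finrank_mono inf_le_left).trans (le_of_eq hdU)
  have hdet : ∀ (v : Fin m ⊕ Fin m → F) (hv : Cfsg.quadFormPlus m F v ≠ 0),
      ((CfsgLib.OrthGeo.reflection hQ hv : Matrix.GeneralLinearGroup (Fin m ⊕ Fin m) F) :
        Matrix (Fin m ⊕ Fin m) (Fin m ⊕ Fin m) F).det = -1 := by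
    intro v hv
    show (Cfsg.reflectionMatrix (Cfsg.quadFormPlus m F) v).det = -1
    rw [Cfsg.reflectionMatrix, sub_eq_add_neg, ← Matrix.smul_vecMulVec, ← Matrix.neg_vecMulVec,
      Matrix.vecMulVec_eq Unit, Matrix.det_one_add_replicateCol_mul_replicateRow, dotProduct_neg,
      dotProduct_smul, CfsgLib.OrthGeo.polarVec_dot hQ, CfsgLib.OrthGeo.b_self hQ, smul_eq_mul]
    field_simp
    ring
  have key : ∀ x : Matrix.GeneralLinearGroup (Fin m ⊕ Fin m) F, x ∈ Cfsg.isometryGroup F (Cfsg.quadFormPlus m F) →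
      ∀ hx : x ∈ Cfsg.isometryGroup F (Cfsg.quadFormPlus m F),
      (CfsgLib.OrthGeo.classHom hQ hU ⟨x, hx⟩ = 1 ∧ (x : Matrix (Fin m ⊕ Fin m) (Fin m ⊕ Fin m) F).det = 1) ∨
      (CfsgLib.OrthGeo.classHom hQ hU ⟨x, hx⟩ ≠ 1 ∧ (x : Matrix (Fin m ⊕ Fin m) (Fin m ⊕ Fin m) F).det = -1) := by
    intro x hx
    refine CfsgLib.Classical.Orth.reflection_induction hQ hexc
      (p := fun x => ∀ hx : x ∈ Cfsg.isometryGroup F (Cfsg.quadFormPlus m F),
      (CfsgLib.OrthGeo.classHom hQ hU ⟨x, hx⟩ = 1 ∧ (x : Matrix (Fin m ⊕ Fin m) (Fin m ⊕ Fin m) F).det = 1) ∨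
      (CfsgLib.OrthGeo.classHom hQ hU ⟨x, hx⟩ ≠ 1 ∧ (x : Matrix (Fin m ⊕ Fin m) (Fin m ⊕ Fin m) F).det = -1))
      (fun _ => Or.inl ⟨map_one _, by rw [Units.val_one, Matrix.det_one]⟩) ?_ hx
    intro y v hv hy hp hx
    have hr := class_reflection_ne_one hQ hU hv
    have hmul : (⟨_, hx⟩ : Cfsg.isometryGroup F (Cfsg.quadFormPlus m F)) =
        ⟨_, CfsgLib.OrthGeo.reflection_mem hQ hv⟩ * ⟨y, hy⟩ := rfl
    rw [hmul, map_mul, Units.val_mul, Matrix.det_mul, hdet]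
    rcases hp hy with ⟨h1, h1'⟩ | ⟨h1, h1'⟩
    · exact Or.inr ⟨by rw [h1, mul_one]; exact hr, by rw [h1', mul_one]⟩
    · refine Or.inl ⟨?_, by rw [h1']; ring⟩
      have hz : ∀ z : Multiplicative (ZMod 2), z ≠ 1 → z = Multiplicative.ofAdd 1 := by decide
      rw [hz _ hr, hz _ h1]
      decide
  have hone : (1 : F) ≠ -1 := fun h => h2 (by linear_combination h)
  have hc := CfsgLib.OrthGeo.classHom_eq_one_iff hQ hU g
  have hl := hle g
  rcases key _ g.2 g.2 with ⟨h1, h1'⟩ | ⟨h1, h1'⟩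
  · have := hc.1 h1
    rw [hdU] at this
    refine iff_of_true ?_ h1'
    rw [Nat.even_iff] at this ⊢
    simp only [CfsgLib.OrthGeo.imgSub] at this hl
    omega
  · refine iff_of_false (fun hev => h1 (hc.2 ?_)) (by rw [h1']; exact hone.symm)
    rw [hdU]
    rw [Nat.even_iff] at hev ⊢
    simp only [CfsgLib.OrthGeo.imgSub] at hl ⊢
    omega

end Cfsg.Agent.S2629
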