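import Cfsg.Statements.S2630
import Cfsg.Agent.Eq.Def_ClassicalGeometry
import Cfsg.Agent.OrthGeo.Hyperbolic
import Cfsg.Agent.OrthGeo.CharTwo

set_option autoImplicit false
open Cfsg

namespace Cfsg.Agent.S2630

/-- For the hyperbolic form Σ x_i y_i on F^(2m) over a finite field of characteristic two (m ≥ 1, excluding m = 2 over the field of two elements), an isometry g preserves the class of the maximal totally singular subspace U₀ = {y = 0} (m − dim(U₀ ∩ gU₀) even) if and only if g lies in Ω (the commutator subgroup of the orthogonal group): the stabiliser of each class is Ω. -/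
theorem result {F : Type*} [Field F] [Fintype F] [CharP F 2] {m : ℕ} (hm : 1 ≤ m) (h : Fintype.card F ≠ 2 ∨ m ≠ 2) (g : ↥(Cfsg.isometryGroup F (Cfsg.quadFormPlus m F))) : Even (m - Module.finrank F ↥(LinearMap.ker (LinearMap.funLeft F F (Sum.inr : Fin m → Fin m ⊕ Fin m)) ⊓ (LinearMap.ker (LinearMap.funLeft F F (Sum.inr : Fin m → Fin m ⊕ Fin m))).map (Matrix.mulVecLin ((g : Matrix.GeneralLinearGroup (Fin m ⊕ Fin m) F) : Matrix (Fin m ⊕ Fin m) (Fin m ⊕ Fin m) F)))) ↔ g ∈ Cfsg.Omega F (Cfsg.quadFormPlus m F) := by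
  have hQ := CfsgLib.OrthGeo.isNondegenerateQuadraticForm_quadFormPlus (F := F) m
  have hexc := CfsgLib.OrthGeo.plus_exc (F := F) h
  have hU := CfsgLib.OrthGeo.isMaxTS_plus_inr (F := F) (m := m)
  rw [← Matrix.toLin'_apply']
  set U := LinearMap.ker (LinearMap.funLeft F F (Sum.inr : Fin m → Fin m ⊕ Fin m)) with hUdef
  have hdU : Module.finrank F U = m := CfsgLib.OrthGeo.finrank_ker_funLeft _ Sum.inr_injective
  have hle : Module.finrank F ↥(U ⊓ CfsgLib.OrthGeo.imgSub (g : Matrix.GeneralLinearGroup (Fin m ⊕ Fin m) F) U) ≤ m :=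
    (Submodule.finrank_mono inf_le_left).trans (le_of_eq hdU)
  have key := CfsgLib.OrthGeo.classHom_eq_one_iff hQ hU g
  constructor
  · intro hev
    have hc : CfsgLib.OrthGeo.classHom hQ hU g = 1 := key.2 (by
      rw [hdU]; rw [Nat.even_iff] at hev ⊢; simp only [CfsgLib.OrthGeo.imgSub] at hle ⊢; omega)
    obtain ⟨a, ha⟩ : ∃ a : Fin m ⊕ Fin m → F, Cfsg.quadFormPlus m F a ≠ 0 := by
      by_contra hcon
      push Not at hcon
      have := CfsgLib.OrthGeo.two_mul_finrank_le hQ (S := ⊤) fun w _ => hcon w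
      rw [finrank_top, Module.finrank_fintype_fun_eq_card, Fintype.card_sum, Fintype.card_fin] at this
      omega
    rcases CfsgLib.OrthGeo.mem_omega_or_reflection_mul_mem hQ hexc ha g.2 with hg | hg
    · obtain ⟨y, hy, hye⟩ := hg
      rwa [show g = y from Subtype.ext hye.symm]
    · exfalso
      obtain ⟨y, hy, hye⟩ := hg
      have h1 : CfsgLib.OrthGeo.classHom hQ hU y = 1 :=
        Abelianization.commutator_subset_ker (CfsgLib.OrthGeo.classHom hQ hU) hy
      rw [show y = ⟨_, CfsgLib.OrthGeo.reflection_mem hQ ha⟩ * g from Subtype.ext hye, map_mul, hc, mul_one,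
        CfsgLib.OrthGeo.classHom_eq_one_iff] at h1
      exact Nat.not_even_iff_odd.2 (CfsgLib.OrthGeo.reflection_swaps_class hQ hU ha) h1
  · intro hg
    have hc := key.1 (Abelianization.commutator_subset_ker (CfsgLib.OrthGeo.classHom hQ hU) hg)
    rw [hdU] at hc
    rw [Nat.even_iff] at hc ⊢
    simp only [CfsgLib.OrthGeo.imgSub] at hc hle
    omega

end Cfsg.Agent.S2630
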