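import Cfsg.Statements.S2631
import Cfsg.Agent.Eq.Def_ClassicalGeometry
import Cfsg.Agent.OrthGeo.Hyperbolic

set_option autoImplicit false
open Cfsg

namespace Cfsg.Agent.S2631

/-- For the hyperbolic form Σ x_i y_i on F^(2m) over a finite field (m ≥ 1, excluding m = 2 over the field of two elements), Ω (the commutator subgroup of the orthogonal group) acts transitively on each of the two classes of maximal totally singular subspaces: if U and W are m-dimensional totally singular subspaces with m − dim(U ∩ W) even, some element of Ω carries U to W. -/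
theorem result {F : Type*} [Field F] [Fintype F] {m : ℕ} (hm : 1 ≤ m) (h : Fintype.card F ≠ 2 ∨ m ≠ 2) (U W : Submodule F (Fin m ⊕ Fin m → F)) (hU : Module.finrank F U = m) (hW : Module.finrank F W = m) (hU0 : ∀ u ∈ U, Cfsg.quadFormPlus m F u = 0) (hW0 : ∀ w ∈ W, Cfsg.quadFormPlus m F w = 0) (he : Even (m - Module.finrank F ↥(U ⊓ W))) : ∃ g : ↥(Cfsg.isometryGroup F (Cfsg.quadFormPlus m F)), g ∈ Cfsg.Omega F (Cfsg.quadFormPlus m F) ∧ U.map (Matrix.mulVecLin ((g : Matrix.GeneralLinearGroup (Fin m ⊕ Fin m) F) : Matrix (Fin m ⊕ Fin m) (Fin m ⊕ Fin m) F)) = W := by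
  have hQ := CfsgLib.OrthGeo.isNondegenerateQuadraticForm_quadFormPlus (F := F) m
  have hexc := CfsgLib.OrthGeo.plus_exc (F := F) h
  have hUm : CfsgLib.OrthGeo.IsMaxTS (Cfsg.quadFormPlus m F) U :=
    ⟨hU0, by rw [hU, Fintype.card_sum, Fintype.card_fin]; ring⟩
  have hWm : CfsgLib.OrthGeo.IsMaxTS (Cfsg.quadFormPlus m F) W :=
    ⟨hW0, by rw [hW, Fintype.card_sum, Fintype.card_fin]; ring⟩
  have hle : Module.finrank F ↥(U ⊓ W) ≤ m := (Submodule.finrank_mono inf_le_left).trans (le_of_eq hU)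
  obtain ⟨g, ⟨g', hg', rfl⟩, hgU⟩ := CfsgLib.OrthGeo.exists_map_maxTS hQ
    (Cfsg.Geo.omegaGL (Cfsg.quadFormPlus m F))
    (fun u x hu hx hux => CfsgLib.OrthGeo.eichler_singular_mem_omega hQ hexc hu hx hux) hUm hWm
    (by rw [hU, Nat.even_iff] at *; omega)
  exact ⟨g', hg', by rw [← Matrix.toLin'_apply']; exact hgU⟩

end Cfsg.Agent.S2631
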