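import Cfsg.Statements.S2634
import Cfsg.Agent.Eq.Def_Classical
import Cfsg.Agent.Eq.Def_ClassicalGeometry
import Cfsg.Agent.Classical.Orth.Diag
import Cfsg.Agent.Classical.Orth.Pairs
import Cfsg.Agent.Classical.Orth.Forms

set_option autoImplicit false
open Cfsg

namespace Cfsg.Agent.S2634
open CfsgLib.Classical.Orth CfsgLib.OrthGeo


/-- Over a finite field of characteristic two, Ω (the commutator subgroup of the orthogonal group of a quadratic form Q on F^n with non-degenerate polar form; excluding dimension 4 over the field of two elements) acts transitively on the non-singular 1-spaces: for u, v with Q(u) ≠ 0 and Q(v) ≠ 0 some element of Ω carries the line through u to the line through v. -/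
theorem result {F : Type*} [Field F] [Fintype F] [CharP F 2] {n : ℕ} (h : Fintype.card F ≠ 2 ∨ n ≠ 4) (Q : QuadraticForm F (Fin n → F)) (hQ : (QuadraticMap.polarBilin Q).Nondegenerate) (u v : Fin n → F) (hu : Q u ≠ 0) (hv : Q v ≠ 0) : ∃ g : ↥(Cfsg.isometryGroup F ⇑Q), g ∈ Cfsg.Omega F ⇑Q ∧ (F ∙ ((g : Matrix.GeneralLinearGroup (Fin n) F) : Matrix (Fin n) (Fin n) F).mulVec u) = F ∙ v := by
  have hN := isNondegQF_of_quadraticForm Q hQ
  have hexc : ¬ (Nat.card F = 2 ∧ Fintype.card (Fin n) = 4) := by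
    rintro ⟨hc, h4⟩
    rw [Nat.card_eq_fintype_card] at hc
    rw [Fintype.card_fin] at h4
    rcases h with h | h <;> omega
  have h2 : (2 : F) = 0 := CharTwo.two_eq_zero
  obtain ⟨r, hr⟩ := isSquare_of_two_eq_zero h2 (Q u / Q v)
  have hr0 : r ≠ 0 := by
    rintro rfl
    rw [mul_zero, div_eq_zero_iff] at hr
    exact hr.elim hu hv
  have hQ' : Q (r • v) = Q u := by
    rw [QuadraticMap.map_smul, ← hr, smul_eq_mul, div_mul_cancel₀ _ hv]
  obtain ⟨g, hg, hgu⟩ := exists_isometry_map hN hexc hQ'.symm hu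
  have hspan : (F ∙ r • v) = F ∙ v := Submodule.span_singleton_smul_eq (Ne.isUnit hr0) v
  by_cases he : Even (Module.finrank F (residual g))
  · exact ⟨⟨g, hg⟩, (mem_omega_iff_even hN h2 hexc _).2 he, by rw [show (g : Matrix (Fin n) (Fin n) F).mulVec u = r • v from hgu, hspan]⟩
  · refine ⟨refl hN hv * ⟨g, hg⟩, (mem_omega_iff_even hN h2 hexc _).2 ?_, ?_⟩
    · rw [Subgroup.coe_mul, coe_refl hN]
      exact (even_finrank_residual_reflection_mul hN hg hv).2 he
    · rw [Subgroup.coe_mul, coe_refl hN, Units.val_mul, ← Matrix.mulVec_mulVec,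
        show (g : Matrix (Fin n) (Fin n) F).mulVec u = r • v from hgu, reflection_mulVec hN hv, map_smul,
        b_self hN, h2, zero_mul, smul_zero, mul_zero, zero_smul, sub_zero, hspan]

end Cfsg.Agent.S2634
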