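import Cfsg.Statements.S2635
import Cfsg.Agent.Eq.Def_ClassicalGeometry
import Cfsg.Agent.OrthGeo.CharTwo
import Cfsg.Agent.OrthGeo.Forms

set_option autoImplicit false
open Cfsg
open scoped commutatorElement

namespace Cfsg.Agent.S2635

/-- Over a finite field of characteristic two, for a quadratic form Q on F^n with non-degenerate polar form, n ≥ 2, other than dimension 4 over the field of two elements, Ω (the commutator subgroup of the orthogonal group) is exactly the subgroup generated by the products of two reflections (orthogonal transvections) x ↦ x − Q(v)⁻¹ f(x, v) v, Q(v) ≠ 0: the products of an even number of reflections. -/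
theorem result {F : Type*} [Field F] [Fintype F] [CharP F 2] {n : ℕ} (hn : 2 ≤ n) (h : Fintype.card F ≠ 2 ∨ n ≠ 4) (Q : QuadraticForm F (Fin n → F)) (hQ : (QuadraticMap.polarBilin Q).Nondegenerate) : Cfsg.Omega F ⇑Q = Subgroup.closure {g : ↥(Cfsg.isometryGroup F ⇑Q) | ∃ u v : Fin n → F, Q u ≠ 0 ∧ Q v ≠ 0 ∧ ((g : Matrix.GeneralLinearGroup (Fin n) F) : Matrix (Fin n) (Fin n) F) = Cfsg.reflectionMatrix ⇑Q u * Cfsg.reflectionMatrix ⇑Q v} := by
  have hQ' := CfsgLib.OrthGeo.isNondegenerateQuadraticForm_of_polarBilin Q hQ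
  have hexc : ¬ (Nat.card F = 2 ∧ Fintype.card (Fin n) = 4) := by
    rintro ⟨h1, h4⟩
    rw [Nat.card_eq_fintype_card] at h1
    rw [Fintype.card_fin] at h4
    exact h.elim (fun e => e h1) (fun e => e h4)
  obtain ⟨a, ha⟩ : ∃ a : Fin n → F, Q a ≠ 0 := by
    by_contra hcon
    push Not at hcon
    have := CfsgLib.OrthGeo.two_mul_finrank_le hQ' (S := ⊤) fun w _ => hcon w
    rw [finrank_top, Module.finrank_fintype_fun_eq_card, Fintype.card_fin] at this
    omega
  apply le_antisymm
  · set P := Subgroup.closure {g : ↥(Cfsg.isometryGroup F ⇑Q) | ∃ u v : Fin n → F, Q u ≠ 0 ∧ Q v ≠ 0 ∧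
      ((g : Matrix.GeneralLinearGroup (Fin n) F) : Matrix (Fin n) (Fin n) F) =
        Cfsg.reflectionMatrix ⇑Q u * Cfsg.reflectionMatrix ⇑Q v} with hP
    let r : (v : Fin n → F) → Q v ≠ 0 → ↥(Cfsg.isometryGroup F ⇑Q) := fun v hv =>
      ⟨CfsgLib.OrthGeo.reflection hQ' hv, CfsgLib.OrthGeo.reflection_mem hQ' hv⟩
    have hrr : ∀ u v (hu : Q u ≠ 0) (hv : Q v ≠ 0), r u hu * r v hv ∈ P := fun u v hu hv =>
      Subgroup.subset_closure ⟨u, v, hu, hv, rfl⟩
    have hr1 : ∀ v (hv : Q v ≠ 0), r v hv * r v hv = 1 := fun v hv =>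
      Subtype.ext (CfsgLib.OrthGeo.reflection_mul_reflection_self hQ' hv)
    have hcov : ∀ x : ↥(Cfsg.isometryGroup F ⇑Q), x ∈ P ∨ r a ha * x ∈ P := by
      intro x
      refine CfsgLib.Classical.Orth.reflection_induction hQ' hexc
        (p := fun y => ∀ hy : y ∈ Cfsg.isometryGroup F ⇑Q,
          (⟨y, hy⟩ : ↥(Cfsg.isometryGroup F ⇑Q)) ∈ P ∨ r a ha * ⟨y, hy⟩ ∈ P)
        (fun _ => Or.inl (one_mem P)) ?_ x.2 x.2
      intro y v hv hy hp hx
      rw [show (⟨_, hx⟩ : ↥(Cfsg.isometryGroup F ⇑Q)) = r v hv * ⟨y, hy⟩ from rfl]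
      rcases hp hy with h1 | h1
      · exact Or.inr (by rw [← mul_assoc]; exact mul_mem (hrr a v ha hv) h1)
      · refine Or.inl ?_
        have := mul_mem (hrr v a hv ha) h1
        rwa [mul_assoc, ← mul_assoc (r a ha) (r a ha), hr1, one_mul] at this
    have hconjA : ∀ y ∈ P, r a ha * y * r a ha ∈ P := by
      intro y hy
      induction hy using Subgroup.closure_induction with
      | mem z hz =>
        obtain ⟨u, v, hu, hv, hz⟩ := hz
        have : z = r u hu * r v hv := Subtype.ext (Units.ext hz)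
        rw [this, ← mul_assoc, mul_assoc]
        exact mul_mem (hrr a u ha hu) (hrr v a hv ha)
      | one => rw [mul_one, hr1]; exact one_mem P
      | mul z w _ _ hz hw =>
        have := mul_mem hz hw
        have e : r a ha * z * r a ha * (r a ha * w * r a ha) = r a ha * (z * w) * r a ha := by
          simp only [mul_assoc]; rw [← mul_assoc (r a ha) (r a ha), hr1, one_mul]
        rwa [e] at this
      | inv z _ hz =>
        have := inv_mem hz
        have e : (r a ha)⁻¹ = r a ha := inv_eq_of_mul_eq_one_left (hr1 a ha)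
        rwa [mul_inv_rev, mul_inv_rev, e, ← mul_assoc] at this
    have hnorm : P.Normal := ⟨fun y hy x => by
      rcases hcov x with hx | hx
      · exact mul_mem (mul_mem hx hy) (inv_mem hx)
      · have e : x * y * x⁻¹ = r a ha * ((r a ha * x) * y * (r a ha * x)⁻¹) * r a ha := by
          have e1 : (r a ha)⁻¹ = r a ha := inv_eq_of_mul_eq_one_left (hr1 a ha)
          rw [mul_inv_rev, e1]
          simp only [← mul_assoc, hr1, one_mul]
          simp only [mul_assoc, hr1, mul_one]
        rw [e]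
        exact hconjA _ (mul_mem (mul_mem hx hy) (inv_mem hx))⟩
    have hq : ∀ x : ↥(Cfsg.isometryGroup F ⇑Q) ⧸ P, x = 1 ∨ x = QuotientGroup.mk' P (r a ha) := by
      intro x
      obtain ⟨x, rfl⟩ := QuotientGroup.mk'_surjective P x
      rcases hcov x with hx | hx
      · exact Or.inl ((QuotientGroup.eq_one_iff x).2 hx)
      · refine Or.inr ?_
        have h1 : QuotientGroup.mk' P (r a ha * x) = 1 := (QuotientGroup.eq_one_iff _).2 hx
        rw [map_mul] at h1
        rw [eq_inv_of_mul_eq_one_right h1, ← map_inv, inv_eq_of_mul_eq_one_left (hr1 a ha)]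
    rw [Cfsg.Omega, commutator_def, Subgroup.commutator_le]
    intro x _ y _
    refine (QuotientGroup.eq_one_iff _).1 ?_
    show QuotientGroup.mk' P ⁅x, y⁆ = 1
    rw [map_commutatorElement, commutatorElement_eq_one_iff_mul_comm]
    rcases hq (QuotientGroup.mk' P x) with e | e <;> rcases hq (QuotientGroup.mk' P y) with e' | e' <;>
      rw [e, e'] <;> simp
  · refine (Subgroup.closure_le _).2 ?_
    rintro g ⟨u, v, hu, hv, hg⟩
    obtain ⟨y, hy, hye⟩ := CfsgLib.OrthGeo.reflection_pair_mem_omega hQ' hexc hu hv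
    rwa [show g = y from Subtype.ext ((Units.ext hg).trans hye.symm)]

end Cfsg.Agent.S2635
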