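import Cfsg.Statements.S2636
-- import your own Cfsg.Agent.* helpers here

set_option autoImplicit false
open Cfsg

namespace Cfsg.Agent.S2636

/-- Centraliser of a field automorphism in PGL_n: let F be the field with q = q₀^r elements, σ a field automorphism of F of prime order r (so its fixed field has q₀ elements) and n ≥ 1. The invertible matrices g whose entrywise image under σ is a scalar multiple of g — those whose coset modulo scalars is fixed by σ — number (q − 1)/(q₀ − 1) · |GL_n(q₀)|; equivalently the centraliser in PGL_n(q) of the induced automorphism has the order of PGL_n(q₀). -/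
theorem result {F : Type*} [Field F] [Fintype F] {q₀ r n : ℕ} (hr : r.Prime) (hn : 1 ≤ n) (hF : Fintype.card F = q₀ ^ r) (σ : F ≃+* F) (hσ : orderOf σ = r) : Nat.card {g : GL (Fin n) F // ∃ c : F, c ≠ 0 ∧ (g : Matrix (Fin n) (Fin n) F).map σ = c • (g : Matrix (Fin n) (Fin n) F)} = (q₀ ^ r - 1) / (q₀ - 1) * ∏ i : Fin n, (q₀ ^ n - q₀ ^ (i : ℕ)) := by
  classical
  let A := Subgroup.zpowers (σ : RingAut F)
  haveI : Finite (RingAut F) := Finite.of_injective (fun f => (f : F → F)) DFunLike.coe_injective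
  haveI : Fintype A := Fintype.ofFinite A
  haveI : FaithfulSMul A F := ⟨fun h => Subtype.ext (RingEquiv.ext h)⟩
  let F₀ := FixedPoints.subfield A F
  haveI : Fintype F₀ := Fintype.ofFinite F₀
  have hmem : ∀ x : F, σ x = x → x ∈ F₀ := by
    intro x hx
    rintro ⟨m, hm⟩
    show m x = x
    have : (σ : RingAut F) ∈ MulAction.stabilizer (RingAut F) x := hx
    exact (Subgroup.zpowers_le.2 this) hm
  have hfix : ∀ a : F₀, σ (a : F) = a := fun a => a.2 ⟨σ, Subgroup.mem_zpowers _⟩
  have hq : q₀ = Fintype.card F₀ := by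
    have h1 : Fintype.card F = Fintype.card F₀ ^ r := by
      rw [Module.card_eq_pow_finrank (K := F₀) (V := F), FixedPoints.finrank_eq_card A F,
        ← Nat.card_eq_fintype_card (α := A), Nat.card_zpowers, hσ]
    exact Nat.pow_left_injective hr.ne_zero (hF.symm.trans h1)
  have hq1 : 1 < q₀ := hq ▸ Fintype.one_lt_card
  let φ : Fˣ →* GL (Fin n) F := Units.map (Matrix.scalar (Fin n) : F →+* Matrix (Fin n) (Fin n) F).toMonoidHom
  let ψ : GL (Fin n) F₀ →* GL (Fin n) F := Matrix.GeneralLinearGroup.map (algebraMap F₀ F)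
  let Ψ : Fˣ × GL (Fin n) F₀ →* GL (Fin n) F :=
    { toFun := fun p => φ p.1 * ψ p.2
      map_one' := by simp
      map_mul' := fun p q => by
        have hc : ψ p.2 * φ q.1 = φ q.1 * ψ p.2 := by
          apply Units.ext
          exact ((Matrix.scalar_commute (q.1 : F) (fun r => mul_comm _ r) _).eq).symm
        simp only [Prod.fst_mul, Prod.snd_mul, map_mul]
        calc φ p.1 * φ q.1 * (ψ p.2 * ψ q.2) = φ p.1 * (φ q.1 * ψ p.2) * ψ q.2 := by group
          _ = φ p.1 * (ψ p.2 * φ q.1) * ψ q.2 := by rw [hc]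
          _ = φ p.1 * ψ p.2 * (φ q.1 * ψ q.2) := by group }
  have hΨ : ∀ p : Fˣ × GL (Fin n) F₀, ∀ i j,
      ((Ψ p : GL (Fin n) F) : Matrix (Fin n) (Fin n) F) i j = (p.1 : F) * ((p.2 : Matrix _ _ F₀) i j : F) := by
    intro p i j
    simp [Ψ, φ, ψ, Matrix.scalar_apply, Matrix.diagonal_mul]
    rfl
  have hrange : ∀ g : GL (Fin n) F, g ∈ Ψ.range ↔
      ∃ c : F, c ≠ 0 ∧ (g : Matrix (Fin n) (Fin n) F).map σ = c • (g : Matrix (Fin n) (Fin n) F) := by
    intro g
    constructor
    · rintro ⟨p, rfl⟩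
      refine ⟨σ (p.1 : F) / (p.1 : F), div_ne_zero (by simp) p.1.ne_zero, ?_⟩
      ext i j
      rw [Matrix.map_apply, Matrix.smul_apply, hΨ, map_mul, hfix, smul_eq_mul, ← mul_assoc,
        div_mul_cancel₀ _ p.1.ne_zero]
    · rintro ⟨c, hc, hg⟩
      obtain ⟨i, j, hij⟩ : ∃ i j, (g : Matrix (Fin n) (Fin n) F) i j ≠ 0 := by
        by_contra! h
        haveI : Nonempty (Fin n) := ⟨⟨0, hn⟩⟩
        exact g.ne_zero (Matrix.ext h)
      set l := (g : Matrix (Fin n) (Fin n) F) i j with hl
      have hent : ∀ a b, σ ((g : Matrix (Fin n) (Fin n) F) a b) = c * (g : Matrix (Fin n) (Fin n) F) a b :=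
        fun a b => by
          have := congrFun (congrFun hg a) b
          simpa using this
      have hfx : ∀ a b, ((g : Matrix (Fin n) (Fin n) F) a b) / l ∈ F₀ := fun a b => hmem _ (by
        rw [map_div₀, hent, hl, hent, mul_div_mul_left _ _ hc])
      let M : Matrix (Fin n) (Fin n) F₀ := Matrix.of fun a b => ⟨_, hfx a b⟩
      have hMg : M.map (algebraMap F₀ F) = l⁻¹ • (g : Matrix (Fin n) (Fin n) F) := by
        ext a b
        simp [M, div_eq_inv_mul]
        rfl
      have hdet : M.det ≠ 0 := by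
        intro h0
        have h1 := congrArg (algebraMap F₀ F) h0
        rw [RingHom.map_det, map_zero] at h1
        have h2 : (l⁻¹ • (g : Matrix (Fin n) (Fin n) F)).det = 0 := by rw [← hMg]; exact h1
        rw [Matrix.det_smul] at h2
        exact (mul_ne_zero (pow_ne_zero _ (inv_ne_zero hij)) (Matrix.isUnits_det_units g).ne_zero) h2
      refine ⟨(Units.mk0 l hij, Matrix.GeneralLinearGroup.mkOfDetNeZero M hdet), ?_⟩
      apply Units.ext
      ext a b
      rw [hΨ]
      show l * (((g : Matrix (Fin n) (Fin n) F) a b) / l) = _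
      rw [mul_div_cancel₀ _ hij]
  have hker : Nat.card Ψ.ker = q₀ - 1 := by
    rw [hq, ← Fintype.card_units, ← Nat.card_eq_fintype_card]
    refine Nat.card_congr (Equiv.ofBijective (fun a => (?_ : F₀ˣ)) ⟨?_, ?_⟩)
    · exact Matrix.GeneralLinearGroup.det (R := F₀) (n := Fin 1)
        (Matrix.GeneralLinearGroup.mkOfDetNeZero
          (Matrix.of fun _ _ : Fin 1 => ((a.1.2 : Matrix (Fin n) (Fin n) F₀) ⟨0, hn⟩ ⟨0, hn⟩))
          (by
            rw [Matrix.det_fin_one]
            intro h0
            have h := congrArg (fun g : GL (Fin n) F => (g : Matrix (Fin n) (Fin n) F) ⟨0, hn⟩ ⟨0, hn⟩)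
              (MonoidHom.mem_ker.1 a.2)
            simp only [hΨ, Units.val_one, Matrix.one_apply_eq] at h
            rw [Matrix.of_apply] at h0
            rw [h0] at h
            simp at h))
    · intro a b h
      have h0 : (a.1.2 : Matrix (Fin n) (Fin n) F₀) ⟨0, hn⟩ ⟨0, hn⟩ =
          (b.1.2 : Matrix (Fin n) (Fin n) F₀) ⟨0, hn⟩ ⟨0, hn⟩ := by
        have := congrArg Units.val h
        simpa [Matrix.det_fin_one] using this
      have ea := fun i j => congrArg (fun g : GL (Fin n) F => (g : Matrix (Fin n) (Fin n) F) i j)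
        (MonoidHom.mem_ker.1 a.2)
      have eb := fun i j => congrArg (fun g : GL (Fin n) F => (g : Matrix (Fin n) (Fin n) F) i j)
        (MonoidHom.mem_ker.1 b.2)
      simp only [hΨ] at ea eb
      have h1 : (a.1.1 : F) = b.1.1 := by
        have x := ea ⟨0, hn⟩ ⟨0, hn⟩
        have y := eb ⟨0, hn⟩ ⟨0, hn⟩
        rw [h0] at x
        rw [← y] at x
        refine mul_right_cancel₀ ?_ x
        intro h2
        rw [h2] at y
        simp at y
      refine Subtype.ext (Prod.ext (Units.ext h1) (Units.ext (Matrix.ext fun i j => ?_)))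
      have x := ea i j
      rw [← eb i j, h1] at x
      exact Subtype.ext (mul_left_cancel₀ b.1.1.ne_zero x)
    · intro u
      refine ⟨⟨((Units.map (algebraMap F₀ F : F₀ →* F) u)⁻¹,
        Units.map (Matrix.scalar (Fin n) : F₀ →+* Matrix (Fin n) (Fin n) F₀).toMonoidHom u), ?_⟩, ?_⟩
      · rw [MonoidHom.mem_ker]
        apply Units.ext
        ext i j
        rw [hΨ]
        by_cases hij : i = j
        · subst hij
          simp [Matrix.scalar_apply]
          exact inv_mul_cancel₀ (fun h => u.ne_zero (Subtype.ext h))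
        · simp [Matrix.scalar_apply, hij]
      · apply Units.ext
        simp [Matrix.det_fin_one, Matrix.scalar_apply]
  have hcard := Subgroup.card_eq_card_quotient_mul_card_subgroup Ψ.ker
  rw [Nat.card_congr (QuotientGroup.quotientKerEquivRange Ψ).toEquiv, hker, Nat.card_prod,
    Matrix.card_GL_field, Nat.card_units, Nat.card_eq_fintype_card (α := F), hF, ← hq] at hcard
  rw [Nat.card_congr (Equiv.subtypeEquivRight fun g => (hrange g).symm)]
  obtain ⟨d, hd⟩ := Nat.sub_one_dvd_pow_sub_one q₀ r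
  rw [hd, Nat.mul_div_cancel_left _ (by omega)]
  rw [hd] at hcard
  refine Nat.eq_of_mul_eq_mul_right (show 0 < q₀ - 1 by omega) ?_
  refine hcard.symm.trans ?_
  ring

end Cfsg.Agent.S2636
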