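import Cfsg.Statements.S2637
import Cfsg.Agent.Classical.Unitary.Restriction
import Cfsg.Agent.Classical.Unitary.Order
import Cfsg.Agent.Classical.Symp.Involutions

set_option autoImplicit false
open Cfsg

namespace Cfsg.Agent.S2637

open Matrix CfsgLib.Unitary CfsgLib.Classical.Symp

variable {F K : Type*} [Field F] [Fintype F] [Field K] [Fintype K] [Algebra F K] {m : ℕ}

local notation "MM" => Matrix (Fin m ⊕ Fin m) (Fin m ⊕ Fin m) F

/-- A fixed-point-free element of order three has a standard normal form. -/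
theorem normalForm (hK : Fintype.card K = Fintype.card F ^ 2) (h3 : (3 : F) ≠ 0) {ω : K}
    (hω : ω ^ 2 + ω + 1 = 0) (hωq : ω ^ Fintype.card F = ω ^ 2) (y : Matrix.symplecticGroup (Fin m) F)
    (hy : ∀ v, (y : MM) *ᵥ ((y : MM) *ᵥ v) = -v - (y : MM) *ᵥ v) :
    ∃ h : Matrix.symplecticGroup (Fin m) F, ∀ j, ActsOn (h * y * h⁻¹) (stdE j) (stdF j) (0, 1, -1, -1) := by
  have h3K : (3 : K) ≠ 0 := by
    rw [← map_ofNat (algebraMap F K) 3]
    exact (map_ne_zero (algebraMap F K)).2 h3
  have hωne : ω ^ Fintype.card F ≠ ω := by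
    rw [hωq]
    intro h
    exact h3K (by linear_combination 4 * h + (4 - (2 * ω + 1)) * (hω - h))
  obtain ⟨c₀, c₁, hc⟩ := exists_coord hK hωne
  obtain ⟨h, σ, hh⟩ := exists_normalForm y (L := Unit) (fun _ => ((0, 1, -1, -1) : F × F × F × F))
    (fun g W hW hinv hne => by
      set z := g * y * g⁻¹
      have hz : ∀ v, (z : MM) *ᵥ ((z : MM) *ᵥ v) = -v - (z : MM) *ᵥ v := by
        intro v
        simp only [z, mul_mulVec]
        rw [inv_mulVec_cancel, hy, mulVec_sub, mulVec_neg, mulVec_inv_cancel]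
      obtain ⟨u, hu, huz⟩ : ∃ u ∈ W, Cfsg.sympForm m F u ((z : MM) *ᵥ u) ≠ 0 := by
        by_contra hcon
        push Not at hcon
        obtain ⟨u, hu, hu0⟩ := hne
        have key : ∀ w ∈ W, Cfsg.sympForm m F ((2 : F) • ((z : MM) *ᵥ u) + u) w = 0 := by
          intro w hw
          have e1 := hcon _ (W.add_mem hu hw)
          rw [mulVec_add, form_add_left, form_add_right, form_add_right, hcon u hu, hcon w hw] at e1
          have e2 : Cfsg.sympForm m F u ((z : MM) *ᵥ w) = Cfsg.sympForm m F ((z : MM) *ᵥ ((z : MM) *ᵥ u)) w := by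
            have e3 := form_mulVec z ((z : MM) *ᵥ ((z : MM) *ᵥ u)) w
            rw [← e3]
            congr 1
            rw [hz ((z : MM) *ᵥ u), hz u]
            abel
          rw [e2, hz u, form_sub_left, form_neg_left, form_swap w ((z : MM) *ᵥ u)] at e1
          rw [form_add_left, form_smul_left]
          linear_combination -e1
        have h0 : (2 : F) • ((z : MM) *ᵥ u) + u = 0 := by
          by_contra hne0
          obtain ⟨w, hw, hw0⟩ := hW _ (W.add_mem (W.smul_mem _ (hinv u hu)) hu) hne0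
          exact hw0 (key w hw)
        have h1 : (z : MM) *ᵥ ((2 : F) • ((z : MM) *ᵥ u) + u) = 0 := by rw [h0, mulVec_zero]
        rw [mulVec_add, mulVec_smul, hz] at h1
        have h5 : (3 : F) • u = 0 := by linear_combination (norm := module) (-(2 : F)) • h1 - h0
        exact hu0 ((smul_eq_zero.1 h5).resolve_left h3)
      set c := Cfsg.sympForm m F u ((z : MM) *ᵥ u)
      obtain ⟨t, ht⟩ := exists_norm_eq hK (a := algebraMap F K c⁻¹) (algebraMap_pow_q _)
      have hab : c₀ t ^ 2 - c₀ t * c₁ t + c₁ t ^ 2 = c⁻¹ := by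
        apply (algebraMap F K).injective
        rw [← ht]
        simp only [map_add, map_sub, map_mul, map_pow]
        have hA : algebraMap F K (c₀ t) ^ Fintype.card F = algebraMap F K (c₀ t) := algebraMap_pow_q _
        have hB : algebraMap F K (c₁ t) ^ Fintype.card F = algebraMap F K (c₁ t) := algebraMap_pow_q _
        have htc := hc t
        set A := algebraMap F K (c₀ t)
        set B := algebraMap F K (c₁ t)
        rw [← htc, pow_succ (A + B * ω) (Fintype.card F), add_pow_q hK, mul_pow, hA, hB, hωq]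
        linear_combination (-(algebraMap F K (c₀ t) * algebraMap F K (c₁ t)) - algebraMap F K (c₁ t) ^ 2 * (ω - 1)) * hω
      refine ⟨c₀ t • u + c₁ t • ((z : MM) *ᵥ u), W.add_mem (W.smul_mem _ hu) (W.smul_mem _ (hinv u hu)),
        (z : MM) *ᵥ (c₀ t • u + c₁ t • ((z : MM) *ᵥ u)),
        hinv _ (W.add_mem (W.smul_mem _ hu) (W.smul_mem _ (hinv u hu))), (), ?_, ?_, ?_⟩
      · rw [mulVec_add, mulVec_smul, mulVec_smul, hz u]
        simp only [form_add_left, form_add_right, form_sub_right, form_smul_left, form_smul_right,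
          form_neg_right, form_self, form_swap ((z : MM) *ᵥ u) u]
        rw [show (1 : F) = c * c⁻¹ from (mul_inv_cancel₀ huz).symm, ← hab]
        ring
      · simp
      · rw [hz]; simp; abel)
  exact ⟨h, hh⟩

theorem conj_of_normalForm {y y' h h' : Matrix.symplecticGroup (Fin m) F}
    (hh : ∀ j, ActsOn (h * y * h⁻¹) (stdE j) (stdF j) (0, 1, -1, -1))
    (hh' : ∀ j, ActsOn (h' * y' * h'⁻¹) (stdE j) (stdF j) (0, 1, -1, -1)) :
    (h'⁻¹ * h) * y * (h'⁻¹ * h)⁻¹ = y' := by
  have e : h * y * h⁻¹ = h' * y' * h'⁻¹ := symp_ext_std (fun j => (hh j).1.trans (hh' j).1.symm)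
    (fun j => (hh j).2.trans (hh' j).2.symm)
  rw [show (h'⁻¹ * h) * y * (h'⁻¹ * h)⁻¹ = h'⁻¹ * (h * y * h⁻¹) * h' by group, e]
  group

/-- The centraliser of such an element has the order of `GU_m`. -/
theorem card_centralizer (hK : Fintype.card K = Fintype.card F ^ 2) (h3 : (3 : F) ≠ 0) {ω : K}
    (hω : ω ^ 2 + ω + 1 = 0) (hωq : ω ^ Fintype.card F = ω ^ 2) (x : Matrix.symplecticGroup (Fin m) F)
    (hx : ∀ v, (x : MM) *ᵥ ((x : MM) *ᵥ v) = -v - (x : MM) *ᵥ v) :
    Nat.card ↥(Subgroup.centralizer ({x} : Set ↥(Matrix.symplecticGroup (Fin m) F))) =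
      Nat.card ↥(Cfsg.GU m K (Fintype.card F)) := by
  classical
  have h3K : (3 : K) ≠ 0 := by
    rw [← map_ofNat (algebraMap F K) 3]
    exact (map_ne_zero (algebraMap F K)).2 h3
  have hω3 : ω ^ 3 = 1 := by linear_combination (ω - 1) * hω
  have hωne : ω ^ Fintype.card F - ω ≠ 0 := by
    rw [hωq]
    intro h
    exact h3K (by linear_combination 4 * h + (4 - (2 * ω + 1)) * (hω - h))
  obtain ⟨c₀, c₁, hc⟩ := exists_coord hK (sub_ne_zero.1 hωne)
  let e₀ : (Fin m → K) →ₗ[F] (Fin m ⊕ Fin m → F) :=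
    LinearMap.pi (Sum.elim (fun i => c₁ ∘ₗ LinearMap.proj i) (fun i => c₀ ∘ₗ LinearMap.proj i))
  have hinj : Function.Injective e₀ := by
    intro v w h
    funext i
    rw [← hc (v i), ← hc (w i), show c₀ (v i) = c₀ (w i) from congrFun h (.inr i),
      show c₁ (v i) = c₁ (w i) from congrFun h (.inl i)]
  let e := LinearEquiv.ofInjectiveOfFinrankEq e₀ hinj (by
    rw [Module.finrank_pi_fintype, finrank_quad hK, Module.finrank_fintype_fun_eq_card]; simp; ring)
  have hform : ∀ u v, algebraMap F K (Cfsg.sympForm m F (e u) (e v)) * (ω ^ Fintype.card F - ω) =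
      Cfsg.hermForm m K (Fintype.card F) u v - Cfsg.hermForm m K (Fintype.card F) v u := by
    intro u v
    rw [CfsgLib.Classical.Symp.form_apply, map_sum, Finset.sum_mul, Cfsg.hermForm, Cfsg.hermForm, ← Finset.sum_sub_distrib]
    refine Finset.sum_congr rfl fun i _ => ?_
    show algebraMap F K (c₀ (u i) * c₁ (v i) - c₁ (u i) * c₀ (v i)) * _ = _
    conv_rhs => rw [← hc (u i), ← hc (v i)]
    simp only [add_pow_q hK, mul_pow, algebraMap_pow_q, map_sub, map_mul]
    ring
  let R := restrictMat e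
  have hmem : ∀ A : ↥(Cfsg.GU m K (Fintype.card F)), R ((A : GL (Fin m) K) : Matrix (Fin m) (Fin m) K) ∈ Matrix.symplecticGroup (Fin m) F := by
    intro A
    refine (mem_symplecticGroup_iff_form _).2 fun u v => ?_
    obtain ⟨u, rfl⟩ := e.surjective u
    obtain ⟨v, rfl⟩ := e.surjective v
    refine (algebraMap F K).injective (mul_right_cancel₀ hωne ?_)
    rw [restrictMat_mulVec, restrictMat_mulVec, hform, hform, mem_GU.1 A.2, mem_GU.1 A.2]
  let φ : ↥(Cfsg.GU m K (Fintype.card F)) →* Matrix.symplecticGroup (Fin m) F :=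
    (R.comp ((Units.coeHom _).comp (Cfsg.GU m K (Fintype.card F)).subtype)).codRestrict _ hmem
  have hφ : Function.Injective φ := fun A B hAB =>
    Subtype.ext (Units.ext (restrictMat_injective e (congrArg Subtype.val hAB)))
  have hω1 : ω ^ (Fintype.card F + 1) = 1 := by rw [pow_succ, hωq, ← hω3]; ring
  let z := φ (diagGU (fun _ => ω) (fun _ => hω1))
  have hzv : ∀ v, (z : MM) *ᵥ e v = e (ω • v) := by
    intro v
    show restrictMat e _ *ᵥ e v = _
    rw [restrictMat_mulVec]
    congr 1
    show Matrix.diagonal (fun _ => ω) *ᵥ v = _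
    funext i; simp [Matrix.mulVec_diagonal]
  have hzz : ∀ v, (z : MM) *ᵥ ((z : MM) *ᵥ v) = -v - (z : MM) *ᵥ v := by
    intro v
    obtain ⟨v, rfl⟩ := e.surjective v
    rw [hzv, hzv, ← map_neg, ← map_sub]
    congr 1
    funext i
    simp only [Pi.smul_apply, Pi.sub_apply, Pi.neg_apply, smul_eq_mul]
    linear_combination v i * hω
  obtain ⟨h, hh⟩ := normalForm hK h3 hω hωq x hx
  obtain ⟨h', hh'⟩ := normalForm hK h3 hω hωq z hzz
  have hcz := conj_of_normalForm hh hh'
  have hrange : φ.range = Subgroup.centralizer {z} := by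
    ext g
    rw [Subgroup.mem_centralizer_singleton_iff]
    constructor
    · rintro ⟨A, rfl⟩
      show φ A * φ _ = φ _ * φ A
      rw [← map_mul, ← map_mul]
      congr 1
      apply Subtype.ext; apply Units.ext
      show _ * Matrix.diagonal (fun _ => ω) = Matrix.diagonal (fun _ => ω) * _
      exact (Matrix.scalar_commute ω (fun _ => Commute.all _ _) _).eq.symm
    · intro hg
      let L : (Fin m → K) →ₗ[F] (Fin m → K) :=
        e.symm.toLinearMap ∘ₗ (Matrix.mulVecLin (g : MM)) ∘ₗ e.toLinearMap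
      have hL : ∀ v, e (L v) = (g : MM) *ᵥ e v := fun v => e.apply_symm_apply _
      have hωL : ∀ v, L (ω • v) = ω • L v := by
        intro v
        apply e.injective
        rw [hL, ← hzv, ← hzv, hL, ← mul_mulVec, hg, mul_mulVec]
      have hKL : ∀ (t : K) v, L (t • v) = t • L v := by
        intro t v
        rw [← hc t, add_smul, add_smul, mul_smul, mul_smul, map_add, algebraMap_smul, algebraMap_smul,
          algebraMap_smul, algebraMap_smul, map_smul, map_smul, hωL]
      let LK : (Fin m → K) →ₗ[K] (Fin m → K) := { toFun := L, map_add' := L.map_add, map_smul' := hKL }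
      have hpres : ∀ u v, Cfsg.hermForm m K (Fintype.card F) (L u) (L v) = Cfsg.hermForm m K (Fintype.card F) u v := by
        intro u v
        have e1 := hform (L u) (L v)
        have e2 := hform (ω • L u) (L v)
        have e1' := hform u v
        have e2' := hform (ω • u) v
        rw [← hωL, hL, hL, form_mulVec, e2', hωL, herm_smul_left, herm_smul_right, herm_smul_left, herm_smul_right] at e2
        rw [hL, hL, form_mulVec, e1'] at e1
        apply mul_left_cancel₀ hωne
        linear_combination -(ω ^ Fintype.card F) * e1 + e2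
      have hdet : IsUnit (LinearMap.toMatrix' LK).det := by
        rw [← Matrix.isUnit_iff_isUnit_det, ← Matrix.mulVec_injective_iff_isUnit]
        intro u v huv
        simp only [← Matrix.toLin'_apply, Matrix.toLin'_toMatrix'] at huv
        have h1 := congrArg e (show L u = L v from huv)
        rw [hL, hL] at h1
        exact e.injective (CfsgLib.Classical.Symp.mulVec_injective g h1)
      refine ⟨⟨Matrix.GeneralLinearGroup.mk'' _ hdet, mem_GU.2 fun u v => ?_⟩, symp_ext fun w => ?_⟩
      · show Cfsg.hermForm m K _ (LinearMap.toMatrix' LK *ᵥ u) (LinearMap.toMatrix' LK *ᵥ v) = _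
        rw [← Matrix.toLin'_apply, ← Matrix.toLin'_apply, Matrix.toLin'_toMatrix']
        exact hpres u v
      · obtain ⟨w, rfl⟩ := e.surjective w
        show restrictMat e (LinearMap.toMatrix' LK) *ᵥ e w = _
        rw [restrictMat_mulVec, ← Matrix.toLin'_apply, Matrix.toLin'_toMatrix']
        exact hL w
  rw [Nat.card_congr (MonoidHom.ofInjective hφ).toEquiv, hrange]
  refine Nat.card_congr ((MulAut.conj (h'⁻¹ * h)).toEquiv.subtypeEquiv fun g => ?_)
  rw [Subgroup.mem_centralizer_singleton_iff, Subgroup.mem_centralizer_singleton_iff, ← hcz]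
  show g * x = x * g ↔ MulAut.conj (h'⁻¹ * h) g * MulAut.conj (h'⁻¹ * h) x = MulAut.conj (h'⁻¹ * h) x * MulAut.conj (h'⁻¹ * h) g
  rw [← map_mul, ← map_mul]
  exact (MulAut.conj (h'⁻¹ * h)).injective.eq_iff.symm


/-- Centraliser of a fixed-point-free element of order three in Sp_2m(q) when q ≡ 2 (mod 3): if x ∈ Sp_2m(F) (|F| = q, m ≥ 1) satisfies x³ = 1 and x − 1 is invertible, then its centraliser in Sp_2m(F) has the order of the unitary group GU_m(q), namely q^(m(m−1)/2) Π_(i=1)^m (q^i − (−1)^i) (x lies in the centre of a subgroup GU_m(q) of Sp_2m(q)). -/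
theorem result {F : Type*} [Field F] [Fintype F] {q : ℕ} (hF : Fintype.card F = q) (hq : q % 3 = 2) {m : ℕ} (hm : 1 ≤ m) (x : Matrix.symplecticGroup (Fin m) F) (hx3 : x ^ 3 = 1) (hfpf : IsUnit ((x : Matrix (Fin m ⊕ Fin m) (Fin m ⊕ Fin m) F) - 1)) : (Nat.card ↥(Subgroup.centralizer ({x} : Set ↥(Matrix.symplecticGroup (Fin m) F))) : ℤ) = (q : ℤ) ^ (m * (m - 1) / 2) * ∏ i : Fin m, ((q : ℤ) ^ ((i : ℕ) + 1) - (-1) ^ ((i : ℕ) + 1)) := by
  classical
  subst hF
  have h3 : (3 : F) ≠ 0 := by
    intro h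
    obtain ⟨p, hp⟩ := CharP.exists F
    obtain ⟨k, hpp, hk⟩ := FiniteField.card F p
    have h3' : ((3 : ℕ) : F) = 0 := by exact_mod_cast h
    rw [CharP.cast_eq_zero_iff F p] at h3'
    obtain rfl := (Nat.prime_dvd_prime_iff_eq hpp Nat.prime_three).1 h3'
    rw [hk] at hq
    have : 3 ∣ 3 ^ (k : ℕ) := dvd_pow_self 3 k.pos.ne'
    omega
  let f : Polynomial F := Polynomial.X ^ 2 + Polynomial.X + 1
  have hnoroot : ∀ t : F, t ^ 2 + t + 1 ≠ 0 := by
    intro t ht
    have ht3 : t ^ 3 = 1 := by linear_combination (t - 1) * ht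
    have ht0 : t ≠ 0 := by rintro rfl; simp at ht
    have hord := FiniteField.pow_card_sub_one_eq_one t ht0
    rw [show Fintype.card F - 1 = 3 * ((Fintype.card F - 2) / 3) + 1 by omega, pow_succ, pow_mul, ht3, one_pow, one_mul] at hord
    apply h3
    rw [hord] at ht
    linear_combination ht
  have hdeg : f.natDegree = 2 := by
    simp only [f]; compute_degree!
  have hirr : Irreducible f := Polynomial.irreducible_of_degree_le_three_of_not_isRoot (by simp [hdeg])
    (fun t ht => hnoroot t (by simpa [f, Polynomial.IsRoot.def] using ht))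
  haveI := Fact.mk hirr
  let pb := AdjoinRoot.powerBasis hirr.ne_zero
  haveI : Module.Finite F (AdjoinRoot f) := pb.finite
  haveI : Finite (AdjoinRoot f) := Module.finite_of_finite F
  letI : Fintype (AdjoinRoot f) := Fintype.ofFinite _
  have hcard : Fintype.card (AdjoinRoot f) = Fintype.card F ^ 2 := by
    rw [Module.card_eq_pow_finrank (K := F) (V := AdjoinRoot f), pb.finrank,
      show pb.dim = f.natDegree from AdjoinRoot.powerBasis_dim hirr.ne_zero, hdeg]
  have hω : AdjoinRoot.root f ^ 2 + AdjoinRoot.root f + 1 = 0 := by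
    have h := AdjoinRoot.mk_self (f := f)
    simp only [f, map_add, map_pow, AdjoinRoot.mk_X, map_one] at h
    exact h
  have hω3 : AdjoinRoot.root f ^ 3 = 1 := by linear_combination (AdjoinRoot.root f - 1) * hω
  have hωq : AdjoinRoot.root f ^ Fintype.card F = AdjoinRoot.root f ^ 2 := by
    conv_lhs => rw [show Fintype.card F = 3 * (Fintype.card F / 3) + 2 by omega, pow_add, pow_mul, hω3, one_pow, one_mul]
  have hx : ∀ v, (x : Matrix (Fin m ⊕ Fin m) (Fin m ⊕ Fin m) F) *ᵥ ((x : Matrix (Fin m ⊕ Fin m) (Fin m ⊕ Fin m) F) *ᵥ v)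
      = -v - (x : Matrix (Fin m ⊕ Fin m) (Fin m ⊕ Fin m) F) *ᵥ v := by
    intro v
    set X := (x : Matrix (Fin m ⊕ Fin m) (Fin m ⊕ Fin m) F) with hX
    have h1 : X * X * X = 1 := by
      have := congrArg (fun y : Matrix.symplecticGroup (Fin m) F => (y : Matrix (Fin m ⊕ Fin m) (Fin m ⊕ Fin m) F)) hx3
      simpa [pow_succ] using this
    have h2 : (X - 1) * (X * X + X + 1) = 0 := by
      rw [sub_mul, mul_add, mul_add, ← mul_assoc, h1]
      noncomm_ring
    have h3 : X * X + X + 1 = 0 := hfpf.mul_right_eq_zero.1 h2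
    have h4 := congrArg (· *ᵥ v) h3
    simp only [add_mulVec, one_mulVec, zero_mulVec, ← mulVec_mulVec] at h4
    linear_combination (norm := abel) h4
  rw [card_centralizer hcard h3 hω hωq x hx, card_GU hcard]
  push_cast
  congr 1
  rw [Finset.prod_range]
  refine Finset.prod_congr rfl fun i _ => ?_
  rcases Nat.even_or_odd (i : ℕ) with h | h
  · rw [if_pos h, pow_succ (-1 : ℤ), h.neg_one_pow]; push_cast; ring
  · rw [if_neg (Nat.not_even_iff_odd.2 h), pow_succ (-1 : ℤ), h.neg_one_pow]
    rw [Nat.cast_sub (Nat.one_le_pow _ _ Fintype.card_pos)]; push_cast; ring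

end Cfsg.Agent.S2637
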