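import Cfsg.Statements.S2638
import Cfsg.Agent.Zsigmondy.Basic

set_option autoImplicit false
open Cfsg

namespace Cfsg.Agent.S2638

/-- If an element x of GL_n(q), n ≥ 1, has prime order r and the multiplicative order of q modulo r is n (r is a primitive prime divisor of q^n − 1, so x acts irreducibly), then the centraliser of x in GL_n(q) is cyclic of order q^n − 1 (the multiplicative group of the field with q^n elements, a Singer cycle). -/
theorem result {F : Type*} [Field F] [Fintype F] {p q : ℕ} [Fact p.Prime] [CharP F p] (hF : Fintype.card F = q) {n r : ℕ} (hn : 1 ≤ n) (hr : r.Prime) (hrp : r ≠ p) (hi : orderOf (q : ZMod r) = n) (x : GL (Fin n) F) (hx : orderOf x = r) : IsCyclic ↥(Subgroup.centralizer ({x} : Set (GL (Fin n) F))) ∧ Nat.card ↥(Subgroup.centralizer ({x} : Set (GL (Fin n) F))) = q ^ n - 1 := by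
  have hr' : Fact r.Prime := ⟨hr⟩
  have hq1 : 1 < q := hF ▸ Fintype.one_lt_card
  set M : Matrix (Fin n) (Fin n) F := (x : Matrix (Fin n) (Fin n) F) with hM
  have hMr : M ^ r = 1 := by
    have h : x ^ r = 1 := hx ▸ pow_orderOf_eq_one x
    simpa [hM] using congrArg Units.val h
  have hM1 : M ≠ 1 := fun h => hr.one_lt.ne (by
    rw [← hx, (Units.ext h : x = 1), orderOf_one])
  have hne : Nonempty (Fin n) := ⟨⟨0, hn⟩⟩
  set m := minpoly F M with hm
  have hmonic : m.Monic := minpoly.monic (Matrix.isIntegral M)
  have hdvd : m ∣ Polynomial.X ^ r - 1 := minpoly.dvd F M (by simp [hMr])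
  have hrF : (r : F) ≠ 0 := by
    rw [Ne, CharP.cast_eq_zero_iff F p]
    intro h
    exact hrp ((Nat.prime_dvd_prime_iff_eq (Fact.out : p.Prime) hr).mp h).symm
  have hsep : m.Separable := Polynomial.Separable.of_dvd
    (Polynomial.X_pow_sub_one_separable_iff.mpr hrF) hdvd
  obtain ⟨f, hfirr, hfm, hf1, hfmon⟩ : ∃ f : Polynomial F, Irreducible f ∧ f ∣ m ∧
      f ≠ Polynomial.X - Polynomial.C 1 ∧ f.Monic := by
    by_cases h1 : (Polynomial.X - Polynomial.C 1 : Polynomial F) ∣ m
    · obtain ⟨h, hh⟩ := h1
      have hu : ¬ IsUnit h := by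
        intro hu
        apply hM1
        have hassoc : m = Polynomial.X - Polynomial.C 1 :=
          Polynomial.eq_of_monic_of_associated hmonic (Polynomial.monic_X_sub_C 1)
            (hh ▸ associated_mul_unit_left _ _ hu)
        have := minpoly.aeval F M
        rw [← hm, hassoc, map_sub, Polynomial.aeval_X, Polynomial.aeval_C, map_one, sub_eq_zero] at this
        exact this
      obtain ⟨f, hfmon, hfirr, hfh⟩ := Polynomial.exists_monic_irreducible_factor h hu
      refine ⟨f, hfirr, hh ▸ hfh.mul_left _, fun hf => ?_, hfmon⟩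
      refine Polynomial.not_isUnit_X_sub_C (1 : F) (hsep.squarefree _ ?_)
      rw [hh]
      exact mul_dvd_mul_left _ (hf ▸ hfh)
    · obtain ⟨f, hfmon, hfirr, hfm⟩ :=
        Polynomial.exists_monic_irreducible_factor m (minpoly.not_isUnit F M)
      exact ⟨f, hfirr, hfm, fun hf => h1 (hf ▸ hfm), hfmon⟩
  have : Fact (Irreducible f) := ⟨hfirr⟩
  let pb := AdjoinRoot.powerBasis hfirr.ne_zero
  have : Module.Finite F (AdjoinRoot f) := pb.finite
  have : Finite (AdjoinRoot f) := Module.finite_of_finite F
  have hcard : Nat.card (AdjoinRoot f) = q ^ f.natDegree := by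
    rw [Module.natCard_eq_pow_finrank (K := F), pb.finrank, Nat.card_eq_fintype_card, hF]
    rfl
  set ζ := AdjoinRoot.root f with hζ
  have hζr : ζ ^ r = 1 := by
    have h : (AdjoinRoot.mk f) (Polynomial.X ^ r - 1) = 0 :=
      AdjoinRoot.mk_eq_zero.mpr (hfm.trans hdvd)
    rwa [map_sub, map_pow, map_one, AdjoinRoot.mk_X, sub_eq_zero] at h
  have hζ1 : ζ ≠ 1 := by
    intro h
    apply hf1
    have hd : f ∣ Polynomial.X - Polynomial.C 1 := by
      rw [← AdjoinRoot.mk_eq_zero, map_sub, AdjoinRoot.mk_X, AdjoinRoot.mk_C, map_one, sub_eq_zero]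
      exact h
    exact Polynomial.eq_of_monic_of_associated hfmon (Polynomial.monic_X_sub_C 1)
      (hfirr.associated_of_dvd (Polynomial.irreducible_X_sub_C 1) hd)
  have hζord : orderOf ζ = r := orderOf_eq_prime hζr hζ1
  have hnf : n ≤ f.natDegree := by
    have hz : ζ ≠ 0 := fun h => by rw [h, zero_pow hr.ne_zero] at hζr; exact zero_ne_one hζr
    have hu : r ∣ Nat.card (AdjoinRoot f)ˣ := by
      have := orderOf_dvd_natCard (Units.mk0 ζ hz)
      rwa [← orderOf_units, Units.val_mk0, hζord] at this
    rw [Nat.card_units, hcard, CfsgLib.Zsigmondy.dvd_pow_sub_one_iff hq1.le, hi] at hu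
    exact Nat.le_of_dvd hfirr.natDegree_pos hu
  have hmn : m.natDegree ≤ n := by
    have := Polynomial.natDegree_le_of_dvd (Matrix.minpoly_dvd_charpoly M) (Matrix.charpoly_monic M).ne_zero
    rwa [Matrix.charpoly_natDegree_eq_dim, Fintype.card_fin] at this
  have hfn : f.natDegree = n :=
    le_antisymm ((Polynomial.natDegree_le_of_dvd hfm hmonic.ne_zero).trans hmn) hnf
  have hmf : m = f := (Polynomial.eq_of_monic_of_dvd_of_natDegree_le hfmon hmonic hfm (by omega))
  have haev : Polynomial.aeval M f = 0 := by rw [← hmf]; exact minpoly.aeval F M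
  let ψ : AdjoinRoot f →ₐ[F] Matrix (Fin n) (Fin n) F :=
    Ideal.Quotient.liftₐ (Ideal.span {f}) (Polynomial.aeval M) (fun P hP => by
      obtain ⟨Q, rfl⟩ := Ideal.mem_span_singleton.mp hP
      rw [map_mul, haev, zero_mul])
  have hψmk : ∀ P, ψ (AdjoinRoot.mk f P) = Polynomial.aeval M P := fun P => rfl
  have hψ : Function.Injective ψ := ψ.toRingHom.injective
  have hψζ : ψ ζ = M := by
    rw [hζ, ← AdjoinRoot.mk_X, hψmk, Polynomial.aeval_X]
  let φ : (AdjoinRoot f)ˣ →* GL (Fin n) F := Units.map ψ.toMonoidHom
  have hφ : Function.Injective φ := Units.map_injective hψ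
  have hrange : φ.range = Subgroup.centralizer ({x} : Set (GL (Fin n) F)) := by
    ext g
    rw [Subgroup.mem_centralizer_singleton_iff]
    constructor
    · rintro ⟨u, rfl⟩
      apply Units.ext
      show ψ u * M = M * ψ u
      rw [← hψζ, ← map_mul, mul_comm, map_mul]
    · intro hg
      have hgM : (g : Matrix (Fin n) (Fin n) F) * M = M * g := congrArg Units.val hg
      have hgψ : ∀ a, (g : Matrix (Fin n) (Fin n) F) * ψ a = ψ a * g := by
        intro a
        induction a using AdjoinRoot.induction_on with
        | ih P =>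
          rw [hψmk]
          induction P using Polynomial.induction_on' with
          | add P Q hP hQ => rw [map_add, mul_add, add_mul, hP, hQ]
          | monomial k c =>
            rw [Polynomial.aeval_monomial]
            exact Commute.mul_right (Algebra.commutes c (g : Matrix (Fin n) (Fin n) F)).symm
              ((show Commute (g : Matrix (Fin n) (Fin n) F) M from hgM).pow_right k)
      let v : Fin n → F := Pi.single ⟨0, hn⟩ 1
      let ev : AdjoinRoot f →ₗ[F] (Fin n → F) :=
        { toFun := fun a => (ψ a).mulVec v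
          map_add' := fun a b => by rw [map_add, Matrix.add_mulVec]
          map_smul' := fun c a => by rw [map_smul, Matrix.smul_mulVec, RingHom.id_apply] }
      have hev : Function.Injective ev := by
        rw [injective_iff_map_eq_zero]
        intro a ha
        by_contra hne
        have h0 : (ψ a⁻¹).mulVec ((ψ a).mulVec v) = 0 := by
          rw [show (ψ a).mulVec v = 0 from ha, Matrix.mulVec_zero]
        rw [Matrix.mulVec_mulVec, ← map_mul, inv_mul_cancel₀ hne, map_one, Matrix.one_mulVec] at h0
        exact one_ne_zero (α := F) (by simpa [v] using congrFun h0 ⟨0, hn⟩)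
      have hsurj : Function.Surjective ev := by
        refine (LinearMap.injective_iff_surjective_of_finrank_eq_finrank ?_).mp hev
        rw [pb.finrank, Module.finrank_fin_fun]
        exact hfn
      obtain ⟨a, ha⟩ := hsurj ((g : Matrix (Fin n) (Fin n) F).mulVec v)
      have hga : ψ a = g := by
        apply Matrix.toLin'.injective
        refine LinearMap.ext fun w => ?_
        obtain ⟨b, rfl⟩ := hsurj w
        show Matrix.toLin' (ψ a) ((ψ b).mulVec v) = Matrix.toLin' _ ((ψ b).mulVec v)
        rw [Matrix.toLin'_apply, Matrix.toLin'_apply, Matrix.mulVec_mulVec, Matrix.mulVec_mulVec,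
          hgψ, ← map_mul, mul_comm, map_mul, ← Matrix.mulVec_mulVec, ← Matrix.mulVec_mulVec]
        exact congrArg _ ha
      have ha0 : a ≠ 0 := by
        rintro rfl
        rw [map_zero] at hga
        exact (g.isUnit.ne_zero) hga.symm
      exact ⟨Units.mk0 a ha0, Units.ext hga⟩
  rw [← hrange]
  constructor
  · exact isCyclic_of_surjective φ.rangeRestrict φ.rangeRestrict_surjective
  · rw [← Nat.card_congr (MonoidHom.ofInjective hφ).toEquiv, Nat.card_units, hcard, hfn]

end Cfsg.Agent.S2638
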