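import Cfsg.Statements.S2642
import Cfsg.Agent.S2570
import Cfsg.Agent.S2587
import Cfsg.Agent.S2588

set_option autoImplicit false
open Cfsg

namespace Cfsg.Agent.S2642
open CfsgLib.Unitary

theorem rank_cjT {K : Type*} [Field K] [Fintype K] {q n : ℕ} (hK : Fintype.card K = q ^ 2)
    (M : Matrix (Fin n) (Fin n) K) : (cjT q M).rank = M.rank := by
  classical
  rw [cjT, Matrix.rank_transpose]
  let e : K ≃+* K := RingEquiv.ofBijective (conjHom hK) ((Finite.injective_iff_bijective).1 (conjHom hK).injective)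
  have hmap : ∀ x : Fin n → K, (M.map fun a => a ^ q).mulVec (fun i => e (x i)) = fun i => e (M.mulVec x i) := fun x => by
    funext i
    exact ((conjHom hK).map_mulVec M x i).symm
  let ev : (Fin n → K) ≃ (Fin n → K) := Equiv.arrowCongr (Equiv.refl _) e.toEquiv
  have he : ev '' Set.range M.mulVec = Set.range (M.map fun a => a ^ q).mulVec := by
    ext y
    constructor
    · rintro ⟨_, ⟨x, rfl⟩, rfl⟩
      exact ⟨ev x, hmap x⟩
    · rintro ⟨x, rfl⟩
      obtain ⟨x, rfl⟩ := ev.surjective x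
      exact ⟨_, ⟨x, rfl⟩, (hmap x).symm⟩
  have hc : Nat.card (LinearMap.range (M.map fun a => a ^ q).mulVecLin) = Nat.card (LinearMap.range M.mulVecLin) := by
    show Nat.card ↥(Set.range (M.map fun a => a ^ q).mulVec) = Nat.card ↥(Set.range M.mulVec)
    rw [← he, Nat.card_image_of_injective ev.injective]
  rw [Module.natCard_eq_pow_finrank (K := K) (V := LinearMap.range (M.map fun a => a ^ q).mulVecLin),
    Module.natCard_eq_pow_finrank (K := K) (V := LinearMap.range M.mulVecLin)] at hc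
  exact Nat.pow_right_injective (Finite.one_lt_card : 1 < Nat.card K) hc

open CfsgLib.Jordan in
theorem isConj_conj_inv {K : Type*} [Field K] [Fintype K] {q n : ℕ} (hK : Fintype.card K = q ^ 2)
    (g : GL (Fin n) K) (hg : IsNilpotent (nilPart g)) :
    IsConj (g : Matrix (Fin n) (Fin n) K) (((g : Matrix (Fin n) (Fin n) K).map (fun x : K => x ^ q)).transpose)⁻¹ := by
  classical
  set N := (g : Matrix (Fin n) (Fin n) K) - 1 with hN
  have hu := isUnit_cjT hK g.isUnit
  set h : GL (Fin n) K := hu.unit⁻¹ with hh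
  have hsub : (h : Matrix (Fin n) (Fin n) K) - 1 = -(h : Matrix (Fin n) (Fin n) K) * cjT q N := by
    have h1 : cjT q N + 1 = (hu.unit : Matrix (Fin n) (Fin n) K) := by
      rw [IsUnit.unit_spec, ← cjT_one hK, ← cjT_add hK, hN, sub_add_cancel]
    have h2 : (h : Matrix (Fin n) (Fin n) K) * (cjT q N + 1) = 1 := by
      rw [h1, hh]; exact Units.inv_mul _
    rw [mul_add, mul_one] at h2
    linear_combination (norm := noncomm_ring) h2
  have hcomm : Commute (-(h : Matrix (Fin n) (Fin n) K)) (cjT q N) := by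
    refine (Commute.units_inv_left ?_).neg_left
    rw [IsUnit.unit_spec, show cjT q (g : Matrix (Fin n) (Fin n) K) = cjT q N + 1 by
      rw [← cjT_one hK, ← cjT_add hK, hN, sub_add_cancel]]
    exact (Commute.refl _).add_left (Commute.one_left _)
  have hpow : ∀ m, cjT q N ^ m = cjT q (N ^ m) := fun m => by
    induction m with
    | zero => rw [pow_zero, pow_zero, cjT_one hK]
    | succ m ih => rw [pow_succ, ih, pow_succ', cjT_mul hK]
  have hkey : ∀ (x : GL (Fin n) K) (j : ℕ), nilPart x ^ j = Matrix.toLinAlgEquiv' (((x : Matrix (Fin n) (Fin n) K) - 1) ^ j) :=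
    fun x j => (map_pow _ _ _).symm
  have hrank : ∀ (x : GL (Fin n) K) (j : ℕ), Module.finrank K (LinearMap.range (nilPart x ^ j)) = (((x : Matrix (Fin n) (Fin n) K) - 1) ^ j).rank := by
    intro x j; rw [hkey]; rfl
  have hnil : IsNilpotent (nilPart h) := by
    obtain ⟨m, hm⟩ := hg
    refine ⟨m, ?_⟩
    rw [hkey, hsub, hcomm.mul_pow, hpow]
    rw [hkey, map_eq_zero_iff _ (EquivLike.injective _)] at hm
    rw [hm, show cjT q (0 : Matrix (Fin n) (Fin n) K) = 0 by ext i j; simp [cjT, zero_pow_q hK], mul_zero, map_zero]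
  obtain ⟨c, hc⟩ := isConj_iff.1 (isConj_of_ranks_eq hg hnil fun j => by
    rw [hrank, hrank, hsub, hcomm.mul_pow, Matrix.rank_mul_eq_right_of_isUnit_det _ _
      ((Matrix.isUnit_iff_isUnit_det _).1 ((h.isUnit.neg).pow j)), hpow, rank_cjT hK])
  have h3 : (h : Matrix (Fin n) (Fin n) K) = (cjT q (g : Matrix (Fin n) (Fin n) K))⁻¹ := by
    rw [hh, Matrix.coe_units_inv]; rfl
  show IsConj _ (cjT q (g : Matrix (Fin n) (Fin n) K))⁻¹
  rw [← h3]
  exact (Units.coeHom (Matrix (Fin n) (Fin n) K)).map_isConj (isConj_iff.2 ⟨c, hc⟩)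


/-- Number of conjugacy classes of elements of order p in the general unitary group GU_n(q), q a power of p: every unipotent Jordan type occurs and the classes correspond to the partitions of n with all parts at most p other than the all-ones partition, exactly as in GL_n; so there are (number of partitions of n with parts ≤ p) − 1 classes. -/
theorem result {K : Type*} [Field K] [Fintype K] {p q n : ℕ} [Fact p.Prime] [CharP K p] (hK : Fintype.card K = q ^ 2) : Nat.card {C : ConjClasses ↥(Cfsg.GU n K q) // ∃ g : ↥(Cfsg.GU n K q), ConjClasses.mk g = C ∧ orderOf g = p} = (Finset.univ.filter (fun μ : Nat.Partition n => ∀ a ∈ μ.parts, a ≤ p)).card - 1 := by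
  classical
  rw [← Cfsg.Agent.S2570.result (F := K) (p := p) (n := n)]
  refine Nat.card_eq_of_bijective (fun C => ⟨ConjClasses.map (Cfsg.GU n K q).subtype C.1, ?_⟩) ⟨?_, ?_⟩
  · obtain ⟨g, hg, ho⟩ := C.2
    exact ⟨g.1, by rw [← hg]; rfl, by rw [Subgroup.orderOf_coe]; exact ho⟩
  · rintro ⟨C, a, rfl, ha⟩ ⟨D, b, rfl, hb⟩ h
    refine Subtype.ext (ConjClasses.mk_eq_mk_iff_isConj.2 ?_)
    exact (Cfsg.Agent.S2587.result hK a b).2 (ConjClasses.mk_eq_mk_iff_isConj.1 (congrArg Subtype.val h))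
  · rintro ⟨C, g, rfl, hg⟩
    have hnil : IsNilpotent (CfsgLib.Jordan.nilPart g) := (CfsgLib.Jordan.isNilpotent_nilPart_iff (p := p) g).2 ⟨1, by rw [pow_one, hg]⟩
    obtain ⟨B, hB⟩ := (Cfsg.Agent.S2588.result hK g).2 (isConj_conj_inv hK g hnil)
    refine ⟨⟨ConjClasses.mk B, B, rfl, ?_⟩, Subtype.ext (ConjClasses.mk_eq_mk_iff_isConj.2 hB.symm)⟩
    obtain ⟨c, hc⟩ := isConj_iff.1 hB
    rw [← Subgroup.orderOf_coe, ← hc, ← hg]
    exact (MulAut.conj c).orderOf_eq g

end Cfsg.Agent.S2642
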