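import Cfsg.Statements.S2643
import Cfsg.Agent.Classical.Unitary.RegularUnipotent
import Cfsg.Agent.Classical.Unitary.Parabolic
import Cfsg.Agent.S2587

set_option autoImplicit false
open Cfsg

namespace Cfsg.Agent.S2643
open CfsgLib.Unitary


/-- Regular unipotent classes of SU_n(q), n ≥ 2: the elements u of the special unitary group (isometries of Σ u_i v_i^q of determinant one over the field with q² elements) with (u − 1)^n = 0 and rank(u − 1) = n − 1 form exactly gcd(n, q + 1) conjugacy classes of SU_n(q). -/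
theorem result {K : Type*} [Field K] [Fintype K] {q n : ℕ} (hK : Fintype.card K = q ^ 2) (hn : 2 ≤ n) : Nat.card {C : ConjClasses ↥(Cfsg.SU n K q) // ∃ u : ↥(Cfsg.SU n K q), ConjClasses.mk u = C ∧ (((u : GL (Fin n) K) : Matrix (Fin n) (Fin n) K) - 1) ^ n = 0 ∧ (((u : GL (Fin n) K) : Matrix (Fin n) (Fin n) K) - 1).rank = n - 1} = Nat.gcd n (q + 1) := by
  classical
  obtain ⟨k, rfl⟩ : ∃ k, n = k + 1 := ⟨n - 1, by omega⟩
  simp only [Nat.add_sub_cancel]
  let G := GL (Fin (k + 1)) K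
  let M : GL (Fin (k + 1)) K → Matrix (Fin (k + 1)) (Fin (k + 1)) K := fun g => g
  obtain ⟨u₀, hu₀, hu0n, hu0r, hu0d⟩ := exists_regular_unipotent_GU (q := q) (k := k) hK
  -- the norm-one units
  let μ : Subgroup Kˣ := (powMonoidHom (q + 1) : Kˣ →* Kˣ).ker
  have hμ : ∀ z : μ, ((z : Kˣ) : K) ^ (q + 1) = 1 := fun z => by
    rw [← Units.val_pow_eq_pow_val, show (z : Kˣ) ^ (q + 1) = 1 from z.2]; rfl
  have hμc : Nat.card μ = q + 1 := by
    show Nat.card (powMonoidHom (q + 1) : Kˣ →* Kˣ).ker = _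
    rw [IsCyclic.card_powMonoidHom_ker, card_units_eq hK]
    exact Nat.gcd_eq_right (dvd_mul_left _ _)
  choose d hd hdd using fun z : μ => exists_GU_det (n := k + 1) (by omega) (hμ z)
  have hdet : ∀ g : ↥(Cfsg.GU (k + 1) K q), ∃ z : μ, (M g.1).det = ((z : Kˣ) : K) := fun g => by
    have h := det_pow_succ_eq_one hK g.2
    refine ⟨⟨Units.mk0 (M g.1).det (fun h0 => ?_), Units.ext ?_⟩, rfl⟩
    · rw [show (g.1 : Matrix (Fin (k + 1)) (Fin (k + 1)) K).det = 0 from h0, zero_pow (Nat.succ_ne_zero q)] at h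
      exact zero_ne_one h
    · simpa [powMonoidHom_apply] using h
  -- elements of GU of determinant one lie in SU
  have hsu : ∀ g : GL (Fin (k + 1)) K, g ∈ Cfsg.GU (k + 1) K q → (M g).det = 1 →
      ∃ h : ↥(Cfsg.SU (k + 1) K q), (h : GL (Fin (k + 1)) K) = g := fun g hg h1 => by
    refine ⟨⟨⟨M g, h1⟩, ?_⟩, Units.ext rfl⟩
    exact mem_SU.2 (mem_GU.1 hg)
  have hconjmem : ∀ z : μ, ∃ s : ↥(Cfsg.SU (k + 1) K q), (s : GL (Fin (k + 1)) K) = d z * u₀ * (d z)⁻¹ := fun z => by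
    refine hsu _ (mul_mem (mul_mem (hd z) hu₀) (inv_mem (hd z))) ?_
    show ((d z * u₀ * (d z)⁻¹ : GL (Fin (k + 1)) K) : Matrix (Fin (k + 1)) (Fin (k + 1)) K).det = 1
    rw [Units.val_mul, Units.val_mul, Matrix.det_units_conj, hu0d]
  choose s hs using hconjmem
  have hreg : ∀ z : μ, (M (s z : GL (Fin (k + 1)) K) - 1) ^ (k + 1) = 0 ∧ (M (s z : GL (Fin (k + 1)) K) - 1).rank = k := fun z => by
    have e : M (s z : GL (Fin (k + 1)) K) - 1 = M (d z) * (M u₀ - 1) * M (d z)⁻¹ := by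
      show ((s z : GL (Fin (k + 1)) K) : Matrix (Fin (k + 1)) (Fin (k + 1)) K) - 1 = _
      rw [hs, Units.val_mul, Units.val_mul, mul_sub, mul_one, sub_mul]
      simp [M]
    constructor
    · rw [e, Units.conj_pow, hu0n, mul_zero, zero_mul]
    · rw [e, Matrix.rank_mul_eq_left_of_isUnit_det _ _ ((Matrix.isUnit_iff_isUnit_det _).1 ((d z)⁻¹).isUnit),
        Matrix.rank_mul_eq_right_of_isUnit_det _ _ ((Matrix.isUnit_iff_isUnit_det _).1 (d z).isUnit)]
      exact hu0r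
  let f : μ → {C : ConjClasses ↥(Cfsg.SU (k + 1) K q) // ∃ u : ↥(Cfsg.SU (k + 1) K q), ConjClasses.mk u = C ∧
      (((u : GL (Fin (k + 1)) K) : Matrix (Fin (k + 1)) (Fin (k + 1)) K) - 1) ^ (k + 1) = 0 ∧
      (((u : GL (Fin (k + 1)) K) : Matrix (Fin (k + 1)) (Fin (k + 1)) K) - 1).rank = k} :=
    fun z => ⟨ConjClasses.mk (s z), s z, rfl, hreg z⟩
  let D : Subgroup μ := (powMonoidHom (k + 1) : μ →* μ).range
  have hdet1 : ∀ h : ↥(Cfsg.SU (k + 1) K q), (M (h : GL (Fin (k + 1)) K)).det = 1 := fun h => h.1.2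
  have hsmem : ∀ h : ↥(Cfsg.SU (k + 1) K q), (h : GL (Fin (k + 1)) K) ∈ Cfsg.GU (k + 1) K q := fun h =>
    mem_SU_iff_toGL_mem.1 h.2
  have hcard := CfsgLib.Unitary.card_eq_card_mul_of_surjective D f ?_ ?_
  · rw [hμc, IsCyclic.card_powMonoidHom_range, hμc, Nat.gcd_comm] at hcard
    have hdvd : Nat.gcd (k + 1) (q + 1) ∣ q + 1 := Nat.gcd_dvd_right _ _
    have hne : 0 < (q + 1) / Nat.gcd (k + 1) (q + 1) :=
      Nat.div_pos (Nat.le_of_dvd (Nat.succ_pos q) hdvd) (Nat.gcd_pos_of_pos_left _ (Nat.succ_pos k))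
    refine Nat.eq_of_mul_eq_mul_right hne ?_
    rw [← hcard, Nat.mul_div_cancel' hdvd]
  · -- surjectivity
    rintro ⟨C, u, rfl, hun, hur⟩
    obtain ⟨P, hP⟩ := CfsgLib.CyclicNilp.exists_conj (M u₀ - 1) (M (u : GL (Fin (k + 1)) K) - 1) hu0n hun hu0r hur
    rw [mul_sub, mul_one, sub_mul, one_mul, sub_left_inj] at hP
    have hGL : IsConj u₀ (u : GL (Fin (k + 1)) K) := isConj_iff.2 ⟨P, by
      rw [mul_inv_eq_iff_eq_mul]; exact Units.ext hP⟩
    obtain ⟨g, hg⟩ := isConj_iff.1 ((Cfsg.Agent.S2587.result hK ⟨u₀, hu₀⟩ ⟨_, hsmem u⟩).2 hGL)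
    obtain ⟨z, hz⟩ := hdet g
    obtain ⟨h, hh⟩ := hsu (d z * g.1⁻¹) (mul_mem (hd z) (inv_mem g.2)) (by
      show ((d z * g.1⁻¹ : GL (Fin (k + 1)) K) : Matrix (Fin (k + 1)) (Fin (k + 1)) K).det = 1
      have h1 : (M g.1).det * (M g.1⁻¹).det = 1 := by
        rw [← Matrix.det_mul, ← Units.val_mul, mul_inv_cancel, Units.val_one, Matrix.det_one]
      rw [Units.val_mul, Matrix.det_mul, hdd, ← hz, h1])
    refine ⟨z, Subtype.ext (ConjClasses.mk_eq_mk_iff_isConj.2 (IsConj.symm (isConj_iff.2 ⟨h, ?_⟩)))⟩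
    have hg' : g.1 * u₀ * g.1⁻¹ = (u : GL (Fin (k + 1)) K) := congrArg Subtype.val hg
    refine Subtype.ext (Matrix.SpecialLinearGroup.toGL_injective ?_)
    show (((h * u * h⁻¹ : ↥(Cfsg.SU (k + 1) K q)) : GL (Fin (k + 1)) K)) = (s z : GL (Fin (k + 1)) K)
    rw [hs, Subgroup.coe_mul, Subgroup.coe_mul, Subgroup.coe_inv, map_mul, map_mul, map_inv, hh, ← hg']
    group
  · -- the fibres
    intro z z'
    rw [Subtype.ext_iff, ConjClasses.mk_eq_mk_iff_isConj, isConj_iff]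
    constructor
    · rintro ⟨h, hh⟩
      have h1 : (h : GL (Fin (k + 1)) K) * (d z * u₀ * (d z)⁻¹) * (h : GL (Fin (k + 1)) K)⁻¹ = d z' * u₀ * (d z')⁻¹ := by
        rw [← hs, ← hs, ← hh, Subgroup.coe_mul, Subgroup.coe_mul, Subgroup.coe_inv, map_mul, map_mul, map_inv]
      have hcomm : Commute ((d z')⁻¹ * (h : GL (Fin (k + 1)) K) * d z) u₀ := by
        calc (d z')⁻¹ * (h : GL (Fin (k + 1)) K) * d z * u₀
            = (d z')⁻¹ * ((h : GL (Fin (k + 1)) K) * (d z * u₀ * (d z)⁻¹) * (h : GL (Fin (k + 1)) K)⁻¹) * (h : GL (Fin (k + 1)) K) * d z := by group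
          _ = u₀ * ((d z')⁻¹ * (h : GL (Fin (k + 1)) K) * d z) := by rw [h1]; group
      obtain ⟨a, ha, had⟩ := det_of_commute_regular_unipotent hK hu₀ hu0n hu0r
        (mul_mem (mul_mem (inv_mem (hd z')) (hsmem h)) (hd z)) hcomm
      have ha0 : a ≠ 0 := by rintro rfl; rw [zero_pow (Nat.succ_ne_zero q)] at ha; exact zero_ne_one ha
      let α : μ := ⟨Units.mk0 a ha0, Units.ext (by simpa [powMonoidHom_apply] using ha)⟩
      refine ⟨α⁻¹, Subtype.ext (Units.ext ?_)⟩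
      rw [Units.val_mul, Units.val_mul, Matrix.det_mul, Matrix.det_mul, hdet1 h, mul_one, hdd,
        show ((d z')⁻¹ : GL (Fin (k + 1)) K).val = M (d z')⁻¹ from rfl] at had
      have h2 : ((z' : Kˣ) : K) * (M (d z')⁻¹).det = 1 := by
        rw [← hdd, ← Matrix.det_mul, ← Units.val_mul, mul_inv_cancel, Units.val_one, Matrix.det_one]
      rw [eq_inv_of_mul_eq_one_right h2] at had
      simp [α]
      rw [← had, mul_inv, inv_inv, mul_comm]
    · rintro ⟨α, hα⟩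
      let c : ↥(Cfsg.GU (k + 1) K q) := diagGU (fun _ : Fin (k + 1) => ((α : Kˣ) : K)) (fun _ => hμ α)
      have hcs : M c.1 = Matrix.scalar (Fin (k + 1)) ((α : Kˣ) : K) := rfl
      have hcc : c.1 * u₀ = u₀ * c.1 := Units.ext (by
        rw [Units.val_mul, Units.val_mul, show (c.1 : Matrix (Fin (k + 1)) (Fin (k + 1)) K) = M c.1 from rfl, hcs]
        exact (Matrix.scalar_commute _ (Commute.all _) _).eq)
      obtain ⟨h, hh⟩ := hsu (d z' * c.1⁻¹ * (d z)⁻¹) (mul_mem (mul_mem (hd z') (inv_mem c.2)) (inv_mem (hd z))) (by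
        have h1 : ∀ g : GL (Fin (k + 1)) K, (M g⁻¹).det = (M g).det⁻¹ := fun g => eq_inv_of_mul_eq_one_left (by
          rw [← Matrix.det_mul, ← Units.val_mul, inv_mul_cancel, Units.val_one, Matrix.det_one])
        show ((d z' * c.1⁻¹ * (d z)⁻¹ : GL (Fin (k + 1)) K) : Matrix (Fin (k + 1)) (Fin (k + 1)) K).det = 1
        rw [Units.val_mul, Units.val_mul, Matrix.det_mul, Matrix.det_mul, hdd, h1, h1, hdd, hcs]
        have h3 := congrArg (fun x : μ => ((x : Kˣ) : K)) hα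
        simp [powMonoidHom_apply] at h3
        have h4 : ((z : Kˣ) : K) ≠ 0 := Units.ne_zero _
        have h5 : ((α : Kˣ) : K) ≠ 0 := Units.ne_zero _
        simp [Matrix.scalar_apply]
        rw [h3]
        field_simp)
      refine ⟨h, Subtype.ext (Matrix.SpecialLinearGroup.toGL_injective ?_)⟩
      show (((h * s z * h⁻¹ : ↥(Cfsg.SU (k + 1) K q)) : GL (Fin (k + 1)) K)) = (s z' : GL (Fin (k + 1)) K)
      rw [hs, Subgroup.coe_mul, Subgroup.coe_mul, Subgroup.coe_inv, map_mul, map_mul, map_inv, hh, hs]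
      calc d z' * c.1⁻¹ * (d z)⁻¹ * (d z * u₀ * (d z)⁻¹) * (d z' * c.1⁻¹ * (d z)⁻¹)⁻¹
          = d z' * (c.1⁻¹ * (u₀ * c.1)) * (d z')⁻¹ := by group
        _ = d z' * u₀ * (d z')⁻¹ := by rw [← hcc, inv_mul_cancel_left]

end Cfsg.Agent.S2643
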