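import Cfsg.Statements.S2644
import Cfsg.Agent.Classical.Unitary.Simple
import Cfsg.Agent.Eq.Def_ClassicalGeometry

set_option autoImplicit false
open Cfsg

namespace Cfsg.Agent.S2644

open CfsgLib.Unitary in
theorem exists_eq_transvSU {K : Type*} [Field K] [Fintype K] {q n : ℕ} (hK : Fintype.card K = q ^ 2)
    (A : ↥(Cfsg.SU n K q))
    (hA : Cfsg.IsTransvection ((A : Matrix.SpecialLinearGroup (Fin n) K) : Matrix (Fin n) (Fin n) K)) :
    ∃ (v : Fin n → K) (c : K) (hv : Cfsg.hermForm n K q v v = 0) (hc : c + c ^ q = 0),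
      v ≠ 0 ∧ c ≠ 0 ∧ A = transvSU hK v c hv hc := by
  set M := ((A : Matrix.SpecialLinearGroup (Fin n) K) : Matrix (Fin n) (Fin n) K) with hM
  obtain ⟨hr, hsq⟩ := hA
  obtain ⟨v', hv', hgen⟩ := finrank_eq_one_iff'.1 hr
  set v : Fin n → K := v'.1 with hvdef
  have hv0 : v ≠ 0 := fun h => hv' (Subtype.ext h)
  choose φ hφ using fun x => hgen ⟨(M - 1).mulVec x, LinearMap.mem_range_self _ x⟩
  have hAx : ∀ x, sv A x = x + φ x • v := by
    intro x
    have h1 : φ x • v = (M - 1).mulVec x := congrArg Subtype.val (hφ x)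
    rw [h1, Matrix.sub_mulVec, Matrix.one_mulVec]
    show M.mulVec x = _
    abel
  have key : ∀ x y, φ x * Cfsg.hermForm n K q v y + φ y ^ q * Cfsg.hermForm n K q x v
      + φ x * φ y ^ q * Cfsg.hermForm n K q v v = 0 := by
    intro x y
    have h := sv_herm A x y
    rw [hAx, hAx] at h
    simp only [herm_add_left, herm_add_right hK, herm_smul_left, herm_smul_right] at h
    linear_combination h
  have hfix : φ v = 0 := by
    obtain ⟨y, hy⟩ := v'.2
    have hy' : (M - 1).mulVec y = v := hy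
    have h1 : φ v • v = (M - 1).mulVec v := congrArg Subtype.val (hφ v)
    conv at h1 => rhs; rw [← hy', Matrix.mulVec_mulVec, hsq, Matrix.zero_mulVec]
    exact (smul_eq_zero.1 h1).resolve_right hv0
  obtain ⟨z, hz⟩ : ∃ z, φ z ≠ 0 := by
    by_contra h
    push Not at h
    have : (M - 1).rank = 0 := by
      rw [show M - 1 = 0 from Matrix.toLin'.injective (LinearMap.ext fun x => by
        have h1 : φ x • v = (M - 1).mulVec x := congrArg Subtype.val (hφ x)
        rw [Matrix.toLin'_apply, Matrix.toLin'_apply, Matrix.zero_mulVec, ← h1, h x, zero_smul])]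
      exact Matrix.rank_zero
    omega
  have hvv : Cfsg.hermForm n K q v v = 0 := by
    have h := key z v
    rw [hfix, zero_pow_q hK] at h
    simp only [zero_mul, mul_zero, add_zero] at h
    exact (mul_eq_zero.1 h).resolve_left hz
  obtain ⟨y, -, -, hvy⟩ := exists_partner hK (isNondeg_top hK) trivial hv0 hvv
  have hyv : Cfsg.hermForm n K q y v = 1 := by rw [herm_conj hK, hvy, one_pow]
  set c := -(φ y ^ q) with hc
  have hφx : ∀ x, φ x = c * Cfsg.hermForm n K q x v := by
    intro x
    have h := key x y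
    rw [hvy, hvv] at h
    rw [hc]; linear_combination h
  have hc' : c + c ^ q = 0 := by
    have h := hφx y
    rw [hyv, mul_one] at h
    have hcy := congrArg (fun a => a ^ q) h
    rw [hc] at h hcy ⊢
    rw [neg_pow_q hK, pow_q_q hK] at hcy ⊢
    linear_combination -h
  refine ⟨v, c, hvv, hc', hv0, ?_, sv_ext fun x => by rw [hAx, hφx, sv_transvSU]⟩
  intro h
  exact hz (by rw [hφx, h, zero_mul])


/-- In the special unitary group SU_n(q) with n ≥ 3 (isometries of Σ u_i v_i^q of determinant one over the field with q² elements), any two transvections (elements t with t − 1 of rank one and square zero) are conjugate. -/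
theorem result {K : Type*} [Field K] [Fintype K] {q n : ℕ} (hK : Fintype.card K = q ^ 2) (hn : 3 ≤ n) (s t : ↥(Cfsg.SU n K q)) (hs : Cfsg.IsTransvection (((s : GL (Fin n) K) : Matrix (Fin n) (Fin n) K))) (ht : Cfsg.IsTransvection (((t : GL (Fin n) K) : Matrix (Fin n) (Fin n) K))) : IsConj s t := by
  obtain ⟨v, c, hv, hc, hv0, hc0, rfl⟩ := exists_eq_transvSU hK s hs
  obtain ⟨w, d, hw, hd, hw0, hd0, rfl⟩ := exists_eq_transvSU hK t ht
  have hr : (d / c) ^ q = d / c := by
    rw [div_pow, show c ^ q = -c from (neg_eq_of_add_eq_zero_right hc).symm,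
      show d ^ q = -d from (neg_eq_of_add_eq_zero_right hd).symm, neg_div_neg_eq]
  obtain ⟨l, hl⟩ := CfsgLib.Unitary.exists_norm_eq hK hr
  have hl0 : l ≠ 0 := by
    rintro rfl
    rw [zero_pow (Nat.succ_ne_zero q)] at hl
    exact div_ne_zero hd0 hc0 hl.symm
  have hlw : Cfsg.hermForm n K q (l • w) (l • w) = 0 := by
    rw [CfsgLib.Unitary.herm_self_smul, hw, mul_zero]
  obtain ⟨B, hB⟩ := CfsgLib.Unitary.exists_SU_map_isotropic hK hn hv0 (smul_ne_zero hl0 hw0) hv hlw
  refine isConj_iff.2 ⟨B, ?_⟩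
  rw [CfsgLib.Unitary.conj_transvSU]
  refine CfsgLib.Unitary.transvSU_congr hK _ _ _ _ fun x => ?_
  rw [hB, CfsgLib.Unitary.herm_smul_right, smul_smul]
  congr 1
  have hcl : c * l ^ (q + 1) = d := by rw [hl, mul_div_cancel₀ _ hc0]
  linear_combination Cfsg.hermForm n K q x w * hcl

end Cfsg.Agent.S2644
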