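import Cfsg.Statements.S2645
import Cfsg.Agent.Eq.Def_Classical
import Cfsg.Agent.S2389
import Cfsg.Agent.Spec53.SpPrimeOrderClasses

set_option autoImplicit false
open Cfsg

namespace Cfsg.Agent.S2645

/-- Number of conjugacy classes of elements of odd prime order r, r different from the characteristic, in the symplectic group Sp_2m(q): let i be the multiplicative order of q modulo r and t = (r − 1)/i. If i is odd the eigenvalue orbits pair off (Λ ≠ Λ⁻¹) and the classes correspond to the non-zero (t/2)-tuples (a_j) with 2i Σ a_j ≤ 2m, giving C(⌊m/i⌋ + t/2, t/2) − 1 classes; if i is even (Λ = Λ⁻¹) they correspond to the non-zero t-tuples with i Σ a_j ≤ 2m, giving C(⌊2m/i⌋ + t, t) − 1 classes. -/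
theorem result {F : Type*} [Field F] [Fintype F] {p q : ℕ} [Fact p.Prime] [CharP F p] (hF : Fintype.card F = q) (m r i t : ℕ) (hr : r.Prime) (hr2 : r ≠ 2) (hrp : r ≠ p) (hi : i = orderOf (q : ZMod r)) (ht : t * i = r - 1) : Nat.card {C : ConjClasses ↥(Matrix.symplecticGroup (Fin m) F) // ∃ g : Matrix.symplecticGroup (Fin m) F, ConjClasses.mk g = C ∧ orderOf g = r} = if Odd i then Nat.choose (m / i + t / 2) (t / 2) - 1 else Nat.choose (2 * m / i + t) t - 1 := by
  classical
  haveI : Fact r.Prime := ⟨hr⟩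
  have hrF : (r : F) ≠ 0 := fun h => hrp ((Nat.prime_dvd_prime_iff_eq (Fact.out : p.Prime)
    hr).mp ((CharP.cast_eq_zero_iff F p r).mp h)).symm
  obtain ⟨η, hη⟩ : ∃ η, (Odd i ∧ η = i) ∨ (Even i ∧ 2 * η = i) := by
    rcases Nat.even_or_odd i with h | h
    · exact ⟨i / 2, Or.inr ⟨h, Nat.two_mul_div_two_of_even h⟩⟩
    · exact ⟨i, Or.inl ⟨h, rfl⟩⟩
  subst hF
  rw [CfsgLib.Spec53.card_sp_classes_orderOf p
    (fun g h hg hh hc => Cfsg.Agent.S2389.result p m g h hg hh hc) hrp hr2 hi hη]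
  have h2 := (CfsgLib.Spec53.traceOrbits_spec hrF hr2 hi hη).2
  have hr1 : 1 < r := hr.one_lt
  rcases hη with ⟨ho, rfl⟩ | ⟨he, hη2⟩
  · rw [if_pos ho]
    have hη0 : 0 < η := ho.pos
    have : t = 2 * (CfsgLib.Spec53.traceOrbits F r).card :=
      Nat.eq_of_mul_eq_mul_right hη0 (by rw [ht, ← h2, mul_assoc])
    rw [show t / 2 = (CfsgLib.Spec53.traceOrbits F r).card by omega]
  · rw [if_neg (Nat.not_odd_iff_even.2 he), ← hη2]
    have hη0 : 0 < η := by
      rcases Nat.eq_zero_or_pos η with rfl | h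
      · rw [mul_zero, mul_zero] at h2; omega
      · exact h
    have : t = (CfsgLib.Spec53.traceOrbits F r).card :=
      Nat.eq_of_mul_eq_mul_right (Nat.mul_pos two_pos hη0) (by rw [hη2, ht, ← h2, ← hη2]; ring)
    rw [this, Nat.mul_div_mul_left _ _ two_pos]

end Cfsg.Agent.S2645
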