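import Cfsg.Statements.S2657
import Cfsg.Agent.F4AltSection.FiveSeven
import Cfsg.Agent.F4AltSection.Alternating
import Cfsg.Agent.ChevField.Map
import Mathlib.FieldTheory.Finite.Extension

set_option autoImplicit false
open scoped MatrixGroups
open Cfsg

namespace Cfsg.Agent.S2657

open CfsgLib.Chevalley CfsgLib.F4AltSection Cfsg.Lie

/-- Base change to a finite extension making a given prime divide `q - 1`. -/
theorem exists_baseChange {F : Type*} [Field F] [Fintype F] (p : ℕ) [Fact p.Prime] [CharP F p]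
    (n : ℕ) [NeZero n] :
    ∃ (E : Type) (_ : Field E) (_ : Fintype E) (f : ↥(chevF4.group F) →* ↥(chevF4.group E)),
      Function.Injective f ∧ Fintype.card E = Fintype.card F ^ n := by
  haveI : Module.Finite F (FiniteField.Extension F p n) := Module.Finite.of_finite
  let E := FiniteField.Extension F p n
  haveI : Fintype E := Fintype.ofFinite E
  let ι : F →+* E := algebraMap F E
  refine ⟨E, inferInstance, inferInstance,
    ((CfsgLib.ChevField.gmap chevF4 ι).comp (chevF4.group F).subtype).codRestrict _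
      fun g => CfsgLib.ChevField.gmap_mem sysF4 ι g.2, fun a b h => ?_, ?_⟩
  · exact Subtype.ext (CfsgLib.ChevField.gmap_injective ι (congrArg Subtype.val h))
  · rw [← Nat.card_eq_fintype_card (α := E), Module.natCard_eq_pow_finrank (K := F),
      FiniteField.finrank_extension F p n, Nat.card_eq_fintype_card]

theorem dvd_pow_card_sub_one {F : Type*} [Field F] [Fintype F] {p ℓ k : ℕ} [Fact p.Prime]
    [CharP F p] (hℓ : ℓ.Prime) (hne : p ≠ ℓ) (hk : ℓ - 1 ∣ k) :
    ℓ ∣ Fintype.card F ^ k - 1 := by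
  obtain ⟨a, -, ha⟩ := FiniteField.card F p
  have hco : Nat.Coprime (Fintype.card F) ℓ := by
    rw [ha]
    exact Nat.Coprime.pow_left _ ((Nat.coprime_primes (Fact.out) hℓ).mpr hne)
  obtain ⟨c, rfl⟩ := hk
  refine (Nat.modEq_iff_dvd' (Nat.one_le_pow _ _ Fintype.card_pos)).mp ?_
  have h := (Nat.ModEq.pow_card_sub_one_eq_one hℓ hco).pow c
  rw [one_pow, ← pow_mul] at h
  exact h.symm

/-- No alternating section of degree eleven outside characteristic eleven. -/
theorem no_eleven {F : Type*} [Field F] [Fintype F] (p : ℕ) [Fact p.Prime] [CharP F p]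
    (hp : p ≠ 11) {H Q : Type*} [Group H] [Group Q] (i : H →* ↥(chevF4.group F))
    (hi : Function.Injective i) (π : H →* Q) (hπ : Function.Surjective π) {s c : Q}
    (hs : orderOf s = 11) (hc : c * s * c⁻¹ = s ^ 3) : False := by
  haveI : Fact (Nat.Prime 11) := ⟨by norm_num⟩
  obtain ⟨E, _, _, f, hf, hE⟩ := exists_baseChange (F := F) p 10
  have hq : 11 ∣ Fintype.card E - 1 :=
    hE ▸ dvd_pow_card_sub_one (p := p) (by norm_num) hp (dvd_refl 10)
  have hW : ¬ 11 ∣ (Sys.wSet sysF4 (List.range chevF4.rank)).card := by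
    rw [show (Sys.wSet sysF4 (List.range chevF4.rank)).card = 1152 from card_weyl E]
    norm_num
  have hfi : Function.Injective (f.comp i) := hf.comp hi
  obtain ⟨z, hz, hlift⟩ := exists_lift_toral sysF4 hq hW (f.comp i) hfi π hπ hs
  obtain ⟨x, -, hx⟩ := hlift c 3 hc
  have h := scale_pow_card sysF4 hq hW (x := f.comp i x) (z := f.comp i z) (j := 3)
    ((orderOf_injective _ hfi z).trans hz) (by rw [← map_inv, ← map_mul, ← map_mul, hx, map_pow])
  rw [show (Sys.wSet sysF4 (List.range chevF4.rank)).card = 1152 from card_weyl E] at h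
  exact absurd h (by decide +kernel)

/-- No alternating section of degree twelve in characteristic different from five and seven. -/
theorem no_twelve {F : Type*} [Field F] [Fintype F] (p : ℕ) [Fact p.Prime] [CharP F p]
    (hp5 : p ≠ 5) (hp7 : p ≠ 7) {H Q : Type*} [Group H] [Group Q] (i : H →* ↥(chevF4.group F))
    (hi : Function.Injective i) (π : H →* Q) (hπ : Function.Surjective π) {a b x y : Q}
    (ha : orderOf a = 5) (hb : orderOf b = 7) (hab : a * b = b * a) (hay : a * y = y * a)
    (hy3 : y ^ 3 = 1) (hxa : x * a * x⁻¹ = a ^ 2) (hyb : y * b * y⁻¹ = b ^ 2) : False := by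
  haveI : Fact (Nat.Prime 5) := ⟨by norm_num⟩
  haveI : Fact (Nat.Prime 7) := ⟨by norm_num⟩
  obtain ⟨E, _, _, f, hf, hE⟩ := exists_baseChange (F := F) p 12
  have h5 : 5 ∣ Fintype.card E - 1 :=
    hE ▸ dvd_pow_card_sub_one (p := p) (by norm_num) hp5 (by norm_num)
  have h7 : 7 ∣ Fintype.card E - 1 :=
    hE ▸ dvd_pow_card_sub_one (p := p) (by norm_num) hp7 (by norm_num)
  have hc : (Sys.wSet sysF4 (List.range chevF4.rank)).card = 1152 := card_weyl E
  have hW5 : ¬ 5 ∣ (Sys.wSet sysF4 (List.range chevF4.rank)).card := by rw [hc]; norm_num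
  have hW7 : ¬ 7 ∣ (Sys.wSet sysF4 (List.range chevF4.rank)).card := by rw [hc]; norm_num
  have hfi : Function.Injective (f.comp i) := hf.comp hi
  obtain ⟨z, hz, hlift⟩ := exists_lift_toral sysF4 h5 hW5 (f.comp i) hfi π hπ ha
  obtain ⟨x₁, -, hx₁⟩ := hlift x 2 hxa
  set C := (Subgroup.centralizer ({a} : Set Q)).comap π ⊓ Subgroup.centralizer ({z} : Set H) with hC
  set π' := (π.comp C.subtype).rangeRestrict
  have hmem : ∀ u : Q, a * u = u * a → ∀ m : ℕ, 5 ∣ m → u ^ m ∈ (π.comp C.subtype).range := by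
    intro u hu m hm
    obtain ⟨v, ⟨k, hk⟩, hv⟩ := hlift u 1 (by rw [← hu, mul_inv_cancel_right, pow_one])
    rw [pow_one, mul_inv_eq_iff_eq_mul] at hv
    have hvC : v ∈ C := by
      refine ⟨?_, Subgroup.mem_centralizer_singleton_iff.mpr hv⟩
      show π v ∈ Subgroup.centralizer ({a} : Set Q)
      rw [Subgroup.mem_centralizer_singleton_iff, hk]
      exact ((Commute.refl a).pow_left k |>.mul_left (Commute.symm hu))
    have h1 : (s : Q) → (s ∈ (π.comp C.subtype).range) → s ^ m ∈ (π.comp C.subtype).range :=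
      fun s hs => pow_mem hs m
    have h2 := h1 (a ^ k * u) ⟨⟨v, hvC⟩, hk⟩
    obtain ⟨l, rfl⟩ := hm
    rw [((show Commute a u from hu).pow_left k).mul_pow, ← pow_mul a, mul_left_comm k 5 l,
      pow_mul a 5, ← ha, pow_orderOf_eq_one, one_pow, one_mul, ha] at h2
    exact h2
  have hbR : b ∈ (π.comp C.subtype).range := by
    have h := hmem b hab 15 (by norm_num)
    rwa [pow_eq_pow_mod 15 (hb ▸ pow_orderOf_eq_one b), show 15 % 7 = 1 from rfl, pow_one] at h
  have hyR : y ∈ (π.comp C.subtype).range := by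
    have h := hmem y hay 10 (by norm_num)
    rwa [pow_eq_pow_mod 10 hy3, show 10 % 3 = 1 from rfl, pow_one] at h
  obtain ⟨w, hw, hlift'⟩ := exists_lift_toral sysF4 h7 hW7 ((f.comp i).comp C.subtype)
    (hfi.comp C.subtype_injective) π' (MonoidHom.rangeRestrict_surjective _)
    (s := (⟨b, hbR⟩ : ↥(π.comp C.subtype).range)) (by rw [← Subgroup.orderOf_coe, hb])
  obtain ⟨y₁, -, hy₁⟩ := hlift' ⟨y, hyR⟩ 2 (Subtype.ext hyb)
  have hcz : ∀ v : ↥C, (v : H) * z = z * v := fun v =>
    Subgroup.mem_centralizer_singleton_iff.mp v.2.2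
  refine five_seven (F := E) h5 h7 (z := f.comp i z) (w := f.comp i w) (x := f.comp i x₁)
    (y := f.comp i y₁) ((orderOf_injective _ hfi z).trans hz) ?_ ?_ ?_ ?_ ?_
  · rw [orderOf_injective _ hfi, Subgroup.orderOf_coe, hw]
  · rw [← map_mul, ← map_mul, hcz w]
  · rw [← map_inv, ← map_mul, ← map_mul, hx₁, map_pow]
  · rw [← map_inv, ← map_mul, ← map_mul, hcz y₁, mul_inv_cancel_right]
  · rw [← map_inv, ← map_mul, ← map_mul, ← map_pow]
    exact congrArg _ (congrArg Subtype.val hy₁)

/-- Alternating sections of the groups of type F₄. Let `F` be a finite field of characteristic `p` and let `G` be the Chevalley group of type F₄ over `F`. If some subgroup of `G` has a quotient isomorphic to the alternating group of degree `r`, then `r` is at most 10, or 11 in characteristic 11. (Only an upper bound is asserted.) -/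
theorem result {F : Type*} [Field F] [Fintype F] (p : ℕ) [Fact p.Prime] [CharP F p]
    (r : ℕ) (H : Subgroup ↥(Cfsg.Lie.chevF4.group F)) (K : Subgroup ↥H) [K.Normal]
    (h : Nonempty (↥H ⧸ K ≃* ↥(alternatingGroup (Fin r)))) :
    r ≤ 10 + (if p = 11 then 1 else 0) := by
  obtain ⟨e⟩ := h
  have hπ : Function.Surjective (e.toMonoidHom.comp (QuotientGroup.mk' K)) :=
    e.surjective.comp (QuotientGroup.mk'_surjective K)
  by_contra hr
  by_cases hp : p = 11
  · rw [if_pos hp] at hr
    obtain ⟨a, b, x, y, ha, hb, hab, hay, hy3, hxa, hyb⟩ := exists_twelve (r := r) (by omega)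
    exact no_twelve p (by omega) (by omega) H.subtype H.subtype_injective _ hπ ha hb hab hay hy3
      hxa hyb
  · rw [if_neg hp] at hr
    obtain ⟨s, c, hs, hc⟩ := exists_eleven (r := r) (by omega)
    exact no_eleven p hp H.subtype H.subtype_injective _ hπ hs hc

end Cfsg.Agent.S2657
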