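import Cfsg.Statements.S2662
import Cfsg.Agent.ChevField.FieldAut
import Cfsg.Agent.Chevalley.Data.SysE8
import Cfsg.Agent.Eq.Def_ChevE8

set_option autoImplicit false
open scoped MatrixGroups
open Cfsg

namespace Cfsg.Agent.S2662

/-- the inverse of the Cartan matrix -/
def invCartan : List (List ℤ) := [[4, 5, 7, 10, 8, 6, 4, 2], [5, 8, 10, 15, 12, 9, 6, 3], [7, 10, 14, 20, 16, 12, 8, 4], [10, 15, 20, 30, 24, 18, 12, 6], [8, 12, 16, 24, 20, 15, 10, 5], [6, 9, 12, 18, 15, 12, 8, 4], [4, 6, 8, 12, 10, 8, 6, 3], [2, 3, 4, 6, 5, 4, 3, 2]]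

theorem invCartan_spec : ∀ j < Cfsg.Lie.chevE8.rank, ∀ m < Cfsg.Lie.chevE8.rank,
    ∑ i ∈ Finset.range Cfsg.Lie.chevE8.rank,
      Cfsg.Lie.chevE8.cartan j (Cfsg.Lie.chevE8.simple i) * (invCartan.getD i []).getD m 0
      = if j = m then 1 else 0 := by
  decide +kernel

/-- Centralizers of field automorphisms of prime order, type E₈. Let `F` be a finite field and `G` the Chevalley group of type E₈ over `F` (for this type the group generated by the root elements is the whole group of rational points, with trivial centre). Let `φ` be a field automorphism of `G` (it sends each root element `x_s(t)` to `x_s(σ t)` for a fixed automorphism `σ` of `F`) whose order is a prime `r`. Then `F` has `q₀ ^ r` elements for some prime power `q₀`, and the subgroup of elements fixed by `φ` is isomorphic to the Chevalley group of type E₈ over a field with `q₀` elements. -/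
theorem result {F : Type*} [Field F] [Fintype F]
    (φ : MulAut ↥(Cfsg.Lie.chevE8.group F)) (hφ : Cfsg.Lie.chevE8.IsFieldAut φ) (r : ℕ) (hr : r.Prime) (ho : orderOf φ = r) :
    ∃ (F₀ : Type) (_ : Field F₀) (_ : Fintype F₀), Fintype.card F = Fintype.card F₀ ^ r ∧
      Nonempty (↥((MulEquiv.toMonoidHom φ).eqLocus (MonoidHom.id ↥(Cfsg.Lie.chevE8.group F))) ≃* ↥(Cfsg.Lie.chevE8.group F₀)) := by
  exact CfsgLib.ChevField.fieldAut_centralizer CfsgLib.Chevalley.sysE8 (by decide +kernel)
    (fun i m => (invCartan.getD i []).getD m 0) invCartan_spec φ hφ r ho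

end Cfsg.Agent.S2662
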