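import Cfsg.Statements.S2665
import Cfsg.Agent.LangGL.FixedBasis

set_option autoImplicit false
open scoped MatrixGroups
open Cfsg

namespace Cfsg.Agent.S2665

/-- The Lang–Steinberg Theorem for the general linear group. Let `K` be an algebraically closed field of prime characteristic `p`, let `q = p^f` with `f ≥ 1`, and let `σ` be the endomorphism of GL_n(K) raising every matrix entry to the `q`-th power. Then every element `g` of GL_n(K) can be written `g = x · σ(x)⁻¹` for some `x` in GL_n(K): the map `x ↦ x σ(x)⁻¹` is surjective. -/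
theorem result {K : Type*} [Field K] [IsAlgClosed K] (p : ℕ) [Fact p.Prime] [CharP K p]
    (f : ℕ) (hf : 1 ≤ f) (n : ℕ) (g : GL (Fin n) K) :
    ∃ x : GL (Fin n) K, g = x * (Matrix.GeneralLinearGroup.map (iterateFrobenius K p f) x)⁻¹ := by
  classical
  set σ := iterateFrobenius K p f with hσdef
  have hq : 2 ≤ p ^ f := (Fact.out : p.Prime).two_le.trans (Nat.le_self_pow (by omega) p)
  have hσ : ∀ x, σ x = x ^ p ^ f := fun x => by rw [hσdef, iterateFrobenius_def]
  let φ : (Fin n → K) →ₛₗ[σ] (Fin n → K) :=
    { toFun := fun v => (g : Matrix (Fin n) (Fin n) K).mulVec (fun i => σ (v i))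
      map_add' := fun v w => by
        rw [← Matrix.mulVec_add]; congr 1; funext i; simp
      map_smul' := fun c v => by
        rw [← Matrix.mulVec_smul]; congr 1; funext i; simp }
  have hφ : Function.Injective φ := by
    intro v w h
    have h1 := congrArg (fun u => ((g⁻¹ : GL (Fin n) K) : Matrix (Fin n) (Fin n) K).mulVec u) h
    simp only [φ, LinearMap.coe_mk, AddHom.coe_mk, Matrix.mulVec_mulVec, Units.inv_mul,
      Matrix.one_mulVec] at h1
    funext i
    exact σ.injective (congrFun h1 i)
  have hspan := CfsgLib.LangGL.span_fixed_eq_top hq hσ φ hφ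
  obtain ⟨t, ht, htspan, htli⟩ := exists_linearIndependent K {v : Fin n → K | φ v = v}
  let B := Module.Basis.mk htli (by rw [Subtype.range_coe_subtype, Set.setOf_mem_eq, htspan, hspan])
  let B' := B.reindex (B.indexEquiv (Pi.basisFun K (Fin n)))
  have hB' : ∀ j, φ (B' j) = B' j := by
    intro j
    simp only [B', B, Module.Basis.reindex_apply, Module.Basis.mk_apply]
    exact ht (Subtype.coe_prop _)
  let M : Matrix (Fin n) (Fin n) K := Matrix.of fun i j => B' j i
  have hM : IsUnit M := by
    rw [← Matrix.linearIndependent_cols_iff_isUnit]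
    exact (show M.col = ⇑B' from rfl) ▸ B'.linearIndependent
  refine ⟨hM.unit, ?_⟩
  rw [eq_mul_inv_iff_mul_eq]
  apply Units.ext
  ext i j
  have h := congrFun (hB' j) i
  simp only [φ, LinearMap.coe_mk, AddHom.coe_mk, Matrix.mulVec, dotProduct] at h
  simpa [Matrix.mul_apply, M] using h

end Cfsg.Agent.S2665
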