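import Cfsg.Statements.S2668
import Cfsg.Agent.Shintani.Descent

set_option autoImplicit false
open Cfsg CfsgLib.Shintani

namespace Cfsg.Agent.S2668

/-- Shintani descent and powers (abstract form). Let `σ` be an automorphism of a group `X`, `e ≥ 1` and `d ≥ 1`, let `g` be fixed by `σᵉ` and let `a` satisfy `g = a σ(a)⁻¹`, so that the Shintani map of `(X, σ, e)` sends the class of `g σ` to the class of `x = σᵉ(a)⁻¹ a`. Put `h = g σ(g) ⋯ σ^(d-1)(g)`, the part in `X` of the `d`-th power `(g σ)^d = h σ^d`. Then `h = a σ^d(a)⁻¹` (so `a` also serves for `h` with respect to `σ^d`), `h` is fixed by `(σ^d)ᵉ`, and `(σ^d)ᵉ(a)⁻¹ a = x^d`: the Shintani map of `(X, σ^d, e)` sends the class of `(g σ)^d` to the class of `x^d`. (When `d` divides `e`, the Shintani map of `(X, σ^d, e/d)` sends it to the class of `x` itself, since `(σ^d)^(e/d) = σᵉ`.) -/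
theorem result {X : Type*} [Group X] (σ : MulAut X) (e d : ℕ) (he : 1 ≤ e) (hd : 1 ≤ d)
    (g : X) (hg : g ∈ (MulEquiv.toMonoidHom (σ ^ e)).eqLocus (MonoidHom.id X)) (a : X) (ha : g = a * (σ a)⁻¹) :
    ((List.range d).map (fun i => (σ ^ i) g)).prod = a * ((σ ^ d) a)⁻¹ ∧
      ((List.range d).map (fun i => (σ ^ i) g)).prod ∈ (MulEquiv.toMonoidHom ((σ ^ d) ^ e)).eqLocus (MonoidHom.id X) ∧
      (((σ ^ d) ^ e) a)⁻¹ * a = (((σ ^ e) a)⁻¹ * a) ^ d := by
  subst ha
  have hx : σ (((σ ^ e) a)⁻¹ * a) = ((σ ^ e) a)⁻¹ * a := image_fixed σ e a hg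
  refine ⟨prod_range_twist σ a d, ?_, ?_⟩
  · change ((σ ^ d) ^ e) _ = _
    rw [← pow_mul, mul_comm d e, pow_mul, map_list_prod, List.map_map]
    congr 1
    refine List.map_congr_left fun i _ => ?_
    have h2 : (σ ^ e) ((σ ^ i) (a * (σ a)⁻¹)) = (σ ^ i) (a * (σ a)⁻¹) := by
      rw [← MulAut.mul_apply, pow_mul_comm, MulAut.mul_apply]
      exact congrArg _ hg
    exact apply_pow_fixed (σ ^ e) h2 d
  · have key : ∀ j : ℕ, ((σ ^ e) ^ j) a = a * ((((σ ^ e) a)⁻¹ * a) ^ j)⁻¹ := by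
      intro j
      induction j with
      | zero => simp
      | succ j ih =>
        rw [pow_succ' (σ ^ e), MulAut.mul_apply, ih, map_mul, map_inv, map_pow,
          apply_pow_fixed σ hx e, pow_succ (((σ ^ e) a)⁻¹ * a)]
        group
    rw [← pow_mul, mul_comm d e, pow_mul, key]; group

end Cfsg.Agent.S2668
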