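import Cfsg.Statements.S2676
import Cfsg.Agent.Classical.SympUnipotent.Count

set_option autoImplicit false
open Classical
open Cfsg

namespace Cfsg.Agent.S2676

/-- Number of conjugacy classes of elements of order p in Sp_2m(q), q a power of the odd prime p: the classes correspond to the signed partitions of 2m — partitions with all parts at most p in which every odd part has even multiplicity, each even part size that occurs carrying a sign — other than the all-ones partition; so the count is the sum over such partitions of 2^(number of distinct even parts), minus one. -/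
theorem result {F : Type*} [Field F] [Fintype F] {p : ℕ} [Fact p.Prime] [CharP F p] (hp : p ≠ 2) (m : ℕ) : Nat.card {C : ConjClasses ↥(Matrix.symplecticGroup (Fin m) F) // ∃ g : Matrix.symplecticGroup (Fin m) F, ConjClasses.mk g = C ∧ orderOf g = p} = (∑ μ ∈ Finset.univ.filter (fun μ : Nat.Partition (2 * m) => (∀ a ∈ μ.parts, a ≤ p) ∧ ∀ j : ℕ, Odd j → Even (μ.parts.count j)), 2 ^ ((μ.parts.toFinset.filter (fun j : ℕ => Even j)).card)) - 1 := by
  rw [← CfsgLib.Classical.SympUnipotent.card_classes (F := F) (p := p) (m := m) hp]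
  have hp1 := (Fact.out : p.Prime)
  let one : {C : ConjClasses ↥(Matrix.symplecticGroup (Fin m) F) //
      ∃ g : Matrix.symplecticGroup (Fin m) F, ConjClasses.mk g = C ∧ g ^ p = 1} :=
    ⟨ConjClasses.mk 1, 1, rfl, one_pow p⟩
  let e : {C : ConjClasses ↥(Matrix.symplecticGroup (Fin m) F) //
      ∃ g : Matrix.symplecticGroup (Fin m) F, ConjClasses.mk g = C ∧ orderOf g = p} ≃
      {c // c ≠ one} :=
    { toFun := fun C => ⟨⟨C.1, C.2.imp fun g hg => ⟨hg.1, by rw [← hg.2]; exact pow_orderOf_eq_one g⟩⟩, fun h => by
        obtain ⟨g, hg, ho⟩ := C.2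
        have h1 : ConjClasses.mk g = ConjClasses.mk 1 := hg.trans (congrArg Subtype.val h)
        rw [isConj_one_left.1 (ConjClasses.mk_eq_mk_iff_isConj.1 h1), orderOf_one] at ho
        exact hp1.one_lt.ne ho⟩
      invFun := fun C => ⟨C.1.1, by
        obtain ⟨g, hg, hgp⟩ := C.1.2
        refine ⟨g, hg, (hp1.eq_one_or_self_of_dvd _ (orderOf_dvd_of_pow_eq_one hgp)).resolve_left fun h1 => ?_⟩
        exact C.2 (Subtype.ext (by rw [← hg, orderOf_eq_one_iff.1 h1]))⟩
      left_inv := fun C => Subtype.ext rfl
      right_inv := fun C => Subtype.ext (Subtype.ext rfl) }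
  haveI : Fintype {C : ConjClasses ↥(Matrix.symplecticGroup (Fin m) F) //
      ∃ g : Matrix.symplecticGroup (Fin m) F, ConjClasses.mk g = C ∧ g ^ p = 1} := Fintype.ofFinite _
  rw [Nat.card_congr e, Nat.card_eq_fintype_card, Nat.card_eq_fintype_card, Fintype.card_subtype_compl,
    Fintype.card_subtype_eq]

end Cfsg.Agent.S2676
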