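import Cfsg.Statements.S2677
import Cfsg.Agent.Classical.Unitary.Order
import Cfsg.Agent.Classical.Unitary.LangFinite

set_option autoImplicit false
open Cfsg

namespace Cfsg.Agent.S2677
open CfsgLib.Unitary

theorem pow_odd_eq {L : Type*} [Monoid L] {q₀ : ℕ} (h : ∀ x : L, x ^ (q₀ ^ 2) = x) {r : ℕ} (hr : Odd r) (x : L) :
    x ^ (q₀ ^ r) = x ^ q₀ := by
  obtain ⟨j, rfl⟩ := hr
  induction j with
  | zero => simp
  | succ j ih =>
    rw [show 2 * (j + 1) + 1 = (2 * j + 1) + 2 by ring, pow_add, pow_mul, h, ih]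


/-- Centraliser of a field automorphism of odd prime order in PGU_n(q): let q = q₀^r with r an odd prime, K the field with q² elements and σ a field automorphism of K of order r (fixed field of order q₀²). The elements g of GU_n(q) whose entrywise image under σ is a scalar multiple of g — those whose coset modulo the q + 1 unitary scalars is fixed by σ — number (q + 1)/(q₀ + 1) · |GU_n(q₀)|; equivalently the centraliser in PGU_n(q) of the induced automorphism has the order of PGU_n(q₀). -/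
theorem result {K : Type*} [Field K] [Fintype K] {q₀ q r n : ℕ} (hr : r.Prime) (hr2 : r ≠ 2) (hn : 1 ≤ n) (hq : q = q₀ ^ r) (hK : Fintype.card K = q ^ 2) (σ : K ≃+* K) (hσ : orderOf σ = r) : (Nat.card {g : ↥(Cfsg.GU n K q) // ∃ c : K, c ≠ 0 ∧ ((g : GL (Fin n) K) : Matrix (Fin n) (Fin n) K).map σ = c • ((g : GL (Fin n) K) : Matrix (Fin n) (Fin n) K)} : ℤ) = ((q + 1) / (q₀ + 1) : ℕ) * ((q₀ : ℤ) ^ (n * (n - 1) / 2) * ∏ i : Fin n, ((q₀ : ℤ) ^ ((i : ℕ) + 1) - (-1) ^ ((i : ℕ) + 1))) := by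
  classical
  have hr0 : r ≠ 0 := hr.ne_zero
  have hodd : Odd r := hr.eq_two_or_odd'.resolve_left hr2
  let A := Subgroup.zpowers (σ : RingAut K)
  haveI : Finite (RingAut K) := Finite.of_injective (fun f => (f : K → K)) DFunLike.coe_injective
  haveI : Fintype A := Fintype.ofFinite A
  haveI : FaithfulSMul A K := ⟨fun h => Subtype.ext (RingEquiv.ext h)⟩
  let F₀ := FixedPoints.subfield A K
  haveI : Fintype F₀ := Fintype.ofFinite F₀
  have hmem : ∀ x : K, σ x = x → x ∈ F₀ := by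
    intro x hx
    rintro ⟨m, hm⟩
    show m x = x
    have : (σ : RingAut K) ∈ MulAction.stabilizer (RingAut K) x := hx
    exact (Subgroup.zpowers_le.2 this) hm
  have hfix : ∀ a : F₀, σ (a : K) = a := fun a => a.2 ⟨σ, Subgroup.mem_zpowers _⟩
  have hF₀ : Fintype.card F₀ = q₀ ^ 2 := by
    have h1 : Fintype.card K = Fintype.card F₀ ^ r := by
      rw [Module.card_eq_pow_finrank (K := F₀) (V := K), FixedPoints.finrank_eq_card A K,
        ← Nat.card_eq_fintype_card (α := A), Nat.card_zpowers, hσ]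
    refine Nat.pow_left_injective hr0 ?_
    show Fintype.card F₀ ^ r = (q₀ ^ 2) ^ r
    rw [← h1, hK, hq, ← pow_mul, ← pow_mul, mul_comm]
  have hq0 := two_le_q hF₀
  have hpow : ∀ x : F₀, x ^ q = x ^ q₀ := fun x => hq ▸ pow_odd_eq (fun y => by rw [← hF₀]; exact FiniteField.pow_card y) hodd x
  let e : F₀ →+* K := F₀.subtype
  have he : ∀ x : F₀, e x ^ q = e (x ^ q₀) := fun x => by rw [← map_pow, hpow]
  have hcj : ∀ M : Matrix (Fin n) (Fin n) F₀, cjT q (M.map e) = (cjT q₀ M).map e := fun M => by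
    ext i j; simp [cjT, he]
  let μ : Subgroup Kˣ := (powMonoidHom (q + 1) : Kˣ →* Kˣ).ker
  have hμ : ∀ z : μ, ((z : Kˣ) : K) ^ (q + 1) = 1 := fun z => by
    rw [← Units.val_pow_eq_pow_val, show (z : Kˣ) ^ (q + 1) = 1 from z.2]; rfl
  have hμc : Nat.card μ = q + 1 := by
    show Nat.card (powMonoidHom (q + 1) : Kˣ →* Kˣ).ker = _
    rw [IsCyclic.card_powMonoidHom_ker, card_units_eq hK]
    exact Nat.gcd_eq_right (dvd_mul_left _ _)
  let φ : μ →* GL (Fin n) K := ((Units.map (Matrix.scalar (Fin n) : K →+* Matrix (Fin n) (Fin n) K).toMonoidHom).comp μ.subtype)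
  let ψ : ↥(Cfsg.GU n F₀ q₀) →* GL (Fin n) K := (Matrix.GeneralLinearGroup.map e).comp (Cfsg.GU n F₀ q₀).subtype
  have hφψ : ∀ (z : μ) (M : ↥(Cfsg.GU n F₀ q₀)), ψ M * φ z = φ z * ψ M := fun z M =>
    Units.ext ((Matrix.scalar_commute ((z : Kˣ) : K) (fun r => mul_comm _ r) _).eq).symm
  let Ψ : μ × ↥(Cfsg.GU n F₀ q₀) →* GL (Fin n) K :=
    { toFun := fun p => φ p.1 * ψ p.2
      map_one' := by simp
      map_mul' := fun a b => by
        simp only [Prod.fst_mul, Prod.snd_mul, map_mul]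
        calc φ a.1 * φ b.1 * (ψ a.2 * ψ b.2) = φ a.1 * (φ b.1 * ψ a.2) * ψ b.2 := by group
          _ = φ a.1 * (ψ a.2 * φ b.1) * ψ b.2 := by rw [hφψ]
          _ = φ a.1 * ψ a.2 * (φ b.1 * ψ b.2) := by group }
  have hΨ : ∀ p : μ × ↥(Cfsg.GU n F₀ q₀), ((Ψ p : GL (Fin n) K) : Matrix (Fin n) (Fin n) K) =
      ((p.1 : Kˣ) : K) • ((p.2 : GL (Fin n) F₀) : Matrix (Fin n) (Fin n) F₀).map e := by
    intro p
    ext i j
    simp [Ψ, φ, ψ, Matrix.scalar_apply, Matrix.diagonal_mul]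
  have hcjs : ∀ (l : K) (X : Matrix (Fin n) (Fin n) K), cjT q (l • X) * (l • X) = l ^ (q + 1) • (cjT q X * X) := by
    intro l X
    rw [show cjT q (l • X) = l ^ q • cjT q X by ext i j; simp [cjT, mul_pow], smul_mul_smul_comm, pow_succ]
  have hin : ∀ g : GL (Fin n) K, g ∈ Ψ.range ↔ g ∈ Cfsg.GU n K q ∧
      ∃ c : K, c ≠ 0 ∧ (g : Matrix (Fin n) (Fin n) K).map σ = c • (g : Matrix (Fin n) (Fin n) K) := by
    intro g
    constructor
    · rintro ⟨p, rfl⟩
      refine ⟨?_, σ ((p.1 : Kˣ) : K) / ((p.1 : Kˣ) : K), div_ne_zero (by simp) (Units.ne_zero _), ?_⟩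
      · rw [mem_GU_iff_cjT hK, hΨ, hcjs, hμ, one_smul, hcj, ← Matrix.map_mul, (mem_GU_iff_cjT hF₀).1 p.2.2]
        exact Matrix.map_one _ (map_zero e) (map_one e)
      · rw [hΨ]
        ext i j
        simp only [Matrix.map_apply, Matrix.smul_apply, smul_eq_mul]
        rw [map_mul, ← mul_assoc, div_mul_cancel₀ _ (Units.ne_zero _)]
        exact congrArg _ (hfix _)
    · rintro ⟨hgU, c, hc, hg⟩
      haveI : Nonempty (Fin n) := ⟨⟨0, hn⟩⟩
      obtain ⟨i, j, hij⟩ : ∃ i j, (g : Matrix (Fin n) (Fin n) K) i j ≠ 0 := by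
        by_contra! h
        exact g.ne_zero (Matrix.ext h)
      set l := (g : Matrix (Fin n) (Fin n) K) i j with hl
      have hent : ∀ a b, σ ((g : Matrix (Fin n) (Fin n) K) a b) = c * (g : Matrix (Fin n) (Fin n) K) a b :=
        fun a b => by simpa using congrFun (congrFun hg a) b
      have hfx : ∀ a b, ((g : Matrix (Fin n) (Fin n) K) a b) / l ∈ F₀ := fun a b => hmem _ (by
        rw [map_div₀, hent, hl, hent, mul_div_mul_left _ _ hc])
      let M : Matrix (Fin n) (Fin n) F₀ := Matrix.of fun a b => ⟨_, hfx a b⟩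
      have hgM : (g : Matrix (Fin n) (Fin n) K) = l • M.map e := by
        ext a b
        show _ = l * (_ / l)
        rw [mul_div_cancel₀ _ hij]
      have hU := (mem_GU_iff_cjT hK).1 hgU
      rw [hgM, hcjs, hcj, ← Matrix.map_mul] at hU
      set ν : F₀ := (cjT q₀ M * M) i i with hν
      have hν1 : l ^ (q + 1) * e ν = 1 := by simpa [-Matrix.map_mul] using congrFun (congrFun hU i) i
      have hνM : cjT q₀ M * M = Matrix.scalar (Fin n) ν := by
        refine Matrix.map_injective e.injective ?_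
        show (cjT q₀ M * M).map e = (Matrix.scalar (Fin n) ν).map e
        have h1 : e ν • (l ^ (q + 1) • (cjT q₀ M * M).map e) = e ν • (1 : Matrix (Fin n) (Fin n) K) := by rw [hU]
        rw [smul_smul, mul_comm (e ν), hν1, one_smul] at h1
        rw [h1]
        ext a b
        by_cases hab : a = b
        · subst hab; simp
        · simp [hab]
      have hνq : ν ^ q₀ = ν := by
        refine e.injective ?_
        rw [← he, eq_inv_of_mul_eq_one_right hν1, inv_pow, norm_pow_q hK]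
      obtain ⟨s, hs⟩ := exists_norm_eq hF₀ hνq
      have hs0 : s ≠ 0 := by
        rintro rfl
        rw [zero_pow (Nat.succ_ne_zero _)] at hs
        rw [← hs, map_zero, mul_zero] at hν1
        exact zero_ne_one hν1
      have hsM : cjT q₀ (s⁻¹ • M) * (s⁻¹ • M) = 1 := by
        rw [show cjT q₀ (s⁻¹ • M) = (s⁻¹) ^ q₀ • cjT q₀ M by ext a b; simp [cjT, mul_pow], smul_mul_smul_comm,
          ← pow_succ, inv_pow, hs, hνM]
        ext a b
        by_cases hab : a = b
        · subst hab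
          have hν0 : ν ≠ 0 := fun h => by rw [h, map_zero, mul_zero] at hν1; exact zero_ne_one hν1
          simp [hν0]
        · simp [hab]
      let M' : GL (Fin n) F₀ := ⟨s⁻¹ • M, cjT q₀ (s⁻¹ • M), mul_eq_one_comm.1 hsM, hsM⟩
      have hz : (l * e s) ^ (q + 1) = 1 := by
        rw [mul_pow, show e s ^ (q + 1) = e ν by rw [pow_succ, he, ← map_mul, ← pow_succ, hs]]
        exact hν1
      have hls : l * e s ≠ 0 := mul_ne_zero hij ((map_ne_zero e).2 hs0)
      refine ⟨(⟨Units.mk0 _ hls, Units.ext (by simpa [powMonoidHom_apply] using hz)⟩,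
        ⟨M', (mem_GU_iff_cjT hF₀).2 hsM⟩), Units.ext ?_⟩
      rw [hΨ, hgM]
      ext a b
      simp only [Units.val_mk0, Matrix.smul_apply, Matrix.map_apply, smul_eq_mul, M']
      rw [map_mul, map_inv₀]
      field_simp
      rw [mul_div_cancel_left₀ _ ((map_ne_zero e).2 hs0)]
  have hker : Nat.card Ψ.ker = q₀ + 1 := by
    rw [← card_norm_one hF₀]
    have hgiven : ∀ a : {a : F₀ // a ^ (q₀ + 1) = 1}, ∃ p : μ × ↥(Cfsg.GU n F₀ q₀), ((p.1 : Kˣ) : K) = (e a.1)⁻¹ ∧
        ((p.2 : GL (Fin n) F₀) : Matrix (Fin n) (Fin n) F₀) = Matrix.diagonal fun _ => a.1 := by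
      intro a
      have ha : e a.1 ^ (q + 1) = 1 := by rw [pow_succ, he, ← map_mul, ← pow_succ, a.2, map_one]
      have ha0 : e a.1 ≠ 0 := fun h => by rw [h, zero_pow (Nat.succ_ne_zero _)] at ha; exact zero_ne_one ha
      exact ⟨(⟨(Units.mk0 _ ha0)⁻¹, Units.ext (by simp [powMonoidHom_apply, ha])⟩, diagGU (fun _ => a.1) fun _ => a.2),
        by simp, rfl⟩
    choose G hG1 hG2 using hgiven
    refine (Nat.card_eq_of_bijective (fun a => (⟨G a, ?_⟩ : Ψ.ker)) ⟨?_, ?_⟩).symm
    · refine MonoidHom.mem_ker.2 (Units.ext ?_)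
      rw [hΨ, hG1, hG2]
      have ha0 : e a.1 ≠ 0 := (map_ne_zero e).2 fun h => by
        have h1 := a.2
        rw [h, zero_pow (Nat.succ_ne_zero _)] at h1
        exact zero_ne_one h1
      ext i j
      by_cases hij : i = j
      · subst hij; simp [ha0]
      · simp [hij]
    · intro a b h
      have h1 := congrArg (fun p : Ψ.ker => ((p.1.1 : Kˣ) : K)) h
      simp only [hG1, inv_inj] at h1
      exact Subtype.ext (e.injective h1)
    · rintro ⟨⟨z, M⟩, hp⟩
      have h := congrArg (fun g : GL (Fin n) K => (g : Matrix (Fin n) (Fin n) K)) (MonoidHom.mem_ker.1 hp)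
      simp only [hΨ] at h
      set a := ((M : GL (Fin n) F₀) : Matrix (Fin n) (Fin n) F₀) ⟨0, hn⟩ ⟨0, hn⟩ with ha
      have hza : ((z : Kˣ) : K) * e a = 1 := by simpa using congrFun (congrFun h ⟨0, hn⟩) ⟨0, hn⟩
      have han : a ^ (q₀ + 1) = 1 := by
        refine e.injective ?_
        rw [pow_succ, map_mul, ← he, ← pow_succ, eq_inv_of_mul_eq_one_right hza, inv_pow, hμ, inv_one, map_one]
      refine ⟨⟨a, han⟩, Subtype.ext (Prod.ext (Subtype.ext (Units.ext ?_)) (Subtype.ext (Units.ext ?_)))⟩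
      · rw [hG1]; exact (eq_inv_of_mul_eq_one_left hza).symm
      · rw [hG2]
        ext i j
        refine congrArg Subtype.val (e.injective ?_ : _ = _) |> fun h => h
        refine mul_left_cancel₀ (Units.ne_zero (z : Kˣ)) ?_
        have h1 := congrFun (congrFun h i) j
        simp only [Matrix.smul_apply, Matrix.map_apply, smul_eq_mul] at h1
        rw [h1]
        by_cases hij : i = j
        · subst hij; simp [hza]
        · simp [hij]
  have hcard := Subgroup.card_eq_card_quotient_mul_card_subgroup Ψ.ker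
  rw [Nat.card_congr (QuotientGroup.quotientKerEquivRange Ψ).toEquiv, hker, Nat.card_prod, hμc, card_GU hF₀] at hcard
  have hset : Nat.card Ψ.range = Nat.card {g : ↥(Cfsg.GU n K q) // ∃ c : K, c ≠ 0 ∧
      ((g : GL (Fin n) K) : Matrix (Fin n) (Fin n) K).map σ = c • ((g : GL (Fin n) K) : Matrix (Fin n) (Fin n) K)} :=
    Nat.card_congr
      { toFun := fun g => ⟨⟨g.1, ((hin _).1 g.2).1⟩, ((hin _).1 g.2).2⟩
        invFun := fun g => ⟨g.1.1, (hin _).2 ⟨g.1.2, g.2⟩⟩
        left_inv := fun _ => rfl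
        right_inv := fun _ => rfl }
  rw [hset] at hcard
  have hprod : ((∏ i ∈ Finset.range n, (if Even i then q₀ ^ (i + 1) + 1 else q₀ ^ (i + 1) - 1) : ℕ) : ℤ) =
      ∏ i : Fin n, ((q₀ : ℤ) ^ ((i : ℕ) + 1) - (-1) ^ ((i : ℕ) + 1)) := by
    rw [Fin.prod_univ_eq_prod_range (fun i => (q₀ : ℤ) ^ (i + 1) - (-1) ^ (i + 1)), Nat.cast_prod]
    refine Finset.prod_congr rfl fun i _ => ?_
    by_cases hi : Even i
    · rw [if_pos hi, Odd.neg_one_pow (hi.add_odd odd_one)]
      push_cast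
      ring
    · rw [if_neg hi, Even.neg_one_pow ((Nat.not_even_iff_odd.1 hi).add_odd odd_one), Nat.cast_sub (Nat.one_le_pow _ _ (by omega))]
      push_cast
      ring
  rw [← hprod, ← Nat.cast_pow, ← Nat.cast_mul, ← Nat.cast_mul]
  refine congrArg _ ?_
  have hdvd : q₀ + 1 ∣ q + 1 := by
    rw [hq]
    simpa using hodd.nat_add_dvd_pow_add_pow q₀ 1
  obtain ⟨d, hd⟩ := hdvd
  rw [hd, Nat.mul_div_cancel_left _ (by omega)]
  rw [hd] at hcard
  refine Nat.eq_of_mul_eq_mul_right (show 0 < q₀ + 1 by omega) ?_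
  linarith

end Cfsg.Agent.S2677
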