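import Cfsg.Statements.S2678
import Cfsg.Agent.QuadExt.Embedding

set_option autoImplicit false
open Cfsg

namespace Cfsg.Agent.S2678

open Matrix

/-- Field-extension embedding of symplectic groups: for a field K with q² elements and a field F with q elements there is an injective homomorphism Sp_2a(K) → Sp_4a(F). -/
theorem result {K F : Type*} [Field K] [Fintype K] [Field F] [Fintype F] {q : ℕ} (hK : Fintype.card K = q ^ 2) (hF : Fintype.card F = q) (a : ℕ) : ∃ φ : ↥(Matrix.symplecticGroup (Fin a) K) →* ↥(Matrix.symplecticGroup (Fin (2 * a)) F), Function.Injective φ := by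
  classical
  subst hF
  obtain ⟨ι⟩ := CfsgLib.QuadExt.exists_ringHom (F := F) hK
  letI := ι.toAlgebra
  have hrk : Module.finrank F K = 2 := CfsgLib.QuadExt.finrank_toAlgebra hK ι
  haveI : FiniteDimensional F K := Module.finite_of_finrank_eq_succ hrk
  let b : Module.Basis (Fin 2) F K := Module.finBasisOfFinrankEq F K hrk
  have hnd : (Algebra.traceForm F K).Nondegenerate := traceForm_nondegenerate F K
  let d := (Algebra.traceForm F K).dualBasis hnd b
  -- the trace pairing in the coordinates `b`, `d`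
  have hpair : ∀ x y : K, ∑ k, b.repr x k * d.repr y k = Algebra.trace F K (x * y) := by
    intro x y
    simp only [d, LinearMap.BilinForm.dualBasis_repr_apply, Algebra.traceForm_apply]
    conv_rhs => rw [← b.sum_repr x, Finset.sum_mul, map_sum]
    refine Finset.sum_congr rfl fun k _ => ?_
    rw [smul_mul_assoc, map_smul, smul_eq_mul, mul_comm (b k)]
  let ix : Fin a × Fin 2 ≃ Fin (2 * a) := finProdFinEquiv.trans (finCongr (mul_comm a 2))
  let e : (Fin a ⊕ Fin a → K) ≃ₗ[F] (Fin (2 * a) ⊕ Fin (2 * a) → F) :=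
    { toFun := fun v => Sum.elim (fun j => b.repr (v (.inl (ix.symm j).1)) (ix.symm j).2)
        (fun j => d.repr (v (.inr (ix.symm j).1)) (ix.symm j).2)
      map_add' := fun v w => by funext j; cases j <;> simp
      map_smul' := fun c v => by funext j; cases j <;> simp
      invFun := fun w => Sum.elim (fun i => ∑ k, w (.inl (ix (i, k))) • b k)
        (fun i => ∑ k, w (.inr (ix (i, k))) • d k)
      left_inv := fun v => by
        funext j
        cases j with
        | inl i => simp only [Sum.elim_inl, Equiv.symm_apply_apply]; exact b.sum_repr (v (.inl i))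
        | inr i => simp only [Sum.elim_inr, Equiv.symm_apply_apply]; exact d.sum_repr (v (.inr i))
      right_inv := fun w => by
        funext j
        cases j with
        | inl j =>
          simp only [Sum.elim_inl, Module.Basis.repr_sum_self, Prod.mk.eta, Equiv.apply_symm_apply]
        | inr j =>
          simp only [Sum.elim_inr, Module.Basis.repr_sum_self, Prod.mk.eta, Equiv.apply_symm_apply] }
  have hform : ∀ u v : Fin a ⊕ Fin a → K,
      e u ⬝ᵥ Matrix.J (Fin (2 * a)) F *ᵥ e v = Algebra.trace F K (u ⬝ᵥ Matrix.J (Fin a) K *ᵥ v) := by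
    intro u v
    simp only [e, LinearEquiv.coe_mk, LinearMap.coe_mk, AddHom.coe_mk, Matrix.J, dotProduct,
      Matrix.mulVec, Fintype.sum_sum_type, Matrix.fromBlocks_apply₁₁, Matrix.fromBlocks_apply₁₂,
      Matrix.fromBlocks_apply₂₁, Matrix.fromBlocks_apply₂₂, Sum.elim_inl, Sum.elim_inr]
    simp only [Matrix.zero_apply, zero_mul, Finset.sum_const_zero, add_zero, zero_add,
      Matrix.neg_apply, Matrix.one_apply, neg_mul, ite_mul, one_mul, Finset.sum_ite_eq,
      Finset.mem_univ, if_true, Finset.sum_neg_distrib, map_add, map_sum, mul_neg, map_neg]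
    congr 1
    · congr 1
      rw [← ix.sum_comp, Fintype.sum_prod_type]
      simp [hpair]
    · rw [← ix.sum_comp, Fintype.sum_prod_type]
      simp [← hpair, mul_comm]
  let R : Matrix (Fin a ⊕ Fin a) (Fin a ⊕ Fin a) K →
      Matrix (Fin (2 * a) ⊕ Fin (2 * a)) (Fin (2 * a) ⊕ Fin (2 * a)) F := fun A =>
    LinearMap.toMatrix' (e.toLinearMap ∘ₗ (A.mulVecLin.restrictScalars F) ∘ₗ e.symm.toLinearMap)
  have hR : ∀ (A : Matrix (Fin a ⊕ Fin a) (Fin a ⊕ Fin a) K) w,
      R A *ᵥ w = e (A *ᵥ e.symm w) := by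
    intro A w
    rw [← Matrix.toLin'_apply, Matrix.toLin'_toMatrix']
    rfl
  have hone : R 1 = 1 := by
    refine Matrix.ext_iff_mulVec.mpr fun w => ?_
    rw [hR, Matrix.one_mulVec, Matrix.one_mulVec, e.apply_symm_apply]
  have hmul : ∀ A B, R (A * B) = R A * R B := by
    intro A B
    refine Matrix.ext_iff_mulVec.mpr fun w => ?_
    rw [← Matrix.mulVec_mulVec, hR, hR, hR, e.symm_apply_apply, Matrix.mulVec_mulVec]
  have hmem : ∀ A ∈ Matrix.symplecticGroup (Fin a) K, R A ∈ Matrix.symplecticGroup (Fin (2 * a)) F := by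
    intro A hA
    rw [SymplecticGroup.mem_iff'] at hA ⊢
    have key : ∀ u v, u ⬝ᵥ ((R A)ᵀ * Matrix.J (Fin (2 * a)) F * R A) *ᵥ v =
        u ⬝ᵥ Matrix.J (Fin (2 * a)) F *ᵥ v := by
      intro u v
      rw [← Matrix.mulVec_mulVec, ← Matrix.mulVec_mulVec, Matrix.dotProduct_mulVec u,
        Matrix.vecMul_transpose, hR, hR, hform, Matrix.dotProduct_mulVec (A *ᵥ _),
        ← Matrix.vecMul_transpose A, Matrix.vecMul_vecMul, ← Matrix.dotProduct_mulVec,
        Matrix.mulVec_mulVec, hA, ← hform, e.apply_symm_apply, e.apply_symm_apply]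
    ext i j
    simpa using key (Pi.single i 1) (Pi.single j 1)
  let φ : ↥(Matrix.symplecticGroup (Fin a) K) →* ↥(Matrix.symplecticGroup (Fin (2 * a)) F) :=
    { toFun := fun A => ⟨R A, hmem A A.2⟩
      map_one' := Subtype.ext hone
      map_mul' := fun A B => Subtype.ext (hmul A B) }
  refine ⟨φ, fun A B h => Subtype.ext (Matrix.ext_iff_mulVec.mpr fun v => ?_)⟩
  have h2 := congrArg (fun M : ↥(Matrix.symplecticGroup (Fin (2 * a)) F) =>
    (M : Matrix (Fin (2 * a) ⊕ Fin (2 * a)) (Fin (2 * a) ⊕ Fin (2 * a)) F) *ᵥ e v) h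
  simp only [φ, MonoidHom.coe_mk, OneHom.coe_mk, hR, e.symm_apply_apply] at h2
  exact e.injective h2

end Cfsg.Agent.S2678
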