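import Cfsg.Statements.S2679
import Cfsg.Agent.Eq.Def_Classical
import Cfsg.Agent.QuadExt.Embedding

set_option autoImplicit false
open Cfsg

namespace Cfsg.Agent.S2679

open Matrix in
theorem altForm_zero {R : Type*} [CommRing R] {I : Type*} [Fintype I]
    (B : Matrix I I R) (hd : ∀ i, B i i = 0) (ho : ∀ i j, B i j + B j i = 0) (v : I → R) :
    v ⬝ᵥ (B *ᵥ v) = 0 := by
  classical
  simp only [dotProduct, Matrix.mulVec, Finset.mul_sum]
  rw [← Finset.sum_product']
  refine Finset.sum_involution (fun x _ => (x.2, x.1)) ?_ ?_ (fun x _ => by simp) (fun x _ => by simp)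
  · intro x _
    linear_combination (v x.1 * v x.2) * ho x.1 x.2
  · intro x _ hne heq
    have h : x.2 = x.1 := congrArg Prod.fst heq
    exact hne (by simp [h, hd])

/-- A matrix of the minus-type form. -/
def formMat (k : ℕ) (R : Type*) [CommRing R] (a c : R) :
    Matrix ((Fin k ⊕ Fin k) ⊕ Fin 2) ((Fin k ⊕ Fin k) ⊕ Fin 2) R :=
  Matrix.fromBlocks (Matrix.fromBlocks 0 1 0 0) 0 0 !![1, a; 0, c]

open Matrix in
theorem quadFormMinus_eq (k : ℕ) (R : Type*) [Field R] (a c : R)
    (v : (Fin k ⊕ Fin k) ⊕ Fin 2 → R) :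
    Cfsg.quadFormMinus k R a c v = v ⬝ᵥ (formMat k R a c *ᵥ v) := by
  simp only [Cfsg.quadFormMinus, formMat, dotProduct, Matrix.mulVec, Fintype.sum_sum_type,
    Matrix.fromBlocks_apply₁₁, Matrix.fromBlocks_apply₁₂, Matrix.fromBlocks_apply₂₁,
    Matrix.fromBlocks_apply₂₂, Fin.sum_univ_two]
  simp [Matrix.one_apply]
  ring

open Matrix in
theorem form_mulVec {R : Type*} [CommRing R] {I : Type*} [Fintype I] (A M : Matrix I I R)
    (v : I → R) : (M *ᵥ v) ⬝ᵥ (A *ᵥ (M *ᵥ v)) = v ⬝ᵥ ((Mᵀ * A * M) *ᵥ v) := by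
  rw [← Matrix.mulVec_mulVec, ← Matrix.mulVec_mulVec, Matrix.dotProduct_mulVec v, Matrix.vecMul_transpose]

open Matrix in
/-- An isometry stays one after extending the field. -/
theorem map_isometry {F K : Type*} [Field F] [Field K] (ι : F →+* K) (k : ℕ) (a c : F)
    (M : Matrix ((Fin k ⊕ Fin k) ⊕ Fin 2) ((Fin k ⊕ Fin k) ⊕ Fin 2) F)
    (h : ∀ v, Cfsg.quadFormMinus k F a c (M *ᵥ v) = Cfsg.quadFormMinus k F a c v)
    (v : (Fin k ⊕ Fin k) ⊕ Fin 2 → K) :
    Cfsg.quadFormMinus k K (ι a) (ι c) (M.map ι *ᵥ v) = Cfsg.quadFormMinus k K (ι a) (ι c) v := by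
  classical
  set B := Mᵀ * formMat k F a c * M - formMat k F a c with hB
  have hB0 : ∀ w, w ⬝ᵥ (B *ᵥ w) = 0 := by
    intro w
    rw [hB, Matrix.sub_mulVec, dotProduct_sub, ← form_mulVec, ← quadFormMinus_eq,
      ← quadFormMinus_eq, h, sub_self]
  have hd : ∀ i, B i i = 0 := fun i => by
    simpa [Matrix.mulVec_single, dotProduct, Pi.single_apply] using hB0 (Pi.single i 1)
  have ho : ∀ i j, B i j + B j i = 0 := fun i j => by
    have h2 := hB0 (Pi.single i 1 + Pi.single j 1)
    simp [Matrix.mulVec_add, dotProduct_add, add_dotProduct, Matrix.mulVec_single, hd] at h2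
    linear_combination h2
  have hA : (formMat k F a c).map ι = formMat k K (ι a) (ι c) := by
    ext i j
    rcases i with ((i | i) | i) <;> rcases j with ((j | j) | j) <;>
      simp [formMat, Matrix.one_apply, apply_ite ι]
    fin_cases i <;> fin_cases j <;> simp
  have h3 := altForm_zero (B.map ι) (fun i => by simp [hd]) (fun i j => by
    simp only [Matrix.map_apply, ← map_add, ho, map_zero]) v
  rw [hB, Matrix.map_sub ι (map_sub ι), Matrix.map_mul, Matrix.map_mul, Matrix.transpose_map,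
    hA, Matrix.sub_mulVec, dotProduct_sub, sub_eq_zero, ← form_mulVec, ← quadFormMinus_eq,
    ← quadFormMinus_eq] at h3
  exact h3

/-- The change of coordinates making the minus form hyperbolic over the larger field. -/
noncomputable def splitEquiv {K : Type*} [Field K] (k : ℕ) (r s : K) (hrs : r ≠ s) :
    ((Fin k ⊕ Fin k) ⊕ Fin 2 → K) ≃ₗ[K] (Fin (k + 1) ⊕ Fin (k + 1) → K) where
  toFun v := Sum.elim (Fin.snoc (fun i => v (.inl (.inl i))) (v (.inr 0) + r * v (.inr 1)))
    (Fin.snoc (fun i => v (.inl (.inr i))) (v (.inr 0) + s * v (.inr 1)))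
  map_add' v w := by
    funext j
    rcases j with j | j <;> refine Fin.lastCases ?_ ?_ j <;> simp [mul_add] <;> ring
  map_smul' b v := by
    funext j
    rcases j with j | j <;> refine Fin.lastCases ?_ ?_ j <;> simp [mul_add] <;> ring
  invFun w := Sum.elim (Sum.elim (fun i => w (.inl i.castSucc)) (fun i => w (.inr i.castSucc)))
    ![w (.inl (Fin.last k)) - r * ((w (.inl (Fin.last k)) - w (.inr (Fin.last k))) / (r - s)),
      (w (.inl (Fin.last k)) - w (.inr (Fin.last k))) / (r - s)]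
  left_inv v := by
    funext j
    rcases j with (j | j) | j
    · simp
    · simp
    · have h : r - s ≠ 0 := sub_ne_zero.mpr hrs
      fin_cases j <;> simp <;> field_simp <;> ring
  right_inv w := by
    funext j
    have h : r - s ≠ 0 := sub_ne_zero.mpr hrs
    rcases j with j | j <;> refine Fin.lastCases ?_ ?_ j <;> simp <;> field_simp <;> ring

theorem quadFormPlus_splitEquiv {K : Type*} [Field K] (k : ℕ) (r s a c : K) (hrs : r ≠ s)
    (ha : r + s = a) (hc : r * s = c) (v : (Fin k ⊕ Fin k) ⊕ Fin 2 → K) :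
    Cfsg.quadFormPlus (k + 1) K (splitEquiv k r s hrs v) = Cfsg.quadFormMinus k K a c v := by
  simp only [Cfsg.quadFormPlus, Cfsg.quadFormMinus, Fin.sum_univ_castSucc, splitEquiv,
    LinearEquiv.coe_mk, LinearMap.coe_mk, AddHom.coe_mk, Sum.elim_inl, Sum.elim_inr,
    Fin.snoc_castSucc, Fin.snoc_last]
  subst ha; subst hc
  ring

/-- An elliptic orthogonal group embeds in the hyperbolic orthogonal group of the same dimension over the quadratic extension: for a field F with q elements and a field K with q² elements there is an injective homomorphism from O⁻_2m(F) (isometries of Σ_(j<m−1) x_j y_j + z₁² + a z₁z₂ + c z₂², binary part anisotropic) to O⁺_2m(K) (isometries of Σ_(j<m) x_j y_j over K). -/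
theorem result {F K : Type*} [Field F] [Fintype F] [Field K] [Fintype K] {q : ℕ} (hF : Fintype.card F = q) (hK : Fintype.card K = q ^ 2) {m : ℕ} (hm : 1 ≤ m) (a c : F) (hac : ∀ z₁ z₂ : F, z₁ ^ 2 + a * z₁ * z₂ + c * z₂ ^ 2 = 0 → z₁ = 0 ∧ z₂ = 0) : ∃ φ : ↥(Cfsg.isometryGroup F (Cfsg.quadFormMinus (m - 1) F a c)) →* ↥(Cfsg.isometryGroup K (Cfsg.quadFormPlus m K)), Function.Injective φ := by
  classical
  subst hF
  obtain ⟨k, rfl⟩ : ∃ k, m = k + 1 := ⟨m - 1, by omega⟩
  obtain ⟨ι⟩ := CfsgLib.QuadExt.exists_ringHom (F := F) hK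
  obtain ⟨r, s, hrs, hsum, hprod⟩ := CfsgLib.QuadExt.exists_split hK ι a c (fun u hu => by
    exact one_ne_zero (hac (-u) 1 (by linear_combination hu)).2)
  let T := splitEquiv k r s hrs
  let J := Fin (k + 1) ⊕ Fin (k + 1)
  let I := (Fin k ⊕ Fin k) ⊕ Fin 2
  let Ψ : GL I F →* GL J K :=
    (Matrix.GeneralLinearGroup.toLin (n := J) (R := K)).symm.toMonoidHom.comp
      ((LinearMap.GeneralLinearGroup.congrLinearEquiv T).toMonoidHom.comp
        ((Matrix.GeneralLinearGroup.toLin (n := I) (R := K)).toMonoidHom.comp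
          (Matrix.GeneralLinearGroup.map ι)))
  have hΨ : Function.Injective Ψ := by
    intro g g' h
    have h2 : Matrix.GeneralLinearGroup.map ι g = Matrix.GeneralLinearGroup.map ι g' :=
      (Matrix.GeneralLinearGroup.toLin (n := I) (R := K)).injective
        ((LinearMap.GeneralLinearGroup.congrLinearEquiv T).injective
          ((Matrix.GeneralLinearGroup.toLin (n := J) (R := K)).symm.injective h))
    apply Units.ext
    exact Matrix.map_injective ι.injective (congrArg Units.val h2)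
  have hact : ∀ (g : GL I F) (w : J → K), ((Ψ g : GL J K) : Matrix J J K).mulVec w =
      T ((((g : GL I F) : Matrix I I F).map ι).mulVec (T.symm w)) := by
    intro g w
    have h := Matrix.GeneralLinearGroup.toLin_apply (A := Ψ g) w
    rw [Matrix.mulVecLin_apply] at h
    rw [← h]
    simp [Ψ, LinearMap.GeneralLinearGroup.congrLinearEquiv_apply]
  have hmem : ∀ g : ↥(Cfsg.isometryGroup F (Cfsg.quadFormMinus (k + 1 - 1) F a c)),
      Ψ g.1 ∈ Cfsg.isometryGroup K (Cfsg.quadFormPlus (k + 1) K) := by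
    intro g w _
    change Cfsg.quadFormPlus (k + 1) K (((Ψ g.1 : GL J K) : Matrix J J K).mulVec w) = _
    rw [hact, quadFormPlus_splitEquiv k r s (ι a) (ι c) hrs hsum hprod,
      map_isometry ι k a c (Units.val g.1) (fun v => g.2 v v),
      ← quadFormPlus_splitEquiv k r s (ι a) (ι c) hrs hsum hprod, T.apply_symm_apply]
  exact ⟨(Ψ.comp (Cfsg.isometryGroup F (Cfsg.quadFormMinus (k + 1 - 1) F a c)).subtype).codRestrict
    _ hmem, fun g g' h => Subtype.ext (hΨ (congrArg Subtype.val h))⟩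

end Cfsg.Agent.S2679
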