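import Cfsg.Statements.S2682
import Cfsg.Agent.Classical.Symp.InvolutionTwoClasses

set_option autoImplicit false
open Cfsg CfsgLib.Classical.SympCharTwo

namespace Cfsg.Agent.S2682

/-- Centraliser order of an involution t of Sp_2m(q), q even, with s = rank(t − 1) even and f(v, tv) ≠ 0 for some v, f the symplectic form (type c_s): |C(t)| = q^(2ms − (3s² − 3s)/2 − 1) · |Sp_(s−2)(q)| · |Sp_(2m−2s)(q)|. -/
theorem result {F : Type*} [Field F] [Fintype F] [CharP F 2] {q : ℕ} (hF : Fintype.card F = q) {m s : ℕ} (t : Matrix.symplecticGroup (Fin m) F) (ht : t ^ 2 = 1) (hs : ((t : Matrix (Fin m ⊕ Fin m) (Fin m ⊕ Fin m) F) - 1).rank = s) (heven : Even s) (hna : ∃ v : Fin m ⊕ Fin m → F, Cfsg.sympForm m F v ((t : Matrix (Fin m ⊕ Fin m) (Fin m ⊕ Fin m) F).mulVec v) ≠ 0) : Nat.card ↥(Subgroup.centralizer ({t} : Set ↥(Matrix.symplecticGroup (Fin m) F))) = q ^ (2 * m * s - (3 * s ^ 2 - 3 * s) / 2 - 1)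 * ((q : ℕ) ^ (((s - 2) / 2) ^ 2) * ∏ i : Fin ((s - 2) / 2), (q ^ (2 * ((i : ℕ) + 1)) - 1)) * ((q : ℕ) ^ ((m - s) ^ 2) * ∏ i : Fin (m - s), (q ^ (2 * ((i : ℕ) + 1)) - 1)) := by
  classical
  subst hF
  have ht2 : t * t = 1 := by rw [← sq]; exact ht
  simp only [Fin.prod_univ_eq_prod_range (fun i => Fintype.card F ^ (2 * (i + 1)) - 1)]
  have hs' : invRank t = s := hs
  have hna' : ¬ InvAlt t := fun h => by obtain ⟨v, hv⟩ := hna; exact hv (h v)
  obtain ⟨hle, hev, h0⟩ := rank_le_and_parity ht2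
  rw [hs'] at hle h0
  obtain ⟨-, hc⟩ := card_centralizer_nonalt ht2 hs' hna'
  obtain ⟨j, rfl⟩ := heven
  have hj : j ≠ 0 := fun h => hna' (h0 (by omega))
  obtain ⟨k, rfl⟩ : ∃ k, j = k + 1 := ⟨j - 1, by omega⟩
  rw [hc, exponent_eq hle, show k + 1 + (k + 1) = 2 * k + 2 by ring, (card_orthMat k).2,
    show (2 * k + 2 - 2) / 2 = k by omega]
  have e : 2 * m * (2 * k + 2) - (3 * (2 * k + 2) ^ 2 - 3 * (2 * k + 2)) / 2 - 1 =
      (2 * m * (2 * k + 2) - (3 * (2 * k + 2) ^ 2 - (2 * k + 2)) / 2) + (2 * k + 1) := by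
    rw [show 3 * (2 * k + 2) ^ 2 = 12 * (k * k) + 24 * k + 12 by ring]
    have h1 : (2 * k + 2) * (2 * k + 2) ≤ m * (2 * k + 2) := Nat.mul_le_mul_right _ (by omega)
    rw [show (2 * k + 2) * (2 * k + 2) = 4 * (k * k) + 8 * k + 4 by ring] at h1
    rw [show 2 * m * (2 * k + 2) = 2 * (m * (2 * k + 2)) by ring]
    omega
  rw [e, pow_add]
  ring

end Cfsg.Agent.S2682
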