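import Cfsg.Statements.S2684
import Cfsg.Agent.Classical.Orth.InvolutionTwoCent

set_option autoImplicit false
open Cfsg CfsgLib.Classical.SympCharTwo CfsgLib.OrthTwoCent

namespace Cfsg.Agent.S2684

/-- For the hyperbolic form Q = Σ x_j y_j on F^(2m) over a finite field with q elements, q even (excluding m = 2 over the field of two elements), and an involution x ≠ 1 of the orthogonal group with s = rank(x − 1) even and Q vanishing on the image of x − 1 (equivalently f(v, xv) = 0 for all v, where f(u, w) = Q(u + w) − Q(u) − Q(w) is the bilinear form of Q; type a_s, which lies in Ω): its centraliser in Ω (the commutator subgroup of the orthogonal group) has order q^(2ms − (3s² + s)/2) · |Sp_s(q)| · |Ω⁺_(2m−2s)(q)|, where |Ω⁺_2k(q)| = q^(k(k−1)) (q^k − 1) Π_(i=1)^(k−1) (q^(2i) − 1) for k ≥ 1 and the last factor is 1 when s = m. -/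
theorem result {F : Type*} [Field F] [Fintype F] [CharP F 2] {q : ℕ} (hF : Fintype.card F = q) {m s : ℕ} (h : Fintype.card F ≠ 2 ∨ m ≠ 2) (x : ↥(Cfsg.isometryGroup F (Cfsg.quadFormPlus m F))) (hx : x ^ 2 = 1) (hx1 : x ≠ 1) (hs : (((x : Matrix.GeneralLinearGroup (Fin m ⊕ Fin m) F) : Matrix (Fin m ⊕ Fin m) (Fin m ⊕ Fin m) F) - 1).rank = s) (heven : Even s) (halt : ∀ v : Fin m ⊕ Fin m → F, Cfsg.quadFormPlus m F ((((x : Matrix.GeneralLinearGroup (Fin m ⊕ Fin m) F) : Matrix (Fin m ⊕ Fin m) (Fin m ⊕ Fin m) F) - 1).mulVec v) = 0) : Nat.card {g : ↥(Cfsg.Omega F (Cfsg.quadFormPlus m F)) // (g : ↥(Cfsg.isometryGroup F (Cfsg.quadFormPlus m F))) * x = x * (g : ↥(Cfsg.isometryGroup F (Cfsg.quadFormPlus m F)))} = q ^ (2 * m * s - (3 * s ^ 2 + s) / 2) * ((q : ℕ) ^ ((s / 2) ^ 2) * ∏ i : Fin (s / 2), (q ^ (2 * ((i : ℕ) + 1)) - 1)) * (if s = m then 1 else q ^ ((m - s) * (m - s - 1)) * (q ^ (m - s) - 1) * ∏ i : Fin (m - s - 1), (q ^ (2 * ((i : ℕ) + 1)) - 1)) := by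
  classical
  subst hF
  have hx2 : x * x = 1 := by rw [← sq]; exact hx
  have hexc : ¬ (Nat.card F = 2 ∧ Fintype.card (Fin m ⊕ Fin m) = 4) := by
    rw [Nat.card_eq_fintype_card, Fintype.card_sum, Fintype.card_fin]; omega
  have hs' : invRank (toSymp x) = s := hs
  have ht := toSymp_sq hx2
  have hiso : ∀ u, Cfsg.quadFormPlus m F (((x : Matrix.GeneralLinearGroup (Fin m ⊕ Fin m) F) :
      Matrix (Fin m ⊕ Fin m) (Fin m ⊕ Fin m) F).mulVec u) = Cfsg.quadFormPlus m F u :=
    fun u => CfsgLib.OrthGeo.mem_isometryGroup.1 x.2 u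
  simp only [Fin.prod_univ_eq_prod_range (fun i => Fintype.card F ^ (2 * (i + 1)) - 1)]
  obtain ⟨hle, -, -⟩ := rank_le_and_parity ht
  rw [hs'] at hle
  have ha : InvAlt (toSymp x) := fun v => (q_disp (t := toSymp x) v hiso).symm.trans (halt v)
  have hs1 : s ≠ 0 := fun h => by
    subst h
    apply hx1
    have hz : disp (toSymp x) = 0 := LinearMap.range_eq_bot.1 (Submodule.finrank_eq_zero.1 hs')
    refine Subtype.ext (Units.ext (Matrix.ext_of_mulVec_single fun i => ?_))
    have e := LinearMap.congr_fun hz (Pi.single i 1)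
    rw [disp_apply, LinearMap.zero_apply] at e
    show (toSymp x : Matrix (Fin m ⊕ Fin m) (Fin m ⊕ Fin m) F).mulVec _ = (1 : Matrix (Fin m ⊕ Fin m) (Fin m ⊕ Fin m) F).mulVec _
    rw [Matrix.one_mulVec]
    funext j
    exact CharTwo.add_eq_zero.1 (congrFun e j)
  have hm : 1 ≤ m := by omega
  have key := card_omega_alt hm hexc x hx2 ha
  rw [hs'] at key
  obtain ⟨k, rfl⟩ := heven
  rw [(card_centralizer_alt ht hs' ha).2, exponent_eq hle] at key
  rw [show (k + k) / 2 = k by omega]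
  have hq : 0 < Fintype.card F := Fintype.card_pos
  have hE : 2 * m * (k + k) - (3 * (k + k) ^ 2 - (k + k)) / 2 =
      2 * m * (k + k) - (3 * (k + k) ^ 2 + (k + k)) / 2 + (k + k) := by
    obtain ⟨r, rfl⟩ : ∃ r, m = k + k + r := ⟨m - (k + k), by omega⟩
    have e1 : 3 * (k + k) ^ 2 = 12 * (k * k) := by ring
    have e2 : 2 * (k + k + r) * (k + k) = 8 * (k * k) + 4 * (r * k) := by ring
    have hk : k ≤ k * k := Nat.le_mul_self k
    rw [e1, e2]
    omega
  rw [hE, pow_add] at key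
  by_cases hsm : k + k = m
  · subst hsm
    rw [if_pos rfl] at key ⊢
    rw [Nat.sub_self, Finset.range_zero, Finset.prod_empty] at key
    refine Nat.eq_of_mul_eq_mul_left (pow_pos hq (k + k)) (key.trans ?_)
    ring
  · rw [if_neg hsm] at key
    rw [if_neg hsm]
    obtain ⟨r, rfl⟩ : ∃ r, m = k + k + (r + 1) := ⟨m - (k + k) - 1, by omega⟩
    rw [show k + k + (r + 1) - (k + k) = r + 1 by omega, Finset.prod_range_succ,
      show 2 * (k + k + (r + 1)) - (k + k) = k + k + (r + 1) + (r + 1) by omega] at key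
    rw [show k + k + (r + 1) - (k + k) = r + 1 by omega, Nat.add_sub_cancel]
    refine Nat.eq_of_mul_eq_mul_left (by positivity) (key.trans ?_)
    have hsq : Fintype.card F ^ (2 * (r + 1)) - 1 =
        (Fintype.card F ^ (r + 1) + 1) * (Fintype.card F ^ (r + 1) - 1) := by
      rw [← Nat.sq_sub_sq, one_pow, ← pow_mul, mul_comm (r + 1) 2]
    rw [hsq]
    ring

end Cfsg.Agent.S2684
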