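import Cfsg.Statements.S2685
import Cfsg.Agent.Classical.Orth.InvolutionTwoCent

set_option autoImplicit false
open Cfsg CfsgLib.Classical.SympCharTwo CfsgLib.OrthTwoCent

namespace Cfsg.Agent.S2685

/-- For the hyperbolic form Q = Σ x_j y_j on F^(2m) over a finite field with q elements, q even (excluding m = 2 over the field of two elements), and an involution x of the orthogonal group with s = rank(x − 1) even and Q not vanishing on the image of x − 1 (f(v, xv) ≠ 0 for some v, where f(u, w) = Q(u + w) − Q(u) − Q(w) is the bilinear form of Q; type c_s, which lies in Ω): its centraliser in Ω (the commutator subgroup of the orthogonal group) has order q^(2m(s−1) − (3s² − 5s)/2 − 1) · |Sp_(s−2)(q)| · |Sp_(2m−2s)(q)|. -/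
theorem result {F : Type*} [Field F] [Fintype F] [CharP F 2] {q : ℕ} (hF : Fintype.card F = q) {m s : ℕ} (h : Fintype.card F ≠ 2 ∨ m ≠ 2) (x : ↥(Cfsg.isometryGroup F (Cfsg.quadFormPlus m F))) (hx : x ^ 2 = 1) (hs : (((x : Matrix.GeneralLinearGroup (Fin m ⊕ Fin m) F) : Matrix (Fin m ⊕ Fin m) (Fin m ⊕ Fin m) F) - 1).rank = s) (heven : Even s) (hna : ∃ v : Fin m ⊕ Fin m → F, Cfsg.quadFormPlus m F ((((x : Matrix.GeneralLinearGroup (Fin m ⊕ Fin m) F) : Matrix (Fin m ⊕ Fin m) (Fin m ⊕ Fin m) F) - 1).mulVec v) ≠ 0) : Nat.card {g : ↥(Cfsg.Omega F (Cfsg.quadFormPlus m F)) // (g : ↥(Cfsg.isometryGroup F (Cfsg.quadFormPlus m F))) * x = x * (g : ↥(Cfsg.isometryGroup F (Cfsg.quadFormPlus m F)))} = q ^ (2 * m * (s - 1) - (3 * s ^ 2 - 5 * s) / 2 - 1) * ((q : ℕ) ^ (((s - 2) / 2) ^ 2) * ∏ i : Fin ((s - 2) / 2), (q ^ (2 * ((i : ℕ) + 1)) - 1)) * ((q : ℕ) ^ ((m - s) ^ 2) * ∏ i : Fin (m - s), (q ^ (2 * ((i : ℕ) + 1)) - 1)) := by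
  classical
  subst hF
  have hx2 : x * x = 1 := by rw [← sq]; exact hx
  have hexc : ¬ (Nat.card F = 2 ∧ Fintype.card (Fin m ⊕ Fin m) = 4) := by
    rw [Nat.card_eq_fintype_card, Fintype.card_sum, Fintype.card_fin]; omega
  have hs' : invRank (toSymp x) = s := hs
  have ht := toSymp_sq hx2
  have hiso : ∀ u, Cfsg.quadFormPlus m F (((x : Matrix.GeneralLinearGroup (Fin m ⊕ Fin m) F) :
      Matrix (Fin m ⊕ Fin m) (Fin m ⊕ Fin m) F).mulVec u) = Cfsg.quadFormPlus m F u :=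
    fun u => CfsgLib.OrthGeo.mem_isometryGroup.1 x.2 u
  simp only [Fin.prod_univ_eq_prod_range (fun i => Fintype.card F ^ (2 * (i + 1)) - 1)]
  obtain ⟨hle, hev, h0⟩ := rank_le_and_parity ht
  rw [hs'] at hle h0
  have hna' : ¬ InvAlt (toSymp x) := fun h => by
    obtain ⟨v, hv⟩ := hna
    exact hv ((q_disp (t := toSymp x) v hiso).trans (h v))
  have key := card_omega_nonalt hexc x hx2 hna'
  rw [(card_centralizer_nonalt ht hs' hna').2, hs'] at key
  obtain ⟨j, rfl⟩ := heven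
  obtain ⟨k, rfl⟩ : ∃ k, j = k + 1 := ⟨j - 1, by
    have : j ≠ 0 := fun h => hna' (h0 (by omega))
    omega⟩
  rw [exponent_eq hle, show k + 1 + (k + 1) = 2 * k + 2 by ring, (card_orthMat k).2] at key
  rw [show k + 1 + (k + 1) = 2 * k + 2 by ring, show (2 * k + 2 - 2) / 2 = k by omega]
  refine Nat.eq_of_mul_eq_mul_left (pow_pos (Fintype.card_pos (α := F)) (2 * m - (2 * k + 2))) (key.trans ?_)
  rw [← mul_assoc (Fintype.card F ^ (2 * m - (2 * k + 2))),
    ← mul_assoc (Fintype.card F ^ (2 * m - (2 * k + 2))), ← pow_add,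
    ← mul_assoc (Fintype.card F ^ _) (Fintype.card F ^ (2 * k + 1)), ← pow_add]
  congr 3
  obtain ⟨r, rfl⟩ : ∃ r, m = 2 * k + 2 + r := ⟨m - (2 * k + 2), by omega⟩
  have e1 : 3 * (2 * k + 2) ^ 2 = 12 * (k * k) + 24 * k + 12 := by ring
  have e2 : 2 * (2 * k + 2 + r) * (2 * k + 2) = 8 * (k * k) + 4 * (r * k) + 16 * k + 4 * r + 8 := by ring
  have e3 : 2 * (2 * k + 2 + r) * (2 * k + 2 - 1) = 8 * (k * k) + 4 * (r * k) + 12 * k + 2 * r + 4 := by
    rw [show 2 * k + 2 - 1 = 2 * k + 1 by omega]; ring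
  rw [e1, e2, e3]
  omega

end Cfsg.Agent.S2685
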