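import Cfsg.Statements.S2697
import Cfsg.Agent.AutPSL.GraphField

set_option autoImplicit false
open Cfsg

namespace Cfsg.Agent.S2697

/-- Let T = PSL_n(F) be simple over a finite field (n ≥ 2; |F| ≥ 4 when n = 2) and let x be a field automorphism or a graph-field automorphism of T of prime order r. Then an element y of the coset Inndiag(T)·x (that is, y = δ x with δ in the inner-diagonal group, the image of PGL_n(F)) has order r if and only if y is conjugate to x by an element of Inndiag(T). -/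
theorem result {F : Type*} [Field F] [Fintype F] {p f : ℕ} [Fact p.Prime] (hF : Fintype.card F = p ^ f) (hf : 1 ≤ f) {n : ℕ} (hn : 2 ≤ n) (hs : n = 2 → 4 ≤ Fintype.card F) (x δ : MulAut (Matrix.ProjectiveSpecialLinearGroup (Fin n) F)) (hx : Cfsg.IsFieldAutClassPSL x ∨ Cfsg.IsGraphFieldAutClassPSL x) {r : ℕ} (hr : r.Prime) (hxr : orderOf x = r) (hδ : δ ∈ Cfsg.inndiagPSL n F) :
    orderOf (δ * x) = r ↔ Cfsg.IsConjUnder (Cfsg.inndiagPSL n F) x (δ * x) := by
  have hr0 := hr.pos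
  rw [CfsgLib.AutPSL.inndiag_eq] at hδ ⊢
  constructor
  · intro hy
    obtain ⟨d, rfl⟩ := hδ
    have key : ∀ (c : GL (Fin n) F) (β : MulAut (Matrix.ProjectiveSpecialLinearGroup (Fin n) F)),
        x = CfsgLib.AutPSL.conjHom c * β * (CfsgLib.AutPSL.conjHom c)⁻¹ →
        (∀ h : GL (Fin n) F, (CfsgLib.AutPSL.conjHom h * β) ^ r = 1 →
          ∃ g : GL (Fin n) F, CfsgLib.AutPSL.conjHom h * β =
            CfsgLib.AutPSL.conjHom g * β * (CfsgLib.AutPSL.conjHom g)⁻¹) →
        Cfsg.IsConjUnder CfsgLib.AutPSL.diagGroup x (CfsgLib.AutPSL.conjHom d * x) := by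
      intro c β hxc hdesc
      have e : CfsgLib.AutPSL.conjHom d * x = CfsgLib.AutPSL.conjHom c *
          (CfsgLib.AutPSL.conjHom (c⁻¹ * d * c) * β) * (CfsgLib.AutPSL.conjHom c)⁻¹ := by
        rw [hxc, map_mul, map_mul, map_inv]
        group
      have hpow : (CfsgLib.AutPSL.conjHom (c⁻¹ * d * c) * β) ^ r = 1 := by
        rw [← hy, e, CfsgLib.AutPSL.orderOf_conj]
        exact pow_orderOf_eq_one _
      obtain ⟨g, hg⟩ := hdesc _ hpow
      refine ⟨CfsgLib.AutPSL.conjHom (c * g * c⁻¹), ⟨_, rfl⟩, ?_⟩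
      rw [e, hg, hxc, map_mul, map_mul, map_inv]
      group
    rcases hx with hx | hx
    · obtain ⟨c, σ, -, hc⟩ := CfsgLib.AutPSL.fieldClass_normal_form hn hx
      refine key c _ hc (fun h hp => CfsgLib.AutPSL.field_twist_conj hn ?_ hr0 h hp)
      rw [← hxr, hc, CfsgLib.AutPSL.orderOf_conj, CfsgLib.AutPSL.orderOf_mapPSL hn]
    · obtain ⟨c, σ, hσ, hc⟩ := CfsgLib.AutPSL.graphFieldClass_normal_form hx
      obtain ⟨rfl, hσ2⟩ := CfsgLib.AutPSL.gf_order hx.1 hσ hr (by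
        rw [← hxr, hc, CfsgLib.AutPSL.orderOf_conj])
      exact key c _ hc (fun h hp => CfsgLib.AutPSL.gf_twist_conj hn hσ2 h hp)
  · rintro ⟨h, -, e⟩
    rw [e, CfsgLib.AutPSL.orderOf_conj, hxr]

end Cfsg.Agent.S2697
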