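import Cfsg.Statements.S2699
import Cfsg.Agent.AutPSL.GraphTypes

set_option autoImplicit false
open Cfsg
open scoped Matrix MatrixGroups

namespace Cfsg.Agent.S2699

/-- Let T = PSL_n(F) over the field with p^f elements with n ≥ 3 odd, n = 2m + 1, and G = Inndiag(T) the image of PGL_n(F). Every involutory graph automorphism γ of T (an inner-diagonal automorphism followed by inverse-transpose, of order 2) has centralizer C_G(γ) isomorphic to the projective conformal orthogonal group of the form x₀² + Σ xᵢ yᵢ in dimension n (for q even this group is isomorphic to Sp_{n−1}(q)), and any two involutory graph automorphisms are G-conjugate. -/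
theorem result {F : Type*} [Field F] [Fintype F] {p f : ℕ} [Fact p.Prime] (hF : Fintype.card F = p ^ f) (hf : 1 ≤ f) {n : ℕ} (hn : 3 ≤ n) {m : ℕ} (hnm : n = 2 * m + 1) (γ γ' : MulAut (Matrix.ProjectiveSpecialLinearGroup (Fin n) F)) (hγ : Cfsg.IsGraphAutClassPSL γ) (hγ2 : orderOf γ = 2) (hγ' : Cfsg.IsGraphAutClassPSL γ') (hγ'2 : orderOf γ' = 2) :
    Nonempty (↥(Cfsg.inndiagPSL n F ⊓ Subgroup.centralizer {γ}) ≃* Cfsg.PGO F (Cfsg.quadFormOdd m F)) ∧ Cfsg.IsConjUnder (Cfsg.inndiagPSL n F) γ γ' := by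
  obtain ⟨h, rfl, hs⟩ := CfsgLib.AutPSL.exists_gamma_form hγ hγ2
  obtain ⟨h', rfl, hs'⟩ := CfsgLib.AutPSL.exists_gamma_form hγ' hγ'2
  let e : Unit ⊕ (Fin m ⊕ Fin m) ≃ Fin n := Fintype.equivFinOfCardEq (by simp; omega)
  have hn2 : 2 ≤ n := by omega
  have hdetneg : ∀ a : GL (Fin n) F, a.1ᵀ = -a.1 → (2 : F) * a.1.det = 0 := by
    intro a ha
    have h1 := congrArg Matrix.det ha
    rw [Matrix.det_transpose, Matrix.det_neg, Fintype.card_fin, Odd.neg_one_pow ⟨m, hnm⟩,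
      neg_one_mul] at h1
    linear_combination h1
  by_cases h2 : (2 : F) = 0
  · haveI : CharP F 2 := CharTwo.of_one_ne_zero_of_two_eq_zero one_ne_zero h2
    have hsym : ∀ a : GL (Fin n) F, (a.1ᵀ = a.1 ∨ a.1ᵀ = -a.1) → a.1ᵀ = a.1 := by
      intro a ha
      rcases ha with ha | ha
      · exact ha
      · rwa [CfsgLib.AutPSL.neg_eq_self_char_two] at ha
    let M := CfsgLib.AutPSL.unitOddTwo (F := F) m
    have hM : ((CfsgLib.AutPSL.reindexGL e M).1)ᵀ = (CfsgLib.AutPSL.reindexGL e M).1 :=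
      CfsgLib.AutPSL.reindexGL_symm (CfsgLib.AutPSL.oddMat_symm m)
    have hcongr : ∀ a : GL (Fin n) F, (a.1ᵀ = a.1) →
        CfsgLib.AutPSL.Congr a.1 (CfsgLib.AutPSL.reindexGL e M).1 := by
      intro a ha
      have hna : ∀ b : GL (Fin n) F, b.1ᵀ = b.1 → ∃ i, b.1 i i ≠ 0 := by
        intro b hb
        by_contra hcon
        push Not at hcon
        obtain ⟨k, hk⟩ := CfsgLib.AutPSL.even_card_of_alternating b
          (by rw [CfsgLib.AutPSL.neg_eq_self_char_two]; exact hb) hcon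
        omega
      exact (CfsgLib.AutPSL.congr_one_char_two a ha (hna a ha)).trans
        (CfsgLib.AutPSL.congr_one_char_two _ hM (hna _ hM)).symm
    have h1 := hcongr h (hsym h hs)
    refine ⟨?_, ?_⟩
    · obtain ⟨f1⟩ := CfsgLib.AutPSL.gamma_centralizer_congr hn2 h (CfsgLib.AutPSL.reindexGL e M) 1
        (by rw [Units.val_one, one_smul]; exact h1)
      obtain ⟨f2⟩ := CfsgLib.AutPSL.gamma_centralizer hn2 M.1 e (CfsgLib.AutPSL.reindexGL e M) rfl
        ((Cfsg.Geo.scalars _ F).subgroupOf (Cfsg.Geo.quadSimilarityGroup (Cfsg.quadFormOdd m F)))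
        (CfsgLib.AutPSL.oddProj m).toHomUnits
        (fun a => ⟨1, by rw [Units.val_one, one_smul]; exact CfsgLib.AutPSL.oddProj_preserves m a⟩)
        (fun a ha => by
          obtain ⟨u, g, rfl, hg⟩ := CfsgLib.AutPSL.exists_isometry_of_sim ha
          obtain ⟨x, hx⟩ := CfsgLib.AutPSL.exists_oddProj m hg
          exact ⟨u, x, congrArg _ (Units.ext hx.symm)⟩)
        (fun x => by
          rw [Subgroup.mem_subgroupOf, ← CfsgLib.AutPSL.oddProj_scalar_iff, Cfsg.Geo.mem_scalars_iff]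
          rfl)
      exact ⟨f1.trans f2⟩
    · refine (CfsgLib.AutPSL.gamma_isConj_iff hn2 h h').mpr ⟨1, ?_⟩
      rw [Units.val_one, one_smul]
      exact h1.trans (hcongr h' (hsym h' hs')).symm
  · have hsym : ∀ a : GL (Fin n) F, (a.1ᵀ = a.1 ∨ a.1ᵀ = -a.1) → a.1ᵀ = a.1 := by
      intro a ha
      rcases ha with ha | ha
      · exact ha
      · exact absurd ((mul_eq_zero.mp (hdetneg a ha)).resolve_left h2) (CfsgLib.AutPSL.det_ne_zero_GL a)
    let M := CfsgLib.AutPSL.unitOdd (F := F) m h2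
    have key : ∀ a : GL (Fin n) F, a.1ᵀ = a.1 → ∃ c : Fˣ,
        CfsgLib.AutPSL.Congr a.1 ((c : F) • (CfsgLib.AutPSL.reindexGL e M).1) ∧
          Cfsg.IsConjUnder (Cfsg.inndiagPSL n F) (CfsgLib.AutPSL.gamma (CfsgLib.AutPSL.reindexGL e M))
            (CfsgLib.AutPSL.gamma a) := by
      intro a ha
      refine ⟨Units.mk0 (a.1.det * M.1.det) (mul_ne_zero (CfsgLib.AutPSL.det_ne_zero_GL a)
        (CfsgLib.AutPSL.det_ne_zero_GL M)), CfsgLib.AutPSL.sym_type h2 hn2 e M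
        (CfsgLib.AutPSL.polOdd_symm m) a ha _ ⟨(a.1.det * M.1.det) ^ (m + 1), ?_⟩⟩
      rw [Units.val_mk0, congrArg (fun j => (a.1.det * M.1.det) ^ j) hnm]
      ring
    obtain ⟨c, h1, h1'⟩ := key h (hsym h hs)
    obtain ⟨c', -, h1''⟩ := key h' (hsym h' hs')
    refine ⟨?_, CfsgLib.AutPSL.isConjUnder_trans (CfsgLib.AutPSL.isConjUnder_symm h1') h1''⟩
    obtain ⟨f1⟩ := CfsgLib.AutPSL.gamma_centralizer_congr hn2 h _ c h1
    obtain ⟨f2⟩ := CfsgLib.AutPSL.gamma_centralizer_subgroup hn2 M.1 e (CfsgLib.AutPSL.reindexGL e M) rfl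
      (CfsgLib.AutPSL.quadSimilarity_eq_sim h2 (Cfsg.quadFormOdd m F) M.1
        (CfsgLib.AutPSL.polOdd_symm m) (CfsgLib.AutPSL.polOdd_form m))
    exact ⟨f1.trans f2⟩

end Cfsg.Agent.S2699
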