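import Cfsg.Statements.S2700
import Cfsg.Agent.AutPSL.GraphTypes

set_option autoImplicit false
open Cfsg
open scoped Matrix MatrixGroups

namespace Cfsg.Agent.S2700

/-- Let T = PSL_n(F) over a finite field of odd order with n = 2m ≥ 4 even, and G = Inndiag(T) the image of PGL_n(F). The involutory graph automorphisms of T fall into exactly three G-classes, with representatives γ₁, γ₂, γ₃ whose centralizers in G are isomorphic respectively to the projective conformal symplectic group PGSp_n(F), the projective conformal orthogonal group of the plus-type form Σ xᵢ yᵢ, and that of a minus-type form Σ xᵢ yᵢ + z₁² + a z₁ z₂ + b z₂² (anisotropic binary part) in dimension n. -/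
theorem result {F : Type*} [Field F] [Fintype F] (hodd : Odd (Fintype.card F)) {n m : ℕ} (hm : 2 ≤ m) (hnm : n = 2 * m) :
    ∃ (γ₁ γ₂ γ₃ : MulAut (Matrix.ProjectiveSpecialLinearGroup (Fin n) F)) (a b : F), (∀ z₁ z₂ : F, z₁ ^ 2 + a * z₁ * z₂ + b * z₂ ^ 2 = 0 → z₁ = 0 ∧ z₂ = 0) ∧ Cfsg.IsGraphAutClassPSL γ₁ ∧ orderOf γ₁ = 2 ∧ Cfsg.IsGraphAutClassPSL γ₂ ∧ orderOf γ₂ = 2 ∧ Cfsg.IsGraphAutClassPSL γ₃ ∧ orderOf γ₃ = 2 ∧ ¬ Cfsg.IsConjUnder (Cfsg.inndiagPSL n F) γ₁ γ₂ ∧ ¬ Cfsg.IsConjUnder (Cfsg.inndiagPSL n F) γ₁ γ₃ ∧ ¬ Cfsg.IsConjUnder (Cfsg.inndiagPSL n F) γ₂ γ₃ ∧ (∀ γ : MulAut (Matrix.ProjectiveSpecialLinearGroup (Fin n) F), Cfsg.IsGraphAutClassPSL γ → orderOf γ = 2 → Cfsg.IsConjUnder (Cfsg.inndiagPSL n F) γ₁ γ ∨ Cfsg.IsConjUnder (Cfsg.inndiagPSL n F) γ₂ γ ∨ Cfsg.IsConjUnder (Cfsg.inndiagPSL n F) γ₃ γ) ∧ Nonempty (↥(Cfsg.inndiagPSL n F ⊓ Subgroup.centralizer {γ₁}) ≃* Cfsg.PGSp m F) ∧ Nonempty (↥(Cfsg.inndiagPSL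 n F ⊓ Subgroup.centralizer {γ₂}) ≃* Cfsg.PGO F (Cfsg.quadFormPlus m F)) ∧ Nonempty (↥(Cfsg.inndiagPSL n F ⊓ Subgroup.centralizer {γ₃}) ≃* Cfsg.PGO F (Cfsg.quadFormMinus (m - 1) F a b)) := by
  classical
  obtain ⟨k, rfl⟩ : ∃ k, m = k + 1 := ⟨m - 1, by omega⟩
  have h2 : (2 : F) ≠ 0 := CfsgLib.AutPSL.two_ne_zero_of_odd hodd
  obtain ⟨ν, hν⟩ := FiniteField.exists_nonsquare (F := F) (fun h => h2 (by
    haveI : CharP F 2 := ringChar.of_eq h
    exact CharTwo.two_eq_zero))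
  have hν0 : ν ≠ 0 := fun h => hν (h ▸ IsSquare.zero)
  have hn2 : 2 ≤ n := by omega
  have hn3 : 3 ≤ n := by omega
  have hnn : n = (k + 1) + (k + 1) := by omega
  let e : Fin (k + 1) ⊕ Fin (k + 1) ≃ Fin n := Fintype.equivFinOfCardEq (by simp; omega)
  let e' : (Fin k ⊕ Fin k) ⊕ Fin 2 ≃ Fin n := Fintype.equivFinOfCardEq (by simp; omega)
  let J := CfsgLib.AutPSL.unitJ (F := F) (k + 1)
  let P := CfsgLib.AutPSL.unitPlus (F := F) (k + 1)
  let N := CfsgLib.AutPSL.unitMinus k h2 hν0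
  have hJ : (CfsgLib.AutPSL.reindexGL e J).1ᵀ = -(CfsgLib.AutPSL.reindexGL e J).1 :=
    CfsgLib.AutPSL.reindexGL_skew (Matrix.J_transpose _ _)
  have hP : (CfsgLib.AutPSL.reindexGL e P).1ᵀ = (CfsgLib.AutPSL.reindexGL e P).1 :=
    CfsgLib.AutPSL.reindexGL_symm (CfsgLib.AutPSL.polPlus_symm _)
  have hN : (CfsgLib.AutPSL.reindexGL e' N).1ᵀ = (CfsgLib.AutPSL.reindexGL e' N).1 :=
    CfsgLib.AutPSL.reindexGL_symm (CfsgLib.AutPSL.polMinus_symm _ _)
  have hdet : IsSquare (P.1.det * (N.1.det * ν)) := by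
    obtain ⟨s, hs⟩ := CfsgLib.AutPSL.isSquare_det_polPlus (F := F) (k + 1) h2
    obtain ⟨t, ht⟩ := CfsgLib.AutPSL.isSquare_det_polPlus (F := F) k h2
    refine ⟨2 * ν * s * t, ?_⟩
    change (CfsgLib.AutPSL.polPlus (k + 1)).det * ((CfsgLib.AutPSL.polMinus k ν).det * ν) = _
    rw [CfsgLib.AutPSL.det_polMinus]
    have hsgn : ((-1 : F) ^ k) ^ 2 = 1 := by rw [← pow_mul, mul_comm, pow_mul, neg_one_sq, one_pow]
    linear_combination (4 * ν ^ 2 * (t * t)) * hs + (4 * ν ^ 2 *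
      ((CfsgLib.AutPSL.polPlus (F := F) (k + 1)).det * (-1) ^ (k + 1))) * ht -
      (-4 * ν ^ 2 * (CfsgLib.AutPSL.polPlus (F := F) (k + 1)).det *
        (CfsgLib.AutPSL.polPlus (F := F) k).det) * hsgn
  have hsymskew : ∀ (a b : GL (Fin n) F), a.1ᵀ = -a.1 → b.1ᵀ = b.1 →
      ¬ Cfsg.IsConjUnder (Cfsg.inndiagPSL n F) (CfsgLib.AutPSL.gamma a) (CfsgLib.AutPSL.gamma b) := by
    intro a b ha hb hcon
    obtain ⟨c, g, hg⟩ := (CfsgLib.AutPSL.gamma_isConj_iff hn2 a b).mp hcon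
    have h1 := congrArg Matrix.transpose hg
    rw [Matrix.transpose_mul, Matrix.transpose_mul, Matrix.transpose_transpose, ha, Matrix.transpose_smul,
      hb, Matrix.neg_mul, Matrix.mul_neg, ← Matrix.mul_assoc, hg] at h1
    have h3 : ∀ i j, b.1 i j = 0 := by
      intro i j
      have h4 := congrFun (congrFun h1 i) j
      simp only [Matrix.neg_apply, Matrix.smul_apply, smul_eq_mul] at h4
      have h5 : (2 : F) * ((c : F) * b.1 i j) = 0 := by linear_combination -h4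
      exact (mul_eq_zero.mp ((mul_eq_zero.mp h5).resolve_left h2)).resolve_left c.ne_zero
    haveI : Nonempty (Fin n) := ⟨⟨0, by omega⟩⟩
    exact Units.ne_zero b (Matrix.ext h3)
  have h23 : ¬ Cfsg.IsConjUnder (Cfsg.inndiagPSL n F) (CfsgLib.AutPSL.gamma (CfsgLib.AutPSL.reindexGL e P))
      (CfsgLib.AutPSL.gamma (CfsgLib.AutPSL.reindexGL e' N)) := by
    intro hcon
    obtain ⟨c, hc⟩ := (CfsgLib.AutPSL.gamma_isConj_iff hn2 _ _).mp hcon
    obtain ⟨u, hu⟩ := hc.det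
    rw [Matrix.det_smul, Fintype.card_fin, CfsgLib.AutPSL.det_reindexGL, CfsgLib.AutPSL.det_reindexGL,
      hnn, pow_add] at hu
    obtain ⟨s, hs⟩ := hdet
    have hP0 : P.1.det ≠ 0 := CfsgLib.AutPSL.det_ne_zero_GL P
    have hu0 := u.ne_zero
    refine hν ⟨s * (c : F) ^ (k + 1) / ((u : F) * P.1.det), ?_⟩
    field_simp
    linear_combination ((c : F) ^ (k + 1)) ^ 2 * hs - P.1.det * ν * hu
  refine ⟨CfsgLib.AutPSL.gamma (CfsgLib.AutPSL.reindexGL e J),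
    CfsgLib.AutPSL.gamma (CfsgLib.AutPSL.reindexGL e P),
    CfsgLib.AutPSL.gamma (CfsgLib.AutPSL.reindexGL e' N), 0, -ν,
    CfsgLib.AutPSL.not_anisotropic_of_square hν,
    (CfsgLib.AutPSL.gamma_isGraph hn3 _ (Or.inr hJ)).1, (CfsgLib.AutPSL.gamma_isGraph hn3 _ (Or.inr hJ)).2,
    (CfsgLib.AutPSL.gamma_isGraph hn3 _ (Or.inl hP)).1, (CfsgLib.AutPSL.gamma_isGraph hn3 _ (Or.inl hP)).2,
    (CfsgLib.AutPSL.gamma_isGraph hn3 _ (Or.inl hN)).1, (CfsgLib.AutPSL.gamma_isGraph hn3 _ (Or.inl hN)).2,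
    hsymskew _ _ hJ hP, hsymskew _ _ hJ hN, h23, ?_, ?_, ?_, ?_⟩
  · intro γ hγ hγ2
    obtain ⟨h, rfl, hs | hs⟩ := CfsgLib.AutPSL.exists_gamma_form hγ hγ2
    · by_cases hsq : IsSquare (h.1.det * P.1.det)
      · refine Or.inr (Or.inl (CfsgLib.AutPSL.sym_type h2 hn2 e P
          (CfsgLib.AutPSL.polPlus_symm _) h hs 1 ?_).2)
        rwa [Units.val_one, one_pow, one_mul]
      · refine Or.inr (Or.inr (CfsgLib.AutPSL.sym_type h2 hn2 e' N
          (CfsgLib.AutPSL.polMinus_symm _ _) h hs 1 ?_).2)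
        rw [Units.val_one, one_pow, one_mul]
        by_contra hN'
        obtain ⟨s, hs'⟩ := hdet
        have hh0 := CfsgLib.AutPSL.det_ne_zero_GL h
        have hP0 : P.1.det ≠ 0 := CfsgLib.AutPSL.det_ne_zero_GL P
        have hN0 : N.1.det ≠ 0 := CfsgLib.AutPSL.det_ne_zero_GL N
        rw [← quadraticChar_neg_one_iff_not_isSquare] at hsq hN' hν
        have h1 : quadraticChar F (P.1.det * (N.1.det * ν)) = 1 :=
          (quadraticChar_one_iff_isSquare (mul_ne_zero hP0 (mul_ne_zero hN0 hν0))).mpr ⟨s, hs'⟩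
        have h5 : quadraticChar F (h.1.det) ^ 2 = 1 := quadraticChar_sq_one hh0
        rw [map_mul] at hsq hN'
        rw [map_mul, map_mul, hν] at h1
        have h6 : quadraticChar F (h.1.det) * quadraticChar F (P.1.det) *
            (quadraticChar F (h.1.det) * quadraticChar F (N.1.det)) = 1 := by rw [hsq, hN']; norm_num
        have h7 : quadraticChar F (P.1.det) * quadraticChar F (N.1.det) = 1 := by
          linear_combination h6 - quadraticChar F (P.1.det) * quadraticChar F (N.1.det) * h5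
        have h8 : ((-1 : ℤ)) = 1 := by linear_combination h1 + h7
        norm_num at h8
    · exact Or.inl (CfsgLib.AutPSL.skew_type hn2 e h hs (CfsgLib.AutPSL.skew_diag_zero h2 hs)).2
  · exact CfsgLib.AutPSL.gamma_centralizer_subgroup hn2 J.1 e _ rfl
      (CfsgLib.AutPSL.symp_similarity_eq_sim (F := F) (k + 1))
  · exact CfsgLib.AutPSL.gamma_centralizer_subgroup hn2 P.1 e _ rfl
      (CfsgLib.AutPSL.quadSimilarity_eq_sim h2 (Cfsg.quadFormPlus (k + 1) F) P.1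
        (CfsgLib.AutPSL.polPlus_symm _) (CfsgLib.AutPSL.polPlus_form _))
  · exact CfsgLib.AutPSL.gamma_centralizer_subgroup hn2 N.1 e' _ rfl
      (CfsgLib.AutPSL.quadSimilarity_eq_sim h2 (Cfsg.quadFormMinus k F 0 (-ν)) N.1
        (CfsgLib.AutPSL.polMinus_symm _ _) (CfsgLib.AutPSL.polMinus_form _ _))

end Cfsg.Agent.S2700
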