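import Cfsg.Statements.S2701
import Cfsg.Agent.AutPSL.GraphTypes

set_option autoImplicit false
open Cfsg
open scoped Matrix MatrixGroups

namespace Cfsg.Agent.S2701

/-- Let T = PSL_n(F) over a finite field of characteristic 2 with n = 2m ≥ 4 even, and G = Inndiag(T) the image of PGL_n(F). The involutory graph automorphisms of T fall into exactly two G-classes, with representatives γ₁ and γ₃ whose centralizers in G are isomorphic respectively to the symplectic group Sp_n(F) and to the centralizer in Sp_n(F) of a symplectic transvection. -/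
theorem result {F : Type*} [Field F] [Fintype F] [CharP F 2] {n m : ℕ} (hm : 2 ≤ m) (hnm : n = 2 * m) :
    ∃ (γ₁ γ₃ : MulAut (Matrix.ProjectiveSpecialLinearGroup (Fin n) F)) (t : ↥(Matrix.symplecticGroup (Fin m) F)), Cfsg.IsTransvection (t : Matrix (Fin m ⊕ Fin m) (Fin m ⊕ Fin m) F) ∧ Cfsg.IsGraphAutClassPSL γ₁ ∧ orderOf γ₁ = 2 ∧ Cfsg.IsGraphAutClassPSL γ₃ ∧ orderOf γ₃ = 2 ∧ ¬ Cfsg.IsConjUnder (Cfsg.inndiagPSL n F) γ₁ γ₃ ∧ (∀ γ : MulAut (Matrix.ProjectiveSpecialLinearGroup (Fin n) F), Cfsg.IsGraphAutClassPSL γ → orderOf γ = 2 → Cfsg.IsConjUnder (Cfsg.inndiagPSL n F) γ₁ γ ∨ Cfsg.IsConjUnder (Cfsg.inndiagPSL n F) γ₃ γ) ∧ Nonempty (↥(Cfsg.inndiagPSL n F ⊓ Subgroup.centralizer {γ₁}) ≃* ↥(Matrix.symplecticGroup (Fin m) F)) ∧ Nonempty (↥(Cfsg.inndiagPSL n F ⊓ Subgroup.centralizer {γ₃}) ≃* ↥(Subgroup.centralizer ({t} : Set ↥(Matrix.symplecticGroup (Fin m) F)))) := by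
  have hn2 : 2 ≤ n := by omega
  have hn3 : 3 ≤ n := by omega
  let o : Fin m := ⟨0, by omega⟩
  let e : Fin m ⊕ Fin m ≃ Fin n := Fintype.equivFinOfCardEq (by simp; omega)
  let J := CfsgLib.AutPSL.unitJ (F := F) m
  let T := CfsgLib.AutPSL.unitTrans (F := F) o
  have hJ : (CfsgLib.AutPSL.reindexGL e J).1ᵀ = (CfsgLib.AutPSL.reindexGL e J).1 :=
    CfsgLib.AutPSL.reindexGL_symm (CfsgLib.AutPSL.J_symm m)
  have hT : (CfsgLib.AutPSL.reindexGL e T).1ᵀ = (CfsgLib.AutPSL.reindexGL e T).1 :=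
    CfsgLib.AutPSL.reindexGL_symm (CfsgLib.AutPSL.transMat_symm o)
  have hna : (CfsgLib.AutPSL.reindexGL e T).1 (e (Sum.inr o)) (e (Sum.inr o)) ≠ 0 := by
    rw [CfsgLib.AutPSL.coe_reindexGL, Matrix.submatrix_apply, Equiv.symm_apply_apply]
    change CfsgLib.AutPSL.transMat o _ _ ≠ 0
    simp [CfsgLib.AutPSL.transMat, CfsgLib.AutPSL.J_diag]
  refine ⟨CfsgLib.AutPSL.gamma (CfsgLib.AutPSL.reindexGL e J),
    CfsgLib.AutPSL.gamma (CfsgLib.AutPSL.reindexGL e T), CfsgLib.AutPSL.transElt o,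
    CfsgLib.AutPSL.transElt_isTransvection o,
    (CfsgLib.AutPSL.gamma_isGraph hn3 _ (Or.inl hJ)).1, (CfsgLib.AutPSL.gamma_isGraph hn3 _ (Or.inl hJ)).2,
    (CfsgLib.AutPSL.gamma_isGraph hn3 _ (Or.inl hT)).1, (CfsgLib.AutPSL.gamma_isGraph hn3 _ (Or.inl hT)).2,
    ?_, ?_, ?_, ?_⟩
  · intro hcon
    obtain ⟨c, g, hg⟩ := (CfsgLib.AutPSL.gamma_isConj_iff hn2 _ _).mp hcon
    set i := e (Sum.inr o) with hi
    have h1 : (g.1 * (CfsgLib.AutPSL.reindexGL e J).1 * g.1ᵀ) i i = 0 := by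
      have h2 : (g.1 * (CfsgLib.AutPSL.reindexGL e J).1 * g.1ᵀ) i i =
          (g.1 i ∘ e) ⬝ᵥ Matrix.J (Fin m) F *ᵥ (g.1 i ∘ e) := by
        have h3 : ∀ (X : Matrix (Fin n) (Fin n) F) (v : Fin n → F),
            v ⬝ᵥ X *ᵥ v = (v ∘ e) ⬝ᵥ (X.submatrix e e) *ᵥ (v ∘ e) := by
          intro X v
          rw [Matrix.submatrix_mulVec_equiv, Function.comp_assoc, Equiv.self_comp_symm, Function.comp_id,
            comp_equiv_dotProduct_comp_equiv]
        have h4 : (CfsgLib.AutPSL.reindexGL e J).1.submatrix e e = Matrix.J (Fin m) F := by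
          rw [CfsgLib.AutPSL.coe_reindexGL, Matrix.submatrix_submatrix, Equiv.symm_comp_self,
            Matrix.submatrix_id_id]
          rfl
        rw [← h4, ← h3, Matrix.mul_assoc, Matrix.mul_apply]
        rfl
      rw [h2, CfsgLib.AutPSL.J_form_self]
    rw [hg, Matrix.smul_apply, smul_eq_mul] at h1
    exact hna ((mul_eq_zero.mp h1).resolve_left c.ne_zero)
  · intro γ hγ hγ2
    obtain ⟨h, rfl, hs⟩ := CfsgLib.AutPSL.exists_gamma_form hγ hγ2
    have hs : h.1ᵀ = h.1 := hs.elim id fun h' => by rwa [CfsgLib.AutPSL.neg_eq_self_char_two] at h'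
    by_cases hd : ∀ i, h.1 i i = 0
    · exact Or.inl (CfsgLib.AutPSL.skew_type hn2 e h
        (by rw [CfsgLib.AutPSL.neg_eq_self_char_two]; exact hs) hd).2
    · push Not at hd
      refine Or.inr ((CfsgLib.AutPSL.gamma_isConj_iff hn2 _ _).mpr ⟨1, ?_⟩)
      rw [Units.val_one, one_smul]
      exact (CfsgLib.AutPSL.congr_one_char_two _ hT ⟨_, hna⟩).trans
        (CfsgLib.AutPSL.congr_one_char_two h hs hd).symm
  · obtain ⟨f⟩ := CfsgLib.AutPSL.gamma_centralizer hn2 J.1 e (CfsgLib.AutPSL.reindexGL e J) rfl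
      (⊥ : Subgroup ↥(Matrix.symplecticGroup (Fin m) F)) (CfsgLib.AutPSL.spHom m)
      (fun g => ⟨1, by rw [Units.val_one, one_smul]; exact SymplecticGroup.mem_iff'.mp g.2⟩)
      (fun a ha => by
        obtain ⟨u, g, rfl, hg⟩ := CfsgLib.AutPSL.exists_isometry_of_sim ha
        exact ⟨u, ⟨g.1, SymplecticGroup.mem_iff'.mpr hg⟩, congrArg _ (Units.ext rfl)⟩)
      (fun g => by
        refine ⟨fun hg => ?_, fun hg => ?_⟩
        · have h1 := CfsgLib.AutPSL.scalar_isometry_eq_one (CfsgLib.AutPSL.J_ne_zero (by omega)) hg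
            (SymplecticGroup.mem_iff'.mp g.2)
          exact Subgroup.mem_bot.mpr (Subtype.ext (congrArg Units.val h1))
        · rw [Subgroup.mem_bot.mp hg, map_one]
          exact one_mem _)
    exact ⟨f.trans QuotientGroup.quotientBot⟩
  · obtain ⟨f⟩ := CfsgLib.AutPSL.gamma_centralizer hn2 T.1 e (CfsgLib.AutPSL.reindexGL e T) rfl
      (⊥ : Subgroup ↥(Subgroup.centralizer
        ({CfsgLib.AutPSL.transElt o} : Set ↥(Matrix.symplecticGroup (Fin m) F))))
      ((CfsgLib.AutPSL.spHom m).comp (Subgroup.centralizer _).subtype)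
      (fun g => ⟨1, by
        rw [Units.val_one, one_smul]
        refine (CfsgLib.AutPSL.preserve_transMat_iff o _).mpr ⟨g.1.2, ?_⟩
        exact congrArg Subtype.val (Subgroup.mem_centralizer_singleton_iff.mp g.2).symm⟩)
      (fun a ha => by
        obtain ⟨u, g, rfl, hg⟩ := CfsgLib.AutPSL.exists_isometry_of_sim ha
        obtain ⟨hg1, hg2⟩ := (CfsgLib.AutPSL.preserve_transMat_iff o g.1).mp hg
        exact ⟨u, ⟨⟨g.1, hg1⟩, Subgroup.mem_centralizer_singleton_iff.mpr (Subtype.ext hg2.symm)⟩,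
          congrArg _ (Units.ext rfl)⟩)
      (fun g => by
        refine ⟨fun hg => ?_, fun hg => ?_⟩
        · have h1 := CfsgLib.AutPSL.scalar_isometry_eq_one (M := Matrix.J (Fin m) F)
            (CfsgLib.AutPSL.J_ne_zero (by omega)) hg (SymplecticGroup.mem_iff'.mp g.1.2)
          exact Subgroup.mem_bot.mpr (Subtype.ext (Subtype.ext (congrArg Units.val h1)))
        · rw [Subgroup.mem_bot.mp hg, map_one]
          exact one_mem _)
    exact ⟨f.trans QuotientGroup.quotientBot⟩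

end Cfsg.Agent.S2701
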