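import Cfsg.Statements.S2702
import Cfsg.Agent.AutPSL.GraphCount

set_option autoImplicit false
open Cfsg

namespace Cfsg.Agent.S2702

/-- Let T = PSL_n(F) over the field with q = p^f elements, n ≥ 3, G = Inndiag(T) the image of PGL_n(F), and γ an involutory graph automorphism of T. The G-class of γ is the union of exactly c T-classes, where: if n is even and q is odd, c = gcd(n/2, q − 1) when C_G(γ) is isomorphic to the projective conformal symplectic group PGSp_n(F) (symplectic type) and c = gcd(n, q − 1)/2 otherwise; and c = gcd(n, q − 1) when n is odd or q is even. -/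
theorem result {F : Type*} [Field F] [Fintype F] {p f : ℕ} [Fact p.Prime] (hF : Fintype.card F = p ^ f) (hf : 1 ≤ f) {n : ℕ} (hn : 3 ≤ n) (γ : MulAut (Matrix.ProjectiveSpecialLinearGroup (Fin n) F)) (hγ : Cfsg.IsGraphAutClassPSL γ) (hγ2 : orderOf γ = 2) :
    ((Even n ∧ Odd p ∧ Nonempty (↥(Cfsg.inndiagPSL n F ⊓ Subgroup.centralizer {γ}) ≃* Cfsg.PGSp (n / 2) F)) → Cfsg.splitClassCount (Cfsg.inndiagPSL n F) (Cfsg.Inn (Matrix.ProjectiveSpecialLinearGroup (Fin n) F)) γ = Nat.gcd (n / 2) (p ^ f - 1)) ∧ ((Even n ∧ Odd p ∧ ¬ Nonempty (↥(Cfsg.inndiagPSL n F ⊓ Subgroup.centralizer {γ}) ≃* Cfsg.PGSp (n / 2) F)) → Cfsg.splitClassCount (Cfsg.inndiagPSL n F) (Cfsg.Inn (Matrix.ProjectiveSpecialLinearGroup (Fin n) F)) γ = Nat.gcd n (p ^ f - 1) / 2) ∧ (¬ (Even n ∧ Odd p) → Cfsg.splitClassCount (Cfsg.inndiagPSL n F) (Cfsg.Inn (Matrix.ProjectiveSpecialLinearGroup (Fin n) F)) γ = Nat.gcd n (p ^ f - 1)) := by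
  obtain ⟨h, rfl, hs⟩ := CfsgLib.AutPSL.exists_gamma_form hγ hγ2
  have hn2 : 2 ≤ n := by omega
  haveI : CharP F p := charP_of_card_eq_prime_pow (f := f) (Fintype.card_eq_nat_card ▸ hF)
  have h2 : Odd p → (2 : F) ≠ 0 := by
    intro hp
    refine CfsgLib.AutPSL.two_ne_zero_of_odd ?_
    rw [hF]
    exact hp.pow
  rw [← hF]
  refine ⟨?_, ?_, ?_⟩
  · rintro ⟨⟨m, hm⟩, hp, hiso⟩
    have hnm : n = 2 * m := by omega
    have hm2 : n / 2 = m := by omega
    rw [hm2] at hiso ⊢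
    rcases hs with hs | hs
    · exact absurd hiso (CfsgLib.AutPSL.not_iso_PGSp hn2 hnm (h2 hp) h hs)
    · exact CfsgLib.AutPSL.splitCount_skew hn2 hnm (h2 hp) h hs
  · rintro ⟨⟨m, hm⟩, hp, hiso⟩
    have hnm : n = 2 * m := by omega
    have hm2 : n / 2 = m := by omega
    rw [hm2] at hiso
    rcases hs with hs | hs
    · exact CfsgLib.AutPSL.splitCount_sym hn2 hnm (h2 hp) h hs
    · refine absurd ?_ hiso
      let e : Fin m ⊕ Fin m ≃ Fin n := Fintype.equivFinOfCardEq (by simp; omega)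
      obtain ⟨f1⟩ := CfsgLib.AutPSL.gamma_centralizer_congr hn2 h
        (CfsgLib.AutPSL.reindexGL e (CfsgLib.AutPSL.unitJ m)) 1 (by
          rw [Units.val_one, one_smul]
          exact (CfsgLib.AutPSL.skew_type hn2 e h hs (CfsgLib.AutPSL.skew_diag_zero (h2 hp) hs)).1)
      obtain ⟨f2⟩ := CfsgLib.AutPSL.gamma_centralizer_subgroup hn2 (CfsgLib.AutPSL.unitJ (F := F) m).1 e
        (CfsgLib.AutPSL.reindexGL e (CfsgLib.AutPSL.unitJ m)) rfl
        (CfsgLib.AutPSL.symp_similarity_eq_sim (F := F) m)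
      exact ⟨f1.trans f2⟩
  · intro hne
    refine CfsgLib.AutPSL.splitCount_easy hn2 h ?_
    rcases Nat.even_or_odd n with hev | hodd
    · refine Or.inr ?_
      obtain rfl : p = 2 := by
        rcases (Fact.out : p.Prime).eq_two_or_odd' with h | h
        · exact h
        · exact absurd ⟨hev, h⟩ hne
      infer_instance
    · exact Or.inl hodd

end Cfsg.Agent.S2702
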