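import Cfsg.Statements.S2703
import Cfsg.Agent.AutPSL.GraphTypes

set_option autoImplicit false
open Cfsg
open scoped Matrix MatrixGroups

namespace Cfsg.Agent.S2703

/-- Let T = PSL_n(F) over the field with q elements, q odd, n = 2m ≥ 4 even, and ι the inverse-transpose automorphism. Its centralizer in G = Inndiag(T) (the image of PGL_n(F)) is isomorphic to the projective conformal orthogonal group of the plus-type form Σ xᵢ yᵢ in dimension n when n(q − 1)/4 is even, and to that of a minus-type form (Σ xᵢ yᵢ + z₁² + a z₁ z₂ + b z₂² with anisotropic binary part) when n(q − 1)/4 is odd. -/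
theorem result {F : Type*} [Field F] [Fintype F] (hodd : Odd (Fintype.card F)) {n m : ℕ} (hm : 2 ≤ m) (hnm : n = 2 * m) (ι : MulAut (Matrix.ProjectiveSpecialLinearGroup (Fin n) F)) (hι : Cfsg.IsInverseTransposeAutPSL ι) :
    (Even (n * (Fintype.card F - 1) / 4) → Nonempty (↥(Cfsg.inndiagPSL n F ⊓ Subgroup.centralizer {ι}) ≃* Cfsg.PGO F (Cfsg.quadFormPlus m F))) ∧ (¬ Even (n * (Fintype.card F - 1) / 4) → ∃ a b : F, (∀ z₁ z₂ : F, z₁ ^ 2 + a * z₁ * z₂ + b * z₂ ^ 2 = 0 → z₁ = 0 ∧ z₂ = 0) ∧ Nonempty (↥(Cfsg.inndiagPSL n F ⊓ Subgroup.centralizer {ι}) ≃* Cfsg.PGO F (Cfsg.quadFormMinus (m - 1) F a b))) := by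
  obtain ⟨k, rfl⟩ : ∃ k, m = k + 1 := ⟨m - 1, by omega⟩
  have h2 : (2 : F) ≠ 0 := CfsgLib.AutPSL.two_ne_zero_of_odd hodd
  have hn2 : 2 ≤ n := by omega
  rw [CfsgLib.AutPSL.isInverseTranspose_iff.mp hι]
  have hg1 : (CfsgLib.AutPSL.invTrPSL : MulAut (Matrix.ProjectiveSpecialLinearGroup (Fin n) F)) =
      CfsgLib.AutPSL.gamma 1 := by rw [CfsgLib.AutPSL.gamma, CfsgLib.AutPSL.conjPSL_one, one_mul]
  rw [hg1]
  have key : IsSquare ((-1 : F) ^ (k + 1)) ↔ Even (n * (Fintype.card F - 1) / 4) := by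
    obtain ⟨t, ht⟩ := hodd
    have e1 : n * (Fintype.card F - 1) / 4 = (k + 1) * t := by
      rw [ht, hnm, Nat.add_sub_cancel, show 2 * (k + 1) * (2 * t) = 4 * ((k + 1) * t) by ring,
        Nat.mul_div_cancel_left _ (by norm_num)]
    rw [e1, Nat.even_mul]
    rcases Nat.even_or_odd (k + 1) with hk | hk
    · rw [hk.neg_one_pow]
      exact iff_of_true IsSquare.one (Or.inl hk)
    · rw [hk.neg_one_pow, FiniteField.isSquare_neg_one_iff, ht]
      have := Nat.not_even_iff_odd.mpr hk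
      simp only [this, false_or]
      rw [Nat.even_iff]
      omega
  obtain ⟨s, hs⟩ := CfsgLib.AutPSL.isSquare_det_polPlus (F := F) (k + 1) h2
  constructor
  · intro hev
    let e : Fin (k + 1) ⊕ Fin (k + 1) ≃ Fin n := Fintype.equivFinOfCardEq (by simp; omega)
    let P := CfsgLib.AutPSL.unitPlus (F := F) (k + 1)
    have hsq : IsSquare ((1 : GL (Fin n) F).1.det * (((1 : Fˣ) : F) ^ n * P.1.det)) := by
      obtain ⟨t, ht⟩ := key.mpr hev
      refine ⟨s * t, ?_⟩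
      rw [Units.val_one, Units.val_one, Matrix.det_one, one_pow, one_mul, one_mul]
      have hsgn : ((-1 : F) ^ (k + 1)) ^ 2 = 1 := by rw [← pow_mul, mul_comm, pow_mul, neg_one_sq, one_pow]
      change (CfsgLib.AutPSL.polPlus (k + 1)).det = _
      linear_combination t * t * hs + (CfsgLib.AutPSL.polPlus (F := F) (k + 1)).det * (-1) ^ (k + 1) * ht -
        (CfsgLib.AutPSL.polPlus (F := F) (k + 1)).det * hsgn
    obtain ⟨h1, -⟩ := CfsgLib.AutPSL.sym_type h2 hn2 e P (CfsgLib.AutPSL.polPlus_symm _) 1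
      (by rw [Units.val_one, Matrix.transpose_one]) 1 hsq
    obtain ⟨f1⟩ := CfsgLib.AutPSL.gamma_centralizer_congr hn2 _ _ _ h1
    obtain ⟨f2⟩ := CfsgLib.AutPSL.gamma_centralizer_subgroup hn2 P.1 e (CfsgLib.AutPSL.reindexGL e P) rfl
      (CfsgLib.AutPSL.quadSimilarity_eq_sim h2 (Cfsg.quadFormPlus (k + 1) F) P.1
        (CfsgLib.AutPSL.polPlus_symm _) (CfsgLib.AutPSL.polPlus_form _))
    exact ⟨f1.trans f2⟩
  · intro hev
    have hν : ¬ IsSquare ((-1 : F) ^ (k + 1)) := fun h => hev (key.mp h)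
    have hν0 : ((-1 : F) ^ (k + 1)) ≠ 0 := pow_ne_zero _ (neg_ne_zero.mpr one_ne_zero)
    set ν := (-1 : F) ^ (k + 1) with hνdef
    refine ⟨0, -ν, CfsgLib.AutPSL.not_anisotropic_of_square hν, ?_⟩
    let e' : (Fin k ⊕ Fin k) ⊕ Fin 2 ≃ Fin n := Fintype.equivFinOfCardEq (by simp; omega)
    let N := CfsgLib.AutPSL.unitMinus k h2 hν0
    have hsq : IsSquare ((1 : GL (Fin n) F).1.det * (((1 : Fˣ) : F) ^ n * N.1.det)) := by
      obtain ⟨t, ht⟩ := CfsgLib.AutPSL.isSquare_det_polPlus (F := F) k h2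
      refine ⟨2 * t, ?_⟩
      rw [Units.val_one, Units.val_one, Matrix.det_one, one_pow, one_mul, one_mul]
      change (CfsgLib.AutPSL.polMinus k ν).det = _
      rw [CfsgLib.AutPSL.det_polMinus, hνdef]
      linear_combination 4 * ht
    obtain ⟨h1, -⟩ := CfsgLib.AutPSL.sym_type h2 hn2 e' N (CfsgLib.AutPSL.polMinus_symm _ _) 1
      (by rw [Units.val_one, Matrix.transpose_one]) 1 hsq
    obtain ⟨f1⟩ := CfsgLib.AutPSL.gamma_centralizer_congr hn2 _ _ _ h1
    obtain ⟨f2⟩ := CfsgLib.AutPSL.gamma_centralizer_subgroup hn2 N.1 e' (CfsgLib.AutPSL.reindexGL e' N) rfl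
      (CfsgLib.AutPSL.quadSimilarity_eq_sim h2 (Cfsg.quadFormMinus k F 0 (-ν)) N.1
        (CfsgLib.AutPSL.polMinus_symm _ _) (CfsgLib.AutPSL.polMinus_form _ _))
    exact ⟨f1.trans f2⟩

end Cfsg.Agent.S2703
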