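import Cfsg.Statements.S2704
import Cfsg.Agent.AutPSL.GraphField

set_option autoImplicit false
open Cfsg

namespace Cfsg.Agent.S2704

/-- Let T = PSL_n(F) over the field F with p^f elements, n ≥ 3, and G = Inndiag(T) the image of PGL_n(F). If x is an involutory graph-field automorphism of T then f is even; x is G-conjugate to every other involutory graph-field automorphism; C_G(x) is isomorphic to the projective general unitary group PGU_n(q₀) with q₀² = p^f, realised over F itself through the Hermitian form Σ uᵢ vᵢ^{q₀}; and the G-class of x is the union of exactly gcd(n, q₀ − 1) T-classes. -/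
theorem result {F : Type*} [Field F] [Fintype F] {p f : ℕ} [Fact p.Prime] (hF : Fintype.card F = p ^ f) (hf : 1 ≤ f) {n : ℕ} (hn : 3 ≤ n) (x : MulAut (Matrix.ProjectiveSpecialLinearGroup (Fin n) F)) (hx : Cfsg.IsGraphFieldAutClassPSL x) (hx2 : orderOf x = 2) :
    Even f ∧ (∀ y : MulAut (Matrix.ProjectiveSpecialLinearGroup (Fin n) F), Cfsg.IsGraphFieldAutClassPSL y → orderOf y = 2 → Cfsg.IsConjUnder (Cfsg.inndiagPSL n F) x y) ∧ Nonempty (↥(Cfsg.inndiagPSL n F ⊓ Subgroup.centralizer {x}) ≃* Cfsg.PGU n F (p ^ (f / 2))) ∧ Cfsg.splitClassCount (Cfsg.inndiagPSL n F) (Cfsg.Inn (Matrix.ProjectiveSpecialLinearGroup (Fin n) F)) x = Nat.gcd n (p ^ (f / 2) - 1) := by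
  obtain ⟨c, σ, hσ, rfl⟩ := CfsgLib.AutPSL.graphFieldClass_normal_form hx
  rw [CfsgLib.AutPSL.orderOf_conj] at hx2
  obtain ⟨-, hσ2⟩ := CfsgLib.AutPSL.gf_order hn hσ Nat.prime_two hx2
  have hev : Even f := even_iff_two_dvd.mpr (CfsgLib.AutPSL.even_of_involution hF hf hσ2)
  have hc : (CfsgLib.AutPSL.conjPSL c : MulAut (Matrix.ProjectiveSpecialLinearGroup (Fin n) F)) ∈
      Cfsg.inndiagPSL n F := by
    rw [CfsgLib.AutPSL.inndiag_eq]
    exact ⟨c, rfl⟩
  obtain ⟨τ, hτ2, hτ⟩ := CfsgLib.AutPSL.exists_frobenius_involution hF hf hev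
  obtain rfl := CfsgLib.AutPSL.involution_unique hF hf hσ2 hτ2
  refine ⟨hev, fun y hy hy2 => ?_, ?_, ?_⟩
  · obtain ⟨c', σ', hσ', rfl⟩ := CfsgLib.AutPSL.graphFieldClass_normal_form hy
    rw [CfsgLib.AutPSL.orderOf_conj] at hy2
    obtain rfl := CfsgLib.AutPSL.involution_unique hF hf
      (CfsgLib.AutPSL.gf_order hn hσ' Nat.prime_two hy2).2 hσ2
    refine ⟨CfsgLib.AutPSL.conjPSL c' * (CfsgLib.AutPSL.conjPSL c)⁻¹, ?_, by group⟩
    rw [CfsgLib.AutPSL.inndiag_eq]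
    exact mul_mem ⟨c', rfl⟩ (inv_mem ⟨c, rfl⟩)
  · obtain ⟨e1⟩ := CfsgLib.AutPSL.inf_centralizer_conj (Cfsg.inndiagPSL n F)
      (CfsgLib.AutPSL.mapPSL σ * CfsgLib.AutPSL.invTrPSL) hc
    obtain ⟨e2⟩ := CfsgLib.AutPSL.gf_centralizer (n := n) (by omega) hσ2 hτ
    exact ⟨e1.trans e2⟩
  · rw [CfsgLib.AutPSL.splitClassCount_conj _ _ _ hc]
    refine CfsgLib.AutPSL.gf_splitCount (by omega) hσ2 ?_
    rw [hF, ← pow_mul, Nat.div_mul_cancel (even_iff_two_dvd.mp hev)]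

end Cfsg.Agent.S2704
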