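import Cfsg.Statements.S2707
import Cfsg.Agent.AutPSU.Graph
import Cfsg.Agent.S2700

set_option autoImplicit false
open Cfsg

namespace Cfsg.Agent.S2707

/-- Let T = PSU_n(q) with n = 2m ≥ 4 even and q odd, realised over the field F with q² elements, and G = Inndiag(T) the image of PGU_n(q). The involutory graph automorphisms of T fall into exactly three G-classes, with representatives whose centralizers in G are isomorphic respectively to the projective conformal symplectic group PGSp_n(F₀), the projective conformal orthogonal group of the plus-type form Σ xᵢ yᵢ, and that of a minus-type form Σ xᵢ yᵢ + z₁² + a z₁ z₂ + b z₂² (anisotropic binary part) in dimension n, all over a field F₀ with q elements. -/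
theorem result {F : Type*} [Field F] [Fintype F] {q : ℕ} (hodd : Odd q) (hF : Fintype.card F = q ^ 2) {n m : ℕ} (hm : 2 ≤ m) (hnm : n = 2 * m) (F₀ : Type*) [Field F₀] [Fintype F₀] (hF₀ : Fintype.card F₀ = q) :
    ∃ (γ₁ γ₂ γ₃ : MulAut (Cfsg.PSU n F q)) (a b : F₀), (∀ z₁ z₂ : F₀, z₁ ^ 2 + a * z₁ * z₂ + b * z₂ ^ 2 = 0 → z₁ = 0 ∧ z₂ = 0) ∧ Cfsg.IsGraphAutClassPSU γ₁ ∧ orderOf γ₁ = 2 ∧ Cfsg.IsGraphAutClassPSU γ₂ ∧ orderOf γ₂ = 2 ∧ Cfsg.IsGraphAutClassPSU γ₃ ∧ orderOf γ₃ = 2 ∧ ¬ Cfsg.IsConjUnder (Cfsg.inndiagPSU n F q) γ₁ γ₂ ∧ ¬ Cfsg.IsConjUnder (Cfsg.inndiagPSU n F q) γ₁ γ₃ ∧ ¬ Cfsg.IsConjUnder (Cfsg.inndiagPSU n F q) γ₂ γ₃ ∧ (∀ γ : MulAut (Cfsg.PSU n F q), Cfsg.IsGraphAutClassPSU γ → orderOf γ = 2 → Cfsg.IsConjUnder (Cfsg.inndiagPSU n F q) γ₁ γ ∨ Cfsg.IsConjUnder (Cfsg.inndiagPSU n F q) γ₂ γ ∨ Cfsg.IsConjUnder (Cfsg.inndiagPSU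 n F q) γ₃ γ) ∧ Nonempty (↥(Cfsg.inndiagPSU n F q ⊓ Subgroup.centralizer {γ₁}) ≃* Cfsg.PGSp m F₀) ∧ Nonempty (↥(Cfsg.inndiagPSU n F q ⊓ Subgroup.centralizer {γ₂}) ≃* Cfsg.PGO F₀ (Cfsg.quadFormPlus m F₀)) ∧ Nonempty (↥(Cfsg.inndiagPSU n F q ⊓ Subgroup.centralizer {γ₃}) ≃* Cfsg.PGO F₀ (Cfsg.quadFormMinus (m - 1) F₀ a b)) := by
  haveI : NeZero n := ⟨by omega⟩
  have hn : 3 ≤ n := by omega
  obtain ⟨σ, e, hx⟩ := CfsgLib.AutPSU.exists_qext (F₀ := F₀) hF hF₀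
  obtain ⟨c₁, c₂, c₃, a, b, hab, g1, o1, g2, o2, g3, o3, n12, n13, n23, hall, ⟨i1⟩, ⟨i2⟩, ⟨i3⟩⟩ :=
    Cfsg.Agent.S2700.result (F := F₀) (by rw [hF₀]; exact hodd) hm hnm
  obtain ⟨h₁, rfl, s1⟩ := CfsgLib.AutPSL.exists_gamma_form g1 o1
  obtain ⟨h₂, rfl, s2⟩ := CfsgLib.AutPSL.exists_gamma_form g2 o2
  obtain ⟨h₃, rfl, s3⟩ := CfsgLib.AutPSL.exists_gamma_form g3 o3
  obtain ⟨u₁, d1, G1, O1⟩ := CfsgLib.AutPSU.exists_of_matrix hF hn hx h₁ s1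
  obtain ⟨u₂, d2, G2, O2⟩ := CfsgLib.AutPSU.exists_of_matrix hF hn hx h₂ s2
  obtain ⟨u₃, d3, G3, O3⟩ := CfsgLib.AutPSU.exists_of_matrix hF hn hx h₃ s3
  obtain ⟨f1⟩ := CfsgLib.AutPSU.ugamma_centralizer hF hn hx d1
  obtain ⟨f2⟩ := CfsgLib.AutPSU.ugamma_centralizer hF hn hx d2
  obtain ⟨f3⟩ := CfsgLib.AutPSU.ugamma_centralizer hF hn hx d3
  refine ⟨_, _, _, a, b, hab, G1, O1, G2, O2, G3, O3,
    fun h => n12 ((CfsgLib.AutPSU.ugamma_isConj_iff hF hn hx d1 d2).1 h),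
    fun h => n13 ((CfsgLib.AutPSU.ugamma_isConj_iff hF hn hx d1 d3).1 h),
    fun h => n23 ((CfsgLib.AutPSU.ugamma_isConj_iff hF hn hx d2 d3).1 h),
    fun γ hγ hγ2 => ?_, ⟨f1.trans i1⟩, ⟨f2.trans i2⟩, ⟨f3.trans i3⟩⟩
  obtain ⟨g, M, rfl, hd, hM⟩ := CfsgLib.AutPSU.exists_desc hF hn hx hγ hγ2
  obtain ⟨hg, ho⟩ := CfsgLib.AutPSL.gamma_isGraph hn M hM
  exact (hall _ hg ho).imp (CfsgLib.AutPSU.ugamma_isConj_iff hF hn hx d1 hd).2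
    (Or.imp (CfsgLib.AutPSU.ugamma_isConj_iff hF hn hx d2 hd).2
      (CfsgLib.AutPSU.ugamma_isConj_iff hF hn hx d3 hd).2)

end Cfsg.Agent.S2707
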