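import Cfsg.Statements.S2708
import Cfsg.Agent.AutPSU.Graph
import Cfsg.Agent.S2701

set_option autoImplicit false
open Cfsg

namespace Cfsg.Agent.S2708

/-- Let T = PSU_n(q) with n = 2m ≥ 4 even and q even, realised over the field F (of characteristic 2) with q² elements, and G = Inndiag(T) the image of PGU_n(q). The involutory graph automorphisms of T fall into exactly two G-classes, with representatives whose centralizers in G are isomorphic respectively to the symplectic group Sp_n(F₀) and to the centralizer in Sp_n(F₀) of a symplectic transvection, F₀ a field with q elements. -/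
theorem result {F : Type*} [Field F] [Fintype F] [CharP F 2] {q : ℕ} (hF : Fintype.card F = q ^ 2) {n m : ℕ} (hm : 2 ≤ m) (hnm : n = 2 * m) (F₀ : Type*) [Field F₀] [Fintype F₀] (hF₀ : Fintype.card F₀ = q) :
    ∃ (γ₁ γ₃ : MulAut (Cfsg.PSU n F q)) (t : ↥(Matrix.symplecticGroup (Fin m) F₀)), Cfsg.IsTransvection (t : Matrix (Fin m ⊕ Fin m) (Fin m ⊕ Fin m) F₀) ∧ Cfsg.IsGraphAutClassPSU γ₁ ∧ orderOf γ₁ = 2 ∧ Cfsg.IsGraphAutClassPSU γ₃ ∧ orderOf γ₃ = 2 ∧ ¬ Cfsg.IsConjUnder (Cfsg.inndiagPSU n F q) γ₁ γ₃ ∧ (∀ γ : MulAut (Cfsg.PSU n F q), Cfsg.IsGraphAutClassPSU γ → orderOf γ = 2 → Cfsg.IsConjUnder (Cfsg.inndiagPSU n F q) γ₁ γ ∨ Cfsg.IsConjUnder (Cfsg.inndiagPSU n F q) γ₃ γ) ∧ Nonempty (↥(Cfsg.inndiagPSU n F q ⊓ Subgroup.centralizer {γ₁}) ≃* ↥(Matrix.symplecticGroup (Fin m) F₀)) ∧ Nonempty (↥(Cfsg.inndiagPSU n F q ⊓ Subgroup.centralizer {γ₃}) ≃* ↥(Subgroup.centralizer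 ({t} : Set ↥(Matrix.symplecticGroup (Fin m) F₀)))) := by
  haveI : NeZero n := ⟨by omega⟩
  have hn : 3 ≤ n := by omega
  obtain ⟨σ, e, hx⟩ := CfsgLib.AutPSU.exists_qext (F₀ := F₀) hF hF₀
  haveI : CharP F₀ 2 := (RingHom.charP_iff e e.injective 2).2 inferInstance
  obtain ⟨c₁, c₃, t, ht, g1, o1, g3, o3, n13, hall, ⟨i1⟩, ⟨i3⟩⟩ :=
    Cfsg.Agent.S2701.result (F := F₀) hm hnm
  obtain ⟨h₁, rfl, s1⟩ := CfsgLib.AutPSL.exists_gamma_form g1 o1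
  obtain ⟨h₃, rfl, s3⟩ := CfsgLib.AutPSL.exists_gamma_form g3 o3
  obtain ⟨u₁, d1, G1, O1⟩ := CfsgLib.AutPSU.exists_of_matrix hF hn hx h₁ s1
  obtain ⟨u₃, d3, G3, O3⟩ := CfsgLib.AutPSU.exists_of_matrix hF hn hx h₃ s3
  obtain ⟨f1⟩ := CfsgLib.AutPSU.ugamma_centralizer hF hn hx d1
  obtain ⟨f3⟩ := CfsgLib.AutPSU.ugamma_centralizer hF hn hx d3
  refine ⟨_, _, t, ht, G1, O1, G3, O3,
    fun h => n13 ((CfsgLib.AutPSU.ugamma_isConj_iff hF hn hx d1 d3).1 h),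
    fun γ hγ hγ2 => ?_, ⟨f1.trans i1⟩, ⟨f3.trans i3⟩⟩
  obtain ⟨g, M, rfl, hd, hM⟩ := CfsgLib.AutPSU.exists_desc hF hn hx hγ hγ2
  obtain ⟨hg, ho⟩ := CfsgLib.AutPSL.gamma_isGraph hn M hM
  exact (hall _ hg ho).imp (CfsgLib.AutPSU.ugamma_isConj_iff hF hn hx d1 hd).2
    (CfsgLib.AutPSU.ugamma_isConj_iff hF hn hx d3 hd).2

end Cfsg.Agent.S2708
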