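import Cfsg.Statements.S2709
import Cfsg.Agent.AutPSU.GraphCount

set_option autoImplicit false
open Cfsg

namespace Cfsg.Agent.S2709

/-- Let T = PSU_n(q) be simple (n ≥ 3, (n,q) ≠ (3,2), q = p^f), realised over the field F with q² elements, G = Inndiag(T) the image of PGU_n(q), and γ an involutory graph automorphism of T. The G-class of γ is the union of exactly c T-classes, where: if n is even and q is odd, c = gcd(n/2, q + 1) when C_G(γ) is isomorphic to PGSp_n(F₀) for a field F₀ with q elements (symplectic type) and c = gcd(n, q + 1)/2 otherwise; and c = gcd(n, q + 1) when n is odd or q is even. -/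
theorem result {F : Type*} [Field F] [Fintype F] {p f q : ℕ} [Fact p.Prime] (hq : q = p ^ f) (hf : 1 ≤ f) (hF : Fintype.card F = q ^ 2) {n : ℕ} (hn : 3 ≤ n) (hs : ¬ (n = 3 ∧ q = 2)) (F₀ : Type*) [Field F₀] [Fintype F₀] (hF₀ : Fintype.card F₀ = q) (γ : MulAut (Cfsg.PSU n F q)) (hγ : Cfsg.IsGraphAutClassPSU γ) (hγ2 : orderOf γ = 2) :
    ((Even n ∧ Odd q ∧ Nonempty (↥(Cfsg.inndiagPSU n F q ⊓ Subgroup.centralizer {γ}) ≃* Cfsg.PGSp (n / 2) F₀)) → Cfsg.splitClassCount (Cfsg.inndiagPSU n F q) (Cfsg.Inn (Cfsg.PSU n F q)) γ = Nat.gcd (n / 2) (q + 1)) ∧ ((Even n ∧ Odd q ∧ ¬ Nonempty (↥(Cfsg.inndiagPSU n F q ⊓ Subgroup.centralizer {γ}) ≃* Cfsg.PGSp (n / 2) F₀)) → Cfsg.splitClassCount (Cfsg.inndiagPSU n F q) (Cfsg.Inn (Cfsg.PSU n F q)) γ = Nat.gcd n (q + 1) / 2) ∧ (¬ (Even n ∧ Odd q) → Cfsg.splitClassCount (Cfsg.inndiagPSU n F q) (Cfsg.Inn (Cfsg.PSU n F q)) γ = Nat.gcd n (q + 1)) := by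
  haveI : NeZero n := ⟨by omega⟩
  obtain ⟨σ, e, hx⟩ := CfsgLib.AutPSU.exists_qext (F₀ := F₀) hF hF₀
  obtain ⟨g, M, rfl, d, hM⟩ := CfsgLib.AutPSU.exists_desc hF hn hx hγ hγ2
  have hn2 : 2 ≤ n := by omega
  have h2 : Odd q → (2 : F₀) ≠ 0 := fun ho =>
    CfsgLib.AutPSL.two_ne_zero_of_odd (by rw [hF₀]; exact ho)
  refine ⟨?_, ?_, ?_⟩
  · rintro ⟨⟨m, hm⟩, hp, hiso⟩
    have hnm : n = 2 * m := by omega
    have hm2 : n / 2 = m := by omega
    rw [hm2] at hiso ⊢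
    rcases hM with hM | hM
    · obtain ⟨f1⟩ := CfsgLib.AutPSU.ugamma_centralizer hF hn hx d
      obtain ⟨i⟩ := hiso
      exact absurd ⟨f1.symm.trans i⟩ (CfsgLib.AutPSL.not_iso_PGSp hn2 hnm (h2 hp) M hM)
    · exact CfsgLib.AutPSU.splitCount_skew hF hn hx hnm (h2 hp) d hM
  · rintro ⟨⟨m, hm⟩, hp, hiso⟩
    have hnm : n = 2 * m := by omega
    have hm2 : n / 2 = m := by omega
    rw [hm2] at hiso
    rcases hM with hM | hM
    · exact CfsgLib.AutPSU.splitCount_sym hF hn hx hnm (h2 hp) d hM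
    · refine absurd ?_ hiso
      obtain ⟨f0⟩ := CfsgLib.AutPSU.ugamma_centralizer hF hn hx d
      let ee : Fin m ⊕ Fin m ≃ Fin n := Fintype.equivFinOfCardEq (by simp; omega)
      obtain ⟨f1⟩ := CfsgLib.AutPSL.gamma_centralizer_congr hn2 M
        (CfsgLib.AutPSL.reindexGL ee (CfsgLib.AutPSL.unitJ m)) 1 (by
          rw [Units.val_one, one_smul]
          exact (CfsgLib.AutPSL.skew_type hn2 ee M hM (CfsgLib.AutPSL.skew_diag_zero (h2 hp) hM)).1)
      obtain ⟨f2⟩ := CfsgLib.AutPSL.gamma_centralizer_subgroup hn2 (CfsgLib.AutPSL.unitJ (F := F₀) m).1 ee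
        (CfsgLib.AutPSL.reindexGL ee (CfsgLib.AutPSL.unitJ m)) rfl
        (CfsgLib.AutPSL.symp_similarity_eq_sim (F := F₀) m)
      exact ⟨f0.trans (f1.trans f2)⟩
  · intro hne
    refine CfsgLib.AutPSU.splitCount_easy hF hn hx d ?_
    rcases Nat.even_or_odd n with hev | hodd
    · refine Or.inr ?_
      have hqe : Even q := Nat.not_odd_iff_even.1 fun ho => hne ⟨hev, ho⟩
      obtain rfl : p = 2 := by
        rw [hq, Nat.even_pow] at hqe
        exact ((Fact.out : p.Prime).even_iff).1 hqe.1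
      exact charP_of_card_eq_prime_pow (f := f) (Fintype.card_eq_nat_card ▸ (hF₀.trans hq))
    · exact Or.inl hodd

end Cfsg.Agent.S2709
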