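import Cfsg.Statements.S2710
import Cfsg.Agent.AutPSU.Graph
import Cfsg.Agent.S2703

set_option autoImplicit false
open Cfsg

namespace Cfsg.Agent.S2710

/-- Let T = PSU_n(q) with n ≥ 4 divisible by 4 (n = 2m) and q odd, realised over the field F with q² elements, G = Inndiag(T) the image of PGU_n(q), and φ the standard field automorphism of T attached to the q-th power map of F (it induces inverse-transpose on the unitary matrices and is a graph automorphism). Its centralizer in G is isomorphic to the projective conformal orthogonal group of the plus-type form Σ xᵢ yᵢ in dimension n over a field F₀ with q elements. (Dimensions n ≡ 2 (mod 4) are not covered.) -/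
theorem result {F : Type*} [Field F] [Fintype F] {q : ℕ} (hodd : Odd q) (hF : Fintype.card F = q ^ 2) {n m : ℕ} (hm : 2 ≤ m) (hnm : n = 2 * m) (h4 : 4 ∣ n) (F₀ : Type*) [Field F₀] [Fintype F₀] (hF₀ : Fintype.card F₀ = q) (σ : F ≃+* F) (hσ : ∀ a : F, σ a = a ^ q) (φ : MulAut (Cfsg.PSU n F q)) (hφ : Cfsg.IsFieldAutPSUOf σ φ) :
    Nonempty (↥(Cfsg.inndiagPSU n F q ⊓ Subgroup.centralizer {φ}) ≃* Cfsg.PGO F₀ (Cfsg.quadFormPlus m F₀)) := by
  haveI : NeZero n := ⟨by omega⟩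
  have hn : 3 ≤ n := by omega
  obtain ⟨τ, e, hx⟩ := CfsgLib.AutPSU.exists_qext (F₀ := F₀) hF hF₀
  have hστ : σ = τ := RingEquiv.ext fun a => (hσ a).trans (hx.frob a).symm
  rw [CfsgLib.AutPSU.isFieldAutOf_iff] at hφ
  subst hφ hστ
  have hd : CfsgLib.AutPSU.Desc σ e (1 : ↥(Cfsg.GU n F q)) (1 : GL (Fin n) F₀) :=
    ⟨1, 1, 1, by simp [CfsgLib.AutPSU.gmat], by simp⟩
  obtain ⟨f0⟩ := CfsgLib.AutPSU.ugamma_centralizer hF hn hx hd
  have e1 : CfsgLib.AutPSU.ugamma σ (1 : ↥(Cfsg.GU n F q)) = CfsgLib.AutPSU.mapPSU σ := by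
    rw [CfsgLib.AutPSU.ugamma, CfsgLib.AutPSU.conjPSU, map_one, one_mul]
  rw [e1] at f0
  have hι : Cfsg.IsInverseTransposeAutPSL
      (CfsgLib.AutPSL.gamma (1 : GL (Fin n) F₀)) := by
    rw [CfsgLib.AutPSL.isInverseTranspose_iff, CfsgLib.AutPSL.gamma, CfsgLib.AutPSL.conjPSL_one, one_mul]
  have hev : Even (n * (Fintype.card F₀ - 1) / 4) := by
    obtain ⟨k, rfl⟩ := h4
    rw [mul_assoc, Nat.mul_div_cancel_left _ (by norm_num : 0 < 4), hF₀]
    obtain ⟨t, rfl⟩ := hodd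
    rw [Nat.add_sub_cancel]
    exact ((even_two_mul t).mul_left k)
  obtain ⟨f1⟩ := (Cfsg.Agent.S2703.result (F := F₀) (by rw [hF₀]; exact hodd) hm hnm _ hι).1 hev
  exact ⟨f0.trans f1⟩

end Cfsg.Agent.S2710
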