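import Cfsg.Statements.S2711
import Cfsg.Agent.AutPSUField.Basic

set_option autoImplicit false
open Cfsg

namespace Cfsg.Agent.S2711

/-- Let T = PSU_n(q) be simple (n ≥ 3, (n,q) ≠ (3,2)), realised over the field F with q² elements, and let x be a field automorphism of T (conjugate to a standard field automorphism of odd order) of prime order r. Then an element y of the coset Inndiag(T)·x (y = δ x with δ in the image of PGU_n(q)) has order r if and only if y is conjugate to x by an element of Inndiag(T). (T has no graph-field automorphisms.) -/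
theorem result {F : Type*} [Field F] [Fintype F] {p f q : ℕ} [Fact p.Prime] (hq : q = p ^ f) (hf : 1 ≤ f) (hF : Fintype.card F = q ^ 2) {n : ℕ} (hn : 3 ≤ n) (hs : ¬ (n = 3 ∧ q = 2)) (x δ : MulAut (Cfsg.PSU n F q)) (hx : Cfsg.IsFieldAutClassPSU x) {r : ℕ} (hr : r.Prime) (hxr : orderOf x = r) (hδ : δ ∈ Cfsg.inndiagPSU n F q) :
    orderOf (δ * x) = r ↔ Cfsg.IsConjUnder (Cfsg.inndiagPSU n F q) x (δ * x) := by
  constructor
  swap
  · rintro ⟨h, -, e⟩
    rw [e, CfsgLib.AutPSp.orderOf_conj, hxr]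
  intro hy
  have hN := CfsgLib.AutPSUField.inndiag_normal hF hn hs
  obtain ⟨α, φ, σ, -, hodd, hφ, hα⟩ := hx
  rw [CfsgLib.AutPSU.isFieldAutOf_iff] at hφ
  subst hφ
  have hσ : orderOf σ = r := by
    rw [← CfsgLib.AutPSUField.orderOf_mapPSU hF hn σ, ← hα, CfsgLib.AutPSp.orderOf_conj, hxr]
  rw [hσ] at hodd
  have hrf0 : 2 * (f / r) ≠ 0 := by
    have h2 : r ∣ 2 * f := CfsgLib.AutPSL.even_of_involution (F := F) (p := p) (f := 2 * f)
      (by rw [hF, hq, ← pow_mul, mul_comm]) (by omega) hσ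
    have hrf : r ∣ f := (hr.dvd_mul.1 h2).resolve_left fun h => by
      obtain rfl := (Nat.prime_dvd_prime_iff_eq hr Nat.prime_two).1 h
      exact absurd hodd (by decide)
    have := Nat.div_pos (Nat.le_of_dvd hf hrf) hr.pos
    omega
  haveI : Fintype (GaloisField p (2 * (f / r))) := Fintype.ofFinite _
  obtain ⟨-, hK, e, hS⟩ := CfsgLib.AutPSUField.exists_sub hq hf hF hr hσ hodd (GaloisField p (2 * (f / r)))
    (by rw [← Nat.card_eq_fintype_card, GaloisField.card p _ hrf0])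
  have hδ' := hN.conj_mem δ hδ α
  rw [CfsgLib.AutPSU.inndiag_eq_range] at hδ'
  obtain ⟨h, hh⟩ := hδ'
  have e0 : CfsgLib.AutPSU.conjPSU h * CfsgLib.AutPSU.mapPSU σ = α * (δ * x) * α⁻¹ := by
    rw [← hα, CfsgLib.AutPSU.conjPSU, hh]
    group
  obtain ⟨g, hg⟩ := CfsgLib.AutPSUField.exists_twist_conj hS hF hK hn h (by
    rw [e0, ← hy, ← CfsgLib.AutPSp.orderOf_conj α (δ * x)]
    exact pow_orderOf_eq_one _)
  refine ⟨α⁻¹ * CfsgLib.AutPSU.conjPSU g * α⁻¹⁻¹, hN.conj_mem _ ?_ _, ?_⟩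
  · rw [CfsgLib.AutPSU.inndiag_eq_range]
    exact ⟨g, rfl⟩
  · rw [e0, ← hα] at hg
    calc δ * x = α⁻¹ * (α * (δ * x) * α⁻¹) * α := by group
      _ = α⁻¹ * (CfsgLib.AutPSU.conjPSU g * (α * x * α⁻¹) * (CfsgLib.AutPSU.conjPSU g)⁻¹) * α := by
        rw [hg]
      _ = _ := by group

end Cfsg.Agent.S2711
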