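import Cfsg.Statements.S2712
import Cfsg.Agent.AutPSp.FieldClasses

set_option autoImplicit false
open Cfsg

namespace Cfsg.Agent.S2712

/-- Let T = PSp_{2m}(F) be simple over the field F with p^f elements (m ≥ 2, (2m, |F|) ≠ (4, 2)), G = Inndiag(T) the image of the projective conformal symplectic group PGSp_{2m}(F), and x a field automorphism of T of prime order r. Then r divides f; C_G(x) is isomorphic to PGSp_{2m}(F₀) for a field F₀ with p^(f/r) elements; and the G-class of x is the union of exactly gcd(gcd(2, p^f − 1), r) T-classes. -/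
theorem result {F : Type*} [Field F] [Fintype F] {p f : ℕ} [Fact p.Prime] (hF : Fintype.card F = p ^ f) (hf : 1 ≤ f) {m : ℕ} (hm : 2 ≤ m) (hs : m = 2 → 3 ≤ Fintype.card F) (x : MulAut (Cfsg.PSp m F)) (hx : Cfsg.IsFieldAutClassPSp x) {r : ℕ} (hr : r.Prime) (hxr : orderOf x = r) (F₀ : Type*) [Field F₀] [Fintype F₀] (hF₀ : Fintype.card F₀ = p ^ (f / r)) :
    r ∣ f ∧ Nonempty (↥(Cfsg.inndiagPSp m F ⊓ Subgroup.centralizer {x}) ≃* Cfsg.PGSp m F₀) ∧ Cfsg.splitClassCount (Cfsg.inndiagPSp m F) (Cfsg.Inn (Cfsg.PSp m F)) x = Nat.gcd (Nat.gcd 2 (p ^ f - 1)) r := by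
  haveI : NeZero m := ⟨by omega⟩
  obtain ⟨α, σ, -, hα⟩ := hx
  have hxeq : x = α⁻¹ * CfsgLib.AutPSp.mapPSp σ * α⁻¹⁻¹ := by
    rw [← CfsgLib.AutPSp.isStdFieldAut_iff.mp hα]; group
  subst hxeq
  rw [CfsgLib.AutPSp.orderOf_conj, CfsgLib.AutPSp.orderOf_mapPSp] at hxr
  have hrf : r ∣ f := CfsgLib.AutPSL.even_of_involution hF hf hxr
  obtain ⟨e, he⟩ := CfsgLib.AutPSL.exists_fixed_embedding hF hxr hr.pos hrf F₀ hF₀
  haveI := CfsgLib.AutPSp.inndiag_normal (F := F) hm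
  haveI : (Cfsg.Inn (Cfsg.PSp m F)).Normal := CfsgLib.AutPSp.inn_normal
  obtain ⟨e1⟩ := CfsgLib.AutPSp.inf_centralizer_aut (Cfsg.inndiagPSp m F)
    (CfsgLib.AutPSp.mapPSp σ) α⁻¹
  obtain ⟨e2⟩ := CfsgLib.AutPSp.field_centralizer (m := m) hxr hr.pos e he
  refine ⟨hrf, ⟨e1.trans e2⟩, ?_⟩
  rw [CfsgLib.AutPSp.splitClassCount_aut, CfsgLib.AutPSp.field_splitCount hxr hr.pos e he,
    hF, Nat.card_eq_fintype_card, hF₀]
  have hQ : 2 ≤ p ^ (f / r) := by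
    rw [← hF₀]
    exact Fintype.one_lt_card
  have hpow : (p ^ (f / r)) ^ r = p ^ f := by rw [← pow_mul, Nat.div_mul_cancel hrf]
  rw [← hpow]
  exact CfsgLib.AutPSp.gcd_two_index _ r hQ hr.pos

end Cfsg.Agent.S2712
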