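import Cfsg.Statements.S2713
import Cfsg.Agent.AutPSp.FieldClasses

set_option autoImplicit false
open Cfsg

namespace Cfsg.Agent.S2713

/-- Let T = PSp_{2m}(F) be simple over a finite field (m ≥ 2, (2m, |F|) ≠ (4, 2)) and let x be a field automorphism of T of prime order r. Then an element y of the coset Inndiag(T)·x (y = δ x with δ in the image of the projective conformal symplectic group) has order r if and only if y is conjugate to x by an element of Inndiag(T). -/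
theorem result {F : Type*} [Field F] [Fintype F] {m : ℕ} (hm : 2 ≤ m) (hs : m = 2 → 3 ≤ Fintype.card F) (x δ : MulAut (Cfsg.PSp m F)) (hx : Cfsg.IsFieldAutClassPSp x) {r : ℕ} (hr : r.Prime) (hxr : orderOf x = r) (hδ : δ ∈ Cfsg.inndiagPSp m F) :
    orderOf (δ * x) = r ↔ Cfsg.IsConjUnder (Cfsg.inndiagPSp m F) x (δ * x) := by
  haveI : NeZero m := ⟨by omega⟩
  have hN := CfsgLib.AutPSp.inndiag_normal (F := F) hm
  constructor
  · intro hy
    obtain ⟨α, σ, -, hα⟩ := hx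
    have hφ := CfsgLib.AutPSp.isStdFieldAut_iff.mp hα
    have hδ' := hN.conj_mem δ hδ α
    rw [CfsgLib.AutPSp.inndiag_eq_range] at hδ'
    obtain ⟨h, hh⟩ := hδ'
    have e : CfsgLib.AutPSp.conjPSp h * CfsgLib.AutPSp.mapPSp σ = α * (δ * x) * α⁻¹ := by
      rw [← hφ]
      change CfsgLib.AutPSp.conjPSpHom h * _ = _
      rw [hh]
      group
    have hσ : orderOf σ = r := by
      rw [← CfsgLib.AutPSp.orderOf_mapPSp (m := m) σ, ← hφ, CfsgLib.AutPSp.orderOf_conj, hxr]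
    obtain ⟨g, hg⟩ := CfsgLib.AutPSp.field_twist_conj hσ hr.pos h (by
      rw [e, ← hy, ← CfsgLib.AutPSp.orderOf_conj α (δ * x)]
      exact pow_orderOf_eq_one _)
    refine ⟨α⁻¹ * CfsgLib.AutPSp.conjPSp g * α⁻¹⁻¹, hN.conj_mem _ ?_ _, ?_⟩
    · rw [CfsgLib.AutPSp.inndiag_eq_range]
      exact ⟨g, rfl⟩
    · rw [e, ← hφ] at hg
      calc δ * x = α⁻¹ * (α * (δ * x) * α⁻¹) * α := by group
        _ = α⁻¹ * (CfsgLib.AutPSp.conjPSp g * (α * x * α⁻¹) * (CfsgLib.AutPSp.conjPSp g)⁻¹) * α := by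
          rw [hg]
        _ = _ := by group
  · rintro ⟨h, -, e⟩
    rw [e, CfsgLib.AutPSp.orderOf_conj, hxr]

end Cfsg.Agent.S2713
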