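import Cfsg.Statements.S2720
import Cfsg.Agent.AutOrthFusion.Fusion
import Cfsg.Agent.AutOrthGraph.Plus

set_option autoImplicit false
open Cfsg

namespace Cfsg.Agent.S2720

/-- Let T = PΩ⁺_{2m}(F) (m ≥ 4, F finite of odd characteristic p), G = Inndiag(T), and let x be an automorphism of T induced by a similarity of the form (an element of the image G̃ of the conformal orthogonal group) of odd prime order r ≠ p. Then the T-class, the PSO-class and the G-class of x coincide (conjugacy under inner automorphisms, under the image of the special orthogonal group, and under G), and the PO-class of x coincides with its G̃-class. (In characteristic 2 the first equality fails: there the special orthogonal group is the full orthogonal group and some such classes split.) -/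
theorem result {F : Type*} [Field F] [Fintype F] {p : ℕ} [Fact p.Prime] [CharP F p] (hp : p ≠ 2) {m : ℕ} (hm : 4 ≤ m) (x : MulAut (Cfsg.POmega F (Cfsg.quadFormPlus m F))) (hx : x ∈ Cfsg.pgoAut F (Cfsg.quadFormPlus m F)) {r : ℕ} (hr : r.Prime) (hro : Odd r) (hrp : r ≠ p) (hxr : orderOf x = r) :
    (∀ y : MulAut (Cfsg.POmega F (Cfsg.quadFormPlus m F)), (Cfsg.IsConjUnder (Cfsg.Inn (Cfsg.POmega F (Cfsg.quadFormPlus m F))) x y ↔ Cfsg.IsConjUnder (Cfsg.inndiagPOmegaPlus m F) x y) ∧ (Cfsg.IsConjUnder (Cfsg.psoAut F (Cfsg.quadFormPlus m F)) x y ↔ Cfsg.IsConjUnder (Cfsg.inndiagPOmegaPlus m F) x y)) ∧ (∀ y : MulAut (Cfsg.POmega F (Cfsg.quadFormPlus m F)), Cfsg.IsConjUnder (Cfsg.poAut F (Cfsg.quadFormPlus m F)) x y ↔ Cfsg.IsConjUnder (Cfsg.pgoAut F (Cfsg.quadFormPlus m F)) x y) := by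
  have h2 : (2 : F) ≠ 0 := fun h => hp ((Nat.prime_dvd_prime_iff_eq Fact.out Nat.prime_two).1
    ((CharP.cast_eq_zero_iff F p 2).1 (by exact_mod_cast h)))
  have hrF : (r : F) ≠ 0 := fun h => hrp
    ((Nat.prime_dvd_prime_iff_eq Fact.out hr).1 ((CharP.cast_eq_zero_iff F p r).1 h)).symm
  have hxr' : x ^ r = 1 := hxr ▸ pow_orderOf_eq_one x
  haveI := Fact.mk hm
  haveI : Nonempty (Fin m ⊕ Fin m) := ⟨.inl ⟨0, by omega⟩⟩
  obtain ⟨ε, hε⟩ := CfsgLib.Classical.Orth.exists_not_isSquare (F := F) h2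
  have hε0 : ε ≠ 0 := by rintro rfl; exact hε IsSquare.zero
  refine CfsgLib.AutOrthFusion.fusion (hne := CfsgLib.AutOrthGraph.Plus.exists_value (m := m))
    CfsgLib.AutOrth.Plus.hQ h2 CfsgLib.AutOrthGraph.Plus.card_ii CfsgLib.AutOrth.Plus.five_le (fun β => ?_)
    (CfsgLib.AutOrthGraph.Plus.proper_dS h2 (Units.mk0 ε hε0)) ?_ hx hro hrF hxr'
  · rw [CfsgLib.AutOrth.Plus.inndiag_eq, Subgroup.mem_map]
    exact exists_congr fun z => and_congr_left fun _ =>
      MonoidHom.mem_ker.trans (CfsgLib.AutOrthGraph.Plus.proper_iff_par h2 z).symm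
  · rw [CfsgLib.AutOrthGraph.Plus.mult_eq_mult, CfsgLib.AutOrth.Plus.mult_dS]
    exact hε

end Cfsg.Agent.S2720
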