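import Cfsg.Statements.S2738

set_option autoImplicit false
set_option linter.unusedSimpArgs false
set_option linter.unusedTactic false
set_option linter.unreachableTactic false
open Cfsg

namespace Cfsg.Agent.S2738

open Matrix

theorem exists_omega {F : Type*} [Field F] [Fintype F] (hF : Fintype.card F = 4) :
    ∃ w : F, w ≠ 1 ∧ w ^ 3 = 1 := by
  classical
  obtain ⟨w, hw⟩ : ∃ w : F, w ∉ ({0, 1} : Finset F) := by
    by_contra h
    push Not at h
    have := Finset.card_le_card (fun x (_ : x ∈ Finset.univ) => h x)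
    rw [Finset.card_univ, hF] at this
    exact absurd (this.trans Finset.card_le_two) (by omega)
  simp at hw
  refine ⟨w, hw.2, ?_⟩
  simpa [hF] using FiniteField.pow_card_sub_one_eq_one w hw.1

/-- The special linear group SL(3, 4) has centre of order 3 and does not split over it: no subgroup is a complement to the centre (so SL(3, 4) is a non-split central extension of PSL(3, 4) by a group of order 3). -/
theorem result (F : Type*) [Field F] [Fintype F] (hF : Fintype.card F = 4) : Nat.card ↥(Subgroup.center (Matrix.SpecialLinearGroup (Fin 3) F)) = 3 ∧ ¬ ∃ K : Subgroup (Matrix.SpecialLinearGroup (Fin 3) F), Subgroup.IsComplement' (Subgroup.center (Matrix.SpecialLinearGroup (Fin 3) F)) K := by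
  classical
  obtain ⟨w, hw1, hw3⟩ := exists_omega hF
  refine ⟨?_, ?_⟩
  · rw [Nat.card_congr (Matrix.SpecialLinearGroup.center_equiv_rootsOfUnity (n := Fin 3) (R := F)).toEquiv]
    have hp : IsPrimitiveRoot w 3 := orderOf_eq_prime (p := 3) hw3 hw1 ▸ IsPrimitiveRoot.orderOf w
    rw [Nat.card_eq_fintype_card]
    simpa using hp.card_rootsOfUnity
  · rintro ⟨K, hK⟩
    let D : SpecialLinearGroup (Fin 3) F := ⟨!![w, 0, 0; 0, w ^ 2, 0; 0, 0, 1], by
      simp [det_fin_three]; linear_combination hw3⟩
    let P : SpecialLinearGroup (Fin 3) F := ⟨!![0, 0, 1; 1, 0, 0; 0, 1, 0], by simp [det_fin_three]⟩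
    let C : SpecialLinearGroup (Fin 3) F := ⟨!![w, 0, 0; 0, w, 0; 0, 0, w], by
      simp [det_fin_three]; linear_combination hw3⟩
    have hCc : C ∈ Subgroup.center (SpecialLinearGroup (Fin 3) F) := by
      rw [Subgroup.mem_center_iff]
      intro g
      apply Subtype.ext
      rw [Matrix.SpecialLinearGroup.coe_mul, Matrix.SpecialLinearGroup.coe_mul]
      ext i j
      fin_cases i <;> fin_cases j <;> simp [C, Matrix.mul_apply, Fin.sum_univ_three, mul_comm]
    have hDP : D * P = C * (P * D) := by
      apply Subtype.ext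
      rw [Matrix.SpecialLinearGroup.coe_mul, Matrix.SpecialLinearGroup.coe_mul,
        Matrix.SpecialLinearGroup.coe_mul]
      ext i j
      fin_cases i <;> fin_cases j <;>
        simp [D, P, C, Matrix.mul_apply, Fin.sum_univ_three] <;>
        first | ring_nf; done | linear_combination (-hw3) | linear_combination hw3
    obtain ⟨⟨⟨z, hz⟩, ⟨a, ha⟩⟩, hza⟩ := hK.2 D
    obtain ⟨⟨⟨z', hz'⟩, ⟨b, hb⟩⟩, hzb⟩ := hK.2 P
    change z * a = D at hza
    change z' * b = P at hzb
    rw [← hza, ← hzb] at hDP
    have e1 : ∀ g, z * g = g * z := fun g => (Subgroup.mem_center_iff.1 hz g).symm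
    have e2 : ∀ g, z' * g = g * z' := fun g => (Subgroup.mem_center_iff.1 hz' g).symm
    have hab : a * b = C * (b * a) := by
      have h1 : z * a * (z' * b) = z * z' * (a * b) := by
        rw [mul_assoc, ← mul_assoc a, ← e2 a]; simp [mul_assoc]
      have h2 : C * (z' * b * (z * a)) = z * z' * (C * (b * a)) := by
        have hzz : z' * b * (z * a) = z * z' * (b * a) := by
          rw [mul_assoc, ← mul_assoc b, ← e1 b, e1 z']
          simp [mul_assoc]
        rw [hzz, ← mul_assoc C, (Subgroup.mem_center_iff.1 hCc (z * z')).symm, mul_assoc]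
      rw [h1, h2] at hDP
      exact mul_left_cancel hDP
    have hCK : C ∈ K := by
      have : C = a * b * (b * a)⁻¹ := by rw [hab, mul_inv_cancel_right]
      rw [this]
      exact mul_mem (mul_mem ha hb) (inv_mem (mul_mem hb ha))
    have hC1 : C = 1 := Subgroup.disjoint_def.1 hK.disjoint hCc hCK
    have := congrArg (fun g : SpecialLinearGroup (Fin 3) F => (g : Matrix (Fin 3) (Fin 3) F) 0 0) hC1
    simp [C] at this
    exact hw1 this

end Cfsg.Agent.S2738
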