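import Cfsg.Statements.S2739

set_option autoImplicit false
open Cfsg

namespace Cfsg.Agent.S2739

open Matrix Polynomial
open scoped Pointwise

variable {F : Type*} [Field F] [Fintype F]

theorem exists_omega (hF : Fintype.card F = 4) : ∃ w : F, w ≠ 1 ∧ w ^ 3 = 1 := by
  classical
  obtain ⟨w, hw⟩ : ∃ w : F, w ∉ ({0, 1} : Finset F) := by
    by_contra h
    push Not at h
    have := Finset.card_le_card (fun x (_ : x ∈ Finset.univ) => h x)
    rw [Finset.card_univ, hF] at this
    exact absurd (this.trans Finset.card_le_two) (by omega)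
  simp at hw
  exact ⟨w, hw.2, by simpa [hF] using FiniteField.pow_card_sub_one_eq_one w hw.1⟩

theorem cube_eq_one (hF : Fintype.card F = 4) {a : F} (ha : a ≠ 0) : a ^ 3 = 1 := by
  simpa [hF] using FiniteField.pow_card_sub_one_eq_one a ha

theorem cube_of_central (hF : Fintype.card F = 4) (x : SpecialLinearGroup (Fin 3) F)
    (hx : x ^ 3 ∈ Subgroup.center (SpecialLinearGroup (Fin 3) F)) : x ^ 3 = 1 := by
  obtain ⟨c, hc, hcx⟩ := Matrix.SpecialLinearGroup.mem_center_iff.1 hx
  rw [Fintype.card_fin] at hc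
  have hM : (x : Matrix (Fin 3) (Fin 3) F) ^ 3 = Matrix.scalar (Fin 3) c :=
    (Matrix.SpecialLinearGroup.coe_pow x 3).symm.trans hcx.symm
  by_cases hc1 : c = 1
  · apply Subtype.ext
    exact (Matrix.SpecialLinearGroup.coe_pow x 3).trans (hM.trans (by rw [hc1, map_one]; all_goals rfl))
  exfalso
  have hirr : Irreducible ((X : F[X]) ^ 3 - C c) := by
    apply Polynomial.irreducible_of_degree_le_three_of_not_isRoot
    · simp
    · intro r hr
      simp [sub_eq_zero] at hr
      by_cases h0 : r = 0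
      · subst h0
        simp at hr
        rw [← hr] at hc
        simp at hc
      · exact hc1 (by rw [← hr, cube_eq_one hF h0])
  have haev : aeval (x : Matrix (Fin 3) (Fin 3) F) ((X : F[X]) ^ 3 - C c) = 0 := by
    simp [hM, Matrix.algebraMap_eq_diagonal, Pi.algebraMap_def]
  have hmon : ((X : F[X]) ^ 3 - C c).Monic := monic_X_pow_sub_C c (by omega)
  have hmin : (X : F[X]) ^ 3 - C c = minpoly F (x : Matrix (Fin 3) (Fin 3) F) :=
    minpoly.eq_of_irreducible_of_monic hirr haev hmon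
  have hdvd := Matrix.minpoly_dvd_charpoly (x : Matrix (Fin 3) (Fin 3) F)
  rw [← hmin] at hdvd
  have hch : (x : Matrix (Fin 3) (Fin 3) F).charpoly = (X : F[X]) ^ 3 - C c := by
    refine (Polynomial.eq_of_monic_of_dvd_of_natDegree_le hmon (Matrix.charpoly_monic _) hdvd ?_)
    rw [Matrix.charpoly_natDegree_eq_dim, Fintype.card_fin, natDegree_X_pow_sub_C]
  have hdet := Matrix.det_eq_sign_charpoly_coeff (x : Matrix (Fin 3) (Fin 3) F)
  rw [hch, x.2] at hdet
  simp at hdet
  exact hc1 (by linear_combination -hdet)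

omit [Fintype F] in
theorem mulVec_proj {w : F} (hw3 : w ^ 3 = 1) {A : Matrix (Fin 3) (Fin 3) F} (hA : A ^ 3 = 1)
    (v : Fin 3 → F) (i : ℕ) :
    A *ᵥ (v + (w ^ i) ^ 2 • (A *ᵥ v) + w ^ i • (A *ᵥ (A *ᵥ v))) =
      w ^ i • (v + (w ^ i) ^ 2 • (A *ᵥ v) + w ^ i • (A *ᵥ (A *ᵥ v))) := by
  have h3 : (w ^ i) ^ 3 = 1 := by rw [← pow_mul, mul_comm, pow_mul, hw3, one_pow]
  have hA' : A *ᵥ (A *ᵥ (A *ᵥ v)) = v := by
    rw [Matrix.mulVec_mulVec, Matrix.mulVec_mulVec, ← pow_three', hA, Matrix.one_mulVec]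
  simp only [Matrix.mulVec_add, Matrix.mulVec_smul, hA', smul_add, smul_smul]
  rw [show w ^ i * (w ^ i) ^ 2 = 1 by linear_combination h3,
    show w ^ i * w ^ i = (w ^ i) ^ 2 by ring, one_smul]
  abel

theorem exists_diag (hF : Fintype.card F = 4) {w : F} (hw1 : w ≠ 1) (hw3 : w ^ 3 = 1)
    (x : SpecialLinearGroup (Fin 3) F) (hx : x ^ 3 = 1)
    (hnc : x ∉ Subgroup.center (SpecialLinearGroup (Fin 3) F)) :
    ∃ P : SpecialLinearGroup (Fin 3) F,
      (x : Matrix (Fin 3) (Fin 3) F) * P = (P : Matrix (Fin 3) (Fin 3) F) * diagonal (fun i : Fin 3 => w ^ (i : ℕ)) := by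
  classical
  set A : Matrix (Fin 3) (Fin 3) F := (x : Matrix (Fin 3) (Fin 3) F) with hAdef
  have hA : A ^ 3 = 1 := (Matrix.SpecialLinearGroup.coe_pow x 3).symm.trans (congrArg Subtype.val hx)
  have hw0 : w ≠ 0 := by rintro rfl; simp at hw3
  have hsum : 1 + w + w ^ 2 = 0 := by
    have : (w - 1) * (1 + w + w ^ 2) = 0 := by linear_combination hw3
    exact (mul_eq_zero.1 this).resolve_left (sub_ne_zero.2 hw1)
  have hinj : ∀ i j : ℕ, i < 3 → j < 3 → w ^ i = w ^ j → i = j := by
    have ho : orderOf w = 3 := orderOf_eq_prime hw3 hw1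
    intro i j hi hj h
    exact pow_injOn_Iio_orderOf (by simpa [ho]) (by simpa [ho]) h
  have hthree : (3 : F) ≠ 0 := by
    intro h
    have h4 : ((4 : ℕ) : F) = 0 := hF ▸ Nat.cast_card_eq_zero F
    exact one_ne_zero (α := F) (by push_cast at h4; linear_combination h4 - h)
  let S : Set (Fin 3 → F) := {v | ∃ a : F, a ^ 3 = 1 ∧ A *ᵥ v = a • v}
  have hspan : Submodule.span F S = ⊤ := by
    rw [eq_top_iff]
    intro v _
    have key : ∀ i : ℕ, v + (w ^ i) ^ 2 • (A *ᵥ v) + w ^ i • (A *ᵥ (A *ᵥ v)) ∈ Submodule.span F S :=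
      fun i => Submodule.subset_span ⟨w ^ i, by rw [← pow_mul, mul_comm, pow_mul, hw3, one_pow],
        mulVec_proj hw3 hA v i⟩
    have e : (3 : F) • v = (v + (w ^ 0) ^ 2 • (A *ᵥ v) + w ^ 0 • (A *ᵥ (A *ᵥ v))) +
        (v + (w ^ 1) ^ 2 • (A *ᵥ v) + w ^ 1 • (A *ᵥ (A *ᵥ v))) +
        (v + (w ^ 2) ^ 2 • (A *ᵥ v) + w ^ 2 • (A *ᵥ (A *ᵥ v))) := by
      funext k
      simp only [Pi.add_apply, Pi.smul_apply, smul_eq_mul]
      linear_combination -(((A *ᵥ v) k) + (A *ᵥ (A *ᵥ v)) k) * hsum - (A *ᵥ v) k * w * hw3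
    have := Submodule.smul_mem _ (3 : F)⁻¹ (e ▸ add_mem (add_mem (key 0) (key 1)) (key 2))
    rwa [smul_smul, inv_mul_cancel₀ hthree, one_smul] at this
  obtain ⟨f, hf, hli⟩ : ∃ f : Fin 3 → (Fin 3 → F), (∀ j, f j ∈ S) ∧ LinearIndependent F f := by
    obtain ⟨b, hbS, hbspan, hbli⟩ := exists_linearIndependent F S
    rw [hspan] at hbspan
    let bas : Module.Basis b F (Fin 3 → F) := Module.Basis.mk hbli (by rw [Subtype.range_coe, hbspan])
    have : Finite b := bas.linearIndependent.finite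
    have hcard : Nat.card b = 3 := by
      rw [← Module.finrank_eq_nat_card_basis bas]
      simp
    let e : Fin 3 ≃ b := (finCongr hcard.symm).trans (Finite.equivFin b).symm
    exact ⟨fun j => (e j : Fin 3 → F), fun j => hbS (e j).2, hbli.comp e e.injective⟩
  choose a ha hfa using hf
  set Q : Matrix (Fin 3) (Fin 3) F := (Matrix.of f)ᵀ with hQ
  have hQu : IsUnit Q := by
    rw [hQ, Matrix.isUnit_transpose]
    exact Matrix.linearIndependent_rows_iff_isUnit.1 hli
  have hAQ : A * Q = Q * diagonal a := by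
    ext i j
    rw [Matrix.mul_diagonal, Matrix.mul_apply]
    have := congrFun (hfa j) i
    simp only [Matrix.mulVec, dotProduct, Pi.smul_apply, smul_eq_mul] at this
    simp only [hQ, Matrix.transpose_apply, Matrix.of_apply]
    rw [this, mul_comm]
  have hprod : a 0 * a 1 * a 2 = 1 := by
    have := congrArg Matrix.det hAQ
    rw [Matrix.det_mul, Matrix.det_mul, Matrix.det_diagonal, hAdef, x.2, one_mul,
      Fin.prod_univ_three] at this
    exact ((mul_eq_left₀ ((Matrix.isUnit_iff_isUnit_det Q).1 hQu).ne_zero).1 this.symm)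
  have hainj : Function.Injective a := by
    intro i j hij
    by_contra hne
    have hall : ∀ k, a k = a i := by
      have h0 : a i ≠ 0 := fun h => by have := ha i; simp [h] at this
      have h2 : ∀ k, k ≠ i → k ≠ j → a k = a i := by
        intro k hki hkj
        have hp : a i * a i * a k = 1 := by
          fin_cases i <;> fin_cases j <;> fin_cases k <;>
            first | exact absurd rfl hne | exact absurd rfl hki | exact absurd rfl hkj | skip
          all_goals simp_all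
          all_goals linear_combination hprod
        have := ha i
        exact mul_left_cancel₀ (mul_ne_zero h0 h0) (by linear_combination hp - this)
      intro k
      by_cases hki : k = i
      · rw [hki]
      by_cases hkj : k = j
      · rw [hkj, hij]
      exact h2 k hki hkj
    refine hnc (Matrix.SpecialLinearGroup.mem_center_iff.2 ⟨a i, ?_, ?_⟩)
    · rw [Fintype.card_fin, ha]
    · have hd : diagonal a = Matrix.scalar (Fin 3) (a i) := by
        rw [Matrix.scalar_apply]; exact congrArg diagonal (funext hall)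
      rw [hd, ← (Matrix.scalar_commute (a i) (fun r => Commute.all _ r) Q).eq] at hAQ
      exact (hQu.mul_left_inj.1 hAQ).symm
  have hsurj : ∀ i : Fin 3, ∃ j, a j = w ^ (i : ℕ) := by
    let φ : Fin 3 → {r : F // r ≠ 0} := fun j => ⟨a j, fun h => by have := ha j; simp [h] at this⟩
    have hb : Function.Bijective φ := by
      refine (Fintype.bijective_iff_injective_and_card φ).2 ⟨fun j k h => hainj (congrArg Subtype.val h), ?_⟩
      rw [Fintype.card_subtype_compl, hF, Fintype.card_fin]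
      simp
    intro i
    obtain ⟨j, hj⟩ := hb.2 ⟨w ^ (i : ℕ), pow_ne_zero _ hw0⟩
    exact ⟨j, congrArg Subtype.val hj⟩
  choose σ hσ using hsurj
  have hσinj : Function.Injective σ := fun i j h =>
    Fin.ext (hinj i j i.2 j.2 (by rw [← hσ i, ← hσ j, h]))
  set R : Matrix (Fin 3) (Fin 3) F := Q.submatrix id σ with hR
  have hRdet : R.det ≠ 0 := by
    rw [hR, show σ = ⇑(Equiv.ofBijective σ hσinj.bijective_of_finite) from rfl, Matrix.det_permute']
    exact mul_ne_zero (by
      rcases Int.units_eq_one_or (Equiv.Perm.sign (Equiv.ofBijective σ hσinj.bijective_of_finite)) with h | h <;>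
        rw [h] <;> simp) ((Matrix.isUnit_iff_isUnit_det Q).1 hQu).ne_zero
  have hAR : A * R = R * diagonal (fun i : Fin 3 => w ^ (i : ℕ)) := by
    ext i j
    have := congrFun (congrFun hAQ i) (σ j)
    rw [Matrix.mul_apply, Matrix.mul_diagonal] at this
    rw [Matrix.mul_diagonal, Matrix.mul_apply]
    simp only [hR, Matrix.submatrix_apply, id]
    rw [this, hσ]
  refine ⟨⟨R * diagonal ![R.det⁻¹, 1, 1], ?_⟩, ?_⟩
  · rw [Matrix.det_mul, Matrix.det_diagonal, Fin.prod_univ_three]
    simp [hRdet]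
  · show A * (R * diagonal ![R.det⁻¹, 1, 1]) = R * diagonal ![R.det⁻¹, 1, 1] * _
    rw [← Matrix.mul_assoc, hAR, Matrix.mul_assoc, Matrix.mul_assoc, Matrix.diagonal_mul_diagonal,
      Matrix.diagonal_mul_diagonal]
    simp only [mul_comm]

theorem standard_conj (hF : Fintype.card F = 4) {x y : SpecialLinearGroup (Fin 3) F}
    (hx : x ^ 3 = 1) (hy : y ^ 3 = 1)
    (hxc : x ∉ Subgroup.center (SpecialLinearGroup (Fin 3) F))
    (hyc : y ∉ Subgroup.center (SpecialLinearGroup (Fin 3) F)) : ∃ g, g * x * g⁻¹ = y := by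
  obtain ⟨w, hw1, hw3⟩ := exists_omega hF
  obtain ⟨P, hP⟩ := exists_diag hF hw1 hw3 x hx hxc
  obtain ⟨Q, hQ⟩ := exists_diag hF hw1 hw3 y hy hyc
  have hd : Matrix.det (diagonal (fun i : Fin 3 => w ^ (i : ℕ))) = 1 := by
    have := congrArg Matrix.det hP
    rw [Matrix.det_mul, Matrix.det_mul, x.2, P.2] at this
    simpa using this.symm
  let D : SpecialLinearGroup (Fin 3) F := ⟨_, hd⟩
  have e1 : x * P = P * D := Subtype.ext hP
  have e2 : y * Q = Q * D := Subtype.ext hQ
  refine ⟨Q * P⁻¹, ?_⟩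
  have : P⁻¹ * x = D * P⁻¹ := by rw [eq_mul_inv_iff_mul_eq, mul_assoc, e1, inv_mul_cancel_left]
  rw [mul_assoc Q, this, _root_.mul_inv_rev, inv_inv, mul_assoc, mul_assoc, inv_mul_cancel_left,
    ← mul_assoc, ← e2, mul_assoc, mul_inv_cancel, mul_one]

/-- In the projective special linear group PSL(3, 4) all subgroups of order 3 are conjugate. -/
theorem result (F : Type*) [Field F] [Fintype F] (hF : Fintype.card F = 4) (X Y : Subgroup (Matrix.ProjectiveSpecialLinearGroup (Fin 3) F)) (hX : Nat.card ↥X = 3) (hY : Nat.card ↥Y = 3) : ∃ g : Matrix.ProjectiveSpecialLinearGroup (Fin 3) F, MulAut.conj g • X = Y := by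
  have key : ∀ (Z : Subgroup (Matrix.ProjectiveSpecialLinearGroup (Fin 3) F)), Nat.card ↥Z = 3 →
      ∃ x : SpecialLinearGroup (Fin 3) F, x ^ 3 = 1 ∧
        x ∉ Subgroup.center (SpecialLinearGroup (Fin 3) F) ∧
        Z = Subgroup.zpowers (QuotientGroup.mk x) := by
    intro Z hZ
    have : Fact (Nat.Prime 3) := ⟨Nat.prime_three⟩
    have : Finite ↥Z := Nat.finite_of_card_ne_zero (by omega)
    obtain ⟨⟨z, hz⟩, hz1⟩ := (Subgroup.nontrivial_iff_exists_ne_one Z).1
      (Finite.one_lt_card_iff_nontrivial.1 (by omega)) |>.elim (fun z hz => (⟨⟨z, hz.1⟩, hz.2⟩ : ∃ z : Z, (z : _) ≠ (1 : Matrix.ProjectiveSpecialLinearGroup (Fin 3) F)))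
    obtain ⟨x, rfl⟩ := QuotientGroup.mk_surjective z
    have hord : orderOf (QuotientGroup.mk x : Matrix.ProjectiveSpecialLinearGroup (Fin 3) F) = 3 := by
      have h := orderOf_dvd_natCard (⟨_, hz⟩ : Z)
      rw [hZ, Subgroup.orderOf_mk] at h
      rcases (Nat.dvd_prime Nat.prime_three).1 h with h | h
      · exact absurd (orderOf_eq_one_iff.1 h) hz1
      · exact h
    have hxc : x ∉ Subgroup.center (SpecialLinearGroup (Fin 3) F) := fun h =>
      hz1 ((QuotientGroup.eq_one_iff x).2 h)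
    refine ⟨x, cube_of_central hF x ?_, hxc, ?_⟩
    · rw [← QuotientGroup.eq_one_iff, QuotientGroup.mk_pow]
      exact orderOf_dvd_iff_pow_eq_one.1 (dvd_of_eq hord)
    · exact (Subgroup.eq_of_le_of_card_ge (Subgroup.zpowers_le.2 hz)
        (by rw [hZ, Nat.card_zpowers, hord])).symm
  obtain ⟨x, hx3, hxc, rfl⟩ := key X hX
  obtain ⟨y, hy3, hyc, rfl⟩ := key Y hY
  obtain ⟨g, hg⟩ := standard_conj hF hx3 hy3 hxc hyc
  refine ⟨QuotientGroup.mk g, ?_⟩
  refine (MonoidHom.map_zpowers _ (QuotientGroup.mk x)).trans ?_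
  congr 1
  show (QuotientGroup.mk g : Matrix.ProjectiveSpecialLinearGroup (Fin 3) F) * QuotientGroup.mk x *
    (QuotientGroup.mk g)⁻¹ = _
  rw [← hg]
  rfl

end Cfsg.Agent.S2739
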