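import Cfsg.Statements.S2751
import Cfsg.Agent.Amalgam.SThreeBound

set_option autoImplicit false
open Cfsg

namespace Cfsg.Agent.S2751

theorem side {G : Type*} [Group G] (P T : Subgroup G) [Finite ↥P] (hTP : T ≤ P)
    (h₂ : ∃ S : Sylow 2 ↥P, (S : Subgroup ↥P) = T.subgroupOf P)
    (h₄ : Nonempty (↥P ⧸ Cfsg.pCore 2 ↥P ≃* Equiv.Perm (Fin 3))) :
    Nat.card ↥P = 3 * Nat.card ↥T ∧ Nat.card ↥P = 6 * Nat.card ↥(Cfsg.pCore 2 ↥P) ∧
      IsPGroup 2 ↥T := by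
  have : Fact (Nat.Prime 2) := ⟨Nat.prime_two⟩
  obtain ⟨e⟩ := h₄
  obtain ⟨S, hS⟩ := h₂
  have h6 : Nat.card ↥P = 6 * Nat.card ↥(Cfsg.pCore 2 ↥P) := by
    rw [Subgroup.card_eq_card_quotient_mul_card_subgroup (Cfsg.pCore 2 ↥P), Nat.card_congr e.toEquiv,
      Nat.card_perm]
    simp [Nat.factorial]
  have hS' : Nat.card ↥T = Nat.card ↥(S : Subgroup ↥P) := by
    rw [hS, Nat.card_congr (Subgroup.subgroupOfEquivOfLe hTP).toEquiv]
  obtain ⟨m, hm⟩ := IsPGroup.iff_card.1 (CfsgLib.Amalgam.pCore_isPGroup 2 ↥P)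
  have h3 : Nat.card ↥P = 3 * 2 ^ (m + 1) := by rw [h6, hm]; ring
  have hT : Nat.card ↥T = 2 ^ (m + 1) := by
    rw [hS', S.card_eq_multiplicity, h3, Nat.factorization_mul (by omega) (pow_ne_zero _ (by omega)),
      Nat.Prime.factorization_pow Nat.prime_two, Nat.Prime.factorization Nat.prime_three]
    simp
  exact ⟨by rw [h3, hT], h6, IsPGroup.of_card hT⟩

theorem card_pCore_equiv {A B : Type*} [Group A] [Group B] (e : A ≃* B) :
    Nat.card ↥(Cfsg.pCore 2 A) = Nat.card ↥(Cfsg.pCore 2 B) := by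
  rw [← CfsgLib.Amalgam.map_pCore_equiv (p := 2) e,
    Subgroup.card_map_of_injective (K := Cfsg.pCore 2 A) (f := e.toMonoidHom) e.injective]

/-- Goldschmidt's bound for amalgams of index (3, 3): let M₁ and M₂ be finite subgroups of a group G such that M₁ ⊓ M₂ is a Sylow 2-subgroup of both M₁ and M₂, each quotient Mᵢ / O₂(Mᵢ) is isomorphic to the symmetric group of degree 3, and no nontrivial subgroup of M₁ ⊓ M₂ is normal in both M₁ and M₂. Then M₁ ⊓ M₂ has order at most 2^7. -/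
theorem result {G : Type*} [Group G] (M₁ M₂ : Subgroup G) [Finite M₁] [Finite M₂] (ha₁ : ∃ P : Sylow 2 M₁, (P : Subgroup M₁) = (M₁ ⊓ M₂).subgroupOf M₁) (ha₂ : ∃ P : Sylow 2 M₂, (P : Subgroup M₂) = (M₁ ⊓ M₂).subgroupOf M₂) (hb₁ : Nonempty (M₁ ⧸ Cfsg.pCore 2 M₁ ≃* Equiv.Perm (Fin 3))) (hb₂ : Nonempty (M₂ ⧸ Cfsg.pCore 2 M₂ ≃* Equiv.Perm (Fin 3))) (hc : ∀ N : Subgroup G, N ≤ M₁ ⊓ M₂ → (N.subgroupOf M₁).Normal → (N.subgroupOf M₂).Normal → N = ⊥) : Nat.card ↥(M₁ ⊓ M₂) ≤ 2 ^ 7 := by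
  obtain ⟨a1, a2, a3⟩ := side M₁ _ inf_le_left ha₁ hb₁
  obtain ⟨b1, b2, -⟩ := side M₂ _ inf_le_right ha₂ hb₂
  set J := M₁ ⊔ M₂ with hJ
  have l₁ : M₁ ≤ J := le_sup_left
  have l₂ : M₂ ≤ J := le_sup_right
  let e₁ := Subgroup.subgroupOfEquivOfLe l₁
  let e₂ := Subgroup.subgroupOfEquivOfLe l₂
  have hI : M₁.subgroupOf J ⊓ M₂.subgroupOf J = (M₁ ⊓ M₂).subgroupOf J := rfl
  have eI := Subgroup.subgroupOfEquivOfLe (inf_le_left.trans l₁ : M₁ ⊓ M₂ ≤ J)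
  have c₁ : Nat.card ↥(M₁.subgroupOf J) = 3 * Nat.card ↥((M₁ ⊓ M₂).subgroupOf J) := by
    rw [Nat.card_congr e₁.toEquiv, Nat.card_congr eI.toEquiv, a1]
  have c₂ : Nat.card ↥(M₂.subgroupOf J) = 3 * Nat.card ↥((M₁ ⊓ M₂).subgroupOf J) := by
    rw [Nat.card_congr e₂.toEquiv, Nat.card_congr eI.toEquiv, b1]
  have f₁ : Finite ↥(M₁.subgroupOf J) := Finite.of_equiv _ e₁.symm.toEquiv
  have f₂ : Finite ↥(M₂.subgroupOf J) := Finite.of_equiv _ e₂.symm.toEquiv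
  have hgen : M₁.subgroupOf J ⊔ M₂.subgroupOf J = ⊤ := by
    refine Subgroup.map_injective J.subtype_injective ?_
    rw [Subgroup.map_sup, Subgroup.subgroupOf_map_subtype, Subgroup.subgroupOf_map_subtype,
      inf_eq_left.2 l₁, inf_eq_left.2 l₂, ← MonoidHom.range_eq_map, Subgroup.range_subtype]
  have hpos : 0 < Nat.card ↥((M₁ ⊓ M₂).subgroupOf J) := by
    have : Finite ↥(M₁ ⊓ M₂ : Subgroup G) :=
      Finite.of_injective _ (Subgroup.inclusion_injective (inf_le_left : M₁ ⊓ M₂ ≤ M₁))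
    rw [Nat.card_congr eI.toEquiv]
    exact Nat.card_pos
  have hpair : CfsgLib.Amalgam.SThreePair (M₁.subgroupOf J) (M₂.subgroupOf J) := {
    pair := by
      refine ⟨hgen, fun e => ?_, fun e => ?_, fun N hN hn => ?_⟩
      · rw [← hI, e, top_inf_eq] at c₂ hpos
        omega
      · rw [← hI, e, inf_top_eq] at c₁ hpos
        omega
      · refine (Subgroup.map_eq_bot_iff_of_injective N J.subtype_injective).1 ?_
        have hle : N.map J.subtype ≤ M₁ ⊓ M₂ := by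
          rintro _ ⟨x, hx, rfl⟩
          exact hN hx
        have hnm : ∀ M : Subgroup G, M ≤ J → ((N.map J.subtype).subgroupOf M).Normal := fun M hM =>
          ⟨fun x hx g => by
            obtain ⟨y, hy, e⟩ := hx
            exact ⟨⟨(g : G), hM g.2⟩ * y * ⟨(g : G), hM g.2⟩⁻¹, hn.conj_mem y hy _, by simp only [Subgroup.coe_subtype] at e ⊢; simp [e]⟩⟩
        exact hc _ hle (hnm M₁ l₁) (hnm M₂ l₂)
    finite₁ := f₁
    finite₂ := f₂
    two := by rw [hI]; exact a3.of_equiv eI.symm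
    card₁ := by rw [hI]; exact c₁
    card₂ := by rw [hI]; exact c₂
    core₁ := by rw [card_pCore_equiv e₁, Nat.card_congr e₁.toEquiv]; exact a2
    core₂ := by rw [card_pCore_equiv e₂, Nat.card_congr e₂.toEquiv]; exact b2 }
  have := hpair.card_le
  rw [hI, Nat.card_congr eI.toEquiv] at this
  exact this

end Cfsg.Agent.S2751
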