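import Cfsg.Statements.S2752
import Cfsg.Agent.SFreeBound59.Main
import Cfsg.Agent.Eq.Def_Transfer

set_option autoImplicit false
universe u
open Cfsg

namespace Cfsg.Agent.S2752

/-- Let M be an elementary abelian 2-subgroup of a finite group L and G a subgroup of L acting faithfully on M by conjugation (G normalizes M and meets C(M) trivially). Assume O₂(G) = 1, the symmetric group of degree 3 is not involved in G, and every non-abelian composition factor of G is a Suzuki group Sz(2^(2n+1)) or a group PSL₂(3^(2n+1)). Then every elementary abelian 2-subgroup A of G satisfies |M / C_M(A)| ≥ |A|² and |[M, A]| ≥ |A|². -/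
theorem result {L : Type u} [Group L] [Finite L] (M G : Subgroup L) (hM : Cfsg.IsElementaryAbelian 2 M) (hGM : G ≤ Subgroup.normalizer (M : Set L)) (hf : G ⊓ Subgroup.centralizer (M : Set L) = ⊥) (ha : Cfsg.pCore 2 ↥G = ⊥) (hb : ¬ Cfsg.Involves (Equiv.Perm (Fin 3)) ↥G) (hc : Cfsg.IsCompositionKGroupWith Cfsg.IsSuzukiOrPSL2OddPowerThree ↥G) (A : Subgroup L) (hA : A ≤ G) (hAe : Cfsg.IsElementaryAbelian 2 A) : Nat.card A ^ 2 * Nat.card ↥(M ⊓ Subgroup.centralizer (A : Set L)) ≤ Nat.card M ∧ Nat.card A ^ 2 ≤ Nat.card ↥⁅M, A⁆ := by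
  classical
  have hMc : ∀ x ∈ M, ∀ y ∈ M, x * y = y * x := fun x hx y hy =>
    congrArg Subtype.val (hM.1.is_comm.comm (⟨x, hx⟩ : M) ⟨y, hy⟩)
  letI : CommGroup M := { (inferInstance : Group M) with
    mul_comm := fun a b => Subtype.ext (hMc a a.2 b b.2) }
  have hW : ∀ w : M, w * w = 1 := fun w => Subtype.ext (by simpa [sq] using hM.2 w w.2)
  let φ : ↥G →* MulAut M := M.normalizerMonoidHom.comp (Subgroup.inclusion hGM)
  have hφv : ∀ (g : G) (w : M), ((φ g w : M) : L) = (g : L) * w * (g : L)⁻¹ := fun g w => rfl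
  have hφ : Function.Injective φ := by
    rw [injective_iff_map_eq_one]
    intro g hg
    have h1 : (g : L) ∈ G ⊓ Subgroup.centralizer (M : Set L) :=
      ⟨g.2, Subgroup.mem_centralizer_iff.2 fun w hw => by
        have h2 := congrArg Subtype.val (DFunLike.congr_fun hg ⟨w, hw⟩)
        rw [hφv] at h2
        exact (mul_inv_eq_iff_eq_mul.1 h2).symm⟩
    rw [hf, Subgroup.mem_bot] at h1
    exact Subtype.ext h1
  set A' := A.subgroupOf G with hA'
  have hcomm : ∀ a ∈ A', ∀ b ∈ A', a * b = b * a := fun a ha b hb =>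
    Subtype.ext (congrArg (fun z : A => (z : L)) (hAe.1.is_comm.comm (⟨a, ha⟩ : A) ⟨b, hb⟩) :)
  have hexp : ∀ a ∈ A', a * a = 1 := fun a ha => Subtype.ext (by simpa [sq] using hAe.2 (a : L) ha)
  have hcard : Nat.card A' = Nat.card A := Nat.card_congr (Subgroup.subgroupOfEquivOfLe hA).toEquiv
  refine ⟨?_, ?_⟩
  · rw [← hcard]
    refine le_trans (Nat.mul_le_mul le_rfl ?_)
      (CfsgLib.SFree59.square_bound φ hφ hW ha hb hc _ A' rfl hcomm hexp)
    refine Nat.card_le_card_of_injective (fun x => ⟨⟨x.1, x.2.1⟩, fun a haA => Subtype.ext ?_⟩ :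
      ↥(M ⊓ Subgroup.centralizer (A : Set L)) → CfsgLib.Offender.fixedSub φ A') fun x y h => ?_
    · have h : (a : L) * x = x * a := Subgroup.mem_centralizer_iff.1 x.2.2 _ haA
      rw [hφv]
      exact mul_inv_eq_iff_eq_mul.2 h
    · exact Subtype.ext (congrArg (fun z : CfsgLib.Offender.fixedSub φ A' => ((z : M) : L)) h)
  · have hAM : ⁅M, A⁆ ≤ M := Subgroup.le_normalizer_iff_commutator_le_left.1 (hA.trans hGM)
    rw [← hcard, ← Nat.card_congr (Subgroup.subgroupOfEquivOfLe hAM).toEquiv]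
    refine CfsgLib.SFree59.square_bound_dual φ hφ hW ha hb hc A' hcomm hexp _ fun a haA w => ?_
    show ((φ a w : M) : L) * (w : L)⁻¹ ∈ ⁅M, A⁆
    rw [hφv, Subgroup.commutator_comm]
    exact Subgroup.commutator_mem_commutator haA w.2

end Cfsg.Agent.S2752
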