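import Cfsg.Statements.S2758
import Cfsg.Agent.QdSection.Sections

set_option autoImplicit false
open Cfsg

namespace Cfsg.Agent.S2758

open DihedralGroup
open scoped Pointwise

theorem involves_dihedral {G : Type*} [Group G] [Finite G] {p : ℕ} [Fact p.Prime] (hp : p ≠ 2) {x y : G}
    (hx : ∃ k : ℕ, orderOf x = 2 ^ k) (hy : ∃ k : ℕ, orderOf y = p ^ k) (hy1 : y ≠ 1)
    (hxy : x * y * x⁻¹ = y⁻¹) : Cfsg.Involves (DihedralGroup p) G := by
  have hpp : p.Prime := Fact.out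
  obtain ⟨k, hk⟩ := hy
  obtain ⟨k, rfl⟩ : ∃ k', k = k' + 1 := by
    rcases k with _ | k
    · exact absurd (orderOf_eq_one_iff.1 (by rw [hk, pow_zero])) hy1
    · exact ⟨k, rfl⟩
  obtain ⟨a, hadef⟩ : ∃ a, a = y ^ p ^ k := ⟨_, rfl⟩
  have ha : orderOf a = p := by
    rw [hadef, orderOf_pow, hk, Nat.gcd_eq_right (pow_dvd_pow p k.le_succ),
      Nat.pow_div k.le_succ hpp.pos, Nat.succ_sub (le_refl k), Nat.sub_self, pow_one]
  have hxa : x * a * x⁻¹ = a⁻¹ := by rw [hadef, ← conj_pow, hxy, inv_pow]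
  obtain ⟨m, hm⟩ := hx
  have hm0 : m ≠ 0 := by
    rintro rfl
    rw [pow_zero, orderOf_eq_one_iff] at hm
    rw [hm, one_mul, inv_one, mul_one] at hxa
    have h2 : a ^ 2 = 1 := by rw [pow_two]; nth_rewrite 2 [hxa]; rw [mul_inv_cancel]
    have h3 := orderOf_dvd_of_pow_eq_one h2
    rw [ha] at h3
    exact hp ((Nat.prime_dvd_prime_iff_eq hpp Nat.prime_two).1 h3)
  let X : G × DihedralGroup p := (x, sr 0)
  let Y : G × DihedralGroup p := (a, r 1)
  have hXY : X * Y * X⁻¹ = Y⁻¹ := by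
    refine Prod.ext hxa ?_
    show sr 0 * r 1 * (sr 0)⁻¹ = (r 1 : DihedralGroup p)⁻¹
    simp [inv_sr, inv_r, sr_mul_r, sr_mul_sr]
  have hn : Subgroup.zpowers X ≤ Subgroup.normalizer (Subgroup.zpowers Y : Set (G × DihedralGroup p)) := by
    rw [Subgroup.zpowers_le, Subgroup.mem_normalizer_iff]
    intro g
    constructor
    · rintro ⟨j, rfl⟩
      exact ⟨-j, by simp only [← conj_zpow, hXY, inv_zpow', neg_neg]⟩
    · rintro ⟨j, hj⟩
      refine ⟨-j, ?_⟩
      have e : g = X⁻¹ * (X * g * X⁻¹) * X := by group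
      have e' : X⁻¹ * Y * X = Y⁻¹ := by
        rw [← inv_inj, mul_inv_rev, mul_inv_rev, inv_inv, inv_inv]
        calc X⁻¹ * (Y⁻¹ * X) = X⁻¹ * (X * Y * X⁻¹ * X) := by rw [hXY]
          _ = Y := by group
      dsimp only at hj ⊢
      rw [e, ← hj]
      calc Y ^ (-j) = (X⁻¹ * Y * X) ^ j := by rw [e', inv_zpow']
        _ = X⁻¹ * Y ^ j * X := by
          have := conj_zpow (a := X⁻¹) (b := Y) (i := j)
          rwa [inv_inv] at this
  let E : Subgroup (G × DihedralGroup p) := Subgroup.zpowers X ⊔ Subgroup.zpowers Y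
  refine CfsgLib.QdSection.involves_of_pair ((MonoidHom.fst G (DihedralGroup p)).comp E.subtype)
    ((MonoidHom.snd G (DihedralGroup p)).comp E.subtype) ?_ ?_
  · intro d
    have hY : ∀ j : ℤ, Y ^ j ∈ E := fun j => Subgroup.mem_sup_right ⟨j, rfl⟩
    have hX : X ∈ E := Subgroup.mem_sup_left (Subgroup.mem_zpowers X)
    cases d with
    | r i => exact ⟨⟨_, hY i.val⟩, by simp [Y, r_one_zpow]⟩
    | sr i => exact ⟨⟨_, mul_mem hX (hY i.val)⟩, by simp [X, Y, r_one_zpow, sr_mul_r]⟩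
  · rintro ⟨e, he⟩ h1
    have he' : e ∈ ((Subgroup.zpowers X : Set (G × DihedralGroup p)) * (Subgroup.zpowers Y : Set _)) := by
      rw [← Subgroup.coe_mul_of_left_le_normalizer_right _ _ hn]; exact he
    obtain ⟨_, ⟨i, rfl⟩, _, ⟨j, rfl⟩, rfl⟩ := he'
    rw [MonoidHom.mem_ker] at h1 ⊢
    simp [X, Y] at h1 ⊢
    have hx' : x ^ i = a ^ (-j) := by rw [zpow_neg, eq_inv_iff_mul_eq_one]; exact h1
    have hxi : x ^ i = 1 := by
      rw [← orderOf_eq_one_iff]
      refine Nat.eq_one_of_dvd_coprimes (a := 2 ^ m) (b := p)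
        (Nat.Coprime.pow_left m ((Nat.coprime_primes Nat.prime_two hpp).2 hp.symm)) ?_ ?_
      · exact hm ▸ orderOf_dvd_of_mem_zpowers ⟨i, rfl⟩
      · rw [hx']; exact ha ▸ orderOf_dvd_of_mem_zpowers ⟨_, rfl⟩
    rw [hxi, eq_comm, ← orderOf_dvd_iff_zpow_eq_one, ha] at hx'
    rw [← orderOf_dvd_iff_zpow_eq_one, hm] at hxi
    have h2 : (sr (0 : ZMod p)) ^ i = 1 := by
      rw [← orderOf_dvd_iff_zpow_eq_one, orderOf_sr]
      exact (Int.natCast_dvd_natCast.2 (dvd_pow_self 2 hm0)).trans hxi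
    have h3 : (r (1 : ZMod p)) ^ j = 1 := by
      rw [← orderOf_dvd_iff_zpow_eq_one, orderOf_r_one]
      exact dvd_neg.1 hx'
    rw [r_one_zpow] at h3
    simp [h2, h3]

theorem exists_two_part {G : Type*} [Group G] [Finite G] (g : G) :
    ∃ n : ℕ, ¬ 2 ∣ n ∧ ∃ k : ℕ, orderOf (g ^ n) = 2 ^ k := by
  obtain ⟨k, m, hm, hkm⟩ := Nat.exists_eq_pow_mul_and_not_dvd (orderOf_pos g).ne' 2 (by decide)
  refine ⟨m, hm, k, ?_⟩
  rw [orderOf_pow, hkm, Nat.gcd_eq_right ⟨2 ^ k, mul_comm _ _⟩,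
    Nat.mul_div_cancel _ (Nat.pos_of_ne_zero (by rintro rfl; exact hm (dvd_zero 2)))]

theorem exists_normalizing {G : Type*} [Group G] [Finite G] {p : ℕ} [Fact p.Prime] (hp : p ≠ 2)
    (h : Cfsg.Involves (DihedralGroup p) G) :
    ∃ (x : G) (P : Subgroup G), (∃ k : ℕ, orderOf x = 2 ^ k) ∧ IsPGroup p ↥P ∧
      x ∈ Subgroup.normalizer (P : Set G) ∧ x ∉ Subgroup.centralizer (P : Set G) := by
  obtain ⟨K, R, hR, ⟨e⟩⟩ := h
  let φ : K →* DihedralGroup p := e.toMonoidHom.comp (QuotientGroup.mk' (R.subgroupOf K))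
  have hφ : Function.Surjective φ := e.surjective.comp (QuotientGroup.mk'_surjective _)
  let V : Subgroup (DihedralGroup p) := Subgroup.zpowers (r 1)
  have hV : IsPGroup p V := IsPGroup.of_card (n := 1) (by rw [Nat.card_zpowers, orderOf_r_one, pow_one])
  have : V.Normal := Subgroup.normal_of_index_eq_two (by
    have h := V.card_mul_index
    rw [Nat.card_zpowers, orderOf_r_one, nat_card, mul_comm 2] at h
    exact Nat.eq_of_mul_eq_mul_left (Fact.out : p.Prime).pos h)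
  let L : Subgroup K := V.comap φ
  obtain ⟨P⟩ : Nonempty (Sylow p L) := inferInstance
  let P1 : Subgroup K := (P : Subgroup L).map L.subtype
  have hres : Function.Surjective (φ.subgroupComap V) := φ.subgroupComap_surjective_of_surjective V hφ
  have htop : (P : Subgroup L).map (φ.subgroupComap V) = ⊤ :=
    ((P.mapSurjective hres).is_maximal' (hV.to_subgroup ⊤) le_top).symm
  obtain ⟨l, hl, hlv⟩ : (⟨r 1, Subgroup.mem_zpowers _⟩ : V) ∈ (P : Subgroup L).map (φ.subgroupComap V) :=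
    htop ▸ Subgroup.mem_top _
  have hlr : φ (l : K) = r 1 := congrArg Subtype.val hlv
  obtain ⟨g, hg, g', hg', hgg⟩ : ∃ g ∈ Subgroup.normalizer (P1 : Set K), ∃ g' ∈ L,
      φ (g * g') = sr 0 := by
    obtain ⟨k, hk⟩ := hφ (sr 0)
    have hfr : Subgroup.normalizer (P1 : Set K) ⊔ L = ⊤ := Sylow.normalizer_sup_eq_top P
    have hk' : k ∈ ((Subgroup.normalizer (P1 : Set K) : Set K) * (L : Set K)) := by
      rw [← Subgroup.mul_normal, hfr]; trivial
    obtain ⟨g, hg, g', hg', rfl⟩ := hk'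
    exact ⟨g, hg, g', hg', hk⟩
  obtain ⟨i, hi⟩ : φ g' ∈ V := hg'
  have hgs : φ g = sr ((-i : ℤ) : ZMod p) := by
    rw [map_mul, ← hi] at hgg
    rw [← eq_mul_inv_iff_mul_eq] at hgg
    rw [hgg, ← zpow_neg, r_one_zpow, sr_mul_r, zero_add]
  obtain ⟨n, hn, hord⟩ := exists_two_part (g : G)
  refine ⟨((g ^ n : K) : G), P1.map K.subtype, by rwa [Subgroup.coe_pow],
    (P.isPGroup'.map L.subtype).map K.subtype,
    Subgroup.le_normalizer_map K.subtype ⟨g ^ n, pow_mem hg n, rfl⟩, fun hc => ?_⟩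
  have hcomm := Subgroup.mem_centralizer_iff.1 hc _ (⟨(l : K), ⟨l, hl, rfl⟩, rfl⟩ :
    ((l : K) : G) ∈ P1.map K.subtype)
  have h1 : (l : K) * g ^ n = g ^ n * l := Subtype.ext hcomm
  have h2 := congrArg φ h1
  rw [map_mul, map_mul, map_pow, hlr, hgs] at h2
  obtain ⟨j, hj⟩ : ∃ j, n = 2 * j + 1 := ⟨n / 2, by omega⟩
  rw [hj, pow_succ, pow_mul, pow_two, sr_mul_self, one_pow, one_mul, r_mul_sr, sr_mul_r] at h2
  have h3 := DihedralGroup.sr.inj h2
  have h4 : ((2 : ℕ) : ZMod p) = 0 := by push_cast; linear_combination (-1 : ZMod p) * h3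
  rw [ZMod.natCast_eq_zero_iff] at h4
  exact hp ((Nat.prime_dvd_prime_iff_eq Fact.out Nat.prime_two).1 h4)

theorem exists_inverting {G : Type*} [Group G] [Finite G] {p : ℕ} [Fact p.Prime]
    (x : G) (P : Subgroup G) (hx : ∃ k : ℕ, orderOf x = 2 ^ k) (hP : IsPGroup p ↥P)
    (hn : x ∈ Subgroup.normalizer (P : Set G)) (hc : x ∉ Subgroup.centralizer (P : Set G)) :
    ∃ x y : G, (∃ k : ℕ, orderOf x = 2 ^ k) ∧ (∃ k : ℕ, orderOf y = p ^ k) ∧ y ≠ 1 ∧
      x * y * x⁻¹ = y⁻¹ := by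
  obtain ⟨k, hk⟩ := hx
  induction k generalizing x with
  | zero =>
    rw [pow_zero, orderOf_eq_one_iff] at hk
    exact absurd (hk ▸ one_mem _) hc
  | succ k ih =>
    by_cases h2 : x ^ 2 ∈ Subgroup.centralizer (P : Set G)
    · rw [Subgroup.mem_centralizer_iff] at hc
      push Not at hc
      obtain ⟨u, hu, hne⟩ := hc
      have hxx : x * x * u = u * (x * x) := by
        rw [← pow_two]; exact (Subgroup.mem_centralizer_iff.1 h2 u hu).symm
      have hy : u⁻¹ * (x * u * x⁻¹) ∈ P :=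
        mul_mem (inv_mem hu) ((Subgroup.mem_normalizer_iff.1 hn u).1 hu)
      obtain ⟨j, hj⟩ := IsPGroup.iff_orderOf.1 hP ⟨_, hy⟩
      refine ⟨x, u⁻¹ * (x * u * x⁻¹), ⟨_, hk⟩, ⟨j, by rwa [Subgroup.orderOf_mk] at hj⟩, fun e => hne ?_, ?_⟩
      · have e' : u = x * u * x⁻¹ := inv_mul_eq_one.1 e
        exact eq_mul_inv_iff_mul_eq.1 e'
      · calc x * (u⁻¹ * (x * u * x⁻¹)) * x⁻¹ = x * u⁻¹ * x⁻¹ * (x * x * u) * (x * x)⁻¹ := by group
          _ = x * u⁻¹ * x⁻¹ * u := by rw [hxx]; group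
          _ = (u⁻¹ * (x * u * x⁻¹))⁻¹ := by group
    · refine ih (x ^ 2) (pow_mem hn 2) h2 ?_
      rw [orderOf_pow, hk, Nat.gcd_eq_right (dvd_pow_self 2 k.succ_ne_zero), pow_succ,
        Nat.mul_div_cancel _ (by decide)]

/-- For an odd prime p and a finite group G the following are equivalent: the dihedral group of order 2p is involved in G; some element of 2-power order normalizes but does not centralize some p-subgroup of G; some element of 2-power order inverts some nonidentity element of p-power order. -/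
theorem result {G : Type*} [Group G] [Finite G] {p : ℕ} [Fact p.Prime] (hp : p ≠ 2) : (Cfsg.Involves (DihedralGroup p) G ↔ ∃ (x : G) (P : Subgroup G), (∃ k : ℕ, orderOf x = 2 ^ k) ∧ IsPGroup p ↥P ∧ x ∈ Subgroup.normalizer (P : Set G) ∧ x ∉ Subgroup.centralizer (P : Set G)) ∧ (Cfsg.Involves (DihedralGroup p) G ↔ ∃ x y : G, (∃ k : ℕ, orderOf x = 2 ^ k) ∧ (∃ k : ℕ, orderOf y = p ^ k) ∧ y ≠ 1 ∧ x * y * x⁻¹ = y⁻¹) := by
  refine ⟨⟨exists_normalizing hp, ?_⟩, ⟨fun h => ?_, ?_⟩⟩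
  · rintro ⟨x, P, hx, hP, hn, hc⟩
    obtain ⟨x', y, hx', hy, hy1, he⟩ := exists_inverting x P hx hP hn hc
    exact involves_dihedral hp hx' hy hy1 he
  · obtain ⟨x, P, hx, hP, hn, hc⟩ := exists_normalizing hp h
    exact exists_inverting x P hx hP hn hc
  · rintro ⟨x, y, hx, hy, hy1, he⟩
    exact involves_dihedral hp hx hy hy1 he

end Cfsg.Agent.S2758
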