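import Cfsg.Statements.S2760
import Cfsg.Agent.Eq.Def_Transfer
import Cfsg.Agent.Coprime.Stabilizer
import Cfsg.Agent.Amalgam.CharPVertices

set_option autoImplicit false
open Cfsg

namespace Cfsg.Agent.S2760

theorem eq_one_of_centralizes {G : Type*} [Group G] [Finite G]
    (hchar : Subgroup.centralizer (Cfsg.pCore 2 G : Set G) ≤ Cfsg.pCore 2 G) {K : Subgroup G}
    (hK : K.Normal) {x : G} (hx : x ∈ K) (hodd : ¬ 2 ∣ orderOf x)
    (hc : ∀ q ∈ K, q ∈ Cfsg.pCore 2 G → x * q = q * x) : x = 1 := by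
  have : Fact (Nat.Prime 2) := ⟨Nat.prime_two⟩
  obtain ⟨k, hk⟩ := IsPGroup.iff_card.1 (CfsgLib.Amalgam.pCore_isPGroup 2 G)
  have hcop : (orderOf x).Coprime (Nat.card ↥(Cfsg.pCore 2 G)) := by
    rw [hk]
    exact Nat.Coprime.pow_right k ((Nat.prime_two.coprime_iff_not_dvd.2 hodd).symm)
  have hxQ : x ∈ Cfsg.pCore 2 G := hchar (Subgroup.mem_centralizer_iff.2 fun q hq => by
    have hy : x * q * x⁻¹ * q⁻¹ ∈ Cfsg.pCore 2 G :=
      mul_mem ((Cfsg.pCore_normal 2 G).conj_mem q hq x) (inv_mem hq)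
    have hyK : x * q * x⁻¹ * q⁻¹ ∈ K := by
      have := mul_mem hx (hK.conj_mem x⁻¹ (inv_mem hx) q)
      simpa [mul_assoc] using this
    exact (CfsgLib.Coprime.commute_of_commute_commutator_mem (hc _ hyK hy) hy hcop).symm)
  have h1 := Nat.Coprime.eq_one_of_dvd hcop ((Cfsg.pCore 2 G).orderOf_dvd_natCard hxQ)
  exact orderOf_eq_one_iff.1 h1

/-- Let G be a finite group with C_G(O₂(G)) ≤ O₂(G) and H a subgroup of G such that H is normal in G, or the subgroup O²(H) generated by the elements of H of odd order is normal in G. Then C_H(O₂(H)) ≤ O₂(H). -/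
theorem result {G : Type*} [Group G] [Finite G] (hchar : Subgroup.centralizer (Cfsg.pCore 2 G : Set G) ≤ Cfsg.pCore 2 G) (H : Subgroup G) (hH : H.Normal ∨ ((Cfsg.pResidual 2 ↥H).map H.subtype).Normal) : Subgroup.centralizer (Cfsg.pCore 2 ↥H : Set ↥H) ≤ Cfsg.pCore 2 ↥H := by
  have : Fact (Nat.Prime 2) := ⟨Nat.prime_two⟩
  set C := Subgroup.centralizer (Cfsg.pCore 2 ↥H : Set ↥H) with hC
  have hodd : ∀ c ∈ C, ¬ 2 ∣ orderOf c → c = 1 := by
    intro c hc ho
    have hq : ∀ q : G, q ∈ H → q ∈ Cfsg.pCore 2 G → (c : G) * q = q * c := by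
      intro q hqH hqQ
      have hle : (Cfsg.pCore 2 G).subgroupOf H ≤ Cfsg.pCore 2 ↥H := le_sSup
        ⟨inferInstance, (CfsgLib.Amalgam.pCore_isPGroup 2 G).comap_of_injective H.subtype H.subtype_injective⟩
      exact (congrArg Subtype.val (Subgroup.mem_centralizer_iff.1 hc ⟨q, hqH⟩ (hle hqQ))).symm
    rw [← Subgroup.orderOf_coe] at ho
    refine Subtype.ext ?_
    rcases hH with hn | hn
    · exact eq_one_of_centralizes hchar hn c.2 ho fun q h1 h2 => hq q h1 h2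
    · refine eq_one_of_centralizes hchar hn ⟨c, ?_, rfl⟩ ho fun q h1 h2 => hq q ?_ h2
      · refine Subgroup.subset_closure ?_
        rw [Subgroup.orderOf_coe] at ho
        exact (Nat.prime_two.coprime_iff_not_dvd.2 ho).symm
      · obtain ⟨y, -, rfl⟩ := h1
        exact y.2
  refine le_sSup ⟨inferInstance, ?_⟩
  rw [IsPGroup.iff_orderOf]
  rintro ⟨c, hc⟩
  obtain ⟨k, m, hm, hkm⟩ := Nat.exists_eq_pow_mul_and_not_dvd (orderOf_pos c).ne' 2 (by decide)
  refine ⟨k, ?_⟩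
  rw [Subgroup.orderOf_mk]
  have h2 := hodd (c ^ 2 ^ k) (pow_mem hc _) (by
    rw [orderOf_pow, hkm, Nat.gcd_eq_right ⟨m, rfl⟩, Nat.mul_div_cancel_left _ (by positivity)]
    exact hm)
  have h3 : m = 1 := by
    have hdvd := orderOf_dvd_of_pow_eq_one h2
    rw [hkm] at hdvd
    exact Nat.dvd_one.1 ((Nat.mul_dvd_mul_iff_left (a := 2 ^ k) (b := m) (c := 1) (Nat.two_pow_pos k)).1 (by rwa [mul_one]))
  rw [hkm, h3, mul_one]

end Cfsg.Agent.S2760
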