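import Cfsg.Statements.S2781
import Cfsg.Agent.CharP.PResidual
import Mathlib.Algebra.BigOperators.Group.Finset.Basic

set_option autoImplicit false
open Cfsg
open scoped commutatorElement

namespace Cfsg.Agent.S2781

/-- Let H act faithfully by conjugation on the elementary abelian p-subgroup V of a finite group, let O^p(H) be the subgroup of H generated by its elements of order prime to p, and T a Sylow p-subgroup of O^p(H). If V is generated by the H-conjugates of C_V(T) (V is the smallest H-invariant subgroup containing C_V(T)), then V = [V, O^p(H)]·C_V(O^p(H)). -/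
theorem result {G : Type*} [Group G] [Finite G] {p : ℕ} [Fact p.Prime] (V H : Subgroup G) (hV : Cfsg.IsElementaryAbelian p V) (hHV : H ≤ Subgroup.normalizer (V : Set G)) (hf : H ⊓ Subgroup.centralizer (V : Set G) = ⊥) (R : Subgroup G) (hR : R = (Cfsg.pResidual p ↥H).map H.subtype) (S : Sylow p ↥R) (T : Subgroup G) (hT : T = ((S : Subgroup ↥R).map R.subtype)) (hgen : ∀ W : Subgroup G, H ≤ Subgroup.normalizer (W : Set G) → (V ⊓ Subgroup.centralizer ((T : Subgroup G) : Set G)) ≤ W → V ≤ W) : ⁅V, R⁆ ⊔ (V ⊓ Subgroup.centralizer ((R : Subgroup G) : Set G)) = V := by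
  obtain ⟨hcomm, hexp⟩ := hV
  have hRH : R ≤ H := hR ▸ Subgroup.map_subtype_le _
  have hRV : R ≤ Subgroup.normalizer (V : Set G) := hRH.trans hHV
  set W := ⁅V, R⁆ ⊔ (V ⊓ Subgroup.centralizer ((R : Subgroup G) : Set G)) with hW
  have hWV : W ≤ V := by
    refine sup_le (Subgroup.commutator_le.2 fun v hv r hr => ?_) inf_le_left
    have h1 : r * v⁻¹ * r⁻¹ ∈ V := (Subgroup.mem_normalizer_iff.1 (hRV hr) _).1 (V.inv_mem hv)
    have := V.mul_mem hv h1
    simpa [commutatorElement_def, mul_assoc] using this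
  have hHR : ∀ h ∈ H, ∀ r ∈ R, h * r * h⁻¹ ∈ R := by
    intro h hh r hr
    rw [hR] at hr ⊢
    obtain ⟨r', hr', rfl⟩ := hr
    exact ⟨⟨h, hh⟩ * r' * (⟨h, hh⟩ : ↥H)⁻¹,
      (CfsgLib.CharP.pResidual_normal).conj_mem r' hr' ⟨h, hh⟩, rfl⟩
  have hconj : ∀ h ∈ H, ∀ w ∈ W, h * w * h⁻¹ ∈ W := by
    intro h hh w hw
    have hle : W ≤ W.comap (MulAut.conj h).toMonoidHom := by
      refine sup_le (Subgroup.commutator_le.2 fun v hv r hr => ?_) fun v hv => ?_
      · change h * ⁅v, r⁆ * h⁻¹ ∈ W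
        have e : h * ⁅v, r⁆ * h⁻¹ = ⁅h * v * h⁻¹, h * r * h⁻¹⁆ := by
          simp only [commutatorElement_def]; group
        rw [e]
        exact Subgroup.mem_sup_left (Subgroup.commutator_mem_commutator
          ((Subgroup.mem_normalizer_iff.1 (hHV hh) v).1 hv) (hHR h hh r hr))
      · change h * v * h⁻¹ ∈ W
        refine Subgroup.mem_sup_right ⟨(Subgroup.mem_normalizer_iff.1 (hHV hh) v).1 hv.1, ?_⟩
        refine Subgroup.mem_centralizer_iff.2 ?_
        intro r hr
        have h2 : h⁻¹ * r * h ∈ R := by simpa using hHR h⁻¹ (H.inv_mem hh) r hr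
        have h3 : Commute (h⁻¹ * r * h) v := Subgroup.mem_centralizer_iff.1 hv.2 _ h2
        simpa [mul_assoc] using (h3.map (MulAut.conj h).toMonoidHom).eq
    exact hle hw
  refine le_antisymm hWV (hgen W ?_ ?_)
  · intro h hh
    rw [Subgroup.mem_normalizer_iff]
    intro w
    refine ⟨hconj h hh w, fun hw => ?_⟩
    simpa [mul_assoc] using hconj h⁻¹ (H.inv_mem hh) _ hw
  rintro v ⟨hv, hvT⟩
  have hfix : ∀ t ∈ (S : Subgroup ↥R), (t : G) * v * (t : G)⁻¹ = v := by
    intro t ht
    have h1 : (t : G) * v = v * (t : G) :=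
      Subgroup.mem_centralizer_iff.1 hvT _ (hT ▸ Subgroup.mem_map_of_mem _ ht)
    rw [h1, mul_inv_cancel_right]
  let cg : CommGroup ↥V := { (inferInstance : Group ↥V) with mul_comm := hcomm.is_comm.comm }
  letI := cg
  have hmemV : ∀ r : ↥R, (r : G) * v * (r : G)⁻¹ ∈ V := fun r =>
    (Subgroup.mem_normalizer_iff.1 (hRV r.2) v).1 hv
  let f : ↥R ⧸ (S : Subgroup ↥R) → ↥V := Quotient.lift (fun r : ↥R => (⟨(r : G) * v * (r : G)⁻¹, hmemV r⟩ : ↥V))
    fun a b hab => by
      refine Subtype.ext ?_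
      have h1 : a⁻¹ * b ∈ (S : Subgroup ↥R) := QuotientGroup.leftRel_apply.1 hab
      have h2 := hfix _ h1
      simp only [Subgroup.coe_mul, Subgroup.coe_inv] at h2
      calc (a : G) * v * (a : G)⁻¹ = (a : G) * ((a : G)⁻¹ * b * v * ((a : G)⁻¹ * b)⁻¹) * (a : G)⁻¹ := by rw [h2]
        _ = (b : G) * v * (b : G)⁻¹ := by group
  have : Fintype (↥R ⧸ (S : Subgroup ↥R)) := Fintype.ofFinite _
  set N : ↥V := ∏ x, f x with hNdef
  have hN : (N : G) ∈ V ⊓ Subgroup.centralizer ((R : Subgroup G) : Set G) := by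
    refine ⟨N.2, ?_⟩
    refine Subgroup.mem_centralizer_iff.2 ?_
    intro r hr
    let c : ↥V →* ↥V :=
      { toFun := fun u => ⟨r * (u : G) * r⁻¹, (Subgroup.mem_normalizer_iff.1 (hRV hr) u).1 u.2⟩
        map_one' := by ext; simp
        map_mul' := fun u w => by ext; simp [mul_assoc] }
    have hc : c N = N := by
      rw [hNdef, map_prod]
      refine Fintype.prod_equiv (MulAction.toPerm (⟨r, hr⟩ : ↥R)) _ _ fun x => ?_
      induction x using QuotientGroup.induction_on with
      | H a =>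
        refine Subtype.ext ?_
        change r * ((a : G) * v * (a : G)⁻¹) * r⁻¹ = (r * (a : G)) * v * (r * (a : G))⁻¹
        group
    have h2 : r * (N : G) * r⁻¹ = N := congrArg Subtype.val hc
    calc r * (N : G) = r * (N : G) * r⁻¹ * r := by group
      _ = N * r := by rw [h2]
  set q := QuotientGroup.mk' (W.subgroupOf V) with hq
  have hqf : ∀ x, q (f x) = q ⟨v, hv⟩ := by
    intro x
    induction x using QuotientGroup.induction_on with
    | H a =>
      refine QuotientGroup.eq.2 ?_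
      rw [Subgroup.mem_subgroupOf]
      change ((a : G) * v * (a : G)⁻¹)⁻¹ * v ∈ W
      have h1 : ((a : G) * v * (a : G)⁻¹)⁻¹ * v = (⁅v⁻¹, (a : G)⁆⁻¹) := by
        simp only [commutatorElement_def]; group
      rw [h1]
      exact W.inv_mem (Subgroup.mem_sup_left (Subgroup.commutator_mem_commutator (V.inv_mem hv) a.2))
  have h1 : q ⟨v, hv⟩ ^ (S : Subgroup ↥R).index = 1 := by
    have h0 : q N = 1 := (QuotientGroup.eq_one_iff _).2 (Subgroup.mem_sup_right hN)
    rw [hNdef, map_prod, Finset.prod_congr rfl (fun x _ => hqf x), Finset.prod_const] at h0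
    simpa [Subgroup.index, Nat.card_eq_fintype_card] using h0
  have h2 : q ⟨v, hv⟩ ^ p = 1 := by
    rw [← map_pow]
    have : (⟨v, hv⟩ : ↥V) ^ p = 1 := Subtype.ext (by simpa using hexp v hv)
    rw [this, map_one]
  have h3 : Nat.Coprime p (S : Subgroup ↥R).index :=
    (Fact.out : p.Prime).coprime_iff_not_dvd.2 S.not_dvd_index
  have h4 : q ⟨v, hv⟩ = 1 := by
    have := pow_gcd_eq_one.2 ⟨h2, h1⟩
    rwa [h3.gcd_eq_one, pow_one] at this
  exact ((QuotientGroup.eq_one_iff (⟨v, hv⟩ : ↥V)).1 h4 :)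

end Cfsg.Agent.S2781
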