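import Cfsg.Statements.S2787
import Cfsg.Agent.Quadratic44.Psl
import Cfsg.Agent.Quadratic44.Ree
import Cfsg.Agent.Eq.Def_LieTwisted

set_option autoImplicit false
open Cfsg

namespace Cfsg.Agent.S2787

open scoped commutatorElement


/-- Let p be a prime and let H act by conjugation on the elementary abelian p-subgroup V of a finite group, irreducibly (no H-invariant subgroups of V other than 1 and V) and nontrivially, and suppose H/C_H(V) is isomorphic to PSL₂(F) for a field F with p^n elements, p^n odd, or p = 3 and H/C_H(V) is isomorphic to a Ree group ²G₂(3^(2m+1)), m ≥ 1. Then no subgroup A of H acting nontrivially on V acts quadratically: [V, A, A] = 1 forces [V, A] = 1. -/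
theorem result {G : Type*} [Group G] [Finite G] {p : ℕ} [Fact p.Prime] (V H : Subgroup G) (hV : Cfsg.IsElementaryAbelian p V) (hHV : H ≤ Subgroup.normalizer (V : Set G)) (hirr : ∀ U : Subgroup G, U ≤ V → H ≤ Subgroup.normalizer (U : Set G) → U = ⊥ ∨ U = V) (hnt : ¬ H ≤ Subgroup.centralizer (V : Set G)) [hn : ((Subgroup.centralizer (V : Set G)).subgroupOf H).Normal] (hq : (∃ (F : Type) (_ : Field F) (_ : Fintype F) (n : ℕ), Fintype.card F = p ^ n ∧ Odd (Fintype.card F) ∧ Nonempty (↥H ⧸ (Subgroup.centralizer (V : Set G)).subgroupOf H ≃* Matrix.ProjectiveSpecialLinearGroup (Fin 2) F)) ∨ (p = 3 ∧ Cfsg.Lie.IsoRee (↥H ⧸ (Subgroup.centralizer (V : Set G)).subgroupOf H))) (A : Subgroup G) (hA : A ≤ H) (hquad : ⁅⁅V, A⁆, A⁆ = ⊥) : ⁅V, A⁆ = ⊥ := by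
  rw [Subgroup.commutator_eq_bot_iff_le_centralizer]
  intro v hv
  rw [Subgroup.mem_centralizer_iff]
  intro a ha
  have haC : a ∈ Subgroup.centralizer (V : Set G) := by
    have hqa : ∀ w ∈ V, ⁅⁅w, a⁆, a⁆ = 1 := fun w hw => by
      have := Subgroup.commutator_mem_commutator (Subgroup.commutator_mem_commutator hw ha) ha
      rwa [hquad, Subgroup.mem_bot] at this
    rcases hq with ⟨F, _, _, n, hF, hodd, ⟨e⟩⟩ | ⟨rfl, K, _, _, m, -, hK, ⟨e⟩⟩
    · haveI : CharP F p := charP_of_card_eq_prime_pow hF
      have hp : p ≠ 2 := by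
        rintro rfl
        rw [hF, Nat.odd_pow_iff (by
          rintro rfl
          simp at hF
          exact absurd hF (Fintype.one_lt_card).ne')] at hodd
        exact absurd hodd (by decide)
      exact CfsgLib.Quadratic44.mem_centralizer_of_quadratic V H hV hHV e
        (fun y hy hne => CfsgLib.Quadratic44.obstructed_psl hp hy hne) (hA ha) hqa
    · haveI : CharP K 3 := CfsgLib.Ree.charP_of_card hK
      exact CfsgLib.Quadratic44.mem_centralizer_of_quadratic V H hV hHV e
        (fun y hy hne => CfsgLib.Quadratic44.obstructed_ree hK hy hne) (hA ha) hqa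
  exact (Subgroup.mem_centralizer_iff.mp haC v hv).symm

end Cfsg.Agent.S2787
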