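import Cfsg.Statements.S2788
import Cfsg.Agent.Quadratic44.PairOrder

set_option autoImplicit false
open Cfsg

namespace Cfsg.Agent.S2788

open scoped Pointwise


/-- Let H act faithfully by conjugation on the elementary abelian p-subgroup V of a finite group with H ≅ SL₂(F), F a field with p^n elements, S a Sylow p-subgroup of H, and A ≤ S a subgroup of order at least 3 acting quadratically on V ([V, A, A] = 1). Then |V/C_V(a)| ≥ p^n for every nonidentity a ∈ A. -/
theorem result {G : Type*} [Group G] [Finite G] {p : ℕ} [Fact p.Prime] (V H : Subgroup G) (hV : Cfsg.IsElementaryAbelian p V) (hHV : H ≤ Subgroup.normalizer (V : Set G)) (hf : H ⊓ Subgroup.centralizer (V : Set G) = ⊥) {F : Type*} [Field F] [Fintype F] (n : ℕ) (hF : Fintype.card F = p ^ n) (hiso : Nonempty (↥H ≃* Matrix.SpecialLinearGroup (Fin 2) F)) (S : Sylow p ↥H) (T : Subgroup G) (hT : T = ((S : Subgroup ↥H).map H.subtype)) (A : Subgroup G) (hA : A ≤ T) (hA3 : 3 ≤ Nat.card A) (hquad :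 ⁅⁅V, A⁆, A⁆ = ⊥) : ∀ a ∈ A, a ≠ 1 → p ^ n ≤ ((V ⊓ Subgroup.centralizer ({a} : Set G))).relIndex V := by
  classical
  obtain ⟨φ⟩ := hiso
  haveI : CharP F p := charP_of_card_eq_prime_pow hF
  haveI : IsMulCommutative V := hV.1
  intro a ha hne
  obtain ⟨aH, haS, rfl⟩ := Subgroup.mem_map.mp (show a ∈ (S : Subgroup ↥H).map H.subtype from hT ▸ hA ha)
  simp only [Subgroup.coe_subtype] at hne ⊢
  set R := (V ⊓ Subgroup.centralizer ({(aH : G)} : Set G)).relIndex V with hR
  have hVp : IsPGroup p V := fun v => ⟨1, Subtype.ext (by simpa using hV.2 _ v.2)⟩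
  have hfaith : ∀ x : H, x ≠ 1 → (x : G) ∉ Subgroup.centralizer (V : Set G) := fun x hx hc => hx (by
    have h1 : (x : G) ∈ H ⊓ Subgroup.centralizer (V : Set G) := Subgroup.mem_inf.mpr ⟨x.2, hc⟩
    rw [hf, Subgroup.mem_bot] at h1
    exact Subtype.ext h1)
  have haH1 : aH ≠ 1 := fun h => hne (by rw [h]; rfl)
  have hR1 : R ≠ 1 := by
    intro h
    refine hfaith aH haH1 (Subgroup.mem_centralizer_iff.mpr fun v hv => ?_)
    have := (Subgroup.relIndex_eq_one.mp h hv).2
    exact Subgroup.mem_centralizer_singleton_iff.mp this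
  have hRp : p ≤ R := by
    obtain ⟨m, hm⟩ := hVp.index ((V ⊓ Subgroup.centralizer ({(aH : G)} : Set G)).subgroupOf V)
    have hm' : R = p ^ m := hm
    rw [hm']
    exact Nat.le_self_pow (fun h0 => hR1 (by rw [hm', h0, pow_zero])) p
  rcases Nat.lt_or_ge n 2 with hn | hn
  · calc p ^ n ≤ p ^ 1 := Nat.pow_le_pow_right (Fact.out : p.Prime).pos (by omega)
      _ ≤ R := by rwa [pow_one]
  obtain ⟨k₀, hk₀⟩ := S.2 ⟨aH, haS⟩
  have hak : φ aH ^ p ^ k₀ = 1 := by
    rw [← map_pow, show aH ^ p ^ k₀ = 1 from congrArg Subtype.val hk₀, map_one]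
  have haφ : φ aH ≠ 1 := fun h => haH1 (φ.injective (by rw [h, map_one]))
  obtain ⟨ℓ, i, hℓ, hℓp, hℓ2, hdvd, hnd, hord⟩ : ∃ ℓ i : ℕ, ℓ.Prime ∧ ℓ ≠ p ∧ ℓ ≠ 2 ∧
      ℓ ^ (i + 1) ∣ p ^ n + 1 ∧ ¬ ℓ ^ (i + 1) ∣ p ^ n - 1 ∧
      ∀ j, 0 < j → ℓ ^ (i + 1) ∣ p ^ j - 1 → 2 * n ≤ j := by
    by_cases h6 : p = 2 ∧ n = 3
    · obtain ⟨rfl, rfl⟩ := h6
      refine ⟨3, 1, Nat.prime_three, by decide, by decide, by decide, by decide, fun j hj hd => ?_⟩
      by_contra hlt
      have hj' : j ≤ 5 := by omega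
      interval_cases j <;> norm_num at hd
    · have hp2 := (Fact.out : p.Prime).two_le
      obtain ⟨r, hr⟩ := CfsgLib.Zsigmondy.exists_isPPD_of_three_le hp2 (n := 2 * n) (by omega) (by omega)
      refine ⟨r, 0, hr.1, ?_, hr.ne_two (by omega) (by omega), ?_, ?_, fun j hj hd => ?_⟩
      · rintro rfl
        exact hr.not_dvd_base (by omega) (by omega) dvd_rfl
      · rw [pow_one]; exact hr.dvd_pow_add_one (by omega)
      · rw [pow_one]; exact hr.2.2 n (by omega) (by omega)
      · rw [pow_one] at hd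
        by_contra hlt
        exact hr.2.2 j hj (by omega) hd
  have hep : ¬ ℓ ^ (i + 1) ∣ 2 * p := fun h => by
    rcases hℓ.dvd_mul.mp ((dvd_pow_self ℓ (Nat.succ_ne_zero i)).trans h) with h' | h'
    · exact hℓ2 ((Nat.prime_dvd_prime_iff_eq hℓ Nat.prime_two).mp h')
    · exact hℓp ((Nat.prime_dvd_prime_iff_eq hℓ Fact.out).mp h')
  obtain ⟨g, b, z, hb, hz, hzo⟩ := CfsgLib.Quadratic44.exists_conj_orderOf hak haφ
    ((hℓ.odd_of_ne_two hℓ2).pow (n := i + 1)) (hF ▸ hdvd) (hF ▸ hnd) hep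
  set bH := φ.symm b with hbH
  set zH := φ.symm z with hzH
  set hh := φ.symm g with hhh
  have hbb : bH = hh * aH * hh⁻¹ ∨ bH = hh * aH⁻¹ * hh⁻¹ := by
    rcases hb with rfl | rfl
    · left; simp [hbH, hhh]
    · right; simp [hbH, hhh]
  -- the indices agree
  set Ca := V ⊓ Subgroup.centralizer ({(aH : G)} : Set G) with hCa
  set Cb := V ⊓ Subgroup.centralizer ({(bH : G)} : Set G) with hCb
  have hCeq : Cb = Ca.map (MulAut.conj (hh : G)).toMonoidHom := by
    have hiff : ∀ x : G, x ∈ Subgroup.centralizer ({(bH : G)} : Set G) ↔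
        (hh : G)⁻¹ * x * hh ∈ Subgroup.centralizer ({(aH : G)} : Set G) := by
      intro x
      rw [Subgroup.mem_centralizer_singleton_iff, Subgroup.mem_centralizer_singleton_iff]
      change Commute x (bH : G) ↔ Commute _ (aH : G)
      have hconj : ∀ y : G, Commute x ((hh : G) * y * (hh : G)⁻¹) ↔ Commute ((hh : G)⁻¹ * x * hh) y := by
        intro y
        constructor
        · intro h
          calc (hh : G)⁻¹ * x * hh * y = (hh : G)⁻¹ * (x * (hh * y * (hh : G)⁻¹)) * hh := by group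
            _ = (hh : G)⁻¹ * ((hh * y * (hh : G)⁻¹) * x) * hh := by rw [h.eq]
            _ = y * ((hh : G)⁻¹ * x * hh) := by group
        · intro h
          calc x * (hh * y * (hh : G)⁻¹) = hh * (((hh : G)⁻¹ * x * hh) * y) * (hh : G)⁻¹ := by group
            _ = hh * (y * ((hh : G)⁻¹ * x * hh)) * (hh : G)⁻¹ := by rw [h.eq]
            _ = hh * y * (hh : G)⁻¹ * x := by group
      rcases hbb with h | h
      · rw [h]; exact hconj _
      · rw [h]
        refine (hconj _).trans ?_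
        exact Commute.inv_right_iff
    have hN : ∀ x : G, x ∈ V ↔ (hh : G)⁻¹ * x * hh ∈ V := fun x => by
      have := Subgroup.mem_normalizer_iff.mp (inv_mem (hHV hh.2)) x
      rwa [inv_inv] at this
    ext x
    rw [Subgroup.mem_map_equiv, MulAut.conj_symm_apply, hCa, hCb, Subgroup.mem_inf, Subgroup.mem_inf,
      hiff, hN x]
  have hRb : Cb.relIndex V = R := by
    have e1 := Subgroup.card_mul_index (Cb.subgroupOf V)
    have e2 := Subgroup.card_mul_index (Ca.subgroupOf V)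
    rw [Nat.card_congr (Subgroup.subgroupOfEquivOfLe (inf_le_left : Cb ≤ V)).toEquiv] at e1
    rw [Nat.card_congr (Subgroup.subgroupOfEquivOfLe (inf_le_left : Ca ≤ V)).toEquiv] at e2
    have e3 : Nat.card Cb = Nat.card Ca := by
      rw [hCeq]; exact Nat.card_congr ((Ca.equivMapOfInjective _ (MulAut.conj (hh : G)).injective).toEquiv).symm
    rw [e3, ← e2] at e1
    exact Nat.eq_of_mul_eq_mul_left Nat.card_pos e1
  -- the commutator spaces
  obtain ⟨Da, hDaV, hDa, hDac⟩ :=
    CfsgLib.Quadratic44.exists_commutator_image V hV.1 (hHV aH.2)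
  obtain ⟨Db, hDbV, hDb, hDbc⟩ :=
    CfsgLib.Quadratic44.exists_commutator_image V hV.1 (hHV bH.2)
  have hM : Nat.card (Da ⊔ Db : Subgroup G) ≤ R * R := by
    have hnorm : Db ≤ Subgroup.normalizer (Da : Set G) := by
      refine fun y hy => Subgroup.mem_normalizer_iff.mpr fun x => ?_
      have hc : ∀ u ∈ Da, y * u * y⁻¹ = u := fun u hu => mul_inv_eq_iff_eq_mul.mpr
        (congrArg Subtype.val (mul_comm' (⟨y, hDbV hy⟩ : V) ⟨u, hDaV hu⟩))
      refine ⟨fun hx => by rwa [hc x hx], fun hx => ?_⟩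
      have h1 := hc _ hx
      have h2 : y * x * y⁻¹ = x := mul_right_cancel (b := y⁻¹) (mul_left_cancel (a := y) (by simpa [mul_assoc] using h1))
      rwa [h2] at hx
    calc Nat.card (Da ⊔ Db : Subgroup G) = Nat.card ((Da : Set G) * (Db : Set G) : Set G) := by
          rw [← Subgroup.coe_mul_of_right_le_normalizer_left Da Db hnorm]; rfl
      _ ≤ Nat.card Da * Nat.card Db := Set.natCard_mul_le
      _ = R * R := by rw [hDac, hDbc, hRb]
  have hzC : ∀ v ∈ V, (zH : G) * v * (zH : G)⁻¹ * v⁻¹ ∈ Da ⊔ Db := by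
    have : ∀ x ∈ Subgroup.closure ({aH, bH} : Set ↥H), ∀ v ∈ V,
        (x : G) * v * (x : G)⁻¹ * v⁻¹ ∈ Da ⊔ Db := by
      intro x hx
      induction hx using Subgroup.closure_induction with
      | mem y hy =>
        rcases hy with rfl | rfl
        · exact fun v hv => Subgroup.mem_sup_left (hDa v hv)
        · exact fun v hv => Subgroup.mem_sup_right (hDb v hv)
      | one => intro v hv; simp
      | mul x y _ _ ihx ihy =>
        intro v hv
        rw [Subgroup.coe_mul, show (x : G) * y * v * ((x : G) * y)⁻¹ * v⁻¹ =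
          (x * (y * v * (y : G)⁻¹) * (x : G)⁻¹ * ((y : G) * v * (y : G)⁻¹)⁻¹) *
            ((y : G) * v * (y : G)⁻¹ * v⁻¹) by group]
        exact mul_mem (ihx _ ((Subgroup.mem_normalizer_iff.mp (hHV y.2) v).mp hv)) (ihy v hv)
      | inv x _ ih =>
        intro v hv
        have hx' : (x : G)⁻¹ * v * x ∈ V := by
          have := (Subgroup.mem_normalizer_iff.mp (inv_mem (hHV x.2)) v).mp hv
          rwa [inv_inv] at this
        have h1 := inv_mem (ih _ hx')
        rw [show ((x : G) * ((x : G)⁻¹ * v * x) * (x : G)⁻¹ * ((x : G)⁻¹ * v * x)⁻¹)⁻¹ =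
          (x : G)⁻¹ * v * (x : G)⁻¹⁻¹ * v⁻¹ by group] at h1
        rwa [Subgroup.coe_inv]
    refine this zH ?_
    have hmem : z ∈ (Subgroup.closure ({aH, bH} : Set ↥H)).map φ.toMonoidHom := by
      rw [MonoidHom.map_closure, Set.image_pair]
      simpa [hbH] using hz
    obtain ⟨y, hy, rfl⟩ := hmem
    rw [hzH]
    simpa using hy
  have hzHo : orderOf zH = ℓ ^ (i + 1) := by rw [hzH, MulEquiv.orderOf_eq, hzo]
  obtain ⟨j, k, hj, hk, hjk, hd⟩ := CfsgLib.Quadratic44.le_exponent_of_commutator_le hV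
    (sup_le hDaV hDbV) (z := (zH : G)) hℓ hℓp (by rw [Subgroup.orderOf_coe, hzHo]) (hHV zH.2) hzC (by
      rw [← Subgroup.coe_pow]
      refine hfaith _ fun h => ?_
      have := orderOf_le_of_pow_eq_one (pow_pos hℓ.pos i) h
      rw [hzHo] at this
      exact absurd this (not_le.mpr (Nat.pow_lt_pow_right hℓ.one_lt (Nat.lt_succ_self i))))
  have h2n := hord j hj hd
  have : p ^ n * p ^ n ≤ R * R := by
    calc p ^ n * p ^ n = p ^ (2 * n) := by rw [← pow_add, two_mul]
      _ ≤ p ^ k := Nat.pow_le_pow_right (Fact.out : p.Prime).pos (by omega)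
      _ = _ := hk.symm
      _ ≤ R * R := hM
  exact Nat.mul_self_le_mul_self_iff.mp this

end Cfsg.Agent.S2788
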