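import Cfsg.Statements.S2791
import Cfsg.Agent.Eq.Def_LocalEven
import Cfsg.Agent.Alperin.Centric
import Cfsg.Agent.Alperin.Induction
import Cfsg.Agent.Coprime.Stabilizer

set_option autoImplicit false
open Cfsg
open scoped Pointwise

namespace Cfsg.Agent.S2791

/-- Let S be a Sylow p-subgroup of the finite group G and A an abelian subgroup of S that is strongly closed in S with respect to G. Then A controls strong fusion in G: for some Sylow p-subgroup T containing A, whenever a subset of T is conjugated into T by an element of G, the same elementwise conjugation is induced by an element of N_G(A). -/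
theorem result {G : Type*} [Group G] [Finite G] {p : ℕ} [Fact p.Prime] (S : Sylow p G) (A : Subgroup G) (hA : IsMulCommutative ↥A) (hsc : Cfsg.IsStronglyClosed A (S : Subgroup G)) : Cfsg.ControlsStrongFusion p A := by
  obtain ⟨hAS, hcl⟩ := hsc
  refine ⟨S, hAS, fun X hX => ⟨hX, fun g hg => ?_⟩⟩
  let C : Subgroup G → G → Prop := fun H g =>
    ∃ x ∈ Subgroup.normalizer (A : Set G), ∀ h ∈ H, g * h * g⁻¹ = x * h * x⁻¹
  suffices key : ∀ (H : Subgroup G) (g : G), H ≤ (S : Subgroup G) →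
      H.map (MulAut.conj g).toMonoidHom ≤ (S : Subgroup G) → C H g by
    obtain ⟨x, hx, hxe⟩ := key (Subgroup.closure X) g ((Subgroup.closure_le _).2 hX) (by
      rw [MonoidHom.map_closure, Subgroup.closure_le]
      exact hg)
    exact ⟨x, hx, fun a ha => hxe a (Subgroup.subset_closure ha)⟩
  have hc : ∀ a ∈ A, ∀ b ∈ A, a * b = b * a := fun a ha b hb =>
    congrArg Subtype.val (hA.is_comm.comm (⟨a, ha⟩ : ↥A) ⟨b, hb⟩)
  refine CfsgLib.Alperin.centric_radical_induction S C ?_ ?_ ?_ ?_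
  · intro H K k hHK _ _ ⟨x, hx, h⟩
    exact ⟨x, hx, fun a ha => h a (hHK ha)⟩
  · intro H a b _ _ _ ⟨x, hx, h⟩ ⟨y, hy, h'⟩
    refine ⟨y * x, mul_mem hy hx, fun z hz => ?_⟩
    have h1 := h' (a * z * a⁻¹) ⟨z, hz, rfl⟩
    rw [h z hz] at h1
    calc b * a * z * (b * a)⁻¹ = b * (a * z * a⁻¹) * b⁻¹ := by group
      _ = b * (x * z * x⁻¹) * b⁻¹ := by rw [h z hz]
      _ = y * x * z * (y * x)⁻¹ := by rw [h1]; group
  · intro H c _ hc'
    refine ⟨1, one_mem _, fun z hz => ?_⟩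
    rw [← Subgroup.mem_centralizer_iff.1 hc' z hz]
    group
  intro U T hST hUN _ hrad n hn _
  have hUS : U ≤ (S : Subgroup G) := hST ▸ inf_le_left
  refine ⟨n, ?_, fun _ _ => rfl⟩
  set N := Subgroup.normalizer (U : Set G) with hN
  have hUc : ∀ m ∈ N, ∀ u ∈ U, m * u * m⁻¹ ∈ U := fun m hm u hu =>
    (Subgroup.mem_normalizer_iff.1 hm u).1 hu
  have hAU : ∀ m ∈ N, ∀ a ∈ A ⊓ U, m * a * m⁻¹ ∈ A ⊓ U := fun m hm a ha =>
    ⟨hcl a ha.1 m (hUS (hUc m hm a ha.2)), hUc m hm a ha.2⟩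
  let W : Subgroup G :=
    { carrier := {g | g ∈ N ∧ (∀ a ∈ A ⊓ U, g * a = a * g) ∧ ∀ u ∈ U, g * u * g⁻¹ * u⁻¹ ∈ A}
      one_mem' := ⟨one_mem _, fun a _ => by simp, fun u _ => by simp [A.one_mem]⟩
      mul_mem' := by
        rintro a b ⟨ha, ha1, ha2⟩ ⟨hb, hb1, hb2⟩
        refine ⟨mul_mem ha hb, fun x hx => by rw [mul_assoc, hb1 x hx, ← mul_assoc, ha1 x hx, mul_assoc],
          fun u hu => ?_⟩
        have h1 : b * u * b⁻¹ * u⁻¹ ∈ A ⊓ U := ⟨hb2 u hu, U.mul_mem (hUc b hb u hu) (U.inv_mem hu)⟩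
        have e : a * b * u * (a * b)⁻¹ * u⁻¹ =
            a * (b * u * b⁻¹ * u⁻¹) * a⁻¹ * (a * u * a⁻¹ * u⁻¹) := by group
        rw [e, ha1 _ h1, mul_inv_cancel_right]
        exact A.mul_mem h1.1 (ha2 u hu)
      inv_mem' := by
        rintro a ⟨ha, ha1, ha2⟩
        refine ⟨inv_mem ha, fun x hx => by rw [eq_comm, eq_inv_mul_iff_mul_eq, ← mul_assoc, ha1 x hx,
          mul_inv_cancel_right], fun u hu => ?_⟩
        have h1 := A.inv_mem (ha2 (a⁻¹ * u * a) (by simpa using hUc a⁻¹ (inv_mem ha) u hu))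
        simpa [mul_assoc] using h1 }
  have hCW : Subgroup.centralizer (U : Set G) ≤ W := fun c hc' => by
    refine ⟨Subgroup.centralizer_le_normalizer _ hc', fun a ha =>
      (Subgroup.mem_centralizer_iff.1 hc' a ha.2).symm, fun u hu => ?_⟩
    rw [← Subgroup.mem_centralizer_iff.1 hc' u hu]
    simp [A.one_mem]
  have hWN : W ≤ N := fun x hx => hx.1
  have hNW : N ≤ Subgroup.normalizer (W : Set G) := by
    have key : ∀ m ∈ N, ∀ w ∈ W, m * w * m⁻¹ ∈ W := by
      rintro m hm w ⟨hw, hw1, hw2⟩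
      refine ⟨mul_mem (mul_mem hm hw) (inv_mem hm), fun a ha => ?_, fun u hu => ?_⟩
      · have h1 : Commute w (m⁻¹ * a * m) := hw1 _ (by simpa using hAU m⁻¹ (inv_mem hm) a ha)
        simpa [mul_assoc] using (h1.map (MulAut.conj m).toMonoidHom).eq
      · have hu' : m⁻¹ * u * m ∈ U := by simpa using hUc m⁻¹ (inv_mem hm) u hu
        have h1 : w * (m⁻¹ * u * m) * w⁻¹ * (m⁻¹ * u * m)⁻¹ ∈ A ⊓ U :=
          ⟨hw2 _ hu', U.mul_mem (hUc w hw _ hu') (U.inv_mem hu')⟩
        have h2 := (hAU m hm _ h1).1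
        simpa [mul_assoc] using h2
    intro m hm
    rw [Subgroup.mem_normalizer_iff]
    intro w
    refine ⟨key m hm w, fun h => ?_⟩
    simpa [mul_assoc] using key m⁻¹ (inv_mem hm) _ h
  have hWC : W ≤ Subgroup.centralizer (U : Set G) ⊔ ((S : Subgroup G) ⊓ W) := by
    obtain ⟨k, hk⟩ := (S.isPGroup'.to_le hUS).exists_card_eq
    set D := Subgroup.centralizer (U : Set G) ⊔ ((S : Subgroup G) ⊓ W) with hD
    have hDW : D ≤ W := sup_le hCW inf_le_right
    have h1 : ¬ p ∣ D.relIndex W := fun h => CfsgLib.Alperin.not_dvd_relIndex_inf S hUN hWN hNW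
      (h.trans (Dvd.intro_left _ (Subgroup.relIndex_mul_relIndex _ D W le_sup_right hDW)))
    set Cw := (Subgroup.centralizer (U : Set G)).subgroupOf W with hCw
    haveI : Cw.Normal := ⟨fun c hc' w => by
      rw [hCw, Subgroup.mem_subgroupOf, Subgroup.mem_centralizer_iff] at *
      intro u hu
      have hu' : (w : G)⁻¹ * u * w ∈ U := by simpa using hUc _ (inv_mem w.2.1) u hu
      have h2 : Commute ((w : G)⁻¹ * u * w) (c : G) := hc' _ hu'
      simpa [mul_assoc] using (h2.map (MulAut.conj (w : G)).toMonoidHom).eq⟩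
    have hp' : IsPGroup p (↥W ⧸ Cw) := by
      intro q
      obtain ⟨w, rfl⟩ := QuotientGroup.mk_surjective q
      refine ⟨k, (QuotientGroup.eq_one_iff _).2 ?_⟩
      rw [hCw, Subgroup.mem_subgroupOf, Subgroup.mem_centralizer_iff]
      intro u hu
      obtain ⟨hw, hw1, hw2⟩ := w.2
      have hy : (w : G) * u * (w : G)⁻¹ * u⁻¹ ∈ A ⊓ U :=
        ⟨hw2 u hu, U.mul_mem (hUc _ hw u hu) (U.inv_mem hu)⟩
      have e := CfsgLib.Coprime.conj_pow_of_conj_eq_mul (a := (w : G)) (x := u)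
        (y := (w : G) * u * (w : G)⁻¹ * u⁻¹) (by group) (hw1 _ hy) (p ^ k)
      have hyk : ((w : G) * u * (w : G)⁻¹ * u⁻¹) ^ p ^ k = 1 := by
        rw [← orderOf_dvd_iff_pow_eq_one, ← hk]
        exact Subgroup.orderOf_dvd_natCard U hy.2
      rw [hyk, one_mul] at e
      rw [SubgroupClass.coe_pow]
      exact (mul_inv_eq_iff_eq_mul.1 e).symm
    obtain ⟨l, hl⟩ := hp'.exists_card_eq
    have h2 : D.relIndex W ∣ p ^ l := by
      rw [← hl]
      exact Subgroup.relIndex_dvd_of_le_left W le_sup_left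
    have h3 : D.relIndex W = 1 := Nat.Coprime.eq_one_of_dvd
      ((((Fact.out : p.Prime).coprime_iff_not_dvd.2 h1).pow_left l).symm) h2
    exact Subgroup.relIndex_eq_one.1 h3
  have hSW := hrad W hCW hWN hNW hWC
  have hNA : ∀ a ∈ A, a ∈ N → a ∈ U := fun a ha haN => hSW ⟨hAS ha, haN, fun b hb => hc a ha b hb.1,
    fun u hu => by
      have h1 : u * a⁻¹ * u⁻¹ ∈ A := hcl a⁻¹ (A.inv_mem ha) u
        ((S : Subgroup G).mul_mem ((S : Subgroup G).mul_mem (hUS hu) ((S : Subgroup G).inv_mem (hAS ha)))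
          ((S : Subgroup G).inv_mem (hUS hu)))
      simpa [mul_assoc] using A.mul_mem ha h1⟩
  have hAleU : A ≤ U := by
    by_contra hle
    set B := U ⊔ A with hB
    have hlt : U < B := lt_of_le_of_ne le_sup_left fun h => hle (h ▸ le_sup_right)
    have hBp : IsPGroup p ↥B := S.isPGroup'.to_le (sup_le hUS hAS)
    have hlt2 := CfsgLib.Alperin.lt_inf_normalizer hBp hlt
    obtain ⟨b, hb, hbU⟩ := SetLike.exists_of_lt hlt2
    have hUA : U ≤ Subgroup.normalizer (A : Set G) := by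
      intro u hu
      rw [Subgroup.mem_normalizer_iff]
      have key : ∀ v ∈ U, ∀ a ∈ A, v * a * v⁻¹ ∈ A := fun v hv a ha =>
        hcl a ha v ((S : Subgroup G).mul_mem ((S : Subgroup G).mul_mem (hUS hv) (hAS ha))
          ((S : Subgroup G).inv_mem (hUS hv)))
      intro a
      exact ⟨key u hu a, fun h => by simpa [mul_assoc] using key u⁻¹ (U.inv_mem hu) _ h⟩
    have hb' : b ∈ (U : Set G) * (A : Set G) := by
      rw [← Subgroup.coe_mul_of_left_le_normalizer_right U A hUA]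
      exact hb.1
    obtain ⟨u, hu, a, ha, rfl⟩ := hb'
    refine hbU (U.mul_mem hu (hNA a ha ?_))
    have h1 := mul_mem (inv_mem (Subgroup.le_normalizer hu : u ∈ N)) hb.2
    simpa using h1
  rw [Subgroup.mem_normalizer_iff]
  have key : ∀ m ∈ N, ∀ a ∈ A, m * a * m⁻¹ ∈ A := fun m hm a ha => (hAU m hm a ⟨ha, hAleU ha⟩).1
  intro a
  exact ⟨key n hn a, fun h => by simpa [mul_assoc] using key n⁻¹ (inv_mem hn) _ h⟩

end Cfsg.Agent.S2791
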