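import Cfsg.Statements.S2792
import Cfsg.Agent.CharP.WeakTransferControl
import Cfsg.Agent.Coprime.Glauberman

set_option autoImplicit false
open Cfsg

namespace Cfsg.Agent.S2792

/-- Let S be a Sylow p-subgroup of the finite group G and W a subgroup of S weakly closed in S with respect to G. If S ∩ G' ≠ S ∩ (N_G(W))', then there are x ∈ S, z ∈ W and a maximal subgroup W₀ of W such that the iterated commutator [x, z; p−1] (with [x, z] = x⁻¹z⁻¹xz and [x, z; i+1] = [[x, z; i], z]) lies in W₀ but not in the Frattini subgroup of W₀; in particular [x, z; p−1] ≠ 1. -/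
theorem result {G : Type*} [Group G] [Finite G] {p : ℕ} [Fact p.Prime] (S : Sylow p G) (W : Subgroup G) (hW : Cfsg.IsWeaklyClosed W (S : Subgroup G)) (h : (S : Subgroup G) ⊓ commutator G ≠ (S : Subgroup G) ⊓ ⁅Subgroup.normalizer (W : Set G), Subgroup.normalizer (W : Set G)⁆) : ∃ x ∈ (S : Subgroup G), ∃ z ∈ W, ∃ W₀ : Subgroup ↥W, IsCoatom W₀ ∧ (fun y : G => y⁻¹ * z⁻¹ * y * z)^[p - 1] x ∈ W₀.map W.subtype ∧ (fun y : G => y⁻¹ * z⁻¹ * y * z)^[p - 1] x ∉ ((frattini ↥W₀).map W₀.subtype).map W.subtype := by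
  obtain ⟨A, _, hA, R, z, hz, τ, x, hx, hRS, hzW, hzR, hzp, hWle, hτ⟩ :=
    CfsgLib.CharP.exists_witness_of_inter_ne S W hW h
  have hp : p.Prime := Fact.out
  -- `W ⊓ R` is maximal in `W`
  have hW₀ : IsCoatom (R.subgroupOf W) := by
    refine ⟨fun htop => hzR ((Subgroup.subgroupOf_eq_top.mp htop) hzW), fun M hM => ?_⟩
    obtain ⟨⟨m, hmW⟩, hmM, hmR⟩ := SetLike.exists_of_lt hM
    rw [Subgroup.mem_subgroupOf] at hmR
    have hgen : ∀ w ∈ W, ∃ j : ℕ, ∃ r ∈ R, w = z ^ j * r := by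
      intro w hw
      have hw' := hWle hw
      rw [sup_comm, ← SetLike.mem_coe, Subgroup.coe_mul_of_left_le_normalizer_right _ R
        (Subgroup.zpowers_le.mpr hz)] at hw'
      obtain ⟨u, hu, r, hr, rfl⟩ := hw'
      obtain ⟨j, hj⟩ : ∃ j : ℕ, z ^ j = u := by
        simpa [Submonoid.mem_powers_iff] using mem_powers_iff_mem_zpowers.mpr hu
      exact ⟨j, r, hr, by rw [hj]⟩
    obtain ⟨j, r, hr, rfl⟩ := hgen m hmW
    have hj : ¬ p ∣ j := fun ⟨c, hc⟩ => hmR (mul_mem (by rw [hc, pow_mul]; exact pow_mem hzp c) hr)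
    obtain ⟨a, ha⟩ : ∃ a : ℕ, a * j ≡ 1 [MOD p] :=
      CfsgLib.Coprime.exists_mul_modEq_one ((hp.coprime_iff_not_dvd.mpr hj).symm)
    have hrW : r ∈ W := by simpa using mul_mem (inv_mem (pow_mem hzW j)) hmW
    have hzj : (⟨z, hzW⟩ : W) ^ j ∈ M := by
      have h1 : (⟨z ^ j * r, hmW⟩ : W) * (⟨r, hrW⟩ : W)⁻¹ = (⟨z, hzW⟩ : W) ^ j := by
        ext; simp
      rw [← h1]
      exact mul_mem hmM (inv_mem (hM.le (Subgroup.mem_subgroupOf.mpr hr)))
    have hzM : (⟨z, hzW⟩ : W) ∈ M := by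
      have hpM : (⟨z, hzW⟩ : W) ^ p ∈ M := hM.le (Subgroup.mem_subgroupOf.mpr (by simpa using hzp))
      have h2 : 1 ≤ a * j := by
        rcases Nat.eq_zero_or_pos (a * j) with h0 | h0
        · rw [h0, Nat.ModEq, Nat.zero_mod, Nat.one_mod_eq_one.mpr hp.ne_one] at ha
          exact absurd ha (by omega)
        · exact h0
      obtain ⟨c, hc⟩ := (Nat.modEq_iff_dvd' h2).mp ha.symm
      have h3 : (⟨z, hzW⟩ : W) ^ (a * j) = (⟨z, hzW⟩ : W) * ((⟨z, hzW⟩ : W) ^ p) ^ c := by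
        rw [← pow_mul, ← pow_succ']
        congr 1
        omega
      have h4 : (⟨z, hzW⟩ : W) ^ (a * j) ∈ M := by
        rw [mul_comm, pow_mul]; exact pow_mem hzj a
      rw [h3] at h4
      exact (Subgroup.mul_mem_cancel_right M (pow_mem hpM c)).mp h4
    rw [eq_top_iff]
    rintro ⟨w, hw⟩ -
    obtain ⟨i, r', hr', rfl⟩ := hgen w hw
    have hr'W : r' ∈ W := by simpa using mul_mem (inv_mem (pow_mem hzW i)) hw
    have h5 : (⟨z ^ i * r', hw⟩ : W) = (⟨z, hzW⟩ : W) ^ i * ⟨r', hr'W⟩ := by ext; simp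
    rw [h5]
    exact mul_mem (pow_mem hzM i) (hM.le (Subgroup.mem_subgroupOf.mpr hr'))
  set f := fun y : G => y⁻¹ * z⁻¹ * y * z with hf
  have hcR : f^[p - 1] x ∈ R := CfsgLib.CharP.commMap_iterate_mem hz hx (p - 1)
  have hSW : (S : Subgroup G) ≤ Subgroup.normalizer (W : Set G) := by
    intro s hs
    rw [Subgroup.mem_normalizer_iff_map_conj_eq]
    refine hW.2 s ?_
    conv_rhs => rw [← Subgroup.mem_normalizer_iff_map_conj_eq.mp (Subgroup.le_normalizer hs)]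
    exact Subgroup.map_mono hW.1
  have hcW : f^[p - 1] x ∈ W := by
    obtain ⟨j, hj⟩ : ∃ j, p - 1 = j + 1 := ⟨p - 2, by have := hp.two_le; omega⟩
    rw [hj, Function.iterate_succ_apply']
    have hy : f^[j] x ∈ Subgroup.normalizer (W : Set G) :=
      hSW (hRS (CfsgLib.CharP.commMap_iterate_mem hz hx j))
    exact mul_mem ((Subgroup.mem_normalizer_iff''.mp hy _).mp (inv_mem hzW)) hzW
  refine ⟨x, hRS hx, z, hzW, R.subgroupOf W, hW₀, ⟨⟨_, hcW⟩, hcR, rfl⟩, ?_⟩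
  rintro ⟨w₁, ⟨w, hw, rfl⟩, hwc⟩
  apply hτ
  let τ₀ : R.subgroupOf W →* A := MonoidHom.mk' (fun u => τ ⟨((u : W) : G), Subgroup.mem_subgroupOf.mp u.2⟩)
    (fun u v => by rw [← map_mul]; rfl)
  have hker := CfsgLib.CharP.frattini_le_ker_of_elementary (p := p) τ₀
    (fun a b => mul_comm _ _) (fun a => hA _) hw
  rw [← MonoidHom.mem_ker.mp hker]
  exact congrArg τ (Subtype.ext hwc.symm)

end Cfsg.Agent.S2792
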