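import Cfsg.Statements.S2807
import Mathlib
import Cfsg.Agent.Eq.Def_PLocal
import Cfsg.Agent.CharP.WeakTransferControl

set_option autoImplicit false
open Cfsg

namespace Cfsg.Agent.S2807

open CfsgLib.CharP

theorem exists_zmod_char {p : ℕ} [Fact p.Prime] {A : Type*} [CommGroup A] (hA : ∀ a : A, a ^ p = 1)
    {a : A} (ha : a ≠ 1) : ∃ f : A →* Multiplicative (ZMod p), f a ≠ 1 := by
  letI : Module (ZMod p) (Additive A) := AddCommGroup.zmodModule (G := Additive A) (n := p) fun x => congrArg Additive.ofMul (hA x.toMul)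
  haveI : Module.Free (ZMod p) (Additive A) := Module.Free.of_divisionRing _ _
  have hx : Additive.ofMul a ≠ (0 : Additive A) := ha
  obtain ⟨f, hf⟩ : ∃ f : Additive A →ₗ[ZMod p] ZMod p, f (Additive.ofMul a) ≠ 0 :=
    Module.Projective.exists_dual_ne_zero (ZMod p) hx
  exact ⟨AddMonoidHom.toMultiplicativeRight f.toAddMonoidHom, fun h => hf h⟩

theorem padicValNat_factorial_sq (p : ℕ) [hp : Fact p.Prime] :
    padicValNat p (p ^ 2).factorial = p + 1 := by
  have h1 : padicValNat p p.factorial = 1 := by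
    have h2 := padicValNat_factorial_mul (p := p) 1
    simpa using h2
  rw [sq, padicValNat_factorial_mul, h1, add_comm]

/-- Let S be a Sylow p-subgroup of the finite group G. If S ∩ G' ≠ S ∩ (N_G(S))' (derived subgroups), then the wreath product Z_p ≀ Z_p — realised as a Sylow p-subgroup of the symmetric group of degree p² — is a homomorphic image of S. -/
theorem result {G : Type*} [Group G] [Finite G] {p : ℕ} [Fact p.Prime] (S : Sylow p G) (h : (S : Subgroup G) ⊓ commutator G ≠ (S : Subgroup G) ⊓ ⁅Subgroup.normalizer ((S : Subgroup G) : Set G), Subgroup.normalizer ((S : Subgroup G) : Set G)⁆) : ∃ (P : Sylow p (Equiv.Perm (Fin (p ^ 2)))) (f : ↥(S : Subgroup G) →* ↥(P : Subgroup (Equiv.Perm (Fin (p ^ 2))))), Function.Surjective f := by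
  classical
  have hp : p.Prime := Fact.out
  have hW : IsWeaklyClosed (S : Subgroup G) (S : Subgroup G) := by
    refine ⟨le_rfl, fun g hg => Subgroup.eq_of_le_of_card_ge hg (le_of_eq ?_)⟩
    exact (Subgroup.card_map_of_injective (f := (MulAut.conj g).toMonoidHom) (MulAut.conj g).injective).symm
  obtain ⟨A, _, hA, R, z, hz, τ₀, x, hx, hRS, hzS, hzR, hzp, hgen, hτ₀⟩ :=
    exists_witness_of_inter_ne S _ hW h
  obtain ⟨fA, hfA⟩ := exists_zmod_char hA hτ₀
  set τ : R →* Multiplicative (ZMod p) := fA.comp τ₀ with hτdef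
  have hB : ∀ b : Multiplicative (ZMod p), b ^ p = 1 := fun b => by
    have h1 := pow_card_eq_one' (x := b)
    rwa [Nat.card_congr (Multiplicative.toAdd (α := ZMod p)), Nat.card_zmod] at h1
  let cj : R →* R := MonoidHom.mk'
    (fun y => ⟨z⁻¹ * (y : G) * z, (Subgroup.mem_normalizer_iff''.1 hz y).1 y.2⟩)
    fun a b => Subtype.ext (by simp [mul_assoc])
  -- the characters `y ↦ τ [y, z; j]`
  have hhom : ∀ j : ℕ, ∃ χ : R →* Multiplicative (ZMod p),
      ∀ y : R, χ y = τ ⟨(commMap z)^[j] y, commMap_iterate_mem hz y.2 j⟩ := by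
    intro j
    induction j with
    | zero => exact ⟨τ, fun y => rfl⟩
    | succ j ih =>
      obtain ⟨χ, hχ⟩ := ih
      refine ⟨χ⁻¹ * χ.comp cj, fun y => ?_⟩
      have h1 : τ ⟨(commMap z)^[j + 1] y, commMap_iterate_mem hz y.2 (j + 1)⟩ = χ (y⁻¹ * cj y) := by
        rw [hχ (y⁻¹ * cj y)]
        refine congrArg τ (Subtype.ext ((Function.iterate_succ_apply _ j _).trans ?_))
        refine congrArg _ ?_
        show commMap z (y : G) = (y : G)⁻¹ * (z⁻¹ * y * z)
        simp [commMap, mul_assoc]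
      rw [h1, map_mul, map_inv]
      rfl

  choose χ hχ using hhom
  have hshift : ∀ (y : R) (i j : ℕ),
      χ j ⟨(commMap z)^[i] y, commMap_iterate_mem hz y.2 i⟩ = χ (j + i) y := by
    intro y i j
    rw [hχ, hχ]
    exact congrArg τ (Subtype.ext (Function.iterate_add_apply _ j i _).symm)
  -- vanishing from `p` on
  have hp1 : ∀ y : R, χ p y = 1 := by
    intro y
    let v : ℕ → Multiplicative (ZMod p) := fun k =>
      τ ⟨(z ^ k)⁻¹ * y * z ^ k, (Subgroup.mem_normalizer_iff''.mp (pow_mem hz k) (y : G)).mp y.2⟩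
    have h0 : χ (p - 1) y = ∏ k ∈ Finset.range p, v k :=
      (hχ _ y).trans (prod_conj_eq hB hz τ y.2).symm
    have h1 : χ (p - 1) (cj y) = ∏ k ∈ Finset.range p, v (k + 1) := by
      refine (hχ _ (cj y)).trans ((prod_conj_eq hB hz τ (cj y).2).symm.trans
        (Finset.prod_congr rfl fun k _ => congrArg τ (Subtype.ext ?_)))
      show (z ^ k)⁻¹ * (z⁻¹ * y * z) * z ^ k = (z ^ (k + 1))⁻¹ * y * z ^ (k + 1)
      rw [pow_succ']
      group
    have hend : v p = v 0 := by
      have h2 : (⟨(z ^ p)⁻¹ * y * z ^ p,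
          (Subgroup.mem_normalizer_iff''.mp (pow_mem hz p) (y : G)).mp y.2⟩ : R) =
          (⟨z ^ p, hzp⟩ : R)⁻¹ * y * ⟨z ^ p, hzp⟩ := Subtype.ext rfl
      show τ _ = τ _
      rw [h2, map_mul, map_mul, map_inv, mul_comm, mul_inv_cancel_left]
      exact congrArg τ (Subtype.ext (by simp))
    have h3 : χ (p - 1) (cj y) = χ (p - 1) y := by
      rw [h0, h1]
      have h4 := Finset.prod_range_succ v p
      rw [Finset.prod_range_succ', hend] at h4
      exact mul_right_cancel h4
    have h5 : χ p y = χ (p - 1) (y⁻¹ * cj y) := by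
      rw [hχ, hχ]
      refine congrArg τ (Subtype.ext ((congrArg (fun i => (commMap z)^[i] (y : G))
        (Nat.sub_add_cancel hp.one_le).symm).trans ((Function.iterate_succ_apply _ (p - 1) _).trans ?_)))
      refine congrArg _ ?_
      show commMap z (y : G) = (y : G)⁻¹ * (z⁻¹ * y * z)
      simp [commMap, mul_assoc]
    rw [h5, map_mul, map_inv, h3, inv_mul_cancel]
  have hvan : ∀ (y : R) (m : ℕ), p ≤ m → χ m y = 1 := by
    intro y m hm
    have h1 := hshift y (m - p) p
    rw [Nat.add_sub_cancel' hm, hp1] at h1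
    exact h1.symm
  have hw : χ (p - 1) ⟨x, hx⟩ ≠ 1 := by rw [hχ]; exact hfA
  -- the filtration of `R`
  let F : ℕ → Subgroup R := fun m => ⨅ j ∈ {j : ℕ | m ≤ j ∧ j < p}, (χ j).ker
  have hFmem : ∀ (m : ℕ) (y : R), y ∈ F m ↔ ∀ j, m ≤ j → j < p → χ j y = 1 := by
    intro m y
    simp [F, Subgroup.mem_iInf]
  have hRp : IsPGroup p R := S.2.to_le hRS
  have hstep : ∀ m, m < p → p * Nat.card (F m) ≤ Nat.card (F (m + 1)) := by
    intro m hm
    have hle : F m ≤ F (m + 1) := fun y hy => (hFmem _ y).2 fun j hj hjp => (hFmem m y).1 hy j (by omega) hjp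
    set y₀ : R := ⟨(commMap z)^[p - 1 - m] x, commMap_iterate_mem hz hx _⟩
    have hy₀ : ∀ j, χ j y₀ = χ (j + (p - 1 - m)) ⟨x, hx⟩ := fun j => hshift ⟨x, hx⟩ _ j
    have hlt : F m < F (m + 1) := by
      refine lt_of_le_not_ge hle fun hge => ?_
      have h1 : y₀ ∈ F (m + 1) := (hFmem _ _).2 fun j hj _ => by rw [hy₀]; exact hvan _ _ (by omega)
      refine hw ?_
      have h2 := (hFmem m y₀).1 (hge h1) m le_rfl hm
      rwa [hy₀, Nat.add_sub_cancel' (by omega : m ≤ p - 1)] at h2
    obtain ⟨a, ha⟩ := IsPGroup.iff_card.1 (hRp.to_subgroup (F m))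
    obtain ⟨b, hb⟩ := IsPGroup.iff_card.1 (hRp.to_subgroup (F (m + 1)))
    have hab : a < b := by
      by_contra hba
      exact hlt.ne (Subgroup.eq_of_le_of_card_ge hle
        (by rw [ha, hb]; exact Nat.pow_le_pow_right hp.pos (not_lt.1 hba)))
    rw [ha, hb, ← pow_succ']
    exact Nat.pow_le_pow_right hp.pos hab
  have hchain : ∀ m, m ≤ p → p ^ m * Nat.card (F 0) ≤ Nat.card (F m) := by
    intro m
    induction m with
    | zero => intro _; simp
    | succ m ih =>
      intro hm
      calc p ^ (m + 1) * Nat.card (F 0) = p * (p ^ m * Nat.card (F 0)) := by ring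
        _ ≤ p * Nat.card (F m) := Nat.mul_le_mul_left _ (ih (by omega))
        _ ≤ _ := hstep m (by omega)
  have hF0 : p ^ p * Nat.card (F 0) ≤ Nat.card R :=
    (hchain p le_rfl).trans (Subgroup.card_le_card_group _)
  -- the action of `S` on the cosets of the kernel of `τ`
  set RS := R.subgroupOf (S : Subgroup G) with hRSdef
  have hRSn : RS.Normal := (Subgroup.normal_subgroupOf_iff_le_normalizer hRS).2
    (hgen.trans (sup_le Subgroup.le_normalizer (Subgroup.zpowers_le.2 hz)))
  set zS : (S : Subgroup G) := ⟨z, hzS⟩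
  have hRSi : RS.index = p := by
    haveI := hRSn
    have hcyc : ∀ q : (S : Subgroup G) ⧸ RS, q ∈ Subgroup.zpowers (QuotientGroup.mk' RS zS) := by
      intro q
      obtain ⟨⟨s, hs⟩, rfl⟩ := QuotientGroup.mk'_surjective RS q
      have h1 := hgen hs
      rw [sup_comm, ← SetLike.mem_coe, Subgroup.coe_mul_of_left_le_normalizer_right _ R
        (Subgroup.zpowers_le.2 hz)] at h1
      obtain ⟨_, ⟨i, rfl⟩, r, hr, hsr⟩ := h1
      refine ⟨i, ?_⟩
      simp only
      rw [← map_zpow]
      refine (QuotientGroup.eq).2 ?_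
      rw [hRSdef, Subgroup.mem_subgroupOf]
      simp only [Subgroup.coe_mul, InvMemClass.coe_inv, SubgroupClass.coe_zpow]
      change z ^ i * r = s at hsr
      rwa [← hsr, inv_mul_cancel_left]
    have hord : orderOf (QuotientGroup.mk' RS zS) = p := by
      refine orderOf_eq_prime ?_ ?_
      · rw [← map_pow]
        exact (QuotientGroup.eq_one_iff _).2 hzp
      · exact fun h1 => hzR ((QuotientGroup.eq_one_iff zS).1 h1)
    have h2 := Nat.card_zpowers (QuotientGroup.mk' RS zS)
    rw [hord] at h2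
    rw [Subgroup.index_eq_card]
    exact (Nat.card_congr (Equiv.subtypeUnivEquiv hcyc)).symm.trans h2
  let e : ↥RS ≃* R := Subgroup.subgroupOfEquivOfLe hRS
  set τS : ↥RS →* Multiplicative (ZMod p) := τ.comp e.toMonoidHom with hτS
  have hτtop : τ.range = ⊤ := by
    have hc : Nat.card (Multiplicative (ZMod p)) = p := by
      rw [Nat.card_congr (Multiplicative.toAdd (α := ZMod p)), Nat.card_zmod]
    haveI : Fact (Nat.card (Multiplicative (ZMod p))).Prime := ⟨by rw [hc]; exact hp⟩
    refine (Subgroup.eq_bot_or_eq_top_of_prime_card τ.range).resolve_left fun h1 => hfA ?_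
    rw [MonoidHom.range_eq_bot_iff] at h1
    exact DFunLike.congr_fun h1 _
  set KS := τS.ker.map RS.subtype with hKS
  have hKSi : KS.index = p ^ 2 := by
    rw [hKS, Subgroup.index_map_subtype, hRSi, Subgroup.index_ker, hτS,
      MonoidHom.range_comp, MonoidHom.range_eq_top.2 e.surjective, ← MonoidHom.range_eq_map, hτtop, Subgroup.card_top,
      Nat.card_congr (Multiplicative.toAdd (α := ZMod p)), Nat.card_zmod, sq]
  let eΩ : (S : Subgroup G) ⧸ KS ≃ Fin (p ^ 2) :=
    Finite.equivFinOfCardEq (by rw [← Subgroup.index_eq_card, hKSi])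
  set Φ : (S : Subgroup G) →* Equiv.Perm (Fin (p ^ 2)) :=
    (Equiv.permCongrHom eΩ).toMonoidHom.comp (MulAction.toPermHom _ ((S : Subgroup G) ⧸ KS)) with hΦ
  have hker : Φ.ker = KS.normalCore := by
    rw [hΦ, MonoidHom.ker_comp_of_injective _ _ (Equiv.permCongrHom eΩ).injective,
      Subgroup.normalCore_eq_ker]
  -- the core lies in `F 0`
  have hcoreR : ∀ c : (S : Subgroup G), c ∈ KS.normalCore → ∃ hc : (c : G) ∈ R, τ ⟨c, hc⟩ = 1 := by
    intro c hc
    obtain ⟨⟨c', hc'R⟩, hc'k, hcc⟩ := KS.normalCore_le hc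
    subst hcc
    exact ⟨hc'R, hc'k⟩
  have hcore : Nat.card KS.normalCore ≤ Nat.card (F 0) := by
    refine Nat.card_le_card_of_injective
      (fun c : KS.normalCore => (⟨⟨((c : (S : Subgroup G)) : G), (hcoreR _ c.2).1⟩, ?_⟩ : F 0)) ?_
    · refine (hFmem _ _).2 fun j _ _ => ?_
      rw [hχ]
      have hiter : ∀ k, ∃ d : (S : Subgroup G), d ∈ KS.normalCore ∧
          (d : G) = (commMap z)^[k] ((c : (S : Subgroup G)) : G) := by
        intro k
        induction k with
        | zero => exact ⟨_, c.2, rfl⟩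
        | succ k ih =>
          obtain ⟨d, hd, hde⟩ := ih
          refine ⟨d⁻¹ * (zS⁻¹ * d * zS⁻¹⁻¹), mul_mem (inv_mem hd)
            (KS.normalCore_normal.conj_mem d hd zS⁻¹), ?_⟩
          rw [Function.iterate_succ_apply', ← hde]
          simp [commMap, mul_assoc, zS]
      obtain ⟨d, hd, hde⟩ := hiter j
      obtain ⟨hdR, hdτ⟩ := hcoreR d hd
      rw [← hdτ]
      exact congrArg τ (Subtype.ext hde.symm)
    · intro a b hab
      exact Subtype.ext (Subtype.ext (congrArg (fun v : F 0 => ((v : R) : G)) hab))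
  have hcardS : Nat.card (S : Subgroup G) = p * Nat.card R := by
    rw [← RS.card_mul_index, hRSi, Nat.card_congr e.toEquiv, mul_comm]
  have hbig : p ^ (p + 1) ≤ Nat.card Φ.range := by
    have h1 : Nat.card Φ.ker * Nat.card Φ.range = Nat.card (S : Subgroup G) := by
      rw [← Subgroup.index_ker, Subgroup.card_mul_index]
    rw [hker] at h1
    refine Nat.le_of_mul_le_mul_left ?_ (Nat.card_pos (α := KS.normalCore))
    rw [h1, hcardS]
    calc Nat.card KS.normalCore * p ^ (p + 1) ≤ Nat.card (F 0) * p ^ (p + 1) :=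
          Nat.mul_le_mul_right _ hcore
      _ = p * (p ^ p * Nat.card (F 0)) := by ring
      _ ≤ p * Nat.card R := Nat.mul_le_mul_left _ hF0
  obtain ⟨P, hP⟩ := (S.2.of_surjective Φ.rangeRestrict Φ.rangeRestrict_surjective : IsPGroup p Φ.range).exists_le_sylow
  have hPc : Nat.card (P : Subgroup (Equiv.Perm (Fin (p ^ 2)))) = p ^ (p + 1) := by
    rw [P.card_eq_multiplicity, Nat.card_perm, Nat.card_eq_fintype_card, Fintype.card_fin,
      Nat.factorization_def _ hp, padicValNat_factorial_sq]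
  have heq : Φ.range = (P : Subgroup _) := Subgroup.eq_of_le_of_card_ge hP (hPc ▸ hbig)
  refine ⟨P, Φ.codRestrict _ fun s => heq ▸ ⟨s, rfl⟩, fun y => ?_⟩
  obtain ⟨s, hs⟩ := heq.ge y.2
  exact ⟨s, Subtype.ext hs⟩

end Cfsg.Agent.S2807
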