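import Cfsg.Statements.S2941
import Cfsg.Agent.CharP.Climb
import Cfsg.Agent.Eq.Def_JComponents

set_option autoImplicit false
open Cfsg

namespace Cfsg.Agent.S2941

variable {G : Type*} [Group G]

theorem normalizer_inf {A B : Subgroup G} {w : G} (ha : w ∈ Subgroup.normalizer (A : Set G))
    (hb : w ∈ Subgroup.normalizer (B : Set G)) : w ∈ Subgroup.normalizer ((A ⊓ B : Subgroup G) : Set G) := by
  rw [Subgroup.mem_normalizer_iff] at *
  intro u
  rw [Subgroup.mem_inf, Subgroup.mem_inf, ha u, hb u]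

/-- If `J` acts trivially on `W` modulo `V`, then so does `K = [K, J]`. -/
theorem extend_to_commutator {K J : Subgroup G} (hcomm : ⁅K, J⁆ = K) (W V : Subgroup G)
    (hN : ∀ w ∈ K ⊔ J, w ∈ Subgroup.normalizer (W : Set G) ∧ w ∈ Subgroup.normalizer (V : Set G))
    (hJ : ∀ j ∈ J, ∀ u ∈ W, j * u * j⁻¹ * u⁻¹ ∈ V) :
    ∀ k ∈ K, ∀ u ∈ W, k * u * k⁻¹ * u⁻¹ ∈ V := by
  let A : Subgroup G :=
    { carrier := {z | z ∈ Subgroup.normalizer (W : Set G) ∧ z ∈ Subgroup.normalizer (V : Set G) ∧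
        ∀ u ∈ W, z * u * z⁻¹ * u⁻¹ ∈ V}
      one_mem' := ⟨one_mem _, one_mem _, fun u _ => by simp⟩
      mul_mem' := by
        rintro z w ⟨hz1, hz2, hz3⟩ ⟨hw1, hw2, hw3⟩
        refine ⟨mul_mem hz1 hw1, mul_mem hz2 hw2, fun u hu => ?_⟩
        simpa [mul_assoc] using mul_mem ((Subgroup.mem_normalizer_iff.mp hz2 _).mp (hw3 u hu)) (hz3 u hu)
      inv_mem' := by
        rintro z ⟨hz1, hz2, hz3⟩
        refine ⟨inv_mem hz1, inv_mem hz2, fun u hu => ?_⟩
        simpa [mul_assoc] using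
          inv_mem (hz3 _ ((Subgroup.mem_normalizer_iff.mp (inv_mem hz1) u).mp hu)) }
  have hJA : ∀ j ∈ J, j ∈ A := fun j hj =>
    ⟨(hN j (Subgroup.mem_sup_right hj)).1, (hN j (Subgroup.mem_sup_right hj)).2, hJ j hj⟩
  have hKA : ⁅K, J⁆ ≤ A := by
    refine Subgroup.commutator_le.mpr fun k hk j hj => ?_
    obtain ⟨hk1, hk2⟩ := hN k (Subgroup.mem_sup_left hk)
    obtain ⟨hj1, hj2, hj3⟩ := hJA j hj
    have hkj : k * j * k⁻¹ ∈ A := by
      refine ⟨mul_mem (mul_mem hk1 hj1) (inv_mem hk1), mul_mem (mul_mem hk2 hj2) (inv_mem hk2),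
        fun u hu => ?_⟩
      have h := (Subgroup.mem_normalizer_iff.mp hk2 _).mp
        (hj3 _ ((Subgroup.mem_normalizer_iff.mp (inv_mem hk1) u).mp hu))
      simpa [mul_assoc] using h
    simpa [commutatorElement_def] using mul_mem hkj (inv_mem (hJA j hj))
  intro k hk u hu
  exact (hKA (hcomm.symm ▸ hk)).2.2 u hu

/-- An element moving the generators of odd order only by a 2-subgroup normalizing `K` normalizes `K`. -/
theorem mem_normalizer_of_commutators [Finite G] {K : Subgroup G}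
    (hgen : Subgroup.closure {g : G | g ∈ K ∧ Odd (orderOf g)} = K) {V : Subgroup G}
    (hV : IsPGroup 2 ↥V) (hVK : V ≤ Subgroup.normalizer (K : Set G)) {q : G}
    (h : ∀ k ∈ K, k * q * k⁻¹ * q⁻¹ ∈ V) : q ∈ Subgroup.normalizer (K : Set G) := by
  set S := Subgroup.normalizer (K : Set G) with hS
  haveI hn : (K.subgroupOf S).Normal :=
    (Subgroup.normal_subgroupOf_iff_le_normalizer Subgroup.le_normalizer).mpr le_rfl
  have hle : K.map (MulAut.conj q).toMonoidHom ≤ K := by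
    rw [Subgroup.map_le_iff_le_comap]
    refine hgen.symm.le.trans ((Subgroup.closure_le _).mpr ?_)
    rintro k ⟨hk, hodd⟩
    show q * k * q⁻¹ ∈ K
    set c := k⁻¹ * q * k * q⁻¹ with hcdef
    have hc : c ∈ V := by simpa using h k⁻¹ (inv_mem hk)
    have hkc : q * k * q⁻¹ = k * c := by rw [hcdef]; group
    have hqkS : q * k * q⁻¹ ∈ S := hkc ▸ mul_mem (Subgroup.le_normalizer hk) (hVK hc)
    have himg : (QuotientGroup.mk' (K.subgroupOf S)) ⟨_, hqkS⟩ = 1 := by
      apply CfsgLib.LocalP.eq_one_of_mem_of_coprime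
        ((hV.comap_of_injective S.subtype S.subtype_injective).map (QuotientGroup.mk' (K.subgroupOf S)))
      · refine ⟨⟨c, hVK hc⟩, hc, ?_⟩
        have e : (⟨_, hqkS⟩ : ↥S) = ⟨k, Subgroup.le_normalizer hk⟩ * ⟨c, hVK hc⟩ := Subtype.ext hkc
        have hk1 : (QuotientGroup.mk' (K.subgroupOf S)) ⟨k, Subgroup.le_normalizer hk⟩ = 1 :=
          (QuotientGroup.eq_one_iff _).mpr hk
        rw [e, map_mul, hk1, one_mul]
      · refine Nat.coprime_two_right.mpr (hodd.of_dvd_nat ?_)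
        refine (orderOf_map_dvd _ _).trans ?_
        rw [Subgroup.orderOf_mk]
        exact (MulEquiv.orderOf_eq (MulAut.conj q) k).dvd
    exact (QuotientGroup.eq_one_iff (N := K.subgroupOf S) _).mp himg
  exact Subgroup.mem_normalizer_iff_map_conj_eq.mpr (Subgroup.eq_of_le_of_card_ge hle
    (le_of_eq (Nat.card_congr (K.equivMapOfInjective _ (MulAut.conj q).injective).toEquiv)))


/-- Let G be a finite group of characteristic 2 type in which every 2-local subgroup is solvable and the centralizer of Ω₁(Z(S)) lies in N_G(S) for every Sylow 2-subgroup S, and let T be a nontrivial 2-subgroup and K a J(T)-component (J the Thompson subgroup generated by the elementary abelian 2-subgroups of largest order). If a subgroup Q is normalized by ⟨K, J(T)⟩ and normalizes J(T), then Q normalizes K. -/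
theorem result {G : Type*} [Group G] [Finite G] (hL : Cfsg.IsCharacteristicTwoType G) (hN : ∀ N : Subgroup G, Cfsg.IsTwoLocal N → Group.IsSolvable ↥N)
    (hZ : ∀ S : Sylow 2 G, Subgroup.centralizer (Cfsg.omegaCenterOf (S : Subgroup G) : Set G) ≤ Subgroup.normalizer ((S : Subgroup G) : Set G)) (T : Subgroup G) (hT : IsPGroup 2 ↥T) (hT1 : T ≠ ⊥) (K : Subgroup G) (hK : Cfsg.IsJComponent T K)
    (Q : Subgroup G) (hQ1 : K ⊔ Cfsg.thompsonSubgroupOf 2 T ≤ Subgroup.normalizer (Q : Set G)) (hQ2 : Q ≤ Subgroup.normalizer (Cfsg.thompsonSubgroupOf 2 T : Set G)) :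
    Q ≤ Subgroup.normalizer (K : Set G) := by
  obtain ⟨hgen, hcomm, -, -, -, -⟩ := hK
  set J := Cfsg.thompsonSubgroupOf 2 T with hJ
  have hJK : J ≤ Subgroup.normalizer (K : Set G) :=
    Subgroup.le_normalizer_iff_commutator_le_left.mpr hcomm.le
  have hJp : IsPGroup 2 ↥J := hT.to_le (Subgroup.map_subtype_le _)
  set U := CfsgLib.CharPClimb.pCoreIn 2 Q with hU
  have hUp : IsPGroup 2 ↥U := CfsgLib.CharPClimb.isPGroup_pCoreIn Q
  have hN : K ⊔ J ≤ Subgroup.normalizer (U : Set G) :=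
    hQ1.trans (CfsgLib.CharPClimb.normalizer_le_normalizer_pCoreIn (p := 2) Q)
  have hQU : Q ≤ Subgroup.normalizer (U : Set G) :=
    Subgroup.le_normalizer.trans (CfsgLib.CharPClimb.normalizer_le_normalizer_pCoreIn (p := 2) Q)
  -- `[Q, J] ≤ J ∩ Q`
  have hQJ : ∀ j ∈ J, ∀ q ∈ Q, j * q * j⁻¹ * q⁻¹ ∈ J ⊓ Q := by
    intro j hj q hq
    refine Subgroup.mem_inf.mpr ⟨?_, mul_mem ((Subgroup.mem_normalizer_iff.mp (hQ1 (Subgroup.mem_sup_right hj)) q).mp hq)
      (inv_mem hq)⟩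
    have := mul_mem hj ((Subgroup.mem_normalizer_iff.mp (hQ2 hq) j⁻¹).mp (inv_mem hj))
    simpa [mul_assoc] using this
  have hJQU : J ⊓ Q ≤ U :=
    CfsgLib.CharPClimb.le_pCoreIn inf_le_right
      (fun q hq => normalizer_inf (hQ2 hq) (Subgroup.le_normalizer hq)) (hJp.to_le inf_le_left)
  -- `[Q, K] ≤ O_2(Q)`, and `O_2(Q)` normalizes `K`
  have h1 : ∀ k ∈ K, ∀ q ∈ Q, k * q * k⁻¹ * q⁻¹ ∈ U :=
    extend_to_commutator hcomm Q U (fun w hw => ⟨hQ1 hw, hN hw⟩) fun j hj q hq => hJQU (hQJ j hj q hq)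
  have hUK : U ≤ Subgroup.normalizer (K : Set G) := by
    set V := U ⊓ Subgroup.normalizer (K : Set G) with hV
    have hVN : ∀ w ∈ K ⊔ J, w ∈ Subgroup.normalizer (U : Set G) ∧ w ∈ Subgroup.normalizer (V : Set G) :=
      fun w hw => ⟨hN hw, normalizer_inf (hN hw)
        (Subgroup.le_normalizer (sup_le Subgroup.le_normalizer hJK hw))⟩
    have h2 := extend_to_commutator hcomm U V hVN fun j hj q hq =>
      Subgroup.mem_inf.mpr ⟨mul_mem ((Subgroup.mem_normalizer_iff.mp (hN (Subgroup.mem_sup_right hj)) q).mp hq) (inv_mem hq),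
        hJK (hQJ j hj q (CfsgLib.CharPClimb.pCoreIn_le Q hq)).1⟩
    exact fun u hu => mem_normalizer_of_commutators hgen (hUp.to_le inf_le_left) inf_le_right
      fun k hk => h2 k hk u hu
  exact fun q hq => mem_normalizer_of_commutators hgen hUp hUK fun k hk => h1 k hk q hq

end Cfsg.Agent.S2941
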