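import Cfsg.Statements.S2946
import Cfsg.Agent.S2941
import Cfsg.Agent.LocalP.ThompsonJ
import Cfsg.Agent.LocalCharP.SylowCenter
import Cfsg.Agent.LocalCharP.CharPLocal
import Cfsg.Agent.PGroup.Normal
import Cfsg.Agent.Eq.Def_JComponents

set_option autoImplicit false
open Cfsg

namespace Cfsg.Agent.S2946


open CfsgLib.LocalP
open scoped commutatorElement Pointwise

section
variable {G : Type*} [Group G]

/-- In a four-group the elements are `1, a, b, a * b`. -/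
private theorem four [Finite G] {W : Subgroup G} (h4 : Nat.card W = 4) (h2 : ∀ w ∈ W, w * w = 1)
    {a b : G} (ha : a ∈ W) (hb : b ∈ W) (ha1 : a ≠ 1) (hb1 : b ≠ 1) (hab : a ≠ b) :
    ∀ u ∈ W, u = 1 ∨ u = a ∨ u = b ∨ u = a * b := by
  classical
  have hne : a * b ≠ 1 := fun h => hab (by
    calc a = a * (b * b) := by rw [h2 b hb, mul_one]
      _ = (a * b) * b := by group
      _ = b := by rw [h, one_mul])
  have h := Set.eq_of_subset_of_ncard_le (s := ({1, a, b, a * b} : Set G)) (t := (W : Set G))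
    (by
      rintro u (rfl | rfl | rfl | rfl)
      exacts [one_mem W, ha, hb, mul_mem ha hb])
    (by
      rw [← Nat.card_coe_set_eq, SetLike.coe_sort_coe, h4, Set.ncard_insert_of_notMem,
        Set.ncard_insert_of_notMem, Set.ncard_pair]
      · simpa [eq_comm] using ha1
      · simp [hab, hb1]
      · simp [ha1.symm, hb1.symm, hne.symm])
    (Set.toFinite _)
  intro u hu
  have hu' : u ∈ ({1, a, b, a * b} : Set G) := h.symm ▸ hu
  simpa using hu'

private theorem normalizer_le_normalizer_omegaCenterOf (N : Subgroup G) :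
    Subgroup.normalizer (N : Set G) ≤ Subgroup.normalizer (Cfsg.omegaCenterOf N : Set G) := by
  intro g hg
  rw [Subgroup.mem_normalizer_iff]
  have key : ∀ g ∈ Subgroup.normalizer (N : Set G), ∀ u ∈ Cfsg.omegaCenterOf N,
      g * u * g⁻¹ ∈ Cfsg.omegaCenterOf N := by
    intro g hg u hu
    obtain ⟨h1, h2, h3⟩ := CfsgLib.LocalCharP.mem_omegaOne_inf_centralizer.mp hu
    refine CfsgLib.LocalCharP.mem_omegaOne_inf_centralizer.mpr
      ⟨(Subgroup.mem_normalizer_iff.mp hg u).mp h1, ?_, by rw [conj_pow, h3]; group⟩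
    rw [Subgroup.mem_centralizer_iff] at h2 ⊢
    intro n hn
    have h4 := h2 _ ((Subgroup.mem_normalizer_iff.mp (inv_mem hg) n).mp hn)
    calc n * (g * u * g⁻¹) = g * ((g⁻¹ * n * (g⁻¹)⁻¹) * u) * g⁻¹ := by group
      _ = g * (u * (g⁻¹ * n * (g⁻¹)⁻¹)) * g⁻¹ := by rw [h4]
      _ = g * u * g⁻¹ * n := by group
  exact fun u => ⟨key g hg u, fun h => by simpa [mul_assoc] using key g⁻¹ (inv_mem hg) _ h⟩

private theorem ncard_le_two_mul [Finite G] {A A₀ : Subgroup G} (a : G)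
    (h : ∀ e ∈ A, e ∈ A₀ ∨ a⁻¹ * e ∈ A₀) : Nat.card A ≤ 2 * Nat.card A₀ := by
  have hsub : (A : Set G) ⊆ (A₀ : Set G) ∪ (fun e => a * e) '' (A₀ : Set G) := by
    intro e he
    rcases h e he with h' | h'
    · exact Or.inl h'
    · exact Or.inr ⟨a⁻¹ * e, h', by group⟩
  have h1 := (Set.ncard_le_ncard hsub (Set.toFinite _)).trans (Set.ncard_union_le _ _)
  have h2 := Set.ncard_image_le (s := (A₀ : Set G)) (f := fun e => a * e) (Set.toFinite _)
  simp only [← Nat.card_coe_set_eq, SetLike.coe_sort_coe] at h1 h2 ⊢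
  omega

end


/-- Let G be a finite group of characteristic 2 type in which every 2-local subgroup is solvable and the centralizer of Ω₁(Z(S)) lies in N_G(S) for every Sylow 2-subgroup S, and let T be a nontrivial 2-subgroup (below, J is the Thompson subgroup generated by the elementary abelian 2-subgroups of largest order), K a J(T)-component and Z₀ = Ω₁(Z(J(T))). Then Z₀ meets W_K = [Ω₁(Z(O₂(K))), K] in a subgroup of order 2, and Z₀ is the product of Z₀ ∩ Z(⟨K, J(T)⟩) and Z₀ ∩ W_K. -/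
theorem result {G : Type*} [Group G] [Finite G] (hL : Cfsg.IsCharacteristicTwoType G) (hN : ∀ N : Subgroup G, Cfsg.IsTwoLocal N → Group.IsSolvable ↥N)
    (hZ : ∀ S : Sylow 2 G, Subgroup.centralizer (Cfsg.omegaCenterOf (S : Subgroup G) : Set G) ≤ Subgroup.normalizer ((S : Subgroup G) : Set G)) (T : Subgroup G) (hT : IsPGroup 2 ↥T) (hT1 : T ≠ ⊥) (K : Subgroup G) (hK : Cfsg.IsJComponent T K)
    (Z₀ : Subgroup G) (hZ₀ : Z₀ = Cfsg.omegaCenterOf (Cfsg.thompsonSubgroupOf 2 T)) :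
    Nat.card ↥(Z₀ ⊓ Cfsg.wOf K) = 2 ∧
      (Z₀ ⊓ ((K ⊔ Cfsg.thompsonSubgroupOf 2 T) ⊓ Subgroup.centralizer ((K ⊔ Cfsg.thompsonSubgroupOf 2 T) : Set G))) ⊔ (Z₀ ⊓ Cfsg.wOf K) = Z₀ := by

  classical
  haveI : Fact (Nat.Prime 2) := ⟨Nat.prime_two⟩
  obtain ⟨hgen, hcomm, hidx, hJS, hW4, hW2⟩ := hK
  set J := Cfsg.thompsonSubgroupOf 2 T with hJdef
  set N := Cfsg.pCoreOf 2 K with hNdef
  set W := Cfsg.wOf K with hWdef
  set H := K ⊔ J with hH
  have hJK : J ≤ Subgroup.normalizer (K : Set G) :=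
    Subgroup.le_normalizer_iff_commutator_le_left.mpr hcomm.le
  have hHK : H ≤ Subgroup.normalizer (K : Set G) := sup_le Subgroup.le_normalizer hJK
  have hJp : IsPGroup 2 ↥J := hT.to_le (Subgroup.map_subtype_le _)
  have hNK : N ≤ K := CfsgLib.LocalCharP.pCoreOf_le K
  have hHN : H ≤ Subgroup.normalizer (N : Set G) :=
    hHK.trans (CfsgLib.LocalCharP.normalizer_le_normalizer_pCoreOf K)
  have hHΩ : H ≤ Subgroup.normalizer (Cfsg.omegaCenterOf N : Set G) :=
    hHN.trans (normalizer_le_normalizer_omegaCenterOf N)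
  have hWΩ : W ≤ Cfsg.omegaCenterOf N := by
    rw [hWdef, Cfsg.wOf, ← hNdef]
    refine Subgroup.commutator_le.mpr fun u hu k hk => ?_
    have h1 := (Subgroup.mem_normalizer_iff.mp (hHΩ (Subgroup.mem_sup_left hk)) u⁻¹).mp (inv_mem hu)
    simpa [commutatorElement_def, mul_assoc] using mul_mem hu h1
  have hHW : H ≤ Subgroup.normalizer (W : Set G) := by
    intro g hg
    rw [Subgroup.mem_normalizer_iff_map_conj_eq, hWdef, Cfsg.wOf, ← hNdef,
      Subgroup.map_commutator]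
    have e1 := Subgroup.mem_normalizer_iff_map_conj_eq.mp (hHΩ hg)
    have e2 := Subgroup.mem_normalizer_iff_map_conj_eq.mp (hHK hg)
    rw [e1, e2]
  have hWN : W ≤ N := fun w hw => (CfsgLib.LocalCharP.mem_omegaOne_inf_centralizer.mp (hWΩ hw)).1
  have cH : ∀ g ∈ H, ∀ u ∈ W, g * u * g⁻¹ ∈ W := fun g hg u hu =>
    (Subgroup.mem_normalizer_iff.mp (hHW hg) u).mp hu
  have hWc : ∀ u ∈ W, ∀ v ∈ W, u * v = v * u := by
    intro u hu v hv
    calc u * v = u * (u * v * (u * v)) * v := by rw [hW2 _ (mul_mem hu hv), mul_one]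
      _ = (u * u) * v * u * (v * v) := by group
      _ = v * u := by rw [hW2 u hu, hW2 v hv, one_mul, mul_one]
  have hWinv : ∀ u ∈ W, u⁻¹ = u := fun u hu => inv_eq_of_mul_eq_one_right (hW2 u hu)
  -- `K` does not centralize `W`
  have hKW : ¬ ∀ k ∈ K, ∀ u ∈ W, k * u = u * k := by
    intro hall
    have hbot : W = ⊥ := by
      rw [hWdef, Cfsg.wOf, Subgroup.commutator_eq_bot_iff_le_centralizer]
      intro z hz
      rw [Subgroup.mem_centralizer_iff]
      intro k hk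
      have hk' : k ∈ Subgroup.closure {g : G | g ∈ K ∧ Odd (orderOf g)} := hgen.symm ▸ hk
      have hle : Subgroup.closure {g : G | g ∈ K ∧ Odd (orderOf g)} ≤ Subgroup.centralizer {z} := by
        rw [Subgroup.closure_le]
        rintro k ⟨hkK, hodd⟩
        rw [SetLike.mem_coe, Subgroup.mem_centralizer_singleton_iff]
        have hc : ⁅z, k⁆ ∈ W := Subgroup.commutator_mem_commutator hz hkK
        have hcom : Commute ⁅z, k⁆ k := (hall k hkK _ hc).symm
        have e : z * k * z⁻¹ = ⁅z, k⁆ * k := by rw [commutatorElement_def]; group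
        have hp : ⁅z, k⁆ ^ orderOf k = 1 := by
          have := congrArg (· ^ orderOf k) e
          simp only [conj_pow, hcom.mul_pow, pow_orderOf_eq_one, mul_one] at this
          rw [← this]; group
        obtain ⟨m, hm⟩ := hodd
        rw [hm, pow_succ, pow_mul, sq, hW2 _ hc, one_pow, one_mul] at hp
        rw [hp, one_mul, mul_inv_eq_iff_eq_mul] at e
        exact e.symm
      exact Subgroup.mem_centralizer_singleton_iff.mp (hle hk')
    rw [hbot, Subgroup.card_bot] at hW4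
    exact absurd hW4 (by decide)
  -- the Sylow subgroup
  set S := N ⊔ J with hS
  have hSH : S ≤ H := sup_le (hNK.trans le_sup_left) le_sup_right
  have hSp : IsPGroup 2 ↥S := (CfsgLib.LocalCharP.isPGroup_pCoreOf K).to_sup_of_normal_left' hJp
    ((le_sup_right : J ≤ H).trans hHN)
  have hWS : W ≤ S := hWN.trans le_sup_left
  obtain ⟨w₀, hw₀, hw₀1, hSfix⟩ : ∃ w₀, w₀ ∈ W ∧ w₀ ≠ 1 ∧ ∀ s ∈ S, s * w₀ = w₀ * s := by
    haveI : (W.subgroupOf S).Normal :=
      Subgroup.normal_subgroupOf_of_le_normalizer (hSH.trans hHW)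
    have hne : W.subgroupOf S ≠ ⊥ := by
      rw [Ne, Subgroup.subgroupOf_eq_bot, disjoint_iff, inf_eq_left.mpr hWS]
      intro h
      rw [h, Subgroup.card_bot] at hW4
      exact absurd hW4 (by decide)
    obtain ⟨⟨w, hwS⟩, hw, hw1⟩ := (Subgroup.bot_or_exists_ne_one _).resolve_left
      (CfsgLib.PGroup.inf_center_ne_bot hSp _ hne)
    exact ⟨w, hw.1, fun h => hw1 (Subtype.ext h), fun s hs =>
      congrArg Subtype.val (Subgroup.mem_center_iff.mp hw.2 ⟨s, hs⟩)⟩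
  have hfix : ∀ g ∈ H, g * w₀ * g⁻¹ = w₀ → ∀ u ∈ W, u ≠ 1 → u ≠ w₀ →
      g * u * g⁻¹ = u ∨ g * u * g⁻¹ = w₀ * u := by
    intro g hg hgw u hu hu1 hu0
    rcases four hW4 hW2 hw₀ hu hw₀1 hu1 hu0.symm _ (cH g hg u hu) with h | h | h | h
    · exact absurd (conj_eq_one_iff.mp h) hu1
    · exact absurd ((MulAut.conj g).injective (h.trans hgw.symm)) hu0
    · exact Or.inl h
    · exact Or.inr h
  obtain ⟨x, hxK, hxw⟩ : ∃ x ∈ K, x * w₀ * x⁻¹ ≠ w₀ := by
    by_contra! hall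
    apply hKW
    intro k hk u hu
    have hle : Subgroup.closure {g : G | g ∈ K ∧ Odd (orderOf g)} ≤ Subgroup.centralizer {u} := by
      rw [Subgroup.closure_le]
      rintro g ⟨hgK, hodd⟩
      rw [SetLike.mem_coe, Subgroup.mem_centralizer_singleton_iff, ← mul_inv_eq_iff_eq_mul]
      rcases eq_or_ne u 1 with rfl | hu1
      · group
      rcases eq_or_ne u w₀ with rfl | hu0
      · exact hall g hgK
      rcases hfix g (Subgroup.mem_sup_left hgK) (hall g hgK) u hu hu1 hu0 with h | h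
      · exact h
      · have h2 : g ^ 2 * u * (g ^ 2)⁻¹ = u := by
          calc g ^ 2 * u * (g ^ 2)⁻¹ = g * (g * u * g⁻¹) * g⁻¹ := by rw [sq]; group
            _ = g * (w₀ * u) * g⁻¹ := by rw [h]
            _ = (g * w₀ * g⁻¹) * (g * u * g⁻¹) := by group
            _ = (w₀ * w₀) * u := by rw [hall g hgK, h, mul_assoc]
            _ = u := by rw [hW2 _ hw₀, one_mul]
        obtain ⟨m, hm⟩ := hodd
        have h3 : Commute ((g ^ 2) ^ (m + 1)) u :=
          Commute.pow_left (mul_inv_eq_iff_eq_mul.mp h2) _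
        have h4 : (g ^ 2) ^ (m + 1) = g := by
          rw [← pow_mul, show 2 * (m + 1) = orderOf g + 1 by omega, pow_succ, pow_orderOf_eq_one,
            one_mul]
        rw [h4] at h3
        exact mul_inv_eq_iff_eq_mul.mpr h3
    exact Subgroup.mem_centralizer_singleton_iff.mp (hle (hgen.symm ▸ hk))
  have hxH : x ∈ H := Subgroup.mem_sup_left hxK
  set w₁ := x * w₀ * x⁻¹ with hw₁def
  have hw₁ : w₁ ∈ W := cH x hxH w₀ hw₀
  have hw₁1 : w₁ ≠ 1 := fun h => hw₀1 (conj_eq_one_iff.mp h)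
  have hcases := four hW4 hW2 hw₀ hw₁ hw₀1 hw₁1 hxw.symm
  have hJH : J ≤ H := le_sup_right
  have hJfix : ∀ j ∈ J, j * w₀ = w₀ * j := fun j hj => hSfix j (Subgroup.mem_sup_right hj)
  have hJW : ¬ ∀ j ∈ J, ∀ u ∈ W, j * u = u * j := by
    intro hall
    apply hKW
    intro k hk u hu
    have := Cfsg.Agent.S2941.extend_to_commutator hcomm W ⊥
      (fun w hw => ⟨hHW hw, Subgroup.mem_normalizer_iff.mpr fun u => by simp [Subgroup.mem_bot]⟩)
      (fun j hj u hu => by rw [Subgroup.mem_bot, hall j hj u hu]; group) k hk u hu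
    exact mul_inv_eq_one.mp this |> mul_inv_eq_iff_eq_mul.mp
  obtain ⟨a, haJ, haw⟩ : ∃ a ∈ J, a * w₁ * a⁻¹ = w₀ * w₁ := by
    by_contra! hall
    apply hJW
    intro j hj u hu
    have h0 : Commute j w₀ := hJfix j hj
    have h1 : Commute j w₁ := mul_inv_eq_iff_eq_mul.mp
      ((hfix j (hJH hj) (mul_inv_eq_iff_eq_mul.mpr h0) w₁ hw₁ hw₁1 hxw).resolve_right (hall j hj))
    rcases hcases u hu with rfl | rfl | rfl | rfl
    exacts [(Commute.one_right j), h0, h1, h0.mul_right h1]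
  have haw₀ : a * w₀ * a⁻¹ = w₀ := mul_inv_eq_iff_eq_mul.mpr (hJfix a haJ)
  set u₁ := x⁻¹ * w₀ * x with hu₁def
  have hu₁ : u₁ ∈ W := by simpa [hu₁def] using cH x⁻¹ (inv_mem hxH) w₀ hw₀
  have hu₁cases : u₁ = w₁ ∨ u₁ = w₀ * w₁ := by
    rcases hcases u₁ hu₁ with h | h | h | h
    · exact absurd (by have := congrArg (fun t => x * t * x⁻¹) h; simpa [hu₁def, mul_assoc] using this) hw₀1
    · refine absurd ?_ hxw
      rw [hw₁def]
      conv_lhs => rw [← h, hu₁def]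
      group
    · exact Or.inl h
    · exact Or.inr h
  have hau₁ : a * u₁ * a⁻¹ = w₀ * u₁ := by
    rcases hu₁cases with h | h <;> rw [h]
    · exact haw
    · calc a * (w₀ * w₁) * a⁻¹ = (a * w₀ * a⁻¹) * (a * w₁ * a⁻¹) := by group
        _ = w₀ * (w₀ * w₁) := by rw [haw₀, haw]
  set b := x * a * x⁻¹ with hbdef
  have hbH : b ∈ H := mul_mem (mul_mem hxH (hJH haJ)) (inv_mem hxH)
  have hbw₁ : b * w₁ * b⁻¹ = w₁ := by
    calc b * w₁ * b⁻¹ = x * (a * w₀ * a⁻¹) * x⁻¹ := by rw [hbdef, hw₁def]; group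
      _ = w₁ := by rw [haw₀]
  have hbw₀ : b * w₀ * b⁻¹ = w₁ * w₀ := by
    calc b * w₀ * b⁻¹ = x * (a * u₁ * a⁻¹) * x⁻¹ := by rw [hbdef, hu₁def]; group
      _ = x * (w₀ * u₁) * x⁻¹ := by rw [hau₁]
      _ = w₁ * w₀ := by rw [hw₁def, hu₁def]; group
  set y := a * b with hydef
  have hyH : y ∈ H := mul_mem (hJH haJ) hbH
  have hyw₀ : y * w₀ * y⁻¹ = w₁ := by
    calc y * w₀ * y⁻¹ = a * (b * w₀ * b⁻¹) * a⁻¹ := by rw [hydef]; group
      _ = (a * w₁ * a⁻¹) * (a * w₀ * a⁻¹) := by rw [hbw₀]; group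
      _ = (w₀ * w₁) * w₀ := by rw [haw, haw₀]
      _ = (w₁ * w₀) * w₀ := by rw [hWc w₀ hw₀ w₁ hw₁]
      _ = w₁ := by rw [mul_assoc, hW2 _ hw₀, mul_one]
  have hyw₁ : y * w₁ * y⁻¹ = w₀ * w₁ := by
    calc y * w₁ * y⁻¹ = a * (b * w₁ * b⁻¹) * a⁻¹ := by rw [hydef]; group
      _ = w₀ * w₁ := by rw [hbw₁, haw]
  -- the cosets of `S` in `H`
  have hle3 : Nat.card (↥H ⧸ S.subgroupOf H) ≤ 3 := by
    have h3 : Nat.card (↥K ⧸ N.subgroupOf K) = 3 := hidx
    rw [← h3]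
    refine Nat.card_le_card_of_surjective
      (Quotient.lift (fun k : ↥K => (QuotientGroup.mk (Subgroup.inclusion (le_sup_left : K ≤ H) k)
        : ↥H ⧸ S.subgroupOf H)) ?_) ?_
    · intro k l hkl
      refine QuotientGroup.eq.mpr ?_
      have := QuotientGroup.leftRel_apply.mp hkl
      exact Subgroup.mem_sup_left this
    · intro q
      obtain ⟨⟨h, hh⟩, rfl⟩ := QuotientGroup.mk_surjective q
      have hh' : h ∈ (K : Set G) * (J : Set G) := by
        rw [← Subgroup.coe_mul_of_right_le_normalizer_left K J hJK]; exact hh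
      obtain ⟨k, hk, j, hj, rfl⟩ := hh'
      refine ⟨QuotientGroup.mk ⟨k, hk⟩, ?_⟩
      refine QuotientGroup.eq.mpr ?_
      show k⁻¹ * (k * j) ∈ S
      rw [inv_mul_cancel_left]
      exact Subgroup.mem_sup_right hj
  set f : Fin 3 → ↥H ⧸ S.subgroupOf H :=
    fun i => QuotientGroup.mk ((⟨y, hyH⟩ : ↥H) ^ (i : ℕ)) with hf
  have horb : ∀ i j : Fin 3, f i = f j →
      y ^ (i : ℕ) * w₀ * (y ^ (i : ℕ))⁻¹ = y ^ (j : ℕ) * w₀ * (y ^ (j : ℕ))⁻¹ := by
    intro i j hij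
    have hm : (y ^ (i : ℕ))⁻¹ * y ^ (j : ℕ) ∈ S := by
      simpa [hf, Subgroup.mem_subgroupOf] using QuotientGroup.eq.mp hij
    have h := hSfix _ hm
    calc y ^ (i : ℕ) * w₀ * (y ^ (i : ℕ))⁻¹
        = y ^ (i : ℕ) * (w₀ * ((y ^ (i : ℕ))⁻¹ * y ^ (j : ℕ))) * (y ^ (j : ℕ))⁻¹ := by group
      _ = y ^ (i : ℕ) * (((y ^ (i : ℕ))⁻¹ * y ^ (j : ℕ)) * w₀) * (y ^ (j : ℕ))⁻¹ := by rw [h]
      _ = _ := by group
  have hy2w : y ^ 2 * w₀ * (y ^ 2)⁻¹ = w₀ * w₁ := by
    calc y ^ 2 * w₀ * (y ^ 2)⁻¹ = y * (y * w₀ * y⁻¹) * y⁻¹ := by rw [sq]; group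
      _ = w₀ * w₁ := by rw [hyw₀, hyw₁]
  have hw01 : w₀ * w₁ ≠ w₁ := fun h => hw₀1 (mul_eq_right.mp h)
  have hw00 : w₀ * w₁ ≠ w₀ := fun h => hw₁1 (mul_eq_left.mp h)
  have hinj : Function.Injective f := by
    intro i j hij
    have h := horb i j hij
    clear hij
    have e0 : y ^ ((0 : Fin 3) : ℕ) * w₀ * (y ^ ((0 : Fin 3) : ℕ))⁻¹ = w₀ := by simp
    have e1 : y ^ ((1 : Fin 3) : ℕ) * w₀ * (y ^ ((1 : Fin 3) : ℕ))⁻¹ = w₁ := by simpa using hyw₀
    have e2 : y ^ ((2 : Fin 3) : ℕ) * w₀ * (y ^ ((2 : Fin 3) : ℕ))⁻¹ = w₀ * w₁ := hy2w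
    have hc3 : ∀ i : Fin 3, i = 0 ∨ i = 1 ∨ i = 2 := by decide
    rcases hc3 i with rfl | rfl | rfl <;> rcases hc3 j with rfl | rfl | rfl <;>
      first
      | rfl
      | (simp only [e0, e1, e2] at h
         first
         | exact absurd h hxw | exact absurd h.symm hxw | exact absurd h hw01
         | exact absurd h.symm hw01 | exact absurd h hw00 | exact absurd h.symm hw00)
  have hcard3 : Nat.card (↥H ⧸ S.subgroupOf H) = 3 :=
    le_antisymm hle3 (by simpa using Nat.card_le_card_of_injective f hinj)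
  have hcover : ∀ h ∈ H, ∃ i : Fin 3, (y ^ (i : ℕ))⁻¹ * h ∈ S := by
    intro h hh
    have hbij : Function.Bijective f :=
      (Nat.bijective_iff_injective_and_card f).mpr ⟨hinj, by rw [hcard3, Nat.card_fin]⟩
    obtain ⟨i, hi⟩ := hbij.2 (QuotientGroup.mk ⟨h, hh⟩)
    exact ⟨i, by simpa [hf, Subgroup.mem_subgroupOf] using QuotientGroup.eq.mp hi⟩
  have hJS' : Cfsg.thompsonSubgroupOf 2 S = J := by
    refine hJS S ⟨hSH, hSp, ?_⟩ le_sup_right
    rw [Subgroup.relIndex, Subgroup.index, hcard3]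
    decide
  have hJsup : J = sSup (maxElemIn 2 S) := by rw [← hJS', thompsonSubgroupOf_eq_sSup]
  have hAJ : ∀ A ∈ maxElemIn 2 S, A ≤ J := fun A hA => hJsup ▸ le_sSup hA
  have hWel : Cfsg.IsElementaryAbelian 2 W :=
    isElementaryAbelian_iff.mpr ⟨hWc, fun u hu => by rw [sq, hW2 u hu]⟩
  have hsw : ∀ h ∈ H, (∀ u ∈ W, u * h = h * u) → h ∈ S := by
    intro h hh hc
    obtain ⟨i, hi⟩ := hcover h hh
    have h1 := hSfix _ hi
    have h2 := hc w₀ hw₀
    have h3 : (y ^ (i : ℕ))⁻¹ * w₀ * y ^ (i : ℕ) = w₀ := by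
      calc (y ^ (i : ℕ))⁻¹ * w₀ * y ^ (i : ℕ)
          = (y ^ (i : ℕ))⁻¹ * (w₀ * h) * h⁻¹ * y ^ (i : ℕ) := by group
        _ = ((y ^ (i : ℕ))⁻¹ * h * w₀) * h⁻¹ * y ^ (i : ℕ) := by rw [h2]; group
        _ = w₀ * ((y ^ (i : ℕ))⁻¹ * h) * h⁻¹ * y ^ (i : ℕ) := by rw [h1]
        _ = w₀ := by group
    have h4 : y ^ (i : ℕ) * w₀ * (y ^ (i : ℕ))⁻¹ = w₀ := by
      conv_lhs => rw [← h3]
      group
    fin_cases i
    · simpa using hi
    · exact absurd (by simpa [hyw₀] using h4) hxw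
    · exact absurd (hy2w.symm.trans h4) hw00
  have hmax : ∀ A ∈ maxElemIn 2 S, ∃ B ∈ maxElemIn 2 S,
      B ≤ Subgroup.centralizer (W : Set G) ∧
      (B : Set G) ⊆ ((A ⊓ Subgroup.centralizer (W : Set G) : Subgroup G) : Set G) * (W : Set G) := by
    intro A hA
    set A₀ := A ⊓ Subgroup.centralizer (W : Set G) with hA₀
    have hc : ∀ e ∈ A₀, ∀ u ∈ W, e * u = u * e := fun e he u hu =>
      (Subgroup.mem_centralizer_iff.mp he.2 u hu).symm
    have hWN0 : W ≤ Subgroup.normalizer (A₀ : Set G) := by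
      refine le_trans ?_ (Subgroup.centralizer_le_normalizer _)
      exact fun u hu => Subgroup.mem_centralizer_iff.mpr fun e he => hc e he u hu
    refine ⟨A₀ ⊔ W, ?_, sup_le inf_le_right fun u hu =>
      Subgroup.mem_centralizer_iff.mpr fun v hv => hWc v hv u hu,
      (Subgroup.coe_mul_of_right_le_normalizer_left A₀ W hWN0).le⟩
    have hel : Cfsg.IsElementaryAbelian 2 (A₀ ⊔ W) :=
      isElementaryAbelian_sup (isElementaryAbelian_mono hA.2.1 inf_le_left) hWel hc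
    refine ⟨sup_le (inf_le_left.trans hA.1) hWS, hel, fun C hC hCel => (hA.2.2 C hC hCel).trans ?_⟩
    by_cases hAC : A ≤ Subgroup.centralizer (W : Set G)
    · exact Subgroup.card_le_of_le ((le_inf le_rfl hAC).trans le_sup_left)
    obtain ⟨e₁, he₁, he₁c⟩ := SetLike.not_le_iff_exists.mp hAC
    have hmove : ∀ e ∈ A, e ∉ Subgroup.centralizer (W : Set G) → e * w₁ * e⁻¹ = w₀ * w₁ := by
      intro e he hec
      have h0 := hSfix e (hA.1 he)
      refine (hfix e (hSH (hA.1 he)) (mul_inv_eq_iff_eq_mul.mpr h0) w₁ hw₁ hw₁1 hxw).resolve_left ?_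
      intro h
      apply hec
      rw [Subgroup.mem_centralizer_iff]
      intro u hu
      have h1 : Commute e w₁ := mul_inv_eq_iff_eq_mul.mp h
      rcases hcases u hu with rfl | rfl | rfl | rfl
      exacts [(Commute.one_left e), h0.symm, h1.symm, ((Commute.mul_right h0 h1)).symm]
    have h2 : Nat.card A ≤ 2 * Nat.card A₀ := by
      refine ncard_le_two_mul e₁ fun e he => ?_
      by_cases hec : e ∈ Subgroup.centralizer (W : Set G)
      · exact Or.inl ⟨he, hec⟩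
      refine Or.inr (Subgroup.mem_inf.mpr ⟨mul_mem (inv_mem he₁) he, ?_⟩)
      by_contra hcon
      have h5 := hmove _ (mul_mem (inv_mem he₁) he) hcon
      have h6 := hmove e he hec
      have h7 := hmove e₁ he₁ he₁c
      have h8 : e₁⁻¹ * (e * w₁ * e⁻¹) * e₁ = w₁ := by rw [h6, ← h7]; group
      rw [show e₁⁻¹ * e * w₁ * (e₁⁻¹ * e)⁻¹ = e₁⁻¹ * (e * w₁ * e⁻¹) * e₁ by group, h8] at h5
      exact hw01 h5.symm
    have h3 : Nat.card ↥(A₀ ⊓ W) ≤ 2 := by
      have hsub : ((A₀ ⊓ W : Subgroup G) : Set G) ⊆ {1, w₀} := by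
        rintro u ⟨hu0, huW⟩
        have hcu : Commute e₁ u :=
          (isElementaryAbelian_iff.mp hA.2.1).1 e₁ he₁ u hu0.1
        rcases hcases u huW with rfl | rfl | rfl | rfl
        · simp
        · simp
        · exfalso
          have h7 := hmove e₁ he₁ he₁c
          rw [mul_inv_eq_iff_eq_mul.mpr hcu.eq] at h7
          exact hw01 h7.symm
        · exfalso
          have h0 : e₁ * w₀ * e₁⁻¹ = w₀ := mul_inv_eq_iff_eq_mul.mpr (hSfix e₁ (hA.1 he₁))
          have h7 := mul_inv_eq_iff_eq_mul.mpr hcu.eq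
          rw [show e₁ * (w₀ * w₁) * e₁⁻¹ = (e₁ * w₀ * e₁⁻¹) * (e₁ * w₁ * e₁⁻¹) by group, h0,
            hmove e₁ he₁ he₁c] at h7
          exact hw01 (mul_left_cancel h7)
      have := Set.ncard_le_ncard hsub (Set.toFinite _)
      rw [← Nat.card_coe_set_eq] at this
      exact this.trans ((Set.ncard_pair (Ne.symm hw₀1)).le)
    have h4 := card_mul_le_card_sup_mul_card_inf A₀ W
    rw [hW4] at h4
    nlinarith [Nat.mul_le_mul_left (Nat.card ↥(A₀ ⊔ W)) h3]
  -- the characteristic subgroup generated by the members centralizing `W`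
  set X := sSup {B ∈ maxElemIn 2 S | B ≤ Subgroup.centralizer (W : Set G)} with hXdef
  have hXS : X ≤ S := sSup_le fun B hB => hB.1.1
  have hXn : H ≤ Subgroup.normalizer (X : Set G) := by
    have key : ∀ g ∈ H, X.map (MulAut.conj g).toMonoidHom ≤ X := by
      intro g hg
      rw [Subgroup.map_le_iff_le_comap]
      refine sSup_le fun B hB => Subgroup.map_le_iff_le_comap.mp (le_sSup ?_)
      have hcentr : B.map (MulAut.conj g).toMonoidHom ≤ Subgroup.centralizer (W : Set G) := by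
        rintro _ ⟨e, he, rfl⟩
        rw [Subgroup.mem_centralizer_iff]
        intro u hu
        have h1 := Subgroup.mem_centralizer_iff.mp (hB.2 he) (g⁻¹ * u * g⁻¹⁻¹)
          (cH g⁻¹ (inv_mem hg) u hu)
        simp only [MulEquiv.coe_toMonoidHom, MulAut.conj_apply]
        calc u * (g * e * g⁻¹) = g * ((g⁻¹ * u * g⁻¹⁻¹) * e) * g⁻¹ := by group
          _ = g * (e * (g⁻¹ * u * g⁻¹⁻¹)) * g⁻¹ := by rw [h1]
          _ = g * e * g⁻¹ * u := by group
      refine ⟨⟨?_, isElementaryAbelian_map _ hB.1.2.1, fun C hC hCel => ?_⟩, hcentr⟩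
      · rintro _ ⟨e, he, rfl⟩
        exact hsw _ (mul_mem (mul_mem hg (hSH (hB.1.1 he))) (inv_mem hg))
          (Subgroup.mem_centralizer_iff.mp (hcentr ⟨e, he, rfl⟩))
      · rw [Subgroup.card_map_of_injective (MulAut.conj g).injective]
        exact hB.1.2.2 C hC hCel
    intro g hg
    exact Subgroup.mem_normalizer_iff_map_conj_eq.mpr (Subgroup.eq_of_le_of_card_ge (key g hg)
      (Subgroup.card_map_of_injective (MulAut.conj g).injective).ge)
  set Z₁ := Cfsg.omegaCenterOf X with hZ₁def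
  have hHZ₁ : H ≤ Subgroup.normalizer (Z₁ : Set G) :=
    hXn.trans (normalizer_le_normalizer_omegaCenterOf X)
  -- `[Z₁, J] ≤ W`
  have hJZ : ∀ j ∈ J, ∀ u ∈ Z₁, j * u * j⁻¹ * u⁻¹ ∈ W := by
    let M : Subgroup G :=
      { carrier := {z | z ∈ H ∧ ∀ u ∈ Z₁, z * u * z⁻¹ * u⁻¹ ∈ W}
        one_mem' := ⟨one_mem _, fun u _ => by simp⟩
        mul_mem' := by
          rintro z w ⟨hz1, hz3⟩ ⟨hw1, hw3⟩
          refine ⟨mul_mem hz1 hw1, fun u hu => ?_⟩
          simpa [mul_assoc] using mul_mem (cH z hz1 _ (hw3 u hu)) (hz3 u hu)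
        inv_mem' := by
          rintro z ⟨hz1, hz3⟩
          refine ⟨inv_mem hz1, fun u hu => ?_⟩
          simpa [mul_assoc] using
            inv_mem (hz3 _ ((Subgroup.mem_normalizer_iff.mp (hHZ₁ (inv_mem hz1)) u).mp hu)) }
    suffices J ≤ M from fun j hj => (this hj).2
    rw [hJsup]
    refine sSup_le fun A hA e he => ⟨hSH (hA.1 he), fun u hu => ?_⟩
    obtain ⟨B, hB, hBc, hBA⟩ := hmax A hA
    obtain ⟨hu1, hu2, hu3⟩ := CfsgLib.LocalCharP.mem_omegaOne_inf_centralizer.mp hu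
    have huB : u ∈ B := mem_of_centralizes hB (hXS hu1) hu3 fun v hv =>
      Subgroup.mem_centralizer_iff.mp hu2 v (le_sSup (s := {B ∈ maxElemIn 2 S | B ≤ Subgroup.centralizer (W : Set G)}) ⟨hB, hBc⟩ hv)
    obtain ⟨d, hd, w, hw, rfl⟩ := hBA huB
    have hed : Commute e d := (isElementaryAbelian_iff.mp hA.2.1).1 e he d hd.1
    have hdw : d * (e * w * e⁻¹) = (e * w * e⁻¹) * d :=
      (Subgroup.mem_centralizer_iff.mp hd.2 _ (cH e (hSH (hA.1 he)) w hw)).symm
    have : e * (d * w) * e⁻¹ * (d * w)⁻¹ = (e * w * e⁻¹) * w⁻¹ := by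
      calc e * (d * w) * e⁻¹ * (d * w)⁻¹ = (e * d) * w * e⁻¹ * w⁻¹ * d⁻¹ := by group
        _ = (d * (e * w * e⁻¹)) * w⁻¹ * d⁻¹ := by rw [hed.eq]; group
        _ = (e * w * e⁻¹) * (d * w⁻¹) * d⁻¹ := by rw [hdw]; group
        _ = (e * w * e⁻¹) * (w⁻¹ * d) * d⁻¹ := by
          rw [Subgroup.mem_centralizer_iff.mp hd.2 w⁻¹ (show w⁻¹ ∈ W from inv_mem (show w ∈ W from hw))]
        _ = (e * w * e⁻¹) * w⁻¹ := by group
    rw [this]
    exact mul_mem (cH e (hSH (hA.1 he)) w hw) (inv_mem hw)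
  have hKZ := Cfsg.Agent.S2941.extend_to_commutator hcomm Z₁ W
    (fun w hw => ⟨hHZ₁ hw, hHW hw⟩) hJZ
  -- conclusions
  have hZmem : ∀ z, z ∈ Z₀ ↔ z ∈ J ∧ (∀ j ∈ J, j * z = z * j) ∧ z ^ 2 = 1 := by
    intro z
    rw [hZ₀]
    exact (CfsgLib.LocalCharP.mem_omegaOne_inf_centralizer (p := 2)).trans
      (and_congr_right' (and_congr_left' Subgroup.mem_centralizer_iff))
  obtain ⟨A₁, hA₁⟩ := exists_maxElemIn (p := 2) S
  have hw₀J : w₀ ∈ J := hAJ A₁ hA₁ (mem_of_centralizes hA₁ (hWS hw₀)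
    (by rw [sq, hW2 _ hw₀]) fun e he => hSfix e (hA₁.1 he))
  have hw₀Z : w₀ ∈ Z₀ := (hZmem w₀).mpr ⟨hw₀J, hJfix, by rw [sq, hW2 _ hw₀]⟩
  have hCWJ : ∀ u ∈ W, (∀ j ∈ J, j * u = u * j) → u = 1 ∨ u = w₀ := by
    intro u hu hc
    rcases hcases u hu with h | h | h | h
    · exact Or.inl h
    · exact Or.inr h
    · exfalso
      rw [h] at hc
      rw [mul_inv_eq_iff_eq_mul.mpr (hc a haJ)] at haw
      exact hw01 haw.symm
    · exfalso
      rw [h] at hc
      have h7 := mul_inv_eq_iff_eq_mul.mpr (hc a haJ)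
      rw [show a * (w₀ * w₁) * a⁻¹ = (a * w₀ * a⁻¹) * (a * w₁ * a⁻¹) by group, haw₀, haw] at h7
      exact hw01 (mul_left_cancel h7)
  refine ⟨?_, le_antisymm (sup_le inf_le_left inf_le_left) fun z hz => ?_⟩
  · have heq : ((Z₀ ⊓ W : Subgroup G) : Set G) = {1, w₀} := by
      ext u
      constructor
      · rintro ⟨h1, h2⟩
        exact hCWJ u h2 ((hZmem u).mp h1).2.1
      · rintro (rfl | rfl)
        exacts [one_mem _, ⟨hw₀Z, hw₀⟩]
    rw [← SetLike.coe_sort_coe, Nat.card_coe_set_eq, heq, Set.ncard_pair (Ne.symm hw₀1)]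
  obtain ⟨hzJ, hzc, hz2⟩ := (hZmem z).mp hz
  have hzZ₁ : z ∈ Z₁ := by
    obtain ⟨B, hB, hBc, -⟩ := hmax A₁ hA₁
    have hBX : B ≤ X := le_sSup (s := {B ∈ maxElemIn 2 S | B ≤ Subgroup.centralizer (W : Set G)}) ⟨hB, hBc⟩
    refine CfsgLib.LocalCharP.mem_omegaOne_inf_centralizer.mpr
      ⟨hBX (mem_of_centralizes hB (Subgroup.mem_sup_right hzJ) hz2 fun v hv => hzc v (hAJ B hB hv)),
        Subgroup.mem_centralizer_iff.mpr fun v hv => hzc v ((sSup_le fun B hB => hAJ B hB.1) hv), hz2⟩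
  set w := x⁻¹ * z * x * z⁻¹ with hwdef
  have hw : w ∈ W := by simpa [hwdef] using hKZ x⁻¹ (inv_mem hxK) z hzZ₁
  -- an element of `z * ⟨w₀⟩` whose conjugate under `x` is centralized by `J`
  obtain ⟨c, hcz, hcx⟩ : ∃ c, (c = z ∨ c = z * w₀) ∧ ∀ j ∈ J, j * (x⁻¹ * c * x) = (x⁻¹ * c * x) * j := by
    have hz' : x⁻¹ * z * x = w * z := by rw [hwdef]; group
    by_cases hw0 : w = 1 ∨ w = w₀
    · refine ⟨z, Or.inl rfl, fun j hj => ?_⟩
      rw [hz']
      rcases hw0 with h | h <;> rw [h]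
      exacts [by simpa using hzc j hj, (Commute.mul_right (hJfix j hj) (hzc j hj)).eq]
    · refine ⟨z * w₀, Or.inr rfl, fun j hj => ?_⟩
      have e : x⁻¹ * (z * w₀) * x = w * z * u₁ := by rw [← hz', hu₁def]; group
      have hzu : z * u₁ = u₁ * z := by
        have hzB : z ∈ Subgroup.centralizer (W : Set G) := by
          obtain ⟨B, hB, hBc, -⟩ := hmax A₁ hA₁
          exact hBc (mem_of_centralizes hB (Subgroup.mem_sup_right hzJ) hz2 fun v hv => hzc v (hAJ B hB hv))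
        exact (Subgroup.mem_centralizer_iff.mp hzB u₁ hu₁).symm
      have hwu : w * u₁ = 1 ∨ w * u₁ = w₀ := by
        push Not at hw0
        have hwc : w = w₁ ∨ w = w₀ * w₁ := by
          rcases hcases w hw with h | h | h | h
          exacts [absurd h hw0.1, absurd h hw0.2, Or.inl h, Or.inr h]
        rcases hwc with h | h <;> rcases hu₁cases with h' | h' <;> rw [h, h']
        · exact Or.inl (hW2 _ hw₁)
        · right; rw [hWc w₁ hw₁ _ (mul_mem hw₀ hw₁), mul_assoc, hW2 _ hw₁, mul_one]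
        · right; rw [mul_assoc, hW2 _ hw₁, mul_one]
        · exact Or.inl (hW2 _ (mul_mem hw₀ hw₁))
      rw [e, mul_assoc w, hzu, ← mul_assoc w]
      rcases hwu with h | h <;> rw [h]
      exacts [by simpa using hzc j hj, (Commute.mul_right (hJfix j hj) (hzc j hj)).eq]
  have hcJ : ∀ j ∈ J, j * c = c * j := by
    rcases hcz with rfl | rfl
    · exact hzc
    · exact fun j hj => (Commute.mul_right (hzc j hj) (hJfix j hj)).eq
  set D := Subgroup.centralizer ({c} : Set G) with hD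
  have hJD : J ≤ D := fun j hj => Subgroup.mem_centralizer_singleton_iff.mpr (hcJ j hj)
  have hbD : b ∈ D := by
    refine Subgroup.mem_centralizer_singleton_iff.mpr ?_
    calc b * c = x * (a * (x⁻¹ * c * x)) * x⁻¹ := by rw [hbdef]; group
      _ = x * ((x⁻¹ * c * x) * a) * x⁻¹ := by rw [hcx a haJ]
      _ = c * b := by rw [hbdef]; group
  have hyD : y ∈ D := mul_mem (hJD haJ) hbD
  have hSJ : S ≤ Subgroup.normalizer (J : Set G) := by
    rw [← hJS']
    exact Subgroup.le_normalizer.trans (le_normalizer_thompsonSubgroupOf S)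
  have hKD : K ≤ D := by
    rw [← hcomm]
    refine Subgroup.commutator_le.mpr fun k hk j hj => ?_
    obtain ⟨i, hi⟩ := hcover k (Subgroup.mem_sup_left hk)
    have h1 := mul_mem (mul_mem (pow_mem hyD (i : ℕ))
      (hJD ((Subgroup.mem_normalizer_iff.mp (hSJ hi) j).mp hj))) (inv_mem (pow_mem hyD (i : ℕ)))
    have h2 : k * j * k⁻¹ ∈ D := by simpa [mul_assoc] using h1
    simpa [commutatorElement_def] using mul_mem h2 (inv_mem (hJD hj))
  have hcZ : c ∈ Z₀ := by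
    rcases hcz with rfl | rfl
    exacts [hz, mul_mem hz hw₀Z]
  have hcH : c ∈ H ⊓ Subgroup.centralizer ((K : Set G) ⊔ (J : Set G)) :=
    ⟨hJH ((hZmem c).mp hcZ).1, Subgroup.mem_centralizer_iff.mpr fun h hh =>
      Subgroup.mem_centralizer_singleton_iff.mp
        ((sup_le hKD hJD : H ≤ D) (hh.elim Subgroup.mem_sup_left Subgroup.mem_sup_right))⟩
  rcases hcz with rfl | rfl
  · exact Subgroup.mem_sup_left ⟨hz, hcH⟩
  · have := mul_mem (Subgroup.mem_sup_left ⟨hcZ, hcH⟩ :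
      z * w₀ ∈ (Z₀ ⊓ (H ⊓ Subgroup.centralizer ((K : Set G) ⊔ (J : Set G)))) ⊔ (Z₀ ⊓ W))
      (Subgroup.mem_sup_right (S := Z₀ ⊓ (H ⊓ Subgroup.centralizer ((K : Set G) ⊔ (J : Set G)))) (T := Z₀ ⊓ W) ⟨hw₀Z, hw₀⟩)
    rwa [mul_assoc, hW2 _ hw₀, mul_one] at this

end Cfsg.Agent.S2946
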