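import Cfsg.Statements.S2947
import Cfsg.Agent.LocalP.AxB
import Cfsg.Agent.LocalP.SylowChain
import Cfsg.Agent.LocalP.ThompsonJ
import Cfsg.Agent.Eq.Def_JComponents
import Cfsg.Agent.Eq.Def_Involutions

set_option autoImplicit false
open Cfsg

namespace Cfsg.Agent.S2947

/-- Let G be a finite group of characteristic 2 type in which every 2-local subgroup is solvable and the centralizer of Ω₁(Z(S)) lies in N_G(S) for every Sylow 2-subgroup S; suppose O₂(G) = 1, fix a Sylow 2-subgroup S and a 2-local subgroup M containing N_G(J(S)) (J the Thompson subgroup generated by the elementary abelian 2-subgroups of largest order). Then M is strongly embedded in G (a proper subgroup of even order whose intersection with each conjugate by an element outside M has odd order) if and only if no nontrivial 2-subgroup of M lies in a 2-local subgroup of G not contained in M. -/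
theorem result {G : Type*} [Group G] [Finite G] (hL : Cfsg.IsCharacteristicTwoType G) (hN : ∀ N : Subgroup G, Cfsg.IsTwoLocal N → Group.IsSolvable ↥N)
    (hZ : ∀ S : Sylow 2 G, Subgroup.centralizer (Cfsg.omegaCenterOf (S : Subgroup G) : Set G) ≤ Subgroup.normalizer ((S : Subgroup G) : Set G)) (hO : Cfsg.pCore 2 G = ⊥) (S : Sylow 2 G) (M : Subgroup G) (hM : Cfsg.IsTwoLocal M)
    (hMJ : Subgroup.normalizer (Cfsg.thompsonSubgroupOf 2 (S : Subgroup G) : Set G) ≤ M) :
    Cfsg.IsStronglyEmbedded M ↔ Cfsg.straddlingTwoSubgroups M = ∅ := by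
  haveI : Fact (Nat.Prime 2) := ⟨Nat.prime_two⟩
  constructor
  · rintro ⟨-, -, hinter⟩
    rw [Set.eq_empty_iff_forall_notMem]
    rintro T ⟨hTp, hT1, hTM, L, ⟨R, hRp, hR1, rfl⟩, hTL, hLM⟩
    have hnorm : ∀ W : Subgroup G, IsPGroup 2 ↥W → W ≠ ⊥ → W ≤ M →
        Subgroup.normalizer (W : Set G) ≤ M := by
      intro W hWp hW1 hWM g hg
      by_contra hgM
      have hodd := hinter g hgM
      have hle : W ≤ M ⊓ M.map (MulAut.conj g).toMonoidHom :=
        le_inf hWM ((Subgroup.mem_normalizer_iff_map_conj_eq.mp hg).symm.le.trans (Subgroup.map_mono hWM))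
      obtain ⟨k, hk⟩ := IsPGroup.iff_card.mp hWp
      have hodd' : Odd (Nat.card ↥W) := hodd.of_dvd_nat (Subgroup.card_dvd_of_le hle)
      rw [hk, Nat.odd_pow_iff] at hodd'
      · exact absurd hodd' (by decide)
      · rintro rfl
        exact hW1 (Subgroup.eq_bot_of_card_eq W (by simpa using hk))
    set P := T ⊔ R with hP
    have hPp : IsPGroup 2 ↥P := hTp.to_sup_of_normal_right' hRp hTL
    have hTP : T ≤ P := le_sup_left
    have hne : P ⊓ M = P := by
      by_contra hne
      obtain ⟨r, hrP, hrN, hrM⟩ := CfsgLib.LocalP.exists_normalizes_not_mem hPp inf_le_left hne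
      exact hrM ⟨hrP, hnorm _ (hPp.to_le inf_le_left)
        (ne_bot_of_le_ne_bot hT1 (le_inf hTP hTM)) inf_le_right hrN⟩
    exact hLM (hnorm R hRp hR1 (le_sup_right.trans (inf_eq_left.mp hne)))
  · intro hempty
    obtain ⟨R, hRp, hR1, rfl⟩ := hM
    set M := Subgroup.normalizer (R : Set G) with hM
    have hlocal : ∀ t ∈ M, orderOf t = 2 → Subgroup.centralizer ({t} : Set G) ≤ M := by
      intro t htM ht
      by_contra hnot
      have hne : Subgroup.zpowers t ≠ ⊥ := by
        rw [Ne, Subgroup.zpowers_eq_bot]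
        rintro rfl
        simp at ht
      have h2 : IsPGroup 2 ↥(Subgroup.zpowers t) :=
        IsPGroup.of_card (n := 1) (by rw [Nat.card_zpowers, ht, pow_one])
      have hle : Subgroup.centralizer ({t} : Set G) ≤
          Subgroup.normalizer (Subgroup.zpowers t : Set G) := by
        refine le_trans (le_of_eq ?_) (Subgroup.centralizer_le_normalizer _)
        rw [Subgroup.zpowers_eq_closure, Subgroup.centralizer_closure]
      exact Set.eq_empty_iff_forall_notMem.mp hempty (Subgroup.zpowers t)
        ⟨h2, hne, Subgroup.zpowers_le.mpr htM, _, ⟨_, h2, hne, rfl⟩, Subgroup.le_normalizer,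
          fun h => hnot (hle.trans h)⟩
    have hNS : Subgroup.normalizer ((S : Subgroup G) : Set G) ≤ M :=
      (CfsgLib.LocalP.le_normalizer_thompsonSubgroupOf (p := 2) _).trans hMJ
    have hSM : (S : Subgroup G) ≤ M := Subgroup.le_normalizer.trans hNS
    refine ⟨fun htop => hR1 (le_bot_iff.mp (hO ▸ CfsgLib.LocalP.le_pCore
      (Subgroup.normalizer_eq_top_iff.mp htop) hRp)), ?_, fun g hg => ?_⟩
    · obtain ⟨k, hk⟩ := IsPGroup.iff_card.mp hRp
      have hk0 : k ≠ 0 := by
        rintro rfl
        exact hR1 (Subgroup.eq_bot_of_card_eq R (by simpa using hk))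
      exact even_iff_two_dvd.mpr ((dvd_pow_self 2 hk0).trans (hk ▸ Subgroup.card_dvd_of_le Subgroup.le_normalizer))
    by_contra hodd
    rw [Nat.not_odd_iff_even, even_iff_two_dvd] at hodd
    obtain ⟨⟨t, htM, htg⟩, ht⟩ := exists_prime_orderOf_dvd_card' 2 hodd
    rw [← Subgroup.orderOf_coe] at ht
    simp only at ht
    -- centralizers of involutions in `gMg⁻¹` lie there
    have hlocal' : ∀ w ∈ M.map (MulAut.conj g).toMonoidHom, orderOf w = 2 →
        Subgroup.centralizer ({w} : Set G) ≤ M.map (MulAut.conj g).toMonoidHom := by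
      rintro _ ⟨m, hm, rfl⟩ hw u hu
      refine ⟨g⁻¹ * u * g, hlocal m hm ?_ ?_, by simp [mul_assoc]⟩
      · rw [← hw]
        exact (MulEquiv.orderOf_eq (MulAut.conj g) m).symm
      · rw [Subgroup.mem_centralizer_singleton_iff] at hu ⊢
        have hu' : u * (g * m * g⁻¹) = g * m * g⁻¹ * u := by simpa using hu
        calc g⁻¹ * u * g * m = g⁻¹ * (u * (g * m * g⁻¹)) * g := by group
          _ = g⁻¹ * (g * m * g⁻¹ * u) * g := by rw [hu']
          _ = m * (g⁻¹ * u * g) := by group
    obtain ⟨P, htP, hPM⟩ := CfsgLib.SylowChain.exists_sylow_between S hSM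
      (IsPGroup.of_card (n := 1) (by rw [Nat.card_zpowers, ht, pow_one]) : IsPGroup 2 ↥(Subgroup.zpowers t))
      (Subgroup.zpowers_le.mpr htM)
    have htP' : t ∈ (P : Subgroup G) := htP (Subgroup.mem_zpowers t)
    have hnt : Nontrivial ↥(P : Subgroup G) :=
      ⟨⟨⟨t, htP'⟩, 1, fun h => by
        have : t = 1 := congrArg Subtype.val h
        simp [this] at ht⟩⟩
    haveI := P.isPGroup'.center_nontrivial
    obtain ⟨c, hc⟩ := exists_prime_orderOf_dvd_card' (G := Subgroup.center ↥(P : Subgroup G)) 2 (by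
      rcases (P.isPGroup'.to_subgroup (Subgroup.center ↥(P : Subgroup G))).card_eq_or_dvd with h | h
      · exact absurd h Finite.one_lt_card.ne'
      · exact h)
    have hz : orderOf ((c : ↥(P : Subgroup G)) : G) = 2 := by
      rw [Subgroup.orderOf_coe, Subgroup.orderOf_coe, hc]
    have hzc : ∀ u ∈ (P : Subgroup G), u * ((c : ↥(P : Subgroup G)) : G) = ((c : ↥(P : Subgroup G)) : G) * u :=
      fun u hu => congrArg Subtype.val (Subgroup.mem_center_iff.mp c.2 ⟨u, hu⟩)
    have hzg : ((c : ↥(P : Subgroup G)) : G) ∈ M.map (MulAut.conj g).toMonoidHom :=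
      hlocal' t htg ht (Subgroup.mem_centralizer_singleton_iff.mpr (hzc t htP').symm)
    have hPg : (P : Subgroup G) ≤ M.map (MulAut.conj g).toMonoidHom := fun u hu =>
      hlocal' _ hzg hz (Subgroup.mem_centralizer_singleton_iff.mpr (hzc u hu))
    -- compare the two Sylow subgroups inside `M`
    have hQM : (CfsgLib.SylowChain.conjS g P : Subgroup G) ≤ M := by
      rw [CfsgLib.SylowChain.coe_conjS]
      intro u hu
      obtain ⟨m, hm, he⟩ := hPg (CfsgLib.SylowChain.mem_conjR.mp hu)
      simp only [MulEquiv.coe_toMonoidHom, MulAut.conj_apply, mul_left_inj, mul_right_inj] at he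
      exact he ▸ hm
    obtain ⟨m, hm⟩ := MulAction.exists_smul_eq ↥M (P.subtype hPM) ((CfsgLib.SylowChain.conjS g P).subtype hQM)
    obtain ⟨m', hm'⟩ := MulAction.exists_smul_eq ↥M (S.subtype hSM) (P.subtype hPM)
    have e1 : (m : G) • P = CfsgLib.SylowChain.conjS g P := by
      rw [Sylow.smul_subtype] at hm
      exact Sylow.subtype_injective hm
    have e2 : (m' : G) • S = P := by
      rw [Sylow.smul_subtype] at hm'
      exact Sylow.subtype_injective hm'
    have hfix : ((m' : G)⁻¹ * (g * m) * m') • S = S := by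
      rw [mul_smul, mul_smul, mul_smul, e2, e1, CfsgLib.SylowChain.conjS, smul_smul g, mul_inv_cancel,
        one_smul, ← e2, smul_smul, inv_mul_cancel, one_smul]
    have hmem : (m' : G)⁻¹ * (g * m) * m' ∈ M :=
      hNS (Sylow.smul_eq_iff_mem_normalizer.mp hfix)
    apply hg
    have := mul_mem (mul_mem (mul_mem m'.2 hmem) (inv_mem m'.2)) (inv_mem m.2)
    simpa [mul_assoc] using this

end Cfsg.Agent.S2947
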