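import Cfsg.Statements.S3084
import Cfsg.Agent.PlusLift.Group
import Cfsg.Agent.CharP.FrattiniElem
import Cfsg.Agent.Frobenius57.ElementOrder

set_option autoImplicit false
open Cfsg

namespace Cfsg.Agent.S3084

open CfsgLib.PlusLift
open scoped commutatorElement

/-- Let K be a group acting faithfully and linearly on a finite-dimensional vector space U of dimension 2n ≥ 2 over the field with two elements, preserving a quadratic form q whose polar bilinear form is non-degenerate and which vanishes on some n-dimensional subspace (a non-singular form of plus type). Then there is a finite group R with a normal extraspecial 2-subgroup Q of order 2^(2n+1), an isomorphism of R/Q with K, and a surjective homomorphism χ from Q onto (the additive group of) U with kernel the centre of Q, such that χ carries conjugation by any r in R to the action of the image of r in K, and an element a of Q squares to the identity exactly when q vanishes at χ(a). -/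
theorem result {K : Type*} [Group K] {U : Type*} [AddCommGroup U] [Module (ZMod 2) U] [Module.Finite (ZMod 2) U] (n : ℕ) (hn1 : 1 ≤ n) (hn : Module.finrank (ZMod 2) U = 2 * n) (ρ : Representation (ZMod 2) K U) (hρ : Function.Injective ρ) (q : QuadraticForm (ZMod 2) U) (hq : ∀ (k : K) (u : U), q (ρ k u) = q u) (hnd : (QuadraticMap.polarBilin q).Nondegenerate) (hplus : ∃ W : Submodule (ZMod 2) U, Module.finrank (ZMod 2) ↥W = n ∧ ∀ w ∈ W, q w = 0) : ∃ (R : Type) (_ : Group R) (_ : Finite R) (Q : Subgroup R) (hN : Q.Normal) (e : R ⧸ Q ≃* K) (χ : ↥Q →* Multiplicative U), Cfsg.IsExtraspecial 2 ↥Q ∧ Nat.card ↥Q = 2 ^ (2 * n + 1) ∧ Function.Surjective χ ∧ χ.ker = Subgroup.center ↥Q ∧ (∀ (r : R) (a : ↥Q), χ ⟨r * a * r⁻¹, hN.conj_mem (a : R) a.2 r⟩ = Multiplicative.ofAdd (ρ (e (r : R ⧸ Q)) (Multiplicative.toAdd (χ a)))) ∧ ∀ a : ↥Q, a * a = 1 ↔ q (Multiplicative.toAdd (χ a)) = 0 := by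
  classical
  obtain ⟨W, hW, hqW⟩ := hplus
  obtain ⟨Θ, hΘ⟩ := exists_hyperbolic_coords hn q hnd W hW hqW
  have hcoe : ∀ k k' u, ρ k (ρ k' u) = ρ (k * k') u := fun k k' u => by
    rw [map_mul]; rfl
  let φ : K →* (V n ≃ₗ[ZMod 2] V n) :=
    { toFun := fun k =>
        { toLinearMap := Θ.symm.toLinearMap ∘ₗ (ρ k) ∘ₗ Θ.toLinearMap
          invFun := fun v => Θ.symm (ρ k⁻¹ (Θ v))
          left_inv := fun v => by
            change Θ.symm (ρ k⁻¹ (Θ (Θ.symm (ρ k (Θ v))))) = v
            rw [Θ.apply_symm_apply, hcoe, inv_mul_cancel, map_one]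
            exact Θ.symm_apply_apply v
          right_inv := fun v => by
            change Θ.symm (ρ k (Θ (Θ.symm (ρ k⁻¹ (Θ v))))) = v
            rw [Θ.apply_symm_apply, hcoe, mul_inv_cancel, map_one]
            exact Θ.symm_apply_apply v }
      map_one' := LinearEquiv.ext fun v => by simp
      map_mul' := fun k k' => LinearEquiv.ext fun v => by
        change Θ.symm (ρ (k * k') (Θ v)) = Θ.symm (ρ k (Θ (Θ.symm (ρ k' (Θ v)))))
        rw [Θ.apply_symm_apply, hcoe] }
  have hφ : ∀ k v, Θ (φ k v) = ρ k (Θ v) := fun k v => Θ.apply_symm_apply _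
  have hinj : Function.Injective φ := fun k k' h => hρ (LinearMap.ext fun u => by
    obtain ⟨v, rfl⟩ := Θ.surjective u
    rw [← hφ, ← hφ, h])
  set Γ := φ.range with hΓdef
  have hΓ : ∀ γ ∈ Γ, ∀ v, q0 (γ v) = q0 v := by
    rintro γ ⟨k, rfl⟩ v
    simp only [q0, CfsgLib.PlusLift.c]
    rw [← hΘ, ← hΘ, hφ, hq]
  let π := liftProj Γ
  have hπ : Function.Surjective π := liftProj_surjective Γ hΓ
  let Q := π.ker
  haveI : Finite (V n ≃ₗ[ZMod 2] V n) := Finite.of_injective _ DFunLike.coe_injective
  have hbij := kerElt_bijective Γ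
  let E : ZMod 2 × V n ≃ Q := Equiv.ofBijective _ hbij
  haveI : Finite Q := Finite.of_equiv _ E
  haveI : Finite (lifts Γ ⧸ Q) :=
    Finite.of_equiv _ (QuotientGroup.quotientKerEquivOfSurjective π hπ).symm.toEquiv
  haveI : Finite (lifts Γ) :=
    Finite.of_equiv _ (Subgroup.groupEquivQuotientProdSubgroup (s := Q)).symm
  let e : lifts Γ ⧸ Q ≃* K :=
    (QuotientGroup.quotientKerEquivOfSurjective π hπ).trans (MonoidHom.ofInjective hinj).symm
  have hE : ∀ p, E p = kerElt Γ p := fun _ => rfl
  let χ : Q →* Multiplicative U :=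
    MonoidHom.mk' (fun a => Multiplicative.ofAdd (Θ (E.symm a).2)) (fun a b => by
      obtain ⟨p, rfl⟩ := E.surjective a
      obtain ⟨p', rfl⟩ := E.surjective b
      rw [show E p * E p' = E _ from kerElt_mul Γ p p']
      simp only [Equiv.symm_apply_apply, map_add, ofAdd_add])
  have hχ : ∀ p, χ (E p) = Multiplicative.ofAdd (Θ p.2) := fun p => by simp [χ]
  have hcard : Nat.card Q = 2 ^ (2 * n + 1) := by
    rw [← Nat.card_congr E]
    simp only [Nat.card_prod, Nat.card_zmod, Nat.card_fun, Nat.card_fin]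
    ring
  have hsurj : Function.Surjective χ := fun u =>
    ⟨E (0, Θ.symm (Multiplicative.toAdd u)), by simp [hχ]⟩
  have hmul : ∀ p p', E p * E p' = E (p.1 + p'.1 + c p.2 p'.2, p.2 + p'.2) := kerElt_mul Γ
  have h1 : E (0, 0) = 1 := kerElt_one Γ
  have hker : χ.ker = Subgroup.center Q := by
    ext a
    obtain ⟨⟨t, u⟩, rfl⟩ := E.surjective a
    simp only [MonoidHom.mem_ker, hχ, ofAdd_eq_one, LinearEquiv.map_eq_zero_iff,
      Subgroup.mem_center_iff]
    constructor
    · rintro rfl g
      obtain ⟨p, rfl⟩ := E.surjective g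
      simp [hmul, CfsgLib.PlusLift.c, add_comm]
    · intro h
      have hcom : ∀ v, comForm u v = 0 := fun v => by
        have := congrArg Prod.fst (E.injective (((hmul _ _).symm.trans (h (E (0, v)))).trans (hmul _ _)))
        have key : ∀ a b d : ZMod 2, d + a = d + b → b + a = 0 := by decide
        exact key _ _ t (by simpa [add_assoc] using this)
      ext i
      · simpa [comForm, CfsgLib.PlusLift.c, single_dotProduct] using hcom (0, Pi.single i 1)
      · simpa [comForm, CfsgLib.PlusLift.c, dotProduct_single] using hcom (Pi.single i 1, 0)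
  have hp : IsPGroup 2 Q := IsPGroup.of_card hcard
  have hcomm : commutator Q = Subgroup.center Q := by
    refine le_antisymm (hker ▸ Abelianization.commutator_subset_ker χ) ?_
    intro a ha
    obtain ⟨⟨t, u⟩, rfl⟩ := E.surjective a
    rw [← hker, MonoidHom.mem_ker, hχ, ofAdd_eq_one, LinearEquiv.map_eq_zero_iff] at ha
    change u = 0 at ha
    subst ha
    rcases cases_zmod_two t with rfl | rfl
    · rw [h1]; exact one_mem _
    · let i : Fin n := ⟨0, hn1⟩
      let x := E (0, (Pi.single i 1, 0))
      let y := E (0, (0, Pi.single i 1))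
      have hxy : E (1, 0) * (y * x) = x * y := by
        simp [x, y, hmul, CfsgLib.PlusLift.c, single_dotProduct, add_comm]
      have : ⁅x, y⁆ = E (1, 0) := by
        rw [commutatorElement_def, ← hxy]; group
      rw [← this]
      exact Subgroup.commutator_mem_commutator (Subgroup.mem_top _) (Subgroup.mem_top _)
  have hfr : frattini Q = Subgroup.center Q := by
    have hpow : ∀ a, χ a ^ 2 = 1 := fun a => by
      rw [pow_two]
      apply Multiplicative.toAdd.injective
      simp only [toAdd_mul, toAdd_one]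
      exact ZModModule.add_self _
    refine le_antisymm ?_ ?_
    · rw [← hker]
      exact CfsgLib.CharP.frattini_le_ker_of_elementary (p := 2) χ
        (fun a b => Commute.all _ _) hpow
    · rw [← hcomm, commutator_def, Subgroup.commutator_le]
      intro a _ b _
      exact (CfsgLib.Frobenius57.pow_mem_frattini hp a b).2
  have hcen : Nat.card (Subgroup.center Q) = 2 := by
    rw [← hker]
    let f : ZMod 2 → χ.ker := fun t => ⟨E (t, 0), by simp [MonoidHom.mem_ker, hχ]⟩
    have hf : Function.Bijective f := by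
      refine ⟨fun s t h => congrArg Prod.fst (E.injective (congrArg Subtype.val h)), fun a => ?_⟩
      obtain ⟨⟨t, u⟩, htu⟩ := E.surjective a.1
      have := a.2
      rw [← htu, MonoidHom.mem_ker, hχ, ofAdd_eq_one, LinearEquiv.map_eq_zero_iff] at this
      exact ⟨t, Subtype.ext (by rw [← htu]; exact congrArg (fun w => E (t, w)) (show u = 0 from this).symm)⟩
    rw [← Nat.card_congr (Equiv.ofBijective f hf), Nat.card_zmod]
  refine ⟨lifts Γ, inferInstance, inferInstance, Q, inferInstance, e, χ,
    ⟨⟨hp, hfr, hcomm⟩, hcen⟩, hcard, hsurj, hker, ?_, ?_⟩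
  · intro r a
    obtain ⟨⟨t, u⟩, rfl⟩ := E.surjective a
    obtain ⟨t', ht'⟩ := conj_kerElt r t u
    rw [show (⟨r * (E (t, u) : lifts Γ) * r⁻¹, _⟩ : Q) = E (t', _) from Subtype.ext ht', hχ, hχ,
      toAdd_ofAdd]
    have he : φ (e (r : lifts Γ ⧸ Q)) = ((π r : Γ) : V n ≃ₗ[ZMod 2] V n) := by
      have h2 : (MonoidHom.ofInjective hinj) (e (r : lifts Γ ⧸ Q)) = π r := by
        simp [e]
        rfl
      exact congrArg Subtype.val h2
    rw [← hφ, he]
  · intro a
    obtain ⟨⟨t, u⟩, rfl⟩ := E.surjective a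
    rw [hmul, hχ, toAdd_ofAdd, hΘ, ← h1, E.apply_eq_iff_eq]
    simp only [Prod.mk.injEq, CharTwo.add_self_eq_zero, zero_add, add_self_V, and_true]
    rfl

end Cfsg.Agent.S3084
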