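import Cfsg.Statements.S3103
import Cfsg.Agent.Eq.Def_Local
import Cfsg.Agent.GL4F2.Alt8
import Cfsg.Agent.Constrained.Basic
import Cfsg.Agent.Frobenius57.ElementOrder

set_option autoImplicit false
open Cfsg

namespace Cfsg.Agent.S3103

/-- The automorphisms of an elementary abelian 2-group of order at most 16 embed in `GL(4,2)`. -/
theorem exists_aut_to_gl {W : Type*} [CommGroup W] [Finite W] (h2 : ∀ w : W, w ^ 2 = 1)
    (hW : Nat.card W ≤ 16) :
    ∃ f : MulAut W →* GL (Fin 4) (ZMod 2), Function.Injective f := by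
  classical
  letI : Module (ZMod 2) (Additive W) := AddCommGroup.zmodModule (n := 2) fun a => h2 a.toMul
  haveI : Module.Finite (ZMod 2) (Additive W) := Module.Finite.of_finite
  have hd : Module.finrank (ZMod 2) (Additive W) ≤ 4 := by
    have h := Module.natCard_eq_pow_finrank (K := ZMod 2) (V := Additive W)
    rw [Nat.card_zmod] at h
    have h' : (2 : ℕ) ^ Module.finrank (ZMod 2) (Additive W) ≤ 2 ^ 4 := h ▸ hW
    exact (Nat.pow_le_pow_iff_right (by norm_num)).mp h'
  let R := Fin (4 - Module.finrank (ZMod 2) (Additive W)) → ZMod 2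
  let e : (Additive W × R) ≃ₗ[ZMod 2] (Fin 4 → ZMod 2) := LinearEquiv.ofFinrankEq _ _ (by
    rw [Module.finrank_prod, Module.finrank_fin_fun, Module.finrank_fin_fun]
    omega)
  let lin : MulAut W → ((Fin 4 → ZMod 2) ≃ₗ[ZMod 2] (Fin 4 → ZMod 2)) := fun φ =>
    e.symm.trans
      ((LinearEquiv.prodCongr
        ((MulEquiv.toAdditive φ).toLinearEquiv fun c x => ZMod.map_smul (MulEquiv.toAdditive φ) c x)
        (LinearEquiv.refl _ R)).trans e)
  have lin_apply : ∀ φ v, lin φ v = e (Additive.ofMul (φ (e.symm v).1.toMul), (e.symm v).2) :=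
    fun φ v => rfl
  let L : MulAut W →* ((Fin 4 → ZMod 2) ≃ₗ[ZMod 2] (Fin 4 → ZMod 2)) := MonoidHom.mk' lin fun φ ψ => by
    refine LinearEquiv.ext fun v => ?_
    rw [LinearEquiv.mul_apply, lin_apply, lin_apply, lin_apply, e.symm_apply_apply]
    rfl
  have hL : Function.Injective L := by
    intro φ ψ h
    ext w
    have h' := LinearEquiv.congr_fun h (e (Additive.ofMul w, 0))
    simp only [L, MonoidHom.mk'_apply, lin_apply, e.symm_apply_apply, toMul_ofMul] at h'
    exact Additive.ofMul.injective (congrArg Prod.fst (e.injective h'))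
  let G := ((Matrix.GeneralLinearGroup.toLin : GL (Fin 4) (ZMod 2) ≃* _).trans
    (LinearMap.GeneralLinearGroup.generalLinearEquiv (ZMod 2) (Fin 4 → ZMod 2))).symm
  exact ⟨G.toMonoidHom.comp L, G.injective.comp hL⟩

/-- The action of a group on the Frattini quotient of a normal subgroup. -/
def frattiniAct {X : Type*} [Group X] (Q : Subgroup X) [Q.Normal] : X →* MulAut (↥Q ⧸ frattini ↥Q) where
  toFun x := QuotientGroup.congr (frattini ↥Q) (frattini ↥Q) (MulAut.conjNormal x)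
    (Subgroup.characteristic_iff_map_eq.mp inferInstance _)
  map_one' := by
    ext q
    obtain ⟨q, rfl⟩ := QuotientGroup.mk'_surjective _ q
    simp [QuotientGroup.congr_mk']
  map_mul' x y := by
    ext q
    obtain ⟨q, rfl⟩ := QuotientGroup.mk'_surjective _ q
    show (QuotientGroup.mk (MulAut.conjNormal (x * y) q) : ↥Q ⧸ frattini ↥Q) =
      QuotientGroup.mk (MulAut.conjNormal x (MulAut.conjNormal y q))
    rw [map_mul, MulAut.mul_apply]

theorem frattiniAct_mk {X : Type*} [Group X] (Q : Subgroup X) [Q.Normal] (x : X) (q : ↥Q) :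
    frattiniAct Q x (QuotientGroup.mk q) = QuotientGroup.mk (MulAut.conjNormal x q) := rfl


/-- Let X be a finite 2-constrained group with no nontrivial normal subgroup of odd order such that O₂(X) has sectional 2-rank at most 4. Then X/O₂(X) is isomorphic to a subgroup of the alternating group of degree 8. -/
theorem result {X : Type*} [Group X] [Finite X] (hc : Cfsg.IsPConstrained 2 X) (hO : Cfsg.oddCore X = ⊥)
    (h4 : Cfsg.SectionalPRankLE 2 4 ↥(Cfsg.pCore 2 X)) :
    ∃ f : X ⧸ Cfsg.pCore 2 X →* ↥(alternatingGroup (Fin 8)), Function.Injective f := by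
  classical
  haveI : Fact (Nat.Prime 2) := ⟨Nat.prime_two⟩
  set Q := Cfsg.pCore 2 X with hQdef
  have hQ : IsPGroup 2 ↥Q := CfsgLib.Constrained.isPGroup_pCore
  -- `C(Q) ≤ Q`
  have hPP : Cfsg.pPrimePCore 2 X = Q := by
    refine le_antisymm (CfsgLib.Constrained.le_pCore (Subgroup.Normal.comap inferInstance _) ?_) ?_
    · refine CfsgLib.Constrained.isPGroup_comap_mk ?_ CfsgLib.Constrained.isPGroup_pCore
      rw [show Cfsg.pPrimeCore 2 X = ⊥ from hO]
      exact IsPGroup.of_bot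
    · exact CfsgLib.Constrained.le_pPrimePCore inferInstance (hQ.map _)
  have hCQ : Subgroup.centralizer (Q : Set X) ≤ Q := by
    obtain ⟨P⟩ : Nonempty (Sylow 2 ↥(Cfsg.pPrimePCore 2 X)) := inferInstance
    have hall : IsPGroup 2 ↥(Cfsg.pPrimePCore 2 X) := hPP ▸ hQ
    have htop : (P : Subgroup ↥(Cfsg.pPrimePCore 2 X)) = ⊤ :=
      (P.is_maximal' (hall.to_subgroup ⊤) le_top).symm
    have h := hc P
    rw [htop, ← MonoidHom.range_eq_map, Subgroup.range_subtype, hPP] at h
    exact h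
  -- the action on the Frattini quotient
  have hab : ∀ a b : ↥Q ⧸ frattini ↥Q, a * b = b * a := by
    intro a b
    obtain ⟨a, rfl⟩ := QuotientGroup.mk'_surjective _ a
    obtain ⟨b, rfl⟩ := QuotientGroup.mk'_surjective _ b
    rw [← map_mul, ← map_mul, QuotientGroup.mk'_eq_mk']
    refine ⟨_, (CfsgLib.Frobenius57.pow_mem_frattini hQ b⁻¹ a⁻¹).2, ?_⟩
    group
  letI : CommGroup (↥Q ⧸ frattini ↥Q) := { (inferInstance : Group (↥Q ⧸ frattini ↥Q)) with mul_comm := hab }
  have h2 : ∀ w : ↥Q ⧸ frattini ↥Q, w ^ 2 = 1 := by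
    intro w
    obtain ⟨w, rfl⟩ := QuotientGroup.mk'_surjective _ w
    rw [← map_pow]
    exact (QuotientGroup.eq_one_iff _).mpr (CfsgLib.Frobenius57.pow_mem_frattini hQ w w).1
  have h16 : Nat.card (↥Q ⧸ frattini ↥Q) ≤ 16 := by
    let N := (frattini ↥Q).subgroupOf ⊤
    have hcard : Nat.card (↥(⊤ : Subgroup ↥Q) ⧸ N) = Nat.card (↥Q ⧸ frattini ↥Q) := by
      show N.index = (frattini ↥Q).index
      exact Subgroup.relIndex_top_right _
    have hmem : ∀ x : ↥Q, ∀ h : x ∈ (⊤ : Subgroup ↥Q), x ∈ frattini ↥Q → (⟨x, h⟩ : ↥(⊤ : Subgroup ↥Q)) ∈ N :=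
      fun x h hx => hx
    have hcomm : IsMulCommutative (⊤ : Subgroup (↥(⊤ : Subgroup ↥Q) ⧸ N)) := by
      refine ⟨⟨fun a b => Subtype.ext ?_⟩⟩
      obtain ⟨⟨a, ha⟩, ha'⟩ := QuotientGroup.mk'_surjective N (a : ↥(⊤ : Subgroup ↥Q) ⧸ N)
      obtain ⟨⟨b, hb⟩, hb'⟩ := QuotientGroup.mk'_surjective N (b : ↥(⊤ : Subgroup ↥Q) ⧸ N)
      rw [Subgroup.coe_mul, Subgroup.coe_mul, ← ha', ← hb', ← map_mul, ← map_mul, QuotientGroup.mk'_eq_mk']
      refine ⟨⟨_, Subgroup.mem_top _⟩, hmem _ _ (CfsgLib.Frobenius57.pow_mem_frattini hQ b⁻¹ a⁻¹).2,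
        Subtype.ext ?_⟩
      simp [mul_assoc]
    have h := h4 ⊤ N ⊤ hcomm (fun a _ => by
      obtain ⟨⟨a, ha⟩, rfl⟩ := QuotientGroup.mk'_surjective N a
      rw [← map_pow]
      exact (QuotientGroup.eq_one_iff _).mpr
        (hmem _ (pow_mem ha 2) (CfsgLib.Frobenius57.pow_mem_frattini hQ a a).1))
    rw [Subgroup.card_top, hcard] at h
    exact h.trans (by norm_num)
  obtain ⟨f, hf⟩ := exists_aut_to_gl h2 h16
  -- the kernel is `Q`
  have hker : (frattiniAct Q).ker = Q := by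
    refine le_antisymm ?_ fun x hx => ?_
    · refine CfsgLib.Constrained.le_pCore inferInstance ?_
      rw [IsPGroup.iff_card]
      refine ⟨_, Nat.eq_prime_pow_of_unique_prime_dvd Nat.card_pos.ne' fun {q} hq hdvd => ?_⟩
      by_contra hne
      haveI := Fact.mk hq
      obtain ⟨⟨x, hx⟩, hox⟩ := exists_prime_orderOf_dvd_card' q hdvd
      rw [Subgroup.orderOf_mk] at hox
      set σ : MulAut ↥Q := MulAut.conjNormal x with hσdef
      have hσ : σ ^ q ^ 1 = 1 := by
        rw [pow_one, hσdef, ← map_pow, ← hox, pow_orderOf_eq_one, map_one]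
      have hfix : ∀ y : ↥Q, y⁻¹ * σ y ∈ frattini ↥Q := by
        intro y
        have h := congrArg (fun g => g (QuotientGroup.mk y)) hx
        simp only [frattiniAct_mk, MulAut.one_apply] at h
        exact QuotientGroup.eq.mp h.symm
      have hone := CfsgLib.Frobenius57.aut_eq_one_of_frattini (Ne.symm hne) hQ σ hσ hfix
      have hxQ : x ∈ Q := hCQ (Subgroup.mem_centralizer_iff.mpr fun y hy => by
        have h := congrArg (fun g : MulAut ↥Q => ((g ⟨y, hy⟩ : ↥Q) : X)) hone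
        simp only [hσdef, MulAut.conjNormal_apply, MulAut.one_apply] at h
        exact (mul_inv_eq_iff_eq_mul.mp h).symm)
      obtain ⟨k, hk⟩ := (IsPGroup.iff_orderOf.mp hQ) ⟨x, hxQ⟩
      rw [Subgroup.orderOf_mk, hox] at hk
      have h2q : q ∣ 2 := hq.dvd_of_dvd_pow (dvd_of_eq hk)
      exact hne ((Nat.prime_dvd_prime_iff_eq hq Nat.prime_two).mp h2q)
    · rw [MonoidHom.mem_ker]
      ext w
      obtain ⟨w, rfl⟩ := QuotientGroup.mk'_surjective _ w
      rw [QuotientGroup.mk'_apply, frattiniAct_mk, MulAut.one_apply, eq_comm, QuotientGroup.eq]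
      have h := (CfsgLib.Frobenius57.pow_mem_frattini hQ w⁻¹ (⟨x, hx⟩ : ↥Q)).2
      have he : w⁻¹ * MulAut.conjNormal x w = w⁻¹ * ⟨x, hx⟩ * w⁻¹⁻¹ * (⟨x, hx⟩ : ↥Q)⁻¹ := by
        ext; simp [mul_assoc]
      rwa [he]
  refine ⟨CfsgLib.GL4F2.equivAlt8.toMonoidHom.comp (f.comp
    (QuotientGroup.lift Q (frattiniAct Q) hker.ge)), ?_⟩
  refine CfsgLib.GL4F2.equivAlt8.injective.comp (hf.comp ?_)
  intro a b hab'
  obtain ⟨a, rfl⟩ := QuotientGroup.mk'_surjective Q a
  obtain ⟨b, rfl⟩ := QuotientGroup.mk'_surjective Q b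
  simp only [QuotientGroup.mk'_apply, QuotientGroup.lift_mk] at hab'
  rw [QuotientGroup.mk'_apply, QuotientGroup.mk'_apply, QuotientGroup.eq]
  refine hker.le ?_
  rw [MonoidHom.mem_ker, map_mul, map_inv, hab', inv_mul_cancel]

end Cfsg.Agent.S3103
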