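import Cfsg.Statements.S3104
import Cfsg.Agent.SectRankFour.SixCopy
import Cfsg.Agent.S3103

set_option autoImplicit false
open Cfsg

namespace Cfsg.Agent.S3104

open CfsgLib.SectRankFour CfsgLib.GL4F2 Matrix
open scoped commutatorElement

theorem centralizer_le {X : Type*} [Group X] [Finite X] (hc : Cfsg.IsPConstrained 2 X) (hO : Cfsg.oddCore X = ⊥) :
    Subgroup.centralizer (Cfsg.pCore 2 X : Set X) ≤ Cfsg.pCore 2 X := by
  classical
  haveI : Fact (Nat.Prime 2) := ⟨Nat.prime_two⟩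
  set Q := Cfsg.pCore 2 X with hQdef
  have hQ : IsPGroup 2 ↥Q := CfsgLib.Constrained.isPGroup_pCore
  have hPP : Cfsg.pPrimePCore 2 X = Q := by
    refine le_antisymm (CfsgLib.Constrained.le_pCore (Subgroup.Normal.comap inferInstance _) ?_) ?_
    · refine CfsgLib.Constrained.isPGroup_comap_mk ?_ CfsgLib.Constrained.isPGroup_pCore
      rw [show Cfsg.pPrimeCore 2 X = ⊥ from hO]
      exact IsPGroup.of_bot
    · exact CfsgLib.Constrained.le_pPrimePCore inferInstance (hQ.map _)
  obtain ⟨P⟩ : Nonempty (Sylow 2 ↥(Cfsg.pPrimePCore 2 X)) := inferInstance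
  have hall : IsPGroup 2 ↥(Cfsg.pPrimePCore 2 X) := hPP ▸ hQ
  have htop : (P : Subgroup ↥(Cfsg.pPrimePCore 2 X)) = ⊤ := (P.is_maximal' (hall.to_subgroup ⊤) le_top).symm
  have h := hc P
  rw [htop, ← MonoidHom.range_eq_map, Subgroup.range_subtype, hPP] at h
  exact h

/-- The action on the Frattini quotient of the `2`-core, as matrices. -/
theorem exists_matrix_action {X : Type*} [Group X] [Finite X] (hc : Cfsg.IsPConstrained 2 X) (hO : Cfsg.oddCore X = ⊥)
    (h4 : Cfsg.SectionalPRankLE 2 4 ↥(Cfsg.pCore 2 X)) :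
    ∃ (G : X →* GL (Fin 4) (ZMod 2)) (u : ↥(Cfsg.pCore 2 X) →* Multiplicative (Fin 4 → ZMod 2))
      (R : AddSubgroup (Fin 4 → ZMod 2)),
      G.ker = Cfsg.pCore 2 X ∧
      (∀ g (n : ↥(Cfsg.pCore 2 X)), (u (MulAut.conjNormal g n)).toAdd = ((G g : M4)).mulVec (u n).toAdd) ∧
      (∀ g, ∀ r ∈ R, ((G g : M4)).mulVec r = r) ∧
      ∀ v, ∃ n, ∃ r ∈ R, v = (u n).toAdd + r := by
  classical
  haveI : Fact (Nat.Prime 2) := ⟨Nat.prime_two⟩
  set Q := Cfsg.pCore 2 X with hQdef
  have hQ : IsPGroup 2 ↥Q := CfsgLib.Constrained.isPGroup_pCore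
  have hab : ∀ a b : ↥Q ⧸ frattini ↥Q, a * b = b * a := by
    intro a b
    obtain ⟨a, rfl⟩ := QuotientGroup.mk'_surjective _ a
    obtain ⟨b, rfl⟩ := QuotientGroup.mk'_surjective _ b
    rw [← map_mul, ← map_mul, QuotientGroup.mk'_eq_mk']
    refine ⟨_, (CfsgLib.Frobenius57.pow_mem_frattini hQ b⁻¹ a⁻¹).2, ?_⟩
    group
  let _ : CommGroup (↥Q ⧸ frattini ↥Q) := { (inferInstance : Group (↥Q ⧸ frattini ↥Q)) with mul_comm := hab }
  have h2 : ∀ w : ↥Q ⧸ frattini ↥Q, w ^ 2 = 1 := by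
    intro w
    obtain ⟨w, rfl⟩ := QuotientGroup.mk'_surjective _ w
    rw [← map_pow]
    exact (QuotientGroup.eq_one_iff _).mpr (CfsgLib.Frobenius57.pow_mem_frattini hQ w w).1
  have h16 : Nat.card (↥Q ⧸ frattini ↥Q) ≤ 16 := by
    let N := (frattini ↥Q).subgroupOf ⊤
    have hcard : Nat.card (↥(⊤ : Subgroup ↥Q) ⧸ N) = Nat.card (↥Q ⧸ frattini ↥Q) := by
      show N.index = (frattini ↥Q).index
      exact Subgroup.relIndex_top_right _
    have hsq : ∀ y : ↥(⊤ : Subgroup ↥Q) ⧸ N, y ^ 2 = 1 := by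
      intro y
      obtain ⟨⟨a, ha⟩, rfl⟩ := QuotientGroup.mk'_surjective N y
      rw [← map_pow]
      exact (QuotientGroup.eq_one_iff _).mpr
        (show a ^ 2 ∈ frattini ↥Q from (CfsgLib.Frobenius57.pow_mem_frattini hQ a a).1)
    have hcomm : IsMulCommutative (⊤ : Subgroup (↥(⊤ : Subgroup ↥Q) ⧸ N)) := ⟨⟨fun a b => Subtype.ext (by
      have e : ∀ y : ↥(⊤ : Subgroup ↥Q) ⧸ N, y⁻¹ = y := fun y =>
        inv_eq_of_mul_eq_one_right ((pow_two y).symm.trans (hsq y))
      calc a.1 * b.1 = (a.1 * b.1)⁻¹ := (e _).symm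
        _ = b.1 * a.1 := by rw [_root_.mul_inv_rev, e, e])⟩⟩
    have h := h4 ⊤ N ⊤ hcomm (fun a _ => hsq a)
    rw [Subgroup.card_top, hcard] at h
    exact h.trans (by norm_num)
  let _ : Module (ZMod 2) (Additive (↥Q ⧸ frattini ↥Q)) :=
    AddCommGroup.zmodModule (n := 2) (G := Additive (↥Q ⧸ frattini ↥Q)) fun a => h2 a.toMul
  have : Module.Finite (ZMod 2) (Additive (↥Q ⧸ frattini ↥Q)) := Module.Finite.of_finite
  let W := Additive (↥Q ⧸ frattini ↥Q)
  have hd : Module.finrank (ZMod 2) W ≤ 4 := by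
    have h := Module.natCard_eq_pow_finrank (K := ZMod 2) (V := W)
    rw [Nat.card_zmod] at h
    have h' : (2 : ℕ) ^ Module.finrank (ZMod 2) W ≤ 2 ^ 4 := h ▸ h16
    exact (Nat.pow_le_pow_iff_right (by norm_num)).mp h'
  let R' := Fin (4 - Module.finrank (ZMod 2) W) → ZMod 2
  let e : (W × R') ≃ₗ[ZMod 2] (Fin 4 → ZMod 2) := LinearEquiv.ofFinrankEq _ _ (by
    rw [Module.finrank_prod, Module.finrank_fin_fun, Module.finrank_fin_fun]
    omega)
  let lin : X → ((Fin 4 → ZMod 2) ≃ₗ[ZMod 2] (Fin 4 → ZMod 2)) := fun g =>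
    e.symm.trans
      ((LinearEquiv.prodCongr
        ((MulEquiv.toAdditive (Cfsg.Agent.S3103.frattiniAct Q g)).toLinearEquiv fun c x =>
          ZMod.map_smul (MulEquiv.toAdditive (Cfsg.Agent.S3103.frattiniAct Q g)) c x)
        (LinearEquiv.refl _ R')).trans e)
  have lin_apply : ∀ g v, lin g v =
      e (Additive.ofMul (Cfsg.Agent.S3103.frattiniAct Q g (e.symm v).1.toMul), (e.symm v).2) := fun g v => rfl
  let L : X →* ((Fin 4 → ZMod 2) ≃ₗ[ZMod 2] (Fin 4 → ZMod 2)) := MonoidHom.mk' lin fun g h => by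
    refine LinearEquiv.ext fun v => ?_
    rw [LinearEquiv.mul_apply, lin_apply, lin_apply, lin_apply, e.symm_apply_apply, map_mul]
    rfl
  let tl := ((Matrix.GeneralLinearGroup.toLin : GL (Fin 4) (ZMod 2) ≃* _).trans
    (LinearMap.GeneralLinearGroup.generalLinearEquiv (ZMod 2) (Fin 4 → ZMod 2)))
  let G : X →* GL (Fin 4) (ZMod 2) := tl.symm.toMonoidHom.comp L
  have hGv : ∀ g v, ((G g : M4)).mulVec v = lin g v := by
    intro g v
    have h1 : tl (G g) = L g := tl.apply_symm_apply _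
    exact LinearEquiv.congr_fun h1 v
  let u : ↥Q →* Multiplicative (Fin 4 → ZMod 2) := MonoidHom.mk'
    (fun n => Multiplicative.ofAdd (e (Additive.ofMul (n : ↥Q ⧸ frattini ↥Q), 0))) fun a b => by
      rw [← ofAdd_add, ← map_add, Prod.mk_add_mk, add_zero, QuotientGroup.mk_mul, ofMul_mul]
  refine ⟨G, u, (AddSubgroup.map e.toAddEquiv.toAddMonoidHom (AddMonoidHom.inr W R').range), ?_, ?_, ?_, ?_⟩
  · refine le_antisymm ?_ fun x hx => ?_
    · refine CfsgLib.Constrained.le_pCore inferInstance ?_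
      rw [IsPGroup.iff_card]
      refine ⟨_, Nat.eq_prime_pow_of_unique_prime_dvd Nat.card_pos.ne' fun {q} hq hdvd => ?_⟩
      by_contra hne
      haveI := Fact.mk hq
      obtain ⟨⟨x, hx⟩, hox⟩ := exists_prime_orderOf_dvd_card' q hdvd
      rw [Subgroup.orderOf_mk] at hox
      set σ : MulAut ↥Q := MulAut.conjNormal x with hσdef
      have hσ : σ ^ q ^ 1 = 1 := by
        rw [pow_one, hσdef, ← map_pow, ← hox, pow_orderOf_eq_one, map_one]
      have hfix : ∀ y : ↥Q, y⁻¹ * σ y ∈ frattini ↥Q := by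
        intro y
        have h := hGv x (e (Additive.ofMul (y : ↥Q ⧸ frattini ↥Q), 0))
        rw [MonoidHom.mem_ker.1 hx, Units.val_one, Matrix.one_mulVec, lin_apply, e.symm_apply_apply] at h
        have h' := congrArg (fun p => Additive.toMul p.1) (e.injective h)
        exact QuotientGroup.eq.mp h'
      have hone := CfsgLib.Frobenius57.aut_eq_one_of_frattini (Ne.symm hne) hQ σ hσ hfix
      have hxQ : x ∈ Q := centralizer_le hc hO (Subgroup.mem_centralizer_iff.mpr fun y hy => by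
        have h := congrArg (fun g : MulAut ↥Q => ((g ⟨y, hy⟩ : ↥Q) : X)) hone
        simp only [hσdef, MulAut.conjNormal_apply, MulAut.one_apply] at h
        exact (mul_inv_eq_iff_eq_mul.mp h).symm)
      obtain ⟨k, hk⟩ := (IsPGroup.iff_orderOf.mp hQ) ⟨x, hxQ⟩
      rw [Subgroup.orderOf_mk, hox] at hk
      exact hne ((Nat.prime_dvd_prime_iff_eq hq Nat.prime_two).mp (hq.dvd_of_dvd_pow (dvd_of_eq hk)))
    · rw [MonoidHom.mem_ker]
      apply tl.injective
      rw [map_one]
      refine LinearEquiv.ext fun v => ?_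
      rw [show tl (G x) = L x from tl.apply_symm_apply _]
      show lin x v = v
      rw [lin_apply]
      have hw : Cfsg.Agent.S3103.frattiniAct Q x (e.symm v).1.toMul = (e.symm v).1.toMul := by
        obtain ⟨w, hw⟩ := QuotientGroup.mk'_surjective _ (e.symm v).1.toMul
        rw [← hw, QuotientGroup.mk'_apply, Cfsg.Agent.S3103.frattiniAct_mk, eq_comm, QuotientGroup.eq]
        have h := (CfsgLib.Frobenius57.pow_mem_frattini hQ w⁻¹ (⟨x, hx⟩ : ↥Q)).2
        have he : w⁻¹ * MulAut.conjNormal x w = w⁻¹ * ⟨x, hx⟩ * w⁻¹⁻¹ * (⟨x, hx⟩ : ↥Q)⁻¹ := by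
          ext; simp [mul_assoc]
        rwa [he]
      rw [hw, ofMul_toMul, Prod.mk.eta, e.apply_symm_apply]
  · intro g n
    show e (Additive.ofMul ((MulAut.conjNormal g n : ↥Q) : ↥Q ⧸ frattini ↥Q), 0) = _
    rw [hGv, lin_apply]
    show _ = e (Additive.ofMul (Cfsg.Agent.S3103.frattiniAct Q g (e.symm (e (Additive.ofMul (n : ↥Q ⧸ frattini ↥Q), 0))).1.toMul), _)
    simp only [u, MonoidHom.mk'_apply, toAdd_ofAdd, e.symm_apply_apply]
    rfl
  · rintro g _ ⟨_, ⟨r, rfl⟩, rfl⟩
    rw [hGv, lin_apply]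
    show e (Additive.ofMul (Cfsg.Agent.S3103.frattiniAct Q g (e.symm (e (0, r))).1.toMul), (e.symm (e (0, r))).2) = e (0, r)
    rw [e.symm_apply_apply, toMul_zero, map_one, ofMul_one]
  · intro v
    obtain ⟨n, hn⟩ := QuotientGroup.mk'_surjective _ (e.symm v).1.toMul
    refine ⟨n, e (0, (e.symm v).2), ⟨_, ⟨_, rfl⟩, rfl⟩, ?_⟩
    show v = e (Additive.ofMul (n : ↥Q ⧸ frattini ↥Q), 0) + e (0, (e.symm v).2)
    rw [show (n : ↥Q ⧸ frattini ↥Q) = _ from hn, ofMul_toMul, ← map_add, Prod.mk_add_mk, add_zero, zero_add,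
      Prod.mk.eta, e.apply_symm_apply]

/-- The rank five section over a copy of `Sym 6`. -/
theorem no_six {X : Type*} [Group X] [Finite X] (hc : Cfsg.IsPConstrained 2 X) (hO : Cfsg.oddCore X = ⊥)
    (h4 : Cfsg.SectionalPRankLE 2 4 ↥(Cfsg.pCore 2 X)) (h4X : Cfsg.SectionalPRankLE 2 4 X)
    (j : Equiv.Perm (Fin 6) →* X ⧸ Cfsg.pCore 2 X) (hj : Function.Injective j) : False := by
  classical
  haveI : Fact (Nat.Prime 2) := ⟨Nat.prime_two⟩
  haveI : Fact (Nat.Prime 3) := ⟨Nat.prime_three⟩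
  have hex := exists_matrix_action hc hO h4
  set N := Cfsg.pCore 2 X with hN
  obtain ⟨G, u, R, hker, hequiv, hRfix, hspan⟩ := hex
  let G₀ := QuotientGroup.lift N G hker.ge
  have hG₀ : Function.Injective G₀ := by
    refine (injective_iff_map_eq_one G₀).2 fun a ha => ?_
    obtain ⟨a, rfl⟩ := QuotientGroup.mk'_surjective N a
    exact (QuotientGroup.eq_one_iff a).2 (hker.le ha)
  obtain ⟨c, hcj⟩ := exists_conj_std (G₀.comp j) (hG₀.comp hj)
  -- conjugated action
  let G' : X →* GL (Fin 4) (ZMod 2) := (MulAut.conj c⁻¹).toMonoidHom.comp G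
  have hG' : ∀ g, G' g = c⁻¹ * G g * c := fun g => by
    show c⁻¹ * G g * c⁻¹⁻¹ = _
    rw [inv_inv]
  let v : ↥N → (Fin 4 → ZMod 2) := fun n => ((c⁻¹ : GL (Fin 4) (ZMod 2)) : M4).mulVec (u n).toAdd
  have hvmul : ∀ a b, v (a * b) = v a + v b := fun a b => by
    show _ = _
    simp only [v, map_mul, toAdd_mul, Matrix.mulVec_add]
  have hveq : ∀ g n, v (MulAut.conjNormal g n) = ((G' g : M4)).mulVec (v n) := by
    intro g n
    simp only [v]
    rw [hequiv, hG', Units.val_mul, Units.val_mul, ← Matrix.mulVec_mulVec, ← Matrix.mulVec_mulVec]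
    congr 1
    congr 1
    rw [Matrix.mulVec_mulVec, ← Units.val_mul, mul_inv_cancel, Units.val_one, Matrix.one_mulVec]
  have hlift : ∀ i b, ∃ g : X, G' g = stdGL i b := by
    intro i b
    obtain ⟨h, hh⟩ := hcj i b
    obtain ⟨g, hg⟩ := QuotientGroup.mk'_surjective N (j h)
    refine ⟨g, ?_⟩
    have : G g = c * stdGL i b * c⁻¹ := by
      rw [← hh]
      show G g = G₀ (j h)
      rw [← hg]
      rfl
    rw [hG', this]
    group
  have hkerG' : ∀ g, G' g = 1 ↔ g ∈ N := fun g => by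
    rw [SetLike.ext_iff.1 (show N = G.ker from hker.symm) g, MonoidHom.mem_ker]
    show (MulAut.conj c⁻¹) (G g) = 1 ↔ _
    exact map_eq_one_iff _ (MulEquiv.injective _)
  -- involution lifts commuting with elements of order three
  have hchoose : ∀ i, ∃ x D : X, G' x = stdGL i false ∧ G' D = stdGL i true ∧ D * x = x * D := by
    intro i
    obtain ⟨D₀, hD₀⟩ := hlift i true
    obtain ⟨x₀, hx₀⟩ := hlift i false
    obtain ⟨b, m, hm, hbm⟩ := Nat.exists_eq_pow_mul_and_not_dvd (isOfFinOrder_of_finite D₀).orderOf_pos.ne' 3 (by norm_num)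
    have hm1 : m ^ 2 % 3 = 1 := by
      have h3 : m % 3 = 1 ∨ m % 3 = 2 := by omega
      rcases h3 with h | h <;> rw [Nat.pow_mod, h]
    set D := D₀ ^ (m ^ 2) with hDdef
    have hd3 : (stdGL i true) ^ 3 = 1 := by
      apply Units.ext
      rw [pow_succ', pow_two, Units.val_mul, Units.val_mul, coe_stdGL, (std_order_three i).1, Units.val_one]
    have hGD : G' D = stdGL i true := by
      rw [hDdef, map_pow, hD₀, pow_eq_pow_mod _ hd3, hm1, pow_one]
    have hDp : D ^ (3 ^ b) = 1 := by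
      rw [hDdef, ← pow_mul, show m ^ 2 * 3 ^ b = orderOf D₀ * m by rw [hbm]; ring, pow_mul,
        pow_orderOf_eq_one, one_pow]
    let P := Subgroup.zpowers D
    have hP : IsPGroup 3 P := fun y => by
      obtain ⟨y, k, rfl⟩ := y
      refine ⟨b, Subtype.ext ?_⟩
      show (D ^ k) ^ (3 ^ b) = 1
      rw [← zpow_natCast, ← _root_.zpow_mul, mul_comm, _root_.zpow_mul, zpow_natCast, hDp, _root_.one_zpow]
    let T := {y : X // G' y = stdGL i false}
    have hcl : ∀ g : P, ∀ y : X, G' y = stdGL i false → G' ((g : X) * y * (g : X)⁻¹) = stdGL i false := by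
      rintro ⟨_, k, rfl⟩ y hy
      rw [map_mul, map_mul, map_inv, hy]
      show G' (D ^ k) * stdGL i false * (G' (D ^ k))⁻¹ = _
      rw [map_zpow, hGD]
      have hc' : Commute (stdGL i true) (stdGL i false) := by
        apply Units.ext
        rw [Units.val_mul, Units.val_mul, coe_stdGL, coe_stdGL]
        exact (std_order_three i).2
      rw [(hc'.zpow_left k).eq, mul_inv_cancel_right]
    let _ : MulAction P T :=
      { smul := fun g y => ⟨(g : X) * y * (g : X)⁻¹, hcl g y y.2⟩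
        one_smul := fun y => Subtype.ext (show (1 : X) * y * (1 : X)⁻¹ = y by group)
        mul_smul := fun g g' y => Subtype.ext
          (show (g * g' : X) * y * (g * g' : X)⁻¹ = g * ((g' : X) * y * (g' : X)⁻¹) * (g : X)⁻¹ by group) }
    have hT : ¬ 3 ∣ Nat.card T := by
      let eT : ↥N ≃ T :=
        { toFun := fun n => ⟨x₀ * n, by rw [map_mul, hx₀, (hkerG' _).2 n.2, mul_one]⟩
          invFun := fun y => ⟨x₀⁻¹ * y, (hkerG' _).1 (by rw [map_mul, map_inv, hx₀, y.2, inv_mul_cancel])⟩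
          left_inv := fun n => Subtype.ext (inv_mul_cancel_left _ _)
          right_inv := fun y => Subtype.ext (mul_inv_cancel_left _ _) }
      rw [← Nat.card_congr eT]
      obtain ⟨k, hk⟩ := IsPGroup.iff_card.1 (CfsgLib.Constrained.isPGroup_pCore (p := 2) (G := X))
      rw [hk]
      intro h
      exact absurd ((Nat.prime_dvd_prime_iff_eq Nat.prime_three Nat.prime_two).1 (Nat.prime_three.dvd_of_dvd_pow h)) (by norm_num)
    obtain ⟨y, hy⟩ := hP.nonempty_fixed_point_of_prime_not_dvd_card T hT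
    refine ⟨y, D, y.2, hGD, ?_⟩
    have := congrArg Subtype.val (hy ⟨D, Subgroup.mem_zpowers D⟩)
    exact mul_inv_eq_iff_eq_mul.1 this
  choose x D hx hD hxD using hchoose
  -- the subgroup of index four in `N`
  let φ : ↥N →* Multiplicative (ZMod 2 × ZMod 2) :=
    MonoidHom.mk' (fun n => Multiplicative.ofAdd (v n 3, v n 1 + v n 2)) fun a b => by
      rw [← ofAdd_add, Prod.mk_add_mk, hvmul]
      simp only [Pi.add_apply]
      rw [add_add_add_comm]
  have hφ : ∀ n, φ n = 1 ↔ InW (v n) := fun n => by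
    show Multiplicative.ofAdd _ = _ ↔ _
    rw [ofAdd_eq_one, Prod.mk_eq_zero, InW, CharTwo.add_eq_zero]
  have hfix : ∀ (g : X) (n : ↥N), g * (n : X) * g⁻¹ = n → ((G' g : M4)).mulVec (v n) = v n := fun g n h => by
    rw [← hveq]
    exact congrArg v (Subtype.ext (by rw [MulAut.conjNormal_apply]; exact h))
  have hφsurj : Function.Surjective φ := by
    intro y
    let w : Fin 4 → ZMod 2 := ![0, y.toAdd.2, 0, y.toAdd.1]
    obtain ⟨n, r, hr, hw⟩ := hspan ((c : M4).mulVec w)
    refine ⟨n, ?_⟩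
    have hR : InW (((c⁻¹ : GL (Fin 4) (ZMod 2)) : M4).mulVec r) := by
      refine std_fixed_pair 0 1 _ (by decide) ?_
      have := hRfix (x 0 * x 1) r hr
      have h2 : (stdMat 0 false * stdMat 1 false : M4) = ((G' (x 0 * x 1) : GL (Fin 4) (ZMod 2)) : M4) := by
        rw [map_mul, hx, hx, Units.val_mul]; rfl
      rw [h2, hG', Units.val_mul, Units.val_mul, ← Matrix.mulVec_mulVec, ← Matrix.mulVec_mulVec]
      congr 1
      rw [Matrix.mulVec_mulVec _ (c : M4), ← Units.val_mul, mul_inv_cancel, Units.val_one, Matrix.one_mulVec, this]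
    have h1 : w = v n + ((c⁻¹ : GL (Fin 4) (ZMod 2)) : M4).mulVec r := by
      have := congrArg (((c⁻¹ : GL (Fin 4) (ZMod 2)) : M4).mulVec) hw
      rw [Matrix.mulVec_mulVec, ← Units.val_mul, inv_mul_cancel, Units.val_one, Matrix.one_mulVec,
        Matrix.mulVec_add] at this
      exact this
    have e3 := congrFun h1 3
    have e1 := congrFun h1 1
    have e2 := congrFun h1 2
    simp only [w, Pi.add_apply, Matrix.cons_val] at e1 e2 e3
    show Multiplicative.ofAdd (v n 3, v n 1 + v n 2) = y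
    rw [← ofAdd_toAdd y]
    congr 1
    refine Prod.ext ?_ ?_
    · show v n 3 = _
      rw [hR.1, add_zero] at e3
      exact e3.symm
    · show v n 1 + v n 2 = _
      rw [hR.2] at e1
      rw [e1]
      have : v n 2 = ((c⁻¹ : GL (Fin 4) (ZMod 2)) : M4).mulVec r 2 := CharTwo.add_eq_zero.1 e2.symm
      rw [this]
  let M : Subgroup X := φ.ker.map N.subtype
  have hM : ∀ n : ↥N, InW (v n) → (n : X) ∈ M := fun n h => ⟨n, (hφ n).2 h, rfl⟩
  -- the generators
  have hsq : ∀ i, x i * x i ∈ M := by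
    intro i
    have hn : x i * x i ∈ N := (hkerG' _).1 (by
      apply Units.ext
      rw [map_mul, hx, Units.val_mul, coe_stdGL, std_involution, Units.val_one])
    refine hM (⟨_, hn⟩ : ↥N) (std_fixed_three i _ ?_ ?_)
    · have := hfix (x i) ⟨_, hn⟩ (show x i * (x i * x i) * (x i)⁻¹ = x i * x i by group)
      rwa [hx] at this
    · have := hfix (D i) ⟨_, hn⟩ (show D i * (x i * x i) * (D i)⁻¹ = x i * x i by
        rw [← mul_assoc, hxD, mul_assoc (x i), hxD, ← mul_assoc, mul_inv_cancel_right])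
      rwa [hD] at this
  have hsq2 : ∀ i k, i ≠ k → x i * x k * (x i * x k) ∈ M := by
    intro i k hik
    have hn : x i * x k * (x i * x k) ∈ N := (hkerG' _).1 (by
      apply Units.ext
      rw [map_mul, map_mul, hx, hx, Units.val_mul, Units.val_mul, coe_stdGL, coe_stdGL, Units.val_one,
        mul_assoc, ← mul_assoc (stdMat k false), ← std_commute i k, mul_assoc (stdMat i false) (stdMat k false),
        std_involution, mul_one, std_involution])
    refine hM ⟨_, hn⟩ (std_fixed_pair i k _ hik ?_)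
    have := hfix (x i * x k) ⟨_, hn⟩ (by show x i * x k * (x i * x k * (x i * x k)) * (x i * x k)⁻¹ = _; group)
    rwa [map_mul, hx, hx, Units.val_mul] at this
  let S : Set X := (N : Set X) ∪ Set.range x
  let H := Subgroup.closure S
  have hMN : M ≤ N := Subgroup.map_subtype_le _
  have hNH : N ≤ H := fun n hn => Subgroup.subset_closure (Or.inl hn)
  have hMinW : ∀ n : ↥N, (n : X) ∈ M → InW (v n) := by
    rintro n ⟨m, hm, e⟩
    rw [← Subtype.ext e]
    exact (hφ m).1 hm
  have hnorm : H ≤ Subgroup.normalizer (M : Set X) := by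
    refine (Subgroup.closure_le _).2 ?_
    rintro g (hg | ⟨i, rfl⟩) <;> refine Subgroup.mem_normalizer_fintype ?_ <;> rintro _ ⟨n, hn, rfl⟩
    · have hin : MulAut.conjNormal g n ∈ φ.ker := by
        rw [MonoidHom.mem_ker, hφ, hveq, (hkerG' g).2 hg, Units.val_one, Matrix.one_mulVec]
        exact (hφ n).1 hn
      exact ⟨_, hin, MulAut.conjNormal_apply _ n⟩
    · have hin : MulAut.conjNormal (x i) n ∈ φ.ker := by
        rw [MonoidHom.mem_ker, hφ, hveq, hx, coe_stdGL]
        have h1 := std_commutator_mem i (v n)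
        have h2 := (hφ n).1 hn
        refine ⟨?_, ?_⟩
        · have := h1.1
          rwa [Pi.add_apply, h2.1, add_zero] at this
        · have := h1.2
          rw [Pi.add_apply, Pi.add_apply, h2.2] at this
          exact add_right_cancel this
      exact ⟨_, hin, MulAut.conjNormal_apply _ n⟩
  haveI : (M.subgroupOf H).Normal := Subgroup.normal_subgroupOf_of_le_normalizer hnorm
  let π : H →* H ⧸ M.subgroupOf H := QuotientGroup.mk' _
  have hπ : ∀ (g : X) (hg : g ∈ H), g ∈ M → π ⟨g, hg⟩ = 1 := fun g hg h => (QuotientGroup.eq_one_iff _).2 h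
  -- generators square to one and commute modulo `M`
  have hgsq : ∀ (g : X) (hg : g ∈ S), π ⟨g, Subgroup.subset_closure hg⟩ * π ⟨g, Subgroup.subset_closure hg⟩ = 1 := by
    intro g hg
    rw [← map_mul]
    refine hπ _ (mul_mem (Subgroup.subset_closure hg) (Subgroup.subset_closure hg)) ?_
    rcases hg with hg | ⟨i, rfl⟩
    · refine hM ⟨_, mul_mem hg hg⟩ ?_
      have e : v ⟨g * g, mul_mem hg hg⟩ = 0 := by
        rw [show (⟨g * g, mul_mem hg hg⟩ : ↥N) = ⟨g, hg⟩ * ⟨g, hg⟩ from rfl, hvmul]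
        exact funext fun _ => CharTwo.add_self_eq_zero _
      rw [e]; exact ⟨rfl, rfl⟩
    · exact hsq i
  have hgcomm : ∀ (g k : X) (hg : g ∈ S) (hk : k ∈ S),
      π ⟨g, Subgroup.subset_closure hg⟩ * π ⟨k, Subgroup.subset_closure hk⟩ =
        π ⟨k, Subgroup.subset_closure hk⟩ * π ⟨g, Subgroup.subset_closure hg⟩ := by
    intro g k hg hk
    have key : ∀ a b : H ⧸ M.subgroupOf H, a * a = 1 → b * b = 1 → a * b * (a * b) = 1 → a * b = b * a := by
      intro a b ha hb hab
      calc a * b = a * (a * b * (a * b)) * b := by rw [hab, mul_one]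
        _ = (a * a) * (b * a) * (b * b) := by group
        _ = b * a := by rw [ha, hb, one_mul, mul_one]
    refine key _ _ (hgsq g hg) (hgsq k hk) ?_
    rw [← map_mul, ← map_mul]
    refine hπ _ (mul_mem (mul_mem (Subgroup.subset_closure hg) (Subgroup.subset_closure hk))
      (mul_mem (Subgroup.subset_closure hg) (Subgroup.subset_closure hk))) ?_
    have hNx : ∀ n ∈ N, ∀ i, n * x i * (n * x i) ∈ M ∧ x i * n * (x i * n) ∈ M := by
      intro n hn i
      have hn' : x i * n * (x i)⁻¹ ∈ N := (inferInstance : N.Normal).conj_mem n hn (x i)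
      have e : n * x i * (n * x i) = (n * (x i * n * (x i)⁻¹)) * (x i * x i) := by group
      have hm : n * (x i * n * (x i)⁻¹) ∈ M := by
        refine hM ⟨_, mul_mem hn hn'⟩ ?_
        have e2 : (⟨n * (x i * n * (x i)⁻¹), mul_mem hn hn'⟩ : ↥N) = ⟨n, hn⟩ * MulAut.conjNormal (x i) ⟨n, hn⟩ :=
          Subtype.ext (by rw [Subgroup.coe_mul, MulAut.conjNormal_apply])
        rw [e2, hvmul, hveq, hx, coe_stdGL, add_comm]
        exact std_commutator_mem i _
      have hfst : n * x i * (n * x i) ∈ M := e ▸ mul_mem hm (hsq i)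
      refine ⟨hfst, ?_⟩
      have := (Subgroup.mem_normalizer_iff.1 (hnorm (inv_mem (hNH hn))) _).1 hfst
      rwa [inv_inv, show n⁻¹ * (n * x i * (n * x i)) * n = x i * n * (x i * n) by group] at this
    rcases hg with hg | ⟨i, rfl⟩ <;> rcases hk with hk | ⟨l, rfl⟩
    · refine hM ⟨_, mul_mem (mul_mem hg hk) (mul_mem hg hk)⟩ ?_
      have e : v ⟨g * k * (g * k), mul_mem (mul_mem hg hk) (mul_mem hg hk)⟩ = 0 := by
        rw [show (⟨g * k * (g * k), mul_mem (mul_mem hg hk) (mul_mem hg hk)⟩ : ↥N) =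
          (⟨g, hg⟩ * ⟨k, hk⟩) * (⟨g, hg⟩ * ⟨k, hk⟩) from rfl, hvmul]
        exact funext fun _ => CharTwo.add_self_eq_zero _
      rw [e]; exact ⟨rfl, rfl⟩
    · exact (hNx g hg l).1
    · exact (hNx k hk i).2
    · by_cases hil : i = l
      · subst hil
        exact mul_mem (hsq i) (hsq i)
      · exact hsq2 i l hil
  -- the quotient is elementary abelian
  let T' : Set (H ⧸ M.subgroupOf H) := {y | ∃ (g : X) (hg : g ∈ S), y = π ⟨g, Subgroup.subset_closure hg⟩}
  have hgenH : Subgroup.closure T' = ⊤ := by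
    refine eq_top_iff.2 fun y _ => ?_
    obtain ⟨⟨g, hg⟩, rfl⟩ := QuotientGroup.mk'_surjective _ y
    clear * -
    induction hg using Subgroup.closure_induction with
    | mem g hg => exact Subgroup.subset_closure ⟨g, hg, rfl⟩
    | one => exact one_mem _
    | mul a b ha hb iha ihb =>
      rw [show (⟨a * b, _⟩ : H) = ⟨a, ha⟩ * ⟨b, hb⟩ from rfl, map_mul]
      exact mul_mem iha ihb
    | inv a ha iha =>
      rw [show (⟨a⁻¹, _⟩ : H) = (⟨a, ha⟩ : H)⁻¹ from rfl, map_inv]
      exact inv_mem iha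
  have hcommQ : ∀ y z : H ⧸ M.subgroupOf H, y * z = z * y := by
    have h1 : ∀ y ∈ Subgroup.closure T', ∀ t ∈ T', y * t = t * y := by
      intro y hy
      induction hy using Subgroup.closure_induction with
      | mem y hy => obtain ⟨g, hg, rfl⟩ := hy; rintro t ⟨k, hk, rfl⟩; exact hgcomm g k hg hk
      | one => intro t _; rw [one_mul, mul_one]
      | mul a b _ _ iha ihb => intro t ht; exact ((show Commute a t from iha t ht).mul_left (ihb t ht)).eq
      | inv a _ iha => intro t ht; exact (show Commute a t from iha t ht).inv_left.eq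
    intro y z
    have hz : z ∈ Subgroup.closure T' := hgenH ▸ Subgroup.mem_top z
    induction hz using Subgroup.closure_induction with
    | mem t ht => exact h1 y (hgenH ▸ Subgroup.mem_top y) t ht
    | one => rw [one_mul, mul_one]
    | mul a b _ _ iha ihb => exact ((show Commute y a from iha).mul_right ihb).eq
    | inv a _ iha => exact (show Commute y a from iha).inv_right.eq
  have hexp : ∀ y : H ⧸ M.subgroupOf H, y ^ 2 = 1 := by
    intro y
    have hy : y ∈ Subgroup.closure T' := hgenH ▸ Subgroup.mem_top y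
    induction hy using Subgroup.closure_induction with
    | mem t ht => obtain ⟨g, hg, rfl⟩ := ht; rw [pow_two]; exact hgsq g hg
    | one => exact one_pow 2
    | mul a b _ _ iha ihb => rw [(show Commute a b from hcommQ a b).mul_pow, iha, ihb, one_mul]
    | inv a _ iha => rw [inv_pow, iha, inv_one]
  have h16 := h4X H (M.subgroupOf H) ⊤ ⟨⟨fun a b => Subtype.ext (hcommQ a.1 b.1)⟩⟩ (fun a _ => hexp a)
  rw [Subgroup.card_top] at h16
  -- but it has at least thirty-two elements
  have hindex : Nat.card (H ⧸ M.subgroupOf H) = M.relIndex N * N.relIndex H :=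
    (Subgroup.relIndex_mul_relIndex M N H hMN hNH).symm
  have h4N : M.relIndex N = 4 := by
    rw [Subgroup.relIndex, Subgroup.subgroupOf, Subgroup.comap_map_eq_self_of_injective N.subtype_injective,
      Subgroup.index_ker, MonoidHom.range_eq_top.2 hφsurj, Subgroup.card_top, Nat.card_congr Multiplicative.toAdd,
      Nat.card_prod, Nat.card_zmod]
  have h8 : 8 ≤ N.relIndex H := by
    have hNker : N = G'.ker := SetLike.ext fun g => (hkerG' g).symm
    rw [hNker, Subgroup.relIndex_ker]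
    let f : Bool × Bool × Bool → ↥(H.map G') := fun b =>
      ⟨(if b.1 then stdGL 0 false else 1) * (if b.2.1 then stdGL 1 false else 1) * (if b.2.2 then stdGL 2 false else 1), by
        have hmem : ∀ i, stdGL i false ∈ H.map G' := fun i => ⟨x i, Subgroup.subset_closure (Or.inr ⟨i, rfl⟩), hx i⟩
        refine mul_mem (mul_mem ?_ ?_) ?_ <;> split_ifs <;> first | exact one_mem _ | exact hmem _⟩
    have hf : Function.Injective f := by
      intro a b hab
      let enc : Bool × Bool × Bool → Equiv.Perm (Fin 8) := fun b =>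
        (if b.1 then stdPerm 0 false else 1) * (if b.2.1 then stdPerm 1 false else 1) * (if b.2.2 then stdPerm 2 false else 1)
      have henc : ∀ b, ((equivAlt8 (f b).1 : ↥(alternatingGroup (Fin 8))) : Equiv.Perm (Fin 8)) = enc b := by
        intro b
        simp only [f, enc]
        obtain ⟨b1, b2, b3⟩ := b
        cases b1 <;> cases b2 <;> cases b3 <;> simp [map_mul, equivAlt8_stdGL]
      have h1 := congrArg (fun z => ((equivAlt8 z.1 : ↥(alternatingGroup (Fin 8))) : Equiv.Perm (Fin 8))) hab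
      simp only [henc] at h1
      exact enc_injective a b h1
    calc 8 = Nat.card (Bool × Bool × Bool) := by simp
      _ ≤ _ := Nat.card_le_card_of_injective f hf
  have : 32 ≤ Nat.card (H ⧸ M.subgroupOf H) := by rw [hindex, h4N]; omega
  norm_num at h16
  omega
where
  enc_injective : ∀ a b : Bool × Bool × Bool,
      (if a.1 then stdPerm 0 false else 1) * (if a.2.1 then stdPerm 1 false else 1) * (if a.2.2 then stdPerm 2 false else 1) =
        (if b.1 then stdPerm 0 false else 1) * (if b.2.1 then stdPerm 1 false else 1) * (if b.2.2 then stdPerm 2 false else 1) →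
      a = b := by decide +kernel

theorem gl_three_to_psl : Nonempty (GL (Fin 3) (ZMod 2) ≃* Matrix.ProjectiveSpecialLinearGroup (Fin 3) (ZMod 2)) := by
  haveI : Fact (Nat.Prime 2) := ⟨Nat.prime_two⟩
  let f : GL (Fin 3) (ZMod 2) →* Matrix.SpecialLinearGroup (Fin 3) (ZMod 2) :=
    MonoidHom.mk' (fun A => ⟨(A : Matrix (Fin 3) (Fin 3) (ZMod 2)), by
      have h := Matrix.GeneralLinearGroup.det_ne_zero A
      revert h
      generalize (A : Matrix (Fin 3) (Fin 3) (ZMod 2)).det = d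
      revert d
      decide⟩) fun A B => Subtype.ext rfl
  let g := (QuotientGroup.mk' (Subgroup.center (Matrix.SpecialLinearGroup (Fin 3) (ZMod 2)))).comp f
  refine ⟨MulEquiv.ofBijective g ⟨(injective_iff_map_eq_one g).2 fun A hA => ?_, fun y => ?_⟩⟩
  · have h1 : f A ∈ Subgroup.center (Matrix.SpecialLinearGroup (Fin 3) (ZMod 2)) := (QuotientGroup.eq_one_iff _).1 hA
    obtain ⟨r, hr, hr'⟩ := Matrix.SpecialLinearGroup.mem_center_iff.1 h1
    have hr1 : r = 1 := by
      rcases (CfsgLib.GL4F2.zmod2_cases r) with rfl | rfl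
      · simp at hr
      · rfl
    apply Units.ext
    rw [hr1, map_one] at hr'
    exact hr'.symm
  · obtain ⟨B, rfl⟩ := QuotientGroup.mk'_surjective _ y
    refine ⟨Matrix.GeneralLinearGroup.mkOfDetNeZero B.1 (by rw [B.2]; exact one_ne_zero), ?_⟩
    exact congrArg _ (Subtype.ext rfl)

theorem six_to_alt_eight : ∃ j : Equiv.Perm (Fin 6) →* ↥(alternatingGroup (Fin 8)), Function.Injective j := by
  let s : Equiv.Perm (Fin 6) →* Equiv.Perm (Fin 2) :=
    MonoidHom.mk' (fun σ => if Equiv.Perm.sign σ = 1 then 1 else Equiv.swap 0 1) fun σ τ => by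
      rcases Int.units_eq_one_or (Equiv.Perm.sign σ) with h | h <;>
        rcases Int.units_eq_one_or (Equiv.Perm.sign τ) with h' | h' <;> simp [map_mul, h, h', Equiv.swap_mul_self]
  let f : Equiv.Perm (Fin 6) →* Equiv.Perm (Fin 8) :=
    (Equiv.permCongrHom (finSumFinEquiv : Fin 6 ⊕ Fin 2 ≃ Fin 8)).toMonoidHom.comp
      ((Equiv.Perm.sumCongrHom (Fin 6) (Fin 2)).comp ((MonoidHom.id _).prod s))
  refine ⟨f.codRestrict _ fun σ => Equiv.Perm.mem_alternatingGroup.2 ?_, fun a b h => ?_⟩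
  · show Equiv.Perm.sign (Equiv.permCongr finSumFinEquiv (Equiv.sumCongr σ (s σ))) = 1
    rw [Equiv.Perm.sign_permCongr, Equiv.Perm.sign_sumCongr]
    rcases Int.units_eq_one_or (Equiv.Perm.sign σ) with h | h <;> simp [s, h]
  · have h1 : f a = f b := congrArg Subtype.val h
    have h2 := Equiv.Perm.sumCongrHom_injective ((Equiv.permCongrHom (finSumFinEquiv : Fin 6 ⊕ Fin 2 ≃ Fin 8)).injective h1)
    exact congrArg Prod.fst h2

theorem classify_quotient {K : Type*} [Group K] [Finite K] (hns : ¬ Group.IsSolvable K)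
    (h2 : Cfsg.pCore 2 K = ⊥) (f : K →* ↥(alternatingGroup (Fin 8))) (hf : Function.Injective f) :
    (∃ n : ℕ, 5 ≤ n ∧ n ≤ 8 ∧ Nonempty (K ≃* ↥(alternatingGroup (Fin n)))) ∨
      Nonempty (K ≃* Equiv.Perm (Fin 5)) ∨ Nonempty (K ≃* Equiv.Perm (Fin 6)) ∨ Nonempty (K ≃* GL (Fin 3) (ZMod 2)) ∨
      (Nat.card ↥(Cfsg.pCore 3 K) = 3 ∧
        (Nonempty (K ⧸ Cfsg.pCore 3 K ≃* ↥(alternatingGroup (Fin 5))) ∨
          Nonempty (K ⧸ Cfsg.pCore 3 K ≃* Equiv.Perm (Fin 5)))) := by
  classical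
  by_cases hss : HasNoSolvableNormal K
  · let g : K →* GL (Fin 4) (ZMod 2) := equivAlt8.symm.toMonoidHom.comp f
    let e := MonoidHom.ofInjective (f := g) (equivAlt8.symm.injective.comp hf)
    have hne : g.range ≠ ⊥ := by
      intro h
      apply hns
      haveI : Subsingleton K := ⟨fun a b => e.injective (Subtype.ext (by
        rw [Subgroup.mem_bot.1 (h ▸ (e a).2 : ((e a : g.range) : GL (Fin 4) (ZMod 2)) ∈ (⊥ : Subgroup _)),
          Subgroup.mem_bot.1 (h ▸ (e b).2 : ((e b : g.range) : GL (Fin 4) (ZMod 2)) ∈ (⊥ : Subgroup _))]))⟩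
      exact Group.isSolvable_of_comm fun a b => Subsingleton.elim _ _
    rcases classify g.range hne (hss.of_equiv e) with ⟨n, h5, h8, ⟨e'⟩⟩ | ⟨⟨e'⟩⟩ | ⟨⟨e'⟩⟩ | ⟨⟨e'⟩⟩
    · exact Or.inl ⟨n, h5, h8, ⟨e.trans e'⟩⟩
    · exact Or.inr (Or.inl ⟨e.trans e'⟩)
    · exact Or.inr (Or.inr (Or.inl ⟨e.trans e'⟩))
    · exact Or.inr (Or.inr (Or.inr (Or.inl ⟨e.trans e'⟩)))
  · refine Or.inr (Or.inr (Or.inr (Or.inr ?_)))
    simp only [HasNoSolvableNormal, not_forall] at hss
    obtain ⟨L, hLn, hLs, hL⟩ := hss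
    haveI := hLn
    -- an abelian normal subgroup
    obtain ⟨A, hAn, hA, hAc⟩ : ∃ A : Subgroup K, A.Normal ∧ A ≠ ⊥ ∧ ∀ a ∈ A, ∀ b ∈ A, a * b = b * a := by
      obtain ⟨n, hn⟩ := (Group.isSolvable_def ↥L).mp hLs
      have hex : ∃ k, derivedSeries ↥L k = ⊥ := ⟨n, hn⟩
      have hk : derivedSeries ↥L (Nat.find hex) = ⊥ := Nat.find_spec hex
      obtain ⟨i, hi⟩ : ∃ i : ℕ, Nat.find hex = i + 1 := Nat.exists_eq_succ_of_ne_zero fun h0 => by
        rw [h0, derivedSeries_zero] at hk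
        exact hL ((Subgroup.eq_bot_iff_forall _).2 fun a ha => congrArg (fun z : ↥L => (z : K))
          (Subgroup.mem_bot.1 (hk ▸ Subgroup.mem_top (⟨a, ha⟩ : ↥L))))
      haveI : (derivedSeries ↥L i).Characteristic := derivedSeries_characteristic _ i
      refine ⟨(derivedSeries ↥L i).map L.subtype, inferInstance, ?_, ?_⟩
      · rw [Ne, Subgroup.map_eq_bot_iff_of_injective _ L.subtype_injective]
        exact Nat.find_min hex (by omega)
      · rintro _ ⟨a, ha, rfl⟩ _ ⟨b, hb, rfl⟩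
        have h1 : ⁅a, b⁆ ∈ derivedSeries ↥L (i + 1) := by
          rw [derivedSeries_succ]; exact Subgroup.commutator_mem_commutator ha hb
        rw [← hi, hk, Subgroup.mem_bot, commutatorElement_eq_one_iff_mul_comm] at h1
        rw [← map_mul, h1, map_mul]
    haveI := hAn
    obtain ⟨p, hp, hpA⟩ := Nat.exists_prime_and_dvd (fun h : Nat.card A = 1 => hA (Subgroup.card_eq_one.1 h))
    haveI := Fact.mk hp
    let M : Subgroup K :=
      { carrier := {a | a ∈ A ∧ a ^ p = 1}
        one_mem' := ⟨one_mem _, one_pow p⟩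
        mul_mem' := fun {a b} ha hb => ⟨mul_mem ha.1 hb.1, by
          rw [(show Commute a b from hAc a ha.1 b hb.1).mul_pow, ha.2, hb.2, one_mul]⟩
        inv_mem' := fun {a} ha => ⟨inv_mem ha.1, by rw [inv_pow, ha.2, inv_one]⟩ }
    haveI : M.Normal := ⟨fun a ha g => ⟨hAn.conj_mem a ha.1 g, by rw [conj_pow, ha.2, mul_one, mul_inv_cancel]⟩⟩
    have hMp : IsPGroup p M := fun a => ⟨1, Subtype.ext (by rw [pow_one]; exact a.2.2)⟩
    have hM : M ≠ ⊥ := by
      obtain ⟨a, ha⟩ := exists_prime_orderOf_dvd_card' (G := A) p hpA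
      intro h
      have hmem : (a : K) ∈ M := ⟨a.2, by
        rw [← Subgroup.coe_pow, ← ha, pow_orderOf_eq_one]; rfl⟩
      rw [h, Subgroup.mem_bot, OneMemClass.coe_eq_one] at hmem
      rw [hmem, orderOf_one] at ha
      exact hp.ne_one ha.symm
    have hp2 : p ≠ 2 := by
      rintro rfl
      refine hM (le_bot_iff.1 (h2 ▸ ?_))
      exact CfsgLib.Constrained.le_pCore inferInstance hMp
    have hodd : ¬ 2 ∣ Nat.card M := by
      obtain ⟨i, hi⟩ := IsPGroup.iff_card.1 hMp
      rw [hi]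
      exact fun h => hp2 ((Nat.prime_dvd_prime_iff_eq Nat.prime_two hp).1 (Nat.prime_two.dvd_of_dvd_pow h)).symm
    exact odd_normal_case hns ((alternatingGroup (Fin 8)).subtype.comp f) (Subtype.val_injective.comp hf)
      (fun h => (f h).2) M hM hodd hMp (fun a ha b hb => hAc a ha.1 b hb.1)


/-- Let X be a finite nonsolvable 2-constrained group with no nontrivial normal subgroup of odd order such that O₂(X) has sectional 2-rank at most 4, and write Q for X/O₂(X). Then Q is isomorphic to the projective special linear group of dimension 3 over the field with 2 elements, to an alternating group of degree n with 5 ≤ n ≤ 8, to a symmetric group of degree n with 5 ≤ n ≤ 7, or else O₃(Q) has order 3 and Q/O₃(Q) is isomorphic to the alternating or the symmetric group of degree 5 (so Q is the direct product of a group of order 3 with the alternating group of degree 5, or an extension of that direct product by a group of order 2). If moreover X itself has sectional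 2-rank at most 4, then Q is not isomorphic to the symmetric group of degree 6 or 7 nor to the alternating group of degree 8. -/
theorem result {X : Type*} [Group X] [Finite X] (hns : ¬ Group.IsSolvable X) (hc : Cfsg.IsPConstrained 2 X) (hO : Cfsg.oddCore X = ⊥)
    (h4 : Cfsg.SectionalPRankLE 2 4 ↥(Cfsg.pCore 2 X)) :
    ((∃ (F : Type) (_ : Field F) (_ : Fintype F), Fintype.card F = 2 ∧
          Nonempty (X ⧸ Cfsg.pCore 2 X ≃* Matrix.ProjectiveSpecialLinearGroup (Fin 3) F)) ∨
        (∃ n : ℕ, 5 ≤ n ∧ n ≤ 8 ∧ Nonempty (X ⧸ Cfsg.pCore 2 X ≃* ↥(alternatingGroup (Fin n)))) ∨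
        (∃ n : ℕ, 5 ≤ n ∧ n ≤ 7 ∧ Nonempty (X ⧸ Cfsg.pCore 2 X ≃* Equiv.Perm (Fin n))) ∨
        (Nat.card ↥(Cfsg.pCore 3 (X ⧸ Cfsg.pCore 2 X)) = 3 ∧
          (Nonempty ((X ⧸ Cfsg.pCore 2 X) ⧸ Cfsg.pCore 3 (X ⧸ Cfsg.pCore 2 X) ≃* ↥(alternatingGroup (Fin 5))) ∨
            Nonempty ((X ⧸ Cfsg.pCore 2 X) ⧸ Cfsg.pCore 3 (X ⧸ Cfsg.pCore 2 X) ≃* Equiv.Perm (Fin 5))))) ∧
      (Cfsg.SectionalPRankLE 2 4 X →
        ¬ (Nonempty (X ⧸ Cfsg.pCore 2 X ≃* Equiv.Perm (Fin 6)) ∨ Nonempty (X ⧸ Cfsg.pCore 2 X ≃* Equiv.Perm (Fin 7)) ∨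
            Nonempty (X ⧸ Cfsg.pCore 2 X ≃* ↥(alternatingGroup (Fin 8))))) := by
  classical
  haveI : Fact (Nat.Prime 2) := ⟨Nat.prime_two⟩
  obtain ⟨f, hf⟩ := Cfsg.Agent.S3103.result hc hO h4
  have hns' : ¬ Group.IsSolvable (X ⧸ Cfsg.pCore 2 X) := by
    intro hs
    apply hns
    haveI := hs
    haveI : Group.IsSolvable ↥(Cfsg.pCore 2 X) := by
      haveI := (CfsgLib.Constrained.isPGroup_pCore (p := 2) (G := X)).isNilpotent
      infer_instance
    exact Group.isSolvable_of_ker_le_range (Cfsg.pCore 2 X).subtype (QuotientGroup.mk' (Cfsg.pCore 2 X))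
      (by rw [QuotientGroup.ker_mk', Subgroup.range_subtype])
  refine ⟨?_, ?_⟩
  · rcases classify_quotient hns' CfsgLib.Constrained.pCore_quotient_pCore f hf with
      ⟨n, h5, h8, he⟩ | he | he | ⟨⟨e⟩⟩ | h3
    · exact Or.inr (Or.inl ⟨n, h5, h8, he⟩)
    · exact Or.inr (Or.inr (Or.inl ⟨5, le_rfl, by norm_num, he⟩))
    · exact Or.inr (Or.inr (Or.inl ⟨6, by norm_num, by norm_num, he⟩))
    · obtain ⟨e'⟩ := gl_three_to_psl
      exact Or.inl ⟨ZMod 2, inferInstance, inferInstance, ZMod.card 2, ⟨e.trans e'⟩⟩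
    · exact Or.inr (Or.inr (Or.inr h3))
  · intro h4X hcase
    obtain ⟨j, hj⟩ : ∃ j : Equiv.Perm (Fin 6) →* X ⧸ Cfsg.pCore 2 X, Function.Injective j := by
      rcases hcase with ⟨⟨e⟩⟩ | ⟨⟨e⟩⟩ | ⟨⟨e⟩⟩
      · exact ⟨e.symm.toMonoidHom, e.symm.injective⟩
      · exact ⟨e.symm.toMonoidHom.comp (Equiv.Perm.viaEmbeddingHom Fin.castSuccEmb),
          e.symm.injective.comp (Equiv.Perm.viaEmbeddingHom_injective _)⟩
      · obtain ⟨j, hj⟩ := six_to_alt_eight
        exact ⟨e.symm.toMonoidHom.comp j, e.symm.injective.comp hj⟩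
    exact no_six hc hO h4 h4X j hj

end Cfsg.Agent.S3104
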