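import Cfsg.Statements.S3105
import Cfsg.Agent.SmallRadical.Main3
import Cfsg.Agent.SmallRadical.Setup
-- import your own Cfsg.Agent.* helpers here

set_option autoImplicit false
open Cfsg

namespace Cfsg.Agent.S3105

/-- Let X be a finite nonsolvable 2-constrained group with no nontrivial normal subgroup of odd order and of sectional 2-rank at most 4, and suppose X/O₂(X) is isomorphic to the projective special linear group of dimension 3 over the field with 2 elements. Then O₂(X) is elementary abelian of order 8 or 16, or is isomorphic to the direct product of a cyclic group of order 4 and an elementary abelian group of order 8. -/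
theorem result {X : Type*} [Group X] [Finite X] (hns : ¬ Group.IsSolvable X) (hc : Cfsg.IsPConstrained 2 X) (hO : Cfsg.oddCore X = ⊥)
    (h4 : Cfsg.SectionalPRankLE 2 4 X) {F : Type*} [Field F] [Fintype F] (hF : Fintype.card F = 2)
    (hQ : Nonempty (X ⧸ Cfsg.pCore 2 X ≃* Matrix.ProjectiveSpecialLinearGroup (Fin 3) F)) :
    (Cfsg.IsElementaryAbelian 2 (Cfsg.pCore 2 X) ∧ (Nat.card ↥(Cfsg.pCore 2 X) = 8 ∨ Nat.card ↥(Cfsg.pCore 2 X) = 16)) ∨
      Nonempty (↥(Cfsg.pCore 2 X) ≃* Multiplicative (ZMod 4) × (Fin 3 → Multiplicative (ZMod 2))) := by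
  classical
  obtain ⟨e⟩ := hQ
  set Q := Cfsg.pCore 2 X with hQdef
  haveI : Fact (Nat.Prime 2) := ⟨Nat.prime_two⟩
  have hQp : IsPGroup 2 ↥Q := CfsgLib.Constrained.isPGroup_pCore
  have hCQ : Subgroup.centralizer (Q : Set X) ≤ Q := CfsgLib.SmallRadical.centralizer_pCore_le hc hO
  let r : F ≃+* ZMod 2 := (ZMod.ringEquivOfPrime F Nat.prime_two hF).symm
  let m : Matrix.SpecialLinearGroup (Fin 3) F ≃* CfsgLib.SmallRadical.SL32 :=
    { Matrix.SpecialLinearGroup.map (n := Fin 3) r.toRingHom with
      invFun := Matrix.SpecialLinearGroup.map (n := Fin 3) r.symm.toRingHom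
      left_inv := fun A => Matrix.SpecialLinearGroup.ext _ _ fun i j => r.symm_apply_apply _
      right_inv := fun A => Matrix.SpecialLinearGroup.ext _ _ fun i j => r.apply_symm_apply _ }
  have hcen : Subgroup.center (Matrix.SpecialLinearGroup (Fin 3) F) = ⊥ := by
    have h2 : ∀ a : F, a ^ 3 = 1 → a = 1 := fun a ha => by
      have h : (r a) ^ 3 = 1 := by rw [← map_pow, ha, map_one]
      refine r.injective (Eq.trans ?_ (map_one r).symm)
      have h' := ZMod.pow_card (r a)
      rwa [pow_succ, h', ← pow_two, h'] at h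
    rw [Subgroup.eq_bot_iff_forall]
    intro x hx
    obtain ⟨a, ha, hax⟩ := Matrix.SpecialLinearGroup.mem_center_iff.mp hx
    apply Subtype.ext
    rw [← hax, h2 a (by simpa using ha)]
    simp
  let E : X ⧸ Q ≃* CfsgLib.SmallRadical.SL32 :=
    e.trans (((QuotientGroup.quotientMulEquivOfEq hcen).trans QuotientGroup.quotientBot).trans m)
  let π : X →* CfsgLib.SmallRadical.SL32 := E.toMonoidHom.comp (QuotientGroup.mk' Q)
  have hπ : Function.Surjective π := E.surjective.comp (QuotientGroup.mk'_surjective Q)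
  have hker : π.ker = Q := by
    ext x
    rw [MonoidHom.mem_ker]
    show E _ = 1 ↔ _
    rw [E.map_eq_one_iff]
    exact QuotientGroup.eq_one_iff x
  rcases CfsgLib.SmallRadical.kernel_structure₃ hπ (hker.symm ▸ hQp) (hker.symm ▸ hCQ)
      (CfsgLib.SmallRadical.rankFour_of_sectional h4) with ⟨h2, hn⟩ | ⟨hab, h32, x, hx, hx1, hx4, hall⟩
  · rw [hker] at h2 hn
    have h2' : ∀ q : ↥Q, q * q = 1 := fun q => Subtype.ext (h2 q q.2)
    refine Or.inl ⟨⟨⟨⟨fun a b => CfsgLib.SmallRadical.comm_of_exp_two h2' a b⟩⟩, fun a ha => ?_⟩, hn⟩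
    rw [pow_two]
    exact h2 a ha
  · rw [hker] at hab h32 hx hall
    exact Or.inr (CfsgLib.SmallRadical.four_eight_iso (Q := ↥Q) (x := ⟨x, hx⟩)
      (fun a b => Subtype.ext (hab a a.2 b b.2)) h32 (fun h => hx1 (congrArg Subtype.val h)) (Subtype.ext hx4)
      fun q => (hall q q.2).imp (fun h => Subtype.ext h) fun h => Subtype.ext h)

end Cfsg.Agent.S3105
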