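import Cfsg.Statements.S3106
import Cfsg.Agent.SmallRadical.Main
import Cfsg.Agent.SmallRadical.Setup
-- import your own Cfsg.Agent.* helpers here

set_option autoImplicit false
open Cfsg

namespace Cfsg.Agent.S3106

/-- Let X be a finite nonsolvable 2-constrained group with no nontrivial normal subgroup of odd order and of sectional 2-rank at most 4, and suppose X/O₂(X) contains a subgroup isomorphic to the alternating group of degree 5. Then O₂(X) is elementary abelian of order 16, or O₂(X) is a central product of a quaternion group of order 8 and a dihedral group of order 8 (it has order 32 and is generated by two elementwise-commuting subgroups, one quaternion of order 8 and one dihedral of order 8, meeting in the centre). -/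
theorem result {X : Type*} [Group X] [Finite X] (hns : ¬ Group.IsSolvable X) (hc : Cfsg.IsPConstrained 2 X) (hO : Cfsg.oddCore X = ⊥)
    (h4 : Cfsg.SectionalPRankLE 2 4 X)
    (hQ : ∃ A : Subgroup (X ⧸ Cfsg.pCore 2 X), Nonempty (↥A ≃* ↥(alternatingGroup (Fin 5)))) :
    (Cfsg.IsElementaryAbelian 2 (Cfsg.pCore 2 X) ∧ Nat.card ↥(Cfsg.pCore 2 X) = 16) ∨
      (Nat.card ↥(Cfsg.pCore 2 X) = 32 ∧ ∃ A B : Subgroup ↥(Cfsg.pCore 2 X),
        Nonempty (↥A ≃* QuaternionGroup 2) ∧ Nonempty (↥B ≃* DihedralGroup 4) ∧ (∀ a ∈ A, ∀ b ∈ B, a * b = b * a) ∧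
          A ⊔ B = ⊤ ∧ A ⊓ B = Subgroup.center ↥(Cfsg.pCore 2 X)) := by
  classical
  open CfsgLib.SmallRadical in
  obtain ⟨A, ⟨e⟩⟩ := hQ
  set Q := Cfsg.pCore 2 X with hQdef
  have hQp : IsPGroup 2 ↥Q := by
    haveI : Fact (Nat.Prime 2) := ⟨Nat.prime_two⟩
    exact CfsgLib.Constrained.isPGroup_pCore
  have hCQ : Subgroup.centralizer (Q : Set X) ≤ Q := CfsgLib.SmallRadical.centralizer_pCore_le hc hO
  let Y := A.comap (QuotientGroup.mk' Q)
  let π : ↥Y →* CfsgLib.SmallRadical.A5 :=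
    e.toMonoidHom.comp (((QuotientGroup.mk' Q).comp Y.subtype).codRestrict A fun y => y.2)
  have hπ : Function.Surjective π := fun a => by
    obtain ⟨x, hx⟩ := QuotientGroup.mk'_surjective Q (e.symm a : X ⧸ Q)
    refine ⟨⟨x, show QuotientGroup.mk' Q x ∈ A by rw [hx]; exact (e.symm a).2⟩, ?_⟩
    show e _ = a
    rw [← e.eq_symm_apply]
    exact Subtype.ext hx
  have hker : ∀ y : ↥Y, y ∈ π.ker ↔ (y : X) ∈ Q := by
    intro y
    rw [MonoidHom.mem_ker]
    show e _ = 1 ↔ _
    rw [e.map_eq_one_iff, Subtype.ext_iff]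
    exact QuotientGroup.eq_one_iff _
  have hQY : Q ≤ Y := fun q hq => by
    show QuotientGroup.mk' Q q ∈ A
    rw [show QuotientGroup.mk' Q q = 1 from (QuotientGroup.eq_one_iff q).2 hq]
    exact A.one_mem
  let eQ : ↥π.ker ≃* ↥Q :=
    { toFun := fun x => ⟨((x : ↥Y) : X), (hker x).1 x.2⟩
      invFun := fun q => ⟨⟨q, hQY q.2⟩, (hker _).2 q.2⟩
      left_inv := fun x => rfl
      right_inv := fun q => rfl
      map_mul' := fun x y => rfl }
  have hCk : Subgroup.centralizer (π.ker : Set ↥Y) ≤ π.ker := by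
    intro y hy
    refine (hker y).2 (hCQ (Subgroup.mem_centralizer_iff.2 fun q hq => ?_))
    exact congrArg Subtype.val (Subgroup.mem_centralizer_iff.1 hy ⟨q, hQY hq⟩ ((hker _).2 hq))
  rcases CfsgLib.SmallRadical.kernel_structure hπ (hQp.of_equiv eQ.symm) hCk
      ((CfsgLib.SmallRadical.rankFour_of_sectional h4).subgroup Y) with ⟨h2, h16⟩ | ⟨z, d⟩
  · have h2' : ∀ q : ↥Q, q * q = 1 := fun q => by
      rw [← eQ.apply_symm_apply q, ← map_mul, h2, map_one]
    refine Or.inl ⟨⟨⟨⟨fun a b => CfsgLib.SmallRadical.comm_of_exp_two h2' a b⟩⟩, fun a ha => ?_⟩, ?_⟩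
    · rw [pow_two]
      exact congrArg Subtype.val (h2' ⟨a, ha⟩)
    · rw [← Nat.card_congr eQ.toEquiv, h16]
  · have d' := d.transfer eQ
    exact Or.inr ⟨d'.card, CfsgLib.SmallRadical.minus_product d'⟩

end Cfsg.Agent.S3106
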