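import Cfsg.Statements.S3356
-- import your own Cfsg.Agent.* helpers here

set_option autoImplicit false
open Cfsg

namespace Cfsg.Agent.S3356

section Helpers

open MulAction Pointwise

variable {G Ω : Type*} [Group G] [Finite G] [MulAction G Ω] [Finite Ω]

omit [Finite G] in
/-- If all orbits have the same size, that size divides the number of points. -/
theorem orbit_card_dvd (e : ℕ) (h : ∀ a : Ω, Nat.card (orbit G a) = e) :
    e ∣ Nat.card Ω := by
  classical
  have : Fintype Ω := Fintype.ofFinite Ω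
  have : Fintype (orbitRel.Quotient G Ω) := Fintype.ofFinite _
  rw [Nat.card_congr (selfEquivSigmaOrbits G Ω), Nat.card_sigma]
  exact Finset.dvd_sum fun q _ => by rw [h]

/-- The stabiliser of the two points `ω` and `β`. -/
def twoStab (ω β : Ω) : Subgroup G := stabilizer G ω ⊓ stabilizer G β

theorem twoStab_card_mul (ω β : Ω) :
    Nat.card (twoStab (G := G) ω β) * Nat.card (orbit (stabilizer G ω) β) =
      Nat.card (stabilizer G ω) := by
  rw [← Subgroup.card_mul_index (stabilizer (stabilizer G ω) β), index_stabilizer,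
    ← Nat.card_coe_set_eq]
  congr 1
  exact Nat.card_congr
    { toFun := fun g => ⟨⟨g.1, g.2.1⟩, g.2.2⟩
      invFun := fun g => ⟨g.1.1, g.1.2, g.2⟩
      left_inv := fun _ => rfl
      right_inv := fun _ => rfl }

/-- A block of the point stabiliser of size coprime to the subdegree has constant
two-point stabiliser. -/
theorem twoStab_const_on_block (ω : Ω) (d : ℕ) (hd : 0 < d)
    (horb : ∀ β : Ω, β ≠ ω → Nat.card (orbit (stabilizer G ω) β) = d)
    (B : Set Ω) (hωB : ω ∉ B) (hcop : d.Coprime B.ncard)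
    (hblock : ∀ h ∈ stabilizer G ω, ∀ y ∈ B, h • y ∈ B → ∀ z ∈ B, h • z ∈ B) :
    ∀ y ∈ B, ∀ z ∈ B, twoStab (G := G) ω y = twoStab ω z := by
  classical
  set T : Subgroup G := stabilizer G ω ⊓ stabilizer G B with hT
  have hle : ∀ y ∈ B, twoStab (G := G) ω y ≤ T := by
    intro y hy g hg
    refine ⟨hg.1, ?_⟩
    have h1 : g • B ⊆ B := by
      rintro _ ⟨z, hz, rfl⟩
      exact hblock g hg.1 y hy (by rw [mem_stabilizer_iff.1 hg.2]; exact hy) z hz
    exact mem_stabilizer_iff.2
      (Set.eq_of_subset_of_ncard_le h1 (by rw [Set.ncard_smul_set]) (Set.toFinite B))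
  let S : SubMulAction T Ω :=
    { carrier := B
      smul_mem' := fun t z hz => by
        have h2 : (t : G) • B = B := mem_stabilizer_iff.1 t.2.2
        rw [← h2]
        exact Set.smul_mem_smul_set hz }
  have hcs : Nat.card S = B.ncard := Nat.card_coe_set_eq B
  have hne : ∀ y ∈ B, y ≠ ω := fun y hy h => hωB (h ▸ hy)
  intro y hy z hz
  set c := Nat.card (twoStab (G := G) ω y) with hc
  have hceq : ∀ b ∈ B, Nat.card (twoStab (G := G) ω b) = c := by
    intro b hb
    have h1 := twoStab_card_mul (G := G) ω b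
    have h2 := twoStab_card_mul (G := G) ω y
    rw [horb b (hne b hb)] at h1
    rw [horb y (hne y hy)] at h2
    exact Nat.eq_of_mul_eq_mul_right hd (h1.trans h2.symm)
  have horbT : ∀ b : S, Nat.card (orbit T b) * c = Nat.card T := by
    intro b
    have hst : Nat.card (stabilizer T b) = c := by
      rw [← hceq b.1 b.2]
      exact Nat.card_congr
        { toFun := fun g => ⟨g.1.1, g.1.2.1, congrArg Subtype.val g.2⟩
          invFun := fun g => ⟨⟨g.1, hle b.1 b.2 g.2⟩, Subtype.ext g.2.2⟩
          left_inv := fun _ => rfl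
          right_inv := fun _ => rfl }
    rw [← hst, mul_comm, ← Subgroup.card_mul_index (stabilizer T b), index_stabilizer,
      ← Nat.card_coe_set_eq]
  have hcpos : 0 < c := Nat.card_pos
  set e := Nat.card (orbit T (⟨y, hy⟩ : S)) with he
  have he1 : e * c = Nat.card T := horbT _
  have hedvdB : e ∣ B.ncard := by
    rw [← hcs]
    exact orbit_card_dvd e fun b =>
      Nat.eq_of_mul_eq_mul_right hcpos ((horbT b).trans he1.symm)
  have hedvdd : e ∣ d := by
    have h1 : Nat.card T ∣ Nat.card (stabilizer G ω) :=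
      Subgroup.card_dvd_of_le (hT ▸ inf_le_left)
    rw [← he1, ← twoStab_card_mul (G := G) ω y, horb y (hne y hy), ← hc, mul_comm e c] at h1
    exact Nat.dvd_of_mul_dvd_mul_left hcpos h1
  have heone : e = 1 := Nat.eq_one_of_dvd_coprimes hcop hedvdd hedvdB
  rw [heone, one_mul] at he1
  have hall : ∀ b ∈ B, twoStab (G := G) ω b = T := fun b hb =>
    Subgroup.eq_of_le_of_card_ge (hle b hb) (by rw [hceq b hb, he1])
  rw [hall y hy, hall z hz]

end Helpers


/-- Let G be a finite 3/2-transitive permutation group: G acts faithfully and transitively on a finite set, the point stabilizers are non-trivial, and for each point a all orbits of G_a on the remaining points have the same size. Suppose G has a regular normal subgroup N and G is not a Frobenius group (some two-point stabilizer is non-trivial). Then N is an elementary abelian p-group for some prime p, and every non-trivial normal subgroup of G contains N (so N is the unique minimal normal subgroup). -/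
theorem result {G Ω : Type*} [Group G] [Finite G]
    [MulAction G Ω] [FaithfulSMul G Ω] [Finite Ω] (htrans : MulAction.IsPretransitive G Ω)
    (hne : ∀ a : Ω, MulAction.stabilizer G a ≠ ⊥)
    (hhalf : ∀ a b c : Ω, b ≠ a → c ≠ a →
      Nat.card (MulAction.orbit (MulAction.stabilizer G a) b) = Nat.card (MulAction.orbit (MulAction.stabilizer G a) c))
    (N : Subgroup G) [hN : N.Normal] (hNt : MulAction.IsPretransitive N Ω) (hNr : ∀ a : Ω, MulAction.stabilizer N a = ⊥)
    (hnotF : ∃ a b : Ω, a ≠ b ∧ MulAction.stabilizer G a ⊓ MulAction.stabilizer G b ≠ ⊥) :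
    (∃ p : ℕ, p.Prime ∧ IsMulCommutative N ∧ ∀ x ∈ N, x ^ p = 1) ∧
    (∀ M : Subgroup G, M.Normal → M ≠ ⊥ → N ≤ M) := by
  classical
  obtain ⟨a₀, b₀, hab, hnt⟩ := hnotF
  set ω := a₀
  set d := Nat.card (MulAction.orbit (MulAction.stabilizer G ω) b₀) with hd
  have horb : ∀ β : Ω, β ≠ ω →
      Nat.card (MulAction.orbit (MulAction.stabilizer G ω) β) = d :=
    fun β hβ => hhalf ω β b₀ hβ (Ne.symm hab)
  have hdpos : 0 < d := by
    have : Nonempty (MulAction.orbit (MulAction.stabilizer G ω) b₀) :=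
      ⟨⟨b₀, MulAction.mem_orbit_self b₀⟩⟩
    exact Nat.card_pos
  -- every two-point stabiliser at `ω` is nontrivial
  have hPne : ∀ β : Ω, β ≠ ω → twoStab (G := G) ω β ≠ ⊥ := by
    intro β hβ h
    have h1 := twoStab_card_mul (G := G) ω β
    have h2 := twoStab_card_mul (G := G) ω b₀
    rw [horb β hβ, ← h2, ← hd] at h1
    have h3 := Nat.eq_of_mul_eq_mul_right hdpos h1
    rw [h, Subgroup.card_bot] at h3
    exact hnt (Subgroup.eq_bot_of_card_eq _ h3.symm)
  -- the regular action of `N`
  have hinj : ∀ x ∈ N, ∀ y ∈ N, x • ω = y • ω → x = y := by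
    intro x hx y hy h
    have hmem : (⟨y⁻¹ * x, N.mul_mem (N.inv_mem hy) hx⟩ : N) ∈ MulAction.stabilizer N ω := by
      rw [MulAction.mem_stabilizer_iff]
      show (y⁻¹ * x) • ω = ω
      rw [mul_smul, h, inv_smul_smul]
    rw [hNr ω, Subgroup.mem_bot] at hmem
    have := congrArg Subtype.val hmem
    simpa [inv_mul_eq_one, eq_comm] using this
  have hsurj : ∀ β : Ω, ∃ x ∈ N, x • ω = β := by
    intro β
    obtain ⟨x, hx⟩ := MulAction.exists_smul_eq N ω β
    exact ⟨x.1, x.2, hx⟩
  have hcardN : Nat.card N = Nat.card Ω := by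
    refine Nat.card_congr (Equiv.ofBijective (fun x : N => (x : G) • ω) ⟨?_, ?_⟩)
    · intro x y h
      exact Subtype.ext (hinj x.1 x.2 y.1 y.2 h)
    · intro β
      obtain ⟨x, hx, h⟩ := hsurj β
      exact ⟨⟨x, hx⟩, h⟩
  have hconj : ∀ h ∈ MulAction.stabilizer G ω, ∀ x : G, h • x • ω = (h * x * h⁻¹) • ω := by
    intro h hh x
    rw [mul_smul, mul_smul, MulAction.mem_stabilizer_iff.1 (Subgroup.inv_mem _ hh)]
  -- the subdegree is prime to the degree
  have hcop : d.Coprime (Nat.card Ω) := by
    let S : SubMulAction (MulAction.stabilizer G ω) Ω :=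
      { carrier := {ω}ᶜ
        smul_mem' := fun t z hz hc => hz (by
          have h1 : (t : G) • z = ω := hc
          have h2 : (t : G) • ω = ω := t.2
          exact smul_left_cancel (t : G) (h1.trans h2.symm)) }
    have hdvd : d ∣ Nat.card S := orbit_card_dvd d fun b => by
      rw [← horb b.1 b.2, Nat.card_coe_set_eq, Nat.card_coe_set_eq,
        ← Set.ncard_image_of_injective (MulAction.orbit (MulAction.stabilizer G ω) b) Subtype.val_injective,
        SubMulAction.val_image_orbit]
    have hS : Nat.card S + 1 = Nat.card Ω := by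
      have h1 : ({ω}ᶜ : Set Ω).ncard + ({ω} : Set Ω).ncard = Nat.card Ω := by
        rw [add_comm, Set.ncard_add_ncard_compl]
      rw [Set.ncard_singleton] at h1
      rw [← h1]
      exact congrArg (· + 1) (Nat.card_coe_set_eq _)
    rw [← hS]
    exact (Nat.coprime_self_add_right.mpr (Nat.coprime_one_right _)).coprime_dvd_left hdvd
  -- no invariant proper subgroup of `N`
  have hirr : ∀ K : Subgroup G, K ≤ N → K ≠ ⊥ →
      (∀ h ∈ MulAction.stabilizer G ω, ∀ k ∈ K, h * k * h⁻¹ ∈ K) → K = N := by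
    intro K hKN hK1 hKinv
    by_contra hKne
    obtain ⟨x, hxN, hxK⟩ : ∃ x ∈ N, x ∉ K := by
      by_contra hno
      push Not at hno
      exact hKne (le_antisymm hKN hno)
    obtain ⟨k₀, hk₀K, hk₀⟩ := (Subgroup.ne_bot_iff_exists_ne_one).1 hK1 |> fun ⟨k, hk⟩ =>
      (⟨k.1, k.2, fun h => hk (Subtype.ext h)⟩ : ∃ k ∈ K, k ≠ 1)
    have key : ∀ x ∈ N, x ∉ K → ∀ k ∈ K, k ≠ 1 →
        twoStab (G := G) ω (x • ω) = twoStab ω (k • ω) := by
      intro x hxN hxK k hk hk1
      set B : Set Ω := (fun j => (x * j) • ω) '' (K : Set G) with hB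
      have hBcard : B.ncard = Nat.card K := by
        rw [hB, Set.InjOn.ncard_image, ← Nat.card_coe_set_eq]
        · rfl
        · intro i hi j hj hij
          exact mul_left_cancel
            (hinj _ (N.mul_mem hxN (hKN hi)) _ (N.mul_mem hxN (hKN hj)) hij)
      have hωB : ω ∉ B := by
        rintro ⟨j, hj, h⟩
        have h1 := hinj _ (N.mul_mem hxN (hKN hj)) 1 N.one_mem (by rw [one_smul]; exact h)
        exact hxK (eq_inv_of_mul_eq_one_left h1 ▸ K.inv_mem hj)
      have hconst := twoStab_const_on_block ω d hdpos horb B hωB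
        (by rw [hBcard]
            exact hcop.coprime_dvd_right (hcardN ▸ Subgroup.card_dvd_of_le hKN))
        (by
          rintro h hh _ ⟨j, hj, rfl⟩ ⟨i, hi, hi'⟩ _ ⟨l, hl, rfl⟩
          simp only at hi' ⊢
          rw [hconj h hh] at hi' ⊢
          have h1 := hinj _ (N.mul_mem hxN (hKN hi)) _
            (hN.conj_mem _ (N.mul_mem hxN (hKN hj)) h) hi'
          refine ⟨i * (h * j * h⁻¹)⁻¹ * (h * l * h⁻¹),
            K.mul_mem (K.mul_mem hi (K.inv_mem (hKinv h hh j hj))) (hKinv h hh l hl), ?_⟩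
          show (x * _) • ω = _
          congr 1
          calc _ = (x * i) * (h * j * h⁻¹)⁻¹ * (h * l * h⁻¹) := by group
            _ = _ := by rw [h1]; group)
      have hx1 : x • ω ∈ B := ⟨1, K.one_mem, by simp⟩
      have hxk : (x * k) • ω ∈ B := ⟨k, hk, rfl⟩
      have hle : twoStab (G := G) ω (x • ω) ≤ twoStab ω (k • ω) := by
        intro g hg
        have hg' : g ∈ twoStab (G := G) ω ((x * k) • ω) := hconst _ hx1 _ hxk ▸ hg
        refine ⟨hg.1, ?_⟩
        have e1 := MulAction.mem_stabilizer_iff.1 hg.2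
        have e2 := MulAction.mem_stabilizer_iff.1 hg'.2
        rw [hconj g hg.1] at e1 e2
        have f1 := hinj _ (hN.conj_mem _ hxN g) _ hxN e1
        have f2 := hinj _ (hN.conj_mem _ (N.mul_mem hxN (hKN hk)) g) _
          (N.mul_mem hxN (hKN hk)) e2
        rw [← conj_mul, f1] at f2
        show g • k • ω = k • ω
        rw [hconj g hg.1, mul_left_cancel f2]
      refine Subgroup.eq_of_le_of_card_ge hle ?_
      have h1 := twoStab_card_mul (G := G) ω (x • ω)
      have h2 := twoStab_card_mul (G := G) ω (k • ω)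
      rw [horb _ (fun h => hxK ((hinj x hxN 1 N.one_mem (by rwa [one_smul])) ▸ K.one_mem))] at h1
      rw [horb _ (fun h => hk1 (hinj k (hKN hk) 1 N.one_mem (by rwa [one_smul])))] at h2
      exact le_of_eq (Nat.eq_of_mul_eq_mul_right hdpos (h2.trans h1.symm))
    -- so all two-point stabilisers at `ω` coincide
    apply hPne (x • ω) (fun h => hxK ((hinj x hxN 1 N.one_mem (by rwa [one_smul])) ▸ K.one_mem))
    rw [eq_bot_iff]
    intro g hg
    refine Subgroup.mem_bot.2 (eq_of_smul_eq_smul (α := Ω) fun β => ?_)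
    obtain ⟨y, hyN, rfl⟩ := hsurj β
    rw [one_smul]
    by_cases hy1 : y = 1
    · rw [hy1, one_smul]; exact hg.1
    by_cases hyK : y ∈ K
    · exact (key x hxN hxK y hyK hy1 ▸ hg).2
    · have := key x hxN hxK k₀ hk₀K hk₀
      rw [← key y hyN hyK k₀ hk₀K hk₀] at this
      exact (this ▸ hg).2
  -- `N` is abelian
  have hcomm : ∀ x ∈ N, ∀ y ∈ N, x * y = y * x := by
    have hclass : ∀ x ∈ N, x ≠ 1 → ∀ g ∈ twoStab (G := G) ω (x • ω), ∀ u ∈ N,
        g * (u * x * u⁻¹) * g⁻¹ = u * x * u⁻¹ := by
      intro x hxN hx1 g hg u hu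
      set B : Set Ω := (fun v : N => ((v : G) * x * (v : G)⁻¹) • ω) '' Set.univ with hB
      have hωB : ω ∉ B := by
        rintro ⟨v, -, h⟩
        have h1 := hinj _ (hN.conj_mem _ hxN v) 1 N.one_mem (by rw [one_smul]; exact h)
        rw [conj_eq_one_iff] at h1
        exact hx1 h1
      have hBcard : B.ncard ∣ Nat.card N := by
        have hbij : B.ncard = Nat.card (MulAction.orbit (ConjAct N) (⟨x, hxN⟩ : N)) := by
          rw [Nat.card_coe_set_eq,
            ← Set.InjOn.ncard_image (f := fun z : N => (z : G) • ω)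
              (fun a _ b _ h => Subtype.ext (hinj a.1 a.2 b.1 b.2 h))]
          congr 1
          ext β
          constructor
          · rintro ⟨v, -, rfl⟩
            exact ⟨v * ⟨x, hxN⟩ * v⁻¹, ⟨ConjAct.toConjAct v, rfl⟩, rfl⟩
          · rintro ⟨z, ⟨v, rfl⟩, rfl⟩
            exact ⟨ConjAct.ofConjAct v, trivial, rfl⟩
        rw [hbij, Nat.card_coe_set_eq, ← MulAction.index_stabilizer,
          show Nat.card N = Nat.card (ConjAct N) from rfl]
        exact Subgroup.index_dvd_card _
      have hconst := twoStab_const_on_block ω d hdpos horb B hωB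
        (hcop.coprime_dvd_right (hcardN ▸ hBcard))
        (by
          rintro h hh _ ⟨v, -, rfl⟩ ⟨w, -, hw⟩ _ ⟨z, -, rfl⟩
          simp only at hw ⊢
          rw [hconj h hh] at hw ⊢
          have h1 := hinj _ (hN.conj_mem _ hxN w) _
            (hN.conj_mem _ (hN.conj_mem _ hxN v) h) hw
          refine ⟨⟨(h * z * h⁻¹) * (h * v * h⁻¹)⁻¹ * w,
            N.mul_mem (N.mul_mem (hN.conj_mem _ z.2 h)
              (N.inv_mem (hN.conj_mem _ v.2 h))) w.2⟩, trivial, ?_⟩
          show (_ * x * _) • ω = _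
          congr 1
          calc _ = (h * z * h⁻¹) * (h * v * h⁻¹)⁻¹ * ((w : G) * x * (w : G)⁻¹) *
                ((h * z * h⁻¹) * (h * v * h⁻¹)⁻¹)⁻¹ := by group
            _ = _ := by rw [h1]; group)
      have hx' : x • ω ∈ B := ⟨1, trivial, by simp⟩
      have hux : (u * x * u⁻¹) • ω ∈ B := ⟨⟨u, hu⟩, trivial, rfl⟩
      have hg' : g ∈ twoStab (G := G) ω ((u * x * u⁻¹) • ω) := hconst _ hx' _ hux ▸ hg
      have e2 := MulAction.mem_stabilizer_iff.1 hg'.2
      rw [hconj g hg.1] at e2
      exact hinj _ (hN.conj_mem _ (hN.conj_mem _ hxN u) g) _ (hN.conj_mem _ hxN u) e2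
    intro x hxN y hyN
    by_cases hx1 : x = 1
    · simp [hx1]
    -- the component of `x` in the normal partition
    set P := twoStab (G := G) ω (x • ω) with hP
    set L : Subgroup G := N ⊓ Subgroup.centralizer (P : Set G) with hL
    have hxne : x • ω ≠ ω := fun h => hx1 (hinj x hxN 1 N.one_mem (by rwa [one_smul]))
    have hmemL : ∀ z ∈ N, z ≠ 1 → (z ∈ L ↔ twoStab (G := G) ω (z • ω) = P) := by
      intro z hzN hz1
      have hzne : z • ω ≠ ω := fun h => hz1 (hinj z hzN 1 N.one_mem (by rwa [one_smul]))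
      constructor
      · intro hz
        refine (Subgroup.eq_of_le_of_card_ge ?_ ?_).symm
        · intro g hg
          refine ⟨hg.1, ?_⟩
          have := Subgroup.mem_centralizer_iff.1 hz.2 g hg
          show g • z • ω = z • ω
          rw [hconj g hg.1, this, mul_inv_cancel_right]
        · have h1 := twoStab_card_mul (G := G) ω (z • ω)
          have h2 := twoStab_card_mul (G := G) ω (x • ω)
          rw [horb _ hzne] at h1
          rw [horb _ hxne] at h2
          exact le_of_eq (Nat.eq_of_mul_eq_mul_right hdpos (h1.trans h2.symm))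
      · intro hz
        refine ⟨hzN, Subgroup.mem_centralizer_iff.2 fun g hg => ?_⟩
        rw [← hz] at hg
        have := hclass z hzN hz1 g hg 1 N.one_mem
        simp only [one_mul, inv_one, mul_one] at this
        exact mul_inv_eq_iff_eq_mul.1 this
    have hxL : x ∈ L := (hmemL x hxN hx1).2 rfl
    -- each component is normalised by `N`
    have hLnorm : ∀ z ∈ L, ∀ u ∈ N, u * z * u⁻¹ ∈ L := by
      intro z hz u hu
      by_cases hz1 : z = 1
      · simp [hz1, L.one_mem]
      have hzP := (hmemL z hz.1 hz1).1 hz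
      refine ⟨hN.conj_mem _ hz.1 u, Subgroup.mem_centralizer_iff.2 fun g hg => ?_⟩
      rw [← hzP] at hg
      exact mul_inv_eq_iff_eq_mul.1 (hclass z hz.1 hz1 g hg u hu)
    have hout : ∀ z ∈ N, z ∉ L → x * z = z * x := by
      intro z hzN hzL
      have hz1 : z ≠ 1 := fun h => hzL (h ▸ L.one_mem)
      set Q := twoStab (G := G) ω (z • ω) with hQ
      have hc1 : x * z * x⁻¹ * z⁻¹ ∈ L := by
        rw [show x * z * x⁻¹ * z⁻¹ = x * (z * x⁻¹ * z⁻¹) by group]
        exact L.mul_mem hxL (hLnorm _ (L.inv_mem hxL) z hzN)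
      have hc2 : ∀ g ∈ Q, g * (x * z * x⁻¹ * z⁻¹) = (x * z * x⁻¹ * z⁻¹) * g := by
        intro g hg
        have a1 := mul_inv_eq_iff_eq_mul.1 (hclass z hzN hz1 g hg x hxN)
        have a2 := hclass z hzN hz1 g hg 1 N.one_mem
        simp only [one_mul, inv_one, mul_one] at a2
        have a3 : Commute g z := mul_inv_eq_iff_eq_mul.1 a2
        exact (Commute.mul_right (show Commute g (x * z * x⁻¹) from a1) a3.inv_right).eq
      by_contra hne'
      have hc0 : x * z * x⁻¹ * z⁻¹ ≠ 1 := fun h => hne' (by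
        rw [mul_inv_eq_one, mul_inv_eq_iff_eq_mul] at h
        exact h)
      have hcP := (hmemL _ hc1.1 hc0).1 hc1
      have hQle : Q ≤ twoStab ω ((x * z * x⁻¹ * z⁻¹) • ω) := by
        intro g hg
        refine ⟨hg.1, ?_⟩
        show g • _ • ω = _ • ω
        rw [hconj g hg.1, hc2 g hg, mul_inv_cancel_right]
      rw [hcP] at hQle
      have hzne : z • ω ≠ ω := fun h => hz1 (hinj z hzN 1 N.one_mem (by rwa [one_smul]))
      refine hzL ((hmemL z hzN hz1).2 (Subgroup.eq_of_le_of_card_ge hQle ?_))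
      have h1 := twoStab_card_mul (G := G) ω (z • ω)
      have h2 := twoStab_card_mul (G := G) ω (x • ω)
      rw [horb _ hzne] at h1
      rw [horb _ hxne] at h2
      exact le_of_eq (Nat.eq_of_mul_eq_mul_right hdpos (h2.trans h1.symm))
    by_cases hyL : y ∈ L
    · obtain ⟨z, hzN, hzL⟩ : ∃ z ∈ N, z ∉ L := by
        by_contra hno
        push Not at hno
        refine hPne _ hxne (eq_bot_iff.2 fun g hg => Subgroup.mem_bot.2 ?_)
        refine eq_of_smul_eq_smul (α := Ω) fun β => ?_
        obtain ⟨v, hvN, rfl⟩ := hsurj β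
        rw [one_smul, hconj g hg.1, Subgroup.mem_centralizer_iff.1 (hno v hvN).2 g hg,
          mul_inv_cancel_right]
      have h1 := hout z hzN hzL
      have h2 := hout (y * z) (N.mul_mem hyN hzN)
        (fun h => hzL (by simpa using L.mul_mem (L.inv_mem hyL) h))
      have c1 : Commute x z := h1
      have c2 : Commute x (y * z) := h2
      simpa using (c2.mul_right c1.inv_right).eq
    · exact hout y hyN hyL
  have hNcomm : IsMulCommutative N := ⟨⟨fun a b => Subtype.ext (hcomm a.1 a.2 b.1 b.2)⟩⟩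
  -- `N` is not trivial
  obtain ⟨x₀, hx₀N, hx₀⟩ := hsurj b₀
  have hx₀1 : x₀ ≠ 1 := fun h => hab (by rw [← hx₀, h, one_smul])
  refine ⟨?_, ?_⟩
  · have hN1 : 1 < Nat.card N := by
      rw [Finite.one_lt_card_iff_nontrivial]
      exact ⟨⟨⟨x₀, hx₀N⟩, 1, fun h => hx₀1 (congrArg Subtype.val h)⟩⟩
    obtain ⟨p, hp, hpN⟩ := Nat.exists_prime_and_dvd (n := Nat.card N) (by omega)
    refine ⟨p, hp, hNcomm, ?_⟩
    let K : Subgroup G :=
      { carrier := {z | z ∈ N ∧ z ^ p = 1}
        one_mem' := ⟨N.one_mem, one_pow p⟩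
        mul_mem' := fun {a b} ha hb => ⟨N.mul_mem ha.1 hb.1, by
          rw [Commute.mul_pow (hcomm a ha.1 b hb.1), ha.2, hb.2, one_mul]⟩
        inv_mem' := fun {a} ha => ⟨N.inv_mem ha.1, by rw [inv_pow, ha.2, inv_one]⟩ }
    have hKne : K ≠ ⊥ := by
      have : Fact p.Prime := ⟨hp⟩
      obtain ⟨z, hz⟩ := exists_prime_orderOf_dvd_card' (G := N) p hpN
      intro h
      have hzK : (z : G) ∈ K := ⟨z.2, by
        have := pow_orderOf_eq_one z
        rw [hz] at this
        exact congrArg Subtype.val this⟩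
      rw [h, Subgroup.mem_bot] at hzK
      have : z = 1 := Subtype.ext hzK
      rw [this, orderOf_one] at hz
      exact hp.one_lt.ne hz
    have hKN := hirr K (fun z hz => hz.1) hKne (fun h hh k hk => ⟨hN.conj_mem _ hk.1 h, by
      rw [conj_pow, hk.2]; group⟩)
    intro z hz
    rw [← hKN] at hz
    exact hz.2
  · intro M hM hM1
    have hself : ∀ g : G, (∀ z ∈ N, g * z = z * g) → g ∈ N := by
      intro g hg
      obtain ⟨u, hu, hgu⟩ := hsurj (g • ω)
      have : g = u := eq_of_smul_eq_smul (α := Ω) fun β => by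
        obtain ⟨v, hv, rfl⟩ := hsurj β
        rw [← mul_smul, hg v hv, mul_smul, ← hgu, ← mul_smul, ← mul_smul, hcomm v hv u hu]
      exact this ▸ hu
    by_cases hMN : M ⊓ N = ⊥
    · exfalso
      apply hM1
      rw [eq_bot_iff]
      intro m hm
      rw [← hMN]
      refine ⟨hm, hself m fun z hz => ?_⟩
      exact (Subgroup.commute_of_normal_of_disjoint M N hM hN (disjoint_iff.2 hMN) m z hm hz).eq
    · have := hirr (M ⊓ N) inf_le_right hMN
        (fun h _ k hk => ⟨hM.conj_mem _ hk.1 h, hN.conj_mem _ hk.2 h⟩)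
      rw [← this]
      exact inf_le_left

end Cfsg.Agent.S3356
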