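import Cfsg.Statements.S3357

import Cfsg.Agent.Frobenius.Complement
import Cfsg.Agent.Frobenius.ChangeField
set_option autoImplicit false
open Cfsg

namespace Cfsg.Agent.S3357

open CfsgLib.Frobenius

lemma exists_irreducible {k G V : Type*} [Field k] [Group G] [AddCommGroup V] [Module k V]
    [FiniteDimensional k V] [Nontrivial V] {σ : Representation k G V}
    (hσ : ∀ a : G, a ≠ 1 → ∀ v : V, σ a v = v → v = 0) :
    ∃ (n : ℕ) (ρ : G →* GL (Fin n) k), 0 < n ∧
      (∀ W : Submodule k (Fin n → k),
        (∀ g : G, ∀ w ∈ W, ((ρ g : GL (Fin n) k) : Matrix (Fin n) (Fin n) k).mulVec w ∈ W) →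
          W = ⊥ ∨ W = ⊤) ∧
      ∀ g : G, g ≠ 1 → ∀ v : Fin n → k,
        ((ρ g : GL (Fin n) k) : Matrix (Fin n) (Fin n) k).mulVec v = v → v = 0 := by
  classical
  let Inv : Submodule k V → Prop := fun W => ∀ a : G, ∀ w ∈ W, σ a w ∈ W
  have hex : ∃ n, ∃ W : Submodule k V, Inv W ∧ W ≠ ⊥ ∧ Module.finrank k W = n :=
    ⟨_, ⊤, fun a w _ => Submodule.mem_top, top_ne_bot, rfl⟩
  obtain ⟨W, hW, hWne, hWn⟩ := Nat.find_spec hex
  have : Nontrivial W := Submodule.nontrivial_iff_ne_bot.2 hWne
  let b := (Module.finBasis k W).equivFun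
  let f : G →* Module.End k W :=
    { toFun := fun a => (σ a).restrict (hW a)
      map_one' := LinearMap.ext fun w => Subtype.ext (Linear.rep_one_apply (w : V))
      map_mul' := fun a a' => LinearMap.ext fun w => Subtype.ext (Linear.rep_mul_apply a a' (w : V)) }
  let M : G →* Matrix (Fin (Module.finrank k W)) (Fin (Module.finrank k W)) k :=
    { toFun := fun a => LinearMap.toMatrix' (b.toLinearMap ∘ₗ f a ∘ₗ b.symm.toLinearMap)
      map_one' := by
        rw [map_one]
        convert LinearMap.toMatrix'_id using 2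
        refine LinearMap.ext fun v => ?_
        simp only [LinearMap.comp_apply, LinearMap.id_apply]
        exact b.apply_symm_apply v
      map_mul' := fun a a' => by
        rw [← LinearMap.toMatrix'_comp]
        congr 1
        refine LinearMap.ext fun v => ?_
        simp only [LinearMap.comp_apply, map_mul, Module.End.mul_apply]
        exact congrArg (fun w => b (f a w)) (b.symm_apply_apply _).symm }
  have hM : ∀ (a : G) v, ((M.toHomUnits a : GL (Fin (Module.finrank k W)) k) :
      Matrix (Fin (Module.finrank k W)) (Fin (Module.finrank k W)) k).mulVec v = b (f a (b.symm v)) := by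
    intro a v
    rw [MonoidHom.coe_toHomUnits]
    exact LinearMap.toMatrix'_mulVec _ _
  refine ⟨_, M.toHomUnits, Module.finrank_pos, fun U hU => ?_, fun g hg v hv => ?_⟩
  · by_cases hU0 : U = ⊥
    · exact Or.inl hU0
    right
    let U' : Submodule k V := (U.map b.symm.toLinearMap).map W.subtype
    have hInv : Inv U' := by
      rintro a _ ⟨_, ⟨u, hu, rfl⟩, rfl⟩
      refine ⟨f a (b.symm u), ⟨_, hU a u hu, ?_⟩, rfl⟩
      show b.symm _ = _
      rw [hM, b.symm_apply_apply]
    have hne : U' ≠ ⊥ := fun e => hU0 (Submodule.map_injective_of_injective (f := b.symm.toLinearMap)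
      b.symm.injective ((Submodule.map_injective_of_injective (f := W.subtype) Subtype.val_injective
        (e.trans (Submodule.map_bot _).symm)).trans (Submodule.map_bot _).symm))
    have hmin := Nat.find_min' hex ⟨U', hInv, hne, rfl⟩
    have heq : U' = W := Submodule.eq_of_le_of_finrank_le (Submodule.map_subtype_le _ _) (hWn ▸ hmin)
    rw [eq_top_iff]
    intro u _
    obtain ⟨w, ⟨u', hu', e⟩, ew⟩ : ((b.symm u : W) : V) ∈ U' := heq.symm ▸ (b.symm u).2
    have : b.symm u' = b.symm u := e.trans (Subtype.ext ew)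
    exact b.symm.injective this ▸ hu'
  · rw [hM] at hv
    have h1 : f g (b.symm v) = b.symm v := b.injective (hv.trans (b.apply_symm_apply v).symm)
    have h2 : b.symm v = 0 := Subtype.ext (hσ g hg _ (congrArg Subtype.val h1))
    exact b.symm.map_eq_zero_iff.1 h2


/-- Let G be a finite group that occurs as a Frobenius complement. Then G has a faithful irreducible representation over an algebraic closure of the rationals in which no non-identity element of G has 1 as an eigenvalue: there are n ≥ 1 and an injective homomorphism ρ from G to GL(n) over that field, with no invariant subspace other than 0 and the whole space, such that for g ≠ 1 the only vector fixed by ρ(g) is 0. -/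
theorem result {G : Type*} [Group G] [Finite G]
    (hFC : ∃ (L : Type) (_ : Group L) (_ : Finite L) (H : Subgroup L), Cfsg.IsFrobeniusComplement H ∧ Nonempty (G ≃* H)) :
    ∃ (n : ℕ) (ρ : G →* GL (Fin n) (AlgebraicClosure ℚ)), 0 < n ∧ Function.Injective ρ ∧
      (∀ W : Submodule (AlgebraicClosure ℚ) (Fin n → AlgebraicClosure ℚ),
        (∀ g : G, ∀ w ∈ W, ((ρ g : GL (Fin n) (AlgebraicClosure ℚ)) : Matrix (Fin n) (Fin n) (AlgebraicClosure ℚ)).mulVec w ∈ W) → W = ⊥ ∨ W = ⊤) ∧
      ∀ g : G, g ≠ 1 → ∀ v : Fin n → AlgebraicClosure ℚ,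
        ((ρ g : GL (Fin n) (AlgebraicClosure ℚ)) : Matrix (Fin n) (Fin n) (AlgebraicClosure ℚ)).mulVec v = v → v = 0 := by
  obtain ⟨p, _, d, σ, hd, -, hnt, hσ⟩ := exists_prime_rep_of_occurs hFC
  have : Nonempty (Fin d) := ⟨⟨0, hd⟩⟩
  obtain ⟨e, ρ, he, hρ⟩ := ChangeField.exists_rep_any_field hσ (AlgebraicClosure ℚ)
    (by exact_mod_cast Nat.card_pos.ne')
  have : Nonempty (Fin e) := ⟨⟨0, he⟩⟩
  obtain ⟨n, τ, hn, hirr, hfpf⟩ := exists_irreducible hρ
  refine ⟨n, τ, hn, (injective_iff_map_eq_one τ).2 fun g hg => ?_, hirr, hfpf⟩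
  by_contra g1
  have := congrFun (hfpf g g1 (fun _ => 1) (by rw [hg, Units.val_one, Matrix.one_mulVec])) ⟨0, hn⟩
  exact one_ne_zero this

end Cfsg.Agent.S3357
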