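import Cfsg.Statements.S3358

import Cfsg.Agent.Frobenius.SolvableComplement
set_option autoImplicit false
open Cfsg

namespace Cfsg.Agent.S3358

/-- Structure of solvable Frobenius complements. Let G be a finite solvable group that occurs as a Frobenius complement. Then G has a normal subgroup G₀ such that G/G₀ is isomorphic to a subgroup of Sym(4) (G₀ is the kernel of a homomorphism to Sym(4)), all Sylow subgroups of G₀ are cyclic, and G₀ has a presentation ⟨x, y | x^n = 1, y^m = 1, x⁻¹ y x = y^r⟩ with n, m ≥ 1, gcd(r − 1, m) = gcd(n, m) = 1 and r^(n/n′) ≡ 1 (mod m), where n′ is the product of the distinct primes dividing n. -/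
theorem result {G : Type*} [Group G] [Finite G] (hsol : Group.IsSolvable G)
    (hFC : ∃ (L : Type) (_ : Group L) (_ : Finite L) (H : Subgroup L), Cfsg.IsFrobeniusComplement H ∧ Nonempty (G ≃* H)) :
    ∃ G₀ : Subgroup G, G₀.Normal ∧
      (∃ f : G →* Equiv.Perm (Fin 4), f.ker = G₀) ∧
      (∀ (p : ℕ) [Fact p.Prime] (P : Sylow p G₀), IsCyclic P) ∧
      ∃ n m r : ℕ, 0 < n ∧ 0 < m ∧ Nat.Coprime (r - 1) m ∧ Nat.Coprime n m ∧ 1 ≤ r ∧
        r ^ (n / ∏ p ∈ n.primeFactors, p) % m = 1 % m ∧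
        Nonempty (G₀ ≃* PresentedGroup
          ({FreeGroup.of (0 : Fin 2) ^ n, FreeGroup.of (1 : Fin 2) ^ m,
            (FreeGroup.of (0 : Fin 2))⁻¹ * FreeGroup.of 1 * FreeGroup.of 0 * (FreeGroup.of (1 : Fin 2) ^ r)⁻¹} :
            Set (FreeGroup (Fin 2)))) := by
  obtain ⟨L, _, _, H, hH, ⟨e⟩⟩ := hFC
  obtain ⟨p, _, d, ρ₀, hd, -, hρ₀⟩ := CfsgLib.Frobenius.exists_prime_rep hH
  have : Nonempty (Fin d) := ⟨⟨0, hd⟩⟩
  let ρ : Representation (ZMod p) G (Fin d → ZMod p) := ρ₀.comp e.toMonoidHom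
  have hρ : ∀ a : G, a ≠ 1 → ∀ v, ρ a v = v → v = 0 :=
    fun a ha v hv => hρ₀ (e a) (fun h => ha (e.map_eq_one_iff.1 h)) v hv
  obtain ⟨G₀, hn, hz, f, hf⟩ := CfsgLib.Frobenius.Linear.exists_zgroup_core hρ
  refine ⟨G₀, hn, ⟨f, hf⟩, fun q _ Q => inferInstance, ?_⟩
  obtain ⟨x, y, r, hr1, hco, hco', hcard, hr, -, htop⟩ :=
    CfsgLib.Frobenius.exists_metacyclic_gens G₀
  exact ⟨orderOf x, orderOf y, r, orderOf_pos x, orderOf_pos y, hco', hco, hr1,
    CfsgLib.Frobenius.Linear.metacyclic_congruence (ρ := ρ.comp G₀.subtype)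
      (CfsgLib.Frobenius.Linear.rep_comp_subtype hρ G₀) hco hr,
    CfsgLib.Frobenius.nonempty_mulEquiv_presentedGroup x y r hcard hr htop⟩

end Cfsg.Agent.S3358
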