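import Cfsg.Statements.S3362
import Cfsg.Agent.Mathieu12Explicit.Chain

set_option autoImplicit false
open Cfsg

namespace Cfsg.Agent.S3362

open CfsgLib.Mathieu12Explicit

/-- An explicit construction of the Mathieu groups of degrees 11 and 12. On the points 0, …, 11 let s = (3 4 5)(6 7 8)(9 10 11), t = (3 6 9)(4 7 10)(5 8 11), u = (4 6 5 9)(7 8 11 10), v = (4 7 5 11)(6 10 9 8), w = (4 10 5 8)(6 11 9 7), x₁ = (0 3)(6 7)(8 10)(9 11), x₂ = (0 1)(6 9)(7 10)(8 11), x₃ = (1 2)(6 11)(7 9)(8 10) (each written as a product of transpositions). Then the group M₁₂ generated by all eight permutations is sharply 5-transitive on the 12 points and has order 95040, and the group M₁₁ generated by the first seven has order 7920 and is the stabilizer of the point 2 in M₁₂. -/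
theorem result
    (s t u v w x₁ x₂ x₃ : Equiv.Perm (Fin 12))
    (hs : s = Equiv.swap (3 : Fin 12) 5 * Equiv.swap (3 : Fin 12) 4 * Equiv.swap (6 : Fin 12) 8 * Equiv.swap (6 : Fin 12) 7 * Equiv.swap (9 : Fin 12) 11 * Equiv.swap (9 : Fin 12) 10) (ht : t = Equiv.swap (3 : Fin 12) 9 * Equiv.swap (3 : Fin 12) 6 * Equiv.swap (4 : Fin 12) 10 * Equiv.swap (4 : Fin 12) 7 * Equiv.swap (5 : Fin 12) 11 * Equiv.swap (5 : Fin 12) 8)
    (hu : u = Equiv.swap (4 : Fin 12) 9 * Equiv.swap (4 : Fin 12) 5 * Equiv.swap (4 : Fin 12) 6 * Equiv.swap (7 : Fin 12) 10 * Equiv.swap (7 : Fin 12) 11 * Equiv.swap (7 : Fin 12) 8) (hv : v = Equiv.swap (4 : Fin 12) 11 * Equiv.swap (4 : Fin 12) 5 * Equiv.swap (4 : Fin 12) 7 * Equiv.swap (6 : Fin 12) 8 * Equiv.swap (6 : Fin 12) 9 * Equiv.swap (6 : Fin 12) 10) (hw : w = Equiv.swap (4 : Fin 12) 8 * Equiv.swap (4 : Fin 12) 5 * Equiv.swap (4 : Fin 12) 10 * Equiv.swap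 (6 : Fin 12) 7 * Equiv.swap (6 : Fin 12) 9 * Equiv.swap (6 : Fin 12) 11)
    (hx₁ : x₁ = Equiv.swap (0 : Fin 12) 3 * Equiv.swap (6 : Fin 12) 7 * Equiv.swap (8 : Fin 12) 10 * Equiv.swap (9 : Fin 12) 11) (hx₂ : x₂ = Equiv.swap (0 : Fin 12) 1 * Equiv.swap (6 : Fin 12) 9 * Equiv.swap (7 : Fin 12) 10 * Equiv.swap (8 : Fin 12) 11)
    (hx₃ : x₃ = Equiv.swap (1 : Fin 12) 2 * Equiv.swap (6 : Fin 12) 11 * Equiv.swap (7 : Fin 12) 9 * Equiv.swap (8 : Fin 12) 10)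
    (M₁₂ M₁₁ : Subgroup (Equiv.Perm (Fin 12))) (hM₁₂ : M₁₂ = Subgroup.closure {s, t, u, v, w, x₁, x₂, x₃})
    (hM₁₁ : M₁₁ = Subgroup.closure {s, t, u, v, w, x₁, x₂}) :
    MulAction.IsMultiplyPretransitive M₁₂ (Fin 12) 5 ∧ (∀ y : Fin 5 ↪ Fin 12, MulAction.stabilizer M₁₂ y = ⊥) ∧
    Nat.card M₁₂ = 95040 ∧ Nat.card M₁₁ = 7920 ∧
    M₁₁ = M₁₂ ⊓ MulAction.stabilizer (Equiv.Perm (Fin 12)) (2 : Fin 12) := by
  classical
  have e0 : gen 0 = s := by rw [hs]; rfl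
  have e1 : gen 1 = t := by rw [ht]; rfl
  have e2 : gen 2 = u := by rw [hu]; rfl
  have e3 : gen 3 = v := by rw [hv]; rfl
  have e4 : gen 4 = w := by rw [hw]; rfl
  have e5 : gen 5 = x₁ := by rw [hx₁]; rfl
  have e6 : gen 6 = x₂ := by rw [hx₂]; rfl
  have e7 : gen 7 = x₃ := by rw [hx₃]; rfl
  clear hs ht hu hv hw hx₁ hx₂ hx₃
  have hg12 : M₁₂ = Gs [0, 1, 2, 3, 4, 5, 6, 7] := by
    rw [hM₁₂, Gs]
    congr 1
    ext g
    simp [e0, e1, e2, e3, e4, e5, e6, e7, eq_comm]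
  have hg11 : M₁₁ = Gs [0, 1, 2, 3, 4, 5, 6] := by
    rw [hM₁₁, Gs]
    congr 1
    ext g
    simp [e0, e1, e2, e3, e4, e5, e6, e7, eq_comm]
  obtain ⟨h0, c0⟩ := level level0 2 rfl
  obtain ⟨h1, c1⟩ := level level1 1 rfl
  obtain ⟨h2, c2⟩ := level level2 0 rfl
  obtain ⟨h3, c3⟩ := level level3 3 rfl
  obtain ⟨h4, c4⟩ := level level4 4 rfl
  have hbot : Gs [] = ⊥ := by simp [Gs]
  have n0 : Nat.card {b : Fin 12 // b.val ∉ ([] : List ℕ)} = 12 := by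
    rw [Nat.card_eq_fintype_card]; decide
  have n1 : Nat.card {b : Fin 12 // b.val ∉ [2]} = 11 := by
    rw [Nat.card_eq_fintype_card]; decide
  have n2 : Nat.card {b : Fin 12 // b.val ∉ [2, 1]} = 10 := by
    rw [Nat.card_eq_fintype_card]; decide
  have n3 : Nat.card {b : Fin 12 // b.val ∉ [2, 1, 0]} = 9 := by
    rw [Nat.card_eq_fintype_card]; decide
  have n4 : Nat.card {b : Fin 12 // b.val ∉ [2, 1, 0, 3]} = 8 := by
    rw [Nat.card_eq_fintype_card]; decide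
  have hc11 : Nat.card ↥(Gs [0, 1, 2, 3, 4, 5, 6]) = 7920 := by
    rw [c1, c2, c3, c4, n1, n2, n3, n4, hbot, Subgroup.card_bot]
  have hc12 : Nat.card ↥(Gs [0, 1, 2, 3, 4, 5, 6, 7]) = 95040 := by rw [c0, hc11, n0]
  let e : Fin 5 ↪ Fin 12 := ⟨![2, 1, 0, 3, 4], by decide⟩
  have hfree : MulAction.stabilizer M₁₂ e = ⊥ := by
    refine (Subgroup.eq_bot_iff_forall _).mpr fun g hg => Subtype.ext ?_
    have hi : ∀ i : Fin 5, (g : Equiv.Perm (Fin 12)) (e i) = e i := fun i =>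
      DFunLike.congr_fun (show g • e = e from hg) i
    have a0 : (g : Equiv.Perm (Fin 12)) ∈ Gs [0, 1, 2, 3, 4, 5, 6] :=
      h0 ▸ ⟨hg12 ▸ g.2, hi 0⟩
    have a1 : (g : Equiv.Perm (Fin 12)) ∈ Gs [0, 1, 2, 3, 4, 5] := h1 ▸ ⟨a0, hi 1⟩
    have a2 : (g : Equiv.Perm (Fin 12)) ∈ Gs [0, 1, 2, 3, 4] := h2 ▸ ⟨a1, hi 2⟩
    have a3 : (g : Equiv.Perm (Fin 12)) ∈ Gs [2, 3, 4] := h3 ▸ ⟨a2, hi 3⟩
    have a4 : (g : Equiv.Perm (Fin 12)) ∈ Gs [] := h4 ▸ ⟨a3, hi 4⟩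
    rwa [hbot, Subgroup.mem_bot] at a4
  have hcard : Nat.card M₁₂ = 95040 := by rw [hg12, hc12]
  have hbij : Function.Bijective (fun g : M₁₂ => g • e) := by
    haveI := Fintype.ofFinite M₁₂
    rw [Fintype.bijective_iff_injective_and_card]
    refine ⟨fun g h hgh => ?_, ?_⟩
    · have : h⁻¹ * g ∈ MulAction.stabilizer M₁₂ e := by
        rw [MulAction.mem_stabilizer_iff, mul_smul]
        exact inv_smul_eq_iff.mpr hgh
      rw [hfree, Subgroup.mem_bot, inv_mul_eq_one] at this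
      exact this.symm
    · rw [← Nat.card_eq_fintype_card, hcard, Fintype.card_embedding_eq, Fintype.card_fin,
        Fintype.card_fin]
      rfl
  have hpre : MulAction.IsMultiplyPretransitive M₁₂ (Fin 12) 5 :=
    MulAction.isPretransitive_iff_base (G := M₁₂) e |>.mpr fun y => hbij.2 y
  refine ⟨hpre, fun y => ?_, hcard, by rw [hg11, hc11], by rw [hg11, hg12, h0]⟩
  obtain ⟨g, rfl⟩ := hbij.2 y
  refine (Subgroup.eq_bot_iff_forall _).mpr fun k hk => ?_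
  have hk' : g⁻¹ * k * g ∈ MulAction.stabilizer M₁₂ e := by
    rw [MulAction.mem_stabilizer_iff, mul_smul, mul_smul]
    change g⁻¹ • k • (g • e) = e
    rw [show k • (g • e) = g • e from hk]
    exact inv_smul_smul g e
  rw [hfree, Subgroup.mem_bot] at hk'
  calc k = g * (g⁻¹ * k * g) * g⁻¹ := by group
    _ = 1 := by rw [hk']; group

end Cfsg.Agent.S3362
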