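import Cfsg.Statements.S3371
import Cfsg.Agent.HalfTransP.Classify

set_option autoImplicit false
set_option linter.style.haveILetI false
open Cfsg

namespace Cfsg.Agent.S3371

/-- Let q be a prime, V a non-trivial finite vector space over the field with q elements, and G a finite p-group (p prime) acting faithfully and linearly on V such that all G-orbits on the non-zero vectors have the same size. Then one of the following holds: G is cyclic or generalized quaternion and acts semiregularly on the non-zero vectors; or V has q² elements with q = 2^m − 1 and G is dihedral of order 2^(m+1) or semidihedral of order 2^(m+2); or V has q² elements with q = 2^m + 1 and, in suitable coordinates V = F_q², G is exactly the group of maps (x, y) ↦ (a x, ± a⁻¹ y) and (x, y) ↦ (± a⁻¹ y, a x) with a ≠ 0; or V has 81 elements (q = 3) and G is a 2-group. -/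
theorem result (q : ℕ) [Fact q.Prime] {V : Type*} [AddCommGroup V] [Module (ZMod q) V] [Finite V] [Nontrivial V]
    {G : Type*} [Group G] [Finite G] (p : ℕ) [Fact p.Prime] (hG : IsPGroup p G)
    (ρ : G →* (V ≃ₗ[ZMod q] V)) (hρ : Function.Injective ρ)
    (hhalf : ∀ v w : V, v ≠ 0 → w ≠ 0 → Nat.card {u : V | ∃ g : G, ρ g v = u} = Nat.card {u : V | ∃ g : G, ρ g w = u}) :
    ((IsCyclic G ∨ ∃ n : ℕ, Nonempty (G ≃* QuaternionGroup n)) ∧ ∀ v : V, v ≠ 0 → ∀ g : G, ρ g v = v → g = 1) ∨
    (Nat.card V = q ^ 2 ∧ ∃ m : ℕ, q = 2 ^ m - 1 ∧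
      (Nonempty (G ≃* DihedralGroup (2 ^ m)) ∨ (Cfsg.IsQuasiDihedral G ∧ Nat.card G = 2 ^ (m + 2)))) ∨
    (Nat.card V = q ^ 2 ∧ (∃ m : ℕ, q = 2 ^ m + 1) ∧
      ∃ e : V ≃ₗ[ZMod q] (Fin 2 → ZMod q), ∀ f : (Fin 2 → ZMod q) ≃ₗ[ZMod q] (Fin 2 → ZMod q),
        (∃ g : G, f = e.symm.trans ((ρ g).trans e)) ↔
        ∃ a s : ZMod q, a ≠ 0 ∧ (s = 1 ∨ s = -1) ∧
          ((∀ v, f v = ![a * v 0, s * a⁻¹ * v 1]) ∨ (∀ v, f v = ![s * a⁻¹ * v 1, a * v 0]))) ∨
    (Nat.card V = 81 ∧ q = 3 ∧ p = 2) := by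
  classical
  letI : DistribMulAction G V :=
    { smul := fun g v => ρ g v
      one_smul := fun v => by show ρ 1 v = v; rw [map_one]; rfl
      mul_smul := fun g h v => by show ρ (g * h) v = ρ g (ρ h v); rw [map_mul]; rfl
      smul_zero := fun g => map_zero (ρ g)
      smul_add := fun g => map_add (ρ g) }
  have hdef : ∀ (g : G) (v : V), g • v = ρ g v := fun _ _ => rfl
  have hfaith : ∀ g : G, (∀ v : V, g • v = v) → g = 1 := fun g hg =>
    hρ (by rw [map_one]; exact LinearEquiv.ext fun v => hg v)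
  have hqV : ∀ v : V, q • v = 0 := fun v => ZModModule.char_nsmul_eq_zero q v
  have hk : ∀ v w : V, v ≠ 0 → w ≠ 0 →
      Nat.card (MulAction.stabilizer G v) = Nat.card (MulAction.stabilizer G w) := by
    intro v w hv hw
    have e : Nat.card (MulAction.orbit G v) = Nat.card (MulAction.orbit G w) := hhalf v w hv hw
    have h1 := (MulAction.stabilizer G v).index_mul_card
    have h2 := (MulAction.stabilizer G w).index_mul_card
    rw [MulAction.index_stabilizer, ← Nat.card_coe_set_eq] at h1 h2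
    rw [← e] at h2
    haveI : Nonempty (MulAction.orbit G v) := ⟨⟨v, MulAction.mem_orbit_self v⟩⟩
    exact Nat.eq_of_mul_eq_mul_left Nat.card_pos (h1.trans h2.symm)
  by_cases hsemi : ∀ v : V, v ≠ 0 → ∀ g : G, g • v = v → g = 1
  · exact Or.inl ⟨Cfsg.Agent.HalfTransP.semiregular_case (q := q) hG hsemi,
      fun v hv g hg => hsemi v hv g hg⟩
  push Not at hsemi
  obtain ⟨v0, hv0, g1, hg1, hg1'⟩ := hsemi
  have hpq : p ≠ q := by
    rintro rfl
    haveI : Fintype V := Fintype.ofFinite V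
    have hdvd : p ∣ Nat.card V := by
      obtain ⟨d, hd⟩ := Cfsg.Agent.HalfTransP.Arith.card_eq_pow (Fact.out : p.Prime) hqV
      rcases d with _ | d
      · have := Finite.one_lt_card (α := V); rw [pow_zero] at hd; omega
      · rw [hd]; exact dvd_pow_self p (Nat.succ_ne_zero d)
    obtain ⟨b, hb, hb0⟩ := hG.exists_fixed_point_of_prime_dvd_card_of_fixed_point V hdvd
      (a := (0 : V)) (fun g => smul_zero g)
    have hb0' : b ≠ 0 := fun h => hb0 h.symm
    have htop : MulAction.stabilizer G b = ⊤ := eq_top_iff.2 fun g _ => hb g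
    refine hg1' (hfaith g1 fun v => ?_)
    rcases eq_or_ne v 0 with rfl | hv
    · exact smul_zero _
    · have := hk v b hv hb0'
      rw [htop, Subgroup.card_top] at this
      have h' : MulAction.stabilizer G v = ⊤ := Subgroup.eq_top_of_card_eq _ this
      exact (h' ▸ Subgroup.mem_top g1 : g1 ∈ MulAction.stabilizer G v)
  have D : Cfsg.Agent.HalfTransP.Data p q G V :=
    ⟨hG, Fact.out, Fact.out, hpq, hqV, hk, ⟨g1, hg1', v0, hv0, hg1⟩, hfaith⟩
  rcases D.classify with h | h | h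
  · exact Or.inr (Or.inl h)
  rotate_left
  · exact Or.inr (Or.inr (Or.inr h))
  obtain ⟨hV, hp2, hqm, x, y, a, s, t, hx, hx0, hy, hy0, hs, hs', htx, hty, hstab, hmult, hdiag⟩ := h
  refine Or.inr (Or.inr (Or.inl ⟨hV, hqm, ?_⟩))
  -- the basis `x`, `y`
  let φ : (Fin 2 → ZMod q) →ₗ[ZMod q] V :=
    { toFun := fun w => w 0 • x + w 1 • y
      map_add' := fun u w => by simp [add_smul]; abel
      map_smul' := fun c w => by simp [smul_add, mul_smul] }
  have hsc : ∀ (g : G) (c : ZMod q) (v : V), g • (c • v) = c • (g • v) :=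
    fun g c v => map_smul (ρ g) c v
  have hinj : Function.Injective φ := by
    refine (injective_iff_map_eq_zero φ).2 fun w hw => ?_
    change w 0 • x + w 1 • y = 0 at hw
    have hw' := congrArg (a • ·) hw
    simp only [smul_add, hsc, hx, hy, smul_neg, smul_zero] at hw'
    have e0 : w 0 • x + w 0 • x = 0 := by
      calc w 0 • x + w 0 • x = (w 0 • x + w 1 • y) + (w 0 • x + -(w 1 • y)) := by abel
        _ = 0 := by rw [hw, hw', add_zero]
    have e1 : w 0 • x = 0 := D.smul_cancel (n := 2) (fun h => hpq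
      (hp2.trans ((Nat.prime_dvd_prime_iff_eq (Fact.out : q.Prime) Nat.prime_two).1 h).symm))
      (by rw [two_nsmul, e0])
    rw [e1, zero_add] at hw
    funext i
    fin_cases i
    · exact (smul_eq_zero.1 e1).resolve_right hx0
    · exact (smul_eq_zero.1 hw).resolve_right hy0
  haveI : Fintype V := Fintype.ofFinite V
  have hbij : Function.Bijective φ := (Fintype.bijective_iff_injective_and_card φ).2 ⟨hinj, by
    rw [Fintype.card_fun, ZMod.card, Fintype.card_fin, ← Nat.card_eq_fintype_card, hV]⟩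
  let e : V ≃ₗ[ZMod q] (Fin 2 → ZMod q) := (LinearEquiv.ofBijective φ hbij).symm
  refine ⟨e, fun f => ?_⟩
  have hkey : ∀ (g : G) (u w : Fin 2 → ZMod q),
      (e.symm.trans ((ρ g).trans e)) w = u ↔ g • (w 0 • x + w 1 • y) = u 0 • x + u 1 • y := by
    intro g u w
    rw [LinearEquiv.trans_apply, LinearEquiv.trans_apply, ← LinearEquiv.eq_symm_apply]
    rfl
  -- the diagonal elements
  have hd : ∀ c : ZMod q, c ≠ 0 → ∃ h : G, h • x = c • x ∧ h • y = c⁻¹ • y := by
    intro c hc
    have hn : ¬ q ∣ c.val := fun h => hc (by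
      rw [← ZMod.natCast_zmod_val c, (ZMod.natCast_eq_zero_iff _ _).2 h])
    obtain ⟨h, h1, h2⟩ := hdiag c.val hn
    rw [← Nat.cast_smul_eq_nsmul (ZMod q), ZMod.natCast_zmod_val] at h1 h2
    exact ⟨h, h1, by rw [eq_inv_smul_iff₀ hc, h2]⟩
  -- elements fixing the first line
  have hline : ∀ (g : G) (c : ZMod q), c ≠ 0 → g • x = c • x →
      ∃ σ : ZMod q, (σ = 1 ∨ σ = -1) ∧ g • y = (σ * c⁻¹) • y := by
    intro g c hc hgx
    obtain ⟨h, h1, h2⟩ := hd c hc
    rcases hstab (h⁻¹ * g) (by rw [mul_smul, hgx, ← h1, inv_smul_smul]) with h' | h'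
    · have : g = h := (inv_mul_eq_one.1 h').symm
      exact ⟨1, Or.inl rfl, by rw [this, h2, one_mul]⟩
    · have : g = h * t := inv_mul_eq_iff_eq_mul.1 h'
      exact ⟨-1, Or.inr rfl, by rw [this, mul_smul, hty, smul_neg, h2, neg_one_mul, neg_smul]⟩
  constructor
  · rintro ⟨g, rfl⟩
    obtain ⟨n, hn, hg | hg⟩ := hmult g
    all_goals
      have hc : (n : ZMod q) ≠ 0 := fun h => hn ((ZMod.natCast_eq_zero_iff _ _).1 h)
      rw [← Nat.cast_smul_eq_nsmul (ZMod q)] at hg
    · obtain ⟨σ, hσ, hgy⟩ := hline g (n : ZMod q) hc hg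
      refine ⟨n, σ, hc, hσ, Or.inl fun w => (hkey g _ w).2 ?_⟩
      rw [smul_add, hsc, hsc, hg, hgy, smul_smul, smul_smul]
      simp only [Matrix.cons_val_zero, Matrix.cons_val_one]
      rw [mul_comm (n : ZMod q), mul_comm (σ * (n : ZMod q)⁻¹)]
    · obtain ⟨σ, hσ, hgy⟩ := hline (s⁻¹ * g) (n : ZMod q) hc (by
        rw [mul_smul, hg, inv_smul_eq_iff, hsc, hs])
      have hgy' : g • y = (σ * (n : ZMod q)⁻¹) • x := by
        rw [mul_smul, inv_smul_eq_iff, hsc, hs'] at hgy
        exact hgy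
      refine ⟨n, σ, hc, hσ, Or.inr fun w => (hkey g _ w).2 ?_⟩
      rw [smul_add, hsc, hsc, hg, hgy', smul_smul, smul_smul]
      simp only [Matrix.cons_val_zero, Matrix.cons_val_one]
      rw [mul_comm (n : ZMod q), mul_comm (σ * (n : ZMod q)⁻¹), add_comm]
  · rintro ⟨c, σ, hc, hσ, hf⟩
    obtain ⟨h, h1, h2⟩ := hd c hc
    obtain ⟨g, hg1, hg2⟩ : ∃ g : G, g • x = c • x ∧ g • y = (σ * c⁻¹) • y := by
      rcases hσ with rfl | rfl
      · exact ⟨h, h1, by rw [one_mul, h2]⟩
      · exact ⟨h * t, by rw [mul_smul, htx, h1],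
          by rw [mul_smul, hty, smul_neg, h2, neg_one_mul, neg_smul]⟩
    rcases hf with hf | hf
    · refine ⟨g, LinearEquiv.ext fun w => ?_⟩
      rw [hf w]
      refine ((hkey g _ w).2 ?_).symm
      rw [smul_add, hsc, hsc, hg1, hg2, smul_smul, smul_smul]
      simp only [Matrix.cons_val_zero, Matrix.cons_val_one]
      rw [mul_comm c, mul_comm (σ * c⁻¹)]
    · refine ⟨s * g, LinearEquiv.ext fun w => ?_⟩
      rw [hf w]
      refine ((hkey (s * g) _ w).2 ?_).symm
      rw [smul_add, hsc, hsc, mul_smul, mul_smul, hg1, hg2, hsc, hsc, hs, hs', smul_smul, smul_smul]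
      simp only [Matrix.cons_val_zero, Matrix.cons_val_one]
      rw [mul_comm c, mul_comm (σ * c⁻¹), add_comm]

end Cfsg.Agent.S3371
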