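import Cfsg.Statements.S3375

set_option autoImplicit false
open Cfsg

namespace Cfsg.Agent.S3375

/-- A fixed-point-free automorphism squaring to one inverts every element. -/
lemma inverts {H : Type*} [Group H] [Finite H] (f : H →* H) (hf : ∀ x, f (f x) = x)
    (h : ∀ x, f x = x → x = 1) (x : H) : f x = x⁻¹ := by
  have hinj : Function.Injective fun x : H => x⁻¹ * f x := by
    intro a b e
    simp only at e
    have : f (b * a⁻¹) = b * a⁻¹ := by
      rw [map_mul, map_inv, ← eq_comm]
      calc b * a⁻¹ = b * (a⁻¹ * f a) * (f a)⁻¹ := by group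
        _ = f b * (f a)⁻¹ := by rw [e]; group
    exact (mul_inv_eq_one.1 (h _ this)).symm
  obtain ⟨y, rfl⟩ := (Finite.injective_iff_surjective.1 hinj) x
  simp [hf]

lemma mul_comm_of_inverts {H : Type*} [Group H] {f : H →* H} {a b : H} (ha : f a = a⁻¹)
    (hb : f b = b⁻¹) (hab : f (a * b) = (a * b)⁻¹) : a * b = b * a := by
  rw [map_mul, ha, hb, mul_inv_rev] at hab
  calc a * b = (b⁻¹ * a⁻¹)⁻¹ := by simp
    _ = (a⁻¹ * b⁻¹)⁻¹ := by rw [hab]
    _ = b * a := by simp

/-- An involutory automorphism and a subgroup of index 2 give an invariant one. -/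
lemma exists_invariant {H : Type*} [Group H] (f : H →* H) (hf : ∀ x, f (f x) = x)
    (M : Subgroup H) (hM : M.index = 2) :
    ∃ A : Subgroup H, A.index = 2 ∧ ∀ a ∈ A, f a ∈ A := by
  have hc : (M.comap f).index = 2 := by
    rw [Subgroup.index_comap_of_surjective]
    · exact hM
    · exact fun x => ⟨f x, hf x⟩
  by_cases hinv : ∀ a ∈ M, f a ∈ M
  · exact ⟨M, hM, hinv⟩
  -- the third subgroup of index two above M and its image
  let D : Subgroup H :=
    { carrier := {x | x ∈ M ↔ f x ∈ M}
      one_mem' := by simp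
      mul_mem' := by
        intro a b ha hb
        simp only [Set.mem_setOf_eq] at ha hb ⊢
        rw [map_mul, Subgroup.mul_mem_iff_of_index_two hM, Subgroup.mul_mem_iff_of_index_two hM,
          ha, hb]
      inv_mem' := by
        intro a ha
        simp only [Set.mem_setOf_eq] at ha ⊢
        simpa using ha }
  refine ⟨D, ?_, fun a (ha : a ∈ M ↔ f a ∈ M) => ?_⟩
  · push Not at hinv
    obtain ⟨c, hcM, hcf⟩ := hinv
    refine Subgroup.index_eq_two_iff.2 ⟨c, fun b => ?_⟩
    change Xor (b * c ∈ M ↔ f (b * c) ∈ M) (b ∈ M ↔ f b ∈ M)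
    rw [map_mul, Subgroup.mul_mem_iff_of_index_two hM, Subgroup.mul_mem_iff_of_index_two hM]
    unfold Xor
    tauto
  · show f a ∈ M ↔ f (f a) ∈ M
    rw [hf]; exact ha.symm


/-- Let γ be an automorphism of order 2 of a finite group H. (i) If γ fixes only the identity, then H is abelian and γ inverts every element. (ii) If γ has exactly two fixed points and H has a subgroup of index 2, then H has a γ-invariant abelian subgroup of index 2 on which γ acts by inversion. -/
theorem result {H : Type*} [Group H] [Finite H] (γ : MulAut H) (hγ : orderOf γ = 2) :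
    ((∀ h : H, γ h = h → h = 1) → (∀ a b : H, a * b = b * a) ∧ ∀ h : H, γ h = h⁻¹) ∧
    ((Nat.card {h : H // γ h = h} = 2 ∧ ∃ M : Subgroup H, M.index = 2) →
      ∃ A : Subgroup H, A.index = 2 ∧ IsMulCommutative A ∧ (∀ a ∈ A, γ a ∈ A) ∧ ∀ a ∈ A, γ a = a⁻¹) := by
  classical
  have hsq : ∀ x, γ (γ x) = x := fun x => by
    have h := pow_orderOf_eq_one γ
    rw [hγ, pow_two] at h
    exact congrArg (fun e : MulAut H => e x) h
  constructor
  · intro h
    have hinv : ∀ x, γ x = x⁻¹ := inverts γ.toMonoidHom hsq h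
    exact ⟨fun a b => mul_comm_of_inverts (f := γ.toMonoidHom) (hinv a) (hinv b) (hinv _), hinv⟩
  rintro ⟨hfix, M, hM⟩
  obtain ⟨A, hA, hAinv⟩ := exists_invariant γ.toMonoidHom hsq M hM
  have hinv : ∀ a ∈ A, γ a = a⁻¹ := by
    by_cases hfA : ∀ a ∈ A, γ a = a → a = 1
    · intro a ha
      let g : A →* A := (γ.toMonoidHom.comp A.subtype).codRestrict A fun x => hAinv x x.2
      have hg : ∀ x : A, (g x : H) = γ x := fun x => rfl
      have := inverts g (fun x => Subtype.ext (by rw [hg, hg]; exact hsq _))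
        (fun x hx => Subtype.ext (hfA x x.2 (by rw [← hg, hx]))) ⟨a, ha⟩
      exact congrArg Subtype.val this
    push Not at hfA
    obtain ⟨t, htA, htγ, ht1⟩ := hfA
    -- all displacements lie in A and there are enough of them
    let F : Subgroup H :=
      { carrier := {x | γ x = x}
        one_mem' := by simp
        mul_mem' := by intro a b ha hb; simp only [Set.mem_setOf_eq] at *; simp [ha, hb]
        inv_mem' := by intro a ha; simp only [Set.mem_setOf_eq] at *; simp [ha] }
    have hF : Nat.card F = 2 := hfix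
    have hdis : ∀ x : H, γ x * x⁻¹ ∈ A := fun x => by
      rw [Subgroup.mul_mem_iff_of_index_two hA, A.inv_mem_iff]
      exact ⟨fun h => by simpa [hsq] using hAinv _ h, fun h => hAinv x h⟩
    let d : H ⧸ F → A := fun q => ⟨γ q.out * q.out⁻¹, hdis _⟩
    have hd : Function.Injective d := by
      intro q q' e
      have e' : γ q.out * q.out⁻¹ = γ q'.out * q'.out⁻¹ := congrArg Subtype.val e
      have : γ (q.out⁻¹ * q'.out) = q.out⁻¹ * q'.out := by
        rw [map_mul, map_inv]
        calc (γ q.out)⁻¹ * γ q'.out = (γ q.out)⁻¹ * (γ q'.out * q'.out⁻¹) * q'.out := by group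
          _ = q.out⁻¹ * q'.out := by rw [← e']; group
      rw [← QuotientGroup.out_eq' q, ← QuotientGroup.out_eq' q', QuotientGroup.eq]
      exact this
    have hc : Nat.card (H ⧸ F) = Nat.card A := by
      have h1 := F.card_mul_index
      rw [← A.index_mul_card, hA, hF, Subgroup.index_eq_card] at h1
      omega
    intro a ha
    obtain ⟨q, hq⟩ := ((Nat.bijective_iff_injective_and_card d).2 ⟨hd, hc⟩).2 ⟨a, ha⟩
    have : a = γ q.out * q.out⁻¹ := (congrArg Subtype.val hq).symm
    subst this
    simp [hsq]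
  refine ⟨A, hA, ⟨⟨fun a b => Subtype.ext ?_⟩⟩, hAinv, hinv⟩
  exact mul_comm_of_inverts (f := γ.toMonoidHom) (hinv a a.2) (hinv b b.2)
    (hinv _ (A.mul_mem a.2 b.2))

end Cfsg.Agent.S3375
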