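import Cfsg.Statements.S3380
import Cfsg.Agent.TwoGroup.NormalRankOne
import Cfsg.Agent.TwoGroup.MaximalClass
import Cfsg.Agent.TwoGroup.UniqueInvolution
import Cfsg.Agent.PGroup.UniqueOrderP
import Cfsg.Agent.Involution.NormalFour

set_option autoImplicit false
open Cfsg

namespace Cfsg.Agent.S3380

theorem exists_normal_pair {G : Type*} [Group G] [Finite G] {p : ℕ} [Fact p.Prime] (hG : IsPGroup p G)
    (hnc : ¬ IsCyclic G) (hnq : ∀ n : ℕ, ¬ Nonempty (G ≃* QuaternionGroup n))
    (hnd : ∀ n : ℕ, ¬ Nonempty (G ≃* DihedralGroup n)) (hnsd : ¬ Cfsg.IsQuasiDihedral G) :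
    ∃ E : Subgroup G, E.Normal ∧ Cfsg.IsElementaryAbelian p E ∧ Nat.card E = p ^ 2 := by
  classical
  by_cases hp : p = 2
  · subst hp
    obtain ⟨A, hAn, hAc, hA⟩ : ∃ A : Subgroup G, A.Normal ∧ IsMulCommutative A ∧ ¬ IsCyclic A := by
      by_contra h
      push Not at h
      rcases (CfsgLib.TwoGroup.isMaxClassType_of_normal_rank_one hG hnc h).dihedral_or_quaternion_or_quasiDihedral
        with ⟨k, hk⟩ | ⟨k, hk⟩ | h'
      · exact hnd _ hk
      · exact hnq _ hk
      · exact hnsd h'
    let N : Subgroup G :=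
      { carrier := {x | x ∈ A ∧ x * x = 1}
        one_mem' := ⟨one_mem A, mul_one 1⟩
        mul_mem' := fun {x y} hx hy => ⟨mul_mem hx.1 hy.1, by
          have h : x * y = y * x := congrArg Subtype.val (hAc.is_comm.comm (⟨x, hx.1⟩ : A) ⟨y, hy.1⟩)
          calc x * y * (x * y) = x * (y * x) * y := by group
            _ = x * (x * y) * y := by rw [h]
            _ = (x * x) * (y * y) := by group
            _ = 1 := by rw [hx.2, hy.2, one_mul]⟩
        inv_mem' := fun {x} hx => ⟨inv_mem hx.1, by rw [← mul_inv_rev, hx.2, inv_one]⟩ }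
    haveI hNn : N.Normal := ⟨fun x hx g => ⟨hAn.conj_mem x hx.1 g, by
      calc g * x * g⁻¹ * (g * x * g⁻¹) = g * (x * x) * g⁻¹ := by group
        _ = 1 := by rw [hx.2, mul_one, mul_inv_cancel]⟩⟩
    have h4 : 4 ≤ Nat.card N := by
      by_contra hlt
      push Not at hlt
      apply hA
      refine CfsgLib.TwoGroup.isCyclic_of_comm_atMostOneInvolution (hG.to_subgroup A)
        hAc.is_comm.comm ?_
      intro a b ha hb
      have hmem : ∀ c : A, orderOf c = 2 → (c : G) ∈ N := fun c hc =>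
        ⟨c.2, by rw [← Subgroup.coe_mul, ← sq, ← hc, pow_orderOf_eq_one]; rfl⟩
      by_contra hab
      obtain ⟨k, hk⟩ := IsPGroup.iff_card.mp (hG.to_subgroup N)
      have h3 : 2 < Nat.card N := by
        letI : Fintype N := Fintype.ofFinite N
        rw [Nat.card_eq_fintype_card]
        refine Fintype.two_lt_card_iff.mpr ⟨1, ⟨a, hmem a ha⟩, ⟨b, hmem b hb⟩, ?_, ?_, ?_⟩
        · intro h
          have h' : a = 1 := Subtype.ext (congrArg (fun w : N => (w : G)) h).symm
          simp [h'] at ha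
        · intro h
          have h' : b = 1 := Subtype.ext (congrArg (fun w : N => (w : G)) h).symm
          simp [h'] at hb
        · intro h
          exact hab (Subtype.ext (congrArg (fun w : N => (w : G)) h))
      rw [hk] at hlt h3
      rcases k with _ | _ | k
      · omega
      · omega
      · have : 2 ^ 2 ≤ 2 ^ (k + 1 + 1) := Nat.pow_le_pow_right two_pos (by omega)
        omega
    obtain ⟨E, hEn, hEc, hsq⟩ :=
      CfsgLib.Involution.normal_four_of_omega hG N hNn h4 (fun a ha => ha.2)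
    refine ⟨E, hEn, ⟨isMulCommutative_iff.2 fun a b => Subtype.ext ?_, fun a ha => by rw [sq]; exact hsq a ha⟩,
      hEc⟩
    have h1 := hsq _ (E.mul_mem a.2 b.2)
    have ha := hsq _ a.2
    have hb := hsq _ b.2
    show (a : G) * b = b * a
    calc (a : G) * b = (a : G) * ((a : G) * b * ((a : G) * b)) * b := by rw [h1, mul_one]
      _ = ((a : G) * a) * (b * a) * ((b : G) * b) := by group
      _ = b * a := by rw [ha, hb, one_mul, mul_one]
  · exact CfsgLib.PGroup.exists_normal_elementary_sq hp hG hnc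

theorem decompose (q : ℕ) [Fact q.Prime] {V : Type*} [AddCommGroup V] [Module (ZMod q) V]
    {G : Type*} [Group G] (ρ : G →* (V ≃ₗ[ZMod q] V)) {p : ℕ} [NeZero p]
    (hpq : (p : ZMod q) ≠ 0) {a z : G} (hap : a ^ p = 1) (hzp : z ^ p = 1) (haz : Commute a z)
    (hfix : ∀ j : ℕ, ¬ p ∣ j → ∀ v : V, ρ (z ^ j) v = v → v = 0) (W : Fin p → Submodule (ZMod q) V)
    (hW : ∀ i v, v ∈ W i ↔ ρ (a * z ^ (i : ℕ)) v = v) :
    iSup W = ⊤ ∧ iSupIndep W := by
  classical
  -- sums over the powers of a fixed element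
  let S : G → V → V := fun x v => ∑ j ∈ Finset.range p, ρ (x ^ j) v
  have hSfix : ∀ (x : G), x ^ p = 1 → ∀ v, ρ x (S x v) = S x v := by
    intro x hx v
    simp only [S, map_sum]
    have h1 : ∀ j, ρ x (ρ (x ^ j) v) = ρ (x ^ (j + 1)) v := fun j => by
      rw [pow_succ', map_mul]; rfl
    simp only [h1]
    have h2 := Finset.sum_range_succ (fun j => ρ (x ^ j) v) p
    rw [Finset.sum_range_succ', hx, pow_zero] at h2
    exact add_right_cancel h2
  have hSz : ∀ j : ℕ, ¬ p ∣ j → ∀ v, S (z ^ j) v = 0 := fun j hj v =>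
    hfix j hj _ (hSfix _ (by rw [← pow_mul, mul_comm, pow_mul, hzp, one_pow]) v)
  have hxp : ∀ i : ℕ, (a * z ^ i) ^ p = 1 := fun i => by
    rw [(haz.pow_right i).mul_pow, hap, ← pow_mul, mul_comm i, pow_mul, hzp, one_pow, one_mul]
  constructor
  · rw [eq_top_iff]
    intro v _
    have hsum : ∑ i : Fin p, S (a * z ^ (i : ℕ)) v = (p : ZMod q) • v := by
      simp only [S]
      rw [Finset.sum_comm, Finset.sum_eq_single 0]
      · simp [Finset.sum_const, Nat.cast_smul_eq_nsmul]
      · intro j hj hj0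
        have h1 : ∀ i : Fin p, ρ ((a * z ^ (i : ℕ)) ^ j) v = ρ (a ^ j) (ρ ((z ^ j) ^ (i : ℕ)) v) := by
          intro i
          rw [(haz.pow_right _).mul_pow, map_mul, ← pow_mul, mul_comm _ j, pow_mul]
          rfl
        rw [Finset.sum_congr rfl (fun i _ => h1 i), ← map_sum,
          Fin.sum_univ_eq_sum_range (fun i => ρ ((z ^ j) ^ i) v) p]
        have hj' : ¬ p ∣ j := fun h => by
          have := Nat.le_of_dvd (Nat.pos_of_ne_zero hj0) h
          have := Finset.mem_range.mp hj
          omega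
        rw [show (∑ i ∈ Finset.range p, ρ ((z ^ j) ^ i) v) = S (z ^ j) v from rfl, hSz j hj' v,
          map_zero]
      · intro h
        exact absurd (Finset.mem_range.mpr (Nat.pos_of_ne_zero (NeZero.ne p))) h
    have hv : v = (p : ZMod q)⁻¹ • ∑ i : Fin p, S (a * z ^ (i : ℕ)) v := by
      rw [hsum, smul_smul, inv_mul_cancel₀ hpq, one_smul]
    rw [hv]
    refine Submodule.smul_mem _ _ (Submodule.sum_mem _ fun i _ => Submodule.mem_iSup_of_mem i ?_)
    exact (hW i _).mpr (hSfix _ (hxp _) v)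
  · intro k
    rw [Submodule.disjoint_def]
    intro w hwk hw
    let P : V →ₗ[ZMod q] V := ∑ j ∈ Finset.range p, (ρ ((a * z ^ (k : ℕ)) ^ j) : V →ₗ[ZMod q] V)
    have hP : ∀ v, P v = S (a * z ^ (k : ℕ)) v := fun v => by simp [P, S]
    have hker : (⨆ i, ⨆ (_ : i ≠ k), W i) ≤ LinearMap.ker P := by
      refine iSup₂_le fun i hik v hv => ?_
      rw [LinearMap.mem_ker, hP]
      -- on `W i` the element `a * z ^ k` acts as a non-trivial power of `z`
      have hv' := (hW i v).mp hv
      set d : ℕ := (k : ℕ) + (p - (i : ℕ)) with hd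
      have hdp : ¬ p ∣ d := by
        rintro ⟨c, hc⟩
        have hi := i.2
        have hk := k.2
        rcases c with _ | _ | c
        · omega
        · apply hik; apply Fin.ext; omega
        · rw [mul_add, mul_add, mul_one] at hc; omega
      have hx : a * z ^ (k : ℕ) = z ^ d * (a * z ^ (i : ℕ)) := by
        rw [← mul_assoc, ← (haz.pow_right d).eq, mul_assoc, ← pow_add,
          show d + (i : ℕ) = (k : ℕ) + p by have := i.2; omega, pow_add, hzp, mul_one]
      have hcomm : Commute (z ^ d) (a * z ^ (i : ℕ)) :=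
        ((haz.pow_right d).symm).mul_right (Commute.pow_pow (Commute.refl z) _ _)
      have hfixed : ∀ j, ρ ((a * z ^ (i : ℕ)) ^ j) v = v := by
        intro j
        induction j with
        | zero => simp
        | succ j ih =>
          rw [pow_succ, map_mul]
          show ρ ((a * z ^ (i : ℕ)) ^ j) (ρ (a * z ^ (i : ℕ)) v) = v
          rw [hv', ih]
      calc S (a * z ^ (k : ℕ)) v = S (z ^ d) v := by
            simp only [S]
            refine Finset.sum_congr rfl fun j _ => ?_
            rw [hx, hcomm.mul_pow, map_mul]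
            show ρ ((z ^ d) ^ j) (ρ ((a * z ^ (i : ℕ)) ^ j) v) = _
            rw [hfixed]
        _ = 0 := hSz d hdp v
    have h0 : P w = 0 := hker hw
    have hfixed : ∀ j, ρ ((a * z ^ (k : ℕ)) ^ j) w = w := by
      intro j
      induction j with
      | zero => simp
      | succ j ih =>
        rw [pow_succ, map_mul]
        show ρ ((a * z ^ (k : ℕ)) ^ j) (ρ (a * z ^ (k : ℕ)) w) = w
        rw [(hW k w).mp hwk, ih]
    rw [hP] at h0
    simp only [S, hfixed, Finset.sum_const, Finset.card_range] at h0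
    rw [← Nat.cast_smul_eq_nsmul (ZMod q)] at h0
    exact (smul_eq_zero.mp h0).resolve_left hpq


/-- Let a finite p-group G act faithfully and irreducibly on a non-trivial finite vector space V over the field with q elements (q prime), and suppose G is not cyclic, generalized quaternion, dihedral or semidihedral. Then G has a subgroup H of index p and V is the direct sum of p subspaces, each invariant under H, on none of which H acts faithfully, and which every element of G outside H permutes in a single p-cycle. -/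
theorem result
    (q : ℕ) [Fact q.Prime] {V : Type*} [AddCommGroup V] [Module (ZMod q) V] [Finite V] [Nontrivial V]
    {G : Type*} [Group G] [Finite G] (p : ℕ) [Fact p.Prime] (hG : IsPGroup p G)
    (ρ : G →* (V ≃ₗ[ZMod q] V)) (hρ : Function.Injective ρ)
    (hirr : ∀ W : Submodule (ZMod q) V, (∀ g : G, ∀ w ∈ W, ρ g w ∈ W) → W = ⊥ ∨ W = ⊤)
    (hnc : ¬ IsCyclic G) (hnq : ∀ n : ℕ, ¬ Nonempty (G ≃* QuaternionGroup n))
    (hnd : ∀ n : ℕ, ¬ Nonempty (G ≃* DihedralGroup n)) (hnsd : ¬ Cfsg.IsQuasiDihedral G) :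
    ∃ (H : Subgroup G) (W : Fin p → Submodule (ZMod q) V), H.index = p ∧
      iSup W = ⊤ ∧ iSupIndep W ∧
      (∀ h ∈ H, ∀ i, ∀ w ∈ W i, ρ h w ∈ W i) ∧
      (∀ i, ∃ h ∈ H, h ≠ 1 ∧ ∀ w ∈ W i, ρ h w = w) ∧
      ∀ g : G, g ∉ H → ∃ σ : Equiv.Perm (Fin p), orderOf σ = p ∧ ∀ i, (W i).map (ρ g : V →ₗ[ZMod q] V) = W (σ i) := by
  classical
  have hp := (Fact.out : p.Prime)
  haveI : NeZero p := ⟨hp.ne_zero⟩
  have happ : ∀ (g h : G) (v : V), ρ (g * h) v = ρ g (ρ h v) := fun g h v => by rw [map_mul]; rfl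
  let Fx : G → Submodule (ZMod q) V := fun x =>
    LinearMap.ker ((ρ x : V →ₗ[ZMod q] V) - LinearMap.id)
  have hFx : ∀ x v, v ∈ Fx x ↔ ρ x v = v := fun x v => by
    simp [Fx, sub_eq_zero]
  have hinv : ∀ x : G, x ∈ Subgroup.center G → x ≠ 1 → ∀ v, ρ x v = v → v = 0 := by
    intro x hx hx1 v hv
    rcases hirr (Fx x) (fun g w hw => by
      rw [hFx] at hw ⊢
      rw [← happ, ← Subgroup.mem_center_iff.mp hx g, happ, hw]) with h | h
    · have := (hFx x v).mpr hv
      rwa [h, Submodule.mem_bot] at this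
    · exfalso
      apply hx1
      apply hρ
      rw [map_one]
      exact LinearEquiv.ext fun w => (hFx x w).mp (h ▸ Submodule.mem_top)
  have hpq : (p : ZMod q) ≠ 0 := by
    intro h0
    rw [ZMod.natCast_eq_zero_iff] at h0
    have hqp : q = p := (Nat.prime_dvd_prime_iff_eq Fact.out hp).mp h0
    subst hqp
    letI : MulAction G V :=
      { smul := fun g v => ρ g v
        one_smul := fun v => show ρ 1 v = v by rw [map_one]; rfl
        mul_smul := fun g h v => happ g h v }
    have hdvd : q ∣ Nat.card V := by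
      obtain ⟨v, hv⟩ := exists_ne (0 : V)
      have h1 : addOrderOf v = q := addOrderOf_eq_prime (by
        rw [← Nat.cast_smul_eq_nsmul (ZMod q), ZMod.natCast_self, zero_smul]) hv
      rw [← h1]
      exact addOrderOf_dvd_natCard v
    obtain ⟨v, hv, hv0⟩ := hG.exists_fixed_point_of_prime_dvd_card_of_fixed_point (α := V) hdvd
      (a := (0 : V)) (fun g => map_zero (ρ g))
    let Fix : Submodule (ZMod q) V := ⨅ g : G, Fx g
    have hvF : v ∈ Fix := Submodule.mem_iInf _ |>.mpr fun g => (hFx g v).mpr (hv g)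
    rcases hirr Fix (fun g w hw => by
      have := (Submodule.mem_iInf _).mp hw g
      rwa [(hFx g w).mp this]) with h | h
    · rw [h, Submodule.mem_bot] at hvF
      exact hv0 hvF.symm
    · apply hnc
      haveI : Subsingleton G := ⟨fun g g' => by
        apply hρ
        refine LinearEquiv.ext fun w => ?_
        have hw : w ∈ Fix := h ▸ Submodule.mem_top
        rw [(hFx g w).mp ((Submodule.mem_iInf _).mp hw g), (hFx g' w).mp ((Submodule.mem_iInf _).mp hw g')]⟩
      exact isCyclic_of_subsingleton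
  obtain ⟨E, hEn, hEA, hEc⟩ := exists_normal_pair hG hnc hnq hnd hnsd
  haveI := hEn
  have hEne : E ≠ ⊥ := fun h => by
    rw [h, Subgroup.card_bot] at hEc
    exact (Nat.one_lt_pow two_ne_zero hp.one_lt).ne hEc
  obtain ⟨⟨z, hzE, hzZ⟩, hz1'⟩ := Subgroup.ne_bot_iff_exists_ne_one.mp
    (CfsgLib.PGroup.inf_center_ne_bot hG E hEne)
  have hz1 : z ≠ 1 := fun h => hz1' (Subtype.ext h)
  have hzp : z ^ p = 1 := hEA.2 z hzE
  have hzo : orderOf z = p := orderOf_eq_prime hzp hz1
  have hfix : ∀ j : ℕ, ¬ p ∣ j → ∀ v : V, ρ (z ^ j) v = v → v = 0 := fun j hj =>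
    hinv _ (Subgroup.pow_mem _ hzZ j) fun h => hj (hzo ▸ orderOf_dvd_of_pow_eq_one h)
  -- an element of `E` outside `⟨z⟩`
  obtain ⟨a, haE, haz⟩ : ∃ a ∈ E, a ∉ Subgroup.zpowers z := by
    by_contra h
    push Not at h
    have := Subgroup.card_dvd_of_le (show E ≤ Subgroup.zpowers z from h)
    rw [hEc, Nat.card_zpowers, hzo] at this
    have h2 := Nat.le_of_dvd hp.pos this
    have h3 := hp.two_le
    nlinarith
  have hap : a ^ p = 1 := hEA.2 a haE
  have ha1 : a ≠ 1 := fun h => haz (h ▸ one_mem _)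
  have hcE : Commute a z := congrArg Subtype.val (hEA.1.is_comm.comm (⟨a, haE⟩ : E) ⟨z, hzE⟩)
  haveI hzn : (Subgroup.zpowers z).Normal := ⟨fun x hx g => by
    have hxc : x ∈ Subgroup.center G := (Subgroup.zpowers_le.mpr hzZ) hx
    rwa [Subgroup.mem_center_iff.mp hxc g, mul_inv_cancel_right]⟩
  have hcom : ∀ g : G, g * a * g⁻¹ * a⁻¹ ∈ Subgroup.zpowers z := by
    intro g
    set π := QuotientGroup.mk' (Subgroup.zpowers z)
    have hQ : IsPGroup p (G ⧸ Subgroup.zpowers z) := hG.to_quotient _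
    have hEq : Nat.card (E.map π) = p := by
      have h := Subgroup.card_mul_index ((Subgroup.zpowers z).subgroupOf E)
      rw [Nat.card_congr (Subgroup.subgroupOfEquivOfLe (Subgroup.zpowers_le.mpr hzE)).toEquiv,
        Nat.card_zpowers, hzo, hEc, sq] at h
      have h2 : ((Subgroup.zpowers z).subgroupOf E).index = p := Nat.eq_of_mul_eq_mul_left hp.pos h
      rw [← Subgroup.relIndex_bot_left, ← (Subgroup.map_bot π), Subgroup.relIndex_map_map,
        QuotientGroup.ker_mk', bot_sup_eq, sup_eq_left.mpr (Subgroup.zpowers_le.mpr hzE)]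
      exact h2
    haveI : (E.map π).Normal := hEn.map _ (QuotientGroup.mk'_surjective _)
    have hc := Subgroup.mem_center_iff.mp (CfsgLib.PGroup.le_center_of_card_eq hQ _ hEq
      (Subgroup.mem_map_of_mem π haE)) (π g)
    rw [← QuotientGroup.eq_one_iff]
    show π (g * a * g⁻¹ * a⁻¹) = 1
    rw [map_mul, map_mul, map_mul, map_inv, map_inv, hc, mul_inv_cancel_right, mul_inv_cancel]
  -- the homomorphism `g ↦ [g, a]`
  let c : G →* Subgroup.zpowers z :=
    { toFun := fun g => ⟨g * a * g⁻¹ * a⁻¹, hcom g⟩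
      map_one' := Subtype.ext (by simp)
      map_mul' := fun g h => Subtype.ext (by
        show g * h * a * (g * h)⁻¹ * a⁻¹ = g * a * g⁻¹ * a⁻¹ * (h * a * h⁻¹ * a⁻¹)
        have hz' := Subgroup.mem_center_iff.mp (Subgroup.zpowers_le.mpr hzZ (hcom h))
        rw [hz' (g * a * g⁻¹ * a⁻¹)]
        have hz'' := hz' g
        calc g * h * a * (g * h)⁻¹ * a⁻¹
            = (g * (h * a * h⁻¹ * a⁻¹)) * (a * g⁻¹ * a⁻¹) := by group
          _ = (h * a * h⁻¹ * a⁻¹ * g) * (a * g⁻¹ * a⁻¹) := by rw [hz'']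
          _ = _ := by group) }
  have hker : ∀ g, g ∈ c.ker ↔ g * a = a * g := by
    intro g
    rw [MonoidHom.mem_ker, ← Subtype.coe_inj]
    show g * a * g⁻¹ * a⁻¹ = 1 ↔ _
    rw [mul_inv_eq_one, mul_inv_eq_iff_eq_mul]
  have hzH : ∀ i : ℕ, a * z ^ i ∈ c.ker := fun i => by
    rw [hker]
    have h := (hcE.pow_right i).eq
    calc a * z ^ i * a = a * (z ^ i * a) := mul_assoc _ _ _
      _ = a * (a * z ^ i) := by rw [h]
  have hHidx : c.ker.index = p := by
    rw [Subgroup.index_ker]
    have h1 : Nat.card c.range ∣ p := by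
      have := Subgroup.card_subgroup_dvd_card c.range
      rwa [Nat.card_zpowers, hzo] at this
    refine ((Nat.dvd_prime hp).mp h1).resolve_left fun h => ?_
    -- otherwise `E` is central, against faithfulness
    have htriv : ∀ g, g * a = a * g := fun g => by
      rw [← hker, MonoidHom.mem_ker]
      have : c g ∈ c.range := ⟨g, rfl⟩
      rwa [Subgroup.card_eq_one.mp h, Subgroup.mem_bot] at this
    have haZ : a ∈ Subgroup.center G := Subgroup.mem_center_iff.mpr htriv
    obtain ⟨hsup, -⟩ := decompose q ρ hpq hap hzp hcE hfix (fun i => Fx (a * z ^ (i : ℕ)))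
      (fun i v => hFx _ v)
    obtain ⟨v, hv⟩ := exists_ne (0 : V)
    have hbot : iSup (fun i : Fin p => Fx (a * z ^ (i : ℕ))) = ⊥ := by
      rw [eq_bot_iff]
      refine iSup_le fun i w hw => ?_
      rw [Submodule.mem_bot]
      refine hinv _ (mul_mem haZ (Subgroup.pow_mem _ hzZ _)) (fun h1 => haz ?_) w ((hFx _ w).mp hw)
      rw [eq_inv_of_mul_eq_one_left h1]
      exact inv_mem (Subgroup.npow_mem_zpowers z _)
    have : v ∈ (⊥ : Submodule (ZMod q) V) := by rw [← hbot, hsup]; exact Submodule.mem_top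
    exact hv ((Submodule.mem_bot _).mp this)
  obtain ⟨hsup, hind⟩ := decompose q ρ hpq hap hzp hcE hfix (fun i => Fx (a * z ^ (i : ℕ)))
    (fun i v => hFx _ v)
  refine ⟨c.ker, fun i => Fx (a * z ^ (i : ℕ)), hHidx, hsup, hind, ?_, ?_, ?_⟩
  · intro h hh i w hw
    rw [hFx] at hw ⊢
    have hza : z ^ (i : ℕ) * h = h * z ^ (i : ℕ) :=
      (Subgroup.mem_center_iff.mp (Subgroup.pow_mem _ hzZ _) h).symm
    have hcm : a * z ^ (i : ℕ) * h = h * (a * z ^ (i : ℕ)) := by
      rw [mul_assoc, hza, ← mul_assoc, ← (hker h).mp hh, mul_assoc]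
    rw [← happ, hcm, happ, hw]
  · intro i
    refine ⟨a * z ^ (i : ℕ), hzH _, fun h1 => haz ?_, fun w hw => (hFx _ w).mp hw⟩
    rw [eq_inv_of_mul_eq_one_left h1]
    exact inv_mem (Subgroup.npow_mem_zpowers z _)
  · intro g hg
    obtain ⟨t, ht⟩ := (IsOfFinOrder.mem_zpowers_iff_mem_range_orderOf (isOfFinOrder_of_finite z)).mp
      (c g).2 |> Finset.mem_image.mp
    rw [hzo, Finset.mem_range] at ht
    obtain ⟨ht, hct⟩ := ht
    have hct' : g * a * g⁻¹ = a * z ^ t := by
      have : g * a * g⁻¹ * a⁻¹ = z ^ t := hct.symm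
      rw [mul_inv_eq_iff_eq_mul] at this
      rw [this, ← (hcE.pow_right t).eq]
    have ht0 : t ≠ 0 := by
      rintro rfl
      apply hg
      rw [hker, ← mul_inv_eq_iff_eq_mul, hct', pow_zero, mul_one]
    let tt : Fin p := ⟨t, ht⟩
    refine ⟨Equiv.addRight tt, ?_, fun i => ?_⟩
    · refine orderOf_eq_prime ?_ ?_
      · have hpow : ∀ n : ℕ, ∀ i, ((Equiv.addRight tt) ^ n) i = i + n • tt := by
          intro n
          induction n with
          | zero => intro i; simp
          | succ n ih =>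
            intro i
            rw [pow_succ', Equiv.Perm.mul_apply, ih, succ_nsmul]
            exact add_assoc _ _ _
        refine Equiv.ext fun i => ?_
        rw [hpow]
        have : p • tt = 0 := by
          have := card_nsmul_eq_zero (x := tt)
          simpa using this
        rw [this, add_zero]
        rfl
      · intro h
        have h1 := congrArg (fun σ : Equiv.Perm (Fin p) => σ 0) h
        simp at h1
        exact ht0 (congrArg Fin.val h1)
    · have hval : z ^ ((i + tt : Fin p) : ℕ) = z ^ (i : ℕ) * z ^ t := by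
        rw [← pow_add, Fin.val_add]
        have := pow_mod_orderOf z ((i : ℕ) + t)
        rw [hzo] at this
        exact this
      have hconj : g * (a * z ^ (i : ℕ)) * g⁻¹ = a * z ^ ((i + tt : Fin p) : ℕ) := by
        have hzg := Subgroup.mem_center_iff.mp (Subgroup.pow_mem _ hzZ (i : ℕ)) g⁻¹
        rw [hval]
        calc g * (a * z ^ (i : ℕ)) * g⁻¹ = g * a * (z ^ (i : ℕ) * g⁻¹) := by group
          _ = g * a * (g⁻¹ * z ^ (i : ℕ)) := by rw [hzg]
          _ = g * a * g⁻¹ * z ^ (i : ℕ) := by group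
          _ = a * z ^ t * z ^ (i : ℕ) := by rw [hct']
          _ = a * (z ^ (i : ℕ) * z ^ t) := by rw [mul_assoc, ← pow_add, add_comm, pow_add]
      show (Fx (a * z ^ (i : ℕ))).map _ = Fx (a * z ^ ((i + tt : Fin p) : ℕ))
      ext w
      rw [Submodule.mem_map, hFx, ← hconj]
      constructor
      · rintro ⟨u, hu, rfl⟩
        rw [hFx] at hu
        show ρ (g * (a * z ^ (i : ℕ)) * g⁻¹) (ρ g u) = ρ g u
        rw [← happ, inv_mul_cancel_right, happ, hu]
      · intro hw
        refine ⟨ρ g⁻¹ w, (hFx _ _).mpr ?_, ?_⟩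
        · have h1 := congrArg (ρ g⁻¹) hw
          rwa [← happ, show g⁻¹ * (g * (a * z ^ (i : ℕ)) * g⁻¹) = a * z ^ (i : ℕ) * g⁻¹ by group,
            happ] at h1
        · show ρ g (ρ g⁻¹ w) = w
          rw [← happ, mul_inv_cancel, map_one]
          rfl

end Cfsg.Agent.S3380
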