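import Cfsg.Statements.S3381

set_option autoImplicit false
open Cfsg

namespace Cfsg.Agent.S3381

variable {q : ℕ} [Fact q.Prime] {V : Type*} [AddCommGroup V] [Module (ZMod q) V] [Finite V]
  {G : Type*} [Group G] [Finite G] (ρ : G →* (V ≃ₗ[ZMod q] V))

/-- The fixed vectors of a group element. -/
def fix (g : G) : Submodule (ZMod q) V where
  carrier := {v | ρ g v = v}
  add_mem' := by intro a b ha hb; simp only [Set.mem_ofPred_eq] at *; rw [map_add, ha, hb]
  zero_mem' := map_zero _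
  smul_mem' := by intro c v hv; simp only [Set.mem_ofPred_eq] at *; rw [map_smul, hv]

lemma mem_fix {g : G} {v : V} : v ∈ fix ρ g ↔ ρ g v = v := Iff.rfl

section
variable (hρ : Function.Injective ρ)
  (hstab : ∀ v : V, v ≠ 0 → Nat.card {g : G // ρ g v = v} = 2)
include hstab

omit [Finite V] [Finite G] in
lemma exists_fixer {v : V} (hv : v ≠ 0) : ∃ g : G, g ≠ 1 ∧ ρ g v = v := by
  obtain ⟨a, b, hab, -⟩ := Nat.card_eq_two_iff.1 (hstab v hv)
  by_cases h : a.1 = 1
  · exact ⟨b.1, fun h' => hab (Subtype.ext (h.trans h'.symm)), b.2⟩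
  · exact ⟨a.1, h, a.2⟩

omit [Finite V] [Finite G] in
lemma fixer_unique {v : V} (hv : v ≠ 0) {g h : G} (hg : g ≠ 1) (hh : h ≠ 1)
    (eg : ρ g v = v) (eh : ρ h v = v) : g = h := by
  obtain ⟨a, b, hab, huniv⟩ := Nat.card_eq_two_iff.1 (hstab v hv)
  have hmem : ∀ x : {g : G // ρ g v = v}, x = a ∨ x = b := fun x => by
    have : x ∈ ({a, b} : Set _) := huniv ▸ Set.mem_univ x
    simpa using this
  have h1 : ρ (1 : G) v = v := by simp
  rcases hmem ⟨g, eg⟩ with e | e <;> rcases hmem ⟨h, eh⟩ with e' | e' <;>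
    rcases hmem ⟨1, h1⟩ with e'' | e'' <;>
    first
      | exact congrArg Subtype.val (e.trans e'.symm)
      | exact absurd (congrArg Subtype.val (e.trans e''.symm)) hg
      | exact absurd (congrArg Subtype.val (e'.trans e''.symm)) hh

omit [Finite V] [Finite G] in
lemma fixer_sq {v : V} (hv : v ≠ 0) {g : G} (hg : g ≠ 1) (eg : ρ g v = v) : g * g = 1 := by
  by_contra h
  have := fixer_unique ρ hstab hv hg h eg (by simp [eg])
  exact hg (mul_eq_left.1 this.symm)

include hρ

omit [Finite V] [Finite G] in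
/-- A central involution acts as the negative of the identity. -/
lemma central_eq_neg {z : G} (hz : z ≠ 1) (hzz : z * z = 1) (hzc : z ∈ Subgroup.center G) (v : V) :
    ρ z v = -v := by
  have hcomm : ∀ (g : G) (u : V), ρ z (ρ g u) = ρ g (ρ z u) := by
    intro g u
    rw [← LinearEquiv.mul_apply, ← map_mul, ← Subgroup.mem_center_iff.1 hzc g, map_mul,
      LinearEquiv.mul_apply]
  have hinv : ∀ (g : G), g * g = 1 → ∀ u : V, ρ g (ρ g u) = u := by
    intro g hg u
    rw [← LinearEquiv.mul_apply, ← map_mul, hg, map_one]; rfl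
  have hC : ∀ c : V, ρ z c = c → c = 0 := by
    intro c hc
    by_contra hc0
    obtain ⟨w, hw⟩ : ∃ w : V, ρ z w ≠ w := by
      by_contra h
      push Not at h
      exact hz (hρ (by rw [map_one]; exact LinearEquiv.ext h))
    have hw0 : w ≠ 0 := by rintro rfl; exact hw (map_zero _)
    by_cases h2 : (2 : ZMod q) = 0
    · obtain ⟨g, hg, egw⟩ := exists_fixer ρ hstab hw0
      have hgg := fixer_sq ρ hstab hw0 hg egw
      have hgz : g ≠ z := by rintro rfl; exact hw egw
      by_cases hs : c + ρ g c = 0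
      · have hneg : -c = c := by
          rw [neg_eq_iff_add_eq_zero, ← two_smul (ZMod q), h2, zero_smul]
        have : ρ g c = c := by rw [← hneg]; rw [hneg]; exact (eq_neg_of_add_eq_zero_right hs).trans hneg
        exact hgz (fixer_unique ρ hstab hc0 hg hz this hc)
      · refine hgz (fixer_unique ρ hstab hs hg hz ?_ ?_)
        · rw [map_add, hinv g hgg, add_comm]
        · rw [map_add, hcomm, hc]
    · set w' := w - ρ z w with hw'
      have hzw : ρ z w' = -w' := by rw [hw', map_sub, hinv z hzz, neg_sub]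
      have hw'0 : w' ≠ 0 := sub_ne_zero.2 (Ne.symm hw)
      have hsum : c + w' ≠ 0 := by
        intro h
        have h' : w' = -c := eq_neg_of_add_eq_zero_right h
        rw [h', map_neg, hc, neg_neg, neg_eq_iff_add_eq_zero, ← two_smul (ZMod q)] at hzw
        exact hc0 ((smul_eq_zero.1 hzw).resolve_left h2)
      obtain ⟨g, hg, eg⟩ := exists_fixer ρ hstab hsum
      have e1 := congrArg (ρ z) eg
      rw [hcomm, map_add, hc, hzw] at e1
      have e2 : (2 : ZMod q) • (ρ g c - c) = 0 := by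
        rw [map_add] at eg e1
        rw [map_neg] at e1
        rw [two_smul]
        calc ρ g c - c + (ρ g c - c) = (ρ g c + ρ g w' - (c + w')) + (ρ g c + -ρ g w' - (c + -w')) := by abel
          _ = 0 := by rw [eg, e1]; abel
      have e3 : ρ g c = c := sub_eq_zero.1 ((smul_eq_zero.1 e2).resolve_left h2)
      have : g = z := fixer_unique ρ hstab hc0 hg hz e3 hc
      subst this
      rw [map_add, hc, hzw, add_right_inj, neg_eq_iff_add_eq_zero, ← two_smul (ZMod q)] at eg
      exact hw'0 ((smul_eq_zero.1 eg).resolve_left h2)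
  exact eq_neg_of_add_eq_zero_right (hC (v + ρ z v) (by rw [map_add, hinv z hzz, add_comm]))

end


/-- Let G be a finite group acting faithfully and linearly on a non-trivial finite vector space V over the field with q elements (q prime) so that every non-zero vector has a stabilizer of order 2, and suppose G has a central involution. Then V has q^(2r) elements for some r and G contains exactly q^r + 1 non-central involutions. -/
theorem result
    (q : ℕ) [Fact q.Prime] {V : Type*} [AddCommGroup V] [Module (ZMod q) V] [Finite V] [Nontrivial V]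
    {G : Type*} [Group G] [Finite G] (ρ : G →* (V ≃ₗ[ZMod q] V)) (hρ : Function.Injective ρ)
    (hstab : ∀ v : V, v ≠ 0 → Nat.card {g : G // ρ g v = v} = 2)
    (z : G) (hz : orderOf z = 2) (hzc : z ∈ Subgroup.center G) :
    ∃ r : ℕ, Nat.card V = q ^ (2 * r) ∧
      Nat.card {g : G // orderOf g = 2 ∧ g ∉ Subgroup.center G} = q ^ r + 1 := by
  classical
  have hz1 : z ≠ 1 := by rintro rfl; simp at hz
  have hzz : z * z = 1 := by rw [← pow_two, ← hz]; exact pow_orderOf_eq_one z
  have hneg := central_eq_neg ρ hρ hstab hz1 hzz hzc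
  have hinvo : ∀ (g : G), g ≠ 1 → ∀ v : V, v ≠ 0 → ρ g v = v → g * g = 1 :=
    fun g hg v hv e => fixer_sq ρ hstab hv hg e
  have h2 : (2 : ZMod q) ≠ 0 := by
    intro h2
    suffices h : ρ z = 1 from hz1 (hρ (h.trans (map_one ρ).symm))
    refine LinearEquiv.ext fun v => ?_
    show ρ z v = v
    rw [hneg, neg_eq_iff_add_eq_zero, ← two_smul (ZMod q), h2, zero_smul]
  have hzfix : ∀ v : V, ρ z v = v → v = 0 := fun v hv => by
    rw [hneg, neg_eq_iff_add_eq_zero, ← two_smul (ZMod q)] at hv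
    exact (smul_eq_zero.1 hv).resolve_left h2
  have hzmul : ∀ (g : G) (v : V), ρ (g * z) v = - ρ g v := by
    intro g v; rw [map_mul, LinearEquiv.mul_apply, hneg, map_neg]
  have hcomm : ∀ g : G, g * z = z * g := fun g => Subgroup.mem_center_iff.1 hzc g
  set I : Set G := {g : G | orderOf g = 2 ∧ g ∉ Subgroup.center G} with hI
  have hcent : ∀ c : G, orderOf c = 2 → c ∈ Subgroup.center G → c = z := by
    intro c hc hcc
    have hc1 : c ≠ 1 := by rintro rfl; simp at hc
    have hcc2 : c * c = 1 := by rw [← pow_two, ← hc]; exact pow_orderOf_eq_one c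
    exact hρ (LinearEquiv.ext fun v => by rw [hneg, central_eq_neg ρ hρ hstab hc1 hcc2 hcc])
  have hordI : ∀ g : G, g * g = 1 → g ≠ 1 → orderOf g = 2 := fun g h1 h2 =>
    orderOf_eq_prime (by rw [pow_two]; exact h1) h2
  -- a non-identity element fixing a non-zero vector is a non-central involution
  have hfixI : ∀ (g : G) (v : V), g ≠ 1 → v ≠ 0 → ρ g v = v → g ∈ I := fun g v hg hv e =>
    ⟨hordI g (hinvo g hg v hv e) hg, fun hc => hv (hzfix v (by
      rw [← hcent g (hordI g (hinvo g hg v hv e) hg) hc]; exact e))⟩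
  have hIne : ∀ g ∈ I, g ≠ 1 ∧ g ≠ z ∧ g * g = 1 := fun g hg => by
    refine ⟨?_, fun e => hg.2 (e ▸ hzc), ?_⟩
    · rintro rfl; have := hg.1; simp at this
    · rw [← pow_two, ← hg.1]; exact pow_orderOf_eq_one g
  have hIz : ∀ g ∈ I, g * z ∈ I := by
    intro g hg
    obtain ⟨h1, hgz, hgg⟩ := hIne g hg
    have hne : g * z ≠ 1 := fun e =>
      hgz ((eq_inv_of_mul_eq_one_left e).trans (inv_eq_of_mul_eq_one_right hzz))
    refine ⟨hordI _ ?_ hne, fun hc => hg.2 ?_⟩
    · rw [mul_assoc, ← mul_assoc z, ← hcomm, mul_assoc g z, hzz, mul_one, hgg]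
    · simpa [mul_assoc, hzz] using (Subgroup.center G).mul_mem hc hzc
  have hdis : ∀ g h : G, g ≠ 1 → h ≠ 1 → g ≠ h → fix ρ g ⊓ fix ρ h = ⊥ := by
    intro g h hg hh hne
    rw [Submodule.eq_bot_iff]
    rintro v ⟨e1, e2⟩
    by_contra hv
    exact hne (fixer_unique ρ hstab hv hg hh e1 e2)
  let a : G → ℕ := fun g => Nat.card (fix ρ g)
  have hinj : ∀ g h : G, g ≠ 1 → h ≠ 1 → g ≠ h → a g * a h ≤ Nat.card V := by
    intro g h hg hh hne
    rw [← Nat.card_prod]
    refine Nat.card_le_card_of_injective (fun x : fix ρ g × fix ρ h => (x.1 : V) + x.2) ?_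
    intro x y e
    simp only at e
    have hm : (x.1 : V) - y.1 ∈ fix ρ g ⊓ fix ρ h := by
      refine ⟨sub_mem x.1.2 y.1.2, ?_⟩
      have : (x.1 : V) - y.1 = y.2 - x.2 := by
        rw [sub_eq_sub_iff_add_eq_add, e, add_comm]
      rw [this]; exact sub_mem y.2.2 x.2.2
    rw [hdis g h hg hh hne, Submodule.mem_bot, sub_eq_zero] at hm
    rw [hm, add_right_inj] at e
    exact Prod.ext (Subtype.ext hm) (Subtype.ext e)
  have hsplit : ∀ g ∈ I, a g * a (g * z) = Nat.card V := by
    intro g hg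
    obtain ⟨h1, hgz, hgg⟩ := hIne g hg
    have hne1 := (hIne _ (hIz g hg)).1
    refine le_antisymm (hinj g (g * z) h1 hne1 (fun e => hz1 (mul_eq_left.1 e.symm))) ?_
    rw [← Nat.card_prod]
    refine Nat.card_le_card_of_surjective (fun x : fix ρ g × fix ρ (g * z) => (x.1 : V) + x.2) ?_
    intro v
    have hgv : ρ g (ρ g v) = v := by
      rw [← LinearEquiv.mul_apply, ← map_mul, hgg, map_one]; rfl
    let c : ZMod q := (2 : ZMod q)⁻¹
    refine ⟨(⟨c • (v + ρ g v), ?_⟩, ⟨c • (v - ρ g v), ?_⟩), ?_⟩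
    · rw [mem_fix, map_smul, map_add, hgv, add_comm]
    · rw [mem_fix, hzmul, map_smul, map_sub, hgv, ← smul_neg, neg_sub]
    · show c • (v + ρ g v) + c • (v - ρ g v) = v
      rw [← smul_add, add_add_sub_cancel, ← two_smul (ZMod q) v, smul_smul, inv_mul_cancel₀ h2,
        one_smul]
  have hex : ∀ g ∈ I, 1 < a g → 1 < a (g * z) →
      ∃ h ∈ I, h ≠ g ∧ h ≠ g * z := by
    intro g hg ha hb
    obtain ⟨h1, hgz, hgg⟩ := hIne g hg
    have : Nontrivial (fix ρ g) := Finite.one_lt_card_iff_nontrivial.1 ha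
    have : Nontrivial (fix ρ (g * z)) := Finite.one_lt_card_iff_nontrivial.1 hb
    obtain ⟨⟨v, hv⟩, hv0⟩ := exists_ne (0 : fix ρ g)
    obtain ⟨⟨w, hw⟩, hw0⟩ := exists_ne (0 : fix ρ (g * z))
    have hne1 := (hIne _ (hIz g hg)).1
    have hd := hdis g (g * z) h1 hne1 (fun e => hz1 (mul_eq_left.1 e.symm))
    have hwg : w ∉ fix ρ g := fun h => hw0 (Subtype.ext ((Submodule.eq_bot_iff _).1 hd w ⟨h, hw⟩))
    have hvg : v ∉ fix ρ (g * z) := fun h =>
      hv0 (Subtype.ext ((Submodule.eq_bot_iff _).1 hd v ⟨hv, h⟩))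
    have hvw : v + w ≠ 0 := fun h => hwg (by rw [eq_neg_of_add_eq_zero_right h]; exact neg_mem hv)
    obtain ⟨h, hh, eh⟩ := exists_fixer ρ hstab hvw
    refine ⟨h, hfixI h _ hh hvw eh, ?_, ?_⟩
    · rintro rfl; exact hwg ((Submodule.add_mem_iff_right _ hv).1 eh)
    · rintro rfl; exact hvg ((Submodule.add_mem_iff_left _ hw).1 eh)
  have hall : ∀ v : V, v ≠ 0 → ∃ g ∈ I, v ∈ fix ρ g := fun v hv => by
    obtain ⟨g, hg, e⟩ := exists_fixer ρ hstab hv
    exact ⟨g, hfixI g v hg hv e, e⟩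
  have hapos : ∀ g : G, 0 < a g := fun g => Nat.card_pos
  have hbig : ∀ g ∈ I, 1 < a g := by
    intro g hg
    by_contra hle
    have h1 : a g = 1 := le_antisymm (not_lt.1 hle) (hapos g)
    have h2' := hsplit g hg
    rw [h1, one_mul] at h2'
    have : fix ρ (g * z) = ⊤ := by
      rw [eq_top_iff]
      intro v _
      have hb : Function.Surjective (Subtype.val : fix ρ (g * z) → V) :=
        ((Nat.bijective_iff_injective_and_card _).2 ⟨Subtype.val_injective, h2'⟩).2
      obtain ⟨⟨u, hu⟩, rfl⟩ := hb v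
      exact hu
    obtain ⟨v, hv⟩ := exists_ne (0 : V)
    refine hg.2 ?_
    have e : g * z = 1 := hρ (by
      rw [map_one]; exact LinearEquiv.ext fun u => show u ∈ fix ρ (g * z) from this ▸ trivial)
    rw [eq_inv_of_mul_eq_one_left e]
    exact inv_mem hzc
  have hbal : ∀ g ∈ I, a g * a g = Nat.card V := by
    intro g hg
    have hg' := hIz g hg
    obtain ⟨h, hh, hne, hne'⟩ := hex g hg (hbig g hg) (hbig _ hg')
    have hh' := hIz h hh
    obtain ⟨h1, -, -⟩ := hIne g hg
    have hg1 := (hIne _ hg').1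
    have hh1 := (hIne h hh).1
    have hhz1 := (hIne _ hh').1
    have hne2 : h * z ≠ g := fun e => hne' (by rw [← e, mul_assoc, hzz, mul_one])
    have hne3 : h * z ≠ g * z := fun e => hne (mul_right_cancel e)
    have i1 := hinj g h h1 hh1 (Ne.symm hne)
    have i2 := hinj g (h * z) h1 hhz1 (Ne.symm hne2)
    have i3 := hinj (g * z) h hg1 hh1 (Ne.symm hne')
    have i4 := hinj (g * z) (h * z) hg1 hhz1 (Ne.symm hne3)
    have e1 := hsplit g hg
    have e2 := hsplit h hh
    have p1 := hapos g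
    have p2 := hapos (g * z)
    have p3 := hapos h
    have p4 := hapos (h * z)
    have k1 : a h ≤ a (g * z) := Nat.le_of_mul_le_mul_left (e1.symm ▸ i1) p1
    have k2 : a (h * z) ≤ a (g * z) := Nat.le_of_mul_le_mul_left (e1.symm ▸ i2) p1
    have k3 : a h ≤ a g := Nat.le_of_mul_le_mul_left ((mul_comm (a g) _ ▸ e1).symm ▸ i3) p2
    have k4 : a (h * z) ≤ a g := Nat.le_of_mul_le_mul_left ((mul_comm (a g) _ ▸ e1).symm ▸ i4) p2
    nlinarith [Nat.mul_le_mul k1 k2, Nat.mul_le_mul k3 k4]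
  obtain ⟨v₀, hv₀⟩ := exists_ne (0 : V)
  obtain ⟨g₀, hg₀, -⟩ := hall v₀ hv₀
  have : Fintype (fix ρ g₀) := Fintype.ofFinite _
  set r := Module.finrank (ZMod q) (fix ρ g₀) with hr
  have har : a g₀ = q ^ r := by
    show Nat.card (fix ρ g₀) = _
    rw [Module.natCard_eq_pow_finrank (K := ZMod q), Nat.card_zmod]
  have hV : Nat.card V = q ^ r * q ^ r := by rw [← har, hbal g₀ hg₀]
  have hsame : ∀ g ∈ I, a g = q ^ r := fun g hg =>
    Nat.mul_self_inj.1 ((hbal g hg).trans hV)
  refine ⟨r, by rw [hV, ← pow_add, two_mul], ?_⟩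
  -- count the pairs of a non-central involution and a non-zero fixed vector
  let F : (Σ g : I, {v : fix ρ g.1 // v ≠ 0}) → {v : V // v ≠ 0} := fun x =>
    ⟨x.2.1, fun e => x.2.2 (Subtype.ext e)⟩
  have hF : Function.Bijective F := by
    constructor
    · rintro ⟨⟨g, hg⟩, ⟨⟨v, hv⟩, hv0⟩⟩ ⟨⟨h, hh⟩, ⟨⟨w, hw⟩, hw0⟩⟩ e
      have e' : v = w := congrArg Subtype.val e
      subst e'
      obtain rfl := fixer_unique ρ hstab (fun e => hv0 (Subtype.ext e)) (hIne g hg).1
        (hIne h hh).1 hv hw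
      rfl
    · rintro ⟨v, hv⟩
      obtain ⟨g, hg, e⟩ := hall v hv
      exact ⟨⟨⟨g, hg⟩, ⟨⟨v, e⟩, fun e => hv (congrArg Subtype.val e)⟩⟩, rfl⟩
  have hne0 : ∀ (α : Type _) [Zero α] [Finite α], Nat.card {x : α // x ≠ 0} = Nat.card α - 1 := by
    intro α _ _
    show Nat.card ↥({0}ᶜ : Set α) = _
    rw [Nat.card_coe_set_eq, Set.ncard_compl, Set.ncard_singleton]
  have : Fintype I := Fintype.ofFinite _
  have hcount : Nat.card I * (q ^ r - 1) = q ^ r * q ^ r - 1 := by
    rw [← hV, ← hne0 V, ← Nat.card_congr (Equiv.ofBijective F hF), Nat.card_sigma,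
      Finset.sum_congr rfl (fun (g : I) _ => (hne0 (fix ρ g.1)).trans
        (congrArg (· - 1) (hsame g.1 g.2))), Finset.sum_const, Finset.card_univ,
      ← Nat.card_eq_fintype_card, smul_eq_mul]
  have hq : 1 < q ^ r := har ▸ hbig g₀ hg₀
  show Nat.card I = _
  obtain ⟨k, hk⟩ : ∃ k, q ^ r = k + 2 := ⟨q ^ r - 2, by omega⟩
  rw [hk] at hcount ⊢
  have : (k + 2) * (k + 2) - 1 = (k + 3) * (k + 1) := by
    zify [Nat.one_le_iff_ne_zero.2 (by positivity : (k + 2) * (k + 2) ≠ 0)]; ring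
  rw [this] at hcount
  rw [show k + 2 - 1 = k + 1 by omega] at hcount
  exact Nat.eq_of_mul_eq_mul_right (by omega) hcount

end Cfsg.Agent.S3381
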