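import Cfsg.Statements.S3382
import Cfsg.Agent.Perm57.MonomialAut

set_option autoImplicit false
open Cfsg

namespace Cfsg.Agent.S3382

/-- Let q = 2^m + 1 be a prime other than 5. Then the automorphism group of the group of linear maps of F_q² of the forms (x, y) ↦ (a x, ± a⁻¹ y) and (x, y) ↦ (± a⁻¹ y, a x) with a ≠ 0 is itself a 2-group. -/
theorem result (q m : ℕ) [Fact q.Prime] (hq : q = 2 ^ m + 1) (hq5 : q ≠ 5)
    (T : Subgroup ((Fin 2 → ZMod q) ≃ₗ[ZMod q] (Fin 2 → ZMod q)))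
    (hT : ∀ f, f ∈ T ↔ ∃ a s : ZMod q, a ≠ 0 ∧ (s = 1 ∨ s = -1) ∧
      ((∀ v, f v = ![a * v 0, s * a⁻¹ * v 1]) ∨ (∀ v, f v = ![s * a⁻¹ * v 1, a * v 0]))) :
    IsPGroup 2 (MulAut T) := by
  haveI : Finite ((Fin 2 → ZMod q) ≃ₗ[ZMod q] (Fin 2 → ZMod q)) :=
    Finite.of_injective (fun f => (f : (Fin 2 → ZMod q) → (Fin 2 → ZMod q))) DFunLike.coe_injective
  refine CfsgLib.MonomialAut.isPGroup_two_mulAut fun r _ σ hr hσ => ?_
  rcases (show m = 0 ∨ m = 1 ∨ m = 2 ∨ 3 ≤ m by omega) with rfl | rfl | rfl | hm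
  · obtain rfl : q = 2 := hq
    exact CfsgLib.MonomialAut.eq_one_of_two hT σ
  · obtain rfl : q = 3 := hq
    exact CfsgLib.MonomialAut.eq_one_of_three hT r σ hr hσ
  · exact absurd hq hq5
  · exact CfsgLib.MonomialAut.eq_one_of_large hq hm hT r σ hr hσ

end Cfsg.Agent.S3382
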