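import Cfsg.Statements.S3419
import Cfsg.Agent.Recog5.BigPrimes

set_option autoImplicit false
open Cfsg

namespace Cfsg.Agent.S3419

/-- Let n ≥ 5 and let G be a finite group with the same order and the same set of element orders as the alternating group of degree n. Then G is not solvable. -/
theorem result {G : Type*} [Group G] [Finite G] (n : ℕ) (hn : 5 ≤ n)
    (hcard : Nat.card G = Nat.card ↥(alternatingGroup (Fin n)))
    (hspec : Set.range (orderOf : G → ℕ) = Set.range (orderOf : ↥(alternatingGroup (Fin n)) → ℕ)) :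
    ¬ Group.IsSolvable G := by
  classical
  rcases lt_or_ge n 11 with hsmall | hbig
  · haveI : Nontrivial (Fin n) := Fin.nontrivial_iff_two_le.mpr (by omega)
    have hA : 2 * Nat.card ↥(alternatingGroup (Fin n)) = n.factorial := by
      rw [two_mul_nat_card_alternatingGroup, Nat.card_perm, Nat.card_fin]
    have hG : Nat.card G = n.factorial / 2 := by omega
    have aux : ∀ p q a : ℕ, p.Prime → q.Prime → p ≠ q → p ∣ n.factorial / 2 →
        q ∣ n.factorial / 2 → ¬ q * q ∣ n.factorial / 2 → ¬ p ^ (a + 1) ∣ n.factorial / 2 →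
        (∀ i, 1 ≤ i → i ≤ a → ¬ q ∣ p ^ i - 1) → ¬ p ∣ q - 1 → n < p + q →
        ¬ Group.IsSolvable G := by
      intro p q a hp hq hpq h1 h2 h3 h4 h5 h6 h7
      have hno : CfsgLib.Recog5.NoPairOrder G p q := by
        intro z hz
        obtain ⟨w, hw⟩ : p * q ∈ Set.range (orderOf : ↥(alternatingGroup (Fin n)) → ℕ) :=
          hspec ▸ ⟨z, hz⟩
        exact CfsgLib.Recog5.alternating_noPair hp hq hpq h7 w hw
      rw [← hG] at h1 h2 h3 h4
      exact CfsgLib.Recog5.not_isSolvable_of_linked hp hq hpq h1 h3
        (fun N hN => CfsgLib.Recog5.dvd_iff_of_noPair hp hq hpq h1 h2 h3 h4 h5 h6 hno N) hno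
    rcases Nat.lt_or_ge n 7 with h | h
    · interval_cases n
      · refine aux 3 5 1 (by norm_num) (by norm_num) (by norm_num) ?_ ?_ ?_ ?_ ?_ (by norm_num)
          (by norm_num) <;> decide +kernel +revert
      · refine aux 3 5 2 (by norm_num) (by norm_num) (by norm_num) ?_ ?_ ?_ ?_ ?_ (by norm_num)
          (by norm_num)
        · decide +kernel
        · decide +kernel
        · decide +kernel
        · decide +kernel
        · intro i h1 h2
          interval_cases i <;> norm_num
    · interval_cases n
      all_goals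
        refine aux 5 7 2 (by norm_num) (by norm_num) (by norm_num) ?_ ?_ ?_ ?_ ?_ (by norm_num)
          (by norm_num)
      all_goals first
        | decide +kernel
        | (intro i h1 h2; interval_cases i <;> norm_num)
  · obtain ⟨p, q, hp, hq, hpq, hpn, hqn⟩ := CfsgLib.Recog5.big_pair hbig
    have hsq : ¬ q * q ∣ Nat.card G := fun h =>
      CfsgLib.Recog5.not_sq_dvd_factorial hq n (by omega)
        ((hcard ▸ h).trans (CfsgLib.Recog5.card_dvd_factorial (by omega)))
    refine CfsgLib.Recog5.not_isSolvable_of_linked hp hq hpq.ne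
      (hcard ▸ CfsgLib.Recog5.dvd_card_of_le hp (by omega) (by omega)) hsq
      (fun N hN => CfsgLib.Recog5.linked_of_big (by omega) hcard hspec hp hq hpn (by omega)
        (by omega) hqn N) ?_
    intro z hz
    obtain ⟨w, hw⟩ : p * q ∈ Set.range (orderOf : ↥(alternatingGroup (Fin n)) → ℕ) :=
      hspec ▸ ⟨z, hz⟩
    exact CfsgLib.Recog5.alternating_noPair hp hq hpq.ne (by omega) w hw

end Cfsg.Agent.S3419
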