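import Cfsg.Statements.S3420
import Cfsg.Agent.Recog5.BigPrimes

set_option autoImplicit false
open Cfsg

namespace Cfsg.Agent.S3420

/-- Let n ≥ 11 and let G be a finite group with the same order and the same set of element orders as the alternating group of degree n. Then G has normal subgroups N < H such that H/N is a non-abelian simple group whose order is divisible by every prime p with n/2 < p ≤ n. -/
theorem result {G : Type*} [Group G] [Finite G] (n : ℕ) (hn : 11 ≤ n)
    (hcard : Nat.card G = Nat.card ↥(alternatingGroup (Fin n)))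
    (hspec : Set.range (orderOf : G → ℕ) = Set.range (orderOf : ↥(alternatingGroup (Fin n)) → ℕ)) :
    ∃ (N H : Subgroup G) (_ : N.Normal), H.Normal ∧ N < H ∧
      IsSimpleGroup (↥H ⧸ N.subgroupOf H) ∧ ¬ IsMulCommutative (↥H ⧸ N.subgroupOf H) ∧
      ∀ p : ℕ, p.Prime → n < 2 * p → p ≤ n → p ∣ Nat.card (↥H ⧸ N.subgroupOf H) := by
  classical
  obtain ⟨p, q, hp, hq, hpq, hpn, hqn⟩ := CfsgLib.Recog5.big_pair hn
  have hsq : ¬ p * p ∣ Nat.card G := fun h =>
    CfsgLib.Recog5.not_sq_dvd_factorial hp n (by omega)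
      ((hcard ▸ h).trans (CfsgLib.Recog5.card_dvd_factorial (by omega)))
  obtain ⟨N, H, hN, hH, hlt, hs, hdiv⟩ := CfsgLib.Recog5.exists_simple_factor hp
    (hcard ▸ CfsgLib.Recog5.dvd_card_of_le hp (by omega) (by omega)) hsq
    {r | r.Prime ∧ n < 2 * r ∧ r ≤ n} (fun r hr => hr.1) ⟨hp, hpn, by omega⟩
    (fun r hr N hN => CfsgLib.Recog5.linked_of_big (by omega) hcard hspec hp hr.1 hpn (by omega)
      hr.2.1 hr.2.2 N)
  refine ⟨N, H, hN, hH, hlt, hs, fun hc => ?_, fun r hr h1 h2 => hdiv r ⟨hr, h1, h2⟩⟩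
  haveI := hs
  letI : CommGroup (↥H ⧸ N.subgroupOf H) :=
    { (inferInstance : Group (↥H ⧸ N.subgroupOf H)) with mul_comm := hc.is_comm.comm }
  have hprime : (Nat.card (↥H ⧸ N.subgroupOf H)).Prime := IsSimpleGroup.prime_card
  have h1 := (Nat.prime_dvd_prime_iff_eq hp hprime).mp (hdiv p ⟨hp, hpn, by omega⟩)
  have h2 := (Nat.prime_dvd_prime_iff_eq hq hprime).mp (hdiv q ⟨hq, by omega, hqn⟩)
  omega

end Cfsg.Agent.S3420
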