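import Cfsg.Statements.S3430
import Cfsg.Agent.Zsigmondy.Main

set_option autoImplicit false
open Cfsg

namespace Cfsg.Agent.S3430

/-- Let q, n ≥ 2 be integers. Unless (n = 2 and q + 1 = 2^s·3^t for some s ≥ 0 and t ≤ 1), or (q = 2 and n ∈ {4, 6, 10, 12, 18}), or (q = 3 and n ∈ {4, 6}), or (q, n) = (5, 6), there is a prime p dividing q^n − 1 but no q^i − 1 with 1 ≤ i < n (a primitive prime divisor), such that p > n + 1 or p² divides q^n − 1. -/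
theorem result (q n : ℕ) (hq : 2 ≤ q) (hn : 2 ≤ n)
    (h1 : ¬ (n = 2 ∧ ∃ s t : ℕ, t ≤ 1 ∧ q + 1 = 2 ^ s * 3 ^ t))
    (h2 : ¬ (q = 2 ∧ (n = 4 ∨ n = 6 ∨ n = 10 ∨ n = 12 ∨ n = 18)))
    (h3 : ¬ (q = 3 ∧ (n = 4 ∨ n = 6))) (h4 : ¬ (q = 5 ∧ n = 6)) :
    ∃ p : ℕ, p.Prime ∧ p ∣ q ^ n - 1 ∧ (∀ i : ℕ, 1 ≤ i → i < n → ¬ p ∣ q ^ i - 1) ∧ (n + 1 < p ∨ p ^ 2 ∣ q ^ n - 1) := by
  rcases Nat.lt_or_ge n 3 with h | h
  · obtain rfl : n = 2 := by omega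
    by_contra hc
    push Not at hc
    apply h1
    refine ⟨rfl, ?_⟩
    have hsq : q ^ 2 - 1 = (q + 1) * (q - 1) := by rw [← Nat.sq_sub_sq, one_pow]
    have hkey : ∀ p, p.Prime → p ≠ 2 → p ∣ q + 1 → p = 3 ∧ ¬ 3 ^ 2 ∣ q + 1 := by
      intro p hp hp2 hd
      obtain ⟨-, hdv, hprim⟩ := CfsgLib.Zsigmondy.isPPD_two_of_dvd_add_one hp hp2 (by omega) hd
      obtain ⟨hle, hsqn⟩ := hc p hp hdv (fun i hi => hprim i hi)
      have hp3 : p = 3 := by have := hp.two_le; omega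
      subst hp3
      exact ⟨rfl, fun hd3 => hsqn (hsq ▸ hd3.mul_right _)⟩
    obtain ⟨s, m, hm, hsm⟩ := Nat.exists_eq_pow_mul_and_not_dvd (show q + 1 ≠ 0 by omega) 2 (by norm_num)
    refine ⟨s, m.primeFactorsList.length, ?_, ?_⟩
    · by_contra hl
      have hm0 : m ≠ 0 := fun h0 => hm (h0 ▸ dvd_zero 2)
      have hpow := Nat.eq_prime_pow_of_unique_prime_dvd hm0 (p := 3) (fun {d} hd hdd =>
        (hkey d hd (fun h2d => hm (h2d ▸ hdd)) (hsm ▸ hdd.mul_left _)).1)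
      have h9 : 3 ^ 2 ∣ m := (pow_dvd_pow 3 (by omega : 2 ≤ m.primeFactorsList.length)).trans hpow.symm.dvd
      exact (hkey 3 Nat.prime_three (by norm_num)
        (hsm ▸ ((dvd_pow_self 3 two_ne_zero).trans h9).mul_left _)).2 (hsm ▸ h9.mul_left _)
    · have hm0 : m ≠ 0 := fun h0 => hm (h0 ▸ dvd_zero 2)
      have hpow := Nat.eq_prime_pow_of_unique_prime_dvd hm0 (p := 3) (fun {d} hd hdd =>
        (hkey d hd (fun h2d => hm (h2d ▸ hdd)) (hsm ▸ hdd.mul_left _)).1)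
      rw [← hpow]
      exact hsm
  · obtain ⟨r, ⟨hr, hdv, hprim⟩, hlarge⟩ := CfsgLib.Zsigmondy.exists_large_isPPD hq h h2 h3 h4
    exact ⟨r, hr, hdv, fun i hi => hprim i hi, hlarge⟩

end Cfsg.Agent.S3430
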