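import Cfsg.Statements.S3431
import Cfsg.Agent.SameOrder.Recognize
import Cfsg.Agent.S0497

set_option autoImplicit false
open Cfsg CfsgLib.SameOrder

namespace Cfsg.Agent.S3431

/-- Let n be 4, 5 or 6 and let G be a finite group whose set of sizes of same-order classes (the set of numbers #{g : o(g) = m} over the element orders m of G) equals that of the alternating group of degree n. Then G is isomorphic to that alternating group. -/
theorem result {G : Type*} [Group G] [Finite G] (n : ℕ) (hn : n = 4 ∨ n = 5 ∨ n = 6)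
    (h : ((fun m : ℕ => Nat.card {g : G // orderOf g = m}) '' Set.range (orderOf : G → ℕ)) = ((fun m : ℕ => Nat.card {g : ↥(alternatingGroup (Fin n)) // orderOf g = m}) '' Set.range (orderOf : ↥(alternatingGroup (Fin n)) → ℕ))) :
    Nonempty (G ≃* ↥(alternatingGroup (Fin n))) := by
  rcases hn with rfl | rfl | rfl
  · obtain ⟨hc, hv⟩ := counts_eq checked_four (h.trans image_four)
    have hc : Nat.card G = 12 := hc.symm.trans (by decide)
    refine equiv_four hc ?_
    haveI : Fact (Nat.Prime 3) := ⟨Nat.prime_three⟩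
    obtain ⟨g, hg⟩ := exists_prime_orderOf_dvd_card' 3 (show 3 ∣ Nat.card G by rw [hc]; norm_num)
    obtain ⟨x, hx, hx1, hx2⟩ := hv 3 (ocount_ne_zero_iff.2 ⟨g, hg⟩)
    fin_cases hx <;> simp_all
  · obtain ⟨hc, hv⟩ := counts_eq checked_five (h.trans image_five)
    have hc : Nat.card G = 60 := hc.symm.trans (by decide)
    refine CfsgLib.Dickson.nonempty_mulEquiv_alternatingGroup_five hc fun h1 => ?_
    haveI : Fact (Nat.Prime 5) := ⟨Nat.prime_five⟩
    obtain ⟨g, hg⟩ := exists_prime_orderOf_dvd_card' 5 (show 5 ∣ Nat.card G by rw [hc]; norm_num)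
    obtain ⟨x, hx, hx1, hx2⟩ := hv 5 (ocount_ne_zero_iff.2 ⟨g, hg⟩)
    have h24 : ocount G 5 = 24 := by fin_cases hx <;> simp_all
    obtain ⟨P⟩ := (inferInstance : Nonempty (Sylow 5 G))
    have hle := ocount_le_sylow h1 P
    rw [h24, card_sylow_eq (m := 12) hc (by norm_num) P] at hle
    omega
  · obtain ⟨hc, hv⟩ := counts_eq checked_six (h.trans image_six)
    have hc : Nat.card G = 360 := hc.symm.trans (by decide)
    have hp : ∀ p, p.Prime → p ∣ 360 → ocount G p ≠ 0 := fun p hp hd => by
      haveI : Fact p.Prime := ⟨hp⟩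
      exact ocount_ne_zero_iff.2 (exists_prime_orderOf_dvd_card' p (hc ▸ hd))
    have h3 : ocount G 3 = 80 := by
      obtain ⟨x, hx, hx1, hx2⟩ := hv 3 (hp 3 Nat.prime_three (by norm_num))
      fin_cases hx <;> simp_all
    have h5 : ocount G 5 = 144 := by
      obtain ⟨x, hx, hx1, hx2⟩ := hv 5 (hp 5 Nat.prime_five (by norm_num))
      fin_cases hx <;> simp_all
    haveI : IsSimpleGroup G := simple_six hc h3 h5 fun g => by
      obtain ⟨x, hx, hx1, -⟩ := hv (orderOf g) (ocount_ne_zero_iff.2 ⟨g, rfl⟩)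
      rw [← hx1]
      fin_cases hx <;> norm_num
    exact Cfsg.Agent.S0497.result hc

end Cfsg.Agent.S3431
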