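import Cfsg.Statements.S3733
-- import your own Cfsg.Agent.* helpers here

set_option autoImplicit false
open Cfsg

namespace Cfsg.Agent.S3733

/-- Let A and V be subgroups of a finite group with V abelian and nontrivial and A normalizing V. Suppose a nonempty finite family of proper subgroups of A partitions A: every non-identity element of A lies in exactly one member. If the number of members minus one is coprime to the order of V, then some member B of the family has a non-identity fixed point on V, that is V ∩ C(B) ≠ 1. -/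
theorem result {G : Type*} [Group G] [Finite G] (A V : Subgroup G) (hVab : IsMulCommutative V) (hV : V ≠ ⊥) (hAV : A ≤ Subgroup.normalizer (V : Set G)) (𝒜 : Finset (Subgroup G)) (hne : 𝒜.Nonempty) (hprop : ∀ B ∈ 𝒜, B < A) (hpart : ∀ a ∈ A, a ≠ 1 → ∃! B, B ∈ 𝒜 ∧ a ∈ B) (hk : (𝒜.card - 1).Coprime (Nat.card V)) : ∃ B ∈ 𝒜, V ⊓ Subgroup.centralizer (B : Set G) ≠ ⊥ := by
  classical
  by_contra hcon
  push_neg at hcon
  have : Fintype G := Fintype.ofFinite G
  letI : CommGroup V := { (inferInstance : Group V) with mul_comm := hVab.1.comm }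
  obtain ⟨v, hv⟩ : ∃ v : V, v ≠ 1 := by
    rw [Subgroup.ne_bot_iff_exists_ne_one] at hV
    exact hV
  let c : G → V := fun a => if h : a ∈ Subgroup.normalizer (V : Set G) then
    ⟨a * (v : G) * a⁻¹, (Subgroup.mem_normalizer_iff.mp h _).mp v.2⟩ else 1
  let N : Subgroup G → V := fun B => ∏ a ∈ (Finset.univ.filter (fun a : G => a ∈ B)), c a
  have hfix : ∀ B : Subgroup G, B ≤ A → ∀ b ∈ B, b * (N B : G) = (N B : G) * b := by
    intro B hBA b hb
    have hbN := hAV (hBA hb)
    let ψ : V →* V :=
      { toFun := fun w => ⟨b * (w : G) * b⁻¹, (Subgroup.mem_normalizer_iff.mp hbN _).mp w.2⟩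
        map_one' := by ext; simp
        map_mul' := fun w₁ w₂ => by ext; simp [mul_assoc] }
    have hψ : ψ (N B) = N B := by
      simp only [N, map_prod]
      refine Finset.prod_bij (fun a _ => b * a) ?_ ?_ ?_ ?_
      · intro a ha
        simp only [Finset.mem_filter, Finset.mem_univ, true_and] at ha ⊢
        exact mul_mem hb ha
      · intro a₁ _ a₂ _ h
        exact mul_left_cancel h
      · intro a ha
        simp only [Finset.mem_filter, Finset.mem_univ, true_and] at ha
        exact ⟨b⁻¹ * a, by simpa using mul_mem (inv_mem hb) ha, by simp⟩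
      · intro a ha
        simp only [Finset.mem_filter, Finset.mem_univ, true_and] at ha
        have h1 : a ∈ Subgroup.normalizer (V : Set G) := hAV (hBA ha)
        have h2 : b * a ∈ Subgroup.normalizer (V : Set G) := mul_mem hbN h1
        ext
        simp [ψ, c, h1, h2, mul_assoc]
    have := congrArg (Subtype.val) hψ
    simp only [ψ, MonoidHom.coe_mk, OneHom.coe_mk] at this
    exact mul_inv_eq_iff_eq_mul.mp this
  have hN1 : ∀ B : Subgroup G, B ≤ A → ∀ C ∈ 𝒜, C ≤ B → N B = 1 := by
    intro B hBA C hC hCB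
    have : (N B : G) ∈ V ⊓ Subgroup.centralizer (C : Set G) :=
      Subgroup.mem_inf.mpr ⟨(N B).2, Subgroup.mem_centralizer_iff.mpr fun b hb => hfix B hBA b (hCB hb)⟩
    rw [hcon C hC, Subgroup.mem_bot] at this
    exact Subtype.ext this
  have hc1 : c 1 = v := by simp [c, one_mem]
  let S : Subgroup G → Finset G := fun B => (Finset.univ.filter (fun a : G => a ∈ B)).erase 1
  have hS : ∀ B : Subgroup G, v * ∏ a ∈ S B, c a = N B := by
    intro B
    have h := Finset.mul_prod_erase (Finset.univ.filter (fun a : G => a ∈ B)) c (a := 1) (by simp [one_mem])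
    rwa [hc1] at h
  have hdisj : (𝒜 : Set (Subgroup G)).PairwiseDisjoint S := by
    intro B hB C hC hBC
    simp only [Function.onFun, Finset.disjoint_left]
    intro a haB haC
    simp only [S, Finset.mem_erase, Finset.mem_filter, Finset.mem_univ, true_and] at haB haC
    exact hBC ((hpart a ((hprop B hB).le haB.2) haB.1).unique ⟨hB, haB.2⟩ ⟨hC, haC.2⟩)
  have hunion : 𝒜.biUnion S = S A := by
    ext a
    simp only [S, Finset.mem_biUnion, Finset.mem_erase, Finset.mem_filter, Finset.mem_univ, true_and]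
    constructor
    · rintro ⟨B, hB, h1, h2⟩
      exact ⟨h1, (hprop B hB).le h2⟩
    · rintro ⟨h1, h2⟩
      obtain ⟨B, ⟨hB, ha⟩, -⟩ := hpart a h2 h1
      exact ⟨B, hB, h1, ha⟩
  obtain ⟨B₀, hB₀⟩ := hne
  have hA : ∏ a ∈ S A, c a = v⁻¹ := by
    apply eq_inv_of_mul_eq_one_right
    rw [hS, hN1 A le_rfl B₀ hB₀ (hprop B₀ hB₀).le]
  have hB : ∀ B ∈ 𝒜, ∏ a ∈ S B, c a = v⁻¹ := by
    intro B hB
    apply eq_inv_of_mul_eq_one_right
    rw [hS, hN1 B (hprop B hB).le B hB le_rfl]
  rw [← hunion, Finset.prod_biUnion hdisj, Finset.prod_congr rfl hB, Finset.prod_const] at hA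
  have hpow : v ^ (𝒜.card - 1) = 1 := by
    have hc : 1 ≤ 𝒜.card := Finset.card_pos.mpr ⟨B₀, hB₀⟩
    rw [inv_pow, inv_inj] at hA
    conv at hA => lhs; rw [← Nat.sub_add_cancel hc, pow_succ]
    exact mul_eq_right.mp hA
  apply hv
  rw [← orderOf_eq_one_iff]
  exact Nat.eq_one_of_dvd_coprimes hk (orderOf_dvd_of_pow_eq_one hpow) (orderOf_dvd_natCard v)

end Cfsg.Agent.S3733
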