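import Cfsg.Statements.S3735
-- import your own Cfsg.Agent.* helpers here

set_option autoImplicit false
open Cfsg

namespace Cfsg.Agent.S3735

theorem le_normalizer_inf {G : Type*} [Group G] {A X Y : Subgroup G}
    (hX : A ≤ Subgroup.normalizer (X : Set G)) (hY : A ≤ Subgroup.normalizer (Y : Set G)) :
    A ≤ Subgroup.normalizer ((X ⊓ Y : Subgroup G) : Set G) :=
  (le_inf hX hY).trans Subgroup.inf_normalizer_le_normalizer_inf

theorem le_normalizer_sup {G : Type*} [Group G] {A X Y : Subgroup G}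
    (hX : A ≤ Subgroup.normalizer (X : Set G)) (hY : A ≤ Subgroup.normalizer (Y : Set G)) :
    A ≤ Subgroup.normalizer ((X ⊔ Y : Subgroup G) : Set G) :=
  (le_inf hX hY).trans (Subgroup.normalizer_inf_normalizer_le_normalizer_sup X Y)

/-- Clifford's Theorem for actions on finite abelian groups, first part. Let H and V be subgroups of a finite group with V abelian and H normalizing V, and let A be a normal subgroup of H. If every H-invariant subgroup of V has an H-invariant complement in V, then every A-invariant subgroup of V has an A-invariant complement in V. -/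
theorem result {G : Type*} [Group G] [Finite G] (H A V : Subgroup G) (hVab : IsMulCommutative V) (hHV : H ≤ Subgroup.normalizer (V : Set G)) (hAH : A ≤ H) (hAn : H ≤ Subgroup.normalizer (A : Set G)) (hss : ∀ U : Subgroup G, U ≤ V → H ≤ Subgroup.normalizer (U : Set G) → ∃ W : Subgroup G, W ≤ V ∧ H ≤ Subgroup.normalizer (W : Set G) ∧ U ⊓ W = ⊥ ∧ U ⊔ W = V) (U : Subgroup G) (hUV : U ≤ V) (hAU : A ≤ Subgroup.normalizer (U : Set G)) : ∃ W : Subgroup G, W ≤ V ∧ A ≤ Subgroup.normalizer (W : Set G) ∧ U ⊓ W = ⊥ ∧ U ⊔ W = V := by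
  classical
  let P : Subgroup G → Prop := fun T => T ≤ V ∧ T ≠ ⊥ ∧ A ≤ Subgroup.normalizer (T : Set G)
  let atoms : Set (Subgroup G) := {T | P T ∧ ∀ T', P T' → T' ≤ T → T' = T}
  have hex : ∀ X, P X → ∃ T ∈ atoms, T ≤ X := by
    intro X
    refine wellFounded_lt.induction (C := fun X => P X → ∃ T ∈ atoms, T ≤ X) X ?_
    intro X ih hX
    by_cases hmin : ∀ T', P T' → T' ≤ X → T' = X
    · exact ⟨X, ⟨hX, hmin⟩, le_rfl⟩
    · push Not at hmin
      obtain ⟨T', hT', hle, hne⟩ := hmin
      obtain ⟨T, hT, hTle⟩ := ih T' (lt_of_le_of_ne hle hne) hT'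
      exact ⟨T, hT, hTle.trans hle⟩
  have hbot : ∀ X : Subgroup G, ∀ T ∈ atoms, A ≤ Subgroup.normalizer (X : Set G) → ¬ T ≤ X →
      T ⊓ X = ⊥ := by
    intro X T hT hAX hTX
    by_contra hne
    exact hTX (inf_eq_left.mp (hT.2 _ ⟨inf_le_left.trans hT.1.1, hne, le_normalizer_inf hT.1.2.2 hAX⟩ inf_le_left))
  -- conjugation by `H` permutes the atoms
  have hPconj : ∀ h ∈ H, ∀ T, P T → P (T.map (MulAut.conj h : G →* G)) := by
    intro h hh T hT
    refine ⟨?_, ?_, ?_⟩
    · rw [← Subgroup.mem_normalizer_iff_map_conj_eq.mp (hHV hh)]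
      exact Subgroup.map_mono hT.1
    · rw [Ne, Subgroup.map_eq_bot_iff_of_injective _ (MulEquiv.injective _)]
      exact hT.2.1
    · intro a ha
      have ha' : h⁻¹ * a * h ∈ A := by
        have := (Subgroup.mem_normalizer_iff.mp (inv_mem (hAn hh)) a).mp ha
        simpa using this
      have hnorm := Subgroup.mem_normalizer_iff_map_conj_eq.mp (hT.2.2 ha')
      rw [Subgroup.mem_normalizer_iff_map_conj_eq, Subgroup.map_map]
      conv_rhs => rw [← hnorm, Subgroup.map_map]
      congr 1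
      ext x
      simp [mul_assoc]
  let S : Subgroup G := sSup atoms
  have hSV : S ≤ V := sSup_le fun T hT => hT.1.1
  have hHS : H ≤ Subgroup.normalizer (S : Set G) := by
    have key : ∀ h ∈ H, S.map (MulAut.conj h : G →* G) ≤ S := by
      intro h hh
      rw [Subgroup.map_le_iff_le_comap]
      refine sSup_le fun T hT => ?_
      rw [← Subgroup.map_le_iff_le_comap]
      refine le_sSup ⟨hPconj h hh T hT.1, fun T' hT' hle => ?_⟩
      have h2 := hT.2 _ (hPconj h⁻¹ (inv_mem hh) T' hT') (by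
        refine (Subgroup.map_mono hle).trans ?_
        rw [Subgroup.map_map]
        refine le_of_eq ?_
        convert Subgroup.map_id T
        ext x
        simp [mul_assoc])
      rw [← h2, Subgroup.map_map]
      conv_lhs => rw [← Subgroup.map_id T']
      congr 1
      ext x
      simp [mul_assoc]
    intro h hh
    refine Subgroup.mem_normalizer_iff.mpr fun x => ⟨fun hx => key h hh ⟨x, hx, rfl⟩, fun hx => ?_⟩
    simpa [mul_assoc] using key h⁻¹ (inv_mem hh) ⟨_, hx, rfl⟩
  have hS : S = V := by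
    obtain ⟨W, hWV, hHW, hdisj, hsup⟩ := hss S hSV hHS
    rcases eq_or_ne W ⊥ with hW | hW
    · rwa [hW, sup_bot_eq] at hsup
    · exfalso
      obtain ⟨T, hT, hTW⟩ := hex W ⟨hWV, hW, hAH.trans hHW⟩
      have : T ≤ S ⊓ W := le_inf (le_sSup hT) hTW
      rw [hdisj, le_bot_iff] at this
      exact hT.1.2.1 this
  let Q : Set (Subgroup G) := {W | W ≤ V ∧ A ≤ Subgroup.normalizer (W : Set G) ∧ U ⊓ W = ⊥}
  have hQne : Q.Nonempty := ⟨⊥, bot_le, fun a _ => Subgroup.mem_normalizer_iff.mpr fun x => by simp, by simp⟩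
  obtain ⟨W, hWmax⟩ := Q.toFinite.exists_maximal hQne
  obtain ⟨hWV, hAW, hUW⟩ := hWmax.prop
  refine ⟨W, hWV, hAW, hUW, le_antisymm (sup_le hUV hWV) ?_⟩
  rw [← hS]
  refine sSup_le fun T hT => ?_
  by_contra hTX
  have hd := hbot (U ⊔ W) T hT (le_normalizer_sup hAU hAW) hTX
  have hWT : W ⊔ T ∈ Q := by
    refine ⟨sup_le hWV hT.1.1, le_normalizer_sup hAW hT.1.2.2, ?_⟩
    have hc : W ≤ Subgroup.normalizer (T : Set G) := by
      intro w hw
      refine Subgroup.mem_normalizer_iff.mpr fun t => ?_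
      constructor
      · intro ht
        rwa [Subgroup.mul_comm_of_mem_isMulCommutative V (hWV hw) (hT.1.1 ht), mul_inv_cancel_right]
      · intro ht
        have htV : t ∈ V := by
          simpa [mul_assoc] using mul_mem (mul_mem (inv_mem (hWV hw)) (hT.1.1 ht)) (hWV hw)
        rwa [Subgroup.mul_comm_of_mem_isMulCommutative V (hWV hw) htV, mul_inv_cancel_right] at ht
    rw [eq_bot_iff]
    intro x hx
    obtain ⟨hxU, hxWT⟩ := Subgroup.mem_inf.mp hx
    rw [← SetLike.mem_coe, Subgroup.coe_mul_of_left_le_normalizer_right W T hc] at hxWT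
    obtain ⟨w, hw, t, ht, rfl⟩ := hxWT
    have ht' : t ∈ T ⊓ (U ⊔ W) := Subgroup.mem_inf.mpr ⟨ht, by
      simpa using mul_mem (inv_mem (Subgroup.mem_sup_right (S := U) hw)) (Subgroup.mem_sup_left (T := W) hxU)⟩
    rw [hd, Subgroup.mem_bot] at ht'
    subst ht'
    rw [← hUW]
    simpa using Subgroup.mem_inf.mpr ⟨by simpa using hxU, hw⟩
  have : W = W ⊔ T := le_antisymm le_sup_left (hWmax.le_of_ge hWT le_sup_left)
  exact hTX (le_trans (this ▸ le_sup_right) le_sup_right)

end Cfsg.Agent.S3735
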