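import Cfsg.Statements.S3737
import Cfsg.Agent.Coprime.Minimal
import Cfsg.Agent.Coprime.Baer

set_option autoImplicit false
open Cfsg CfsgLib.Coprime
open scoped commutatorElement

namespace Cfsg.Agent.S3737

/-- Thompson's strengthening of the P × Q lemma for odd primes. Let p be an odd prime and let P, Q and G be subgroups of a finite group with P a p-group, Q of order prime to p and normalized by P, and G a p-group normalized by both P and Q. If every element of G centralized by P is centralized by Q, then Q centralizes G. -/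
theorem result {X : Type*} [Group X] [Finite X] {p : ℕ} [Fact p.Prime] (hp : p ≠ 2) (P Q G : Subgroup X) (hP : IsPGroup p P) (hQ : (Nat.card Q).Coprime p) (hPQ : P ≤ Subgroup.normalizer (Q : Set X)) (hG : IsPGroup p G) (hPG : P ≤ Subgroup.normalizer (G : Set X)) (hQG : Q ≤ Subgroup.normalizer (G : Set X)) (hC : G ⊓ Subgroup.centralizer (P : Set X) ≤ Subgroup.centralizer (Q : Set X)) : Q ≤ Subgroup.centralizer (G : Set X) := by
  classical
  have hprime : p.Prime := Fact.out
  rw [← Subgroup.commutator_eq_bot_iff_le_centralizer, Subgroup.commutator_comm]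
  by_contra hnt
  set B := P ⊔ Q with hB
  have hBG : B ≤ Subgroup.normalizer (G : Set X) := sup_le hPG hQG
  have hBQ : B ≤ Subgroup.normalizer (Q : Set X) := sup_le hPQ Subgroup.le_normalizer
  obtain ⟨U, hUG, hBU, hUnt, hmin⟩ := exists_minimal (A := Q) hBG hnt
  have hUp : IsPGroup p U := hG.to_le hUG
  have hPU : P ≤ Subgroup.normalizer (U : Set X) := le_sup_left.trans hBU
  have hQU : Q ≤ Subgroup.normalizer (U : Set X) := le_sup_right.trans hBU
  have hQB : Q ≤ B := le_sup_right
  obtain ⟨hFeq, hCeq⟩ := minimal_inf_centralizer_eq hUp hBU hQB hBQ hQ hUnt hmin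
  have hcen := minimal_frattini_central hUp hBU hQB hBQ hQ hUnt hmin
  rw [hFeq] at hcen
  have hexp := minimal_pow_eq_one hUp hBU hQB hBQ hQ hUnt hmin hp
  have hcomm : ∀ a b : U, ((⁅a, b⁆ : U) : X) ∈ ⁅U, U⁆ := fun a b =>
    Subgroup.commutator_mem_commutator a.2 b.2
  have hbaer : BaerCondition p U := ⟨hprime.odd_of_ne_two hp, fun a b =>
    ⟨fun c => Subtype.ext (Subgroup.mem_centralizer_iff.mp
      (Subgroup.mem_inf.mp (hcen (hcomm a b))).1 c c.2).symm, Subtype.ext (by
        rw [Subgroup.coe_pow]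
        exact hexp _ (⁅a, b⁆ : U).2)⟩⟩
  letI := baerCommGroup hbaer
  -- conjugation by the elements of `B`
  let conjU : B → U ≃* U := fun b =>
    { toFun := fun g => ⟨b * g * (b : X)⁻¹, conj_mem_of_le_normalizer hBU b.2 g.2⟩
      invFun := fun g => ⟨(b : X)⁻¹ * g * b, conj_mem_of_le_normalizer' hBU b.2 g.2⟩
      left_inv := fun g => by ext; simp [mul_assoc]
      right_inv := fun g => by ext; simp [mul_assoc]
      map_mul' := fun g g' => by ext; simp [mul_assoc] }
  let σ : B → Baer U ≃* Baer U := fun b => baerCongr hbaer (conjU b)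
  have hσ : ∀ (b : B) (x : U), σ b (toBaer U x) = toBaer U (conjU b x) := fun b x => rfl
  have : Fintype Q := Fintype.ofFinite _
  let qB : Q → B := fun q => ⟨q, hQB q.2⟩
  let N : Baer U →* Baer U := ∏ q : Q, (σ (qB q)).toMonoidHom
  have hσmul : ∀ (b c : B) (z : Baer U), σ b (σ c z) = σ (b * c) z := by
    intro b c z
    obtain ⟨x, rfl⟩ := (toBaer U).surjective z
    rw [hσ, hσ, hσ]
    congr 1
    apply Subtype.ext
    simp [conjU, mul_assoc]
  have hNq : ∀ (q : Q) (z : Baer U), σ (qB q) (N z) = N z := by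
    intro q z
    simp only [N, MonoidHom.finsetProd_apply, map_prod, MulEquiv.coe_toMonoidHom, hσmul]
    exact Fintype.prod_equiv (Equiv.mulLeft q) _ _ (fun r => rfl)
  have hNP : ∀ (u : P) (z : Baer U),
      σ ⟨u, Subgroup.mem_sup_left u.2⟩ (N z) = N (σ ⟨u, Subgroup.mem_sup_left u.2⟩ z) := by
    intro u z
    simp only [N, MonoidHom.finsetProd_apply, map_prod, MulEquiv.coe_toMonoidHom, hσmul]
    refine Fintype.prod_equiv
      { toFun := fun q => ⟨u * q * (u : X)⁻¹, conj_mem_of_le_normalizer hPQ u.2 q.2⟩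
        invFun := fun q => ⟨(u : X)⁻¹ * q * u, conj_mem_of_le_normalizer' hPQ u.2 q.2⟩
        left_inv := fun q => by ext; simp [mul_assoc]
        right_inv := fun q => by ext; simp [mul_assoc] } _ _ (fun r => ?_)
    congr 2
    apply Subtype.ext
    simp [qB, mul_assoc]
  have hfix : ∀ x : U, (∀ q : Q, σ (qB q) (toBaer U x) = toBaer U x) → (x : X) ∈ ⁅U, U⁆ := by
    intro x hx
    rw [← hCeq]
    refine Subgroup.mem_inf.mpr ⟨x.2, Subgroup.mem_centralizer_iff.mpr fun q hq => ?_⟩
    have := congrArg Subtype.val ((toBaer U).injective ((hσ _ x).symm.trans (hx ⟨q, hq⟩)))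
    exact mul_inv_eq_iff_eq_mul.mp this
  obtain ⟨m, hm⟩ := exists_mul_modEq_one (coprime_card_of_isPGroup hUp hQ)
  -- the equivariant projection
  let π : Baer U →* Baer U := MonoidHom.mk' (fun z => z * ((N z) ^ m)⁻¹) (fun y z => by
    rw [map_mul, mul_pow, mul_inv, mul_mul_mul_comm])
  have hpiC : ∀ x : U, (x : X) ∈ ⁅U, U⁆ → π (toBaer U x) = 1 := by
    intro x hx
    have hN : N (toBaer U x) = toBaer U x ^ Nat.card Q := by
      simp only [N, MonoidHom.finsetProd_apply, MulEquiv.coe_toMonoidHom]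
      rw [Nat.card_eq_fintype_card, ← Finset.card_univ, ← Finset.prod_const]
      refine Finset.prod_congr rfl fun q _ => ?_
      rw [hσ]
      congr 1
      apply Subtype.ext
      have := Subgroup.mem_centralizer_iff.mp (Subgroup.mem_inf.mp (hcen hx)).2 q q.2
      show (q : X) * x * (q : X)⁻¹ = x
      rw [this, mul_inv_cancel_right]
    show toBaer U x * ((N (toBaer U x)) ^ m)⁻¹ = 1
    have hd : orderOf (toBaer U x) ∣ Nat.card U :=
      (orderOf_dvd_natCard _).trans (Nat.card_congr (toBaer U).symm).dvd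
    rw [hN, ← pow_mul, mul_comm (Nat.card Q), pow_eq_pow_iff_modEq.mpr (hm.of_dvd hd), pow_one,
      mul_inv_cancel]
  let W := π.range
  have hWP : ∀ (u : P) (z : Baer U), σ ⟨u, Subgroup.mem_sup_left u.2⟩ (π z) =
      π (σ ⟨u, Subgroup.mem_sup_left u.2⟩ z) := by
    intro u z
    show σ _ (z * ((N z) ^ m)⁻¹) = _
    rw [map_mul, map_inv, map_pow, hNP]
    rfl
  -- a `p`-group acts on `W`, which is nontrivial
  letI : MulAction P W :=
    { smul := fun u w => ⟨σ ⟨u, Subgroup.mem_sup_left u.2⟩ w.1, by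
        obtain ⟨z, hz⟩ := w.2
        exact ⟨σ ⟨u, Subgroup.mem_sup_left u.2⟩ z, by rw [← hWP, hz]⟩⟩
      one_smul := fun w => by
        apply Subtype.ext
        obtain ⟨x, hx⟩ := (toBaer U).surjective w.1
        show σ _ w.1 = w.1
        rw [← hx, hσ]
        congr 1
        apply Subtype.ext
        simp [conjU]
      mul_smul := fun u v w => by
        apply Subtype.ext
        show σ _ w.1 = σ _ (σ _ w.1)
        rw [hσmul]
        rfl }
  have hW : p ∣ Nat.card W := by
    have hd : Nat.card W ∣ Nat.card U :=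
      (Subgroup.card_subgroup_dvd_card W).trans (Nat.card_congr (toBaer U).symm).dvd
    obtain ⟨n, hn⟩ := IsPGroup.iff_card.mp hUp
    rw [hn] at hd
    obtain ⟨j, -, hj⟩ := (Nat.dvd_prime_pow hprime).mp hd
    rcases j with _ | j
    · exfalso
      rw [pow_zero, Subgroup.card_eq_one] at hj
      -- then every element of `U` is fixed by `Q`
      apply hUnt
      rw [Subgroup.commutator_eq_bot_iff_le_centralizer]
      intro x hx
      have hz : toBaer U ⟨x, hx⟩ * ((N (toBaer U ⟨x, hx⟩)) ^ m)⁻¹ = 1 := by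
        have : π (toBaer U ⟨x, hx⟩) ∈ W := ⟨_, rfl⟩
        rwa [hj, Subgroup.mem_bot] at this
      rw [mul_inv_eq_one] at hz
      have := hfix ⟨x, hx⟩ (fun q => by rw [hz, map_pow, hNq])
      exact (Subgroup.mem_inf.mp (hCeq.ge this)).2
    · rw [hj]; exact dvd_pow_self p (Nat.succ_ne_zero j)
  haveI : Finite (Baer U) := Finite.of_equiv U (toBaer U)
  obtain ⟨w, hw, hne⟩ := hP.exists_fixed_point_of_prime_dvd_card_of_fixed_point W hW (a := 1)
    (fun u => Subtype.ext (map_one _))
  apply hne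
  apply Subtype.ext
  obtain ⟨z, hz⟩ := w.2
  obtain ⟨x, hx⟩ := (toBaer U).surjective w.1
  have hxC : (x : X) ∈ ⁅U, U⁆ := by
    rw [← hCeq]
    refine Subgroup.mem_inf.mpr ⟨x.2, hC (Subgroup.mem_inf.mpr ⟨hUG x.2, Subgroup.mem_centralizer_iff.mpr fun u hu => ?_⟩)⟩
    have h1 : σ ⟨u, Subgroup.mem_sup_left hu⟩ w.1 = w.1 := congrArg Subtype.val (hw ⟨u, hu⟩)
    rw [← hx, hσ] at h1
    exact mul_inv_eq_iff_eq_mul.mp (congrArg Subtype.val ((toBaer U).injective h1))
  -- `π` fixes its image and kills `⁅U, U⁆`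
  have hπN : π (N z) = 1 := by
    obtain ⟨y, hy⟩ := (toBaer U).surjective (N z)
    rw [← hy]
    exact hpiC y (hfix y (fun q => by rw [hy, hNq]))
  have hππ : π (π z) = π z := by
    show π (z * ((N z) ^ m)⁻¹) = π z
    rw [map_mul, map_inv, map_pow, hπN, one_pow, inv_one, mul_one]
  show (1 : Baer U) = w.1
  rw [← hz, ← hππ, hz, ← hx]
  exact (hpiC x hxC).symm

end Cfsg.Agent.S3737
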