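import Cfsg.Statements.S3741
-- import your own Cfsg.Agent.* helpers here

set_option autoImplicit false
open Cfsg
open scoped commutatorElement

namespace Cfsg.Agent.S3741

theorem card_range_le_flip {A B K : Type*} [Group A] [Group B] [Finite B] [CommGroup K]
    (ι : K →* ℂˣ) (hι : Function.Injective ι) (φ : A →* B →* K) :
    Nat.card φ.range ≤ Nat.card φ.flip.range := by
  classical
  have : Finite φ.flip.range := Finite.of_surjective _ φ.flip.rangeRestrict_surjective
  have : NeZero (Monoid.exponent φ.flip.range) := ⟨Monoid.exponent_ne_zero_of_finite⟩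
  rw [← CommGroup.card_monoidHom_of_hasEnoughRootsOfUnity φ.flip.range ℂ]
  have hfin : Finite (φ.flip.range →* ℂˣ) := Nat.finite_of_card_ne_zero (by
    rw [CommGroup.card_monoidHom_of_hasEnoughRootsOfUnity]; exact Nat.card_pos.ne')
  let ev : φ.range → (φ.flip.range →* ℂˣ) := fun f =>
    MonoidHom.mk' (fun g => ι ((g : A →* K) f.2.choose)) (fun g₁ g₂ => by simp)
  refine Nat.card_le_card_of_injective ev ?_
  intro f₁ f₂ h
  apply Subtype.ext
  rw [← f₁.2.choose_spec, ← f₂.2.choose_spec]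
  refine MonoidHom.ext fun b => ?_
  exact hι (DFunLike.congr_fun h ⟨φ.flip b, b, rfl⟩)

theorem relIndex_eq_card_range {G K : Type*} [Group G] [Group K] (A C : Subgroup G) (φ : A →* K)
    (h : ∀ a : A, φ a = 1 ↔ (a : G) ∈ C) : C.relIndex A = Nat.card φ.range := by
  rw [← Subgroup.index_ker]
  show (C.subgroupOf A).index = _
  congr 1
  ext a
  simp [MonoidHom.mem_ker, h, Subgroup.mem_subgroupOf]

/-- Let A and B be subgroups of a finite p-group with [A, B] ≤ A ∩ B and [A, B] of order at most p. Then |A : C_A(B)| = |B : C_B(A)|. -/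
theorem result {G : Type*} [Group G] [Finite G] {p : ℕ} [Fact p.Prime] (hG : IsPGroup p G) (A B : Subgroup G) (hAB : ⁅A, B⁆ ≤ A ⊓ B) (hcard : Nat.card ↥⁅A, B⁆ ≤ p) : (A ⊓ Subgroup.centralizer (B : Set G)).relIndex A = (B ⊓ Subgroup.centralizer (A : Set G)).relIndex B := by
  classical
  set K := ⁅A, B⁆ with hKdef
  have hp : p.Prime := Fact.out
  rcases eq_or_ne K ⊥ with hK | hK
  · have h1 : A ⊓ Subgroup.centralizer (B : Set G) = A :=
      inf_eq_left.mpr (Subgroup.commutator_eq_bot_iff_le_centralizer.mp hK)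
    have h2 : B ⊓ Subgroup.centralizer (A : Set G) = B := by
      rw [hKdef, Subgroup.commutator_comm] at hK
      exact inf_eq_left.mpr (Subgroup.commutator_eq_bot_iff_le_centralizer.mp hK)
    rw [h1, h2, Subgroup.relIndex_self, Subgroup.relIndex_self]
  have hKp : Nat.card K = p := by
    obtain ⟨n, hn⟩ := IsPGroup.iff_card.mp (hG.to_subgroup K)
    have h1 : 1 < Nat.card K := (Subgroup.one_lt_card_iff_ne_bot K).mpr hK
    rw [hn] at h1 hcard ⊢
    rcases n with _ | _ | n
    · simp at h1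
    · simp
    · exfalso
      have hlt : p < p ^ (n + 1 + 1) := lt_self_pow₀ hp.one_lt (by omega)
      exact absurd hcard (not_le.mpr hlt)
  have : IsCyclic K := isCyclic_of_prime_card hKp
  letI : CommGroup K := IsCyclic.commGroup
  have hnorm : A ⊔ B ≤ Subgroup.normalizer (K : Set G) := by
    exact sup_le (Subgroup.normalizer_commutator_ge_left A B) (Subgroup.normalizer_commutator_ge_right A B)
  have hcentral : ∀ x ∈ A ⊔ B, ∀ k ∈ K, x * k * x⁻¹ = k := by
    intro x hx k hk
    obtain ⟨g, hg⟩ := IsCyclic.exists_generator (α := K)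
    have hxN := hnorm hx
    obtain ⟨j, hj⟩ : ∃ j : ℕ, x * (g : G) * x⁻¹ = (g : G) ^ j := by
      have hm := (Subgroup.mem_normalizer_iff.mp hxN _).mp g.2
      obtain ⟨j, hj⟩ := mem_powers_iff_mem_zpowers.mpr (hg ⟨_, hm⟩)
      exact ⟨j, by simpa using (congrArg Subtype.val hj).symm⟩
    have hiter : ∀ m : ℕ, x ^ m * (g : G) * (x ^ m)⁻¹ = (g : G) ^ (j ^ m) := by
      intro m
      induction m with
      | zero => simp
      | succ m ih =>
        calc x ^ (m + 1) * (g : G) * (x ^ (m + 1))⁻¹ = x * (x ^ m * (g : G) * (x ^ m)⁻¹) * x⁻¹ := by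
              rw [pow_succ']; group
          _ = (g : G) ^ (j ^ (m + 1)) := by
              rw [ih, ← conj_pow, hj, ← pow_mul, pow_succ']
    obtain ⟨n, hn⟩ := hG x
    have h := hiter (p ^ n)
    rw [hn] at h
    simp only [one_mul, inv_one, mul_one] at h
    have hgord : orderOf (g : G) = p := by
      rw [Subgroup.orderOf_coe, orderOf_eq_card_of_forall_mem_zpowers hg, hKp]
    have hmod : ((j ^ (p ^ n) : ℕ) : ZMod p) = ((1 : ℕ) : ZMod p) := by
      rw [ZMod.natCast_eq_natCast_iff]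
      have h' : (g : G) ^ (j ^ p ^ n) = (g : G) ^ 1 := by rw [pow_one]; exact h.symm
      have := pow_eq_pow_iff_modEq.mp h'
      rwa [hgord] at this
    rw [Nat.cast_pow, ZMod.pow_card_pow] at hmod
    have hjg : (g : G) ^ j = g := by
      conv_rhs => rw [← pow_one (g : G)]
      rw [pow_eq_pow_iff_modEq, hgord, ← ZMod.natCast_eq_natCast_iff]
      exact hmod
    obtain ⟨i, hi⟩ := Subgroup.mem_zpowers_iff.mp (hg ⟨k, hk⟩)
    have hi' : (g : G) ^ i = k := by simpa using congrArg Subtype.val hi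
    rw [← hi', ← conj_zpow, hj, hjg]
  let c : A → B → K := fun a b => ⟨⁅(a : G), (b : G)⁆, Subgroup.commutator_mem_commutator a.2 b.2⟩
  have hcl : ∀ a₁ a₂ b, c (a₁ * a₂) b = c a₁ b * c a₂ b := by
    intro a₁ a₂ b
    rw [mul_comm (c a₁ b)]
    ext
    simp only [c, Subgroup.coe_mul]
    rw [show ⁅(a₁ : G) * a₂, (b : G)⁆ = (a₁ * ⁅(a₂ : G), (b : G)⁆ * (a₁ : G)⁻¹) * ⁅(a₁ : G), (b : G)⁆ by
      simp only [commutatorElement_def]; group]
    rw [hcentral _ (Subgroup.mem_sup_left a₁.2) _ (Subgroup.commutator_mem_commutator a₂.2 b.2)]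
  have hcr : ∀ a b₁ b₂, c a (b₁ * b₂) = c a b₁ * c a b₂ := by
    intro a b₁ b₂
    ext
    simp only [c, Subgroup.coe_mul]
    rw [show ⁅(a : G), (b₁ : G) * b₂⁆ = ⁅(a : G), (b₁ : G)⁆ * (b₁ * ⁅(a : G), (b₂ : G)⁆ * (b₁ : G)⁻¹) by
      simp only [commutatorElement_def]; group]
    rw [hcentral _ (Subgroup.mem_sup_right b₁.2) _ (Subgroup.commutator_mem_commutator a.2 b₂.2)]
  let φ : A →* B →* K := MonoidHom.mk' (fun a => MonoidHom.mk' (c a) (hcr a))
    (fun a₁ a₂ => MonoidHom.ext fun b => hcl a₁ a₂ b)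
  obtain ⟨ι, hι⟩ : ∃ ι : K →* ℂˣ, Function.Injective ι := by
    have h := Complex.isPrimitiveRoot_exp p hp.ne_zero
    let u := h.toRootsOfUnity
    have hcardR : Nat.card (rootsOfUnity p ℂ) = p := by
      haveI : NeZero p := ⟨hp.ne_zero⟩
      exact Complex.card_rootsOfUnity p
    exact ⟨(rootsOfUnity p ℂ).subtype.comp (mulEquivOfPrimeCardEq hKp hcardR).toMonoidHom,
      Subtype.val_injective.comp (MulEquiv.injective _)⟩
  rw [relIndex_eq_card_range A _ φ, relIndex_eq_card_range B _ φ.flip]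
  · exact le_antisymm (card_range_le_flip ι hι φ) (card_range_le_flip ι hι φ.flip)
  · intro b
    simp only [Subgroup.mem_inf, b.2, true_and, Subgroup.mem_centralizer_iff, MonoidHom.ext_iff]
    constructor
    · intro h a ha
      exact commutatorElement_eq_one_iff_mul_comm.mp (show ⁅_, _⁆ = _ from congrArg Subtype.val (h ⟨a, ha⟩))
    · intro h a
      refine Subtype.ext ?_
      show ⁅(a : G), (b : G)⁆ = 1
      exact commutatorElement_eq_one_iff_mul_comm.mpr (h a a.2)
  · intro a
    simp only [Subgroup.mem_inf, a.2, true_and, Subgroup.mem_centralizer_iff, MonoidHom.ext_iff]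
    constructor
    · intro h b hb
      exact (commutatorElement_eq_one_iff_mul_comm.mp (show ⁅_, _⁆ = _ from congrArg Subtype.val (h ⟨b, hb⟩))).symm
    · intro h b
      refine Subtype.ext ?_
      show ⁅(a : G), (b : G)⁆ = 1
      exact commutatorElement_eq_one_iff_mul_comm.mpr (h b b.2).symm

end Cfsg.Agent.S3741
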