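import Cfsg.Statements.S3748
import Cfsg.Agent.Subnormal.Basic
import Cfsg.Agent.Constrained.Fitting

set_option autoImplicit false
open Cfsg

namespace Cfsg.Agent.S3748


/-- Call a proper subgroup M of G primitive when M = N_G(N) for every non-trivial normal subgroup N of M. If M is a primitive subgroup of the finite group G, then no non-trivial subnormal subgroup of G is contained in M; in particular M ∩ F(G) = 1. -/
theorem result {G : Type*} [Group G] [Finite G] (M : Subgroup G) (hM : M ≠ ⊤) (hprim : ∀ N : Subgroup G, N ≤ M → M ≤ Subgroup.normalizer (N : Set G) → N ≠ ⊥ → Subgroup.normalizer (N : Set G) = M) : (∀ L : Subgroup G, L.IsSubnormal → L ≤ M → L = ⊥) ∧ M ⊓ Cfsg.fittingSubgroup G = ⊥ := by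
  classical
  have key : ∀ L : Subgroup G, L.IsSubnormal → L ≤ M → L = ⊥ := by
    intro L hL hLM
    let s : Set (Subgroup G) := {U | U.IsSubnormal ∧ U ≤ M}
    have hsub : (sSup s).IsSubnormal := CfsgLib.Subnormal.isSubnormal_sSup fun U hU => hU.1
    have hle : sSup s ≤ M := sSup_le fun U hU => hU.2
    by_contra hne
    have hne' : sSup s ≠ ⊥ := fun h => hne (le_bot_iff.mp (h ▸ le_sSup (show L ∈ s from ⟨hL, hLM⟩)))
    have hMN : M ≤ Subgroup.normalizer ((sSup s : Subgroup G) : Set G) := by
      intro m hm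
      have h1 : (sSup s).map (MulAut.conj m).toMonoidHom ≤ sSup s := by
        rw [Subgroup.map_le_iff_le_comap]
        refine sSup_le fun U hU => ?_
        rw [← Subgroup.map_le_iff_le_comap]
        refine le_sSup ⟨CfsgLib.Subnormal.isSubnormal_conj hU.1 m, ?_⟩
        rintro _ ⟨u, hu, rfl⟩
        exact M.mul_mem (M.mul_mem hm (hU.2 hu)) (M.inv_mem hm)
      exact Subgroup.mem_normalizer_iff_map_conj_eq.mpr (Subgroup.eq_of_le_of_card_ge h1
        (Subgroup.card_map_of_injective (MulAut.conj m).injective).ge)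
    have hN := hprim _ hle hMN hne'
    rcases Subgroup.IsSubnormal.iff_eq_top_or_exists.mp hsub with h | ⟨K, hK, hKs, hKn⟩
    · exact hM (top_le_iff.mp (h ▸ hle))
    · rw [Subgroup.normal_subgroupOf_iff_le_normalizer hK.le, hN] at hKn
      exact hK.not_ge (le_sSup ⟨hKs, hKn⟩)
  refine ⟨key, key _ ?_ inf_le_left⟩
  exact CfsgLib.Subnormal.trans_of_le inf_le_right
    (CfsgLib.Subnormal.subgroupOf_of_isNilpotent CfsgLib.Constrained.isNilpotent_fitting _)
    (CfsgLib.Constrained.instNormalFitting).isSubnormal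

end Cfsg.Agent.S3748
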