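import Cfsg.Statements.S3749
-- import your own Cfsg.Agent.* helpers here

set_option autoImplicit false
open Cfsg
open scoped Pointwise

namespace Cfsg.Agent.S3749

/-- Call a proper subgroup M of G primitive when M = N_G(N) for every non-trivial normal subgroup N of M. Let M be a primitive subgroup of the finite group G, p a prime with O_p(M) ≠ 1, and N a normal subgroup of G with M ∩ N = 1. Then p does not divide the order of N; for every prime q there is exactly one Sylow q-subgroup of N normalized by M; and if the order of N has at least two prime divisors then M is not a maximal subgroup of G. -/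
theorem result {G : Type*} [Group G] [Finite G] (M : Subgroup G) (hM : M ≠ ⊤) (hprim : ∀ N : Subgroup G, N ≤ M → M ≤ Subgroup.normalizer (N : Set G) → N ≠ ⊥ → Subgroup.normalizer (N : Set G) = M) {p : ℕ} [Fact p.Prime] (hOp : Cfsg.pCore p ↥M ≠ ⊥) (N : Subgroup G) [N.Normal] (hMN : M ⊓ N = ⊥) : ¬ p ∣ Nat.card N ∧ (∀ q : ℕ, [Fact q.Prime] → ∃! Q : Sylow q ↥N, M ≤ Subgroup.normalizer ((Q : Subgroup ↥N).map N.subtype : Set G)) ∧ ((∃ q r : ℕ, q.Prime ∧ r.Prime ∧ q ≠ r ∧ q ∣ Nat.card N ∧ r ∣ Nat.card N) → ¬ IsCoatom M) := by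
  classical
  have hp : p.Prime := Fact.out
  obtain ⟨N₀, ⟨hN₀n, hN₀p⟩, hN₀⟩ : ∃ N₀ : Subgroup M, (N₀.Normal ∧ IsPGroup p N₀) ∧ N₀ ≠ ⊥ := by
    by_contra h
    push Not at h
    exact hOp (le_bot_iff.mp (sSup_le fun N₀ hN₀ => (h N₀ hN₀).le))
  set P : Subgroup G := N₀.map M.subtype with hPdef
  have hPM : P ≤ M := Subgroup.map_subtype_le N₀
  have hPp : IsPGroup p P := hN₀p.map _
  have hP : P ≠ ⊥ := by
    rwa [hPdef, Ne, Subgroup.map_eq_bot_iff_of_injective _ M.subtype_injective]
  have hMP : M ≤ Subgroup.normalizer (P : Set G) := by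
    have key : ∀ m ∈ M, ∀ y ∈ P, m * y * m⁻¹ ∈ P := by
      rintro m hm _ ⟨y, hy, rfl⟩
      exact ⟨⟨m, hm⟩ * y * ⟨m, hm⟩⁻¹, hN₀n.conj_mem y hy _, rfl⟩
    intro m hm
    refine Subgroup.mem_normalizer_iff.mpr fun y => ⟨key m hm y, fun hy => ?_⟩
    simpa [mul_assoc] using key m⁻¹ (inv_mem hm) _ hy
  have hNP : Subgroup.normalizer (P : Set G) = M := hprim P hPM hMP hP
  let φ : G →* MulAut N := MulAut.conjNormal
  let φP : P →* MulAut N := φ.comp P.subtype
  have hcoe : ∀ (g : G) (x : N), ((φ g x : N) : G) = g * x * g⁻¹ := fun g x => MulAut.conjNormal_apply g x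
  have hfix : ∀ x : N, (∀ u : P, φP u x = x) → x = 1 := by
    intro x hx
    have hc : (x : G) ∈ Subgroup.normalizer (P : Set G) := by
      have hcomm : ∀ u ∈ P, u * (x : G) = x * u := by
        intro u hu
        have : ((φ u x : N) : G) = x := congrArg Subtype.val (hx ⟨u, hu⟩)
        rw [hcoe] at this
        exact mul_inv_eq_iff_eq_mul.mp this
      refine Subgroup.mem_normalizer_iff.mpr fun u => ⟨fun hu => ?_, fun hu => ?_⟩
      · rwa [← hcomm u hu, mul_inv_cancel_right]
      · have := hcomm _ hu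
        rw [inv_mul_cancel_right] at this
        have h2 : (x : G) * u * (x : G)⁻¹ = u := by
          apply mul_left_cancel (a := (x : G))
          exact this.symm
        rwa [h2] at hu
    rw [hNP] at hc
    have : (x : G) ∈ M ⊓ N := Subgroup.mem_inf.mpr ⟨hc, x.2⟩
    rw [hMN, Subgroup.mem_bot] at this
    exact Subtype.ext this
  have h1 : ¬ p ∣ Nat.card N := by
    intro hdvd
    letI : MulAction P N := MulAction.compHom N φP
    obtain ⟨b, hb, hne⟩ := hPp.exists_fixed_point_of_prime_dvd_card_of_fixed_point (α := N) hdvd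
      (a := 1) (fun u => map_one (φP u))
    exact hne (hfix b hb).symm
  have hmap : ∀ (g : G) (S : Subgroup N),
      (φ g • S).map N.subtype = (S.map N.subtype).map (MulAut.conj g : G →* G) := by
    intro g S
    rw [Subgroup.map_map]
    show (S.map (φ g).toMonoidHom).map N.subtype = _
    rw [Subgroup.map_map]
    congr 1
  have hnorm : ∀ (g : G) (q : ℕ) (Q : Sylow q N),
      φ g • Q = Q ↔ g ∈ Subgroup.normalizer ((Q : Subgroup ↥N).map N.subtype : Set G) := by
    intro g q Q
    rw [Subgroup.mem_normalizer_iff_map_conj_eq, Sylow.ext_iff, ← hmap,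
      (Subgroup.map_injective N.subtype_injective).eq_iff, Sylow.pointwise_smul_def]
  have h2 : ∀ q : ℕ, [Fact q.Prime] →
      ∃! Q : Sylow q ↥N, M ≤ Subgroup.normalizer ((Q : Subgroup ↥N).map N.subtype : Set G) := by
    intro q _
    have huniq : ∀ Q₁ Q₂ : Sylow q N, (∀ u : P, φP u • Q₁ = Q₁) → (∀ u : P, φP u • Q₂ = Q₂) → Q₁ = Q₂ := by
      intro Q₁ Q₂ hQ₁ hQ₂
      let X := {x : N // x • Q₁ = Q₂}
      have hequiv : ∀ (u : P) (x : N) (Q : Sylow q N), φP u • (x • Q) = (φP u x) • (φP u • Q) := by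
        intro u x Q
        rw [Sylow.smul_def, Sylow.smul_def, ← mul_smul, ← mul_smul]
        congr 1
        ext y
        simp
      letI : MulAction P X :=
        { smul := fun u x => ⟨φP u x.1, by
            have h := hequiv u x.1 Q₁
            rw [x.2, hQ₁ u, hQ₂ u] at h
            exact h.symm⟩
          one_smul := fun x => Subtype.ext (by
            show φP 1 x.1 = x.1
            simp)
          mul_smul := fun u v x => Subtype.ext (by
            show φP (u * v) x.1 = φP u (φP v x.1)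
            simp) }
      obtain ⟨x₀, hx₀⟩ := MulAction.exists_smul_eq N Q₁ Q₂
      have hcardX : Nat.card X = Nat.card (MulAction.stabilizer N Q₁) := Nat.card_congr
        { toFun := fun x => ⟨x₀⁻¹ * x.1, by rw [MulAction.mem_stabilizer_iff, mul_smul, x.2, inv_smul_eq_iff, hx₀]⟩
          invFun := fun s => ⟨x₀ * s.1, by rw [mul_smul, MulAction.mem_stabilizer_iff.mp s.2, hx₀]⟩
          left_inv := fun x => Subtype.ext (mul_inv_cancel_left _ _)
          right_inv := fun s => Subtype.ext (inv_mul_cancel_left _ _) }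
      obtain ⟨x, hx⟩ := hPp.nonempty_fixed_point_of_prime_not_dvd_card X (by
        rw [hcardX]
        exact fun h => h1 (h.trans (Subgroup.card_subgroup_dvd_card _)))
      have : x.1 = 1 := hfix x.1 fun u => congrArg Subtype.val (hx u)
      simpa [this] using x.2
    letI : MulAction P (Sylow q N) := MulAction.compHom (Sylow q N) φP
    obtain ⟨Q, hQ⟩ := hPp.nonempty_fixed_point_of_prime_not_dvd_card (Sylow q N) (fun h => h1 (by
      obtain ⟨Q⟩ : Nonempty (Sylow q N) := inferInstance
      exact (h.trans Q.card_dvd_index).trans (Subgroup.index_dvd_card _)))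
    have hQP : ∀ u : P, φP u • Q = Q := hQ
    refine ⟨Q, fun m hm => (hnorm m q Q).mp (huniq _ _ ?_ hQP), fun Q' hQ' => ?_⟩
    · rintro ⟨u, hu⟩
      show φ u • φ m • Q = φ m • Q
      have hmu : m⁻¹ * u * m ∈ P := by
        simpa using (Subgroup.mem_normalizer_iff.mp (hMP (inv_mem hm)) u).mp hu
      have : φ (m⁻¹ * u * m) • Q = Q := hQP ⟨_, hmu⟩
      rw [map_mul, map_mul, map_inv, mul_smul, mul_smul, inv_smul_eq_iff] at this
      exact this
    · exact huniq _ _ (fun u => (hnorm (u : G) q Q').mpr (hQ' (hPM u.2))) hQP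
  refine ⟨h1, @h2, ?_⟩
  rintro ⟨q, r, hq, hr, hqr, hqN, hrN⟩ hco
  haveI : Fact q.Prime := ⟨hq⟩
  obtain ⟨Q, hQ, -⟩ := @h2 q this
  set Q' : Subgroup G := (Q : Subgroup ↥N).map N.subtype with hQ'
  have hQN : Q' ≤ N := Subgroup.map_subtype_le _
  have hK : M < M ⊔ Q' := by
    refine lt_of_le_not_ge le_sup_left fun h => ?_
    have : Q' ≤ M ⊓ N := le_inf (le_sup_right.trans h) hQN
    rw [hMN, le_bot_iff, hQ', Subgroup.map_eq_bot_iff_of_injective _ N.subtype_injective] at this
    exact Q.ne_bot_of_dvd_card hqN this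
  have htop := hco.2 _ hK
  have hNQ : N ≤ Q' := by
    intro x hx
    have hxK : x ∈ ((M ⊔ Q' : Subgroup G) : Set G) := by rw [htop]; trivial
    rw [Subgroup.coe_mul_of_left_le_normalizer_right M Q' hQ] at hxK
    obtain ⟨m, hm, y, hy, rfl⟩ := hxK
    have : m ∈ M ⊓ N := Subgroup.mem_inf.mpr ⟨hm, by simpa using mul_mem hx (inv_mem (hQN hy))⟩
    rw [hMN, Subgroup.mem_bot] at this
    simpa [this] using hy
  have hdvd : r ∣ Nat.card Q' := hrN.trans (Subgroup.card_dvd_of_le hNQ)
  obtain ⟨k, hk⟩ := IsPGroup.iff_card.mp (Q.isPGroup'.map N.subtype)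
  rw [hQ', hk] at hdvd
  exact hqr ((Nat.prime_dvd_prime_iff_eq hr hq).mp (hr.dvd_of_dvd_pow hdvd)).symm

end Cfsg.Agent.S3749
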