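import Cfsg.Statements.S3750
-- import your own Cfsg.Agent.* helpers here
import Mathlib
import Cfsg.Agent.Cores.FStar
import Cfsg.Agent.Cores.Components
import Cfsg.Agent.FStar.SelfCentralizing
import Cfsg.Agent.Eq.Def_Local

set_option autoImplicit false
open Cfsg

namespace Cfsg.Agent.S3750

/-- Call a proper subgroup M of G primitive when M = N_G(N) for every non-trivial normal subgroup N of M. Let M be a primitive subgroup of the finite group G and N a normal subgroup of G with M ∩ F*(N) ≠ 1. Then F(G) = 1 and F*(N) = F*(G) = E(G); in particular every minimal normal subgroup of G is contained in N. -/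
theorem result {G : Type*} [Group G] [Finite G] (M : Subgroup G) (hM : M ≠ ⊤) (hprim : ∀ N : Subgroup G, N ≤ M → M ≤ Subgroup.normalizer (N : Set G) → N ≠ ⊥ → Subgroup.normalizer (N : Set G) = M) (N : Subgroup G) [N.Normal] (hMF : M ⊓ (Cfsg.generalizedFittingSubgroup ↥N).map N.subtype ≠ ⊥) : Cfsg.fittingSubgroup G = ⊥ ∧ (Cfsg.generalizedFittingSubgroup ↥N).map N.subtype = Cfsg.generalizedFittingSubgroup G ∧ Cfsg.generalizedFittingSubgroup G = Cfsg.layer G ∧ ∀ K : Subgroup G, K.Normal → K ≠ ⊥ → (∀ K' : Subgroup G, K'.Normal → K' ≤ K → K' = ⊥ ∨ K' = K) → K ≤ N := by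
  classical
  set D := M ⊓ (Cfsg.generalizedFittingSubgroup ↥N).map N.subtype with hD
  have hFN := CfsgLib.Cores.generalizedFitting_inf_of_normal (G := G) N
  have hFn : (Cfsg.generalizedFittingSubgroup G).Normal := inferInstance
  have hDM : Subgroup.normalizer (D : Set G) = M := by
    refine hprim D inf_le_left ?_ hMF
    intro m hm
    rw [Subgroup.mem_normalizer_iff]
    have key : ∀ m ∈ M, ∀ d ∈ D, m * d * m⁻¹ ∈ D := by
      intro m hm d hd
      refine ⟨M.mul_mem (M.mul_mem hm hd.1) (M.inv_mem hm), ?_⟩
      have h2 := hd.2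
      rw [← hFN] at h2 ⊢
      exact ⟨hFn.conj_mem _ h2.1 m, (inferInstance : N.Normal).conj_mem _ h2.2 m⟩
    refine fun d => ⟨key m hm d, fun h => ?_⟩
    have h3 := key m⁻¹ (M.inv_mem hm) _ h
    rwa [show m⁻¹ * (m * d * m⁻¹) * m⁻¹⁻¹ = d by group] at h3
  -- a normal subgroup centralising `D` is trivial
  have key : ∀ K : Subgroup G, K.Normal → K ≤ Subgroup.centralizer (D : Set G) → K = ⊥ := by
    intro K hK hKD
    by_contra hne
    have hKM : K ≤ M := hDM ▸ hKD.trans (Subgroup.centralizer_le_normalizer _)
    have h := hprim K hKM (fun m _ => by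
      rw [Subgroup.normalizer_eq_top_iff.2 hK]; trivial) hne
    rw [Subgroup.normalizer_eq_top_iff.2 hK] at h
    exact hM h.symm
  have hDF : D ≤ Cfsg.generalizedFittingSubgroup G ⊓ N := hFN ▸ inf_le_right
  have hF1 : Cfsg.fittingSubgroup G = ⊥ := by
    haveI := CfsgLib.Fitting.fittingSubgroup_normal G
    haveI := CfsgLib.Fitting.fittingSubgroup_isNilpotent G
    set F := Cfsg.fittingSubgroup G
    have hZ : (Subgroup.center ↥F).map F.subtype = ⊥ := by
      refine key _ inferInstance ?_
      intro z hz
      have hle : Cfsg.generalizedFittingSubgroup G ≤ Subgroup.centralizer ({z} : Set G) := by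
        obtain ⟨z', hz', rfl⟩ := hz
        refine sup_le ?_ ?_
        · intro l hl
          rw [Subgroup.mem_centralizer_singleton_iff]
          exact (Subgroup.mem_centralizer_iff.1
            ((Subgroup.commutator_eq_bot_iff_le_centralizer.1
              (CfsgLib.FStar.layer_commute_fitting (G := G))) hl) z' z'.2).symm
        · intro f hf
          rw [Subgroup.mem_centralizer_singleton_iff]
          exact congrArg Subtype.val (Subgroup.mem_center_iff.1 hz' ⟨f, hf⟩)
      rw [Subgroup.mem_centralizer_iff]
      intro d hd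
      exact Subgroup.mem_centralizer_singleton_iff.1 (hle (hDF hd).1)
    by_contra hne
    haveI : Nontrivial ↥F := (Subgroup.nontrivial_iff_ne_bot F).2 hne
    have h1 : Subgroup.center ↥F = ⊥ := by
      rwa [Subgroup.map_eq_bot_iff_of_injective _ F.subtype_injective] at hZ
    exact (Group.IsNilpotent.center_ne_bot (G := ↥F)) h1
  have hlayN : Cfsg.layer G ≤ N := by
    refine sSup_le fun L hL => ?_
    by_contra hLN
    have hcomm : ∀ g : G, L.map (MulAut.conj g).toMonoidHom ≤ Subgroup.centralizer (D : Set G) := by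
      intro g
      have hLg := CfsgLib.Cores.isComponent_conj hL g
      rcases CfsgLib.Cores.component_le_or_commutes hLg (inferInstance : N.Normal).isSubnormal with h | h
      · exfalso
        apply hLN
        intro l hl
        have h2 := (inferInstance : N.Normal).conj_mem _ (h ⟨l, hl, rfl⟩) g⁻¹
        simpa [mul_assoc] using h2
      · exact (Subgroup.commutator_eq_bot_iff_le_centralizer.1 h).trans
          (Subgroup.centralizer_le fun d hd => (hDF hd).2)
    have h1 := key (Subgroup.normalClosure (L : Set G)) inferInstance (by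
      refine (Subgroup.closure_le _).2 ?_
      intro x hx
      obtain ⟨l, hl, hc⟩ := Group.mem_conjugatesOfSet_iff.1 hx
      obtain ⟨g, rfl⟩ := isConj_iff.1 hc
      exact hcomm g ⟨l, hl, rfl⟩)
    exact CfsgLib.Cores.ne_bot_of_isComponent hL
      (le_bot_iff.1 (h1 ▸ (Subgroup.subset_normalClosure (s := (L : Set G)))))
  have hFl : Cfsg.generalizedFittingSubgroup G = Cfsg.layer G := by
    show Cfsg.layer G ⊔ Cfsg.fittingSubgroup G = _
    rw [hF1, sup_bot_eq]
  refine ⟨hF1, ?_, hFl, fun K hK hK1 hKmin => ?_⟩
  · rw [← hFN]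
    exact inf_eq_left.2 (hFl ▸ hlayN)
  · haveI := hK
    rcases hKmin (K ⊓ N) inferInstance inf_le_left with h | h
    · exfalso
      refine hK1 (key K hK ?_)
      refine le_trans ?_ (Subgroup.centralizer_le fun d hd => (hDF hd).2)
      intro k hk
      rw [Subgroup.mem_centralizer_iff]
      intro n hn
      exact (Subgroup.commute_of_normal_of_disjoint K N hK inferInstance
        (disjoint_iff.2 h) k n hk hn).symm.eq
    · exact h ▸ inf_le_right

end Cfsg.Agent.S3750
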