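import Cfsg.Statements.S3751
import Cfsg.Agent.Eq.Def_LocalEven
import Cfsg.Agent.Constrained.Basic
import Cfsg.Agent.Coprime.Minimal
import Cfsg.Agent.Coprime.Sylow

set_option autoImplicit false
open Cfsg CfsgLib.Coprime
open scoped commutatorElement

namespace Cfsg.Agent.S3751

section
variable {G : Type*} [Group G] [Finite G] {p : ℕ} [Fact p.Prime]

theorem le_core_map {M X : Subgroup G} (hXM : X ≤ M) (hn : M ≤ Subgroup.normalizer (X : Set G))
    (hX : IsPGroup p X) : X ≤ (Cfsg.pCore p ↥M).map M.subtype := by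
  intro x hx
  refine ⟨⟨x, hXM hx⟩, CfsgLib.Constrained.le_pCore ?_ ?_ (show (⟨x, hXM hx⟩ : M) ∈ X.subgroupOf M from hx), rfl⟩
  · exact (Subgroup.normal_subgroupOf_iff_le_normalizer hXM).mpr hn
  · exact hX.comap_of_injective M.subtype M.subtype_injective

theorem le_normalizer_core_map {B M : Subgroup G} (h : B ≤ Subgroup.normalizer (M : Set G)) :
    B ≤ Subgroup.normalizer (((Cfsg.pCore p ↥M).map M.subtype : Subgroup G) : Set G) :=
  le_normalizer_map_characteristic h _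

/-- A `p`-subgroup properly inside another one grows in its normalizer. -/
theorem lt_inf_normalizer {T S : Subgroup G} (hS : IsPGroup p S) (h : T < S) :
    T < S ⊓ Subgroup.normalizer (T : Set G) := by
  refine lt_of_le_of_ne (le_inf h.le Subgroup.le_normalizer) fun he => h.ne ?_
  have hle : T.subgroupOf S < ⊤ := by
    rw [lt_top_iff_ne_top, Ne, Subgroup.subgroupOf_eq_top]
    exact fun h' => h.ne (le_antisymm h.le h')
  haveI := hS.isNilpotent
  obtain ⟨x, hx, hxT⟩ := SetLike.exists_of_lt (Group.normalizerCondition_of_isNilpotent _ hle)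
  exfalso
  apply hxT
  show (x : G) ∈ T
  rw [he]
  refine Subgroup.mem_inf.mpr ⟨x.2, Subgroup.mem_normalizer_iff.mpr fun u => ⟨fun hu => ?_, fun hu => ?_⟩⟩
  · exact ((Subgroup.mem_normalizer_iff.mp hx ⟨u, h.le hu⟩).mp hu)
  · have huS : u ∈ S := by
      simpa [mul_assoc] using mul_mem (mul_mem (inv_mem x.2) (h.le hu)) x.2
    exact (Subgroup.mem_normalizer_iff.mp hx ⟨u, huS⟩).mpr hu

end

/-- Two distinct subgroups M₁, M₂ of G form a primitive pair when, for {i, j} = {1, 2}, every non-trivial normal subgroup A of M_i contained in M₁ ∩ M₂ satisfies N_{M_j}(A) = M₁ ∩ M₂; the pair has characteristic p when moreover C_{M_i}(O_p(M_i)) ≤ O_p(M_i) for both i and O_p(M₁)O_p(M₂) ≤ M₁ ∩ M₂. Let G be a finite group, p a prime dividing its order, with O_p(G) = 1 and every p-local subgroup of characteristic p. Then either G has a primitive pair of characteristic p, or every maximal p-local subgroup M of G is strongly p-embedded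 in G: M is a proper subgroup, p divides its order, and for every g ∉ M the order of M ∩ gMg⁻¹ is prime to p. -/
theorem result {G : Type*} [Group G] [Finite G] {p : ℕ} [Fact p.Prime] (hloc : Cfsg.IsOfLocalCharacteristic p G) (hOp : Cfsg.pCore p G = ⊥) : (∃ M₁ M₂ : Subgroup G, M₁ ≠ M₂ ∧ (∀ A : Subgroup G, A ≠ ⊥ → A ≤ M₁ ⊓ M₂ → (M₁ ≤ Subgroup.normalizer (A : Set G) → M₂ ⊓ Subgroup.normalizer (A : Set G) = M₁ ⊓ M₂) ∧ (M₂ ≤ Subgroup.normalizer (A : Set G) → M₁ ⊓ Subgroup.normalizer (A : Set G) = M₁ ⊓ M₂)) ∧ Subgroup.centralizer (Cfsg.pCore p ↥M₁ : Set ↥M₁) ≤ Cfsg.pCore p ↥M₁ ∧ Subgroup.centralizer (Cfsg.pCore p ↥M₂ : Set ↥M₂) ≤ Cfsg.pCore p ↥M₂ ∧ (Cfsg.pCore p ↥M₁).map M₁.subtype ⊔ (Cfsg.pCore p ↥M₂).map M₂.subtype ≤ M₁ ⊓ M₂) ∨ (∀ M : Subgroup G, (∃ T : Subgroup G, IsPGroup p T ∧ T ≠ ⊥ ∧ M = Subgroup.normalizer (T : Set G)) → (∀ L : Subgroup G, (∃ T : Subgroup G, IsPGroup p T ∧ T ≠ ⊥ ∧ L = Subgroup.normalizer (T : Set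 G)) → M ≤ L → L = M) → M ≠ ⊤ ∧ p ∣ Nat.card M ∧ ∀ g : G, g ∉ M → ¬ p ∣ Nat.card ↥(M ⊓ M.map (MulAut.conj g).toMonoidHom)) := by
  classical
  let O : Subgroup G → Subgroup G := fun M => (Cfsg.pCore p ↥M).map M.subtype
  have hOle : ∀ M, O M ≤ M := fun M => Subgroup.map_subtype_le _
  have hOpg : ∀ M, IsPGroup p (O M) := fun M => CfsgLib.Constrained.isPGroup_pCore.map _
  let IsLoc : Subgroup G → Prop := fun M => ∃ T : Subgroup G, IsPGroup p T ∧ T ≠ ⊥ ∧ M = Subgroup.normalizer (T : Set G)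
  let IsMax : Subgroup G → Prop := fun M => IsLoc M ∧ ∀ L, IsLoc L → M ≤ L → L = M
  have hmaxex : ∀ L, IsLoc L → ∃ M, IsMax M ∧ L ≤ M := by
    intro L hL
    obtain ⟨M, hLM, hM⟩ := ({M | IsLoc M ∧ L ≤ M} : Set (Subgroup G)).toFinite.exists_le_maximal
      (show L ∈ {M | IsLoc M ∧ L ≤ M} from ⟨hL, le_rfl⟩)
    exact ⟨M, ⟨hM.prop.1, fun K hK hle => le_antisymm (hM.le_of_ge ⟨hK, hLM.trans hle⟩ hle) hle⟩, hLM⟩
  have hNO : ∀ M, IsMax M → Subgroup.normalizer (O M : Set G) = M := by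
    rintro M ⟨⟨T, hT, hT1, rfl⟩, hmax⟩
    refine hmax _ ⟨_, hOpg _, ?_, rfl⟩ (le_normalizer_core_map Subgroup.le_normalizer)
    intro h
    exact hT1 (le_bot_iff.mp (h ▸ le_core_map Subgroup.le_normalizer le_rfl hT))
  have hself : ∀ M, IsMax M → Subgroup.normalizer (M : Set G) = M := fun M hM =>
    le_antisymm ((le_normalizer_core_map le_rfl).trans (hNO M hM).le) Subgroup.le_normalizer
  have hchar : ∀ M, IsLoc M → Subgroup.centralizer (Cfsg.pCore p ↥M : Set ↥M) ≤ Cfsg.pCore p ↥M := by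
    rintro M ⟨T, hT, hT1, rfl⟩
    exact hloc.2 T hT hT1
  have hconj : ∀ M, IsMax M → ∀ g : G, IsMax (M.map (MulAut.conj g).toMonoidHom) := by
    have hl : ∀ M, IsLoc M → ∀ g : G, IsLoc (M.map (MulAut.conj g).toMonoidHom) := by
      rintro M ⟨T, hT, hT1, rfl⟩ g
      refine ⟨T.map (MulAut.conj g).toMonoidHom, hT.map _, ?_, ?_⟩
      · rwa [Ne, Subgroup.map_eq_bot_iff_of_injective _ (MulEquiv.injective _)]
      · exact Subgroup.map_equiv_normalizer_eq T (MulAut.conj g)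
    refine fun M hM g => ⟨hl M hM.1 g, fun L hL hle => ?_⟩
    have h1 := hM.2 _ (hl L hL g⁻¹) (by
      have := Subgroup.map_mono (f := (MulAut.conj g⁻¹).toMonoidHom) hle
      rwa [map_conj_map_conj, inv_mul_cancel, map_conj_one] at this)
    rw [← h1, map_conj_map_conj, mul_inv_cancel, map_conj_one]
  -- the normalizer condition of a primitive pair is automatic
  have hnorm : ∀ M, IsMax M → ∀ A : Subgroup G, A ≠ ⊥ → A ≤ M → M ≤ Subgroup.normalizer (A : Set G) →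
      Subgroup.normalizer (A : Set G) ≤ M := by
    intro M hM A hA hAM hMA
    have hne : A ⊓ O M ≠ ⊥ := by
      intro h
      apply hA
      rw [eq_bot_iff, ← h]
      intro a ha
      refine Subgroup.mem_inf.mpr ⟨ha, ?_⟩
      have hc : (⟨a, hAM ha⟩ : M) ∈ Subgroup.centralizer (Cfsg.pCore p ↥M : Set ↥M) := by
        rw [Subgroup.mem_centralizer_iff]
        intro q hq
        apply Subtype.ext
        have hqO : (q : G) ∈ O M := ⟨q, hq, rfl⟩
        have hmem : (q : G) * a * (q : G)⁻¹ * a⁻¹ ∈ A ⊓ O M := by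
          refine Subgroup.mem_inf.mpr ⟨mul_mem (conj_mem_of_le_normalizer hMA q.2 ha) (inv_mem ha), ?_⟩
          rw [mul_assoc, mul_assoc, ← mul_assoc a]
          exact mul_mem hqO (conj_mem_of_le_normalizer (le_normalizer_core_map Subgroup.le_normalizer)
            (hAM ha) (inv_mem hqO))
        rw [h, Subgroup.mem_bot, mul_inv_eq_one, mul_inv_eq_iff_eq_mul] at hmem
        simpa using hmem
      exact ⟨_, hchar M hM.1 hc, rfl⟩
    have hle : A ⊓ O M ≤ O A := le_core_map inf_le_left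
      (le_normalizer_inf' Subgroup.le_normalizer
        (hAM.trans (le_normalizer_core_map Subgroup.le_normalizer))) ((hOpg M).to_le inf_le_right)
    have hOA : O A ≠ ⊥ := fun h => hne (le_bot_iff.mp (h ▸ hle))
    have hN : Subgroup.normalizer (A : Set G) ≤ Subgroup.normalizer (O A : Set G) :=
      le_normalizer_core_map le_rfl
    exact hN.trans (hM.2 _ ⟨O A, hOpg A, hOA, rfl⟩ (hMA.trans hN)).le
  have hpair : ∀ M₁ M₂, IsMax M₁ → IsMax M₂ → ∀ A : Subgroup G, A ≠ ⊥ → A ≤ M₁ ⊓ M₂ →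
      M₁ ≤ Subgroup.normalizer (A : Set G) → M₂ ⊓ Subgroup.normalizer (A : Set G) = M₁ ⊓ M₂ := by
    intro M₁ M₂ h₁ h₂ A hA hA12 hMA
    refine le_antisymm ?_ (le_inf inf_le_right (inf_le_left.trans hMA))
    exact le_inf (inf_le_right.trans (hnorm M₁ h₁ A hA (hA12.trans inf_le_left) hMA)) inf_le_left
  rw [or_iff_not_imp_right]
  intro hfail
  suffices hex : ∃ M₁ M₂, IsMax M₁ ∧ IsMax M₂ ∧ M₁ ≠ M₂ ∧ O M₁ ≤ M₂ ∧ O M₂ ≤ M₁ by
    obtain ⟨M₁, M₂, h₁, h₂, hne, hO₁, hO₂⟩ := hex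
    refine ⟨M₁, M₂, hne, fun A hA hA12 => ⟨hpair M₁ M₂ h₁ h₂ A hA hA12, fun hMA => ?_⟩,
      hchar M₁ h₁.1, hchar M₂ h₂.1, sup_le (le_inf (hOle _) hO₁) (le_inf hO₂ (hOle _))⟩
    rw [inf_comm M₁ M₂]
    exact hpair M₂ M₁ h₂ h₁ A hA (inf_comm M₁ M₂ ▸ hA12) hMA
  push Not at hfail
  obtain ⟨M, hMloc, hMmax, hMf⟩ := hfail
  have hM : IsMax M := ⟨hMloc, hMmax⟩
  have hMtop : M ≠ ⊤ := by
    rintro rfl
    obtain ⟨T, hT, hT1, hN⟩ := hMloc
    exact hT1 (le_bot_iff.mp (hOp ▸ CfsgLib.Constrained.le_pCore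
      (Subgroup.normalizer_eq_top_iff.mp hN.symm) hT))
  have hpM : p ∣ Nat.card M := by
    obtain ⟨T, hT, hT1, rfl⟩ := hMloc
    obtain ⟨n, hn⟩ := IsPGroup.iff_card.mp hT
    refine dvd_trans ?_ (Subgroup.card_dvd_of_le Subgroup.le_normalizer)
    rw [hn]
    rcases n with _ | n
    · exact absurd (Subgroup.card_eq_one.mp (by simpa using hn)) hT1
    · exact dvd_pow_self p (Nat.succ_ne_zero n)
  obtain ⟨g, hg, hgp⟩ := hMf hMtop hpM
  -- a nontrivial common `p`-subgroup of two maximal `p`-locals, of largest order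
  let cand : Set (Subgroup G) := {T | IsPGroup p T ∧ T ≠ ⊥ ∧ ∃ M₁ M₂, IsMax M₁ ∧ IsMax M₂ ∧ M₁ ≠ M₂ ∧ T ≤ M₁ ⊓ M₂}
  have hcand : cand.Nonempty := by
    obtain ⟨x, hx⟩ := exists_prime_orderOf_dvd_card' p hgp
    refine ⟨Subgroup.zpowers (x : G), ?_, ?_, M, M.map (MulAut.conj g).toMonoidHom, hM, hconj M hM g, ?_,
      Subgroup.zpowers_le_of_mem x.2⟩
    · refine IsPGroup.of_card (n := 1) ?_
      rw [Nat.card_zpowers, Subgroup.orderOf_coe, hx, pow_one]
    · rw [Ne, Subgroup.zpowers_eq_bot]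
      intro h
      rw [show x = 1 from Subtype.ext h, orderOf_one] at hx
      exact (Fact.out : p.Prime).one_lt.ne hx
    · intro h
      exact hg (hself M hM ▸ Subgroup.mem_normalizer_iff_map_conj_eq.mpr h.symm)
  obtain ⟨T, hTmax⟩ := cand.toFinite.exists_maximal hcand
  obtain ⟨hTp, hT1, M₁, M₂, hM₁, hM₂, hne, hT12⟩ := hTmax.prop
  have hnoBigger : ∀ S : Subgroup G, IsPGroup p S → T ≤ S → ∀ N₁ N₂, IsMax N₁ → IsMax N₂ → N₁ ≠ N₂ →
      S ≤ N₁ ⊓ N₂ → S ≤ T := fun S hS hTS N₁ N₂ h₁ h₂ hn hle =>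
    hTmax.le_of_ge ⟨hS, fun h => hT1 (le_bot_iff.mp (h ▸ hTS)), N₁, N₂, h₁, h₂, hn, hle⟩ hTS
  obtain ⟨L, hL, hNL⟩ := hmaxex _ ⟨T, hTp, hT1, rfl⟩
  -- either `T` is a maximal `p`-subgroup of `M`, or `L = M`
  have hdich : ∀ N, IsMax N → T ≤ N → (∀ S : Subgroup G, IsPGroup p S → T ≤ S → S ≤ N → S ≤ T) ∨ L = N := by
    intro N hN hTN
    by_contra hcon
    push Not at hcon
    obtain ⟨⟨S, hS, hTS, hSN, hST⟩, hLN⟩ := hcon
    have hlt := lt_inf_normalizer hS (lt_of_le_not_ge hTS hST)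
    exact hlt.not_ge (hnoBigger _ (hS.to_le inf_le_left) hlt.le L N hL hN hLN
      (le_inf (inf_le_right.trans hNL) (inf_le_left.trans hSN)))
  -- if `T` is maximal in `M` then `O_p(M) ≤ T`
  have hOT : ∀ N, IsMax N → T ≤ N → (∀ S : Subgroup G, IsPGroup p S → T ≤ S → S ≤ N → S ≤ T) → O N ≤ T := by
    intro N hN hTN h
    exact le_sup_left.trans (h (O N ⊔ T) ((hOpg N).to_sup_of_normal_left' hTp
      (hTN.trans (le_normalizer_core_map Subgroup.le_normalizer))) le_sup_right (sup_le (hOle N) hTN))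
  have hT1' : T ≤ M₁ := hT12.trans inf_le_left
  have hT2' : T ≤ M₂ := hT12.trans inf_le_right
  wlog hmax1 : ∀ S : Subgroup G, IsPGroup p S → T ≤ S → S ≤ M₁ → S ≤ T generalizing M₁ M₂
  · rcases hdich M₂ hM₂ hT2' with h | h
    · exact this M₂ M₁ hM₂ hM₁ hne.symm (inf_comm M₁ M₂ ▸ hT12) hT2' hT1' h
    · rcases hdich M₁ hM₁ hT1' with h' | h'
      · exact absurd h' hmax1
      · exact absurd (h'.symm.trans h) hne
  by_cases hmax2 : ∀ S : Subgroup G, IsPGroup p S → T ≤ S → S ≤ M₂ → S ≤ T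
  · exact ⟨M₁, M₂, hM₁, hM₂, hne, (hOT M₁ hM₁ hT1' hmax1).trans hT2',
      (hOT M₂ hM₂ hT2' hmax2).trans hT1'⟩
  push Not at hmax2
  obtain ⟨S, hS, hTS, hSM, hST⟩ := hmax2
  obtain ⟨x, hx, hxT⟩ := SetLike.exists_of_lt (lt_inf_normalizer hS (lt_of_le_not_ge hTS hST))
  obtain ⟨hxS, hxN⟩ := Subgroup.mem_inf.mp hx
  have hxM : x ∉ M₁ := fun h => hxT (hmax1 (T ⊔ Subgroup.zpowers x)
    (hS.to_le (sup_le hTS (Subgroup.zpowers_le_of_mem hxS))) le_sup_left
    (sup_le hT1' (Subgroup.zpowers_le_of_mem h)) (Subgroup.mem_sup_right (Subgroup.mem_zpowers x)))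
  refine ⟨M₁, M₁.map (MulAut.conj x).toMonoidHom, hM₁, hconj M₁ hM₁ x, ?_, ?_, ?_⟩
  · intro h
    exact hxM (hself M₁ hM₁ ▸ Subgroup.mem_normalizer_iff_map_conj_eq.mpr h.symm)
  · intro y hy
    exact mem_map_conj_iff.mpr (hT1' (by
      simpa using conj_mem_of_le_normalizer' (G := T) (A := Subgroup.normalizer (T : Set G)) le_rfl hxN
        (hOT M₁ hM₁ hT1' hmax1 hy)))
  · intro y hy
    set M' := M₁.map (MulAut.conj x).toMonoidHom with hM'
    have hback : (O M').map (MulAut.conj x⁻¹).toMonoidHom ≤ O M₁ := by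
      refine le_core_map ?_ ?_ ((hOpg M').map _)
      · have := Subgroup.map_mono (f := (MulAut.conj x⁻¹).toMonoidHom) (hOle M')
        rwa [hM', map_conj_map_conj, inv_mul_cancel, map_conj_one] at this
      · intro m hm
        rw [Subgroup.mem_normalizer_iff_map_conj_eq]
        have hm' : x * m * x⁻¹ ∈ Subgroup.normalizer (O M' : Set G) :=
          le_normalizer_core_map Subgroup.le_normalizer ⟨m, hm, rfl⟩
        have := map_conj_eq_of_mem_normalizer hm'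
        conv_rhs => rw [← this, map_conj_map_conj]
        show ((O M').map (MulAut.conj x⁻¹).toMonoidHom).map (MulAut.conj m).toMonoidHom = _
        rw [map_conj_map_conj]
        congr 2
        group
    have h1 : x⁻¹ * y * x ∈ T := hOT M₁ hM₁ hT1' hmax1 (hback ⟨y, hy, by simp⟩)
    have h2 := conj_mem_of_le_normalizer (G := T) (A := Subgroup.normalizer (T : Set G)) le_rfl hxN h1
    exact hT1' (by simpa [mul_assoc] using h2)

end Cfsg.Agent.S3751
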