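import Cfsg.Statements.S3755
import Cfsg.Agent.Constrained.DihedralLemma
import Cfsg.Agent.Involution.Dihedral
import Cfsg.Agent.Coprime.Generation
import Cfsg.Agent.Constrained.Basic
import Cfsg.Agent.Eq.Def_LocalEven
-- import your own Cfsg.Agent.* helpers here

set_option autoImplicit false
open Cfsg

namespace Cfsg.Agent.S3755

open CfsgLib CfsgLib.Coprime
open scoped commutatorElement

section
variable {X : Type*} [Group X] [Finite X]

theorem isPGroup_two {A : Subgroup X} (hA : Cfsg.IsElementaryAbelian 2 A) : IsPGroup 2 A :=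
  fun a => ⟨1, Subtype.ext (by simpa using hA.2 a.1 a.2)⟩

/-- A `2`-group normalising a non-trivial `2`-group fixes a non-trivial point. -/
theorem exists_fixed {B W : Subgroup X} (hB : IsPGroup 2 B) (hW : IsPGroup 2 W) (hW1 : W ≠ ⊥)
    (hBW : B ≤ Subgroup.normalizer (W : Set X)) :
    W ⊓ Subgroup.centralizer (B : Set X) ≠ ⊥ := by
  haveI : Fact (Nat.Prime 2) := ⟨Nat.prime_two⟩
  letI : MulAction B W :=
    { smul := fun b w => ⟨b * w * (b : X)⁻¹, conj_mem_of_le_normalizer hBW b.2 w.2⟩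
      one_smul := fun w => Subtype.ext (show (1 : X) * w * (1 : X)⁻¹ = w by simp)
      mul_smul := fun a b w => Subtype.ext (show ((a : X) * b) * w * ((a : X) * b)⁻¹ =
        a * ((b : X) * w * (b : X)⁻¹) * (a : X)⁻¹ by simp [mul_assoc]) }
  have hfix1 : (1 : W) ∈ MulAction.fixedPoints B W := fun b =>
    Subtype.ext (show (b : X) * (1 : X) * (b : X)⁻¹ = 1 by simp)
  have hdiv : 2 ∣ Nat.card W := by
    obtain ⟨n, hn⟩ := IsPGroup.iff_card.mp hW
    have : n ≠ 0 := by
      rintro rfl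
      exact hW1 (Subgroup.card_eq_one.mp (by simpa using hn))
    rw [hn]
    exact dvd_pow_self 2 this
  obtain ⟨w, hw, hw1⟩ :=
    hB.exists_fixed_point_of_prime_dvd_card_of_fixed_point W hdiv hfix1
  intro h
  have : (w : X) ∈ W ⊓ Subgroup.centralizer (B : Set X) := Subgroup.mem_inf.mpr ⟨w.2,
    Subgroup.mem_centralizer_iff.mpr fun b hb => by
      have h1 : b * w * b⁻¹ = w := congrArg Subtype.val (hw ⟨b, hb⟩)
      exact mul_inv_eq_iff_eq_mul.mp h1⟩
  rw [h, Subgroup.mem_bot] at this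
  exact hw1 (Subtype.ext this.symm)

theorem conj_mem_centralizer {V T : Subgroup X} {g v : X} (hg : g ∈ Subgroup.normalizer (V : Set X))
    (hgT : ∀ t ∈ T, Commute g t) (hv : v ∈ V ⊓ Subgroup.centralizer (T : Set X)) :
    g * v * g⁻¹ ∈ V ⊓ Subgroup.centralizer (T : Set X) := by
  obtain ⟨hvV, hvT⟩ := Subgroup.mem_inf.mp hv
  refine Subgroup.mem_inf.mpr ⟨(Subgroup.mem_normalizer_iff.mp hg v).mp hvV, Subgroup.mem_centralizer_iff.mpr fun t ht => ?_⟩
  have h1 : Commute t v := Subgroup.mem_centralizer_iff.mp hvT t ht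
  exact (((hgT t ht).symm.mul_right h1).mul_right (hgT t ht).symm.inv_right).eq

/-- The `A × B` lemma, for abelian `V`. -/
theorem commute_of_fixed {V B : Subgroup X} (hV : Cfsg.IsElementaryAbelian 2 V)
    (hB : Cfsg.IsElementaryAbelian 2 B) (hBV : B ≤ Subgroup.normalizer (V : Set X)) {x : X}
    (hxV : x ∈ Subgroup.normalizer (V : Set X)) (hx : Odd (orderOf x))
    (hxB : ∀ b ∈ B, Commute b x)
    (hfix : ∀ v ∈ V ⊓ Subgroup.centralizer (B : Set X), Commute x v) :
    ∀ v ∈ V, Commute x v := by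
  set P := Subgroup.zpowers x with hP
  have hPV : P ≤ Subgroup.normalizer (V : Set X) := Subgroup.zpowers_le_of_mem hxV
  have hcop : (Nat.card P).Coprime (Nat.card V) :=
    (DihedralLemma.coprime_card_two hV (by rw [hP, Nat.card_zpowers]; exact hx)).symm
  have hBP : B ≤ Subgroup.normalizer (P : Set X) := le_normalizer_of_conj_mem fun b hb y hy => by
    obtain ⟨k, rfl⟩ := Subgroup.mem_zpowers_iff.mp hy
    rw [((hxB b hb).zpow_right k).eq, mul_inv_cancel_right]
    exact hy
  suffices hW : ⁅V, P⁆ = ⊥ by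
    intro v hv
    exact Subgroup.mem_centralizer_iff.mp
      (Subgroup.commutator_eq_bot_iff_le_centralizer.mp hW hv) x (Subgroup.mem_zpowers x)
  have hWV : ⁅V, P⁆ ≤ V := commutator_le_of_le_normalizer hPV
  by_contra hW
  refine exists_fixed (isPGroup_two hB) ((isPGroup_two hV).to_le hWV) hW ?_ ?_
  · intro b hb
    rw [Subgroup.mem_normalizer_iff_map_conj_eq, Subgroup.map_commutator,
      Subgroup.mem_normalizer_iff_map_conj_eq.mp (hBV hb),
      Subgroup.mem_normalizer_iff_map_conj_eq.mp (hBP hb)]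
  · rw [eq_bot_iff, ← commutator_inf_centralizer_eq_bot hV.1 hPV hcop]
    refine fun w hw => Subgroup.mem_inf.mpr ⟨(Subgroup.mem_inf.mp hw).1,
      Subgroup.mem_centralizer_iff.mpr fun y hy => ?_⟩
    obtain ⟨k, rfl⟩ := Subgroup.mem_zpowers_iff.mp hy
    exact ((hfix w (Subgroup.mem_inf.mpr
      ⟨hWV (Subgroup.mem_inf.mp hw).1, (Subgroup.mem_inf.mp hw).2⟩)).zpow_left k).eq

/-- An element of prime order `q > 3` inverted by an involution `a` moves enough points. -/
theorem four_le_relIndex {W : Subgroup X} (hW : Cfsg.IsElementaryAbelian 2 W) {a x : X} {q : ℕ}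
    (hq : q.Prime) (hq3 : 3 < q) (hx : orderOf x = q) (ha : a ∈ Subgroup.normalizer (W : Set X))
    (hxW : x ∈ Subgroup.normalizer (W : Set X)) (hinv : a * x * a⁻¹ = x⁻¹)
    (hne : ¬ W ≤ Subgroup.centralizer ({x} : Set X)) :
    4 ≤ (W ⊓ Subgroup.centralizer ({a} : Set X)).relIndex W := by
  classical
  set C := W ⊓ Subgroup.centralizer ({a} : Set X) with hC
  obtain ⟨n, hn⟩ := IsPGroup.iff_card.mp (isPGroup_two hW)
  have hdvd : C.relIndex W ∣ Nat.card W := Subgroup.index_dvd_card _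
  rw [hn] at hdvd
  obtain ⟨k, _, hk⟩ := (Nat.dvd_prime_pow Nat.prime_two).mp hdvd
  by_contra hlt
  have hC2 : C.relIndex W ≤ 2 := by
    rcases k with _ | _ | k
    · simp [hk]
    · simp [hk]
    · rw [hk, pow_succ, pow_succ] at hlt
      have : 0 < 2 ^ k := pow_pos two_pos k
      omega
  set f := (MulAut.conj x).toMonoidHom with hf
  have hWmap : W.map f = W := Subgroup.mem_normalizer_iff_map_conj_eq.mp hxW
  have hC'2 : (C.map f).relIndex W ≤ 2 := by
    rw [← hWmap, Subgroup.relIndex_map_map_of_injective _ _ (MulAut.conj x).injective]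
    exact hC2
  set D := C ⊓ C.map f with hD
  have hD4 : D.relIndex W ≤ 4 :=
    le_trans Subgroup.relIndex_inf_le (Nat.mul_le_mul hC2 hC'2)
  have hodd : Odd (orderOf x) := hx ▸ hq.odd_of_ne_two (by omega)
  have hDx : ∀ v ∈ D, Commute x v := by
    intro v hv
    obtain ⟨h1, h2⟩ := Subgroup.mem_inf.mp hv
    obtain ⟨w, hw, hwv⟩ := h2
    have c1 : Commute a v :=
      (Subgroup.mem_centralizer_singleton_iff.mp (Subgroup.mem_inf.mp h1).2).symm
    have c2 : Commute a w :=
      (Subgroup.mem_centralizer_singleton_iff.mp (Subgroup.mem_inf.mp hw).2).symm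
    have hwv' : x * w * x⁻¹ = v := by simpa [hf] using hwv
    have c3 : Commute (x * a * x⁻¹) v := by
      show x * a * x⁻¹ * v = v * (x * a * x⁻¹)
      calc x * a * x⁻¹ * v = x * (a * w) * x⁻¹ := by rw [← hwv']; group
        _ = x * (w * a) * x⁻¹ := by rw [c2.eq]
        _ = v * (x * a * x⁻¹) := by rw [← hwv']; group
    have e : x * a * x⁻¹ = x ^ 2 * a := by
      have e1 : a * x⁻¹ = x * a := by
        have h := congrArg (·⁻¹) hinv
        simp only [mul_inv_rev, inv_inv] at h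
        rw [← mul_assoc, mul_inv_eq_iff_eq_mul] at h
        exact h
      rw [mul_assoc, e1, ← mul_assoc, ← sq]
    rw [e] at c3
    have c4 : Commute (x ^ 2) v := by
      have := c3.mul_left c1.inv_left
      rwa [mul_inv_cancel_right] at this
    exact (DihedralLemma.commute_of_commute_sq hodd c4.symm).symm
  set P := Subgroup.zpowers x with hP
  have hPW : P ≤ Subgroup.normalizer (W : Set X) := Subgroup.zpowers_le_of_mem hxW
  have hcop : (Nat.card P).Coprime (Nat.card W) :=
    (DihedralLemma.coprime_card_two hW (by rw [hP, Nat.card_zpowers]; exact hodd)).symm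
  set T := ⁅W, P⁆ with hT
  have hTW : T ≤ W := commutator_le_of_le_normalizer hPW
  have hT1 : T ≠ ⊥ := fun h => hne fun w hw => Subgroup.mem_centralizer_singleton_iff.mpr
    (Subgroup.mem_centralizer_iff.mp (Subgroup.commutator_eq_bot_iff_le_centralizer.mp h hw) x
      (Subgroup.mem_zpowers x)).symm
  have hTD : T ⊓ D = ⊥ := by
    rw [eq_bot_iff, ← commutator_inf_centralizer_eq_bot hW.1 hPW hcop]
    refine fun w hw => Subgroup.mem_inf.mpr ⟨(Subgroup.mem_inf.mp hw).1,
      Subgroup.mem_centralizer_iff.mpr fun y hy => ?_⟩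
    obtain ⟨i, rfl⟩ := Subgroup.mem_zpowers_iff.mp hy
    exact ((hDx w (Subgroup.mem_inf.mp hw).2).zpow_left i).eq
  have hT4 : Nat.card T ≤ 4 := by
    have h1 : D.relIndex T = Nat.card T := by
      rw [← Subgroup.inf_relIndex_right, inf_comm, hTD, Subgroup.relIndex_bot_left]
    rw [← h1]
    refine le_trans (Subgroup.relIndex_le_of_le_right hTW ?_) hD4
    intro h0
    exact (Subgroup.index_ne_zero_of_finite (H := D.subgroupOf W)) h0
  obtain ⟨t, ht, ht1⟩ := (Subgroup.bot_or_exists_ne_one T).resolve_left hT1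
  have hxT : x ∈ Subgroup.normalizer (T : Set X) := by
    have hWP : P ≤ Subgroup.normalizer (P : Set X) := Subgroup.le_normalizer
    rw [Subgroup.mem_normalizer_iff_map_conj_eq, hT, Subgroup.map_commutator,
      Subgroup.mem_normalizer_iff_map_conj_eq.mp hxW,
      Subgroup.mem_normalizer_iff_map_conj_eq.mp (hWP (Subgroup.mem_zpowers x))]
  let g : Option (Fin q) → T := fun o => o.elim 1 fun i =>
    ⟨x ^ (i : ℕ) * t * (x ^ (i : ℕ))⁻¹,
      (Subgroup.mem_normalizer_iff.mp (pow_mem hxT (i : ℕ)) t).mp ht⟩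
  have hinj' : ∀ i j : Fin q, (i : ℕ) ≤ j →
      x ^ (i : ℕ) * t * (x ^ (i : ℕ))⁻¹ = x ^ (j : ℕ) * t * (x ^ (j : ℕ))⁻¹ → i = j := by
    intro i j hij he
    by_contra hne'
    obtain ⟨m, hm⟩ := Nat.exists_eq_add_of_le hij
    have hm0 : m ≠ 0 := fun h => hne' (Fin.ext (by omega))
    have hmq : m < q := by have := j.2; omega
    rw [hm, pow_add] at he
    simp only [mul_inv_rev, mul_assoc, mul_right_inj] at he
    simp only [← mul_assoc, mul_left_inj] at he
    have hc : Commute (x ^ m) t := (mul_inv_eq_iff_eq_mul.mp he.symm)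
    have hcm : m.Coprime (orderOf x) := by
      rw [hx, Nat.coprime_comm]
      exact (hq.coprime_iff_not_dvd).mpr fun h => by
        have := Nat.le_of_dvd (Nat.pos_of_ne_zero hm0) h
        omega
    obtain ⟨l, hl⟩ := exists_pow_eq_self_of_coprime hcm
    have hxt : Commute x t := hl ▸ hc.pow_left l
    have : t ∈ T ⊓ Subgroup.centralizer (P : Set X) := Subgroup.mem_inf.mpr ⟨ht,
      Subgroup.mem_centralizer_iff.mpr fun y hy => by
        obtain ⟨i, rfl⟩ := Subgroup.mem_zpowers_iff.mp hy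
        exact (hxt.zpow_left i).eq⟩
    rw [hT, commutator_inf_centralizer_eq_bot hW.1 hPW hcop, Subgroup.mem_bot] at this
    exact ht1 this
  have hginj : Function.Injective g := by
    have h0 : ∀ i : Fin q, g (some i) ≠ 1 := fun i h => by
      have h' : x ^ (i : ℕ) * t * (x ^ (i : ℕ))⁻¹ = 1 := congrArg Subtype.val h
      rw [mul_inv_eq_one] at h'
      exact ht1 (mul_left_cancel (h'.trans (mul_one _).symm))
    intro o o' he
    match o, o', he with
    | none, none, _ => rfl
    | none, some i, he => exact absurd he.symm (h0 i)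
    | some i, none, he => exact absurd he (h0 i)
    | some i, some j, he =>
      have he' : x ^ (i : ℕ) * t * (x ^ (i : ℕ))⁻¹ = x ^ (j : ℕ) * t * (x ^ (j : ℕ))⁻¹ :=
        congrArg Subtype.val he
      rcases le_total (i : ℕ) j with h | h
      · rw [hinj' i j h he']
      · rw [hinj' j i h he'.symm]
  have := Nat.card_le_card_of_injective g hginj
  simp [Nat.card_eq_fintype_card] at this
  omega

/-- Without sections `S₃` an offender on `V` has index at least the square of its order. -/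
theorem sq_le_relIndex {V M L : Subgroup X} (hV : Cfsg.IsElementaryAbelian 2 V)
    (hMV : M ≤ Subgroup.normalizer (V : Set X)) (hLM : L ≤ M)
    (hML : M ≤ Subgroup.normalizer (L : Set X)) (hLodd : Odd (Nat.card L))
    (hfaith : M ⊓ Subgroup.centralizer (V : Set X) = ⊥)
    (h3 : ∀ a x : X, a ∈ M → x ∈ M → orderOf a = 2 → orderOf x = 3 → a * x * a⁻¹ = x⁻¹ → False) :
    ∀ A : Subgroup X, A ≤ M → Cfsg.IsElementaryAbelian 2 A →
      A ⊓ Subgroup.centralizer (L : Set X) = ⊥ →
      Nat.card A ^ 2 ≤ (V ⊓ Subgroup.centralizer (A : Set X)).relIndex V := by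
  intro A
  refine wellFounded_lt.induction (C := fun A : Subgroup X => A ≤ M →
      Cfsg.IsElementaryAbelian 2 A → A ⊓ Subgroup.centralizer (L : Set X) = ⊥ →
      Nat.card A ^ 2 ≤ (V ⊓ Subgroup.centralizer (A : Set X)).relIndex V) A ?_
  intro A ih hAM hA hf
  have hAL : A ≤ Subgroup.normalizer (L : Set X) := hAM.trans hML
  rcases eq_or_ne A ⊥ with rfl | hA1
  · rw [Subgroup.card_bot, one_pow]
    exact Nat.one_le_iff_ne_zero.mpr (Subgroup.index_ne_zero_of_finite)
  have hgen : ∃ B, B ≤ A ∧ (∃ a ∈ A, B ⊔ Subgroup.zpowers a = A) ∧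
      ¬ L ⊓ Subgroup.centralizer (B : Set X) ≤ Subgroup.centralizer (A : Set X) := by
    by_contra hcon
    simp only [not_exists, not_and, not_not] at hcon
    refine hA1 (le_bot_iff.mp (hf ▸ le_inf le_rfl (Subgroup.le_centralizer_iff.mp ?_)))
    exact le_of_cocyclic hA.1 hAL (DihedralLemma.coprime_card_two hA hLodd)
      fun B hB ⟨a, ha, h⟩ => hcon B hB ⟨a, ha, h⟩
  obtain ⟨B, hBA, ⟨a, ha, hsup⟩, hB⟩ := hgen
  obtain ⟨u, hu, huA⟩ := SetLike.not_le_iff_exists.mp hB
  obtain ⟨huL, huB⟩ := Subgroup.mem_inf.mp hu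
  have hne : ¬ Commute a u := by
    intro h
    refine huA (Subgroup.mem_centralizer_iff.mpr fun c hc => ?_)
    have : A ≤ Subgroup.centralizer ({u} : Set X) := by
      rw [← hsup]
      refine sup_le (fun b hb => ?_) (Subgroup.zpowers_le_of_mem ?_)
      · exact Subgroup.mem_centralizer_singleton_iff.mpr (Subgroup.mem_centralizer_iff.mp huB b hb)
      · exact Subgroup.mem_centralizer_singleton_iff.mpr h.eq
    exact Subgroup.mem_centralizer_singleton_iff.mp (this hc)
  have haB : a ∉ B := fun h => hne (Subgroup.mem_centralizer_iff.mp huB a h)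
  set x₀ := u⁻¹ * (a * u * a⁻¹) with hx₀
  have hx₀L : x₀ ∈ L := mul_mem (inv_mem huL) (conj_mem_of_le_normalizer hAL ha huL)
  have hx₀1 : x₀ ≠ 1 := by
    intro h
    rw [hx₀, inv_mul_eq_one, eq_mul_inv_iff_mul_eq] at h
    exact hne h.symm
  have hinv₀ : a * x₀ * a⁻¹ = x₀⁻¹ := by
    have e : a⁻¹ = a := DihedralLemma.inv_eq_of_mem hA ha
    have e2 : a * a = 1 := by rw [← sq]; exact hA.2 a ha
    rw [hx₀, e]
    simp only [mul_inv_rev, inv_inv, e, mul_assoc]
    rw [e2, mul_one]
  have hBx₀ : ∀ b ∈ B, Commute b x₀ := fun b hb => by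
    have h1 : Commute b u := Subgroup.mem_centralizer_iff.mp huB b hb
    have h2 : Commute b a := DihedralLemma.comm_of_mem hA (hBA hb) ha
    exact h1.inv_right.mul_right ((h2.mul_right h1).mul_right h2.inv_right)
  obtain ⟨q, hq, m, hm⟩ := Nat.exists_prime_and_dvd
    (n := orderOf x₀) (fun h => hx₀1 (orderOf_eq_one_iff.mp h))
  set x := x₀ ^ m with hx
  have hxq : orderOf x = q := by
    rw [hx, orderOf_pow, hm, Nat.gcd_eq_right (Dvd.intro_left q rfl)]
    refine Nat.mul_div_cancel q (Nat.pos_of_ne_zero ?_)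
    rintro rfl
    exact (orderOf_pos x₀).ne' (by simpa using hm)
  have hxL : x ∈ L := pow_mem hx₀L m
  have hinv : a * x * a⁻¹ = x⁻¹ := by rw [hx, ← conj_pow, hinv₀, inv_pow]
  have hBx : ∀ b ∈ B, Commute b x := fun b hb => (hBx₀ b hb).pow_right m
  have hxodd : Odd (orderOf x) := DihedralLemma.odd_orderOf hLodd hxL
  have hq3 : 3 < q := by
    have h5 := hxq ▸ hxodd
    obtain ⟨k, hk⟩ := h5
    by_contra h
    have h1 := hq.two_le
    have : q = 3 := by omega
    exact h3 a x (hAM ha) (hLM hxL) (DihedralLemma.orderOf_eq_two hA ha fun h => haB (h ▸ B.one_mem))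
      (hxq.trans this) hinv
  set W := V ⊓ Subgroup.centralizer (B : Set X) with hW
  have hWe : Cfsg.IsElementaryAbelian 2 W :=
    ⟨⟨⟨fun p r => Subtype.ext (DihedralLemma.comm_of_mem hV (Subgroup.mem_inf.mp p.2).1
      (Subgroup.mem_inf.mp r.2).1).eq⟩⟩, fun w hw => hV.2 w (Subgroup.mem_inf.mp hw).1⟩
  have hnorm : ∀ g, g ∈ Subgroup.normalizer (V : Set X) → (∀ b ∈ B, Commute g b) →
      g ∈ Subgroup.normalizer (W : Set X) := by
    intro g hg hgB
    refine Subgroup.mem_normalizer_iff.mpr fun v =>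
      ⟨fun hv => conj_mem_centralizer hg hgB hv, fun hv => ?_⟩
    have := conj_mem_centralizer (inv_mem hg) (fun b hb => (hgB b hb).inv_left) hv
    simpa [hW, mul_assoc] using this
  have hxW := hnorm x (hMV (hLM hxL)) fun b hb => (hBx b hb).symm
  have haW := hnorm a (hMV (hAM ha)) fun b hb => DihedralLemma.comm_of_mem hA ha (hBA hb)
  have hxne : ¬ W ≤ Subgroup.centralizer ({x} : Set X) := by
    intro h
    have hB' : Cfsg.IsElementaryAbelian 2 B := ⟨⟨⟨fun p r => Subtype.ext
      (DihedralLemma.comm_of_mem hA (hBA p.2) (hBA r.2)).eq⟩⟩, fun b hb => hA.2 b (hBA hb)⟩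
    have hall := commute_of_fixed hV hB' ((hBA.trans hAM).trans hMV) (hMV (hLM hxL)) hxodd hBx
      fun v hv => (Subgroup.mem_centralizer_singleton_iff.mp (h hv)).symm
    have : x ∈ M ⊓ Subgroup.centralizer (V : Set X) := Subgroup.mem_inf.mpr ⟨hLM hxL,
      Subgroup.mem_centralizer_iff.mpr fun v hv => (hall v hv).symm.eq⟩
    rw [hfaith, Subgroup.mem_bot] at this
    rw [this, orderOf_one] at hxq
    exact hq.ne_one hxq.symm
  have h4 := four_le_relIndex hWe hq hq3 hxq haW hxW hinv hxne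
  have hBlt : B < A := lt_of_le_of_ne hBA fun h => haB (h ▸ ha)
  have hIH := ih B hBlt (hBA.trans hAM)
    ⟨⟨⟨fun p r => Subtype.ext (DihedralLemma.comm_of_mem hA (hBA p.2) (hBA r.2)).eq⟩⟩,
      fun b hb => hA.2 b (hBA hb)⟩
    (le_bot_iff.mp (hf ▸ inf_le_inf_right _ hBA))
  have hCA : V ⊓ Subgroup.centralizer (A : Set X) = W ⊓ Subgroup.centralizer ({a} : Set X) := by
    ext v
    simp only [hW, Subgroup.mem_inf, Subgroup.mem_centralizer_iff, SetLike.mem_coe,
      Set.mem_singleton_iff, forall_eq]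
    refine ⟨fun ⟨h1, h2⟩ => ⟨⟨h1, fun b hb => h2 b (hBA hb)⟩, h2 a ha⟩,
      fun ⟨⟨h1, h2⟩, h3⟩ => ⟨h1, fun c hc => ?_⟩⟩
    have : A ≤ Subgroup.centralizer ({v} : Set X) := by
      rw [← hsup]
      refine sup_le (fun b hb => Subgroup.mem_centralizer_singleton_iff.mpr (h2 b hb))
        (Subgroup.zpowers_le_of_mem (Subgroup.mem_centralizer_singleton_iff.mpr h3))
    exact Subgroup.mem_centralizer_singleton_iff.mp (this hc)
  rw [hCA, ← Subgroup.relIndex_mul_relIndex _ W V inf_le_left inf_le_left,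
    DihedralLemma.two_mul_card_of_sup hA hBA ha haB hsup, mul_pow]
  exact Nat.mul_le_mul h4 hIH

theorem involves_perm_three {M : Subgroup X} {a x : X} (ha : a ∈ M) (hx : x ∈ M)
    (ha2 : orderOf a = 2) (hx3 : orderOf x = 3) (hinv : a * x * a⁻¹ = x⁻¹) :
    Cfsg.Involves (Equiv.Perm (Fin 3)) ↥M := by
  classical
  set a' : M := ⟨a, ha⟩
  set x' : M := ⟨x, hx⟩
  have hax : orderOf a' = 2 := by rw [← Subgroup.orderOf_coe]; exact ha2
  have haa : a * a = 1 := by rw [← sq]; exact ha2 ▸ pow_orderOf_eq_one a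
  have hy : orderOf (a' * x') = 2 := by
    rw [← Subgroup.orderOf_coe]
    haveI : Fact (Nat.Prime 2) := ⟨Nat.prime_two⟩
    refine orderOf_eq_prime ?_ fun h => ?_
    · have e : a⁻¹ = a := inv_eq_of_mul_eq_one_right haa
      rw [e] at hinv
      show (a * x) ^ 2 = 1
      rw [sq, ← mul_assoc, hinv, inv_mul_cancel]
    · have h' : a * x = 1 := h
      rw [eq_inv_of_mul_eq_one_left h', orderOf_inv, hx3] at ha2
      exact absurd ha2 (by decide)
  have h3 : orderOf (a' * (a' * x')) = 3 := by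
    rw [← Subgroup.orderOf_coe]
    show orderOf (a * (a * x)) = 3
    rw [← mul_assoc, haa, one_mul, hx3]
  obtain ⟨e⟩ := CfsgLib.Involution.nonempty_dihedral_equiv hax hy
  rw [h3] at e
  set K := Subgroup.closure ({a', a' * x'} : Set M)
  refine ⟨K, ⊥, by rw [Subgroup.bot_subgroupOf]; infer_instance, ?_⟩
  haveI : Fact (Nat.Prime 2) := ⟨Nat.prime_two⟩
  have hk : Nat.card (Equiv.Perm (Fin 3)) = 6 := by
    rw [Nat.card_eq_fintype_card, Fintype.card_perm, Fintype.card_fin]; rfl
  obtain ⟨σ⟩ : Nonempty (DihedralGroup 3 ≃* Equiv.Perm (Fin 3)) := by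
    have hs : orderOf (Equiv.swap (0 : Fin 3) 1) = 2 :=
      orderOf_eq_prime (by decide) (by decide)
    have ht : orderOf (Equiv.swap (1 : Fin 3) 2) = 2 :=
      orderOf_eq_prime (by decide) (by decide)
    haveI : Fact (Nat.Prime 3) := ⟨Nat.prime_three⟩
    obtain ⟨σ⟩ := CfsgLib.Involution.nonempty_dihedral_equiv hs ht
    have h3' : orderOf (Equiv.swap (0 : Fin 3) 1 * Equiv.swap (1 : Fin 3) 2) = 3 :=
      orderOf_eq_prime (by decide) (by decide)
    rw [h3'] at σ
    have htop : Subgroup.closure ({Equiv.swap (0 : Fin 3) 1, Equiv.swap (1 : Fin 3) 2} :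
        Set (Equiv.Perm (Fin 3))) = ⊤ := by
      refine Subgroup.eq_top_of_card_eq _ ?_
      rw [Nat.card_congr σ.toEquiv, DihedralGroup.nat_card, hk]
    exact ⟨σ.symm.trans ((MulEquiv.subgroupCongr htop).trans Subgroup.topEquiv)⟩
  exact ⟨((QuotientGroup.quotientMulEquivOfEq (Subgroup.bot_subgroupOf K)).trans
    QuotientGroup.quotientBot).trans (e.trans σ)⟩

end

/-- Let M and V be subgroups of a finite group with V an elementary abelian 2-group, M normalizing V and acting faithfully on it (M ∩ C(V) = 1), and C_M(O_{2'}(M)) ≤ O_{2'}(M). If some elementary abelian 2-subgroup A of M satisfies |V : C_V(A)| < |A|², then M has a section isomorphic to the symmetric group of degree 3. -/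
theorem result {X : Type*} [Group X] [Finite X] (M V : Subgroup X) (hV : Cfsg.IsElementaryAbelian 2 V) (hMV : M ≤ Subgroup.normalizer (V : Set X)) (hfaith : M ⊓ Subgroup.centralizer (V : Set X) = ⊥) (hcon : Subgroup.centralizer (Cfsg.pPrimeCore 2 ↥M : Set ↥M) ≤ Cfsg.pPrimeCore 2 ↥M) (A : Subgroup X) (hAM : A ≤ M) (hA : Cfsg.IsElementaryAbelian 2 A) (hsmall : (V ⊓ Subgroup.centralizer (A : Set X)).relIndex V < Nat.card A ^ 2) : Cfsg.Involves (Equiv.Perm (Fin 3)) ↥M := by
  
  haveI : Fact (Nat.Prime 2) := ⟨Nat.prime_two⟩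
  by_contra hno
  set O := Cfsg.pPrimeCore 2 ↥M
  have hOodd : Odd (Nat.card (O.map M.subtype)) := by
    rw [Subgroup.card_map_of_injective M.subtype_injective]
    exact Nat.coprime_two_left.mp (CfsgLib.Constrained.pPrimeCore_coprime.symm)
  have hf : A ⊓ Subgroup.centralizer ((O.map M.subtype : Subgroup X) : Set X) = ⊥ := by
    rw [eq_bot_iff]
    intro c hc
    obtain ⟨hcA, hcO⟩ := Subgroup.mem_inf.mp hc
    have h1 : (⟨c, hAM hcA⟩ : M) ∈ O := hcon (Subgroup.mem_centralizer_iff.mpr fun o ho =>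
      Subtype.ext (Subgroup.mem_centralizer_iff.mp hcO _ (Subgroup.mem_map_of_mem M.subtype ho)))
    have h2 := CfsgLib.DihedralLemma.odd_orderOf hOodd (x := c) ⟨_, h1, rfl⟩
    rw [Subgroup.mem_bot]
    by_contra hc1
    rw [CfsgLib.DihedralLemma.orderOf_eq_two hA hcA hc1] at h2
    exact absurd h2 (by decide)
  have hML : M ≤ Subgroup.normalizer ((O.map M.subtype : Subgroup X) : Set X) :=
    CfsgLib.Coprime.le_normalizer_map_characteristic Subgroup.le_normalizer O
  exact absurd (sq_le_relIndex hV hMV (Subgroup.map_subtype_le _) hML hOodd hfaith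
    (fun a x ha hx ha2 hx3 hinv => hno (involves_perm_three ha hx ha2 hx3 hinv)) A hAM hA hf)
    (not_le.mpr hsmall)

end Cfsg.Agent.S3755
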