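import Cfsg.Statements.S3760
-- import your own Cfsg.Agent.* helpers here

set_option autoImplicit false
open Cfsg

namespace Cfsg.Agent.S3760

/-- Let the group G act transitively on a set X, let x ∈ X with stabilizer H = G_x, and let K ≤ H. Then N_G(K) acts transitively on the set of fixed points of K if and only if every G-conjugate of K contained in H is already an H-conjugate of K. -/
theorem result {G : Type*} [Group G] {X : Type*} [MulAction G X] (htrans : ∀ a b : X, ∃ g : G, g • a = b) (x : X) (K : Subgroup G) (hK : K ≤ MulAction.stabilizer G x) : (∀ a b : X, (∀ k ∈ K, k • a = a) → (∀ k ∈ K, k • b = b) → ∃ g ∈ Subgroup.normalizer (K : Set G), g • a = b) ↔ ∀ g : G, K.map (MulAut.conj g).toMonoidHom ≤ MulAction.stabilizer G x → ∃ h ∈ MulAction.stabilizer G x, K.map (MulAut.conj g).toMonoidHom = K.map (MulAut.conj h).toMonoidHom := by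
  have conj_mem : ∀ (g : G) (y : G), y ∈ K.map (MulAut.conj g).toMonoidHom ↔ g⁻¹ * y * g ∈ K := by
    intro g y
    constructor
    · rintro ⟨k, hk, rfl⟩
      simpa [mul_assoc] using hk
    · intro h
      exact ⟨_, h, by simp [mul_assoc]⟩
  constructor
  · intro h g hg
    have hfix : ∀ k ∈ K, k • (g⁻¹ • x) = g⁻¹ • x := by
      intro k hk
      have : (g * k * g⁻¹) • x = x := hg ((conj_mem g _).mpr (by simpa [mul_assoc] using hk))
      rw [mul_smul, mul_smul] at this
      exact eq_inv_smul_iff.mpr this
    obtain ⟨n, hn, hnx⟩ := h x (g⁻¹ • x) (fun k hk => hK hk) hfix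
    refine ⟨g * n, by simp [MulAction.mem_stabilizer_iff, mul_smul, hnx], ?_⟩
    ext y
    rw [conj_mem, conj_mem]
    have := Subgroup.mem_normalizer_iff.mp hn
    constructor
    · intro hy
      refine (this _).mpr ?_
      simpa [mul_assoc] using hy
    · intro hy
      simpa [mul_assoc] using (this _).mp hy
  · intro h
    have key : ∀ a : X, (∀ k ∈ K, k • a = a) → ∃ n ∈ Subgroup.normalizer (K : Set G), n • x = a := by
      intro a ha
      obtain ⟨g, rfl⟩ := htrans x a
      have hle : K.map (MulAut.conj g⁻¹).toMonoidHom ≤ MulAction.stabilizer G x := by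
        rintro y ⟨k, hk, rfl⟩
        simp [MulAction.mem_stabilizer_iff, mul_smul, ha k hk]
      obtain ⟨h₀, hh₀, he⟩ := h g⁻¹ hle
      refine ⟨g * h₀, Subgroup.mem_normalizer_iff.mpr fun y => ?_, ?_⟩
      · have := SetLike.ext_iff.mp he (h₀ * y * h₀⁻¹)
        rw [conj_mem, conj_mem] at this
        simpa [mul_assoc] using this.symm
      · rw [mul_smul, MulAction.mem_stabilizer_iff.mp hh₀]
    intro a b ha hb
    obtain ⟨n, hn, rfl⟩ := key a ha
    obtain ⟨m, hm, rfl⟩ := key b hb
    exact ⟨m * n⁻¹, mul_mem hm (inv_mem hn), by simp [mul_smul]⟩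

end Cfsg.Agent.S3760
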