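import Cfsg.Statements.S3761
import Cfsg.Agent.TwoGroup.NormalRankOne
import Cfsg.Agent.TwoGroup.CyclicNormalPrime
import Cfsg.Agent.PGroup.UniqueOrderP

set_option autoImplicit false
open Cfsg

namespace Cfsg.Agent.S3761

/-- Let G be a finite non-abelian p-group with a cyclic normal subgroup U of order p^n such that C_G(U) = U. Then either p = 2 and G is dihedral, generalized quaternion or semidihedral of order 2^(n+1); or, writing U₁ for the subgroup generated by the p-th powers of elements of U and M = C_G(U₁), the subgroup U has index p in M and the subgroup Ω₁(M) generated by the elements of M of order dividing p is elementary abelian of order p² and characteristic in G. -/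
theorem result {G : Type*} [Group G] [Finite G] {p : ℕ} [Fact p.Prime] (hG : IsPGroup p G) (hna : ¬ IsMulCommutative G) (U : Subgroup G) [U.Normal] (hU : IsCyclic U) (n : ℕ) (hUn : Nat.card U = p ^ n) (hC : Subgroup.centralizer (U : Set G) = U) : (p = 2 ∧ Nat.card G = 2 ^ (n + 1) ∧ ((∃ m : ℕ, Nonempty (G ≃* DihedralGroup m)) ∨ (∃ m : ℕ, Nonempty (G ≃* QuaternionGroup m)) ∨ Cfsg.IsQuasiDihedral G)) ∨ (U.relIndex (Subgroup.centralizer (Cfsg.powerClosure p 1 U : Set G)) = p ∧ Cfsg.IsElementaryAbelian p (Cfsg.omegaOne p (Subgroup.centralizer (Cfsg.powerClosure p 1 U : Set G))) ∧ Nat.card ↥(Cfsg.omegaOne p (Subgroup.centralizer (Cfsg.powerClosure p 1 U : Set G))) = p ^ 2 ∧ (Cfsg.omegaOne p (Subgroup.centralizer (Cfsg.powerClosure p 1 U : Set G))).Characteristic) := by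
  have hp' : p.Prime := Fact.out
  obtain ⟨u₀, hu₀⟩ := hU.exists_generator
  obtain ⟨u, hUu⟩ : ∃ u : G, U = Subgroup.zpowers u :=
    ⟨u₀, le_antisymm (fun a ha => by
      obtain ⟨k, hk⟩ := hu₀ ⟨a, ha⟩
      exact ⟨k, by simpa using congrArg Subtype.val hk⟩) (Subgroup.zpowers_le.2 u₀.2)⟩
  clear hu₀ u₀
  subst hUu
  rw [Nat.card_zpowers] at hUn
  have hM : Subgroup.centralizer (Cfsg.powerClosure p 1 (Subgroup.zpowers u) : Set G) =
      Subgroup.centralizer ({u ^ p} : Set G) := by
    have hP : Cfsg.powerClosure p 1 (Subgroup.zpowers u) = Subgroup.zpowers (u ^ p) := by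
      refine le_antisymm ((Subgroup.closure_le _).2 ?_)
        (Subgroup.zpowers_le.2 (Subgroup.subset_closure ⟨u, Subgroup.mem_zpowers u, by rw [pow_one]⟩))
      rintro _ ⟨_, ⟨k, rfl⟩, rfl⟩
      refine ⟨k, ?_⟩
      show (u ^ p) ^ k = (u ^ k) ^ (p ^ 1)
      rw [pow_one, ← zpow_natCast u p, ← zpow_mul, mul_comm, zpow_mul, zpow_natCast]
    ext g
    rw [hP, Subgroup.mem_centralizer_singleton_iff, Subgroup.mem_centralizer_iff]
    constructor
    · intro h; exact (h _ (Subgroup.mem_zpowers _)).symm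
    · rintro h _ ⟨k, rfl⟩; exact ((show Commute g (u ^ p) from h).zpow_right k).eq.symm
  rw [hM]
  have hne : Subgroup.zpowers u ≠ ⊤ := by
    intro h
    have hcy : IsCyclic G :=
      ⟨u, fun g => Subgroup.mem_zpowers_iff.1 (h.symm ▸ Subgroup.mem_top g : g ∈ Subgroup.zpowers u)⟩
    exact hna (isMulCommutative_iff.2 fun a b => (IsCyclic.commGroup (α := G)).mul_comm a b)
  by_cases hmc : p = 2 ∧ (3 ≤ n → ∀ g : G, g * u * g⁻¹ ≠ u ^ (1 + 2 ^ (n - 1)))
  · obtain ⟨rfl, hno⟩ := hmc
    obtain ⟨-, hG2, hmax⟩ :=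
      CfsgLib.TwoGroup.isMaxClassType_of_selfCentralizing hG hUn inferInstance hC hne hno
    refine Or.inl ⟨rfl, hG2, ?_⟩
    rcases hmax.dihedral_or_quaternion_or_quasiDihedral with ⟨k, hk⟩ | ⟨k, hk⟩ | h
    exacts [Or.inl ⟨_, hk⟩, Or.inr (Or.inl ⟨_, hk⟩), Or.inr (Or.inr h)]
  right
  -- it suffices to know the index and the shape of `Ω₁(M)`
  suffices key : (Subgroup.zpowers u).relIndex (Subgroup.centralizer ({u ^ p} : Set G)) = p ∧
      IsElementaryAbelian p (omegaOne p (Subgroup.centralizer ({u ^ p} : Set G))) ∧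
      Nat.card ↥(omegaOne p (Subgroup.centralizer ({u ^ p} : Set G))) = p ^ 2 by
    obtain ⟨h1, h2, h3⟩ := key
    refine ⟨h1, h2, h3, ?_⟩
    have hMn : (Subgroup.centralizer ({u ^ p} : Set G)).Normal := by
      rw [← hM]
      have : (Cfsg.powerClosure p 1 (Subgroup.zpowers u)).Normal := by
        refine ⟨fun x hx g => ?_⟩
        have hle : (Cfsg.powerClosure p 1 (Subgroup.zpowers u)).map (MulAut.conj g).toMonoidHom ≤
            Cfsg.powerClosure p 1 (Subgroup.zpowers u) := by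
          rw [Cfsg.powerClosure, MonoidHom.map_closure, Subgroup.closure_le]
          rintro _ ⟨_, ⟨y, hy, rfl⟩, rfl⟩
          exact Subgroup.subset_closure ⟨g * y * g⁻¹,
            (inferInstance : (Subgroup.zpowers u).Normal).conj_mem y hy g, by simp [conj_pow]⟩
        exact hle ⟨x, hx, rfl⟩
      exact Subgroup.normal_centralizer
    rw [Subgroup.characteristic_iff_map_eq]
    intro σ
    have hle : (omegaOne p (Subgroup.centralizer ({u ^ p} : Set G))).map σ.toMonoidHom ≤
        omegaOne p (Subgroup.centralizer ({u ^ p} : Set G)) := by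
      rintro _ ⟨e, he, rfl⟩
      have hep : σ.toMonoidHom e ^ p = 1 := by rw [← map_pow, h2.2 e he, map_one]
      refine CfsgLib.PGroup.mem_omegaOne ?_ hep
      haveI : (omegaOne p (Subgroup.centralizer ({u ^ p} : Set G))).Normal := CfsgLib.PGroup.omegaOne_normal
      set c := σ e * u * (σ e)⁻¹ * u⁻¹ with hc
      have hcE : ∃ d ∈ omegaOne p (Subgroup.centralizer ({u ^ p} : Set G)), σ d = c := by
        obtain ⟨w, hw⟩ := σ.surjective u
        refine ⟨e * (w * e⁻¹ * w⁻¹), mul_mem he ((inferInstance :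
          (omegaOne p (Subgroup.centralizer ({u ^ p} : Set G))).Normal).conj_mem _ (inv_mem he) w), ?_⟩
        rw [hc, ← hw, map_mul, map_mul, map_mul, map_inv, map_inv]; group
      obtain ⟨d, hd, hdc⟩ := hcE
      have hcp : c ^ p = 1 := by rw [← hdc, ← map_pow, h2.2 d hd, map_one]
      have hcU : c ∈ Subgroup.zpowers u :=
        mul_mem ((inferInstance : (Subgroup.zpowers u).Normal).conj_mem u (Subgroup.mem_zpowers u) (σ e))
          (inv_mem (Subgroup.mem_zpowers u))
      obtain ⟨i, hi⟩ := hcU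
      have hcu : Commute c u := by rw [← hi]; exact Commute.zpow_self u i
      rw [Subgroup.mem_centralizer_singleton_iff, ← mul_inv_eq_iff_eq_mul]
      show σ e * u ^ p * (σ e)⁻¹ = u ^ p
      rw [← conj_pow, show σ e * u * (σ e)⁻¹ = c * u by rw [hc]; group, hcu.mul_pow, hcp, one_mul]
    refine Subgroup.eq_of_le_of_card_ge hle ?_
    rw [Subgroup.card_map_of_injective (f := σ.toMonoidHom) σ.injective]
  by_cases hp2 : p = 2
  · subst hp2
    simp only [true_and, not_forall, ne_eq, not_not] at hmc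
    obtain ⟨h3, g, hg⟩ := hmc
    obtain ⟨hE, hEc, hidx, -⟩ :=
      CfsgLib.TwoGroup.omega_of_modular_action h3 hUn inferInstance hC hg
    exact ⟨hidx, hE, hEc⟩
  obtain ⟨ψ, hψ, hker⟩ := CfsgLib.TwoGroup.exists_cyclicAction hUn (inferInstance : (Subgroup.zpowers u).Normal)
  rw [hC] at hker
  obtain ⟨g, hg, hgp⟩ : ∃ g : G, g ∉ Subgroup.zpowers u ∧ g ^ p ∈ Subgroup.zpowers u := by
    have hdvd : p ∣ Nat.card (G ⧸ Subgroup.zpowers u) := by
      obtain ⟨k, hk⟩ := IsPGroup.iff_card.1 (hG.to_quotient (Subgroup.zpowers u))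
      rcases k with _ | k
      · exact absurd (Subgroup.index_eq_one.1 (by rw [Subgroup.index_eq_card, hk, pow_zero])) hne
      · exact hk ▸ dvd_pow_self p k.succ_ne_zero
    obtain ⟨x, hx⟩ := exists_prime_orderOf_dvd_card' p hdvd
    obtain ⟨g, rfl⟩ := QuotientGroup.mk_surjective x
    refine ⟨g, fun h => ?_, ?_⟩
    · rw [(QuotientGroup.eq_one_iff g).2 h, orderOf_one] at hx
      exact hp'.one_lt.ne hx
    · rw [← QuotientGroup.eq_one_iff, QuotientGroup.mk_pow, ← hx, pow_orderOf_eq_one]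
  obtain ⟨m, rfl⟩ : ∃ m, n = m + 1 := by
    refine ⟨n - 1, ?_⟩
    by_contra hn0
    have : Subsingleton (ZMod (p ^ n))ˣ := by
      rw [show n = 0 by omega]; show Subsingleton (ZMod 1)ˣ; infer_instance
    exact hg (hker ▸ MonoidHom.mem_ker.2 (Subsingleton.elim _ _))
  have hgψ : (ψ g : ZMod (p ^ (m + 1))) ^ p = 1 := by
    rw [← Units.val_pow_eq_pow_val, ← map_pow, MonoidHom.mem_ker.1 (hker.symm ▸ hgp : g ^ p ∈ ψ.ker),
      Units.val_one]
  have hgM : g ∈ Subgroup.centralizer ({u ^ p} : Set G) := by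
    obtain ⟨a, ha, e⟩ := CfsgLib.TwoGroup.conj_zpow_of_action hψ g p
    rw [Subgroup.mem_centralizer_singleton_iff, ← mul_inv_eq_iff_eq_mul, ← zpow_natCast, e,
      CfsgLib.TwoGroup.zpow_eq_zpow_iff_cast hUn]
    push_cast
    rw [ha]
    linear_combination CfsgLib.TwoGroup.prime_mul_sub_one_eq_zero hp' hp2 hgψ
  have hidx := CfsgLib.TwoGroup.relIndex_centralizer_pow hG hUn inferInstance hC ⟨g, hgM, hg⟩
  set M := Subgroup.centralizer ({u ^ p} : Set G)
  have hUM : Subgroup.zpowers u ≤ M := Subgroup.zpowers_le.2 (Subgroup.mem_centralizer_singleton_iff.2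
    ((Commute.refl u).pow_right p).eq)
  have hMnc : ¬ IsCyclic M := by
    intro h
    refine hg ?_
    rw [← hC, Subgroup.mem_centralizer_iff]
    intro k hk
    exact congrArg Subtype.val ((IsCyclic.commGroup (α := M)).mul_comm ⟨k, hUM hk⟩ ⟨g, hgM⟩)
  obtain ⟨hE, hEc⟩ := CfsgLib.PGroup.omega_of_cyclic_index hp2 (hG.to_subgroup M) hMnc
    ((Subgroup.zpowers u).subgroupOf M)
    (isCyclic_of_injective (Subgroup.subgroupOfEquivOfLe hUM).toMonoidHom (MulEquiv.injective _)) hidx
  have hom : (Subgroup.closure {x : M | x ^ p = 1}).map M.subtype = omegaOne p M := by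
    rw [← CfsgLib.PGroup.map_omegaOne_top_subtype (p := p) M]
    refine congrArg (Subgroup.map M.subtype) ?_
    refine congrArg Subgroup.closure (Set.ext fun x => ?_)
    simp
  refine ⟨hidx, ?_, ?_⟩
  · rw [← hom]
    refine ⟨isMulCommutative_iff.2 fun a b => Subtype.ext ?_, ?_⟩
    · obtain ⟨a', ha', ea⟩ := a.2
      obtain ⟨b', hb', eb⟩ := b.2
      show (a : G) * b = b * a
      rw [← ea, ← eb, ← map_mul, ← map_mul]
      exact congrArg _ (congrArg Subtype.val (isMulCommutative_iff.1 hE.1 ⟨a', ha'⟩ ⟨b', hb'⟩))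
    · rintro _ ⟨a, ha, rfl⟩
      rw [← map_pow, hE.2 a ha, map_one]
  · rw [← hom, Subgroup.card_map_of_injective M.subtype_injective]
    exact hEc

end Cfsg.Agent.S3761
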