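import Cfsg.Statements.S3763
import Cfsg.Agent.Eq.Def_Transfer
import Cfsg.Agent.ExtraspecialTwo.Iso
import Cfsg.Agent.ExtraspecialTwo.Rank
-- import your own Cfsg.Agent.* helpers here

set_option autoImplicit false
open Cfsg CfsgLib.ExtraspecialTwo CfsgLib.F2Forms

namespace Cfsg.Agent.S3763

/-- Let E be an extraspecial 2-group of order 2^(2n+1). Then the largest elementary abelian subgroups of E have order 2^n or 2^(n+1); and two extraspecial 2-groups of the same order whose largest elementary abelian subgroups have the same order are isomorphic. -/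
theorem result {E : Type*} [Group E] [Finite E] (hE : Cfsg.IsExtraspecial 2 E) (n : ℕ) (hn : Nat.card E = 2 ^ (2 * n + 1)) : ((Cfsg.PRankLE 2 n E ∧ ¬ Cfsg.PRankLE 2 (n - 1) E) ∨ (Cfsg.PRankLE 2 (n + 1) E ∧ ¬ Cfsg.PRankLE 2 n E)) ∧ ∀ (E' : Type*) [Group E'] [Finite E'], Cfsg.IsExtraspecial 2 E' → Nat.card E' = Nat.card E → (∀ k : ℕ, Cfsg.PRankLE 2 k E ↔ Cfsg.PRankLE 2 k E') → Nonempty (E ≃* E') := by
  obtain ⟨m, w, π, c, hm, e⟩ := exists_coord hE
  obtain rfl : n = m := by
    have := Nat.pow_right_injective (le_refl 2) (hn.symm.trans e); omega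
  refine ⟨?_, fun E' _ _ hE' hcard hiff => ?_⟩
  · simp only [c.pRankLE_iff hm]
    split_ifs
    · right; omega
    · left; omega
  · obtain ⟨n', w', π', c', -, e'⟩ := exists_coord hE'
    obtain rfl : n = n' := by
      have := Nat.pow_right_injective (le_refl 2) (e.symm.trans (hcard.symm.trans e')); omega
    refine c.nonempty_mulEquiv c' ?_
    have h := hiff n
    rw [c.pRankLE_iff hm, c'.pRankLE_iff hm] at h
    rcases eq_zero_or_one (quadFormPlus n (ZMod 2) w) with a | a <;>
      rcases eq_zero_or_one (quadFormPlus n (ZMod 2) w') with b | b <;>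
      simp [a, b] at h ⊢

end Cfsg.Agent.S3763
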