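import Cfsg.Statements.S3764
import Mathlib
import Cfsg.Agent.Eq.Def_Transfer
import Cfsg.Agent.FpfAut.Internal
import Cfsg.Agent.PGroup.Extraspecial

set_option autoImplicit false
open Cfsg CfsgLib.FpfAut
open scoped IsMulCommutative commutatorElement

namespace Cfsg.Agent.S3764

/-- Let p, q, r be distinct primes and let X, Q, V be subgroups of a finite group with X of order r, Q an extraspecial q-group normalized by X with C_Q(X) = Z(Q), and V an elementary abelian p-group normalized by X and Q on which XQ acts faithfully ((X ⊔ Q) ∩ C(V) = 1). If C_V(X) = 1, then q = 2, r = 2^n + 1 for some n, and Q has order 2^(2n+1). -/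
theorem result {G : Type*} [Group G] [Finite G] {p q r : ℕ} (hp : p.Prime) (hq : q.Prime) (hr : r.Prime) (hpq : p ≠ q) (hpr : p ≠ r) (hqr : q ≠ r) (X Q V : Subgroup G) (hX : Nat.card X = r) (hQ : Cfsg.IsExtraspecial q ↥Q) (hXQ : X ≤ Subgroup.normalizer (Q : Set G)) (hCQ : Q ⊓ Subgroup.centralizer (X : Set G) = (Subgroup.center ↥Q).map Q.subtype) (hV : Cfsg.IsElementaryAbelian p V) (hXV : X ≤ Subgroup.normalizer (V : Set G)) (hQV : Q ≤ Subgroup.normalizer (V : Set G)) (hfaith : (X ⊔ Q) ⊓ Subgroup.centralizer (V : Set G) = ⊥) (hCV : V ⊓ Subgroup.centralizer (X : Set G) = ⊥) : q = 2 ∧ ∃ n : ℕ, r = 2 ^ n + 1 ∧ Nat.card Q = 2 ^ (2 * n + 1) := by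
  classical
  haveI : Fact p.Prime := ⟨hp⟩
  haveI : Fact q.Prime := ⟨hq⟩
  obtain ⟨n₀, -, hQcard⟩ := CfsgLib.PGroup.extraspecial_card hQ
  haveI : Group.IsNilpotent Q := (IsPGroup.of_card hQcard).isNilpotent
  haveI := hV.1
  letI := conjActionOn X Q hXQ
  letI := conjActionAdditive X V hXV
  letI := conjActionAdditive Q V hQV
  obtain ⟨⟨x, hx⟩, hxord⟩ := exists_prime_orderOf_dvd_card' (G := X) (hp := ⟨hr⟩) r (dvd_of_eq hX.symm)
  set a : X := ⟨x, hx⟩
  have ha1 : a ≠ 1 := fun h => by rw [h, orderOf_one] at hxord; exact hr.one_lt.ne hxord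
  obtain ⟨har, hgen, hsum⟩ := norm_eq_zero_of_inf_eq_bot hr X V hXV hX hCV ha1
  let k := AlgebraicClosure (ZMod p)
  haveI : CharP k p := charP_of_injective_algebraMap (algebraMap (ZMod p) k).injective p
  have hexp : ∀ w : Additive V, p • w = 0 := fun w =>
    Additive.toMul.injective (show w.toMul ^ p = 1 from Subtype.ext (hV.2 _ w.toMul.2))
  have hfaith' : ∀ s : Q, (∀ w : Additive V, s • w = w) → s = 1 := by
    intro s hs
    have h1 : (s : G) ∈ (X ⊔ Q) ⊓ Subgroup.centralizer (V : Set G) := by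
      refine Subgroup.mem_inf.2 ⟨Subgroup.mem_sup_right s.2, Subgroup.mem_centralizer_iff.2 fun v hv => ?_⟩
      have h2 : (s : G) * v * (s : G)⁻¹ = v :=
        congrArg (fun m : Additive V => (m.toMul : G)) (hs (Additive.ofMul ⟨v, hv⟩))
      rw [mul_inv_eq_iff_eq_mul] at h2
      exact h2.symm
    rw [hfaith, Subgroup.mem_bot] at h1
    exact Subtype.ext h1
  have hQp : (Nat.card Q).Coprime p := by
    rw [hQcard]; exact Nat.Coprime.pow_left _ ((Nat.coprime_primes hq hp).2 hpq.symm)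
  have hrQ : r.Coprime (Nat.card Q) := by
    rw [hQcard]; exact Nat.Coprime.pow_right _ ((Nat.coprime_primes hr hq).2 hqr.symm)
  have hQk : (Nat.card Q : k) ≠ 0 := fun h => by
    rw [CharP.cast_eq_zero_iff k p] at h
    exact hp.one_lt.ne' (Nat.eq_one_of_dvd_coprimes hQp h dvd_rfl)
  have hrk : (r : k) ≠ 0 := fun h => by
    rw [CharP.cast_eq_zero_iff k p] at h
    exact hpr ((Nat.prime_dvd_prime_iff_eq hp hr).1 h)
  -- the dual module
  haveI := finiteDimensional_addMonoidHom (k := k) (W := Additive V)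
  let E := Additive V →+ k
  let ρ : Q →* Module.End k E :=
    { toFun := fun s =>
        { toFun := fun f => f.comp (DistribSMul.toAddMonoidHom (Additive V) s⁻¹)
          map_add' := fun f g => rfl
          map_smul' := fun c f => rfl }
      map_one' := LinearMap.ext fun f => AddMonoidHom.ext fun v => by
        show f ((1 : Q)⁻¹ • v) = f v
        rw [inv_one, one_smul]
      map_mul' := fun s t => LinearMap.ext fun f => AddMonoidHom.ext fun v => by
        show f ((s * t)⁻¹ • v) = f (t⁻¹ • s⁻¹ • v)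
        rw [mul_inv_rev, mul_smul] }
  let T : Module.End k E :=
    { toFun := fun f => f.comp (DistribSMul.toAddMonoidHom (Additive V) a⁻¹)
      map_add' := fun f g => rfl
      map_smul' := fun c f => rfl }
  have hTi : ∀ (i : ℕ) (f : E) (v : Additive V), (T ^ i) f v = f ((a⁻¹) ^ i • v) := by
    intro i
    induction i with
    | zero => intro f v; simp
    | succ i ih =>
      intro f v
      rw [pow_succ', Module.End.mul_apply, pow_succ, mul_smul]
      exact ih f (a⁻¹ • v)
  let α : MulAut Q := MulDistribMulAction.toMulAut X Q a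
  set Z := Subgroup.center Q with hZ
  have hCQ' : ∀ s : Q, a • s = s ↔ s ∈ Z := by
    intro s
    have hmem : s ∈ Z ↔ (s : G) ∈ Q ⊓ Subgroup.centralizer (X : Set G) := by
      rw [hCQ]
      exact ⟨fun h => ⟨s, h, rfl⟩, fun ⟨t, ht, hts⟩ => Subtype.ext hts ▸ ht⟩
    rw [hmem]
    constructor
    · intro h
      refine Subgroup.mem_inf.2 ⟨s.2, Subgroup.mem_centralizer_iff.2 fun b hb => ?_⟩
      have h1 : (⟨b, hb⟩ : X) ∈ MulAction.stabilizer X s :=
        Subgroup.zpowers_le.2 (show a ∈ MulAction.stabilizer X s from h) (hgen _)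
      have h2 : b * (s : G) * b⁻¹ = s := congrArg Subtype.val h1
      exact mul_inv_eq_iff_eq_mul.1 h2
    · intro h
      refine Subtype.ext ?_
      show x * (s : G) * x⁻¹ = s
      rw [Subgroup.mem_centralizer_iff.1 (Subgroup.mem_inf.1 h).2 x hx, mul_inv_cancel_right]
  have hSZ : ∀ s t : Q, ⁅s, t⁆ ∈ Z := CfsgLib.PGroup.extraspecial_comm_mem hQ
  obtain ⟨u₀, v₀, huv⟩ := CfsgLib.PGroup.extraspecial_not_comm hQ
  have hc₀ : ⁅u₀, v₀⁆ ≠ 1 := fun h => huv (commutatorElement_eq_one_iff_mul_comm.1 h)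
  letI : CommGroup Z := { (inferInstance : Group Z) with
    mul_comm := fun a b => Subtype.ext (Subgroup.mem_center_iff.1 b.2 (a : Q)) }
  have hinjρ : ∀ s : Q, ρ s = 1 → s = 1 := by
    intro s hs
    refine inv_eq_one.1 (hfaith' s⁻¹ fun w => ?_)
    by_contra hne
    obtain ⟨f, hf⟩ := exists_addHom_apply_ne k hexp (sub_ne_zero.2 hne)
    refine hf ?_
    rw [map_sub, sub_eq_zero]
    exact DFunLike.congr_fun (LinearMap.congr_fun hs f) w
  obtain ⟨χ, w, hw, hwne⟩ : ∃ (χ : Z →* kˣ) (w : E), (∀ z : Z, ρ (z : Q) w = (χ z : k) • w) ∧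
      ρ ⁅u₀, v₀⁆ w ≠ w := by
    by_contra h
    push Not at h
    refine hc₀ (hinjρ _ (sub_eq_zero.1 ?_))
    refine eq_zero_of_eigen (Z := Z) (natCast_ne_zero_of_dvd (Subgroup.card_subgroup_dvd_card Z) hQk)
      (ρ.comp Z.subtype) _ fun χ w hw => ?_
    rw [LinearMap.sub_apply, Module.End.one_apply, h χ w hw, sub_self]
  have hχ1 : ∀ z : Z, χ z = 1 → z = 1 := by
    intro z hz
    haveI : Fact (Nat.card Z).Prime := ⟨hQ.2.symm ▸ hq⟩
    rcases Subgroup.eq_bot_or_eq_top_of_prime_card χ.ker with h | h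
    · rw [← Subgroup.mem_bot, ← h]; exact hz
    · exfalso
      have h1 : χ ⟨_, hSZ u₀ v₀⟩ = 1 := MonoidHom.mem_ker.1 (h ▸ Subgroup.mem_top _)
      exact hwne (by rw [hw ⟨_, hSZ u₀ v₀⟩, h1, Units.val_one, one_smul])
  let F : Submodule k E :=
    { carrier := {v | ∀ z : Z, ρ (z : Q) v = (χ z : k) • v}
      add_mem' := fun {v v'} hv hv' z => by rw [map_add, hv z, hv' z, smul_add]
      zero_mem' := fun z => by rw [map_zero, smul_zero]
      smul_mem' := fun c v hv z => by rw [map_smul, hv z, smul_comm] }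
  have hρF : ∀ s, ∀ v ∈ F, ρ s v ∈ F := fun s v hv z => by
    rw [← Module.End.mul_apply, ← map_mul, ← Subgroup.mem_center_iff.1 z.2 s, map_mul, Module.End.mul_apply,
      hv z, map_smul]
  have hcompat : ∀ (b : X) (h : Q) (w : Additive V), b • h • w = (b • h) • b • w := fun b h w => by
    refine congrArg Additive.ofMul (Subtype.ext ?_)
    show (b : G) * ((h : G) * (w.toMul : G) * (h : G)⁻¹) * (b : G)⁻¹ =
      ((b : G) * h * (b : G)⁻¹) * ((b : G) * w.toMul * (b : G)⁻¹) * ((b : G) * h * (b : G)⁻¹)⁻¹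
    simp [mul_assoc]
  have hcomm : ∀ s, T * ρ s = ρ (α s) * T := fun s => LinearMap.ext fun f => AddMonoidHom.ext fun v => by
    show f (s⁻¹ • a⁻¹ • v) = f (a⁻¹ • (a • s)⁻¹ • v)
    rw [hcompat, smul_inv', inv_smul_smul]
  have hTF : ∀ v ∈ F, T v ∈ F := fun v hv z => by
    have h1 := LinearMap.congr_fun (hcomm (z : Q)) v
    rw [Module.End.mul_apply, Module.End.mul_apply, show α (z : Q) = z from (hCQ' z).2 z.2, hv z,
      map_smul] at h1
    exact h1.symm
  let L : Q →* Module.End k F :=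
    { toFun := fun s => (ρ s).restrict (hρF s)
      map_one' := LinearMap.ext fun v => Subtype.ext (by
        show ρ 1 (v : E) = (v : E)
        rw [map_one, Module.End.one_apply])
      map_mul' := fun s t => LinearMap.ext fun v => Subtype.ext (by
        show ρ (s * t) (v : E) = ρ s (ρ t (v : E))
        rw [map_mul, Module.End.mul_apply]) }
  let T' : Module.End k F := T.restrict hTF
  have hT'i : ∀ (i : ℕ) (v : F), (((T' ^ i) v : F) : E) = (T ^ i) (v : E) := by
    intro i v
    induction i with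
    | zero => rfl
    | succ i ih' =>
      rw [pow_succ', pow_succ', Module.End.mul_apply, Module.End.mul_apply, ← ih']
      rfl
  haveI : Nontrivial F := ⟨⟨⟨w, hw⟩, 0, fun h => hwne (by
    rw [show w = 0 from congrArg Subtype.val h, map_zero])⟩⟩
  have hαr : α ^ r = 1 := by
    rw [show α = MulDistribMulAction.toMulAut X Q a from rfl, ← map_pow, har, map_one]
  haveI : FiniteDimensional k F := FiniteDimensional.finiteDimensional_submodule F
  have hT'r : T' ^ r = 1 := LinearMap.ext fun v => Subtype.ext (by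
    rw [hT'i]
    refine AddMonoidHom.ext fun u => ?_
    rw [hTi, inv_pow, har, inv_one, one_smul]
    rfl)
  have hT'N : ∑ i ∈ Finset.range r, T' ^ i = 0 := LinearMap.ext fun v => Subtype.ext (by
    rw [LinearMap.sum_apply, Submodule.coe_sum]
    simp only [hT'i, LinearMap.zero_apply, Submodule.coe_zero]
    refine AddMonoidHom.ext fun u => ?_
    rw [AddMonoidHom.finsetSum_apply, AddMonoidHom.zero_apply, ← Finset.sum_range_reflect]
    simp only [hTi]
    rw [← map_sum]
    refine (congrArg (v : E) ?_).trans (map_zero _)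
    refine Eq.trans (Finset.sum_congr rfl fun i hi => ?_) (hsum ((a⁻¹) ^ (r - 1) • u))
    rw [smul_smul]
    congr 1
    have hi' : i < r := Finset.mem_range.1 hi
    calc (a⁻¹) ^ (r - 1 - i) = a ^ i * ((a⁻¹) ^ i * (a⁻¹) ^ (r - 1 - i)) := by
          rw [← mul_assoc, inv_pow a i, mul_inv_cancel, one_mul]
      _ = _ := by rw [← pow_add, show i + (r - 1 - i) = r - 1 by omega])
  have hcomm' : ∀ s, T' * L s = L (α s) * T' := fun s =>
    LinearMap.ext fun v => Subtype.ext (LinearMap.congr_fun (hcomm s) (v : E))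
  have hLZ : ∀ z : Z, L (z : Q) = (χ z : k) • 1 := fun z => LinearMap.ext fun v => Subtype.ext (v.2 z)
  have hnd : ∀ s : Q, s ∉ Z → ∃ t : Q, χ ⟨⁅t, s⁆, hSZ t s⟩ ≠ 1 := fun s hs => by
    by_contra h
    push Not at h
    refine hs (Subgroup.mem_center_iff.2 fun t => ?_)
    exact commutatorElement_eq_one_iff_mul_comm.1 (congrArg Subtype.val (hχ1 _ (h t)))
  obtain ⟨hle, hmod, c, hc⟩ := card_quotient_le (E := ↥F) hr hrk hQk α hαr Z
    (fun z hz => (hCQ' z).2 hz) le_rfl hSZ
    (fun s hs => (hCQ' s).1 (smul_eq_self_of_inv_mul har hrQ ((hCQ' _).2 hs))) L T' hT'r hT'N hcomm' χ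
    hLZ hnd
  have hidx : Nat.card (Q ⧸ Z) = q ^ (2 * n₀) := by
    have h1 := Subgroup.card_mul_index Z
    rw [hQ.2, hQcard, pow_succ'] at h1
    exact Nat.eq_of_mul_eq_mul_left hq.pos h1
  obtain rfl : c = q ^ n₀ := by
    rw [hidx, mul_comm, pow_mul] at hc
    exact (Nat.pow_left_injective two_ne_zero hc).symm
  have hn₀ : n₀ ≠ 0 := by
    intro h0
    rw [h0] at hidx
    have h1 : Z = ⊤ := Subgroup.index_eq_one.1 hidx
    exact huv (Subgroup.mem_center_iff.1 (h1.ge (Subgroup.mem_top v₀)) u₀)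
  have hc2 : 2 ≤ q ^ n₀ := le_trans hq.two_le (Nat.le_self_pow hn₀ q)
  have ham : q ^ n₀ ≤ r - 1 := le_of_pow_le_pow_left₀ two_ne_zero (Nat.zero_le _) (hc ▸ hle)
  have hm1 : r ∣ (q ^ n₀ - 1) * (q ^ n₀ + 1) := by
    rw [show (q ^ n₀ - 1) * (q ^ n₀ + 1) = (q ^ n₀) ^ 2 - 1 by rw [mul_comm, ← Nat.sq_sub_sq, one_pow], ← hc]
    exact hmod
  have hcr : q ^ n₀ = r - 1 := by
    rcases (Nat.Prime.dvd_mul hr).1 hm1 with h | h
    · have := Nat.le_of_dvd (by omega) h; omega
    · have := Nat.le_of_dvd (by omega) h; omega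
  have hr2 : r = q ^ n₀ + 1 := by omega
  have hq2 : q = 2 := by
    by_contra h2
    have heven : Even r := hr2 ▸ ((hq.odd_of_ne_two h2).pow).add_odd odd_one
    have := ((Nat.prime_dvd_prime_iff_eq Nat.prime_two hr).1 (even_iff_two_dvd.1 heven)).symm
    omega
  subst hq2
  exact ⟨rfl, n₀, hr2, hQcard⟩

end Cfsg.Agent.S3764
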