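import Cfsg.Statements.S3765
import Mathlib
import Cfsg.Agent.Eq.Def_Transfer
import Cfsg.Agent.FpfAut.Internal

set_option autoImplicit false
open Cfsg

namespace Cfsg.Agent.S3765

/-- Let p, q, r be distinct primes and let X, Q, V be subgroups of a finite group with X of order r normalizing the q-group Q and acting faithfully on it (X ∩ C(Q) = 1), and V a nontrivial elementary abelian p-group normalized by X and Q on which XQ acts faithfully. If q = 2 and r has the form 2^n + 1, assume in addition that Q is abelian. Then C_V(X) ≠ 1. -/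
theorem result {G : Type*} [Group G] [Finite G] {p q r : ℕ} (hp : p.Prime) (hq : q.Prime) (hr : r.Prime) (hpq : p ≠ q) (hpr : p ≠ r) (hqr : q ≠ r) (X Q V : Subgroup G) (hX : Nat.card X = r) (hQ : IsPGroup q Q) (hXQ : X ≤ Subgroup.normalizer (Q : Set G)) (hXfaith : X ⊓ Subgroup.centralizer (Q : Set G) = ⊥) (hV : Cfsg.IsElementaryAbelian p V) (hV1 : V ≠ ⊥) (hXV : X ≤ Subgroup.normalizer (V : Set G)) (hQV : Q ≤ Subgroup.normalizer (V : Set G)) (hfaith : (X ⊔ Q) ⊓ Subgroup.centralizer (V : Set G) = ⊥) (hexc : q = 2 → (∃ n : ℕ, r = 2 ^ n + 1) → IsMulCommutative Q) : V ⊓ Subgroup.centralizer (X : Set G) ≠ ⊥ := by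
  intro hCV
  haveI : Fact q.Prime := ⟨hq⟩
  haveI : Group.IsNilpotent Q := hQ.isNilpotent
  obtain ⟨e, he⟩ := hQ.exists_card_eq
  have hQl : ∀ l : ℕ, l.Prime → l ∣ Nat.card Q → l = q := fun l hl hd =>
    (Nat.prime_dvd_prime_iff_eq hl hq).1 (hl.dvd_of_dvd_pow (he ▸ hd))
  have hexc' : (∀ x y : Q, x * y = y * x) ∨ ∀ l j : ℕ, l.Prime → l ∣ Nat.card Q → 1 ≤ j → r ≠ l ^ j + 1 := by
    by_cases hab : ∀ x y : Q, x * y = y * x
    · exact Or.inl hab
    refine Or.inr fun l j hl hd hj h => hab ?_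
    obtain rfl := hQl l hl hd
    have hl2 : l = 2 := by
      by_contra h2
      have heven : Even r := h ▸ ((hq.odd_of_ne_two h2).pow).add_odd odd_one
      have hr2 : r = 2 := ((Nat.prime_dvd_prime_iff_eq Nat.prime_two hr).1 (even_iff_two_dvd.1 heven)).symm
      have : 2 ≤ l ^ j := le_trans hl.two_le (Nat.le_self_pow (by omega) l)
      omega
    subst hl2
    exact fun x y => ((hexc rfl ⟨j, h⟩).is_comm.comm x y)
  have hkey := CfsgLib.FpfAut.conj_eq_of_inf_eq_bot hp hr hpr X Q V hX hV hXQ hXV hQV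
    (by rw [he]; exact Nat.Coprime.pow_left e ((Nat.coprime_primes hq hp).2 hpq.symm))
    (by rw [he]; exact Nat.Coprime.pow_right e ((Nat.coprime_primes hr hq).2 hqr.symm)) hexc' hCV
  have hle : X ≤ Subgroup.centralizer (Q : Set G) := by
    intro a ha
    refine Subgroup.mem_centralizer_iff.2 fun s hs => ?_
    have hmem : (a * s * a⁻¹)⁻¹ * s ∈ (X ⊔ Q) ⊓ Subgroup.centralizer (V : Set G) := by
      refine Subgroup.mem_inf.2 ⟨mul_mem (inv_mem (mul_mem (mul_mem (Subgroup.mem_sup_left ha) (Subgroup.mem_sup_right hs))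
        (inv_mem (Subgroup.mem_sup_left ha)))) (Subgroup.mem_sup_right hs),
        Subgroup.mem_centralizer_iff.2 fun v hv => ?_⟩
      calc v * ((a * s * a⁻¹)⁻¹ * s)
          = (a * s * a⁻¹)⁻¹ * ((a * s * a⁻¹) * v * (a * s * a⁻¹)⁻¹) * s := by group
        _ = _ := by rw [hkey a ha s hs v hv]; group
    rw [hfaith, Subgroup.mem_bot, inv_mul_eq_one, mul_inv_eq_iff_eq_mul] at hmem
    exact hmem.symm
  rw [inf_eq_left.2 hle] at hXfaith
  rw [hXfaith, Subgroup.card_bot] at hX
  exact hr.one_lt.ne hX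

end Cfsg.Agent.S3765
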