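import Cfsg.Statements.S3767
import Cfsg.Agent.FpfAut.SympCyclic
import Cfsg.Agent.PGroup.Extraspecial
import Cfsg.Agent.Coprime.Basic
import Cfsg.Agent.Eq.Def_Transfer

set_option autoImplicit false
open Cfsg

namespace Cfsg.Agent.S3767

open scoped commutatorElement


/-- The additive form of the statement about semiregular cyclic groups of symplectic transformations. -/
theorem cast_pow_eq_module {p : ℕ} [Fact p.Prime] {V : Type*} [AddCommGroup V] [Finite V] [Module (ZMod p) V]
    {h n : ℕ} (T : V →+ V) (Bh : V →+ V →+ ZMod p) (hh : 2 < h) (hhp : (h : ZMod p) ≠ 0)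
    (hT : ∀ v, T^[h] v = v) (hfree : ∀ i v, T^[i] v = v → v ≠ 0 → h ∣ i) (halt : ∀ u, Bh u u = 0)
    (hnd : ∀ u, (∀ v, Bh u v = 0) → u = 0) (hinv : ∀ u v, Bh (T u) (T v) = Bh u v)
    (hcard : Nat.card V = p ^ (2 * n)) : (p : ZMod h) ^ n = 1 ∨ (p : ZMod h) ^ n = -1 := by
  haveI : Module.Finite (ZMod p) V := Module.Finite.of_finite
  let T' : Module.End (ZMod p) V := AddMonoidHom.toZModLinearMap p T
  let B : LinearMap.BilinForm (ZMod p) V :=
    LinearMap.mk₂ (ZMod p) (fun u v => Bh u v)
      (fun u u' v => DFunLike.congr_fun (map_add Bh u u') v)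
      (fun c u v => (AddMonoidHom.toZModLinearMap p (Bh.flip v)).map_smul c u)
      (fun u v v' => map_add (Bh u) v v')
      (fun c u v => (AddMonoidHom.toZModLinearMap p (Bh u)).map_smul c v)
  have hTi : ∀ (i : ℕ) v, (T' ^ i) v = T^[i] v := by
    intro i
    induction i with
    | zero => intro v; rfl
    | succ i ih => intro v; rw [pow_succ', Module.End.mul_apply, ih, Function.iterate_succ_apply']; rfl
  have haltB : B.IsAlt := halt
  have hndB : B.Nondegenerate := by
    refine ⟨hnd, fun v hv => hnd v fun u => ?_⟩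
    have := LinearMap.IsAlt.neg haltB u v
    rw [show B u v = 0 from hv u, neg_zero] at this
    exact this.symm
  obtain ⟨m, hm, hres⟩ := CfsgLib.FpfAut.SympCyclic.cast_pow_eq T' B hh hhp
    (LinearMap.ext fun v => by rw [hTi, hT, Module.End.one_apply])
    (fun i v hv hv0 => hfree i v (by rw [← hTi]; exact hv) hv0) haltB hndB hinv ⊤
    (fun v _ => Submodule.mem_top) (by
      rw [Submodule.disjoint_def]
      intro v _ hv
      exact hndB.2 v fun u => hv u Submodule.mem_top)
  rw [finrank_top] at hm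
  rw [Module.natCard_eq_pow_finrank (K := ZMod p), Nat.card_zmod] at hcard
  have := Nat.pow_right_injective (Fact.out : p.Prime).two_le hcard
  obtain rfl : m = n := by omega
  exact hres

/-- The same, the module structure built from the exponent. -/
theorem cast_pow_eq_additive {p : ℕ} [Fact p.Prime] {V : Type*} [AddCommGroup V] [Finite V] (hpV : ∀ v : V, p • v = 0)
    {h n : ℕ} (T : V →+ V) (Bh : V →+ V →+ ZMod p) (hh : 2 < h) (hhp : (h : ZMod p) ≠ 0)
    (hT : ∀ v, T^[h] v = v) (hfree : ∀ i v, T^[i] v = v → v ≠ 0 → h ∣ i) (halt : ∀ u, Bh u u = 0)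
    (hnd : ∀ u, (∀ v, Bh u v = 0) → u = 0) (hinv : ∀ u v, Bh (T u) (T v) = Bh u v)
    (hcard : Nat.card V = p ^ (2 * n)) : (p : ZMod h) ^ n = 1 ∨ (p : ZMod h) ^ n = -1 :=
  @cast_pow_eq_module p _ V _ _ (AddCommGroup.zmodModule hpV) h n T Bh hh hhp hT hfree halt hnd hinv hcard

/-- From the congruence modulo `h` to the divisibility. -/
theorem dvd_of_cast {h p n : ℕ} (hp : 1 ≤ p) (hpow : (p : ZMod h) ^ n = 1 ∨ (p : ZMod h) ^ n = -1) :
    h ∣ p ^ n + 1 ∨ h ∣ p ^ n - 1 := by
  rcases hpow with h1 | h1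
  · right
    rw [← ZMod.natCast_eq_zero_iff, Nat.cast_sub (Nat.one_le_pow _ _ hp), Nat.cast_pow, h1, Nat.cast_one, sub_self]
  · left
    rw [← ZMod.natCast_eq_zero_iff, Nat.cast_add, Nat.cast_pow, h1, Nat.cast_one, neg_add_cancel]

/-- Let P be an extraspecial p-group of order p^(2n+1) and H a cyclic group of order h prime to p acting on P (inside a common finite group: H normalizes P) so that C_P(x) = Z(P) for every non-identity x ∈ H. Then h divides p^n + 1 or h divides p^n − 1. -/
theorem result {G : Type*} [Group G] [Finite G] {p : ℕ} [Fact p.Prime] (P H : Subgroup G) (hP : Cfsg.IsExtraspecial p ↥P) (n : ℕ) (hn : Nat.card P = p ^ (2 * n + 1)) (hH : IsCyclic H) (hcop : (Nat.card H).Coprime p) (hHP : H ≤ Subgroup.normalizer (P : Set G)) (hfix : ∀ x ∈ H, x ≠ 1 → P ⊓ Subgroup.centralizer {x} = (Subgroup.center ↥P).map P.subtype) : Nat.card H ∣ p ^ n + 1 ∨ Nat.card H ∣ p ^ n - 1 := by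
  classical
  haveI := hH
  obtain ⟨x, hx⟩ := IsCyclic.exists_ofOrder_eq_natCard (α := H)
  set h := Nat.card H with hh
  have hpp : p.Prime := Fact.out
  have hpos : 0 < h := Nat.card_pos
  rcases Nat.lt_or_ge 2 h with h3 | h2
  swap
  · left
    rcases (by omega : h = 1 ∨ h = 2) with e | e
    · rw [e]; exact one_dvd _
    · rw [e] at hcop ⊢
      exact even_iff_two_dvd.mp (Odd.add_one (Nat.Coprime.odd_of_left hcop).pow)
  have hp1 : 1 ≤ p := hpp.pos
  refine dvd_of_cast hp1 ?_
  -- the action of the generator on `P`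
  have hmem : ∀ g ∈ H, ∀ y ∈ P, g * y * g⁻¹ ∈ P := fun g hg y hy =>
    (Subgroup.mem_normalizer_iff.mp (hHP hg) y).mp hy
  let φ : P ≃* P :=
    { toFun := fun y => ⟨(x : G) * y * (x : G)⁻¹, hmem x x.2 y y.2⟩
      invFun := fun y => ⟨(x : G)⁻¹ * y * ((x : G)⁻¹)⁻¹, hmem _ (H.inv_mem x.2) y y.2⟩
      left_inv := fun y => Subtype.ext (by show (x : G)⁻¹ * ((x : G) * y * (x : G)⁻¹) * ((x : G)⁻¹)⁻¹ = y; group)
      right_inv := fun y => Subtype.ext (by show (x : G) * ((x : G)⁻¹ * y * ((x : G)⁻¹)⁻¹) * (x : G)⁻¹ = y; group)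
      map_mul' := fun a b => Subtype.ext (by
        show (x : G) * (a * b : P) * (x : G)⁻¹ = ((x : G) * a * (x : G)⁻¹) * ((x : G) * b * (x : G)⁻¹)
        rw [Subgroup.coe_mul]; group) }
  set Z := Subgroup.center P with hZ
  have hφi : ∀ (i : ℕ) (y : P), (((φ ^ i) y : P) : G) = (x : G) ^ i * y * ((x : G) ^ i)⁻¹ := by
    intro i
    induction i with
    | zero => simp
    | succ i ih =>
      intro y
      rw [pow_succ' φ, MulAut.mul_apply]
      show (x : G) * (((φ ^ i) y : P) : G) * (x : G)⁻¹ = _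
      rw [ih, pow_succ' (x : G)]
      group
  have hx1 : ∀ i : ℕ, ((x : G) ^ i = 1) → h ∣ i := fun i hi => by
    rw [← hx, ← Subgroup.orderOf_coe]
    exact orderOf_dvd_of_pow_eq_one hi
  have hZfix : ∀ z ∈ Z, φ z = z := by
    intro z hz
    apply Subtype.ext
    show (x : G) * z * (x : G)⁻¹ = z
    have h1 := (hfix x x.2 (fun e => by
      have := Nat.le_of_dvd one_pos (hx1 1 (by rw [pow_one, e])); omega)).ge ⟨z, hz, rfl⟩
    rw [Subgroup.mem_inf, Subgroup.mem_centralizer_singleton_iff] at h1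
    exact mul_inv_eq_iff_eq_mul.mpr h1.2.symm
  -- the semiregularity on the quotient
  have hfree : ∀ (i : ℕ) (y : P), ((φ ^ i) y : P) * y⁻¹ ∈ Z → y ∉ Z → h ∣ i := by
    intro i y hy hyZ
    by_contra hi
    have hg1 : (x : G) ^ i ≠ 1 := fun e => hi (hx1 i e)
    have hgH : (x : G) ^ i ∈ H := H.pow_mem x.2 i
    set g := (x : G) ^ i with hg
    set N := Z.map P.subtype with hN
    have hAN : Subgroup.zpowers g ≤ Subgroup.normalizer (N : Set G) := by
      rw [Subgroup.zpowers_le, Subgroup.mem_normalizer_iff]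
      intro z
      have hcomm : ∀ w ∈ N, g * w * g⁻¹ = w := by
        intro w hw
        have h1 := (hfix g hgH hg1).ge hw
        rw [Subgroup.mem_inf, Subgroup.mem_centralizer_singleton_iff] at h1
        exact mul_inv_eq_iff_eq_mul.mpr h1.2.symm
      constructor
      · intro hz; exact (hcomm z hz).symm ▸ hz
      · intro hz
        have e : g * z * g⁻¹ = z := by
          have := hcomm _ hz
          exact mul_left_cancel (mul_right_cancel this)
        exact e ▸ hz
    have hcopA : (Nat.card (Subgroup.zpowers g)).Coprime (Nat.card N) := by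
      rw [hN, Nat.card_congr (Subgroup.equivMapOfInjective Z P.subtype (Subgroup.subtype_injective P)).toEquiv.symm, hZ, hP.2]
      exact Nat.Coprime.coprime_dvd_left (Subgroup.card_dvd_of_le (Subgroup.zpowers_le.mpr hgH)) hcop
    haveI : Group.IsSolvable (Subgroup.zpowers g) := CfsgLib.Coprime.isSolvable_zpowers g
    obtain ⟨z, hz, hzc⟩ := CfsgLib.Coprime.exists_mul_mem_centralizer hAN hcopA (Or.inl inferInstance) (g := (y : G))
      (fun a ha => by
        obtain ⟨k, rfl⟩ := Subgroup.mem_zpowers_iff.mp ha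
        -- it suffices to treat the generator
        have hgen : ⁅(y : G), g⁆ ∈ N := by
          refine ⟨((φ ^ i) y * y⁻¹)⁻¹, Z.inv_mem hy, ?_⟩
          show ((((φ ^ i) y * y⁻¹)⁻¹ : P) : G) = _
          rw [Subgroup.coe_inv, Subgroup.coe_mul, hφi, Subgroup.coe_inv, commutatorElement_def, ← hg]
          group
        have hNc : ∀ w ∈ N, Commute w g := by
          intro w hw
          have h1 := (hfix g hgH hg1).ge hw
          rw [Subgroup.mem_inf, Subgroup.mem_centralizer_singleton_iff] at h1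
          exact h1.2
        have hNy : ∀ w ∈ N, Commute w (y : G) := by
          rintro _ ⟨w, hw, rfl⟩
          exact (congrArg Subtype.val (Subgroup.mem_center_iff.mp hw y)).symm
        have hnat : ∀ j : ℕ, ⁅(y : G), g ^ j⁆ = ⁅(y : G), g⁆ ^ j := by
          intro j
          induction j with
          | zero => simp
          | succ j ihj =>
            have e : ⁅(y : G), g ^ (j + 1)⁆ = ⁅(y : G), g⁆ * (g * ⁅(y : G), g ^ j⁆ * g⁻¹) := by
              rw [pow_succ']; simp only [commutatorElement_def]; group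
            rw [e, ihj, ((hNc _ hgen).pow_left j).symm.eq, mul_inv_cancel_right, pow_succ']
        obtain ⟨j, hj⟩ := (mem_powers_iff_mem_zpowers (x := g)).mpr (Subgroup.zpow_mem _ (Subgroup.mem_zpowers g) k)
        rw [← hj]
        show ⁅(y : G), g ^ j⁆ ∈ N
        rw [hnat]
        exact N.pow_mem hgen j)
    have hzy : z * y ∈ P ⊓ Subgroup.centralizer {g} := by
      refine ⟨P.mul_mem (Subgroup.map_subtype_le _ hz) y.2, ?_⟩
      show z * (y : G) ∈ Subgroup.centralizer {g}
      rw [Subgroup.mem_centralizer_singleton_iff]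
      exact (Subgroup.mem_centralizer_iff.mp hzc g (Subgroup.mem_zpowers g)).symm
    rw [hfix g hgH hg1] at hzy
    obtain ⟨w, hw, hwe⟩ := hzy
    obtain ⟨z', hz', rfl⟩ := hz
    have : y = z'⁻¹ * w := Subtype.ext (by
      rw [Subgroup.coe_mul, Subgroup.coe_inv, show ((w : P) : G) = P.subtype z' * y from hwe]
      exact (inv_mul_cancel_left _ _).symm)
    exact hyZ (this ▸ Z.mul_mem (Z.inv_mem hz') hw)
  -- the module
  have hcomm := CfsgLib.PGroup.extraspecial_comm_mem hP
  letI : CommGroup (P ⧸ Z) :=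
    { (inferInstance : Group (P ⧸ Z)) with
      mul_comm := fun a b => by
        induction a using QuotientGroup.induction_on with
        | _ a =>
        induction b using QuotientGroup.induction_on with
        | _ b =>
        rw [← QuotientGroup.mk_mul, ← QuotientGroup.mk_mul, QuotientGroup.eq]
        have e : (a * b)⁻¹ * (b * a) = ⁅b⁻¹, a⁻¹⁆ := by rw [commutatorElement_def]; group
        rw [e]; exact hcomm _ _ }
  have hpV : ∀ v : Additive (P ⧸ Z), p • v = 0 := fun v => by
    obtain ⟨a, ha⟩ := QuotientGroup.mk_surjective (Additive.toMul v)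
    apply Additive.toMul.injective
    rw [toMul_nsmul, toMul_zero, ← ha, ← QuotientGroup.mk_pow, QuotientGroup.eq_one_iff]
    exact CfsgLib.PGroup.extraspecial_pow_mem hP a
  haveI : Finite (Additive (P ⧸ Z)) := Finite.of_equiv _ Additive.ofMul
  let pr : P → Additive (P ⧸ Z) := fun a => Additive.ofMul (a : P ⧸ Z)
  let rep : Additive (P ⧸ Z) → P := fun v => (Additive.toMul v).out
  have prrep : ∀ v, pr (rep v) = v := fun v => congrArg Additive.ofMul (QuotientGroup.out_eq' (Additive.toMul v))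
  -- the form
  have hcyc : IsCyclic Z := isCyclic_of_prime_card hP.2
  let e : Multiplicative (ZMod p) ≃* Z :=
    (mulEquivOfCyclicCardEq (by rw [hP.2]; simp))
  let b : P → P → ZMod p := fun u v => Multiplicative.toAdd (e.symm ⟨⁅u, v⁆, hcomm u v⟩)
  have hbl : ∀ u u' v, b (u * u') v = b u v + b u' v := fun u u' v => by
    simp only [b]
    rw [← toAdd_mul, ← map_mul]
    congr 2
    exact Subtype.ext (CfsgLib.PGroup.commutatorElement_mul_left' hcomm u u' v)
  have hbr : ∀ u v v', b u (v * v') = b u v + b u v' := fun u v v' => by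
    simp only [b]
    rw [← toAdd_mul, ← map_mul]
    congr 2
    exact Subtype.ext (CfsgLib.PGroup.commutatorElement_mul_right' hcomm u v v')
  have hb0 : ∀ u v, b u v = 0 ↔ Commute u v := fun u v => by
    simp only [b]
    rw [toAdd_eq_zero, EmbeddingLike.map_eq_one_iff]
    exact ⟨fun h => commutatorElement_eq_one_iff_mul_comm.mp (congrArg Subtype.val h),
      fun h => Subtype.ext (commutatorElement_eq_one_iff_mul_comm.mpr h)⟩
  have hbz : ∀ z ∈ Z, ∀ v, b z v = 0 ∧ b v z = 0 := fun z hz v =>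
    ⟨(hb0 z v).mpr (Subgroup.mem_center_iff.mp hz v).symm, (hb0 v z).mpr (Subgroup.mem_center_iff.mp hz v)⟩
  have hrepl : ∀ a v, b (rep (pr a)) v = b a v ∧ b v (rep (pr a)) = b v a := by
    intro a v
    have hc : a⁻¹ * rep (pr a) ∈ Z := QuotientGroup.eq.mp (QuotientGroup.out_eq' (a : P ⧸ Z)).symm
    constructor
    · rw [show rep (pr a) = a * (a⁻¹ * rep (pr a)) by group, hbl, (hbz _ hc v).1, add_zero]
    · rw [show rep (pr a) = a * (a⁻¹ * rep (pr a)) by group, hbr, (hbz _ hc v).2, add_zero]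
  let Bhom : Additive (P ⧸ Z) →+ Additive (P ⧸ Z) →+ ZMod p :=
    AddMonoidHom.mk' (fun u => AddMonoidHom.mk' (fun v => b (rep u) (rep v)) (fun v v' => by
        conv_lhs => rw [← prrep v, ← prrep v', show pr (rep v) + pr (rep v') = pr (rep v * rep v') from rfl]
        rw [(hrepl _ _).2, hbr]))
      (fun u u' => AddMonoidHom.ext fun v => by
        show b (rep (u + u')) (rep v) = b (rep u) (rep v) + b (rep u') (rep v)
        conv_lhs => rw [← prrep u, ← prrep u', show pr (rep u) + pr (rep u') = pr (rep u * rep u') from rfl]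
        rw [(hrepl _ _).1, hbl])
  have hB : ∀ u v, Bhom u v = b (rep u) (rep v) := fun u v => rfl
  have hZcomap : Z.map φ.toMonoidHom = Z := by
    refine Subgroup.ext fun z => ⟨?_, fun hz => ⟨z, hz, hZfix z hz⟩⟩
    rintro ⟨w, hw, rfl⟩
    show φ w ∈ Z
    rw [hZfix w hw]; exact hw
  let ψ : P ⧸ Z ≃* P ⧸ Z := QuotientGroup.congr Z Z φ hZcomap
  let T : Additive (P ⧸ Z) →+ Additive (P ⧸ Z) := MonoidHom.toAdditive ψ.toMonoidHom
  have hT : ∀ a, T (pr a) = pr (φ a) := fun a => rfl
  have hTi : ∀ (i : ℕ) a, T^[i] (pr a) = pr ((φ ^ i) a) := by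
    intro i
    induction i with
    | zero => intro a; rfl
    | succ i ih =>
      intro a
      rw [Function.iterate_succ_apply', ih, hT, pow_succ', MulAut.mul_apply]
  have hTh : ∀ v, T^[h] v = v := by
    intro v
    rw [← prrep v, hTi]
    congr 1
    apply Subtype.ext
    rw [hφi, ← hx, ← Subgroup.orderOf_coe, pow_orderOf_eq_one, inv_one, one_mul, mul_one]
  have hinv : ∀ u v, Bhom (T u) (T v) = Bhom u v := by
    intro u v
    rw [← prrep u, ← prrep v, hT, hT, hB, hB, (hrepl _ _).1, (hrepl _ _).2, (hrepl _ _).1, (hrepl _ _).2]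
    simp only [b]
    congr 2
    apply Subtype.ext
    show ⁅φ (rep u), φ (rep v)⁆ = ⁅rep u, rep v⁆
    rw [← map_commutatorElement, hZfix _ (hcomm _ _)]
  have hnd : ∀ u, (∀ v, Bhom u v = 0) → u = 0 := by
    intro u hu
    rw [← prrep u]
    have hm : rep u ∈ Z := Subgroup.mem_center_iff.mpr fun a => by
      have h1 := hu (pr a)
      rw [hB, (hrepl _ _).2, hb0] at h1
      exact h1.eq.symm
    exact congrArg Additive.ofMul ((QuotientGroup.eq_one_iff _).mpr hm)
  have hfreeT : ∀ i v, T^[i] v = v → v ≠ 0 → h ∣ i := by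
    intro i v hv hv0
    rw [← prrep v, hTi] at hv
    refine hfree i (rep v) ?_ ?_
    · have h1 := QuotientGroup.eq.mp (Additive.ofMul.injective hv).symm
      have h2 : (φ ^ i) (rep v) * (rep v)⁻¹ = rep v * ((rep v)⁻¹ * (φ ^ i) (rep v)) * (rep v)⁻¹ := by group
      rw [h2]
      exact (inferInstance : Z.Normal).conj_mem _ h1 _
    · intro hm
      exact hv0 ((prrep v).symm.trans (congrArg Additive.ofMul ((QuotientGroup.eq_one_iff _).mpr hm)))
  have hhp : (h : ZMod p) ≠ 0 := by
    rw [Ne, ZMod.natCast_eq_zero_iff]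
    intro hd
    exact hpp.ne_one (Nat.dvd_one.mp (hcop ▸ Nat.dvd_gcd hd dvd_rfl))
  have hcard : Nat.card (Additive (P ⧸ Z)) = p ^ (2 * n) := by
    have h1 : Nat.card P = Nat.card (P ⧸ Z) * Nat.card Z := Subgroup.card_eq_card_quotient_mul_card_subgroup Z
    rw [hn, hP.2, pow_succ] at h1
    rw [show Nat.card (Additive (P ⧸ Z)) = Nat.card (P ⧸ Z) from (Nat.card_congr Additive.ofMul).symm]
    exact (Nat.eq_of_mul_eq_mul_right hpp.pos h1).symm
  exact cast_pow_eq_additive hpV T Bhom h3 hhp hTh hfreeT (fun u => (hb0 _ _).mpr (Commute.refl _)) hnd hinv hcard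

end Cfsg.Agent.S3767
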