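import Cfsg.Statements.S3768
import Mathlib
import Cfsg.Agent.Eq.Def_Solvable
import Cfsg.Agent.Frobenius.Basic
import Cfsg.Agent.Chars.Apps.FrobeniusKernel

set_option autoImplicit false
open Cfsg

namespace Cfsg.Agent.S3768

/-- Let G be a finite Frobenius group with Frobenius complement R and Frobenius kernel K (the identity together with the elements in no conjugate of R), and let N be a normal subgroup of G not containing K. Then G/N is a Frobenius group with Frobenius complement RN/N whose Frobenius kernel is the image of K. -/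
theorem result {G : Type*} [Group G] [Finite G] (R : Subgroup G) (hR : Cfsg.IsFrobeniusComplement R) (N : Subgroup G) [N.Normal] (hKN : ¬ Cfsg.frobeniusKernel R ⊆ N) : Cfsg.IsFrobeniusComplement (R.map (QuotientGroup.mk' N)) ∧ Cfsg.frobeniusKernel (R.map (QuotientGroup.mk' N)) = QuotientGroup.mk' N '' Cfsg.frobeniusKernel R := by
  classical
  obtain ⟨K, hKn, hK, -, hKR, hcompl⟩ := CfsgLib.Chars.Apps.frobenius_kernel_theorem hR
  have hKR' : ∀ x, x ∈ K → x ∈ R → x = 1 := fun x h1 h2 =>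
    Subgroup.mem_bot.1 (hKR ▸ Subgroup.mem_inf.2 ⟨h1, h2⟩)
  -- the commutator map of a non-trivial complement element is bijective on normal subgroups in `K`
  have hsurj : ∀ (M : Subgroup G), M.Normal → M ≤ K → ∀ r ∈ R, r ≠ 1 → ∀ m ∈ M, ∃ x ∈ M, r * x * r⁻¹ * x⁻¹ = m := by
    intro M hM hMK r hr hr1 m hm
    let f : M → M := fun x => ⟨r * x * r⁻¹ * (x : G)⁻¹, mul_mem (hM.conj_mem _ x.2 r) (inv_mem x.2)⟩
    have hinj : Function.Injective f := by
      intro x y hxy
      have h1 : r * x * r⁻¹ * (x : G)⁻¹ = r * y * r⁻¹ * (y : G)⁻¹ := congrArg Subtype.val hxy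
      have h2 : r * ((y : G)⁻¹ * x) * r⁻¹ = (y : G)⁻¹ * x := by
        calc r * ((y : G)⁻¹ * x) * r⁻¹ = (r * y * r⁻¹)⁻¹ * (r * x * r⁻¹ * (x : G)⁻¹) * x := by group
          _ = _ := by rw [h1]; group
      have := CfsgLib.Frobenius.kernel_fpf hR hK hr hr1 (hMK (mul_mem (inv_mem y.2) x.2)) h2
      exact Subtype.ext (inv_mul_eq_one.1 this).symm
    obtain ⟨x, hx⟩ := (Finite.injective_iff_surjective.1 hinj) ⟨m, hm⟩
    exact ⟨x, x.2, congrArg Subtype.val hx⟩
  -- `N` lies in the kernel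
  have hNK : N ≤ K := by
    intro x hx
    by_contra hxK
    obtain ⟨g, r, hr, hr1, rfl⟩ := CfsgLib.Frobenius.mem_conjHash_of_not_mem_kernel hK hxK
    have hrN : r ∈ N := by simpa [mul_assoc] using (inferInstance : N.Normal).conj_mem _ hx g⁻¹
    refine hKN (hK ▸ fun k hk => ?_)
    obtain ⟨y, -, rfl⟩ := hsurj K hKn le_rfl r hr hr1 k hk
    have : r * y * r⁻¹ * y⁻¹ = r * (y * r⁻¹ * y⁻¹) := by group
    rw [SetLike.mem_coe, this]
    exact mul_mem hrN ((inferInstance : N.Normal).conj_mem _ (inv_mem hrN) y)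
  set f := QuotientGroup.mk' N with hf
  have hfs : Function.Surjective f := QuotientGroup.mk'_surjective N
  have heq : ∀ a b : G, f a = f b ↔ a⁻¹ * b ∈ N := fun a b => QuotientGroup.eq
  have hdec : ∀ g : G, ∃ k ∈ K, ∃ s ∈ R, g = k * s := by
    intro g
    obtain ⟨⟨a, b⟩, h, -⟩ := Subgroup.isComplement_iff_existsUnique.1 hcompl g
    exact ⟨a, a.2, b, b.2, h.symm⟩
  have hFR : Cfsg.IsFrobeniusComplement (R.map f) := by
    rw [CfsgLib.Frobenius.isFrobeniusComplement_iff]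
    refine ⟨?_, ?_, ?_⟩
    · rw [ne_eq, Subgroup.map_eq_bot_iff, hf, QuotientGroup.ker_mk']
      exact fun h => hR.1 (le_bot_iff.1 fun x hx => hKR' x (hNK (h hx)) hx)
    · intro h
      refine hKN (hK ▸ fun k hk => ?_)
      obtain ⟨r, hr, hrk⟩ := (h ▸ Subgroup.mem_top (f k) : f k ∈ R.map f)
      have h1 := (heq r k).1 hrk
      have h2 : r = 1 := hKR' r (by
        have := K.mul_mem hk (K.inv_mem (hNK h1))
        simpa [mul_assoc] using this) hr
      subst h2
      simpa using h1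
    · intro x y hy hy1 hxy
      obtain ⟨g, rfl⟩ := hfs x
      obtain ⟨r, hr, rfl⟩ := hy
      obtain ⟨t, ht, htx⟩ := hxy
      obtain ⟨k, hk, s, hs, rfl⟩ := hdec g
      have hr1 : r ≠ 1 := fun h => hy1 (by rw [h, map_one])
      set r' := s * r * s⁻¹
      have hr'1 : r' ≠ 1 := fun h => hr1 (conj_eq_one_iff.1 h)
      have hr'R : r' ∈ R := R.mul_mem (R.mul_mem hs hr) (R.inv_mem hs)
      have h1 : f (k * r' * k⁻¹) = f t := by
        rw [htx, ← map_inv f (k * s), ← map_mul, ← map_mul]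
        congr 1
        simp only [r']; group
      have h2 := (heq _ _).1 h1
      -- modulo `K` we get `t = r'`
      have hk1 : (QuotientGroup.mk k : G ⧸ K) = 1 := (QuotientGroup.eq_one_iff k).2 hk
      have h3 : r'⁻¹ * t ∈ K := by
        have e := (QuotientGroup.eq_one_iff (N := K) _).2 (hNK h2)
        rw [← QuotientGroup.eq_one_iff, QuotientGroup.mk_mul, QuotientGroup.mk_inv]
        simpa [hk1] using e
      have htr : r' = t := inv_mul_eq_one.1 (hKR' _ h3 (R.mul_mem (R.inv_mem hr'R) ht))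
      have h4 : r'⁻¹ * k * r'⁻¹⁻¹ * k⁻¹ ∈ N := by
        rw [← htr] at h2
        have e : r'⁻¹ * k * r'⁻¹⁻¹ * k⁻¹ = ((k * r' * k⁻¹)⁻¹ * r')⁻¹ := by group
        rw [e]; exact inv_mem h2
      obtain ⟨z, hz, hze⟩ := hsurj N inferInstance hNK r'⁻¹ (R.inv_mem hr'R) (by simpa using hr'1) _ h4
      have h5 : z⁻¹ * k = 1 := by
        refine CfsgLib.Frobenius.kernel_fpf hR hK (R.inv_mem hr'R) (by simpa using hr'1)
          (K.mul_mem (K.inv_mem (hNK hz)) hk) ?_
        calc r'⁻¹ * (z⁻¹ * k) * r'⁻¹⁻¹ = (r'⁻¹ * z * r'⁻¹⁻¹)⁻¹ * (r'⁻¹ * k * r'⁻¹⁻¹ * k⁻¹) * k := by group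
          _ = _ := by rw [← hze]; group
      rw [inv_mul_eq_one] at h5
      subst h5
      rw [map_mul, (QuotientGroup.eq_one_iff z).2 hz |> fun h => (h : f z = 1), one_mul]
      exact ⟨s, hs, rfl⟩
  refine ⟨hFR, ?_⟩
  ext y
  constructor
  · intro hy
    obtain ⟨g, rfl⟩ := hfs y
    rcases hy with hy | hy
    · exact ⟨1, Or.inl rfl, by rw [map_one]; exact hy.symm⟩
    · refine ⟨g, ?_, rfl⟩
      rw [← hK]
      by_contra hgK
      obtain ⟨x, r, hr, -, rfl⟩ := CfsgLib.Frobenius.mem_conjHash_of_not_mem_kernel hK hgK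
      refine hy (f x) ⟨f r, ⟨r, hr, rfl⟩, ?_⟩
      simp
  · rintro ⟨g, hg, rfl⟩
    rw [← hK] at hg
    by_cases hg1 : f g = 1
    · exact Or.inl hg1
    refine Or.inr fun x hx => hg1 ?_
    obtain ⟨z, ⟨r, hr, rfl⟩, hzx⟩ := hx
    obtain ⟨x, rfl⟩ := hfs x
    change f x * f r * (f x)⁻¹ = f g at hzx
    rw [← map_inv, ← map_mul, ← map_mul] at hzx
    have h1 := hNK ((heq _ _).1 hzx)
    have h2 : x * r * x⁻¹ ∈ K := by
      have := K.mul_mem hg (K.inv_mem h1)
      simpa [mul_assoc] using this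
    have h3 : r ∈ K := by
      simpa [mul_assoc] using hKn.conj_mem _ h2 x⁻¹
    rw [← hzx, hKR' r h3 hr]
    simp

end Cfsg.Agent.S3768
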