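import Cfsg.Statements.S3769
import Mathlib
import Cfsg.Agent.Eq.Def_Transfer
import Cfsg.Agent.FpfAut.Internal

set_option autoImplicit false
open Cfsg

namespace Cfsg.Agent.S3769

/-- Let G and V be subgroups of a finite group with G solvable of odd order normalizing V, V an elementary abelian ℓ-group for a prime ℓ not dividing the order of G, and suppose G has a normal Hall subgroup K with a complement R of prime order. If C_V(R) = 1, then [R, K] centralizes V. -/
theorem result {X : Type*} [Group X] [Finite X] (G : Subgroup X) (hsolv : Group.IsSolvable G) (hodd : Odd (Nat.card G)) (V : Subgroup X) {ℓ : ℕ} (hℓ : ℓ.Prime) (hV : Cfsg.IsElementaryAbelian ℓ V) (hℓG : ¬ ℓ ∣ Nat.card G) (hGV : G ≤ Subgroup.normalizer (V : Set X)) (K R : Subgroup X) (hKG : K ≤ G) (hKn : G ≤ Subgroup.normalizer (K : Set X)) (hHall : (Nat.card K).Coprime (K.relIndex G)) (hRG : R ≤ G) (hR : (Nat.card R).Prime) (hKR : K ⊓ R = ⊥) (hKRG : K ⊔ R = G) (hCV : V ⊓ Subgroup.centralizer (R : Set X) = ⊥) : ⁅R, K⁆ ≤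 Subgroup.centralizer (V : Set X) := by
  haveI : Fact (Nat.card R).Prime := ⟨hR⟩
  have hrG : Nat.card R ∣ Nat.card G := Subgroup.card_dvd_of_le hRG
  have hℓr : ℓ ≠ Nat.card R := fun h => hℓG (h ▸ hrG)
  haveI : (K.subgroupOf G).Normal := by
    refine ⟨fun k hk g => ?_⟩
    exact (Subgroup.mem_normalizer_iff.1 (hKn g.2) (k : X)).1 hk
  have hdvd : Nat.card R ∣ K.relIndex G := by
    obtain ⟨⟨a, ha⟩, hord⟩ := exists_prime_orderOf_dvd_card' (G := R) (Nat.card R) dvd_rfl
    have hord' : orderOf (⟨a, hRG ha⟩ : G) = Nat.card R := by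
      rw [← hord, ← orderOf_injective G.subtype G.subtype_injective,
        ← orderOf_injective R.subtype R.subtype_injective]
      rfl
    have h1 : (⟨a, hRG ha⟩ : G) ∉ K.subgroupOf G := fun h => by
      have h2 : a ∈ K ⊓ R := ⟨h, ha⟩
      rw [hKR, Subgroup.mem_bot] at h2
      subst h2
      exact hR.one_lt.ne' (hord'.symm.trans orderOf_one)
    rcases (Nat.dvd_prime hR).1 (hord' ▸ orderOf_map_dvd (QuotientGroup.mk' (K.subgroupOf G)) _) with h | h
    · exact absurd ((QuotientGroup.eq_one_iff _).1 (orderOf_eq_one_iff.1 h)) h1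
    · exact h.symm ▸ orderOf_dvd_natCard _
  haveI : Group.IsSolvable K := by
    haveI := hsolv
    exact Group.isSolvable_of_isSolvable_injective (Subgroup.inclusion_injective hKG)
  refine CfsgLib.FpfAut.commutator_le_centralizer_of_solvable hℓ hR hℓr R K V rfl hV inferInstance ?_
    (hRG.trans hKn) (hRG.trans hGV) (hKG.trans hGV) ?_ ((hHall.coprime_dvd_right hdvd).symm) hCV
  · intro l j hl hd hj h
    have hlodd : Odd l := hodd.of_dvd_nat (hd.trans (Subgroup.card_dvd_of_le hKG))
    have heven : Even (Nat.card R) := h ▸ (hlodd.pow).add_odd odd_one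
    exact Nat.not_even_iff_odd.2 (hodd.of_dvd_nat hrG) heven
  · exact ((Nat.Prime.coprime_iff_not_dvd hℓ).2 fun hd => hℓG (hd.trans (Subgroup.card_dvd_of_le hKG))).symm

end Cfsg.Agent.S3769
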