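import Cfsg.Statements.S3772
import Cfsg.Agent.Eq.Def_Transfer
import Cfsg.Agent.QuadMap.Squaring
import Mathlib

set_option autoImplicit false
open Cfsg

namespace Cfsg.Agent.S3772

/-- Let G be a finite 2-group whose Frattini subgroup Φ(G) has order 2, with |G : Φ(G)| = 2^d, and let j be the number of elements x of G with x² = 1. Then j = 2^d, or j = 2^d + 2^(d−r) or j = 2^d − 2^(d−r) for some positive integer r with 2r ≤ d. Moreover if d = 2r and j is 2^d + 2^r or 2^d − 2^r, then G is extraspecial. -/
theorem result {G : Type*} [Group G] [Finite G] (hG : IsPGroup 2 G) (hΦ : Nat.card (frattini G) = 2) (d : ℕ) (hd : (frattini G).index = 2 ^ d) : (Nat.card {x : G // x ^ 2 = 1} = 2 ^ d ∨ ∃ r : ℕ, 1 ≤ r ∧ 2 * r ≤ d ∧ (Nat.card {x : G // x ^ 2 = 1} = 2 ^ d + 2 ^ (d - r) ∨ Nat.card {x : G // x ^ 2 = 1} + 2 ^ (d - r) = 2 ^ d)) ∧ (∀ r : ℕ, d = 2 * r → (Nat.card {x : G // x ^ 2 = 1} = 2 ^ d + 2 ^ r ∨ Nat.card {x : G // x ^ 2 = 1} + 2 ^ r = 2 ^ d) → Cfsg.IsExtraspecial 2 G) := by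
  classical
  open CfsgLib.QuadMap in
  have key : ∃ k : ℕ, 1 ≤ k ∧ k ≤ d + 1 ∧ Nat.card (Subgroup.center G) = 2 ^ k ∧
      ((Nat.card {x : G // x ^ 2 = 1} = 2 ^ d) ∨
        (∃ e : ℕ, d + 1 + k = 2 * e ∧ k + 1 ≤ d ∧
          (Nat.card {x : G // x ^ 2 = 1} = 2 ^ d + 2 ^ (e - 1) ∨
            Nat.card {x : G // x ^ 2 = 1} + 2 ^ (e - 1) = 2 ^ d))) := by
    set K := frattini G with hKdef
    have hK : K = squares G := frattini_eq_squares hG
    have hsq : ∀ g : G, g * g ∈ K := fun g => hK ▸ sq_mem_squares g
    have hK1 : ∀ x ∈ K, x * x = 1 := fun x hx => by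
      have : (⟨x, hx⟩ : K) ^ Nat.card K = 1 := pow_card_eq_one'
      rw [hΦ, pow_two] at this
      exact congrArg Subtype.val this
    have hkey : ∀ a ∈ K, ∀ b ∈ K, a ≠ 1 → b ≠ 1 → a = b := by
      intro a ha b hb ha1 hb1
      by_contra hab
      have h3 : ({⟨1, one_mem K⟩, ⟨a, ha⟩, ⟨b, hb⟩} : Finset K).card = 3 := by
        simp [Ne.symm ha1, Ne.symm hb1, hab]
      have hh : Fintype K := Fintype.ofFinite K
      have h4 := Finset.card_le_univ ({⟨1, one_mem K⟩, ⟨a, ha⟩, ⟨b, hb⟩} : Finset K)
      rw [h3, ← Nat.card_eq_fintype_card, hΦ] at h4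
      omega
    have hKc : K ≤ Subgroup.center G := by
      intro x hx
      rw [Subgroup.mem_center_iff]
      intro g
      rcases eq_or_ne x 1 with rfl | hx1
      · simp
      have hgx : g * x * g⁻¹ = x := by
        refine hkey _ ((inferInstance : (frattini G).Normal).conj_mem x hx g) x hx ?_ hx1
        simpa using hx1
      calc g * x = g * x * g⁻¹ * g := by group
        _ = x * g := by rw [hgx]
    obtain ⟨n, hn⟩ := IsPGroup.iff_card.1 hG
    have hnd : n = d + 1 := by
      have h1 := Subgroup.card_mul_index K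
      rw [hΦ, hd, hn, ← pow_succ'] at h1
      exact (Nat.pow_right_injective le_rfl h1).symm
    obtain ⟨k, hkn, hk⟩ := (Nat.dvd_prime_pow Nat.prime_two).1
      (hn ▸ Subgroup.card_subgroup_dvd_card (Subgroup.center G))
    have hk1 : 1 ≤ k := by
      by_contra hh
      have h1 : k = 0 := by omega
      have := Subgroup.card_le_of_le hKc
      rw [hk, h1, hΦ] at this
      norm_num at this
    let μ : G → ℤˣ := fun a => if a = 1 then 1 else -1
    have hμ1 : ∀ a, μ a = 1 ↔ a = 1 := by
      intro a
      by_cases h : a = 1 <;> simp [μ, h]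
    have hμ : ∀ a ∈ K, ∀ b ∈ K, μ (a * b) = μ a * μ b := by
      intro a ha b hb
      rcases eq_or_ne a 1 with rfl | ha1
      · simp [μ]
      rcases eq_or_ne b 1 with rfl | hb1
      · simp [μ]
      have := hkey a ha b hb ha1 hb1
      subst this
      simp [μ, ha1, hK1 a ha]
    let s : G → ℤˣ := fun x => μ (x * x)
    have hpol : ∀ x z, polar s x z = μ (tcomm x z) := by
      intro x z
      simp only [polar, s, mul_self_mul hsq hKc]
      rw [hμ _ (mul_mem (hsq x) (tcomm_mem hsq x z)) _ (hsq z), hμ _ (hsq x) _ (tcomm_mem hsq x z)]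
      calc μ (x * x) * μ (tcomm x z) * μ (z * z) * μ (x * x) * μ (z * z)
          = (μ (x * x) * μ (x * x)) * (μ (z * z) * μ (z * z)) * μ (tcomm x z) := by
            simp only [mul_assoc, mul_comm, mul_left_comm]
        _ = _ := by simp [Int.units_mul_self]
    have hbil : ∀ x y z, polar s (x * y) z = polar s x z * polar s y z := by
      intro x y z
      rw [hpol, hpol, hpol, tcomm_mul_left hsq hKc, hμ _ (tcomm_mem hsq x z) _ (tcomm_mem hsq y z)]
    letI : Fintype G := Fintype.ofFinite G
    have hrad : ∀ z, (∀ x, polar s x z = 1) ↔ z ∈ Subgroup.center G := by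
      intro z
      simp only [hpol, hμ1, Subgroup.mem_center_iff, tcomm]
      refine forall_congr' fun x => ⟨fun h => ?_, fun h => by rw [mul_assoc x⁻¹ z x, ← h]; group⟩
      calc x * z = x * (x⁻¹ * z * x * z⁻¹) * z := by rw [h]; group
        _ = z * x := by group
    have hsum := sum_sq s hbil
    have hfilter : Finset.univ.filter (fun z => ∀ x, polar s x z = 1) =
        Finset.univ.filter (fun z => z ∈ Subgroup.center G) := Finset.filter_congr (fun z _ => hrad z)
    rw [hfilter, ← Nat.card_eq_fintype_card, hn, hnd] at hsum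
    set J := Nat.card {x : G // x ^ 2 = 1} with hJ
    have hS : ∑ x, (s x : ℤ) = 2 * (J : ℤ) - 2 ^ (d + 1) := by
      have h1 : J = (Finset.univ.filter fun x : G => x ^ 2 = 1).card := by
        rw [hJ, Nat.card_eq_fintype_card, Fintype.card_subtype]
      have h2 : ∀ x : G, (s x : ℤ) = 2 * (if x ^ 2 = 1 then (1 : ℤ) else 0) - 1 := by
        intro x
        by_cases h : x * x = 1 <;> simp [s, μ, h, pow_two]
      simp only [h2, Finset.sum_sub_distrib, ← Finset.mul_sum, Finset.sum_boole, h1]
      simp [← Nat.card_eq_fintype_card, hn, hnd]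
    refine ⟨k, hk1, hnd ▸ hkn, hk, ?_⟩
    by_cases hall : ∀ z ∈ Subgroup.center G, z * z = 1
    · right
      have hT : ∑ z ∈ Finset.univ.filter (fun z => z ∈ Subgroup.center G), (s z : ℤ) = (2 : ℤ) ^ k := by
        rw [Finset.sum_congr rfl fun z hz => by
          rw [show s z = 1 from (hμ1 _).2 (hall z (Finset.mem_filter.1 hz).2)]]
        simp [← Fintype.card_subtype, ← Nat.card_eq_fintype_card, hk]
      rw [hT, hS] at hsum
      push_cast at hsum
      rw [← pow_add] at hsum
      have hpow := congrArg Int.natAbs hsum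
      rw [Int.natAbs_pow, Int.natAbs_pow] at hpow
      obtain ⟨e, he, he'⟩ := (Nat.dvd_prime_pow Nat.prime_two).1
        (hpow ▸ dvd_pow_self _ two_ne_zero : (2 * (J : ℤ) - 2 ^ (d + 1)).natAbs ∣ 2 ^ (d + 1 + k))
      rw [he'] at hpow
      rw [← pow_mul] at hpow
      have h2e : e * 2 = d + 1 + k := Nat.pow_right_injective le_rfl hpow
      have hkd : k + 1 ≤ d := by
        by_contra hh
        have : k = d + 1 := by omega
        subst this
        have htop : Subgroup.center G = ⊤ := Subgroup.eq_top_of_card_eq _ (by rw [hk, hn, hnd])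
        have : K ≤ ⊥ := hK ▸ (Subgroup.closure_le _).2 (by
          rintro _ ⟨x, rfl⟩
          exact Subgroup.mem_bot.2 (hall x (htop ▸ Subgroup.mem_top x)))
        rw [le_bot_iff] at this
        rw [this, Subgroup.card_bot] at hΦ
        norm_num at hΦ
      refine ⟨e, by omega, hkd, ?_⟩
      obtain ⟨f, rfl⟩ : ∃ f, e = f + 1 := ⟨e - 1, by omega⟩
      simp only [Nat.add_sub_cancel]
      rcases Int.natAbs_eq (2 * (J : ℤ) - 2 ^ (d + 1)) with h | h <;> rw [he'] at h <;> push_cast at h
      · left
        rw [pow_succ, pow_succ] at h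
        have : (J : ℤ) = ((2 ^ d + 2 ^ f : ℕ) : ℤ) := by push_cast; linarith
        exact_mod_cast this
      · right
        rw [pow_succ, pow_succ] at h
        have : ((J + 2 ^ f : ℕ) : ℤ) = ((2 ^ d : ℕ) : ℤ) := by push_cast; linarith
        exact_mod_cast this
    · left
      push Not at hall
      obtain ⟨z, hz, hzz⟩ := hall
      let f : Subgroup.center G →* ℤ := (Units.coeHom ℤ).comp (MonoidHom.mk' (fun w => s w) fun a b => by
        have e : tcomm (a : G) (b : G) = 1 := by
          rw [tcomm, mul_assoc (a : G)⁻¹ (b : G) (a : G), ← Subgroup.mem_center_iff.1 b.2 (a : G)]; group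
        simp only [s, Subgroup.coe_mul, mul_self_mul hsq hKc, e, mul_one]
        exact hμ _ (hsq _) _ (hsq _))
      have hf : ∀ w : Subgroup.center G, f w = (s w : ℤ) := fun w => rfl
      have hne : f ≠ 1 := by
        intro he
        have := DFunLike.congr_fun he ⟨z, hz⟩
        rw [hf, MonoidHom.one_apply] at this
        exact hzz ((hμ1 _).1 (Units.ext this))
      have hT : ∑ w ∈ Finset.univ.filter (fun w => w ∈ Subgroup.center G), (s w : ℤ) = 0 := by
        rw [Finset.sum_subtype (p := fun w => w ∈ Subgroup.center G) _ (by simp) fun w => (s w : ℤ)]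
        simpa [hf] using sum_hom_units_eq_zero f hne
      rw [hT, mul_zero, hS, sq_eq_zero_iff, sub_eq_zero, pow_succ] at hsum
      have : (J : ℤ) = ((2 ^ d : ℕ) : ℤ) := by push_cast; linarith
      exact_mod_cast this
  obtain ⟨k, hk1, hkd, hkZ, hcase⟩ := key
  refine ⟨?_, ?_⟩
  · rcases hcase with h | ⟨e, he, hke, h⟩
    · exact Or.inl h
    · exact Or.inr ⟨d - (e - 1), by omega, by omega, by
        rw [show d - (d - (e - 1)) = e - 1 by omega]; exact h⟩
  · intro r hr hj
    have hpos : 0 < 2 ^ r := pow_pos (by norm_num) r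
    rcases hcase with h | ⟨e, he, hke, h⟩
    · omega
    · have h' : 2 ^ (e - 1) = 2 ^ r := by
        have : 0 < 2 ^ (e - 1) := pow_pos (by norm_num) _
        omega
      have he1 : e - 1 = r := Nat.pow_right_injective le_rfl h'
      have hk : k = 1 := by omega
      subst hk
      have hc : frattini G ≤ Subgroup.center G := by
        intro x hx
        rw [Subgroup.mem_center_iff]
        intro g
        rcases eq_or_ne x 1 with rfl | hx1
        · simp
        have hh : Fintype (frattini G) := Fintype.ofFinite _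
        by_contra hne
        have h3 : ({1, ⟨x, hx⟩, ⟨g * x * g⁻¹, (inferInstance : (frattini G).Normal).conj_mem x hx g⟩} :
            Finset (frattini G)).card = 3 := by
          have hne' : x ≠ g * x * g⁻¹ := fun heq => hne (by
            calc g * x = g * x * g⁻¹ * g := by group
              _ = x * g := by rw [← heq])
          refine Finset.card_eq_three.2 ⟨_, _, _, ?_, ?_, ?_, rfl⟩
          · exact fun h => hx1 (congrArg Subtype.val h).symm
          · intro h
            have h6 : g * x * g⁻¹ = 1 := (congrArg Subtype.val h).symm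
            exact hx1 (conj_eq_one_iff.1 h6)
          · exact fun h => hne' (congrArg Subtype.val h)
        have h4 := Finset.card_le_univ ({1, ⟨x, hx⟩, ⟨g * x * g⁻¹, (inferInstance : (frattini G).Normal).conj_mem x hx g⟩} :
            Finset (frattini G))
        rw [h3, ← Nat.card_eq_fintype_card, hΦ] at h4
        omega
      have hZ : frattini G = Subgroup.center G := Subgroup.eq_of_le_of_card_ge hc (by rw [hkZ, hΦ, pow_one])
      refine ⟨⟨hG, hZ, ?_⟩, by rw [hkZ, pow_one]⟩
      refine Subgroup.eq_of_le_of_card_ge (hZ ▸ (Cfsg.Agent.S0012.result 2 hG).1) ?_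
      rw [hkZ, pow_one]
      by_contra hlt
      push Not at hlt
      have hG'1 : commutator G = ⊥ := Subgroup.card_eq_one.1 (by
        have := (Nat.card_pos : 0 < Nat.card (commutator G)); omega)
      have hcomm : ∀ a b : G, a * b = b * a := by
        intro a b
        have h5 := Subgroup.commutator_mem_commutator (Subgroup.mem_top a) (Subgroup.mem_top b)
        rw [← commutator_def, hG'1, Subgroup.mem_bot, commutatorElement_eq_one_iff_mul_comm] at h5
        exact h5
      have htop : Subgroup.center G = ⊤ :=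
        eq_top_iff.2 fun x _ => Subgroup.mem_center_iff.2 fun g => hcomm g x
      have h1 := Subgroup.card_mul_index (frattini G)
      rw [hΦ, hd] at h1
      rw [htop, Subgroup.card_top, ← h1, pow_one] at hkZ
      have : 1 < 2 ^ d := Nat.one_lt_pow (by omega) (by norm_num)
      omega

end Cfsg.Agent.S3772
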