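import Cfsg.Statements.S3773
import Cfsg.Agent.Eq.Def_Transfer
import Cfsg.Agent.QuadMap.Squaring
import Mathlib

set_option autoImplicit false
open Cfsg

namespace Cfsg.Agent.S3773

/-- Let G be a finite 2-group of nilpotency class at most 2 and exponent dividing 4 in which the elements x with x² = 1 form a subgroup N. Then |G| ≤ |N|³, and |G| < |N|³ unless G is special. -/
theorem result {G : Type*} [Group G] [Finite G] (hG : IsPGroup 2 G) (hcl : (⊤ : Subgroup G).lowerCentralSeries 2 = ⊥) (hexp : ∀ x : G, x ^ 4 = 1) (hN : ∀ x y : G, x ^ 2 = 1 → y ^ 2 = 1 → (x * y) ^ 2 = 1) : Nat.card G ≤ Nat.card {x : G // x ^ 2 = 1} ^ 3 ∧ (¬ Cfsg.IsSpecial 2 G → Nat.card G < Nat.card {x : G // x ^ 2 = 1} ^ 3) := by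
  classical
  open CfsgLib.QuadMap in
  have key : Nat.card G ≤ Nat.card {x : G // x ^ 2 = 1} ^ 3 ∧
      (¬ Cfsg.IsSpecial 2 G → Nat.card G < Nat.card {x : G // x ^ 2 = 1} ^ 3) := by
    let N : Subgroup G :=
      { carrier := {x | x ^ 2 = 1}
        one_mem' := one_pow 2
        mul_mem' := fun hx hy => hN _ _ hx hy
        inv_mem' := fun {x} hx => by
          show x⁻¹ ^ 2 = 1
          rw [inv_pow, (show x ^ 2 = 1 from hx), inv_one] }
    have hmemN : ∀ x, x ∈ N ↔ x * x = 1 := fun x => by rw [← pow_two]; rfl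
    have hcardN : Nat.card N = Nat.card {x : G // x ^ 2 = 1} := rfl
    have hsqN : ∀ g : G, g * g ∈ N := fun g => by
      rw [hmemN, ← hexp g]; simp [pow_succ, mul_assoc]
    -- commutators are central
    have hcomC : ∀ a b : G, a * b * a⁻¹ * b⁻¹ ∈ Subgroup.center G := by
      intro a b
      rw [Subgroup.mem_center_iff]
      intro g
      have h1 : a * b * a⁻¹ * b⁻¹ ∈ (⊤ : Subgroup G).lowerCentralSeries 1 := by
        rw [Subgroup.lowerCentralSeries_succ, Subgroup.lowerCentralSeries_zero]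
        simpa [commutatorElement_def] using
          Subgroup.commutator_mem_commutator (Subgroup.mem_top a) (Subgroup.mem_top b)
      have h2 : (a * b * a⁻¹ * b⁻¹) * g * (a * b * a⁻¹ * b⁻¹)⁻¹ * g⁻¹ ∈ (⊤ : Subgroup G).lowerCentralSeries 2 := by
        rw [Subgroup.lowerCentralSeries_succ]
        simpa [commutatorElement_def] using Subgroup.commutator_mem_commutator h1 (Subgroup.mem_top g)
      rw [hcl, Subgroup.mem_bot] at h2
      calc g * (a * b * a⁻¹ * b⁻¹) = 1 * g * (a * b * a⁻¹ * b⁻¹) := by rw [one_mul]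
        _ = _ := by rw [← h2]; group
    have hcomN : ∀ a b : G, a * b * a⁻¹ * b⁻¹ ∈ N := by
      intro a b
      have e : a * b * a⁻¹ * b⁻¹ = (a * a) * ((a⁻¹ * b) * (a⁻¹ * b)) * (b⁻¹ * b⁻¹) := by group
      rw [e]; exact mul_mem (mul_mem (hsqN _) (hsqN _)) (hsqN _)
    have hsqC : ∀ g : G, g * g ∈ Subgroup.center G := by
      intro g
      rw [Subgroup.mem_center_iff]
      intro b
      set c := g * b * g⁻¹ * b⁻¹ with hc
      have hc2 : c * c = 1 := (hmemN _).1 (hcomN g b)
      have hcc : ∀ a : G, a * c = c * a := Subgroup.mem_center_iff.1 (hcomC g b)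
      have e1 : g * b = c * (b * g) := by rw [hc]; group
      calc b * (g * g) = (c * c) * (b * g) * g := by rw [hc2]; group
        _ = c * (g * b) * g := by rw [e1]; group
        _ = (g * c) * b * g := by rw [hcc g]; group
        _ = g * (c * (b * g)) := by group
        _ = g * g * b := by rw [← e1]; group
    set K := squares G with hK
    have hKc : K ≤ Subgroup.center G := (Subgroup.closure_le _).2 (by rintro _ ⟨x, rfl⟩; exact hsqC x)
    have hKN : K ≤ N := (Subgroup.closure_le _).2 (by rintro _ ⟨x, rfl⟩; exact hsqN x)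
    have hK1 : ∀ k ∈ K, k * k = 1 := fun k hk => (hmemN k).1 (hKN hk)
    have hsq : ∀ g : G, g * g ∈ K := sq_mem_squares
    -- a complement of `N` over `K`
    obtain ⟨U, ⟨hKU, hUN⟩, hmax⟩ := Set.Finite.exists_maximal
      (Set.toFinite {U : Subgroup G | K ≤ U ∧ U ⊓ N ≤ K}) ⟨K, le_rfl, inf_le_left⟩
    have hUn : U.Normal := ⟨fun n hn g => by
      have e : g * n * g⁻¹ * n⁻¹ = (g * g) * ((g⁻¹ * n) * (g⁻¹ * n)) * (n⁻¹ * n⁻¹) := by group
      have : g * n * g⁻¹ * n⁻¹ ∈ K := by
        rw [e]; exact mul_mem (mul_mem (hsq _) (hsq _)) (hsq _)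
      simpa using U.mul_mem (hKU this) hn⟩
    have htop : U ⊔ N = ⊤ := by
      rw [eq_top_iff]
      intro x _
      by_contra hx
      apply hx
      have hle : U ⊔ Subgroup.zpowers x ⊓ ⊤ ≤ U ⊔ Subgroup.zpowers x := by simp
      by_cases hxU : x ∈ U
      · exact Subgroup.mem_sup_left hxU
      have hnot : ¬ (U ⊔ Subgroup.zpowers x) ⊓ N ≤ K := fun h =>
        hxU (hmax ⟨hKU.trans le_sup_left, h⟩ le_sup_left (Subgroup.mem_sup_right (Subgroup.mem_zpowers x)))
      obtain ⟨y, ⟨hy, hyN⟩, hyK⟩ := SetLike.not_le_iff_exists.1 hnot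
      obtain ⟨u, hu, _, ⟨k, rfl⟩, rfl⟩ := Subgroup.mem_sup_of_normal_left.1 hy
      change u * x ^ k ∈ N at hyN
      rcases Int.even_or_odd k with ⟨j, rfl⟩ | ⟨j, rfl⟩
      · exfalso
        have hxx : x ^ (j + j) ∈ U := by
          rw [← two_mul, zpow_mul, zpow_two]; exact U.zpow_mem (hKU (hsq x)) j
        exact hyK (hUN ⟨U.mul_mem hu hxx, hyN⟩)
      · have hxx : (x * x) ^ j ∈ U := U.zpow_mem (hKU (hsq x)) j
        have e : x = ((x * x) ^ j)⁻¹ * u⁻¹ * (u * x ^ (2 * j + 1)) := by
          rw [zpow_add, zpow_one, zpow_mul, zpow_two]; group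
        rw [e]
        exact Subgroup.mul_mem_sup (U.mul_mem (U.inv_mem hxx) (U.inv_mem hu)) hyN
    have hNn : N.Normal := ⟨fun n hn g => by
      rw [hmemN] at hn ⊢
      calc g * n * g⁻¹ * (g * n * g⁻¹) = g * (n * n) * g⁻¹ := by group
        _ = _ := by rw [hn]; group⟩
    have hcard : Nat.card G = Nat.card N * K.relIndex U := by
      have h1 : N.index = N.relIndex U := by
        rw [← Subgroup.relIndex_sup_left (H := U) (K := N), sup_comm, htop, Subgroup.relIndex_top_right]
      have h2 : N.relIndex U = K.relIndex U := by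
        rw [← Subgroup.inf_relIndex_right]
        congr 1
        exact le_antisymm (inf_comm U N ▸ hUN) (le_inf hKN hKU)
      rw [← h2, ← h1, Subgroup.card_mul_index]
    have hker : ∀ u ∈ U, u * u ∈ (⊥ : Subgroup G) → u ∈ K := fun u hu h =>
      hUN ⟨hu, (hmemN u).2 (Subgroup.mem_bot.1 h)⟩
    have hbound : K.relIndex U ≤ Nat.card K ^ 2 := by
      have := relIndex_le_sq hG hsq hKc hK1 hKU (bot_le : ⊥ ≤ K) le_rfl (fun u _ => hsq u) hker
      rwa [Subgroup.relIndex_bot_left] at this
    have hle : Nat.card K ≤ Nat.card N := Subgroup.card_le_of_le hKN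
    rw [← hcardN]
    refine ⟨?_, fun hns => ?_⟩
    · rw [hcard, pow_succ' (Nat.card N) 2]
      exact Nat.mul_le_mul_left _ (hbound.trans (Nat.pow_le_pow_left hle 2))
    rw [hcard, pow_succ' (Nat.card N) 2]
    refine Nat.mul_lt_mul_of_pos_left ?_ Nat.card_pos
    rcases lt_or_eq_of_le hle with hlt | heq
    · exact lt_of_le_of_lt hbound (Nat.pow_lt_pow_left hlt (by norm_num))
    have hNK : N = K := (Subgroup.eq_of_le_of_card_ge hKN heq.ge).symm
    have hfr : frattini G = K := frattini_eq_squares hG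
    have hG' : commutator G ≤ K := hfr ▸ (Cfsg.Agent.S0012.result 2 hG).1
    by_cases hZ : Subgroup.center G ≤ K
    · -- the derived subgroup is a proper subgroup of `K`
      have hne : ¬ K ≤ commutator G := by
        intro hh
        refine hns ⟨hG, ?_, ?_⟩
        · rw [hfr]; exact le_antisymm hKc hZ
        · exact le_antisymm (hG'.trans hKc) (hZ.trans hh)
      have hpos : 0 < Nat.card N := Nat.card_pos
      obtain ⟨x, hxK, hx⟩ := SetLike.not_le_iff_exists.1 hne
      obtain ⟨H, hH, hHi, hxH⟩ := exists_index_two_not_mem (G := K) (K := (commutator G).subgroupOf K)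
        (fun g => by
          rw [Subgroup.mem_subgroupOf, Subgroup.coe_mul, hK1 _ g.2]; exact one_mem _) (x := ⟨x, hxK⟩)
        (by rw [Subgroup.mem_subgroupOf]; exact hx)
      set M := H.map K.subtype with hM
      have hMK : M ≤ K := Subgroup.map_subtype_le H
      have hGM : commutator G ≤ M := fun y hy =>
        ⟨⟨y, hG' hy⟩, hH (by rw [Subgroup.mem_subgroupOf]; exact hy), rfl⟩
      have hmemM : ∀ (y : K), (y : G) ∈ M ↔ y ∈ H := fun y =>
        ⟨fun ⟨z, hz, hzy⟩ => (Subtype.ext hzy : z = y) ▸ hz, fun h => ⟨y, h, rfl⟩⟩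
      have hsqprod : ∀ a b : G, ∃ c ∈ M, (a * b) * (a * b) = (a * a) * (b * b) * c := by
        intro a b
        refine ⟨b⁻¹ * b⁻¹ * (a⁻¹ * a⁻¹) * ((a * b) * (a * b)), ?_, by group⟩
        apply hGM
        have e : b⁻¹ * b⁻¹ * (a⁻¹ * a⁻¹) * ((a * b) * (a * b)) = b⁻¹ * (b⁻¹ * a⁻¹ * b * a⁻¹⁻¹) * b := by group
        rw [e]
        have h1 : b⁻¹ * a⁻¹ * b⁻¹⁻¹ * a⁻¹⁻¹ ∈ commutator G := by
          rw [commutator_eq_closure]
          exact Subgroup.subset_closure ⟨b⁻¹, a⁻¹, (commutatorElement_def b⁻¹ a⁻¹)⟩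
        simpa using (inferInstance : (commutator G).Normal).conj_mem _ h1 b⁻¹
      let U0 : Subgroup G :=
        { carrier := {u | u ∈ U ∧ u * u ∈ M}
          one_mem' := ⟨one_mem _, by rw [one_mul]; exact one_mem _⟩
          mul_mem' := fun {a b} ha hb => by
            refine ⟨mul_mem ha.1 hb.1, ?_⟩
            obtain ⟨c, hc, he⟩ := hsqprod a b
            rw [he]; exact mul_mem (mul_mem ha.2 hb.2) hc
          inv_mem' := fun {a} ha => by
            refine ⟨inv_mem ha.1, ?_⟩
            rw [← mul_inv_rev]; exact inv_mem ha.2 }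
      have hU0 : U0 ≤ U := fun u hu => hu.1
      have hKU0 : K ≤ U0 := fun k hk => ⟨hKU hk, by rw [hK1 k hk]; exact one_mem _⟩
      have hrel : U0.relIndex U ≤ 2 := by
        by_cases hall : ∀ u ∈ U, u * u ∈ M
        · have : U0 = U := le_antisymm hU0 fun u hu => ⟨hu, hall u hu⟩
          rw [this, Subgroup.relIndex_self]; norm_num
        push Not at hall
        obtain ⟨a, haU, ha⟩ := hall
        refine le_of_eq (Subgroup.index_eq_two_iff.2 ⟨⟨a, haU⟩, fun b => ?_⟩)
        obtain ⟨c, hc, he⟩ := hsqprod (b : G) a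
        have h1 : (b : G) * a * (b * a) ∈ M ↔ ¬ ((b : G) * b ∈ M) := by
          rw [he, M.mul_mem_cancel_right hc,
            show ((b : G) * b * (a * a) ∈ M ↔ (⟨(b : G) * b, hsq _⟩ * ⟨a * a, hsq _⟩ : K) ∈ H) from
              hmemM (⟨(b : G) * b, hsq _⟩ * ⟨a * a, hsq _⟩),
            Subgroup.mul_mem_iff_of_index_two hHi, ← hmemM, ← hmemM]
          simp [ha]
        by_cases hb : (b : G) * b ∈ M
        · exact Or.inr ⟨⟨b.2, hb⟩, fun h => (h1.1 h.2) hb⟩
        · exact Or.inl ⟨⟨U.mul_mem b.2 haU, h1.2 hb⟩, fun h => hb h.2⟩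
      have hb0 := relIndex_le_sq hG hsq hKc hK1 hKU0 (bot_le : ⊥ ≤ M) hMK (fun u hu => hu.2)
        (fun u hu h => hker u hu.1 h)
      rw [Subgroup.relIndex_bot_left] at hb0
      have hMcard : Nat.card M * 2 = Nat.card K := by
        rw [hM, Subgroup.card_map_of_injective K.subtype_injective, ← hHi, Subgroup.card_mul_index]
      calc K.relIndex U = K.relIndex U0 * U0.relIndex U := (Subgroup.relIndex_mul_relIndex _ _ _ hKU0 hU0).symm
        _ ≤ Nat.card M ^ 2 * 2 := Nat.mul_le_mul hb0 hrel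
        _ < Nat.card N ^ 2 := by rw [← heq, ← hMcard]; nlinarith [(Nat.card_pos : 0 < Nat.card M)]
    · -- a central element outside `K`
      obtain ⟨z, hz, hzK⟩ := SetLike.not_le_iff_exists.1 hZ
      have hUtop : U = ⊤ := by
        have : N ≤ U := hNK ▸ hKU
        rwa [sup_eq_left.2 this] at htop
      obtain ⟨U0, hKU0, hU0i, hzU0⟩ := exists_index_two_not_mem hsq hzK
      have hzz := Subgroup.mem_center_iff.1 hz
      have hb0 := relIndex_le_sq hG hsq hKc hK1 hKU0 (show Subgroup.zpowers (z * z) ≤ K by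
          rw [Subgroup.zpowers_le]; exact hsq z) le_rfl (fun u _ => hsq u) (by
        intro u hu h
        obtain ⟨j, hj⟩ := h
        change (z * z) ^ j = u * u at hj
        have h2 : (z * z) ^ (2 : ℤ) = 1 := by rw [zpow_two, hK1 _ (hsq z)]
        rcases Int.even_or_odd j with ⟨i, rfl⟩ | ⟨i, rfl⟩
        · rw [← two_mul, zpow_mul, h2, one_zpow] at hj
          exact hker u (hUtop ▸ Subgroup.mem_top u) (Subgroup.mem_bot.2 hj.symm)
        · exfalso
          rw [zpow_add, zpow_mul, h2, one_zpow, one_mul, zpow_one] at hj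
          have : u * z ∈ K := by
            refine hker (u * z) (hUtop ▸ Subgroup.mem_top _) (Subgroup.mem_bot.2 ?_)
            calc u * z * (u * z) = (u * u) * (z * z) := by rw [mul_assoc, ← mul_assoc z u z, ← hzz u]; group
              _ = 1 := by rw [← hj, hK1 _ (hsq z)]
          exact hzU0 ((U0.mul_mem_cancel_left hu).1 (hKU0 this)))
      have hL : Nat.card (Subgroup.zpowers (z * z)) = 2 := by
        rw [Nat.card_zpowers, orderOf_eq_prime (by rw [pow_two, hK1 _ (hsq z)])]
        intro h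
        exact hzK (hNK ▸ (hmemN z).2 h)
      have hrel2 : (Subgroup.zpowers (z * z)).relIndex K * 2 = Nat.card K := by
        rw [← hL, mul_comm]
        have := Subgroup.card_mul_index ((Subgroup.zpowers (z * z)).subgroupOf K)
        rwa [Nat.card_congr (Subgroup.subgroupOfEquivOfLe (by rw [Subgroup.zpowers_le]; exact hsq z)).toEquiv] at this
      calc K.relIndex U = K.relIndex U0 * U0.relIndex U := by
            rw [hUtop, Subgroup.relIndex_mul_relIndex _ _ _ hKU0 le_top]
        _ ≤ (Subgroup.zpowers (z * z)).relIndex K ^ 2 * 2 := by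
            rw [hUtop, Subgroup.relIndex_top_right U0, hU0i]
            exact Nat.mul_le_mul_right 2 hb0
        _ < Nat.card N ^ 2 := by
            rw [← heq, ← hrel2]
            have hp : 0 < (Subgroup.zpowers (z * z)).relIndex K :=
              Nat.pos_of_ne_zero Subgroup.index_ne_zero_of_finite
            nlinarith
  exact key

end Cfsg.Agent.S3773
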