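import Cfsg.Statements.S3774
import Cfsg.Agent.Zsigmondy.Main
import Cfsg.Agent.PGroup.Normal

set_option autoImplicit false
open Cfsg

namespace Cfsg.Agent.S3774

theorem orbit_step {G : Type*} [Group G] [Finite G] (hG : IsPGroup 2 G) {n : ℕ}
    (hcent : ∀ x : G, x ^ 2 = 1 → x ∈ Subgroup.center G)
    (htrans : ∀ x y : G, x ≠ 1 → x ^ 2 = 1 → y ≠ 1 → y ^ 2 = 1 → ∃ a : MulAut G, a x = y)
    (hq : Nat.card {z : G // z ^ 2 = 1} = 2 ^ n) (hn : 1 ≤ n) {r v : ℕ} [Fact r.Prime]
    (hv : v = 1 ∨ v = 2) (hdiv : r ^ v ∣ 2 ^ n - 1)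
    (hord : ∀ k : ℕ, r ^ v ∣ 2 ^ k - 1 → n ∣ k) {N : ℕ} (hN : Nat.card G = 2 ^ N) : n ∣ N := by
  classical
  obtain ⟨P⟩ : Nonempty (Sylow r (MulAut G)) := inferInstance
  have hr := (Fact.out : r.Prime)
  have hdvdP : ∀ m : ℕ, m ∣ r ^ v → m = 1 ∨ r ∣ m := fun m hm => by
    obtain ⟨i, -, rfl⟩ := (Nat.dvd_prime_pow hr).mp hm
    rcases i with _ | i
    · exact Or.inl (pow_zero r)
    · exact Or.inr (dvd_pow_self r (Nat.succ_ne_zero i))
  -- the involutions
  let Om := {x : G // x ≠ 1 ∧ x ^ 2 = 1}
  have hOm : Nat.card Om = 2 ^ n - 1 := by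
    letI : Fintype {z : G // z ^ 2 = 1} := Fintype.ofFinite _
    have e : Om ≃ {z : {z : G // z ^ 2 = 1} // z ≠ ⟨1, one_pow 2⟩} :=
      { toFun := fun x => ⟨⟨x.1, x.2.2⟩, fun h => x.2.1 (congrArg Subtype.val h)⟩
        invFun := fun z => ⟨z.1.1, fun h => z.2 (Subtype.ext h), z.1.2⟩
        left_inv := fun x => rfl
        right_inv := fun z => rfl }
    rw [Nat.card_congr e, Nat.card_eq_fintype_card, Fintype.card_subtype_compl,
      Fintype.card_subtype_eq, ← Nat.card_eq_fintype_card, hq]
  -- `P` has orbits of length divisible by `r ^ v` on the involutions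
  letI actA : MulAction (MulAut G) Om :=
    { smul := fun a x => ⟨a x.1, by
        rw [ne_eq, MulEquiv.map_eq_one_iff]; exact x.2.1, by rw [← map_pow, x.2.2, map_one]⟩
      one_smul := fun x => rfl
      mul_smul := fun a b x => rfl }
  have horb : ∀ x : Om, r ^ v ∣ Nat.card (MulAction.orbit (↥(P : Subgroup (MulAut G))) x) := by
    intro x
    set A_x := MulAction.stabilizer (MulAut G) x with hAx
    have hA : A_x.index = Nat.card Om := by
      rw [hAx, MulAction.index_stabilizer]
      have : MulAction.orbit (MulAut G) x = Set.univ := by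
        refine Set.eq_univ_of_forall fun y => ?_
        obtain ⟨a, ha⟩ := htrans x.1 y.1 x.2.1 x.2.2 y.2.1 y.2.2
        exact ⟨a, Subtype.ext ha⟩
      rw [this, Set.ncard_univ]
    have hP : MulAction.stabilizer (↥(P : Subgroup (MulAut G))) x = A_x.subgroupOf P := by
      ext a; rfl
    rw [Nat.card_coe_set_eq, ← MulAction.index_stabilizer, hP]
    show r ^ v ∣ A_x.relIndex P
    have h1 : r ^ v ∣ (A_x ⊓ (P : Subgroup (MulAut G))).index := by
      refine ((hOm ▸ hdiv : r ^ v ∣ Nat.card Om).trans (dvd_of_eq hA.symm)).trans ?_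
      exact Subgroup.index_dvd_of_le inf_le_left
    rw [← Subgroup.relIndex_mul_index inf_le_right, Subgroup.inf_relIndex_right] at h1
    exact (Nat.Coprime.pow_left v (hr.coprime_iff_not_dvd.mpr P.not_dvd_index)).dvd_of_dvd_mul_right h1
  let K : Subgroup ↥(P : Subgroup (MulAut G)) :=
    { carrier := {a | ∀ x : Om, a • x = x}
      one_mem' := fun x => one_smul _ x
      mul_mem' := fun {a b} ha hb x => by rw [mul_smul, hb, ha]
      inv_mem' := fun {a} ha x => inv_smul_eq_iff.mpr (ha x).symm }
  haveI hKn : K.Normal := ⟨fun a ha g x => by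
    rw [mul_smul, mul_smul, ha, smul_inv_smul]⟩
  have hx0 : Nonempty Om := by
    rw [← Finite.card_pos_iff, hOm]
    have : 2 ^ 1 ≤ 2 ^ n := Nat.pow_le_pow_right two_pos hn
    omega
  obtain ⟨x₀⟩ := hx0
  -- a non-trivial element central modulo `K` fixes no non-identity element
  have hfree : ∀ h : ↥(P : Subgroup (MulAut G)), h ∉ K → (∀ g, g * h * g⁻¹ * h⁻¹ ∈ K) →
      ∀ x : G, (h : MulAut G) x = x → x = 1 := by
    intro h hK hc x hx
    by_contra hx1
    let C : Subgroup G := ((h : MulAut G).toMonoidHom).eqLocus (MonoidHom.id G)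
    have hC : Nontrivial C := ⟨⟨⟨x, hx⟩, 1, fun he => hx1 (congrArg Subtype.val he)⟩⟩
    obtain ⟨k, hk⟩ := IsPGroup.iff_card.mp (hG.to_subgroup C)
    have hk0 : k ≠ 0 := by
      rintro rfl
      have := Finite.one_lt_card_iff_nontrivial.mpr hC
      rw [hk, pow_zero] at this
      exact lt_irrefl _ this
    obtain ⟨⟨t, ht⟩, ht2⟩ := exists_prime_orderOf_dvd_card' (G := C) 2 (hk ▸ dvd_pow_self 2 hk0)
    rw [Subgroup.orderOf_mk] at ht2
    -- the fixed involutions
    let F : Subgroup G :=
      { carrier := {z | z ^ 2 = 1 ∧ (h : MulAut G) z = z}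
        one_mem' := ⟨one_pow 2, map_one _⟩
        mul_mem' := fun {a b} ha hb => ⟨by
          rw [Commute.mul_pow ((Subgroup.mem_center_iff.mp (hcent a ha.1) b).symm : Commute a b), ha.1, hb.1,
            one_mul], by rw [map_mul, ha.2, hb.2]⟩
        inv_mem' := fun {a} ha => ⟨by rw [inv_pow, ha.1, inv_one], by rw [map_inv, ha.2]⟩ }
    obtain ⟨f, hf⟩ := IsPGroup.iff_card.mp (hG.to_subgroup F)
    let Fo := {x : Om // h • x = x}
    have hFo : Nat.card Fo = 2 ^ f - 1 := by
      letI : Fintype F := Fintype.ofFinite F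
      have e : Fo ≃ {z : F // z ≠ 1} :=
        { toFun := fun x => ⟨⟨x.1.1, x.1.2.2, congrArg Subtype.val x.2⟩,
            fun he => x.1.2.1 (congrArg Subtype.val he)⟩
          invFun := fun z => ⟨⟨z.1.1, fun he => z.2 (Subtype.ext he), z.1.2.1⟩, Subtype.ext z.1.2.2⟩
          left_inv := fun x => rfl
          right_inv := fun z => rfl }
      rw [Nat.card_congr e, Nat.card_eq_fintype_card, Fintype.card_subtype_compl,
        Fintype.card_subtype_eq, ← Nat.card_eq_fintype_card, hf]
    have hinvF : ∀ (g : ↥(P : Subgroup (MulAut G))) (y : Om), h • y = y → h • (g • y) = g • y := by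
      intro g y hy
      have h1 := hc g⁻¹ y
      rw [inv_inv, mul_smul, mul_smul, mul_smul, inv_smul_eq_iff] at h1
      rwa [inv_smul_eq_iff.mpr hy.symm] at h1
    letI : MulAction ↥(P : Subgroup (MulAut G)) Fo :=
      { smul := fun g y => ⟨g • y.1, hinvF g y.1 y.2⟩
        one_smul := fun y => Subtype.ext (one_smul _ _)
        mul_smul := fun a b y => Subtype.ext (mul_smul _ _ _) }
    have horbF : ∀ y : Fo, r ^ v ∣ Nat.card (MulAction.orbit ↥(P : Subgroup (MulAut G)) y) := by
      intro y
      refine (horb y.1).trans (dvd_of_eq ?_)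
      rw [Nat.card_coe_set_eq, Nat.card_coe_set_eq, ← MulAction.index_stabilizer,
        ← MulAction.index_stabilizer]
      congr 1
      ext g
      simp only [MulAction.mem_stabilizer_iff]
      exact ⟨fun h => Subtype.ext h, fun h => congrArg Subtype.val h⟩
    have h3 : r ^ v ∣ 2 ^ f - 1 := by
      rw [← hFo, Nat.card_congr (MulAction.selfEquivSigmaOrbits ↥(P : Subgroup (MulAut G)) Fo)]
      letI : Fintype (Quotient (MulAction.orbitRel ↥(P : Subgroup (MulAut G)) Fo)) := Fintype.ofFinite _
      rw [Nat.card_sigma]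
      exact Finset.dvd_sum fun ω _ => horbF _
    have hnf := hord f h3
    have hf0 : f ≠ 0 := by
      rintro rfl
      have h1 : t ≠ 1 := fun he => by simp [he] at ht2
      have hmem : t ∈ F := ⟨by rw [← ht2, pow_orderOf_eq_one], ht⟩
      rw [pow_zero, Subgroup.card_eq_one] at hf
      rw [hf, Subgroup.mem_bot] at hmem
      exact h1 hmem
    -- all involutions are fixed
    have hle : Nat.card Om ≤ Nat.card Fo := by
      rw [hOm, hFo]
      have : 2 ^ n ≤ 2 ^ f := Nat.pow_le_pow_right two_pos (Nat.le_of_dvd (Nat.pos_of_ne_zero hf0) hnf)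
      omega
    have hbij := (Subtype.val_injective : Function.Injective (fun y : Fo => y.1)).bijective_of_nat_card_le hle
    apply hK
    intro y
    obtain ⟨z, rfl⟩ := hbij.2 y
    exact z.2
  -- orbits on the non-identity elements
  have hbig : ∀ x : G, x ≠ 1 → r ^ v ∣ (MulAction.stabilizer ↥(P : Subgroup (MulAut G)) x).index := by
    intro x hx
    set S := MulAction.stabilizer ↥(P : Subgroup (MulAut G)) x with hS
    obtain ⟨i, hi⟩ := P.2.index S
    rw [hi]
    refine Nat.pow_dvd_pow r ?_
    by_contra hlt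
    push Not at hlt
    have hi1 : i ≤ 1 := by rcases hv with rfl | rfl <;> omega
    -- `K` is proper
    have hKtop : K ≠ ⊤ := fun h => by
      have h1 := horb x₀
      have h2 : MulAction.orbit ↥(P : Subgroup (MulAut G)) x₀ = {x₀} := by
        refine Set.eq_singleton_iff_unique_mem.mpr ⟨MulAction.mem_orbit_self _, ?_⟩
        rintro _ ⟨g, rfl⟩
        exact (h ▸ Subgroup.mem_top g : g ∈ K) x₀
      rw [h2, Nat.card_coe_set_eq, Set.ncard_singleton, Nat.dvd_one, Nat.pow_eq_one] at h1
      rcases h1 with h1 | h1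
      · exact hr.ne_one h1
      · omega
    set π := QuotientGroup.mk' K with hπ
    have hQ : IsPGroup r (↥(P : Subgroup (MulAut G)) ⧸ K) := P.2.to_quotient K
    have hSn : S.Normal ∧ commutator ↥(P : Subgroup (MulAut G)) ≤ S := by
      rcases Nat.le_one_iff_eq_zero_or_eq_one.mp hi1 with rfl | rfl
      · rw [pow_zero, Subgroup.index_eq_one] at hi
        rw [hi]
        exact ⟨inferInstance, le_top⟩
      · rw [pow_one] at hi
        haveI : S.Normal := by
          refine Subgroup.normal_of_index_eq_minFac_card ?_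
          obtain ⟨j, hj⟩ := IsPGroup.iff_card.mp P.2
          rw [hi, hj]
          have hj0 : j ≠ 0 := by
            rintro rfl
            have := S.index_dvd_card
            rw [hi, hj, pow_zero, Nat.dvd_one] at this
            exact hr.ne_one this
          rw [Nat.pow_minFac hj0, hr.minFac_eq]
        refine ⟨inferInstance, ?_⟩
        haveI : IsCyclic (↥(P : Subgroup (MulAut G)) ⧸ S) :=
          isCyclic_of_prime_card (p := r) (by rw [← Subgroup.index_eq_card, hi])
        letI : CommGroup (↥(P : Subgroup (MulAut G)) ⧸ S) := IsCyclic.commGroup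
        exact (Abelianization.commutator_subset_ker (QuotientGroup.mk' S)).trans
          (le_of_eq (QuotientGroup.ker_mk' S))
    -- commutators act trivially on the involutions
    have hcomK : commutator ↥(P : Subgroup (MulAut G)) ≤ K := by
      by_contra hno
      set D := (commutator ↥(P : Subgroup (MulAut G))).map π with hD
      have hDne : D ≠ ⊥ := fun h => hno (by
        rw [hD, Subgroup.map_eq_bot_iff, QuotientGroup.ker_mk'] at h; exact h)
      haveI : D.Normal := (inferInstance : (commutator _).Normal).map _ (QuotientGroup.mk'_surjective _)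
      obtain ⟨⟨w, hwD, hwZ⟩, hw1⟩ := Subgroup.ne_bot_iff_exists_ne_one.mp
        (CfsgLib.PGroup.inf_center_ne_bot hQ D hDne)
      obtain ⟨h, hh, rfl⟩ := hwD
      have hhK : h ∉ K := fun hK' => hw1 (Subtype.ext ((QuotientGroup.eq_one_iff h).mpr hK'))
      refine hx (hfree h hhK (fun g => ?_) x ?_)
      · rw [← QuotientGroup.eq_one_iff]
        show π (g * h * g⁻¹ * h⁻¹) = 1
        rw [map_mul, map_mul, map_mul, map_inv, map_inv, Subgroup.mem_center_iff.mp hwZ (π g),
          mul_inv_cancel_right, mul_inv_cancel]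
      · exact MulAction.mem_stabilizer_iff.mp (hSn.2 hh)
    -- so `S` acts trivially on the involutions
    have hSK : S ≤ K := by
      intro h hh
      by_contra hhK
      refine hx (hfree h hhK (fun g => hcomK ?_) x (MulAction.mem_stabilizer_iff.mp hh))
      rw [← commutatorElement_def]
      exact Subgroup.commutator_mem_commutator (Subgroup.mem_top g) (Subgroup.mem_top h)
    have hidx : r ^ v ∣ S.index := by
      refine (horb x₀).trans ?_
      rw [Nat.card_coe_set_eq, ← MulAction.index_stabilizer]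
      exact Subgroup.index_dvd_of_le (hSK.trans fun h hh => hh x₀)
    rw [hi] at hidx
    exact absurd ((Nat.pow_dvd_pow_iff_le_right hr.one_lt).mp hidx) (by omega)
  -- counting
  apply hord
  letI actG : MulAction ↥(P : Subgroup (MulAut G)) {x : G // x ≠ 1} :=
    { smul := fun g x => ⟨(g : MulAut G) x.1, by rw [ne_eq, MulEquiv.map_eq_one_iff]; exact x.2⟩
      one_smul := fun x => rfl
      mul_smul := fun a b x => rfl }
  have hc : Nat.card {x : G // x ≠ 1} = 2 ^ N - 1 := by
    letI : Fintype G := Fintype.ofFinite G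
    rw [Nat.card_eq_fintype_card, Fintype.card_subtype_compl, Fintype.card_subtype_eq,
      ← Nat.card_eq_fintype_card, hN]
  rw [← hc, Nat.card_congr (MulAction.selfEquivSigmaOrbits ↥(P : Subgroup (MulAut G)) {x : G // x ≠ 1})]
  letI : Fintype (Quotient (MulAction.orbitRel ↥(P : Subgroup (MulAut G)) {x : G // x ≠ 1})) :=
    Fintype.ofFinite _
  rw [Nat.card_sigma]
  refine Finset.dvd_sum fun ω _ => ?_
  rw [Nat.card_coe_set_eq, ← MulAction.index_stabilizer]
  refine (hbig (ω.out : {x : G // x ≠ 1}).1 (ω.out).2).trans (dvd_of_eq ?_)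
  congr 1
  ext g
  simp only [MulAction.mem_stabilizer_iff]
  exact ⟨fun h => Subtype.ext h, fun h => congrArg Subtype.val h⟩


/-- Let G be a nontrivial finite 2-group whose automorphism group permutes the involutions of G transitively. Then every involution of G is central, so that the involutions together with 1 form the subgroup Ω₁(Z(G)), and if this subgroup has order q then |G| is a power of q. -/
theorem result {G : Type*} [Group G] [Finite G] [Nontrivial G] (hG : IsPGroup 2 G) (htrans : ∀ x y : G, x ≠ 1 → x ^ 2 = 1 → y ≠ 1 → y ^ 2 = 1 → ∃ a : MulAut G, a x = y) : (∀ x : G, x ^ 2 = 1 → x ∈ Subgroup.center G) ∧ ∃ m : ℕ, Nat.card G = Nat.card {z : G // z ^ 2 = 1} ^ m := by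
  classical
  haveI : Fact (Nat.Prime 2) := ⟨Nat.prime_two⟩
  haveI := hG.center_nontrivial
  obtain ⟨k, hk⟩ := IsPGroup.iff_card.mp (hG.to_subgroup (Subgroup.center G))
  have hk0 : k ≠ 0 := by
    rintro rfl
    have := Finite.one_lt_card_iff_nontrivial.mpr (inferInstance : Nontrivial (Subgroup.center G))
    rw [hk, pow_zero] at this
    exact lt_irrefl _ this
  obtain ⟨⟨t, htZ⟩, ht⟩ := exists_prime_orderOf_dvd_card' (G := Subgroup.center G) 2
    (hk ▸ dvd_pow_self 2 hk0)
  rw [Subgroup.orderOf_mk] at ht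
  have ht1 : t ≠ 1 := fun h => by simp [h] at ht
  have ht2 : t ^ 2 = 1 := by rw [← ht, pow_orderOf_eq_one]
  have hcent : ∀ x : G, x ^ 2 = 1 → x ∈ Subgroup.center G := by
    intro x hx
    rcases eq_or_ne x 1 with rfl | hx1
    · exact one_mem _
    obtain ⟨a, rfl⟩ := htrans t x ht1 ht2 hx1 hx
    rw [Subgroup.mem_center_iff]
    intro g
    obtain ⟨g', rfl⟩ := a.surjective g
    rw [← map_mul, ← map_mul, Subgroup.mem_center_iff.mp htZ g']
  refine ⟨hcent, ?_⟩
  let T : Subgroup G :=
    { carrier := {z | z ^ 2 = 1}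
      one_mem' := one_pow 2
      mul_mem' := fun {a b} ha hb => by
        show (a * b) ^ 2 = 1
        rw [Commute.mul_pow ((Subgroup.mem_center_iff.mp (hcent a ha) b).symm : Commute a b), ha, hb, one_mul]
      inv_mem' := fun {a} ha => by
        show a⁻¹ ^ 2 = 1
        rw [inv_pow, ha, inv_one] }
  obtain ⟨n, hn⟩ := IsPGroup.iff_card.mp (hG.to_subgroup T)
  have hq : Nat.card {z : G // z ^ 2 = 1} = 2 ^ n := hn
  have hn1 : 1 ≤ n := by
    by_contra h0
    rw [show n = 0 by omega, pow_zero, Subgroup.card_eq_one] at hn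
    have : t ∈ T := ht2
    rw [hn, Subgroup.mem_bot] at this
    exact ht1 this
  obtain ⟨N, hN⟩ := IsPGroup.iff_card.mp hG
  suffices n ∣ N by
    obtain ⟨m, rfl⟩ := this
    exact ⟨m, by rw [hN, hq, ← pow_mul]⟩
  rcases Nat.lt_or_ge n 2 with hn2 | hn2
  · rw [show n = 1 by omega]; exact one_dvd N
  by_cases h6 : n = 6
  · subst h6
    haveI : Fact (Nat.Prime 3) := ⟨Nat.prime_three⟩
    refine orbit_step hG hcent htrans hq hn1 (r := 3) (Or.inr rfl) (by norm_num) (fun j hj => ?_) hN
    have h1 : 2 ^ j % 9 = 1 := by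
      have h2 := Nat.one_le_two_pow (n := j)
      obtain ⟨c, hc⟩ := hj
      omega
    rw [← Nat.div_add_mod j 6, pow_add, pow_mul, Nat.mul_mod, Nat.pow_mod] at h1
    have h3 := Nat.mod_lt j (show 6 > 0 by norm_num)
    refine Nat.dvd_of_mod_eq_zero ?_
    norm_num at h1
    generalize j % 6 = b at h1 h3 ⊢
    interval_cases b <;> simp_all
  · obtain ⟨r, hr⟩ := CfsgLib.Zsigmondy.exists_isPPD (a := 2) (n := n) one_lt_two hn2
      (fun h => h6 h.2) (fun ⟨_, m, hm⟩ => by
        rcases m with _ | _ | m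
        · norm_num at hm
        · norm_num at hm
        · have : 2 ^ 2 ≤ 2 ^ (m + 1 + 1) := Nat.pow_le_pow_right two_pos (by omega)
          omega)
    haveI : Fact r.Prime := ⟨hr.prime⟩
    refine orbit_step hG hcent htrans hq hn1 (r := r) (v := 1) (Or.inl rfl) ((pow_one r).symm ▸ hr.dvd)
      (fun j hj => ?_) hN
    rw [pow_one] at hj
    exact (hr.dvd_iff (by norm_num) (by omega) j).mp hj

end Cfsg.Agent.S3774
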