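import Cfsg.Statements.S3775
-- import your own Cfsg.Agent.* helpers here

set_option autoImplicit false
open Cfsg

namespace Cfsg.Agent.S3775

section Helpers

variable {A : Type*} [CommGroup A] [Finite A] {p : ℕ} [Fact p.Prime]

omit [Finite A] [Fact p.Prime] in
/-- Invariant subgroups are mapped into themselves, and conversely. -/
theorem map_eq_iff_forall [Finite A] (X : Subgroup (MulAut A)) (B : Subgroup A) :
    (∀ x ∈ X, B.map x.toMonoidHom = B) ↔ ∀ x ∈ X, ∀ b ∈ B, x b ∈ B := by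
  constructor
  · intro h x hx b hb
    have := Subgroup.mem_map_of_mem x.toMonoidHom hb
    rwa [h x hx] at this
  · intro h x hx
    refine Subgroup.eq_of_le_of_card_ge ?_ ?_
    · rintro _ ⟨b, hb, rfl⟩; exact h x hx b hb
    · rw [Subgroup.card_map_of_injective x.injective]

omit [Fact p.Prime] in
theorem card_eq_card_inf_ker_mul {B : Type*} [Group B] (f : A →* B) (H : Subgroup A) :
    Nat.card H = Nat.card ↥(H ⊓ f.ker) * Nat.card ↥(H.map f) := by
  rw [← Subgroup.card_mul_index (f.comp H.subtype).ker, Subgroup.index_ker]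
  congr 1
  · exact Nat.card_congr
      { toFun := fun x => ⟨x.1.1, x.1.2, x.2⟩
        invFun := fun x => ⟨⟨x.1, x.2.1⟩, x.2.2⟩
        left_inv := fun _ => rfl
        right_inv := fun _ => rfl }
  · rw [MonoidHom.range_comp, Subgroup.range_subtype]

/-- Invariant complements in an elementary abelian section, by averaging. -/
theorem exists_complement (X : Subgroup (MulAut A)) (hX : (Nat.card X).Coprime p)
    {L U V : Subgroup A} (hLU : L ≤ U) (hUV : U ≤ V)
    (hL : ∀ x ∈ X, ∀ a ∈ L, x a ∈ L) (hU : ∀ x ∈ X, ∀ a ∈ U, x a ∈ U)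
    (hV : ∀ x ∈ X, ∀ a ∈ V, x a ∈ V) (hexp : ∀ v ∈ V, v ^ p ∈ L) :
    ∃ K : Subgroup A, L ≤ K ∧ K ≤ V ∧ (∀ x ∈ X, ∀ a ∈ K, x a ∈ K) ∧
      U ⊓ K = L ∧ U ⊔ K = V := by
  classical
  have hp : p.Prime := Fact.out
  -- a complement which need not be invariant
  obtain ⟨M, -, hM⟩ := Finite.exists_le_maximal
    (p := fun M : Subgroup A => L ≤ M ∧ M ≤ V ∧ U ⊓ M = L) (a := L)
    ⟨le_rfl, hLU.trans hUV, inf_eq_right.2 hLU⟩
  obtain ⟨hLM, hMV, hinf⟩ := hM.1
  have hpow : ∀ v ∈ V, ∀ k : ℕ, ¬ p ∣ k → ∀ H : Subgroup A, L ≤ H → v ^ k ∈ H → v ∈ H := by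
    intro v hv k hk H hH hvk
    have hcop : Nat.Coprime k p := (hp.coprime_iff_not_dvd.2 hk).symm
    have h1 : (v : A) ^ (Nat.gcdA k p * k + Nat.gcdB k p * p : ℤ) ∈ H := by
      rw [zpow_add, mul_comm (Nat.gcdA k p), mul_comm (Nat.gcdB k p), zpow_mul, zpow_mul,
        zpow_natCast, zpow_natCast]
      exact H.mul_mem (H.zpow_mem hvk _) (H.zpow_mem (hH (hexp v hv)) _)
    have h2 := Nat.gcd_eq_gcd_ab k p
    rw [hcop] at h2
    rwa [show (Nat.gcdA k p * k + Nat.gcdB k p * p : ℤ) = 1 by push_cast at h2; linarith,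
      zpow_one] at h1
  have hdec : ∀ v ∈ V, ∃ w ∈ U, w⁻¹ * v ∈ M := by
    intro v hv
    by_contra hno
    push Not at hno
    have hvUM : v ∉ U ⊔ M := by
      intro h
      obtain ⟨w, hw, m, hm, rfl⟩ := Subgroup.mem_sup.1 h
      exact hno w hw (by simpa using hm)
    have hvM : v ∉ M := fun h => hvUM (Subgroup.mem_sup_right h)
    refine hvM (hM.2 (y := M ⊔ Subgroup.zpowers v) ⟨hLM.trans le_sup_left,
      sup_le hMV (Subgroup.zpowers_le.2 hv), ?_⟩ le_sup_left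
      (Subgroup.mem_sup_right (Subgroup.mem_zpowers v)))
    refine le_antisymm ?_ (le_inf hLU (hLM.trans le_sup_left))
    rintro u ⟨hu, hu'⟩
    obtain ⟨m, hm, z, hz, rfl⟩ := Subgroup.mem_sup.1 hu'
    obtain ⟨k, rfl⟩ := (isOfFinOrder_of_finite v).mem_powers_iff_mem_zpowers.2 hz
    show m * v ^ k ∈ L
    have hz' : v ^ k ∈ U ⊔ M := by
      have : v ^ k = (m * v ^ k) * m⁻¹ := by rw [mul_comm m, mul_inv_cancel_right]
      rw [this]
      exact (U ⊔ M).mul_mem (Subgroup.mem_sup_left hu)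
        ((U ⊔ M).inv_mem (Subgroup.mem_sup_right hm))
    by_cases hk : p ∣ k
    · obtain ⟨j, rfl⟩ := hk
      have hin : m * v ^ (p * j) ∈ M := M.mul_mem hm (hLM (by
        rw [pow_mul]; exact L.pow_mem (hexp v hv) j))
      rw [← hinf]
      exact ⟨hu, hin⟩
    · exact absurd (hpow v hv k hk _ (hLU.trans le_sup_left) hz') hvUM
  choose u huU huM using hdec
  let q := QuotientGroup.mk' L
  have hq : ∀ a, q a = 1 ↔ a ∈ L := fun a => QuotientGroup.eq_one_iff a
  have hmul : ∀ a (ha : a ∈ V) b (hb : b ∈ V),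
      (u (a * b) (V.mul_mem ha hb))⁻¹ * (u a ha * u b hb) ∈ L := by
    intro a ha b hb
    rw [← hinf]
    refine ⟨U.mul_mem (U.inv_mem (huU _ _)) (U.mul_mem (huU _ _) (huU _ _)), ?_⟩
    have h1 := M.mul_mem (huM _ (V.mul_mem ha hb))
      (M.inv_mem (M.mul_mem (huM a ha) (huM b hb)))
    show _ ∈ M
    convert h1 using 1
    rw [mul_mul_mul_comm (u a ha)⁻¹, mul_inv, mul_mul_mul_comm, mul_inv_cancel, mul_one,
      mul_inv, inv_inv, inv_inv]
  have hinvX : ∀ x : X, ∀ a ∈ V, ((x : MulAut A))⁻¹ a ∈ V := fun x a ha =>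
    hV _ (X.inv_mem x.2) a ha
  have huEq : ∀ a b (ha : a ∈ V) (hb : b ∈ V), a = b → u a ha = u b hb := by
    rintro a b ha hb rfl; rfl
  let h : X → (V →* A ⧸ L) := fun x => MonoidHom.mk'
    (fun v : V => q ((x : MulAut A) (u _ (hinvX x v v.2))))
    (fun a b => by
      rw [← map_mul q, ← map_mul (x : MulAut A)]
      refine (QuotientGroup.eq).2 ?_
      rw [← map_inv, ← map_mul]
      refine hL _ x.2 _ ?_
      have := hmul _ (hinvX x a a.2) _ (hinvX x b b.2)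
      rwa [huEq _ _ (hinvX x (a * b : V) (a * b : V).2) (V.mul_mem (hinvX x a a.2) (hinvX x b b.2))
        (by rw [Subgroup.coe_mul, map_mul])])
  have : Fintype X := Fintype.ofFinite X
  let ψ : V →* A ⧸ L := ∏ x : X, h x
  have hψ : ∀ v : V, ψ v = q (∏ x : X, (x : MulAut A) (u _ (hinvX x v v.2))) := by
    intro v
    rw [map_prod, MonoidHom.finsetProd_apply]
    rfl
  have hψU : ∀ v : V, ∃ w ∈ U, ψ v = q w := fun v =>
    ⟨_, Subgroup.prod_mem U fun x _ => hU _ x.2 _ (huU _ _), hψ v⟩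
  have hfix : ∀ v : V, (v : A) ∈ U → ψ v = q (v : A) ^ Fintype.card X := by
    intro v hv
    rw [hψ, map_prod, ← Finset.card_univ, ← Finset.prod_const]
    refine Finset.prod_congr rfl fun x _ => (QuotientGroup.eq).2 ?_
    have h1 : (u _ (hinvX x v v.2))⁻¹ * (x : MulAut A)⁻¹ v ∈ L := by
      rw [← hinf]
      exact ⟨U.mul_mem (U.inv_mem (huU _ _)) (hU _ (X.inv_mem x.2) _ hv), huM _ _⟩
    have h2 := hL _ x.2 _ h1
    rw [map_mul, map_inv] at h2
    simpa using h2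
  have hXp : ¬ p ∣ Fintype.card X := by
    rw [← Nat.card_eq_fintype_card]
    exact hp.coprime_iff_not_dvd.1 hX.symm
  refine ⟨ψ.ker.map V.subtype, ?_, ?_, ?_, ?_, ?_⟩
  · intro l hl
    refine ⟨⟨l, hUV (hLU hl)⟩, ?_, rfl⟩
    show ψ _ = 1
    rw [hfix _ (hLU hl), (hq l).2 hl, one_pow]
  · rintro _ ⟨v, -, rfl⟩; exact v.2
  · rintro y hy _ ⟨v, hv, rfl⟩
    refine ⟨⟨y v, hV y hy v v.2⟩, ?_, rfl⟩
    have hv' : ψ v = 1 := hv
    show ψ _ = 1
    rw [hψ] at hv' ⊢
    rw [hq] at hv' ⊢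
    rw [← Fintype.prod_equiv (Equiv.mulLeft (⟨y, hy⟩ : X))
      (fun x : X => y ((x : MulAut A) (u _ (hinvX x v v.2))))]
    · rw [← map_prod]
      exact hL y hy _ hv'
    · intro x
      simp only [Equiv.coe_mulLeft, Subgroup.coe_mul, MulAut.mul_apply]
      congr 2
      apply huEq
      rw [mul_inv_rev, MulAut.mul_apply, MulAut.inv_apply_self]
  · refine le_antisymm ?_ (le_inf hLU ?_)
    · rintro _ ⟨hwU, v, hv, rfl⟩
      have hv' : ψ v = 1 := hv
      rw [hfix v hwU, ← map_pow, hq] at hv'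
      exact hpow _ v.2 _ hXp L le_rfl hv'
    · intro l hl
      refine ⟨⟨l, hUV (hLU hl)⟩, ?_, rfl⟩
      show ψ _ = 1
      rw [hfix _ (hLU hl), (hq l).2 hl, one_pow]
  · refine le_antisymm (sup_le hUV (by rintro _ ⟨v, -, rfl⟩; exact v.2)) fun v hv => ?_
    obtain ⟨w, hw, hwv⟩ := hψU ⟨v, hv⟩
    refine hpow v hv _ hXp _ (hLU.trans le_sup_left) ?_
    rw [show v ^ Fintype.card X = w * (v ^ Fintype.card X * w⁻¹) by
      rw [mul_comm w, inv_mul_cancel_right]]
    refine Subgroup.mul_mem_sup hw ⟨(⟨v, hv⟩ : V) ^ Fintype.card X * ⟨w, hUV hw⟩⁻¹, ?_, rfl⟩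
    show ψ _ = 1
    rw [map_mul, map_pow, map_inv, hwv, hfix ⟨w, hUV hw⟩ hw, mul_inv_cancel]

/-- The order of an abelian group of exponent dividing `p ^ e` against the number of its elements of
order dividing `p`. -/
theorem card_le_pow (H : Subgroup A) (e : ℕ) :
    Nat.card H ≤ Nat.card ↥(H ⊓ (powMonoidHom p : A →* A).ker) ^ e *
      Nat.card ↥(H.map (powMonoidHom (p ^ e) : A →* A)) := by
  induction e with
  | zero =>
    rw [pow_zero, one_mul]
    refine le_of_eq (Nat.card_congr (Equiv.setCongr ?_))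
    ext a
    simp
  | succ e ih =>
    refine ih.trans ?_
    rw [pow_succ, mul_assoc]
    refine Nat.mul_le_mul_left _ ?_
    rw [card_eq_card_inf_ker_mul (powMonoidHom p : A →* A)
      (H.map (powMonoidHom (p ^ e) : A →* A))]
    have hle : H.map (powMonoidHom (p ^ e) : A →* A) ≤ H := by
      rintro _ ⟨a, ha, rfl⟩; exact H.pow_mem ha _
    refine Nat.mul_le_mul (Subgroup.card_le_of_le (inf_le_inf_right _ hle)) (le_of_eq ?_)
    rw [Subgroup.map_map]
    congr 3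
    ext a
    simp [← pow_mul, pow_succ]

/-- Equality when every element of order `p` is a `p ^ (e-1)`-st power. -/
theorem card_eq_pow (e : ℕ)
    (h : ∀ i, i < e → (powMonoidHom p : A →* A).ker ≤ (powMonoidHom (p ^ i) : A →* A).range) :
    Nat.card A = Nat.card ↥(powMonoidHom p : A →* A).ker ^ e *
      Nat.card ↥((powMonoidHom (p ^ e) : A →* A).range) := by
  induction e with
  | zero =>
    rw [pow_zero, pow_zero, one_mul]
    exact (Subgroup.card_top (G := A)).symm.trans (Nat.card_congr (Equiv.setCongr (by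
      ext a; simp)))
  | succ e ih =>
    rw [ih (fun i hi => h i (Nat.lt_succ_of_lt hi)), pow_succ, mul_assoc]
    congr 1
    rw [card_eq_card_inf_ker_mul (powMonoidHom p : A →* A)
      ((powMonoidHom (p ^ e) : A →* A).range), inf_eq_right.2 (h e (Nat.lt_succ_self e))]
    congr 2
    rw [← MonoidHom.range_comp]
    congr 2
    ext a
    simp [← pow_mul, pow_succ]

/-- The substance: in an indecomposable group the elements of order `p` form a minimal invariant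
subgroup. -/
theorem omega_irreducible (hA : IsPGroup p A) (X : Subgroup (MulAut A))
    (hX : (Nat.card X).Coprime p)
    (hind : ∀ B C : Subgroup A, (∀ x ∈ X, ∀ a ∈ B, x a ∈ B) → (∀ x ∈ X, ∀ a ∈ C, x a ∈ C) →
      B ⊓ C = ⊥ → B ⊔ C = ⊤ → B = ⊥ ∨ C = ⊥)
    (B : Subgroup A) (hB : ∀ x ∈ X, ∀ a ∈ B, x a ∈ B) (hBp : ∀ b ∈ B, b ^ p = 1) (hB1 : B ≠ ⊥) :
    ∀ a : A, a ^ p = 1 → a ∈ B := by
  classical
  have hp : p.Prime := Fact.out
  obtain ⟨n, hn⟩ := IsPGroup.iff_card.1 hA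
  have hex : ∃ e : ℕ, ∀ a : A, a ^ p ^ e = 1 := ⟨n, fun a => by rw [← hn]; exact pow_card_eq_one'⟩
  obtain ⟨e', he'⟩ : ∃ e', Nat.find hex = e' + 1 := by
    refine ⟨Nat.find hex - 1, (Nat.sub_add_cancel ?_).symm⟩
    rw [Nat.one_le_iff_ne_zero]
    intro h0
    apply hB1
    rw [Subgroup.eq_bot_iff_forall]
    intro b _
    have := Nat.find_spec hex b
    rwa [h0, pow_zero, pow_one] at this
  have hexp : ∀ a : A, a ^ p ^ (e' + 1) = 1 := fun a => he' ▸ Nat.find_spec hex a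
  set T : Subgroup A := (powMonoidHom (p ^ e') : A →* A).range with hT
  have hT1 : T ≠ ⊥ := by
    intro h
    refine Nat.find_min hex (m := e') (by omega) fun a => ?_
    have : a ^ p ^ e' ∈ T := ⟨a, rfl⟩
    rwa [h, Subgroup.mem_bot] at this
  have hTinv : ∀ x ∈ X, ∀ a ∈ T, x a ∈ T := by
    rintro x _ _ ⟨a, rfl⟩
    exact ⟨x a, by simp [map_pow]⟩
  obtain ⟨W, hWT, hW⟩ := Finite.exists_le_minimal
    (p := fun W : Subgroup A => W ≤ T ∧ W ≠ ⊥ ∧ ∀ x ∈ X, ∀ a ∈ W, x a ∈ W) (a := T)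
    ⟨le_rfl, hT1, hTinv⟩
  obtain ⟨-, hW1, hWinv⟩ := hW.1
  have hWp : ∀ w ∈ W, w ^ p = 1 := by
    intro w hw
    obtain ⟨a, rfl⟩ := hWT hw
    show (a ^ p ^ e') ^ p = 1
    rw [← pow_mul, ← pow_succ, hexp]
  obtain ⟨C, -, hC⟩ := Finite.exists_le_maximal
    (p := fun C : Subgroup A => (∀ x ∈ X, ∀ a ∈ C, x a ∈ C) ∧ W ⊓ C = ⊥) (a := ⊥)
    ⟨fun x _ a ha => by rw [Subgroup.mem_bot] at ha ⊢; rw [ha, map_one], inf_bot_eq _⟩
  obtain ⟨hCinv, hWC⟩ := hC.1
  have hWCinv : ∀ x ∈ X, ∀ a ∈ W ⊔ C, x a ∈ W ⊔ C := by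
    intro x hx a ha
    obtain ⟨w, hw, c, hc, rfl⟩ := Subgroup.mem_sup.1 ha
    rw [map_mul]
    exact Subgroup.mul_mem_sup (hWinv x hx w hw) (hCinv x hx c hc)
  -- elements with `p`-th power in `C`
  set O : Subgroup A := C.comap (powMonoidHom p) with hO
  have hWCO : W ⊔ C ≤ O := by
    refine sup_le (fun w hw => ?_) (fun c hc => C.pow_mem hc p)
    show w ^ p ∈ C
    rw [hWp w hw]; exact C.one_mem
  have hOeq : O = W ⊔ C := by
    obtain ⟨K, hCK, -, hKinv, hKinf, hKsup⟩ := exists_complement X hX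
      (L := C) (U := W ⊔ C) (V := O) le_sup_right hWCO hCinv hWCinv
      (fun x hx a ha => by
        show (x a) ^ p ∈ C
        rw [← map_pow]; exact hCinv x hx _ ha)
      (fun v hv => hv)
    have hK : K = C := by
      refine le_antisymm (hC.2 ⟨hKinv, ?_⟩ hCK) hCK
      rw [eq_bot_iff, ← hWC]
      exact le_inf inf_le_left ((inf_le_inf_right _ le_sup_left).trans hKinf.le)
    rw [← hKsup, hK, sup_assoc, sup_idem]
  let q : A →* A ⧸ C := QuotientGroup.mk' C
  have hqker : q.ker = C := QuotientGroup.ker_mk' C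
  have hqsurj : Function.Surjective q := QuotientGroup.mk'_surjective C
  -- the quotient is homocyclic
  have hKer : ∀ i, i < e' + 1 → (powMonoidHom p : A ⧸ C →* A ⧸ C).ker ≤
      (powMonoidHom (p ^ i) : A ⧸ C →* A ⧸ C).range := by
    intro i hi z hz
    obtain ⟨a, rfl⟩ := hqsurj z
    have ha : a ∈ O := (QuotientGroup.eq_one_iff (a ^ p)).1 (by
      have : q a ^ p = 1 := hz
      rwa [← map_pow] at this)
    rw [hOeq] at ha
    obtain ⟨w, hw, c, hc, rfl⟩ := Subgroup.mem_sup.1 ha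
    obtain ⟨b, rfl⟩ := hWT hw
    refine ⟨q (b ^ p ^ (e' - i)), ?_⟩
    show q (b ^ p ^ (e' - i)) ^ p ^ i = q (b ^ p ^ e' * c)
    rw [map_mul q, show q c = 1 from (QuotientGroup.eq_one_iff c).2 hc, mul_one, ← map_pow, ← pow_mul, ← pow_add,
      Nat.sub_add_cancel (Nat.lt_succ_iff.1 hi)]
  have hKcard := card_eq_pow (A := A ⧸ C) (p := p) (e' + 1) hKer
  rw [show ((powMonoidHom (p ^ (e' + 1)) : A ⧸ C →* A ⧸ C).range) = ⊥ from by
    rw [eq_bot_iff]
    rintro _ ⟨z, rfl⟩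
    obtain ⟨a, rfl⟩ := hqsurj z
    show q a ^ p ^ (e' + 1) ∈ ⊥
    rw [← map_pow, hexp, map_one]
    exact Subgroup.one_mem _, Subgroup.card_bot, mul_one] at hKcard
  -- a minimal invariant supplement to `C`
  obtain ⟨Y, -, hY⟩ := Finite.exists_le_minimal
    (p := fun Y : Subgroup A => (∀ x ∈ X, ∀ a ∈ Y, x a ∈ Y) ∧ Y ⊔ C = ⊤) (a := ⊤)
    ⟨fun _ _ _ _ => Subgroup.mem_top _, top_sup_eq _⟩
  obtain ⟨hYinv, hYC⟩ := hY.1
  set Yp : Subgroup A := Y.map (powMonoidHom p) with hYp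
  have hYpY : Yp ≤ Y := by rintro _ ⟨a, ha, rfl⟩; exact Y.pow_mem ha p
  have hYpinv : ∀ x ∈ X, ∀ a ∈ Yp, x a ∈ Yp := by
    rintro x hx _ ⟨a, ha, rfl⟩
    exact ⟨x a, hYinv x hx a ha, by simp [map_pow]⟩
  have hD : Y ⊓ C ≤ Yp := by
    obtain ⟨K, hLK, hKY, hKinv, hKinf, hKsup⟩ := exists_complement X hX
      (L := Yp) (U := (Y ⊓ C) ⊔ Yp) (V := Y) le_sup_right (sup_le inf_le_left hYpY) hYpinv
      (fun x hx a ha => by
        obtain ⟨d, hd, c, hc, rfl⟩ := Subgroup.mem_sup.1 ha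
        rw [map_mul]
        exact Subgroup.mul_mem_sup ⟨hYinv x hx d hd.1, hCinv x hx d hd.2⟩ (hYpinv x hx c hc))
      hYinv (fun v hv => ⟨v, hv, rfl⟩)
    have hKY' : Y ≤ K := by
      refine hY.2 ⟨hKinv, ?_⟩ hKY
      rw [eq_top_iff, ← hYC, ← hKsup]
      refine sup_le (sup_le (sup_le ?_ ?_) le_sup_left) le_sup_right
      · exact inf_le_right.trans le_sup_right
      · exact hLK.trans le_sup_left
    intro d hd
    rw [← hKinf]
    exact ⟨Subgroup.mem_sup_left hd, hKY' hd.1⟩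
  have hYq : Y.map q = ⊤ := by
    rw [eq_top_iff]
    rintro z -
    obtain ⟨a, rfl⟩ := hqsurj z
    obtain ⟨y, hy, c, hc, rfl⟩ := Subgroup.mem_sup.1 (hYC ▸ Subgroup.mem_top a)
    exact ⟨y, hy, by rw [map_mul, show q c = 1 from (QuotientGroup.eq_one_iff c).2 hc, mul_one]⟩
  have hYpq : Yp.map q = (powMonoidHom p : A ⧸ C →* A ⧸ C).range := by
    rw [hYp, Subgroup.map_map, MonoidHom.range_eq_map, ← hYq, Subgroup.map_map]
    congr 1
  have e1 : Nat.card Y = Nat.card ↥(Y ⊓ C) * Nat.card (A ⧸ C) := by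
    have := card_eq_card_inf_ker_mul q Y
    rwa [hqker, hYq, Subgroup.card_top] at this
  have e2 : Nat.card Yp = Nat.card ↥(Y ⊓ C) *
      Nat.card ↥(powMonoidHom p : A ⧸ C →* A ⧸ C).range := by
    have := card_eq_card_inf_ker_mul q Yp
    rwa [hqker, hYpq, show Yp ⊓ C = Y ⊓ C from
      le_antisymm (inf_le_inf_right _ hYpY) (le_inf hD inf_le_right)] at this
  have e3 := card_eq_card_inf_ker_mul (powMonoidHom p : A →* A) Y
  have e4 : Nat.card (A ⧸ C) = Nat.card ↥(powMonoidHom p : A ⧸ C →* A ⧸ C).ker *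
      Nat.card ↥(powMonoidHom p : A ⧸ C →* A ⧸ C).range := by
    have := card_eq_card_inf_ker_mul (powMonoidHom p : A ⧸ C →* A ⧸ C) ⊤
    rwa [Subgroup.card_top, top_inf_eq, ← MonoidHom.range_eq_map] at this
  have e5 : Nat.card ↥(Y ⊓ (powMonoidHom p : A →* A).ker) =
      Nat.card ↥(powMonoidHom p : A ⧸ C →* A ⧸ C).ker := by
    rw [← hYp, e2, e1, e4] at e3
    have hpos : 0 < Nat.card ↥(Y ⊓ C) * Nat.card ↥(powMonoidHom p : A ⧸ C →* A ⧸ C).range :=
      Nat.mul_pos Nat.card_pos Nat.card_pos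
    refine Nat.eq_of_mul_eq_mul_right hpos (Eq.trans e3.symm ?_)
    ring
  have e6 := card_le_pow (p := p) Y (e' + 1)
  rw [show Y.map (powMonoidHom (p ^ (e' + 1)) : A →* A) = ⊥ from by
    rw [eq_bot_iff]
    rintro _ ⟨a, -, rfl⟩
    show a ^ p ^ (e' + 1) ∈ ⊥
    rw [hexp]; exact Subgroup.one_mem _, Subgroup.card_bot, mul_one, e5, ← hKcard, e1] at e6
  have hdis : Y ⊓ C = ⊥ := by
    refine Subgroup.eq_bot_of_card_le _ ?_
    exact Nat.le_of_mul_le_mul_right (by rwa [one_mul]) Nat.card_pos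
  have hC0 : C = ⊥ := by
    refine (hind Y C hYinv hCinv hdis hYC).resolve_left fun h => hW1 ?_
    rw [h, bot_sup_eq] at hYC
    rwa [hYC, inf_top_eq] at hWC
  -- so `W` is everything of order `p` and `B` contains it
  have hall : ∀ a : A, a ^ p = 1 → a ∈ W := by
    intro a ha
    have : a ∈ O := by
      show a ^ p ∈ C
      rw [ha]; exact C.one_mem
    rwa [hOeq, hC0, sup_bot_eq] at this
  intro a ha
  have hBW : B ≤ W := fun b hb => hall b (hBp b hb)
  exact hW.2 ⟨hBW.trans hWT, hB1, hB⟩ hBW (hall a ha)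

end Helpers


/-- Let A be a finite abelian p-group and X a group of automorphisms of A of order prime to p. Call a subgroup of A invariant when every element of X maps it onto itself. Then the following are equivalent: (i) A is not the direct product of two nontrivial invariant subgroups; (ii) every invariant subgroup of A is one of the subgroups Ω_i(A) = {a : a^(p^i) = 1}; (iii) the subgroup Ω₁(A) of elements of order dividing p has no invariant subgroups other than 1 and itself. -/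
theorem result {A : Type*} [CommGroup A] [Finite A] {p : ℕ} [Fact p.Prime] (hA : IsPGroup p A) (X : Subgroup (MulAut A)) (hX : (Nat.card X).Coprime p) : ((¬ ∃ B C : Subgroup A, B ≠ ⊥ ∧ C ≠ ⊥ ∧ (∀ x ∈ X, B.map x.toMonoidHom = B) ∧ (∀ x ∈ X, C.map x.toMonoidHom = C) ∧ B ⊓ C = ⊥ ∧ B ⊔ C = ⊤) ↔ (∀ B : Subgroup A, (∀ x ∈ X, B.map x.toMonoidHom = B) → ∃ i : ℕ, ∀ a : A, a ∈ B ↔ a ^ p ^ i = 1)) ∧ ((∀ B : Subgroup A, (∀ x ∈ X, B.map x.toMonoidHom = B) → ∃ i : ℕ, ∀ a : A, a ∈ B ↔ a ^ p ^ i = 1) ↔ (∀ B : Subgroup A, (∀ x ∈ X, B.map x.toMonoidHom = B) → (∀ b ∈ B, b ^ p = 1) → B = ⊥ ∨ ∀ a : A, a ∈ B ↔ a ^ p = 1)) := by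
  classical
  have hp : p.Prime := Fact.out
  have ord : ∀ B : Subgroup A, B ≠ ⊥ → ∃ b ∈ B, b ^ p = 1 ∧ b ≠ 1 := by
    intro B hB
    obtain ⟨b, hb⟩ := (Subgroup.ne_bot_iff_exists_ne_one).1 hB
    obtain ⟨k, hk⟩ := (IsPGroup.iff_orderOf).1 hA (b : A)
    have hk0 : k ≠ 0 := by
      intro h
      rw [h, pow_zero, orderOf_eq_one_iff] at hk
      exact hb (Subtype.ext hk)
    obtain ⟨j, rfl⟩ := Nat.exists_eq_succ_of_ne_zero hk0
    refine ⟨(b : A) ^ p ^ j, B.pow_mem b.2 _, ?_, ?_⟩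
    · rw [← pow_mul, ← pow_succ, ← hk, pow_orderOf_eq_one]
    · intro h
      have := orderOf_dvd_of_pow_eq_one h
      rw [hk] at this
      exact absurd (Nat.le_of_dvd (pow_pos hp.pos _) this)
        (not_le.2 (Nat.pow_lt_pow_right hp.one_lt (Nat.lt_succ_self j)))
  have hinv := map_eq_iff_forall (A := A) X
  -- (iii) implies (ii)
  have h32 : (∀ B : Subgroup A, (∀ x ∈ X, B.map x.toMonoidHom = B) → (∀ b ∈ B, b ^ p = 1) →
      B = ⊥ ∨ ∀ a : A, a ∈ B ↔ a ^ p = 1) →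
      ∀ B : Subgroup A, (∀ x ∈ X, B.map x.toMonoidHom = B) →
        ∃ i : ℕ, ∀ a : A, a ∈ B ↔ a ^ p ^ i = 1 := by
    intro h3
    have key : ∀ (i : ℕ) (B : Subgroup A), (∀ x ∈ X, ∀ b ∈ B, x b ∈ B) →
        (∀ b ∈ B, b ^ p ^ i = 1) → ∃ j : ℕ, ∀ a : A, a ∈ B ↔ a ^ p ^ j = 1 := by
      intro i
      induction i with
      | zero =>
        intro B _ hB
        refine ⟨0, fun a => ⟨hB a, fun ha => ?_⟩⟩
        rw [pow_zero, pow_one] at ha
        exact ha ▸ B.one_mem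
      | succ i ih =>
        intro B hBinv hB
        let B' : Subgroup A := B.map (powMonoidHom p)
        have hB'B : B' ≤ B := by rintro _ ⟨b, hb, rfl⟩; exact B.pow_mem hb p
        obtain ⟨j, hj⟩ := ih B'
          (by
            rintro x hx _ ⟨b, hb, rfl⟩
            exact ⟨x b, hBinv x hx b hb, by simp [map_pow]⟩)
          (by
            rintro _ ⟨b, hb, rfl⟩
            show (b ^ p) ^ p ^ i = 1
            rw [← pow_mul, ← pow_succ']
            exact hB b hb)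
        by_cases hB1 : B = ⊥
        · refine ⟨0, fun a => ?_⟩
          rw [hB1, Subgroup.mem_bot, pow_zero, pow_one]
        -- `B` contains every element of order `p`
        let E : Subgroup A := B ⊓ (powMonoidHom p : A →* A).ker
        have hE : ∀ a : A, a ∈ E ↔ a ^ p = 1 := by
          refine (h3 E ((hinv E).2 ?_) fun b hb => hb.2).resolve_left ?_
          · intro x hx b hb
            refine ⟨hBinv x hx b hb.1, ?_⟩
            show x b ^ p = 1
            rw [← map_pow, show b ^ p = 1 from hb.2, map_one]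
          · intro h
            obtain ⟨b, hbB, hbp, hb1⟩ := ord B hB1
            have : b ∈ E := ⟨hbB, hbp⟩
            rw [h, Subgroup.mem_bot] at this
            exact hb1 this
        refine ⟨j + 1, fun a => ⟨fun ha => ?_, fun ha => ?_⟩⟩
        · rw [pow_succ', pow_mul]
          exact (hj _).1 ⟨a, ha, rfl⟩
        · rw [pow_succ', pow_mul] at ha
          obtain ⟨b, hb, hba⟩ := (hj (a ^ p)).2 ha
          have : b⁻¹ * a ∈ E := (hE _).2 (by
            rw [mul_pow, inv_pow, show b ^ p = a ^ p from hba, inv_mul_cancel])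
          simpa using B.mul_mem hb this.1
    intro B hB
    obtain ⟨n, hn⟩ := IsPGroup.iff_card.1 hA
    exact key n B ((hinv B).1 hB) fun b _ => by rw [← hn]; exact pow_card_eq_one'
  -- (ii) implies (iii)
  have h23 : (∀ B : Subgroup A, (∀ x ∈ X, B.map x.toMonoidHom = B) →
      ∃ i : ℕ, ∀ a : A, a ∈ B ↔ a ^ p ^ i = 1) →
      ∀ B : Subgroup A, (∀ x ∈ X, B.map x.toMonoidHom = B) → (∀ b ∈ B, b ^ p = 1) →
        B = ⊥ ∨ ∀ a : A, a ∈ B ↔ a ^ p = 1 := by
    intro h2 B hB hBp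
    obtain ⟨i, hi⟩ := h2 B hB
    rcases Nat.eq_zero_or_pos i with h | h
    · left
      rw [Subgroup.eq_bot_iff_forall]
      intro b hb
      have := (hi b).1 hb
      rwa [h, pow_zero, pow_one] at this
    · right
      refine fun a => ⟨hBp a, fun ha => (hi a).2 ?_⟩
      obtain ⟨j, rfl⟩ := Nat.exists_eq_succ_of_ne_zero (Nat.pos_iff_ne_zero.1 h)
      rw [pow_succ', pow_mul, ha, one_pow]
  refine ⟨⟨fun h1 => ?_, fun h2 => ?_⟩, ⟨h23, h32⟩⟩
  · refine h32 fun B hB hBp => ?_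
    by_cases hB1 : B = ⊥
    · exact Or.inl hB1
    · refine Or.inr fun a => ⟨hBp a, omega_irreducible hA X hX ?_ B ((hinv B).1 hB) hBp hB1 a⟩
      intro P Q hP hQ hinf hsup
      by_contra hne
      push Not at hne
      exact h1 ⟨P, Q, hne.1, hne.2, (hinv P).2 hP, (hinv Q).2 hQ, hinf, hsup⟩
  · rintro ⟨P, Q, hP1, hQ1, hP, hQ, hinf, -⟩
    obtain ⟨b, hbQ, hbp, hb1⟩ := ord Q hQ1
    let E : Subgroup A := P ⊓ (powMonoidHom p : A →* A).ker
    have hEinv : ∀ x ∈ X, ∀ c ∈ E, x c ∈ E := by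
      intro x hx c hc
      refine ⟨(hinv P).1 hP x hx c hc.1, ?_⟩
      show x c ^ p = 1
      rw [← map_pow, show c ^ p = 1 from hc.2, map_one]
    rcases h23 h2 E ((hinv E).2 hEinv) fun c hc => hc.2 with h | h
    · obtain ⟨c, hcP, hcp, hc1⟩ := ord P hP1
      have : c ∈ E := ⟨hcP, hcp⟩
      rw [h, Subgroup.mem_bot] at this
      exact hc1 this
    · have : b ∈ P ⊓ Q := ⟨((h b).2 hbp).1, hbQ⟩
      rw [hinf, Subgroup.mem_bot] at this
      exact hb1 this

end Cfsg.Agent.S3775
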