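import Cfsg.Statements.S3776
import Cfsg.Agent.SuzukiSolv.Elementary
import Cfsg.Agent.PGroup.Frattini

set_option autoImplicit false
open Cfsg
open scoped commutatorElement

namespace Cfsg.Agent.S3776

/-- Let G be a finite non-abelian 2-group with more than one involution admitting a solvable group of automorphisms that permutes its involutions transitively. Then the derived subgroup, the Frattini subgroup and the centre of G coincide and consist exactly of the elements x with x² = 1. -/
theorem result {G : Type*} [Group G] [Finite G] (hG : IsPGroup 2 G) (hna : ¬ IsMulCommutative G) (htwo : ∃ x y : G, x ≠ y ∧ x ≠ 1 ∧ x ^ 2 = 1 ∧ y ≠ 1 ∧ y ^ 2 = 1) (hY : ∃ Y : Subgroup (MulAut G), Group.IsSolvable Y ∧ ∀ x y : G, x ≠ 1 → x ^ 2 = 1 → y ≠ 1 → y ^ 2 = 1 → ∃ a ∈ Y, a x = y) : commutator G = frattini G ∧ frattini G = Subgroup.center G ∧ ∀ x : G, x ∈ Subgroup.center G ↔ x ^ 2 = 1 := by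
  classical
  obtain ⟨Y, hYs, hYt⟩ := hY
  haveI : Fact (Nat.Prime 2) := ⟨Nat.prime_two⟩
  have hna' : ∃ x y : G, x * y ≠ y * x := by
    by_contra hcon
    push Not at hcon
    exact hna (IsMulCommutative.of_comm hcon)
  have h : CfsgLib.SuzukiSolv.SCtx G Y :=
    ⟨inferInstance, hG, hna', by simpa only [pow_two] using htwo, hYs,
      fun x y hx hx2 hy hy2 => hYt x y hx (by rw [pow_two]; exact hx2) hy (by rw [pow_two]; exact hy2)⟩
  have hcomm : ∀ a b : G, ⁅a, b⁆ ∈ Subgroup.center G := by
    intro a b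
    have hsq : ∀ q : G ⧸ Subgroup.center G, q * q = 1 := by
      intro q
      obtain ⟨g, rfl⟩ := QuotientGroup.mk_surjective q
      rw [← QuotientGroup.mk_mul]
      exact (QuotientGroup.eq_one_iff _).2 (h.sq_mem_center g)
    refine (QuotientGroup.eq_one_iff _).1 ?_
    change QuotientGroup.mk' (Subgroup.center G) ⁅a, b⁆ = 1
    rw [map_commutatorElement, commutatorElement_eq_one_iff_mul_comm]
    set u := QuotientGroup.mk' (Subgroup.center G) a
    set v := QuotientGroup.mk' (Subgroup.center G) b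
    calc u * v = (u * v)⁻¹ := eq_inv_of_mul_eq_one_left (hsq _)
      _ = v⁻¹ * u⁻¹ := mul_inv_rev _ _
      _ = v * u := by rw [inv_eq_of_mul_eq_one_left (hsq v), inv_eq_of_mul_eq_one_left (hsq u)]
  have hΩ : ∀ z : G, z * z = 1 → z ∈ commutator G := by
    intro z hz
    by_cases hz1 : z = 1
    · rw [hz1]; exact one_mem _
    obtain ⟨a, b, hab⟩ := hna'
    have hne : ⁅a, b⁆ ≠ 1 := fun e => hab (commutatorElement_eq_one_iff_mul_comm.1 e)
    obtain ⟨k, hk, hkz⟩ := h.trans _ z hne (h.center_sq (hcomm a b)) hz1 hz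
    rw [← hkz, map_commutatorElement]
    exact Subgroup.commutator_mem_commutator (Subgroup.mem_top _) (Subgroup.mem_top _)
  have hΦZ : frattini G ≤ Subgroup.center G :=
    CfsgLib.PGroup.frattini_le_of_elementary (p := 2) hcomm
      fun a => by rw [pow_two]; exact h.sq_mem_center a
  have hGΦ : commutator G ≤ frattini G := CfsgLib.PGroup.commutator_le_frattini hG
  have hZG : Subgroup.center G ≤ commutator G := fun z hz => hΩ z (h.center_sq hz)
  refine ⟨le_antisymm hGΦ (hΦZ.trans hZG), le_antisymm hΦZ (hZG.trans hGΦ), fun x => ?_⟩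
  rw [pow_two]
  exact h.mem_center_iff

end Cfsg.Agent.S3776
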