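import Cfsg.Statements.S3778
import Cfsg.Agent.LowerCentral.Bracket
import Mathlib

set_option autoImplicit false
open Cfsg

namespace Cfsg.Agent.S3778

open Subgroup in
/-- The elements acting trivially on the two step section starting at the `j`-th term. -/
def stepKernel (G : Type*) [Group G] (j : ℕ) : Subgroup G :=
  (centralizer (((⊤ : Subgroup G).lowerCentralSeries j).map
    (QuotientGroup.mk' ((⊤ : Subgroup G).lowerCentralSeries (j + 2))) : Set (G ⧸ _))).comap
    (QuotientGroup.mk' ((⊤ : Subgroup G).lowerCentralSeries (j + 2)))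

open Subgroup in
theorem mem_stepKernel {G : Type*} [Group G] {j : ℕ} {x : G} :
    x ∈ stepKernel G j ↔ ∀ z ∈ (⊤ : Subgroup G).lowerCentralSeries j,
      z * x * z⁻¹ * x⁻¹ ∈ (⊤ : Subgroup G).lowerCentralSeries (j + 2) := by
  rw [stepKernel, mem_comap, mem_centralizer_iff]
  constructor
  · intro h z hz
    have h1 := h _ ⟨z, hz, rfl⟩
    rw [← (QuotientGroup.eq_one_iff (N := (⊤ : Subgroup G).lowerCentralSeries (j + 2)) _),
      ← QuotientGroup.mk'_apply, map_mul, map_mul, map_mul, map_inv, map_inv, h1]
    group
  · rintro h _ ⟨z, hz, rfl⟩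
    have h1 := (QuotientGroup.eq_one_iff (N := (⊤ : Subgroup G).lowerCentralSeries (j + 2)) _).2 (h z hz)
    rw [← QuotientGroup.mk'_apply, map_mul, map_mul, map_mul, map_inv, map_inv] at h1
    exact eq_mul_of_mul_inv_eq (mul_inv_eq_one.1 h1)

/-- If `x` moves the section starting at the `j`-th term then the `j`-th term is not contained in
`C(x)` times the next one. -/
theorem not_le_of_not_mem_stepKernel {G : Type*} [Group G] {j : ℕ} {x : G} (hx : x ∉ stepKernel G j) :
    ¬ (⊤ : Subgroup G).lowerCentralSeries j ≤
      Subgroup.centralizer {x} ⊔ (⊤ : Subgroup G).lowerCentralSeries (j + 1) := by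
  intro hle
  refine hx (mem_stepKernel.2 fun y hy => ?_)
  obtain ⟨c, hc, z, hz, rfl⟩ := Subgroup.mem_sup_of_normal_right.1 (hle hy)
  have hcx : c * x = x * c := (Subgroup.mem_centralizer_iff.1 hc x rfl).symm
  have hzx : z * x * z⁻¹ * x⁻¹ ∈ (⊤ : Subgroup G).lowerCentralSeries (j + 2) := by
    have := Subgroup.commutator_mem_commutator hz (Subgroup.mem_top x)
    simpa [commutatorElement_def] using this
  have h2 : c * z * x * (c * z)⁻¹ * x⁻¹ = c * (z * x * z⁻¹ * x⁻¹) * c⁻¹ := by
    have h3 : c⁻¹ * x⁻¹ = x⁻¹ * c⁻¹ := by rw [← mul_inv_rev, ← mul_inv_rev, hcx]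
    rw [mul_inv_rev]
    simp only [mul_assoc, h3]
  rw [h2]
  exact (inferInstance : ((⊤ : Subgroup G).lowerCentralSeries (j + 2)).Normal).conj_mem _ hzx c

/-- If G is a finite p-group in which every conjugacy class has at most p^b elements (every element has centralizer of index at most p^b), then G is abelian when b = 0, and when b ≥ 1 its nilpotency class c satisfies (c − 1)(p − 1) < bp, that is c < bp/(p − 1) + 1, and hence c ≤ 2b. -/
theorem result {G : Type*} [Group G] [Finite G] {p : ℕ} [Fact p.Prime] (hG : IsPGroup p G) (b : ℕ) (hb : ∀ x : G, (Subgroup.centralizer ({x} : Set G)).index ≤ p ^ b) : ∃ c : ℕ, (⊤ : Subgroup G).lowerCentralSeries c = ⊥ ∧ (b ≠ 0 → (c - 1) * (p - 1) < b * p ∧ c ≤ 2 * b) ∧ (b = 0 → c ≤ 1) := by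
  classical
  have hp : p.Prime := Fact.out
  rcases Nat.eq_zero_or_pos b with rfl | hbpos
  · refine ⟨1, ?_, fun h => absurd rfl h, fun _ => le_rfl⟩
    rw [eq_bot_iff, Subgroup.lowerCentralSeries_succ, Subgroup.lowerCentralSeries_zero, Subgroup.commutator_le]
    intro g _ h _
    have h1 := hb h
    rw [pow_zero] at h1
    have h2 : (Subgroup.centralizer ({h} : Set G)).index = 1 :=
      le_antisymm h1 (Nat.one_le_iff_ne_zero.2 Subgroup.index_ne_zero_of_finite)
    rw [Subgroup.mem_bot, commutatorElement_eq_one_iff_mul_comm]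
    have h3 : g ∈ Subgroup.centralizer ({h} : Set G) := by
      rw [Subgroup.index_eq_one.1 h2]; exact Subgroup.mem_top g
    exact (Subgroup.mem_centralizer_iff.1 h3 h rfl).symm
  have hnil : Group.IsNilpotent G := hG.isNilpotent
  set c := Group.nilpotencyClass G with hc
  have hcbot : (⊤ : Subgroup G).lowerCentralSeries c = ⊥ := Subgroup.lowerCentralSeries_nilpotencyClass
  have hproper : ∀ j < c - 1, stepKernel G j ≠ ⊤ := by
    intro j hj htop
    have hle : (⊤ : Subgroup G).lowerCentralSeries (j + 1) ≤ (⊤ : Subgroup G).lowerCentralSeries (j + 1 + 1) := by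
      rw [Subgroup.lowerCentralSeries_succ _ j, Subgroup.commutator_le]
      intro z hz x _
      exact mem_stepKernel.1 (htop ▸ Subgroup.mem_top x) z hz
    have h2 : (⊤ : Subgroup G).lowerCentralSeries (j + 1) = ⊥ :=
      CfsgLib.LowerCentral.eq_bot_of_le_commutator_top hle
    have h3 := Subgroup.lowerCentralSeries_eq_bot_iff_nilpotencyClass_le.1 h2
    omega
  -- for every `x` the number of moved sections is at most `b`
  have hcount : ∀ x : G, ((Finset.range (c - 1)).filter fun j => x ∉ stepKernel G j).card ≤ b := by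
    intro x
    set C := Subgroup.centralizer ({x} : Set G)
    have key : ∀ k, p ^ ((Finset.range k).filter fun j => x ∉ stepKernel G j).card ≤
        (C ⊔ (⊤ : Subgroup G).lowerCentralSeries k).index := by
      intro k
      induction k with
      | zero => simp
      | succ k ih =>
        have hle : C ⊔ (⊤ : Subgroup G).lowerCentralSeries (k + 1) ≤ C ⊔ (⊤ : Subgroup G).lowerCentralSeries k :=
          sup_le_sup_left (Subgroup.lowerCentralSeries_antitone _ (Nat.le_succ k)) C
        have hmul := Subgroup.relIndex_mul_index hle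
        rw [Finset.range_add_one, Finset.filter_insert]
        by_cases hx : x ∈ stepKernel G k
        swap
        · rw [if_pos hx]
          rw [Finset.card_insert_of_notMem (by simp), pow_succ, ← hmul, mul_comm (p ^ _)]
          obtain ⟨e, he⟩ := (hG.to_subgroup (C ⊔ (⊤ : Subgroup G).lowerCentralSeries k)).index
            ((C ⊔ (⊤ : Subgroup G).lowerCentralSeries (k + 1)).subgroupOf
              (C ⊔ (⊤ : Subgroup G).lowerCentralSeries k))
          have he' : (C ⊔ (⊤ : Subgroup G).lowerCentralSeries (k + 1)).relIndex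
              (C ⊔ (⊤ : Subgroup G).lowerCentralSeries k) = p ^ e := he
          have he0 : e ≠ 0 := by
            rintro rfl
            rw [pow_zero] at he'
            exact not_le_of_not_mem_stepKernel hx (le_sup_right.trans (Subgroup.relIndex_eq_one.1 he'))
          rw [he']
          exact Nat.mul_le_mul (Nat.le_self_pow he0 p) ih
        · rw [if_neg (not_not.2 hx)]
          exact ih.trans (Subgroup.index_antitone hle)
    have h1 := (key (c - 1)).trans (Subgroup.index_antitone le_sup_left)
    exact (Nat.pow_le_pow_iff_right hp.one_lt).1 (h1.trans (hb x))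
  have hone : ((Finset.range (c - 1)).filter fun j => (1 : G) ∉ stepKernel G j).card = 0 := by
    simp
  have : Fintype G := Fintype.ofFinite G
  have hsum1 : ∑ x : G, ((Finset.range (c - 1)).filter fun j => x ∉ stepKernel G j).card
      ≤ (Nat.card G - 1) * b := by
    rw [← Finset.add_sum_erase _ _ (Finset.mem_univ (1 : G)), hone, zero_add, Nat.card_eq_fintype_card]
    refine (Finset.sum_le_card_nsmul _ _ b fun x _ => hcount x).trans ?_
    rw [Finset.card_erase_of_mem (Finset.mem_univ _), Finset.card_univ, smul_eq_mul]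
  have hsum2 : (c - 1) * ((p - 1) * Nat.card G) ≤
      p * ∑ x : G, ((Finset.range (c - 1)).filter fun j => x ∉ stepKernel G j).card := by
    have hswap : ∑ x : G, ((Finset.range (c - 1)).filter fun j => x ∉ stepKernel G j).card
        = ∑ j ∈ Finset.range (c - 1), (Finset.univ.filter fun x : G => x ∉ stepKernel G j).card := by
      simp_rw [Finset.card_filter]
      exact Finset.sum_comm
    rw [hswap, Finset.mul_sum]
    calc (c - 1) * ((p - 1) * Nat.card G) = ∑ j ∈ Finset.range (c - 1), (p - 1) * Nat.card G := by simp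
      _ ≤ _ := by
        refine Finset.sum_le_sum fun j hj => ?_
        have hne := hproper j (Finset.mem_range.1 hj)
        have h1 : (Finset.univ.filter fun x : G => x ∉ stepKernel G j).card
            = Nat.card G - Nat.card (stepKernel G j) := by
          rw [Finset.filter_not, Finset.card_univ_sdiff, Nat.card_eq_fintype_card,
            Nat.card_eq_fintype_card, Fintype.card_subtype]
        have h2 := Subgroup.card_mul_index (stepKernel G j)
        obtain ⟨e, he⟩ := hG.index (stepKernel G j)
        have he0 : e ≠ 0 := by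
          rintro rfl
          rw [pow_zero] at he
          exact hne (Subgroup.index_eq_one.1 he)
        have h3 : p * Nat.card (stepKernel G j) ≤ Nat.card G := by
          rw [← h2, mul_comm, he]
          exact Nat.mul_le_mul_left _ (Nat.le_self_pow he0 p)
        rw [h1, Nat.mul_sub, Nat.sub_mul, one_mul]
        omega
  have hlt : (c - 1) * (p - 1) < b * p := by
    have h1 := hsum2.trans (Nat.mul_le_mul_left p hsum1)
    have hGpos : 0 < Nat.card G := Nat.card_pos
    have h2 : (Nat.card G - 1) * b < Nat.card G * b := Nat.mul_lt_mul_of_pos_right (by omega) hbpos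
    have h4 : (c - 1) * (p - 1) * Nat.card G < b * p * Nat.card G :=
      calc (c - 1) * (p - 1) * Nat.card G = (c - 1) * ((p - 1) * Nat.card G) := by ring
        _ ≤ p * ((Nat.card G - 1) * b) := h1
        _ < p * (Nat.card G * b) := Nat.mul_lt_mul_of_pos_left h2 hp.pos
        _ = b * p * Nat.card G := by ring
    exact Nat.lt_of_mul_lt_mul_right h4
  refine ⟨c, hcbot, fun _ => ⟨hlt, ?_⟩, fun h => by omega⟩
  obtain ⟨q, hq⟩ : ∃ q, p = q + 2 := ⟨p - 2, by have := hp.two_le; omega⟩
  subst hq
  by_contra hbad
  rw [not_le] at hbad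
  have h2 : 2 * b * (q + 1) ≤ (c - 1) * (q + 2 - 1) := Nat.mul_le_mul (by omega) (by omega)
  nlinarith

end Cfsg.Agent.S3778
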