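import Cfsg.Statements.S3780
import Mathlib

set_option autoImplicit false
open Cfsg

namespace Cfsg.Agent.S3780

/-- Let V be a finite abelian p-group and α an automorphism of V of order p whose fixed-point subgroup has order p^n. Then V can be generated by pn elements: some subset of V with at most pn elements generates V. -/
theorem result {V : Type*} [CommGroup V] [Finite V] {p : ℕ} [Fact p.Prime] (hV : IsPGroup p V) (α : MulAut V) (hα : orderOf α = p) (n : ℕ) (hfix : Nat.card {v : V // α v = v} = p ^ n) : ∃ S : Finset V, S.card ≤ p * n ∧ Subgroup.closure (S : Set V) = ⊤ := by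
  classical
  have hp : p.Prime := Fact.out
  let f : V →* V := α.toMonoidHom / MonoidHom.id V
  have hfv : ∀ v, f v = α v / v := fun v => rfl
  -- the kernels of the powers of `f` grow by at most `p ^ n` at each step
  have hker : Nat.card f.ker = p ^ n := by
    rw [← hfix]
    exact Nat.card_congr (Equiv.subtypeEquivRight fun v => by rw [MonoidHom.mem_ker, hfv, div_eq_one])
  let K : ℕ → Subgroup V := fun j => Nat.rec (motive := fun _ => Subgroup V) ⊥ (fun _ H => H.comap f) j
  have hKsucc : ∀ j, K (j + 1) = (K j).comap f := fun j => rfl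
  have hK0 : K 0 = ⊥ := rfl
  have hKcard : ∀ j, Nat.card (K j) ≤ p ^ (n * j) := by
    intro j
    induction j with
    | zero => simp [hK0]
    | succ j ih =>
      set H := K j
      let g : (H.comap f) →* V := f.comp (H.comap f).subtype
      have h1 := Subgroup.card_mul_index g.ker
      rw [Subgroup.index_ker] at h1
      have h2 : Nat.card g.ker ≤ Nat.card f.ker :=
        Nat.card_le_card_of_injective (fun x => (⟨((x : ↥(H.comap f)) : V), x.2⟩ : f.ker))
          (fun x y hxy => Subtype.ext (Subtype.ext (congrArg (fun z : f.ker => (z : V)) hxy)))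
      have h3 : Nat.card g.range ≤ Nat.card H := by
        refine Subgroup.card_le_of_le ?_
        rintro y ⟨x, rfl⟩
        exact x.2
      rw [hKsucc, ← h1, Nat.mul_succ, pow_add, ← hker, mul_comm (p ^ (n * j))]
      exact Nat.mul_le_mul h2 (h3.trans ih)
  have hKmem : ∀ j v, v ∈ K j ↔ f^[j] v = 1 := by
    intro j
    induction j with
    | zero => intro v; simp [hK0]
    | succ j ih => intro v; rw [hKsucc, Subgroup.mem_comap, ih, Function.iterate_succ_apply]
  let φ := powMonoidHom p (α := V)
  have hΩ : φ.ker ≤ K p := by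
    intro v hv
    rw [hKmem]
    have hv' : v ^ p = 1 := hv
    let A : AddMonoid.End (Additive V) := MonoidHom.toAdditive α.toMonoidHom
    let F : AddMonoid.End (Additive V) := MonoidHom.toAdditive f
    have hFA : F + 1 = A := by
      refine AddMonoidHom.ext fun w => ?_
      apply Additive.toMul.injective
      change f w.toMul * w.toMul = α w.toMul
      rw [hfv, div_mul_cancel]
    have hApow : ∀ (m : ℕ) (w : V), (A ^ m) (Additive.ofMul w) = Additive.ofMul ((α ^ m) w) := by
      intro m
      induction m with
      | zero => intro w; rfl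
      | succ m ih =>
        intro w
        rw [pow_succ, pow_succ]
        exact ih (α w)
    have hFpow : ∀ (m : ℕ) (w : V), (F ^ m) (Additive.ofMul w) = Additive.ofMul (f^[m] w) := by
      intro m
      induction m with
      | zero => intro w; rfl
      | succ m ih =>
        intro w
        rw [pow_succ, Function.iterate_succ_apply]
        exact ih (f w)
    have hA1 : A ^ p = 1 := by
      refine AddMonoidHom.ext fun w => ?_
      have := hApow p w.toMul
      have hαp : α ^ p = 1 := hα ▸ pow_orderOf_eq_one α
      rw [hαp] at this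
      exact this
    obtain ⟨r, hr⟩ := (Commute.one_right F).exists_add_pow_prime_eq hp
    rw [hFA, hA1, one_pow] at hr
    have h1 : Additive.ofMul v = (F ^ p) (Additive.ofMul v) + Additive.ofMul v +
        ((p : AddMonoid.End (Additive V)) * F * 1 * r) (Additive.ofMul v) :=
      DFunLike.congr_fun hr (Additive.ofMul v)
    rw [hFpow] at h1
    have h2 : ((p : AddMonoid.End (Additive V)) * F * 1 * r) (Additive.ofMul v) = 0 := by
      rw [mul_one, mul_assoc, ← nsmul_eq_mul]
      change p • ((F * r) (Additive.ofMul v)) = 0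
      rw [← map_nsmul, ← ofMul_pow, hv', ofMul_one, map_zero]
    rw [h2, add_zero] at h1
    have h3 : Additive.ofMul (f^[p] v) = (0 : Additive V) := by
      have h4 : Additive.ofMul (f^[p] v) + Additive.ofMul v = Additive.ofMul v := h1.symm
      simpa using h4
    simpa using h3
  -- the Frattini quotient has at most `p ^ (p * n)` elements
  have hidx : φ.range.index ≤ p ^ (p * n) := by
    have h1 := Subgroup.card_mul_index φ.ker
    have h2 := Subgroup.card_mul_index φ.range
    rw [Subgroup.index_ker] at h1
    rw [← h1, mul_comm (Nat.card φ.ker)] at h2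
    rw [Nat.eq_of_mul_eq_mul_left Nat.card_pos h2, mul_comm p n]
    exact (Subgroup.card_le_of_le hΩ).trans (hKcard p)
  set R := φ.range with hR
  have grow : ∀ j : ℕ, ∃ S : Finset V, S.card ≤ j ∧
      (Subgroup.closure (S : Set V) ⊔ R = ⊤ ∨
        (Subgroup.closure (S : Set V) ⊔ R).index * p ^ j ≤ R.index) := by
    intro j
    induction j with
    | zero => exact ⟨∅, le_rfl, Or.inr (by simp)⟩
    | succ j ih =>
      obtain ⟨S, hS, hS'⟩ := ih
      rcases eq_or_ne (Subgroup.closure (S : Set V) ⊔ R) ⊤ with htop | htop
      · exact ⟨S, hS.trans (Nat.le_succ j), Or.inl htop⟩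
      obtain ⟨x, hx⟩ : ∃ x, x ∉ Subgroup.closure (S : Set V) ⊔ R := by
        by_contra hc
        push Not at hc
        exact htop (eq_top_iff.2 fun y _ => hc y)
      refine ⟨insert x S, (Finset.card_insert_le x S).trans (by omega), Or.inr ?_⟩
      set T := Subgroup.closure (S : Set V) ⊔ R
      set T' := Subgroup.closure ((insert x S : Finset V) : Set V) ⊔ R
      have hle : T ≤ T' := sup_le_sup_right (Subgroup.closure_mono (by simp)) _
      have hlt : T < T' :=
        lt_of_le_of_ne hle fun he => hx (he ▸ Subgroup.mem_sup_left (Subgroup.subset_closure (by simp)))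
      have hdvd := Subgroup.relIndex_mul_index hle
      have hne : T.relIndex T' ≠ 1 := fun h1 => absurd (Subgroup.relIndex_eq_one.1 h1) (not_le_of_gt hlt)
      obtain ⟨m, hm⟩ := hV.index T
      have hp' : p ≤ T.relIndex T' := by
        obtain ⟨i, hi, hi'⟩ := (Nat.dvd_prime_pow hp).1 (hm ▸ Dvd.intro _ hdvd)
        have : i ≠ 0 := fun h0 => hne (by rw [hi', h0, pow_zero])
        rw [hi']; exact Nat.le_self_pow this p
      calc T'.index * p ^ (j + 1) = (p * T'.index) * p ^ j := by rw [pow_succ]; ring
        _ ≤ T.index * p ^ j := by rw [← hdvd]; gcongr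
        _ ≤ R.index := hS'.resolve_left htop
  obtain ⟨S, hS, hS'⟩ := grow (p * n)
  refine ⟨S, hS, ?_⟩
  have htop : Subgroup.closure (S : Set V) ⊔ R = ⊤ := by
    rcases hS' with h | h
    · exact h
    · refine Subgroup.index_eq_one.1 ?_
      have hpos : 0 < p ^ (p * n) := pow_pos hp.pos _
      have := h.trans hidx
      have h0 : (Subgroup.closure (S : Set V) ⊔ R).index ≠ 0 := Subgroup.index_ne_zero_of_finite
      nlinarith [Nat.pos_of_ne_zero h0]
  set C := Subgroup.closure (S : Set V)
  by_contra hC
  have hq : ¬ Subsingleton (V ⧸ C) := fun h => hC ((QuotientGroup.subsingleton_iff).1 h)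
  have : Nontrivial (V ⧸ C) := not_subsingleton_iff_nontrivial.1 hq
  have hsurj : Function.Surjective (powMonoidHom p (α := V ⧸ C)) := by
    intro y
    obtain ⟨v, rfl⟩ := QuotientGroup.mk_surjective y
    obtain ⟨c, hc, w, hw, rfl⟩ := Subgroup.mem_sup.1 (htop ▸ Subgroup.mem_top v)
    obtain ⟨u, rfl⟩ := hw
    refine ⟨(u : V ⧸ C), ?_⟩
    simp [φ, (QuotientGroup.eq_one_iff c).2 hc]
  have hinj := Finite.injective_iff_surjective.2 hsurj
  obtain ⟨m, hm0, hm⟩ := (hV.to_quotient C).nontrivial_iff_card.1 inferInstance
  obtain ⟨y, hy⟩ := exists_prime_orderOf_dvd_card' (G := V ⧸ C) p (hm ▸ dvd_pow_self p (by omega))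
  have : y = 1 := hinj (by simp [← hy, pow_orderOf_eq_one])
  rw [this, orderOf_one] at hy
  exact hp.one_lt.ne hy

end Cfsg.Agent.S3780
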