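import Cfsg.Statements.S3781
import Cfsg.Agent.LowerCentral.Bracket
import Mathlib

set_option autoImplicit false
open Cfsg

namespace Cfsg.Agent.S3781

/-- Let G be a finite p-group and n ≥ 1, and write γ_1(G) = G, γ_{k+1}(G) = [γ_k(G), G], and likewise γ_k(N) for a subgroup N. Let N be a normal subgroup of G contained in γ_n(G). If i > 1 and γ_{i+1}(N) ≠ 1, then |γ_i(N) : γ_{i+1}(N)| ≥ p^n. -/
theorem result {G : Type*} [Group G] [Finite G] {p : ℕ} [Fact p.Prime] (hG : IsPGroup p G) (n : ℕ) (hn : 1 ≤ n) (N : Subgroup G) [N.Normal] (hN : N ≤ (⊤ : Subgroup G).lowerCentralSeries (n - 1)) (i : ℕ) (hi : 1 < i) (hne : N.lowerCentralSeries i ≠ ⊥) : p ^ n ≤ (N.lowerCentralSeries i).relIndex (N.lowerCentralSeries (i - 1)) := by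
  obtain ⟨i, rfl⟩ : ∃ j, i = j + 1 := ⟨i - 1, by omega⟩
  obtain ⟨m, rfl⟩ : ∃ j, n = j + 1 := ⟨n - 1, by omega⟩
  simp only [Nat.add_sub_cancel] at hN ⊢
  set M := N.lowerCentralSeries i
  set L := N.lowerCentralSeries (i + 1) with hL
  have hMn : M.Normal := CfsgLib.LowerCentral.lowerCentralSeries_normal N i
  have hLn : L.Normal := CfsgLib.LowerCentral.lowerCentralSeries_normal N (i + 1)
  have hLM : L ≤ M := N.lowerCentralSeries_antitone (Nat.le_succ i)
  have hnil : Group.IsNilpotent G := hG.isNilpotent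
  have hp : p.Prime := Fact.out
  by_contra hlt
  rw [not_le] at hlt
  -- `[M, G, …, G] ≤ L`
  have step : ∀ k, CfsgLib.LowerCentral.bracketTop M k ≤ L ∨
      p ^ k * L.relIndex (CfsgLib.LowerCentral.bracketTop M k ⊔ L) ≤ L.relIndex M := by
    intro k
    induction k with
    | zero => right; simp [CfsgLib.LowerCentral.bracketTop_zero, sup_eq_left.2 hLM]
    | succ k ih =>
      set D := CfsgLib.LowerCentral.bracketTop M k
      set D' := CfsgLib.LowerCentral.bracketTop M (k + 1)
      have hDD : D' ≤ D := CfsgLib.LowerCentral.bracketTop_antitone M (Nat.le_succ k)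
      rcases ih with h | h
      · exact Or.inl (hDD.trans h)
      by_cases hD : D' ⊔ L = D ⊔ L
      · left
        refine hDD.trans ?_
        have h2 : D.map (QuotientGroup.mk' L) = ⊥ := by
          apply CfsgLib.LowerCentral.eq_bot_of_le_commutator_top
          rw [← Subgroup.map_top_of_surjective _ (QuotientGroup.mk'_surjective L), ← Subgroup.map_commutator]
          have h3 : D ≤ D' ⊔ L := hD ▸ le_sup_left
          refine (Subgroup.map_mono h3).trans ?_
          rw [Subgroup.map_sup]
          refine sup_le le_rfl ?_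
          rw [(Subgroup.map_eq_bot_iff L).2 (by rw [QuotientGroup.ker_mk'])]
          exact bot_le
        rwa [Subgroup.map_eq_bot_iff, QuotientGroup.ker_mk'] at h2
      · right
        have hle : D' ⊔ L ≤ D ⊔ L := sup_le_sup_right hDD L
        have hmul := Subgroup.relIndex_mul_relIndex L (D' ⊔ L) (D ⊔ L) le_sup_right hle
        obtain ⟨e, he⟩ := (hG.to_subgroup (D ⊔ L)).index ((D' ⊔ L).subgroupOf (D ⊔ L))
        have he' : (D' ⊔ L).relIndex (D ⊔ L) = p ^ e := he
        have he0 : e ≠ 0 := by
          rintro rfl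
          rw [pow_zero] at he'
          exact hD (le_antisymm hle (Subgroup.relIndex_eq_one.1 he'))
        calc p ^ (k + 1) * L.relIndex (D' ⊔ L) = p ^ k * (L.relIndex (D' ⊔ L) * p) := by
              rw [pow_succ]; ring
          _ ≤ p ^ k * (L.relIndex (D' ⊔ L) * (D' ⊔ L).relIndex (D ⊔ L)) := by
              rw [he']; gcongr; exact Nat.le_self_pow he0 p
          _ ≤ L.relIndex M := by rw [hmul]; exact h
  have hD : CfsgLib.LowerCentral.bracketTop M m ≤ L := by
    rcases step m with h | h
    · exact h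
    · by_contra hnot
      obtain ⟨e, he⟩ := (hG.to_subgroup (CfsgLib.LowerCentral.bracketTop M m ⊔ L)).index
        (L.subgroupOf (CfsgLib.LowerCentral.bracketTop M m ⊔ L))
      have he' : L.relIndex (CfsgLib.LowerCentral.bracketTop M m ⊔ L) = p ^ e := he
      have he0 : e ≠ 0 := by
        rintro rfl
        rw [pow_zero] at he'
        exact hnot (le_sup_left.trans (Subgroup.relIndex_eq_one.1 he'))
      have : p ^ m * p ≤ L.relIndex M := by
        refine le_trans ?_ h
        rw [he']; gcongr; exact Nat.le_self_pow he0 p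
      rw [← pow_succ] at this
      omega
  have hLL : L ≤ ⁅L, ⊤⁆ :=
    calc L ≤ ⁅M, (⊤ : Subgroup G).lowerCentralSeries m⁆ := Subgroup.commutator_mono le_rfl hN
      _ ≤ CfsgLib.LowerCentral.bracketTop M (m + 1) :=
          CfsgLib.LowerCentral.commutator_lowerCentralSeries_le M m
      _ ≤ ⁅L, ⊤⁆ := Subgroup.commutator_mono hD le_rfl
  exact hne (CfsgLib.LowerCentral.eq_bot_of_le_commutator_top hLL)

end Cfsg.Agent.S3781
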