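import Cfsg.Statements.S3783
import Mathlib
import Cfsg.Agent.PLengthExp.Abelian

set_option autoImplicit false
open Cfsg

namespace Cfsg.Agent.S3783

/-- Let G be a finite p-soluble group in which, for every prime q ≠ p, the Sylow q-subgroups are abelian. If the Sylow p-subgroups of G have exponent dividing p^n, then G has p-length at most n. -/
theorem result {G : Type*} [Group G] [Finite G] {p : ℕ} [Fact p.Prime] (hG : Cfsg.IsPSolvable p G) (hab : ∀ (q : ℕ) [Fact q.Prime], q ≠ p → ∀ Q : Sylow q G, IsMulCommutative (Q : Subgroup G)) (n : ℕ) (hexp : ∀ (P : Sylow p G), ∀ x ∈ (P : Subgroup G), x ^ p ^ n = 1) : Cfsg.PLengthLE p n G := by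

  refine CfsgLib.PLengthExp.pLengthLE_of_drops (CfsgLib.PLengthExp.AbelianOther p)
    (fun K _ _ N _ h => CfsgLib.PLengthExp.AbelianOther.quotient K N h)
    (fun K _ _ h hO => CfsgLib.PLengthExp.AbelianOther.drops K h hO) n G ⟨hG, fun q hq hqp R hR a ha b hb => ?_⟩
    (CfsgLib.PLengthExp.expLE_of_sylow hexp)
  haveI := Fact.mk hq
  obtain ⟨S, hS⟩ := hR.exists_le_sylow
  exact congrArg Subtype.val ((hab q hqp S).is_comm.comm ⟨a, hS ha⟩ ⟨b, hS hb⟩)

end Cfsg.Agent.S3783
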