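import Cfsg.Statements.S3784
import Mathlib

set_option autoImplicit false
open Cfsg

namespace Cfsg.Agent.S3784

/-- An odd power of `2^s ± 1` differs from `2^s ± 1` by a multiple of `2^(s+1)`. -/
theorem odd_pow_modEq {x s b : ℕ} (hsq : x * x ≡ 1 [MOD 2 ^ (s + 1)]) (hb : Odd b) :
    x ^ b ≡ x [MOD 2 ^ (s + 1)] := by
  obtain ⟨k, rfl⟩ := hb
  have h1 : (x * x) ^ k * x ≡ 1 ^ k * x [MOD 2 ^ (s + 1)] := (hsq.pow k).mul_right x
  simpa [pow_succ, pow_mul, sq] using h1

/-- Let p, q be primes and a, b positive integers with p^a = q^b + 1. Then either p = 2, b = 1, a is prime and q = 2^a − 1; or q = 2, a = 1, b is a power of 2 and p = 2^b + 1; or p^a = 9 and q^b = 8. -/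
theorem result (p q a b : ℕ) (hp : p.Prime) (hq : q.Prime) (ha : 1 ≤ a) (hb : 1 ≤ b) (h : p ^ a = q ^ b + 1) : (p = 2 ∧ b = 1 ∧ a.Prime ∧ q + 1 = 2 ^ a) ∨ (q = 2 ∧ a = 1 ∧ (∃ m : ℕ, b = 2 ^ m) ∧ p = 2 ^ b + 1) ∨ (p ^ a = 9 ∧ q ^ b = 8) := by
  have hodd : ∀ n : ℕ, n % 2 = 1 → ∀ k : ℕ, (n ^ k) % 2 = 1 := fun n hn k => by
    simp [Nat.pow_mod, hn]
  have hev : ∀ n k : ℕ, n % 2 = 0 → 1 ≤ k → (n ^ k) % 2 = 0 := fun n k hn hk => by
    simp [Nat.pow_mod, hn, Nat.zero_pow (by omega : 0 < k)]
  rcases hp.eq_two_or_odd with rfl | hpo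
  · left
    have hqo : q % 2 = 1 := by
      rcases Nat.mod_two_eq_zero_or_one q with e | e
      · have := hev q b e hb; have := hev 2 a rfl ha; omega
      · exact e
    have hq3 : 3 ≤ q := by have := hq.two_le; omega
    have hqb : 3 ≤ q ^ b := hq3.trans (Nat.le_self_pow (by omega) q)
    have ha2 : 2 ≤ a := by
      by_contra hc
      have : a = 1 := by omega
      subst this; simp at h; omega
    have h4 : 4 ∣ q ^ b + 1 := by rw [← h]; exact dvd_trans (by norm_num) (pow_dvd_pow 2 ha2)
    have hbodd : Odd b := by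
      rw [← Nat.not_even_iff_odd]
      rintro ⟨k, rfl⟩
      rw [pow_add] at h4
      have := hodd q hqo k
      obtain ⟨m, hm⟩ : ∃ m, q ^ k = 2 * m + 1 := ⟨q ^ k / 2, by omega⟩
      rw [hm] at h4
      have : (2 * m + 1) * (2 * m + 1) + 1 = 4 * (m * m + m) + 2 := by ring
      omega
    have hdvd : q + 1 ∣ 2 ^ a := by
      have := hbodd.nat_add_dvd_pow_add_pow q 1
      rwa [one_pow, ← h] at this
    obtain ⟨s, hs, hs'⟩ := (Nat.dvd_prime_pow Nat.prime_two).1 hdvd
    have hs1 : 1 ≤ s := by
      by_contra hc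
      have : s = 0 := by omega
      subst this; simp at hs'; omega
    have hsa : s = a := by
      by_contra hne
      have hlt : s < a := by omega
      have hqd : 2 ^ (s + 1) ∣ q ^ b + 1 := by rw [← h]; exact pow_dvd_pow 2 hlt
      have hsq : q * q ≡ 1 [MOD 2 ^ (s + 1)] := by
        refine ((Nat.modEq_iff_dvd' (Nat.one_le_iff_ne_zero.2 (by positivity))).2 ?_).symm
        have e1 : q * q - 1 = (q + 1) * (q - 1) := Nat.mul_self_sub_mul_self_eq q 1
        rw [e1, hs', pow_succ]
        exact Nat.mul_dvd_mul_left _ (Nat.dvd_of_mod_eq_zero (by omega))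
      have h2 : q ^ b + 1 ≡ q + 1 [MOD 2 ^ (s + 1)] := (odd_pow_modEq hsq hbodd).add_right 1
      have h3 : 2 ^ (s + 1) ∣ 2 ^ s := by
        rw [← hs']
        exact (h2.dvd_iff dvd_rfl).1 hqd
      exact absurd ((Nat.pow_dvd_pow_iff_le_right (by norm_num)).1 h3) (by omega)
    subst hsa
    have hb1 : b = 1 := by
      have : q ^ b = q ^ 1 := by rw [pow_one]; omega
      exact Nat.pow_right_injective hq.two_le this
    refine ⟨rfl, hb1, ?_, hs'⟩
    have hq' : (2 ^ s - 1).Prime := by
      have : 2 ^ s - 1 = q := by omega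
      rw [this]; exact hq
    exact (Nat.prime_of_pow_sub_one_prime (by omega) hq').2
  · have hq2 : q = 2 := by
      rcases hq.eq_two_or_odd with e | e
      · exact e
      · have := hodd p hpo a; have := hodd q e b; omega
    subst hq2
    have hp3 : 3 ≤ p := by have := hp.two_le; omega
    right
    rcases Nat.even_or_odd a with ⟨k, hk⟩ | haodd
    · right
      subst hk
      rw [pow_add] at h
      obtain ⟨m, hm⟩ : ∃ m, p ^ k = m + 1 := ⟨p ^ k - 1, by have := hodd p hpo k; omega⟩
      rw [hm] at h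
      have e1 : m * (m + 2) = 2 ^ b := by nlinarith
      obtain ⟨i, -, hi⟩ := (Nat.dvd_prime_pow Nat.prime_two).1 (e1 ▸ Dvd.intro (m + 2) rfl : m ∣ 2 ^ b)
      obtain ⟨j, -, hj⟩ := (Nat.dvd_prime_pow Nat.prime_two).1 (e1 ▸ Dvd.intro_left m rfl : m + 2 ∣ 2 ^ b)
      have hi1 : i = 1 := by
        by_contra hne
        rcases Nat.lt_or_ge i 1 with hlt | hge
        · have : i = 0 := by omega
          subst this
          have hj3 : 2 ^ j = 3 := by simp at hi; omega
          rcases Nat.eq_zero_or_pos j with rfl | hpos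
          · simp at hj3
          · have := hev 2 j rfl hpos; omega
        · have hj2 : 2 ≤ j := by
            by_contra hc
            have : 2 ^ j ≤ 2 ^ 1 := Nat.pow_le_pow_right (by norm_num) (by omega)
            have : 0 < 2 ^ i := by positivity
            omega
          have d1 : 4 ∣ m := hi ▸ dvd_trans (by norm_num) (pow_dvd_pow 2 (by omega : 2 ≤ i))
          have d2 : 4 ∣ m + 2 := hj ▸ dvd_trans (by norm_num) (pow_dvd_pow 2 hj2)
          omega
      subst hi1
      simp at hi
      subst hi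
      refine ⟨?_, ?_⟩
      · rw [pow_add, hm]; norm_num
      · rw [← e1]
    · left
      rcases Nat.eq_or_lt_of_le ha with ha1 | ha1
      · subst ha1
        rw [pow_one] at h
        refine ⟨rfl, rfl, ?_, h⟩
        exact Nat.pow_of_pow_add_prime (a := 2) (by norm_num) (by omega) (h ▸ hp)
      · exfalso
        have hdvd : p - 1 ∣ 2 ^ b := by
          have := Nat.sub_dvd_pow_sub_pow p 1 a
          rw [one_pow, h] at this
          simpa using this
        obtain ⟨s, hs, hs'⟩ := (Nat.dvd_prime_pow Nat.prime_two).1 hdvd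
        have hs1 : 1 ≤ s := by
          by_contra hc
          have : s = 0 := by omega
          subst this; simp at hs'; omega
        have hsq : p * p ≡ 1 [MOD 2 ^ (s + 1)] := by
          refine ((Nat.modEq_iff_dvd' (Nat.one_le_iff_ne_zero.2 (by positivity))).2 ?_).symm
          have e1 : p * p - 1 = (p + 1) * (p - 1) := Nat.mul_self_sub_mul_self_eq p 1
          rw [e1, hs', pow_succ, mul_comm]
          exact Nat.mul_dvd_mul_right (Nat.dvd_of_mod_eq_zero (by omega)) _
        have h2 : p ^ a ≡ p [MOD 2 ^ (s + 1)] := odd_pow_modEq hsq haodd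
        rw [h] at h2
        have hbs : b = s := by
          by_contra hne
          have hlt : s + 1 ≤ b := by omega
          have hp' : p = 2 ^ s + 1 := by omega
          rw [hp'] at h2
          have h3 : 2 ^ b ≡ 2 ^ s [MOD 2 ^ (s + 1)] := Nat.ModEq.add_right_cancel' 1 h2
          have h4 : 2 ^ (s + 1) ∣ 2 ^ s := (h3.dvd_iff dvd_rfl).1 (pow_dvd_pow 2 hlt)
          exact absurd ((Nat.pow_dvd_pow_iff_le_right (by norm_num)).1 h4) (by omega)
        subst hbs
        have : p ^ a = p ^ 1 := by rw [pow_one]; omega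
        have := Nat.pow_right_injective hp.two_le this
        omega

end Cfsg.Agent.S3784
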