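import Cfsg.Statements.S3785
import Mathlib
import Cfsg.Agent.Eq.Def_Solvable
import Cfsg.Agent.Constrained.Fitting
import Cfsg.Agent.Coprime.FixOrderP

set_option autoImplicit false
open Cfsg

namespace Cfsg.Agent.S3785

/-- Let G be a finite solvable group whose Fitting subgroup F(G) has odd order. If an element g of G commutes with every element of prime order of F(G), then g ∈ F(G). -/
theorem result {G : Type*} [Group G] [Finite G] (hG : Group.IsSolvable G) (hodd : Odd (Nat.card (Cfsg.fittingSubgroup G))) (g : G) (hg : ∀ x ∈ Cfsg.fittingSubgroup G, (orderOf x).Prime → g * x = x * g) : g ∈ Cfsg.fittingSubgroup G := by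
  classical
  haveI := hG
  set F := fittingSubgroup G with hFdef
  let A : Subgroup G := Subgroup.centralizer {x | x ∈ F ∧ (orderOf x).Prime}
  have hgA : g ∈ A := Subgroup.mem_centralizer_iff.2 fun x hx => (hg x hx.1 hx.2).symm
  have hAn : A.Normal := ⟨fun a ha c => by
    rw [Subgroup.mem_centralizer_iff] at ha ⊢
    intro x hx
    have h1 : c⁻¹ * x * c ∈ F := by
      simpa using (inferInstance : (fittingSubgroup G).Normal).conj_mem x hx.1 c⁻¹
    have h2 : (orderOf (c⁻¹ * x * c)).Prime := by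
      have : orderOf (c⁻¹ * x * c) = orderOf x := by simpa using MulEquiv.orderOf_eq (MulAut.conj c⁻¹) x
      rw [this]; exact hx.2
    have h3 := ha _ ⟨h1, h2⟩
    calc x * (c * a * c⁻¹) = c * ((c⁻¹ * x * c) * a) * c⁻¹ := by group
      _ = c * (a * (c⁻¹ * x * c)) * c⁻¹ := by rw [h3]
      _ = _ := by group⟩
  -- a `p'`-element of `A` centralizes `O_p(G)`
  have hfix : ∀ p : ℕ, p.Prime → ∀ y ∈ A, (orderOf y).Coprime p → ∀ x ∈ pCore p G, y * x = x * y := by
    intro p hp y hy hcop x hx
    haveI : Fact p.Prime := ⟨hp⟩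
    by_cases hbot : pCore p G = ⊥
    · rw [hbot, Subgroup.mem_bot] at hx; simp [hx]
    obtain ⟨n, hn⟩ := IsPGroup.iff_card.1 (CfsgLib.Constrained.isPGroup_pCore (G := G) (p := p))
    have hp2 : p ≠ 2 := by
      rintro rfl
      have hn0 : n ≠ 0 := fun h0 => hbot (Subgroup.card_eq_one.1 (by rw [hn, h0, pow_zero]))
      have hdvd : 2 ∣ Nat.card F := ((dvd_pow_self 2 hn0).trans hn.symm.dvd).trans
        (Subgroup.card_dvd_of_le CfsgLib.Constrained.pCore_le_fitting)
      exact (Nat.not_even_iff_odd.2 hodd) (even_iff_two_dvd.2 hdvd)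
    refine CfsgLib.Coprime.fixes_of_fixes_order_p hp2 y hcop (pCore p G)
      CfsgLib.Constrained.isPGroup_pCore (by rw [Subgroup.normalizer_eq_top]; trivial) ?_ x hx
    intro z hz hzp
    rcases eq_or_ne z 1 with rfl | hz1
    · simp
    exact (Subgroup.mem_centralizer_iff.1 hy z ⟨CfsgLib.Constrained.pCore_le_fitting hz,
      by rw [orderOf_eq_prime hzp hz1]; exact hp⟩).symm
  suffices hAF : A ≤ F from hAF hgA
  rw [← Subgroup.subgroupOf_eq_top]
  refine CfsgLib.Constrained.eq_top_of_forall_sylow_le _ fun q hq => ?_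
  haveI : Fact q.Prime := ⟨hq⟩
  obtain ⟨Q⟩ : Nonempty (Sylow q A) := inferInstance
  refine ⟨Q, fun y hy => ?_⟩
  rw [Subgroup.mem_subgroupOf]
  let R : Subgroup G := ⨆ (p : ℕ) (_ : p.Prime ∧ p ≠ q), pCore p G
  have hRn : R.Normal := by infer_instance
  let Kq : Subgroup G := A ⊓ Subgroup.centralizer (R : Set G)
  have hKn : Kq.Normal := by
    have := Subgroup.normal_centralizer (H := R)
    infer_instance
  have hRle : ∀ z ∈ A, (∀ p : ℕ, p.Prime → p ≠ q → ∀ x ∈ pCore p G, z * x = x * z) →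
      z ∈ Subgroup.centralizer (R : Set G) := by
    intro z _ hz
    have : R ≤ Subgroup.centralizer ({z} : Set G) := iSup₂_le fun p hp x hx =>
      Subgroup.mem_centralizer_singleton_iff.2 (hz p hp.1 hp.2 x hx).symm
    exact Subgroup.mem_centralizer_iff.2 fun x hx => Subgroup.mem_centralizer_singleton_iff.1 (this hx)
  obtain ⟨e, he⟩ := Q.isPGroup' ⟨y, hy⟩
  have he' : (y : G) ^ q ^ e = 1 := by simpa using congrArg (fun z : Q => ((z : A) : G)) he
  have hord := orderOf_dvd_of_pow_eq_one he'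
  have hyK : (y : G) ∈ Kq := by
    refine ⟨y.2, hRle _ y.2 fun p hp hpq => hfix p hp _ y.2 ?_⟩
    exact Nat.Coprime.coprime_dvd_left hord (((Nat.coprime_primes hq hp).2 (Ne.symm hpq)).pow_left e)
  -- the `q'`-elements of `Kq` are central in it
  have hcen : ∀ w ∈ Kq, (orderOf w).Coprime q → ∀ v ∈ Kq, w * v = v * w := by
    intro w hw hcop v hv
    have hwF : w ∈ F := by
      refine CfsgLib.Constrained.centralizer_fitting_le (Subgroup.mem_centralizer_iff.2 fun x hx => ?_)
      have hle : F ≤ Subgroup.centralizer ({w} : Set G) := by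
        rw [hFdef, CfsgLib.Constrained.fitting_eq_iSup_pCore]
        refine iSup₂_le fun p hp z hz => Subgroup.mem_centralizer_singleton_iff.2 ?_
        by_cases hpq : p = q
        · subst hpq; exact (hfix p hp w hw.1 hcop z hz).symm
        · exact (Subgroup.mem_centralizer_iff.1 hw.2 z
            (le_iSup₂ (f := fun (p : ℕ) (_ : p.Prime ∧ p ≠ q) => pCore p G) p ⟨hp, hpq⟩ hz))
      exact Subgroup.mem_centralizer_singleton_iff.1 (hle hx)
    have hFR : F ≤ R ⊔ pCore q G := by
      rw [hFdef, CfsgLib.Constrained.fitting_eq_iSup_pCore]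
      refine iSup₂_le fun p hp => ?_
      by_cases hpq : p = q
      · subst hpq; exact le_sup_right
      · exact le_trans (le_iSup₂ (f := fun (p : ℕ) (_ : p.Prime ∧ p ≠ q) => pCore p G) p ⟨hp, hpq⟩) le_sup_left
    obtain ⟨r, hr, o, ho, hro⟩ := Subgroup.mem_sup_of_normal_left.1 (hFR hwF)
    obtain ⟨j, hj⟩ := (CfsgLib.Constrained.isPGroup_pCore (G := G) (p := q)) ⟨o, ho⟩
    have hj' : o ^ q ^ j = 1 := by simpa using congrArg (fun z : pCore q G => (z : G)) hj
    have hwR : w ∈ R := by
      have h1 : (QuotientGroup.mk w : G ⧸ R) = QuotientGroup.mk o := by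
        rw [← hro, QuotientGroup.mk_mul, (QuotientGroup.eq_one_iff r).2 hr, one_mul]
      have h2 : orderOf (QuotientGroup.mk w : G ⧸ R) ∣ orderOf w :=
        orderOf_map_dvd (QuotientGroup.mk' R) w
      have h3 : orderOf (QuotientGroup.mk w : G ⧸ R) ∣ q ^ j := by
        rw [h1]; exact (orderOf_map_dvd (QuotientGroup.mk' R) o).trans (orderOf_dvd_of_pow_eq_one hj')
      have h4 := Nat.eq_one_of_dvd_coprimes (hcop.pow_right j) h2 h3
      exact (QuotientGroup.eq_one_iff w).1 (orderOf_eq_one_iff.1 h4)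
    exact Subgroup.mem_centralizer_iff.1 hv.2 w hwR
  have hnil : Group.IsNilpotent Kq := by
    suffices hq' : IsPGroup q (Kq ⧸ Subgroup.center Kq) from
      haveI := hq'.isNilpotent
      Subgroup.isNilpotent_of_ker_le_center (QuotientGroup.mk' (Subgroup.center Kq))
        (by rw [QuotientGroup.ker_mk'])
    intro x
    obtain ⟨v, rfl⟩ := QuotientGroup.mk_surjective x
    obtain ⟨s, m, hm, hsm⟩ := Nat.exists_eq_pow_mul_and_not_dvd (orderOf_pos v).ne' q hq.ne_one
    refine ⟨s, ?_⟩
    rw [← QuotientGroup.mk_pow, QuotientGroup.eq_one_iff, Subgroup.mem_center_iff]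
    intro u
    have h5 : (orderOf (v ^ q ^ s)).Coprime q := by
      rw [orderOf_pow_of_dvd (pow_ne_zero s hq.ne_zero) (hsm ▸ dvd_mul_right _ _), hsm,
        Nat.mul_div_cancel_left _ (pow_pos hq.pos s)]
      exact (hq.coprime_iff_not_dvd.2 hm).symm
    exact (Subtype.ext (hcen _ (v ^ q ^ s).2 (by rwa [Subgroup.orderOf_coe]) _ u.2)).symm
  exact CfsgLib.Constrained.le_fitting hKn hnil hyK

end Cfsg.Agent.S3785
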