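import Cfsg.Statements.S3787
import Mathlib
import Cfsg.Agent.PLengthExp.Wreath
import Cfsg.Agent.PGroup.Frattini

set_option autoImplicit false
open Cfsg

namespace Cfsg.Agent.S3787

universe u

theorem main {G : Type u} [Group G] [Finite G] {p : ℕ} [Fact p.Prime] (hG : CfsgLib.PLengthExp.NonExceptional p G)
    (hW : ¬ CfsgLib.PLengthExp.HasWreath p G) : Cfsg.PLengthLE p 1 G := by
  refine CfsgLib.Constrained.pLengthLE_succ_of_quotient (k := 0) (CfsgLib.Constrained.pLengthLE_zero_iff.2 fun hd => ?_)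
  obtain ⟨y, hy⟩ := exists_prime_orderOf_dvd_card' p hd
  obtain ⟨g, ⟨k, hk⟩, rfl⟩ := CfsgLib.PLengthExp.exists_preimage_pow (p := p)
    (QuotientGroup.mk' (pPrimePCore p G)) (QuotientGroup.mk'_surjective _)
    ⟨1, by rw [pow_one]; exact orderOf_dvd_iff_pow_eq_one.1 (dvd_of_eq hy)⟩
  set q := QuotientGroup.mk' (pPrimeCore p G) with hq
  have hg : g ∉ pPrimePCore p G := fun h => by
    rw [QuotientGroup.mk'_apply, (QuotientGroup.eq_one_iff g).2 h, orderOf_one] at hy
    exact (Fact.out : p.Prime).ne_one hy.symm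
  have hgp : g ^ p ∈ pPrimePCore p G := by
    rw [← QuotientGroup.eq_one_iff, QuotientGroup.mk_pow]
    exact orderOf_dvd_iff_pow_eq_one.1 (dvd_of_eq hy)
  have hK := CfsgLib.PLengthExp.NonExceptional.quotient G (pPrimeCore p G) hG
  have hxn : q g ^ p ^ 0 ∉ pCore p (G ⧸ pPrimeCore p G) := by
    rw [pow_zero, pow_one]; exact hg
  have hxN : q g ^ p ^ (0 + 1) ∈ pCore p (G ⧸ pPrimeCore p G) := by
    rw [zero_add, pow_one, ← map_pow]; exact hgp
  have hxK : ∃ k : ℕ, q g ^ p ^ k = 1 := ⟨k, by rw [← map_pow, hk, map_one]⟩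
  -- the norm on the Frattini quotient
  have hnorm : ∑ i ∈ Finset.range p, CfsgLib.PLengthExp.rep p (G ⧸ pPrimeCore p G)
      ((q g : (G ⧸ pPrimeCore p G) ⧸ pCore p (G ⧸ pPrimeCore p G)) ^ i) ≠ 0 := by
    intro hs
    have hO := CfsgLib.Constrained.pPrimeCore_quotient_pPrimeCore (p := p) (G := G)
    have h0 : (CfsgLib.PLengthExp.rep p (G ⧸ pPrimeCore p G)
        (q g : (G ⧸ pPrimeCore p G) ⧸ pCore p (G ⧸ pPrimeCore p G)) - 1) ^ (p ^ (0 + 1) - 1) = 0 := by
      refine (CfsgLib.PLengthExp.sub_one_pow_eq_sum (CfsgLib.PLengthExp.Clo p) (p := p)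
        (CfsgLib.PLengthExp.rep p (G ⧸ pPrimeCore p G)
          (q g : (G ⧸ pPrimeCore p G) ⧸ pCore p (G ⧸ pPrimeCore p G))) (0 + 1)).trans ?_
      rw [zero_add, pow_one]
      simpa only [map_pow] using hs
    rcases CfsgLib.HallHigmanB.theorem_b (CfsgLib.PLengthExp.rep p (G ⧸ pPrimeCore p G))
      (CfsgLib.PLengthExp.rep_injective p _ hK.1 hO)
      (CfsgLib.Constrained.IsPSolvable.quotient hK.1 _) CfsgLib.Constrained.pCore_quotient_pCore
      _ (0 + 1) le_rfl (CfsgLib.PLengthExp.orderOf_mk_eq _ hxn hxN) _ h0 with h1 | ⟨n₀, r, m, h1, -, h3, h4, h5, hQ, -⟩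
    · rw [zero_add, pow_one] at h1
      have := (Fact.out : p.Prime).pos
      omega
    · obtain ⟨rfl, hk⟩ := CfsgLib.PLengthExp.exception_two Fact.out hK.2.1 h1 h3 h4 h5
      rcases hK.2.2 with hne | hab
      · exact hne hk
      · obtain ⟨Q⟩ : Nonempty (Sylow 2 ((G ⧸ pPrimeCore p G) ⧸ pCore p (G ⧸ pPrimeCore p G))) := inferInstance
        exact hQ Q ⟨⟨fun a b => Subtype.ext
          (((CfsgLib.PLengthExp.NonExceptional.quotient (G ⧸ pPrimeCore p G) (pCore p (G ⧸ pPrimeCore p G))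
            ⟨hK.1, hK.2.1, Or.inr hab⟩).2.2.resolve_left fun hne => hne hk) _ Q.isPGroup' a a.2 b b.2)⟩⟩
  -- the section
  refine hW (CfsgLib.PLengthExp.HasWreath.of_surjective q (QuotientGroup.mk'_surjective _) ?_)
  set K := G ⧸ pPrimeCore p G
  set Φ := (frattini ↥(pCore p K)).map (pCore p K).subtype with hΦ
  haveI : Φ.Normal := ConjAct.normal_of_characteristic_of_normal
  have hΦle : Φ ≤ pCore p K := Subgroup.map_subtype_le _
  have hpg : IsPGroup p ↥(pCore p K) := CfsgLib.Constrained.isPGroup_pCore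
  have hmemΦ : ∀ a : ↥(pCore p K), a ∈ frattini ↥(pCore p K) → (a : K) ∈ Φ := fun a ha => ⟨a, ha, rfl⟩
  haveI : ((pCore p K).map (QuotientGroup.mk' Φ)).Normal :=
    (inferInstance : (pCore p K).Normal).map _ (QuotientGroup.mk'_surjective Φ)
  refine CfsgLib.PLengthExp.HasWreath.of_surjective (QuotientGroup.mk' Φ) (QuotientGroup.mk'_surjective Φ) ?_
  obtain ⟨v, hv, hv'⟩ : ∃ v ∈ pCore p K, QuotientGroup.mk' Φ ((v * q g) ^ p) ≠ QuotientGroup.mk' Φ (q g ^ p) := by
    by_contra hcon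
    push Not at hcon
    apply hnorm
    have key : ∀ a : ↥(pCore p K), ∏ i ∈ Finset.range p,
        CfsgLib.PLengthExp.conjAut p K (q g ^ i) (a : CfsgLib.PLengthExp.FrattQuot p K) = 1 := by
      intro a
      obtain ⟨hm, hf⟩ := CfsgLib.PLengthExp.map_mul_pow (pCore p K)
        (QuotientGroup.mk' (frattini ↥(pCore p K))) a.2 (q g) p
      have h1 : (⟨_, hm⟩ : ↥(pCore p K)) ∈ frattini ↥(pCore p K) := by
        have h2 : (a * q g) ^ p * (q g ^ p)⁻¹ ∈ Φ := by
          rw [← QuotientGroup.eq_one_iff, ← QuotientGroup.mk'_apply, map_mul, map_inv, hcon a a.2, mul_inv_cancel]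
        obtain ⟨b, hb, hb'⟩ := h2
        rwa [show (⟨_, hm⟩ : ↥(pCore p K)) = b from Subtype.ext hb'.symm]
      rw [← QuotientGroup.eq_one_iff] at h1
      rw [← h1]
      exact hf.symm
    have key2 : ∑ i ∈ Finset.range p, CfsgLib.PLengthExp.autLin p K
        (CfsgLib.PLengthExp.conjAut p K (q g ^ i)) = 0 := by
      refine LinearMap.ext fun w => Additive.toMul.injective ?_
      obtain ⟨a, ha⟩ := QuotientGroup.mk_surjective (Additive.toMul w)
      rw [LinearMap.sum_apply, LinearMap.zero_apply, toMul_sum, toMul_zero, ← key a]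
      refine Finset.prod_congr rfl fun i _ => ?_
      show CfsgLib.PLengthExp.conjAut p K (q g ^ i) (Additive.toMul w) = _
      rw [ha]
    calc _ = ∑ i ∈ Finset.range p, (CfsgLib.PLengthExp.autLin p K
          (CfsgLib.PLengthExp.conjAut p K (q g ^ i))).baseChange (CfsgLib.PLengthExp.Clo p) := by
          refine Finset.sum_congr rfl fun i _ => ?_
          rw [← QuotientGroup.mk_pow, CfsgLib.PLengthExp.rep_mk]
      _ = (Module.End.baseChangeHom (ZMod p) (CfsgLib.PLengthExp.Clo p) _)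
          (∑ i ∈ Finset.range p, CfsgLib.PLengthExp.autLin p K (CfsgLib.PLengthExp.conjAut p K (q g ^ i))) := by
          rw [map_sum]; rfl
      _ = 0 := by rw [key2, map_zero]
  refine CfsgLib.PLengthExp.hasWreath_of_norm (V := (pCore p K).map (QuotientGroup.mk' Φ))
    (v := QuotientGroup.mk' Φ v) (x := QuotientGroup.mk' Φ (q g)) ?_ ?_ ?_ ?_ ⟨v, hv, rfl⟩
    (by rw [← map_mul, ← map_pow, ← map_pow]; exact hv')
  · rintro _ ⟨a, ha, rfl⟩ _ ⟨b, hb, rfl⟩
    rw [← map_mul, ← map_mul, QuotientGroup.mk'_apply, QuotientGroup.mk'_apply, QuotientGroup.eq]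
    have h := CfsgLib.PLengthExp.frattQuot_comm p K ((⟨a, ha⟩ : ↥(pCore p K)) : CfsgLib.PLengthExp.FrattQuot p K)
      (⟨b, hb⟩ : ↥(pCore p K))
    rw [← QuotientGroup.mk_mul, ← QuotientGroup.mk_mul, QuotientGroup.eq] at h
    exact hmemΦ _ h
  · rintro _ ⟨a, ha, rfl⟩
    rw [← map_pow, QuotientGroup.mk'_apply, QuotientGroup.eq_one_iff]
    exact hmemΦ _ (CfsgLib.PGroup.pow_prime_mem_frattini hpg ⟨a, ha⟩)
  · rintro ⟨a, ha, hax⟩
    apply hxn
    rw [pow_zero, pow_one]
    rw [QuotientGroup.mk'_apply, QuotientGroup.mk'_apply, QuotientGroup.eq] at hax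
    simpa using mul_mem ha (hΦle hax)
  · refine ⟨q g ^ p, ?_, map_pow _ _ _⟩
    simpa using hxN

/-- Let G be a finite p-soluble group, p an odd prime not of the form 2^k + 1, and suppose the wreath product C_p ≀ C_p (of order p^(p+1)) is not involved in a Sylow p-subgroup of G: no section of a Sylow p-subgroup is isomorphic to it. Then G has p-length at most 1. -/
theorem result {G : Type*} [Group G] [Finite G] {p : ℕ} [Fact p.Prime] (hp2 : p ≠ 2) (hnf : (¬ ∃ k : ℕ, p = 2 ^ k + 1)) (hG : Cfsg.IsPSolvable p G) (P : Sylow p G) (hwr : ∀ (W : Type) [Group W] [Finite W], (∃ (B : Subgroup W) (t : W), B.Normal ∧ IsMulCommutative B ∧ (∀ b ∈ B, b ^ p = 1) ∧ Nat.card B = p ^ p ∧ orderOf t = p ∧ t ∉ B ∧ Nat.card W = p ^ (p + 1) ∧ Nat.card ↥(B ⊓ Subgroup.centralizer ({t} : Set W)) = p) → ¬ Cfsg.Involves W ↥(P : Subgroup G)) : Cfsg.PLengthLE p 1 G := by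

  refine main ⟨hG, hp2, Or.inl hnf⟩ fun ⟨S, W, instW, f, hS, hf, B, t, hBn, hBc, hBe, hBcard, ht, htB, hWc, hC⟩ => ?_
  haveI : Finite W := Finite.of_surjective f hf
  let e : Shrink.{0} W ≃* W := Shrink.mulEquiv
  haveI : Finite (Shrink.{0} W) := Finite.of_equiv W e.symm.toEquiv
  have einj : Function.Injective e.symm.toMonoidHom := e.symm.injective
  refine hwr (Shrink.{0} W) ⟨B.map e.symm.toMonoidHom, e.symm t, hBn.map _ e.symm.surjective, ?_, ?_, ?_, ?_, ?_, ?_, ?_⟩ ?_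
  · refine ⟨⟨?_⟩⟩
    rintro ⟨_, a, ha, rfl⟩ ⟨_, b, hb, rfl⟩
    refine Subtype.ext ?_
    show e.symm a * e.symm b = e.symm b * e.symm a
    rw [← map_mul, ← map_mul]
    exact congrArg e.symm (congrArg Subtype.val (hBc.is_comm.comm ⟨a, ha⟩ ⟨b, hb⟩))
  · rintro _ ⟨a, ha, rfl⟩
    rw [← map_pow, hBe a ha, map_one]
  · rw [Subgroup.card_map_of_injective einj, hBcard]
  · exact (MulEquiv.orderOf_eq e.symm t).trans ht
  · rintro ⟨a, ha, hat⟩
    exact htB (e.symm.injective hat ▸ ha)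
  · rw [Nat.card_congr e.toEquiv, hWc]
  · refine Eq.trans (congrArg (fun H : Subgroup (Shrink.{0} W) => Nat.card H) ?_)
      ((Subgroup.card_map_of_injective (f := e.symm.toMonoidHom) einj).trans hC)
    ext a
    constructor
    · rintro ⟨⟨b, hb, rfl⟩, hc⟩
      refine ⟨b, ⟨hb, Subgroup.mem_centralizer_singleton_iff.2 (e.symm.injective ?_)⟩, rfl⟩
      rw [map_mul, map_mul]
      exact Subgroup.mem_centralizer_singleton_iff.1 hc
    · rintro ⟨b, ⟨hb, hc⟩, rfl⟩
      refine ⟨⟨b, hb, rfl⟩, Subgroup.mem_centralizer_singleton_iff.2 ?_⟩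
      show e.symm b * e.symm t = e.symm t * e.symm b
      rw [← map_mul, ← map_mul, Subgroup.mem_centralizer_singleton_iff.1 hc]
  · obtain ⟨g, hg⟩ := hS.exists_le_sylow
    obtain ⟨c, hc⟩ := MulAction.exists_smul_eq G g P
    have hle : S.map (MulAut.conj c).toMonoidHom ≤ (P : Subgroup G) := by
      rintro _ ⟨s, hs, rfl⟩
      have := Subgroup.smul_mem_pointwise_smul s (MulAut.conj c) _ (hg hs)
      rw [← hc]
      exact this
    let e₁ : S ≃* ↥((S.map (MulAut.conj c).toMonoidHom).subgroupOf (P : Subgroup G)) :=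
      ((MulAut.conj c).subgroupMap S).trans (Subgroup.subgroupOfEquivOfLe hle).symm
    let K' := (S.map (MulAut.conj c).toMonoidHom).subgroupOf (P : Subgroup G)
    let g₁ : K' →* Shrink.{0} W := (e.symm.toMonoidHom.comp f).comp e₁.symm.toMonoidHom
    have hg₁ : Function.Surjective g₁ := e.symm.surjective.comp (hf.comp e₁.symm.surjective)
    have hR : (g₁.ker.map K'.subtype).subgroupOf K' = g₁.ker := by
      rw [Subgroup.subgroupOf, Subgroup.comap_map_eq_self_of_injective K'.subtype_injective]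
    have hn : ((g₁.ker.map K'.subtype).subgroupOf K').Normal := by rw [hR]; infer_instance
    exact ⟨K', g₁.ker.map K'.subtype, hn,
      ⟨(QuotientGroup.quotientMulEquivOfEq hR).trans (QuotientGroup.quotientKerEquivOfSurjective g₁ hg₁)⟩⟩

end Cfsg.Agent.S3787
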