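import Cfsg.Statements.S3788
import Cfsg.Agent.Constrained.CyclicNormalSylow
import Cfsg.Agent.ConjFunctor.Basic
import Cfsg.Agent.Eq.Def_Local
set_option autoImplicit false
open Cfsg

namespace Cfsg.Agent.S3788

/-- Let G be a finite p-soluble group, P a Sylow p-subgroup of G and A a cyclic normal subgroup of P. If p is odd, or if no section of G is isomorphic to the symmetric group of degree 4, then A ≤ O_{p',p}(G). -/
theorem result {G : Type*} [Group G] [Finite G] {p : ℕ} [Fact p.Prime] (hG : Cfsg.IsPSolvable p G) (P : Sylow p G) (A : Subgroup G) (hAP : A ≤ (P : Subgroup G)) (hAn : (P : Subgroup G) ≤ Subgroup.normalizer (A : Set G)) (hA : IsCyclic A) (h : p ≠ 2 ∨ ¬ Cfsg.Involves (Equiv.Perm (Fin 4)) G) : A ≤ Cfsg.pPrimePCore p G := by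
  haveI : (pPrimeCore p G).Normal := CfsgLib.Constrained.instNormalPPrimeCore p
  set f := QuotientGroup.mk' (pPrimeCore p G) with hf
  have hfs : Function.Surjective f := QuotientGroup.mk'_surjective _
  obtain ⟨g, hg⟩ := A.isCyclic_iff_exists_zpowers_eq_top.1 hA
  rw [← hg, Subgroup.zpowers_le]
  have hgP : g ∈ (P : Subgroup G) := hAP (hg ▸ Subgroup.mem_zpowers g)
  obtain ⟨k, hk⟩ := P.2 ⟨g, hgP⟩
  have hk' : g ^ p ^ k = 1 := congrArg Subtype.val hk
  show f g ∈ pCore p (G ⧸ pPrimeCore p G)
  refine CfsgLib.Constrained.mem_pCore_of_normalized_cyclic (CfsgLib.Constrained.IsPSolvable.quotient hG _)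
    (CfsgLib.Constrained.centralizer_pCore_quotient_le hG) (k := k) (by rw [← map_pow, hk', map_one]) ?_
    (h.imp id fun h4 hi => h4 (CfsgLib.QdSection.involves_of_surjective f hfs hi))
  refine (CfsgLib.ConjFunctor.pCore_le_sylow (P.mapSurjective hfs)).trans ?_
  rw [Sylow.coe_mapSurjective, ← MonoidHom.map_zpowers, hg]
  exact (Subgroup.map_mono hAn).trans (Subgroup.le_normalizer_map f)

end Cfsg.Agent.S3788
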