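import Cfsg.Statements.S3790
import Cfsg.Agent.Constrained.PLength

set_option autoImplicit false
open Cfsg

namespace Cfsg.Agent.S3790

universe u

theorem pLengthLE_prod {p : ℕ} [Fact p.Prime] (r : ℕ) :
    ∀ (G : Type u) [Group G] [Finite G] [Group.IsSolvable G] (q : Fin r → ℕ),
      (∀ i, (q i).Prime ∧ q i ≠ p) → (∀ s : ℕ, s.Prime → s ∣ Nat.card G → s ≠ p → ∃ i, q i = s) →
      ∀ l : Fin r → ℕ, (∀ i, PLengthLE (q i) (l i) G) →
      PLengthLE p (Finset.univ.prod fun i => 1 + l i) G := by
  induction r with
  | zero =>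
    intro G _ _ _ q _ hcover l _
    rw [Finset.univ_eq_empty, Finset.prod_empty]
    refine CfsgLib.Constrained.pLengthLE_one_of_isPGroup (IsPGroup.iff_card.mpr
      ⟨(Nat.card G).primeFactorsList.length, Nat.eq_prime_pow_of_unique_prime_dvd
        Nat.card_pos.ne' fun {s} hs hd => ?_⟩)
    by_contra hne
    obtain ⟨i, _⟩ := hcover s hs hd hne
    exact i.elim0
  | succ r ih =>
    intro G _ _ _ q hq hcover l hl
    rw [Fin.prod_univ_succ]
    haveI : ∀ i, Fact (q i).Prime := fun i => ⟨(hq i).1⟩
    set P := Finset.univ.prod fun i : Fin r => 1 + l i.succ with hP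
    -- groups without the first prime
    have hfree : ∀ (H : Type u) [Group H] [Finite H] [Group.IsSolvable H],
        ¬ q 0 ∣ Nat.card H →
        (∀ s : ℕ, s.Prime → s ∣ Nat.card H → s ≠ p → ∃ i, q i = s) →
        (∀ i : Fin r, PLengthLE (q i.succ) (l i.succ) H) → PLengthLE p P H := by
      intro H _ _ _ hq0 hcov hlen
      refine ih H (fun i => q i.succ) (fun i => hq _) (fun s hs hd hne => ?_) _ hlen
      obtain ⟨i, hi⟩ := hcov s hs hd hne
      cases i using Fin.cases with
      | zero => exact absurd (hi ▸ hd) hq0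
      | succ i => exact ⟨i, hi⟩
    suffices key : ∀ (k : ℕ) (H : Type u) [Group H] [Finite H] [Group.IsSolvable H],
        (∀ s : ℕ, s.Prime → s ∣ Nat.card H → s ≠ p → ∃ i, q i = s) →
        (∀ i : Fin r, PLengthLE (q i.succ) (l i.succ) H) → PLengthLE (q 0) k H →
        PLengthLE p ((1 + k) * P) H from key (l 0) G hcover (fun i => hl i.succ) (hl 0)
    intro k
    induction k with
    | zero =>
      intro H _ _ _ hcov hlen h0
      rw [Nat.add_zero, Nat.one_mul]
      exact hfree H (CfsgLib.Constrained.pLengthLE_zero_iff.mp h0) hcov hlen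
    | succ k ihk =>
      intro H _ _ _ hcov hlen h0
      set M := pPrimePCore (q 0) H
      set O := (pPrimeCore (q 0) H).subgroupOf M
      have hcardO : Nat.card ↥O = Nat.card ↥(pPrimeCore (q 0) H) :=
        Nat.card_congr
          (Subgroup.subgroupOfEquivOfLe CfsgLib.Constrained.pPrimeCore_le_pPrimePCore).toEquiv
      have hO : PLengthLE p P ↥O := by
        refine hfree ↥O (hcardO ▸ CfsgLib.Constrained.pPrimeCore_not_dvd)
          (fun s hs hd hne => hcov s hs
            (hd.trans ((dvd_of_eq hcardO).trans (Subgroup.card_subgroup_dvd_card _))) hne)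
          fun i => CfsgLib.Constrained.pLengthLE_subgroup
            (CfsgLib.Constrained.pLengthLE_subgroup (hlen i) M) O
      have hMq : PLengthLE p (if q 0 = p then 1 else 0) (↥M ⧸ O) := by
        obtain ⟨n, hn⟩ := IsPGroup.iff_card.mp
          (CfsgLib.Constrained.isPGroup_pCore (p := q 0) (G := H ⧸ pPrimeCore (q 0) H))
        have hidx : Nat.card (↥M ⧸ O) = q 0 ^ n := by
          show O.index = q 0 ^ n
          rw [← hn, ← CfsgLib.Constrained.map_pPrimePCore,
            ← CfsgLib.Constrained.relIndex_eq_card_map]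
          rfl
        split_ifs with hqp
        · exact CfsgLib.Constrained.pLengthLE_one_of_isPGroup (IsPGroup.of_card (hqp ▸ hidx))
        · rw [CfsgLib.Constrained.pLengthLE_zero_iff, hidx]
          exact fun h => hqp ((Nat.prime_dvd_prime_iff_eq Fact.out Fact.out).mp
            ((Fact.out : p.Prime).dvd_of_dvd_pow h)).symm
      have hne : q 0 ≠ p := (hq 0).2
      rw [if_neg hne] at hMq
      have hM : PLengthLE p (P + 0) ↥M := CfsgLib.Constrained.pLengthLE_extension O hO hMq
      have hquot : PLengthLE p ((1 + k) * P) (H ⧸ M) :=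
        ihk (H ⧸ M) (fun s hs hd hne' => hcov s hs
            (hd.trans (Subgroup.card_quotient_dvd_card M)) hne')
          (fun i => CfsgLib.Constrained.pLengthLE_of_surjective (hlen i) _
            (QuotientGroup.mk'_surjective M))
          (CfsgLib.Constrained.pLengthLE_quotient_pPrimePCore h0)
      rw [show (1 + (k + 1)) * P = P + 0 + (1 + k) * P by ring]
      exact CfsgLib.Constrained.pLengthLE_extension M hM hquot


/-- Let G be a finite solvable group and p a prime. Suppose p₁, …, p_r are distinct primes, all different from p, that include every prime dividing the order of G other than p, and that G has p_i-length at most l_i for each i. Then G has p-length at most the product of the numbers 1 + l_i. -/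
theorem result {G : Type*} [Group G] [Finite G] (hG : Group.IsSolvable G) (p : ℕ) [Fact p.Prime] (r : ℕ) (q : Fin r → ℕ) (hq : ∀ i, (q i).Prime ∧ q i ≠ p) (hinj : Function.Injective q) (hcover : ∀ s : ℕ, s.Prime → s ∣ Nat.card G → s ≠ p → ∃ i, q i = s) (l : Fin r → ℕ) (hl : ∀ i, Cfsg.PLengthLE (q i) (l i) G) : Cfsg.PLengthLE p (Finset.univ.prod fun i => 1 + l i) G := by
  haveI := hG
  exact pLengthLE_prod r G q hq hcover l hl

end Cfsg.Agent.S3790
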