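import Cfsg.Statements.S3791
import Cfsg.Agent.Constrained.PLength
import Cfsg.Agent.Constrained.Fitting
import Cfsg.Agent.Eq.Def_Local
import Mathlib

set_option autoImplicit false
open Cfsg

namespace Cfsg.Agent.S3791

/-- The derived series below a term inside `K` lies in the derived series of `K`. -/
theorem derivedSeries_add_le {G : Type*} [Group G] (K : Subgroup G) {a : ℕ} (ha : derivedSeries G a ≤ K)
    (b : ℕ) : derivedSeries G (a + b) ≤ (derivedSeries ↥K b).map K.subtype := by
  induction b with
  | zero => rwa [derivedSeries_zero, ← MonoidHom.range_eq_map, Subgroup.range_subtype, add_zero]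
  | succ b ih =>
    rw [← add_assoc, derivedSeries_succ, derivedSeries_succ, Subgroup.map_commutator]
    exact Subgroup.commutator_mono ih ih

theorem derivedSeries_eq_bot_of_le_sylow {G : Type*} [Group G] {K P : Subgroup G} (hKP : K ≤ P)
    {d : ℕ} (h : derivedSeries ↥P d = ⊥) : derivedSeries ↥K d = ⊥ := by
  have h1 := map_derivedSeries_le_derivedSeries (Subgroup.inclusion hKP) d
  rw [h, le_bot_iff, (Subgroup.map_eq_bot_iff_of_injective _ (Subgroup.inclusion_injective hKP))] at h1
  exact h1

/-- The hypotheses on the Sylow subgroups pass to quotients. -/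
theorem sylow_derived_quotient {G : Type*} [Group G] [Finite G] (N : Subgroup G) [N.Normal] {q d : ℕ}
    [Fact q.Prime] (h : ∀ S : Sylow q G, derivedSeries ↥(S : Subgroup G) d = ⊥) (T : Sylow q (G ⧸ N)) :
    derivedSeries ↥(T : Subgroup (G ⧸ N)) d = ⊥ := by
  obtain ⟨S, hS⟩ := Sylow.mapSurjective_surjective (QuotientGroup.mk'_surjective N) q T
  subst hS
  rw [Sylow.coe_mapSurjective]
  have hs : Function.Surjective ((QuotientGroup.mk' N).subgroupMap (S : Subgroup G)) :=
    MonoidHom.subgroupMap_surjective _ _
  rw [← map_derivedSeries_eq hs d, h S, Subgroup.map_bot]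

theorem derived_bound (n : ℕ) : ∀ {G : Type*} [Group G] [Finite G], Nat.card G ≤ n → Group.IsSolvable G →
    ∀ {r : ℕ} (q : Fin r → ℕ), (∀ i, (q i).Prime) →
    (∀ s : ℕ, s.Prime → s ∣ Nat.card G → ∃ i, q i = s) → ∀ (d l : Fin r → ℕ),
    (∀ i, ∀ S : Sylow (q i) G, derivedSeries ↥(S : Subgroup G) (d i) = ⊥) →
    (∀ i, Cfsg.PLengthLE (q i) (l i) G) →
    derivedSeries G (Finset.univ.sum fun i => d i * l i) = ⊥ := by
  induction n with
  | zero => intro G _ _ hc; exact absurd hc (by have := Nat.card_pos (α := G); omega)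
  | succ n ih =>
    intro G _ _ hn hsol r q hq hcover d l hd hl
    rcases subsingleton_or_nontrivial G with hG | hG
    · exact Subgroup.eq_bot_of_subsingleton _
    haveI := hsol
    -- quotients
    have hquot : ∀ (N : Subgroup G) [N.Normal], N ≠ ⊥ → ∀ (l' : Fin r → ℕ),
        (∀ i, Cfsg.PLengthLE (q i) (l' i) (G ⧸ N)) →
        derivedSeries G (Finset.univ.sum fun i => d i * l' i) ≤ N := by
      intro N _ hN l' hl'
      have hlt : Nat.card (G ⧸ N) ≤ n := by
        have h1 := Subgroup.card_eq_card_quotient_mul_card_subgroup N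
        have h2 : 1 < Nat.card N := Finite.one_lt_card_iff_nontrivial.2 ((Subgroup.nontrivial_iff_ne_bot N).2 hN)
        have h3 : 0 < Nat.card (G ⧸ N) := Nat.card_pos
        nlinarith
      have h := ih (G := G ⧸ N) hlt inferInstance q hq
        (fun s hs hsd => hcover s hs (hsd.trans (Subgroup.card_quotient_dvd_card N))) d l'
        (fun i => haveI := Fact.mk (hq i); sylow_derived_quotient N (hd i)) hl'
      intro x hx
      have hx' := map_derivedSeries_le_derivedSeries (QuotientGroup.mk' N) _ (Subgroup.mem_map_of_mem _ hx)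
      rw [h, Subgroup.mem_bot] at hx'
      exact (QuotientGroup.eq_one_iff x).1 hx'
    obtain ⟨s, hs⟩ : ∃ s : Nat.Primes, Cfsg.pCore (s : ℕ) G ≠ ⊥ := by
      by_contra hno
      push Not at hno
      refine CfsgLib.Constrained.fitting_ne_bot (G := G) ?_
      rw [CfsgLib.Constrained.fitting_eq_iSup_pCore]
      simp only [iSup_eq_bot]
      exact fun t ht => hno ⟨t, ht⟩
    haveI : Fact (s : ℕ).Prime := ⟨s.2⟩
    have hsdvd : ∀ (t : ℕ) [Fact t.Prime], Cfsg.pCore t G ≠ ⊥ → t ∣ Nat.card G := by
      intro t _ ht
      have h1 : 1 < Nat.card (Cfsg.pCore t G) :=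
        Finite.one_lt_card_iff_nontrivial.2 ((Subgroup.nontrivial_iff_ne_bot _).2 ht)
      obtain ⟨m, hm⟩ := (CfsgLib.Constrained.isPGroup_pCore (p := t) (G := G)).exists_card_eq
      have hm0 : m ≠ 0 := fun h0 => by rw [h0, pow_zero] at hm; omega
      exact (dvd_pow_self t hm0).trans (hm ▸ Subgroup.card_subgroup_dvd_card _)
    obtain ⟨i, hi⟩ := hcover s s.2 (hsdvd s hs)
    haveI := Fact.mk (hq i)
    have hpn : Cfsg.pCore (q i) G ≠ ⊥ := hi.symm ▸ hs
    by_cases htwo : Cfsg.pPrimeCore (q i) G = ⊥
    · have hF : Cfsg.pPrimePCore (q i) G ≤ Cfsg.pCore (q i) G := by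
        refine CfsgLib.Constrained.le_pCore inferInstance ?_
        exact CfsgLib.Constrained.isPGroup_comap_mk (by rw [htwo]; exact IsPGroup.of_bot)
          CfsgLib.Constrained.isPGroup_pCore
      have hFne : Cfsg.pPrimePCore (q i) G ≠ ⊥ := fun h => hpn (le_bot_iff.1 (h ▸
        CfsgLib.Constrained.le_pPrimePCore inferInstance
          (by
            refine (CfsgLib.Constrained.isPGroup_pCore (p := q i) (G := G)).map _)))
      obtain ⟨k, hk⟩ : ∃ k, l i = k + 1 := by
        refine Nat.exists_eq_succ_of_ne_zero fun h0 => ?_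
        have := hl i
        rw [h0, CfsgLib.Constrained.pLengthLE_zero_iff] at this
        exact this (hsdvd (q i) hpn)
      have hle := hquot (Cfsg.pPrimePCore (q i) G) hFne (Function.update l i k) (fun j => by
        rcases eq_or_ne j i with rfl | hji
        · rw [Function.update_self]
          exact CfsgLib.Constrained.pLengthLE_quotient_pPrimePCore (hk ▸ hl j)
        · rw [Function.update_of_ne hji]
          haveI := Fact.mk (hq j)
          exact CfsgLib.Constrained.pLengthLE_of_surjective (hl j) _ (QuotientGroup.mk'_surjective _))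
      obtain ⟨S, hS⟩ := (CfsgLib.Constrained.isPGroup_pCore (p := q i) (G := G)).exists_le_sylow
      have h2 := derivedSeries_add_le _ hle (d i)
      rw [derivedSeries_eq_bot_of_le_sylow (hF.trans hS) (hd i S), Subgroup.map_bot, le_bot_iff] at h2
      convert h2 using 2
      have e : ∀ j ∈ Finset.univ.erase i, d j * Function.update l i k j = d j * l j := fun j hj => by
        rw [Function.update_of_ne (Finset.ne_of_mem_erase hj)]
      rw [← Finset.add_sum_erase _ _ (Finset.mem_univ i), ← Finset.add_sum_erase _ _ (Finset.mem_univ i),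
        Function.update_self, hk, Finset.sum_congr rfl e]
      ring
    · have hle : ∀ (N : Subgroup G) [N.Normal], N ≠ ⊥ →
          derivedSeries G (Finset.univ.sum fun i => d i * l i) ≤ N := fun N _ hN => hquot N hN l fun j => by
        haveI := Fact.mk (hq j)
        exact CfsgLib.Constrained.pLengthLE_of_surjective (hl j) _ (QuotientGroup.mk'_surjective _)
      rw [eq_bot_iff]
      exact (le_inf (hle _ hpn) (hle _ htwo)).trans CfsgLib.Constrained.pCore_inf_pPrimeCore.le


/-- The Hall–Higman bound on derived length: let G be a finite solvable group, let p₁, …, p_r be distinct primes that include every prime dividing the order of G, and suppose that for each i the Sylow p_i-subgroups of G have derived length at most d_i and G has p_i-length at most l_i. Then G has derived length at most Σ d_i l_i. -/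
theorem result {G : Type*} [Group G] [Finite G] (hG : Group.IsSolvable G) (r : ℕ) (q : Fin r → ℕ) (hq : ∀ i, (q i).Prime) (hinj : Function.Injective q) (hcover : ∀ s : ℕ, s.Prime → s ∣ Nat.card G → ∃ i, q i = s) (d l : Fin r → ℕ) (hd : ∀ i, ∀ P : Subgroup G, (haveI := Fact.mk (hq i); ∃ S : Sylow (q i) G, (S : Subgroup G) = P) → derivedSeries ↥P (d i) = ⊥) (hl : ∀ i, Cfsg.PLengthLE (q i) (l i) G) : derivedSeries G (Finset.univ.sum fun i => d i * l i) = ⊥ := by
  exact derived_bound (Nat.card G) le_rfl hG q hq hcover d l (fun i S => hd i _ ⟨S, rfl⟩) hl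

end Cfsg.Agent.S3791
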