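import Cfsg.Statements.S3800
import Mathlib

set_option autoImplicit false
open Cfsg

namespace Cfsg.Agent.S3800

/-- Let G be a finite group, N a normal subgroup of G whose order is prime to p, and P a p-subgroup of G. Then in G/N the normalizer of the image of P is the image of N_G(P), and the centralizer of the image of P is the image of C_G(P). -/
theorem result {G : Type*} [Group G] [Finite G] {p : ℕ} [Fact p.Prime] (N : Subgroup G) [N.Normal] (hN : (Nat.card N).Coprime p) (P : Subgroup G) (hP : IsPGroup p P) : Subgroup.normalizer ((P.map (QuotientGroup.mk' N)) : Set (G ⧸ N)) = (Subgroup.normalizer (P : Set G)).map (QuotientGroup.mk' N) ∧ Subgroup.centralizer ((P.map (QuotientGroup.mk' N)) : Set (G ⧸ N)) = (Subgroup.centralizer (P : Set G)).map (QuotientGroup.mk' N) := by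
  have hdisj : N ⊓ P = ⊥ := by
    obtain ⟨k, hk⟩ := (IsPGroup.iff_card).1 hP
    exact Subgroup.inf_eq_bot_of_coprime (by rw [hk]; exact hN.pow_right k)
  set f := QuotientGroup.mk' N with hf
  have hfs : Function.Surjective f := QuotientGroup.mk'_surjective N
  -- elements normalizing the image normalize `P` up to `N`
  have key : ∀ g : G, f g ∈ Subgroup.normalizer ((P.map f : Subgroup (G ⧸ N)) : Set (G ⧸ N)) →
      ∃ n ∈ Subgroup.normalizer (P : Set G), f g = f n := by
    intro g hg
    set K := N ⊔ P with hK
    have hgK : g ∈ Subgroup.normalizer (K : Set G) := by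
      have h1 : K = (P.map f).comap f := by
        rw [Subgroup.comap_map_eq, hf, QuotientGroup.ker_mk', sup_comm, hK]
      rw [Subgroup.mem_normalizer_iff]
      intro x
      rw [h1, Subgroup.mem_comap, Subgroup.mem_comap, map_mul, map_mul, map_inv]
      exact Subgroup.mem_normalizer_iff.1 hg _
    have hPK : P ≤ K := le_sup_right
    set P' : Subgroup G := P.map (MulAut.conj g).toMonoidHom with hP'
    have hP'K : P' ≤ K := by
      rintro y ⟨x, hx, rfl⟩
      exact (Subgroup.mem_normalizer_iff.1 hgK x).1 (hPK hx)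
    have hidx : ∀ Q : Subgroup G, Q ≤ K → Nat.card Q = Nat.card P → ¬ p ∣ (Q.subgroupOf K).index := by
      intro Q hQ hc hdvd
      have h1 := Subgroup.card_mul_index (Q.subgroupOf K)
      rw [Nat.card_congr (Subgroup.subgroupOfEquivOfLe hQ).toEquiv, hc] at h1
      have hcardK : Nat.card K = Nat.card N * Nat.card P := by
        have h2 := Subgroup.card_mul_index (N.subgroupOf K)
        rw [Nat.card_congr (Subgroup.subgroupOfEquivOfLe (le_sup_left : N ≤ K)).toEquiv] at h2
        have h3 : (N.subgroupOf K).index = N.relIndex P := by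
          change N.relIndex K = N.relIndex P
          exact Subgroup.relIndex_sup_left (H := P) (K := N)
        have h4 : N.relIndex P = Nat.card P := by
          rw [← Subgroup.inf_relIndex_right, hdisj, Subgroup.relIndex_bot_left]
        rw [h3, h4] at h2
        exact h2.symm
      rw [hcardK, mul_comm (Nat.card N)] at h1
      have h5 := Nat.eq_of_mul_eq_mul_left Nat.card_pos h1
      rw [h5] at hdvd
      exact (Fact.out : p.Prime).one_lt.ne'
        (Nat.eq_one_of_dvd_coprimes hN hdvd dvd_rfl)
    have hc' : Nat.card P' = Nat.card P := Subgroup.card_map_of_injective (MulAut.conj g).injective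
    let SP : Sylow p K :=
      (hP.of_equiv (Subgroup.subgroupOfEquivOfLe hPK).symm).toSylow (hidx P hPK rfl)
    let SP' : Sylow p K :=
      ((hP.map _).of_equiv (Subgroup.subgroupOfEquivOfLe hP'K).symm).toSylow (hidx P' hP'K hc')
    obtain ⟨k, hk⟩ := MulAction.exists_smul_eq K SP SP'
    have hk' : P.map (MulAut.conj (k : G)).toMonoidHom = P' := by
      have h1 := congrArg (fun T : Sylow p K => (T : Subgroup K).map K.subtype) hk
      simp only [Sylow.coe_subgroup_smul, Subgroup.pointwise_smul_def] at h1
      have h2 : K.subtype.comp (MulDistribMulAction.toMonoidEnd (MulAut K) K (MulAut.conj k))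
          = (MulAut.conj (k : G)).toMonoidHom.comp K.subtype := by
        ext y; simp
      erw [Subgroup.map_map, h2, ← Subgroup.map_map] at h1
      simp only [SP, SP', IsPGroup.toSylow_coe, Subgroup.map_subgroupOf_eq_of_le hPK,
        Subgroup.map_subgroupOf_eq_of_le hP'K] at h1
      exact h1
    have hn : (k : G)⁻¹ * g ∈ Subgroup.normalizer (P : Set G) := by
      have e : P.map (MulAut.conj ((k : G)⁻¹ * g)).toMonoidHom = P := by
        have : (MulAut.conj ((k : G)⁻¹ * g)).toMonoidHom
            = (MulAut.conj (k : G)⁻¹).toMonoidHom.comp (MulAut.conj g).toMonoidHom := by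
          ext y; simp [mul_assoc]
        rw [this, ← Subgroup.map_map, ← hP', ← hk', Subgroup.map_map]
        ext y; simp [mul_assoc]
      rw [Subgroup.mem_normalizer_iff]
      intro s
      constructor
      · intro hs
        rw [← e]; exact ⟨s, hs, by simp [mul_assoc]⟩
      · intro hs
        rw [← e] at hs
        obtain ⟨t, ht, hte⟩ := hs
        simp only [MulEquiv.coe_toMonoidHom, MulAut.conj_apply] at hte
        have : t = s := by simpa [mul_assoc] using hte
        rw [← this]; exact ht
    obtain ⟨m, hm, x, hx, hmx⟩ := Subgroup.mem_sup_of_normal_left.1 k.2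
    refine ⟨x * ((k : G)⁻¹ * g), mul_mem (Subgroup.le_normalizer hx) hn, ?_⟩
    have hm' : f m = 1 := by rw [← MonoidHom.mem_ker, hf, QuotientGroup.ker_mk']; exact hm
    have h2 : f (k : G) = f x := by rw [← hmx, map_mul, hm', one_mul]
    rw [map_mul, map_mul, map_inv, h2, mul_inv_cancel_left]
  constructor
  · refine le_antisymm ?_ (Subgroup.le_normalizer_map _)
    intro y hy
    obtain ⟨g, rfl⟩ := hfs y
    obtain ⟨n, hn, hgn⟩ := key g hy
    exact ⟨n, hn, hgn.symm⟩
  · refine le_antisymm ?_ ?_
    · intro y hy
      obtain ⟨g, rfl⟩ := hfs y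
      obtain ⟨n, hn, hgn⟩ := key g (Subgroup.centralizer_le_normalizer _ hy)
      refine ⟨n, ?_, hgn.symm⟩
      rw [SetLike.mem_coe, Subgroup.mem_centralizer_iff]
      intro x hx
      have h1 : f (n * x * n⁻¹ * x⁻¹) = 1 := by
        have h2 := Subgroup.mem_centralizer_iff.1 hy (f x) ⟨x, hx, rfl⟩
        simp only [map_mul, map_inv, ← hgn]
        rw [← h2]; group
      have h3 : n * x * n⁻¹ * x⁻¹ ∈ N := by
        rw [← MonoidHom.mem_ker, hf, QuotientGroup.ker_mk'] at h1; exact h1
      have h4 : n * x * n⁻¹ * x⁻¹ ∈ P :=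
        mul_mem ((Subgroup.mem_normalizer_iff.1 hn x).1 hx) (inv_mem hx)
      have h5 : n * x * n⁻¹ * x⁻¹ ∈ N ⊓ P := ⟨h3, h4⟩
      rw [hdisj, Subgroup.mem_bot] at h5
      have h6 := mul_inv_eq_one.1 h5
      conv_lhs => rw [← h6]
      group
    · rintro y ⟨c, hc, rfl⟩
      rw [Subgroup.mem_centralizer_iff]
      rintro z ⟨x, hx, rfl⟩
      rw [← map_mul, ← map_mul, Subgroup.mem_centralizer_iff.1 hc x hx]

end Cfsg.Agent.S3800
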