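import Cfsg.Statements.S3950
import Cfsg.Agent.SchurMult.Twisted
import Cfsg.Agent.SchurMult.TwoGen

set_option autoImplicit false
open Cfsg
open scoped commutatorElement

namespace Cfsg.Agent.S3950

theorem exists_pairing {G : Type*} [CommGroup G] [Finite G] (hnc : ¬ IsCyclic G) :
    ∃ p : ℕ, p.Prime ∧ ∃ (f₁ f₂ : Additive G →+ ZMod p) (v w : G),
      f₁ (Additive.ofMul v) * f₂ (Additive.ofMul w) - f₁ (Additive.ofMul w) * f₂ (Additive.ofMul v) ≠ 0 := by
  by_contra hno
  simp only [not_exists, not_and, not_not] at hno
  apply hnc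
  classical
  haveI := Fintype.ofFinite G
  apply isCyclic_of_card_pow_eq_one_le
  have key : ∀ n : ℕ, 0 < n → Nat.card (powMonoidHom n : G →* G).ker ≤ n := by
    intro n
    induction n using Nat.recOnMul with
    | zero => intro h; omega
    | one =>
      intro _
      have : (powMonoidHom 1 : G →* G).ker = ⊥ := by ext a; simp
      simp [this]
    | prime p hp =>
      intro _
      by_contra hlt
      rw [not_le] at hlt
      haveI := Fact.mk hp
      let N := (powMonoidHom p : G →* G).range
      have hq : p < Nat.card (G ⧸ N) := by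
        have h1 := Subgroup.card_mul_index (powMonoidHom p : G →* G).ker
        have h2 := Subgroup.card_mul_index N
        rw [Subgroup.index_ker] at h1
        rw [← Subgroup.index]
        have : N.index = Nat.card (powMonoidHom p : G →* G).ker :=
          Nat.eq_of_mul_eq_mul_left (Nat.card_pos (α := N)) (by
            show Nat.card N * N.index = Nat.card N * _
            rw [h2, mul_comm (Nat.card N), ← h1])
        rw [this]; exact hlt
      have hzero : ∀ x : Additive (G ⧸ N), p • x = 0 := fun x => by
        obtain ⟨g, hg⟩ := QuotientGroup.mk_surjective (Additive.toMul x)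
        apply Additive.toMul.injective
        rw [toMul_nsmul, ← hg, toMul_zero, ← QuotientGroup.mk_pow, QuotientGroup.eq_one_iff]
        exact ⟨g, rfl⟩
      haveI : Module (ZMod p) (Additive (G ⧸ N)) := AddCommGroup.zmodModule (G := Additive (G ⧸ N)) hzero
      haveI : Nontrivial (G ⧸ N) := (Finite.one_lt_card_iff_nontrivial).1 (by linarith [hp.one_lt])
      obtain ⟨v, hv⟩ := exists_ne (0 : (Additive (G ⧸ N)))
      let W : Submodule (ZMod p) (Additive (G ⧸ N)) := Submodule.span (ZMod p) ({v} : Set (Additive (G ⧸ N)))
      obtain ⟨w, hw⟩ : ∃ w : (Additive (G ⧸ N)), w ∉ W := by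
        by_contra hall
        simp only [not_exists, not_not] at hall
        have : Nat.card (Additive (G ⧸ N)) ≤ p := by
          refine (Nat.card_le_card_of_surjective (fun r : ZMod p => r • v) fun x => ?_).trans (by simp)
          exact Submodule.mem_span_singleton.1 (hall x)
        exact absurd this (not_le.2 hq)
      obtain ⟨g₂, hg₂, hg₂'⟩ := Submodule.exists_dual_map_eq_bot_of_notMem hw inferInstance
      obtain ⟨g₁, hg₁, -⟩ := Submodule.exists_dual_map_eq_bot_of_notMem (p := (⊥ : Submodule (ZMod p) (Additive (G ⧸ N)))) (by simpa using hv) inferInstance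
      have hv2 : g₂ v = 0 := by
        have : g₂ v ∈ Submodule.map g₂ (Submodule.span (ZMod p) ({v} : Set (Additive (G ⧸ N)))) :=
          Submodule.mem_map_of_mem (Submodule.mem_span_singleton_self v)
        rw [hg₂'] at this
        exact (Submodule.mem_bot _).1 this
      obtain ⟨a, rfl⟩ : ∃ a : G, v = Additive.ofMul (a : G ⧸ N) := by
        obtain ⟨a, ha⟩ := QuotientGroup.mk_surjective (Additive.toMul v)
        exact ⟨a, by rw [ha]; rfl⟩
      obtain ⟨b, rfl⟩ : ∃ b : G, w = Additive.ofMul (b : G ⧸ N) := by
        obtain ⟨b, hb⟩ := QuotientGroup.mk_surjective (Additive.toMul w)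
        exact ⟨b, by rw [hb]; rfl⟩
      let q : Additive G →+ (Additive (G ⧸ N)) := (QuotientGroup.mk' N).toAdditive
      have h := hno p hp (g₁.toAddMonoidHom.comp q) (g₂.toAddMonoidHom.comp q) a b
      simp only [AddMonoidHom.comp_apply, LinearMap.toAddMonoidHom_coe, q, MonoidHom.toAdditive_apply_apply,
        toMul_ofMul, QuotientGroup.mk'_apply] at h
      rw [hv2, mul_zero, sub_zero, mul_eq_zero] at h
      exact h.elim hg₁ hg₂
    | mul a b iha ihb =>
      intro h
      have ha : 0 < a := Nat.pos_of_ne_zero fun e => by simp [e] at h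
      have hb : 0 < b := Nat.pos_of_ne_zero fun e => by simp [e] at h
      refine le_trans ?_ (Nat.mul_le_mul (iha ha) (ihb hb))
      let f : (powMonoidHom (a * b) : G →* G).ker →* (powMonoidHom b : G →* G).ker :=
        ((powMonoidHom a : G →* G).comp (powMonoidHom (a * b) : G →* G).ker.subtype).codRestrict _
          (fun x => by
            have hx := x.2
            simp only [MonoidHom.mem_ker, powMonoidHom_apply] at hx
            simp [MonoidHom.mem_ker, ← pow_mul, hx])
      rw [← Subgroup.card_mul_index f.ker, Subgroup.index_ker]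
      refine Nat.mul_le_mul ?_ (Subgroup.card_le_card_group _)
      refine Nat.card_le_card_of_injective
        (fun x => (⟨((x : (powMonoidHom (a * b) : G →* G).ker) : G), by
          have h3 : f x.1 = 1 := x.2
          have h4 := congrArg Subtype.val h3
          simpa [f, MonoidHom.mem_ker] using h4⟩ : (powMonoidHom a : G →* G).ker)) ?_
      intro x y hxy
      have h2 := congrArg (fun z : (powMonoidHom a : G →* G).ker => (z : G)) hxy
      exact Subtype.ext (Subtype.ext h2)
  intro n hn
  refine le_trans (le_of_eq ?_) (key n hn)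
  rw [Nat.card_eq_fintype_card, ← Fintype.card_coe]
  exact Fintype.card_congr (Equiv.subtypeEquivRight (fun x => by simp [MonoidHom.mem_ker]))


/-- A finite abelian group has trivial Schur multiplier if and only if it is cyclic. -/
theorem result {G : Type*} [CommGroup G] [Finite G] : Cfsg.HasCyclicSchurMultiplier G 1 ↔ IsCyclic G := by
  constructor
  · intro h
    by_contra hnc
    obtain ⟨p, hp, f₁, f₂, v, w, hvw⟩ := exists_pairing hnc
    haveI := Fact.mk hp
    let B : G →* G →* Multiplicative (ZMod p) :=
      MonoidHom.mk' (fun x => MonoidHom.mk' (fun y => Multiplicative.ofAdd (f₁ (Additive.ofMul x) * f₂ (Additive.ofMul y)))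
        (fun y y' => by simp [mul_add])) (fun x x' => by ext y; simp [add_mul])
    have hc := CfsgLib.SchurMult.ker_inf_commutator_eq_bot h
      (CfsgLib.SchurMult.TwistExt.projTwist_surjective B) (CfsgLib.SchurMult.TwistExt.projTwist_ker_le_center B)
    have hmem : ⁅(⟨v, 1⟩ : CfsgLib.SchurMult.TwistExt B), (⟨w, 1⟩ : CfsgLib.SchurMult.TwistExt B)⁆ ∈
        (CfsgLib.SchurMult.TwistExt.projTwist B).ker ⊓ commutator _ := by
      refine ⟨?_, Subgroup.commutator_mem_commutator (Subgroup.mem_top _) (Subgroup.mem_top _)⟩
      rw [CfsgLib.SchurMult.TwistExt.commutator_lifts (mul_comm v w)]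
      rfl
    rw [hc, Subgroup.mem_bot, CfsgLib.SchurMult.TwistExt.commutator_lifts (mul_comm v w)] at hmem
    apply hvw
    have h2 := congrArg (fun z : CfsgLib.SchurMult.TwistExt B => Multiplicative.toAdd z.fib) hmem
    simp [B] at h2
    linear_combination h2
  · intro hc
    rw [CfsgLib.SchurMult.hasCyclicSchurMultiplier_one_iff]
    intro Γ _ _ σ hσ
    haveI : IsCyclic G := hc
    letI : CommGroup Γ := commGroupOfCyclicCenterQuotient σ hσ.2.1
    rw [eq_bot_iff]
    refine hσ.2.2.trans ?_
    rw [commutator_eq_closure, Subgroup.closure_le]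
    rintro _ ⟨a, b, rfl⟩
    simp [commutatorElement_def, mul_comm a b]

end Cfsg.Agent.S3950
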