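import Cfsg.Statements.S3951
import Cfsg.Agent.SchurMult.Twisted
import Cfsg.Agent.SchurMult.Cover
import Cfsg.Agent.SchurMult.TwoGen

set_option autoImplicit false
open Cfsg
open scoped commutatorElement

namespace Cfsg.Agent.S3951

/-- For positive integers `m` and `n` with `n` dividing `m`, the Schur multiplier of the abelian group `ZMod m × ZMod n` (written multiplicatively) is cyclic of order `n`. In particular the elementary abelian group of order `p ^ 2` has multiplier of order `p`. -/
theorem result (m n : ℕ) [NeZero m] [NeZero n] (hnm : n ∣ m) : Cfsg.HasCyclicSchurMultiplier (Multiplicative (ZMod m × ZMod n)) n := by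
  let c : ZMod m →+* ZMod n := ZMod.castHom hnm _
  let B : Multiplicative (ZMod m × ZMod n) →* Multiplicative (ZMod m × ZMod n) →* Multiplicative (ZMod n) :=
    MonoidHom.mk' (fun x => MonoidHom.mk' (fun y => Multiplicative.ofAdd ((Multiplicative.toAdd x).2 * c (Multiplicative.toAdd y).1))
      (fun y y' => by simp [mul_add])) (fun x x' => by ext y; simp [add_mul])
  let Γ := CfsgLib.SchurMult.TwistExt B
  let σ : Γ →* Multiplicative (ZMod m × ZMod n) := CfsgLib.SchurMult.TwistExt.projTwist B
  have hσ : Cfsg.IsStemExtension σ := by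
    refine ⟨CfsgLib.SchurMult.TwistExt.projTwist_surjective B, CfsgLib.SchurMult.TwistExt.projTwist_ker_le_center B, ?_⟩
    intro x hx
    have hb : x.base = 1 := hx
    let u : Γ := ⟨Multiplicative.ofAdd (0, 1), 1⟩
    let v : Γ := ⟨Multiplicative.ofAdd (1, 0), 1⟩
    have huv : ⁅u, v⁆ = ⟨1, Multiplicative.ofAdd 1⟩ := by
      rw [CfsgLib.SchurMult.TwistExt.commutator_lifts (mul_comm _ _)]
      refine CfsgLib.SchurMult.TwistExt.ext rfl ?_
      simp [B]
    have hmem : ⁅u, v⁆ ∈ commutator Γ :=
      Subgroup.commutator_mem_commutator (Subgroup.mem_top _) (Subgroup.mem_top _)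
    have hpow : ∀ k : ℕ, ⁅u, v⁆ ^ k = ⟨1, Multiplicative.ofAdd (k : ZMod n)⟩ := by
      intro k
      induction k with
      | zero => simp; rfl
      | succ k ih =>
        rw [pow_succ, ih, huv]
        refine CfsgLib.SchurMult.TwistExt.ext (mul_one _) ?_
        show Multiplicative.ofAdd (k : ZMod n) * Multiplicative.ofAdd 1 * B 1 1 = _
        simp
    have hxe : x = ⁅u, v⁆ ^ (Multiplicative.toAdd x.fib).val := by
      rw [hpow]
      exact CfsgLib.SchurMult.TwistExt.ext hb (by simp)
    rw [hxe]
    exact Subgroup.pow_mem _ hmem _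
  let e : σ.ker ≃* Multiplicative (ZMod n) := CfsgLib.SchurMult.TwistExt.kerEquiv B
  refine CfsgLib.SchurMult.hasSchurMultiplier_of_stem_of_bound hσ e (fun Δ _ _ τ hτ => ?_)
  rw [Nat.card_congr e.toEquiv, Nat.card_congr Multiplicative.toAdd, Nat.card_zmod]
  obtain ⟨a, ha⟩ := hτ.1 (Multiplicative.ofAdd (1, 0))
  obtain ⟨b, hb⟩ := hτ.1 (Multiplicative.ofAdd (0, 1))
  have hgen : Subgroup.closure ({τ a, τ b} : Set (Multiplicative (ZMod m × ZMod n))) = ⊤ := by
    rw [ha, hb, eq_top_iff]
    intro x _
    have hx : x = Multiplicative.ofAdd ((1 : ZMod m), (0 : ZMod n)) ^ (Multiplicative.toAdd x).1.val *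
        Multiplicative.ofAdd ((0 : ZMod m), (1 : ZMod n)) ^ (Multiplicative.toAdd x).2.val := by
      apply Multiplicative.toAdd.injective
      simp [Prod.ext_iff]
    rw [hx]
    exact Subgroup.mul_mem _ (Subgroup.pow_mem _ (Subgroup.subset_closure (Set.mem_insert _ _)) _)
      (Subgroup.pow_mem _ (Subgroup.subset_closure (Set.mem_insert_of_mem _ (Set.mem_singleton _))) _)
  obtain ⟨d, hdn, hle⟩ := CfsgLib.SchurMult.abelian_two_gen_bound hτ hgen
    (by rw [mul_comm (τ b), mul_inv_cancel_right]) (n := n) (by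
      rw [hb]
      apply Multiplicative.toAdd.injective
      simp)
  refine (Subgroup.card_le_of_le hle).trans ?_
  rw [Nat.card_zpowers]
  exact Nat.le_of_dvd (NeZero.pos n) (orderOf_dvd_of_pow_eq_one hdn)

end Cfsg.Agent.S3951
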