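import Cfsg.Statements.S3952
import Cfsg.Agent.SchurMult.Multiplier
import Cfsg.Agent.Chars.Basic.Kernel

set_option autoImplicit false
open Cfsg

namespace Cfsg.Agent.S3952

theorem sq_dvd_key {Q Γ : Type*} [Group Q] [Group Γ] [Finite Q] [Finite Γ] {σ : Γ →* Q}
    (hσ : Cfsg.IsStemExtension σ) {p k : ℕ} [Fact p.Prime] {z : Γ} (hz : z ∈ σ.ker) (hk : 0 < k)
    (ho : orderOf z = p ^ k) : 2 * k ≤ (Nat.card Q).factorization p := by
  have hp : p.Prime := Fact.out
  have hzc : ∀ g, g * z = z * g := Subgroup.mem_center_iff.1 (hσ.2.1 hz)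
  have hzp : IsPGroup p (Subgroup.zpowers z) := IsPGroup.of_card (by rw [Nat.card_zpowers, ho])
  obtain ⟨P, hP⟩ := hzp.exists_le_sylow
  let z' : P := ⟨z, hP (Subgroup.mem_zpowers z)⟩
  have hz'c : z' ∈ Subgroup.center P :=
    Subgroup.mem_center_iff.2 fun y => Subtype.ext (hzc y.1)
  -- the transfer puts `z` into the commutator subgroup of `P`
  have hz'm : z' ∈ commutator P := by
    have h1 : MonoidHom.transfer (Abelianization.of (G := P)) z = 1 :=
      Abelianization.commutator_subset_ker _ (hσ.2.2 hz)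
    rw [MonoidHom.transfer_eq_pow (Abelianization.of (G := P)) z (fun j g _ => by
      have h : Commute g (z ^ j) := Commute.pow_right (hzc g) j
      rw [mul_assoc, ← h.eq, inv_mul_cancel_left])] at h1
    have h2 : z' ^ (P : Subgroup Γ).index ∈ commutator P := (QuotientGroup.eq_one_iff _).1 h1
    obtain ⟨j, hj⟩ := exists_pow_eq_self_of_coprime (x := z') (n := (P : Subgroup Γ).index) (by
      rw [show orderOf z' = p ^ k by rw [← Subgroup.orderOf_coe]; exact ho]
      exact Nat.Coprime.pow_right _ ((Nat.Prime.coprime_iff_not_dvd hp).2 P.not_dvd_index).symm)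
    rw [← hj]
    exact Subgroup.pow_mem _ h2 j
  -- an irreducible character faithful on `⟨z⟩`
  have ho' : orderOf z' = p ^ k := by rw [← Subgroup.orderOf_coe]; exact ho
  have hz0 : z' ^ p ^ (k - 1) ≠ 1 := by
    rw [ne_eq, ← orderOf_dvd_iff_pow_eq_one, ho', Nat.pow_dvd_pow_iff_le_right hp.one_lt]
    omega
  obtain ⟨χ, hχ⟩ := CfsgLib.Chars.exists_not_le_charKer (N := Subgroup.zpowers (z' ^ p ^ (k - 1)))
    (by rwa [ne_eq, Subgroup.zpowers_eq_bot])
  obtain ⟨n, ρ, hρ, hρχ⟩ := χ.2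
  have hχ1 : (χ : P → ℂ) 1 = n := by rw [← hρχ, Representation.char_one]; simp
  have hn : n ≠ 0 := fun h => CfsgLib.Chars.map_one_ne_zero χ (by rw [hχ1, h, Nat.cast_zero])
  have hscalar : ρ z' = (ρ.character z' / n) • 1 :=
    CfsgLib.Chars.rep_eq_smul_of_norm_character_eq ρ hn (by
      rw [hρχ, CfsgLib.Chars.norm_map_of_mem_center χ hz'c, hχ1, Complex.norm_natCast])
  let D : P →* ℂ := (LinearMap.det : ((Fin n → ℂ) →ₗ[ℂ] (Fin n → ℂ)) →* ℂ).comp ρ
  have hD : D z' = 1 := by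
    have h1 : D.toHomUnits z' = 1 := Abelianization.commutator_subset_ker D.toHomUnits hz'm
    exact congrArg Units.val h1
  have hcn : (ρ.character z' / n) ^ n = 1 := by
    have h1 : LinearMap.det (ρ z') = 1 := hD
    rw [hscalar, LinearMap.det_smul, map_one, mul_one, Module.finrank_fin_fun] at h1
    exact h1
  have hzn : z' ^ n ∈ CfsgLib.Chars.charKer (χ : P → ℂ) := by
    rw [← hρχ, CfsgLib.Chars.mem_charKer_iff_rep, map_pow, hscalar, smul_pow, hcn, one_pow, one_smul]
  have hdvd : p ^ k ∣ n := by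
    by_contra hnd
    apply hχ
    obtain ⟨i, hi, hg⟩ := (Nat.dvd_prime_pow hp).1 (Nat.gcd_dvd_left (p ^ k) n)
    have hik : i ≤ k - 1 := by
      by_contra h
      apply hnd
      rw [show k = i by omega]
      exact hg ▸ Nat.gcd_dvd_right (p ^ k) n
    obtain ⟨a, b, hab⟩ : ∃ a b : ℤ, ((p ^ i : ℕ) : ℤ) = (n : ℤ) * a + ((p ^ k : ℕ) : ℤ) * b := by
      refine ⟨Nat.gcdB (p ^ k) n, Nat.gcdA (p ^ k) n, ?_⟩
      rw [← hg, Nat.gcd_eq_gcd_ab, add_comm]
    have h2 : z' ^ p ^ i = (z' ^ n) ^ a := by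
      rw [← zpow_natCast z' (p ^ i), hab, zpow_add, zpow_mul, zpow_natCast, zpow_mul, zpow_natCast,
        ← ho', pow_orderOf_eq_one, one_zpow, mul_one]
    rw [Subgroup.zpowers_le, show p ^ (k - 1) = p ^ i * p ^ (k - 1 - i) by
      rw [← pow_add]; congr 1; omega, pow_mul, h2]
    exact Subgroup.pow_mem _ (Subgroup.zpow_mem _ hzn a) _
  have hdeg := CfsgLib.Chars.charDegree_sq_le_index_center χ
  have hdn : Cfsg.charDegree (χ : P → ℂ) = n := by
    have := CfsgLib.Chars.coe_charDegree χ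
    rw [hχ1] at this
    exact_mod_cast this
  rw [hdn] at hdeg
  let τ : P →* Q := σ.comp (P : Subgroup Γ).subtype
  have hle : τ.ker ≤ Subgroup.center P := fun y hy =>
    Subgroup.mem_center_iff.2 fun w => Subtype.ext (Subgroup.mem_center_iff.1 (hσ.2.1 hy) w.1)
  have hidx : (Subgroup.center P).index ≤ Nat.card τ.range :=
    (Nat.le_of_dvd (Nat.pos_of_ne_zero Subgroup.index_ne_zero_of_finite)
      (Subgroup.index_dvd_of_le hle)).trans (Subgroup.index_ker τ).le
  obtain ⟨b, hb⟩ := (P.isPGroup'.of_surjective τ.rangeRestrict τ.rangeRestrict_surjective).exists_card_eq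
  have h2k : p ^ (2 * k) ≤ p ^ b := by
    rw [← hb, Nat.mul_comm, pow_mul]
    exact (Nat.pow_le_pow_left (Nat.le_of_dvd (Nat.pos_of_ne_zero hn) hdvd) 2).trans (hdeg.trans hidx)
  refine ((Nat.pow_le_pow_iff_right hp.one_lt).1 h2k).trans ?_
  exact (hp.pow_dvd_iff_le_factorization Nat.card_pos.ne').1 (hb ▸ Subgroup.card_subgroup_dvd_card _)


/-- If `A` is the Schur multiplier of the finite group `Q`, then the square of the exponent of `A` divides the order of `Q`. -/
theorem result {Q : Type*} [Group Q] [Finite Q] {A : Type*} [CommGroup A] (hA : Cfsg.HasSchurMultiplier Q A) : Monoid.exponent A ^ 2 ∣ Nat.card Q := by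
  obtain ⟨⟨Γ, _, _, σ, hσ, ⟨e⟩⟩, -⟩ := hA
  rw [← Monoid.exponent_eq_of_mulEquiv e, ← Nat.factorization_le_iff_dvd
    (pow_ne_zero _ Monoid.exponent_ne_zero_of_finite) Nat.card_pos.ne']
  intro p
  by_cases hp : p.Prime
  swap
  · simp [Nat.factorization_eq_zero_of_not_prime _ hp]
  haveI := Fact.mk hp
  rw [Nat.factorization_pow, Finsupp.smul_apply, smul_eq_mul]
  set k := (Monoid.exponent σ.ker).factorization p
  rcases Nat.eq_zero_or_pos k with hk | hk
  · simp [hk]
  obtain ⟨z, hz⟩ := hp.exists_orderOf_eq_pow_factorization_exponent σ.ker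
  rw [← Subgroup.orderOf_coe] at hz
  exact sq_dvd_key hσ z.2 hk hz

end Cfsg.Agent.S3952
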