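import Cfsg.Statements.S3953
import Cfsg.Agent.SchurMult.Restriction

set_option autoImplicit false
open Cfsg

namespace Cfsg.Agent.S3953

/-- Let `P` be a Sylow `p`-subgroup of the finite group `G`, let `A` be the Schur multiplier of `G` and `B` that of `P`. Then the `p`-primary component of `A` is isomorphic to a direct factor of `B`: there are subgroups `C` and `D` of `B` meeting trivially and generating `B`, with `C` isomorphic to the `p`-primary component of `A`. -/
theorem result {G : Type*} [Group G] [Finite G] (p : ℕ) [Fact p.Prime] (P : Sylow p G) {A B : Type*} [CommGroup A] [CommGroup B] (hA : Cfsg.HasSchurMultiplier G A) (hB : Cfsg.HasSchurMultiplier P B) : ∃ C D : Subgroup B, C ⊓ D = ⊥ ∧ C ⊔ D = ⊤ ∧ Nonempty (CommGroup.primaryComponent A p ≃* C) := by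
  obtain ⟨eA⟩ := CfsgLib.SchurMult.nonempty_mulEquiv_mult hA
  obtain ⟨eB⟩ := CfsgLib.SchurMult.nonempty_mulEquiv_mult hB
  haveI : Finite A := CfsgLib.SchurMult.finite_of_hasSchurMultiplier hA
  obtain ⟨a, b, hab⟩ := CfsgLib.SchurMult.exists_res_cores (P : Subgroup G)
  let f : A →* B := eB.symm.toMonoidHom.comp (a.comp eA.toMonoidHom)
  let g : B →* A := eA.symm.toMonoidHom.comp (b.comp eB.toMonoidHom)
  set m := (P : Subgroup G).index with hm
  have hgf : ∀ x, g (f x) = x ^ m := fun x => by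
    show eA.symm (b (eB (eB.symm (a (eA x))))) = _
    rw [MulEquiv.apply_symm_apply, hab, ← map_pow, MulEquiv.symm_apply_apply]
  have hmp : ¬ p ∣ m := P.not_dvd_index
  obtain ⟨k, n, hn, hkn⟩ : ∃ k n : ℕ, ¬ p ∣ n ∧ Nat.card A = p ^ k * n :=
    Nat.exists_eq_pow_mul_and_not_dvd Nat.card_pos.ne' p (Fact.out : p.Prime).ne_one
  let C0 := CommGroup.primaryComponent A p
  let h : B →* C0 := ((powMonoidHom n).comp g).codRestrict C0 (fun y => by
    refine CommGroup.mem_primaryComponent.2 ⟨k, ?_⟩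
    show ((g y) ^ n) ^ p ^ k = 1
    rw [← pow_mul, Nat.mul_comm, ← hkn, pow_card_eq_one'])
  let ι : C0 →* B := f.comp C0.subtype
  have hco : ∀ x : C0, (orderOf x).Coprime (m * n) := fun x => by
    obtain ⟨l, hl⟩ := CommGroup.mem_primaryComponent.1 x.2
    have : orderOf x ∣ p ^ l := orderOf_dvd_of_pow_eq_one (Subtype.ext (by simpa using hl))
    exact Nat.Coprime.coprime_dvd_left this (Nat.Coprime.pow_left _
      ((Nat.Prime.coprime_iff_not_dvd Fact.out).2 fun hd =>
        (((Fact.out : p.Prime).dvd_mul).1 hd).elim hmp hn))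
  have hhι : ∀ x : C0, h (ι x) = x ^ (m * n) := fun x => Subtype.ext (by
    show (g (f (x : A))) ^ n = _
    rw [hgf, ← pow_mul]; rfl)
  have hinj : Function.Injective (fun x : C0 => x ^ (m * n)) := by
    intro x y hxy
    have h1 : (x * y⁻¹) ^ (m * n) = 1 := by
      rw [mul_pow, inv_pow]; exact mul_inv_eq_one.2 hxy
    have h2 : orderOf (x * y⁻¹) = 1 :=
      Nat.eq_one_of_dvd_coprimes (hco _) dvd_rfl (orderOf_dvd_of_pow_eq_one h1)
    exact mul_inv_eq_one.1 (orderOf_eq_one_iff.1 h2)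
  have hsurj := Finite.surjective_of_injective hinj
  have hιinj : Function.Injective ι := fun x y hxy => hinj (by
    show x ^ (m * n) = y ^ (m * n)
    rw [← hhι, ← hhι, hxy])
  refine ⟨ι.range, h.ker, ?_, ?_, ⟨MonoidHom.ofInjective hιinj⟩⟩
  · rw [eq_bot_iff]
    rintro _ ⟨⟨x, rfl⟩, hx⟩
    have : x = 1 := hinj (by
      show x ^ (m * n) = 1 ^ (m * n)
      rw [← hhι, MonoidHom.mem_ker.1 hx, one_pow])
    simp [this]
  · rw [eq_top_iff]
    intro y _
    obtain ⟨x, hx⟩ := hsurj (h y)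
    have hy : (ι x)⁻¹ * y ∈ h.ker := by
      simp only [MonoidHom.mem_ker, map_mul, map_inv, hhι]
      rw [show x ^ (m * n) = h y from hx, inv_mul_cancel]
    have := Subgroup.mul_mem_sup (MonoidHom.mem_range.2 ⟨x, rfl⟩ : ι x ∈ ι.range) hy
    simpa using this

end Cfsg.Agent.S3953
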