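import Cfsg.Statements.S3954
import Cfsg.Agent.SchurMult.Restriction

set_option autoImplicit false
open Cfsg

namespace Cfsg.Agent.S3954

/-- Let `U` be a subgroup of index `m` in the finite group `G`, let `A` be the Schur multiplier of `G` and `B` that of `U`. Then the subgroup of `m`-th powers of `A` is isomorphic to a subgroup of `B`. -/
theorem result {G : Type*} [Group G] [Finite G] (U : Subgroup G) {A B : Type*} [CommGroup A] [CommGroup B] (hA : Cfsg.HasSchurMultiplier G A) (hB : Cfsg.HasSchurMultiplier U B) : ∃ C : Subgroup B, Nonempty ((powMonoidHom U.index : A →* A).range ≃* C) := by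
  obtain ⟨eA⟩ := CfsgLib.SchurMult.nonempty_mulEquiv_mult hA
  obtain ⟨eB⟩ := CfsgLib.SchurMult.nonempty_mulEquiv_mult hB
  haveI : Finite B := CfsgLib.SchurMult.finite_of_hasSchurMultiplier hB
  obtain ⟨a, b, hab⟩ := CfsgLib.SchurMult.exists_res_cores U
  let f : A →* B := eB.symm.toMonoidHom.comp (a.comp eA.toMonoidHom)
  let g : B →* A := eA.symm.toMonoidHom.comp (b.comp eB.toMonoidHom)
  have hgf : ∀ x, g (f x) = x ^ U.index := fun x => by
    show eA.symm (b (eB (eB.symm (a (eA x))))) = _
    rw [MulEquiv.apply_symm_apply, hab, ← map_pow, MulEquiv.symm_apply_apply]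
  let π : f.range →* (powMonoidHom U.index : A →* A).range :=
    (g.comp f.range.subtype).codRestrict _ (fun y => by
      obtain ⟨x, hx⟩ := y.2
      exact ⟨x, by rw [powMonoidHom_apply, ← hgf, hx]; rfl⟩)
  have hπ : Function.Surjective π := by
    rintro ⟨_, ⟨x, rfl⟩⟩
    exact ⟨⟨f x, x, rfl⟩, Subtype.ext (hgf x)⟩
  obtain ⟨j, hj⟩ := CfsgLib.SchurMult.exists_injective_of_surjective hπ
  exact ⟨(f.range.subtype.comp j).range,
    ⟨MonoidHom.ofInjective (f.range.subtype_injective.comp hj)⟩⟩

end Cfsg.Agent.S3954
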