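import Cfsg.Statements.S3960
import Cfsg.Agent.SchurMult.Perfect

set_option autoImplicit false
universe u
open Cfsg

namespace Cfsg.Agent.S3960

/-- A finite perfect group `Q` has a universal central extension: a finite perfect group `G` in the universe of `Q` and a surjective homomorphism `π : G →* Q` with central kernel such that for every group `X` in that universe and every surjective homomorphism `ξ : X →* Q` with central kernel there is exactly one homomorphism `η : G →* X` with `ξ ∘ η = π`. -/
theorem result {Q : Type u} [Group Q] [Finite Q] (hQ : Group.IsPerfect Q) : ∃ (G : Type u) (_ : Group G) (_ : Finite G) (π : G →* Q), Group.IsPerfect G ∧ Function.Surjective π ∧ π.ker ≤ Subgroup.center G ∧ ∀ (X : Type u) [Group X] (ξ : X →* Q), Function.Surjective ξ → ξ.ker ≤ Subgroup.center X → ∃! η : G →* X, ξ.comp η = π := by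
  let f := CfsgLib.SchurMult.tautPres Q
  have hf := CfsgLib.SchurMult.tautPres_surjective Q
  let pr : CfsgLib.SchurMult.FreeCentral f →* Q := CfsgLib.SchurMult.proj f
  have hc : pr.ker ≤ Subgroup.center _ := CfsgLib.SchurMult.proj_ker_le_center f
  let G := commutator (CfsgLib.SchurMult.FreeCentral f)
  haveI : Finite G := CfsgLib.SchurMult.finite_commutator_of_central pr hc
  let π : G →* Q := pr.comp G.subtype
  have hpr : ∀ q : Q, ∃ y ∈ G, pr y = q := by
    intro q
    have h : (commutator (CfsgLib.SchurMult.FreeCentral f)).map pr = commutator Q :=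
      CfsgLib.SchurMult.map_commutator_eq pr (fun d => by
        obtain ⟨e, he⟩ := CfsgLib.SchurMult.proj_surjective f hf d
        exact ⟨e, by simp [pr, he]⟩)
    have : q ∈ G.map pr := by rw [h, hQ.commutator_eq_top]; exact Subgroup.mem_top q
    exact this
  have hπ : Function.Surjective π := fun q => by
    obtain ⟨y, hy, rfl⟩ := hpr q
    exact ⟨⟨y, hy⟩, rfl⟩
  have hperf : commutator G = ⊤ := by
    have h : (commutator G).map G.subtype = commutator (CfsgLib.SchurMult.FreeCentral f) :=
      CfsgLib.SchurMult.map_commutator_eq G.subtype (fun d => by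
        obtain ⟨y, hy, hyd⟩ := hpr (pr d)
        exact ⟨⟨y, hy⟩, hc (by simp [MonoidHom.mem_ker, hyd])⟩)
    exact Subgroup.map_injective G.subtype_injective (h.trans (by simp [← MonoidHom.range_eq_map, G]))
  refine ⟨G, inferInstance, inferInstance, π, ⟨hperf⟩, hπ, ?_, ?_⟩
  · intro x hx
    rw [Subgroup.mem_center_iff]
    intro y
    exact Subtype.ext (Subgroup.mem_center_iff.1 (hc (show pr x.1 = 1 from hx)) y.1)
  · intro X _ ξ hξ hξc
    obtain ⟨φ, hφ⟩ := CfsgLib.SchurMult.exists_lift f hξ hξc (MonoidHom.id Q)
    rw [MonoidHom.id_comp] at hφ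
    refine ⟨φ.comp G.subtype, MonoidHom.ext fun x => DFunLike.congr_fun hφ x.1, fun η hη => ?_⟩
    exact CfsgLib.SchurMult.hom_eq_of_perfect ⟨hperf⟩ hξc
      (hη.trans (MonoidHom.ext fun x => (DFunLike.congr_fun hφ x.1).symm))

end Cfsg.Agent.S3960
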