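import Cfsg.Statements.S3961
import Cfsg.Agent.SchurMult.Perfect

set_option autoImplicit false
universe u v
open Cfsg

namespace Cfsg.Agent.S3961

/-- Let `π : G →* Q` be a surjective homomorphism with central kernel from a finite perfect group `G` (a perfect cover of `Q`). Then `π` is universal, in the sense that every surjective homomorphism `ξ : X →* Q` with central kernel from a group `X` in the universe of `G` admits a homomorphism `η : G →* X` with `ξ ∘ η = π`, if and only if `G` has trivial Schur multiplier. -/
theorem result {G : Type u} {Q : Type v} [Group G] [Group Q] [Finite G] (hG : Group.IsPerfect G) (π : G →* Q) (hπ : Function.Surjective π) (hker : π.ker ≤ Subgroup.center G) : (∀ (X : Type u) [Group X] (ξ : X →* Q), Function.Surjective ξ → ξ.ker ≤ Subgroup.center X → ∃ η : G →* X, ξ.comp η = π) ↔ Cfsg.HasCyclicSchurMultiplier G 1 := by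
  constructor
  · intro huniv
    rw [CfsgLib.SchurMult.hasCyclicSchurMultiplier_one_iff]
    intro Δ _ _ τ hτ
    have hΔ := CfsgLib.SchurMult.isPerfect_of_stem hG hτ
    have hc : (π.comp τ).ker ≤ Subgroup.center Δ :=
      CfsgLib.SchurMult.comp_ker_le_center hΔ hτ.1 hτ.2.1 hker
    obtain ⟨η, hη⟩ := huniv Δ (π.comp τ) (hπ.comp hτ.1) hc
    have hid : τ.comp η = MonoidHom.id G :=
      CfsgLib.SchurMult.hom_eq_of_perfect hG hker (by rw [MonoidHom.comp_id, ← MonoidHom.comp_assoc]; exact hη)
    have hsurj : Function.Surjective η := by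
      have h := CfsgLib.SchurMult.map_commutator_eq η (fun d => ⟨τ d, hτ.2.1 (by
        have := DFunLike.congr_fun hid (τ d)
        simp only [MonoidHom.comp_apply, MonoidHom.id_apply] at this
        simp [MonoidHom.mem_ker, this])⟩)
      rw [hΔ.commutator_eq_top] at h
      intro d
      obtain ⟨g, -, hg⟩ : d ∈ (commutator G).map η := by rw [h]; exact Subgroup.mem_top d
      exact ⟨g, hg⟩
    rw [eq_bot_iff]
    intro x hx
    obtain ⟨g, rfl⟩ := hsurj x
    have := DFunLike.congr_fun hid g
    simp only [MonoidHom.comp_apply, MonoidHom.id_apply] at this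
    rw [MonoidHom.mem_ker, this] at hx
    simp [hx]
  · intro h X _ ξ hξ hξc
    let q := CfsgLib.SchurMult.fibreFst π ξ
    have hqs : Function.Surjective q := CfsgLib.SchurMult.fibreFst_surjective hξ
    have hqc := CfsgLib.SchurMult.fibreFst_ker_le_center (σ := π) hξc
    have hbot := CfsgLib.SchurMult.ker_inf_commutator_eq_bot h hqs hqc
    let D := commutator (CfsgLib.SchurMult.fibreProd π ξ)
    have hmap : D.map q = ⊤ := by
      rw [CfsgLib.SchurMult.map_commutator_eq q (fun d => by
        obtain ⟨e, he⟩ := hqs d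
        exact ⟨e, by simp [he]⟩)]
      exact hG.commutator_eq_top
    have hinj : Function.Injective (q.comp D.subtype) := by
      rw [injective_iff_map_eq_one]
      intro x hx
      have : (x : CfsgLib.SchurMult.fibreProd π ξ) ∈ q.ker ⊓ D := ⟨hx, x.2⟩
      rw [hbot, Subgroup.mem_bot] at this
      exact Subtype.ext this
    have hsurj : Function.Surjective (q.comp D.subtype) := fun g => by
      obtain ⟨y, hy, hyg⟩ : g ∈ D.map q := by rw [hmap]; exact Subgroup.mem_top g
      exact ⟨⟨y, hy⟩, hyg⟩
    let e := MulEquiv.ofBijective (q.comp D.subtype) ⟨hinj, hsurj⟩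
    refine ⟨((CfsgLib.SchurMult.fibreSnd π ξ).comp D.subtype).comp e.symm.toMonoidHom, ?_⟩
    ext g
    show ξ ((e.symm g).1.1).2 = π g
    rw [← (e.symm g).1.2]
    exact congrArg π (e.apply_symm_apply g)

end Cfsg.Agent.S3961
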