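import Cfsg.Statements.S3962
import Mathlib

set_option autoImplicit false
open Cfsg
open scoped commutatorElement

namespace Cfsg.Agent.S3962

/-- Let `G` be a perfect group and `π : G →* Q` a surjective homomorphism whose kernel is central. Then `π` maps the centre of `G` onto the centre of `Q`. Taking `π` to be the map to `G ⧸ Z(G)` shows that the central quotient of a perfect group has trivial centre. -/
theorem result {G Q : Type*} [Group G] [Group Q] (hG : Group.IsPerfect G) (π : G →* Q) (hπ : Function.Surjective π) (hker : π.ker ≤ Subgroup.center G) : (Subgroup.center G).map π = Subgroup.center Q := by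
  apply le_antisymm
  · rintro _ ⟨z, hz, rfl⟩
    rw [Subgroup.mem_center_iff]
    intro q
    obtain ⟨g, rfl⟩ := hπ q
    rw [← map_mul, ← map_mul, Subgroup.mem_center_iff.1 hz g]
  · intro q hq
    obtain ⟨x, rfl⟩ := hπ q
    refine ⟨x, ?_, rfl⟩
    have hc : ∀ g : G, x * g * x⁻¹ * g⁻¹ ∈ Subgroup.center G := fun g => hker (by
      have h1 := Subgroup.mem_center_iff.1 hq (π g)
      rw [MonoidHom.mem_ker, map_mul, map_mul, map_mul, map_inv, map_inv, ← h1]
      group)
    let f : G →* Subgroup.center G :=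
      { toFun := fun g => ⟨x * g * x⁻¹ * g⁻¹, hc g⟩
        map_one' := Subtype.ext (by simp)
        map_mul' := fun g h => Subtype.ext (by
          show x * (g * h) * x⁻¹ * (g * h)⁻¹ = x * g * x⁻¹ * g⁻¹ * (x * h * x⁻¹ * h⁻¹)
          have h2 := Subgroup.mem_center_iff.1 (hc h) (x * g * x⁻¹ * g⁻¹ * g)
          have h3 := Subgroup.mem_center_iff.1 (hc h) g
          calc x * (g * h) * x⁻¹ * (g * h)⁻¹
              = x * g * x⁻¹ * (x * h * x⁻¹ * h⁻¹) * g⁻¹ := by group
            _ = x * g * x⁻¹ * g⁻¹ * (g * (x * h * x⁻¹ * h⁻¹)) * g⁻¹ := by group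
            _ = x * g * x⁻¹ * g⁻¹ * ((x * h * x⁻¹ * h⁻¹) * g) * g⁻¹ := by rw [h3]
            _ = x * g * x⁻¹ * g⁻¹ * (x * h * x⁻¹ * h⁻¹) := by group) }
    have hle : commutator G ≤ f.ker := by
      rw [commutator_eq_closure, Subgroup.closure_le]
      rintro _ ⟨a, b, rfl⟩
      rw [SetLike.mem_coe, MonoidHom.mem_ker, map_commutatorElement, commutatorElement_eq_one_iff_mul_comm]
      exact Subtype.ext (Subgroup.mem_center_iff.1 (f b).2 (f a : G))
    rw [SetLike.mem_coe, Subgroup.mem_center_iff]
    intro g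
    have hg : f g = 1 := MonoidHom.mem_ker.1 (hle (by
      rw [hG.commutator_eq_top]; exact Subgroup.mem_top g))
    have := congrArg Subtype.val hg
    simp only [f, MonoidHom.coe_mk, OneHom.coe_mk, OneMemClass.coe_one] at this
    exact (commutatorElement_eq_one_iff_mul_comm.1 this).symm

end Cfsg.Agent.S3962
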