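import Cfsg.Statements.S3963
import Cfsg.Agent.SchurMult.TwoGen

set_option autoImplicit false
open Cfsg

namespace Cfsg.Agent.S3963

theorem closure_gens (n : ℕ) [NeZero n] :
    Subgroup.closure ({QuaternionGroup.a 1, QuaternionGroup.xa 0} : Set (QuaternionGroup n)) = ⊤ := by
  rw [eq_top_iff]
  have hA : ∀ i : ZMod (2 * n), QuaternionGroup.a i ∈
      Subgroup.closure ({QuaternionGroup.a 1, QuaternionGroup.xa 0} : Set (QuaternionGroup n)) := by
    intro i
    rw [← ZMod.natCast_zmod_val i, ← QuaternionGroup.a_one_pow]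
    exact Subgroup.pow_mem _ (Subgroup.subset_closure (Set.mem_insert _ _)) _
  rintro (i | i) -
  · exact hA i
  · have : QuaternionGroup.xa i = QuaternionGroup.xa 0 * QuaternionGroup.a i := by simp
    rw [this]
    exact Subgroup.mul_mem _ (Subgroup.subset_closure (Set.mem_insert_of_mem _ (Set.mem_singleton _))) (hA i)


/-- For every `n ≥ 1` the dicyclic (generalized quaternion) group of order `4 n` has trivial Schur multiplier. -/
theorem result (n : ℕ) [NeZero n] : Cfsg.HasCyclicSchurMultiplier (QuaternionGroup n) 1 := by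
  haveI : Fintype (QuaternionGroup n) := inferInstance
  rw [CfsgLib.SchurMult.hasCyclicSchurMultiplier_one_iff]
  intro Γ _ _ σ hσ
  obtain ⟨a, ha⟩ := hσ.1 (QuaternionGroup.a 1)
  obtain ⟨b, hb⟩ := hσ.1 (QuaternionGroup.xa 0)
  have hgen : Subgroup.closure ({σ a, σ b} : Set (QuaternionGroup n)) = ⊤ := by
    rw [ha, hb]
    exact closure_gens n
  have hn : b * a ^ n = a ^ n * b := by
    have hz : (b * b)⁻¹ * a ^ n ∈ Subgroup.center Γ := hσ.2.1 (by
      rw [MonoidHom.mem_ker, map_mul, map_inv, map_mul, map_pow, ha, hb, QuaternionGroup.a_one_pow,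
        QuaternionGroup.xa_mul_xa]
      simp)
    have h1 := Subgroup.mem_center_iff.1 hz b
    calc b * a ^ n = (b * b) * (b * ((b * b)⁻¹ * a ^ n)) := by group
      _ = (b * b) * (((b * b)⁻¹ * a ^ n) * b) := by rw [h1]
      _ = a ^ n * b := by group
  obtain ⟨c, hcn, hle, hσc⟩ := CfsgLib.SchurMult.invert_central_bound hσ hgen (by
    rw [ha, hb]; rw [show (QuaternionGroup.xa (0 : ZMod (2 * n)))⁻¹ = QuaternionGroup.xa ((n : ZMod (2 * n)) + 0) from rfl,
      show (QuaternionGroup.a (1 : ZMod (2 * n)))⁻¹ = QuaternionGroup.a (-1) from rfl]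
    simp [two_mul]
    try
      have h2n : ((2 * n : ℕ) : ZMod (2 * n)) = 0 := ZMod.natCast_self _
      push_cast at h2n
      linear_combination h2n) hn
  rw [eq_bot_iff]
  intro x hx
  obtain ⟨k, rfl⟩ := (Subgroup.zpowers c).mem_carrier.1 (hle hx)
  rw [MonoidHom.mem_ker] at hx
  simp only [map_zpow, hσc, ha] at hx
  rw [← mul_inv_rev, ← pow_two, inv_zpow, inv_eq_one, ← zpow_natCast, ← zpow_mul,
    ← orderOf_dvd_iff_zpow_eq_one, QuaternionGroup.orderOf_a_one] at hx
  rw [Subgroup.mem_bot]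
  obtain ⟨j, hj⟩ := hx
  have : k = (n : ℤ) * j := by push_cast at hj; linarith
  show c ^ k = 1
  rw [this, zpow_mul, zpow_natCast, hcn, one_zpow]

end Cfsg.Agent.S3963
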