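import Cfsg.Statements.S3964
import Cfsg.Agent.SchurMult.Dihedral

set_option autoImplicit false
open Cfsg

namespace Cfsg.Agent.S3964

/-- For odd `n` the dihedral group of order `2 n` has trivial Schur multiplier. -/
theorem result (n : ℕ) (hn : Odd n) : Cfsg.HasCyclicSchurMultiplier (DihedralGroup n) 1 := by
  haveI : NeZero n := ⟨by rintro rfl; simp at hn⟩
  rw [CfsgLib.SchurMult.hasCyclicSchurMultiplier_one_iff]
  intro Γ _ _ σ hσ
  obtain ⟨c, hcn, hle, hk⟩ := CfsgLib.SchurMult.dihedral_stem_bound n hσ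
  rw [eq_bot_iff]
  intro x hx
  obtain ⟨k, rfl⟩ := (Subgroup.zpowers c).mem_carrier.1 (hle hx)
  have h2 : (n : ℤ) ∣ 2 * k := hk k hx
  obtain ⟨j, hj⟩ : (n : ℤ) ∣ k := Int.dvd_of_dvd_mul_right_of_gcd_one h2 (by
    show Nat.gcd (Int.natAbs n) 2 = 1
    rw [Int.natAbs_natCast]
    exact Nat.coprime_two_right.2 hn)
  rw [Subgroup.mem_bot]
  show c ^ k = 1
  rw [hj, zpow_mul, zpow_natCast, hcn, one_zpow]

end Cfsg.Agent.S3964
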