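import Cfsg.Statements.S3965
import Cfsg.Agent.SchurMult.Dihedral
import Cfsg.Agent.S3966

set_option autoImplicit false
open Cfsg

namespace Cfsg.Agent.S3965

/-- For even `n ≥ 2` the dihedral group of order `2 n` has Schur multiplier cyclic of order `2`. -/
theorem result (n : ℕ) [NeZero n] (hn : Even n) : Cfsg.HasCyclicSchurMultiplier (DihedralGroup n) 2 := by
  obtain ⟨σ, hσ, hcard⟩ := Cfsg.Agent.S3966.result n hn
  haveI : IsCyclic σ.ker := isCyclic_of_prime_card (p := 2) hcard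
  let e : σ.ker ≃* Multiplicative (ZMod 2) := mulEquivOfCyclicCardEq (by rw [hcard, Nat.card_congr Multiplicative.toAdd, Nat.card_zmod])
  refine CfsgLib.SchurMult.hasSchurMultiplier_of_stem_of_bound hσ e (fun Δ _ _ τ hτ => ?_)
  rw [hcard]
  obtain ⟨c, hcn, hle, hk⟩ := CfsgLib.SchurMult.dihedral_stem_bound n hτ
  obtain ⟨m, hm⟩ := hn
  have hle' : τ.ker ≤ Subgroup.zpowers (c ^ m) := by
    intro x hx
    obtain ⟨k, rfl⟩ := (Subgroup.zpowers c).mem_carrier.1 (hle hx)
    obtain ⟨j, hj⟩ := hk k hx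
    refine ⟨j, ?_⟩
    show (c ^ m) ^ j = c ^ k
    rw [← zpow_natCast, ← zpow_mul]
    congr 1
    subst hm
    push_cast at hj
    linarith
  refine (Subgroup.card_le_of_le hle').trans ?_
  rw [Nat.card_zpowers]
  refine Nat.le_of_dvd two_pos (orderOf_dvd_of_pow_eq_one ?_)
  rw [← pow_mul, ← hcn, hm, mul_two]

end Cfsg.Agent.S3965
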