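import Cfsg.Statements.S3967
import Cfsg.Agent.MetacyclicMult.Cover
import Cfsg.Agent.MetacyclicMult.Bound
import Mathlib.GroupTheory.PresentedGroup
import Mathlib.GroupTheory.QuotientGroup.Basic
import Mathlib.Data.ZMod.QuotientGroup

set_option autoImplicit false
open Cfsg
open scoped commutatorElement

namespace Cfsg.Agent.S3967
open CfsgLib.MetacyclicMult

/-- The relators of the metacyclic presentation. -/
def relators (m n r t : ℕ) : Set (FreeGroup Bool) :=
  {FreeGroup.of true ^ m, (FreeGroup.of false) ^ n * (FreeGroup.of true ^ t)⁻¹,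
    FreeGroup.of false * FreeGroup.of true * (FreeGroup.of false)⁻¹ * (FreeGroup.of true ^ r)⁻¹}

theorem mk_of_mem {m n r t : ℕ} {x : FreeGroup Bool} (hx : x ∈ relators m n r t) :
    PresentedGroup.mk (relators m n r t) x = 1 :=
  PresentedGroup.one_of_mem hx

theorem rel_pow (m n r t : ℕ) : (PresentedGroup.of (rels := relators m n r t) true) ^ m = 1 := by
  have := mk_of_mem (m := m) (n := n) (r := r) (t := t) (x := FreeGroup.of true ^ m) (Or.inl rfl)
  rw [map_pow] at this
  exact this

theorem rel_twist (m n r t : ℕ) : (PresentedGroup.of (rels := relators m n r t) false) ^ n =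
    (PresentedGroup.of (rels := relators m n r t) true) ^ t := by
  have := mk_of_mem (m := m) (n := n) (r := r) (t := t)
    (x := (FreeGroup.of false) ^ n * (FreeGroup.of true ^ t)⁻¹) (Or.inr (Or.inl rfl))
  rw [map_mul, map_inv, map_pow, map_pow, mul_inv_eq_one] at this
  exact this

theorem rel_conj (m n r t : ℕ) :
    PresentedGroup.of (rels := relators m n r t) false * PresentedGroup.of true *
      (PresentedGroup.of (rels := relators m n r t) false)⁻¹ =
    (PresentedGroup.of (rels := relators m n r t) true) ^ r := by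
  have := mk_of_mem (m := m) (n := n) (r := r) (t := t)
    (x := FreeGroup.of false * FreeGroup.of true * (FreeGroup.of false)⁻¹ * (FreeGroup.of true ^ r)⁻¹)
    (Or.inr (Or.inr rfl))
  rw [map_mul, map_mul, map_mul, map_inv, map_inv, map_pow, mul_inv_eq_one] at this
  exact this

variable (D : Data)

/-- Pairs into the extension. -/
noncomputable def pairHom : Multiplicative (ℤ × ZMod D.g) →* Ext D where
  toFun p := inA D p.toAdd.1 p.toAdd.2
  map_one' := inA_zero D
  map_mul' p q := (inA_mul D _ _ _ _).symm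

theorem pairHom_apply (i : ℤ) (c : ZMod D.g) : pairHom D (Multiplicative.ofAdd (i, c)) = inA D i c := rfl

/-- The central kernel. -/
noncomputable def zHom : Multiplicative (ZMod D.g) →* Ext D :=
  (pairHom D).comp (AddMonoidHom.toMultiplicative (AddMonoidHom.inr ℤ (ZMod D.g)))

theorem zHom_apply (c : ZMod D.g) : zHom D (Multiplicative.ofAdd c) = inA D 0 c := rfl

theorem zHom_injective : Function.Injective (zHom D) := by
  rw [injective_iff_map_eq_one]
  intro c hc
  rw [← ofAdd_toAdd c, zHom_apply] at hc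
  have h := inA_inj_zero D hc
  rw [← cls_zero, cls_eq_iff] at h
  obtain ⟨k, hk, hk'⟩ := h
  have hk0 : k = 0 := by
    have hmne : D.m ≠ 0 := D.hm.ne'
    simpa [hmne] using hk.symm
  simp [hk0] at hk'
  exact Multiplicative.toAdd.injective hk'

theorem zHom_range_le_center : (zHom D).range ≤ Subgroup.center (Ext D) := by
  rintro _ ⟨c, rfl⟩
  rw [← ofAdd_toAdd c, zHom_apply, Subgroup.mem_center_iff]
  intro u
  obtain ⟨i, c', j, rfl⟩ := exists_rep D u
  have hb : Commute (genB D) (inA D 0 c.toAdd) := by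
    have := genB_conj D 0 c.toAdd
    simp at this
    exact mul_inv_eq_iff_eq_mul.1 this
  have ha : Commute (inA D i c') (inA D 0 c.toAdd) := by
    show _ * _ = _ * _
    rw [inA_mul, inA_mul, add_comm i, add_comm c']
  exact (ha.mul_left (hb.zpow_left j)).eq

instance zHom_range_normal : (zHom D).range.Normal := by
  refine ⟨fun u hu g => ?_⟩
  rw [Subgroup.mem_center_iff.1 (zHom_range_le_center D hu) g, mul_inv_cancel_right]
  exact hu

theorem inA_eq_mod (i : ℤ) (c : ZMod D.g) :
    (QuotientGroup.mk (inA D i c) : Ext D ⧸ (zHom D).range) = QuotientGroup.mk (inA D i 0) := by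
  rw [QuotientGroup.eq]
  refine ⟨Multiplicative.ofAdd (-c), ?_⟩
  rw [zHom_apply, eq_inv_mul_iff_mul_eq, inA_mul, add_zero, add_neg_cancel]

theorem inA_zpow (i : ℤ) : inA D i 0 = inA D 1 0 ^ i := by
  rw [← pairHom_apply, ← pairHom_apply, ← map_zpow, ← ofAdd_zsmul, Prod.smul_mk]
  simp

/-- The map from the presented group to the extension modulo its kernel. -/
noncomputable def toExt : PresentedGroup (relators D.m D.n D.r D.t) →* Ext D ⧸ (zHom D).range :=
  PresentedGroup.toGroup (f := fun b => if b then QuotientGroup.mk (inA D 1 0) else QuotientGroup.mk (genB D)) <| by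
    rintro _ (rfl | rfl | rfl)
    · simp only [map_pow, FreeGroup.lift_apply_of, if_true]
      rw [← QuotientGroup.mk_pow, inA_natPow, QuotientGroup.eq_one_iff]
      refine ⟨Multiplicative.ofAdd D.y, ?_⟩
      rw [zHom_apply, inA, inA]
      congr 3
      rw [cls_eq_iff]
      exact ⟨1, by simp, by simp⟩
    · simp only [map_mul, map_inv, map_pow, FreeGroup.lift_apply_of, if_true, Bool.false_eq_true, if_false]
      rw [← QuotientGroup.mk_pow, ← QuotientGroup.mk_pow, genB_pow, inA_natPow, mul_inv_cancel]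
    · simp only [map_mul, map_inv, map_pow, FreeGroup.lift_apply_of, if_true, Bool.false_eq_true, if_false]
      rw [← QuotientGroup.mk_pow, ← QuotientGroup.mk_inv, ← QuotientGroup.mk_mul, ← QuotientGroup.mk_mul,
        genB_conj, inA_natPow, mul_one, inA_eq_mod, mul_inv_cancel]

theorem toExt_true : toExt D (PresentedGroup.of true) = QuotientGroup.mk (inA D 1 0) := by
  simp [toExt]

theorem toExt_false : toExt D (PresentedGroup.of false) = QuotientGroup.mk (genB D) := by
  simp [toExt]

/-- The homomorphism on the abelian normal subgroup. -/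
noncomputable def abHom : Multiplicative (Ab D) →* PresentedGroup (relators D.m D.n D.r D.t) :=
  AddMonoidHom.toMultiplicativeLeft <| QuotientAddGroup.lift (rel D)
    ((zmultiplesHom _ (Additive.ofMul (PresentedGroup.of true))).comp (AddMonoidHom.fst ℤ (ZMod D.g))) (by
      rw [rel, AddSubgroup.zmultiples_le, AddMonoidHom.mem_ker]
      simp only [AddMonoidHom.coe_comp, Function.comp_apply, AddMonoidHom.coe_fst, zmultiplesHom_apply,
        natCast_zsmul, ← ofMul_pow, rel_pow, ofMul_one])

theorem abHom_apply (i : ℤ) (c : ZMod D.g) :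
    abHom D (Multiplicative.ofAdd (cls D i c)) = PresentedGroup.of true ^ i := rfl

theorem abHom_twAut (w : Multiplicative (Ab D)) :
    abHom D (twAut D w) = PresentedGroup.of false * abHom D w * (PresentedGroup.of false)⁻¹ := by
  obtain ⟨i, c, h⟩ := cls_surj D w.toAdd
  have hw : w = Multiplicative.ofAdd (cls D i c) := by rw [h, ofAdd_toAdd]
  rw [hw, twAut_apply, toAdd_ofAdd, tw_cls, abHom_apply, abHom_apply, ← conj_zpow, rel_conj, ← zpow_natCast,
    ← zpow_mul]

theorem abHom_twAut_zpow (k : ℤ) : ∀ w : Multiplicative (Ab D),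
    abHom D ((twAut D ^ k) w) =
      PresentedGroup.of false ^ k * abHom D w * (PresentedGroup.of false ^ k)⁻¹ := by
  induction k with
  | zero => intro w; simp
  | succ k ih =>
    intro w
    rw [zpow_add, zpow_one, MulAut.mul_apply, ih, abHom_twAut, zpow_add, zpow_one]
    group
  | pred k ih =>
    intro w
    have h := abHom_twAut D ((twAut D)⁻¹ w)
    rw [MulAut.apply_inv_self] at h
    rw [zpow_sub, zpow_one, MulAut.mul_apply, ih, zpow_sub, zpow_one, h]
    group

/-- The homomorphism from the semidirect product. -/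
noncomputable def semiHom : Semi D →* PresentedGroup (relators D.m D.n D.r D.t) :=
  SemidirectProduct.lift (abHom D) (zpowersHom _ (PresentedGroup.of false)) fun g => MonoidHom.ext fun w => by
    simp only [MonoidHom.coe_comp, MulEquiv.coe_toMonoidHom, Function.comp_apply, zpowersHom_apply,
      MulAut.conj_apply]
    exact abHom_twAut_zpow D _ w

/-- The covering map. -/
noncomputable def coverHom : Ext D →* PresentedGroup (relators D.m D.n D.r D.t) :=
  QuotientGroup.lift (relGrp D) (semiHom D) (by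
    rw [relGrp, Subgroup.zpowers_le, MonoidHom.mem_ker, relElt, map_mul, semiHom,
      SemidirectProduct.lift_inl, SemidirectProduct.lift_inr, abHom_apply, zpowersHom_apply, toAdd_ofAdd,
      zpow_natCast, rel_twist, zpow_neg, zpow_natCast, inv_mul_cancel])

theorem coverHom_inA (i : ℤ) (c : ZMod D.g) : coverHom D (inA D i c) = PresentedGroup.of true ^ i := by
  rw [coverHom, inA, QuotientGroup.lift_mk, semiHom, SemidirectProduct.lift_inl, abHom_apply]

theorem coverHom_genB : coverHom D (genB D) = PresentedGroup.of false := by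
  rw [coverHom, genB, QuotientGroup.lift_mk, semiHom, SemidirectProduct.lift_inr, zpowersHom_apply,
    toAdd_ofAdd, zpow_one]

theorem toExt_coverHom (u : Ext D) : toExt D (coverHom D u) = QuotientGroup.mk u := by
  obtain ⟨i, c, j, rfl⟩ := exists_rep D u
  rw [map_mul, coverHom_inA, map_zpow, coverHom_genB, map_mul, map_zpow, map_zpow, toExt_true, toExt_false,
    QuotientGroup.mk_mul, inA_eq_mod D i c, inA_zpow D i, QuotientGroup.mk_zpow, QuotientGroup.mk_zpow]

theorem coverHom_ker : (coverHom D).ker = (zHom D).range := by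
  ext u
  constructor
  · intro hu
    rw [← QuotientGroup.eq_one_iff, ← toExt_coverHom, MonoidHom.mem_ker.1 hu, map_one]
  · rintro ⟨c, rfl⟩
    rw [← ofAdd_toAdd c, zHom_apply, MonoidHom.mem_ker, coverHom_inA, zpow_zero]

theorem closure_pair (m n r t : ℕ) : Subgroup.closure ({PresentedGroup.of true, PresentedGroup.of false} :
    Set (PresentedGroup (relators m n r t))) = ⊤ := by
  rw [← PresentedGroup.closure_range_of (relators m n r t)]
  congr 1
  ext x
  simp [eq_comm, or_comm]

theorem coverHom_surjective : Function.Surjective (coverHom D) := by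
  rw [← MonoidHom.range_eq_top, eq_top_iff, ← closure_pair, Subgroup.closure_le]
  rintro _ (rfl | rfl)
  · exact ⟨inA D 1 0, by rw [coverHom_inA, zpow_one]⟩
  · exact ⟨genB D, coverHom_genB D⟩

theorem isStem (e f : ℕ) (hxy : (e : ZMod D.g) * D.x + (f : ZMod D.g) * D.y = 1)
    (hef : (e : ℤ) * ((D.r : ℤ) - 1) = f * D.m) : Cfsg.IsStemExtension (coverHom D) := by
  refine ⟨coverHom_surjective D, coverHom_ker D ▸ zHom_range_le_center D, ?_⟩
  have hone : inA D 0 1 ∈ commutator (Ext D) := by
    have hcomm : ⁅genB D, inA D 1 0⁆ = inA D ((D.r : ℤ) - 1) D.x := by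
      rw [commutatorElement_def, genB_conj, mul_inv_eq_iff_eq_mul, inA_mul]
      simp
    have hpow : inA D 0 1 = inA D ((D.r : ℤ) - 1) D.x ^ e := by
      rw [← pairHom_apply D ((D.r : ℤ) - 1), ← map_pow, ← ofAdd_nsmul, Prod.smul_mk, pairHom_apply,
        nsmul_eq_mul, nsmul_eq_mul, hef, inA, inA]
      congr 3
      rw [cls_eq_iff]
      exact ⟨f, by simp, by push_cast; linear_combination hxy⟩
    rw [hpow, ← hcomm]
    exact Subgroup.pow_mem _ (Subgroup.commutator_mem_commutator (Subgroup.mem_top _) (Subgroup.mem_top _)) e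
  rw [coverHom_ker]
  rintro _ ⟨c, rfl⟩
  haveI : NeZero D.g := ⟨D.hg.ne'⟩
  have hc : c = Multiplicative.ofAdd (1 : ZMod D.g) ^ c.toAdd.val := by
    rw [← ofAdd_nsmul, nsmul_one, ZMod.natCast_zmod_val, ofAdd_toAdd]
  rw [hc, map_pow, zHom_apply]
  exact Subgroup.pow_mem _ hone _

theorem orderA (k : ℤ) :
    (PresentedGroup.of true : PresentedGroup (relators D.m D.n D.r D.t)) ^ k = 1 ↔ (D.m : ℤ) ∣ k := by
  constructor
  · intro h
    have h2 := toExt_coverHom D (inA D k 0)
    rw [coverHom_inA, h, map_one, eq_comm, QuotientGroup.eq_one_iff] at h2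
    obtain ⟨c, hc⟩ := h2
    rw [← ofAdd_toAdd c, zHom_apply] at hc
    have h3 : inA D k (-c.toAdd) = 1 := by
      calc inA D k (-c.toAdd) = inA D k 0 * inA D 0 (-c.toAdd) := by rw [inA_mul, add_zero, zero_add]
        _ = inA D 0 c.toAdd * inA D 0 (-c.toAdd) := by rw [hc]
        _ = 1 := by rw [inA_mul, add_zero, add_neg_cancel, inA_zero]
    have h4 := inA_inj_zero D h3
    rw [← cls_zero, cls_eq_iff] at h4
    obtain ⟨q, hq, -⟩ := h4
    exact ⟨-q, by linarith⟩
  · rintro ⟨q, rfl⟩
    rw [zpow_mul, zpow_natCast, rel_pow, one_zpow]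

theorem hasCyclic (e f d s l : ℕ) (hxy : (e : ZMod D.g) * D.x + (f : ZMod D.g) * D.y = 1)
    (hed : D.m = e * d) (hfd : D.r = f * d + 1) (hes : ∑ i ∈ Finset.range D.n, D.r ^ i = e * s)
    (hd : 0 < d) (hcop : Nat.Coprime e f) (ht : D.t = e * l) (hg : D.g = Nat.gcd l (Nat.gcd d s)) :
    Cfsg.HasCyclicSchurMultiplier (PresentedGroup (relators D.m D.n D.r D.t)) D.g := by
  haveI : NeZero D.g := ⟨D.hg.ne'⟩
  have hef : (e : ℤ) * ((D.r : ℤ) - 1) = f * D.m := by rw [hed, hfd]; push_cast; ring
  refine ⟨⟨Ext D, inferInstance, inferInstance, coverHom D, isStem D e f hxy hef,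
    ⟨(MulEquiv.subgroupCongr (coverHom_ker D)).trans (MonoidHom.ofInjective (zHom_injective D)).symm⟩⟩, ?_⟩
  intro Γ _ _ σ hσ
  obtain ⟨w, hw, hle, hwg⟩ := stem_bound (closure_pair _ _ _ _) D.hn hed hfd hes hd hcop (orderA D)
    (by rw [← ht]; exact rel_twist _ _ _ _) (rel_conj _ _ _ _) hσ
  rw [← hg] at hwg
  have h0 : zmultiplesHom (Additive σ.ker) (Additive.ofMul (⟨w, hw⟩ : σ.ker)) (D.g : ℤ) = 0 := by
    rw [zmultiplesHom_apply, natCast_zsmul, ← ofMul_pow]
    exact congrArg Additive.ofMul (Subtype.ext hwg : (⟨w, hw⟩ : σ.ker) ^ D.g = 1)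
  refine ⟨AddMonoidHom.toMultiplicativeLeft (ZMod.lift D.g ⟨_, h0⟩), fun u => ?_⟩
  obtain ⟨k, hk⟩ := Subgroup.mem_zpowers_iff.1 (hle u.2)
  refine ⟨Multiplicative.ofAdd (k : ZMod D.g), ?_⟩
  refine Subtype.ext (Eq.trans ?_ hk)
  show ((Additive.toMul (ZMod.lift D.g ⟨_, h0⟩ (k : ZMod D.g)) : σ.ker) : Γ) = w ^ k
  rw [ZMod.lift_coe, zmultiplesHom_apply, toMul_zsmul, toMul_ofMul, Subgroup.coe_zpow]

/-- Let `m, n ≥ 1`, `r ≥ 1` with `r ^ n ≡ 1 (mod m)`, and `l` a natural number; put `d = gcd(m, r - 1)`, `t = m l / d` and `h = d · gcd(m, 1 + r + ⋯ + r^(n-1)) / m`. The group presented by generators `a, b` and relations `a ^ m = 1`, `b ^ n = a ^ t`, `b a b⁻¹ = a ^ r` (a metacyclic group of order `m n`) has Schur multiplier cyclic of order `gcd(l, h)`. -/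
theorem result (m n r l : ℕ) (hm : 0 < m) (hn : 0 < n) (hr : 0 < r) (hrn : r ^ n ≡ 1 [MOD m]) : Cfsg.HasCyclicSchurMultiplier (PresentedGroup ({FreeGroup.of true ^ m, (FreeGroup.of false) ^ n * (FreeGroup.of true ^ (m * l / Nat.gcd m (r - 1)))⁻¹, FreeGroup.of false * FreeGroup.of true * (FreeGroup.of false)⁻¹ * (FreeGroup.of true ^ r)⁻¹} : Set (FreeGroup Bool))) (Nat.gcd l (Nat.gcd m (r - 1) * Nat.gcd m (∑ i ∈ Finset.range n, r ^ i) / m)) := by
  have hd : 0 < Nat.gcd m (r - 1) := Nat.gcd_pos_of_pos_left _ hm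
  obtain ⟨e, f, hcop, hed, hfd⟩ := Nat.exists_coprime m (r - 1)
  generalize Nat.gcd m (r - 1) = d at hd hed hfd ⊢
  have hr1 : r = f * d + 1 := by omega
  have heS : e ∣ ∑ i ∈ Finset.range n, r ^ i := by
    apply hcop.dvd_of_dvd_mul_left
    have h1 : (m : ℤ) ∣ ((r ^ n : ℕ) : ℤ) - 1 := by simpa using Nat.modEq_iff_dvd.1 hrn.symm
    have h2 : ((r ^ n : ℕ) : ℤ) - 1 = ((f * d * ∑ i ∈ Finset.range n, r ^ i : ℕ) : ℤ) := by
      have hg := geom_sum_mul (r : ℤ) n
      have hr' : (r : ℤ) = f * d + 1 := by exact_mod_cast hr1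
      push_cast
      rw [← hg]
      rw [show (r : ℤ) - 1 = f * d by linarith, mul_comm]
    rw [h2, Int.natCast_dvd_natCast, hed] at h1
    apply Nat.dvd_of_mul_dvd_mul_right hd
    rwa [mul_right_comm f] at h1
  obtain ⟨s, hs⟩ := heS
  have ht : m * l / d = e * l := by
    rw [hed, mul_right_comm, Nat.mul_div_cancel _ hd]
  have hh : d * Nat.gcd m (∑ i ∈ Finset.range n, r ^ i) / m = Nat.gcd d s := by
    rw [hs, hed, Nat.gcd_mul_left, ← mul_assoc, mul_comm d e, Nat.mul_div_cancel_left]
    rw [← hed]; exact hm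
  rw [ht, hh]
  set g := Nat.gcd l (Nat.gcd d s) with hgdef
  have hgpos : 0 < g := Nat.gcd_pos_of_pos_right _ (Nat.gcd_pos_of_pos_left _ hd)
  have hl0 : (l : ZMod g) = 0 := (ZMod.natCast_eq_zero_iff _ _).2 (Nat.gcd_dvd_left _ _)
  have hd0 : (d : ZMod g) = 0 :=
    (ZMod.natCast_eq_zero_iff _ _).2 ((Nat.gcd_dvd_right _ _).trans (Nat.gcd_dvd_left _ _))
  have hs0 : (s : ZMod g) = 0 :=
    (ZMod.natCast_eq_zero_iff _ _).2 ((Nat.gcd_dvd_right _ _).trans (Nat.gcd_dvd_right _ _))
  obtain ⟨u, v, huv⟩ := (Int.isCoprime_iff_nat_coprime (a := (e : ℤ)) (b := (f : ℤ))).2 (by simpa using hcop)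
  have huv' : (e : ZMod g) * (u : ZMod g) + (f : ZMod g) * (v : ZMod g) = 1 := by
    have := congrArg (fun z : ℤ => (z : ZMod g)) huv
    push_cast at this
    linear_combination this
  have hsum : (∑ i ∈ Finset.range n, (r : ZMod g) ^ i) = (e : ZMod g) * (s : ZMod g) := by
    have := congrArg (fun z : ℕ => (z : ZMod g)) hs
    push_cast at this
    exact this
  let D : Data :=
    { m := m, n := n, r := r, t := e * l, g := g, x := (u : ZMod g), y := (v : ZMod g)
      hm := hm, hn := hn, hg := hgpos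
      hstable := by
        rw [hed, hr1]; push_cast; simp [hd0]
      hpow := ⟨(f : ℤ) * s, by
        have hg := geom_sum_mul (r : ℤ) n
        have hsum' : (∑ i ∈ Finset.range n, (r : ℤ) ^ i) = e * s := by exact_mod_cast hs
        have hr' : (r : ℤ) = f * d + 1 := by exact_mod_cast hr1
        rw [← hg, hsum', hr', hed]; push_cast; ring, by
        rw [hsum]; push_cast; simp [hs0]⟩
      hfix := ⟨(f : ℤ) * l, by rw [hed, hr1]; push_cast; ring, by push_cast; simp [hl0]⟩ }
  exact hasCyclic D e f d s l huv' hed hr1 hs hd hcop rfl rfl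

end Cfsg.Agent.S3967
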