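import Cfsg.Statements.S3968
import Cfsg.Agent.Chars.Basic
import Cfsg.Agent.Chars.Basic.Restrict
import Cfsg.Agent.Chars.Apps.RootSums

set_option autoImplicit false
open Cfsg

namespace Cfsg.Agent.S3968

open scoped commutatorElement

/-- Let `p` be a prime and `G` a finite group with a faithful irreducible complex character of degree `p` (so `G` is an irreducible linear group in `p` variables). If `p ^ 2` divides the order of `G`, then the centre of `G` is nontrivial. -/
theorem result {G : Type*} [Group G] [Finite G] (p : ℕ) (hp : p.Prime) (χ : Cfsg.IrrCharacter G) (hdeg : χ.1 1 = p) (hfaith : ∀ g : G, χ.1 g = χ.1 1 → g = 1) (hdiv : p ^ 2 ∣ Nat.card G) : Subgroup.center G ≠ ⊥ := by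
  classical
  have : Fact p.Prime := ⟨hp⟩
  have := Fintype.ofFinite G
  intro hZ
  obtain ⟨n, ρ, hρ, hχ⟩ := χ.2
  have hn : n = p := by
    have h1 : ρ.character 1 = (p : ℂ) := by rw [hχ]; exact hdeg
    rw [Representation.char_one] at h1
    simpa using h1
  subst hn
  have hinj : ∀ g, ρ g = 1 → g = 1 := fun g h => hfaith g (by
    rw [← hχ]; simp [Representation.character, h])
  have hscalar : ∀ g : G, ‖(χ : G → ℂ) g‖ = n → g = 1 := by
    intro g hg
    rw [← hχ] at hg
    obtain ⟨c, hc⟩ := CfsgLib.Chars.Apps.exists_smul_of_norm_char_eq ρ g hg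
    have : g ∈ Subgroup.center G := Subgroup.mem_center_iff.mpr fun x => by
      have e : ρ (x * g * (g * x)⁻¹) = 1 := by
        have e1 : ρ (x * g) = ρ (g * x) := by
          rw [map_mul, map_mul, hc, mul_smul_comm, smul_mul_assoc, one_mul, mul_one]
        rw [map_mul, e1, ← map_mul, mul_inv_cancel, map_one]
      exact mul_inv_eq_one.mp (hinj _ e)
    simpa [hZ] using this
  obtain ⟨P⟩ := (inferInstance : Nonempty (Sylow n G))
  obtain ⟨e, he⟩ := (IsPGroup.iff_card (p := n)).mp P.isPGroup'
  have hsq : n ^ 2 ∣ Nat.card (P : Subgroup G) := P.pow_dvd_card_of_pow_dvd_card hdiv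
  have : Nontrivial (P : Subgroup G) := by
    rw [← Finite.one_lt_card_iff_nontrivial]
    exact lt_of_lt_of_le (Nat.one_lt_pow two_ne_zero hp.one_lt) (Nat.le_of_dvd Nat.card_pos hsq)
  set Z : Subgroup G := (Subgroup.center (P : Subgroup G)).map (P : Subgroup G).subtype with hZdef
  have hcardZ : Nat.card Z = Nat.card (Subgroup.center (P : Subgroup G)) :=
    Subgroup.card_map_of_injective (P : Subgroup G).subtype_injective
  have hzero : ∀ z ∈ Z, z ≠ 1 → (χ : G → ℂ) z = 0 := by
    rintro z ⟨z, hz, rfl⟩ hz1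
    have hle : (P : Subgroup G) ≤ Subgroup.centralizer ({(z : G)} : Set G) := fun x hx => by
      rw [Subgroup.mem_centralizer_singleton_iff]
      exact congrArg Subtype.val (Subgroup.mem_center_iff.mp hz ⟨x, hx⟩)
    have hcop : ((Subgroup.centralizer ({(z : G)} : Set G)).index).Coprime n :=
      (Nat.Coprime.symm ((Nat.Prime.coprime_iff_not_dvd hp).mpr fun h =>
        P.not_dvd_index (h.trans (Subgroup.index_dvd_of_le hle))))
    have hint := CfsgLib.Chars.isIntegral_centralChar χ (z : G)
    rw [centralChar] at hint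
    have h0 := CfsgLib.Chars.Apps.isIntegral_div_of_coprime
      (CfsgLib.Chars.Apps.isIntegral_char ρ (z : G)) hcop (by
        rw [← hdeg, hχ]
        exact hint)
    rcases CfsgLib.Chars.Apps.char_eq_zero_or_norm_eq ρ (z : G) h0 with h | h
    · rw [← hχ]; exact h
    · exact absurd (hscalar _ (by rw [← hχ]; exact h)) hz1
  have hcZ : Nat.card Z = n := by
    have := Fintype.ofFinite Z
    have : Invertible (Nat.card Z : ℂ) :=
      invertibleOfNonzero (Nat.cast_ne_zero.mpr Nat.card_pos.ne')
    let σ : Representation ℂ Z (Fin n → ℂ) := ρ.comp Z.subtype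
    have hfix := Representation.card_inv_mul_sum_char_eq_finrank σ
    rw [Finset.sum_eq_single (1 : Z) (fun z _ hz => by
        show ρ.character (z : G) = 0
        rw [hχ]; exact hzero z z.2 (fun h => hz (Subtype.ext h)))
      (fun h => absurd (Finset.mem_univ _) h), Representation.char_one,
      Module.finrank_fin_fun] at hfix
    rw [inv_mul_eq_iff_eq_mul₀ (Nat.cast_ne_zero.mpr Nat.card_pos.ne')] at hfix
    have hdvd : Nat.card Z ∣ n := ⟨_, by exact_mod_cast hfix⟩
    refine (hp.eq_one_or_self_of_dvd _ hdvd).resolve_left ?_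
    rw [hcardZ, Subgroup.card_eq_one]
    exact fun h => (not_nontrivial_iff_subsingleton.mpr (by rw [h]; infer_instance) :
      ¬ Nontrivial (Subgroup.center (P : Subgroup G))) P.isPGroup'.center_nontrivial
  -- the restriction to P
  obtain ⟨c, -, hres, hsum⟩ := CfsgLib.Chars.exists_restrict_coeff χ (P : Subgroup G)
  have hd : charDegree (χ : G → ℂ) = n := CfsgLib.Chars.charDegree_eq_of_map_one hdeg
  rw [hd] at hsum
  have hlin : ∀ θ : IrrCharacter (P : Subgroup G), c θ ≠ 0 → charDegree (θ : ↥(P : Subgroup G) → ℂ) = 1 := by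
    intro θ hθ
    by_contra h1
    obtain ⟨i, -, hi⟩ := (Nat.dvd_prime_pow hp).mp
      (he ▸ CfsgLib.Chars.charDegree_dvd_card θ)
    have hi0 : i ≠ 0 := fun h => h1 (by simp [hi, h])
    have hge : n ≤ charDegree (θ : ↥(P : Subgroup G) → ℂ) := hi ▸ Nat.le_self_pow hi0 n
    have hterm := Finset.single_le_sum (fun η _ => Nat.zero_le
      (c η * charDegree (η : ↥(P : Subgroup G) → ℂ))) (Finset.mem_univ θ)
    rw [← hsum] at hterm
    have hc1 : c θ = 1 := by
      refine le_antisymm ?_ (Nat.pos_of_ne_zero hθ)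
      by_contra! hc2
      nlinarith [hp.pos]
    have hothers : ∀ η : IrrCharacter (P : Subgroup G), η ≠ θ → c η = 0 := by
      intro η hη
      by_contra hc
      have h2 := Finset.sum_le_sum_of_subset (f := fun η => c η * charDegree (η : ↥(P : Subgroup G) → ℂ))
        (Finset.subset_univ ({η, θ} : Finset _))
      rw [Finset.sum_pair hη, ← hsum, hc1] at h2
      have := Nat.mul_pos (Nat.pos_of_ne_zero hc) (CfsgLib.Chars.charDegree_pos η)
      omega
    have hχθ : ∀ h : (P : Subgroup G), (χ : G → ℂ) h = (θ : ↥(P : Subgroup G) → ℂ) h := by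
      intro h
      rw [show (χ : G → ℂ) h = _ from congrFun hres h, Finset.sum_apply,
        Finset.sum_eq_single θ (fun η _ hη => by simp [hothers η hη]) (by simp)]
      simp [hc1]
    obtain ⟨z, hz, hz1⟩ := (Subgroup.nontrivial_iff_exists_ne_one _).mp P.isPGroup'.center_nontrivial
    have hnorm := CfsgLib.Chars.norm_map_of_mem_center θ hz
    rw [← hχθ, ← hχθ, hzero (z : G) ⟨z, hz, rfl⟩ (fun h => hz1 (Subtype.ext h)), norm_zero,
      OneMemClass.coe_one, hdeg, Complex.norm_natCast] at hnorm
    exact hp.ne_zero (by exact_mod_cast hnorm.symm)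
  have hab : commutator (P : Subgroup G) = ⊥ := by
    rw [Subgroup.eq_bot_iff_forall]
    intro x hx
    refine Subtype.ext (hfaith _ ?_)
    have e1 := congrFun hres x
    have e2 := congrFun hres 1
    simp only [Finset.sum_apply, Pi.smul_apply, OneMemClass.coe_one] at e1 e2
    rw [e1, e2]
    refine Finset.sum_congr rfl fun θ _ => ?_
    by_cases hθ : c θ = 0
    · simp [hθ]
    · congr 1
      refine CfsgLib.Chars.map_eq_map_one_of_mem_charKer
        ((CfsgLib.Chars.commutator_le_charKer_iff θ).mpr ?_ hx)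
      rw [← CfsgLib.Chars.coe_charDegree, hlin θ hθ, Nat.cast_one]
  have hctop : Subgroup.center (P : Subgroup G) = ⊤ := by
    rw [eq_top_iff]
    intro x _
    rw [Subgroup.mem_center_iff]
    intro y
    have : ⁅y, x⁆ ∈ commutator (P : Subgroup G) :=
      Subgroup.commutator_mem_commutator (Subgroup.mem_top y) (Subgroup.mem_top x)
    rw [hab, Subgroup.mem_bot] at this
    exact commutatorElement_eq_one_iff_mul_comm.mp this
  rw [hcardZ, hctop, Subgroup.card_top] at hcZ
  rw [hcZ] at hsq
  have := Nat.le_of_dvd hp.pos hsq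
  nlinarith [hp.one_lt]

end Cfsg.Agent.S3968
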