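import Cfsg.Statements.S3969
import Cfsg.Agent.Eq.Def_Transfer
import Cfsg.Agent.Transfer.AbelianSylow
import Cfsg.Agent.Transfer.SmallRank

set_option autoImplicit false
open Cfsg

namespace Cfsg.Agent.S3969

/-- Let `P` be an abelian Sylow `p`-subgroup of the finite group `G`, generated by `d` elements (`d` its minimal number of generators). If the order of `G` is coprime to `(p - 1)(p ^ 2 - 1) ⋯ (p ^ d - 1)`, then `G` has a normal `p`-complement. (The classical statement needs only the largest number of cyclic factors of `P` of equal order in place of `d`; the form here follows from it.) -/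
theorem result {G : Type*} [Group G] [Finite G] (p : ℕ) [Fact p.Prime] (P : Sylow p G) (hab : IsMulCommutative (P : Subgroup G)) (hcop : Nat.Coprime (Nat.card G) (∏ i ∈ Finset.Icc 1 (Group.rank (P : Subgroup G)), (p ^ i - 1))) : Cfsg.HasNormalPComplement p G := by
  haveI := hab
  refine CfsgLib.Transfer.hasNormalPComplement_of_normalizer_le_centralizer P fun g hg => ?_
  refine CfsgLib.Transfer.mem_of_primePow_parts _ _ g rfl fun a ha q k hq hak => ?_
  have haN := Subgroup.zpowers_le.mpr hg ha
  rcases Nat.eq_zero_or_pos k with rfl | hk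
  · rw [pow_zero, orderOf_eq_one_iff] at hak
    rw [hak]; exact one_mem _
  by_cases hqp : q = p
  · exact Subgroup.le_centralizer (P : Subgroup G)
      (CfsgLib.Transfer.mem_sylow_of_pElement P haN (k := k) (hqp ▸ dvd_of_eq hak))
  haveI := Fact.mk hq
  refine CfsgLib.Transfer.mem_centralizer_of_frattini_index P.2 haN hqp (dvd_of_eq hak)
    (CfsgLib.Transfer.frattini_index_dvd_pow_rank P.2) fun i hi1 hid hdvd => ?_
  have hqG : q ∣ Nat.card G :=
    ((dvd_pow_self q hk.ne').trans (dvd_of_eq hak.symm)).trans (orderOf_dvd_natCard a)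
  exact hq.ne_one (Nat.eq_one_of_dvd_coprimes hcop hqG
    (hdvd.trans (Finset.dvd_prod_of_mem _ (Finset.mem_Icc.mpr ⟨hi1, hid⟩))))

end Cfsg.Agent.S3969
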