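import Cfsg.Statements.S3970
import Cfsg.Agent.Eq.Def_Transfer
import Cfsg.Agent.Transfer.SmallRank
import Cfsg.Agent.Transfer.AbelianSylow

set_option autoImplicit false
open Cfsg

namespace Cfsg.Agent.S3970

/-- Let `G` be a finite group such that for every prime `p` dividing its order, other than the largest such prime, the Sylow `p`-subgroups are abelian and generated by at most two elements, and suppose `12` does not divide the order of `G`. Then `G` is solvable. In particular a group of cube-free order not divisible by `12` is solvable. -/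
theorem result {G : Type*} [Group G] [Finite G] (h : ∀ p : ℕ, p.Prime → p ∣ Nat.card G → (∃ q : ℕ, q.Prime ∧ q ∣ Nat.card G ∧ p < q) → ∀ P : Sylow p G, IsMulCommutative (P : Subgroup G) ∧ Group.rank (P : Subgroup G) ≤ 2) (h12 : ¬ 12 ∣ Nat.card G) : Group.IsSolvable G := by
  suffices key : ∀ (n : ℕ) (H : Subgroup G), Nat.card H = n →
      (∀ r : ℕ, r.Prime → r ∣ Nat.card H → ¬ r ∣ H.index) → Group.IsSolvable H by
    haveI := key _ (⊤ : Subgroup G) rfl (fun r hr _ hd => hr.not_dvd_one (by simpa using hd))
    exact solvable_of_surjective (f := (⊤ : Subgroup G).subtype) fun g => ⟨⟨g, Subgroup.mem_top g⟩, rfl⟩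
  intro n
  induction n using Nat.strong_induction_on with
  | h n ih =>
  intro H hn hHall
  rcases eq_or_ne n 1 with rfl | hn1
  · haveI : Subsingleton H := (Nat.card_eq_one_iff_unique.mp hn).1
    infer_instance
  set p := n.minFac with hp
  have hpp : p.Prime := Nat.minFac_prime hn1
  haveI := Fact.mk hpp
  have hpH : p ∣ Nat.card H := hn ▸ Nat.minFac_dvd n
  obtain ⟨P⟩ : Nonempty (Sylow p H) := inferInstance
  have hnpc : Cfsg.HasNormalPComplement p H := by
    by_cases hbig : ∃ q : ℕ, q.Prime ∧ q ∣ Nat.card G ∧ p < q
    swap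
    · refine CfsgLib.Transfer.hasNormalPComplement_of_isPGroup (IsPGroup.of_card
        (n := n.primeFactorsList.length) ?_)
      rw [hn]
      refine Nat.eq_prime_pow_of_unique_prime_dvd (hn ▸ Nat.card_pos.ne') fun {r} hr hrn => ?_
      by_contra hne
      exact hbig ⟨r, hr, (hn ▸ hrn).trans (Subgroup.card_subgroup_dvd_card H),
        lt_of_le_of_ne (Nat.minFac_le_of_dvd hr.two_le hrn) (Ne.symm hne)⟩
    obtain ⟨W, hW⟩ := (P.2.map H.subtype).exists_le_sylow
    have heq : (P : Subgroup H).map H.subtype = (W : Subgroup G) := by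
      refine Subgroup.eq_of_le_of_card_ge hW (le_of_eq ?_)
      rw [Subgroup.card_map_of_injective H.subtype_injective, Sylow.card_eq_multiplicity,
        Sylow.card_eq_multiplicity, ← H.card_mul_index, Nat.factorization_mul Nat.card_pos.ne'
          Subgroup.index_ne_zero_of_finite, Finsupp.add_apply,
        Nat.factorization_eq_zero_of_not_dvd (hHall p hpp hpH), add_zero]
    obtain ⟨hWc, hWr⟩ := h p hpp (hpH.trans (Subgroup.card_subgroup_dvd_card H)) hbig W
    set e := ((P : Subgroup H).equivMapOfInjective H.subtype H.subtype_injective).trans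
      (MulEquiv.subgroupCongr heq) with he
    have hPc : IsMulCommutative (P : Subgroup H) :=
      ⟨⟨fun a b => e.injective (by rw [map_mul, map_mul]; exact hWc.1.1 _ _)⟩⟩
    haveI := hPc
    have hmin : (Nat.card H).minFac = p := by rw [hn]
    refine CfsgLib.Transfer.hasNormalPComplement_of_normalizer_le_centralizer P fun g hg => ?_
    have hdvd : (frattini (P : Subgroup H)).index ∣ p ^ 2 := by
      refine (CfsgLib.Transfer.frattini_index_dvd_pow_rank P.2).trans (Nat.pow_dvd_pow p ?_)
      rw [Group.rank_congr e]
      exact hWr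
    refine CfsgLib.Transfer.mem_of_primePow_parts _ _ g rfl fun a ha q k hq hak => ?_
    have haN := Subgroup.zpowers_le.mpr hg ha
    rcases Nat.eq_zero_or_pos k with rfl | hk
    · rw [pow_zero, orderOf_eq_one_iff] at hak
      rw [hak]; exact one_mem _
    by_cases hqp : q = p
    · exact Subgroup.le_centralizer (P : Subgroup H)
        (CfsgLib.Transfer.mem_sylow_of_pElement P haN (k := k) (hqp ▸ dvd_of_eq hak))
    haveI := Fact.mk hq
    have hqH : q ∣ Nat.card H :=
      ((dvd_pow_self q hk.ne').trans (dvd_of_eq hak.symm)).trans (orderOf_dvd_natCard a)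
    have hpq : p < q := lt_of_le_of_ne (Nat.minFac_le_of_dvd hq.two_le (hn ▸ hqH)) (Ne.symm hqp)
    by_cases hd : q ∣ p ^ 2 - 1
    · -- then `p = 2`, `q = 3`, and the Sylow subgroup is cyclic
      have hsq : p ^ 2 - 1 = (p + 1) * (p - 1) := by
        have := Nat.sq_sub_sq p 1
        simpa using this
      have hq1 : q = p + 1 := by
        rcases (Nat.Prime.dvd_mul hq).mp (hsq ▸ hd) with h' | h'
        · exact le_antisymm (Nat.le_of_dvd (by omega) h') (by omega)
        · have := Nat.le_of_dvd (by have := hpp.two_le; omega) h'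
          omega
      have hp2 : p = 2 := by
        rcases hpp.eq_two_or_odd' with h2 | h2
        · exact h2
        · exfalso
          have h3 : Even q := hq1 ▸ h2.add_one
          rw [hq.even_iff] at h3
          have := hpp.two_le
          omega
      have hcard : Nat.card (P : Subgroup H) ∣ p := by
        obtain ⟨m, hm⟩ := IsPGroup.iff_card.mp P.2
        rcases Nat.lt_or_ge m 2 with hm2 | hm2
        · rw [hm]; exact dvd_trans (Nat.pow_dvd_pow p (by omega)) (pow_one p).dvd
        · exfalso
          apply h12
          have h4 : 4 ∣ Nat.card G := by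
            refine ((?_ : 4 ∣ p ^ m).trans (hm ▸ Subgroup.card_subgroup_dvd_card (P : Subgroup H))).trans
              (Subgroup.card_subgroup_dvd_card H)
            rw [hp2]
            exact Nat.pow_dvd_pow 2 hm2
          have h3 : 3 ∣ Nat.card G := by
            have : q = 3 := by omega
            exact this ▸ hqH.trans (Subgroup.card_subgroup_dvd_card H)
          exact Nat.Coprime.mul_dvd_of_dvd_of_dvd (by norm_num : Nat.Coprime 4 3) h4 h3
      have hPcy : IsCyclic (P : Subgroup H) := by
        rcases (Nat.dvd_prime hpp).mp hcard with h1 | h1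
        · haveI : Subsingleton (P : Subgroup H) := (Nat.card_eq_one_iff_unique.mp h1).1
          infer_instance
        · exact isCyclic_of_prime_card h1
      exact (hPcy.normalizer_le_centralizer hmin) haN
    · refine CfsgLib.Transfer.mem_centralizer_of_frattini_index P.2 haN hqp (dvd_of_eq hak) hdvd
        fun i hi1 hi2 hdv => hd ?_
      interval_cases i
      · rw [pow_one] at hdv
        exact hdv.trans (by simpa using Nat.sub_dvd_pow_sub_pow p 1 2)
      · exact hdv
  obtain ⟨N, hN, hNc, k, hk⟩ := CfsgLib.Transfer.hasNormalPComplement_iff_exists.mp hnpc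
  haveI := hN
  set K := N.map H.subtype with hK
  have hKcard : Nat.card K = Nat.card N := Subgroup.card_map_of_injective H.subtype_injective
  have hlt : Nat.card K < n := by
    refine hn ▸ lt_of_le_of_ne (Subgroup.card_le_of_le (Subgroup.map_subtype_le _)) fun he => ?_
    exact CfsgLib.Transfer.not_dvd_of_coprime hNc (hKcard ▸ he ▸ hpH)
  haveI hKsol : Group.IsSolvable K := by
    refine ih _ hlt K rfl fun r hr hrK hri => ?_
    rw [hK, Subgroup.index_map_subtype, hk] at hri
    rcases (Nat.Prime.dvd_mul hr).mp hri with h1 | h1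
    · have := (Nat.prime_dvd_prime_iff_eq hr hpp).mp (hr.dvd_of_dvd_pow h1)
      exact CfsgLib.Transfer.not_dvd_of_coprime hNc (hKcard ▸ this ▸ hrK)
    · exact hHall r hr (hrK.trans (Subgroup.card_dvd_of_le (Subgroup.map_subtype_le _))) h1
  haveI : Group.IsSolvable N := solvable_of_surjective
    (f := (N.equivMapOfInjective H.subtype H.subtype_injective).symm.toMonoidHom)
    (N.equivMapOfInjective H.subtype H.subtype_injective).symm.surjective
  haveI : Group.IsSolvable (H ⧸ N) := by
    haveI := (IsPGroup.of_card (n := k) (by rw [← N.index_eq_card, hk]) : IsPGroup p (H ⧸ N)).isNilpotent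
    infer_instance
  exact solvable_of_ker_le_range N.subtype (QuotientGroup.mk' N) (by simp)

end Cfsg.Agent.S3970
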