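import Cfsg.Statements.S3971
import Cfsg.Agent.Transfer.TwoGenerator
import Cfsg.Agent.Transfer.AbelianSylow
import Cfsg.Agent.Eq.Def_Transfer

set_option autoImplicit false
open Cfsg

namespace Cfsg.Agent.S3971

/-- Let `G` be a finite group of order `2 ^ a * n` with `n` odd and not divisible by `3`, and suppose `G` has an element of order `2 ^ (a - 1)` (so a Sylow `2`-subgroup has a cyclic subgroup of index at most `2`). Then `G` has a normal subgroup of order `n`. -/
theorem result {G : Type*} [Group G] [Finite G] (a n : ℕ) (hG : Nat.card G = 2 ^ a * n) (hn : Odd n) (h3 : ¬ 3 ∣ n) (hx : ∃ x : G, orderOf x = 2 ^ (a - 1)) : ∃ N : Subgroup G, N.Normal ∧ Nat.card N = n := by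
  obtain ⟨x, hx⟩ := hx
  obtain ⟨P, hP⟩ := (IsPGroup.of_card (n := a - 1) (by rw [Nat.card_zpowers, hx]) :
    IsPGroup 2 (Subgroup.zpowers x)).exists_le_sylow
  have hPcard : Nat.card (P : Subgroup G) = 2 ^ a := by
    rw [Sylow.card_eq_multiplicity, hG, Nat.factorization_mul (pow_ne_zero a (by norm_num))
      (by rintro rfl; simp at hn), Nat.Prime.factorization_pow Nat.prime_two,
      Finsupp.add_apply, Finsupp.single_eq_same,
      Nat.factorization_eq_zero_of_not_dvd (fun h => (Nat.not_even_iff_odd.mpr hn) (even_iff_two_dvd.mpr h)),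
      add_zero]
  set M := (Subgroup.zpowers x).subgroupOf (P : Subgroup G) with hM
  have hMidx : M.index ∣ 2 := by
    have h1 := M.card_mul_index
    rw [hM, Nat.card_congr (Subgroup.subgroupOfEquivOfLe hP).toEquiv, Nat.card_zpowers, hx, hPcard,
      ← hM] at h1
    rcases Nat.eq_zero_or_pos a with rfl | ha
    · rw [Nat.zero_sub, pow_zero, one_mul] at h1
      rw [h1]; exact one_dvd 2
    · exact dvd_of_eq (Nat.eq_of_mul_eq_mul_left (pow_pos (by norm_num : 0 < 2) (a - 1))
        (h1.trans (by rw [← pow_succ, Nat.sub_add_cancel ha])))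
  haveI hMn : M.Normal := by
    rcases (Nat.dvd_prime Nat.prime_two).mp hMidx with h | h
    · rw [Subgroup.index_eq_one.mp h]; infer_instance
    · exact Subgroup.normal_of_index_eq_two h
  haveI hMc : IsCyclic M := isCyclic_of_injective
    (Subgroup.subgroupOfEquivOfLe hP).toMonoidHom (Subgroup.subgroupOfEquivOfLe hP).injective
  haveI hQc : IsCyclic ((P : Subgroup G) ⧸ M) := by
    rcases (Nat.dvd_prime Nat.prime_two).mp hMidx with h | h
    · haveI : Subsingleton ((P : Subgroup G) ⧸ M) :=
        (Nat.card_eq_one_iff_unique.mp (by rw [← Subgroup.index_eq_card, h])).1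
      infer_instance
    · exact isCyclic_of_prime_card (p := 2) (by rw [← Subgroup.index_eq_card, h])
  have hnpc : Cfsg.HasNormalPComplement 2 G := by
    refine CfsgLib.Transfer.hasNormalPComplement_of_pLocal_centralizes fun Q hQ g hg hgc => ?_
    refine CfsgLib.Transfer.mem_of_primePow_parts _ _ g rfl fun b hb q k hq hbk => ?_
    have hbN := Subgroup.zpowers_le.mpr hg hb
    rcases Nat.eq_zero_or_pos k with rfl | hk
    · rw [pow_zero, orderOf_eq_one_iff] at hbk
      rw [hbk]; exact one_mem _
    have hqG : q ∣ Nat.card G :=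
      ((dvd_pow_self q hk.ne').trans (dvd_of_eq hbk.symm)).trans (orderOf_dvd_natCard b)
    have hq2 : q ≠ 2 := by
      rintro rfl
      have h := Nat.Coprime.coprime_dvd_left
        (((dvd_pow_self 2 hk.ne').trans (dvd_of_eq hbk.symm)).trans (orderOf_dvd_of_mem_zpowers hb)) hgc
      simp at h
    have hq3 : q ≠ 3 := by
      rintro rfl
      rcases (Nat.Prime.dvd_mul hq).mp (hG ▸ hqG) with h | h
      · exact absurd ((Nat.prime_dvd_prime_iff_eq hq Nat.prime_two).mp (hq.dvd_of_dvd_pow h)) (by norm_num)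
      · exact h3 h
    haveI := Fact.mk hq
    obtain ⟨W, hW⟩ := hQ.exists_le_sylow
    obtain ⟨y, hy⟩ := MulAction.exists_smul_eq G W P
    have hle : Q.map (MulAut.conj y).toMonoidHom ≤ (P : Subgroup G) := by
      rintro _ ⟨u, hu, rfl⟩
      rw [← hy]
      exact CfsgLib.Transfer.mem_smul_sylow y (hW hu)
    have hd := CfsgLib.Transfer.frattini_index_dvd_sq_of_le (p := 2) P.2 hle M
    have hb' : MulAut.conj y b ∈ Subgroup.normalizer
        ((Q.map (MulAut.conj y).toMonoidHom : Subgroup G) : Set G) := by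
      refine Subgroup.mem_normalizer_fintype ?_
      rintro _ ⟨u, hu, rfl⟩
      exact ⟨b * u * b⁻¹, (Subgroup.mem_normalizer_iff.mp hbN u).mp hu,
        by simp only [MulEquiv.coe_toMonoidHom, map_mul, map_inv]⟩
    have key := CfsgLib.Transfer.mem_centralizer_of_frattini_index (P.2.to_le hle) hb' hq2
      (k := k) (by rw [MulEquiv.orderOf_eq, hbk]) hd (fun i hi1 hi2 hdv => by
        interval_cases i
        · exact hq.not_dvd_one (by simpa using hdv)
        · exact hq3 ((Nat.prime_dvd_prime_iff_eq hq Nat.prime_three).mp (by simpa using hdv)))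
    rw [Subgroup.mem_centralizer_iff] at key ⊢
    intro u hu
    have h2 := key _ ⟨u, hu, rfl⟩
    simp only [MulEquiv.coe_toMonoidHom, ← map_mul] at h2
    exact (MulAut.conj y).injective h2
  obtain ⟨N, hN, hc⟩ := CfsgLib.Transfer.exists_isComplement' hnpc P
  refine ⟨N, hN, ?_⟩
  have h1 := hc.card_mul
  rw [hPcard, hG] at h1
  exact Nat.eq_of_mul_eq_mul_left (pow_pos (by norm_num : 0 < 2) a) ((mul_comm _ _).trans h1)

end Cfsg.Agent.S3971
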