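import Cfsg.Statements.S3974
import Cfsg.Agent.SchurMult.Uniqueness

set_option autoImplicit false
universe u v
open Cfsg

namespace Cfsg.Agent.S3974

/-- Let `Q` be a finite group with Schur multiplier `A`. Any two Schur covering groups of `Q` (finite stem extensions `σ₁ : Γ₁ →* Q`, `σ₂ : Γ₂ →* Q` with kernels isomorphic to `A`, `Γ₁, Γ₂` in the universe of `Q`) are isomorphic over `Q` — there is a group isomorphism `e : Γ₁ ≃* Γ₂` with `σ₂ ∘ e = σ₁` — if and only if the order of the commutator quotient of `Q` is coprime to the order of `A`. In particular a finite perfect group has a unique Schur covering group up to isomorphism over it. -/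
theorem result {Q : Type u} [Group Q] [Finite Q] {A : Type v} [CommGroup A] (hA : Cfsg.HasSchurMultiplier Q A) : (∀ (Γ₁ Γ₂ : Type u) [Group Γ₁] [Finite Γ₁] [Group Γ₂] [Finite Γ₂] (σ₁ : Γ₁ →* Q) (σ₂ : Γ₂ →* Q), Cfsg.IsStemExtension σ₁ → Cfsg.IsStemExtension σ₂ → Nonempty (σ₁.ker ≃* A) → Nonempty (σ₂.ker ≃* A) → ∃ e : Γ₁ ≃* Γ₂, σ₂.comp e.toMonoidHom = σ₁) ↔ Nat.Coprime (Nat.card (Abelianization Q)) (Nat.card A) := by
  obtain ⟨eA⟩ := CfsgLib.SchurMult.nonempty_mulEquiv_mult hA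
  rw [Nat.card_congr eA.toEquiv]
  constructor
  · intro huniq
    by_contra hn
    obtain ⟨Γ₁, Γ₂, _, _, _, _, σ₁, σ₂, h₁, h₂, ⟨k₁⟩, ⟨k₂⟩, hne⟩ :=
      CfsgLib.SchurMult.exists_two_covers_of_not_coprime hn
    obtain ⟨e, he⟩ := huniq Γ₁ Γ₂ σ₁ σ₂ h₁ h₂ ⟨k₁.trans eA.symm⟩ ⟨k₂.trans eA.symm⟩
    exact hne e he
  · intro hcop Γ₁ Γ₂ _ _ _ _ σ₁ σ₂ h₁ h₂ ⟨k₁⟩ ⟨k₂⟩
    exact CfsgLib.SchurMult.cover_unique_of_coprime h₁ h₂ (Nat.card_congr (k₁.trans eA).toEquiv)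
      (Nat.card_congr (k₂.trans eA).toEquiv) hcop

end Cfsg.Agent.S3974
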