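import Cfsg.Statements.S3976
import Cfsg.Agent.PGroup54.WielandtCount

set_option autoImplicit false
open Cfsg

namespace Cfsg.Agent.S3976

theorem normal_count {G : Type*} [Group G] [Finite G] (p m s : ℕ) (hp : p.Prime) (hG : Nat.card G = p ^ m)
    (hs : s ≤ m) : Nat.card {H : Subgroup G // H.Normal ∧ Nat.card H = p ^ s} ≡ 1 [MOD p] := by
  classical
  haveI : Fact p.Prime := ⟨hp⟩
  let X := {H : Subgroup G // Nat.card H = p ^ s}
  letI : MulAction G X :=
    { smul := fun g H => ⟨H.1.map (MulAut.conj g).toMonoidHom,
        (Subgroup.card_map_of_injective (MulAut.conj g).injective).trans H.2⟩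
      one_smul := fun H => Subtype.ext (show H.1.map _ = H.1 by
        ext x; simp)
      mul_smul := fun g h H => Subtype.ext (show H.1.map _ = (H.1.map _).map _ by
        rw [Subgroup.map_map, map_mul]; rfl) }
  have h1 := (IsPGroup.of_card hG).card_modEq_card_fixedPoints X
  have e : Nat.card (MulAction.fixedPoints G X) = Nat.card {H : Subgroup G // H.Normal ∧ Nat.card H = p ^ s} := by
    refine Nat.card_congr
      { toFun := fun H => ⟨H.1.1, ⟨fun n hn g => ?_⟩, H.1.2⟩
        invFun := fun H => ⟨⟨H.1, H.2.2⟩, fun g => Subtype.ext ?_⟩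
        left_inv := fun H => rfl
        right_inv := fun H => rfl }
    · have := congrArg Subtype.val (H.2 g)
      rw [← this]
      exact Subgroup.mem_map_of_mem (MulAut.conj g).toMonoidHom hn
    · haveI := H.2.1
      exact H.1.normal_iff_map_conj_eq.mp H.2.1 g
  rw [← e]
  exact h1.symm.trans (CfsgLib.PGroup54.card_subgroup_modEq_one p s hp (hG ▸ pow_dvd_pow p hs))


/-- Let `p` be a prime and `G` a group of order `p ^ m`. For every `s ≤ m` the number of normal subgroups of `G` of order `p ^ s` is congruent to `1` modulo `p`. -/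
theorem result {G : Type*} [Group G] [Finite G] (p m s : ℕ) (hp : p.Prime) (hG : Nat.card G = p ^ m) (hs : s ≤ m) : Nat.card {H : Subgroup G // H.Normal ∧ Nat.card H = p ^ s} ≡ 1 [MOD p] := by
  exact normal_count p m s hp hG hs

end Cfsg.Agent.S3976
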