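import Cfsg.Statements.S3977
import Cfsg.Agent.PGroup.Frattini
import Cfsg.Agent.PGroup.Commutator
open scoped commutatorElement

set_option autoImplicit false
open Cfsg

namespace Cfsg.Agent.S3977

universe u

theorem aux {p : ℕ} (hp : p.Prime) {s : ℕ} (hs : 1 ≤ s) (h2 : p ≠ 2 ∨ 2 ≤ s) :
    ∀ (m : ℕ) (G : Type u) [Group G] [Finite G], Nat.card G = p ^ m → s < m →
      (∀ H K : Subgroup G, Nat.card H = p ^ s → Nat.card K = p ^ s → H = K) → IsCyclic G := by
  intro m
  induction m with
  | zero => intro G _ _ _ h; exact absurd h (Nat.not_lt_zero s)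
  | succ m ih =>
    intro G _ _ hG hsm huniq
    haveI := Fact.mk hp
    have hP : IsPGroup p G := IsPGroup.of_card hG
    haveI : Nontrivial G := by
      rw [← Finite.one_lt_card_iff_nontrivial, hG]
      exact Nat.one_lt_pow (by omega) hp.one_lt
    obtain ⟨H, hH⟩ := Sylow.exists_subgroup_card_pow_prime p (G := G) (n := s)
      (hG ▸ pow_dvd_pow p hsm.le)
    have hsmall : ∀ z : G, z ^ p ^ s = 1 → z ∈ H := by
      intro z hz
      obtain ⟨j, hj, hjc⟩ := (Nat.dvd_prime_pow hp).1 (orderOf_dvd_of_pow_eq_one hz)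
      obtain ⟨K, hK, hzK⟩ := Sylow.exists_subgroup_card_pow_prime_le p
        (hG ▸ pow_dvd_pow p hsm.le) (Subgroup.zpowers z) (by rw [Nat.card_zpowers, hjc]) hj
      exact huniq K H hK hH ▸ hzK (Subgroup.mem_zpowers z)
    have hmaxcard : ∀ M : Subgroup G, IsCoatom M → Nat.card M = p ^ m := by
      intro M hM
      have h := M.card_mul_index
      rw [CfsgLib.PGroup.index_of_coatom hP hM, hG, pow_succ] at h
      exact Nat.eq_of_mul_eq_mul_right hp.pos h
    have hHM : ∀ M : Subgroup G, IsCoatom M → H ≤ M := by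
      intro M hM
      obtain ⟨K, hK⟩ := Sylow.exists_subgroup_card_pow_prime p (G := M) (n := s)
        (hmaxcard M hM ▸ pow_dvd_pow p (by omega))
      rw [← huniq (K.map M.subtype) H
        (by rw [Subgroup.card_map_of_injective M.subtype_injective, hK]) hH]
      exact Subgroup.map_subtype_le K
    by_contra hnc
    obtain ⟨M, hM, -⟩ := (eq_top_or_exists_le_coatom (⊥ : Subgroup G)).resolve_left bot_ne_top
    obtain ⟨a, ha⟩ : ∃ a, a ∉ M := by
      by_contra hcon; push Not at hcon; exact hM.1 ((Subgroup.eq_top_iff' _).2 hcon)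
    obtain ⟨M', hM', haM'⟩ := (eq_top_or_exists_le_coatom (Subgroup.zpowers a)).resolve_left
      fun he => hnc ⟨a, fun y => by rw [← Subgroup.mem_zpowers_iff]; rw [he]; trivial⟩
    have hne : M ≠ M' := fun he => ha (he ▸ haM' (Subgroup.mem_zpowers a))
    rcases (show s = m ∨ s < m by omega) with rfl | hlt
    · exact hne ((huniq M H (hmaxcard M hM) hH).trans (huniq M' H (hmaxcard M' hM') hH).symm)
    have hcyc : ∀ L : Subgroup G, IsCoatom L → IsCyclic L := fun L hL =>
      ih L (hmaxcard L hL) hlt fun A B hA hB => Subgroup.map_injective L.subtype_injective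
        (huniq _ _ (by rw [Subgroup.card_map_of_injective L.subtype_injective, hA])
          (by rw [Subgroup.card_map_of_injective L.subtype_injective, hB]))
    obtain ⟨x, rfl⟩ := (Subgroup.isCyclic_iff_exists_zpowers_eq_top _).1 (hcyc M hM)
    obtain ⟨y, rfl⟩ := (Subgroup.isCyclic_iff_exists_zpowers_eq_top _).1 (hcyc M' hM')
    set D := Subgroup.zpowers x ⊓ Subgroup.zpowers y with hD
    have hsup : Subgroup.zpowers x ⊔ Subgroup.zpowers y = ⊤ := by
      rcases lt_or_eq_of_le (le_sup_left : Subgroup.zpowers x ≤ _ ⊔ Subgroup.zpowers y) with h | h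
      · exact hM.2 _ h
      · exact absurd (hM'.2 _ (lt_of_le_of_ne (sup_eq_left.1 h.symm) hne.symm)) hM.1
    have hcen : D ≤ Subgroup.center G := by
      intro z hz
      have : (⊤ : Subgroup G) ≤ Subgroup.centralizer {z} := by
        rw [← hsup]
        refine sup_le (Subgroup.zpowers_le.2 ?_) (Subgroup.zpowers_le.2 ?_) <;>
          rw [Subgroup.mem_centralizer_singleton_iff]
        · obtain ⟨i, rfl⟩ := Subgroup.mem_zpowers_iff.1 hz.1
          exact (Commute.self_zpow x i).eq
        · obtain ⟨i, rfl⟩ := Subgroup.mem_zpowers_iff.1 hz.2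
          exact (Commute.self_zpow y i).eq
      exact Subgroup.mem_center_iff.2 fun g =>
        Subgroup.mem_centralizer_singleton_iff.1 (this (Subgroup.mem_top g))
    have hpD : ∀ z : G, z ^ p ∈ D := fun z => (le_inf (frattini_le_coatom hM)
      (frattini_le_coatom hM')) (CfsgLib.PGroup.pow_prime_mem_frattini hP z)
    have hDcard : Nat.card D < p ^ m := by
      rw [← hmaxcard _ hM]
      refine lt_of_not_ge fun hge => ?_
      have h1 := Subgroup.eq_of_le_of_card_ge (inf_le_left : D ≤ Subgroup.zpowers x) hge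
      exact hne (Subgroup.eq_of_le_of_card_ge (h1 ▸ inf_le_right)
        (by rw [hmaxcard _ hM, hmaxcard _ hM']))
    have hxp : Subgroup.zpowers (x ^ p) = D := by
      refine Subgroup.eq_of_le_of_card_ge (Subgroup.zpowers_le.2 (hpD x)) ?_
      have hox : orderOf x = p ^ m := by rw [← Nat.card_zpowers, hmaxcard _ hM]
      obtain ⟨j, hj⟩ := IsPGroup.iff_card.1 (hP.to_subgroup D)
      rw [hj, Nat.pow_lt_pow_iff_right hp.one_lt] at hDcard
      rw [hj, Nat.card_zpowers, orderOf_pow' _ hp.ne_zero, hox,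
        Nat.gcd_eq_right (dvd_pow_self p (by omega)), Nat.le_div_iff_mul_le hp.pos, ← pow_succ]
      exact Nat.pow_le_pow_right hp.pos (by omega)
    obtain ⟨i, hi⟩ : ∃ i : ℤ, (x ^ p) ^ i = y ^ p :=
      Subgroup.mem_zpowers_iff.1 (hxp.ge (hpD y))
    set w := x ^ (-i) with hw
    have hcl : ⁅y, w⁆ ∈ Subgroup.center G :=
      hcen ((le_inf (frattini_le_coatom hM) (frattini_le_coatom hM'))
        (CfsgLib.PGroup.commutatorElement_mem_frattini hP y w))
    have hcy : Commute ⁅y, w⁆ y := (Subgroup.mem_center_iff.1 hcl y).symm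
    have hcw : Commute ⁅y, w⁆ w := (Subgroup.mem_center_iff.1 hcl w).symm
    have hcp : ⁅y, w⁆ ^ p = 1 := by
      rw [← CfsgLib.PGroup.commutatorElement_pow_left hcy, commutatorElement_eq_one_iff_mul_comm]
      exact (Subgroup.mem_center_iff.1 (hcen (hpD y)) w).symm
    have hwp : y ^ p * w ^ p = 1 := by
      rw [hw, ← hi, ← zpow_natCast (x ^ (-i)) p, ← zpow_mul, ← zpow_natCast x p, ← zpow_mul,
        ← zpow_add, show (p : ℤ) * i + -i * p = 0 by ring, zpow_zero]
    have hz : (y * w) ^ p ^ s = 1 := by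
      have h3 := CfsgLib.PGroup.mul_pow_mul_commutatorElement hcy hcw p
      rw [hwp] at h3
      rcases h2 with hp2 | hs2
      · obtain ⟨k, hk⟩ := CfsgLib.PGroup.dvd_choose_two_of_odd (hp.odd_of_ne_two hp2)
        rw [hk, pow_mul, hcp, one_pow, mul_one] at h3
        obtain ⟨t, ht⟩ := Nat.exists_eq_add_of_le hs
        rw [ht, pow_add, pow_one, pow_mul, h3, one_pow]
      · have h4 : ((y * w) ^ p) ^ p = 1 := by
          rw [eq_inv_of_mul_eq_one_left h3, inv_pow, ← pow_mul, mul_comm, pow_mul, hcp, one_pow,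
            inv_one]
        obtain ⟨t, ht⟩ := Nat.exists_eq_add_of_le hs2
        rw [ht, pow_add, pow_two, pow_mul, pow_mul, h4, one_pow]
    have hyM : y ∈ Subgroup.zpowers x := by
      have h5 : y * w ∈ Subgroup.zpowers x := hHM _ hM (hsmall _ hz)
      exact (Subgroup.mul_mem_cancel_right _
        (zpow_mem (Subgroup.mem_zpowers x) (-i))).1 h5
    exact hne (Subgroup.eq_of_le_of_card_ge (Subgroup.zpowers_le.2 hyM)
      (by rw [hmaxcard _ hM, hmaxcard _ hM'])).symm


/-- Let `p` be a prime and `G` a group of order `p ^ m` which has exactly one subgroup of order `p ^ s`, where `1 ≤ s < m`, and where `s ≥ 2` if `p = 2`. Then `G` is cyclic. (For `p = 2` and `s = 1` the generalized quaternion groups also occur; that case is the classical criterion for a unique involution.) -/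
theorem result {G : Type*} [Group G] [Finite G] (p m s : ℕ) (hp : p.Prime) (hG : Nat.card G = p ^ m) (hs : 1 ≤ s) (hsm : s < m) (h2 : p ≠ 2 ∨ 2 ≤ s) (huniq : ∀ H K : Subgroup G, Nat.card H = p ^ s → Nat.card K = p ^ s → H = K) : IsCyclic G := by
  exact aux hp hs h2 m G hG hsm huniq

end Cfsg.Agent.S3977
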