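import Cfsg.Statements.S3978
import Cfsg.Agent.SchurMult.Projective

set_option autoImplicit false
open Cfsg

namespace Cfsg.Agent.S3978

/-- A finite group `Q` has trivial Schur multiplier if and only if, for every `n`, every homomorphism from `Q` to the projective general linear group (the quotient of `GL n ℂ` by its centre) lifts to a homomorphism into `GL n ℂ`. -/
theorem result {Q : Type*} [Group Q] [Finite Q] : Cfsg.HasCyclicSchurMultiplier Q 1 ↔ ∀ (n : ℕ) (γ : Q →* (GL (Fin n) ℂ ⧸ Subgroup.center (GL (Fin n) ℂ))), ∃ ρ : Q →* GL (Fin n) ℂ, (QuotientGroup.mk' (Subgroup.center (GL (Fin n) ℂ))).comp ρ = γ := by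
  have hid : Cfsg.IsStemExtension (MonoidHom.id Q) := ⟨Function.surjective_id, by simp, by simp⟩
  constructor
  · intro h n γ
    obtain ⟨e⟩ := CfsgLib.SchurMult.nonempty_mulEquiv_mult h
    have hc : Nat.card (CfsgLib.SchurMult.Mult Q) ≤ Nat.card (MonoidHom.id Q).ker := by
      rw [← Nat.card_congr e.toEquiv]
      exact (Nat.card_le_card_of_surjective (fun _ => (1 : Multiplicative (ZMod 1)))
        (fun x => ⟨1, Subsingleton.elim _ _⟩))
    obtain ⟨ρ, hρ⟩ := CfsgLib.SchurMult.exists_lift_projective hid hc n γ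
    exact ⟨ρ, by rw [hρ, MonoidHom.comp_id]⟩
  · intro h
    rw [CfsgLib.SchurMult.hasCyclicSchurMultiplier_one_iff]
    intro Γ _ _ σ hσ
    obtain ⟨π, hπ⟩ := CfsgLib.SchurMult.exists_surjective_of_lifting hid
      (fun n γ => by
        obtain ⟨ρ, hρ⟩ := h n γ
        exact ⟨ρ, by rw [hρ, MonoidHom.comp_id]⟩) hσ
    haveI : Subsingleton (MonoidHom.id Q).ker :=
      ⟨fun a b => Subtype.ext ((show (a : Q) = 1 from a.2).trans (show (b : Q) = 1 from b.2).symm)⟩
    haveI : Subsingleton σ.ker := hπ.subsingleton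
    exact Subgroup.eq_bot_of_subsingleton _

end Cfsg.Agent.S3978
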