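import Cfsg.Statements.S3979
import Mathlib

set_option autoImplicit false
open Cfsg

namespace Cfsg.Agent.S3979

/-- A finite cyclic group has trivial Schur multiplier: every finite stem extension of it is an isomorphism, said through `HasCyclicSchurMultiplier G 1`. -/
theorem result {G : Type*} [Group G] [Finite G] [IsCyclic G] : Cfsg.HasCyclicSchurMultiplier G 1 := by
  refine ⟨⟨G, inferInstance, inferInstance, MonoidHom.id G, ⟨Function.surjective_id, ?_, ?_⟩, ?_⟩, ?_⟩
  · intro x hx
    rw [show x = 1 from hx]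
    exact Subgroup.one_mem _
  · intro x hx
    rw [show x = 1 from hx]
    exact Subgroup.one_mem _
  · haveI : Subsingleton (MonoidHom.id G).ker :=
      ⟨fun a b => Subtype.ext ((show (a : G) = 1 from a.2).trans (show (b : G) = 1 from b.2).symm)⟩
    exact ⟨@MulEquiv.ofUnique _ _ (uniqueOfSubsingleton 1) (uniqueOfSubsingleton 1) _ _⟩
  · intro Γ _ _ σ hσ
    letI : CommGroup Γ := commGroupOfCyclicCenterQuotient σ hσ.2.1
    refine ⟨1, fun y => ⟨1, ?_⟩⟩
    have hy := hσ.2.2 y.2
    rw [commutator_eq_closure] at hy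
    have h1 : (y : Γ) ∈ (⊥ : Subgroup Γ) := by
      refine (Subgroup.closure_le _).2 ?_ hy
      rintro _ ⟨a, b, rfl⟩
      simp [commutatorElement_def, mul_comm a b]
    exact Subtype.ext (Subgroup.mem_bot.1 h1).symm

end Cfsg.Agent.S3979
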