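import Cfsg.Statements.S3994
import Cfsg.Agent.Counting.Frobenius

set_option autoImplicit false
open Cfsg

namespace Cfsg.Agent.S3994

theorem dvd_count {G : Type*} [Group G] [Finite G] (L : ℕ) (hL : L ∣ Nat.card G) (a : ℕ → ℕ)
    (s : Finset ℕ) (hs : ∀ p ∈ s, p.Prime ∧ 0 < a p ∧ ¬ p ∣ L ∧ a p ≤ (Nat.card G).factorization p) :
    ∀ d : ℕ, d ∣ Nat.card G → L ∣ d → L ∣ Nat.card {g : G // g ^ d = 1 ∧ ∀ p ∈ s, p ^ a p ∣ orderOf g} := by
  classical
  haveI := Fintype.ofFinite G
  induction s using Finset.induction_on with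
  | empty =>
    intro d hd hLd
    refine dvd_trans ?_ (dvd_of_eq (Nat.card_congr (Equiv.subtypeEquivRight fun g : G => (by simp : g ^ d = 1 ↔ (g ^ d = 1 ∧ ∀ p ∈ (∅ : Finset ℕ), p ^ a p ∣ orderOf g)))))
    exact hLd.trans (CfsgLib.Counting.card_pow_eq_one_dvd hd)
  | insert p s hps ih =>
    intro d hd hLd
    have ih' := ih fun q hq => hs q (Finset.mem_insert_of_mem hq)
    obtain ⟨hp, hap, hpL, hle⟩ := hs p (Finset.mem_insert_self p s)
    set n := Nat.card G
    have hn : n ≠ 0 := Nat.card_pos.ne'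
    set e := Nat.gcd d (p ^ (a p - 1) * ordCompl[p] n) with he
    have hsplit : Nat.card {g : G // g ^ d = 1 ∧ ∀ q ∈ s, q ^ a q ∣ orderOf g} =
        Nat.card {g : G // g ^ e = 1 ∧ ∀ q ∈ s, q ^ a q ∣ orderOf g} +
        Nat.card {g : G // g ^ d = 1 ∧ ∀ q ∈ insert p s, q ^ a q ∣ orderOf g} := by
      simp only [Nat.card_eq_fintype_card, Fintype.card_subtype]
      rw [← Finset.card_union_of_disjoint]
      · congr 1
        ext g
        simp only [Finset.mem_union, Finset.mem_filter, Finset.mem_univ, true_and, Finset.forall_mem_insert]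
        constructor
        · rintro ⟨h, hq⟩
          by_cases hpo : p ^ a p ∣ orderOf g
          · exact Or.inr ⟨h, hpo, hq⟩
          · refine Or.inl ⟨pow_gcd_eq_one.mpr ⟨h, ?_⟩, hq⟩
            rw [← orderOf_dvd_iff_pow_eq_one]
            have ho : orderOf g ≠ 0 := (orderOf_pos g).ne'
            rw [hp.pow_dvd_iff_le_factorization ho] at hpo
            calc orderOf g = p ^ (orderOf g).factorization p * ordCompl[p] (orderOf g) :=
                  (Nat.ordProj_mul_ordCompl_eq_self _ _).symm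
              _ ∣ _ := mul_dvd_mul (pow_dvd_pow p (by omega))
                  (Nat.ordCompl_dvd_ordCompl_of_dvd (orderOf_dvd_natCard g) p)
        · rintro (⟨h, hq⟩ | ⟨h, -, hq⟩)
          · obtain ⟨c, hc⟩ := Nat.gcd_dvd_left d (p ^ (a p - 1) * ordCompl[p] n)
            exact ⟨by rw [hc, pow_mul, ← he, h, one_pow], hq⟩
          · exact ⟨h, hq⟩
      · rw [Finset.disjoint_left]
        intro g hg hg'
        simp only [Finset.mem_filter, Finset.mem_univ, true_and, Finset.forall_mem_insert] at hg hg'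
        have h1 : p ^ a p ∣ p ^ (a p - 1) * ordCompl[p] n :=
          hg'.2.1.trans ((orderOf_dvd_of_pow_eq_one hg.1).trans (Nat.gcd_dvd_right _ _))
        have h2 := ((Nat.coprime_ordCompl hp hn).pow_left (a p)).dvd_of_dvd_mul_right h1
        rw [Nat.pow_dvd_pow_iff_le_right hp.one_lt] at h2
        omega
    have hed : e ∣ n := (Nat.gcd_dvd_left _ _).trans hd
    have hLe : L ∣ e := by
      refine Nat.dvd_gcd hLd (dvd_mul_of_dvd_right ?_ _)
      have h1 : L ∣ ordProj[p] n * ordCompl[p] n := by rw [Nat.ordProj_mul_ordCompl_eq_self]; exact hL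
      exact ((hp.coprime_iff_not_dvd.mpr hpL).pow_left _).symm.dvd_of_dvd_mul_left h1
    exact (Nat.dvd_add_right (ih' e hed hLe)).mp (hsplit ▸ ih' d hd hLd)

/-- Let G be a finite group and n a positive integer. The number of elements of G whose order is divisible by n is either 0 or divisible by the largest divisor of the order of G that is coprime to n. -/
theorem result {G : Type*} [Group G] [Finite G] (n : ℕ) (hn : 0 < n) :
    Nat.card {g : G // n ∣ orderOf g} = 0 ∨
      (Nat.card G / Nat.gcd (Nat.card G) (n ^ Nat.card G)) ∣ Nat.card {g : G // n ∣ orderOf g} := by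
  classical
  set N := Nat.card G with hN
  have hN0 : N ≠ 0 := Nat.card_pos.ne'
  by_cases hnN : n ∣ N
  swap
  · left
    have : IsEmpty {g : G // n ∣ orderOf g} := ⟨fun g => hnN (g.2.trans (orderOf_dvd_natCard _))⟩
    exact Nat.card_of_isEmpty
  right
  set D := Nat.gcd N (n ^ N)
  set L := N / D with hLd
  have hLN : L ∣ N := Nat.div_dvd_of_dvd (Nat.gcd_dvd_left _ _)
  have hpL : ∀ p ∈ n.primeFactors, ¬ p ∣ L := by
    intro p hp hd
    obtain ⟨hpp, hpn, -⟩ := Nat.mem_primeFactors.mp hp
    have hv : N.factorization p < N := Nat.factorization_lt p hN0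
    have h1 : p ^ N.factorization p ∣ D := Nat.dvd_gcd (Nat.ordProj_dvd N p)
      ((pow_dvd_pow p hv.le).trans (pow_dvd_pow_of_dvd hpn N))
    have h2 : p ^ (N.factorization p + 1) ∣ N := by
      have := mul_dvd_mul h1 hd
      rw [hLd, Nat.mul_div_cancel' (Nat.gcd_dvd_left N (n ^ N)), ← pow_succ] at this
      exact this
    rw [hpp.pow_dvd_iff_le_factorization hN0] at h2
    omega
  have key := dvd_count L (hN ▸ hLN) n.factorization n.primeFactors (fun p hp => by
    obtain ⟨hpp, hpn, -⟩ := Nat.mem_primeFactors.mp hp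
    exact ⟨hpp, hpp.factorization_pos_of_dvd hn.ne' hpn, hpL p hp,
      (Nat.factorization_le_iff_dvd hn.ne' hN0).mpr hnN p⟩) (Nat.card G) dvd_rfl (hN ▸ hLN)
  refine key.trans (dvd_of_eq (Nat.card_congr (Equiv.subtypeEquivRight fun g => ?_)))
  constructor
  · rintro ⟨-, h⟩
    rw [← Nat.factorization_le_iff_dvd hn.ne' (orderOf_pos g).ne']
    intro p
    by_cases hp : p ∈ n.primeFactors
    · exact ((Nat.mem_primeFactors.mp hp).1.pow_dvd_iff_le_factorization (orderOf_pos g).ne').mp (h p hp)
    · rw [← Nat.support_factorization, Finsupp.notMem_support_iff] at hp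
      rw [hp]; exact Nat.zero_le _
  · intro h
    exact ⟨pow_card_eq_one', fun p hp => (Nat.ordProj_dvd n p).trans h⟩

end Cfsg.Agent.S3994
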