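import Cfsg.Statements.S3996
import Cfsg.Agent.OrderCounts.Basic
import Cfsg.Agent.Chars.Apps.Burnside

set_option autoImplicit false
open Cfsg

namespace Cfsg.Agent.S3996

open CfsgLib.OrderCounts
open Cfsg.Agent.S3995 (cnt totient_dvd_cnt dvd_sum_cnt sum_divisors_mul_coprime)

/-- A finite group in which the numbers of elements of each order that occurs (the numbers #{g : o(g) = m}, m ranging over the element orders) take exactly three different values is solvable. -/
theorem result {G : Type*} [Group G] [Finite G] (h : (((fun m : ℕ => Nat.card {g : G // orderOf g = m}) '' Set.range (orderOf : G → ℕ))).ncard = 3) : Group.IsSolvable G := by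
  classical
  haveI : Fact (Nat.Prime 2) := ⟨Nat.prime_two⟩
  set S := (fun m : ℕ => Nat.card {g : G // orderOf g = m}) '' Set.range (orderOf : G → ℕ) with hS
  have hmem : ∀ m, cnt G m ≠ 0 → cnt G m ∈ S := fun m hm => by
    obtain ⟨x, hx⟩ := (cnt_ne_zero_iff m).mp hm
    exact ⟨m, ⟨x, hx⟩, rfl⟩
  have heven : ∀ m, 3 ≤ m → Even (cnt G m) := fun m hm =>
    even_iff_two_dvd.mpr ((Nat.totient_even (by omega)).two_dvd.trans (totient_dvd_cnt m))
  have h1S : 1 ∈ S := by
    have := hmem 1 (by rw [cnt_one]; exact one_ne_zero)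
    rwa [cnt_one] at this
  -- at most two values at orders at least three
  obtain ⟨a, b, hab⟩ : ∃ a b, S \ {1} = {a, b} := by
    have h2 : (S \ {1}).ncard = 2 := by rw [Set.ncard_diff_singleton_of_mem h1S, h]
    obtain ⟨a, b, -, e⟩ := Set.ncard_eq_two.mp h2
    exact ⟨a, b, e⟩
  have hT : TwoValues G a b := by
    intro m hm hm0
    have h1 : cnt G m ∈ S \ {1} := ⟨hmem m hm0, fun e => by
      have := heven m hm; rw [Set.mem_singleton_iff] at e; rw [e] at this; exact absurd this (by decide)⟩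
    rw [hab] at h1
    simpa using h1
  by_cases hone : ∀ p q : ℕ, p.Prime → q.Prime → p ≠ 2 → q ≠ 2 → p ∣ Nat.card G → q ∣ Nat.card G → p = q
  · by_cases hex : ∃ p : ℕ, p.Prime ∧ p ≠ 2 ∧ p ∣ Nat.card G
    · obtain ⟨p, hp, hp2, hpd⟩ := hex
      exact CfsgLib.Chars.Apps.isSolvable_of_primeFactors_subset G hp Nat.prime_two fun r hr hrd => by
        by_cases hr2 : r = 2
        · exact Or.inr hr2
        · exact Or.inl (hone r p hr hp hr2 hp2 hrd hpd)
    · push_neg at hex
      exact CfsgLib.Chars.Apps.isSolvable_of_primeFactors_subset G Nat.prime_two Nat.prime_two fun r hr hrd =>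
        Or.inl (by by_contra hr2; exact hex r hr hr2 hrd)
  push_neg at hone
  obtain ⟨p, q, hp, hq, hp2, hq2, hpd, hqd, hne⟩ := hone
  have hprimes : ∀ r : ℕ, r.Prime → r ∣ Nat.card G → r = 2 ∨ r = p ∨ r = q := by
    intro r hr hrd
    by_cases hr2 : r = 2
    · exact Or.inl hr2
    rcases odd_primes_le_two hT hr hp hq hr2 hp2 hq2 hrd hpd hqd with e | e | e
    · exact Or.inr (Or.inl e)
    · exact Or.inr (Or.inr e)
    · exact absurd e hne
  by_cases h2G : 2 ∣ Nat.card G
  swap
  · exact CfsgLib.Chars.Apps.isSolvable_of_primeFactors_subset G hp hq fun r hr hrd =>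
      (hprimes r hr hrd).resolve_left fun e => h2G (e ▸ hrd)
  obtain ⟨hp3, hq3, hpq3, hφq, hφp, hco⟩ := pair_three_le hp hq hp2 hq2 hne hpd hqd
  -- a single involution
  have hc2 : cnt G 2 = 1 := by
    by_contra hne2
    have hodd : Odd (cnt G 2) := by
      have h := dvd_sum_cnt (G := G) two_ne_zero h2G
      rw [Nat.prime_two.sum_divisors, cnt_one] at h
      rw [Nat.odd_iff]; omega
    have h2mem : cnt G 2 ∈ S \ {1} := ⟨hmem 2 (cnt_prime_ne_zero Nat.prime_two h2G), hne2⟩
    rw [hab] at h2mem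
    obtain ⟨w, hw⟩ : ∃ w, ∀ m, 3 ≤ m → cnt G m ≠ 0 → cnt G m = w := by
      rcases h2mem with e | e
      · refine ⟨b, fun m hm hm0 => (hT m hm hm0).resolve_left fun e' => ?_⟩
        have h' := heven m hm; rw [e', ← e] at h'; exact (Nat.not_even_iff_odd.mpr hodd) h'
      · refine ⟨a, fun m hm hm0 => (hT m hm hm0).resolve_right fun e' => ?_⟩
        have h' := heven m hm
        rw [Set.mem_singleton_iff] at e
        rw [e', ← e] at h'; exact (Nat.not_even_iff_odd.mpr hodd) h'
    have hp0 := cnt_prime_ne_zero (G := G) hp hpd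
    obtain ⟨h0, h1, -⟩ := same_pair hp hq hp2 hq2 hne hpd hqd
      ((hw p hp3 hp0).trans (hw q hq3 (cnt_prime_ne_zero hq hqd)).symm)
    exact h1 ((hw _ hpq3 h0).trans (hw p hp3 hp0).symm)
  have huniq : ∀ s t : G, orderOf s = 2 → orderOf t = 2 → s = t := fun s t hs ht => by
    have := (Nat.card_eq_one_iff_unique.mp hc2).1
    exact congrArg Subtype.val (Subsingleton.elim (⟨s, hs⟩ : {g : G // orderOf g = 2}) ⟨t, ht⟩)
  obtain ⟨z, hz⟩ := exists_prime_orderOf_dvd_card' (G := G) 2 h2G
  have hzc : ∀ g : G, Commute g z := fun g =>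
    mul_inv_eq_iff_eq_mul.mp (huniq _ z ((MulEquiv.orderOf_eq (MulAut.conj g) z).trans hz) hz)
  by_cases h4 : ∃ x : G, orderOf x = 4
  · exfalso
    obtain ⟨x, hx⟩ := h4
    have h4G : 4 ∣ Nat.card G := hx ▸ orderOf_dvd_natCard x
    have h40 : cnt G 4 ≠ 0 := (cnt_ne_zero_iff 4).mpr ⟨x, hx⟩
    have hdouble : ∀ d, Nat.Coprime 2 d → cnt G (2 * d) = cnt G d := by
      intro d hd
      refine (Nat.card_congr (Equiv.ofBijective (fun g : {g : G // orderOf g = d} =>
        (⟨z * g, by rw [(hzc (g : G)).symm.orderOf_mul_eq_mul_orderOf_of_coprime (by rw [hz, g.2]; exact hd), hz, g.2]⟩ :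
          {g : G // orderOf g = 2 * d})) ⟨fun u v huv => Subtype.ext (mul_left_cancel (congrArg Subtype.val huv)), ?_⟩)).symm
      intro w
      obtain ⟨w, hw⟩ := w
      have hz2 : z * z = 1 := by rw [← pow_two, ← hz, pow_orderOf_eq_one]
      have hwd : orderOf ((w : G) ^ d) = 2 := by
        rcases Nat.eq_zero_or_pos d with rfl | hd0
        · simp at hd
        rw [orderOf_pow' _ hd0.ne', hw, Nat.gcd_mul_left_left, Nat.mul_div_cancel _ hd0]
      have hwz : (w : G) ^ d = z := huniq _ _ hwd hz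
      refine ⟨⟨z * w, ?_⟩, Subtype.ext (by show z * (z * w) = w; rw [← mul_assoc, hz2, one_mul])⟩
      have h1 : (z * w) ^ d = 1 := by
        obtain ⟨k, hk⟩ : Odd d := Nat.coprime_two_left.mp hd
        have hzd : z ^ d = z := by rw [hk, pow_succ, pow_mul, pow_two, hz2, one_pow, one_mul]
        rw [(hzc (w : G)).symm.mul_pow, hzd, hwz, hz2]
      have h2 := orderOf_dvd_of_pow_eq_one h1
      have h3 : orderOf (w : G) ∣ orderOf (z * w) * 2 := by
        rw [orderOf_dvd_iff_pow_eq_one]
        calc (w : G) ^ (orderOf (z * w) * 2) = (z * (z * w)) ^ (orderOf (z * w) * 2) := by rw [← mul_assoc, hz2, one_mul]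
          _ = (z ^ 2) ^ orderOf (z * w) * ((z * w) ^ orderOf (z * w)) ^ 2 := by
            rw [((Commute.refl z).mul_right (hzc (w : G)).symm).mul_pow, ← pow_mul, ← pow_mul, mul_comm 2]
          _ = 1 := by rw [← hz, pow_orderOf_eq_one, one_pow, pow_orderOf_eq_one, one_pow, one_mul]
      rw [hw, mul_comm 2 d] at h3
      exact Nat.dvd_antisymm h2 (Nat.dvd_of_mul_dvd_mul_right two_pos h3)
    -- orders dividing `4 r`
    have hfour : ∀ r : ℕ, r.Prime → r ≠ 2 → r ∣ Nat.card G →
        (2 : ZMod r) + cnt G 4 + 2 * cnt G r + cnt G (r * 4) = 0 ∧ Nat.Coprime r 4 := by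
      intro r hr hr2 hrd
      have hc : Nat.Coprime r 4 := ((Nat.coprime_primes hr Nat.prime_two).mpr hr2).pow_right 2
      refine ⟨?_, hc⟩
      have h := cast_sum_eq_zero (G := G) (Nat.mul_ne_zero hr.ne_zero four_ne_zero) (hc.mul_dvd_of_dvd_of_dvd hrd h4G)
        (dvd_mul_right r 4)
      rw [sum_divisors_mul_coprime hc] at h
      simp only [hr.sum_divisors] at h
      rw [show (4 : ℕ).divisors = {1, 2, 4} by decide] at h
      simp only [Finset.sum_insert, Finset.mem_insert, Finset.mem_singleton, Finset.sum_singleton,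
        show ¬ (1 = 2 ∨ 1 = 4) by omega, show ¬ (2 = 4) by omega, not_false_eq_true, one_mul, mul_one, cnt_one, hc2,
        Nat.cast_add, Nat.cast_one, mul_comm r 2, hdouble r ((Nat.coprime_primes Nat.prime_two hr).mpr (Ne.symm hr2))] at h
      linear_combination h
    have hp0 := cnt_prime_ne_zero (G := G) hp hpd
    have hq0 := cnt_prime_ne_zero (G := G) hq hqd
    -- if `r` is a prime with `c(r) = c(4)` then `c(4r)` is the other value and is `1` modulo `r`
    have hsame : ∀ r : ℕ, r.Prime → r ≠ 2 → r ∣ Nat.card G → cnt G 4 = cnt G r →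
        (cnt G (r * 4) : ZMod r) = 1 ∧ cnt G (r * 4) ≠ cnt G r ∧ cnt G (r * 4) ≠ 0 := by
      intro r hr hr2 hrd heq
      haveI := Fact.mk hr
      obtain ⟨e, hc⟩ := hfour r hr hr2 hrd
      have hle := totient_mul_cnt_le hr hc (heq ▸ not_dvd_cnt_prime hr hrd)
      rw [show Nat.totient 4 = 2 by decide] at hle
      have := Nat.pos_of_ne_zero (cnt_prime_ne_zero (G := G) hr hrd)
      refine ⟨?_, by omega, by omega⟩
      rw [heq, cast_prime hr hrd] at e
      linear_combination e
    haveI := Fact.mk hp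
    haveI := Fact.mk hq
    by_cases heq : cnt G p = cnt G q
    · obtain ⟨h0, h1, h1'⟩ := same_pair hp hq hp2 hq2 hne hpd hqd heq
      have h4p : cnt G 4 = cnt G p := by
        by_contra hne4
        have e4 : cnt G 4 = cnt G (p * q) := hT.eq_of_ne_ne hp3 (by norm_num) hpq3 hp0 h40 h0 hne4 h1
        obtain ⟨e, hc⟩ := hfour p hp hp2 hpd
        have hle := totient_mul_cnt_le hp hc (by rw [e4, ← ZMod.natCast_eq_zero_iff, h1']; exact one_ne_zero)
        rw [show Nat.totient 4 = 2 by decide] at hle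
        have := Nat.pos_of_ne_zero hp0
        have e5 : cnt G (p * 4) = cnt G (p * q) := hT.eq_of_ne_ne hp3 (by omega) hpq3 hp0 (by omega) h0 (by omega) h1
        rw [e5, e4, h1', cast_prime hp hpd] at e
        exact two_ne_zero_zmod hp hp2 (by linear_combination e)
      obtain ⟨u1, u2, u3⟩ := hsame p hp hp2 hpd h4p
      obtain ⟨v1, v2, v3⟩ := hsame q hq hq2 hqd (h4p.trans heq)
      rw [← heq] at v2
      have eu : cnt G (p * 4) = cnt G (p * q) := hT.eq_of_ne_ne hp3 (by omega) hpq3 hp0 u3 h0 u2 h1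
      have ev : cnt G (q * 4) = cnt G (p * q) := hT.eq_of_ne_ne hp3 (by omega) hpq3 hp0 v3 h0 v2 h1
      -- orders dividing `4pq`
      have hc : Nat.Coprime p (q * 4) := Nat.Coprime.mul_right hco (hfour p hp hp2 hpd).2
      have hle := totient_mul_cnt_le hp hc (by rw [ev, ← ZMod.natCast_eq_zero_iff, h1']; exact one_ne_zero)
      rw [Nat.totient_mul (hfour q hq hq2 hqd).2, show Nat.totient 4 = 2 by decide] at hle
      have := Nat.pos_of_ne_zero hp0
      have hne' : cnt G (p * (q * 4)) ≠ cnt G p := by nlinarith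
      have e : cnt G (p * (q * 4)) = cnt G (p * q) :=
        hT.eq_of_ne_ne hp3 (by nlinarith) hpq3 hp0 (by nlinarith) h0 hne' h1
      have h := cast_sum_eq_zero (G := G) (Nat.mul_ne_zero hp.ne_zero (Nat.mul_ne_zero hq.ne_zero four_ne_zero))
        (hc.mul_dvd_of_dvd_of_dvd hpd ((hfour q hq hq2 hqd).2.mul_dvd_of_dvd_of_dvd hqd h4G)) (dvd_mul_right p _)
      rw [sum_divisors_mul_coprime hc] at h
      simp only [hp.sum_divisors, sum_divisors_mul_coprime (hfour q hq hq2 hqd).2, hq.sum_divisors] at h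
      rw [show (4 : ℕ).divisors = {1, 2, 4} by decide] at h
      simp only [Finset.sum_insert, Finset.mem_insert, Finset.mem_singleton, Finset.sum_singleton,
        show ¬ (1 = 2 ∨ 1 = 4) by omega, show ¬ (2 = 4) by omega, not_false_eq_true, one_mul, mul_one, cnt_one, hc2,
        Nat.cast_add, Nat.cast_one] at h
      have d1 : cnt G (p * 2) = cnt G p := by
        rw [mul_comm]; exact hdouble p ((Nat.coprime_primes Nat.prime_two hp).mpr (Ne.symm hp2))
      have d2 : cnt G (q * 2) = cnt G q := by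
        rw [mul_comm]; exact hdouble q ((Nat.coprime_primes Nat.prime_two hq).mpr (Ne.symm hq2))
      have d3 : cnt G (p * (q * 2)) = cnt G (p * q) := by
        rw [← mul_assoc, mul_comm]
        exact hdouble (p * q) (Nat.Coprime.mul_right ((Nat.coprime_primes Nat.prime_two hp).mpr (Ne.symm hp2))
          ((Nat.coprime_primes Nat.prime_two hq).mpr (Ne.symm hq2)))
      rw [e, eu, ev, d1, d2, d3, h4p, ← heq, h1', cast_prime hp hpd] at h
      exact two_ne_zero_zmod hp hp2 (by linear_combination h)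
    · have key : ∀ r t : ℕ, r.Prime → t.Prime → r ≠ 2 → t ≠ 2 → r ≠ t → r ∣ Nat.card G → t ∣ Nat.card G →
          cnt G r ≠ cnt G t → cnt G 4 = cnt G r → False := by
        intro r t hr ht hr2 ht2 hrt hrd htd hcr he
        haveI := Fact.mk hr
        obtain ⟨u1, u2, u3⟩ := hsame r hr hr2 hrd he
        obtain ⟨-, hdiv, -⟩ := cross_pair hT hr ht hr2 ht2 hrt hrd htd hcr
        obtain ⟨hr3, ht3, -⟩ := pair_three_le hr ht hr2 ht2 hrt hrd htd
        rw [hT.eq_of_ne_ne hr3 (by omega) ht3 (cnt_prime_ne_zero hr hrd) u3 (cnt_prime_ne_zero ht htd) u2 (Ne.symm hcr),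
          (ZMod.natCast_eq_zero_iff _ r).mpr hdiv] at u1
        exact zero_ne_one u1
      rcases hT.eq_of_ne hp3 (by norm_num) hq3 hp0 h40 hq0 (Ne.symm heq) with e | e
      · exact key p q hp hq hp2 hq2 hne hpd hqd heq e
      · exact key q p hq hp hq2 hp2 hne.symm hqd hpd (Ne.symm heq) e
  · -- no element of order four
    have h4G : ¬ 4 ∣ Nat.card G := by
      intro hd
      obtain ⟨H, hH⟩ := Sylow.exists_subgroup_card_pow_prime 2 (n := 2) (by norm_num; exact hd)
      have hsub : (Set.univ : Set H) ⊆ {w : H | (w : G) = 1 ∨ (w : G) = z} := by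
        intro w _
        have h1 : orderOf (w : G) ∣ 2 ^ 2 := by
          rw [Subgroup.orderOf_coe, ← hH]; exact orderOf_dvd_natCard w
        obtain ⟨i, hi, e⟩ := (Nat.dvd_prime_pow Nat.prime_two).mp h1
        interval_cases i
        · exact Or.inl (orderOf_eq_one_iff.mp (by simpa using e))
        · exact Or.inr (huniq _ _ (by simpa using e) hz)
        · exact absurd ⟨(w : G), by simpa using e⟩ h4
      have h2 : Nat.card H ≤ 2 := by
        rw [← Set.ncard_univ]
        refine (Set.ncard_le_ncard hsub (Set.toFinite _)).trans ?_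
        calc {w : H | (w : G) = 1 ∨ (w : G) = z}.ncard ≤ ({1, z} : Set G).ncard :=
              Set.ncard_le_ncard_of_injOn (fun w : H => (w : G)) (fun w hw => by simpa using hw)
                (fun u _ v _ huv => Subtype.ext huv) (Set.toFinite _)
          _ ≤ 2 := (Set.ncard_insert_le _ _).trans (by rw [Set.ncard_singleton])
      rw [hH] at h2
      norm_num at h2
    set Z := Subgroup.zpowers z with hZ
    have hZc : Nat.card Z = 2 := by rw [Nat.card_zpowers, hz]
    haveI : Z.Normal := ⟨fun w hw g => by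
      obtain ⟨i, rfl⟩ := Subgroup.mem_zpowers_iff.mp hw
      rw [((hzc g).zpow_right i).eq, mul_inv_cancel_right]; exact hw⟩
    have hcard : Nat.card (G ⧸ Z) * 2 = Nat.card G := by
      rw [← hZc]; exact (Subgroup.card_eq_card_quotient_mul_card_subgroup Z).symm
    haveI : Group.IsSolvable (G ⧸ Z) :=
      CfsgLib.Chars.Apps.isSolvable_of_primeFactors_subset _ hp hq fun r hr hrd =>
        (hprimes r hr (hrd.trans (Subgroup.card_quotient_dvd_card Z))).resolve_left fun e => h4G (by
          subst e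
          rw [← hcard, show 4 = 2 * 2 from rfl]
          exact Nat.mul_dvd_mul_right hrd 2)
    haveI : Group.IsSolvable Z :=
      CfsgLib.Chars.Apps.isSolvable_of_primeFactors_subset _ Nat.prime_two Nat.prime_two fun r hr hrd => by
        rw [hZc] at hrd
        exact Or.inl ((Nat.prime_dvd_prime_iff_eq hr Nat.prime_two).mp hrd)
    exact Group.isSolvable_of_ker_le_range Z.subtype (QuotientGroup.mk' Z) (by rw [QuotientGroup.ker_mk', Subgroup.range_subtype])

end Cfsg.Agent.S3996
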