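import Cfsg.Statements.S3997
import Mathlib

set_option autoImplicit false
open Cfsg

namespace Cfsg.Agent.S3997

/-- Let G and H be finite groups with the same order type: for every m they have the same number of elements of order m. If G is nilpotent then so is H. -/
theorem result {G H : Type*} [Group G] [Finite G] [Group H] [Finite H] (hT : (∀ m : ℕ, Nat.card {g : G // orderOf g = m} = Nat.card {h : H // orderOf h = m})) (hG : Group.IsNilpotent G) :
    Group.IsNilpotent H := by
  have e : ∀ m, {g : G // orderOf g = m} ≃ {h : H // orderOf h = m} := fun m =>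
    (Finite.equivFin _).trans ((finCongr (hT m)).trans (Finite.equivFin _).symm)
  let σ : G ≃ H := (Equiv.sigmaFiberEquiv (orderOf : G → ℕ)).symm.trans
    ((Equiv.sigmaCongrRight e).trans (Equiv.sigmaFiberEquiv (orderOf : H → ℕ)))
  have hσ : ∀ g, orderOf (σ g) = orderOf g := fun g => (e (orderOf g) ⟨g, rfl⟩).2
  have hcard : Nat.card G = Nat.card H := Nat.card_congr σ
  have hG' := (Group.isNilpotent_of_finite_tfae (G := G)).out 0 3
  have hG2 := hG'.mp hG
  refine ((Group.isNilpotent_of_finite_tfae (G := H)).out 0 3).mpr ?_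
  intro p hp Q
  haveI := hp
  obtain ⟨P⟩ : Nonempty (Sylow p G) := inferInstance
  haveI hPn : (P : Subgroup G).Normal := hG2 p hp P
  haveI := Sylow.unique_of_normal P hPn
  have hQle : ∀ h : H, (∃ k, orderOf h = p ^ k) → h ∈ σ '' ((P : Subgroup G) : Set G) := by
    intro h ⟨k, hk⟩
    refine ⟨σ.symm h, ?_, σ.apply_symm_apply h⟩
    have ho : orderOf (σ.symm h) = p ^ k := by rw [← hσ, σ.apply_symm_apply, hk]
    obtain ⟨R, hR⟩ := (IsPGroup.of_card (G := Subgroup.zpowers (σ.symm h)) (n := k) (by rw [Nat.card_zpowers, ho])).exists_le_sylow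
    rw [Subsingleton.elim P R]; exact hR (Subgroup.mem_zpowers _)
  have hsame : ((Q : Subgroup H) : Set H) = σ '' ((P : Subgroup G) : Set G) := by
    refine Set.eq_of_subset_of_ncard_le ?_ ?_ (Set.toFinite _)
    · intro h hh
      obtain ⟨k, hk⟩ := IsPGroup.iff_orderOf.mp Q.2 ⟨h, hh⟩
      exact hQle h ⟨k, by rwa [Subgroup.orderOf_mk] at hk⟩
    · rw [Set.ncard_image_of_injective _ σ.injective, ← Nat.card_coe_set_eq, ← Nat.card_coe_set_eq]
      show Nat.card (P : Subgroup G) ≤ Nat.card (Q : Subgroup H)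
      rw [Sylow.card_eq_multiplicity, Sylow.card_eq_multiplicity, hcard]
  refine ⟨fun h hh a => ?_⟩
  obtain ⟨k, hk⟩ := IsPGroup.iff_orderOf.mp Q.2 ⟨h, hh⟩
  show a * h * a⁻¹ ∈ ((Q : Subgroup H) : Set H)
  rw [hsame]
  refine hQle _ ⟨k, ?_⟩
  rw [show a * h * a⁻¹ = MulAut.conj a h from rfl, ← hk, Subgroup.orderOf_mk]
  exact orderOf_injective (MulAut.conj a).toMonoidHom (MulAut.conj a).injective h

end Cfsg.Agent.S3997
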