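import Cfsg.Statements.S3998
import Mathlib
import Cfsg.Agent.Eq.Def_SolvableStructure
import Cfsg.Agent.Subnormal.SupersolvableTower

set_option autoImplicit false
open Cfsg

namespace Cfsg.Agent.S3998

/-- In a finite supersolvable group the part of the order made of the primes `≥ t` is the order of
a normal subgroup. -/
theorem exists_upper_hall {G : Type*} [Group G] [Finite G] (hG : Cfsg.IsSupersolvable G) (t : ℕ) :
    ∃ K : Subgroup G, K.Normal ∧ (∀ q : ℕ, q.Prime → q ∣ Nat.card K → t ≤ q) ∧
      ∀ q : ℕ, q.Prime → q ∣ K.index → q < t := by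
  classical
  obtain ⟨n, H, h0, h1, hN, hstep, hmono⟩ := CfsgLib.Supersolvable.exists_primeChain hG
  let A : Finset (Fin (n + 1)) := Finset.univ.filter fun i => ∀ q : ℕ, q.Prime → q ∣ Nat.card (H i) → t ≤ q
  have hA : A.Nonempty := ⟨0, by
    simp only [A, Finset.mem_filter, Finset.mem_univ, true_and, h0, Subgroup.card_bot]
    exact fun q hq hd => absurd (Nat.dvd_one.mp hd) hq.ne_one⟩
  obtain ⟨i, hi, hmax⟩ : ∃ i ∈ A, ∀ j ∈ A, j ≤ i := ⟨A.max' hA, A.max'_mem hA, fun j hj => A.le_max' j hj⟩
  have hi' := (Finset.mem_filter.mp hi).2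
  refine ⟨H i, hN i, hi', ?_⟩
  induction i using Fin.lastCases with
  | last => intro q hq hd; rw [h1, Subgroup.index_top, Nat.dvd_one] at hd; exact absurd hd hq.ne_one
  | cast i =>
    obtain ⟨hle, hp⟩ := hstep i
    have hmul : Nat.card (H i.castSucc) * (H i.castSucc).relIndex (H i.succ) = Nat.card (H i.succ) := by
      rw [← Subgroup.relIndex_bot_left, ← Subgroup.relIndex_bot_left]
      exact Subgroup.relIndex_mul_relIndex _ _ _ bot_le hle
    have hlt : (H i.castSucc).relIndex (H i.succ) < t := by
      by_contra hge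
      push_neg at hge
      have hmem : i.succ ∈ A := Finset.mem_filter.mpr ⟨Finset.mem_univ _, fun q hq hd => by
        rw [← hmul] at hd
        rcases hq.dvd_mul.mp hd with h | h
        · exact hi' q hq h
        · exact ((Nat.prime_dvd_prime_iff_eq hq hp).mp h) ▸ hge⟩
      exact absurd (hmax _ hmem) (not_le.mpr (Fin.castSucc_lt_succ (i := i)))
    have key : ∀ j : Fin (n + 1), i.castSucc ≤ j →
        H i.castSucc ≤ H j ∧ ∀ q : ℕ, q.Prime → q ∣ (H i.castSucc).relIndex (H j) → q < t := by
      intro j
      induction j using Fin.induction with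
      | zero =>
        intro hj
        rw [le_antisymm hj (Fin.zero_le _), Subgroup.relIndex_self]
        exact ⟨le_rfl, fun q hq hd => absurd (Nat.dvd_one.mp hd) hq.ne_one⟩
      | succ j ih =>
        intro hj
        rcases hj.eq_or_lt with he | hlt'
        · rw [← he, Subgroup.relIndex_self]
          exact ⟨le_rfl, fun q hq hd => absurd (Nat.dvd_one.mp hd) hq.ne_one⟩
        · have hij : i.castSucc ≤ j.castSucc := Fin.le_castSucc_iff.mpr hlt'
          obtain ⟨ih1, ih2⟩ := ih hij
          refine ⟨ih1.trans (hstep j).1, fun q hq hd => ?_⟩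
          rw [← Subgroup.relIndex_mul_relIndex _ _ _ ih1 (hstep j).1] at hd
          rcases hq.dvd_mul.mp hd with h | h
          · exact ih2 q hq h
          · rw [(Nat.prime_dvd_prime_iff_eq hq (hstep j).2).mp h]
            exact lt_of_le_of_lt (hmono i j (Fin.castSucc_le_castSucc_iff.mp hij)) hlt
    intro q hq hd
    refine (key (Fin.last n) (Fin.le_last _)).2 q hq ?_
    rwa [h1, Subgroup.relIndex_top_right]

theorem factorization_eq_ite {G : Type*} [Group G] [Finite G] (K : Subgroup G) (t : ℕ)
    (h1 : ∀ q : ℕ, q.Prime → q ∣ Nat.card K → t ≤ q) (h2 : ∀ q : ℕ, q.Prime → q ∣ K.index → q < t) (r : ℕ) :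
    (Nat.card K).factorization r = if t ≤ r then (Nat.card G).factorization r else 0 := by
  split_ifs with h
  · rw [← K.card_mul_index, Nat.factorization_mul Nat.card_pos.ne' K.index_ne_zero_of_finite, Finsupp.add_apply]
    by_cases hr : r.Prime
    · rw [Nat.factorization_eq_zero_of_not_dvd (n := K.index) (fun hd => by have := h2 r hr hd; omega), add_zero]
    · rw [Nat.factorization_eq_zero_of_not_prime K.index hr, add_zero]
  · by_cases hr : r.Prime
    · exact Nat.factorization_eq_zero_of_not_dvd fun hd => h (h1 r hr hd)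
    · exact Nat.factorization_eq_zero_of_not_prime _ hr

theorem exists_part {G H : Type*} [Group G] [Finite G] [Group H] [Finite H]
    (hG : Cfsg.IsSupersolvable G) (hT : ∀ m : ℕ, Nat.card {g : G // orderOf g = m} = Nat.card {h : H // orderOf h = m})
    (k : ℕ) : ∀ t : ℕ, Nat.card H + 1 ≤ t + k → ∃ N : Subgroup H, N.Normal ∧ Group.IsSolvable N ∧
      ∀ r, (Nat.card N).factorization r = if t ≤ r then (Nat.card H).factorization r else 0 := by
  induction k with
  | zero =>
    intro t ht
    refine ⟨⊥, inferInstance, inferInstance, fun r => ?_⟩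
    rw [Subgroup.card_bot, Nat.factorization_one, Finsupp.zero_apply]
    split_ifs with h
    · exact (Nat.factorization_eq_zero_of_lt (by omega)).symm
    · rfl
  | succ k ih =>
    intro t ht
    obtain ⟨N, hNn, hNs, hNc⟩ := ih (t + 1) (by omega)
    by_cases hp : t.Prime
    swap
    · refine ⟨N, hNn, hNs, fun r => (hNc r).trans ?_⟩
      rcases lt_trichotomy t r with h | h | h
      · rw [if_pos (by omega), if_pos h.le]
      · subst h; rw [if_neg (by omega), if_pos le_rfl, Nat.factorization_eq_zero_of_not_prime _ hp]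
      · rw [if_neg (by omega), if_neg (by omega)]
    haveI : Fact t.Prime := ⟨hp⟩
    obtain ⟨Q⟩ : Nonempty (Sylow t H) := inferInstance
    have hQc : Nat.card Q = t ^ (Nat.card H).factorization t := Q.card_eq_multiplicity
    have hNt : ¬ t ∣ Nat.card N := by
      intro hd
      have := hNc t
      rw [if_neg (by omega)] at this
      exact absurd this (hp.factorization_pos_of_dvd Nat.card_pos.ne' hd).ne'
    have hdisj : N ⊓ (Q : Subgroup H) = ⊥ := by
      refine Subgroup.inf_eq_bot_of_coprime ?_
      show Nat.Coprime (Nat.card N) (Nat.card Q)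
      rw [hQc]; exact Nat.Coprime.pow_right _ (hp.coprime_iff_not_dvd.mpr hNt).symm
    set S : Subgroup H := N ⊔ (Q : Subgroup H) with hS
    have hSc : Nat.card S = Nat.card N * Nat.card Q := by
      have h1 : Nat.card N * N.relIndex S = Nat.card S := by
        rw [← Subgroup.relIndex_bot_left, ← Subgroup.relIndex_bot_left]
        exact Subgroup.relIndex_mul_relIndex _ _ _ bot_le le_sup_left
      rw [← h1, hS, sup_comm, Subgroup.relIndex_sup_right, ← Subgroup.inf_relIndex_right, hdisj,
        Subgroup.relIndex_bot_left]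
    have hSf : ∀ r, (Nat.card S).factorization r = if t ≤ r then (Nat.card H).factorization r else 0 := by
      intro r
      rw [hSc, Nat.factorization_mul Nat.card_pos.ne' Nat.card_pos.ne', Finsupp.add_apply, hNc r, hQc,
        hp.factorization_pow]
      rcases lt_trichotomy t r with h | h | h
      · rw [Finsupp.single_eq_of_ne (by omega), if_pos (by omega), if_pos h.le, add_zero]
      · subst h; rw [Finsupp.single_eq_same, if_neg (by omega), if_pos le_rfl, zero_add]
      · rw [Finsupp.single_eq_of_ne (by omega), if_neg (by omega), if_neg (by omega), add_zero]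
    -- transfer the size of the solution set of `x ^ |S| = 1`
    have e : ∀ m, {g : G // orderOf g = m} ≃ {h : H // orderOf h = m} := fun m =>
      (Finite.equivFin _).trans ((finCongr (hT m)).trans (Finite.equivFin _).symm)
    let σ : G ≃ H := (Equiv.sigmaFiberEquiv (orderOf : G → ℕ)).symm.trans
      ((Equiv.sigmaCongrRight e).trans (Equiv.sigmaFiberEquiv (orderOf : H → ℕ)))
    have hσ : ∀ g, orderOf (σ g) = orderOf g := fun g => (e (orderOf g) ⟨g, rfl⟩).2
    have hGH : Nat.card G = Nat.card H := Nat.card_congr σ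
    obtain ⟨K, hK, hK1, hK2⟩ := exists_upper_hall hG t
    have hKc : Nat.card K = Nat.card S := by
      refine Nat.eq_of_factorization_eq Nat.card_pos.ne' Nat.card_pos.ne' fun r => ?_
      rw [factorization_eq_ite K t hK1 hK2 r, hSf r, hGH]
    have hco : Nat.Coprime (Nat.card K) K.index := Nat.coprime_of_dvd fun q hq a b => by
      have h1 := hK1 q hq a
      have h2 := hK2 q hq b
      omega
    have hsol : {h : H | h ^ Nat.card S = 1} ⊆ (S : Set H) := by
      have hsub : (S : Set H) ⊆ {h : H | h ^ Nat.card S = 1} := fun h hh =>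
        orderOf_dvd_iff_pow_eq_one.mp (Subgroup.orderOf_dvd_natCard S hh)
      refine (Set.eq_of_subset_of_ncard_le hsub ?_ (Set.toFinite _)).ge
      have hsub2 : {h : H | h ^ Nat.card S = 1} ⊆ σ '' (K : Set G) := by
        intro h hh
        refine ⟨σ.symm h, ?_, σ.apply_symm_apply h⟩
        haveI := hK
        rw [SetLike.mem_coe, ← QuotientGroup.eq_one_iff (N := K), ← orderOf_eq_one_iff]
        have hd : orderOf (σ.symm h) ∣ Nat.card K := by
          rw [hKc, ← hσ, σ.apply_symm_apply]; exact orderOf_dvd_of_pow_eq_one hh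
        exact Nat.eq_one_of_dvd_coprimes hco ((orderOf_map_dvd (QuotientGroup.mk' K) _).trans hd)
          (by rw [Subgroup.index_eq_card]; exact orderOf_dvd_natCard _)
      refine (Set.ncard_le_ncard hsub2).trans ?_
      rw [Set.ncard_image_of_injective _ σ.injective, ← Nat.card_coe_set_eq, ← Nat.card_coe_set_eq]
      exact hKc.le
    refine ⟨S, ⟨fun x hx a => hsol ?_⟩, ?_, hSf⟩
    · show (a * x * a⁻¹) ^ Nat.card S = 1
      rw [conj_pow, orderOf_dvd_iff_pow_eq_one.mp (Subgroup.orderOf_dvd_natCard S hx)]; simp
    · haveI := hNn; haveI := hNs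
      have hQsol : Group.IsSolvable ((Q : Subgroup H).map (QuotientGroup.mk' N)) := by
        have : IsPGroup t ((Q : Subgroup H).map (QuotientGroup.mk' N)) := Q.2.map _
        haveI := this.isNilpotent
        infer_instance
      let f : ↥S →* ↥((Q : Subgroup H).map (QuotientGroup.mk' N)) :=
        ((QuotientGroup.mk' N).comp S.subtype).codRestrict _ fun x => by
          have hx : QuotientGroup.mk' N (x : H) ∈ (N ⊔ (Q : Subgroup H)).map (QuotientGroup.mk' N) :=
            ⟨x, hS.le x.2, rfl⟩
          rw [Subgroup.map_sup, QuotientGroup.map_mk'_self, bot_sup_eq] at hx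
          exact hx
      let ι : ↥N →* ↥S := Subgroup.inclusion le_sup_left
      refine solvable_of_ker_le_range ι f fun x hx => ?_
      have h1 : (x : H) ∈ N := (QuotientGroup.eq_one_iff _).mp (congrArg Subtype.val hx)
      exact ⟨⟨x, h1⟩, rfl⟩

/-- Let G and H be finite groups with the same order type (for every m the same number of elements of order m). If G is supersolvable then H is solvable. -/
theorem result {G H : Type*} [Group G] [Finite G] [Group H] [Finite H] (hT : (∀ m : ℕ, Nat.card {g : G // orderOf g = m} = Nat.card {h : H // orderOf h = m})) (hG : Cfsg.IsSupersolvable G) :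
    Group.IsSolvable H := by
  obtain ⟨N, -, hNs, hNc⟩ := exists_part hG hT (Nat.card H + 1) 0 (by omega)
  have htop : N = ⊤ := by
    rw [← Subgroup.card_eq_iff_eq_top]
    exact Nat.eq_of_factorization_eq Nat.card_pos.ne' Nat.card_pos.ne' fun r => by
      rw [hNc r, if_pos (Nat.zero_le r)]
  haveI := hNs
  exact solvable_of_surjective (f := N.subtype) fun h => ⟨⟨h, htop ▸ Subgroup.mem_top h⟩, rfl⟩

end Cfsg.Agent.S3998
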