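import Cfsg.Statements.S4002
import Cfsg.Agent.PrimeGraph.ThreePrimes

set_option autoImplicit false
open Cfsg

namespace Cfsg.Agent.S4002

theorem exists_three_primes (n : ℕ) (hn : 7 ≤ n) : ∃ p q r : ℕ, p.Prime ∧ q.Prime ∧ r.Prime ∧
    p ≠ q ∧ p ≠ r ∧ q ≠ r ∧ p ≤ n ∧ q ≤ n ∧ r ≤ n ∧ n < p * q ∧ n < p * r ∧ n < q * r := by
  by_cases h15 : n < 15
  · exact ⟨3, 5, 7, by norm_num, by norm_num, by norm_num, by omega, by omega, by omega, by omega, by omega,
      by omega, by omega, by omega, by omega⟩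
  by_cases h17 : n < 17
  · exact ⟨5, 7, 11, by norm_num, by norm_num, by norm_num, by omega, by omega, by omega, by omega, by omega,
      by omega, by omega, by omega, by omega⟩
  by_cases h64 : n < 64
  · exact ⟨11, 13, 17, by norm_num, by norm_num, by norm_num, by omega, by omega, by omega, by omega, by omega,
      by omega, by omega, by omega, by omega⟩
  obtain ⟨p, hp, hp1, hp2⟩ := Nat.exists_prime_lt_and_le_two_mul (n / 2) (by omega)
  obtain ⟨q, hq, hq1, hq2⟩ := Nat.exists_prime_lt_and_le_two_mul (n / 4) (by omega)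
  obtain ⟨r, hr, hr1, hr2⟩ := Nat.exists_prime_lt_and_le_two_mul (n / 8) (by omega)
  have key : ∀ a b : ℕ, n / 8 + 1 ≤ a → n / 8 + 1 ≤ b → n < a * b := by
    intro a b ha hb
    have h8 : 8 * (n / 8 + 1) ≤ (n / 8 + 1) * (n / 8 + 1) := Nat.mul_le_mul_right _ (by omega)
    have := Nat.mul_le_mul ha hb
    omega
  exact ⟨p, q, r, hp, hq, hr, by omega, by omega, by omega, by omega, by omega, by omega,
    key p q (by omega) (by omega), key p r (by omega) (by omega), key q r (by omega) (by omega)⟩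

/-- If the set of element orders of a finite group G is {1, 2, …, n} with n ≥ 7, then G is not solvable. -/
theorem result {G : Type*} [Group G] [Finite G] (n : ℕ) (hn : 7 ≤ n) (h : Set.range (orderOf : G → ℕ) = {k : ℕ | 1 ≤ k ∧ k ≤ n}) : ¬ Group.IsSolvable G := by
  intro hsol
  obtain ⟨p, q, r, hp, hq, hr, hpq, hpr, hqr, hpn, hqn, hrn, h1, h2, h3⟩ := exists_three_primes n hn
  have hdvd : ∀ a : ℕ, a.Prime → a ≤ n → a ∣ Nat.card G := by
    intro a ha han
    obtain ⟨g, hg⟩ : a ∈ Set.range (orderOf : G → ℕ) := by rw [h]; exact ⟨ha.one_le, han⟩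
    exact hg ▸ orderOf_dvd_natCard g
  obtain ⟨x, hx⟩ := CfsgLib.PrimeGraph.exists_adjacent_of_isSolvable (G := G) hp hq hr hpq hpr hqr
    (hdvd p hp hpn) (hdvd q hq hqn) (hdvd r hr hrn)
  have hle : orderOf x ≤ n := by
    have : orderOf x ∈ Set.range (orderOf : G → ℕ) := ⟨x, rfl⟩
    rw [h] at this; exact this.2
  omega

end Cfsg.Agent.S4002
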