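import Cfsg.Statements.S4003
import Mathlib
import Cfsg.Agent.MillerCount.Basic

set_option autoImplicit false
open Cfsg

namespace Cfsg.Agent.S4003

/-- Let G be a finite group, p an odd prime dividing the order of G whose Sylow p-subgroups are not cyclic, and n = p^s·m with s > 1 and m coprime to p. Then the number of elements of G of order n is a multiple of p^s. -/
theorem result {G : Type*} [Group G] [Finite G] (p : ℕ) [Fact p.Prime] (hodd : p ≠ 2) (hpG : p ∣ Nat.card G)
    (P : Sylow p G) (hP : ¬ IsCyclic ↥(P : Subgroup G)) (s m : ℕ) (hs : 1 < s) (hm : Nat.Coprime p m) :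
    p ^ s ∣ Nat.card {g : G // orderOf g = p ^ s * m} := by
  classical
  have hs2 : 2 ≤ s := hs
  haveI := Fintype.ofFinite G
  rw [CfsgLib.MillerCount.card_orderOf_mul (hm.pow_left s), Nat.card_sigma]
  let f : G → ℕ := fun v => Nat.card {u : Subgroup.centralizer ({v} : Set G) // orderOf u = p ^ s}
  have hsum : ∑ v : {v : G // orderOf v = m}, f v = ∑ v ∈ Finset.univ.filter (fun v : G => orderOf v = m), f v :=
    (Finset.sum_subtype _ (fun v => by simp) f).symm
  refine hsum ▸ CfsgLib.Counting.dvd_sum_of_class _ f _ ?_ ?_ ?_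
  · intro u w huw hu
    obtain ⟨g, rfl⟩ := isConj_iff.mp huw
    exact (MulEquiv.orderOf_eq (MulAut.conj g) u).trans hu
  · intro u w huw
    obtain ⟨g, rfl⟩ := isConj_iff.mp huw
    have he : (Subgroup.centralizer ({u} : Set G)).map (MulAut.conj g).toMonoidHom =
        Subgroup.centralizer ({g * u * g⁻¹} : Set G) := by
      ext x
      simp only [Subgroup.mem_map, Subgroup.mem_centralizer_singleton_iff]
      constructor
      · rintro ⟨y, hy, rfl⟩
        show g * y * g⁻¹ * (g * u * g⁻¹) = g * u * g⁻¹ * (g * y * g⁻¹)
        calc g * y * g⁻¹ * (g * u * g⁻¹) = g * (y * u) * g⁻¹ := by group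
          _ = g * (u * y) * g⁻¹ := by rw [hy]
          _ = _ := by group
      · intro hx
        refine ⟨g⁻¹ * x * g, ?_, by show g * (g⁻¹ * x * g) * g⁻¹ = x; group⟩
        calc g⁻¹ * x * g * u = g⁻¹ * (x * (g * u * g⁻¹)) * g := by group
          _ = g⁻¹ * (g * u * g⁻¹ * x) * g := by rw [hx]
          _ = _ := by group
    let e := (Subgroup.equivMapOfInjective _ _ (MulAut.conj g).injective).trans (MulEquiv.subgroupCongr he)
    exact Nat.card_congr (e.toEquiv.subtypeEquiv fun x => by simp [MulEquiv.orderOf_eq])
  · intro v hv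
    set C := Subgroup.centralizer ({v} : Set G)
    let Q : Sylow p C := default
    by_cases hQ : IsCyclic (Q : Subgroup C)
    · have hidx : p ∣ C.index := by
        by_contra hnd
        apply hP
        have hQm : IsPGroup p ((Q : Subgroup C).map C.subtype) := Q.2.map _
        have h1 : Nat.card ((Q : Subgroup C).map C.subtype) = p ^ (Nat.card G).factorization p := by
          rw [Subgroup.card_map_of_injective C.subtype_injective, Q.card_eq_multiplicity, ← C.card_mul_index,
            Nat.factorization_mul Nat.card_pos.ne' Subgroup.index_ne_zero_of_finite, Finsupp.add_apply,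
            Nat.factorization_eq_zero_of_not_dvd hnd, add_zero]
        let P' : Sylow p G := Sylow.ofCard _ h1
        have hP' : IsCyclic (P' : Subgroup G) :=
          ((Q : Subgroup C).equivMapOfInjective _ C.subtype_injective).isCyclic.mp hQ
        exact (P'.equiv P).isCyclic.mp hP'
      have h1 : p ^ (s - 1) ∣ f v := by
        refine CfsgLib.Counting.dvd_card_of_totient _ ?_ _ ?_
        · intro a b ha hab
          rw [← Nat.card_zpowers, ← hab, Nat.card_zpowers, ha]
        · intro a ha
          rw [ha, Nat.totient_prime_pow Fact.out (by omega)]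
          exact dvd_mul_right _ _
      obtain ⟨c, hc⟩ := hidx
      obtain ⟨d, hd⟩ := h1
      rw [show s = (s - 1) + 1 by omega, pow_succ]
      exact ⟨c * d, by rw [hc, hd]; ring⟩
    · exact (CfsgLib.MillerCount.card_orderOf_sylow hodd Q hQ hs2).trans (dvd_mul_left _ _)

end Cfsg.Agent.S4003
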