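import Cfsg.Statements.S4004
import Cfsg.Agent.OrderCounts.Basic
import Cfsg.Agent.Chars.Apps.Burnside
import Cfsg.Agent.Solvable.MinNormal
import Cfsg.Agent.Constrained.Basic
import Cfsg.Agent.Coprime.Generation
import Cfsg.Agent.Frobenius.CyclicSylow

set_option autoImplicit false
open Cfsg

namespace Cfsg.Agent.S4004

open CfsgLib.OrderCounts
open scoped Pointwise
open Cfsg.Agent.S3995 (cnt totient_dvd_cnt dvd_sum_cnt sum_divisors_mul_coprime)

/-- If every product over an orbit of a conjugate of `c` vanishes then `B` has order prime-power `p`. -/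
theorem no_norms {Q : Type*} [Group Q] [Finite Q] {V : Type*} [CommGroup V] [Finite V]
    (ψ : Q →* MulAut V) {p : ℕ} [Fact p.Prime] (hV : ∀ v : V, v ^ p = 1) [Nontrivial V]
    (B : Subgroup Q) (hBp : ¬ p ∣ Nat.card B) (hB : ∀ v : V, (∀ b ∈ B, ψ b v = v) → v = 1)
    (c : Q) (hcB : ∀ b ∈ B, c * b * c⁻¹ ∈ B)
    (hfree : ∀ i, 0 < i → i < p → ∀ b ∈ B, Commute (c ^ i) b → b = 1)
    (h1 : ∀ (b : B) (v : V), ∏ i ∈ Finset.range p, ψ (((b : Q) * c * (b : Q)⁻¹) ^ i) v = 1) : False := by
  classical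
  haveI := Fintype.ofFinite B
  have h2 : ∀ v : V, ∏ b : B, ψ (b : Q) v = 1 := by
    intro v
    apply hB
    intro b hb
    rw [map_prod]
    refine (Finset.prod_congr rfl fun b' _ => ?_).trans (Fintype.prod_equiv (Equiv.mulLeft (⟨b, hb⟩ : B)) _ (fun b' : B => ψ (b' : Q) v) (fun _ => rfl))
    rw [← MulAut.mul_apply, ← map_mul]
    rfl
  have h3 : ∀ i, i < p → 0 < i → ∀ v : V, ∏ b : B, ψ (((b : Q) * c * (b : Q)⁻¹) ^ i) v = 1 := by
    intro i hiq hi v
    have hn : ∀ j : ℕ, ∀ b ∈ B, c ^ j * b * (c ^ j)⁻¹ ∈ B := by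
      intro j
      induction j with
      | zero => intro b hb; simpa using hb
      | succ j ihj =>
        intro b hb
        have := hcB _ (ihj b hb)
        rwa [show c ^ (j + 1) * b * (c ^ (j + 1))⁻¹ = c * (c ^ j * b * (c ^ j)⁻¹) * c⁻¹ by
          rw [pow_succ']; group]
    let f : B → B := fun b => ⟨(b : Q) * (c ^ i * (b : Q)⁻¹ * (c ^ i)⁻¹), B.mul_mem b.2 (hn i _ (B.inv_mem b.2))⟩
    have hf : Function.Injective f := by
      intro a b hab
      have h := congrArg Subtype.val hab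
      simp only [f] at h
      have hcom : Commute (c ^ i) ((b : Q)⁻¹ * a) := by
        show c ^ i * ((b : Q)⁻¹ * a) = (b : Q)⁻¹ * a * c ^ i
        calc c ^ i * ((b : Q)⁻¹ * a) = (b : Q)⁻¹ * ((b : Q) * (c ^ i * (b : Q)⁻¹ * (c ^ i)⁻¹)) * c ^ i * a := by group
          _ = (b : Q)⁻¹ * ((a : Q) * (c ^ i * (a : Q)⁻¹ * (c ^ i)⁻¹)) * c ^ i * a := by rw [h]
          _ = _ := by group
      exact Subtype.ext (inv_mul_eq_one.mp (hfree i hi hiq _ (B.mul_mem (B.inv_mem b.2) a.2) hcom)).symm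
    calc ∏ b : B, ψ (((b : Q) * c * (b : Q)⁻¹) ^ i) v = ∏ b : B, ψ (f b : Q) (ψ (c ^ i) v) := by
          refine Finset.prod_congr rfl fun b _ => ?_
          rw [← MulAut.mul_apply, ← map_mul, conj_pow]
          congr 2
          simp only [f]
          group
      _ = 1 := ((Finite.injective_iff_bijective.mp hf).prod_comp (fun b' : B => ψ (b' : Q) (ψ (c ^ i) v))).trans (h2 _)
  obtain ⟨v, hv⟩ := exists_ne (1 : V)
  have h4 : ∏ b : B, ∏ i ∈ Finset.range p, ψ (((b : Q) * c * (b : Q)⁻¹) ^ i) v = 1 :=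
    Finset.prod_eq_one fun b _ => h1 b v
  rw [Finset.prod_comm, show p = (p - 1) + 1 by have := (Fact.out : p.Prime).pos; omega, Finset.prod_range_succ',
    Finset.prod_eq_one (fun i hi => h3 (i + 1) (by rw [Finset.mem_range] at hi; omega) (Nat.succ_pos _) v), one_mul] at h4
  simp only [pow_zero, map_one, MulAut.one_apply, Finset.prod_const, Finset.card_univ] at h4
  rw [← Nat.card_eq_fintype_card] at h4
  have h5 := orderOf_dvd_of_pow_eq_one h4
  rw [orderOf_eq_prime (hV v) hv] at h5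
  exact hBp h5

theorem structure_aux {H : Type*} [Group H] [Finite H] {p q : ℕ} (hp : p.Prime) (hq : q.Prime) (hpq : p ≠ q)
    (hq2 : q ≠ 2) (hqd : q ∣ Nat.card H) (hel : ∀ x : H, x ^ p = 1 ∨ x ^ q = 1)
    (M : Subgroup H) (hMn : M.Normal) (hMne : M ≠ ⊥) (hM : IsPGroup p M) :
    ∃ C : Subgroup H, Cfsg.IsFrobeniusComplement C ∧ (Nat.card C).Prime := by
  classical
  haveI := Fact.mk hp
  haveI := Fact.mk hq
  have hco : Nat.Coprime p q := (Nat.coprime_primes hp hq).mpr hpq
  have hpq1 : ∀ {K : Type _} [Group K] {x : K}, x ^ p = 1 → x ^ q = 1 → x = 1 := fun {K} _ {x} h1 h2 => by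
    have := pow_gcd_eq_one.mpr ⟨h1, h2⟩
    rwa [hco, pow_one] at this
  set N := pCore p H with hNdef
  have hNne : N ≠ ⊥ := fun e => hMne (le_bot_iff.mp (e ▸ CfsgLib.Constrained.le_pCore hMn hM))
  have hNp : ∀ x ∈ N, x ^ p = 1 := by
    intro x hx
    rcases hel x with h | h
    · exact h
    · obtain ⟨k, hk⟩ := (CfsgLib.Constrained.isPGroup_pCore : IsPGroup p N) ⟨x, hx⟩
      have := pow_gcd_eq_one.mpr ⟨h, (congrArg Subtype.val hk : x ^ p ^ k = 1)⟩
      rw [show Nat.gcd q (p ^ k) = 1 from (Nat.Coprime.pow_left k hco).symm, pow_one] at this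
      rw [this, one_pow]
  set π := QuotientGroup.mk' N with hπ
  have hmem : ∀ x : H, π x = 1 ↔ x ∈ N := fun x => QuotientGroup.eq_one_iff x
  have helQ : ∀ x : H ⧸ N, x ^ p = 1 ∨ x ^ q = 1 := by
    intro x
    obtain ⟨g, rfl⟩ := QuotientGroup.mk'_surjective N x
    exact (hel g).imp (fun h => by rw [← map_pow, h, map_one]) (fun h => by rw [← map_pow, h, map_one])
  -- no commuting elements of orders `p` and `q`
  have hnc : ∀ {K : Type _} [Group K], (∀ x : K, x ^ p = 1 ∨ x ^ q = 1) → ∀ {a b : K}, a ^ p = 1 → b ^ q = 1 →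
      Commute a b → a = 1 ∨ b = 1 := by
    intro K _ hK a b ha hb hc
    rcases hK (a * b) with h | h
    · rw [hc.mul_pow, ha, one_mul] at h
      exact Or.inr (hpq1 h hb)
    · rw [hc.mul_pow, hb, mul_one] at h
      exact Or.inl (hpq1 ha h)
  obtain ⟨Q⟩ := (inferInstance : Nonempty (Sylow q H))
  have hQq : ∀ x ∈ (Q : Subgroup H), x ^ q = 1 := by
    intro x hx
    rcases hel x with h | h
    · obtain ⟨k, hk⟩ := Q.isPGroup' ⟨x, hx⟩
      have := pow_gcd_eq_one.mpr ⟨h, (congrArg Subtype.val hk : x ^ q ^ k = 1)⟩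
      rw [show Nat.gcd p (q ^ k) = 1 from Nat.Coprime.pow_right k hco, pow_one] at this
      rw [this, one_pow]
    · exact h
  obtain ⟨kN, hkN⟩ := IsPGroup.iff_card.mp (CfsgLib.Constrained.isPGroup_pCore : IsPGroup p N)
  haveI hQcyc : IsCyclic (Q : Subgroup H) := CfsgLib.Frobenius.isCyclic_of_odd_pGroup hq2 Q.isPGroup' fun B hB => by
    by_contra hncyc
    have hA : IsMulCommutative (B.map (Q : Subgroup H).subtype) := inferInstance
    have hnA : ¬ IsCyclic (B.map (Q : Subgroup H).subtype) := fun hc => hncyc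
      ((Subgroup.equivMapOfInjective B _ (Subgroup.subtype_injective _)).isCyclic.mpr hc)
    obtain ⟨kA, hkA⟩ := IsPGroup.iff_card.mp ((Q.isPGroup'.to_subgroup B).map (Q : Subgroup H).subtype)
    apply hNne
    rw [eq_bot_iff]
    refine CfsgLib.Coprime.le_of_centralizers hA hnA ?_ ?_ ?_
    · intro x _
      exact (Subgroup.normalizer_eq_top N).symm ▸ Subgroup.mem_top x
    · rw [hkA, hkN]
      exact Nat.Coprime.pow _ _ hco.symm
    · rintro a ha ha1 n ⟨hn, hn'⟩
      rw [Subgroup.mem_bot]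
      refine (hnc hel (hNp n hn) (hQq a ?_) ?_).resolve_right ha1
      · obtain ⟨⟨b, hb⟩, -, rfl⟩ := ha; exact hb
      · exact (Subgroup.mem_centralizer_singleton_iff.mp hn')
  have hQcard : Nat.card (Q : Subgroup H) = q := by
    refine Nat.dvd_antisymm ?_ (Q.dvd_card_of_dvd_card hqd)
    rw [← IsCyclic.exponent_eq_card]
    exact Monoid.exponent_dvd_of_forall_pow_eq_one fun x => Subtype.ext (by simpa using hQq x x.2)
  have hq2d : ¬ q ^ 2 ∣ Nat.card H := fun hd => by
    obtain ⟨K, hK⟩ := Sylow.exists_subgroup_card_pow_prime q hd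
    obtain ⟨S, hS⟩ := (IsPGroup.of_card hK).exists_le_sylow
    have h1 := Subgroup.card_dvd_of_le hS
    rw [hK, Sylow.card_eq_multiplicity S, ← Sylow.card_eq_multiplicity Q, hQcard] at h1
    have := Nat.le_of_dvd hq.pos h1
    nlinarith [hq.two_le]
  have hqQ : q ∣ Nat.card (H ⧸ N) := by
    have h := hqd
    rw [Subgroup.card_eq_card_quotient_mul_card_subgroup N, hkN] at h
    exact (Nat.Coprime.pow_right kN hco.symm).dvd_of_dvd_mul_right h
  haveI : Nontrivial (H ⧸ N) := Finite.one_lt_card_iff_nontrivial.mp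
    (lt_of_lt_of_le hq.one_lt (Nat.le_of_dvd Nat.card_pos hqQ))
  haveI : Group.IsSolvable (H ⧸ N) := CfsgLib.Chars.Apps.isSolvable_of_primeFactors_subset _ hp hq fun r hr hrd => by
    haveI := Fact.mk hr
    obtain ⟨x, hx⟩ := exists_prime_orderOf_dvd_card' r hrd
    rcases helQ x with h | h
    · exact Or.inl ((Nat.prime_dvd_prime_iff_eq hr hp).mp (hx ▸ orderOf_dvd_of_pow_eq_one h))
    · exact Or.inr ((Nat.prime_dvd_prime_iff_eq hr hq).mp (hx ▸ orderOf_dvd_of_pow_eq_one h))
  obtain ⟨U, r, k, hUn, hUne, -, -, hr, hk, hUcard, hUexp⟩ :=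
    CfsgLib.Solvable.exists_minimal_normal_of_solvable (G := H ⧸ N)
  haveI := Fact.mk hr
  have hrq : r = q := by
    obtain ⟨x, hx, hx1⟩ := U.bot_or_exists_ne_one.resolve_left hUne
    have hxo := orderOf_eq_prime (hUexp x hx) hx1
    rcases helQ x with h | h
    · exfalso
      have hrp : r = p := (Nat.prime_dvd_prime_iff_eq hr hp).mp (hxo ▸ orderOf_dvd_of_pow_eq_one h)
      subst hrp
      have hle := (CfsgLib.Constrained.le_pCore hUn (IsPGroup.of_card hUcard)).trans_eq
        CfsgLib.Constrained.pCore_quotient_pCore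
      exact hUne (le_bot_iff.mp hle)
    · exact (Nat.prime_dvd_prime_iff_eq hr hq).mp (hxo ▸ orderOf_dvd_of_pow_eq_one h)
  subst hrq
  have hk1 : k = 1 := by
    by_contra hk1
    refine hq2d ((pow_dvd_pow r (show 2 ≤ k by omega)).trans (hUcard ▸ ?_))
    exact U.card_subgroup_dvd_card.trans (Subgroup.card_quotient_dvd_card N)
  subst hk1
  rw [pow_one] at hUcard
  have hUmem : ∀ w : H ⧸ N, w ^ r = 1 → w ∈ U := by
    intro w hw
    obtain ⟨S, hS⟩ := (IsPGroup.of_card (n := 1) (by rw [hUcard, pow_one]) : IsPGroup r U).exists_le_sylow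
    have hSc : Nat.card (S : Subgroup (H ⧸ N)) = r := by
      obtain ⟨j, hj⟩ := IsPGroup.iff_card.mp S.isPGroup'
      have h1 := Subgroup.card_dvd_of_le hS
      rw [hUcard, hj] at h1
      have h2 : j ≤ 1 := by
        by_contra hj1
        exact hq2d ((pow_dvd_pow r (show 2 ≤ j by omega)).trans (hj ▸ (S : Subgroup _).card_subgroup_dvd_card.trans
          (Subgroup.card_quotient_dvd_card N)))
      interval_cases j
      · simp at h1; exact absurd h1 hq.ne_one
      · rw [hj, pow_one]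
    have hUS : U = (S : Subgroup (H ⧸ N)) := Subgroup.eq_of_le_of_card_ge hS (by rw [hSc, hUcard])
    obtain ⟨T, hT⟩ := (IsPGroup.of_card (G := Subgroup.zpowers w) (n := if w = 1 then 0 else 1) (by
      rw [Nat.card_zpowers]
      split_ifs with h
      · rw [h, orderOf_one, pow_zero]
      · rw [orderOf_eq_prime hw h, pow_one])).exists_le_sylow
    have hUT : U ≤ (T : Subgroup (H ⧸ N)) := IsPGroup.le_sylow_of_normal (IsPGroup.of_card (n := 1) (by rw [hUcard, pow_one])) T
    rw [Subgroup.eq_of_le_of_card_ge hUT (by rw [Sylow.card_eq_multiplicity T, ← Sylow.card_eq_multiplicity S, hSc, hUcard])]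
    exact hT (Subgroup.mem_zpowers w)
  have hout : ∀ g : H, π g ∉ U → g ^ p = 1 := fun g hg =>
    (hel g).resolve_right fun h => hg (hUmem _ (by rw [← map_pow, h, map_one]))
  have hUfree : ∀ b ∈ U, ∀ g : H, π g = b → b ≠ 1 → g ^ r = 1 := fun b hb g hg hb1 =>
    (hel g).resolve_left fun h => hb1 (hpq1 (by rw [← hg, ← map_pow, h, map_one]) (hUexp b hb))
  obtain ⟨u, hu, hu1⟩ := U.bot_or_exists_ne_one.resolve_left hUne
  obtain ⟨a, hau⟩ : ∃ a, π a = u := QuotientGroup.mk'_surjective N u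
  have ha : a ^ r = 1 := hUfree u hu a hau hu1
  have ha1 : a ≠ 1 := fun e => hu1 (by rw [← hau, e, map_one])
  by_cases hall : ∀ x : H ⧸ N, x ∈ U
  · -- a Frobenius group with complement of order `r`
    refine ⟨Subgroup.zpowers a, ⟨?_, ?_, ?_⟩, by rw [Nat.card_zpowers, orderOf_eq_prime ha ha1]; exact hq⟩
    · rw [Ne, Subgroup.zpowers_eq_bot]; exact ha1
    · intro e
      obtain ⟨n, hn, hn1⟩ := N.bot_or_exists_ne_one.resolve_left hNne
      obtain ⟨i, hi⟩ := Subgroup.mem_zpowers_iff.mp (e.symm ▸ Subgroup.mem_top n : n ∈ Subgroup.zpowers a)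
      exact hn1 (hpq1 (hNp n hn) (by rw [← hi, ← zpow_natCast, ← zpow_mul, mul_comm, zpow_mul, zpow_natCast, ha, one_zpow]))
    · intro g hg
      rw [Subgroup.eq_bot_iff_forall]
      rintro w ⟨hw1, hw2⟩
      obtain ⟨v, hv, rfl⟩ := Subgroup.mem_map.mp hw2
      by_contra hwne
      obtain ⟨i, hi⟩ := Subgroup.mem_zpowers_iff.mp hw1
      obtain ⟨j, hj⟩ := Subgroup.mem_zpowers_iff.mp hv
      have hUz : U = Subgroup.zpowers u :=
        (Subgroup.eq_of_le_of_card_ge (Subgroup.zpowers_le_of_mem hu)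
          (by rw [Nat.card_zpowers, orderOf_eq_prime (hUexp u hu) hu1, hUcard])).symm
      obtain ⟨m, hm⟩ := Subgroup.mem_zpowers_iff.mp (hUz ▸ hall (π g) : π g ∈ Subgroup.zpowers u)
      set n := g * (a ^ m)⁻¹ with hn
      have hnN : n ∈ N := by rw [← hmem, hn, map_mul, map_inv, map_zpow, hau, hm, mul_inv_cancel]
      have hgn : g = n * a ^ m := by rw [hn, inv_mul_cancel_right]
      change g * v * g⁻¹ ≠ 1 at hwne
      change a ^ i = g * v * g⁻¹ at hi
      have hv' : g * v * g⁻¹ = n * a ^ j * n⁻¹ := by rw [hgn, ← hj]; group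
      have hij : u ^ i = u ^ j := by
        have := congrArg π (hi.trans hv')
        rwa [map_mul, map_mul, map_inv, (hmem n).mpr hnN, map_zpow, map_zpow, hau, one_mul, inv_one, mul_one] at this
      have haij : a ^ i = a ^ j := by
        rw [zpow_eq_zpow_iff_modEq, orderOf_eq_prime ha ha1]
        rwa [zpow_eq_zpow_iff_modEq, orderOf_eq_prime (hUexp u hu) hu1] at hij
      have hcm : Commute n (a ^ j) := mul_inv_eq_iff_eq_mul.mp (hv'.symm.trans (hi.symm.trans haij))
      have haj : (a ^ j) ^ r = 1 := by rw [← zpow_natCast, ← zpow_mul, mul_comm, zpow_mul, zpow_natCast, ha, one_zpow]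
      rcases hnc hel (hNp n hnN) haj hcm with h | h
      · exact hg (by rw [hgn, h, one_mul]; exact Subgroup.zpow_mem _ (Subgroup.mem_zpowers a) m)
      · exact hwne (by rw [hv', h, mul_one, mul_inv_cancel])
  exfalso
  push_neg at hall
  obtain ⟨c, hc⟩ := hall
  set V := (Subgroup.center N).map N.subtype with hV
  haveI : V.Normal := inferInstance
  have hVN : V ≤ N := Subgroup.map_subtype_le _
  have hVcen : ∀ v ∈ V, ∀ n ∈ N, n * v = v * n := by
    rintro v ⟨z, hz, rfl⟩ n hn
    exact congrArg Subtype.val (Subgroup.mem_center_iff.mp hz ⟨n, hn⟩)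
  letI : CommGroup V := { (inferInstance : Group V) with
    mul_comm := fun x y => Subtype.ext (hVcen y y.2 x (hVN x.2)) }
  haveI : Nontrivial V := by
    haveI : Nontrivial N := (Subgroup.nontrivial_iff_ne_bot N).mpr hNne
    haveI := (CfsgLib.Constrained.isPGroup_pCore : IsPGroup p N).center_nontrivial
    exact (Subgroup.equivMapOfInjective _ _ (Subgroup.subtype_injective N)).symm.toEquiv.nontrivial
  have hker : N ≤ (MulAut.conjNormal : H →* MulAut V).ker := fun n hn => by
    refine MonoidHom.mem_ker.mpr (MulEquiv.ext fun v => Subtype.ext ?_)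
    rw [MulAut.conjNormal_apply, MulAut.one_apply, hVcen v v.2 n hn, mul_inv_cancel_right]
  let ψ : H ⧸ N →* MulAut V := QuotientGroup.lift N MulAut.conjNormal hker
  have hψ : ∀ (g : H) (v : V), ((ψ (π g) v : V) : H) = g * v * g⁻¹ := fun g v => MulAut.conjNormal_apply g v
  have hcp : c ^ p = 1 := by
    obtain ⟨g, hg⟩ : ∃ g, π g = c := QuotientGroup.mk'_surjective N c
    rw [← hg, ← map_pow, hout g (hg ▸ hc), map_one]
  refine no_norms ψ (p := p) (fun v => Subtype.ext (by simpa using hNp v (hVN v.2))) U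
    (by rw [hUcard]; exact fun h => hpq ((Nat.prime_dvd_prime_iff_eq hp hq).mp h))
    ?_ c (fun b hb => hUn.conj_mem b hb c) ?_ ?_
  · intro v hv
    have h1 := congrArg Subtype.val (hv u hu)
    rw [← hau, hψ] at h1
    exact Subtype.ext ((hnc hel (hNp v (hVN v.2)) ha
      (show Commute a (v : H) from mul_inv_eq_iff_eq_mul.mp h1).symm).resolve_right ha1)
  · intro i hi hip b hb hcm
    refine (hnc helQ (a := c ^ i) (by rw [← pow_mul, mul_comm, pow_mul, hcp, one_pow]) (hUexp b hb) hcm).resolve_left ?_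
    intro h
    have hc1 : c ≠ 1 := fun e => hc (e ▸ U.one_mem)
    exact hip.not_ge (Nat.le_of_dvd hi (orderOf_eq_prime hcp hc1 ▸ orderOf_dvd_of_pow_eq_one h))
  · intro b v
    obtain ⟨g, hg⟩ : ∃ g, π g = (b : H ⧸ N) * c * (b : H ⧸ N)⁻¹ := QuotientGroup.mk'_surjective N _
    have hnU : π g ∉ U := fun h => hc (by
      rw [hg] at h
      have := U.mul_mem (U.mul_mem (U.inv_mem b.2) h) b.2
      rwa [show (b : H ⧸ N)⁻¹ * ((b : H ⧸ N) * c * (b : H ⧸ N)⁻¹) * b = c by group] at this)
    rw [← hg]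
    have hpow : ∀ n : ℕ, ((v : H) * g) ^ n = ((∏ i ∈ Finset.range n, ψ (π g ^ i) v : V) : H) * g ^ n := by
      intro n
      induction n with
      | zero => simp
      | succ n ih =>
        rw [Finset.prod_range_succ, pow_succ, ih, Subgroup.coe_mul, ← map_pow, hψ, pow_succ]
        group
    have hvU : π ((v : H) * g) ∉ U := by rwa [map_mul, (hmem _).mpr (hVN v.2), one_mul]
    have h := hpow p
    rw [hout g hnU, hout _ hvU, mul_one] at h
    exact Subtype.ext h.symm

/-- Let G be a finite group of odd order in which the numbers of elements of each order that occurs (the numbers #{g : o(g) = m}, m ranging over the element orders of G) take exactly three different values. Then the order of G has at most two prime divisors; and if it has exactly two, then every Sylow subgroup of G for a prime dividing its order has prime exponent, G is a Frobenius group, and some Frobenius complement of G has prime order. -/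
theorem result {G : Type*} [Group G] [Finite G] (hodd : Odd (Nat.card G)) (h : (((fun m : ℕ => Nat.card {g : G // orderOf g = m}) '' Set.range (orderOf : G → ℕ))).ncard = 3) :
    (Nat.card G).primeFactors.card ≤ 2 ∧
      ((Nat.card G).primeFactors.card = 2 →
        (∀ (p : ℕ) [Fact p.Prime] (P : Sylow p G), p ∣ Nat.card G → Monoid.exponent ↥(P : Subgroup G) = p) ∧
        ∃ C : Subgroup G, Cfsg.IsFrobeniusComplement C ∧ (Nat.card ↥C).Prime) := by
  classical
  set S := (fun m : ℕ => Nat.card {g : G // orderOf g = m}) '' Set.range (orderOf : G → ℕ) with hS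
  have hmem : ∀ m, cnt G m ≠ 0 → cnt G m ∈ S := fun m hm => by
    obtain ⟨x, hx⟩ := (cnt_ne_zero_iff m).mp hm
    exact ⟨m, ⟨x, hx⟩, rfl⟩
  have h1S : 1 ∈ S := by
    have := hmem 1 (by rw [cnt_one]; exact one_ne_zero)
    rwa [cnt_one] at this
  obtain ⟨a, b, hT⟩ : ∃ a b, TwoValues G a b := by
    have h2 : (S \ {1}).ncard = 2 := by rw [Set.ncard_diff_singleton_of_mem h1S, h]
    obtain ⟨a, b, -, e⟩ := Set.ncard_eq_two.mp h2
    refine ⟨a, b, fun m hm hm0 => ?_⟩
    have h1 : cnt G m ∈ S \ {1} := ⟨hmem m hm0, fun e1 => by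
      have he : Even (cnt G m) := even_iff_two_dvd.mpr ((Nat.totient_even (by omega)).two_dvd.trans (totient_dvd_cnt m))
      rw [Set.mem_singleton_iff] at e1; rw [e1] at he; exact absurd he (by decide)⟩
    rw [e] at h1; simpa using h1
  have hne2 : ∀ r : ℕ, r ∣ Nat.card G → r ≠ 2 := fun r hr e => by
    rw [e] at hr; exact (Nat.not_even_iff_odd.mpr hodd) (even_iff_two_dvd.mpr hr)
  have hpf : ∀ r, r ∈ (Nat.card G).primeFactors ↔ r.Prime ∧ r ∣ Nat.card G := fun r => by
    simp [Nat.mem_primeFactors, Nat.card_pos.ne']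
  constructor
  · by_contra hlt
    obtain ⟨p, q, r, hp, hq, hr, hpq, hpr, hqr⟩ := Finset.two_lt_card_iff.mp (by omega : 2 < (Nat.card G).primeFactors.card)
    rw [hpf] at hp hq hr
    rcases odd_primes_le_two hT hp.1 hq.1 hr.1 (hne2 p hp.2) (hne2 q hq.2) (hne2 r hr.2) hp.2 hq.2 hr.2 with e | e | e
    · exact hpq e
    · exact hpr e
    · exact hqr e
  intro h2
  obtain ⟨p, q, hne, hset⟩ := Finset.card_eq_two.mp h2
  obtain ⟨hp, hpd⟩ := (hpf p).mp (by rw [hset]; simp)
  obtain ⟨hq, hqd⟩ := (hpf q).mp (by rw [hset]; simp)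
  have hall : ∀ r : ℕ, r.Prime → r ∣ Nat.card G → r = p ∨ r = q := fun r hr hrd => by
    have := (hpf r).mpr ⟨hr, hrd⟩; rw [hset] at this; simpa using this
  have hp2 := hne2 p hpd
  have hq2 := hne2 q hqd
  obtain ⟨hp3, hq3, hpq3, -, -, hco⟩ := pair_three_le hp hq hp2 hq2 hne hpd hqd
  haveI := Fact.mk hp
  haveI := Fact.mk hq
  have hp0 := cnt_prime_ne_zero (G := G) hp hpd
  have hq0 := cnt_prime_ne_zero (G := G) hq hqd
  -- exponents
  have hsq : ∀ r : ℕ, r.Prime → r ∣ Nat.card G → cnt G (r ^ 2) ≠ 0 →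
      (cnt G (r ^ 2) : ZMod r) = 0 ∧ cnt G (r ^ 2) ≠ cnt G r := by
    intro r hr hrd h0
    haveI := Fact.mk hr
    obtain ⟨x, hx⟩ := (cnt_ne_zero_iff _).mp h0
    have h := cast_sum_eq_zero (G := G) (pow_ne_zero 2 hr.ne_zero) (hx ▸ orderOf_dvd_natCard x) (dvd_pow_self r two_ne_zero)
    rw [Nat.sum_divisors_prime_pow hr, Finset.sum_range_succ, Finset.sum_range_succ, Finset.sum_range_one, pow_zero,
      pow_one, cnt_one, Nat.cast_add, Nat.cast_add, Nat.cast_one, cast_prime hr hrd] at h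
    have h' : (cnt G (r ^ 2) : ZMod r) = 0 := by linear_combination h
    exact ⟨h', fun e => not_dvd_cnt_prime hr hrd ((ZMod.natCast_eq_zero_iff _ r).mp (e ▸ h'))⟩
  by_cases heq : cnt G p = cnt G q
  · exfalso
    obtain ⟨h0, h1, h1'⟩ := same_pair hp hq hp2 hq2 hne hpd hqd heq
    have hno : ∀ r t : ℕ, r.Prime → t.Prime → r ≠ 2 → t ≠ 2 → r ≠ t → r ∣ Nat.card G → t ∣ Nat.card G →
        cnt G r = cnt G t → cnt G (r ^ 2) = 0 := by
      intro r t hr ht hr2 ht2 hrt hrd htd hcr
      haveI := Fact.mk hr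
      by_contra hr0
      obtain ⟨e0, e1⟩ := hsq r hr hrd hr0
      obtain ⟨k0, k1, k1'⟩ := same_pair hr ht hr2 ht2 hrt hrd htd hcr
      have := hT.eq_of_ne_ne (show 3 ≤ r by have := hr.two_le; omega) (show 3 ≤ r ^ 2 by have := hr.two_le; nlinarith)
        (pair_three_le hr ht hr2 ht2 hrt hrd htd).2.2.1 (cnt_prime_ne_zero hr hrd) hr0 k0 e1 k1
      rw [this, k1'] at e0
      exact one_ne_zero e0
    have hfull : ∀ r t : ℕ, r.Prime → t.Prime → r ≠ 2 → t ≠ 2 → r ≠ t → r ∣ Nat.card G → t ∣ Nat.card G →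
        cnt G r = cnt G t → r ^ (Nat.card G).factorization r ∣ 1 + cnt G r := by
      intro r t hr ht hr2 ht2 hrt hrd htd hcr
      have hd := dvd_sum_cnt (G := G) (pow_ne_zero _ hr.ne_zero) (Nat.ordProj_dvd (Nat.card G) r)
      have hsum : ∑ d ∈ (r ^ (Nat.card G).factorization r).divisors, cnt G d = 1 + cnt G r := by
        rw [Nat.sum_divisors_prime_pow hr]
        have h1e : 1 ≤ (Nat.card G).factorization r := hr.factorization_pos_of_dvd Nat.card_pos.ne' hrd
        obtain ⟨e, he⟩ : ∃ e, (Nat.card G).factorization r = e + 1 := ⟨_, (Nat.sub_add_cancel h1e).symm⟩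
        rw [he, Finset.sum_range_succ', pow_zero, cnt_one, Finset.sum_range_succ']
        rw [Finset.sum_eq_zero, zero_add, pow_one, add_comm]
        intro i _
        by_contra hi
        obtain ⟨x, hx⟩ := (cnt_ne_zero_iff _).mp hi
        apply (fun e => e) ((cnt_ne_zero_iff (r ^ 2)).mpr ⟨x ^ r ^ i, ?_⟩) (hno r t hr ht hr2 ht2 hrt hrd htd hcr)
        rw [orderOf_pow' _ (pow_ne_zero _ hr.ne_zero), hx, Nat.gcd_eq_right (pow_dvd_pow r (by omega)),
          Nat.pow_div (by omega) hr.pos]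
        congr 1
        omega
      rwa [hsum] at hd
    have hN : Nat.card G ∣ 1 + cnt G p := by
      rw [Nat.dvd_iff_prime_pow_dvd_dvd]
      intro r k hr hrk
      rcases Nat.eq_zero_or_pos k with rfl | hk
      · simp
      have hle : k ≤ (Nat.card G).factorization r := (Nat.Prime.pow_dvd_iff_le_factorization hr Nat.card_pos.ne').mp hrk
      refine (pow_dvd_pow r hle).trans ?_
      rcases hall r hr ((dvd_pow_self r hk.ne').trans hrk) with e | e
      · rw [e]; exact hfull p q hp hq hp2 hq2 hne hpd hqd heq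
      · rw [e, heq]; exact hfull q p hq hp hq2 hp2 hne.symm hqd hpd heq.symm
    have hbig : 1 + cnt G p + cnt G q ≤ Nat.card G := by
      haveI := Fintype.ofFinite G
      have hc1 : cnt G 1 = 1 := cnt_one
      calc 1 + cnt G p + cnt G q = cnt G 1 + cnt G p + cnt G q := by rw [hc1]
        _ ≤ Nat.card G := by
          simp only [cnt, Nat.card_eq_fintype_card, Fintype.card_subtype]
          rw [← Finset.card_union_of_disjoint (Finset.disjoint_filter.mpr fun g _ hg => by omega),
            ← Finset.card_union_of_disjoint (by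
              rw [Finset.disjoint_union_left]
              exact ⟨Finset.disjoint_filter.mpr fun g _ hg => by omega, Finset.disjoint_filter.mpr fun g _ hg => by omega⟩)]
          exact Finset.card_le_univ _
    have := Nat.le_of_dvd (by omega) hN
    omega
  obtain ⟨hpq0, hpdiv, hqdiv⟩ := cross_pair hT hp hq hp2 hq2 hne hpd hqd heq
  have hno : ∀ r t : ℕ, r.Prime → t.Prime → r ≠ 2 → t ≠ 2 → r ≠ t → r ∣ Nat.card G → t ∣ Nat.card G →
      cnt G r ≠ cnt G t → cnt G (r ^ 2) = 0 := by
    intro r t hr ht hr2 ht2 hrt hrd htd hcr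
    by_contra hr0
    obtain ⟨-, e1⟩ := hsq r hr hrd hr0
    have he : cnt G (r ^ 2) = cnt G t := hT.eq_of_ne_ne (show 3 ≤ r by have := hr.two_le; omega)
      (show 3 ≤ r ^ 2 by have := hr.two_le; nlinarith) (show 3 ≤ t by have := ht.two_le; omega)
      (cnt_prime_ne_zero hr hrd) hr0 (cnt_prime_ne_zero ht htd) e1 (Ne.symm hcr)
    have hcot : Nat.Coprime t (r ^ 2) := ((Nat.coprime_primes ht hr).mpr (Ne.symm hrt)).pow_right 2
    have hle := totient_mul_cnt_le ht hcot (he ▸ not_dvd_cnt_prime ht htd)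
    have hpos : 0 < (r ^ 2).totient * cnt G t :=
      Nat.mul_pos (Nat.totient_pos.mpr (pow_pos hr.pos 2)) (Nat.pos_of_ne_zero (cnt_prime_ne_zero ht htd))
    obtain ⟨x, hx⟩ := (cnt_ne_zero_iff (G := G) (t * r ^ 2)).mp (by omega)
    have hzero := (cross_pair hT hr ht hr2 ht2 hrt hrd htd hcr).1
    refine (cnt_ne_zero_iff (r * t)).mpr ⟨x ^ r, ?_⟩ hzero
    rw [orderOf_pow' _ hr.ne_zero, hx, Nat.gcd_eq_right (Dvd.dvd.mul_left (dvd_pow_self r two_ne_zero) t), pow_two,
      ← mul_assoc, Nat.mul_div_cancel _ hr.pos, mul_comm]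
  have hel : ∀ x : G, x ^ p = 1 ∨ x ^ q = 1 := by
    intro x
    have hdiv : ∀ d, d ∣ orderOf x → cnt G d ≠ 0 := fun d hd => (cnt_ne_zero_iff d).mpr
      ⟨x ^ (orderOf x / d), orderOf_pow_orderOf_div (orderOf_pos x).ne' hd⟩
    have hsqf : orderOf x ∣ p * q := by
      rw [Nat.dvd_iff_prime_pow_dvd_dvd]
      intro r k hr hrk
      rcases Nat.eq_zero_or_pos k with rfl | hk
      · simp
      have hrd : r ∣ Nat.card G := (dvd_pow_self r hk.ne').trans (hrk.trans (orderOf_dvd_natCard x))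
      have hk1 : k ≤ 1 := by
        by_contra hk1
        apply hdiv (r ^ 2) ((pow_dvd_pow r (by omega)).trans hrk)
        rcases hall r hr hrd with e | e
        · rw [e]; exact hno p q hp hq hp2 hq2 hne hpd hqd heq
        · rw [e]; exact hno q p hq hp hq2 hp2 hne.symm hqd hpd (Ne.symm heq)
      rw [show k = 1 by omega, pow_one]
      rcases hall r hr hrd with e | e <;> rw [e]
      · exact dvd_mul_right p q
      · exact dvd_mul_left q p
    obtain ⟨d1, d2, h1, h2', e⟩ := exists_dvd_and_dvd_of_dvd_mul hsqf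
    rcases hp.eq_one_or_self_of_dvd d1 h1 with rfl | rfl
    · exact Or.inr (orderOf_dvd_iff_pow_eq_one.mp (by rw [e, one_mul]; exact h2'))
    rcases hq.eq_one_or_self_of_dvd d2 h2' with rfl | rfl
    · exact Or.inl (orderOf_dvd_iff_pow_eq_one.mp (by rw [e, mul_one]))
    · exact absurd hpq0 (hdiv _ (by rw [e]))
  have hnt : Nontrivial G := Finite.one_lt_card_iff_nontrivial.mp
    (lt_of_lt_of_le hp.one_lt (Nat.le_of_dvd Nat.card_pos hpd))
  constructor
  · intro r _ P hr
    have hrp : r.Prime := Fact.out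
    refine Nat.dvd_antisymm (Monoid.exponent_dvd_of_forall_pow_eq_one fun x => Subtype.ext ?_) ?_
    · rw [Subgroup.coe_pow, Subgroup.coe_one]
      obtain ⟨k, hk⟩ := P.isPGroup' x
      have hk' : (x : G) ^ r ^ k = 1 := congrArg Subtype.val hk
      have key : ∀ s : ℕ, s.Prime → (x : G) ^ s = 1 → (x : G) ^ r = 1 := by
        intro s hs hxs
        by_cases hsr : s = r
        · exact hsr ▸ hxs
        · have := pow_gcd_eq_one.mpr ⟨hxs, hk'⟩
          rw [show Nat.gcd s (r ^ k) = 1 from Nat.Coprime.pow_right k ((Nat.coprime_primes hs hrp).mpr hsr), pow_one] at this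
          rw [this, one_pow]
      rcases hel (x : G) with hx | hx
      · exact key p hp hx
      · exact key q hq hx
    · obtain ⟨y, hy⟩ := exists_prime_orderOf_dvd_card' (G := (P : Subgroup G)) r (P.dvd_card_of_dvd_card hr)
      exact (dvd_of_eq hy.symm).trans (Monoid.order_dvd_exponent y)
  · haveI : Group.IsSolvable G := CfsgLib.Chars.Apps.isSolvable_of_primeFactors_subset G hp hq hall
    obtain ⟨M, r, k, hMn, hMne, -, -, hr, hk, hMcard, -⟩ := CfsgLib.Solvable.exists_minimal_normal_of_solvable (G := G)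
    haveI := Fact.mk hr
    rcases hall r hr ((dvd_pow_self r hk.ne').trans (hMcard ▸ M.card_subgroup_dvd_card)) with rfl | rfl
    · exact structure_aux hp hq hne hq2 hqd hel M hMn hMne (IsPGroup.of_card hMcard)
    · exact structure_aux hq hp hne.symm hp2 hpd (fun x => (hel x).symm) M hMn hMne (IsPGroup.of_card hMcard)

end Cfsg.Agent.S4004
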