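import Cfsg.Statements.S4005
import Mathlib
import Cfsg.Agent.Solvable.MinNormal
import Cfsg.Agent.Chars.Apps.Burnside

set_option autoImplicit false
open Cfsg

namespace Cfsg.Agent.S4005

theorem cancel_aux {V : Type*} [CommGroup V] {n A B C : V} (h : n * A * (B * C) = n * C) : A * B = 1 := by
  apply mul_left_cancel (a := n * C)
  rw [mul_one]
  exact (by ac_rfl : n * C * (A * B) = n * A * (B * C)).trans h

variable {G : Type*} [Group G] [Finite G]

theorem inverts (ho : ∀ x : G, x ^ 2 = 1 ∨ x ^ 3 = 1) (M : Subgroup G) [M.Normal]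
    (hM : ∀ m ∈ M, m ^ 3 = 1) {s : G} (hs : s ^ 2 = 1) (hs1 : s ≠ 1) {m : G} (hm : m ∈ M) :
    s * m * s⁻¹ = m⁻¹ := by
  rcases ho (s * m) with h | h
  · rw [pow_two] at h hs
    have hsi : s⁻¹ = s := inv_eq_of_mul_eq_one_right hs
    rw [hsi]
    exact eq_inv_of_mul_eq_one_left (by rw [mul_assoc]; exact h)
  · exfalso
    apply hs1
    have h1 : ((s : G) : G ⧸ M) ^ 3 = 1 := by
      rw [show ((s : G) : G ⧸ M) = ((s * m : G) : G ⧸ M) by
        rw [QuotientGroup.eq, inv_mul_cancel_left]; exact hm, ← QuotientGroup.mk_pow, h]; rfl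
    rw [← QuotientGroup.mk_pow, QuotientGroup.eq_one_iff, pow_succ, hs, one_mul] at h1
    have := hM s h1
    rwa [pow_succ, hs, one_mul] at this

theorem cube_case (ho : ∀ x : G, x ^ 2 = 1 ∨ x ^ 3 = 1)
    (hnc : ∀ s x : G, s ^ 2 = 1 → s ≠ 1 → x ^ 3 = 1 → x ≠ 1 → ¬ Commute s x)
    {s : G} (hs : s ^ 2 = 1) (hs1 : s ≠ 1) (N : Subgroup G) [N.Normal] (hN : ∀ n ∈ N, n ^ 3 = 1)
    {x : G} (hx : x ∈ N) (hx1 : x ≠ 1) :
    ∃ M : Subgroup G, M.Normal ∧ Cfsg.IsElementaryAbelian 3 M ∧ M.index = 2 := by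
  set M := Subgroup.centralizer (N : Set G)
  haveI hMn : M.Normal := inferInstanceAs (Subgroup.centralizer (N : Set G)).Normal
  have hM : ∀ m ∈ M, m ^ 3 = 1 := by
    intro m hm
    rcases ho m with h | h
    · by_cases h1 : m = 1
      · rw [h1, one_pow]
      · exact absurd (Subgroup.mem_centralizer_iff.mp hm x hx).symm (hnc m x h h1 (hN x hx) hx1)
    · exact h
  have hinv : ∀ g : G, g ^ 2 = 1 → g ≠ 1 → ∀ n ∈ N, g * n * g⁻¹ = n⁻¹ := fun g hg hg1 n hn => inverts ho N hN hg hg1 hn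
  have hprod : ∀ g h : G, g ^ 2 = 1 → g ≠ 1 → h ^ 2 = 1 → h ≠ 1 → g * h ∈ M := by
    intro g h hg hg1 hh hh1
    rw [Subgroup.mem_centralizer_iff]
    intro n hn
    have : g * h * n * (g * h)⁻¹ = n := by
      calc g * h * n * (g * h)⁻¹ = g * (h * n * h⁻¹) * g⁻¹ := by group
        _ = n := by rw [hinv h hh hh1 n hn, hinv g hg hg1 _ (N.inv_mem hn), inv_inv]
    exact (mul_inv_eq_iff_eq_mul.mp this).symm
  refine ⟨M, hMn, ⟨⟨⟨fun a b => Subtype.ext ?_⟩⟩, hM⟩, Subgroup.index_eq_two_iff.mpr ⟨s, fun g => ?_⟩⟩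
  · have ha := inverts ho M hM hs hs1 a.2
    have hb := inverts ho M hM hs hs1 b.2
    have hab := inverts ho M hM hs hs1 (M.mul_mem a.2 b.2)
    have : (a : G)⁻¹ * (b : G)⁻¹ = ((a : G) * b)⁻¹ := by
      rw [← hab, ← ha, ← hb]; group
    show (a : G) * b = b * a
    rw [← mul_inv_rev] at this
    exact (inv_injective this).symm
  · have hsM : s ∉ M := fun h => hs1 (by
      have := hM s h
      rwa [pow_succ, hs, one_mul] at this)
    by_cases hgM : g ∈ M
    · exact Or.inr ⟨hgM, fun h => hsM (by simpa using M.mul_mem (M.inv_mem hgM) h)⟩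
    · refine Or.inl ⟨?_, hgM⟩
      have hg1 : g ≠ 1 := fun h => hgM (h ▸ M.one_mem)
      rcases ho g with h | h
      · exact hprod g s h hg1 hs hs1
      · exfalso
        have hc : g * s * g⁻¹ * s ∈ M :=
          hprod _ s (by rw [conj_pow, hs]; group) (fun h' => hs1 (conj_eq_one_iff.mp h')) hs hs1
        have hcomm : Commute ((g : G) : G ⧸ M) ((s : G) : G ⧸ M) := by
          show ((g : G) : G ⧸ M) * (s : G) = (s : G) * (g : G)
          rw [← QuotientGroup.mk_mul, ← QuotientGroup.mk_mul, QuotientGroup.eq]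
          have e : (g * s)⁻¹ * (s * g) = s⁻¹ * g⁻¹ * s * g := by group
          rw [e]
          have hc' := hMn.conj_mem _ hc g⁻¹
          have hsi : s⁻¹ = s := inv_eq_of_mul_eq_one_right (by rw [← pow_two]; exact hs)
          have : s⁻¹ * g⁻¹ * s * g = (g⁻¹ * (g * s * g⁻¹ * s) * g⁻¹⁻¹) := by
            rw [hsi]; group
          rw [this]; exact hc'
        rcases ho (g * s) with h' | h'
        · have h2 : ((g : G) : G ⧸ M) ^ 2 = 1 := by
            have h3 : (((g : G) : G ⧸ M) * (s : G)) ^ 2 = 1 := by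
              rw [← QuotientGroup.mk_mul, ← QuotientGroup.mk_pow, h']; rfl
            rw [hcomm.mul_pow, ← QuotientGroup.mk_pow, ← QuotientGroup.mk_pow, hs] at h3
            simpa using h3
          apply hgM
          rw [← QuotientGroup.eq_one_iff]
          have h3 : ((g : G) : G ⧸ M) ^ 3 = 1 := by rw [← QuotientGroup.mk_pow, h]; rfl
          rwa [pow_succ, h2, one_mul] at h3
        · apply hsM
          rw [← QuotientGroup.eq_one_iff]
          have h3 : (((g : G) : G ⧸ M) * (s : G)) ^ 3 = 1 := by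
            rw [← QuotientGroup.mk_mul, ← QuotientGroup.mk_pow, h']; rfl
          rw [hcomm.mul_pow, ← QuotientGroup.mk_pow, ← QuotientGroup.mk_pow, h, pow_succ s 2, hs, one_mul] at h3
          simpa using h3

theorem square_case (ho : ∀ x : G, x ^ 2 = 1 ∨ x ^ 3 = 1)
    (hnc : ∀ s x : G, s ^ 2 = 1 → s ≠ 1 → x ^ 3 = 1 → x ≠ 1 → ¬ Commute s x)
    {u : G} (hu : u ^ 3 = 1) (hu1 : u ≠ 1) (N : Subgroup G) [N.Normal] (hN : ∀ n ∈ N, n ^ 2 = 1)
    {x : G} (hx : x ∈ N) (hx1 : x ≠ 1) :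
    ∃ M : Subgroup G, M.Normal ∧ Cfsg.IsElementaryAbelian 2 M ∧ M.index = 3 := by
  set M := Subgroup.centralizer (N : Set G)
  haveI hMn : M.Normal := inferInstanceAs (Subgroup.centralizer (N : Set G)).Normal
  have hcent : ∀ t : G, t ^ 2 = 1 → t ≠ 1 → ∀ c, Commute t c → c ^ 2 = 1 := by
    intro t ht ht1 c hc
    rcases ho c with h | h
    · exact h
    · by_cases h1 : c = 1
      · rw [h1, one_pow]
      · exact absurd hc (hnc t c ht ht1 h h1)
  have hcomm : ∀ t : G, t ^ 2 = 1 → t ≠ 1 → ∀ a b, Commute t a → Commute t b → a * b = b * a := by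
    intro t ht ht1 a b ha hb
    have hi : ∀ c, Commute t c → c⁻¹ = c := fun c hc =>
      inv_eq_of_mul_eq_one_right (by rw [← pow_two]; exact hcent t ht ht1 c hc)
    calc a * b = (a * b)⁻¹ := (hi _ (ha.mul_right hb)).symm
      _ = b⁻¹ * a⁻¹ := mul_inv_rev a b
      _ = b * a := by rw [hi _ ha, hi _ hb]
  have hNc : ∀ a ∈ N, ∀ b ∈ N, a * b = b * a := by
    intro a ha b hb
    have hi : ∀ c ∈ N, c⁻¹ = c := fun c hc => inv_eq_of_mul_eq_one_right (by rw [← pow_two]; exact hN c hc)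
    calc a * b = (a * b)⁻¹ := (hi _ (N.mul_mem ha hb)).symm
      _ = b⁻¹ * a⁻¹ := mul_inv_rev a b
      _ = b * a := by rw [hi _ ha, hi _ hb]
  have hM : ∀ m ∈ M, m ^ 2 = 1 := fun m hm => hcent x (hN x hx) hx1 m (Subgroup.mem_centralizer_iff.mp hm x hx)
  have hout : ∀ g ∉ M, g ^ 3 = 1 := by
    intro g hg
    rcases ho g with h | h
    · exfalso
      obtain ⟨n, hn, hn1, hgn⟩ : ∃ n ∈ N, n ≠ 1 ∧ Commute n g := by
        have hgi : g⁻¹ = g := inv_eq_of_mul_eq_one_right (by rw [← pow_two]; exact h)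
        have hgN : g * x * g⁻¹ ∈ N := ‹N.Normal›.conj_mem x hx g
        by_cases hfix : x * (g * x * g⁻¹) = 1
        · refine ⟨x, hx, hx1, ?_⟩
          have hxi : x⁻¹ = x := inv_eq_of_mul_eq_one_right (by rw [← pow_two]; exact hN x hx)
          have := eq_inv_of_mul_eq_one_right hfix
          rw [hxi] at this
          exact (mul_inv_eq_iff_eq_mul.mp this).symm
        · refine ⟨_, N.mul_mem hx hgN, hfix, ?_⟩
          have hh : g * g = 1 := by rw [← pow_two]; exact h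
          show x * (g * x * g⁻¹) * g = g * (x * (g * x * g⁻¹))
          calc x * (g * x * g⁻¹) * g = (g * x * g⁻¹) * x * g := by rw [hNc x hx _ hgN]
            _ = _ := by rw [hgi]; simp only [mul_assoc]
      exact hg (Subgroup.mem_centralizer_iff.mpr fun m hm =>
        hcomm n (hN n hn) hn1 m g (hNc n hn m hm) hgn)
    · exact h
  have huM : u ∉ M := fun h => hu1 (by
    have := hM u h
    rw [pow_succ, this, one_mul] at hu
    exact hu)
  refine ⟨M, hMn, ⟨⟨⟨fun a b => Subtype.ext (hcomm x (hN x hx) hx1 a b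
    (Subgroup.mem_centralizer_iff.mp a.2 x hx) (Subgroup.mem_centralizer_iff.mp b.2 x hx))⟩⟩, hM⟩, ?_⟩
  rw [Subgroup.index_eq_card]
  have hQ3 : ∀ q : G ⧸ M, q ^ 3 = 1 := by
    intro q
    obtain ⟨g, rfl⟩ := QuotientGroup.mk_surjective q
    by_cases hg : g ∈ M
    · rw [(QuotientGroup.eq_one_iff g).mpr hg, one_pow]
    · rw [← QuotientGroup.mk_pow, hout g hg]; rfl
  haveI : Fact (Nat.Prime 3) := ⟨Nat.prime_three⟩
  haveI : Nontrivial (G ⧸ M) := ⟨⟨(u : G ⧸ M), 1, fun h => huM ((QuotientGroup.eq_one_iff u).mp h)⟩⟩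
  have hQ : IsPGroup 3 (G ⧸ M) := fun q => ⟨1, by rw [pow_one]; exact hQ3 q⟩
  haveI := hQ.center_nontrivial
  obtain ⟨⟨z, hz⟩, hz1⟩ := exists_ne (1 : Subgroup.center (G ⧸ M))
  have hz1' : z ≠ 1 := fun h => hz1 (Subtype.ext h)
  by_contra hne
  obtain ⟨w, hw⟩ : ∃ w, w ∉ Subgroup.zpowers z := by
    by_contra hall
    push_neg at hall
    apply hne
    rw [← Subgroup.card_top, show (⊤ : Subgroup (G ⧸ M)) = Subgroup.zpowers z from
      le_antisymm (fun t _ => hall t) le_top, Nat.card_zpowers]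
    exact orderOf_eq_prime (hQ3 z) hz1'
  obtain ⟨a, rfl⟩ := QuotientGroup.mk_surjective z
  obtain ⟨b, rfl⟩ := QuotientGroup.mk_surjective w
  have haM : a ∉ M := fun h => hz1' ((QuotientGroup.eq_one_iff a).mpr h)
  have hbM : b ∉ M := fun h => hw (by rw [(QuotientGroup.eq_one_iff b).mpr h]; exact Subgroup.one_mem _)
  have habM : a * b ∉ M := fun h => hw (by
    have : (b : G ⧸ M) = (a : G ⧸ M)⁻¹ :=
      eq_inv_of_mul_eq_one_right (by rw [← QuotientGroup.mk_mul, QuotientGroup.eq_one_iff]; exact h)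
    rw [this]; exact Subgroup.inv_mem _ (Subgroup.mem_zpowers _))
  -- the three automorphisms of `N`
  let c : G → G → G := fun g n => g * n * g⁻¹
  have hcN : ∀ g n, n ∈ N → c g n ∈ N := fun g n hn => ‹N.Normal›.conj_mem n hn g
  have hi : ∀ n ∈ N, n * n = 1 := fun n hn => by rw [← pow_two]; exact hN n hn
  have htriple : ∀ g ∉ M, ∀ n ∈ N, c g (c g n) = n * c g n := by
    intro g hg n hn
    have hng : n * g ∉ M := fun h => hg (by
      have hnM : n ∈ M := Subgroup.mem_centralizer_iff.mpr fun m hm => hNc m hm n hn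
      simpa using M.mul_mem (M.inv_mem hnM) h)
    have h1 := hout _ hng
    have hg3 := hout g hg
    have h2 : n * c g n * c g (c g n) = 1 := by
      calc n * c g n * c g (c g n) = (n * g) ^ 3 * (g ^ 3)⁻¹ := by
            simp only [c, pow_succ, pow_zero, one_mul]; group
        _ = 1 := by rw [h1, hg3, inv_one, mul_one]
    have h3 := N.mul_mem hn (hcN g n hn)
    exact mul_left_cancel (a := n * c g n) (by rw [h2, hi _ h3])
  have hAB : ∀ n ∈ N, c a (c b n) = c b (c a n) := by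
    intro n hn
    have hm : (b * a)⁻¹ * (a * b) ∈ M := by
      rw [← QuotientGroup.eq, QuotientGroup.mk_mul, QuotientGroup.mk_mul]
      exact Subgroup.mem_center_iff.mp hz _
    have h := Subgroup.mem_centralizer_iff.mp hm n hn
    calc c a (c b n) = (b * a) * ((b * a)⁻¹ * (a * b) * n) * (a * b)⁻¹ := by simp only [c]; group
      _ = (b * a) * (n * ((b * a)⁻¹ * (a * b))) * (a * b)⁻¹ := by rw [h]
      _ = _ := by simp only [c]; group
  have hcmul : ∀ g m n, c g (m * n) = c g m * c g n := fun g m n => by simp only [c]; group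
  have hkey : ∀ n ∈ N, c a n = c b n := by
    intro n hn
    have hA := hcN a n hn
    have hB := hcN b n hn
    have hAB' := hcN a _ hB
    have h1 := htriple _ habM n hn
    have e : ∀ m, c (a * b) m = c a (c b m) := fun m => by simp only [c]; group
    rw [e, e, ← hAB _ hB, htriple b hbM n hn, hcmul a n, hcmul a (c a n)] at h1
    rw [htriple a haM n hn, htriple a haM _ hB] at h1
    have h2 : c a n * c b n = 1 := by
      letI : CommGroup N := { (inferInstance : Group N) with mul_comm := fun p q => Subtype.ext (hNc p p.2 q q.2) }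
      have h' : (⟨n, hn⟩ : N) * ⟨_, hA⟩ * (⟨_, hB⟩ * ⟨_, hAB'⟩) = ⟨n, hn⟩ * ⟨_, hAB'⟩ := Subtype.ext h1
      exact congrArg Subtype.val (cancel_aux h')
    calc c a n = c a n * (c b n * c b n) := by rw [hi _ hB, mul_one]
      _ = c b n := by rw [← mul_assoc, h2, one_mul]
  apply hw
  have hab : b⁻¹ * a ∈ M := Subgroup.mem_centralizer_iff.mpr fun n hn => by
    have h := hkey n hn
    calc n * (b⁻¹ * a) = b⁻¹ * (c b n) * a := by simp only [c]; group
      _ = b⁻¹ * (c a n) * a := by rw [h]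
      _ = _ := by simp only [c]; group
  rw [show (b : G ⧸ M) = (a : G ⧸ M) from QuotientGroup.eq.mpr hab]
  exact Subgroup.mem_zpowers _

/-- A finite group whose set of element orders is exactly {1, 2, 3} has either a normal elementary abelian 3-subgroup of index 2 or a normal elementary abelian 2-subgroup of index 3. -/
theorem result {G : Type*} [Group G] [Finite G] (h : Set.range (orderOf : G → ℕ) = {k : ℕ | 1 ≤ k ∧ k ≤ 3}) :
    (∃ N : Subgroup G, N.Normal ∧ Cfsg.IsElementaryAbelian 3 N ∧ N.index = 2) ∨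
      (∃ N : Subgroup G, N.Normal ∧ Cfsg.IsElementaryAbelian 2 N ∧ N.index = 3) := by
  have ho : ∀ x : G, x ^ 2 = 1 ∨ x ^ 3 = 1 := by
    intro x
    have hx : orderOf x ∈ {k : ℕ | 1 ≤ k ∧ k ≤ 3} := h ▸ ⟨x, rfl⟩
    obtain ⟨h1, h3⟩ := hx
    have := pow_orderOf_eq_one x
    interval_cases h' : orderOf x
    · left; rw [pow_one] at this; rw [this, one_pow]
    · exact Or.inl this
    · exact Or.inr this
  obtain ⟨s, hs⟩ : ∃ s : G, orderOf s = 2 := by
    have : (2 : ℕ) ∈ Set.range (orderOf : G → ℕ) := h.symm ▸ ⟨by norm_num, by norm_num⟩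
    exact this
  obtain ⟨u, hu⟩ : ∃ u : G, orderOf u = 3 := by
    have : (3 : ℕ) ∈ Set.range (orderOf : G → ℕ) := h.symm ▸ ⟨by norm_num, le_rfl⟩
    exact this
  haveI : Fact (Nat.Prime 2) := ⟨Nat.prime_two⟩
  haveI : Fact (Nat.Prime 3) := ⟨Nat.prime_three⟩
  have hnc : ∀ s x : G, s ^ 2 = 1 → s ≠ 1 → x ^ 3 = 1 → x ≠ 1 → ¬ Commute s x := by
    intro s x hs hs1 hx hx1 hc
    have ho2 := orderOf_eq_prime hs hs1
    have ho3 := orderOf_eq_prime hx hx1
    have h6 := hc.orderOf_mul_eq_mul_orderOf_of_coprime (by rw [ho2, ho3]; norm_num)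
    have hmem : orderOf (s * x) ∈ {k : ℕ | 1 ≤ k ∧ k ≤ 3} := h ▸ ⟨s * x, rfl⟩
    rw [h6, ho2, ho3] at hmem
    exact absurd hmem.2 (by norm_num)
  have hprimes : ∀ r : ℕ, r.Prime → r ∣ Nat.card G → r = 2 ∨ r = 3 := by
    intro r hr hd
    haveI := Fact.mk hr
    obtain ⟨g, hg⟩ := exists_prime_orderOf_dvd_card' r hd
    have : orderOf g ∈ {k : ℕ | 1 ≤ k ∧ k ≤ 3} := h ▸ ⟨g, rfl⟩
    have h2 := hr.two_le
    rw [hg] at this
    have := this.2
    omega
  haveI := CfsgLib.Chars.Apps.isSolvable_of_primeFactors_subset G Nat.prime_two Nat.prime_three hprimes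
  have hs1 : s ≠ 1 := fun h' => by rw [h', orderOf_one] at hs; norm_num at hs
  have hu1 : u ≠ 1 := fun h' => by rw [h', orderOf_one] at hu; norm_num at hu
  haveI : Nontrivial G := ⟨⟨s, 1, hs1⟩⟩
  obtain ⟨N, p, k, hNn, hN1, -, -, hp, -, -, hexp⟩ := CfsgLib.Solvable.exists_minimal_normal_of_solvable (G := G)
  haveI := hNn
  obtain ⟨x, hx, hx1⟩ := N.bot_or_exists_ne_one.resolve_left hN1
  haveI := Fact.mk hp
  have hxo := orderOf_eq_prime (hexp x hx) hx1
  rcases hprimes p hp (hxo ▸ orderOf_dvd_natCard x) with rfl | rfl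
  · exact Or.inr (square_case ho hnc (hu ▸ pow_orderOf_eq_one u) hu1 N hexp hx hx1)
  · exact Or.inl (cube_case ho hnc (hs ▸ pow_orderOf_eq_one s) hs1 N hexp hx hx1)

end Cfsg.Agent.S4005
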