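import Cfsg.Statements.S4197
import Cfsg.Agent.ClassesPerm.Bound

set_option autoImplicit false
open Cfsg

namespace Cfsg.Agent.S4197

/-- A permutation group of degree n, that is a subgroup S of the symmetric group on a finite set with n elements, has at most 2^(n−1) conjugacy classes. (For n = 0 both sides equal 1 with truncated subtraction.) -/
theorem result {α : Type*} [Fintype α] [DecidableEq α] (S : Subgroup (Equiv.Perm α)) : Nat.card (ConjClasses S) ≤ 2 ^ (Fintype.card α - 1) := by
  classical
  rcases Nat.eq_zero_or_pos (Fintype.card α) with h0 | hpos
  · have : IsEmpty α := Fintype.card_eq_zero_iff.1 h0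
    have : Subsingleton (ConjClasses S) :=
      ⟨fun a b => by
        obtain ⟨x, rfl⟩ := ConjClasses.exists_rep a
        obtain ⟨y, rfl⟩ := ConjClasses.exists_rep b
        rw [Subsingleton.elim x y]⟩
    rw [h0]
    exact Nat.le_of_eq (Nat.card_unique)
  · let e : α ≃ Fin (Fintype.card α) := Fintype.equivFin α
    let T : Subgroup (Equiv.Perm (Fin (Fintype.card α))) := S.map e.permCongrHom.toMonoidHom
    let i : S ≃* T := e.permCongrHom.subgroupMap S
    have hc : Nat.card (ConjClasses S) = Nat.card (ConjClasses T) :=
      Nat.card_congr
        { toFun := ConjClasses.map i.toMonoidHom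
          invFun := ConjClasses.map i.symm.toMonoidHom
          left_inv := fun c => by
            obtain ⟨x, rfl⟩ := ConjClasses.exists_rep c
            exact congrArg ConjClasses.mk (i.symm_apply_apply x)
          right_inv := fun c => by
            obtain ⟨x, rfl⟩ := ConjClasses.exists_rep c
            exact congrArg ConjClasses.mk (i.apply_symm_apply x) }
    rw [hc]
    exact CfsgLib.ClassesPerm.card_conjClasses_le hpos T

end Cfsg.Agent.S4197
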