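import Cfsg.Statements.S4198
import Mathlib.GroupTheory.SpecificGroups.Alternating.Centralizer
-- import your own Cfsg.Agent.* helpers here

set_option autoImplicit false
open Cfsg

namespace Cfsg.Agent.S4198

theorem conj_classes_alternating_lt (n : ℕ) (hn : 5 ≤ n) :
    Nat.card (ConjClasses (alternatingGroup (Fin n))) <
      Nat.card (ConjClasses (Equiv.Perm (Fin n))) := by
  classical
  let ct : ConjClasses (Equiv.Perm (Fin n)) → Multiset ℕ :=
    Quotient.lift (fun s : Equiv.Perm (Fin n) => s.cycleType)
      (fun _ _ h => Equiv.Perm.isConj_iff_cycleType_eq.1 h)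
  have hct : Function.Injective ct := by
    intro a b
    induction a using Quotient.inductionOn with
    | h a => induction b using Quotient.inductionOn with
      | h b => exact fun h => Quotient.sound (Equiv.Perm.isConj_iff_cycleType_eq.2 h)
  have hrange : ∀ m : Multiset ℕ, m.sum ≤ n → (∀ a ∈ m, 2 ≤ a) → m ∈ Set.range ct := fun m h1 h2 => by
    obtain ⟨g, hg⟩ := (Equiv.Perm.exists_with_cycleType_iff (Fin n) (m := m)).2
      ⟨by rwa [Fintype.card_fin], h2⟩
    exact ⟨ConjClasses.mk g, hg⟩
  let rep : Multiset ℕ → alternatingGroup (Fin n) := fun m =>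
    if h : ∃ a : alternatingGroup (Fin n), (a : Equiv.Perm (Fin n)).cycleType = m then h.choose else 1
  let big : Multiset ℕ → ℕ := fun m => if h : ∃ M, M ∈ m then h.choose else 0
  let flip : Multiset ℕ → Multiset ℕ := fun m => (big m - 1) ::ₘ m.erase (big m)
  let typ : ConjClasses (alternatingGroup (Fin n)) → Multiset ℕ := fun c =>
    ((Quotient.out c : alternatingGroup (Fin n)) : Equiv.Perm (Fin n)).cycleType
  let F : ConjClasses (alternatingGroup (Fin n)) → Multiset ℕ := fun c =>
    if IsConj (Quotient.out c) (rep (typ c)) then typ c else flip (typ c)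
  have hrep : ∀ c, IsConj ((Quotient.out c : alternatingGroup (Fin n)) : Equiv.Perm (Fin n))
      (rep (typ c) : Equiv.Perm (Fin n)) := fun c => by
    have h : ∃ a : alternatingGroup (Fin n), (a : Equiv.Perm (Fin n)).cycleType = typ c := ⟨_, rfl⟩
    refine Equiv.Perm.isConj_iff_cycleType_eq.2 ?_
    simp only [rep, dif_pos h]
    exact h.choose_spec.symm
  -- an even conjugator to the representative gives conjugacy in the alternating group
  have heven : ∀ (a b : alternatingGroup (Fin n)) (g : Equiv.Perm (Fin n)),
      g ∈ alternatingGroup (Fin n) → g * a * g⁻¹ = b → IsConj a b := fun a b g hg h =>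
    isConj_iff.2 ⟨⟨g, hg⟩, Subtype.ext h⟩
  -- an even product from two odd permutations
  have hodd : ∀ g h : Equiv.Perm (Fin n), g ∉ alternatingGroup (Fin n) →
      h ∉ alternatingGroup (Fin n) → g * h ∈ alternatingGroup (Fin n) := by
    intro g h hg hh
    rw [Equiv.Perm.mem_alternatingGroup] at hg hh ⊢
    rw [Equiv.Perm.sign_mul, (Int.units_eq_one_or _).resolve_left hg,
      (Int.units_eq_one_or _).resolve_left hh]
    rfl
  have hdop : ∀ c, ¬ IsConj (Quotient.out c) (rep (typ c)) →
      (∀ a ∈ typ c, Odd a) ∧ n ≤ (typ c).sum + 1 ∧ ∀ i, (typ c).count i ≤ 1 := by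
    intro c hc
    have h := (Equiv.Perm.centralizer_le_alternating_iff
      (g := ((Quotient.out c : alternatingGroup (Fin n)) : Equiv.Perm (Fin n)))).1 ?_
    · rwa [Fintype.card_fin] at h
    intro z hz
    by_contra hzA
    obtain ⟨g, hg⟩ := isConj_iff.1 (hrep c)
    refine hc (heven _ _ (g * z) (hodd _ _ (fun hgA => hc (heven _ _ g hgA hg)) hzA) ?_)
    rw [Subgroup.mem_centralizer_singleton_iff] at hz
    rw [← hg]
    simp only [mul_inv_rev, ← mul_assoc]
    rw [mul_assoc g z, hz, ← mul_assoc, mul_inv_cancel_right]
  have hbig : ∀ c, ¬ IsConj (Quotient.out c) (rep (typ c)) →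
      big (typ c) ∈ typ c ∧ 3 ≤ big (typ c) ∧ Odd (big (typ c)) := by
    intro c hc
    have h : ∃ M, M ∈ typ c := Multiset.exists_mem_of_ne_zero fun e => by
      have := (hdop c hc).2.1
      rw [e, Multiset.sum_zero] at this
      omega
    have hmem : big (typ c) ∈ typ c := by
      simp only [big, dif_pos h]; exact h.choose_spec
    refine ⟨hmem, ?_, (hdop c hc).1 _ hmem⟩
    have h2 : 2 ≤ big (typ c) := Equiv.Perm.two_le_of_mem_cycleType hmem
    obtain ⟨j, hj⟩ := (hdop c hc).1 _ hmem
    omega
  have hsum : ∀ c, ¬ IsConj (Quotient.out c) (rep (typ c)) →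
      (flip (typ c)).sum + 1 = (typ c).sum ∧
      Multiset.card (flip (typ c)) = Multiset.card (typ c) := by
    intro c hc
    obtain ⟨hmem, h3, -⟩ := hbig c hc
    have e := Multiset.cons_erase hmem
    have e1 := congrArg Multiset.sum e
    have e2 := congrArg Multiset.card e
    rw [Multiset.sum_cons] at e1
    rw [Multiset.card_cons] at e2
    simp only [flip, Multiset.sum_cons, Multiset.card_cons]
    omega
  have hpar : ∀ c, Even ((typ c).sum + Multiset.card (typ c)) := by
    intro c
    have h : Equiv.Perm.sign ((Quotient.out c : alternatingGroup (Fin n)) : Equiv.Perm (Fin n)) = 1 :=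
      Equiv.Perm.mem_alternatingGroup.1 (Quotient.out c : alternatingGroup (Fin n)).2
    rw [Equiv.Perm.sign_of_cycleType, Units.ext_iff] at h
    push_cast at h
    exact neg_one_pow_eq_one_iff_even (by decide) |>.1 h
  have hne : ∀ c d, ¬ IsConj (Quotient.out d) (rep (typ d)) → typ c ≠ flip (typ d) := by
    intro c d hd e
    obtain ⟨h1, h2⟩ := hsum d hd
    obtain ⟨i, hi⟩ := hpar c
    obtain ⟨j, hj⟩ := hpar d
    rw [e] at hi
    omega
  have hF : Function.Injective F := by
    intro c d h
    simp only [F] at h
    by_cases hc : IsConj (Quotient.out c) (rep (typ c)) <;>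
      by_cases hd : IsConj (Quotient.out d) (rep (typ d)) <;>
      simp only [hc, hd, if_true, if_false] at h
    · rw [← Quotient.out_eq c, ← Quotient.out_eq d]
      exact Quotient.sound (hc.trans ((h ▸ IsConj.refl _ : IsConj (rep (typ c)) (rep (typ d))).trans hd.symm))
    · exact absurd h (hne c d hd)
    · exact absurd h.symm (hne d c hc)
    · obtain ⟨hcm, hc3, hco⟩ := hbig c hc
      obtain ⟨hdm, hd3, hdo⟩ := hbig d hd
      have hM : big (typ c) = big (typ d) := by
        have hin : big (typ c) - 1 ∈ flip (typ d) := h ▸ Multiset.mem_cons_self _ _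
        rcases Multiset.mem_cons.1 hin with e | e
        · omega
        · exfalso
          obtain ⟨i, hi⟩ := hco
          obtain ⟨j, hj⟩ := (hdop d hd).1 _ (Multiset.mem_of_mem_erase e)
          omega
      have ht : typ c = typ d := by
        simp only [flip, hM, Multiset.cons_inj_right] at h
        rw [← Multiset.cons_erase hcm, ← Multiset.cons_erase hdm, hM, h]
      obtain ⟨g, hg⟩ := isConj_iff.1 (hrep c)
      obtain ⟨k, hk⟩ := isConj_iff.1 (hrep d)
      rw [ht] at hg hc
      have hgo : g ∉ alternatingGroup (Fin n) := fun hgA => hc (heven _ _ g hgA hg)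
      have hko : k⁻¹ ∉ alternatingGroup (Fin n) := fun hkA =>
        hd (heven _ _ k (inv_mem_iff.1 hkA) hk)
      rw [← Quotient.out_eq c, ← Quotient.out_eq d]
      refine Quotient.sound (heven _ _ (k⁻¹ * g) (hodd _ _ hko hgo) ?_)
      rw [← hk] at hg
      calc k⁻¹ * g * (Quotient.out c : alternatingGroup (Fin n)).1 * (k⁻¹ * g)⁻¹
          = k⁻¹ * (g * (Quotient.out c : alternatingGroup (Fin n)).1 * g⁻¹) * k := by group
        _ = _ := by rw [hg]; group
  have hsub : Set.range F ⊆ Set.range ct := by
    rintro m ⟨c, rfl⟩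
    have h2 : (typ c).sum ≤ n :=
      le_of_le_of_eq (Equiv.Perm.sum_cycleType_le _) (Fintype.card_fin n)
    by_cases hc : IsConj (Quotient.out c) (rep (typ c))
    · simp only [F, if_pos hc]
      exact hrange _ h2 fun a ha => Equiv.Perm.two_le_of_mem_cycleType ha
    · simp only [F, if_neg hc]
      obtain ⟨-, h3, -⟩ := hbig c hc
      refine hrange _ (by have := (hsum c hc).1; omega) fun a ha => ?_
      rcases Multiset.mem_cons.1 ha with rfl | ha
      · omega
      · exact Equiv.Perm.two_le_of_mem_cycleType (Multiset.mem_of_mem_erase ha)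
  have hmiss : ({2} : Multiset ℕ) ∉ Set.range F := by
    rintro ⟨c, hc'⟩
    by_cases hc : IsConj (Quotient.out c) (rep (typ c))
    · simp only [F, if_pos hc] at hc'
      obtain ⟨i, hi⟩ := hpar c
      rw [hc', Multiset.sum_singleton, Multiset.card_singleton] at hi
      omega
    · simp only [F, if_neg hc] at hc'
      have := (hsum c hc).1
      have := (hdop c hc).2.1
      rw [hc', Multiset.sum_singleton] at *
      omega
  have hmem : ({2} : Multiset ℕ) ∈ Set.range ct := hrange _ (by rw [Multiset.sum_singleton]; omega) (by simp)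
  have hlt := Set.ncard_lt_ncard (ssubset_of_subset_of_ne hsub fun e => hmiss (e ▸ hmem)) (Set.finite_range ct)
  rwa [Set.ncard_range_of_injective hF, Set.ncard_range_of_injective hct] at hlt

/-- cycle types of permutations of `n` points -/
def types (n : ℕ) : Set (Multiset ℕ) := {m | m.sum ≤ n ∧ ∀ a ∈ m, 2 ≤ a}

theorem types_finite (n : ℕ) : (types n).Finite := by
  refine Set.Finite.subset ((Multiset.powerset (n • Multiset.range (n + 1))).toFinset).finite_toSet ?_
  intro m hm
  rw [Finset.mem_coe, Multiset.mem_toFinset, Multiset.mem_powerset, Multiset.le_iff_count]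
  intro a
  by_cases ha : a ∈ m
  · have han : a ≤ n := (Multiset.le_sum_of_mem ha).trans hm.1
    obtain ⟨u, hu⟩ := Multiset.le_iff_exists_add.1
      (Multiset.le_count_iff_replicate_le.1 (le_refl (m.count a)))
    have h2 := congrArg Multiset.sum hu
    rw [Multiset.sum_add, Multiset.sum_replicate, smul_eq_mul] at h2
    rw [Multiset.count_nsmul, Multiset.count_eq_one_of_mem (Multiset.nodup_range _)
      (Multiset.mem_range.2 (Nat.lt_succ_of_le han)), mul_one]
    have h3 : m.count a * 1 ≤ m.count a * a :=
      Nat.mul_le_mul_left _ (by have := hm.2 a ha; omega)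
    have := hm.1
    omega
  · rw [Multiset.count_eq_zero_of_notMem ha]; exact Nat.zero_le _

theorem types_succ (n : ℕ) : (types (n + 1)).ncard ≤ 2 * (types n).ncard := by
  classical
  set E : Set (Multiset ℕ) := {m ∈ types (n + 1) | m.sum = n + 1} with hE
  have hEfin : E.Finite := (types_finite _).subset fun m hm => hm.1
  have h1 : types (n + 1) ⊆ types n ∪ E := by
    intro m hm
    by_cases h : m.sum ≤ n
    · exact Or.inl ⟨h, hm.2⟩
    · exact Or.inr ⟨hm, le_antisymm hm.1 (by omega)⟩
  let pick : Multiset ℕ → ℕ := fun m => if h : ∃ M, M ∈ m then h.choose else 0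
  have hpick : ∀ m ∈ E, pick m ∈ m := by
    intro m hm
    have h : ∃ M, M ∈ m := Multiset.exists_mem_of_ne_zero fun e => by
      have := hm.2
      rw [e, Multiset.sum_zero] at this
      omega
    simp only [pick, dif_pos h]
    exact h.choose_spec
  have hs : ∀ m ∈ E, pick m + (m.erase (pick m)).sum = n + 1 := fun m hm => by
    rw [← Multiset.sum_cons, Multiset.cons_erase (hpick m hm)]
    exact hm.2
  have h2 : E.ncard ≤ (types n).ncard := by
    refine Set.ncard_le_ncard_of_injOn (fun m => m.erase (pick m)) ?_ ?_ (types_finite n)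
    · intro m hm
      refine ⟨?_, fun a ha => hm.1.2 a (Multiset.mem_of_mem_erase ha)⟩
      have := hs m hm
      have := hm.1.2 _ (hpick m hm)
      omega
    · intro m hm m' hm' e
      simp only at e
      have h := hs m hm
      have h' := hs m' hm'
      rw [← e] at h'
      rw [← Multiset.cons_erase (hpick m hm), ← Multiset.cons_erase (hpick m' hm'), ← e,
        show pick m = pick m' by omega]
  have h3 := (Set.ncard_le_ncard h1 ((types_finite n).union hEfin)).trans (Set.ncard_union_le _ _)
  omega

theorem types_five : (types 5).ncard ≤ 8 := by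
  have h : types 5 ⊆ ↑((Multiset.powerset ({2, 2, 3, 4, 5} : Multiset ℕ)).toFinset.filter
      fun m => m.sum ≤ 5) := by
    intro m hm
    simp only [Finset.coe_filter, Multiset.mem_toFinset, Multiset.mem_powerset, Set.mem_ofPred_eq]
    refine ⟨Multiset.le_iff_count.2 fun a => ?_, hm.1⟩
    by_cases ha : a ∈ m
    · obtain ⟨u, hu⟩ := Multiset.le_iff_exists_add.1
        (Multiset.le_count_iff_replicate_le.1 (le_refl (m.count a)))
      have h2 := congrArg Multiset.sum hu
      rw [Multiset.sum_add, Multiset.sum_replicate, smul_eq_mul] at h2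
      have h2a := hm.2 a ha
      have h1 := Multiset.one_le_count_iff_mem.2 ha
      have h5 := hm.1
      have ha5 : a ≤ 5 := (Multiset.le_sum_of_mem ha).trans hm.1
      interval_cases a <;> simp <;> omega
    · rw [Multiset.count_eq_zero_of_notMem ha]; exact Nat.zero_le _
  refine (Set.ncard_le_ncard h (Finset.finite_toSet _)).trans ?_
  rw [Set.ncard_coe_finset]
  decide

theorem conj_classes_perm_le (n : ℕ) (hn : 5 ≤ n) :
    Nat.card (ConjClasses (Equiv.Perm (Fin n))) ≤ 2 ^ (n - 2) := by
  have hle : Nat.card (ConjClasses (Equiv.Perm (Fin n))) ≤ (types n).ncard := by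
    haveI := (types_finite n).to_subtype
    rw [← Nat.card_coe_set_eq]
    refine Nat.card_le_card_of_injective
      (Quotient.lift (fun s : Equiv.Perm (Fin n) => (⟨s.cycleType,
        le_of_le_of_eq (Equiv.Perm.sum_cycleType_le s) (Fintype.card_fin n),
        fun a ha => Equiv.Perm.two_le_of_mem_cycleType ha⟩ : types n))
        (fun _ _ h => Subtype.ext (Equiv.Perm.isConj_iff_cycleType_eq.1 h))) ?_
    intro a b
    induction a using Quotient.inductionOn with
    | h a => induction b using Quotient.inductionOn with
      | h b => exact fun h => Quotient.sound (Equiv.Perm.isConj_iff_cycleType_eq.2 (by simpa [Subtype.ext_iff] using h))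
  refine hle.trans ?_
  clear hle
  induction n, hn using Nat.le_induction with
  | base => exact types_five
  | succ n hn ih =>
    refine (types_succ n).trans ?_
    rw [show n + 1 - 2 = (n - 2) + 1 by omega, pow_succ']
    omega

/-- For n ≥ 5 the alternating group of degree n has strictly fewer conjugacy classes than the symmetric group of degree n, and the symmetric group of degree n (whose classes correspond to the partitions of n) has at most 2^(n−2) conjugacy classes. -/
theorem result (n : ℕ) (hn : 5 ≤ n) : Nat.card (ConjClasses (alternatingGroup (Fin n))) < Nat.card (ConjClasses (Equiv.Perm (Fin n))) ∧ Nat.card (ConjClasses (Equiv.Perm (Fin n))) ≤ 2 ^ (n - 2) := by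
  exact ⟨conj_classes_alternating_lt n hn, conj_classes_perm_le n hn⟩

end Cfsg.Agent.S4198
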