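import Cfsg.Statements.S4203
import Cfsg.Agent.Chars.Apps.Burnside

set_option autoImplicit false
open Cfsg

namespace Cfsg.Agent.S4203

universe u

/-- A subgroup containing a Sylow normalizer has index `≡ 1 (mod p)`. -/
theorem index_modEq_one {N : Type u} [Group N] [Finite N] {p : ℕ} [Fact p.Prime] (P : Sylow p N)
    (K : Subgroup N) (hK : Subgroup.normalizer ((P : Subgroup N) : Set N) ≤ K) :
    K.index ≡ 1 [MOD p] := by
  have hPK : (P : Subgroup N) ≤ K := Subgroup.le_normalizer.trans hK
  set P' : Sylow p K := P.subtype hPK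
  have h1 : Nat.card (Sylow p K) = (Subgroup.normalizer ((P : Subgroup N) : Set N)).relIndex K := by
    rw [P'.card_eq_index_normalizer, Subgroup.relIndex]
    congr 1
    change Subgroup.normalizer (((P : Subgroup N).subgroupOf K : Subgroup K) : Set K) = _
    rw [Subgroup.subgroupOf_normalizer_eq hPK]
  have h2 : Nat.card (Sylow p K) * K.index = Nat.card (Sylow p N) := by
    rw [h1, Subgroup.relIndex_mul_index hK, P.card_eq_index_normalizer]
    rfl
  have h3 : Nat.card (Sylow p K) * K.index ≡ 1 * K.index [MOD p] :=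
    (card_sylow_modEq_one p K).mul_right _
  rw [h2, one_mul] at h3
  exact h3.symm.trans (card_sylow_modEq_one p N)

theorem main_induction : ∀ (n : ℕ) (G : Type u) [Group G] [Finite G], Nat.card G = n →
    (∀ M : Subgroup G, IsCoatom M → ∃ p : ℕ, p.Prime ∧ (M.index = p ∨ M.index = p ^ 2)) →
    Group.IsSolvable G := by
  intro n
  induction n using Nat.strong_induction_on with
  | _ n ih =>
  intro G _ _ hn h
  rcases subsingleton_or_nontrivial G with hs | hnt
  · infer_instance
  have hquot : ∀ R : Subgroup G, R.Normal → R ≠ ⊥ → Group.IsSolvable R → Group.IsSolvable G := by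
    intro R hR hRne hRsol
    haveI := hR
    haveI := hRsol
    haveI : Group.IsSolvable (G ⧸ R) := by
      refine ih _ ?_ _ rfl fun M hM => ?_
      · rw [← hn, R.card_eq_card_quotient_mul_card_subgroup]
        exact lt_mul_of_one_lt_right Nat.card_pos ((Subgroup.one_lt_card_iff_ne_bot R).2 hRne)
      · obtain ⟨p, hp, hi⟩ := h _ (Subgroup.isCoatom_comap_of_surjective
          (QuotientGroup.mk'_surjective R) hM)
        rw [Subgroup.index_comap_of_surjective _ (QuotientGroup.mk'_surjective R)] at hi
        exact ⟨p, hp, hi⟩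
    exact solvable_of_ker_le_range R.subtype (QuotientGroup.mk' R) (by simp)
  have hcard : Nat.card G ≠ 1 := Finite.one_lt_card.ne'
  obtain ⟨p, hp, hpmax⟩ : ∃ p ∈ (Nat.card G).primeFactors,
      ∀ q ∈ (Nat.card G).primeFactors, q ≤ p :=
    ⟨_, Finset.max'_mem _ (Nat.nonempty_primeFactors.2 Finite.one_lt_card),
      fun q hq => Finset.le_max' _ q hq⟩
  rw [Nat.mem_primeFactors] at hp
  haveI : Fact p.Prime := ⟨hp.1⟩
  obtain ⟨P⟩ : Nonempty (Sylow p G) := inferInstance
  by_cases hPn : (P : Subgroup G).Normal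
  · exact hquot P hPn (P.ne_bot_of_dvd_card hp.2.1) (by haveI := P.2.isNilpotent; infer_instance)
  obtain ⟨M, hM, hPM⟩ := (eq_top_or_exists_le_coatom _).resolve_left
    (mt Subgroup.normalizer_eq_top_iff.1 hPn)
  obtain ⟨q, hq, hi⟩ := h M hM
  have hmod := index_modEq_one P M hPM
  have hqd : q ∣ M.index := by
    rcases hi with hi | hi <;> rw [hi]
    exact dvd_pow_self q two_ne_zero
  have hqG : q ∣ Nat.card G := hqd.trans M.index_dvd_card
  have hqle : q ≤ p := hpmax q (Nat.mem_primeFactors.2 ⟨hq, hqG, Nat.card_pos.ne'⟩)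
  have hqp : q ≠ p := by
    rintro rfl
    have h0 : M.index % q = 1 % q := hmod
    rw [Nat.one_mod_eq_one.2 hq.ne_one, Nat.dvd_iff_mod_eq_zero.1 hqd] at h0
    omega
  have hp3 : p ≤ 3 := by
    rcases hi with hi | hi <;> rw [hi] at hmod
    · have h1 := Nat.le_of_dvd (by have := hq.two_le; omega) ((Nat.modEq_iff_dvd' hq.one_le).1 hmod.symm)
      omega
    · have h1 : p ∣ q ^ 2 - 1 := (Nat.modEq_iff_dvd' (Nat.one_le_pow _ _ hq.pos)).1 hmod.symm
      rw [show q ^ 2 - 1 = q ^ 2 - 1 ^ 2 by rw [one_pow], Nat.sq_sub_sq] at h1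
      rcases (hp.1.dvd_mul).1 h1 with h2 | h2
      · have h3 := Nat.le_of_dvd (by omega) h2
        have hpq : p = q + 1 := by omega
        have := hq.two_le
        have hq2 : q = 2 := by
          rcases hq.eq_two_or_odd with h4 | h4
          · exact h4
          · rcases hp.1.eq_two_or_odd with h5 | h5 <;> omega
        omega
      · have h3 := Nat.le_of_dvd (by have := hq.two_le; omega) h2
        omega
  refine CfsgLib.Chars.Apps.isSolvable_of_primeFactors_subset G Nat.prime_two Nat.prime_three
    fun r hr hrd => ?_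
  have h1 := hpmax r (Nat.mem_primeFactors.2 ⟨hr, hrd, Nat.card_pos.ne'⟩)
  have := hr.two_le
  omega


/-- A finite group in which every maximal subgroup has index a prime or the square of a prime is solvable. -/
theorem result {G : Type*} [Group G] [Finite G] (h : ∀ M : Subgroup G, IsCoatom M → ∃ p : ℕ, p.Prime ∧ (M.index = p ∨ M.index = p ^ 2)) : Group.IsSolvable G := by
  exact main_induction _ G rfl h

end Cfsg.Agent.S4203
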