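import Cfsg.Statements.S4204
import Cfsg.Agent.Fitting.Join

set_option autoImplicit false
open Cfsg

namespace Cfsg.Agent.S4204


/-- If `H` and `K` are normal subgroups of a finite group with `H` nilpotent of class at most `c` and `K` nilpotent of class at most `d` (the terms with index `c`, respectively `d`, of their lower central series are trivial, indices starting at `0`), then `HK` is nilpotent of class at most `c + d`. -/
theorem result {G : Type*} [Group G] [Finite G] (H K : Subgroup G) [H.Normal] [K.Normal] (c d : ℕ) (hH : H.lowerCentralSeries c = ⊥) (hK : K.lowerCentralSeries d = ⊥) : (H ⊔ K).lowerCentralSeries (c + d) = ⊥ := by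
  exact CfsgLib.Fitting.lcs_sup_eq_bot H K c d hH hK

end Cfsg.Agent.S4204
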