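import Cfsg.Statements.S4205

set_option autoImplicit false
open Cfsg

namespace Cfsg.Agent.S4205


/-- In a finite group whose upper central series reaches the whole group at step `c` (nilpotent of class at most `c`), starting from any subgroup and taking normalizers `c` times reaches the whole group. -/
theorem result {G : Type*} [Group G] [Finite G] (c : ℕ) (hG : Subgroup.upperCentralSeries G c = ⊤) (H : Subgroup G) : (fun K : Subgroup G => Subgroup.normalizer (K : Set G))^[c] H = ⊤ := by
  suffices h : ∀ k, Subgroup.upperCentralSeries G k ≤
      (fun K : Subgroup G => Subgroup.normalizer (K : Set G))^[k] H by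
    rw [eq_top_iff, ← hG]
    exact h c
  intro k
  induction k with
  | zero => simp
  | succ k ih =>
    rw [Function.iterate_succ_apply']
    intro x hx
    rw [Subgroup.mem_normalizer_iff]
    set K := (fun K : Subgroup G => Subgroup.normalizer (K : Set G))^[k] H with hK
    have key : ∀ h, ∀ y, y ∈ Subgroup.upperCentralSeries G (k + 1) → h ∈ K → y * h * y⁻¹ ∈ K := by
      intro h y hy hh
      have h1 := Subgroup.mem_upperCentralSeries_succ_iff.1 hy h
      have h2 : y * h * y⁻¹ = (y * h * y⁻¹ * h⁻¹) * h := by group
      rw [h2]
      exact K.mul_mem (ih h1) hh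
    intro h
    refine ⟨key h x hx, fun hh => ?_⟩
    have h3 := key _ x⁻¹ (inv_mem hx) hh
    simpa [mul_assoc] using h3

end Cfsg.Agent.S4205
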