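import Cfsg.Statements.S4207
import Cfsg.Agent.PGroup.Aut

set_option autoImplicit false
open Cfsg

namespace Cfsg.Agent.S4207


/-- Let `P` be a group of order `p^n` whose Frattini subgroup has index `p^r`. Then any group of automorphisms of `P` each of which induces the identity on the Frattini quotient has order dividing `p^(r(n-r))`; in particular it is a `p`-group. -/
theorem result {P : Type*} [Group P] [Finite P] {p n r : ℕ} [Fact p.Prime] (hP : Nat.card P = p ^ n) (hr : (frattini P).index = p ^ r) (A : Subgroup (MulAut P)) (hA : ∀ α ∈ A, ∀ x : P, α x * x⁻¹ ∈ frattini P) : Nat.card A ∣ p ^ (r * (n - r)) := by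
  exact CfsgLib.PGroup.card_aut_trivial_frattini_dvd hP hr A hA

end Cfsg.Agent.S4207
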