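import Cfsg.Statements.S4212
import Cfsg.Agent.Counting.Frobenius

set_option autoImplicit false
open Cfsg

namespace Cfsg.Agent.S4212

theorem pow_congr_of_modEq {C : Type*} [Group C] {x : C} {m a b : ℕ} (hx : x ^ m = 1) (h : a ≡ b [MOD m]) :
    x ^ a = x ^ b :=
  pow_eq_pow_iff_modEq.mpr (h.of_dvd (orderOf_dvd_of_pow_eq_one hx))

theorem central_count_prime_pow {C : Type*} [Group C] [Finite C] (c : C) (hc : c ∈ Subgroup.center C) (n : ℕ)
    {p e : ℕ} (hp : p.Prime) (hen : p ^ e ∣ n) (heC : p ^ e ∣ Nat.card C) :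
    p ^ e ∣ Nat.card {x : C // x ^ n = c} := by
  classical
  haveI : Fintype C := Fintype.ofFinite C
  obtain ⟨A, B, hpB, hq⟩ := Nat.exists_eq_pow_mul_and_not_dvd Nat.card_pos.ne' p hp.ne_one (n := Nat.card C)
  have hcop : Nat.Coprime (p ^ A) B := Nat.Coprime.pow_left _ ((hp.coprime_iff_not_dvd).mpr hpB)
  have heA : p ^ e ∣ p ^ A :=
    (Nat.Coprime.coprime_dvd_left (dvd_refl _) (Nat.Coprime.pow_left e ((hp.coprime_iff_not_dvd).mpr hpB))).dvd_of_dvd_mul_right (hq ▸ heC)
  obtain ⟨j, hj1, hj0⟩ := Nat.chineseRemainder hcop 1 0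
  obtain ⟨i, hi0, hi1⟩ := Nat.chineseRemainder hcop 0 1
  have hq1 : ∀ x : C, x ^ (p ^ A * B) = 1 := fun x => by rw [← hq]; exact pow_card_eq_one'
  have hsplit : ∀ x : C, x ^ j * x ^ i = x := by
    intro x
    rw [← pow_add]
    exact (pow_congr_of_modEq (hq1 x) ((Nat.modEq_and_modEq_iff_modEq_mul hcop).mp
      ⟨(Nat.ModEq.add hj1 hi0), (by simpa using Nat.ModEq.add hj0 hi1)⟩)).trans (pow_one x)
  have hxp : ∀ x : C, (x ^ j) ^ p ^ A = 1 := by
    intro x
    obtain ⟨t, ht⟩ := Nat.modEq_zero_iff_dvd.mp hj0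
    rw [← pow_mul, ht, mul_comm, ← mul_assoc, pow_mul, hq1, one_pow]
  have hxB : ∀ x : C, (x ^ i) ^ B = 1 := by
    intro x
    obtain ⟨t, ht⟩ := Nat.modEq_zero_iff_dvd.mp hi0
    rw [← pow_mul, ht, mul_right_comm, pow_mul, hq1, one_pow]
  have hfixp : ∀ u : C, u ^ p ^ A = 1 → u ^ j = u ∧ u ^ i = 1 := fun u hu =>
    ⟨(pow_congr_of_modEq hu hj1).trans (pow_one u), (pow_congr_of_modEq hu hi0).trans (pow_zero u)⟩
  have hfixB : ∀ v : C, v ^ B = 1 → v ^ i = v ∧ v ^ j = 1 := fun v hv =>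
    ⟨(pow_congr_of_modEq hv hi1).trans (pow_one v), (pow_congr_of_modEq hv hj0).trans (pow_zero v)⟩
  by_cases hcp : c ^ j = 1
  · have hci : c ^ i = c := by
      have := hsplit c
      rwa [hcp, one_mul] at this
    set P := Nat.gcd n (p ^ A) with hP
    have hePd : p ^ e ∣ P := Nat.dvd_gcd hen heA
    have hext : ∀ a b : (Σ v : {v : C // v ^ B = 1 ∧ v ^ n = c},
        {u : Subgroup.centralizer ({v.1} : Set C) // u ^ P = 1}), a.1.1 = b.1.1 → (a.2.1 : C) = b.2.1 → a = b := by
      rintro ⟨⟨v, _⟩, ⟨⟨u, _⟩, _⟩⟩ ⟨⟨v', _⟩, ⟨⟨u', _⟩, _⟩⟩ h h'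
      dsimp only at h h'
      subst h; subst h'; rfl
    let e' : {x : C // x ^ n = c} ≃ (Σ v : {v : C // v ^ B = 1 ∧ v ^ n = c},
        {u : Subgroup.centralizer ({v.1} : Set C) // u ^ P = 1}) :=
      { toFun := fun x => ⟨⟨x.1 ^ i, hxB _, by rw [← pow_mul, mul_comm, pow_mul, x.2, hci]⟩,
          ⟨⟨x.1 ^ j, Subgroup.mem_centralizer_singleton_iff.mpr (Commute.pow_pow_self x.1 j i).eq⟩,
            Subtype.ext (by
              rw [Subgroup.coe_pow, Subgroup.coe_one]
              exact pow_gcd_eq_one.mpr ⟨by rw [← pow_mul, mul_comm, pow_mul, x.2, hcp], hxp _⟩)⟩⟩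
        invFun := fun y => ⟨(y.2.1 : C) * y.1.1, by
          have hcomm : Commute (y.2.1 : C) y.1.1 := Subgroup.mem_centralizer_singleton_iff.mp y.2.1.2
          rw [hcomm.mul_pow, y.1.2.2]
          obtain ⟨t, ht⟩ := Nat.gcd_dvd_left n (p ^ A)
          have hu : (y.2.1 : C) ^ P = 1 := congrArg Subtype.val y.2.2
          rw [(congrArg (fun m => (y.2.1 : C) ^ m) ht).trans (by rw [pow_mul, hu, one_pow]), one_mul]⟩
        left_inv := fun x => Subtype.ext (hsplit x.1)
        right_inv := fun y => by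
          have hcomm : Commute (y.2.1 : C) y.1.1 := Subgroup.mem_centralizer_singleton_iff.mp y.2.1.2
          have hu : (y.2.1 : C) ^ p ^ A = 1 := by
            obtain ⟨t, ht⟩ := Nat.gcd_dvd_right n (p ^ A)
            have hu : (y.2.1 : C) ^ P = 1 := congrArg Subtype.val y.2.2
            rw [ht, pow_mul, hu, one_pow]
          have h1 : ((y.2.1 : C) * y.1.1) ^ i = y.1.1 := by
            rw [hcomm.mul_pow, (hfixp _ hu).2, (hfixB _ y.1.2.1).1, one_mul]
          have h2 : ((y.2.1 : C) * y.1.1) ^ j = (y.2.1 : C) := by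
            rw [hcomm.mul_pow, (hfixp _ hu).1, (hfixB _ y.1.2.1).2, mul_one]
          exact hext _ _ h1 h2 }
    rw [Nat.card_congr e', Nat.card_sigma]
    let F : C → ℕ := fun v => Nat.card {u : Subgroup.centralizer ({v} : Set C) // u ^ P = 1}
    rw [show (∑ v : {v : C // v ^ B = 1 ∧ v ^ n = c}, Nat.card {u : Subgroup.centralizer ({v.1} : Set C) // u ^ P = 1})
      = ∑ v ∈ Finset.univ.filter (fun v : C => v ^ B = 1 ∧ v ^ n = c), F v from
      (Finset.sum_subtype (Finset.univ.filter (fun v : C => v ^ B = 1 ∧ v ^ n = c)) (by simp) F).symm]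
    refine CfsgLib.Counting.dvd_sum_of_class _ F _ ?_ ?_ ?_
    · intro u w h hu
      obtain ⟨g, rfl⟩ := isConj_iff.mp h
      rw [conj_pow, conj_pow, hu.1, hu.2]
      refine ⟨by group, ?_⟩
      rw [Subgroup.mem_center_iff.mp hc g, mul_inv_cancel_right]
    · intro u w h
      obtain ⟨g, rfl⟩ := isConj_iff.mp h
      refine Nat.card_congr
        { toFun := fun x => ⟨⟨g * x.1.1 * g⁻¹, Subgroup.mem_centralizer_singleton_iff.mpr (by
              have := Subgroup.mem_centralizer_singleton_iff.mp x.1.2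
              calc g * x.1.1 * g⁻¹ * (g * u * g⁻¹) = g * (x.1.1 * u) * g⁻¹ := by group
                _ = g * (u * x.1.1) * g⁻¹ := by rw [this]
                _ = g * u * g⁻¹ * (g * x.1.1 * g⁻¹) := by group)⟩, Subtype.ext (by
              have := congrArg Subtype.val x.2
              simp only [Subgroup.coe_pow, Subgroup.coe_one] at this ⊢
              rw [conj_pow, this, mul_one, mul_inv_cancel])⟩
          invFun := fun x => ⟨⟨g⁻¹ * x.1.1 * g, Subgroup.mem_centralizer_singleton_iff.mpr (by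
              have := Subgroup.mem_centralizer_singleton_iff.mp x.1.2
              calc g⁻¹ * x.1.1 * g * u = g⁻¹ * (x.1.1 * (g * u * g⁻¹)) * g := by group
                _ = g⁻¹ * (g * u * g⁻¹ * x.1.1) * g := by rw [this]
                _ = u * (g⁻¹ * x.1.1 * g) := by group)⟩, Subtype.ext (by
              have := congrArg Subtype.val x.2
              simp only [Subgroup.coe_pow, Subgroup.coe_one] at this ⊢
              rw [show g⁻¹ * x.1.1 * g = g⁻¹ * x.1.1 * g⁻¹⁻¹ by group, conj_pow, this, mul_one, mul_inv_cancel])⟩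
          left_inv := fun x => by apply Subtype.ext; apply Subtype.ext; simp [mul_assoc]
          right_inv := fun x => by apply Subtype.ext; apply Subtype.ext; simp [mul_assoc] }
    · intro v _
      refine dvd_trans ?_ (Nat.mul_dvd_mul_left _ (CfsgLib.Counting.gcd_dvd_card_pow_eq_one P))
      rw [← Nat.gcd_mul_left, Subgroup.index_mul_card]
      exact Nat.dvd_gcd (hePd.mul_left _) heC
  · let S : Finset C := Finset.univ.filter fun x => x ^ n = c
    rw [show Nat.card {x : C // x ^ n = c} = S.card by rw [Nat.card_eq_fintype_card, Fintype.card_subtype]]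
    haveI : Fintype (Subgroup C) := Fintype.ofFinite _
    rw [Finset.card_eq_sum_card_fiberwise (f := fun x : C => (x ^ i, Subgroup.zpowers (x ^ j)))
      (t := Finset.univ) (fun x _ => Finset.mem_univ _)]
    refine Finset.dvd_sum fun key _ => ?_
    by_cases hne : (S.filter fun x => (x ^ i, Subgroup.zpowers (x ^ j)) = key).Nonempty
    swap
    · rw [Finset.not_nonempty_iff_eq_empty.mp hne]; simp
    obtain ⟨x, hx⟩ := hne
    simp only [S, Finset.mem_filter, Finset.mem_univ, true_and] at hx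
    obtain ⟨hxn, rfl⟩ := hx
    set z := x ^ j with hz
    have hzn : z ^ n = c ^ j := by rw [hz, ← pow_mul, mul_comm, pow_mul, hxn]
    obtain ⟨a, -, ha⟩ := (Nat.dvd_prime_pow hp).mp (orderOf_dvd_of_pow_eq_one (hxp x))
    rw [← hz] at ha
    let K : Subgroup C :=
      { carrier := {w | w ∈ Subgroup.zpowers z ∧ w ^ n = 1}
        one_mem' := ⟨one_mem _, one_pow _⟩
        mul_mem' := fun {s t} hs ht => ⟨mul_mem hs.1 ht.1, by
          obtain ⟨k, rfl⟩ := Subgroup.mem_zpowers_iff.mp hs.1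
          obtain ⟨l, rfl⟩ := Subgroup.mem_zpowers_iff.mp ht.1
          rw [(Commute.zpow_zpow_self z k l).mul_pow, hs.2, ht.2, one_mul]⟩
        inv_mem' := fun {s} hs => ⟨inv_mem hs.1, by rw [inv_pow, hs.2, inv_one]⟩ }
    have hKmem : ∀ w, w ∈ K → Commute z w ∧ w ^ p ^ A = 1 := by
      intro w hw
      obtain ⟨k, rfl⟩ := Subgroup.mem_zpowers_iff.mp hw.1
      refine ⟨Commute.self_zpow z k, ?_⟩
      rw [← zpow_natCast, ← zpow_mul, mul_comm, zpow_mul, zpow_natCast, hxp x, one_zpow]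
    have hgen : ∀ w, w ∈ K → Subgroup.zpowers (z * w) = Subgroup.zpowers z := by
      intro w hw
      refine Subgroup.eq_of_le_of_card_ge (Subgroup.zpowers_le.mpr (mul_mem (Subgroup.mem_zpowers z) hw.1)) ?_
      rw [Nat.card_zpowers, Nat.card_zpowers, ha]
      by_contra hlt
      obtain ⟨k, hk⟩ := Subgroup.mem_zpowers_iff.mp (mul_mem (Subgroup.mem_zpowers z) hw.1)
      obtain ⟨b, hba, hb⟩ := (Nat.dvd_prime_pow hp).mp (ha ▸ orderOf_dvd_of_mem_zpowers (⟨k, hk⟩ : z * w ∈ Subgroup.zpowers z))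
      have hblt : b < a := by
        by_contra hh
        exact hlt (by rw [hb, le_antisymm hba (not_lt.mp hh)])
      have h1 : (z * w) ^ n = c ^ j := by rw [(hKmem w hw).1.mul_pow, hw.2, mul_one, hzn]
      have h2 : (z * w) ^ p ^ (a - 1) = 1 :=
        orderOf_dvd_iff_pow_eq_one.mp (hb ▸ Nat.pow_dvd_pow p (by omega))
      have hdn : orderOf w ∣ n := orderOf_dvd_of_pow_eq_one hw.2
      obtain ⟨d, hda, hd⟩ := (Nat.dvd_prime_pow hp).mp (ha ▸ orderOf_dvd_of_mem_zpowers hw.1)
      have hdlt : d < a := by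
        by_contra hh
        have : orderOf z ∣ n := by rw [ha, ← le_antisymm hda (not_lt.mp hh), ← hd]; exact hdn
        exact hcp (hzn ▸ orderOf_dvd_iff_pow_eq_one.mp this)
      have h3 : w ^ p ^ (a - 1) = 1 := orderOf_dvd_iff_pow_eq_one.mp (hd ▸ Nat.pow_dvd_pow p (by omega))
      rw [(hKmem w hw).1.mul_pow, h3, mul_one] at h2
      have := Nat.le_of_dvd (pow_pos hp.pos _) (orderOf_dvd_of_pow_eq_one h2)
      rw [ha] at this
      exact absurd this (not_le.mpr (Nat.pow_lt_pow_right hp.one_lt (by omega)))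
    have hfib : (S.filter fun y => (y ^ i, Subgroup.zpowers (y ^ j)) = (x ^ i, Subgroup.zpowers z)).card = Nat.card K := by
      rw [← Fintype.card_coe, ← Nat.card_eq_fintype_card]
      have hf : ∀ w : K, x * (w : C) ∈ S.filter fun y => (y ^ i, Subgroup.zpowers (y ^ j)) = (x ^ i, Subgroup.zpowers z) := by
        intro w
        obtain ⟨k, hk⟩ := Subgroup.mem_zpowers_iff.mp w.2.1
        have hcomm : Commute x (w : C) := by rw [← hk, hz]; exact ((Commute.refl x).pow_right j).zpow_right k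
        simp only [S, Finset.mem_filter, Finset.mem_univ, true_and]
        refine ⟨by rw [hcomm.mul_pow, w.2.2, mul_one, hxn], ?_⟩
        rw [hcomm.mul_pow, hcomm.mul_pow, (hfixp _ (hKmem _ w.2).2).2, (hfixp _ (hKmem _ w.2).2).1, mul_one, ← hz, hgen _ w.2]
      refine (Nat.card_eq_of_bijective (fun w : K => (⟨x * (w : C), hf w⟩ :
        {y : C // y ∈ S.filter fun y => (y ^ i, Subgroup.zpowers (y ^ j)) = (x ^ i, Subgroup.zpowers z)})) ⟨?_, ?_⟩).symm
      · intro a b hab
        exact Subtype.ext (mul_left_cancel (congrArg Subtype.val hab))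
      · rintro ⟨y, hy⟩
        simp only [S, Finset.mem_filter, Finset.mem_univ, true_and, Prod.mk.injEq] at hy
        have hyz : y ^ j ∈ Subgroup.zpowers z := hy.2.2 ▸ Subgroup.mem_zpowers _
        refine ⟨⟨z⁻¹ * y ^ j, mul_mem (inv_mem (Subgroup.mem_zpowers z)) hyz, ?_⟩, Subtype.ext ?_⟩
        · obtain ⟨k, hk⟩ := Subgroup.mem_zpowers_iff.mp hyz
          have hcomm : Commute z⁻¹ (y ^ j) := by rw [← hk]; exact ((Commute.refl z).inv_left).zpow_right k
          rw [hcomm.mul_pow, inv_pow, hzn, ← pow_mul, mul_comm, pow_mul, hy.1, inv_mul_cancel]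
        · show x * (z⁻¹ * y ^ j) = y
          have hcomm : Commute (x ^ i) (y ^ j) := hy.2.1 ▸ Commute.pow_pow_self y i j
          have hxi : x * z⁻¹ = x ^ i := by
            rw [mul_inv_eq_iff_eq_mul, hz, (Commute.pow_pow_self x i j).eq, hsplit]
          rw [← mul_assoc, hxi, hcomm.eq, ← hy.2.1, hsplit]
    rw [hfib]
    have hea : e ≤ a := by
      by_contra hh
      have : orderOf z ∣ n := (ha ▸ Nat.pow_dvd_pow p (by omega : a ≤ e)).trans hen
      exact hcp (hzn ▸ orderOf_dvd_iff_pow_eq_one.mp this)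
    have hwK : z ^ p ^ (a - e) ∈ K := by
      refine ⟨pow_mem (Subgroup.mem_zpowers z) _, ?_⟩
      rw [← pow_mul]
      apply orderOf_dvd_iff_pow_eq_one.mp
      rw [ha]
      calc p ^ a = p ^ (a - e) * p ^ e := by rw [← pow_add, Nat.sub_add_cancel hea]
        _ ∣ p ^ (a - e) * n := Nat.mul_dvd_mul_left _ hen
    have hord : orderOf (z ^ p ^ (a - e)) = p ^ e := by
      rw [orderOf_pow' _ (pow_ne_zero _ hp.ne_zero), ha, Nat.gcd_eq_right (Nat.pow_dvd_pow p (Nat.sub_le a e)),
        Nat.pow_div (Nat.sub_le a e) hp.pos, Nat.sub_sub_self hea]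
    rw [← hord, ← Nat.card_zpowers]
    exact Subgroup.card_dvd_of_le (Subgroup.zpowers_le.mpr hwK)

theorem central_count {C : Type*} [Group C] [Finite C] (c : C) (hc : c ∈ Subgroup.center C) (n : ℕ) :
    Nat.gcd n (Nat.card C) ∣ Nat.card {x : C // x ^ n = c} := by
  rw [Nat.dvd_iff_prime_pow_dvd_dvd]
  intro p e hp hd
  exact central_count_prime_pow c hc n hp (hd.trans (Nat.gcd_dvd_left _ _)) (hd.trans (Nat.gcd_dvd_right _ _))


/-- Let `G` be a finite group of order `g`, `c` an element whose conjugacy class has `h` elements, and `n` a natural number. Then the number of elements `x` of `G` with `x^n` conjugate to `c` is a multiple of `gcd(hn, g)`. -/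
theorem result {G : Type*} [Group G] [Finite G] (c : G) (n : ℕ) : Nat.gcd (Nat.card {y : G // IsConj c y} * n) (Nat.card G) ∣ Nat.card {x : G // IsConj c (x ^ n)} := by
  classical
  haveI : Fintype G := Fintype.ofFinite G
  let C := Subgroup.centralizer ({c} : Set G)
  have hcC : c ∈ C := Subgroup.mem_centralizer_singleton_iff.mpr rfl
  have hcard : Nat.card {y : G // IsConj c y} = C.index := by
    rw [← CfsgLib.Counting.ncard_isConj, ← Nat.card_coe_set_eq]; rfl
  have hk := central_count (⟨c, hcC⟩ : C) (Subgroup.mem_center_iff.mpr fun g =>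
    Subtype.ext (Subgroup.mem_centralizer_singleton_iff.mp g.2)) n
  have hN : ∀ y : G, IsConj c y → Nat.card {x : G // x ^ n = y} = Nat.card {x : C // x ^ n = ⟨c, hcC⟩} := by
    intro y hy
    obtain ⟨g, rfl⟩ := isConj_iff.mp hy
    refine Nat.card_congr
      { toFun := fun x => ⟨⟨g⁻¹ * x.1 * g, Subgroup.mem_centralizer_singleton_iff.mpr ?_⟩, Subtype.ext ?_⟩
        invFun := fun x => ⟨g * x.1.1 * g⁻¹, by
          have := congrArg Subtype.val x.2
          rw [Subgroup.coe_pow] at this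
          rw [conj_pow, this]⟩
        left_inv := fun x => Subtype.ext (by simp [mul_assoc])
        right_inv := fun x => Subtype.ext (Subtype.ext (by simp [mul_assoc])) }
    · have h1 : (g⁻¹ * x.1 * g) ^ n = c := by
        rw [show g⁻¹ * x.1 * g = g⁻¹ * x.1 * g⁻¹⁻¹ by group, conj_pow, x.2]; group
      have h2 := (Commute.self_pow (g⁻¹ * x.1 * g) n).eq
      generalize hw : g⁻¹ * x.1 * g = w at h1 h2 ⊢
      rw [h1] at h2
      exact h2
    · rw [Subgroup.coe_pow]
      show (g⁻¹ * x.1 * g) ^ n = c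
      rw [show g⁻¹ * x.1 * g = g⁻¹ * x.1 * g⁻¹⁻¹ by group, conj_pow, x.2]; group
  have hsum : Nat.card {x : G // IsConj c (x ^ n)} = C.index * Nat.card {x : C // x ^ n = ⟨c, hcC⟩} := by
    rw [Nat.card_congr (Equiv.sigmaSubtypeFiberEquivSubtype (fun x : G => x ^ n) (p := fun x => IsConj c (x ^ n))
      (q := fun y => IsConj c y) (fun _ => Iff.rfl)).symm]
    rw [Nat.card_sigma, Finset.sum_congr rfl (fun y _ => hN y.1 y.2), Finset.sum_const, Finset.card_univ,
      smul_eq_mul, ← Nat.card_eq_fintype_card, hcard]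
  rw [hsum, hcard, ← C.index_mul_card, Nat.gcd_mul_left]
  exact Nat.mul_dvd_mul_left _ hk

end Cfsg.Agent.S4212
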