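import Cfsg.Statements.S4213
import Cfsg.Agent.Counting.Frobenius
import Cfsg.Agent.Solvable.MinNormal
import Mathlib

set_option autoImplicit false
open Cfsg

namespace Cfsg.Agent.S4213

universe u

theorem exists_subgroup_aux : ∀ (N : ℕ) (G : Type u) [Group G] [Finite G] [Group.IsSolvable G],
    Nat.card G ≤ N → ∀ n : ℕ, n ∣ Nat.card G → Nat.card {x : G // x ^ n = 1} = n →
    ∃ H : Subgroup G, (H : Set G) = {x : G | x ^ n = 1} := by
  intro N
  induction N with
  | zero => intro G _ _ _ h; exact absurd h (not_le_of_gt Nat.card_pos)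
  | succ N ih =>
    intro G _ _ _ hG n hn hcount
    rcases subsingleton_or_nontrivial G with hs | hs
    · exact ⟨⊤, Set.ext fun x => iff_of_true trivial (Subsingleton.elim _ _)⟩
    obtain ⟨M, p, k, hM, hM1, -, -, hp, hk, hcard, hexp⟩ := CfsgLib.Solvable.exists_minimal_normal_of_solvable (G := G)
    haveI := hM
    haveI := Fact.mk hp
    have hn0 : n ≠ 0 := fun h => by rw [h] at hn; exact Nat.card_pos.ne' (Nat.eq_zero_of_zero_dvd hn)
    set π := QuotientGroup.mk' M
    have hlt : Nat.card (G ⧸ M) ≤ N := Nat.le_of_lt_succ ((CfsgLib.Solvable.card_quotient_lt M hM1).trans_le hG)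
    have hGcard : Nat.card G = Nat.card (G ⧸ M) * p ^ k := by
      rw [← hcard]; exact Subgroup.card_eq_card_quotient_mul_card_subgroup M
    haveI : Group.IsSolvable (G ⧸ M) := Group.isSolvable_of_surjective (f := π) (QuotientGroup.mk'_surjective M)
    by_cases hpn : p ∣ n
    · -- the whole of the minimal normal subgroup consists of solutions
      set s := n.factorization p with hs'
      set t := min s k with ht
      set n' := n / p ^ t with hn'
      have hdiv : p ^ t ∣ n := dvd_trans (pow_dvd_pow p (min_le_left _ _)) (Nat.ordProj_dvd n p)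
      have hnn : n = n' * p ^ t := (Nat.div_mul_cancel hdiv).symm
      have ht0 : 1 ≤ t := le_min (hp.factorization_pos_of_dvd hn0 hpn) hk
      have hn'Q : n' ∣ Nat.card (G ⧸ M) := by
        by_cases hsk : k ≤ s
        · have : t = k := min_eq_right hsk
          rw [hnn, hGcard, this] at hn
          exact Nat.dvd_of_mul_dvd_mul_right (pow_pos hp.pos k) hn
        · have hts : t = s := min_eq_left (le_of_not_ge hsk)
          have hcop : n'.Coprime (p ^ k) := by
            rw [hn', hts]
            exact ((Nat.coprime_ordCompl hp hn0).pow_left k).symm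
          have : n' ∣ Nat.card (G ⧸ M) * p ^ k := hGcard ▸ dvd_trans ⟨p ^ t, hnn⟩ hn
          exact hcop.dvd_of_dvd_mul_right this
      have hsol : ∀ x : G, π x ^ n' = 1 → x ^ n = 1 := by
        intro x hx
        have hxM : x ^ n' ∈ M := (QuotientGroup.eq_one_iff _).mp (by rw [← map_pow] at hx; exact hx)
        have h1 : x ^ (n' * p) = 1 := by rw [pow_mul]; exact hexp _ hxM
        have h2 : n' * p ∣ n := by rw [hnn]; exact Nat.mul_dvd_mul_left n' (dvd_pow_self p (by omega))
        obtain ⟨c, hc⟩ := h2
        rw [hc, pow_mul, h1, one_pow]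
      -- count
      let Y := {y : G ⧸ M // y ^ n' = 1}
      let f : Y × M → {x : G // x ^ n = 1} := fun u => ⟨(u.1.1).out * (u.2 : G), hsol _ (by
        have hm : π (u.2 : G) = 1 := (QuotientGroup.eq_one_iff _).mpr u.2.2
        rw [map_mul, hm, mul_one]
        show (QuotientGroup.mk (u.1.1).out : G ⧸ M) ^ n' = 1
        rw [QuotientGroup.out_eq']
        exact u.1.2)⟩
      have hf : Function.Injective f := by
        rintro ⟨a, m⟩ ⟨b, m'⟩ h
        have h' : (a.1).out * (m : G) = (b.1).out * (m' : G) := congrArg Subtype.val h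
        have hab : a.1 = b.1 := by
          have := congrArg π h'
          rw [map_mul, map_mul, show π (m : G) = 1 from (QuotientGroup.eq_one_iff _).mpr m.2,
            show π (m' : G) = 1 from (QuotientGroup.eq_one_iff _).mpr m'.2, mul_one, mul_one] at this
          simpa [π, QuotientGroup.out_eq'] using this
        obtain rfl : a = b := Subtype.ext hab
        exact Prod.ext rfl (Subtype.ext (mul_left_cancel h'))
      have hle := Nat.card_le_card_of_injective f hf
      rw [Nat.card_prod, hcard, hcount] at hle
      haveI : Nonempty Y := ⟨⟨1, one_pow _⟩⟩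
      have hn'le : n' ≤ Nat.card Y := Nat.le_of_dvd Nat.card_pos (CfsgLib.Counting.card_pow_eq_one_dvd hn'Q)
      have htk : p ^ t ≤ p ^ k := Nat.pow_le_pow_right hp.pos (min_le_right _ _)
      have hn'pos : 0 < n' := Nat.pos_of_ne_zero fun h => hn0 (by rw [hnn, h, zero_mul])
      have hYle : Nat.card Y ≤ n' := by
        refine Nat.le_of_mul_le_mul_right ?_ (pow_pos hp.pos k)
        exact hle.trans (hnn.le.trans (Nat.mul_le_mul_left _ htk))
      have hY : Nat.card Y = n' := le_antisymm hYle hn'le
      have hfb : Function.Bijective f := (Nat.bijective_iff_injective_and_card f).mpr ⟨hf, by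
        refine le_antisymm (Nat.card_le_card_of_injective f hf) ?_
        rw [hcount, Nat.card_prod, hcard, hY]
        exact hnn.le.trans (Nat.mul_le_mul_left _ htk)⟩
      obtain ⟨H, hH⟩ := ih (G ⧸ M) hlt n' hn'Q hY
      refine ⟨H.comap π, Set.ext fun x => ⟨fun hx => hsol x (?_), fun hx => ?_⟩⟩
      · have hx' : π x ∈ (H : Set (G ⧸ M)) := hx
        rw [hH] at hx'
        exact hx'
      · obtain ⟨⟨a, m⟩, ham⟩ := hfb.2 ⟨x, hx⟩
        show π x ∈ (H : Set (G ⧸ M))
        rw [hH]
        have hx' : (a.1).out * (m : G) = x := congrArg Subtype.val ham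
        have : π x = a.1 := by
          rw [← hx', map_mul, show π (m : G) = 1 from (QuotientGroup.eq_one_iff _).mpr m.2, mul_one]
          exact QuotientGroup.out_eq' _
        rw [this]
        exact a.2
    · -- coprime case
      have hcop : n.Coprime (p ^ k) := ((hp.coprime_iff_not_dvd.mpr hpn).pow_left k).symm
      have hnQ : n ∣ Nat.card (G ⧸ M) := hcop.dvd_of_dvd_mul_right (hGcard ▸ hn)
      let Y := {y : G ⧸ M // y ^ n = 1}
      let g : {x : G // x ^ n = 1} → Y := fun x => ⟨π x.1, by rw [← map_pow, x.2, map_one]⟩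
      have hg : Function.Surjective g := by
        rintro ⟨y, hy⟩
        obtain ⟨x, rfl⟩ := QuotientGroup.mk_surjective y
        have hxM : x ^ n ∈ M := (QuotientGroup.eq_one_iff _).mp hy
        obtain ⟨e, he⟩ : ∃ e : ℕ, p * e ≡ 1 [MOD n] := by
          have h1 : Nat.Coprime p n := hp.coprime_iff_not_dvd.mpr hpn
          haveI : NeZero n := ⟨hn0⟩
          refine ⟨((p : ZMod n)⁻¹).val, (ZMod.natCast_eq_natCast_iff _ _ n).mp ?_⟩
          rw [Nat.cast_mul, ZMod.natCast_zmod_val, ZMod.coe_mul_inv_eq_one p h1, Nat.cast_one]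
        refine ⟨⟨x ^ (p * e), ?_⟩, Subtype.ext ?_⟩
        · rw [← pow_mul, mul_comm, pow_mul, pow_mul, hexp _ hxM, one_pow]
        · show π (x ^ (p * e)) = π x
          rw [map_pow]
          conv_rhs => rw [← pow_one (π x)]
          exact pow_eq_pow_iff_modEq.mpr (Nat.ModEq.of_dvd (orderOf_dvd_of_pow_eq_one hy) he)
      haveI : Nonempty Y := ⟨⟨1, one_pow _⟩⟩
      have hle := Nat.card_le_card_of_surjective g hg
      rw [hcount] at hle
      have hge : n ≤ Nat.card Y := Nat.le_of_dvd Nat.card_pos (CfsgLib.Counting.card_pow_eq_one_dvd hnQ)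
      have hY : Nat.card Y = n := le_antisymm hle hge
      obtain ⟨H, hH⟩ := ih (G ⧸ M) hlt n hnQ hY
      set W := H.comap π with hW
      have hMW : M ≤ W := fun m hm => by
        show π m ∈ H
        rw [show π m = 1 from (QuotientGroup.eq_one_iff _).mpr hm]
        exact H.one_mem
      have hWcard : Nat.card W = n * p ^ k := by
        have hHn : Nat.card H = n := by
          rw [← hY]
          exact Nat.card_congr (Equiv.setCongr hH)
        have h1 : W.index = H.index := H.index_comap_of_surjective (QuotientGroup.mk'_surjective M)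
        refine Nat.eq_of_mul_eq_mul_right (Nat.pos_of_ne_zero (Subgroup.index_ne_zero_of_finite (H := W))) ?_
        rw [W.card_mul_index, h1, mul_right_comm, ← hHn, H.card_mul_index, hGcard]
      have hMcard : Nat.card (M.subgroupOf W) = p ^ k := by
        rw [Nat.card_congr (Subgroup.subgroupOfEquivOfLe hMW).toEquiv, hcard]
      have hidx : (M.subgroupOf W).index = n := by
        have := (M.subgroupOf W).card_mul_index
        rw [hMcard, hWcard, mul_comm n] at this
        exact Nat.eq_of_mul_eq_mul_left (pow_pos hp.pos k) this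
      obtain ⟨K, hK⟩ := Subgroup.exists_right_complement'_of_coprime (N := M.subgroupOf W)
        (by rw [hMcard, hidx]; exact hcop.symm)
      have hKcard : Nat.card (K.map W.subtype) = n := by
        rw [Subgroup.card_map_of_injective W.subtype_injective, ← hK.symm.index_eq_card, hidx]
      refine ⟨K.map W.subtype, Set.eq_of_subset_of_ncard_le ?_ ?_ (Set.toFinite _)⟩
      · intro x hx
        have h := pow_card_eq_one' (x := (⟨x, hx⟩ : K.map W.subtype))
        rw [hKcard] at h
        exact congrArg Subtype.val h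
      · rw [← Nat.card_coe_set_eq, ← Nat.card_coe_set_eq]
        exact (hcount.le.trans hKcard.ge :)

/-- If `G` is a finite solvable group and `n` divides the order of `G` and exactly `n` elements `x` of `G` satisfy `x^n = 1`, then these elements form a normal subgroup. -/
theorem result {G : Type*} [Group G] [Finite G] [Group.IsSolvable G] (n : ℕ) (hn : n ∣ Nat.card G) (hcount : Nat.card {x : G // x ^ n = 1} = n) : ∃ H : Subgroup G, H.Normal ∧ (H : Set G) = {x : G | x ^ n = 1} := by
  obtain ⟨H, hH⟩ := exists_subgroup_aux (Nat.card G) G le_rfl n hn hcount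
  refine ⟨H, ⟨fun x hx g => ?_⟩, hH⟩
  have hx' : x ^ n = 1 := by
    have h : x ∈ (H : Set G) := hx
    rw [hH] at h
    exact h
  show g * x * g⁻¹ ∈ (H : Set G)
  rw [hH]
  show (g * x * g⁻¹) ^ n = 1
  rw [conj_pow, hx', mul_one, mul_inv_cancel]

end Cfsg.Agent.S4213
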