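import Cfsg.Statements.S4214
import Mathlib
import Cfsg.Agent.Solvable.ComplementSystem
import Cfsg.Agent.Coprime.Basic

set_option autoImplicit false
open Cfsg

namespace Cfsg.Agent.S4214

open scoped Pointwise commutatorElement

/-- An abelian group acted on coprimely and fixed-point-freely by a solvable group `H` has as
order a product of numbers congruent to `1` modulo primes dividing `|H|`. -/
theorem exists_split {G : Type*} [Group G] [Finite G] (H : Subgroup G) (hH : Group.IsSolvable H)
    (n : ℕ) : ∀ V : Subgroup G, Nat.card V = n → IsMulCommutative V →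
      H ≤ Subgroup.normalizer (V : Set G) → (Nat.card H).Coprime (Nat.card V) →
      V ⊓ Subgroup.centralizer (H : Set G) = ⊥ →
      ∃ l : List ℕ, n = l.prod ∧ ∀ x ∈ l, x ∣ n ∧ ∃ r, r.Prime ∧ r ∣ Nat.card H ∧ x ≡ 1 [MOD r] := by
  induction n using Nat.strong_induction_on with
  | _ n ih =>
  intro V hn hV hHV hcop hfix
  by_cases hK : H ≤ Subgroup.centralizer (V : Set G)
  · refine ⟨[], ?_, by simp⟩
    rw [List.prod_nil, ← hn, Subgroup.card_eq_one]
    rwa [inf_eq_left.2 (Subgroup.le_centralizer_iff.1 hK)] at hfix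
  set K' := (Subgroup.centralizer (V : Set G)).subgroupOf H with hK'
  haveI : K'.Normal := Subgroup.normal_subgroupOf_iff_le_normalizer_inf.2 <| by
    refine le_trans ?_ Subgroup.inf_normalizer_le_normalizer_inf
    exact le_inf (CfsgLib.Coprime.le_normalizer_centralizer hHV) Subgroup.le_normalizer
  haveI := hH
  haveI : Nontrivial (H ⧸ K') :=
    QuotientGroup.nontrivial_iff.2 fun h => hK (Subgroup.subgroupOf_eq_top.1 h)
  obtain ⟨M, r, k, hMn, hM, -, -, hr, -, hMc, -⟩ :=
    CfsgLib.Solvable.exists_minimal_normal_of_solvable (G := H ⧸ K')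
  haveI := Fact.mk hr
  set f := QuotientGroup.mk' K' with hf
  haveI : (M.comap f).Normal := hMn.comap f
  set R := (M.comap f).map H.subtype with hR
  have hRH : R ≤ H := Subgroup.map_subtype_le _
  have hHR : H ≤ Subgroup.normalizer (R : Set G) := by
    refine CfsgLib.Coprime.le_normalizer_of_conj_mem ?_
    rintro h hh _ ⟨x, hx, rfl⟩
    exact ⟨⟨h, hh⟩ * x * ⟨h, hh⟩⁻¹, (inferInstance : (M.comap f).Normal).conj_mem x hx _, rfl⟩
  have hRC : ¬ R ≤ Subgroup.centralizer (V : Set G) := fun h => hM <| by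
    rw [← Subgroup.map_comap_eq_self_of_surjective (QuotientGroup.mk'_surjective K') M,
      Subgroup.map_eq_bot_iff, QuotientGroup.ker_mk']
    exact fun x hx => h ⟨x, hx, rfl⟩
  have hRV : R ≤ Subgroup.normalizer (V : Set G) := hRH.trans hHV
  have hcopR : (Nat.card R).Coprime (Nat.card V) := CfsgLib.Coprime.coprime_of_le hRH le_rfl hcop
  set W := ⁅V, R⁆ with hW
  set V0 := V ⊓ Subgroup.centralizer (R : Set G) with hV0
  have hWV : W ≤ V := CfsgLib.Coprime.commutator_le_of_le_normalizer hRV
  have hWR : W ⊓ Subgroup.centralizer (R : Set G) = ⊥ :=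
    CfsgLib.Coprime.commutator_inf_centralizer_eq_bot hV hRV hcopR
  have hsup : W ⊔ V0 = V := CfsgLib.Coprime.commutator_sup_centralizer_of_comm hV hRV hcopR
  have hcardV : Nat.card V = Nat.card W * Nat.card V0 := by
    have hc : Subgroup.IsComplement' (W.subgroupOf V) (V0.subgroupOf V) := by
      haveI : (W.subgroupOf V).Normal :=
        ⟨fun x hx g => by rwa [(hV.is_comm.comm g x), mul_inv_cancel_right]⟩
      refine Subgroup.isComplement'_of_disjoint_and_mul_eq_univ ?_ ?_
      · rw [Subgroup.disjoint_def]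
        intro x hx hx0
        refine Subtype.ext (Subgroup.mem_bot.1 (hWR ▸ ?_ : (x : G) ∈ (⊥ : Subgroup G)))
        exact ⟨hx, (Subgroup.mem_inf.1 (Subgroup.mem_subgroupOf.1 hx0)).2⟩
      · rw [← Subgroup.normal_mul, ← Subgroup.subgroupOf_sup hWV inf_le_left, hsup,
          Subgroup.subgroupOf_self, Subgroup.coe_top]
    have h1 := hc.card_mul_card
    rw [Nat.card_congr (Subgroup.subgroupOfEquivOfLe hWV).toEquiv,
      Nat.card_congr (Subgroup.subgroupOfEquivOfLe (inf_le_left : V0 ≤ V)).toEquiv] at h1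
    exact h1.symm
  have hWne : W ≠ ⊥ := fun h => hRC
    (Subgroup.le_centralizer_iff.1 (Subgroup.commutator_eq_bot_iff_le_centralizer.1 h))
  have hlt : Nat.card V0 < n := by
    rw [← hn, hcardV]
    exact lt_mul_of_one_lt_left Nat.card_pos ((Subgroup.one_lt_card_iff_ne_bot W).2 hWne)
  haveI := hV
  obtain ⟨l, hl, hl'⟩ := ih _ hlt V0 rfl
    ⟨⟨fun a b => Subtype.ext (show (a : G) * b = b * a from congrArg Subtype.val
      (hV.is_comm.comm (⟨a, a.2.1⟩ : V) (⟨b, b.2.1⟩ : V)))⟩⟩
    (CfsgLib.Coprime.le_normalizer_inf' hHV (CfsgLib.Coprime.le_normalizer_centralizer hHR))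
    (CfsgLib.Coprime.coprime_of_le le_rfl inf_le_left hcop)
    (eq_bot_iff.2 ((inf_le_inf_right _ inf_le_left).trans hfix.le))
  refine ⟨Nat.card W :: l, by rw [List.prod_cons, ← hn, hcardV, ← hl], ?_⟩
  intro x hx
  rcases List.mem_cons.1 hx with rfl | hx
  · refine ⟨⟨Nat.card V0, by rw [← hn, hcardV]⟩, r, hr, ?_, ?_⟩
    · have h1 : r ∣ Nat.card M := by
        rw [hMc]
        refine dvd_pow_self r fun e => hM ?_
        rw [← Subgroup.card_eq_one, hMc, e, pow_zero]
      exact h1.trans (M.card_subgroup_dvd_card.trans (Subgroup.card_quotient_dvd_card K'))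
    · -- a Sylow subgroup of `R` acts without fixed points
      let g := f.subgroupComap M
      have hgs : Function.Surjective g :=
        f.subgroupComap_surjective_of_surjective M (QuotientGroup.mk'_surjective K')
      obtain ⟨S⟩ : Nonempty (Sylow r (M.comap f)) := inferInstance
      have hStop : (S.mapSurjective hgs : Subgroup M) = ⊤ :=
        ((S.mapSurjective hgs).is_maximal' ((IsPGroup.of_card hMc).to_subgroup ⊤) le_top).symm
      set S' := ((S : Subgroup (M.comap f)).map (M.comap f).subtype).map H.subtype with hS'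
      have hS'R : S' ≤ R := Subgroup.map_mono (Subgroup.map_subtype_le _)
      have hS'p : IsPGroup r S' := (S.isPGroup'.map _).map _
      have hWn : R ≤ Subgroup.normalizer (W : Set G) := Subgroup.normalizer_commutator_ge_right V R
      letI : MulAction S' W := MulAction.compHom W
        ((Subgroup.normalizerMonoidHom W).comp (Subgroup.inclusion (hS'R.trans hWn)))
      have hact : ∀ (s : S') (w : W), ((s • w : W) : G) = s * w * (s : G)⁻¹ := fun _ _ => rfl
      have h1 := hS'p.card_modEq_card_fixedPoints (α := W)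
      have h2 : Nat.card (MulAction.fixedPoints S' W) = 1 := by
        rw [Nat.card_eq_one_iff_unique]
        refine ⟨⟨fun a b => ?_⟩, ⟨1, fun s => Subtype.ext ?_⟩⟩
        · suffices key : ∀ a : MulAction.fixedPoints S' W, a.1 = 1 from
            Subtype.ext ((key a).trans (key b).symm)
          rintro ⟨a, ha⟩
          refine Subtype.ext (Subgroup.mem_bot.1 (hWR ▸ ?_ : (a : G) ∈ (⊥ : Subgroup G)))
          refine ⟨a.2, Subgroup.mem_centralizer_iff.2 ?_⟩
          rintro _ ⟨x, hx, rfl⟩
          obtain ⟨s, hs, hsx⟩ : g ⟨x, hx⟩ ∈ (S : Subgroup (M.comap f)).map g := by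
            rw [← Sylow.coe_mapSurjective hgs S, hStop]; exact Subgroup.mem_top _
          have hsC : (((s : H) : G))⁻¹ * (x : G) ∈ Subgroup.centralizer (V : Set G) := by
            have e : f ((s : H)⁻¹ * x) = 1 := by
              rw [map_mul, map_inv, inv_mul_eq_one]
              exact congrArg Subtype.val hsx
            have e' : (s : H)⁻¹ * x ∈ K' := (QuotientGroup.eq_one_iff _).1 e
            exact e'
          have h3 := congrArg Subtype.val (ha ⟨((s : H) : G), ⟨_, ⟨s, hs, rfl⟩, rfl⟩⟩)
          rw [hact] at h3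
          show (x : G) * a = a * x
          have h4 := Subgroup.mem_centralizer_iff.1 hsC a (hWV a.2)
          calc (x : G) * a = (s : H) * ((((s : H) : G))⁻¹ * x * a) := by group
            _ = (s : H) * (a * ((((s : H) : G))⁻¹ * x)) := by rw [h4]
            _ = ((s : H) * a * (((s : H) : G))⁻¹) * x := by group
            _ = a * x := by rw [h3]
        · rw [hact, Subgroup.coe_one, mul_one, mul_inv_cancel]
      rwa [h2] at h1
  · obtain ⟨h1, h2⟩ := hl' x hx
    exact ⟨h1.trans ⟨Nat.card W, by rw [← hn, hcardV, mul_comm]⟩, h2⟩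

/-- The requirement on one factor. -/
def GoodFactor (G : Type*) [Group G] (m x : ℕ) : Prop :=
  (∃ q e : ℕ, q.Prime ∧ x = q ^ e) ∧
    (∃ K L : Subgroup G, K.Normal ∧ L.Normal ∧ K < L ∧
      (∀ M : Subgroup G, M.Normal → K ≤ M → M ≤ L → M = K ∨ M = L) ∧ x ∣ K.relIndex L) ∧
    ∃ q : ℕ, q.Prime ∧ q ∣ m ∧ x ≡ 1 [MOD q]

theorem hall_count_aux.{u} (n : ℕ) : ∀ (G : Type u) [Group G] [Finite G] [Group.IsSolvable G],
    Nat.card G = n → ∀ H : Subgroup G, (Nat.card H).Coprime H.index →
      ∃ l : List ℕ, (Subgroup.normalizer (H : Set G)).index = l.prod ∧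
        ∀ x ∈ l, GoodFactor G (Nat.card H) x := by
  induction n using Nat.strong_induction_on with
  | _ n ih =>
  intro G _ _ _ hn H hHall
  rcases subsingleton_or_nontrivial G with hG | hG
  · exact ⟨[], by rw [List.prod_nil, Subgroup.index_eq_one, eq_top_iff]; intro x _; rw [Subsingleton.elim x 1]; exact one_mem _,
      by simp⟩
  obtain ⟨N, p, k, hNn, hN, hmin, hNa, hp, hk, hNc, -⟩ :=
    CfsgLib.Solvable.exists_minimal_normal_of_solvable (G := G)
  set f := QuotientGroup.mk' N with hf
  have hfs := QuotientGroup.mk'_surjective N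
  have hcop' : (Nat.card (H.map f)).Coprime (H.map f).index :=
    (hHall.coprime_dvd_left (H.card_map_dvd f)).coprime_dvd_right (H.index_map_dvd hfs)
  obtain ⟨l, hl, hl'⟩ := ih _ (hn ▸ CfsgLib.Solvable.card_quotient_lt N hN) (G ⧸ N) rfl (H.map f) hcop'
  set NH := Subgroup.normalizer (H : Set G) with hNH
  have hmap : Subgroup.normalizer ((H.map f : Subgroup (G ⧸ N)) : Set (G ⧸ N)) = NH.map f := by
    refine le_antisymm ?_ (Subgroup.le_normalizer_map f)
    intro xb hxb
    obtain ⟨x, rfl⟩ := hfs xb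
    have h1 : MulAut.conj x • H ≤ H ⊔ N := by
      have h2 : (MulAut.conj x • H).map f = H.map f := by
        rw [CfsgLib.Solvable.map_conj_smul]
        exact Subgroup.mem_normalizer_iff_map_conj_eq.1 hxb
      have h3 := Subgroup.map_le_iff_le_comap.1 h2.le
      rwa [Subgroup.comap_map_eq, QuotientGroup.ker_mk'] at h3
    have hc1 := Nat.card_congr (Subgroup.subgroupOfEquivOfLe h1).toEquiv
    have hc2 := Nat.card_congr (Subgroup.subgroupOfEquivOfLe (le_sup_left : H ≤ H ⊔ N)).toEquiv
    obtain ⟨u, hu⟩ := CfsgLib.Solvable.exists_conj_eq_of_hall ((MulAut.conj x • H).subgroupOf (H ⊔ N))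
      (H.subgroupOf (H ⊔ N))
      (by
        rw [hc1, CfsgLib.Solvable.card_conj_smul]
        refine hHall.coprime_dvd_right ?_
        refine ((Subgroup.relIndex_dvd_index_of_le h1).trans ?_)
        rw [CfsgLib.Solvable.conj_smul_eq_map, Subgroup.index_map_of_bijective (MulAut.conj x).bijective])
      (by rw [hc1, hc2, CfsgLib.Solvable.card_conj_smul])
    have hu' := CfsgLib.Solvable.conj_eq_of_subgroupOf h1 le_sup_left u hu
    rw [← mul_smul, ← map_mul] at hu'
    have hux : (u : G) * x ∈ NH := Subgroup.mem_normalizer_iff_map_conj_eq.2 hu'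
    have hfu : f (u : G) ∈ NH.map f := by
      have h4 : f (u : G) ∈ (H ⊔ N).map f := Subgroup.mem_map_of_mem f u.2
      rw [Subgroup.map_sup, (Subgroup.map_eq_bot_iff N).2 (by rw [QuotientGroup.ker_mk']), sup_bot_eq] at h4
      exact Subgroup.map_mono Subgroup.le_normalizer h4
    have h5 := mul_mem (inv_mem hfu) (Subgroup.mem_map_of_mem f hux)
    rwa [map_mul, inv_mul_cancel_left] at h5
  have hidx : NH.index = (NH.map f).index * NH.relIndex N := by
    have h1 : (NH.map f).index = (NH ⊔ N).index := by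
      rw [← Subgroup.index_comap_of_surjective _ hfs, Subgroup.comap_map_eq, QuotientGroup.ker_mk']
    have h2 := Subgroup.relIndex_mul_index (le_sup_left : NH ≤ NH ⊔ N)
    have h3 : NH.relIndex (NH ⊔ N) = NH.relIndex N := by
      have h4 := Subgroup.relIndex_mul_relIndex (NH ⊓ N) NH (NH ⊔ N) inf_le_left le_sup_left
      have h5 := Subgroup.relIndex_mul_relIndex (NH ⊓ N) N (NH ⊔ N) inf_le_right le_sup_right
      rw [Subgroup.inf_relIndex_left] at h4
      rw [Subgroup.inf_relIndex_right, Subgroup.relIndex_sup_right] at h5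
      rw [← h5, mul_comm (NH.relIndex N)] at h4
      exact Nat.eq_of_mul_eq_mul_left (Nat.pos_of_ne_zero Subgroup.index_ne_zero_of_finite) h4
    rw [h1, ← h3, mul_comm, h2]
  rw [hmap] at hl
  -- the new factors
  obtain ⟨lN, hlN, hlN'⟩ : ∃ lN : List ℕ, NH.relIndex N = lN.prod ∧
      ∀ x ∈ lN, GoodFactor G (Nat.card H) x := by
    by_cases hpm : p ∣ Nat.card H
    · refine ⟨[], ?_, by simp⟩
      rw [List.prod_nil, Subgroup.relIndex_eq_one]
      refine le_trans ?_ Subgroup.le_normalizer
      rw [← Subgroup.relIndex_eq_one]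
      exact Nat.eq_one_of_dvd_coprimes ((hHall.coprime_dvd_left hpm).pow_left k)
        (hNc ▸ H.relIndex_dvd_card N) (CfsgLib.Solvable.relIndex_dvd_index_right N H)
    · have hcN : (Nat.card H).Coprime (Nat.card N) := by
        rw [hNc]; exact ((hp.coprime_iff_not_dvd.2 hpm).symm).pow_right k
      have hHN : H ≤ Subgroup.normalizer (N : Set G) := by
        rw [Subgroup.normalizer_eq_top]; exact le_top
      have hsol : Group.IsSolvable H := inferInstance
      set C := N ⊓ Subgroup.centralizer (H : Set G) with hC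
      have hNHC : NH ⊓ N = C := by
        refine le_antisymm (fun x hx => ⟨hx.2, ?_⟩)
          (le_inf (inf_le_right.trans (Subgroup.centralizer_le_normalizer (H : Set G))) inf_le_left)
        show x ∈ Subgroup.centralizer (H : Set G)
        rw [Subgroup.mem_centralizer_iff]
        intro y hy
        have h1 : x * y * x⁻¹ * y⁻¹ ∈ H :=
          mul_mem ((Subgroup.mem_normalizer_iff.1 hx.1 y).1 hy) (inv_mem hy)
        have h2 : x * y * x⁻¹ * y⁻¹ ∈ N := by
          rw [mul_assoc, mul_assoc, ← mul_assoc y]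
          exact mul_mem hx.2 (hNn.conj_mem _ (inv_mem hx.2) y)
        have h3 := Subgroup.disjoint_def.1 (CfsgLib.Solvable.disjoint_of_coprime_card hcN) h1 h2
        exact (mul_inv_eq_iff_eq_mul.1 (mul_inv_eq_one.1 h3)).symm
      have hW := CfsgLib.Coprime.commutator_inf_centralizer_eq_bot hNa hHN hcN
      have hsup := CfsgLib.Coprime.commutator_sup_centralizer_of_comm hNa hHN hcN
      have hWN : ⁅N, H⁆ ≤ N := CfsgLib.Coprime.commutator_le_of_le_normalizer hHN
      obtain ⟨lN, h1, h2⟩ := exists_split H hsol _ ⁅N, H⁆ rfl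
        ⟨⟨fun a b => Subtype.ext (show (a : G) * b = b * a from congrArg Subtype.val
          (hNa.is_comm.comm (⟨a, hWN a.2⟩ : N) (⟨b, hWN b.2⟩ : N)))⟩⟩
        (Subgroup.normalizer_commutator_ge_right N H) (CfsgLib.Coprime.coprime_of_le le_rfl hWN hcN) hW
      have hrel : NH.relIndex N = Nat.card (⁅N, H⁆ : Subgroup G) := by
        rw [← Subgroup.inf_relIndex_right, hNHC]
        have hc : Subgroup.IsComplement' ((⁅N, H⁆ : Subgroup G).subgroupOf N) (C.subgroupOf N) := by
          haveI : ((⁅N, H⁆ : Subgroup G).subgroupOf N).Normal :=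
            ⟨fun x hx g => by rwa [(hNa.is_comm.comm g x), mul_inv_cancel_right]⟩
          refine Subgroup.isComplement'_of_disjoint_and_mul_eq_univ ?_ ?_
          · rw [Subgroup.disjoint_def]
            intro x hx hx0
            refine Subtype.ext (Subgroup.mem_bot.1 (hW ▸ ?_ : (x : G) ∈ (⊥ : Subgroup G)))
            exact ⟨hx, (Subgroup.mem_inf.1 (Subgroup.mem_subgroupOf.1 hx0)).2⟩
          · rw [← Subgroup.normal_mul, ← Subgroup.subgroupOf_sup hWN inf_le_left, hsup,
              Subgroup.subgroupOf_self, Subgroup.coe_top]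
        show (C.subgroupOf N).index = _
        rw [hc.index_eq_card]
        exact Nat.card_congr (Subgroup.subgroupOfEquivOfLe hWN).toEquiv
      refine ⟨lN, hrel.trans h1, fun x hx => ?_⟩
      obtain ⟨hxd, hxr⟩ := h2 x hx
      have hxp : x ∣ p ^ k := hNc ▸ hxd.trans (Subgroup.card_dvd_of_le hWN)
      refine ⟨?_, ⟨⊥, N, inferInstance, hNn, bot_lt_iff_ne_bot.2 hN, fun M hM _ hMN => hmin M hM hMN, ?_⟩, hxr⟩
      · obtain ⟨e, -, he⟩ := (Nat.dvd_prime_pow hp).1 hxp
        exact ⟨p, e, hp, he⟩
      · rwa [Subgroup.relIndex_bot_left, hNc]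
  refine ⟨lN ++ l, by rw [List.prod_append, ← hlN, ← hl, hidx, mul_comm], fun x hx => ?_⟩
  rcases List.mem_append.1 hx with hx | hx
  · exact hlN' x hx
  · obtain ⟨h1, ⟨K, L, hKn, hLn, hKL, hKLm, hd⟩, r, hr, hrm, hr'⟩ := hl' x hx
    refine ⟨h1, ⟨K.comap f, L.comap f, hKn.comap f, hLn.comap f,
      (Subgroup.comap_lt_comap_of_surjective hfs).2 hKL, ?_, ?_⟩, r, hr, hrm.trans (H.card_map_dvd f), hr'⟩
    · intro M hM hKM hML
      have hMeq : (M.map f).comap f = M := by
        rw [Subgroup.comap_map_eq, QuotientGroup.ker_mk', sup_eq_left]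
        exact (QuotientGroup.le_comap_mk' N K).trans hKM
      rcases hKLm (M.map f) (hM.map f hfs)
        (by rw [← Subgroup.map_comap_eq_self_of_surjective hfs K]; exact Subgroup.map_mono hKM)
        (by rw [← Subgroup.map_comap_eq_self_of_surjective hfs L]; exact Subgroup.map_mono hML) with h | h
      · left; rw [← hMeq, h]
      · right; rw [← hMeq, h]
    · rwa [Subgroup.relIndex_comap, Subgroup.map_comap_eq_self_of_surjective hfs]
/-- Let `G` be a finite solvable group of order `mn` with `gcd(m, n) = 1`. Then the number of subgroups of order `m` is a product of natural numbers each of which is a power of a prime, divides the order of some chief factor of `G` (a quotient `L/K` of normal subgroups `K < L` of `G` with no normal subgroup of `G` strictly between them), and is congruent to `1` modulo some prime divisor of `m`. -/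
theorem result {G : Type*} [Group G] [Finite G] [Group.IsSolvable G] (m n : ℕ) (hG : Nat.card G = m * n) (hmn : Nat.Coprime m n) : ∃ (k : ℕ) (f : Fin k → ℕ), Nat.card {H : Subgroup G // Nat.card H = m} = ∏ i, f i ∧ ∀ i, (∃ q e : ℕ, q.Prime ∧ f i = q ^ e) ∧ (∃ K L : Subgroup G, K.Normal ∧ L.Normal ∧ K < L ∧ (∀ M : Subgroup G, M.Normal → K ≤ M → M ≤ L → M = K ∨ M = L) ∧ f i ∣ K.relIndex L) ∧ (∃ q : ℕ, q.Prime ∧ q ∣ m ∧ f i ≡ 1 [MOD q]) := by
  classical
  obtain ⟨H, hH⟩ := CfsgLib.Solvable.exists_subgroup_card_eq_of_coprime m n hG hmn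
  have hidx : H.index = n := by
    refine Nat.eq_of_mul_eq_mul_left (Nat.card_pos (α := H)) ?_
    rw [H.card_mul_index, hH, hG]
  obtain ⟨l, hl, hl'⟩ := hall_count_aux _ G rfl H (by rw [hH, hidx]; exact hmn)
  refine ⟨l.length, fun i => l[(i : ℕ)], ?_, fun i => ?_⟩
  · rw [← List.prod_ofFn, List.ofFn_getElem, ← hl]
    let φ : G ⧸ Subgroup.normalizer (H : Set G) → {K : Subgroup G // Nat.card K = m} :=
      fun x => Quotient.liftOn' x
        (fun g => ⟨MulAut.conj g • H, by rw [CfsgLib.Solvable.card_conj_smul, hH]⟩)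
        (fun a b hab => by
          rw [QuotientGroup.leftRel_apply] at hab
          refine Subtype.ext ?_
          show MulAut.conj a • H = MulAut.conj b • H
          have h2 : MulAut.conj (a⁻¹ * b) • H = H := Subgroup.mem_normalizer_iff_map_conj_eq.1 hab
          rw [show b = a * (a⁻¹ * b) by group, map_mul, mul_smul, h2])
    rw [Subgroup.index_eq_card]
    refine (Nat.card_eq_of_bijective φ ⟨?_, ?_⟩).symm
    · intro x y hxy
      induction x using Quotient.inductionOn' with | h a => ?_
      induction y using Quotient.inductionOn' with | h b => ?_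
      have h1 : MulAut.conj a • H = MulAut.conj b • H := congrArg Subtype.val hxy
      refine Quotient.sound' ?_
      rw [QuotientGroup.leftRel_apply]
      refine Subgroup.mem_normalizer_iff_map_conj_eq.2 ?_
      show MulAut.conj (a⁻¹ * b) • H = H
      rw [map_mul, mul_smul, ← h1, ← mul_smul, ← map_mul, inv_mul_cancel, map_one, one_smul]
    · rintro ⟨K, hK⟩
      obtain ⟨g, hg⟩ := CfsgLib.Solvable.exists_conj_eq_of_card_eq m n hG hmn H K hH hK
      exact ⟨(g : G ⧸ Subgroup.normalizer (H : Set G)), Subtype.ext hg⟩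
  · have h := hl' l[(i : ℕ)] (List.getElem_mem _)
    rw [GoodFactor, hH] at h
    exact h

end Cfsg.Agent.S4214
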