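import Cfsg.Statements.S4216
import Cfsg.Agent.Transfer.GruenFirst

set_option autoImplicit false
open Cfsg
open scoped commutatorElement

namespace Cfsg.Agent.S4216

/-- Grün's first Theorem: if `P` is a Sylow `p`-subgroup of the finite group `G`, then `P ∩ G'` is the subgroup generated by `P ∩ N_G(P)'` together with the subgroups `P ∩ z P' z⁻¹` for all `z ∈ G`, where `'` denotes the derived subgroup and `N_G(P)` the normalizer of `P`. -/
theorem result {G : Type*} [Group G] [Finite G] {p : ℕ} [Fact p.Prime] (P : Sylow p G) : (P : Subgroup G) ⊓ commutator G = ((P : Subgroup G) ⊓ ⁅Subgroup.normalizer ((P : Subgroup G) : Set G), Subgroup.normalizer ((P : Subgroup G) : Set G)⁆) ⊔ ⨆ z : G, (P : Subgroup G) ⊓ (⁅(P : Subgroup G), (P : Subgroup G)⁆).map (MulAut.conj z).toMonoidHom := by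
  set N := Subgroup.normalizer ((P : Subgroup G) : Set G) with hNdef
  set R := ((P : Subgroup G) ⊓ ⁅N, N⁆) ⊔ ⨆ z : G, (P : Subgroup G) ⊓
    (⁅(P : Subgroup G), (P : Subgroup G)⁆).map (MulAut.conj z).toMonoidHom with hR
  refine le_antisymm (fun x hx => ?_) (sup_le (inf_le_inf_left _ ?_) (iSup_le fun z => inf_le_inf_left _ ?_))
  · refine CfsgLib.Transfer.mem_of_gruen_hyp P R ?_ ?_ ?_ hx.1 hx.2
    · intro w hw
      refine Subgroup.mem_sup_right (Subgroup.mem_iSup_of_mem 1 ⟨?_, ⟨w, hw, by simp⟩⟩)
      exact Subgroup.commutator_le_self _ hw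
    · intro n hn y hy
      refine Subgroup.mem_sup_left ⟨?_, ?_⟩
      · refine Subgroup.mul_mem _ ?_ (Subgroup.inv_mem _ hy)
        simpa using (Subgroup.mem_normalizer_iff.mp (inv_mem hn) y).mp hy
      · have h := Subgroup.commutator_mem_commutator (H₁ := N) (H₂ := N) (inv_mem hn)
          (Subgroup.le_normalizer hy : y ∈ N)
        simpa [commutatorElement_def] using h
    · intro g w hw hgw
      exact Subgroup.mem_sup_right (Subgroup.mem_iSup_of_mem g⁻¹ ⟨hgw, ⟨w, hw, by simp⟩⟩)
  · exact Subgroup.commutator_mono le_top le_top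
  · rintro _ ⟨w, hw, rfl⟩
    exact (inferInstance : (commutator G).Normal).conj_mem w
      (Subgroup.commutator_mono le_top le_top hw) z

end Cfsg.Agent.S4216
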