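import Cfsg.Statements.S4217
import Mathlib
-- import your own Cfsg.Agent.* helpers here

set_option autoImplicit false
open Cfsg

namespace Cfsg.Agent.S4217


theorem exists_crossed {G : Type*} [Group G] [Finite G] (A : Subgroup G) [A.Normal]
    (hA : IsMulCommutative A) (H K : Subgroup G) (hKA : K ⊓ A = ⊥) (hH : K ⊔ A = H) :
    ∃ D : G → G, (∀ g, D g ∈ A) ∧ (∀ g g', D (g * g') = g * D g' * g⁻¹ * D g) ∧
      ∀ a ∈ A, D a = a ^ (H.index : ℤ) := by
  classical
  letI : CommGroup A := { (inferInstance : Group A) with mul_comm := fun a b => hA.is_comm.comm a b }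
  letI : Fintype (G ⧸ H) := Fintype.ofFinite _
  have hex : ∀ (g : G) (i : G ⧸ H), ∃ b : A, ∃ k ∈ K,
      g * Quotient.out i = (b : G) * Quotient.out (g • i) * k := by
    intro g i
    have hh : (Quotient.out (g • i))⁻¹ * (g * Quotient.out i) ∈ H := by
      rw [← QuotientGroup.eq, QuotientGroup.out_eq']
      conv_lhs => rw [← QuotientGroup.out_eq' i, MulAction.Quotient.smul_mk]
      rfl
    obtain ⟨k, hk, a, ha, e⟩ := Subgroup.mem_sup_of_normal_right.1 (hH.ge hh)
    refine ⟨⟨Quotient.out (g • i) * (k * a * k⁻¹) * (Quotient.out (g • i))⁻¹,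
      Subgroup.Normal.conj_mem inferInstance _ (Subgroup.Normal.conj_mem inferInstance a ha k) _⟩,
      k, hk, ?_⟩
    rw [eq_inv_mul_iff_mul_eq] at e
    rw [← e]
    group
  choose b k hk hb using hex
  have huniq : ∀ (g : G) (i : G ⧸ H) (c : A), ∀ l ∈ K,
      g * Quotient.out i = (c : G) * Quotient.out (g • i) * l → b g i = c := by
    intro g i c l hl hc
    have e := (hb g i).symm.trans hc
    generalize hr : Quotient.out (g • i) = r at e
    have h1 : r⁻¹ * ((c : G)⁻¹ * (b g i : G)) * r = l * (k g i)⁻¹ := by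
      calc r⁻¹ * ((c : G)⁻¹ * (b g i : G)) * r
          = r⁻¹ * (c : G)⁻¹ * ((b g i : G) * r * k g i) * (k g i)⁻¹ := by group
        _ = l * (k g i)⁻¹ := by rw [e]; group
    have h2 : r⁻¹ * ((c : G)⁻¹ * (b g i : G)) * r ∈ K ⊓ A := by
      refine ⟨?_, ?_⟩
      · show _ ∈ K
        rw [h1]
        exact mul_mem hl (inv_mem (hk g i))
      · exact Subgroup.Normal.conj_mem' inferInstance _ (mul_mem (inv_mem c.2) (b g i).2) r
    rw [hKA, Subgroup.mem_bot] at h2
    have h3 : (c : G)⁻¹ * (b g i : G) = 1 := by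
      calc (c : G)⁻¹ * (b g i : G)
          = r * (r⁻¹ * ((c : G)⁻¹ * (b g i : G)) * r) * r⁻¹ := by group
        _ = 1 := by rw [h2]; group
    exact Subtype.ext (inv_mul_eq_one.1 h3).symm
  refine ⟨fun g => ((∏ i, b g i : A) : G), fun g => (∏ i, b g i : A).2, fun g g' => ?_,
    fun a ha => ?_⟩
  · let cj : A →* A :=
      { toFun := fun x => ⟨g * x * g⁻¹, Subgroup.Normal.conj_mem inferInstance x.1 x.2 g⟩
        map_one' := Subtype.ext (by simp)
        map_mul' := fun x y => Subtype.ext (by simp [mul_assoc]) }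
    have hstep : ∀ i, b (g * g') i = cj (b g' i) * b g (g' • i) := by
      intro i
      refine huniq _ _ _ (k g (g' • i) * k g' i) (mul_mem (hk _ _) (hk _ _)) ?_
      show g * g' * Quotient.out i = g * (b g' i : G) * g⁻¹ * (b g (g' • i) : G) *
        Quotient.out ((g * g') • i) * (k g (g' • i) * k g' i)
      rw [mul_smul]
      calc g * g' * Quotient.out i = g * ((b g' i : G) * Quotient.out (g' • i) * k g' i) := by
            rw [mul_assoc, hb g' i]
        _ = g * (b g' i : G) * g⁻¹ * (g * Quotient.out (g' • i)) * k g' i := by group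
        _ = g * (b g' i : G) * g⁻¹ *
            ((b g (g' • i) : G) * Quotient.out (g • g' • i) * k g (g' • i)) * k g' i := by
            rw [hb g (g' • i)]
        _ = _ := by group
    have hprod : ∏ i, b (g * g') i = cj (∏ i, b g' i) * ∏ i, b g i := by
      rw [Finset.prod_congr rfl fun i _ => hstep i, Finset.prod_mul_distrib, map_prod]
      congr 1
      exact Equiv.prod_comp (MulAction.toPerm g') (b g)
    exact congrArg Subtype.val hprod
  · have hfix : ∀ i : G ⧸ H, a • i = i := by
      intro i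
      conv_lhs => rw [← QuotientGroup.out_eq' i]
      conv_rhs => rw [← QuotientGroup.out_eq' i]
      rw [MulAction.Quotient.smul_mk, QuotientGroup.eq]
      have h4 : (Quotient.out i)⁻¹ * a * Quotient.out i ∈ A :=
        Subgroup.Normal.conj_mem' inferInstance a ha _
      have : (a • Quotient.out i)⁻¹ * Quotient.out i
          = ((Quotient.out i)⁻¹ * a * Quotient.out i)⁻¹ := by
        rw [smul_eq_mul]; group
      rw [this]
      exact inv_mem (hH.le (Subgroup.mem_sup_right h4))
    have hconst : ∀ i, b a i = ⟨a, ha⟩ := fun i =>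
      huniq _ _ _ 1 (one_mem _) (by rw [hfix, mul_one])
    show ((∏ i, b a i : A) : G) = _
    rw [Finset.prod_congr rfl fun i _ => hconst i, Finset.prod_const, Finset.card_univ,
      ← Nat.card_eq_fintype_card, ← Subgroup.index_eq_card, Subgroup.coe_pow, zpow_natCast]

/-- Let `A` be an abelian normal subgroup of the finite group `G`. Then `A` has a complement in `G` if and only if, for every prime `p` dividing the index of `A`, there are a Sylow `p`-subgroup `S` of `G/A` and a subgroup `K` of `G` with `K ∩ A = 1` and `KA` equal to the preimage of `S` (that is, `A` has a complement in the preimage of a Sylow `p`-subgroup of `G/A`). -/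
theorem result {G : Type*} [Group G] [Finite G] (A : Subgroup G) [A.Normal] (hA : IsMulCommutative A) : (∃ K : Subgroup G, K.IsComplement' A) ↔ ∀ p : ℕ, p.Prime → p ∣ A.index → ∃ (S : Sylow p (G ⧸ A)) (K : Subgroup G), K ⊓ A = ⊥ ∧ K ⊔ A = (S : Subgroup (G ⧸ A)).comap (QuotientGroup.mk' A) := by
  classical
  constructor
  · rintro ⟨K, hK⟩ p hp _
    haveI : Fact p.Prime := ⟨hp⟩
    obtain ⟨S⟩ : Nonempty (Sylow p (G ⧸ A)) := inferInstance
    refine ⟨S, K ⊓ (S : Subgroup (G ⧸ A)).comap (QuotientGroup.mk' A), ?_, le_antisymm ?_ ?_⟩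
    · exact le_bot_iff.1 ((inf_le_inf_right A inf_le_left).trans hK.disjoint.le_bot)
    · exact sup_le inf_le_right (fun a ha => by
        rw [Subgroup.mem_comap, QuotientGroup.mk'_apply, (QuotientGroup.eq_one_iff a).2 ha]
        exact one_mem _)
    · intro x hx
      obtain ⟨⟨⟨k, hk⟩, ⟨a, ha⟩⟩, rfl⟩ := hK.surjective x
      refine Subgroup.mem_sup_of_normal_right.2 ⟨k, ⟨hk, ?_⟩, a, ha, rfl⟩
      have h1 : QuotientGroup.mk' A a = 1 := (QuotientGroup.eq_one_iff a).2 ha
      rw [Subgroup.mem_comap, map_mul, h1, mul_one] at hx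
      exact hx
  · intro hloc
    have hcomm : ∀ x ∈ A, ∀ y ∈ A, x * y = y * x := fun x hx y hy =>
      congrArg Subtype.val (hA.is_comm.comm (⟨x, hx⟩ : A) ⟨y, hy⟩)
    let S : AddSubgroup ℤ :=
      { carrier := {n | ∃ D : G → G, (∀ g, D g ∈ A) ∧
          (∀ g g', D (g * g') = g * D g' * g⁻¹ * D g) ∧ ∀ a ∈ A, D a = a ^ n}
        zero_mem' := ⟨fun _ => 1, fun _ => one_mem _, fun g g' => by simp, fun a _ => by simp⟩
        add_mem' := by
          rintro m n ⟨D, h1, h2, h3⟩ ⟨E, k1, k2, k3⟩
          refine ⟨fun g => D g * E g, fun g => mul_mem (h1 g) (k1 g), fun g g' => ?_,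
            fun a ha => by simp only [h3 a ha, k3 a ha, zpow_add]⟩
          simp only [h2, k2]
          have hc := hcomm _ (h1 g) _ (Subgroup.Normal.conj_mem inferInstance _ (k1 g') g)
          calc g * D g' * g⁻¹ * D g * (g * E g' * g⁻¹ * E g)
              = g * D g' * g⁻¹ * (D g * (g * E g' * g⁻¹)) * E g := by group
            _ = _ := by rw [hc]; group
        neg_mem' := by
          rintro m ⟨D, h1, h2, h3⟩
          refine ⟨fun g => (D g)⁻¹, fun g => inv_mem (h1 g), fun g g' => ?_,
            fun a ha => by simp only [h3 a ha, zpow_neg]⟩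
          simp only [h2, mul_inv_rev]
          have hc := hcomm _ (inv_mem (h1 g)) _
            (Subgroup.Normal.conj_mem inferInstance _ (inv_mem (h1 g')) g)
          calc (D g)⁻¹ * (g⁻¹⁻¹ * ((D g')⁻¹ * g⁻¹))
              = (D g)⁻¹ * (g * (D g')⁻¹ * g⁻¹) := by group
            _ = _ := hc }
    obtain ⟨d, hd⟩ := Int.subgroup_cyclic S
    have hmem : ∀ n ∈ S, d ∣ n := fun n hn => by
      rw [hd, AddSubgroup.mem_closure_singleton] at hn
      obtain ⟨j, rfl⟩ := hn
      exact Dvd.intro_left j (by simp)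
    have hidx : (A.index : ℤ) ∈ S := exists_crossed A hA A ⊥ (bot_inf_eq _) (bot_sup_eq _)
    have h1 : (1 : ℤ) ∈ S := by
      by_contra hne
      have hd1 : d.natAbs ≠ 1 := by
        intro h
        apply hne
        rw [hd, AddSubgroup.mem_closure_singleton]
        rcases Int.natAbs_eq d with e | e
        · exact ⟨1, by rw [e, h]; simp⟩
        · exact ⟨-1, by rw [e, h]; simp⟩
      obtain ⟨p, hp, hpd⟩ := Nat.exists_prime_and_dvd hd1
      have hpidx : p ∣ A.index := hpd.trans (by
        simpa using Int.natAbs_dvd_natAbs.2 (hmem _ hidx))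
      haveI : Fact p.Prime := ⟨hp⟩
      obtain ⟨T, K, hK1, hK2⟩ := hloc p hp hpidx
      have hm := exists_crossed A hA _ K hK1 hK2
      have hdm : d.natAbs ∣ ((T : Subgroup (G ⧸ A)).comap (QuotientGroup.mk' A)).index := by
        simpa using Int.natAbs_dvd_natAbs.2 (hmem _ hm)
      rw [Subgroup.index_comap_of_surjective _ (QuotientGroup.mk'_surjective A)] at hdm
      exact T.not_dvd_index (hpd.trans hdm)
    obtain ⟨E, hE, hmul, hid⟩ := h1
    have hid' : ∀ a ∈ A, E a = a := fun a ha => by rw [hid a ha, zpow_one]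
    let K : Subgroup G :=
      { carrier := {g | E g = 1}
        one_mem' := hid' 1 (one_mem _)
        mul_mem' := fun {x y} hx hy => by
          show E (x * y) = 1
          rw [hmul, show E x = 1 from hx, show E y = 1 from hy]; simp
        inv_mem' := fun {x} hx => by
          show E x⁻¹ = 1
          have h2 := hmul x x⁻¹
          rw [mul_inv_cancel, hid' 1 (one_mem _), show E x = 1 from hx, mul_one] at h2
          calc E x⁻¹ = x⁻¹ * (x * E x⁻¹ * x⁻¹) * x := by group
            _ = 1 := by rw [← h2]; group }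
    refine ⟨K, Subgroup.isComplement'_of_disjoint_and_mul_eq_univ (H := A) ?_ ?_ |>.symm⟩
    · rw [Subgroup.disjoint_def]
      intro x hxA hxK
      exact (hid' x hxA).symm.trans hxK
    · rw [Set.eq_univ_iff_forall]
      intro g
      refine ⟨E g, hE g, (E g)⁻¹ * g, ?_, by group⟩
      show E ((E g)⁻¹ * g) = 1
      rw [hmul, hid' _ (inv_mem (hE g))]
      have hc := hcomm _ (inv_mem (hE g)) _ (hE g)
      calc (E g)⁻¹ * E g * ((E g)⁻¹)⁻¹ * (E g)⁻¹ = 1 := by group

end Cfsg.Agent.S4217
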