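import Cfsg.Statements.S4218
import Cfsg.Agent.Constrained.HallHigman
import Cfsg.Agent.Coprime.Basic
import Cfsg.Agent.PGroup.Frattini

set_option autoImplicit false
open Cfsg

namespace Cfsg.Agent.S4218

/-- Let `G` be a finite `p`-solvable group, `N₀ = O_{p'}(G)`, `P₁ = O_{p',p}(G)`, and let `F ≤ P₁` be the preimage of the Frattini subgroup of `P₁/N₀`. Then an element `g` of `G` induces the identity on `P₁/F` by conjugation (that is, `g x g⁻¹ x⁻¹ ∈ F` for all `x ∈ P₁`) if and only if `g ∈ P₁`: the group `G/P₁` acts faithfully on `P₁/F`. -/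
theorem result {G : Type*} [Group G] [Finite G] {p : ℕ} [Fact p.Prime] (hG : Cfsg.IsPSolvable p G) (g : G) : (∀ x ∈ Cfsg.pPrimePCore p G, g * x * g⁻¹ * x⁻¹ ∈ ((frattini (↥(Cfsg.pPrimePCore p G) ⧸ (Cfsg.pPrimeCore p G).subgroupOf (Cfsg.pPrimePCore p G))).comap (QuotientGroup.mk' ((Cfsg.pPrimeCore p G).subgroupOf (Cfsg.pPrimePCore p G)))).map (Cfsg.pPrimePCore p G).subtype) ↔ g ∈ Cfsg.pPrimePCore p G := by
  set M := pPrimePCore p G with hM
  set q := QuotientGroup.mk' (pPrimeCore p G) with hq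
  set R := pCore p (G ⧸ pPrimeCore p G) with hR
  have hRp : IsPGroup p ↥R := CfsgLib.Constrained.isPGroup_pCore
  let f : ↥M →* ↥R := (q.comp M.subtype).codRestrict R fun x => x.2
  have hf : Function.Surjective f := by
    rintro ⟨r, hr⟩
    obtain ⟨x, rfl⟩ := QuotientGroup.mk'_surjective (pPrimeCore p G) r
    exact ⟨⟨x, hr⟩, rfl⟩
  have hker : (pPrimeCore p G).subgroupOf M = f.ker := by
    ext x
    rw [MonoidHom.mem_ker, Subgroup.mem_subgroupOf, Subtype.ext_iff]
    exact (QuotientGroup.eq_one_iff _).symm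
  let e : ↥M ⧸ (pPrimeCore p G).subgroupOf M ≃* ↥R := (QuotientGroup.quotientMulEquivOfEq hker).trans
    (QuotientGroup.quotientKerEquivOfSurjective f hf)
  have hquot : IsPGroup p (↥M ⧸ (pPrimeCore p G).subgroupOf M) := hRp.of_equiv e.symm
  have hfr : (frattini (↥M ⧸ (pPrimeCore p G).subgroupOf M)).map e.toMonoidHom = frattini ↥R :=
    CfsgLib.PGroup.map_frattini_eq hquot e.toMonoidHom e.surjective
  set T := ((frattini (↥M ⧸ (pPrimeCore p G).subgroupOf M)).comap
    (QuotientGroup.mk' ((pPrimeCore p G).subgroupOf M))).map M.subtype with hT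
  set ΦR := (frattini ↥R).map R.subtype with hΦ
  haveI : ΦR.Normal := by
    haveI : (frattini ↥R).Characteristic := frattini_characteristic
    infer_instance
  have hTiff : ∀ x ∈ M, x ∈ T ↔ q x ∈ ΦR := by
    intro x hx
    constructor
    · rintro ⟨m, hm, rfl⟩
      refine ⟨e (QuotientGroup.mk' _ m), ?_, rfl⟩
      rw [← hfr]
      exact ⟨_, hm, rfl⟩
    · rintro ⟨r, hr, hrx⟩
      refine ⟨⟨x, hx⟩, ?_, rfl⟩
      rw [← hfr] at hr
      obtain ⟨y, hy, rfl⟩ := hr
      have hy' : y = QuotientGroup.mk' _ (⟨x, hx⟩ : M) := e.injective (Subtype.ext hrx)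
      rw [hy'] at hy
      exact hy
  have hcondiff : (∀ x ∈ M, g * x * g⁻¹ * x⁻¹ ∈ T) ↔ ∀ r ∈ R, q g * r * (q g)⁻¹ * r⁻¹ ∈ ΦR := by
    have hmem : ∀ x ∈ M, g * x * g⁻¹ * x⁻¹ ∈ M := fun x hx =>
      M.mul_mem (Subgroup.Normal.conj_mem inferInstance x hx g) (M.inv_mem hx)
    constructor
    · intro h r hr
      obtain ⟨x, rfl⟩ := QuotientGroup.mk'_surjective (pPrimeCore p G) r
      have h2 := (hTiff _ (hmem x hr)).mp (h x hr)
      simpa only [map_mul, map_inv] using h2
    · intro h x hx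
      rw [hTiff _ (hmem x hx)]
      simpa only [map_mul, map_inv] using h (q x) hx
  refine hcondiff.trans ⟨fun h => ?_, fun hg r hr => ?_⟩
  · -- the elements acting trivially on `R / Φ(R)`
    let S : Subgroup (G ⧸ pPrimeCore p G) :=
      { carrier := {y | ∀ r ∈ R, y * r * y⁻¹ * r⁻¹ ∈ ΦR}
        mul_mem' := by
          intro a b ha hb r hr
          have h1 := mul_mem (Subgroup.Normal.conj_mem (inferInstance : ΦR.Normal) _ (hb r hr) a)
            (ha r hr)
          simpa [mul_assoc] using h1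
        one_mem' := by intro r _; simp
        inv_mem' := by
          intro a ha r hr
          have h1 := Subgroup.Normal.conj_mem (inferInstance : ΦR.Normal) _ (inv_mem (ha r hr)) a⁻¹
          simpa [mul_assoc] using h1 }
    haveI hS : S.Normal := ⟨fun y hy k r hr => by
      have h1 := Subgroup.Normal.conj_mem (inferInstance : ΦR.Normal) _
        (hy (k⁻¹ * r * k) (by
          simpa using Subgroup.Normal.conj_mem (inferInstance : R.Normal) r hr k⁻¹)) k
      simpa [mul_assoc] using h1⟩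
    have hSp : IsPGroup p ↥S := by
      rw [IsPGroup.iff_card]
      refine ⟨(Nat.card ↥S).primeFactorsList.length, Nat.eq_prime_pow_of_unique_prime_dvd
        Nat.card_pos.ne' fun {l} hl hd => ?_⟩
      by_contra hlp
      haveI : Fact l.Prime := ⟨hl⟩
      obtain ⟨y, hy⟩ := exists_prime_orderOf_dvd_card' l hd
      set A := Subgroup.zpowers (y : G ⧸ pPrimeCore p G) with hA
      have hcardA : Nat.card ↥A = l := by rw [hA, Nat.card_zpowers, Subgroup.orderOf_coe, hy]
      obtain ⟨n, hn⟩ := IsPGroup.iff_card.mp hRp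
      have hcop : (Nat.card ↥A).Coprime (Nat.card ↥R) := by
        rw [hcardA, hn]
        exact ((Nat.coprime_primes hl Fact.out).mpr hlp).pow_right n
      have hcomm : ⁅R, A⁆ ≤ ΦR := by
        rw [Subgroup.commutator_le]
        intro r hr a ha
        have haS : a ∈ S := Subgroup.zpowers_le.mpr y.2 ha
        have h1 := inv_mem (haS r hr)
        rw [commutatorElement_def]
        simpa [mul_assoc] using h1
      have hcent := CfsgLib.Coprime.le_centralizer_of_frattini Subgroup.le_normalizer_of_normal hcop hcomm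
      have hyR : (y : G ⧸ pPrimeCore p G) ∈ R := CfsgLib.Constrained.centralizer_pCore_quotient_le hG
        (Subgroup.mem_centralizer_iff.mpr fun r hr => (Subgroup.mem_centralizer_iff.mp (hcent hr) _
          (Subgroup.mem_zpowers _)).symm)
      have hle : Nat.card ↥A ∣ Nat.card ↥R :=
        Subgroup.card_dvd_of_le (Subgroup.zpowers_le.mpr hyR)
      have := Nat.Coprime.eq_one_of_dvd hcop hle
      exact hl.ne_one (hcardA ▸ this)
    exact CfsgLib.Constrained.le_pCore hS hSp h
  · refine ⟨(⟨q g, hg⟩ : R) * ⟨r, hr⟩ * (⟨q g, hg⟩ : R)⁻¹ * (⟨r, hr⟩ : R)⁻¹, ?_, rfl⟩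
    have := CfsgLib.PGroup.commutatorElement_mem_frattini hRp (⟨q g, hg⟩ : R) ⟨r, hr⟩
    rwa [commutatorElement_def] at this

end Cfsg.Agent.S4218
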