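import Cfsg.Statements.S4221
import Cfsg.Agent.FourTransOdd.Main

set_option autoImplicit false
open Cfsg

namespace Cfsg.Agent.S4221

/-- Let `G` be a `4`-fold transitive permutation group on a finite set of `n` points in which the pointwise stabilizer of some four distinct points has odd order. Then `n = 4` or `n = 5` with `G` the full symmetric group, or `n = 6` or `n = 7` with `G` the alternating group, or `n = 11` and `G` has order `7920`. -/
theorem result {α : Type*} [Fintype α] [DecidableEq α] (G : Subgroup (Equiv.Perm α)) (hG : MulAction.IsMultiplyPretransitive G α 4) (x : Fin 4 ↪ α) (hodd : Odd (Nat.card (MulAction.stabilizer G x))) : ((Fintype.card α = 4 ∨ Fintype.card α = 5) ∧ G = ⊤) ∨ ((Fintype.card α = 6 ∨ Fintype.card α = 7) ∧ G = alternatingGroup α) ∨ (Fintype.card α = 11 ∧ Nat.card G = 7920) := by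
  classical
  haveI hpre : MulAction.IsPretransitive G (Fin 4 ↪ α) := hG
  have hcard : 4 ≤ Fintype.card α := by
    have := Fintype.card_le_of_embedding x
    rwa [Fintype.card_fin] at this
  have hstab : ∀ y : Fin 4 ↪ α,
      Nat.card (MulAction.stabilizer G y) = Nat.card (MulAction.stabilizer G x) := fun y => by
    obtain ⟨g, hg⟩ := MulAction.exists_smul_eq G x y
    rw [← hg]
    exact (Nat.card_congr (MulAction.stabilizerEquivStabilizer (g := g) rfl).toEquiv).symm
  have horder : Nat.card G =
      (Fintype.card α).descFactorial 4 * Nat.card (MulAction.stabilizer G x) := by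
    have h : (MulAction.stabilizer G x).index = Nat.card (Fin 4 ↪ α) :=
      @MulAction.index_stabilizer_of_transitive G _ _ _ x hpre
    rw [Nat.card_eq_fintype_card (α := Fin 4 ↪ α), Fintype.card_embedding_eq, Fintype.card_fin] at h
    rw [← h, Subgroup.index_mul_card]
  have hdvd : Nat.card G ∣ (Fintype.card α).factorial := by
    have h := Subgroup.card_subgroup_dvd_card G
    rwa [Nat.card_eq_fintype_card (α := Equiv.Perm α), Fintype.card_perm] at h
  have hperm : Nat.card (Equiv.Perm α) = (Fintype.card α).factorial := by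
    rw [Nat.card_eq_fintype_card, Fintype.card_perm]
  have hindex : ∀ m, Nat.card G * m = (Fintype.card α).factorial → G.index = m := fun m hm => by
    have h := G.card_mul_index
    rw [hperm, ← hm] at h
    exact Nat.eq_of_mul_eq_mul_left Nat.card_pos h
  obtain ⟨j, hj⟩ := hodd
  by_cases h8 : Fintype.card α < 8
  · interval_cases hn : Fintype.card α
    · refine Or.inl ⟨Or.inl rfl, Subgroup.index_eq_one.mp (hindex 1 ?_)⟩
      have := Nat.le_of_dvd (by decide) hdvd
      rw [show Nat.factorial 4 = 24 from rfl, horder, show Nat.descFactorial 4 4 = 24 from rfl] at *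
      omega
    · refine Or.inl ⟨Or.inr rfl, Subgroup.index_eq_one.mp (hindex 1 ?_)⟩
      have := Nat.le_of_dvd (by decide) hdvd
      rw [show Nat.factorial 5 = 120 from rfl, horder, show Nat.descFactorial 5 4 = 120 from rfl] at *
      omega
    · have : Nontrivial α := Fintype.one_lt_card_iff_nontrivial.mp (by omega)
      refine Or.inr (Or.inl ⟨Or.inl rfl, Equiv.Perm.eq_alternatingGroup_of_index_eq_two (hindex 2 ?_)⟩)
      have := Nat.le_of_dvd (by decide) hdvd
      rw [show Nat.factorial 6 = 720 from rfl, horder, show Nat.descFactorial 6 4 = 360 from rfl] at *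
      omega
    · have : Nontrivial α := Fintype.one_lt_card_iff_nontrivial.mp (by omega)
      refine Or.inr (Or.inl ⟨Or.inr rfl, Equiv.Perm.eq_alternatingGroup_of_index_eq_two (hindex 2 ?_)⟩)
      have hle := Nat.le_of_dvd (by decide) hdvd
      have hne : j ≠ 0 := by
        intro h0
        have hs : ∀ y : Fin 4 ↪ α, MulAction.stabilizer G y = ⊥ := fun y =>
          Subgroup.eq_bot_of_card_le _ (by rw [hstab y, hj, h0]; norm_num)
        have := CfsgLib.SharplyTransitive.degree_four
          (CfsgLib.SharplyTransitive.sharp_of_subgroup G 4 hs) (by omega)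
        omega
      rw [show Nat.factorial 7 = 5040 from rfl, show Nat.descFactorial 7 4 = 840 from rfl] at *
      rw [horder] at hdvd hle ⊢
      have hj' : j = 1 ∨ j = 2 := by omega
      rcases hj' with rfl | rfl
      · rw [hj]; norm_num
      · rw [hj] at hdvd; norm_num at hdvd
  refine Or.inr (Or.inr ?_)
  have hH : CfsgLib.FourTransOdd.Hyp G α := by
    refine ⟨fun {a b c d a' b' c' d'} h h' => ?_, fun {a b c d} h g hg => ?_, fun g hg => ?_⟩
    · obtain ⟨g, hg⟩ := MulAction.exists_smul_eq G
        (CfsgLib.SharplyTransitive.emb4 a b c d h.ab h.ac h.ad h.bc h.bd h.cd)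
        (CfsgLib.SharplyTransitive.emb4 a' b' c' d' h'.ab h'.ac h'.ad h'.bc h'.bd h'.cd)
      exact ⟨g, DFunLike.congr_fun hg 0, DFunLike.congr_fun hg 1, DFunLike.congr_fun hg 2,
        DFunLike.congr_fun hg 3⟩
    · obtain ⟨ga, gb, gc, gd⟩ := CfsgLib.FourTransOdd.mem_Q4.mp hg
      set e := CfsgLib.SharplyTransitive.emb4 a b c d h.ab h.ac h.ad h.bc h.bd h.cd
      have hm : g ∈ MulAction.stabilizer G e := by
        refine MulAction.mem_stabilizer_iff.mpr (Function.Embedding.ext fun i => ?_)
        fin_cases i <;> assumption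
      exact Odd.of_dvd_nat ⟨j, (hstab e).trans hj⟩ (Subgroup.orderOf_dvd_natCard _ hm)
    · exact Subtype.ext (Equiv.ext hg)
  obtain ⟨h11, hG⟩ := hH.degree_eleven (by rw [Nat.card_eq_fintype_card]; omega)
  exact ⟨by rwa [Nat.card_eq_fintype_card] at h11, hG⟩

end Cfsg.Agent.S4221
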