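import Cfsg.Statements.S4222

set_option autoImplicit false
open Cfsg

namespace Cfsg.Agent.S4222


/-- If a normal subgroup `N` of a finite group is complete (its centre is trivial and every automorphism of `N` is inner), then the group is the internal direct product of `N` and the centralizer of `N`: the centralizer is a complement to `N`. -/
theorem result {T : Type*} [Group T] [Finite T] (N : Subgroup T) [N.Normal] (hz : Subgroup.center ↥N = ⊥) (ha : Function.Surjective (MulAut.conj : ↥N →* MulAut ↥N)) : (Subgroup.centralizer (N : Set T)).IsComplement' N := by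
  refine Subgroup.isComplement'_of_disjoint_and_mul_eq_univ ?_ ?_
  · rw [disjoint_iff, eq_bot_iff]
    rintro x ⟨hx, hxN⟩
    have h1 : (⟨x, hxN⟩ : N) ∈ Subgroup.center N :=
      Subgroup.mem_center_iff.2 fun y => Subtype.ext ((Subgroup.mem_centralizer_iff.1 hx) y y.2)
    rw [hz, Subgroup.mem_bot] at h1
    exact Subgroup.mem_bot.2 (congrArg Subtype.val h1)
  · rw [Set.eq_univ_iff_forall]
    intro g
    obtain ⟨n, hn⟩ := ha (MulAut.conjNormal g)
    refine ⟨g * (n : T)⁻¹, ?_, n, n.2, by group⟩
    rw [SetLike.mem_coe, Subgroup.mem_centralizer_iff]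
    intro m hm
    have hm' : (n : T)⁻¹ * m * n ∈ N :=
      by simpa using ‹N.Normal›.conj_mem m hm (n : T)⁻¹
    have h1 := congrArg (fun e : MulAut N => ((e ⟨(n : T)⁻¹ * m * n, hm'⟩ : N) : T)) hn
    simp only [MulAut.conjNormal_apply, MulAut.conj_apply, Subgroup.coe_mul, InvMemClass.coe_inv] at h1
    have h2 : g * ((n : T)⁻¹ * m * n) * g⁻¹ = m := by rw [← h1]; group
    calc m * (g * (n : T)⁻¹) = (g * ((n : T)⁻¹ * m * n) * g⁻¹) * (g * (n : T)⁻¹) := by rw [h2]
      _ = g * (n : T)⁻¹ * m := by group

end Cfsg.Agent.S4222
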