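import Cfsg.Statements.S4227
import Mathlib
import Cfsg.Agent.Eq.Def_Local
import Cfsg.Agent.Chars.Apps.Burnside
import Cfsg.Agent.Constrained.HallHigman
import Cfsg.Agent.Constrained.PSolvable
import Cfsg.Agent.Constrained.PLength
import Cfsg.Agent.Coprime.Basic
import Cfsg.Agent.PGroup.Frattini
import Cfsg.Agent.S0635

set_option autoImplicit false
open Cfsg

namespace Cfsg.Agent.S4227

open CfsgLib.Constrained
open scoped commutatorElement

/-- A four-group permuted cyclically by `x` is trivial when every element of the coset of `x` acts quadratically. -/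
theorem eq_one_of_cycle {R : Type*} [Ring R] {x f₁ f₂ f₃ : R} (h3 : (3 : R) = 0)
    (hx : x * x + x + 1 = 0) (h1 : x * f₁ * (x * f₁) + x * f₁ + 1 = 0)
    (h2 : x * f₂ * (x * f₂) + x * f₂ + 1 = 0) (h3' : x * f₃ * (x * f₃) + x * f₃ + 1 = 0)
    (c1 : f₁ * x = x * f₂) (c2 : f₂ * x = x * f₃) (c3 : f₃ * x = x * f₁)
    (m21 : f₂ * f₁ = f₃) (m32 : f₃ * f₂ = f₁) (m13 : f₁ * f₃ = f₂) (s1 : f₁ * f₁ = 1)
    (m12 : f₁ * f₂ = f₃) : f₁ = 1 := by
  have e : ∀ (f g d : R), f * x = x * g → g * f = d → x * f * (x * f) = x * x * d := by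
    intro f g d hfg hgd
    calc x * f * (x * f) = x * (f * x) * f := by simp only [mul_assoc]
      _ = x * x * (g * f) := by rw [hfg]; simp only [mul_assoc]
      _ = _ := by rw [hgd]
  rw [e _ _ _ c1 m21] at h1
  rw [e _ _ _ c2 m32] at h2
  rw [e _ _ _ c3 m13] at h3'
  have hxx : x * x + x = -1 := eq_neg_of_add_eq_zero_left hx
  have hS : (x * x + x) * (f₁ + f₂ + f₃) + 3 = 0 := by
    calc (x * x + x) * (f₁ + f₂ + f₃) + 3
        = (x * x * f₃ + x * f₁ + 1) + (x * x * f₁ + x * f₂ + 1) + (x * x * f₂ + x * f₃ + 1) := by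
          rw [show (3 : R) = 1 + 1 + 1 by norm_num]
          simp only [add_mul, mul_add]
          abel
      _ = 0 := by rw [h1, h2, h3']; simp
  rw [hxx, h3, add_zero, neg_one_mul, neg_eq_zero] at hS
  have h4 : 1 + f₃ + f₂ = (0 : R) := by
    calc 1 + f₃ + f₂ = f₁ * (f₁ + f₂ + f₃) := by rw [mul_add, mul_add, s1, m12, m13]
      _ = 0 := by rw [hS, mul_zero]
  calc f₁ = (f₁ + f₂ + f₃) - (1 + f₃ + f₂) + 1 := by abel
    _ = 1 := by rw [hS, h4]; simp

/-- Groups of exponent dividing six without normal `3'`-subgroups have `3`-length at most one. -/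
theorem not_three_dvd {G : Type*} [Group G] [Finite G] [Group.IsSolvable G] (h6 : ∀ x : G, x ^ 6 = 1)
    (hO : pPrimeCore 3 G = ⊥) : ¬ 3 ∣ Nat.card (G ⧸ pCore 3 G) := by
  classical
  haveI : Fact (Nat.Prime 3) := ⟨Nat.prime_three⟩
  haveI : Fact (Nat.Prime 2) := ⟨Nat.prime_two⟩
  intro hdvd
  set V := pCore 3 G with hV
  haveI : V.Normal := pCore_normal 3 G
  have hVp : IsPGroup 3 V := isPGroup_pCore
  have hCV : Subgroup.centralizer (V : Set G) ≤ V := centralizer_pCore_le isPSolvable_of_isSolvable hO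
  set π := QuotientGroup.mk' V with hπ
  have hπs : Function.Surjective π := QuotientGroup.mk'_surjective V
  have hQ6 : ∀ q : G ⧸ V, q ^ 6 = 1 := fun q => by
    obtain ⟨g, rfl⟩ := hπs q
    rw [← map_pow, h6, map_one]
  haveI : Group.IsSolvable (G ⧸ V) := inferInstance
  -- no normal odd subgroup
  have hQO : pPrimeCore 2 (G ⧸ V) = ⊥ := by
    set M := pPrimeCore 2 (G ⧸ V) with hM
    have hM3 : IsPGroup 3 M := by
      rw [IsPGroup.iff_orderOf]
      intro m
      have hm : orderOf m ∣ 6 := orderOf_dvd_of_pow_eq_one (Subtype.ext (hQ6 (m : G ⧸ V)))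
      have hm2 : Nat.Coprime (orderOf m) 2 := Nat.Coprime.coprime_dvd_left (orderOf_dvd_natCard m)
        pPrimeCore_coprime
      have : orderOf m ∣ 3 := hm2.dvd_of_dvd_mul_left (by simpa using hm)
      rcases (Nat.dvd_prime Nat.prime_three).1 this with h | h
      · exact ⟨0, by rw [h, pow_zero]⟩
      · exact ⟨1, by rw [h, pow_one]⟩
    have hle : M ≤ pCore 3 (G ⧸ V) := le_pCore (pPrimeCore_normal 2 _) hM3
    exact le_bot_iff.1 (hle.trans (le_of_eq pCore_quotient_pCore))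
  set E := pCore 2 (G ⧸ V) with hE
  have hE2 : ∀ a ∈ E, a * a = 1 := by
    intro a ha
    obtain ⟨k, hk⟩ := IsPGroup.iff_orderOf.1 (isPGroup_pCore (p := 2) (G := G ⧸ V)) ⟨a, ha⟩
    rw [Subgroup.orderOf_mk] at hk
    have h6' : 2 ^ k ∣ 6 := hk ▸ orderOf_dvd_of_pow_eq_one (hQ6 a)
    have : orderOf a ∣ 2 := by
      rw [hk]
      rcases k with _ | _ | k
      · simp
      · simp
      · exfalso
        have : 4 ∣ 6 := (pow_dvd_pow 2 (by omega : 2 ≤ k + 2)).trans h6'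
        omega
    rw [← sq]
    exact orderOf_dvd_iff_pow_eq_one.1 this
  have hEc : ∀ a ∈ E, ∀ b ∈ E, a * b = b * a := fun a ha b hb => by
    have h1 := hE2 _ (mul_mem ha hb)
    have ha' : a⁻¹ = a := inv_eq_of_mul_eq_one_right (hE2 a ha)
    have hb' : b⁻¹ = b := inv_eq_of_mul_eq_one_right (hE2 b hb)
    calc a * b = (a * b)⁻¹ := (inv_eq_of_mul_eq_one_right h1).symm
      _ = b * a := by rw [mul_inv_rev, ha', hb']
  have hCE : Subgroup.centralizer (E : Set (G ⧸ V)) ≤ E :=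
    centralizer_pCore_le isPSolvable_of_isSolvable hQO
  obtain ⟨x, hx⟩ := exists_prime_orderOf_dvd_card' 3 hdvd
  have hx3 : x ^ 3 = 1 := hx ▸ pow_orderOf_eq_one x
  have hxE : x ∉ E := fun h => by
    have h1 := orderOf_dvd_of_pow_eq_one (show x ^ 2 = 1 by rw [sq]; exact hE2 x h)
    rw [hx] at h1
    omega
  obtain ⟨e, he, hex⟩ : ∃ e ∈ E, e * x ≠ x * e := by
    by_contra hcon
    push Not at hcon
    exact hxE (hCE (Subgroup.mem_centralizer_iff.2 fun e he => hcon e he))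
  haveI hEn : E.Normal := pCore_normal 2 _
  -- the three conjugates
  set f₁ := e⁻¹ * (x⁻¹ * e * x) with hf₁
  set f₂ := x⁻¹ * f₁ * x with hf₂
  set f₃ := x⁻¹ * f₂ * x with hf₃
  have hconj : ∀ a ∈ E, x⁻¹ * a * x ∈ E := fun a ha => by simpa using hEn.conj_mem a ha x⁻¹
  have he1 : f₁ ∈ E := mul_mem (inv_mem he) (hconj e he)
  have he2 : f₂ ∈ E := hconj _ he1
  have he3 : f₃ ∈ E := hconj _ he2
  have hf1ne : f₁ ≠ 1 := fun h => hex (by
    rw [hf₁, inv_mul_eq_one] at h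
    calc e * x = x * (x⁻¹ * e * x) := by group
      _ = x * e := by rw [← h])
  have hxxx : x * x * x = 1 := by rw [← hx3, pow_succ, sq]
  have hxxx' : x⁻¹ * x⁻¹ * x⁻¹ = 1 := by rw [← mul_inv_rev, ← mul_inv_rev, ← mul_assoc, hxxx, inv_one]
  have hc3 : x⁻¹ * f₃ * x = f₁ := by
    calc x⁻¹ * f₃ * x = (x⁻¹ * x⁻¹ * x⁻¹) * f₁ * (x * x * x) := by
          rw [hf₃, hf₂]; simp only [mul_assoc]
      _ = f₁ := by rw [hxxx, hxxx', one_mul, mul_one]
  have hprod : f₁ * f₂ * f₃ = 1 := by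
    calc f₁ * f₂ * f₃ = e⁻¹ * ((x⁻¹ * x⁻¹ * x⁻¹) * e * (x * x * x)) := by
          rw [hf₃, hf₂, hf₁]; group
      _ = 1 := by rw [hxxx, hxxx', one_mul, mul_one, inv_mul_cancel]
  have hinv : ∀ a ∈ E, a⁻¹ = a := fun a ha => inv_eq_of_mul_eq_one_right (hE2 a ha)
  have m12 : f₁ * f₂ = f₃ := by rw [← hinv f₃ he3]; exact eq_inv_of_mul_eq_one_left hprod
  have m21 : f₂ * f₁ = f₃ := (hEc _ he2 _ he1).trans m12
  have m13 : f₁ * f₃ = f₂ := by rw [← m12, ← mul_assoc, hE2 f₁ he1, one_mul]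
  have m32 : f₃ * f₂ = f₁ := by rw [← m12, mul_assoc, hE2 f₂ he2, mul_one]
  -- the action on the Frattini quotient of `V`
  set Φ := frattini ↥V with hΦ
  haveI : Φ.Normal := inferInstance
  let cV : G →* MulAut V := MulAut.conjNormal
  have hchar : ∀ g : G, Φ.map (cV g).toMonoidHom = Φ := fun g =>
    Subgroup.characteristic_iff_map_eq.mp frattini_characteristic (cV g)
  have hWc : ∀ a b : ↥V ⧸ Φ, a * b = b * a := CfsgLib.PGroup.frattini_quotient_comm hVp
  letI : CommGroup (↥V ⧸ Φ) := { (inferInstance : Group (↥V ⧸ Φ)) with mul_comm := hWc }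
  let β : G →* MulAut (↥V ⧸ Φ) := MonoidHom.mk'
    (fun g => QuotientGroup.congr Φ Φ (cV g) (hchar g)) fun a b => by
      ext w
      obtain ⟨v, rfl⟩ := QuotientGroup.mk_surjective w
      show ((cV (a * b) v : ↥V) : ↥V ⧸ Φ) = ((cV a (cV b v) : ↥V) : ↥V ⧸ Φ)
      rw [map_mul]
      rfl
  have hβ : ∀ (g : G) (v : ↥V), β g (v : ↥V ⧸ Φ) = ((cV g v : ↥V) : ↥V ⧸ Φ) := fun g v => rfl
  let ψ : G →* AddMonoid.End (Additive (↥V ⧸ Φ)) :=
    { toFun := fun g => MonoidHom.toAdditive (β g).toMonoidHom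
      map_one' := AddMonoidHom.ext fun w => by
        show Additive.ofMul (β 1 w.toMul) = w
        rw [map_one]
        rfl
      map_mul' := fun a b => AddMonoidHom.ext fun w => by
        show Additive.ofMul (β (a * b) w.toMul) = Additive.ofMul (β a (β b w.toMul))
        rw [map_mul]
        rfl }
  have hψV : ∀ v ∈ V, ψ v = 1 := by
    intro v hv
    refine AddMonoidHom.ext fun w => ?_
    obtain ⟨u, hu⟩ := QuotientGroup.mk_surjective w.toMul
    show Additive.ofMul (β v w.toMul) = w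
    rw [← hu, hβ]
    refine (congrArg Additive.ofMul ?_).trans (congrArg Additive.ofMul hu)
    have : cV v u = (⟨v, hv⟩ : ↥V) * u * (⟨v, hv⟩ : ↥V)⁻¹ := Subtype.ext (by simp [cV])
    rw [this, QuotientGroup.mk_mul, QuotientGroup.mk_mul, hWc (_ : ↥V ⧸ Φ), QuotientGroup.mk_inv,
      inv_mul_cancel_left]
  let ρ : G ⧸ V →* AddMonoid.End (Additive (↥V ⧸ Φ)) := QuotientGroup.lift V ψ hψV
  have hρ : ∀ g : G, ρ (π g) = ψ g := fun g => rfl
  -- elements of order dividing three act quadratically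
  have hquad : ∀ q : G ⧸ V, q ^ 3 = 1 → ρ q * ρ q + ρ q + 1 = 0 := by
    intro q hq
    obtain ⟨w, rfl⟩ := hπs q
    have hone : ∀ g : G, π g ^ 3 = 1 → g ^ 3 = 1 := by
      intro g hg
      have hgV : g ^ 3 ∈ V := (QuotientGroup.eq_one_iff _).1 ((map_pow π g 3).trans hg)
      obtain ⟨k, hk⟩ := IsPGroup.iff_orderOf.1 hVp ⟨g ^ 3, hgV⟩
      rw [Subgroup.orderOf_mk] at hk
      have h2 : orderOf (g ^ 3) ∣ 2 := orderOf_dvd_of_pow_eq_one (by rw [← pow_mul]; exact h6 g)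
      rw [hk] at h2
      have : 3 ^ k = 1 := Nat.Coprime.eq_one_of_dvd ((Nat.Coprime.pow_left k (by norm_num))) h2
      rw [this] at hk
      exact orderOf_eq_one_iff.1 hk
    rw [hρ]
    refine AddMonoidHom.ext fun v => ?_
    obtain ⟨u, hu⟩ := QuotientGroup.mk_surjective v.toMul
    show Additive.ofMul (β w (β w v.toMul) * β w v.toMul * v.toMul) = Additive.ofMul 1
    rw [← hu, hβ, hβ, ← QuotientGroup.mk_mul, ← QuotientGroup.mk_mul]
    refine congrArg Additive.ofMul ?_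
    rw [show cV w (cV w u) * cV w u * u = 1 from ?_, QuotientGroup.mk_one]
    apply Subtype.ext
    have h1 := hone w hq
    have h2 : (w ^ 2 * (u : G)) ^ 3 = 1 := hone _ (by
      rw [map_mul, show π (u : G) = 1 from (QuotientGroup.eq_one_iff _).2 u.2, mul_one, map_pow,
        pow_right_comm, hq, one_pow])
    have hwinv : w⁻¹ = w ^ 2 := inv_eq_of_mul_eq_one_right (by rw [← pow_succ', h1])
    calc (((cV w (cV w u) * cV w u * u : ↥V)) : G) = w ^ 2 * (u : G) * w⁻¹ * u * w⁻¹ * u := by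
          simp only [cV, Subgroup.coe_mul, MulAut.conjNormal_apply]
          rw [sq]
          group
      _ = (w ^ 2 * (u : G)) ^ 3 := by
          rw [hwinv, pow_succ (w ^ 2 * (u : G)) 2, sq (w ^ 2 * (u : G))]
          simp only [mul_assoc]
      _ = 1 := h2
  have h3W : (3 : AddMonoid.End (Additive (↥V ⧸ Φ))) = 0 := by
    rw [show (3 : AddMonoid.End (Additive (↥V ⧸ Φ))) = 1 + 1 + 1 by norm_num]
    refine AddMonoidHom.ext fun v => ?_
    show Additive.ofMul (v.toMul * v.toMul * v.toMul) = Additive.ofMul 1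
    rw [← CfsgLib.PGroup.frattini_quotient_pow hVp v.toMul]
    exact congrArg Additive.ofMul (by rw [pow_succ, pow_succ, pow_one])
  have hx3' : ∀ f g d : G ⧸ V, f * x = x * g → g * f = d → x * x * d * (x * f) = 1 → (x * f) ^ 3 = 1 := by
    intro f g d hfg hgd h
    rw [← hgd] at h
    calc (x * f) ^ 3 = x * (f * x) * f * (x * f) := by rw [pow_succ, pow_succ, pow_one]; simp only [mul_assoc]
      _ = x * x * (g * f) * (x * f) := by rw [hfg]; simp only [mul_assoc]
      _ = 1 := h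
  have c1 : f₁ * x = x * f₂ := by rw [hf₂]; group
  have c2 : f₂ * x = x * f₃ := by rw [hf₃]; group
  have c3 : f₃ * x = x * f₁ := by rw [← hc3]; group
  have hcube : ∀ f g d k : G ⧸ V, f * x = x * g → g * f = d → d * x = x * k → k * f = 1 →
      (x * f) ^ 3 = 1 := by
    intro f g d k hfg hgd hdk hkf
    refine hx3' f g d hfg hgd ?_
    calc x * x * d * (x * f) = x * x * (d * x) * f := by simp only [mul_assoc]
      _ = x ^ 3 * (k * f) := by rw [hdk, pow_succ, pow_succ, pow_one]; simp only [mul_assoc]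
      _ = 1 := by rw [hx3, hkf, mul_one]
  have hq1 := hquad _ (hcube f₁ f₂ f₃ f₁ c1 m21 c3 (hE2 f₁ he1))
  have hq2 := hquad _ (hcube f₂ f₃ f₁ f₂ c2 m32 c1 (hE2 f₂ he2))
  have hq3 := hquad _ (hcube f₃ f₁ f₂ f₃ c3 m13 c2 (hE2 f₃ he3))
  rw [map_mul] at hq1 hq2 hq3
  have hm : ∀ {a b c d : G ⧸ V}, a * b = c * d → ρ a * ρ b = ρ c * ρ d := fun h => by
    rw [← map_mul, ← map_mul, h]
  have hm' : ∀ {a b c : G ⧸ V}, a * b = c → ρ a * ρ b = ρ c := fun h => by rw [← map_mul, h]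
  have hf : ρ f₁ = 1 := eq_one_of_cycle h3W (hquad x hx3) hq1 hq2 hq3 (hm c1) (hm c2) (hm c3)
    (hm' m21) (hm' m32) (hm' m13) ((hm' (hE2 f₁ he1)).trans (map_one ρ)) (hm' m12)
  -- lift to a `3'`-element, which then centralises `V`
  obtain ⟨g, hg⟩ := hπs f₁
  set F := g ^ 3 with hFdef
  have hFπ : π F = f₁ := by
    rw [hFdef, map_pow, hg, pow_succ, sq, hE2 f₁ he1, one_mul]
  have hFo : orderOf F ∣ 2 := orderOf_dvd_of_pow_eq_one (by rw [← pow_mul]; exact h6 g)
  have hFV : Subgroup.zpowers F ≤ Subgroup.normalizer (V : Set G) := by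
    rw [Subgroup.normalizer_eq_top (H := V)]; exact le_top
  have hcop : (Nat.card (Subgroup.zpowers F)).Coprime (Nat.card V) := by
    obtain ⟨k, hk⟩ := IsPGroup.iff_card.1 hVp
    rw [hk, Nat.card_zpowers]
    exact Nat.Coprime.coprime_dvd_left hFo (Nat.Coprime.pow_right k (by norm_num))
  have hcen := CfsgLib.Coprime.le_centralizer_of_frattini hFV hcop (by
    rw [Subgroup.commutator_le]
    rintro v hv a ⟨i, rfl⟩
    have h1 : ρ (π (F ^ i)) = 1 := by
      rw [map_zpow, hFπ]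
      rcases Int.even_or_odd' i with ⟨j, rfl | rfl⟩
      · rw [zpow_mul, zpow_two, hE2 f₁ he1, one_zpow, map_one]
      · rw [zpow_add, zpow_mul, zpow_two, hE2 f₁ he1, one_zpow, one_mul, zpow_one, hf]
    rw [hρ] at h1
    have h2 : β (F ^ i) ((⟨v, hv⟩ : ↥V) : ↥V ⧸ Φ) = ((⟨v, hv⟩ : ↥V) : ↥V ⧸ Φ) :=
      congrArg Additive.toMul (DFunLike.congr_fun h1 (Additive.ofMul ((⟨v, hv⟩ : ↥V) : ↥V ⧸ Φ)))
    rw [hβ, eq_comm, QuotientGroup.eq] at h2
    refine ⟨(⟨v, hv⟩ : ↥V) * (cV (F ^ i) ⟨v, hv⟩)⁻¹, ?_, ?_⟩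
    · have h4 := (inferInstance : Φ.Normal).conj_mem _ (inv_mem h2) (⟨v, hv⟩ : ↥V)
      simpa [mul_assoc] using h4
    · simp only [cV, map_mul, map_inv, Subgroup.subtype_apply, MulAut.conjNormal_apply, commutatorElement_def]
      group)
  have hFC : F ∈ Subgroup.centralizer (V : Set G) := Subgroup.mem_centralizer_iff.2 fun v hv =>
    (Subgroup.mem_centralizer_iff.1 (hcen hv) F (Subgroup.mem_zpowers F)).symm
  exact hf1ne (hFπ ▸ (QuotientGroup.eq_one_iff F).2 (hCV hFC))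

/-- A finite group in which every element has order dividing `6` has `2`-length at most `1` and `3`-length at most `1`. -/
theorem result {G : Type*} [Group G] [Finite G] (h : ∀ x : G, x ^ 6 = 1) : Cfsg.PLengthLE 2 1 G ∧ Cfsg.PLengthLE 3 1 G := by
  haveI : Fact (Nat.Prime 3) := ⟨Nat.prime_three⟩
  haveI : Fact (Nat.Prime 2) := ⟨Nat.prime_two⟩
  haveI : Group.IsSolvable G := by
    refine CfsgLib.Chars.Apps.isSolvable_of_primeFactors_subset G Nat.prime_two Nat.prime_three fun r hr hdvd => ?_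
    haveI := Fact.mk hr
    obtain ⟨x, hx⟩ := exists_prime_orderOf_dvd_card' r hdvd
    have h1 : r ∣ 2 * 3 := hx ▸ orderOf_dvd_of_pow_eq_one (h x)
    rcases (Nat.Prime.dvd_mul hr).1 h1 with h2 | h2
    · exact Or.inl ((Nat.prime_dvd_prime_iff_eq hr Nat.prime_two).1 h2)
    · exact Or.inr ((Nat.prime_dvd_prime_iff_eq hr Nat.prime_three).1 h2)
  refine ⟨?_, ?_⟩
  · obtain ⟨S⟩ : Nonempty (Sylow 2 G) := inferInstance
    haveI : Group.IsNilpotent ↥(S : Subgroup G) := S.isPGroup'.isNilpotent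
    refine Cfsg.Agent.S0635.pLengthLE_of_class_le 1 G isPSolvable_of_isSolvable S ?_
    have h2 : ∀ a : ↥(S : Subgroup G), a * a = 1 := by
      intro a
      obtain ⟨k, hk⟩ := IsPGroup.iff_orderOf.1 S.2 a
      have h6' : 2 ^ k ∣ 6 := hk ▸ orderOf_dvd_of_pow_eq_one (Subtype.ext (h (a : G)))
      rw [← sq]
      refine orderOf_dvd_iff_pow_eq_one.1 ?_
      rw [hk]
      rcases k with _ | _ | k
      · simp
      · simp
      · exfalso
        have : 4 ∣ 6 := (pow_dvd_pow 2 (by omega : 2 ≤ k + 2)).trans h6'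
        omega
    have hcomm : ∀ a b : ↥(S : Subgroup G), a * b = b * a := fun a b => by
      calc a * b = (a * b)⁻¹ := (inv_eq_of_mul_eq_one_right (h2 _)).symm
        _ = b * a := by rw [mul_inv_rev, inv_eq_of_mul_eq_one_right (h2 a), inv_eq_of_mul_eq_one_right (h2 b)]
    exact Group.IsNilpotent.nilpotencyClass_le_one_iff.2 ⟨⟨hcomm⟩⟩
  · refine pLengthLE_succ_of_quotient (k := 0) ?_
    rw [pLengthLE_zero_iff]
    set G1 := G ⧸ pPrimeCore 3 G
    have h1 := not_three_dvd (G := G1) (fun q => by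
      obtain ⟨g, rfl⟩ := QuotientGroup.mk_surjective q
      rw [← QuotientGroup.mk_pow, h, QuotientGroup.mk_one]) pPrimeCore_quotient_pPrimeCore
    rw [← Subgroup.index_eq_card, pPrimePCore, Subgroup.index_comap_of_surjective _ (QuotientGroup.mk'_surjective _),
      Subgroup.index_eq_card]
    exact h1

end Cfsg.Agent.S4227
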