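import Cfsg.Statements.S4275

set_option autoImplicit false
open Cfsg

namespace Cfsg.Agent.S4275


/-- Let G be a transitive group of permutations of a finite set Ω, let o ∈ Ω, and let α be an automorphism of G. Then α is induced by conjugation by a permutation of Ω normalizing G if and only if the image under α of the stabilizer of o fixes some point of Ω. -/
theorem result {Ω : Type*} [Fintype Ω] (G : Subgroup (Equiv.Perm Ω)) (htr : MulAction.IsPretransitive G Ω) (o : Ω) (α : G ≃* G) : (∃ σ : Equiv.Perm Ω, σ ∈ Subgroup.normalizer (G : Set (Equiv.Perm Ω)) ∧ ∀ g : G, ((α g : G) : Equiv.Perm Ω) = σ * (g : Equiv.Perm Ω) * σ⁻¹) ↔ ∃ ω : Ω, ∀ g ∈ (MulAction.stabilizer G o).map α.toMonoidHom, g • ω = ω := by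
  constructor
  · rintro ⟨σ, -, hσ⟩
    refine ⟨σ o, ?_⟩
    rintro _ ⟨k, hk, rfl⟩
    change ((α k : G) : Equiv.Perm Ω) (σ o) = σ o
    rw [hσ k]
    simp only [Equiv.Perm.mul_apply, Equiv.Perm.coe_inv, Equiv.symm_apply_apply]
    exact congrArg σ hk
  · rintro ⟨ω, hω⟩
    have hex : ∀ u : Ω, ∃ k : G, k • o = u := fun u => MulAction.exists_smul_eq G o u
    choose k hk using hex
    have hwell : ∀ g g' : G, g • o = g' • o → α g • ω = α g' • ω := by
      intro g g' h
      have h1 : g'⁻¹ * g ∈ MulAction.stabilizer G o := by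
        rw [MulAction.mem_stabilizer_iff, mul_smul, h, inv_smul_smul]
      have h2 := hω (α (g'⁻¹ * g)) ⟨_, h1, rfl⟩
      rw [map_mul, map_inv, mul_smul, inv_smul_eq_iff] at h2
      exact h2
    let f : Ω → Ω := fun u => α (k u) • ω
    have hf : ∀ g : G, f (g • o) = α g • ω := fun g => hwell _ _ (hk _)
    have hsurj : Function.Surjective f := by
      intro v
      obtain ⟨g, hg⟩ := MulAction.exists_smul_eq G ω v
      exact ⟨α.symm g • o, by rw [hf, α.apply_symm_apply, hg]⟩
    let σ : Equiv.Perm Ω := Equiv.ofBijective f ⟨Finite.injective_iff_surjective.2 hsurj, hsurj⟩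
    have hσ : ∀ g : G, ((α g : G) : Equiv.Perm Ω) = σ * (g : Equiv.Perm Ω) * σ⁻¹ := by
      intro g
      rw [eq_mul_inv_iff_mul_eq]
      ext u
      change (α g) • f u = f (g • u)
      conv_rhs => rw [← hk u, smul_smul, hf, map_mul, mul_smul]
    refine ⟨σ, ?_, hσ⟩
    rw [Subgroup.mem_normalizer_iff]
    intro y
    constructor
    · intro hy
      rw [← hσ ⟨y, hy⟩]
      exact SetLike.coe_mem _
    · intro hy
      obtain ⟨g, hg⟩ := α.surjective ⟨_, hy⟩
      have h1 := hσ g
      rw [hg] at h1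
      have h2 : y = (g : Equiv.Perm Ω) := by
        simpa using congrArg (fun z => σ⁻¹ * z * σ) h1
      exact h2 ▸ g.2

end Cfsg.Agent.S4275
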