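import Cfsg.Statements.S4276
import Cfsg.Agent.S4275

set_option autoImplicit false
open Cfsg

namespace Cfsg.Agent.S4276

open Matrix

/-- The all-ones matrix. -/
def ones (Ω : Type*) : Matrix Ω Ω ℤ := Matrix.of fun _ _ => 1

variable {Ω : Type*} [Fintype Ω] [DecidableEq Ω]

theorem ones_mul_ones : ones Ω * ones Ω = (Fintype.card Ω : ℤ) • ones Ω := by
  ext u v
  simp [ones, Matrix.mul_apply]

theorem combo_mul (a b c d : ℤ) :
    (a • (1 : Matrix Ω Ω ℤ) + b • ones Ω) * (c • 1 + d • ones Ω) =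
      (a * c) • (1 : Matrix Ω Ω ℤ) + (a * d + b * c + b * d * Fintype.card Ω) • ones Ω := by
  simp only [add_mul, mul_add, Matrix.smul_mul, Matrix.mul_smul, one_mul, mul_one, ones_mul_ones,
    smul_smul]
  module

theorem combo_pow (a b : ℤ) (j : ℕ) :
    ∃ e : ℤ, (a • (1 : Matrix Ω Ω ℤ) + b • ones Ω) ^ j = (a ^ j) • 1 + e • ones Ω := by
  induction j with
  | zero => exact ⟨0, by simp⟩
  | succ j ih =>
    obtain ⟨e, he⟩ := ih
    exact ⟨_, by rw [pow_succ, he, combo_mul, pow_succ]⟩

theorem combo_inj {x y : Ω} (hxy : x ≠ y) {a b c d : ℤ}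
    (h : a • (1 : Matrix Ω Ω ℤ) + b • ones Ω = c • 1 + d • ones Ω) : a = c ∧ b = d := by
  have h1 := congrFun (congrFun h x) y
  have h2 := congrFun (congrFun h x) x
  simp only [Matrix.add_apply, Matrix.smul_apply, Matrix.one_apply, ones, Matrix.of_apply,
    smul_eq_mul, if_neg hxy, if_pos, mul_zero, mul_one, zero_add] at h1 h2
  exact ⟨by linarith, h1⟩

theorem combo_of_invariant {H : Type*} [Group H] [MulAction H Ω]
    (h2 : MulAction.IsMultiplyPretransitive H Ω 2) {x y : Ω} (hxy : x ≠ y) (X : Matrix Ω Ω ℤ)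
    (hX : ∀ (g : H) u v, X (g • u) (g • v) = X u v) :
    X = (X x x - X x y) • (1 : Matrix Ω Ω ℤ) + X x y • ones Ω := by
  haveI := h2
  haveI := MulAction.isPretransitive_of_is_two_pretransitive (G := H) (α := Ω)
  ext u v
  by_cases huv : u = v
  · subst huv
    obtain ⟨g, rfl⟩ := MulAction.exists_smul_eq H x u
    simp only [Matrix.add_apply, Matrix.smul_apply, Matrix.one_apply, ones, Matrix.of_apply,
      smul_eq_mul, if_pos, mul_one, hX]
    ring
  · obtain ⟨g, hg1, hg2⟩ := (MulAction.is_two_pretransitive_iff.1 h2) hxy huv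
    rw [← hg1, ← hg2] at huv ⊢
    simp only [Matrix.add_apply, Matrix.smul_apply, Matrix.one_apply, ones, Matrix.of_apply,
      smul_eq_mul, if_neg huv, mul_one, mul_zero, zero_add, hX]

theorem sum_row_combo (a b : ℤ) (u : Ω) :
    ∑ v, (a • (1 : Matrix Ω Ω ℤ) + b • ones Ω) u v = a + Fintype.card Ω * b := by
  simp only [Matrix.add_apply, Matrix.smul_apply, Matrix.one_apply, ones, Matrix.of_apply,
      smul_eq_mul, mul_one, Finset.sum_add_distrib, mul_ite, mul_zero, Finset.sum_ite_eq,
      Finset.mem_univ, if_pos, Finset.sum_const, Finset.card_univ, nsmul_eq_mul]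

/-- The arithmetic at the end. -/
theorem arith {n k l : ℤ} {m : ℕ} (hm : Odd m) (hn : 2 ≤ n) (hk : 1 ≤ k) (hkn : k < n)
    (hl : l * (n - 1) = k * (k - 1)) (hco : IsCoprime k n) {a : ℤ} (ha2 : a ^ 2 = (k - l) ^ m)
    (ha : n ∣ a - k ^ m) : k = 1 ∨ k = n - 1 := by
  have hl0 : 0 ≤ l := by
    by_contra h
    push Not at h
    nlinarith
  have hs : 1 ≤ k - l := by
    by_contra h
    push Not at h
    nlinarith
  obtain ⟨j, rfl⟩ := hm
  obtain ⟨t, rfl⟩ : (k - l) ^ j ∣ a := by
    rw [← Int.pow_dvd_pow_iff two_ne_zero, ha2]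
    exact ⟨k - l, by ring⟩
  have ht : t ^ 2 = k - l := by
    have h1 : ((k - l) ^ j) ^ 2 * t ^ 2 = ((k - l) ^ j) ^ 2 * (k - l) := by
      linear_combination ha2
    exact mul_left_cancel₀ (pow_ne_zero _ (pow_ne_zero _ (by omega))) h1
  have hsk : n ∣ (k - l) ^ j - (k ^ 2) ^ j := by
    refine dvd_trans ?_ (sub_dvd_pow_sub_pow _ _ j)
    exact ⟨-l, by linear_combination hl⟩
  have htk : n ∣ t - k := by
    have h1 : n ∣ (k ^ 2) ^ j * (t - k) := by
      have h2 : (k ^ 2) ^ j * (t - k) =
          ((k - l) ^ j * t - k ^ (2 * j + 1)) - ((k - l) ^ j - (k ^ 2) ^ j) * t := by ring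
      rw [h2]
      exact dvd_sub ha (hsk.mul_right t)
    exact ((hco.pow_left.pow_left).symm).dvd_of_dvd_mul_left h1
  rcases le_or_gt 0 t with h0 | h0
  · left
    have htle : t ≤ k := by nlinarith
    have htk' : t = k := by
      obtain ⟨c, hc⟩ := htk
      have : c = 0 := by
        by_contra hc0
        rcases lt_or_gt_of_ne hc0 with hc1 | hc1 <;> nlinarith
      rw [this, mul_zero] at hc
      linarith
    subst htk'
    nlinarith
  · right
    have hu : -t ≤ k := by nlinarith
    have hsum : k - t = n := by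
      obtain ⟨c, hc⟩ := htk
      have : c = -1 := by
        by_contra hc1
        rcases lt_or_gt_of_ne hc1 with hc2 | hc2 <;> nlinarith
      rw [this] at hc
      linarith
    have hl' : l = k - t ^ 2 := by linarith
    subst hl'
    have h1 : t * (1 + t) * (k - t) = 0 := by
      rw [← hsum] at hl
      linear_combination (-1 : ℤ) * hl
    rcases mul_eq_zero.1 h1 with h2 | h2
    · rcases mul_eq_zero.1 h2 with h3 | h3 <;> omega
    · omega

theorem orbit_card {G : Subgroup (Equiv.Perm Ω)} (h2 : MulAction.IsMultiplyPretransitive G Ω 2)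
    (o : Ω) (α : MulAut G) (hα : Odd (orderOf α)) (ω : Ω)
    (hk : (Nat.card (MulAction.orbit ((MulAction.stabilizer G o).map α.toMonoidHom) ω)).Coprime
      (Fintype.card Ω)) :
    Nat.card (MulAction.orbit ((MulAction.stabilizer G o).map α.toMonoidHom) ω) = 1 ∨
      Nat.card (MulAction.orbit ((MulAction.stabilizer G o).map α.toMonoidHom) ω) =
        Fintype.card Ω - 1 := by
  classical
  set B := (MulAction.stabilizer G o).map α.toMonoidHom with hB
  set k := Nat.card (MulAction.orbit B ω) with hkdef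
  have hkpos : 0 < k := by
    haveI : Nonempty (MulAction.orbit B ω) := ⟨⟨ω, MulAction.mem_orbit_self ω⟩⟩
    exact Nat.card_pos
  have hkle : k ≤ Fintype.card Ω := by
    rw [hkdef, ← Nat.card_eq_fintype_card]
    exact Nat.card_le_card_of_injective Subtype.val Subtype.val_injective
  rcases Nat.lt_or_ge (Fintype.card Ω) 2 with hn | hn
  · left; omega
  have hkn : k < Fintype.card Ω := by
    rcases lt_or_eq_of_le hkle with h | h
    · exact h
    · rw [h, Nat.coprime_self] at hk; omega
  obtain ⟨x, y, hxy⟩ := Fintype.exists_pair_of_one_lt_card hn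
  haveI := h2
  haveI := MulAction.isPretransitive_of_is_two_pretransitive (G := G) (α := Ω)
  let R : Ω → Ω → Prop := fun u v => ∃ g : G, g • o = u ∧ α g • ω = v
  have hRe : ∀ (h : G) u v, R (h • u) (α h • v) ↔ R u v := by
    intro h u v
    constructor
    · rintro ⟨g, hg, hg'⟩
      exact ⟨h⁻¹ * g, by rw [mul_smul, hg, inv_smul_smul],
        by rw [map_mul, map_inv, mul_smul, hg', inv_smul_smul]⟩
    · rintro ⟨g, hg, hg'⟩
      exact ⟨h * g, by rw [mul_smul, hg], by rw [map_mul, mul_smul, hg']⟩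
  have hRo : ∀ v, R o v ↔ v ∈ MulAction.orbit B ω := by
    intro v
    constructor
    · rintro ⟨g, hg, rfl⟩
      exact ⟨⟨α g, g, hg, rfl⟩, rfl⟩
    · rintro ⟨⟨_, g, hg, rfl⟩, rfl⟩
      exact ⟨g, hg, rfl⟩
  let M : Matrix Ω Ω ℤ := Matrix.of fun u v => if R u v then 1 else 0
  have hMe : ∀ (h : G) u v, M (h • u) (α h • v) = M u v := fun h u v => by simp [M, hRe]
  have hrow : ∀ u, ∑ v, M u v = k := by
    intro u
    obtain ⟨g, rfl⟩ := MulAction.exists_smul_eq G o u
    rw [← Equiv.sum_comp (MulAction.toPerm (α g))]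
    simp only [MulAction.toPerm_apply, hMe]
    simp only [M, Matrix.of_apply]
    rw [Finset.sum_boole, Nat.cast_inj]
    rw [hkdef, ← Nat.card_eq_finsetCard]
    exact Nat.card_congr (Equiv.subtypeEquivRight fun v => by simp [hRo])
  have hcol : ∀ v, ∑ u, M u v = k := by
    have hconst : ∀ v, ∑ u, M u v = ∑ u, M u x := by
      intro v
      obtain ⟨g, hg⟩ := MulAction.exists_smul_eq G x v
      rw [← hg, ← Equiv.sum_comp (MulAction.toPerm (α.symm g))]
      refine Finset.sum_congr rfl fun u _ => ?_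
      have := hMe (α.symm g) u x
      rwa [MulEquiv.apply_symm_apply] at this
    have htot : (Fintype.card Ω : ℤ) * ∑ u, M u x = Fintype.card Ω * k := by
      have h1 : ∑ v, ∑ u, M u v = ∑ u, ∑ v, M u v := Finset.sum_comm
      simp only [hrow, hconst, Finset.sum_const, Finset.card_univ, nsmul_eq_mul] at h1
      exact h1
    intro v
    rw [hconst]
    exact mul_left_cancel₀ (by omega) htot
  have h01 : ∀ u v, M u v * M u v = M u v := fun u v => by by_cases h : R u v <;> simp [M, h]
  have hN : ∀ (g : G) v v', (Mᵀ * M) (g • v) (g • v') = (Mᵀ * M) v v' := by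
    intro g v v'
    simp only [Matrix.mul_apply, Matrix.transpose_apply]
    rw [← Equiv.sum_comp (MulAction.toPerm (α.symm g))]
    refine Finset.sum_congr rfl fun u _ => ?_
    have e1 := hMe (α.symm g) u v
    have e2 := hMe (α.symm g) u v'
    rw [MulEquiv.apply_symm_apply] at e1 e2
    simp only [MulAction.toPerm_apply, e1, e2]
  have hN' : ∀ (g : G) u u', (M * Mᵀ) (g • u) (g • u') = (M * Mᵀ) u u' := by
    intro g u u'
    simp only [Matrix.mul_apply, Matrix.transpose_apply]
    rw [← Equiv.sum_comp (MulAction.toPerm (α g))]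
    refine Finset.sum_congr rfl fun v _ => ?_
    simp only [MulAction.toPerm_apply, hMe]
  obtain ⟨l, hl, hNl⟩ : ∃ l : ℤ, l * ((Fintype.card Ω : ℤ) - 1) = k * ((k : ℤ) - 1) ∧
      Mᵀ * M = ((k : ℤ) - l) • 1 + l • ones Ω := by
    have e := combo_of_invariant h2 hxy _ hN
    have hd : (Mᵀ * M) x x = k := by simp [Matrix.mul_apply, h01, hcol]
    rw [hd] at e
    refine ⟨_, ?_, e⟩
    have hs : ∑ v, (Mᵀ * M) x v = k * k := by
      simp only [Matrix.mul_apply, Matrix.transpose_apply]
      rw [Finset.sum_comm]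
      simp [← Finset.mul_sum, hrow, ← Finset.sum_mul, hcol]
    rw [e, sum_row_combo] at hs
    linarith
  have hNl' : M * Mᵀ = ((k : ℤ) - l) • 1 + l • ones Ω := by
    have e := combo_of_invariant h2 hxy _ hN'
    have hd : (M * Mᵀ) x x = k := by simp [Matrix.mul_apply, h01, hrow]
    rw [hd] at e
    have hs : ∑ v, (M * Mᵀ) x v = k * k := by
      simp only [Matrix.mul_apply, Matrix.transpose_apply]
      rw [Finset.sum_comm]
      simp [← Finset.mul_sum, hrow, ← Finset.sum_mul, hcol]
    rw [e, sum_row_combo] at hs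
    have heq : (M * Mᵀ) x y = l := by
      have hne : ((Fintype.card Ω : ℤ) - 1) ≠ 0 := by omega
      exact mul_right_cancel₀ hne (by linarith)
    rw [heq] at e
    exact e
  have hpowe : ∀ (j : ℕ) (g : G) u v, (M ^ j) (g • u) ((α ^ j) g • v) = (M ^ j) u v := by
    intro j
    induction j with
    | zero => intro g u v; simp [Matrix.one_apply]
    | succ j ih =>
      intro g u v
      rw [pow_succ, Matrix.mul_apply, Matrix.mul_apply, pow_succ' α, MulAut.mul_apply,
        ← Equiv.sum_comp (MulAction.toPerm ((α ^ j) g))]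
      refine Finset.sum_congr rfl fun w _ => ?_
      simp only [MulAction.toPerm_apply, ih, hMe]
  set m := orderOf α with hm
  have hX : ∀ (g : G) u v, (M ^ m) (g • u) (g • v) = (M ^ m) u v := by
    intro g u v
    have := hpowe m g u v
    rwa [hm, pow_orderOf_eq_one, MulAut.one_apply, ← hm] at this
  have eX := combo_of_invariant h2 hxy _ hX
  set a := (M ^ m) x x - (M ^ m) x y with ha
  set b := (M ^ m) x y with hb
  have hXrow : ∀ j : ℕ, ∀ u, ∑ v, (M ^ j) u v = (k : ℤ) ^ j := by
    intro j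
    induction j with
    | zero => intro u; simp [Matrix.one_apply]
    | succ j ih =>
      intro u
      simp only [pow_succ, Matrix.mul_apply]
      rw [Finset.sum_comm]
      simp [← Finset.mul_sum, hrow, ← Finset.sum_mul, ih]
  have hdvd : (Fintype.card Ω : ℤ) ∣ a - (k : ℤ) ^ m := by
    have h1 := hXrow m x
    rw [eX, sum_row_combo] at h1
    exact ⟨-b, by linarith⟩
  have ha2 : a ^ 2 = ((k : ℤ) - l) ^ m := by
    obtain ⟨e, he⟩ := combo_pow (Ω := Ω) ((k : ℤ) - l) l m
    rw [← hNl', Commute.mul_pow (hNl'.trans hNl.symm : Commute M Mᵀ), ← Matrix.transpose_pow,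
      eX] at he
    have hT : (a • (1 : Matrix Ω Ω ℤ) + b • ones Ω)ᵀ = a • 1 + b • ones Ω := by
      rw [Matrix.transpose_add, Matrix.transpose_smul, Matrix.transpose_smul, Matrix.transpose_one]
      rfl
    rw [hT, combo_mul] at he
    rw [← (combo_inj hxy he).1, sq]
  have hco : IsCoprime (k : ℤ) (Fintype.card Ω : ℤ) := Int.isCoprime_iff_nat_coprime.2 (by simpa using hk)
  have hnz : (2 : ℤ) ≤ (Fintype.card Ω : ℤ) := by exact_mod_cast hn
  have hkz : (1 : ℤ) ≤ (k : ℤ) := by exact_mod_cast hkpos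
  have hknz : (k : ℤ) < (Fintype.card Ω : ℤ) := by exact_mod_cast hkn
  rcases arith hα hnz hkz hknz hl hco ha2 hdvd with h | h <;> omega


/-- Let G be a doubly transitive group of permutations of a finite set Ω of size n, let o ∈ Ω, and let α be an automorphism of G of odd order. Suppose that the image under α of the stabilizer of o has an orbit on Ω whose length k is coprime to n. Then α is induced by conjugation by a permutation of Ω normalizing G, and k = 1 or k = n − 1. -/
theorem result {Ω : Type*} [Fintype Ω] (G : Subgroup (Equiv.Perm Ω)) (h2 : MulAction.IsMultiplyPretransitive G Ω 2) (o : Ω) (α : MulAut G) (hα : Odd (orderOf α)) (ω : Ω) (hk : (Nat.card (MulAction.orbit ((MulAction.stabilizer G o).map α.toMonoidHom) ω)).Coprime (Fintype.card Ω)) : (∃ σ : Equiv.Perm Ω, σ ∈ Subgroup.normalizer (G : Set (Equiv.Perm Ω)) ∧ ∀ g : G, ((α g : G) : Equiv.Perm Ω) = σ * (g : Equiv.Perm Ω) * σ⁻¹) ∧ (Nat.card (MulAction.orbit ((MulAction.stabilizer G o).map α.toMonoidHom) ω) = 1 ∨ Nat.card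 (MulAction.orbit ((MulAction.stabilizer G o).map α.toMonoidHom) ω) = Fintype.card Ω - 1) := by
  classical
  have hcases := orbit_card h2 o α hα ω hk
  refine ⟨?_, hcases⟩
  haveI := h2
  have htr := MulAction.isPretransitive_of_is_two_pretransitive (G := G) (α := Ω)
  refine (Cfsg.Agent.S4275.result G htr o α).2 ?_
  set B := (MulAction.stabilizer G o).map α.toMonoidHom
  rcases hcases with h | h
  · refine ⟨ω, fun g hg => ?_⟩
    obtain ⟨hsub, -⟩ := Nat.card_eq_one_iff_unique.1 h
    exact congrArg Subtype.val (hsub.elim (⟨g • ω, ⟨g, hg⟩, rfl⟩ : MulAction.orbit B ω)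
      ⟨ω, MulAction.mem_orbit_self ω⟩)
  · have hc : Nat.card ↥(MulAction.orbit B ω)ᶜ = 1 := by
      rw [Nat.card_coe_set_eq, Set.ncard_compl, ← Nat.card_coe_set_eq, h, Nat.card_eq_fintype_card]
      have : 0 < Fintype.card Ω := Fintype.card_pos_iff.2 ⟨o⟩
      omega
    obtain ⟨hsub, ⟨⟨w, hw⟩⟩⟩ := Nat.card_eq_one_iff_unique.1 hc
    refine ⟨w, fun g hg => ?_⟩
    have hgw : g • w ∈ (MulAction.orbit B ω)ᶜ := by
      intro hmem
      apply hw
      have h3 := MulAction.mem_orbit_of_mem_orbit (⟨g⁻¹, inv_mem hg⟩ : B) hmem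
      change g⁻¹ • g • w ∈ MulAction.orbit B ω at h3
      rwa [inv_smul_smul] at h3
    exact congrArg Subtype.val (hsub.elim ⟨g • w, hgw⟩ ⟨w, hw⟩)

end Cfsg.Agent.S4276
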