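import Cfsg.Statements.S4277
import Cfsg.Agent.Eq.Def_KGroupFacts
import Cfsg.Agent.Perm.PrimeIndexOut

set_option autoImplicit false
open Cfsg

namespace Cfsg.Agent.S4277

/-- A case of the Schreier conjecture: if a finite simple group G has a subgroup of prime index, then the outer automorphism group of G is solvable. -/
theorem result {G : Type*} [Group G] [Finite G] [IsSimpleGroup G] (H : Subgroup G) (hH : H.index.Prime) : Group.IsSolvable (Cfsg.Out G) := by
  haveI : Fact H.index.Prime := ⟨hH⟩
  refine CfsgLib.PrimeIndexOut.isSolvable_outer H rfl ?_ (Inn G) fun g => ⟨g, rfl⟩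
  rcases (Subgroup.normalCore_normal H).eq_bot_or_eq_top with h | h
  · exact h
  · have := top_le_iff.1 (h ▸ Subgroup.normalCore_le H)
    rw [this, Subgroup.index_top] at hH
    exact absurd hH Nat.not_prime_one

end Cfsg.Agent.S4277
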