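import Cfsg.Statements.S4281
import Cfsg.Agent.OddInvol.TypeE8

set_option autoImplicit false
set_option maxHeartbeats 4000000
set_option maxRecDepth 100000
open scoped BigOperators
open Cfsg

namespace Cfsg.Agent.S4281

/-- In the Chevalley group of type E₈ over a finite field of odd order q there are exactly two conjugacy classes of involutions; the centralizer of an involution in one class has order q⁵⁶(q⁸ − 1)·∏_{i=1}^{7}(q^{2i} − 1), and in the other class q⁶⁴(q² − 1)²(q⁶ − 1)(q⁸ − 1)(q¹⁰ − 1)(q¹² − 1)(q¹⁴ − 1)(q¹⁸ − 1). -/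
theorem result {F : Type*} [Field F] [Fintype F] (hF : Odd (Fintype.card F)) : ∃ s t : ↥(Cfsg.Lie.chevE8.group F), orderOf s = 2 ∧ orderOf t = 2 ∧ ¬ IsConj s t ∧ (∀ u : ↥(Cfsg.Lie.chevE8.group F), orderOf u = 2 → IsConj u s ∨ IsConj u t) ∧ Nat.card (Subgroup.centralizer ({s} : Set ↥(Cfsg.Lie.chevE8.group F))) = Fintype.card F ^ 56 * (Fintype.card F ^ 8 - 1) * ∏ i ∈ Finset.Icc 1 7, (Fintype.card F ^ (2 * i) - 1) ∧ Nat.card (Subgroup.centralizer ({t} : Set ↥(Cfsg.Lie.chevE8.group F))) = Fintype.card F ^ 64 * (Fintype.card F ^ 2 - 1) ^ 2 * (Fintype.card F ^ 6 - 1) * (Fintype.card F ^ 8 - 1) * (Fintype.card F ^ 10 - 1) * (Fintype.card F ^ 12 - 1) * (Fintype.card F ^ 14 - 1) * (Fintype.card F ^ 18 - 1) := by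
  obtain ⟨s, t, h1, h2, h3, h4, h5, h6⟩ := CfsgLib.OddInvol.classesE8 F hF
  refine ⟨s, t, h1, h2, h3, h4, h5.trans ?_, h6.trans ?_⟩
  · have hle : ∀ k : ℕ, 1 ≤ Fintype.card F ^ k := fun k => Nat.one_le_pow _ _ Fintype.card_pos
    have hq : 1 ≤ Fintype.card F := Fintype.card_pos
    rw [show Finset.Icc 1 7 = ({1, 2, 3, 4, 5, 6, 7} : Finset ℕ) from rfl]
    simp only [Finset.prod_insert, Finset.mem_insert, Finset.mem_singleton, Nat.reduceEqDiff,
      or_self, not_false_eq_true, Finset.prod_singleton, Nat.reduceMul]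
    zify [hle, hq]
    simp only [Finset.sum_range_succ, Finset.sum_range_zero, CfsgLib.OddInvol.csE8A,
      List.getD_cons_succ, List.getD_cons_zero, List.getD_nil]
    push_cast
    ring
  · have hle : ∀ k : ℕ, 1 ≤ Fintype.card F ^ k := fun k => Nat.one_le_pow _ _ Fintype.card_pos
    have hq : 1 ≤ Fintype.card F := Fintype.card_pos
    zify [hle, hq]
    simp only [Finset.sum_range_succ, Finset.sum_range_zero, CfsgLib.OddInvol.csE8B,
      List.getD_cons_succ, List.getD_cons_zero, List.getD_nil]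
    push_cast
    ring

end Cfsg.Agent.S4281
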