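import Cfsg.Statements.S4282
import Mathlib
import Cfsg.Agent.HallHigmanB.Main
import Cfsg.Agent.HallHigmanB.Abelian
import Cfsg.Agent.PGroup.Normal

set_option autoImplicit false
open Cfsg
open scoped commutatorElement

namespace Cfsg.Agent.S4282

/-- A normal subgroup inducing only scalars. -/
theorem class_two {Q : Type*} [Group Q] [Finite Q] {q : ℕ} [Fact q.Prime] (hQ : IsPGroup q Q)
    (h : (commutator Q) ⊓ Subgroup.upperCentralSeries Q 2 ≤ Subgroup.center Q) :
    ∀ s t : Q, ⁅s, t⁆ ∈ Subgroup.center Q := by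
  intro s t
  by_contra hst
  set N := (commutator Q).map (QuotientGroup.mk' (Subgroup.center Q)) with hN
  haveI : N.Normal := (inferInstance : (commutator Q).Normal).map _ (QuotientGroup.mk'_surjective _)
  have hN1 : N ≠ ⊥ := by
    intro h0
    refine hst ((QuotientGroup.eq_one_iff _).1 ((Subgroup.eq_bot_iff_forall _).1 h0 _ ?_))
    exact Subgroup.mem_map_of_mem _
      (Subgroup.commutator_mem_commutator (Subgroup.mem_top s) (Subgroup.mem_top t))
  obtain ⟨⟨a, ha⟩, ha1⟩ := Subgroup.ne_bot_iff_exists_ne_one.1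
    (CfsgLib.PGroup.inf_center_ne_bot (hQ.to_quotient _) N hN1)
  obtain ⟨⟨b, hb, hba⟩, hac⟩ := ha
  refine ha1 (Subtype.ext ?_)
  have hb2 : b ∈ Subgroup.upperCentralSeries Q 2 := by
    rw [Subgroup.mem_upperCentralSeries_succ_iff]
    intro u
    rw [Subgroup.upperCentralSeries_one, ← QuotientGroup.eq_one_iff]
    have h1 : (QuotientGroup.mk' (Subgroup.center Q)) b * (QuotientGroup.mk' (Subgroup.center Q)) u =
        (QuotientGroup.mk' (Subgroup.center Q)) u * (QuotientGroup.mk' (Subgroup.center Q)) b := by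
      rw [hba]
      exact (Subgroup.mem_center_iff.1 hac _).symm
    show (QuotientGroup.mk' (Subgroup.center Q)) ⁅b, u⁆ = 1
    rw [map_commutatorElement, commutatorElement_eq_one_iff_commute]
    exact h1
  show (a : Q ⧸ Subgroup.center Q) = 1
  rw [← hba]
  exact (QuotientGroup.eq_one_iff _).2 (h ⟨hb, hb2⟩)

/-- The derived group and the second centre commute. -/
theorem commute_derived_upper {Q : Type*} [Group Q] :
    commutator Q ≤ Subgroup.centralizer (Subgroup.upperCentralSeries Q 2 : Set Q) := by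
  rw [commutator_def, Subgroup.commutator_le]
  intro s _ t _
  rw [Subgroup.mem_centralizer_iff]
  intro b hb
  rw [SetLike.mem_coe, Subgroup.mem_upperCentralSeries_succ_iff] at hb
  have hc : ∀ g, ∀ u, ⁅b, g⁆ * u = u * ⁅b, g⁆ := fun g u => by
    have h0 := hb g
    rw [Subgroup.upperCentralSeries_one] at h0
    exact (Subgroup.mem_center_iff.1 h0 u).symm
  have hhom : ∀ g g' : Q, ⁅b, g * g'⁆ = ⁅b, g⁆ * ⁅b, g'⁆ := fun g g' => by
    calc ⁅b, g * g'⁆ = ⁅b, g⁆ * (g * ⁅b, g'⁆ * g⁻¹) := by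
          change b * (g * g') * b⁻¹ * (g * g')⁻¹ = b * g * b⁻¹ * g⁻¹ * (g * (b * g' * b⁻¹ * g'⁻¹) * g⁻¹)
          group
      _ = _ := by rw [← hc g' g, mul_inv_cancel_right]
  have hinv : ∀ g : Q, ⁅b, g⁻¹⁆ = ⁅b, g⁆⁻¹ := fun g =>
    eq_inv_of_mul_eq_one_right (by rw [← hhom, mul_inv_cancel, commutatorElement_one_right])
  have h1 : ⁅b, ⁅s, t⁆⁆ = 1 := by
    rw [commutatorElement_def s t, hhom, hhom, hhom, hinv, hinv, hc s (⁅b, t⁆)]
    group
  exact commutatorElement_eq_one_iff_mul_comm.1 h1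

/-- A critical case behind the Hall–Higman theorem. Let p ≠ q be primes and G a finite group generated by a normal q-subgroup Q and a cyclic p-subgroup generated by x, such that the centralizer of every non-identity element of that cyclic subgroup is its product with the centre of G. Let K be an algebraically closed field of characteristic p and ρ a faithful representation of G on a nonzero finite-dimensional K-space whose restriction to Q is irreducible. If s is the least exponent with (ρ(x) − 1)^s = 0, then |⟨x⟩| − 1 ≤ s ≤ |⟨x⟩|; and if s = |⟨x⟩| − 1 then |⟨x⟩| − 1 is a power of q and Q is non-abelian. -/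
theorem result {G : Type*} [Group G] [Finite G] (p q : ℕ) [Fact p.Prime] [Fact q.Prime] (hpq : p ≠ q) (Q : Subgroup G) [Q.Normal] (hQ : IsPGroup q Q) (x : G) (hx : IsPGroup p (Subgroup.zpowers x)) (hgen : Q ⊔ Subgroup.zpowers x = ⊤) (hC : ∀ y ∈ Subgroup.zpowers x, y ≠ 1 → Subgroup.centralizer ({y} : Set G) = Subgroup.zpowers x ⊔ Subgroup.center G) {K : Type*} [Field K] [IsAlgClosed K] [CharP K p] {V : Type*} [AddCommGroup V] [Module K V] [FiniteDimensional K V] [Nontrivial V] (ρ : Representation K G V) (hfaith : Function.Injective ρ) (hirr : ∀ W : Submodule K V, (∀ g ∈ Q, Submodule.map (ρ g) W ≤ W) → W = ⊥ ∨ W = ⊤) (s : ℕ) (hs : (ρ x - 1) ^ s = 0) (hmin : ∀ k < s, (ρ x - 1) ^ k ≠ 0) : Nat.card (Subgroup.zpowers x) - 1 ≤ s ∧ s ≤ Nat.card (Subgroup.zpowers x) ∧ (s = Nat.card (Subgroup.zpowers x) - 1 → (∃ b : ℕ, Nat.card (Subgroup.zpowers x) - 1 = q ^ b) ∧ ¬ IsMulCommutative Q) := by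
  classical
  obtain ⟨n, hn⟩ := IsPGroup.iff_card.1 hx
  rw [Nat.card_zpowers] at hn
  rw [Nat.card_zpowers, hn]
  have hP0 : 0 < p ^ n := pow_pos (Fact.out : p.Prime).pos n
  have hxP : x ^ (p ^ n) = 1 := hn ▸ pow_orderOf_eq_one x
  have hT : (ρ x) ^ (p ^ n) = 1 := by rw [← map_pow, hxP, map_one]
  have hsP : s ≤ p ^ n := by
    by_contra h
    refine hmin _ (not_le.1 h) ?_
    rw [CfsgLib.HallHigmanB.sub_one_pow_char_pow, hT, sub_self]
  have hs1 : 1 ≤ s := by
    rcases Nat.eq_zero_or_pos s with rfl | h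
    · rw [pow_zero] at hs
      exact absurd hs one_ne_zero
    · exact h
  rcases Nat.eq_zero_or_pos n with rfl | hn1
  · rw [pow_zero] at hsP ⊢
    exact ⟨by omega, hsP, fun h => absurd h (by omega)⟩
  have hinv : ∀ a ∈ Q, MulAut.conj x a ∈ Q := fun a ha => ‹Q.Normal›.conj_mem a ha x
  set σ := CfsgLib.HallHigmanB.restrictAut (MulAut.conj x) Q hinv with hσdef
  have hσi : ∀ (i : ℕ) (a : Q), (((σ ^ i) a : Q) : G) = x ^ i * a * (x ^ i)⁻¹ := fun i a => by
    rw [hσdef, CfsgLib.HallHigmanB.restrictAut_pow_coe, ← map_pow, MulAut.conj_apply]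
  have hσ : σ ^ (p ^ n) = 1 := MulEquiv.ext fun a => Subtype.ext (by
    rw [hσi, hxP, one_mul, inv_one, mul_one]
    rfl)
  let L : Q →* Module.End K V := ρ.comp Q.subtype
  have hinj : Function.Injective L := fun a b h => Subtype.ext (hfaith h)
  have hTL : ∀ a, ρ x * L a = L (σ a) * ρ x := fun a => by
    show ρ x * ρ (a : G) = ρ ((σ a : Q) : G) * ρ x
    have h1 := hσi 1 a
    rw [pow_one, pow_one] at h1
    rw [← map_mul, ← map_mul, h1, inv_mul_cancel_right]
  have hsimp : ∀ U : Submodule K V, (∀ a, U.map (L a) ≤ U) → U = ⊥ ∨ U = ⊤ :=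
    fun U hU => hirr U fun g hg => hU ⟨g, hg⟩
  have hfixed : ∀ a ∈ Subgroup.center Q, ∀ i : ℕ, (σ ^ i) a = a := by
    intro a ha i
    obtain ⟨c, hc⟩ := CfsgLib.HallHigmanB.exists_scalar L hsimp (L a) fun b => by
      rw [← map_mul, ← map_mul, Subgroup.mem_center_iff.1 ha b]
    have h1 : σ a = a := Subtype.ext (hfaith (by
      show ρ ((σ a : Q) : G) = ρ (a : G)
      have h2 := hTL a
      have h3 : ρ x * ρ (x⁻¹) = 1 := by rw [← map_mul, mul_inv_cancel, map_one]
      calc ρ ((σ a : Q) : G) = L (σ a) * (ρ x * ρ x⁻¹) := by rw [h3, mul_one]; rfl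
        _ = ρ x * L a * ρ x⁻¹ := by rw [← mul_assoc, h2]
        _ = L a := by rw [hc, mul_smul_comm, mul_one, smul_mul_assoc, h3]))
    induction i with
    | zero => simp
    | succ i ih => rw [pow_succ, MulAut.mul_apply, h1, ih]
  -- nontrivial powers of `x` fix only central elements
  have hCfix : ∀ i, 0 < i → i < p ^ n → ∀ a : Q, (σ ^ i) a = a → a ∈ Subgroup.center Q := by
    intro i hi0 hiP a ha
    have hxi : x ^ i ≠ 1 := fun h => absurd (Nat.le_of_dvd hi0 (hn ▸ orderOf_dvd_of_pow_eq_one h)) (by omega)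
    have hmem : (a : G) ∈ Subgroup.centralizer ({x ^ i} : Set G) := by
      rw [Subgroup.mem_centralizer_singleton_iff]
      have h1 := congrArg Subtype.val ha
      rw [hσi] at h1
      calc (a : G) * x ^ i = x ^ i * a * (x ^ i)⁻¹ * x ^ i := by rw [h1]
        _ = x ^ i * a := inv_mul_cancel_right _ _
    rw [hC _ (Subgroup.npow_mem_zpowers x i) hxi, Subgroup.mem_sup_of_normal_right] at hmem
    obtain ⟨u, hu, z, hz, huz⟩ := hmem
    obtain ⟨j, rfl⟩ := Subgroup.mem_zpowers_iff.1 hu
    have hcen : (a : G) ^ (p ^ n) ∈ Subgroup.center G := by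
      rw [← huz, Commute.mul_pow (Subgroup.mem_center_iff.1 hz (x ^ j)), ← zpow_natCast, zpow_comm,
        zpow_natCast, hxP, one_zpow, one_mul]
      exact pow_mem hz _
    obtain ⟨b, hb⟩ := hQ a
    have hcop : (orderOf (a : G)).Coprime (p ^ n) := by
      have h1 : orderOf (a : G) ∣ q ^ b := orderOf_dvd_of_pow_eq_one (by
        rw [← Subgroup.coe_pow, hb, Subgroup.coe_one])
      exact Nat.Coprime.coprime_dvd_left h1 (Nat.Coprime.pow b n ((Nat.coprime_primes Fact.out Fact.out).2 (Ne.symm hpq)))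
    obtain ⟨m, hm⟩ := exists_pow_eq_self_of_coprime hcop.symm
    have haG : (a : G) ∈ Subgroup.center G := hm ▸ pow_mem hcen m
    exact Subgroup.mem_center_iff.2 fun t => Subtype.ext (Subgroup.mem_center_iff.1 haG t)
  by_cases hfull : p ^ n ≤ s
  · exact ⟨by omega, hsP, fun h => absurd h (by omega)⟩
  have hq0 : (q : K) ≠ 0 := fun h => hpq ((Nat.prime_dvd_prime_iff_eq (Fact.out : p.Prime) (Fact.out : q.Prime)).1
    ((CharP.cast_eq_zero_iff K p q).1 h))
  have hcard : ∀ B : Subgroup Q, (Nat.card B : K) ≠ 0 := fun B => by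
    obtain ⟨b, hb⟩ := IsPGroup.iff_card.1 (hQ.to_subgroup B)
    rw [hb, Nat.cast_pow]
    exact pow_ne_zero _ hq0
  -- characteristic abelian subgroups are central
  have hD : commutator Q ⊓ Subgroup.upperCentralSeries Q 2 ≤ Subgroup.center Q := by
    set D := commutator Q ⊓ Subgroup.upperCentralSeries Q 2 with hDdef
    by_contra hnot
    letI : CommGroup D := { (inferInstance : Group D) with
      mul_comm := fun a b => Subtype.ext
        (Subgroup.mem_centralizer_iff.1 (commute_derived_upper a.2.1) b b.2.2).symm }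
    have hDinv : ∀ a ∈ D, σ a ∈ D := fun a ha => by
      have hU : (Subgroup.upperCentralSeries Q 2).map σ.toMonoidHom = Subgroup.upperCentralSeries Q 2 :=
        Subgroup.characteristic_iff_map_eq.1 inferInstance σ
      have hC' : (commutator Q).map σ.toMonoidHom = commutator Q :=
        Subgroup.characteristic_iff_map_eq.1 inferInstance σ
      exact ⟨hC'.le ⟨a, ha.1, rfl⟩, hU.le ⟨a, ha.2, rfl⟩⟩
    refine hfull (CfsgLib.HallHigmanB.full_degree_of_abelian (hcard D) (L.comp D.subtype)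
      (hinj.comp D.subtype_injective) (CfsgLib.HallHigmanB.restrictAut σ D hDinv) n ?_ (ρ x) hT
      (fun a => hTL a) ?_ hs)
    · refine MulEquiv.ext fun a => Subtype.ext ?_
      rw [CfsgLib.HallHigmanB.restrictAut_pow_coe, hσ]
      rfl
    · intro h1
      refine hnot fun a ha => hCfix (p ^ (n - 1)) (pow_pos (Fact.out : p.Prime).pos _)
        (Nat.pow_lt_pow_right (Fact.out : p.Prime).one_lt (by omega)) a ?_
      have h2 := congrArg Subtype.val (DFunLike.congr_fun h1 ⟨a, ha⟩)
      rw [CfsgLib.HallHigmanB.restrictAut_pow_coe] at h2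
      exact h2
  have hcomm := class_two hQ hD
  have hnc : Subgroup.center Q ≠ ⊤ := by
    intro htop
    have hcomm' : ∀ a b : Q, a * b = b * a := fun a b =>
      (Subgroup.mem_center_iff.1 (htop ▸ Subgroup.mem_top a) b).symm
    have hxc : x ∈ Subgroup.center G := by
      refine Subgroup.mem_center_iff.2 fun g => ?_
      have hle : Q ⊔ Subgroup.zpowers x ≤ Subgroup.centralizer ({x} : Set G) := by
        refine sup_le (fun a ha => ?_) (Subgroup.zpowers_le.2 ?_)
        · rw [Subgroup.mem_centralizer_singleton_iff]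
          have h1 := congrArg Subtype.val (hfixed ⟨a, ha⟩ (htop ▸ Subgroup.mem_top _) 1)
          rw [hσi, pow_one] at h1
          calc a * x = x * a * x⁻¹ * x := by rw [h1]
            _ = x * a := inv_mul_cancel_right _ _
        · rw [Subgroup.mem_centralizer_singleton_iff]
      rw [hgen] at hle
      exact Subgroup.mem_centralizer_singleton_iff.1 (hle (Subgroup.mem_top g))
    obtain ⟨c, hc⟩ := CfsgLib.HallHigmanB.exists_scalar L hsimp (ρ x) fun b => by
      show ρ (b : G) * ρ x = ρ x * ρ (b : G)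
      rw [← map_mul, ← map_mul, Subgroup.mem_center_iff.1 hxc]
    have h1 : (ρ x - 1) ^ (p ^ n) = 0 := by
      rw [CfsgLib.HallHigmanB.sub_one_pow_char_pow, hT, sub_self]
    have h2 : ρ x - 1 = (c - 1) • (1 : Module.End K V) := by rw [hc, sub_smul, one_smul]
    rw [h2, smul_pow, one_pow, smul_eq_zero] at h1
    have hc1 : c = 1 := sub_eq_zero.1 (eq_zero_of_pow_eq_zero (h1.resolve_right one_ne_zero))
    have hx1 : x = 1 := hfaith (by rw [hc, hc1, one_smul, map_one])
    rw [hx1, orderOf_one] at hn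
    have := Nat.one_lt_pow (by omega : n ≠ 0) (Fact.out : p.Prime).one_lt
    omega
  have hcardQ : (Nat.card Q : K) ≠ 0 := by
    obtain ⟨b, hb⟩ := IsPGroup.iff_card.1 hQ
    rw [hb, Nat.cast_pow]
    exact pow_ne_zero _ hq0
  have hreg : ∀ i, 0 < i → i < p ^ n → ∀ a : Q, a⁻¹ * (σ ^ i) a ∈ Subgroup.center Q → a ∈ Subgroup.center Q := by
    intro i hi0 hiP a ha
    refine hCfix i hi0 hiP a ?_
    set c := a⁻¹ * (σ ^ i) a with hc
    have h1 : ∀ m : ℕ, (σ ^ (i * m)) a = a * c ^ m := by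
      intro m
      induction m with
      | zero => simp
      | succ m ih =>
        rw [Nat.mul_succ, add_comm, pow_add, MulAut.mul_apply, ih, map_mul, map_pow, hfixed c ha i, pow_succ',
          show (σ ^ i) a = a * c by rw [hc, mul_inv_cancel_left], mul_assoc]
    have h2 := h1 (p ^ n)
    rw [mul_comm i, pow_mul, hσ, one_pow, MulAut.one_apply, left_eq_mul] at h2
    obtain ⟨b, hb⟩ := hQ c
    have h3 : orderOf c = 1 := Nat.eq_one_of_dvd_coprimes
      (Nat.Coprime.pow n b ((Nat.coprime_primes Fact.out Fact.out).2 hpq))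
      (orderOf_dvd_of_pow_eq_one h2) (orderOf_dvd_of_pow_eq_one hb)
    have h4 := orderOf_eq_one_iff.1 h3
    rw [hc, inv_mul_eq_one] at h4
    exact h4.symm
  rcases CfsgLib.HallHigmanB.critical hcardQ L hinj hsimp hcomm hnc σ n hσ (ρ x) hT hTL hreg hs with h | h
  · exact absurd h hfull
  obtain ⟨d, hd, hds, hd1, hdcard⟩ := h
  refine ⟨by omega, hsP, fun _ => ⟨?_, fun hab => hnc ?_⟩⟩
  · obtain ⟨a, ha⟩ := IsPGroup.iff_card.1 (hQ.to_quotient (Subgroup.center Q))
    rw [hdcard] at ha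
    obtain ⟨m, -, hm⟩ := (Nat.dvd_prime_pow (Fact.out : q.Prime)).1 (ha ▸ dvd_pow_self d two_ne_zero)
    exact ⟨m, by omega⟩
  · exact eq_top_iff.2 fun a _ => Subgroup.mem_center_iff.2 fun b => hab.is_comm.comm b a

end Cfsg.Agent.S4282
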