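import Cfsg.Statements.S4283
import Cfsg.Agent.Frobenius.Basic
import Cfsg.Agent.ClassSizes.CoprimeProduct
-- import your own Cfsg.Agent.* helpers here

set_option autoImplicit false
open Cfsg

namespace Cfsg.Agent.S4283

/-- Let G be a finite group with centre Z and let K, H be abelian subgroups of G containing Z such that G/Z is a Frobenius group with complement H/Z and kernel K/Z. Then the conjugacy class sizes of G are exactly 1, [G : K] and [G : H], and these two indices are coprime. (This is the converse half of the characterization of finite groups whose conjugacy class sizes are exactly 1, m and n with m and n coprime.) -/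
theorem result {G : Type*} [Group G] [Finite G] (K H : Subgroup G) (hZK : Subgroup.center G ≤ K) (hZH : Subgroup.center G ≤ H) (hK : IsMulCommutative K) (hH : IsMulCommutative H) (hFrob : Cfsg.IsFrobeniusComplement (H.map (QuotientGroup.mk' (Subgroup.center G)))) (hker : Cfsg.frobeniusKernel (H.map (QuotientGroup.mk' (Subgroup.center G))) = (K.map (QuotientGroup.mk' (Subgroup.center G)) : Set (G ⧸ Subgroup.center G))) : Set.range (fun x : G => (Subgroup.centralizer ({x} : Set G)).index) = ({1, K.index, H.index} : Set ℕ) ∧ K.index.Coprime H.index := by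
  set π := QuotientGroup.mk' (Subgroup.center G) with hπ
  have hsurj : Function.Surjective π := QuotientGroup.mk'_surjective _
  have hπker : π.ker = Subgroup.center G := QuotientGroup.ker_mk' _
  have hmem : ∀ (L : Subgroup G), Subgroup.center G ≤ L → ∀ g, π g ∈ L.map π → g ∈ L := by
    rintro L hL g ⟨l, hl, hlg⟩
    have : l⁻¹ * g ∈ Subgroup.center G := QuotientGroup.eq.1 hlg
    simpa using mul_mem hl (hL this)
  have hone : ∀ g : G, π g = 1 → g ∈ Subgroup.center G := fun g hg => by
    rw [← hπker]; exact MonoidHom.mem_ker.2 hg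
  have hC : ∀ {L : Subgroup G}, IsMulCommutative L → ∀ {x : G}, x ∈ L →
      L ≤ Subgroup.centralizer ({x} : Set G) := fun {L} hL {x} hx g hg =>
    Subgroup.mem_centralizer_singleton_iff.2 (congrArg Subtype.val (hL.is_comm.comm ⟨g, hg⟩ ⟨x, hx⟩))
  have hcom : ∀ {g x : G}, g ∈ Subgroup.centralizer ({x} : Set G) →
      π g ∈ Subgroup.centralizer ({π x} : Set (G ⧸ Subgroup.center G)) := fun {g x} hg => by
    rw [Subgroup.mem_centralizer_singleton_iff] at hg ⊢
    rw [← map_mul, hg, map_mul]
  have hK' : ∀ x ∈ K, x ∉ Subgroup.center G → (Subgroup.centralizer ({x} : Set G)).index = K.index := by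
    intro x hx hxZ
    congr 1
    refine le_antisymm (fun g hg => hmem K hZK g ?_) (hC hK hx)
    exact CfsgLib.Frobenius.centralizer_le_kernel hFrob hker.symm ⟨x, hx, rfl⟩ (fun e => hxZ (hone x e)) (hcom hg)
  have hH' : ∀ x ∈ H, x ∉ Subgroup.center G → (Subgroup.centralizer ({x} : Set G)).index = H.index := by
    intro x hx hxZ
    congr 1
    refine le_antisymm (fun g hg => hmem H hZH g ?_) (hC hH hx)
    exact CfsgLib.Frobenius.centralizer_le hFrob ⟨x, hx, rfl⟩ (fun e => hxZ (hone x e)) (hcom hg)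
  refine ⟨Set.Subset.antisymm ?_ ?_, ?_⟩
  · rintro _ ⟨x, rfl⟩
    by_cases hxZ : x ∈ Subgroup.center G
    · exact Or.inl ((CfsgLib.CoprimeLargest.idx_eq_one_iff x).2 hxZ)
    by_cases hxK : x ∈ K
    · exact Or.inr (Or.inl (hK' x hxK hxZ))
    obtain ⟨a, b, hb, hb1, hab⟩ := CfsgLib.Frobenius.mem_conjHash_of_not_mem_kernel hker.symm
      (fun h => hxK (hmem K hZK x h))
    obtain ⟨a₀, rfl⟩ := hsurj a
    have hy : a₀⁻¹ * x * a₀ ∈ H := hmem H hZH _ (by
      rw [map_mul, map_mul, map_inv, hab]
      have : (π a₀)⁻¹ * (π a₀ * b * (π a₀)⁻¹) * π a₀ = b := by group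
      rw [this]; exact hb)
    have hyZ : a₀⁻¹ * x * a₀ ∉ Subgroup.center G := fun h => hxZ (by
      have := (inferInstance : (Subgroup.center G).Normal).conj_mem _ h a₀
      simpa [mul_assoc] using this)
    refine Or.inr (Or.inr ?_)
    have hi := hH' _ hy hyZ
    have e := CfsgLib.CoprimeLargest.idx_conj x a₀⁻¹
    rw [inv_inv] at e
    exact e.symm.trans hi
  · rintro _ (rfl | rfl | rfl)
    · exact ⟨1, (CfsgLib.CoprimeLargest.idx_eq_one_iff (1 : G)).2 (one_mem _)⟩
    · obtain ⟨⟨_, x, hx, rfl⟩, hx1⟩ := Subgroup.ne_bot_iff_exists_ne_one.1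
        (CfsgLib.Frobenius.kernel_ne_bot hFrob hker.symm)
      exact ⟨x, hK' x hx fun h => hx1 (Subtype.ext (MonoidHom.mem_ker.1 (hπker.symm ▸ h)))⟩
    · obtain ⟨⟨_, x, hx, rfl⟩, hx1⟩ := Subgroup.ne_bot_iff_exists_ne_one.1 hFrob.1
      exact ⟨x, hH' x hx fun h => hx1 (Subtype.ext (MonoidHom.mem_ker.1 (hπker.symm ▸ h)))⟩
  · rw [← Subgroup.index_map_eq (f := π) K hsurj (hπker.le.trans hZK),
      ← Subgroup.index_map_eq (f := π) H hsurj (hπker.le.trans hZH),
      CfsgLib.Frobenius.kernel_index hFrob hker.symm]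
    exact CfsgLib.Frobenius.Count.coprime_card_index hFrob

end Cfsg.Agent.S4283
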