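import Cfsg.Statements.S4284
import Cfsg.Agent.RankTwoClass.CaseHallEnd
import Cfsg.Agent.RankTwoClass.CasePlain
import Cfsg.Agent.RankTwoClass.NoFactor

set_option autoImplicit false
open Cfsg
open CfsgLib.RankTwoClass
open CfsgLib.TwoSizes (cen IsPElt)
open CfsgLib.CoprimeLargest (idx)

namespace Cfsg.Agent.S4284

/-- Let G be a finite group with no nontrivial abelian direct factor whose conjugacy class sizes are exactly 1, m and m·n with m, n > 1 coprime. Then m is a prime p dividing n − 1; the elements whose class has size 1 or p form an abelian normal subgroup of index p; G has a normal p-complement; and the commutator subgroup of a Sylow p-subgroup of G has order p. -/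
theorem result {G : Type*} [Group G] [Finite G] (hnodf : ∀ A B : Subgroup G, A.Normal → B.Normal → A ⊓ B = ⊥ → A ⊔ B = ⊤ → IsMulCommutative A → A = ⊥) (m n : ℕ) (hm : 1 < m) (hn : 1 < n) (hcop : m.Coprime n) (h : Set.range (fun x : G => (Subgroup.centralizer ({x} : Set G)).index) = ({1, m, m * n} : Set ℕ)) : m.Prime ∧ m ∣ n - 1 ∧ (∃ M : Subgroup G, M.Normal ∧ (M : Set G) = {x : G | (Subgroup.centralizer ({x} : Set G)).index = 1 ∨ (Subgroup.centralizer ({x} : Set G)).index = m} ∧ M.index = m ∧ IsMulCommutative M) ∧ (∃ N : Subgroup G, N.Normal ∧ (Nat.card N).Coprime m ∧ ∃ a : ℕ, N.index = m ^ a) ∧ ∀ P : Sylow m G, Nat.card (commutator (P : Subgroup G)) = m := by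
  have hex : ∀ k ∈ ({1, m, m * n} : Set ℕ), ∃ g : G, idx g = k := fun k hk => by
    rw [← h] at hk
    exact hk
  have H : Hyp G m n := by
    refine ⟨hm, hn, hcop, fun g hg => ?_, hex m (by simp), hex (m * n) (by simp)⟩
    have h1 : idx g ∈ ({1, m, m * n} : Set ℕ) := h ▸ ⟨g, rfl⟩
    simp only [Set.mem_insert_iff, Set.mem_singleton_iff] at h1
    exact h1.resolve_left fun h2 => hg ((CfsgLib.CoprimeLargest.idx_eq_one_iff g).1 h2)
  have hdvd : ∀ q : ℕ, q.Prime → q ∣ Nat.card G → q ∣ m * n := by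
    intro q hq hqG
    obtain ⟨g, hg⟩ := exists_dvd_idx_of_no_abelian_factor hnodf hq hqG
    have h1 : idx g ∈ ({1, m, m * n} : Set ℕ) := h ▸ ⟨g, rfl⟩
    simp only [Set.mem_insert_iff, Set.mem_singleton_iff] at h1
    rcases h1 with h1 | h1 | h1 <;> rw [h1] at hg
    · exact absurd hg hq.not_dvd_one
    · exact hg.mul_right n
    · exact hg
  obtain ⟨p, hp, hpm⟩ := Nat.exists_prime_and_dvd (by omega : m ≠ 1)
  have huniq : ∀ {s : ℕ}, s.Prime → s ∣ m → s = p := by
    intro s hs hsm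
    by_contra hsp
    refine Pair.not_pair (G := G) (s := s) (u := p) ⟨hs, hp, hsp, fun hc => ?_,
      fun x w => H.pair_eq hs hsm hp hpm hsp, fun g => H.exists_pElt hs hsm, fun g => H.exists_pElt hp hpm,
      fun x y _ hx _ hy => H.cen_fact_eq hs hsm hx hy, fun x y _ hx _ hy => H.cen_fact_eq hp hpm hx hy⟩
    obtain ⟨g, hg⟩ := H.exists_m
    exact H.not_central_of_m hg (hc ▸ Subgroup.mem_top g)
  have hpow : ∃ e : ℕ, 0 < e ∧ m = p ^ e := by
    refine ⟨m.primeFactorsList.length, ?_, Nat.eq_prime_pow_of_unique_prime_dvd (by omega) huniq⟩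
    by_contra h0
    have := Nat.eq_prime_pow_of_unique_prime_dvd (by omega) huniq
    rw [Nat.eq_zero_of_not_pos h0, pow_zero] at this
    omega
  have hdiv : ∀ r : ℕ, r.Prime → r ∣ Nat.card G → r ≠ p → r ∣ n := fun r hr hrG hrp =>
    (hr.dvd_mul.1 (hdvd r hr hrG)).resolve_left fun h1 => hrp (huniq hr h1)
  by_cases hx : ∃ x : G, IsPElt p x ∧ idx x = m
  · obtain ⟨x, hxp, hxm⟩ := hx
    exact HallHyp.conclusion (x := x) ⟨H, hp, hpow, hdiv, hxp, hxm⟩
  · refine (PlainHyp.not_plain ⟨H, hp, hpow, hdiv, fun w hw hwZ => ?_⟩).elim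
    exact (H.tri w hwZ).resolve_left fun h1 => hx ⟨w, hw, h1⟩

end Cfsg.Agent.S4284
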