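import Cfsg.Statements.S4290
-- import your own Cfsg.Agent.* helpers here

set_option autoImplicit false
open Cfsg

namespace Cfsg.Agent.S4290

open Matrix

universe u v

variable {G : Type u} [Group G] {Ω : Type v}

/-- Double transitivity of a homomorphism into permutations. -/
def TwoTrans (φ : G →* Equiv.Perm Ω) : Prop :=
  ∀ a b c d : Ω, a ≠ b → c ≠ d → ∃ g, φ g a = c ∧ φ g b = d

theorem TwoTrans.trans {φ : G →* Equiv.Perm Ω} (hφ : TwoTrans φ) (a b : Ω) : ∃ g, φ g a = b := by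
  by_cases h : a = b
  · exact ⟨1, by simp [h]⟩
  · obtain ⟨g, hg, -⟩ := hφ a b b a h (Ne.symm h)
    exact ⟨g, hg⟩

/-- The diagonal action on pairs. -/
def pairHom (φ ψ : G →* Equiv.Perm Ω) : G →* Equiv.Perm (Ω × Ω) where
  toFun g := Equiv.prodCongr (φ g) (ψ g)
  map_one' := by ext x <;> simp
  map_mul' g h := by ext x <;> simp

theorem pairHom_apply (φ ψ : G →* Equiv.Perm Ω) (g : G) (x y : Ω) :
    pairHom φ ψ g (x, y) = (φ g x, ψ g y) := rfl

variable [Fintype Ω]

/-- The number of fixed points. -/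
noncomputable def fixCount (φ : G →* Equiv.Perm Ω) (g : G) : ℕ := Nat.card {x // φ g x = x}

/-- The orbit of a pair. -/
def SameOrbit (φ ψ : G →* Equiv.Perm Ω) (p q : Ω × Ω) : Prop := ∃ g, pairHom φ ψ g p = q

theorem burnside [Fintype G] (φ ψ : G →* Equiv.Perm Ω) :
    ∃ (Q : Type v) (_ : Fintype Q) (f : Ω × Ω → Q), Function.Surjective f ∧
      (∀ p q, f p = f q → SameOrbit φ ψ p q) ∧ (∀ p q, SameOrbit φ ψ p q → f p = f q) ∧
      ∑ g : G, fixCount φ g * fixCount ψ g = Fintype.card Q * Fintype.card G := by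
  classical
  letI : MulAction G (Ω × Ω) := MulAction.compHom (Ω × Ω) (pairHom φ ψ)
  let Q := Quotient (MulAction.orbitRel G (Ω × Ω))
  haveI : Fintype Q := Quotient.fintype _
  refine ⟨Q, inferInstance, Quotient.mk'', Quotient.mk''_surjective, fun p q h => ?_, fun p q h => ?_, ?_⟩
  · have h1 : p ∈ MulAction.orbit G q := Quotient.exact h
    obtain ⟨g, hg⟩ := h1
    refine ⟨g⁻¹, ?_⟩
    rw [← hg]
    show pairHom φ ψ g⁻¹ (pairHom φ ψ g q) = q
    rw [← Equiv.Perm.mul_apply, ← map_mul, inv_mul_cancel, map_one, Equiv.Perm.one_apply]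
  · obtain ⟨g, rfl⟩ := h
    exact (Quotient.sound (show pairHom φ ψ g p ∈ MulAction.orbit G p from ⟨g, rfl⟩)).symm
  · rw [← MulAction.sum_card_fixedBy_eq_card_orbits_mul_card_group G (Ω × Ω)]
    refine Finset.sum_congr rfl fun g _ => ?_
    rw [← Nat.card_eq_fintype_card, fixCount, fixCount, ← Nat.card_prod]
    exact Nat.card_congr
      { toFun := fun p => ⟨(p.1.1, p.2.1), show pairHom φ ψ g _ = _ from Prod.ext p.1.2 p.2.2⟩
        invFun := fun p => (⟨p.1.1, congrArg Prod.fst (show pairHom φ ψ g p.1 = p.1 from p.2)⟩,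
          ⟨p.1.2, congrArg Prod.snd (show pairHom φ ψ g p.1 = p.1 from p.2)⟩)
        left_inv := fun p => rfl
        right_inv := fun p => rfl }

theorem sum_sq_le [Fintype G] {φ : G →* Equiv.Perm Ω} (hφ : TwoTrans φ) {o o₁ : Ω} (ho : o ≠ o₁) :
    ∑ g : G, fixCount φ g * fixCount φ g ≤ 2 * Fintype.card G := by
  classical
  obtain ⟨Q, _, f, hf, -, h2, h3⟩ := burnside φ φ
  rw [h3]
  refine Nat.mul_le_mul_right _ ?_
  have hsurj : Function.Surjective (fun b : Bool => f (if b then (o, o) else (o, o₁))) := by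
    intro q
    obtain ⟨⟨x, y⟩, rfl⟩ := hf q
    by_cases hxy : x = y
    · subst hxy
      obtain ⟨g, hg⟩ := hφ.trans o x
      exact ⟨true, h2 _ _ ⟨g, Prod.ext hg hg⟩⟩
    · obtain ⟨g, hg1, hg2⟩ := hφ o o₁ x y ho hxy
      exact ⟨false, h2 _ _ ⟨g, Prod.ext hg1 hg2⟩⟩
  simpa using Fintype.card_le_of_surjective _ hsurj

/-- There are at most two orbits on pairs. -/
theorem sameOrbit_or [Fintype G] {φ ψ : G →* Equiv.Perm Ω} (hφ : TwoTrans φ) (hψ : TwoTrans ψ)
    {o o₁ : Ω} (ho : o ≠ o₁) (p q r : Ω × Ω) (hpq : ¬ SameOrbit φ ψ p q) :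
    SameOrbit φ ψ p r ∨ SameOrbit φ ψ q r := by
  classical
  obtain ⟨Q, _, f, hf, h1, h2, h3⟩ := burnside φ ψ
  by_contra hc
  push Not at hc
  have hinj : Function.Injective ![f p, f q, f r] := by
    have e1 : f p ≠ f q := fun e => hpq (h1 _ _ e)
    have e2 : f p ≠ f r := fun e => hc.1 (h1 _ _ e)
    have e3 : f q ≠ f r := fun e => hc.2 (h1 _ _ e)
    have := e1.symm; have := e2.symm; have := e3.symm
    intro i j e
    fin_cases i <;> fin_cases j <;>
      first
      | rfl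
      | (exfalso; simp at e; tauto)
  have hQ : 3 ≤ Fintype.card Q := by simpa using Fintype.card_le_of_injective _ hinj
  have ha := sum_sq_le hφ ho
  have hb := sum_sq_le hψ ho
  have hcs : 2 * ∑ g : G, fixCount φ g * fixCount ψ g ≤
      ∑ g : G, fixCount φ g * fixCount φ g + ∑ g : G, fixCount ψ g * fixCount ψ g := by
    rw [Finset.mul_sum, ← Finset.sum_add_distrib]
    refine Finset.sum_le_sum fun g _ => ?_
    have h4 := two_mul_le_add_sq (fixCount φ g) (fixCount ψ g)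
    rwa [sq, sq, mul_assoc] at h4
  have hG : 0 < Fintype.card G := Fintype.card_pos
  rw [h3] at hcs
  have : 3 * Fintype.card G ≤ Fintype.card Q * Fintype.card G := Nat.mul_le_mul_right _ hQ
  omega

/-- A matrix invariant under a pair of actions. -/
def Inv (φ ψ : G →* Equiv.Perm Ω) (A : Matrix Ω Ω ℤ) : Prop :=
  ∀ g x y, A (φ g x) (ψ g y) = A x y

omit [Fintype Ω] in
theorem Inv.transpose {φ ψ : G →* Equiv.Perm Ω} {A : Matrix Ω Ω ℤ} (hA : Inv φ ψ A) :
    Inv ψ φ Aᵀ := fun g x y => hA g y x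

theorem Inv.mul {φ ψ θ : G →* Equiv.Perm Ω} {A B : Matrix Ω Ω ℤ} (hA : Inv φ ψ A)
    (hB : Inv ψ θ B) : Inv φ θ (A * B) := fun g x y => by
  simp only [Matrix.mul_apply]
  rw [← Equiv.sum_comp (ψ g)]
  exact Finset.sum_congr rfl fun z _ => by rw [hA, hB]

/-- The all-one matrix. -/
def allOne : Matrix Ω Ω ℤ := Matrix.of fun _ _ => 1

omit [Fintype Ω] in
theorem comb_apply (a b : ℤ) (A B : Matrix Ω Ω ℤ) (x y : Ω) :
    (a • A + b • B) x y = a * A x y + b * B x y := rfl

omit [Fintype Ω] in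
theorem allOne_apply (x y : Ω) : (allOne : Matrix Ω Ω ℤ) x y = 1 := rfl

theorem eq_diag_add [DecidableEq Ω] {φ : G →* Equiv.Perm Ω} (hφ : TwoTrans φ) {A : Matrix Ω Ω ℤ}
    (hA : Inv φ φ A) {o o₁ : Ω} (ho : o ≠ o₁) :
    A = (A o o - A o o₁) • (1 : Matrix Ω Ω ℤ) + A o o₁ • allOne := by
  ext x y
  by_cases hxy : x = y
  · subst hxy
    obtain ⟨g, hg⟩ := hφ.trans o x
    have h := hA g o o
    rw [hg] at h
    rw [comb_apply, allOne_apply, Matrix.one_apply_eq, h]; ring
  · obtain ⟨g, hg1, hg2⟩ := hφ o o₁ x y ho hxy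
    have h := hA g o o₁
    rw [hg1, hg2] at h
    rw [comb_apply, allOne_apply, Matrix.one_apply_ne hxy, h]; ring

theorem mul_allOne {A : Matrix Ω Ω ℤ} {k : ℤ} (h : ∀ x, ∑ y, A x y = k) :
    A * allOne = k • allOne := by
  ext x y
  simp [Matrix.mul_apply, allOne, h x]

theorem allOne_mul {A : Matrix Ω Ω ℤ} {k : ℤ} (h : ∀ y, ∑ x, A x y = k) :
    allOne * A = k • allOne := by
  ext x y
  simp [Matrix.mul_apply, allOne, h y]

theorem allOne_transpose : (allOne : Matrix Ω Ω ℤ)ᵀ = allOne := rfl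

theorem Inv.sum_row {φ ψ : G →* Equiv.Perm Ω} (hφ : TwoTrans φ) {A : Matrix Ω Ω ℤ}
    (hA : Inv φ ψ A) (o x : Ω) : ∑ y, A x y = ∑ y, A o y := by
  obtain ⟨g, rfl⟩ := hφ.trans o x
  rw [← Equiv.sum_comp (ψ g)]
  exact Finset.sum_congr rfl fun y _ => hA g o y

theorem Inv.sum_col {φ ψ : G →* Equiv.Perm Ω} (hψ : TwoTrans ψ) (hφ : TwoTrans φ)
    {A : Matrix Ω Ω ℤ} (hA : Inv φ ψ A) (o y : Ω) : ∑ x, A x y = ∑ z, A o z := by
  have h1 : ∀ z, ∑ x, A x z = ∑ x, A x o := fun z => hA.transpose.sum_row hψ o z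
  have h2 : (Fintype.card Ω : ℤ) * ∑ x, A x o = (Fintype.card Ω : ℤ) * ∑ z, A o z := by
    calc (Fintype.card Ω : ℤ) * ∑ x, A x o = ∑ z, ∑ x, A x z := by simp [h1]
      _ = ∑ x, ∑ z, A x z := Finset.sum_comm
      _ = (Fintype.card Ω : ℤ) * ∑ z, A o z := by simp [fun x => hA.sum_row hφ o x]
  haveI : Nonempty Ω := ⟨o⟩
  rw [h1]
  exact mul_left_cancel₀ (Int.natCast_ne_zero.2 Fintype.card_ne_zero) h2

/-- Data of an incidence matrix between two of the actions. -/
structure Incidence [DecidableEq Ω] (φ ψ : G →* Equiv.Perm Ω) (o o₁ : Ω) (N : Matrix Ω Ω ℤ)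
    (k x l : ℤ) : Prop where
  inv : Inv φ ψ N
  span : ∀ A, Inv φ ψ A → ∃ a b : ℤ, A = a • N + b • allOne
  row : ∀ z, ∑ y, N z y = k
  col : ∀ z, ∑ y, N y z = k
  mulT : N * Nᵀ = x • (1 : Matrix Ω Ω ℤ) + l • allOne
  transMul : Nᵀ * N = x • (1 : Matrix Ω Ω ℤ) + l • allOne
  diag : x + l = k
  nonneg : 0 ≤ l
  sq : x + l * (Fintype.card Ω : ℤ) = k * k

open scoped Classical in
theorem exists_incidence [Fintype G] [DecidableEq Ω] {φ ψ : G →* Equiv.Perm Ω} (hφ : TwoTrans φ)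
    (hψ : TwoTrans ψ) {o o₁ : Ω} (ho : o ≠ o₁)
    (hnt : ∃ p q, ¬ SameOrbit φ ψ p q) :
    ∃ (N : Matrix Ω Ω ℤ) (y : Ω) (k x l : ℤ), Incidence φ ψ o o₁ N k x l ∧ 0 < k ∧
      2 * k ≤ Fintype.card Ω ∧
      k = ((Finset.univ.filter fun z => SameOrbit φ ψ (o, y) (o, z)).card : ℕ) := by
  classical
  obtain ⟨p, q, hpq⟩ := hnt
  have norm : ∀ p : Ω × Ω, ∃ y, SameOrbit φ ψ (o, y) p := fun p => by
    obtain ⟨g, hg⟩ := hφ.trans o p.1
    exact ⟨(ψ g)⁻¹ p.2, g, Prod.ext hg ((ψ g).apply_symm_apply p.2)⟩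
  have symm : ∀ {a b}, SameOrbit φ ψ a b → SameOrbit φ ψ b a := by
    rintro a b ⟨g, rfl⟩
    exact ⟨g⁻¹, by rw [← Equiv.Perm.mul_apply, ← map_mul, inv_mul_cancel, map_one, Equiv.Perm.one_apply]⟩
  have trans' : ∀ {a b c}, SameOrbit φ ψ a b → SameOrbit φ ψ b c → SameOrbit φ ψ a c := by
    rintro a b c ⟨g, rfl⟩ ⟨h, rfl⟩
    exact ⟨h * g, by rw [map_mul, Equiv.Perm.mul_apply]⟩
  obtain ⟨y1, hy1⟩ := norm p
  obtain ⟨y2, hy2⟩ := norm q
  have h12 : ¬ SameOrbit φ ψ (o, y1) (o, y2) := fun h => hpq (trans' (symm hy1) (trans' h hy2))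
  let c : Ω → ℕ := fun y => (Finset.univ.filter fun z => SameOrbit φ ψ (o, y) (o, z)).card
  have hsum : c y1 + c y2 ≤ Fintype.card Ω := by
    rw [← Finset.card_union_of_disjoint]
    · exact Finset.card_le_univ _
    · rw [Finset.disjoint_left]
      intro z hz hz'
      exact h12 (trans' (Finset.mem_filter.1 hz).2 (symm (Finset.mem_filter.1 hz').2))
  obtain ⟨y, y', hyy', hc⟩ : ∃ y y', ¬ SameOrbit φ ψ (o, y) (o, y') ∧ 2 * c y ≤ Fintype.card Ω := by
    rcases le_total (c y1) (c y2) with h | h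
    · exact ⟨y1, y2, h12, by omega⟩
    · exact ⟨y2, y1, fun hh => h12 (symm hh), by omega⟩
  let N : Matrix Ω Ω ℤ := Matrix.of fun a b => if SameOrbit φ ψ (o, y) (a, b) then 1 else 0
  have hN : Inv φ ψ N := fun g a b => by
    refine if_congr ⟨fun h => trans' h (symm ⟨g, rfl⟩), fun h => trans' h ⟨g, rfl⟩⟩ rfl rfl
  have hk : ∑ z, N o z = (c y : ℤ) := by simp [N, c, Finset.sum_boole]
  have hrow : ∀ z, ∑ w, N z w = (c y : ℤ) := fun z => (hN.sum_row hφ o z).trans hk
  have hcol : ∀ z, ∑ w, N w z = (c y : ℤ) := fun z => (hN.sum_col hψ hφ o z).trans hk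
  have hD : ∀ (θ : G →* Equiv.Perm Ω) (A : Matrix Ω Ω ℤ), TwoTrans θ → Inv θ θ A →
      A * allOne = ((c y : ℤ) * c y) • allOne → A o o = c y →
      A = (A o o - A o o₁) • (1 : Matrix Ω Ω ℤ) + A o o₁ • allOne ∧
      (c y : ℤ) - A o o₁ + A o o₁ * Fintype.card Ω = (c y : ℤ) * c y := by
    intro θ A hθ hA hJ hd
    have h := eq_diag_add hθ hA ho
    refine ⟨h, ?_⟩
    have h2 := congrFun (congrFun hJ o) o
    rw [h] at h2
    rw [Matrix.mul_apply] at h2
    simp only [comb_apply, allOne_apply, mul_one, Matrix.smul_apply, smul_eq_mul,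
      Finset.sum_add_distrib, Matrix.one_apply, mul_ite, mul_zero, Finset.sum_ite_eq,
      Finset.mem_univ, if_true, Finset.sum_const, Finset.card_univ, nsmul_eq_mul] at h2
    rw [hd] at h2
    linarith
  have hJ1 : N * Nᵀ * allOne = ((c y : ℤ) * c y) • allOne := by
    rw [Matrix.mul_assoc, mul_allOne (A := Nᵀ) (k := (c y : ℤ)) (fun z => hcol z), Matrix.mul_smul,
      mul_allOne hrow, smul_smul]
  have hJ2 : Nᵀ * N * allOne = ((c y : ℤ) * c y) • allOne := by
    rw [Matrix.mul_assoc, mul_allOne hrow, Matrix.mul_smul, mul_allOne (A := Nᵀ) (k := (c y : ℤ))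
      (fun z => hcol z), smul_smul]
  have hidem : ∀ a b, N a b * N a b = N a b := fun a b => by simp [N]
  have hd1 : (N * Nᵀ) o o = c y := by
    simp only [Matrix.mul_apply, Matrix.transpose_apply, hidem, hk]
  have hd2 : (Nᵀ * N) o o = c y := by
    simp only [Matrix.mul_apply, Matrix.transpose_apply, hidem]
    exact hcol o
  obtain ⟨m1, q1⟩ := hD φ _ hφ (hN.mul hN.transpose) hJ1 hd1
  obtain ⟨m2, q2⟩ := hD ψ _ hψ (hN.transpose.mul hN) hJ2 hd2
  have hn1 : (1 : ℤ) < Fintype.card Ω := by exact_mod_cast Fintype.one_lt_card_iff.2 ⟨o, o₁, ho⟩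
  have hl : (Nᵀ * N) o o₁ = (N * Nᵀ) o o₁ :=
    mul_right_cancel₀ (b := (Fintype.card Ω : ℤ) - 1) (by omega) (by linarith)
  rw [hd1] at m1
  rw [hd2, hl] at m2
  refine ⟨N, y, c y, c y - (N * Nᵀ) o o₁, (N * Nᵀ) o o₁, ⟨hN, ?_, hrow, hcol, m1, m2, by ring, ?_, q1⟩,
    ?_, by exact_mod_cast hc, rfl⟩
  · intro A hA
    refine ⟨A o y - A o y', A o y', ?_⟩
    ext a b
    rcases sameOrbit_or hφ hψ ho _ _ (a, b) hyy' with h | h
    · have h1 : N a b = 1 := if_pos h
      obtain ⟨g, hg⟩ := h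
      have hh := hA g o y
      rw [show φ g o = a from congrArg Prod.fst hg, show ψ g y = b from congrArg Prod.snd hg] at hh
      rw [comb_apply, allOne_apply, h1, hh]; ring
    · have h1 : N a b = 0 := if_neg fun h' => hyy' (trans' h' (symm h))
      obtain ⟨g, hg⟩ := h
      have hh := hA g o y'
      rw [show φ g o = a from congrArg Prod.fst hg, show ψ g y' = b from congrArg Prod.snd hg] at hh
      rw [comb_apply, allOne_apply, h1, hh]; ring
  · simp only [Matrix.mul_apply, Matrix.transpose_apply]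
    refine Finset.sum_nonneg fun z _ => mul_nonneg ?_ ?_ <;>
    · simp only [N, Matrix.of_apply]
      split_ifs <;> simp
  · have hy : y ∈ Finset.univ.filter fun z => SameOrbit φ ψ (o, y) (o, z) :=
      Finset.mem_filter.2 ⟨Finset.mem_univ _, ⟨(1 : G), (by rw [map_one]; rfl)⟩⟩
    exact_mod_cast Finset.card_pos.2 ⟨y, hy⟩

/-- The arithmetical contradiction for three classes. -/
theorem no_three_classes [DecidableEq Ω] {φ₀ φ₁ φ₂ : G →* Equiv.Perm Ω} {o o₁ : Ω} (ho : o ≠ o₁)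
    {N M : Matrix Ω Ω ℤ} {k x l k' x' l' : ℤ} (hN : Incidence φ₀ φ₁ o o₁ N k x l)
    (hN' : Inv φ₁ φ₂ N) (hspan : ∀ A, Inv φ₁ φ₂ A → Inv φ₀ φ₁ A)
    (hM : Incidence φ₀ φ₂ o o₁ M k' x' l')
    (hk : 0 < k) (hkn : k < Fintype.card Ω) (hk' : 2 ≤ k') (hk'n : 2 * k' ≤ Fintype.card Ω)
    (hcop : IsCoprime k (Fintype.card Ω : ℤ)) : False := by
  set n : ℤ := (Fintype.card Ω : ℤ)
  let D : Matrix Ω Ω ℤ → ℤ := fun A => A o o - A o o₁
  have D1 : ∀ (a : ℤ) (b : ℤ), D (a • (1 : Matrix Ω Ω ℤ) + b • allOne) = a := fun a b => by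
    simp only [D, comb_apply, allOne_apply, Matrix.one_apply_ne ho, Matrix.one_apply_eq]; ring
  have hNJ := mul_allOne hN.row
  have hJN := allOne_mul hN.col
  have hMJ := mul_allOne hM.row
  have hJNt : (allOne : Matrix Ω Ω ℤ) * Nᵀ = k • allOne := allOne_mul (A := Nᵀ) fun z => hN.row z
  have hJMt : (allOne : Matrix Ω Ω ℤ) * Mᵀ = k' • allOne := allOne_mul (A := Mᵀ) fun z => hM.row z
  have hNtJ : Nᵀ * (allOne : Matrix Ω Ω ℤ) = k • allOne := mul_allOne (A := Nᵀ) fun z => hN.col z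
  have hJJ : (allOne : Matrix Ω Ω ℤ) * allOne = n • allOne :=
    mul_allOne fun z => by simp [allOne, n]
  obtain ⟨a, b, hab⟩ := hM.span _ (hN.inv.mul hN')
  obtain ⟨a', b', hab'⟩ := hN.span _ (hspan _ (hN.inv.transpose.mul hM.inv))
  have e1 : x * x = a * a * x' := by
    have h1 : (N * N) * (N * N)ᵀ = N * (N * Nᵀ) * Nᵀ := by
      rw [Matrix.transpose_mul]; simp only [Matrix.mul_assoc]
    have h2 : N * (N * Nᵀ) * Nᵀ = (x * x) • (1 : Matrix Ω Ω ℤ) + (x * l + l * (k * k)) • allOne := by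
      rw [hN.mulT]
      simp only [Matrix.mul_add, Matrix.add_mul, Matrix.mul_smul, Matrix.smul_mul, Matrix.mul_one,
        hN.mulT, hNJ, hJNt, smul_add, smul_smul]
      module
    have h3 : (N * N) * (N * N)ᵀ =
        (a * a * x') • (1 : Matrix Ω Ω ℤ) + (a * a * l' + 2 * (a * b * k') + b * b * n) • allOne := by
      rw [hab, Matrix.transpose_add, Matrix.transpose_smul, Matrix.transpose_smul, allOne_transpose]
      simp only [Matrix.mul_add, Matrix.add_mul, Matrix.mul_smul, Matrix.smul_mul,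
        hM.mulT, hMJ, hJMt, hJJ, smul_add, smul_smul]
      module
    have h4 := congrArg D ((h2.symm.trans h1.symm).trans h3)
    rwa [D1, D1] at h4
  have e2 : x' * x = a' * a' * x := by
    have h1 : (Nᵀ * M) * (Nᵀ * M)ᵀ = Nᵀ * (M * Mᵀ) * N := by
      rw [Matrix.transpose_mul, Matrix.transpose_transpose]; simp only [Matrix.mul_assoc]
    have h2 : Nᵀ * (M * Mᵀ) * N = (x' * x) • (1 : Matrix Ω Ω ℤ) + (x' * l + l' * (k * k)) • allOne := by
      rw [hM.mulT]
      simp only [Matrix.mul_add, Matrix.add_mul, Matrix.mul_smul, Matrix.smul_mul, Matrix.mul_one,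
        hN.transMul, hNtJ, hJN, smul_add, smul_smul]
      module
    have h3 : (Nᵀ * M) * (Nᵀ * M)ᵀ =
        (a' * a' * x) • (1 : Matrix Ω Ω ℤ) + (a' * a' * l + 2 * (a' * b' * k) + b' * b' * n) • allOne := by
      rw [hab', Matrix.transpose_add, Matrix.transpose_smul, Matrix.transpose_smul, allOne_transpose]
      simp only [Matrix.mul_add, Matrix.add_mul, Matrix.mul_smul, Matrix.smul_mul,
        hN.mulT, hNJ, hJNt, hJJ, smul_add, smul_smul]
      module
    have h4 := congrArg D ((h2.symm.trans h1.symm).trans h3)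
    rwa [D1, D1] at h4
  have e3 : k * k = a * k' + b * n := by
    have h1 := congrArg (fun A : Matrix Ω Ω ℤ => A * allOne) hab
    simp only [Matrix.mul_assoc, hNJ, Matrix.mul_smul, Matrix.add_mul, Matrix.smul_mul, hMJ, hJJ,
      smul_smul] at h1
    have h2 := congrFun (congrFun h1 o) o
    simpa [allOne] using h2
  have hn : (1 : ℤ) < n := by omega
  have hxpos : 0 < x := by
    have h1 : l * (n - 1) = k * k - k := by linear_combination hN.sq - hN.diag
    by_contra hx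
    push Not at hx
    have h2 : k ≤ l := by linarith [hN.diag]
    have h3 : k * (n - 1) ≤ l * (n - 1) := mul_le_mul_of_nonneg_right h2 (by omega)
    nlinarith
  set s : ℤ := |a'|
  have hs : s * s = x' := by
    rw [show s * s = a' * a' by rw [abs_mul_abs_self]]
    exact (mul_right_cancel₀ hxpos.ne' e2).symm
  have hs0 : 0 ≤ s := abs_nonneg _
  have hslt : s < k' := by
    by_contra h
    push Not at h
    have h2 : k' * k' ≤ s * s := mul_le_mul h h (by omega) hs0
    have h3 : x' ≤ k' := by linarith [hM.diag, hM.nonneg]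
    nlinarith
  have key : (a * s - x) * (a * s + x) = 0 := by linear_combination (a * a) * hs - e1
  have hx2 : x = k * k - l * n := by linear_combination hN.sq
  have main : ∃ ε : ℤ, (ε = 1 ∨ ε = -1) ∧ n ∣ k * k * (s - ε * k') := by
    rcases mul_eq_zero.1 key with h | h
    · refine ⟨1, Or.inl rfl, s * b - l * k', ?_⟩
      linear_combination s * e3 + k' * h + k' * hx2
    · refine ⟨-1, Or.inr rfl, s * b + l * k', ?_⟩
      linear_combination s * e3 + k' * h - k' * hx2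
  obtain ⟨ε, hε, hdvd⟩ := main
  have hd : n ∣ s - ε * k' := IsCoprime.dvd_of_dvd_mul_left (hcop.mul_left hcop).symm hdvd
  rcases hε with rfl | rfl <;>
  · have := Int.eq_zero_of_abs_lt_dvd hd (by rw [abs_lt]; omega)
    omega

/-- Let G be a doubly transitive group of permutations of a finite set Ω in which a point stabilizer is a Hall subgroup of G (its order is coprime to its index). Then every automorphism of G of odd order is induced by conjugation by a permutation of Ω normalizing G. -/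
theorem result {Ω : Type*} [Fintype Ω] (G : Subgroup (Equiv.Perm Ω)) (h2 : MulAction.IsMultiplyPretransitive G Ω 2) (o : Ω) (hHall : (Nat.card (MulAction.stabilizer G o)).Coprime (MulAction.stabilizer G o).index) (α : MulAut G) (hα : Odd (orderOf α)) : ∃ σ : Equiv.Perm Ω, σ ∈ Subgroup.normalizer (G : Set (Equiv.Perm Ω)) ∧ ∀ g : G, ((α g : G) : Equiv.Perm Ω) = σ * (g : Equiv.Perm Ω) * σ⁻¹ := by
  classical
  haveI : Fintype G := Fintype.ofFinite _
  have htt : TwoTrans G.subtype := fun a b c d hab hcd => by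
    obtain ⟨g, hg⟩ := (MulAction.is_two_pretransitive_iff.1 h2) hab hcd
    exact ⟨g, hg⟩
  set H := MulAction.stabilizer G o
  have htr : MulAction.IsPretransitive G Ω :=
    MulAction.isPretransitive_of_is_two_pretransitive (h2 := h2)
  have hidx : H.index = Fintype.card Ω := by
    rw [MulAction.index_stabilizer_of_transitive, Nat.card_eq_fintype_card]
  -- a twisted action in which the stabiliser fixes a point yields the permutation
  let Good : MulAut G → Prop := fun β => ∃ p : Ω, ∀ h : G, (h : Equiv.Perm Ω) o = o →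
    ((β h : G) : Equiv.Perm Ω) p = p
  have hgood_all : ∀ β, Good β → ∀ q : Ω, ∃ p : Ω, ∀ h : G, (h : Equiv.Perm Ω) q = q →
      ((β h : G) : Equiv.Perm Ω) p = p := by
    rintro β ⟨p, hp⟩ q
    obtain ⟨g, hg⟩ := htt.trans o q
    refine ⟨((β g : G) : Equiv.Perm Ω) p, fun h hh => ?_⟩
    have h1 : ((g⁻¹ * h * g : G) : Equiv.Perm Ω) o = o := by
      simp only [Subgroup.coe_mul, Subgroup.coe_inv, Equiv.Perm.mul_apply]
      rw [show (g : Equiv.Perm Ω) o = q from hg, hh, ← hg]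
      exact Equiv.symm_apply_apply _ _
    have h3 := hp _ h1
    rw [map_mul, map_mul, map_inv, Subgroup.coe_mul, Subgroup.coe_mul, Subgroup.coe_inv,
      Equiv.Perm.mul_apply, Equiv.Perm.mul_apply] at h3
    exact (Equiv.Perm.inv_eq_iff_eq.1 h3)
  have hgood_mul : ∀ β γ, Good β → Good γ → Good (β * γ) := by
    rintro β γ hβ ⟨p, hp⟩
    obtain ⟨p', hp'⟩ := hgood_all β hβ p
    exact ⟨p', fun h hh => hp' _ (hp h hh)⟩
  have finish : Good α → ∃ σ : Equiv.Perm Ω, σ ∈ Subgroup.normalizer (G : Set (Equiv.Perm Ω)) ∧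
      ∀ g : G, ((α g : G) : Equiv.Perm Ω) = σ * (g : Equiv.Perm Ω) * σ⁻¹ := by
    rintro ⟨p, hp⟩
    choose t ht using fun x => htt.trans o x
    have ht' : ∀ x, (t x : Equiv.Perm Ω) o = x := ht
    let f : Ω → Ω := fun x => ((α (t x) : G) : Equiv.Perm Ω) p
    have hkey : ∀ g : G, f ((g : Equiv.Perm Ω) o) = ((α g : G) : Equiv.Perm Ω) p := by
      intro g
      have h1 : (((t ((g : Equiv.Perm Ω) o))⁻¹ * g : G) : Equiv.Perm Ω) o = o := by
        simp only [Subgroup.coe_mul, Subgroup.coe_inv, Equiv.Perm.mul_apply]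
        rw [Equiv.Perm.inv_eq_iff_eq, ht']
      have h3 := hp _ h1
      rw [map_mul, map_inv, Subgroup.coe_mul, Subgroup.coe_inv, Equiv.Perm.mul_apply,
        Equiv.Perm.inv_eq_iff_eq] at h3
      exact h3.symm
    have hsurj : Function.Surjective f := by
      intro y
      obtain ⟨g, hg⟩ := htt.trans p y
      obtain ⟨g', rfl⟩ := α.surjective g
      exact ⟨(g' : Equiv.Perm Ω) o, (hkey g').trans hg⟩
    let σ : Equiv.Perm Ω := Equiv.ofBijective f (Finite.surjective_iff_bijective.1 hsurj)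
    have hσ : ∀ g : G, ((α g : G) : Equiv.Perm Ω) = σ * (g : Equiv.Perm Ω) * σ⁻¹ := by
      intro g
      rw [eq_mul_inv_iff_mul_eq]
      ext x
      rw [← ht' x]
      show ((α g : G) : Equiv.Perm Ω) (f _) = f ((g : Equiv.Perm Ω) ((t x : Equiv.Perm Ω) o))
      rw [hkey, ← Equiv.Perm.mul_apply (g : Equiv.Perm Ω), ← Subgroup.coe_mul, hkey, map_mul,
        Subgroup.coe_mul, Equiv.Perm.mul_apply]
    refine ⟨σ, ?_, hσ⟩
    rw [Subgroup.mem_normalizer_iff]
    intro g
    constructor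
    · intro hg
      rw [← hσ ⟨g, hg⟩]
      exact (α ⟨g, hg⟩).2
    · intro hg
      obtain ⟨g', hg'⟩ := α.surjective ⟨_, hg⟩
      have h3 := hσ g'
      rw [hg'] at h3
      have h4 : g = (g' : Equiv.Perm Ω) := mul_left_cancel (mul_right_cancel h3)
      exact h4 ▸ g'.2
  by_cases hα1 : Good α
  · exact finish hα1
  exfalso
  -- the odd order of the automorphism
  have hα2 : ¬ Good (α * α) := by
    intro hg
    apply hα1
    have hpow : ∀ m : ℕ, Good ((α * α) ^ m) := by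
      intro m
      induction m with
      | zero => exact ⟨o, fun h hh => hh⟩
      | succ m ih => rw [pow_succ]; exact hgood_mul _ _ ih hg
    obtain ⟨m, hm⟩ := hα
    have h3 := hpow (m + 1)
    rwa [← pow_two, ← pow_mul, show 2 * (m + 1) = orderOf α + 1 by omega, pow_succ,
      pow_orderOf_eq_one, one_mul] at h3
  obtain ⟨o₁, ho⟩ : ∃ o₁, o ≠ o₁ := by
    by_contra! h
    exact hα1 ⟨o, fun g _ => (h _).symm⟩
  let φ₁ : G →* Equiv.Perm Ω := G.subtype.comp α.toMonoidHom
  let φ₂ : G →* Equiv.Perm Ω := G.subtype.comp (α * α).toMonoidHom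
  have htt' : ∀ β : MulAut G, TwoTrans (G.subtype.comp β.toMonoidHom) := fun β a b c d hab hcd => by
    obtain ⟨g, hg⟩ := htt a b c d hab hcd
    exact ⟨β.symm g, by simpa using hg⟩
  -- row sums divide the stabiliser order
  have hdvd : ∀ (β : MulAut G) (y : Ω),
      (Finset.univ.filter fun z => SameOrbit G.subtype (G.subtype.comp β.toMonoidHom) (o, y) (o, z)).card
        ∣ Nat.card H := by
    intro β y
    letI : MulAction H Ω := MulAction.compHom Ω ((G.subtype.comp β.toMonoidHom).comp H.subtype)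
    have hset : ((Finset.univ.filter fun z =>
        SameOrbit G.subtype (G.subtype.comp β.toMonoidHom) (o, y) (o, z)) : Set Ω) =
        MulAction.orbit H y := by
      ext z
      simp only [Finset.coe_filter, Finset.mem_univ, true_and, Set.mem_setOf_eq]
      constructor
      · rintro ⟨g, hg⟩
        exact ⟨⟨g, congrArg Prod.fst hg⟩, congrArg Prod.snd hg⟩
      · rintro ⟨⟨g, hg⟩, hz⟩
        exact ⟨g, Prod.ext hg hz⟩
    rw [← Set.ncard_coe_finset, hset, ← MulAction.index_stabilizer]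
    exact Subgroup.index_dvd_card _
  have hn1 : 1 < Fintype.card Ω := Fintype.one_lt_card_iff.2 ⟨o, o₁, ho⟩
  have hnotTrans : ∀ β : MulAut G, ∃ p q, ¬ SameOrbit G.subtype (G.subtype.comp β.toMonoidHom) p q := by
    intro β
    by_contra! hall
    have h3 := hdvd β o
    rw [Finset.filter_true_of_mem (fun z _ => hall _ _), Finset.card_univ] at h3
    have h4 := Nat.eq_one_of_dvd_one ((hidx ▸ hHall) ▸ Nat.dvd_gcd h3 dvd_rfl)
    omega
  obtain ⟨N, y, k, x, l, hN, hk, hkn, hky⟩ := exists_incidence htt (htt' α) ho (hnotTrans α)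
  obtain ⟨M, z, k', x', l', hM, hk', hk'n, hkz⟩ :=
    exists_incidence htt (htt' (α * α)) ho (hnotTrans (α * α))
  refine no_three_classes (φ₀ := G.subtype) (φ₁ := φ₁) (φ₂ := φ₂) ho hN ?_ ?_ hM hk ?_ ?_ hk'n ?_
  · intro g a b
    exact hN.inv (α g) a b
  · intro A hA g a b
    have h3 := hA (α.symm g) a b
    simpa [φ₁, φ₂] using h3
  · have : (1 : ℤ) < Fintype.card Ω := by exact_mod_cast hn1
    omega
  · by_contra hlt
    apply hα2
    have hcard : (Finset.univ.filter fun w =>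
        SameOrbit G.subtype (G.subtype.comp (α * α).toMonoidHom) (o, z) (o, w)).card = 1 := by omega
    refine ⟨z, fun g hg => ?_⟩
    exact (Finset.card_eq_one.1 hcard).elim fun w hw => by
      have e1 : z ∈ ({w} : Finset Ω) :=
        hw ▸ Finset.mem_filter.2 ⟨Finset.mem_univ _, 1, by rw [map_one]; rfl⟩
      have e2 : (((α * α) g : G) : Equiv.Perm Ω) z ∈ ({w} : Finset Ω) :=
        hw ▸ Finset.mem_filter.2 ⟨Finset.mem_univ _, g, Prod.ext hg rfl⟩
      rw [Finset.mem_singleton] at e1 e2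
      exact e2.trans e1.symm
  · rw [hky, Int.isCoprime_iff_gcd_eq_one]
    have h3 : Nat.Coprime _ H.index := Nat.Coprime.coprime_dvd_left (hdvd α y) hHall
    rw [hidx] at h3
    exact_mod_cast h3

end Cfsg.Agent.S4290
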