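import Cfsg.Statements.S4292

import Cfsg.Agent.Frobenius.Complement
import Cfsg.Agent.Frobenius.ChangeField
set_option autoImplicit false
open Cfsg

namespace Cfsg.Agent.S4292

open CfsgLib.Frobenius

/-- Restriction of an occurrence to a subgroup embedded by an injective homomorphism. -/
lemma occurs_of_injective {A B : Type*} [Group A] [Finite A] [Nontrivial A] [Group B] [Finite B]
    (f : A →* B) (hf : Function.Injective f)
    (h : ∃ (L : Type) (_ : Group L) (_ : Finite L) (H : Subgroup L),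
      Cfsg.IsFrobeniusComplement H ∧ Nonempty (B ≃* H)) :
    ∃ (L : Type) (_ : Group L) (_ : Finite L) (H : Subgroup L),
      Cfsg.IsFrobeniusComplement H ∧ Nonempty (A ≃* H) := by
  obtain ⟨p, _, d, ρ, hd, -, -, hρ⟩ := exists_prime_rep_of_occurs h
  have : Nonempty (Fin d) := ⟨⟨0, hd⟩⟩
  exact occurs_of_rep (ρ.comp f)
    fun a ha v hv => hρ (f a) (fun e => ha (hf (e.trans f.map_one.symm))) v hv

variable {A B k Va Vb : Type*} [Group A] [Group B] [Field k] [AddCommGroup Va] [Module k Va]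
  [AddCommGroup Vb] [Module k Vb] (ρa : Representation k A Va) (ρb : Representation k B Vb)

/-- The action of a product on linear maps. -/
def homRep : Representation k (A × B) (Va →ₗ[k] Vb) where
  toFun g :=
    { toFun := fun f => ρb g.2 ∘ₗ f ∘ₗ ρa g.1⁻¹
      map_add' := fun f f' => by ext; simp
      map_smul' := fun c f => by ext; simp }
  map_one' := by
    refine LinearMap.ext fun f => LinearMap.ext fun v => ?_
    show ρb 1 (f (ρa 1⁻¹ v)) = f v
    rw [inv_one, Linear.rep_one_apply, Linear.rep_one_apply]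
  map_mul' g g' := by
    refine LinearMap.ext fun f => LinearMap.ext fun v => ?_
    show ρb (g.2 * g'.2) (f (ρa (g.1 * g'.1)⁻¹ v)) = ρb g.2 (ρb g'.2 (f (ρa g'.1⁻¹ (ρa g.1⁻¹ v))))
    rw [mul_inv_rev, Linear.rep_mul_apply, Linear.rep_mul_apply]

lemma homRep_fpf [Finite A] [Finite B] [FiniteDimensional k Va]
    (ha : ∀ a : A, a ≠ 1 → ∀ v, ρa a v = v → v = 0) (hb : ∀ b : B, b ≠ 1 → ∀ v, ρb b v = v → v = 0)
    (hco : (Nat.card A).Coprime (Nat.card B)) :
    ∀ g : A × B, g ≠ 1 → ∀ f, homRep ρa ρb g f = f → f = 0 := by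
  intro g hg f hf
  have hpow : ∀ n : ℕ, homRep ρa ρb (g ^ n) f = f := by
    intro n
    induction n with
    | zero => rw [pow_zero, Linear.rep_one_apply]
    | succ n ih => rw [pow_succ, Linear.rep_mul_apply, hf, ih]
  by_cases h1 : g.1 = 1
  · have h2 : g.2 ≠ 1 := fun e => hg (Prod.ext h1 e)
    refine LinearMap.ext fun v => hb g.2 h2 _ ?_
    have := LinearMap.congr_fun hf v
    change ρb g.2 (f (ρa g.1⁻¹ v)) = f v at this
    rwa [h1, inv_one, Linear.rep_one_apply] at this
  · set a := g.1 ^ Nat.card B with hadef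
    have ha1 : a ≠ 1 := fun e => h1 (orderOf_eq_one_iff.1
      (Nat.eq_one_of_dvd_coprimes hco (orderOf_dvd_natCard g.1) (orderOf_dvd_of_pow_eq_one e)))
    have h := hpow (Nat.card B)
    have hfix : ∀ v, f (ρa a⁻¹ v) = f v := fun v => by
      have := LinearMap.congr_fun h v
      change ρb (g.2 ^ Nat.card B) (f (ρa (g.1 ^ Nat.card B)⁻¹ v)) = f v at this
      rwa [pow_card_eq_one', Linear.rep_one_apply] at this
    have hinj : Function.Injective (ρa a⁻¹ - 1 : Va →ₗ[k] Va) := by
      rw [injective_iff_map_eq_zero]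
      exact fun v hv => ha a⁻¹ (inv_ne_one.2 ha1) v (sub_eq_zero.1 hv)
    refine LinearMap.ext fun v => ?_
    obtain ⟨w, rfl⟩ := LinearMap.surjective_of_injective hinj v
    show f (ρa a⁻¹ w - w) = 0
    rw [map_sub, hfix, sub_self]


/-- Let A and B be nontrivial finite groups. Then the direct product A × B occurs as a Frobenius complement if and only if A and B both occur as Frobenius complements and the orders of A and B are coprime. -/
theorem result {A B : Type*} [Group A] [Finite A] [Nontrivial A] [Group B] [Finite B] [Nontrivial B] :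
    (∃ (L : Type) (_ : Group L) (_ : Finite L) (H : Subgroup L), Cfsg.IsFrobeniusComplement H ∧ Nonempty ((A × B) ≃* H)) ↔
    ((∃ (L : Type) (_ : Group L) (_ : Finite L) (H : Subgroup L), Cfsg.IsFrobeniusComplement H ∧ Nonempty (A ≃* H)) ∧
     (∃ (L : Type) (_ : Group L) (_ : Finite L) (H : Subgroup L), Cfsg.IsFrobeniusComplement H ∧ Nonempty (B ≃* H)) ∧
     (Nat.card A).Coprime (Nat.card B)) := by
  constructor
  · intro h
    refine ⟨occurs_of_injective (MonoidHom.inl A B) (fun x y e => congrArg Prod.fst e) h,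
      occurs_of_injective (MonoidHom.inr A B) (fun x y e => congrArg Prod.snd e) h, ?_⟩
    obtain ⟨p, _, d, ρ, hd, -, -, hρ⟩ := exists_prime_rep_of_occurs h
    have : Nonempty (Fin d) := ⟨⟨0, hd⟩⟩
    refine Nat.coprime_of_dvd fun q hq hqA hqB => ?_
    have := Fact.mk hq
    obtain ⟨a, ha⟩ := exists_prime_orderOf_dvd_card' q hqA
    obtain ⟨b, hb⟩ := exists_prime_orderOf_dvd_card' q hqB
    have hcyc : IsCyclic ((Subgroup.zpowers a).prod (Subgroup.zpowers b) : Subgroup (A × B)) :=
      Linear.isCyclic_subgroup_of_comm hρ _ ⟨⟨by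
        intro u v
        obtain ⟨i, hi⟩ := Subgroup.mem_zpowers_iff.1 u.2.1
        obtain ⟨j, hj⟩ := Subgroup.mem_zpowers_iff.1 u.2.2
        obtain ⟨i', hi'⟩ := Subgroup.mem_zpowers_iff.1 v.2.1
        obtain ⟨j', hj'⟩ := Subgroup.mem_zpowers_iff.1 v.2.2
        refine Subtype.ext (Prod.ext ?_ ?_)
        · change u.1.1 * v.1.1 = v.1.1 * u.1.1
          rw [← hi, ← hi']
          exact zpow_mul_comm a i i'
        · change u.1.2 * v.1.2 = v.1.2 * u.1.2
          rw [← hj, ← hj']
          exact zpow_mul_comm b j j'⟩⟩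
    have : IsCyclic (Subgroup.zpowers a × Subgroup.zpowers b) :=
      isCyclic_of_surjective _ ((Subgroup.zpowers a).prodEquiv (Subgroup.zpowers b)).surjective
    have hco := (Group.isCyclic_prod_iff.1 this).2.2
    rw [Nat.card_zpowers, Nat.card_zpowers, ha, hb, Nat.coprime_self] at hco
    exact hq.one_lt.ne' hco
  · rintro ⟨hA, hB, hco⟩
    obtain ⟨pa, _, da, σa, hda, -, -, hσa⟩ := exists_prime_rep_of_occurs hA
    obtain ⟨pb, _, db, σb, hdb, -, -, hσb⟩ := exists_prime_rep_of_occurs hB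
    have : Nonempty (Fin da) := ⟨⟨0, hda⟩⟩
    have : Nonempty (Fin db) := ⟨⟨0, hdb⟩⟩
    obtain ⟨r, hrgt, hr⟩ := Nat.exists_infinite_primes (Nat.card A + Nat.card B + 1)
    have := Fact.mk hr
    have hnd : ∀ n : ℕ, 0 < n → n < r → (n : ZMod r) ≠ 0 := fun n h0 hlt => by
      rw [Ne, CharP.cast_eq_zero_iff (ZMod r) r]
      exact fun hd => absurd (Nat.le_of_dvd h0 hd) (not_le.2 hlt)
    obtain ⟨ea, ρa, hea, hρa⟩ :=
      ChangeField.exists_rep_any_field hσa (ZMod r) (hnd _ Nat.card_pos (by omega))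
    obtain ⟨eb, ρb, heb, hρb⟩ :=
      ChangeField.exists_rep_any_field hσb (ZMod r) (hnd _ Nat.card_pos (by omega))
    have : Nonempty (Fin eb) := ⟨⟨0, heb⟩⟩
    have : Finite ((Fin ea → ZMod r) →ₗ[ZMod r] (Fin eb → ZMod r)) :=
      Finite.of_injective _ DFunLike.coe_injective
    have : Nontrivial ((Fin ea → ZMod r) →ₗ[ZMod r] (Fin eb → ZMod r)) := by
      refine ⟨⟨(LinearMap.proj (⟨0, hea⟩ : Fin ea)).smulRight (fun _ => 1), 0, fun e => ?_⟩⟩
      have := congrFun (LinearMap.congr_fun e (fun _ => 1)) ⟨0, heb⟩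
      simp at this
    exact occurs_of_rep (homRep ρa ρb) (homRep_fpf ρa ρb hρa hρb hco)

end Cfsg.Agent.S4292
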