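import Cfsg.Statements.S4293

import Cfsg.Agent.Frobenius.Complement
import Cfsg.Agent.Frobenius.ChangeField
set_option autoImplicit false
open Cfsg

namespace Cfsg.Agent.S4293

open CfsgLib.Frobenius

lemma fpf_mulLeft {D : Type*} [DivisionRing D] {H : Subgroup Dˣ} {h : H} (h1 : h ≠ 1) {v : D}
    (e : ((h : Dˣ) : D) * v = v) : v = 0 := by
  by_contra hv
  exact h1 (Subtype.ext (Units.ext (mul_right_cancel₀ hv (e.trans (one_mul v).symm))))


/-- A nontrivial finite subgroup of the multiplicative group of a division ring occurs as a Frobenius complement of some finite Frobenius group. -/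
theorem result {D : Type*} [DivisionRing D] (H : Subgroup Dˣ) [Finite H] (hH : H ≠ ⊥) :
    ∃ (L : Type) (_ : Group L) (_ : Finite L) (C : Subgroup L), Cfsg.IsFrobeniusComplement C ∧ Nonempty (H ≃* C) := by
  have : Nontrivial H := (Subgroup.nontrivial_iff_ne_bot H).2 hH
  obtain ⟨r, hrgt, hr⟩ := Nat.exists_infinite_primes (Nat.card H + 1)
  have := Fact.mk hr
  have hcard : (Nat.card H : ZMod r) ≠ 0 := by
    rw [Ne, CharP.cast_eq_zero_iff (ZMod r) r]
    intro hd
    have := Nat.le_of_dvd Nat.card_pos hd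
    omega
  suffices h : ∃ (d : ℕ) (ρ : Representation (ZMod r) H (Fin d → ZMod r)), 0 < d ∧
      ∀ a : H, a ≠ 1 → ∀ v, ρ a v = v → v = 0 by
    obtain ⟨d, ρ, hd, hρ⟩ := h
    have : Nonempty (Fin d) := ⟨⟨0, hd⟩⟩
    exact occurs_of_rep ρ hρ
  obtain ⟨p, hp⟩ := CharP.exists D
  rcases CharP.char_is_prime_or_zero D p with hpp | rfl
  · have := Fact.mk hpp
    let _ : Algebra (ZMod p) D := ZMod.algebra D p
    let σ : Representation (ZMod p) H D :=
      ((Algebra.lmul (ZMod p) D).toMonoidHom).comp ((Units.coeHom D).comp H.subtype)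
    exact ChangeField.exists_rep_any_field (σ := σ) (fun a ha v hv => fpf_mulLeft ha hv) _ hcard
  · have := CharP.charP_to_charZero D
    let σ : Representation ℚ H D :=
      ((Algebra.lmul ℚ D).toMonoidHom).comp ((Units.coeHom D).comp H.subtype)
    exact ChangeField.exists_rep_any_field_of_rat (σ := σ) (fun a ha v hv => fpf_mulLeft ha hv) _ hcard

end Cfsg.Agent.S4293
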