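import Cfsg.Statements.S4294
import Cfsg.Agent.S4293
import Cfsg.Agent.DivRing65.Main

set_option autoImplicit false
open Cfsg

namespace Cfsg.Agent.S4294

/-- A finite non-solvable subgroup of the multiplicative group of a division ring is isomorphic to the binary icosahedral group SL(2,5). -/
theorem result {D : Type*} [DivisionRing D] (H : Subgroup Dˣ) [Finite H] (hH : ¬ Group.IsSolvable H) :
    Nonempty (H ≃* Matrix.SpecialLinearGroup (Fin 2) (ZMod 5)) := by
  have hne : H ≠ ⊥ := fun h => hH (by
    subst h
    exact Group.isSolvable_of_comm fun a b => Subsingleton.elim _ _)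
  exact CfsgLib.DivRing65.main_theorem ((Units.coeHom D).comp H.subtype)
    (fun a b h => Subtype.ext (Units.ext h)) hH
    (CfsgLib.Frobenius.Zass.IsFpf.of_occurs (Cfsg.Agent.S4293.result H hne))

end Cfsg.Agent.S4294
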