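import Cfsg.Statements.S4295

import Cfsg.Agent.Frobenius.Complement
import Cfsg.Agent.Frobenius.Quaternion
set_option autoImplicit false
open Cfsg

namespace Cfsg.Agent.S4295

open CfsgLib.Frobenius

lemma quat_cases (q : QuaternionGroup 2) (hq : q ≠ 1) :
    q = QuaternionGroup.a 2 ∨ q * q = QuaternionGroup.a 2 := by
  revert hq
  revert q
  decide


/-- For a natural number m the following are equivalent: (a) some finite group has a Frobenius complement isomorphic to the quaternion group of order 8 whose Frobenius kernel (the identity together with the elements lying in no conjugate of the complement) has exactly m elements; (b) m is an odd perfect square greater than 1. -/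
theorem result (m : ℕ) :
    (∃ (L : Type) (_ : Group L) (_ : Finite L) (H : Subgroup L), Cfsg.IsFrobeniusComplement H ∧
        Nonempty (H ≃* QuaternionGroup 2) ∧ Nat.card (Cfsg.frobeniusKernel H) = m) ↔
    (Odd m ∧ IsSquare m ∧ 1 < m) := by
  constructor
  · rintro ⟨L, _, _, H, hH, ⟨e⟩, rfl⟩
    obtain ⟨K, hKn, hK⟩ := exists_kernel hH
    have hres := FPF.isSquare_card_of_quaternion (FPF.conj_fpf hH hK)
      (a := e.symm (QuaternionGroup.a 1)) (b := e.symm (QuaternionGroup.xa 0))
      (z := e.symm (QuaternionGroup.a 2))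
      (by rw [← map_mul]; exact congrArg e.symm (by decide))
      (by rw [← map_mul]; exact congrArg e.symm (by decide))
      (fun h => absurd (e.symm.map_eq_one_iff.1 h) (by decide))
      (by rw [← map_mul]; exact e.symm.map_eq_one_iff.2 (by decide))
      (by rw [← map_inv, ← map_mul, ← map_mul, ← map_inv]; exact congrArg e.symm (by decide))
    rw [← hK]
    exact ⟨hres.1, hres.2, show 1 < Nat.card K from (kernel_card hH hK).symm ▸ one_lt_index hH⟩
  · rintro ⟨hodd, ⟨s, rfl⟩, h1⟩
    have hs0 : s ≠ 0 := by rintro rfl; simp at h1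
    let ι := Fin s.primeFactorsList.length
    let p : ι → ℕ := fun i => s.primeFactorsList.get i
    have hp : ∀ i, (p i).Prime := fun i => Nat.prime_of_mem_primeFactorsList (List.get_mem _ i)
    have : ∀ i, Fact (p i).Prime := fun i => ⟨hp i⟩
    have hprod : ∏ i, p i = s := by
      conv_rhs => rw [← Nat.prod_primeFactorsList hs0]
      exact Fin.prod_univ_getElem s.primeFactorsList
    choose x y hxy using fun i => ZMod.sq_add_sq (p i) (-1)
    have h2 : ∀ i, (2 : ZMod (p i)) ≠ 0 := by
      intro i h
      have h' : ((2 : ℕ) : ZMod (p i)) = 0 := by exact_mod_cast h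
      rw [CharP.cast_eq_zero_iff (ZMod (p i)) (p i)] at h'
      have hd : p i ∣ s * s := (Nat.dvd_of_mem_primeFactorsList (List.get_mem _ i)).mul_right s
      rw [(Nat.prime_dvd_prime_iff_eq (hp i) Nat.prime_two).1 h'] at hd
      exact (Nat.not_even_iff_odd.2 hodd) (even_iff_two_dvd.2 hd)
    let R := (i : ι) → ZMod (p i)
    have hR : Nat.card R = s := by
      rw [Nat.card_pi]; simp only [Nat.card_zmod]; exact hprod
    let A : Matrix (Fin 2) (Fin 2) R := !![0, -1; 1, 0]
    let X : Matrix (Fin 2) (Fin 2) R := !![x, y; y, -x]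
    have hA2 : A ^ 2 = -1 := by
      rw [pow_two]
      ext i j
      fin_cases i <;> fin_cases j <;> simp [A, Matrix.mul_apply, Fin.sum_univ_two]
    have hA : A ^ (2 * 2) = 1 := by rw [pow_mul, hA2, neg_one_sq]
    have hxy' : x * x + y * y = (-1 : R) := funext fun i => by
      simp only [Pi.add_apply, Pi.mul_apply, Pi.neg_apply, Pi.one_apply, ← pow_two]
      exact hxy i
    have hX : X * X = A ^ 2 := by
      rw [hA2]
      refine Matrix.ext fun i j => ?_
      fin_cases i <;> fin_cases j <;> simp [X, Matrix.mul_apply, Fin.sum_univ_two] <;>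
        first | linear_combination hxy' | ring
    have hAX : A * X * A = X := by
      refine Matrix.ext fun i j => ?_
      fin_cases i <;> fin_cases j <;> simp [A, X, Matrix.mul_apply, Fin.sum_univ_two] <;> ring
    let ρ : Representation R (QuaternionGroup 2) (Fin 2 → R) :=
      (Matrix.toLinAlgEquiv' (R := R) (n := Fin 2)).toMonoidHom.comp (quatHom A X hA hX hAX)
    have hz : ∀ v, ρ (QuaternionGroup.a 2) v = -v := fun v => by
      show Matrix.toLinAlgEquiv' (quatHom A X hA hX hAX (QuaternionGroup.a 2)) v = -v
      rw [Matrix.toLinAlgEquiv'_apply, quatHom_a, show (2 : ZMod (2 * 2)).val = 2 from rfl, hA2,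
        Matrix.neg_mulVec, Matrix.one_mulVec]
    have hρ : ∀ q : QuaternionGroup 2, q ≠ 1 → ∀ v, ρ q v = v → v = 0 := by
      intro q hq v hv
      have hv' : v = -v := by
        rcases quat_cases q hq with rfl | h
        · exact hv.symm.trans (hz v)
        · rw [← hz, ← h, Linear.rep_mul_apply, hv, hv]
      funext j i
      have h := congrFun (congrFun hv' j) i
      rw [Pi.neg_apply, Pi.neg_apply, eq_neg_iff_add_eq_zero, ← two_mul] at h
      exact (mul_eq_zero.1 h).resolve_left (h2 i)
    let φ := Linear.repMulAut ρ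
    have hφ := Linear.repMulAut_fpf hρ
    have hN : Nat.card (Multiplicative (Fin 2 → R)) = s * s := by
      rw [Nat.card_congr Multiplicative.toAdd, Nat.card_fun, hR, Nat.card_fin, pow_two]
    have : Nontrivial (Multiplicative (Fin 2 → R)) :=
      Finite.one_lt_card_iff_nontrivial.1 (hN ▸ h1)
    have : Nontrivial (QuaternionGroup 2) := ⟨⟨QuaternionGroup.a 2, 1, by decide⟩⟩
    refine ⟨Multiplicative (Fin 2 → R) ⋊[φ] QuaternionGroup 2, inferInstance, FPF.finite_semidirect,
      (SemidirectProduct.inr : QuaternionGroup 2 →* _).range, isFrobeniusComplement_inr φ hφ,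
      ⟨(MonoidHom.ofInjective SemidirectProduct.inr_injective).symm⟩, ?_⟩
    rw [frobeniusKernel_inr φ hφ, ← hN]
    exact (Nat.card_congr (MonoidHom.ofInjective SemidirectProduct.inl_injective).toEquiv).symm

end Cfsg.Agent.S4295
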