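import Cfsg.Statements.S4296

import Cfsg.Agent.Frobenius.Complement
import Cfsg.Agent.Frobenius.Quaternion
set_option autoImplicit false
open Cfsg

namespace Cfsg.Agent.S4296

open CfsgLib.Frobenius


/-- Let H be a Frobenius complement in a finite group, and suppose some Sylow subgroup of H is not cyclic. Then the number of elements of the Frobenius kernel (the identity together with the elements lying in no conjugate of H) is an odd perfect square. -/
theorem result {L : Type*} [Group L] [Finite L] (H : Subgroup L) (hF : Cfsg.IsFrobeniusComplement H)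
    (hZ : ∃ (p : ℕ) (_ : Fact p.Prime) (P : Sylow p H), ¬ IsCyclic P) :
    Odd (Nat.card (Cfsg.frobeniusKernel H)) ∧ IsSquare (Nat.card (Cfsg.frobeniusKernel H)) := by
  obtain ⟨p, hp, P, hP⟩ := hZ
  obtain ⟨K, hKn, hK⟩ := exists_kernel hF
  obtain ⟨r, _, d, ρ, hd, -, hρ⟩ := exists_prime_rep hF
  have : Nonempty (Fin d) := ⟨⟨0, hd⟩⟩
  by_cases hp2 : p = 2
  swap
  · exact absurd (Linear.isCyclic_odd_pSubgroup hρ hp2 (P : Subgroup H) P.2) hP
  subst hp2
  rcases Linear.cyclic_or_quaternion hρ (P : Subgroup H) P.2 with h | ⟨m, hm, ⟨e⟩⟩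
  · exact absurd h hP
  obtain ⟨m, rfl⟩ : ∃ j, m = j + 1 := ⟨m - 1, by omega⟩
  let f : QuaternionGroup (2 ^ (m + 1)) →* H := ((P : Subgroup H).subtype).comp e.symm.toMonoidHom
  have hf : Function.Injective f := (P : Subgroup H).subtype_injective.comp e.symm.injective
  let a : QuaternionGroup (2 ^ (m + 1)) := QuaternionGroup.a ((2 ^ m : ℕ) : ZMod (2 * 2 ^ (m + 1)))
  let b : QuaternionGroup (2 ^ (m + 1)) := QuaternionGroup.xa 0
  let z : QuaternionGroup (2 ^ (m + 1)) :=
    QuaternionGroup.a ((2 ^ (m + 1) : ℕ) : ZMod (2 * 2 ^ (m + 1)))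
  have ha : a * a = z := by
    simp only [a, z, QuaternionGroup.a_mul_a, ← Nat.cast_add, pow_succ, mul_two]
  have hb : b * b = z := by
    simp only [b, z, QuaternionGroup.xa_mul_xa, add_zero, sub_zero]
  have hzz : z * z = 1 := by
    have e0 : ((2 ^ (m + 1) : ℕ) : ZMod (2 * 2 ^ (m + 1))) + ((2 ^ (m + 1) : ℕ) : ZMod (2 * 2 ^ (m + 1))) = 0 := by
      rw [← Nat.cast_add, CharP.cast_eq_zero_iff (ZMod (2 * 2 ^ (m + 1))) (2 * 2 ^ (m + 1))]
      exact dvd_of_eq (two_mul _)
    simp only [z, QuaternionGroup.a_mul_a, e0, QuaternionGroup.a_zero]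
  have hz1 : z ≠ 1 := by
    intro h
    rw [← QuaternionGroup.a_zero] at h
    have := QuaternionGroup.a.inj h
    rw [CharP.cast_eq_zero_iff (ZMod (2 * 2 ^ (m + 1))) (2 * 2 ^ (m + 1))] at this
    have h1 := Nat.le_of_dvd (by positivity) this
    have h2 : 0 < 2 ^ (m + 1) := by positivity
    omega
  have hab : b * a * b⁻¹ = a⁻¹ := by
    rw [mul_inv_eq_iff_eq_mul, eq_inv_mul_iff_mul_eq]
    simp only [a, b, QuaternionGroup.xa_mul_a, QuaternionGroup.a_mul_xa]
    congr 1
    ring
  have hres := FPF.isSquare_card_of_quaternion (FPF.conj_fpf hF hK) (a := f a) (b := f b) (z := f z)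
    (by rw [← map_mul, ha]) (by rw [← map_mul, hb]) (fun h => hz1 (hf (h.trans f.map_one.symm)))
    (by rw [← map_mul, hzz, map_one]) (by rw [← map_inv, ← map_mul, ← map_mul, hab, map_inv])
  rw [← hK]
  exact hres

end Cfsg.Agent.S4296
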