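import Cfsg.Statements.S4297

import Cfsg.Agent.Frobenius.Complement
import Cfsg.Agent.Frobenius.Quaternion
set_option autoImplicit false
open Cfsg

namespace Cfsg.Agent.S4297

open CfsgLib.Frobenius


/-- For every n ≥ 2 the dicyclic group of order 4n (generated by an element a of order 2n and an element x with x² = aⁿ and x a x⁻¹ = a⁻¹) occurs as a Frobenius complement of some finite Frobenius group. -/
theorem result (n : ℕ) (hn : 2 ≤ n) :
    ∃ (L : Type) (_ : Group L) (_ : Finite L) (H : Subgroup L), Cfsg.IsFrobeniusComplement H ∧ Nonempty (H ≃* QuaternionGroup n) := by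
  have : NeZero n := ⟨by omega⟩
  obtain ⟨r, hr, hr2, hmod⟩ := Nat.exists_prime_gt_modEq_one 2 (k := 2 * n) (by omega)
  have := Fact.mk hr
  have h2 : (2 : ZMod r) ≠ 0 := by
    intro h
    have h' : ((2 : ℕ) : ZMod r) = 0 := by exact_mod_cast h
    rw [CharP.cast_eq_zero_iff (ZMod r) r] at h'
    have := Nat.le_of_dvd two_pos h'
    omega
  obtain ⟨g, hg⟩ := IsCyclic.exists_ofOrder_eq_natCard (α := (ZMod r)ˣ)
  obtain ⟨c, hc⟩ : 2 * n ∣ orderOf g := by
    rw [hg, Nat.card_units, Nat.card_zmod]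
    exact (Nat.modEq_iff_dvd' hr.one_lt.le).1 hmod.symm
  set ζ := g ^ c with hζdef
  have hζ : orderOf ζ = 2 * n := by
    have hc0 : c ≠ 0 := by rintro rfl; simp [(orderOf_pos g).ne'] at hc
    rw [hζdef, orderOf_pow' _ hc0, hc, Nat.gcd_mul_left_left,
      Nat.mul_div_cancel _ (Nat.pos_of_ne_zero hc0)]
  let A : Matrix (Fin 2) (Fin 2) (ZMod r) := !![(ζ : ZMod r), 0; 0, ((ζ⁻¹ : (ZMod r)ˣ) : ZMod r)]
  let X : Matrix (Fin 2) (Fin 2) (ZMod r) := !![0, -1; 1, 0]
  have hApow : ∀ k : ℕ, A ^ k = !![((ζ ^ k : (ZMod r)ˣ) : ZMod r), 0; 0, ((ζ⁻¹ ^ k : (ZMod r)ˣ) : ZMod r)] := by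
    intro k
    induction k with
    | zero => simp [Matrix.one_fin_two]
    | succ k ih =>
      rw [pow_succ, ih]
      simp only [A, Matrix.mul_fin_two, pow_succ, Units.val_mul, mul_zero, zero_mul, add_zero, zero_add]
  have hn1 : ((ζ ^ n : (ZMod r)ˣ) : ZMod r) = -1 := by
    have hsq : ((ζ ^ n : (ZMod r)ˣ) : ZMod r) * ((ζ ^ n : (ZMod r)ˣ) : ZMod r) = 1 := by
      rw [← Units.val_mul, ← pow_add, ← two_mul, ← hζ, pow_orderOf_eq_one, Units.val_one]
    rcases mul_self_eq_one_iff.1 hsq with h | h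
    · have := Nat.le_of_dvd (by omega) (orderOf_dvd_of_pow_eq_one (Units.ext h : ζ ^ n = 1))
      omega
    · exact h
  have hn1' : ((ζ⁻¹ ^ n : (ZMod r)ˣ) : ZMod r) = -1 := by
    have h : ζ ^ n = -1 := Units.ext (by rw [hn1, Units.val_neg, Units.val_one])
    rw [inv_pow, h, inv_neg, inv_one, Units.val_neg, Units.val_one]
  have hA : A ^ (2 * n) = 1 := by
    rw [hApow, ← hζ, pow_orderOf_eq_one, inv_pow, pow_orderOf_eq_one, inv_one, Units.val_one,
      Matrix.one_fin_two]
  have hX : X * X = A ^ n := by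
    rw [hApow, hn1, hn1']
    simp only [X, Matrix.mul_fin_two, mul_zero, zero_mul, add_zero, zero_add, neg_mul, one_mul, mul_one]
  have hAX : A * X * A = X := by
    simp only [A, X, Matrix.mul_fin_two, mul_zero, zero_mul, add_zero, zero_add, mul_neg, neg_mul,
      mul_one, one_mul, neg_zero, Units.mul_inv, Units.inv_mul]
  let ρ : Representation (ZMod r) (QuaternionGroup n) (Fin 2 → ZMod r) :=
    (Matrix.toLinAlgEquiv' (R := ZMod r) (n := Fin 2)).toMonoidHom.comp (quatHom A X hA hX hAX)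
  have hρ : ∀ q : QuaternionGroup n, ∀ v, ρ q v = Matrix.mulVec (quatHom A X hA hX hAX q) v :=
    fun q v => Matrix.toLinAlgEquiv'_apply _ _
  have : Nontrivial (QuaternionGroup n) :=
    Finite.one_lt_card_iff_nontrivial.1 (by rw [Nat.card_eq_fintype_card, QuaternionGroup.card]; omega)
  obtain ⟨L, _, _, H, hH, ⟨e⟩⟩ := occurs_of_rep ρ fun q hq v hv => by
    rw [hρ] at hv
    have e0 := congrFun hv 0
    have e1 := congrFun hv 1
    match q with
    | QuaternionGroup.a i =>
      have hi : i ≠ 0 := by rintro rfl; exact hq rfl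
      have hne : ζ ^ i.val ≠ 1 := by
        intro h
        have h2 := orderOf_dvd_of_pow_eq_one h
        rw [hζ] at h2
        exact hi ((ZMod.val_eq_zero i).1 (Nat.eq_zero_of_dvd_of_lt h2 (ZMod.val_lt i)))
      rw [quatHom_a, hApow] at e0 e1
      simp [Matrix.mulVec, dotProduct, Fin.sum_univ_two] at e0 e1
      ext j
      fin_cases j
      · by_contra hv0
        refine hne (Units.ext ?_)
        rw [Units.val_one, Units.val_pow_eq_pow_val]
        exact mul_right_cancel₀ hv0 (e0.trans (one_mul (v 0)).symm)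
      · by_contra hv1
        refine hne (inv_injective (Units.ext ?_))
        rw [inv_one, Units.val_one, ← inv_pow, Units.val_pow_eq_pow_val]
        refine mul_right_cancel₀ hv1 (Eq.trans ?_ (one_mul (v 1)).symm)
        rw [Units.val_inv_eq_inv_val, inv_pow]
        exact e1
    | QuaternionGroup.xa i =>
      rw [quatHom_xa, hApow] at e0 e1
      simp [X, Matrix.mulVec, dotProduct, Matrix.mul_apply, Fin.sum_univ_two] at e0 e1
      have hu : ((ζ : ZMod r) ^ i.val)⁻¹ * (ζ : ZMod r) ^ i.val = 1 :=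
        inv_mul_cancel₀ (pow_ne_zero _ ζ.ne_zero)
      have hv0 : v 0 = 0 := by
        have h : (2 : ZMod r) * v 0 = 0 := by
          rw [← e1] at e0
          linear_combination (-1 : ZMod r) * e0 - v 0 * hu
        exact (mul_eq_zero.1 h).resolve_left h2
      ext j
      fin_cases j
      · exact hv0
      · show v 1 = 0
        rw [← e1, hv0, mul_zero]
  exact ⟨L, _, inferInstance, H, hH, ⟨e.symm⟩⟩

end Cfsg.Agent.S4297
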