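import Cfsg.Statements.S4298

import Cfsg.Agent.Frobenius.Complement
set_option autoImplicit false
open Cfsg

namespace Cfsg.Agent.S4298

open Matrix CfsgLib.Frobenius

/-- A 2×2 matrix as a quadruple. -/
abbrev Quad (R : Type) := R × R × R × R

def qmul {R : Type} [Mul R] [Add R] : Quad R → Quad R → Quad R
  | (a, b, c, d), (a', b', c', d') => (a * a' + b * c', a * b' + b * d', c * a' + d * c', c * b' + d * d')

def toQuad {R : Type} [CommRing R] (g : SpecialLinearGroup (Fin 2) R) : Quad R :=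
  (g.1 0 0, g.1 0 1, g.1 1 0, g.1 1 1)

lemma toQuad_mul {R : Type} [CommRing R] (g h : SpecialLinearGroup (Fin 2) R) :
    toQuad (g * h) = qmul (toQuad g) (toQuad h) := by
  simp [toQuad, qmul, Matrix.mul_apply, Fin.sum_univ_two]

lemma toQuad_inj {R : Type} [CommRing R] {g h : SpecialLinearGroup (Fin 2) R}
    (e : toQuad g = toQuad h) : g = h := by
  simp only [toQuad, Prod.mk.injEq] at e
  obtain ⟨e1, e2, e3, e4⟩ := e
  ext i j
  fin_cases i <;> fin_cases j <;> assumption

lemma det_toQuad {R : Type} [CommRing R] (g : SpecialLinearGroup (Fin 2) R) :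
    g.1 0 0 * g.1 1 1 - g.1 0 1 * g.1 1 0 = 1 :=
  (Matrix.det_fin_two g.1).symm.trans g.2

def imU : ZMod 3 → Quad (ZMod 5) := fun b =>
  match b.val with
  | 1 => (1, 2, 1, 3)
  | 2 => (3, 3, 4, 1)
  | _ => (1, 0, 0, 1)

def imD : ZMod 3 → Quad (ZMod 5) := fun a =>
  match a.val with
  | 2 => (4, 0, 0, 4)
  | _ => (1, 0, 0, 1)

def imW : Quad (ZMod 5) := (0, 4, 1, 0)

def imF : Quad (ZMod 3) → Quad (ZMod 5)
  | (a, b, c, d) => if c = 0 then qmul (imD a) (imU (a * b))
      else qmul (qmul (imU (a * c)) (qmul imW (imD c))) (imU (d * c))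

def qU (b : ZMod 3) : Quad (ZMod 3) := (1, b, 0, 1)
def qW : Quad (ZMod 3) := (0, 2, 1, 0)

def qWord (a : ZMod 3) : Quad (ZMod 3) := if a = 1 then (1, 0, 0, 1) else qmul qW qW

lemma check : ∀ a b c d : ZMod 3, a * d - b * c = 1 →
    (imF (qmul (a, b, c, d) qW) = qmul (imF (a, b, c, d)) imW ∧
     imF (qmul (a, b, c, d) (qU 1)) = qmul (imF (a, b, c, d)) (imU 1)) ∧
    ((imF (a, b, c, d)).1 * (imF (a, b, c, d)).2.2.2
      - (imF (a, b, c, d)).2.1 * (imF (a, b, c, d)).2.2.1 = 1) ∧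
    ((imF (a, b, c, d)).1 + (imF (a, b, c, d)).2.2.2 = 2 → (a, b, c, d) = ((1, 0, 0, 1) : Quad (ZMod 3))) ∧
    ((a, b, c, d) = if c = 0 then qmul (qWord a) (qU (a * b))
      else qmul (qmul (qU (a * c)) (qmul qW (qWord c))) (qU (d * c))) := by
  decide

/-- The embedding on elements. -/
def emb (g : SpecialLinearGroup (Fin 2) (ZMod 3)) : SpecialLinearGroup (Fin 2) (ZMod 5) :=
  ⟨!![(imF (toQuad g)).1, (imF (toQuad g)).2.1; (imF (toQuad g)).2.2.1, (imF (toQuad g)).2.2.2], by
    rw [Matrix.det_fin_two_of]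
    exact (check _ _ _ _ (det_toQuad g)).2.1⟩

lemma toQuad_emb (g : SpecialLinearGroup (Fin 2) (ZMod 3)) : toQuad (emb g) = imF (toQuad g) := rfl

def slW : SpecialLinearGroup (Fin 2) (ZMod 3) := ⟨!![0, 2; 1, 0], by decide⟩
def slU (b : ZMod 3) : SpecialLinearGroup (Fin 2) (ZMod 3) := ⟨!![1, b; 0, 1], by simp⟩

lemma toQuad_slU (b : ZMod 3) : toQuad (slU b) = qU b := rfl
lemma toQuad_slW : toQuad slW = qW := rfl

/-- The elements on which the embedding is multiplicative from the right. -/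
def good : Submonoid (SpecialLinearGroup (Fin 2) (ZMod 3)) where
  carrier := {h | ∀ g, emb (g * h) = emb g * emb h}
  one_mem' := fun g => by
    have : emb 1 = 1 := toQuad_inj (by decide)
    rw [mul_one, this, mul_one]
  mul_mem' := fun {a b} ha hb g => by
    rw [← mul_assoc, hb, ha, hb a, mul_assoc]

lemma slW_mem : slW ∈ good := fun g => by
  apply toQuad_inj
  have h : imF qW = imW := by decide
  rw [toQuad_mul, toQuad_emb, toQuad_emb, toQuad_emb, toQuad_mul, toQuad_slW, h]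
  exact ((check _ _ _ _ (det_toQuad g)).1).1

lemma slU_mem (b : ZMod 3) : slU b ∈ good := by
  have h1 : slU 1 ∈ good := fun g => by
    apply toQuad_inj
    have h : imF (qU 1) = imU 1 := by decide
    rw [toQuad_mul, toQuad_emb, toQuad_emb, toQuad_emb, toQuad_mul, toQuad_slU, h]
    exact ((check _ _ _ _ (det_toQuad g)).1).2
  have : slU b = slU 1 ^ b.val := by
    have hp : ∀ n : ℕ, slU (n : ZMod 3) = slU 1 ^ n := by
      intro n
      induction n with
      | zero => simp only [pow_zero, Nat.cast_zero]; exact toQuad_inj (by decide)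
      | succ n ih =>
        rw [pow_succ, ← ih]
        apply toQuad_inj
        simp [toQuad_mul, toQuad_slU, qU, qmul, add_comm]
    rw [← hp, ZMod.natCast_zmod_val]
  rw [this]
  exact good.pow_mem h1 _

lemma mem_good (g : SpecialLinearGroup (Fin 2) (ZMod 3)) : g ∈ good := by
  have hword : ∀ a : ZMod 3, ∃ w ∈ good, toQuad w = qWord a := fun a => by
    unfold qWord
    split_ifs
    · exact ⟨1, good.one_mem, rfl⟩
    · exact ⟨slW * slW, good.mul_mem slW_mem slW_mem, by rw [toQuad_mul, toQuad_slW]⟩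
  have h := (check _ _ _ _ (det_toQuad g)).2.2.2
  split_ifs at h
  · obtain ⟨w, hw, hwq⟩ := hword (g.1 0 0)
    have : g = w * slU (g.1 0 0 * g.1 0 1) := by
      apply toQuad_inj; rw [toQuad_mul, toQuad_slU, hwq]; exact h
    rw [this]; exact good.mul_mem hw (slU_mem _)
  · obtain ⟨w, hw, hwq⟩ := hword (g.1 1 0)
    have : g = slU (g.1 0 0 * g.1 1 0) * (slW * w) * slU (g.1 1 1 * g.1 1 0) := by
      apply toQuad_inj; simp only [toQuad_mul, toQuad_slU, toQuad_slW, hwq]; exact h
    rw [this]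
    exact good.mul_mem (good.mul_mem (slU_mem _) (good.mul_mem slW_mem hw)) (slU_mem _)

/-- The embedding of SL(2,3) in SL(2,5). -/
def embHom : SpecialLinearGroup (Fin 2) (ZMod 3) →* SpecialLinearGroup (Fin 2) (ZMod 5) :=
  MonoidHom.mk' emb fun a b => mem_good b a

lemma eq_one_of_fix (g : SpecialLinearGroup (Fin 2) (ZMod 3)) (v : Fin 2 → ZMod 5) (hv : v ≠ 0)
    (h : (embHom g).1 *ᵥ v = v) : g = 1 := by
  have : Fact (Nat.Prime 5) := ⟨by norm_num⟩
  have hd : ((embHom g).1 - 1).det = 0 :=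
    Matrix.exists_mulVec_eq_zero_iff.1 ⟨v, hv, by rw [Matrix.sub_mulVec, h, Matrix.one_mulVec, sub_self]⟩
  have hdet := det_toQuad (embHom g)
  rw [Matrix.det_fin_two] at hd
  simp [Matrix.one_apply] at hd
  refine toQuad_inj ((check _ _ _ _ (det_toQuad g)).2.2.1 ?_)
  show (embHom g).1 0 0 + (embHom g).1 1 1 = 2
  linear_combination hdet - hd


/-- The group SL(2,3) of order 24 (the binary tetrahedral group) occurs as a Frobenius complement of some finite Frobenius group. -/
theorem result :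
    ∃ (L : Type) (_ : Group L) (_ : Finite L) (H : Subgroup L), Cfsg.IsFrobeniusComplement H ∧ Nonempty (H ≃* Matrix.SpecialLinearGroup (Fin 2) (ZMod 3)) := by
  have : Fact (Nat.Prime 5) := ⟨by norm_num⟩
  have : Nontrivial (SpecialLinearGroup (Fin 2) (ZMod 3)) := ⟨⟨slW, 1, fun e => by
    have h2 := congrArg toQuad e
    exact absurd h2 (by decide)⟩⟩
  let ρ : Representation (ZMod 5) (SpecialLinearGroup (Fin 2) (ZMod 3)) (Fin 2 → ZMod 5) :=
    ((Matrix.toLinAlgEquiv' (R := ZMod 5) (n := Fin 2)).toMonoidHom.comp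
      { toFun := fun g => (embHom g).1
        map_one' := by rw [map_one]; rfl
        map_mul' := fun a b => by rw [map_mul]; rfl })
  obtain ⟨L, _, _, H, hH, ⟨e⟩⟩ := occurs_of_rep ρ fun g hg v hv => by
    by_contra hv0
    exact hg (eq_one_of_fix g v hv0 ((Matrix.toLinAlgEquiv'_apply _ _).symm.trans hv))
  exact ⟨L, _, inferInstance, H, hH, ⟨e.symm⟩⟩

end Cfsg.Agent.S4298
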