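import Cfsg.Statements.S4299

import Cfsg.Agent.Frobenius.Complement
set_option autoImplicit false
open Cfsg

namespace Cfsg.Agent.S4299

open CfsgLib.Frobenius


/-- Every nontrivial finite cyclic group occurs as a Frobenius complement of some finite Frobenius group. -/
theorem result {C : Type*} [Group C] [Finite C] [IsCyclic C] [Nontrivial C] :
    ∃ (L : Type) (_ : Group L) (_ : Finite L) (H : Subgroup L), Cfsg.IsFrobeniusComplement H ∧ Nonempty (C ≃* H) := by
  obtain ⟨r, hr, -, hmod⟩ := Nat.exists_prime_gt_modEq_one 0 (k := Nat.card C) Nat.card_pos.ne'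
  have := Fact.mk hr
  have hdvd : Nat.card C ∣ Nat.card (ZMod r)ˣ := by
    rw [Nat.card_units, Nat.card_zmod]
    exact (Nat.modEq_iff_dvd' hr.one_lt.le).1 hmod.symm
  obtain ⟨g, hg⟩ := IsCyclic.exists_ofOrder_eq_natCard (α := (ZMod r)ˣ)
  obtain ⟨c, hc⟩ := hdvd
  have ho : orderOf (g ^ c) = Nat.card C := by
    rw [← hg] at hc
    rw [orderOf_pow' _ (by rintro rfl; simp [(orderOf_pos g).ne'] at hc), hc,
      Nat.gcd_mul_left_left, Nat.mul_div_cancel _ (Nat.pos_of_ne_zero (by
        rintro rfl; simp [(orderOf_pos g).ne'] at hc))]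
  let e : C ≃* Subgroup.zpowers (g ^ c) :=
    mulEquivOfCyclicCardEq (by rw [Nat.card_zpowers, ho])
  let ρ : Representation (ZMod r) C (ZMod r) :=
    { toFun := fun a => ((e a : (ZMod r)ˣ) : ZMod r) • LinearMap.id
      map_one' := by simp; rfl
      map_mul' := fun a b => by
        ext
        simp [mul_comm] }
  refine occurs_of_rep ρ fun a ha v hv => ?_
  by_contra hv0
  apply ha
  apply e.injective
  rw [map_one]
  apply Subtype.ext
  apply Units.ext
  exact mul_right_cancel₀ hv0 (hv.trans (one_mul v).symm)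

end Cfsg.Agent.S4299
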