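import Cfsg.Statements.S4300
import Mathlib

set_option autoImplicit false
open Cfsg

namespace Cfsg.Agent.S4300

/-- Let G act faithfully and primitively on a set X, and suppose the stabilizer of some point is a simple group. Then either G is simple, or G has a normal subgroup, neither trivial nor the whole group, that acts regularly on X (transitively with trivial point stabilizers). -/
theorem result {G : Type*} [Group G] {X : Type*} [MulAction G X] [FaithfulSMul G X]
    (hprim : MulAction.IsPreprimitive G X) (x : X) (hsimple : IsSimpleGroup (MulAction.stabilizer G x)) :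
    IsSimpleGroup G ∨ ∃ N : Subgroup G, N.Normal ∧ N ≠ ⊥ ∧ N ≠ ⊤ ∧
      MulAction.IsPretransitive N X ∧ ∀ y : X, MulAction.stabilizer N y = ⊥ := by
  by_cases hsim : IsSimpleGroup G
  · exact Or.inl hsim
  have hnt : Nontrivial G := by
    have := hsimple.toNontrivial
    exact (MulAction.stabilizer G x).subtype_injective.nontrivial
  obtain ⟨N, hN, hN1, hN2⟩ : ∃ N : Subgroup G, N.Normal ∧ N ≠ ⊥ ∧ N ≠ ⊤ := by
    by_contra hh
    simp only [not_exists, not_and, not_not] at hh
    refine hsim { eq_bot_or_eq_top_of_normal := fun H hH => ?_ }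
    by_cases hb : H = ⊥
    · exact Or.inl hb
    · exact Or.inr (hh H hH hb)
  have := hN
  have hqp := hprim
  have htr : MulAction.IsPretransitive N X := by
    apply MulAction.IsQuasiPreprimitive.isPretransitive_of_normal
    intro hfix
    apply hN1
    rw [eq_bot_iff]
    intro n hn
    rw [Subgroup.mem_bot]
    refine FaithfulSMul.eq_of_smul_eq_smul (α := X) fun a => ?_
    rw [one_smul]
    have : a ∈ MulAction.fixedPoints N X := by rw [hfix]; trivial
    exact this ⟨n, hn⟩
  refine Or.inr ⟨N, hN, hN1, hN2, htr, ?_⟩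
  have hint : N.subgroupOf (MulAction.stabilizer G x) = ⊥ := by
    rcases hsimple.eq_bot_or_eq_top_of_normal (N.subgroupOf (MulAction.stabilizer G x)) inferInstance with h | h
    · exact h
    exfalso
    apply hN2
    rw [eq_top_iff]
    intro g _
    obtain ⟨n, hn⟩ := htr.exists_smul_eq x (g • x)
    have hmem : (n : G)⁻¹ * g ∈ MulAction.stabilizer G x := by
      rw [MulAction.mem_stabilizer_iff, mul_smul, ← hn, Subgroup.smul_def, inv_smul_smul]
    have hle := Subgroup.subgroupOf_eq_top.mp h
    have := N.mul_mem n.2 (hle hmem)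
    rwa [mul_inv_cancel_left] at this
  intro y
  obtain ⟨g, rfl⟩ := (inferInstance : MulAction.IsPretransitive G X).exists_smul_eq x y
  rw [eq_bot_iff]
  intro n hn
  rw [MulAction.mem_stabilizer_iff, Subgroup.smul_def] at hn
  have hstab : g⁻¹ * (n : G) * g ∈ MulAction.stabilizer G x := by
    rw [MulAction.mem_stabilizer_iff, mul_smul, mul_smul, hn, inv_smul_smul]
  have hN' : g⁻¹ * (n : G) * g ∈ N := by simpa using hN.conj_mem n n.2 g⁻¹
  have h1 : (⟨_, hstab⟩ : MulAction.stabilizer G x) ∈ N.subgroupOf (MulAction.stabilizer G x) := hN'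
  rw [hint, Subgroup.mem_bot, Subtype.ext_iff] at h1
  simp only [OneMemClass.coe_one] at h1
  rw [Subgroup.mem_bot, Subtype.ext_iff, OneMemClass.coe_one]
  have h2 : (n : G) = g * (g⁻¹ * n * g) * g⁻¹ := by group
  rw [h2, h1]; simp

end Cfsg.Agent.S4300
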