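import Cfsg.Statements.S4305
import Mathlib
import Cfsg.Agent.FpfAut.Reduction
import Cfsg.Agent.FpfAut.SymThree

set_option autoImplicit false
open Cfsg

namespace Cfsg.Agent.S4305

universe u

open CfsgLib.FpfAut in
theorem exists_series {A : Type*} [Group A] [Finite A] {σ π : A} (hPQ : IsPQ σ π 2 3) (n : ℕ) :
    ∀ (G : Type u) [Group G] [Finite G] [MulDistribMulAction A G], Nat.card G = n → Group.IsSolvable G →
      (Nat.card G).Coprime 6 → (∀ g : G, (∀ a : A, a • g = g) → g = 1) →
      ∃ m : ℕ, ((⊤ : Subgroup G).lowerCentralSeries 1).lowerCentralSeries m = ⊥ := by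
  induction n using Nat.strong_induction_on with
  | _ n ih =>
  intro G _ _ _ hn hsol h6 hfix
  classical
  subst hn
  haveI := hsol
  rcases subsingleton_or_nontrivial G with hs | hnt
  · exact ⟨0, Subsingleton.elim _ _⟩
  obtain ⟨W, r, hr, hWn, hWA, hW, hWab, hWr, hmin⟩ := exists_minimal_invariant (A := A) hsol
  haveI : Fact r.Prime := ⟨hr⟩
  haveI : Nontrivial W := (Subgroup.nontrivial_iff_ne_bot W).2 hW
  have hcardlt : Nat.card (G ⧸ W) < Nat.card G := by
    have h1 := Subgroup.card_mul_index W
    have h2 : 1 < Nat.card W := Finite.one_lt_card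
    have h3 : 0 < W.index := Nat.pos_of_ne_zero Subgroup.index_ne_zero_of_finite
    show W.index < Nat.card G
    nlinarith
  have hAG : (Nat.card A).Coprime (Nat.card G) := by rw [hPQ.card]; exact h6.symm
  have hquot : ∀ {N : Subgroup G}, IsInv A N → ∀ g : G, (∀ a : A, g⁻¹ * a • g ∈ N) → g ∈ N := by
    intro N hN g hg
    obtain ⟨x, hx, hgx⟩ := CfsgLib.Coprime.exists_fixed_mul_of_action (MulDistribMulAction.toMulAut A G)
      hAG (Or.inr hsol) N hN hg
    have h1 := hfix _ hgx
    rw [mul_eq_one_iff_eq_inv] at h1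
    exact h1 ▸ inv_mem hx
  letI := quotientAction (A := A) W hWA
  obtain ⟨m, hm⟩ := ih _ hcardlt (G ⧸ W) rfl inferInstance
    (h6.coprime_dvd_left (Subgroup.card_quotient_dvd_card W)) (fun x => by
      induction x using QuotientGroup.induction_on with
      | _ g =>
        intro hx
        refine (QuotientGroup.eq_one_iff g).2 (hquot hWA g fun a => ?_)
        have hx' : ((a • g : G) : G ⧸ W) = g := hx a
        rw [eq_comm, QuotientGroup.eq] at hx'
        exact hx')
  rw [← Subgroup.map_top_of_surjective _ (QuotientGroup.mk'_surjective W), ← Subgroup.map_lowerCentralSeries,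
    ← Subgroup.map_lowerCentralSeries, Subgroup.map_eq_bot_iff, QuotientGroup.ker_mk'] at hm
  have hWC : W ≤ Subgroup.centralizer (W : Set G) :=
    fun x hx => Subgroup.mem_centralizer_iff.2 fun y hy => hWab y hy x hx
  have hC : (⊤ : Subgroup G).lowerCentralSeries 1 ≤ Subgroup.centralizer (W : Set G) := by
    refine opModule_elim r W hWA hW hWab hWr hmin hfix ?_
    intro H M _ _ _ _ _ π' e hπ hπA hker hM he heW he0 heA
    haveI : Finite H := Finite.of_surjective π' hπ
    haveI : Finite M := Finite.of_injective e he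
    have hHfix : ∀ h : H, (∀ a : A, a • h = h) → h = 1 := by
      intro h hh
      obtain ⟨g, rfl⟩ := hπ h
      refine MonoidHom.mem_ker.1 (hquot (fun a x hx => ?_) g fun a => ?_)
      · rw [MonoidHom.mem_ker] at hx ⊢
        rw [hπA, hx, smul_one]
      · rw [MonoidHom.mem_ker, map_mul, map_inv, hπA, hh, inv_mul_cancel]
    have hnil : Group.IsNilpotent ((⊤ : Subgroup H).lowerCentralSeries 1) := by
      refine (Subgroup.isNilpotent_iff_lowerCentralSeries _).2 ⟨m, ?_⟩
      rw [← Subgroup.map_top_of_surjective π' hπ, ← Subgroup.map_lowerCentralSeries,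
        ← Subgroup.map_lowerCentralSeries, Subgroup.map_eq_bot_iff, hker]
      exact hm.trans hWC
    have h6H : (Nat.card H).Coprime 6 := h6.coprime_dvd_left (Subgroup.card_dvd_of_surjective π' hπ)
    have h3r : 3 ≠ r := by
      intro h
      obtain ⟨w, hw, hw1⟩ := (Subgroup.ne_bot_iff_exists_ne_one).1 hW |>.imp fun w hw => And.intro w.2
        (fun h1 => hw (Subtype.ext h1))
      have h1 : orderOf (w : G) = r := orderOf_eq_prime (hWr _ hw) hw1
      have h2 : r ∣ Nat.card G := h1 ▸ orderOf_dvd_natCard (w : G)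
      subst h
      exact absurd (Nat.eq_one_of_dvd_coprimes h6 h2 (by norm_num)) (by norm_num)
    haveI : Group.IsSolvable H := Group.isSolvable_of_surjective hπ
    rw [← hker, ← Subgroup.map_eq_bot_iff, Subgroup.map_lowerCentralSeries,
      Subgroup.map_top_of_surjective π' hπ]
    exact comm_of_opModule hPQ h3r hM hHfix inferInstance h6H hnil
  refine ⟨m + 1, ?_⟩
  rw [Subgroup.lowerCentralSeries_succ, eq_bot_iff, Subgroup.commutator_le]
  intro x hx y hy
  rw [Subgroup.mem_bot, commutatorElement_eq_one_iff_mul_comm]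
  exact Subgroup.mem_centralizer_iff.1 (hC hy) x (hm hx)


/-- Let the symmetric group of degree 3 act by automorphisms on a finite solvable group `G` of order prime to 6, so that only the identity of `G` is fixed by all of it. Then the derived subgroup of `G` is nilpotent. -/
theorem result {G : Type*} [Group G] [Finite G] [Group.IsSolvable G]
    [MulDistribMulAction (Equiv.Perm (Fin 3)) G] (hcop : (Nat.card G).Coprime 6)
    (hfpf : ∀ g : G, (∀ a : Equiv.Perm (Fin 3), a • g = g) → g = 1) :
    Group.IsNilpotent ↥(commutator G) := by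
  obtain ⟨σ, π, hPQ⟩ := CfsgLib.FpfAut.exists_isPQ (A := Equiv.Perm (Fin 3)) Nat.prime_two Nat.prime_three
    (by norm_num) (by rw [Nat.card_perm, Nat.card_fin]; rfl) (fun h => by
      have h1 := h.is_comm.comm (Equiv.swap (0 : Fin 3) 1) (Equiv.swap (1 : Fin 3) 2)
      revert h1
      decide)
  obtain ⟨m, hm⟩ := exists_series hPQ _ G rfl inferInstance hcop hfpf
  rw [← Subgroup.top_lowerCentralSeries_one]
  exact (Subgroup.isNilpotent_iff_lowerCentralSeries _).2 ⟨m, hm⟩


end Cfsg.Agent.S4305
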