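import Cfsg.Statements.S4306
import Mathlib
import Cfsg.Agent.FpfAut.Reduction
import Cfsg.Agent.FpfAut.FrobPQMain

set_option autoImplicit false
open Cfsg

namespace Cfsg.Agent.S4306

universe u

theorem lcs_mono {G : Type*} [Group G] {H K : Subgroup G} (h : H ≤ K) :
    ∀ m, H.lowerCentralSeries m ≤ K.lowerCentralSeries m := by
  intro m
  induction m with
  | zero => simpa using h
  | succ m ih =>
    rw [Subgroup.lowerCentralSeries_succ, Subgroup.lowerCentralSeries_succ]
    exact Subgroup.commutator_mono ih h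

open CfsgLib.FpfAut in
theorem exists_series {A : Type*} [Group A] [Finite A] {σ π : A} {p q : ℕ} (hPQ : IsPQ σ π p q) (n : ℕ) :
    ∀ (G : Type u) [Group G] [Finite G] [MulDistribMulAction A G], Nat.card G = n → Group.IsSolvable G →
      (Nat.card G).Coprime (p * q) → (∀ g : G, (∀ a : A, a • g = g) → g = 1) →
      ∃ k m : ℕ, ((⊤ : Subgroup G).lowerCentralSeries k).lowerCentralSeries m = ⊥ := by
  induction n using Nat.strong_induction_on with
  | _ n ih =>
  intro G _ _ _ hn hsol hco hfix
  classical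
  subst hn
  haveI := hsol
  rcases subsingleton_or_nontrivial G with hs | hnt
  · exact ⟨0, 0, Subsingleton.elim _ _⟩
  obtain ⟨W, r, hr, hWn, hWA, hW, hWab, hWr, hmin⟩ := exists_minimal_invariant (A := A) hsol
  haveI : Fact r.Prime := ⟨hr⟩
  haveI : Nontrivial W := (Subgroup.nontrivial_iff_ne_bot W).2 hW
  have hcardlt : Nat.card (G ⧸ W) < Nat.card G := by
    have h1 := Subgroup.card_mul_index W
    have h2 : 1 < Nat.card W := Finite.one_lt_card
    have h3 : 0 < W.index := Nat.pos_of_ne_zero Subgroup.index_ne_zero_of_finite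
    show W.index < Nat.card G
    nlinarith
  have hAG : (Nat.card A).Coprime (Nat.card G) := by rw [hPQ.card]; exact hco.symm
  have hrG : r ∣ Nat.card G := by
    obtain ⟨w, hw⟩ := exists_ne (1 : W)
    have h1 : orderOf (w : G) = r := orderOf_eq_prime (hWr _ w.2) (fun h => hw (Subtype.ext h))
    exact h1 ▸ orderOf_dvd_natCard (w : G)
  have hne : ∀ s : ℕ, s.Prime → s ∣ p * q → s ≠ r := fun s hs hd h =>
    hs.one_lt.ne' (Nat.eq_one_of_dvd_coprimes hco (h ▸ hrG) hd)
  have hquot : ∀ {N : Subgroup G}, IsInv A N → ∀ g : G, (∀ a : A, g⁻¹ * a • g ∈ N) → g ∈ N := by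
    intro N hN g hg
    obtain ⟨x, hx, hgx⟩ := CfsgLib.Coprime.exists_fixed_mul_of_action (MulDistribMulAction.toMulAut A G)
      hAG (Or.inr hsol) N hN hg
    have h1 := hfix _ hgx
    rw [mul_eq_one_iff_eq_inv] at h1
    exact h1 ▸ inv_mem hx
  letI := quotientAction (A := A) W hWA
  obtain ⟨k, m, hm⟩ := ih _ hcardlt (G ⧸ W) rfl inferInstance
    (hco.coprime_dvd_left (Subgroup.card_quotient_dvd_card W)) (fun x => by
      induction x using QuotientGroup.induction_on with
      | _ g =>
        intro hx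
        refine (QuotientGroup.eq_one_iff g).2 (hquot hWA g fun a => ?_)
        have hx' : ((a • g : G) : G ⧸ W) = g := hx a
        rw [eq_comm, QuotientGroup.eq] at hx'
        exact hx')
  rw [← Subgroup.map_top_of_surjective _ (QuotientGroup.mk'_surjective W), ← Subgroup.map_lowerCentralSeries,
    ← Subgroup.map_lowerCentralSeries, Subgroup.map_eq_bot_iff, QuotientGroup.ker_mk'] at hm
  have hWC : W ≤ Subgroup.centralizer (W : Set G) :=
    fun x hx => Subgroup.mem_centralizer_iff.2 fun y hy => hWab y hy x hx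
  obtain ⟨k', hk'⟩ : ∃ k', (⊤ : Subgroup G).lowerCentralSeries k' ≤ Subgroup.centralizer (W : Set G) := by
    refine opModule_elim r W hWA hW hWab hWr hmin hfix ?_
    intro H M _ _ _ _ _ π' e hπ hπA hker hM he heW he0 heA
    haveI : Finite H := Finite.of_surjective π' hπ
    haveI : Finite M := Finite.of_injective e he
    have hHfix : ∀ h : H, (∀ a : A, a • h = h) → h = 1 := by
      intro h hh
      obtain ⟨g, rfl⟩ := hπ h
      refine MonoidHom.mem_ker.1 (hquot (fun a x hx => ?_) g fun a => ?_)
      · rw [MonoidHom.mem_ker] at hx ⊢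
        rw [hπA, hx, smul_one]
      · rw [MonoidHom.mem_ker, map_mul, map_inv, hπA, hh, inv_mul_cancel]
    have hnil : Group.IsNilpotent ((⊤ : Subgroup H).lowerCentralSeries k) := by
      refine (Subgroup.isNilpotent_iff_lowerCentralSeries _).2 ⟨m, ?_⟩
      rw [← Subgroup.map_top_of_surjective π' hπ, ← Subgroup.map_lowerCentralSeries,
        ← Subgroup.map_lowerCentralSeries, Subgroup.map_eq_bot_iff, hker]
      exact hm.trans hWC
    haveI : Group.IsNilpotent H := isNilpotent_of_pq_opModule hPQ
      (hne p hPQ.hp (dvd_mul_right p q)) (hne q hPQ.hq (dvd_mul_left q p)) hM hHfix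
      (Group.isSolvable_of_surjective hπ) (hAG.coprime_dvd_right (Subgroup.card_dvd_of_surjective π' hπ)) hnil
    obtain ⟨k', hk'⟩ := (Subgroup.isNilpotent_iff_lowerCentralSeries (⊤ : Subgroup H)).1
      ((Group.isNilpotent_congr Subgroup.topEquiv).2 inferInstance)
    refine ⟨k', ?_⟩
    rw [← hker, ← Subgroup.map_eq_bot_iff, Subgroup.map_lowerCentralSeries,
      Subgroup.map_top_of_surjective π' hπ]
    exact hk'
  refine ⟨max k k', m + 1, ?_⟩
  have h1 := Subgroup.lowerCentralSeries_antitone (⊤ : Subgroup G)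
  rw [Subgroup.lowerCentralSeries_succ, eq_bot_iff, Subgroup.commutator_le]
  intro x hx y hy
  rw [Subgroup.mem_bot, commutatorElement_eq_one_iff_mul_comm]
  exact Subgroup.mem_centralizer_iff.1 (hk' (h1 (le_max_right k k') hy)) x
    (hm (lcs_mono (h1 (le_max_left k k')) m hx))

/-- Let `A` be a non-abelian group of order `pq` with `p, q` distinct primes, acting by automorphisms on a finite solvable group `G` of order prime to `pq`, so that only the identity of `G` is fixed by all of `A`. Then `G` has Fitting height at most 2: there is a normal nilpotent subgroup `F` of `G` with `G/F` nilpotent. -/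
theorem result {G A : Type*} [Group G] [Finite G]
    [Group.IsSolvable G] [Group A] [Finite A] [MulDistribMulAction A G] (p q : ℕ) (hp : p.Prime) (hq : q.Prime) (hpq : p ≠ q)
    (hA : Nat.card A = p * q) (hAna : ¬ IsMulCommutative A) (hcop : (Nat.card G).Coprime (p * q))
    (hfpf : ∀ g : G, (∀ a : A, a • g = g) → g = 1) :
    ∃ F : Subgroup G, ∃ hF : F.Normal, Group.IsNilpotent ↥F ∧ Group.IsNilpotent (G ⧸ F) := by
  have key : ∀ a b : ℕ, a.Prime → b.Prime → a < b → Nat.card A = a * b → (Nat.card G).Coprime (a * b) →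
      ∃ k m : ℕ, ((⊤ : Subgroup G).lowerCentralSeries k).lowerCentralSeries m = ⊥ := by
    intro a b ha hb hlt hab hcab
    obtain ⟨σ, π, hPQ⟩ := CfsgLib.FpfAut.exists_isPQ ha hb hlt hab hAna
    exact exists_series hPQ _ G rfl inferInstance hcab hfpf
  obtain ⟨k, m, hkm⟩ : ∃ k m : ℕ, ((⊤ : Subgroup G).lowerCentralSeries k).lowerCentralSeries m = ⊥ := by
    rcases lt_or_gt_of_ne hpq with h | h
    · exact key p q hp hq h hA hcop
    · exact key q p hq hp h (hA.trans (mul_comm p q)) (by rwa [mul_comm])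
  refine ⟨(⊤ : Subgroup G).lowerCentralSeries k, inferInstance,
    (Subgroup.isNilpotent_iff_lowerCentralSeries _).2 ⟨m, hkm⟩, ?_⟩
  have hker := (QuotientGroup.ker_mk' ((⊤ : Subgroup G).lowerCentralSeries k)).ge
  rw [← Subgroup.map_eq_bot_iff, Subgroup.map_lowerCentralSeries,
    Subgroup.map_top_of_surjective _ (QuotientGroup.mk'_surjective _)] at hker
  exact (Group.isNilpotent_congr Subgroup.topEquiv).1
    ((Subgroup.isNilpotent_iff_lowerCentralSeries _).2 ⟨k, hker⟩)

end Cfsg.Agent.S4306
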