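import Cfsg.Statements.S4314
import Cfsg.Agent.Perm.PElementDerangements
import Mathlib.Tactic.Group

set_option autoImplicit false
open Cfsg
open scoped Pointwise commutatorElement

namespace Cfsg.Agent.S4314


variable {G : Type*} [Group G] [Finite G]

local notation "C" x:max => Subgroup.centralizer ({x} : Set _)

theorem index_inf_of_coprime {H K : Subgroup G} (h : H.index.Coprime K.index) :
    (H ⊓ K).index = H.index * K.index :=
  le_antisymm Subgroup.index_inf_le (Nat.le_of_dvd (Nat.pos_of_ne_zero Subgroup.index_ne_zero_of_finite)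
    (h.mul_dvd_of_dvd_of_dvd (Subgroup.index_dvd_of_le inf_le_left) (Subgroup.index_dvd_of_le inf_le_right)))

theorem eq_of_le_prime_index {H K : Subgroup G} (hle : H ≤ K) (hH : H.index.Prime) (hK : K ≠ ⊤) : H = K := by
  refine hle.eq_of_not_lt fun hlt => ?_
  rcases (Nat.dvd_prime hH).1 (Subgroup.index_dvd_of_le hle) with h | h
  · exact hK (Subgroup.index_eq_one.1 h)
  · exact (Subgroup.index_strictAnti hlt).ne h

theorem sup_eq_top_of_prime_index {H K : Subgroup G} (hH : H.index.Prime) (hne : ¬ K ≤ H) : H ⊔ K = ⊤ :=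
  of_not_not fun h => hne ((eq_of_le_prime_index le_sup_left hH h) ▸ le_sup_right)

theorem index_inf_normal {H K : Subgroup G} [H.Normal] (hs : H ⊔ K = ⊤) : (H ⊓ K).index = H.index * K.index := by
  have h := Subgroup.relIndex_mul_index (inf_le_right : H ⊓ K ≤ K)
  rwa [Subgroup.inf_relIndex_right, ← Subgroup.relIndex_sup_right (K := H) (H := K), sup_comm, hs, Subgroup.relIndex_top_right, eq_comm] at h

theorem normal_of_normalizer {H : Subgroup G} {A B : Subgroup G} (hAB : A ⊔ B = ⊤)
    (hA : A ≤ Subgroup.normalizer (H : Set G)) (hB : B ≤ Subgroup.normalizer (H : Set G)) : H.Normal :=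
  Subgroup.normalizer_eq_top_iff.1 (top_le_iff.1 (hAB ▸ sup_le hA hB))

theorem le_normalizer_inf_normal (K H : Subgroup G) [K.Normal] :
    H ≤ Subgroup.normalizer ((K ⊓ H : Subgroup G) : Set G) := by
  intro g hg
  rw [Subgroup.mem_normalizer_iff]
  intro n
  simp only [SetLike.mem_coe, Subgroup.mem_inf]
  refine and_congr ⟨fun hn => Subgroup.Normal.conj_mem inferInstance n hn g, fun hn => ?_⟩
    ⟨fun hn => H.mul_mem (H.mul_mem hg hn) (H.inv_mem hg), fun hn => ?_⟩
  · simpa [mul_assoc] using Subgroup.Normal.conj_mem (inferInstance : K.Normal) _ hn g⁻¹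
  · simpa [mul_assoc] using H.mul_mem (H.mul_mem (H.inv_mem hg) hn) hg

theorem mem_center_of_top {x : G} (h : (C x) = ⊤) : x ∈ Subgroup.center G :=
  Subgroup.mem_center_iff.2 fun g => Subgroup.mem_centralizer_singleton_iff.1 (h ▸ Subgroup.mem_top g)

theorem center_le (x : G) : Subgroup.center G ≤ (C x) := Subgroup.center_le_centralizer _

/-- A prime which is no class size does not divide the index of the centre. -/
theorem exists_class_size (h : ∀ x : G, (C x).index = 1 ∨ ((C x).index).Prime) {r : ℕ} (hr : r.Prime)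
    (hd : r ∣ (Subgroup.center G).index) : ∃ x : G, (C x).index = r := by
  by_contra hno
  push Not at hno
  have := Fact.mk hr
  obtain ⟨R⟩ : Nonempty (Sylow r G) := inferInstance
  have htop : Subgroup.centralizer ((R : Subgroup G) : Set G) = ⊤ := by
    by_contra hne
    obtain ⟨g, hg⟩ := CfsgLib.Perm.exists_forall_conj_notMem hne
    have hndvd : ¬ r ∣ (C g).index := by
      rcases h g with h1 | h1
      · rw [h1]; exact hr.not_dvd_one
      · exact fun hd => hno g ((Nat.prime_dvd_prime_iff_eq hr h1).1 hd).symm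
    obtain ⟨S⟩ : Nonempty (Sylow r (C g)) := inferInstance
    obtain ⟨T, hT⟩ := (S.2.map (C g).subtype).exists_le_sylow
    have hTS : (S : Subgroup (C g)).map (C g).subtype = T := by
      refine Subgroup.eq_of_le_of_card_ge hT ?_
      rw [Subgroup.card_map_of_injective (Subgroup.subtype_injective _), T.card_eq_multiplicity,
        S.card_eq_multiplicity, ← Subgroup.card_mul_index (C g),
        Nat.factorization_mul Nat.card_pos.ne' Subgroup.index_ne_zero_of_finite]
      simp [Nat.factorization_eq_zero_of_not_dvd hndvd]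
    obtain ⟨y, hy⟩ := MulAction.exists_smul_eq G T R
    apply hg y
    rw [Subgroup.mem_centralizer_iff]
    intro a ha
    rw [← hy] at ha
    rw [Sylow.coe_subgroup_smul, SetLike.mem_coe, Subgroup.mem_pointwise_smul_iff_inv_smul_mem] at ha
    have hag := Subgroup.mem_centralizer_singleton_iff.1 ((hTS ▸ Subgroup.map_subtype_le _ : (T : Subgroup G) ≤ C g) ha)
    rw [← map_inv, MulAut.smul_def, MulAut.conj_apply, inv_inv] at hag
    calc a * (y * g * y⁻¹) = y * ((y⁻¹ * a * y) * g) * y⁻¹ := by group
      _ = y * (g * (y⁻¹ * a * y)) * y⁻¹ := by rw [hag]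
      _ = (y * g * y⁻¹) * a := by group
  have hle : (R : Subgroup G) ≤ Subgroup.center G := fun a ha => Subgroup.mem_center_iff.2 fun g =>
    (Subgroup.mem_centralizer_iff.1 (htop ▸ Subgroup.mem_top g) a ha).symm
  exact R.not_dvd_index (hd.trans (Subgroup.index_dvd_of_le hle))


/-- Let `G` be a finite group every conjugacy class of which has size 1 or a prime. Then either `G` is nilpotent of class at most 2, or `G/Z(G)` is a non-abelian group of order `pq` for distinct primes `p, q` (a Frobenius group of order `pq`). -/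
theorem result {G : Type*} [Group G] [Finite G]
    (h : ∀ x : G, (Subgroup.centralizer ({x} : Set G)).index = 1 ∨ ((Subgroup.centralizer ({x} : Set G)).index).Prime) :
    Subgroup.upperCentralSeries G 2 = ⊤ ∨
      ∃ p q : ℕ, p.Prime ∧ q.Prime ∧ p ≠ q ∧ Nat.card (G ⧸ Subgroup.center G) = p * q ∧ ¬ IsMulCommutative (G ⧸ Subgroup.center G) := by

  classical
  by_cases hall : ∀ x : G, (C x).Normal
  · left
    rw [eq_top_iff]
    intro x _
    rw [Subgroup.mem_upperCentralSeries_succ_iff]
    intro y
    rw [Subgroup.upperCentralSeries_one]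
    refine Subgroup.mem_center_iff.2 fun g => (Subgroup.mem_centralizer_singleton_iff.1 ?_).symm
    have := hall g
    rcases h g with h1 | h1
    · rw [Subgroup.index_eq_one.1 h1]; exact Subgroup.mem_top _
    · have := Fact.mk h1
      have hcyc : IsCyclic (G ⧸ (C g)) := isCyclic_of_prime_card (p := (C g).index) (Subgroup.index_eq_card _).symm
      let _ := hcyc.commGroup
      rw [← QuotientGroup.eq_one_iff]
      show QuotientGroup.mk' (C g) _ = 1
      rw [map_commutatorElement]
      exact commutatorElement_eq_one_iff_mul_comm.2 (mul_comm _ _)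
  right
  push Not at hall
  obtain ⟨w0, hw0⟩ := hall
  have hex : ∃ p, p.Prime ∧ ∃ x : G, (C x).index = p := by
    rcases h w0 with h1 | h1
    · exact absurd (Subgroup.index_eq_one.1 h1 ▸ inferInstance) hw0
    · exact ⟨_, h1, w0, rfl⟩
  obtain ⟨p, ⟨hp, x, hx⟩, hmin⟩ : ∃ p, (p.Prime ∧ ∃ x : G, (C x).index = p) ∧
      ∀ m, (m.Prime ∧ ∃ x : G, (C x).index = m) → p ≤ m :=
    ⟨_, Nat.find_spec hex, fun m hm => Nat.find_min' hex hm⟩
  set Z := Subgroup.center G
  have hZmin : Nat.minFac (Nat.card (G ⧸ Z)) = p := by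
    have hd : p ∣ Nat.card (G ⧸ Z) := hx ▸ Subgroup.index_dvd_of_le (center_le x)
    have h1 : Nat.card (G ⧸ Z) ≠ 1 := fun e => hp.ne_one (Nat.dvd_one.1 (e ▸ hd))
    refine le_antisymm (Nat.minFac_le_of_dvd hp.two_le hd) (hmin _ ⟨Nat.minFac_prime h1, ?_⟩)
    exact exists_class_size h (Nat.minFac_prime h1) (Nat.minFac_dvd _)
  have hnorm : ∀ u : G, (C u).index = p → (C u).Normal := by
    intro u hu
    have h1 : ((C u).map (QuotientGroup.mk' Z)).index = p := by
      rw [Subgroup.index_map_eq _ (QuotientGroup.mk'_surjective Z)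
        (by rw [QuotientGroup.ker_mk']; exact center_le u), hu]
    have h2 := Subgroup.normal_of_index_eq_minFac_card (h1.trans hZmin.symm)
    have h3 : ((C u).map (QuotientGroup.mk' Z)).comap (QuotientGroup.mk' Z) = (C u) :=
      Subgroup.comap_map_eq_self (by rw [QuotientGroup.ker_mk']; exact center_le u)
    rw [← h3]; infer_instance
  have hK := hnorm x hx
  -- the basic configuration
  have conf : ∀ u w : G, (C u).index = p → (C w).index ≠ p → (C w).index.Prime →
      ((C u) ⊓ (C w)).Normal ∧ ¬ (C w).Normal ∧ ((C u) ⊓ (C w)).index = p * (C w).index := by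
    intro u w hu hwp hw
    have := hnorm u hu
    have hDi : ((C u) ⊓ (C w)).index = p * (C w).index := by
      rw [index_inf_of_coprime (by rw [hu]; exact (Nat.coprime_primes hp hw).2 (Ne.symm hwp)), hu]
    have hle : (C u) ⊓ (C w) ≤ (C (u * w)) := fun g hg => by
      have h1 := Subgroup.mem_centralizer_singleton_iff.1 hg.1
      have h2 := Subgroup.mem_centralizer_singleton_iff.1 hg.2
      rw [Subgroup.mem_centralizer_singleton_iff, ← mul_assoc, h1, mul_assoc, h2, mul_assoc]
    have hinf : (C u) ⊓ (C (u * w)) ≤ (C u) ⊓ (C w) := fun g hg => by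
      refine ⟨hg.1, ?_⟩
      have h1 := Subgroup.mem_centralizer_singleton_iff.1 hg.1
      have h2 := Subgroup.mem_centralizer_singleton_iff.1 hg.2
      show g ∈ C w
      rw [Subgroup.mem_centralizer_singleton_iff]
      rw [← mul_assoc, h1, mul_assoc, mul_assoc] at h2
      exact mul_left_cancel h2
    have heq : (C u) ⊓ (C (u * w)) = (C u) ⊓ (C w) := le_antisymm hinf (le_inf inf_le_left hle)
    have hwK : ¬ (C w) ≤ (C u) := fun e =>
      hwp ((eq_of_le_prime_index e hw fun et => hp.ne_one (by rw [← hu, et, Subgroup.index_top])) ▸ hu)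
    have h1 : (C (u * w)).index = (C w).index := by
      rcases h (u * w) with h1 | h1
      · rw [Subgroup.index_eq_one.1 h1, inf_top_eq] at heq
        exfalso
        rw [← heq, hu] at hDi
        exact hw.ne_one (Nat.eq_of_mul_eq_mul_left hp.pos (by rw [mul_one]; exact hDi.symm))
      · rcases h1.dvd_mul.1 (hDi ▸ Subgroup.index_dvd_of_le hle) with h2 | h2
        · exfalso
          have he := (Nat.prime_dvd_prime_iff_eq h1 hp).1 h2
          have := hnorm _ he
          by_cases hc : (C (u * w)) ≤ (C u)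
          · rw [inf_eq_right.2 hc] at heq
            rw [← heq, he] at hDi
            exact hw.ne_one (Nat.eq_of_mul_eq_mul_left hp.pos (by rw [mul_one]; exact hDi.symm))
          · have := index_inf_normal (sup_eq_top_of_prime_index (hu ▸ hp) hc)
            rw [heq, hDi, hu, he] at this
            exact hwp (Nat.eq_of_mul_eq_mul_left hp.pos this)
        · exact (Nat.prime_dvd_prime_iff_eq h1 hw).1 h2
    have hne : ¬ (C (u * w)) ≤ (C w) := fun e => by
      have he := eq_of_le_prime_index e (h1 ▸ hw) fun et => hw.ne_one (by rw [et, Subgroup.index_top])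
      refine hwK fun g hg => ?_
      have h2 := Subgroup.mem_centralizer_singleton_iff.1 hg
      have h3 := Subgroup.mem_centralizer_singleton_iff.1 (he.symm ▸ hg : g ∈ C (u * w))
      rw [Subgroup.mem_centralizer_singleton_iff]
      rw [mul_assoc, ← h2, ← mul_assoc, ← mul_assoc] at h3
      exact mul_right_cancel h3
    have hsup := sup_eq_top_of_prime_index hw hne
    refine ⟨normal_of_normalizer hsup (le_normalizer_inf_normal _ _) (heq ▸ le_normalizer_inf_normal _ _), ?_, hDi⟩
    intro hn
    have h2 := index_inf_normal hsup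
    rw [h1] at h2
    have h3 : (C u) ⊓ (C w) ≤ (C w) ⊓ (C (u * w)) := le_inf inf_le_right hle
    have h4 := h2 ▸ hDi ▸ Subgroup.index_dvd_of_le h3
    exact hwp ((Nat.prime_dvd_prime_iff_eq hw hp).1 (Nat.dvd_of_mul_dvd_mul_right hw.pos h4))
  have hw0' : (C w0).index ≠ p ∧ (C w0).index.Prime := by
    refine ⟨fun e => hw0 (hnorm _ e), (h w0).resolve_left fun e => ?_⟩
    exact hw0 (Subgroup.index_eq_one.1 e ▸ inferInstance)
  obtain ⟨hD, -, hDi⟩ := conf x w0 hx hw0'.1 hw0'.2
  -- all elements with class size `p` have the same centralizer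
  have hsame : ∀ u : G, (C u).index = p → (C u) = (C x) := by
    intro u hu
    obtain ⟨hD', hnn, hD'i⟩ := conf u w0 hu hw0'.1 hw0'.2
    have hEq : (C u) ⊓ (C w0) = (C x) ⊓ (C w0) := by
      set D := (C x) ⊓ (C w0)
      set D' := (C u) ⊓ (C w0)
      have hle : D' ⊔ D ≤ (C w0) := sup_le inf_le_right inf_le_right
      have hlt : D' ⊔ D ≠ (C w0) := fun e => hnn (e ▸ inferInstance)
      have h1 : D.index = D'.index := hDi.trans hD'i.symm
      by_contra hne
      have h2 : D < D' ⊔ D := lt_of_le_of_ne le_sup_right fun e =>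
        hne (Subgroup.eq_of_le_of_card_ge (e ▸ le_sup_left) (by
          have := Subgroup.card_mul_index D
          have := Subgroup.card_mul_index D'
          nlinarith [Nat.pos_of_ne_zero (Subgroup.index_ne_zero_of_finite (H := D'))]))
      have h3 := Subgroup.index_strictAnti h2
      have h4 := Subgroup.index_strictAnti (lt_of_le_of_ne hle hlt)
      obtain ⟨a, ha⟩ := Subgroup.index_dvd_of_le hle
      have h5 : (D' ⊔ D).index ∣ p * (C w0).index := hDi ▸ Subgroup.index_dvd_of_le le_sup_right
      rw [ha, mul_comm p] at h5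
      rcases (Nat.dvd_prime hp).1 (Nat.dvd_of_mul_dvd_mul_left hw0'.2.pos h5) with ha1 | ha1
      · rw [ha, ha1, mul_one] at h4; exact lt_irrefl _ h4
      · rw [ha, ha1, hDi, mul_comm] at h3; exact lt_irrefl _ h3
    by_contra hne
    have hnu := hnorm u hu
    have h1 : ¬ (C x) ≤ (C u) := fun e =>
      hne (eq_of_le_prime_index e (hx ▸ hp) fun et => hp.ne_one (by rw [← hu, et, Subgroup.index_top])).symm
    have h2 := index_inf_normal (sup_eq_top_of_prime_index (hu ▸ hp) h1)
    have h3 : (C x) ⊓ (C w0) ≤ (C u) ⊓ (C x) := le_inf (hEq ▸ inf_le_left) inf_le_left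
    have h4 := h2 ▸ hDi ▸ Subgroup.index_dvd_of_le h3
    rw [hu, hx] at h4
    exact hw0'.1 ((Nat.prime_dvd_prime_iff_eq hp hw0'.2).1 (Nat.dvd_of_mul_dvd_mul_left hp.pos h4)).symm
  -- every element of `C(x)` has centralizer at least `C(x)`
  have hA : ∀ y ∈ (C x), (C x) ≤ (C y) := by
    intro y hy
    rcases h y with h1 | h1
    · rw [Subgroup.index_eq_one.1 h1]; exact le_top
    by_cases hyp : (C y).index = p
    · rw [hsame y hyp]
    exfalso
    obtain ⟨-, -, hyi⟩ := conf x y hx hyp h1
    obtain ⟨k, hkx, hky⟩ : ∃ k ∈ (C x), k ∉ (C y) := SetLike.not_le_iff_exists.1 fun e => by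
      rw [inf_eq_left.2 e, hx] at hyi
      exact h1.ne_one (Nat.eq_of_mul_eq_mul_left hp.pos (by rw [mul_one]; exact hyi.symm))
    have hk1 : (C k).index.Prime := (h k).resolve_left fun e => hky (Subgroup.mem_centralizer_singleton_iff.2
      (Subgroup.mem_centralizer_singleton_iff.1 (Subgroup.index_eq_one.1 e ▸ Subgroup.mem_top y : y ∈ C k)).symm)
    have hyk : y ∉ (C k) := fun e => hky (Subgroup.mem_centralizer_singleton_iff.2
      (Subgroup.mem_centralizer_singleton_iff.1 e).symm)
    have hkp : (C k).index ≠ p := fun e => hyk (hsame k e ▸ hy)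
    obtain ⟨hDk, hknn, hDki⟩ := conf x k hx hkp hk1
    set D := (C x) ⊓ (C k)
    set f := QuotientGroup.mk' D
    set L := (Subgroup.centralizer ({f y} : Set (G ⧸ D))).comap f
    have hcard : Nat.card ((C x).map f) = (C k).index := by
      have e1 : ((C x).map f).index = p := by
        rw [Subgroup.index_map_eq _ (QuotientGroup.mk'_surjective D)
          (by rw [QuotientGroup.ker_mk']; exact inf_le_left), hx]
      have e2 := Subgroup.card_mul_index ((C x).map f)
      rw [e1, ← Subgroup.index_eq_card, hDki, mul_comm] at e2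
      exact Nat.eq_of_mul_eq_mul_left hp.pos e2
    have hKL : (C x) ≤ L := by
      intro g hg
      have := Fact.mk hk1
      have hcyc : IsCyclic ((C x).map f) := isCyclic_of_prime_card hcard
      let _ := hcyc.commGroup
      show f g ∈ Subgroup.centralizer ({f y} : Set (G ⧸ D))
      exact Subgroup.mem_centralizer_singleton_iff.2 (congrArg Subtype.val
        (mul_comm (⟨f g, g, hg, rfl⟩ : (C x).map f) ⟨f y, y, hy, rfl⟩))
    have hyL : (C y) ≤ L := fun g hg => by
      show f g ∈ Subgroup.centralizer ({f y} : Set (G ⧸ D))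
      rw [Subgroup.mem_centralizer_singleton_iff, ← map_mul, ← map_mul, Subgroup.mem_centralizer_singleton_iff.1 hg]
    have hnle : ¬ (C y) ≤ (C x) := fun e =>
      hyp ((eq_of_le_prime_index e h1 fun et => hp.ne_one (by rw [← hx, et, Subgroup.index_top])) ▸ hx)
    have hLtop : L = ⊤ := top_le_iff.1 (sup_eq_top_of_prime_index (hx ▸ hp) hnle ▸ sup_le hKL hyL)
    have hyN : y ∈ Subgroup.normalizer ((C k) : Set G) := by
      have key : ∀ c : G, y * c * y⁻¹ * c⁻¹ ∈ D := fun c => by
        rw [← QuotientGroup.eq_one_iff]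
        show f _ = 1
        have h2 : f c * f y = f y * f c := Subgroup.mem_centralizer_singleton_iff.1
          (hLtop ▸ Subgroup.mem_top c : c ∈ L)
        rw [map_mul, map_mul, map_mul, map_inv, map_inv, ← h2]
        group
      rw [Subgroup.mem_normalizer_iff]
      intro c
      have h2 : y * c * y⁻¹ * c⁻¹ ∈ (C k) := (key c).2
      constructor
      · intro hc
        simpa using (C k).mul_mem h2 hc
      · intro hc
        simpa [mul_assoc] using (C k).mul_mem ((C k).inv_mem h2) hc
    exact hknn (normal_of_normalizer (sup_eq_top_of_prime_index hk1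
      (fun e => hyk (e (Subgroup.mem_zpowers y)))) Subgroup.le_normalizer
      (Subgroup.zpowers_le.2 hyN))
  have hDZ : (C x) ⊓ (C w0) = Z := by
    refine le_antisymm (fun d hd => mem_center_of_top ?_) (le_inf (center_le x) (center_le w0))
    refine top_le_iff.1 (sup_eq_top_of_prime_index (hx ▸ hp) ?_ ▸ sup_le (hA d hd.1)
      ((Subgroup.zpowers_le (g := w0)).2 (Subgroup.mem_centralizer_singleton_iff.2
        (Subgroup.mem_centralizer_singleton_iff.1 hd.2).symm)))
    intro e
    have h1 := hA w0 (e (Subgroup.mem_zpowers w0))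
    exact hw0'.1 ((eq_of_le_prime_index h1 (hx ▸ hp) fun et => hw0'.2.ne_one (by rw [et, Subgroup.index_top])) ▸ hx)
  refine ⟨p, (C w0).index, hp, hw0'.2, Ne.symm hw0'.1, by rw [← Subgroup.index_eq_card]; exact (congrArg Subgroup.index hDZ).symm.trans hDi, ?_⟩
  intro hcomm
  refine hw0 ⟨fun n hn g => ?_⟩
  have h1 : g * n * g⁻¹ * n⁻¹ ∈ Z := by
    rw [← QuotientGroup.eq_one_iff]
    show QuotientGroup.mk' Z _ = 1
    rw [map_mul, map_mul, map_mul, map_inv, map_inv, hcomm.is_comm.comm (QuotientGroup.mk' Z g)]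
    group
  simpa using (C w0).mul_mem (center_le w0 h1) hn

end Cfsg.Agent.S4314
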