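import Cfsg.Statements.S4316
import Cfsg.Agent.CoprimeDerived.RankThree
import Cfsg.Agent.Coprime.External

set_option autoImplicit false
universe u
open Cfsg
open scoped commutatorElement Pointwise

namespace Cfsg.Agent.S4316

/-- There is a function `f` of two natural-number arguments with the following property. Let `q` be a prime and `A` an elementary abelian group of order `q³` acting by automorphisms on a finite group `G` of order prime to `q`, and suppose that for every non-identity `a ∈ A` the derived subgroup of the fixed-point subgroup `C_G(a)` has order at most `m`. Then the derived subgroup of `G` has order at most `f(q, m)`. -/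
theorem result :
    ∃ f : ℕ → ℕ → ℕ, ∀ (q m : ℕ) (A G : Type u) [Group A] [Finite A] [Group G] [Finite G] [MulDistribMulAction A G],
      q.Prime → Nat.card A = q ^ 3 → (∀ a b : A, a * b = b * a) → (∀ a : A, a ^ q = 1) → ¬ q ∣ Nat.card G →
      (∀ a : A, a ≠ 1 → Nat.card ↥(commutator ↥(FixedPoints.subgroup (Subgroup.zpowers a) G)) ≤ m) →
      Nat.card ↥(commutator G) ≤ f q m := by
  refine ⟨CfsgLib.CoprimeDerived.derivedBound, fun q m A G _ _ _ _ _ hq hA hAc hAe hqG h => ?_⟩
  set φ := MulDistribMulAction.toMulAut A G
  haveI : Finite (G ⋊[φ] A) := Finite.of_equiv _ SemidirectProduct.equivProd.symm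
  set ι := SemidirectProduct.inl (φ := φ) with hι
  set A' := (SemidirectProduct.inr (φ := φ)).range with hA'
  haveI : ι.range.Normal := by
    rw [hι, SemidirectProduct.range_inl_eq_ker_rightHom]; infer_instance
  have hGA : ι.range ⊔ A' = ⊤ := by
    refine top_le_iff.mp fun x _ => ?_
    rw [← SemidirectProduct.inl_left_mul_inr_right x]
    exact Subgroup.mul_mem_sup ⟨x.left, rfl⟩ ⟨x.right, rfl⟩
  have hcard : Nat.card A' = q ^ 3 := by
    rw [← hA]; exact CfsgLib.Coprime.card_range_inr φ
  have hrange : Nat.card ι.range = Nat.card G :=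
    (Nat.card_congr (MonoidHom.ofInjective SemidirectProduct.inl_injective).toEquiv).symm
  have hm : 0 < m := by
    haveI : Nontrivial A := Finite.one_lt_card_iff_nontrivial.mp (by
      rw [hA]; exact Nat.one_lt_pow (by norm_num) hq.one_lt)
    obtain ⟨a, ha⟩ := exists_ne (1 : A)
    exact lt_of_lt_of_le Nat.card_pos (h a ha)
  have main := CfsgLib.CoprimeDerived.card_commutator_le (Γ := G ⋊[φ] A) (A := A') (G := ι.range)
    hq hGA hcard ⟨⟨?_⟩⟩ ?_ (by rw [hrange]; exact hqG) hm ?_
  · rw [show Nat.card ↥(commutator G) = Nat.card (⁅ι.range, ι.range⁆ : Subgroup (G ⋊[φ] A)) by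
      rw [MonoidHom.range_eq_map, ← Subgroup.map_commutator,
        Subgroup.card_map_of_injective SemidirectProduct.inl_injective]; rfl]
    exact main
  · rintro ⟨_, a, rfl⟩ ⟨_, b, rfl⟩
    exact Subtype.ext (by simp only [Subgroup.coe_mul, ← map_mul, hAc a b])
  · rintro _ ⟨a, rfl⟩
    rw [← map_pow, hAe a, map_one]
  · rintro _ ⟨a, rfl⟩ ha
    have ha1 : a ≠ 1 := fun e => ha (by rw [e, map_one])
    set F := FixedPoints.subgroup (Subgroup.zpowers a) G with hF
    have e : ι.range ⊓ Subgroup.centralizer ({SemidirectProduct.inr (φ := φ) a} : Set (G ⋊[φ] A)) =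
        F.map ι := by
      ext x
      simp only [Subgroup.mem_inf, MonoidHom.mem_range, Subgroup.mem_centralizer_singleton_iff,
        Subgroup.mem_map]
      constructor
      · rintro ⟨⟨g, rfl⟩, hg⟩
        refine ⟨g, ?_, rfl⟩
        have hfix : a • g = g := by
          have := SemidirectProduct.inl_aut (φ := φ) a g
          apply SemidirectProduct.inl_injective (φ := φ)
          show ι (φ a g) = ι g
          rw [hι, this, ← hg, map_inv, mul_inv_cancel_right]
        rintro ⟨c, hc⟩
        have : Subgroup.zpowers a ≤ MulAction.stabilizer A g :=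
          Subgroup.zpowers_le_of_mem hfix
        exact this hc
      · rintro ⟨g, hg, rfl⟩
        refine ⟨⟨g, rfl⟩, ?_⟩
        have hfix : φ a g = g := hg ⟨a, Subgroup.mem_zpowers a⟩
        have := SemidirectProduct.inl_aut (φ := φ) a g
        rw [hfix, map_inv] at this
        rw [eq_mul_inv_iff_mul_eq] at this
        exact this
    rw [e, ← Subgroup.map_commutator, Subgroup.card_map_of_injective SemidirectProduct.inl_injective]
    refine le_trans (le_of_eq ?_) (h a ha1)
    rw [← Subgroup.map_subtype_commutator, Subgroup.card_map_of_injective F.subtype_injective]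

end Cfsg.Agent.S4316
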