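import Cfsg.Statements.S4320

set_option autoImplicit false
open Cfsg

namespace Cfsg.Agent.S4320

open scoped TensorProduct

/-- Core of the Principal Ideal Theorem: a derivation into a module over the group ring of the
abelianization is killed, on its values, by the sum of all group elements. -/
theorem norm_smul_derivation_eq_zero {G : Type*} [Group G] [Finite G] {Q : Type*} [CommGroup Q]
    [Fintype Q] (π : G →* Q) (hπ : Function.Surjective π) (hker : π.ker = commutator G)
    {W : Type*} [AddCommGroup W] [Module (MonoidAlgebra ℤ Q) W] (δ : G → W)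
    (hδ : ∀ g h, δ (g * h) = δ g + MonoidAlgebra.of ℤ Q (π g) • δ h) (g : G) :
    (∑ x : Q, MonoidAlgebra.of ℤ Q x) • δ g = 0 := by
  classical
  letI : Fintype G := Fintype.ofFinite G
  let R := MonoidAlgebra ℤ Q
  let eps : R →+* ℤ := (MonoidAlgebra.lift ℤ ℤ Q (1 : Q →* ℤ)).toRingHom
  have heps : ∀ x : Q, eps (MonoidAlgebra.of ℤ Q x) = 1 := fun x =>
    MonoidAlgebra.lift_of (1 : Q →* ℤ) x
  let δ' : G → W × R := fun g => (δ g, MonoidAlgebra.of ℤ Q (π g) - 1)
  have hδ' : ∀ g h, δ' (g * h) = δ' g + MonoidAlgebra.of ℤ Q (π g) • δ' h := by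
    intro g h
    refine Prod.ext (hδ g h) ?_
    show MonoidAlgebra.of ℤ Q (π (g * h)) - 1 =
      MonoidAlgebra.of ℤ Q (π g) - 1 + MonoidAlgebra.of ℤ Q (π g) * (MonoidAlgebra.of ℤ Q (π h) - 1)
    rw [map_mul, map_mul, mul_sub, mul_one]
    abel
  obtain ⟨ι₀, _, n, hn, ⟨e⟩⟩ := CommGroup.equiv_prod_multiplicative_zmod_of_finite Q
  have : ∀ i : ι₀, ∃ g : G, π g = e.symm (Pi.mulSingle i (Multiplicative.ofAdd 1)) :=
    fun i => hπ _
  choose gen hgen using this
  let ι := ι₀ ⊕ (commutator G : Subgroup G)
  let v : ι → G := Sum.elim gen Subtype.val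
  let b : ι → ℕ := Sum.elim n (fun _ => 1)
  have hb : ∀ i, π (v i) ^ b i = 1 := by
    rintro (i | a)
    · show π (gen i) ^ n i = 1
      rw [hgen, ← map_pow, ← Pi.mulSingle_pow]
      suffices (Multiplicative.ofAdd (1 : ZMod (n i))) ^ n i = 1 by
        rw [this, Pi.mulSingle_one, map_one]
      rw [← ofAdd_nsmul, nsmul_one, ZMod.natCast_self, ofAdd_zero]
    · show π (a : G) ^ 1 = 1
      rw [pow_one, ← MonoidHom.mem_ker, hker]
      exact a.2
  have hbQ : (∏ i, (b i : ℤ)) = Fintype.card Q := by
    rw [Fintype.prod_sum_type]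
    have h1 : Fintype.card Q = ∏ i, n i := by
      rw [← Nat.card_eq_fintype_card, Nat.card_congr e.toEquiv, Nat.card_pi]
      refine Finset.prod_congr rfl fun i _ => ?_
      rw [Nat.card_congr Multiplicative.toAdd, Nat.card_zmod]
    show (∏ i, (n i : ℤ)) * (∏ _a : (commutator G : Subgroup G), ((1 : ℕ) : ℤ)) = _
    rw [h1, Nat.cast_prod]
    simp
  -- every value lies in the span of the chosen ones
  let Φ := Fintype.linearCombination R (fun i => δ' (v i))
  have hone : δ' 1 = 0 := by
    have h := hδ' 1 1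
    rwa [mul_one, map_one, map_one, one_smul, left_eq_add] at h
  have hspan : ∀ g, δ' g ∈ LinearMap.range Φ := by
    let H : Subgroup G :=
      { carrier := {g | δ' g ∈ LinearMap.range Φ}
        one_mem' := by
          show δ' 1 ∈ LinearMap.range Φ
          rw [hone]; exact zero_mem _
        mul_mem' := fun {a b} ha hb' => by
          show δ' (a * b) ∈ LinearMap.range Φ
          rw [hδ']
          exact add_mem ha (Submodule.smul_mem _ _ hb')
        inv_mem' := fun {a} ha => by
          show δ' a⁻¹ ∈ LinearMap.range Φ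
          have h := hδ' a⁻¹ a
          rw [inv_mul_cancel, hone, eq_comm, add_eq_zero_iff_eq_neg] at h
          rw [h]
          exact neg_mem (Submodule.smul_mem _ _ ha) }
    have hv : ∀ i, v i ∈ H := fun i =>
      ⟨Pi.single i 1, by simp [Φ, Fintype.linearCombination_apply_single]⟩
    intro g
    show g ∈ H
    have hQ : ∀ q : Q, q ∈ H.map π := by
      intro q
      have hq : q = ∏ i, π (gen i) ^ (Multiplicative.toAdd (e q i)).val := by
        apply e.injective
        rw [map_prod]
        simp only [map_pow, hgen, MulEquiv.apply_symm_apply]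
        funext j
        rw [Finset.prod_apply, Finset.prod_eq_single j]
        · haveI : NeZero (n j) := ⟨by have := hn j; omega⟩
          rw [Pi.pow_apply, Pi.mulSingle_eq_same, ← ofAdd_nsmul, nsmul_one, ZMod.natCast_val,
            ZMod.cast_id]
          rfl
        · intro i _ hij
          rw [Pi.pow_apply, Pi.mulSingle_eq_of_ne (Ne.symm hij), one_pow]
        · intro h; exact absurd (Finset.mem_univ j) h
      rw [hq]
      exact Subgroup.prod_mem _ fun i _ =>
        Subgroup.pow_mem _ (Subgroup.mem_map_of_mem π (hv (Sum.inl i))) _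
    obtain ⟨h, hh, hhg⟩ := hQ (π g)
    have hk : h⁻¹ * g ∈ commutator G := by
      rw [← hker, MonoidHom.mem_ker, map_mul, map_inv, hhg, inv_mul_cancel]
    have h2 : h * (h⁻¹ * g) ∈ H := mul_mem hh (hv (Sum.inr ⟨_, hk⟩))
    simpa using h2
  -- modulo the augmentation part the derivation is a homomorphism
  let K : Submodule R (W × R) :=
    (Submodule.pi Set.univ (fun _ : ι => RingHom.ker eps)).map Φ
  have hmem : ∀ (r : R), eps r = 0 → ∀ g, r • δ' g ∈ K := by
    intro r hr g
    obtain ⟨c, hc⟩ := hspan g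
    refine ⟨r • c, fun i _ => ?_, by rw [map_smul, hc]⟩
    show eps (r * c i) = 0
    rw [map_mul, hr, zero_mul]
  let θ : G →* Multiplicative ((W × R) ⧸ K) :=
    { toFun := fun g => Multiplicative.ofAdd (Submodule.Quotient.mk (δ' g))
      map_one' := by rw [hone, Submodule.Quotient.mk_zero, ofAdd_zero]
      map_mul' := fun a c => by
        rw [← ofAdd_add, ← Submodule.Quotient.mk_add]
        refine congrArg _ ((Submodule.Quotient.eq K).mpr ?_)
        rw [hδ', add_sub_add_left_eq_sub]
        conv => arg 2; arg 2; rw [← one_smul R (δ' c)]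
        rw [← sub_smul]
        exact hmem _ (by rw [map_sub, heps, map_one, sub_self]) c }
  have hrel : ∀ i, (b i : R) • δ' (v i) ∈ K := by
    intro i
    have h1 : θ (v i ^ b i) = 1 := by
      refine Abelianization.commutator_subset_ker θ ?_
      rw [← hker, MonoidHom.mem_ker, map_pow]
      exact hb i
    rw [map_pow] at h1
    have h2 := congrArg Multiplicative.toAdd h1
    rw [toAdd_pow, toAdd_one] at h2
    rw [← Submodule.Quotient.mk_eq_zero, Submodule.Quotient.mk_smul, Nat.cast_smul_eq_nsmul]
    exact h2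
  choose m hm hmΦ using hrel
  let P : Matrix ι ι R := Matrix.diagonal (fun i => (b i : R)) - Matrix.of m
  have hP : ∀ i, ∑ j, P i j • δ' (v j) = 0 := by
    intro i
    simp only [P, Matrix.sub_apply, sub_smul, Finset.sum_sub_distrib]
    rw [sub_eq_zero, Finset.sum_eq_single i (fun j _ hji => by
      rw [Matrix.diagonal_apply_ne _ (Ne.symm hji), zero_smul])
      (fun h => absurd (Finset.mem_univ i) h), Matrix.diagonal_apply_eq]
    rw [← hmΦ i]
    rfl
  have hdet : ∀ k, P.det • δ' (v k) = 0 := by
    intro k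
    have h0 : ∑ i, P.adjugate k i • ∑ j, P i j • δ' (v j) = 0 := by simp [hP]
    simp only [Finset.smul_sum, smul_smul] at h0
    rw [Finset.sum_comm] at h0
    simp only [← Finset.sum_smul] at h0
    rw [Finset.sum_eq_single k (fun j _ hjk => by
      rw [← Matrix.mul_apply, Matrix.adjugate_mul, Matrix.smul_apply,
        Matrix.one_apply_ne (Ne.symm hjk), smul_zero, zero_smul])
      (fun h => absurd (Finset.mem_univ k) h)] at h0
    rwa [← Matrix.mul_apply, Matrix.adjugate_mul, Matrix.smul_apply, Matrix.one_apply_eq,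
      smul_eq_mul, mul_one] at h0
  have hall : ∀ g, P.det • δ' g = 0 := by
    intro g
    obtain ⟨c, hc⟩ := hspan g
    rw [← hc, Fintype.linearCombination_apply, Finset.smul_sum]
    refine Finset.sum_eq_zero fun i _ => ?_
    rw [smul_comm, hdet, smul_zero]
  have hepsdet : eps P.det = Fintype.card Q := by
    rw [RingHom.map_det, ← hbQ, ← Matrix.det_diagonal]
    congr 1
    ext i j
    rw [RingHom.mapMatrix_apply, Matrix.map_apply]
    simp only [P, Matrix.sub_apply, Matrix.of_apply, map_sub]
    rw [show eps (m i j) = 0 from hm i j (Set.mem_univ j), sub_zero]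
    rcases eq_or_ne i j with rfl | hij
    · rw [Matrix.diagonal_apply_eq, Matrix.diagonal_apply_eq, map_natCast]
    · rw [Matrix.diagonal_apply_ne _ hij, Matrix.diagonal_apply_ne _ hij, map_zero]
  have hconst : ∀ q : Q, P.det.coeff q = P.det.coeff 1 := by
    intro q
    obtain ⟨g, rfl⟩ := hπ q
    have h : P.det * (MonoidAlgebra.of ℤ Q (π g) - 1) = 0 := congrArg Prod.snd (hall g)
    rw [mul_sub, mul_one, sub_eq_zero] at h
    have h2 : (P.det * MonoidAlgebra.of ℤ Q (π g)).coeff (π g) = P.det.coeff (π g) := by rw [h]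
    rw [MonoidAlgebra.of_apply, MonoidAlgebra.coeff_mul_single_eq_coeff_mul 1
      (fun a _ => mul_eq_right)] at h2
    simpa using h2.symm
  have hsum : P.det = P.det.coeff 1 • ∑ x : Q, MonoidAlgebra.of ℤ Q x := by
    ext q
    rw [MonoidAlgebra.coeff_smul, MonoidAlgebra.coeff_sum, Finsupp.smul_apply, Finsupp.finsetSum_apply,
      hconst q]
    simp [MonoidAlgebra.of_apply, Finsupp.single_apply]
  have hc1 : P.det.coeff 1 = 1 := by
    have h := hepsdet
    rw [hsum, map_zsmul, map_sum] at h
    simp only [heps, Finset.sum_const, Finset.card_univ, nsmul_one, smul_eq_mul] at h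
    exact mul_right_cancel₀ (Nat.cast_ne_zero.mpr Fintype.card_ne_zero) (h.trans (one_mul _).symm)
  have hg := congrArg Prod.fst (hall g)
  rw [hsum, hc1, one_smul] at hg
  exact hg


/-- The Principal Ideal Theorem of class field theory in its group-theoretic form: for every finite group `G`, the transfer homomorphism from `G` into the abelianization `G'/G''` of its derived subgroup `G'` is the trivial homomorphism. -/
theorem result {G : Type*} [Group G] [Finite G] :
    MonoidHom.transfer (Abelianization.of : ↥(commutator G) →* Abelianization ↥(commutator G)) =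
      (1 : G →* Abelianization ↥(commutator G)) := by
  classical
  letI : CommGroup (G ⧸ commutator G) := inferInstanceAs (CommGroup (Abelianization G))
  letI : Fintype (G ⧸ commutator G) := Fintype.ofFinite _
  let R := MonoidAlgebra ℤ (G ⧸ commutator G)
  let A := Additive (Abelianization (commutator G))
  let T₀ : (commutator G).LeftTransversal := default
  let s : G ⧸ commutator G → G := fun q => (T₀.2.leftQuotientEquiv q : G)
  have hs : ∀ q, (QuotientGroup.mk (s q) : G ⧸ commutator G) = q := fun q =>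
    Subgroup.IsComplement.quotientGroupMk_leftQuotientEquiv T₀.2 q
  have hsm : ∀ (g : G) (q : G ⧸ commutator G),
      g • q = (QuotientGroup.mk g : G ⧸ commutator G) * q := by
    intro g q
    obtain ⟨y, rfl⟩ := QuotientGroup.mk_surjective q
    rfl
  have hmem : ∀ (g : G) (q : G ⧸ commutator G), (s q)⁻¹ * g * s (g⁻¹ • q) ∈ commutator G := by
    intro g q
    rw [mul_assoc, ← QuotientGroup.eq, hs, QuotientGroup.mk_mul, hs, hsm, QuotientGroup.mk_inv,
      mul_inv_cancel_left]
  let d : G → G ⧸ commutator G → A := fun g q =>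
    Additive.ofMul (Abelianization.of ⟨_, hmem g q⟩)
  let δ : G → R ⊗[ℤ] A := fun g => ∑ q, MonoidAlgebra.of ℤ _ q ⊗ₜ[ℤ] d g q
  have hδ : ∀ g h, δ (g * h) = δ g +
      MonoidAlgebra.of ℤ _ (QuotientGroup.mk' (commutator G) g) • δ h := by
    intro g h
    have hd : ∀ q, d (g * h) q = d g q + d h (g⁻¹ • q) := by
      intro q
      simp only [d]
      rw [← ofMul_mul, ← map_mul]
      congr 2
      apply Subtype.ext
      show (s q)⁻¹ * (g * h) * s ((g * h)⁻¹ • q) = ((s q)⁻¹ * g * s (g⁻¹ • q)) * ((s (g⁻¹ • q))⁻¹ * h * s (h⁻¹ • g⁻¹ • q))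
      rw [mul_inv_rev, mul_smul]
      group
    simp only [δ, hd, TensorProduct.tmul_add, Finset.sum_add_distrib, Finset.smul_sum]
    congr 1
    refine (Fintype.sum_equiv (MulAction.toPerm g) _ _ fun q => ?_).symm
    rw [MulAction.toPerm_apply, inv_smul_smul, hsm, TensorProduct.smul_tmul', smul_eq_mul,
      ← map_mul]
    rfl
  ext g
  have h := norm_smul_derivation_eq_zero (QuotientGroup.mk' (commutator G))
    (QuotientGroup.mk'_surjective _) (QuotientGroup.ker_mk' _) δ hδ g
  let co : R →ₗ[ℤ] ℤ := (AddMonoidHom.mk' (fun r : R => r.coeff 1) (fun a b => by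
    show (a + b : MonoidAlgebra ℤ (G ⧸ commutator G)).coeff 1 = _
    rw [MonoidAlgebra.coeff_add]; rfl)).toIntLinearMap
  let ev : R ⊗[ℤ] A →ₗ[ℤ] A := TensorProduct.lift ((LinearMap.lsmul ℤ A).comp co)
  have h2 := congrArg ev h
  rw [map_zero] at h2
  simp only [δ, Finset.smul_sum, TensorProduct.smul_tmul', smul_eq_mul, ev] at h2
  have hco : ∀ q : G ⧸ commutator G,
      co ((∑ x, MonoidAlgebra.of ℤ _ x) * MonoidAlgebra.of ℤ _ q) = 1 := by
    intro q
    show (((∑ x, MonoidAlgebra.of ℤ _ x) * MonoidAlgebra.of ℤ _ q : R)).coeff 1 = 1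
    rw [MonoidAlgebra.of_apply, MonoidAlgebra.coeff_mul_single_eq_coeff_mul q⁻¹
      (fun a _ => mul_eq_one_iff_eq_inv), mul_one, MonoidAlgebra.coeff_sum,
      Finsupp.finsetSum_apply]
    simp [MonoidAlgebra.of_apply, Finsupp.single_apply]
  replace h2 := (map_sum ev _ _).symm.trans h2
  have h3 : ∀ q, ev (((∑ x, MonoidAlgebra.of ℤ _ x) * MonoidAlgebra.of ℤ _ q) ⊗ₜ[ℤ] d g q) =
      d g q := by
    intro q
    show co _ • d g q = _
    rw [hco]
    exact one_smul _ _
  replace h2 := (Finset.sum_congr rfl fun q _ => h3 q).symm.trans h2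
  rw [MonoidHom.one_apply, MonoidHom.transfer_def _ T₀]
  apply Additive.ofMul.injective
  rw [ofMul_one]
  refine Eq.trans ?_ h2
  unfold Subgroup.leftTransversals.diff
  rw [ofMul_prod]
  refine Fintype.sum_equiv (Equiv.refl _) _ _ fun q => ?_
  simp only [Equiv.refl_apply]
  congr 2
  apply Subtype.ext
  show (s q)⁻¹ * _ = _
  rw [Subgroup.smul_apply_eq_smul_apply_inv_smul, smul_eq_mul]
  exact (mul_assoc _ _ _).symm

end Cfsg.Agent.S4320
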