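import Cfsg.Statements.S4321
import Cfsg.Agent.ClassSizes.CoprimeProduct
import Cfsg.Agent.ClassSizes.PPrimeCentral
import Cfsg.Agent.PGroup.Frattini
import Cfsg.Agent.Eq.Def_Transfer

set_option autoImplicit false
open Cfsg

namespace Cfsg.Agent.S4321

section Aux

open CfsgLib.CoprimeLargest (idx cls)
open CfsgLib.TwoSizes (cen mem_cen IsPElt)
open scoped commutatorElement

variable {G : Type*} [Group G] {p : ℕ}

/-- Vertices of the graph. -/
def Vtx (p : ℕ) (G : Type*) [Group G] (t : ℕ) : Prop :=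
  t.Prime ∧ ∃ x : G, p ∣ orderOf x ∧ t ∣ (Subgroup.centralizer ({x} : Set G)).index

/-- Edges of the graph. -/
def Adj (p : ℕ) (G : Type*) [Group G] (a b : ℕ) : Prop :=
  ∃ x : G, p ∣ orderOf x ∧ a * b ∣ (Subgroup.centralizer ({x} : Set G)).index

theorem Adj.symm {a b : ℕ} (h : Adj p G a b) : Adj p G b a := by
  obtain ⟨x, h1, h2⟩ := h
  exact ⟨x, h1, by rwa [mul_comm]⟩

/-- Joined within three edges. -/
def Joined (p : ℕ) (G : Type*) [Group G] (r s : ℕ) : Prop :=
  Adj p G r s ∨ (∃ t, Vtx p G t ∧ t ≠ r ∧ t ≠ s ∧ Adj p G r t ∧ Adj p G t s) ∨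
    ∃ t u, Vtx p G t ∧ Vtx p G u ∧ t ≠ r ∧ u ≠ s ∧ t ≠ u ∧ Adj p G r t ∧ Adj p G t u ∧ Adj p G u s

theorem joined_two {r t s : ℕ} (hrs : r ≠ s) (ht : Vtx p G t) (h1 : r = t ∨ Adj p G r t)
    (h2 : t = s ∨ Adj p G t s) : Joined p G r s := by
  rcases h1 with rfl | h1
  · exact Or.inl (h2.resolve_left hrs)
  · rcases h2 with rfl | h2
    · exact Or.inl h1
    · by_cases e1 : t = r
      · exact Or.inl (e1 ▸ h2)
      by_cases e2 : t = s
      · exact Or.inl (e2 ▸ h1)
      exact Or.inr (Or.inl ⟨t, ht, e1, e2, h1, h2⟩)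

theorem joined_three {r t u s : ℕ} (hrs : r ≠ s) (ht : Vtx p G t) (hu : Vtx p G u)
    (h1 : r = t ∨ Adj p G r t) (h2 : t = u ∨ Adj p G t u) (h3 : u = s ∨ Adj p G u s) :
    Joined p G r s := by
  by_cases e1 : t = r
  · subst e1; exact joined_two hrs hu h2 h3
  by_cases e2 : u = s
  · subst e2; exact joined_two hrs ht h1 h2
  by_cases e3 : t = u
  · subst e3; exact joined_two hrs ht h1 h3
  exact Or.inr (Or.inr ⟨t, u, ht, hu, e1, e2, e3, h1.resolve_left (Ne.symm e1),
    h2.resolve_left e3, h3.resolve_left e2⟩)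

variable [Finite G] [hp : Fact p.Prime]

theorem isPElt_order {a : G} (h : IsPElt p a) : ∃ k, orderOf a = p ^ k := by
  obtain ⟨k, hk⟩ := h
  obtain ⟨j, -, hj⟩ := (Nat.dvd_prime_pow hp.out).1 (orderOf_dvd_of_pow_eq_one hk)
  exact ⟨j, hj⟩

theorem dvd_order {a : G} (h : IsPElt p a) (h1 : a ≠ 1) : p ∣ orderOf a := by
  obtain ⟨k, hk⟩ := isPElt_order h
  rw [hk]
  refine dvd_pow_self p fun k0 => h1 ?_
  rw [k0, pow_zero] at hk
  exact orderOf_eq_one_iff.1 hk

theorem isPElt_conj {a : G} (h : IsPElt p a) (g : G) : IsPElt p (g * a * g⁻¹) := by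
  obtain ⟨k, hk⟩ := h
  exact ⟨k, by rw [conj_pow, hk, mul_one, mul_inv_cancel]⟩

theorem isPElt_mul {a b : G} (hc : Commute a b) (ha : IsPElt p a) (hb : IsPElt p b) :
    IsPElt p (a * b) := by
  obtain ⟨i, hi⟩ := ha
  obtain ⟨j, hj⟩ := hb
  refine ⟨i + j, ?_⟩
  rw [hc.mul_pow, pow_add, pow_mul, hi, one_pow, one_mul, mul_comm, pow_mul, hj, one_pow]

theorem isPElt_inv {a : G} (ha : IsPElt p a) : IsPElt p a⁻¹ := by
  obtain ⟨i, hi⟩ := ha
  exact ⟨i, by rw [inv_pow, hi, inv_one]⟩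

theorem not_mem_center (hZ : ¬ p ∣ Nat.card (Subgroup.center G)) {a : G} (ha : IsPElt p a)
    (h1 : a ≠ 1) : a ∉ Subgroup.center G := fun h =>
  hZ ((dvd_order ha h1).trans (Subgroup.orderOf_dvd_natCard _ h))

theorem one_lt_idx (hZ : ¬ p ∣ Nat.card (Subgroup.center G)) {a : G} (ha : IsPElt p a)
    (h1 : a ≠ 1) : 1 < idx a := by
  have h0 := CfsgLib.CoprimeLargest.idx_ne_zero a
  have : idx a ≠ 1 := fun e => not_mem_center hZ ha h1 ((CfsgLib.CoprimeLargest.idx_eq_one_iff a).1 e)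
  omega

/-- A `p`-element with class size prime to `p` lies in the centre of some Sylow subgroup. -/
theorem exists_sylow_mem_le_cen {a : G} (ha : IsPElt p a) (h : ¬ p ∣ idx a) :
    ∃ Q : Sylow p G, a ∈ (Q : Subgroup G) ∧ (Q : Subgroup G) ≤ cen a := by
  obtain ⟨Q, hQ⟩ := CfsgLib.ClassSizes.exists_sylow_le_of_not_dvd_index _ h
  refine ⟨Q, ?_, hQ⟩
  have hz : IsPGroup p (Subgroup.zpowers a) := by
    obtain ⟨k, hk⟩ := isPElt_order ha
    exact IsPGroup.of_card (n := k) (by rw [Nat.card_zpowers, hk])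
  have hle : Subgroup.zpowers a ≤ Subgroup.normalizer ((Q : Subgroup G) : Set G) := by
    rw [Subgroup.zpowers_le]
    refine Subgroup.centralizer_le_normalizer _ (Subgroup.mem_centralizer_iff.2 fun y hy => ?_)
    exact mem_cen.1 (hQ hy)
  have hsup : IsPGroup p (Subgroup.zpowers a ⊔ (Q : Subgroup G) : Subgroup G) :=
    hz.to_sup_of_normal_right' Q.isPGroup' hle
  exact Q.is_maximal' hsup le_sup_right ▸ Subgroup.mem_sup_left (Subgroup.mem_zpowers a)

/-- A commuting pair with coprime class sizes is, up to conjugation, the only pair. -/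
theorem exists_commuting_conj {a b : G} (ha : IsPElt p a) (hb : IsPElt p b) (h : ¬ p ∣ idx a) :
    ∃ g : G, Commute a (g * b * g⁻¹) := by
  obtain ⟨Q, haQ, hQ⟩ := exists_sylow_mem_le_cen ha h
  obtain ⟨k, hk⟩ := isPElt_order hb
  have hz : IsPGroup p (Subgroup.zpowers b) :=
    IsPGroup.of_card (n := k) (by rw [Nat.card_zpowers, hk])
  obtain ⟨R, hR⟩ := hz.exists_le_sylow
  obtain ⟨g, hg⟩ := MulAction.exists_smul_eq G R Q
  refine ⟨g, (mem_cen.1 (hQ ?_) : Commute _ a).symm⟩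
  rw [← hg, Sylow.coe_subgroup_smul, Subgroup.pointwise_smul_def]
  exact ⟨b, hR (Subgroup.mem_zpowers b), rfl⟩

/-- If the product of a commuting pair has the class size of `b`, then `p` divides that size and `a`
lies in a normal `p`-subgroup. -/
theorem of_idx_mul_eq (hZ : ¬ p ∣ Nat.card (Subgroup.center G)) {a b : G} (ha : IsPElt p a)
    (ha1 : a ≠ 1) (hcop : (idx a).Coprime (idx b)) (he : idx (a * b) = idx b) :
    p ∣ idx b ∧ ∃ U : Subgroup G, U.Normal ∧ IsPGroup p U ∧ a ∈ U := by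
  obtain ⟨N, hN, hNb, hc⟩ := CfsgLib.CoprimeLargest.exists_normal_commutators hcop he
  obtain ⟨M, hM, -, hMc, z, hz, w, hw, hzw⟩ :=
    CfsgLib.CoprimeLargest.exists_central_mul hN (hcop.symm.of_dvd_left hNb) hc
  have hcomm : ∀ g : G, Commute a (g * a * g⁻¹) := by
    intro g
    have e : g * a * g⁻¹ = z * (g * w * g⁻¹) := by
      rw [hzw, ← mul_assoc g z w, Subgroup.mem_center_iff.1 hz g]; group
    rw [e, hzw]
    have hzc : ∀ c : G, Commute z c := fun c => (Subgroup.mem_center_iff.1 hz c).symm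
    have h2 : Commute w (g * w * g⁻¹) := hMc w hw _ (hM.conj_mem w hw g)
    exact ((hzc _).mul_left ((hzc w).symm.mul_right h2))
  have hcomm2 : ∀ g k : G, Commute (g * a * g⁻¹) (k * a * k⁻¹) := by
    intro g k
    have h0 := hcomm (g⁻¹ * k)
    show g * a * g⁻¹ * (k * a * k⁻¹) = k * a * k⁻¹ * (g * a * g⁻¹)
    calc g * a * g⁻¹ * (k * a * k⁻¹) = g * (a * (g⁻¹ * k * a * (g⁻¹ * k)⁻¹)) * g⁻¹ := by group
      _ = g * (g⁻¹ * k * a * (g⁻¹ * k)⁻¹ * a) * g⁻¹ := by rw [h0.eq]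
      _ = _ := by group
  constructor
  · obtain ⟨g, hg⟩ : ∃ g : G, g * a * g⁻¹ ≠ a := by
      by_contra hne
      push Not at hne
      exact not_mem_center hZ ha ha1
        (Subgroup.mem_center_iff.2 fun g => mul_inv_eq_iff_eq_mul.1 (hne g))
    have h1 : IsPElt p (a⁻¹ * (g * a * g⁻¹)) :=
      isPElt_mul (hcomm g).inv_left (isPElt_inv ha) (isPElt_conj ha g)
    refine (dvd_order h1 fun e => hg ?_).trans ((Subgroup.orderOf_dvd_natCard _ (hc g)).trans hNb)
    exact (inv_mul_eq_one.1 e).symm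
  · set U : Subgroup G := Subgroup.closure (cls a) with hU
    have hUc : ∀ s ∈ U, ∀ t ∈ U, Commute s t := by
      have hAc : IsMulCommutative U := Subgroup.isMulCommutative_closure fun x hx y hy => by
        obtain ⟨g, rfl⟩ := hx; obtain ⟨k, rfl⟩ := hy; exact (hcomm2 g k).eq
      exact fun s hs t ht => congrArg Subtype.val (hAc.is_comm.comm ⟨s, hs⟩ ⟨t, ht⟩)
    have hUn : U.Normal := by
      refine ⟨fun v hv g => ?_⟩
      have : U.map (MulAut.conj g).toMonoidHom ≤ U := by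
        rw [hU, MonoidHom.map_closure, Subgroup.closure_le]
        rintro _ ⟨_, ⟨k, rfl⟩, rfl⟩
        exact Subgroup.subset_closure ⟨g * k, by simp [mul_assoc]⟩
      exact this ⟨v, hv, rfl⟩
    refine ⟨U, hUn, ?_, Subgroup.subset_closure ⟨1, by simp⟩⟩
    have key : ∀ s ∈ U, IsPElt p s := by
      intro s hs
      induction hs using Subgroup.closure_induction with
      | mem x hx => obtain ⟨g, rfl⟩ := hx; exact isPElt_conj ha g
      | one => exact ⟨0, by simp⟩
      | mul x y hx hy ihx ihy => exact isPElt_mul (hUc x hx y hy) ihx ihy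
      | inv x hx ih => exact isPElt_inv ih
    intro s
    obtain ⟨k, hk⟩ := key s.1 s.2
    exact ⟨k, Subtype.ext (by simpa using hk)⟩

/-- No edge joins a prime of `idx a` and a prime of `idx b`. -/
def Apart (p : ℕ) (a b : G) : Prop :=
  ∀ t u : ℕ, t.Prime → u.Prime → t ∣ idx a → u ∣ idx b → t ≠ u ∧ ¬ Adj p G t u

omit [Finite G] hp in
theorem Apart.coprime {a b : G} (h : Apart p a b) : (idx a).Coprime (idx b) := by
  by_contra hn
  obtain ⟨t, ht, h1, h2⟩ := Nat.Prime.not_coprime_iff_dvd.1 hn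
  exact (h t t ht ht h1 h2).1 rfl

/-- The basic consequence for `a` with class size prime to `p`. -/
theorem of_apart (hZ : ¬ p ∣ Nat.card (Subgroup.center G)) {a b : G} (ha : IsPElt p a) (ha1 : a ≠ 1)
    (hb : IsPElt p b) (hb1 : b ≠ 1) (hna : ¬ p ∣ idx a) (h : Apart p a b) :
    p ∣ idx b ∧ ∃ U : Subgroup G, U.Normal ∧ IsPGroup p U ∧ a ∈ U := by
  obtain ⟨g, hg⟩ := exists_commuting_conj ha hb hna
  set c := g * b * g⁻¹ with hc
  have hidx : idx c = idx b := CfsgLib.CoprimeLargest.idx_conj b g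
  have hcop : (idx a).Coprime (idx c) := hidx ▸ h.coprime
  have hcP : IsPElt p c := isPElt_conj hb g
  have hc1 : c ≠ 1 := fun e => hb1 (conj_eq_one_iff.1 e)
  have hB := CfsgLib.CoprimeLargest.idx_le_idx_mul hcop
  have hA := CfsgLib.CoprimeLargest.idx_le_idx_mul' hcop
  have hdvd := CfsgLib.CoprimeLargest.idx_mul_dvd hcop
  have hA1 := one_lt_idx hZ ha ha1
  have hac1 : a * c ≠ 1 := fun e => by
    have : idx (a * c) = 1 := (CfsgLib.CoprimeLargest.idx_eq_one_iff _).2 (e ▸ one_mem _)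
    omega
  by_cases h1 : (idx (a * c)).Coprime (idx a)
  · have he : idx (a * c) = idx c := by
      have := Nat.le_of_dvd (Nat.pos_of_ne_zero (CfsgLib.CoprimeLargest.idx_ne_zero c))
        (h1.dvd_of_dvd_mul_left hdvd)
      omega
    obtain ⟨h3, h4⟩ := of_idx_mul_eq hZ ha ha1 hcop he
    exact ⟨hidx ▸ h3, h4⟩
  by_cases h2 : (idx (a * c)).Coprime (idx c)
  · have he : idx (c * a) = idx a := by
      have := Nat.le_of_dvd (Nat.pos_of_ne_zero (CfsgLib.CoprimeLargest.idx_ne_zero a))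
        (h2.dvd_of_dvd_mul_right hdvd)
      rw [← hg.eq]
      omega
    exact absurd (of_idx_mul_eq hZ hcP hc1 hcop.symm he).1 hna
  obtain ⟨t, ht, ht1, ht2⟩ := Nat.Prime.not_coprime_iff_dvd.1 h1
  obtain ⟨u, hu, hu1, hu2⟩ := Nat.Prime.not_coprime_iff_dvd.1 h2
  have hu2' : u ∣ idx b := hidx ▸ hu2
  obtain ⟨hne, hadj⟩ := h t u ht hu ht2 hu2'
  exact absurd ⟨a * c, dvd_order (isPElt_mul hg ha hcP) hac1,
    Nat.Coprime.mul_dvd_of_dvd_of_dvd ((Nat.coprime_primes ht hu).2 hne) ht1 hu1⟩ hadj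

/-- If a group is the union of two subgroups, one of them is everything. -/
theorem top_of_cover {H : Type*} [Group H] (A B : Subgroup H) (h : ∀ x, x ∈ A ∨ x ∈ B) :
    A = ⊤ ∨ B = ⊤ := by
  by_contra hn
  simp only [not_or, Subgroup.eq_top_iff', not_forall] at hn
  obtain ⟨⟨x, hx⟩, y, hy⟩ := hn
  have hxB := (h x).resolve_left hx
  have hyA := (h y).resolve_right hy
  rcases h (x * y) with h1 | h1
  · exact hx ((A.mul_mem_cancel_right hyA).1 h1)
  · exact hy ((B.mul_mem_cancel_left hxB).1 h1)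

theorem not_apart (hZ : ¬ p ∣ Nat.card (Subgroup.center G)) {u v : G} (hu : IsPElt p u) (hu1 : u ≠ 1)
    (hv : IsPElt p v) (hv1 : v ≠ 1) (hnu : ¬ p ∣ idx u) : ¬ Apart p u v := by
  classical
  intro hap
  obtain ⟨hpv, -⟩ := of_apart hZ hu hu1 hv hv1 hnu hap
  have hfail : ∀ t : ℕ, t.Prime → t ∣ idx u → ∀ x : G, p ∣ orderOf x → t ∣ idx x → ¬ p ∣ idx x := by
    intro t ht htu x hx htx hpx
    obtain ⟨hne, hadj⟩ := hap t p ht hp.out htu hpv
    exact hadj ⟨x, hx, Nat.Coprime.mul_dvd_of_dvd_of_dvd ((Nat.coprime_primes ht hp.out).2 hne) htx hpx⟩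
  obtain ⟨t, ht, htu⟩ := Nat.exists_prime_and_dvd (one_lt_idx hZ hu hu1).ne'
  -- the structure of the centralizer of `u`
  set K := cen u with hK
  have hKh : ∀ y : K, (orderOf y).Coprime p →
      ¬ p ∣ (Subgroup.centralizer ({y} : Set K)).index := by
    intro y hy hpd
    rcases eq_or_ne y 1 with rfl | hy1
    · have e : Subgroup.centralizer ({(1 : K)} : Set K) = ⊤ := by
        ext x; simp [Subgroup.mem_centralizer_iff]
      rw [e, Subgroup.index_top] at hpd
      exact hp.out.not_dvd_one hpd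
    have hc : Commute u (y : G) := (mem_cen.1 y.2 : Commute (y : G) u).symm
    have hcop : (orderOf u).Coprime (orderOf (y : G)) := by
      obtain ⟨k, hk⟩ := isPElt_order hu
      rw [hk, Subgroup.orderOf_coe]
      exact hy.symm.pow_left k
    have hord : p ∣ orderOf (u * (y : G)) := by
      rw [hc.orderOf_mul_eq_mul_orderOf_of_coprime hcop]
      exact (dvd_order hu hu1).mul_right _
    have h1 : cen (u * (y : G)) ≤ cen u := CfsgLib.TwoSizes.cen_mul_le hc hcop
    have h2 : cen (u * (y : G)) ≤ cen (y : G) := by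
      rw [hc.eq]; exact CfsgLib.TwoSizes.cen_mul_le hc.symm hcop.symm
    have h3 : (cen (u * (y : G))).subgroupOf K = Subgroup.centralizer ({y} : Set K) := by
      ext x
      rw [Subgroup.mem_subgroupOf, Subgroup.mem_centralizer_singleton_iff, mem_cen]
      constructor
      · exact fun h => Subtype.ext (mem_cen.1 (h2 (mem_cen.2 h)))
      · intro h
        exact ((show Commute (x : G) u from mem_cen.1 x.2).mul_right
          (congrArg Subtype.val h : Commute (x : G) (y : G))).eq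
    have h4 : idx (u * (y : G)) = (Subgroup.centralizer ({y} : Set K)).index * idx u := by
      rw [← h3]; exact (Subgroup.relIndex_mul_index h1).symm
    exact hfail t ht htu _ hord (h4 ▸ htu.mul_left _) (h4 ▸ hpd.mul_right _)
  obtain ⟨Q⟩ := (inferInstance : Nonempty (Sylow p K))
  obtain ⟨hQn, -, hQc⟩ := CfsgLib.ClassSizes.sylow_direct_factor hKh Q
  have hPcard : Nat.card ((Q : Subgroup K).map K.subtype) = p ^ (Nat.card G).factorization p := by
    rw [Subgroup.card_map_of_injective K.subtype_injective, Q.card_eq_multiplicity,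
      ← K.card_mul_index, Nat.factorization_mul Nat.card_pos.ne' K.index_ne_zero_of_finite]
    simp [Nat.factorization_eq_zero_of_not_dvd (show ¬ p ∣ K.index from hnu)]
  let P : Sylow p G := Sylow.ofCard _ hPcard
  have hPe : (P : Subgroup G) = (Q : Subgroup K).map K.subtype := rfl
  have hPK : (P : Subgroup G) ≤ K := hPe ▸ Subgroup.map_subtype_le (Q : Subgroup K)
  -- `K` is `P` times elements centralizing `P`
  have hKdec : ∀ k ∈ K, ∃ a ∈ (P : Subgroup G), ∃ b : G,
      (∀ w ∈ (P : Subgroup G), Commute b w) ∧ k = a * b := by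
    intro k hk
    obtain ⟨a, b, -, -, hab, ⟨i, hi⟩, hb⟩ :=
      CfsgLib.Transfer.exists_pPart_decomposition (p := p) (⟨k, hk⟩ : K)
    have haQ : a ∈ (Q : Subgroup K) := by
      have hz : IsPGroup p (Subgroup.zpowers a) := by
        obtain ⟨j, -, hj⟩ := (Nat.dvd_prime_pow hp.out).1 hi
        exact IsPGroup.of_card (n := j) (by rw [Nat.card_zpowers, hj])
      obtain ⟨R, hR⟩ := hz.exists_le_sylow
      haveI := Sylow.unique_of_normal Q hQn
      rw [Subsingleton.elim R Q] at hR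
      exact hR (Subgroup.mem_zpowers a)
    refine ⟨a, hPe ▸ Subgroup.mem_map_of_mem _ haQ, b, ?_, congrArg Subtype.val hab⟩
    rintro w hw
    rw [hPe] at hw
    obtain ⟨q, hq, rfl⟩ := hw
    exact congrArg Subtype.val (hQc b hb q hq)
  -- conjugation of elements of `P`
  have hcopA : ∀ w : G, IsPElt p w → w ≠ 1 → p ∣ idx w → (idx u).Coprime (idx w) := by
    intro w hw hw1 hpw
    by_contra hn
    obtain ⟨t', ht', h1, h2⟩ := Nat.Prime.not_coprime_iff_dvd.1 hn
    exact hfail t' ht' h1 w (dvd_order hw hw1) h2 hpw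
  have hPelt : ∀ w ∈ (P : Subgroup G), IsPElt p w := fun w hw => by
    obtain ⟨k, hk⟩ := P.isPGroup' ⟨w, hw⟩
    exact ⟨k, congrArg Subtype.val hk⟩
  have hconj : ∀ w ∈ (P : Subgroup G), p ∣ idx w → ∀ g : G,
      ∃ a ∈ (P : Subgroup G), g * w * g⁻¹ = a * w * a⁻¹ := by
    intro w hw hpw g
    rcases eq_or_ne w 1 with rfl | hw1
    · exact ⟨1, one_mem _, by simp⟩
    obtain ⟨k, hk, d, hd, rfl⟩ :=
      CfsgLib.Product.exists_mul_of_coprime_index (hcopA w (hPelt w hw) hw1 hpw) g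
    obtain ⟨a, ha, b, hb, rfl⟩ := hKdec k hk
    refine ⟨a, ha, ?_⟩
    calc a * b * d * w * (a * b * d)⁻¹ = a * b * (d * w) * d⁻¹ * b⁻¹ * a⁻¹ := by group
      _ = a * (b * w) * b⁻¹ * a⁻¹ := by rw [mem_cen.1 hd]; group
      _ = a * w * a⁻¹ := by rw [(hb w hw).eq]; group
  -- `P` is normal
  have hPn : (P : Subgroup G).Normal := by
    refine ⟨fun w hw g => ?_⟩
    rcases eq_or_ne w 1 with rfl | hw1
    · simpa using one_mem (P : Subgroup G)
    by_cases hpw : p ∣ idx w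
    · obtain ⟨a, ha, e⟩ := hconj w hw hpw g
      rw [e]
      exact mul_mem (mul_mem ha hw) (inv_mem ha)
    obtain ⟨R, hwR, hR⟩ := exists_sylow_mem_le_cen (hPelt w hw) hpw
    obtain ⟨c, hc⟩ := MulAction.exists_smul_eq G R P
    set z := c * w * c⁻¹ with hz
    have hzP : z ∈ (P : Subgroup G) := by
      rw [← hc, Sylow.coe_subgroup_smul, Subgroup.pointwise_smul_def]
      exact ⟨w, hwR, rfl⟩
    have hzc : ∀ q ∈ (P : Subgroup G), Commute q z := by
      intro q hq
      rw [← hc, Sylow.coe_subgroup_smul, Subgroup.pointwise_smul_def] at hq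
      obtain ⟨q', hq', rfl⟩ := hq
      exact (show Commute q' w from mem_cen.1 (hR hq')).map (MulAut.conj c : G →* G)
    have hKz : K ≤ cen z := by
      intro k hk
      obtain ⟨a, ha, b, hb, rfl⟩ := hKdec k hk
      exact mem_cen.2 ((hzc a ha).mul_left (hb z hzP)).eq
    have hzA : idx z ∣ idx u := Subgroup.index_dvd_of_le hKz
    have hz1 : z ≠ 1 := fun e => hw1 (conj_eq_one_iff.1 e)
    obtain ⟨U, hUn, hUp, hzU⟩ := (of_apart hZ (hPelt z hzP) hz1 hv hv1
      (fun h => hpw ((CfsgLib.CoprimeLargest.idx_conj w c) ▸ h))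
      (fun a b ha hb haz hbv => hap a b ha hb (haz.trans hzA) hbv)).2
    have hUP : U ≤ (P : Subgroup G) := by
      obtain ⟨S, hS⟩ := hUp.exists_le_sylow
      obtain ⟨e, he⟩ := MulAction.exists_smul_eq G S P
      intro x hx
      rw [← he, Sylow.coe_subgroup_smul, Subgroup.pointwise_smul_def]
      exact ⟨e⁻¹ * x * e, hS (by simpa using hUn.conj_mem x hx e⁻¹), by simp [mul_assoc]⟩
    have e : g * w * g⁻¹ = g * c⁻¹ * z * (g * c⁻¹)⁻¹ := by rw [hz]; group
    rw [e]
    exact hUP (hUn.conj_mem z hzU _)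
  have hall : ∀ w : G, IsPElt p w → w ∈ (P : Subgroup G) := by
    intro w hw
    obtain ⟨k, hk⟩ := isPElt_order hw
    obtain ⟨R, hR⟩ := (IsPGroup.of_card (n := k)
      (by rw [Nat.card_zpowers, hk]) : IsPGroup p (Subgroup.zpowers w)).exists_le_sylow
    haveI := Sylow.unique_of_normal P hPn
    rw [Subsingleton.elim R P] at hR
    exact hR (Subgroup.mem_zpowers w)
  -- a Sylow subgroup for a prime divisor of the class size of `u`
  haveI : Fact t.Prime := ⟨ht⟩
  obtain ⟨T⟩ := (inferInstance : Nonempty (Sylow t G))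
  set C := Subgroup.centralizer ((T : Subgroup G) : Set G) with hC
  set Z0 : Subgroup (P : Subgroup G) := Subgroup.center (P : Subgroup G) ⊔ frattini _ with hZ0
  set P0 : Subgroup (P : Subgroup G) := C.subgroupOf (P : Subgroup G) ⊔ frattini _ with hP0
  have hcases : ∀ w : (P : Subgroup G), w ∈ Z0 ∨ w ∈ P0 := by
    rintro ⟨w, hw⟩
    rcases eq_or_ne w 1 with rfl | hw1
    · exact Or.inl (one_mem _)
    by_cases hpw : p ∣ idx w
    · refine Or.inr ?_
      have htw : ¬ t ∣ idx w := fun h => hfail t ht htu w (dvd_order (hPelt w hw) hw1) h hpw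
      obtain ⟨R, hR⟩ := CfsgLib.ClassSizes.exists_sylow_le_of_not_dvd_index _ htw
      obtain ⟨g, hg⟩ := MulAction.exists_smul_eq G R T
      obtain ⟨a, ha, e⟩ := hconj w hw hpw g
      have hgw : g * w * g⁻¹ ∈ C := by
        rw [hC, Subgroup.mem_centralizer_iff]
        intro q hq
        rw [SetLike.mem_coe, ← hg, Sylow.coe_subgroup_smul, Subgroup.pointwise_smul_def] at hq
        obtain ⟨q', hq', rfl⟩ := hq
        exact (show Commute q' w from mem_cen.1 (hR hq')).map (MulAut.conj g : G →* G)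
      have h1 : (⟨a, ha⟩ * ⟨w, hw⟩ * ⟨a, ha⟩⁻¹ : (P : Subgroup G)) ∈ P0 := by
        refine Subgroup.mem_sup_left ?_
        rw [Subgroup.mem_subgroupOf]
        show a * w * a⁻¹ ∈ C
        rwa [← e]
      have h2 : (⁅(⟨a, ha⟩ : (P : Subgroup G)), ⟨w, hw⟩⁆ : (P : Subgroup G)) ∈ P0 :=
        Subgroup.mem_sup_right (CfsgLib.PGroup.commutatorElement_mem_frattini P.isPGroup' _ _)
      have h3 := mul_mem (inv_mem h2) h1
      rwa [commutatorElement_def, show ((⟨a, ha⟩ : (P : Subgroup G)) * ⟨w, hw⟩ * ⟨a, ha⟩⁻¹ *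
        ⟨w, hw⟩⁻¹)⁻¹ * (⟨a, ha⟩ * ⟨w, hw⟩ * ⟨a, ha⟩⁻¹) = ⟨w, hw⟩ by group] at h3
    · refine Or.inl (Subgroup.mem_sup_left (Subgroup.mem_center_iff.2 fun q => Subtype.ext ?_))
      obtain ⟨R, hR⟩ := CfsgLib.ClassSizes.exists_sylow_le_of_not_dvd_index _ hpw
      haveI := Sylow.unique_of_normal P hPn
      rw [Subsingleton.elim R P] at hR
      exact mem_cen.1 (hR q.2)
  have huP : u ∈ (P : Subgroup G) := hall u hu
  have hvP : v ∈ (P : Subgroup G) := hall v hv
  rcases top_of_cover Z0 P0 hcases with e | e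
  · have hab := frattini_nongenerating e
    obtain ⟨R, hR⟩ : ∃ R : Sylow p G, (R : Subgroup G) ≤ cen v := by
      refine ⟨P, fun q hq => mem_cen.2 ?_⟩
      have := Subgroup.mem_center_iff.1 (hab ▸ Subgroup.mem_top (⟨v, hvP⟩ : (P : Subgroup G))) ⟨q, hq⟩
      exact congrArg Subtype.val this
    exact R.not_dvd_index (hpv.trans (Subgroup.index_dvd_of_le hR))
  · have hab := frattini_nongenerating e
    have huC : u ∈ C := by
      have := hab ▸ Subgroup.mem_top (⟨u, huP⟩ : (P : Subgroup G))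
      exact Subgroup.mem_subgroupOf.1 this
    refine T.not_dvd_index (htu.trans (Subgroup.index_dvd_of_le fun q hq => mem_cen.2 ?_))
    exact Subgroup.mem_centralizer_iff.1 huC q hq

theorem exists_pPart_dvd {x : G} (hx : p ∣ orderOf x) :
    ∃ u : G, IsPElt p u ∧ u ≠ 1 ∧ idx u ∣ idx x := by
  obtain ⟨a, b, ha, hb, hab, ⟨k, hk⟩, hbp⟩ :=
    CfsgLib.Transfer.exists_pPart_decomposition (p := p) x
  refine ⟨a, ⟨k, orderOf_dvd_iff_pow_eq_one.1 hk⟩, fun e => ?_, ?_⟩
  · rw [hab, e, one_mul] at hx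
    exact hp.out.coprime_iff_not_dvd.1 hbp.symm hx
  · obtain ⟨i, hi⟩ := Subgroup.mem_zpowers_iff.1 ha
    refine Subgroup.index_dvd_of_le fun g hg => mem_cen.2 ?_
    rw [← hi]
    exact (show Commute g x from mem_cen.1 hg).zpow_right i

end Aux

/-- Let `G` be a finite group and `p` a prime not dividing the order of the centre of `G`. Consider the primes dividing the size of some conjugacy class of a `p`-singular element (an element of order divisible by `p`), two of them adjacent when their product divides such a class size. Then any two distinct such primes are joined by a path with at most 3 edges (the graph is connected of diameter at most 3). -/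
theorem result {G : Type*} [Group G] [Finite G] (p : ℕ) [Fact p.Prime]
    (hZ : ¬ p ∣ Nat.card ↥(Subgroup.center G)) (r s : ℕ) (hr : (r.Prime ∧ ∃ x : G, p ∣ orderOf x ∧ r ∣ (Subgroup.centralizer ({x} : Set G)).index)) (hs : (s.Prime ∧ ∃ x : G, p ∣ orderOf x ∧ s ∣ (Subgroup.centralizer ({x} : Set G)).index)) (hrs : r ≠ s) :
    (∃ x : G, p ∣ orderOf x ∧ r * s ∣ (Subgroup.centralizer ({x} : Set G)).index) ∨ (∃ t : ℕ, (t.Prime ∧ ∃ x : G, p ∣ orderOf x ∧ t ∣ (Subgroup.centralizer ({x} : Set G)).index) ∧ t ≠ r ∧ t ≠ s ∧ (∃ x : G, p ∣ orderOf x ∧ r * t ∣ (Subgroup.centralizer ({x} : Set G)).index) ∧ (∃ x : G, p ∣ orderOf x ∧ t * s ∣ (Subgroup.centralizer ({x} : Set G)).index)) ∨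
      (∃ t u : ℕ, (t.Prime ∧ ∃ x : G, p ∣ orderOf x ∧ t ∣ (Subgroup.centralizer ({x} : Set G)).index) ∧ (u.Prime ∧ ∃ x : G, p ∣ orderOf x ∧ u ∣ (Subgroup.centralizer ({x} : Set G)).index) ∧ t ≠ r ∧ u ≠ s ∧ t ≠ u ∧ (∃ x : G, p ∣ orderOf x ∧ r * t ∣ (Subgroup.centralizer ({x} : Set G)).index) ∧ (∃ x : G, p ∣ orderOf x ∧ t * u ∣ (Subgroup.centralizer ({x} : Set G)).index) ∧ (∃ x : G, p ∣ orderOf x ∧ u * s ∣ (Subgroup.centralizer ({x} : Set G)).index)) := by
  have hx := hr.2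
  have hy := hs.2
  obtain ⟨x, hx, hrx⟩ := hx
  obtain ⟨y, hy, hsy⟩ := hy
  obtain ⟨u, hu, hu1, hux⟩ := exists_pPart_dvd hx
  obtain ⟨v, hv, hv1, hvy⟩ := exists_pPart_dvd hy
  obtain ⟨a, b, ha, hb, hau, hbv, hab⟩ : ∃ a b : ℕ, a.Prime ∧ b.Prime ∧
      a ∣ CfsgLib.CoprimeLargest.idx u ∧ b ∣ CfsgLib.CoprimeLargest.idx v ∧
      (a = b ∨ Adj p G a b) := by
    by_contra hn
    have h1 : Apart p u v := fun a b ha hb hau hbv =>
      ⟨fun e => hn ⟨a, b, ha, hb, hau, hbv, Or.inl e⟩,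
        fun e => hn ⟨a, b, ha, hb, hau, hbv, Or.inr e⟩⟩
    have h2 : Apart p v u := fun a b ha hb hav hbu =>
      ⟨fun e => (h1 b a hb ha hbu hav).1 e.symm, fun e => (h1 b a hb ha hbu hav).2 e.symm⟩
    by_cases hpu : p ∣ CfsgLib.CoprimeLargest.idx u
    · refine not_apart hZ hv hv1 hu hu1 (fun h => ?_) h2
      exact (Fact.out : p.Prime).not_dvd_one (h1.coprime ▸ Nat.dvd_gcd hpu h)
    · exact not_apart hZ hu hu1 hv hv1 hpu h1
  have hax := hau.trans hux
  have hby := hbv.trans hvy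
  refine joined_three hrs (t := a) (u := b) ⟨ha, x, hx, hax⟩ ⟨hb, y, hy, hby⟩ ?_ hab ?_
  · rcases eq_or_ne r a with e | e
    · exact Or.inl e
    · exact Or.inr ⟨x, hx, Nat.Coprime.mul_dvd_of_dvd_of_dvd ((Nat.coprime_primes hr.1 ha).2 e) hrx hax⟩
  · rcases eq_or_ne b s with e | e
    · exact Or.inl e
    · exact Or.inr ⟨y, hy, Nat.Coprime.mul_dvd_of_dvd_of_dvd ((Nat.coprime_primes hb hs.1).2 e) hby hsy⟩

end Cfsg.Agent.S4321
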