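import Cfsg.Statements.S4416
import Cfsg.Agent.Eq.Def_Transfer
import Cfsg.Agent.ExtraspecialTwo.Iso
import Cfsg.Agent.ExtraspecialTwo.Rank
-- import your own Cfsg.Agent.* helpers here

set_option autoImplicit false
open Cfsg CfsgLib.ExtraspecialTwo CfsgLib.F2Forms

namespace Cfsg.Agent.S4416

/-- Classification of extraspecial 2-groups in intrinsic form. An extraspecial 2-group has order 2^(2m+1) for some m ≥ 1, and the number of its elements squaring to the identity is either 2^(2m) + 2^m or 2^(2m) − 2^m; two extraspecial 2-groups of the same order with the same number of such elements are isomorphic. (The two cases are the central products of m dihedral groups of order 8, and of m − 1 dihedral groups with one quaternion group.) -/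
theorem result (E : Type*) [Group E] [Finite E] (hE : Cfsg.IsExtraspecial 2 E) :
    (∃ m : ℕ, 1 ≤ m ∧ Nat.card E = 2 ^ (2 * m + 1) ∧
      (Nat.card {x : E // x ^ 2 = 1} = 2 ^ (2 * m) + 2 ^ m ∨ Nat.card {x : E // x ^ 2 = 1} = 2 ^ (2 * m) - 2 ^ m)) ∧
    ∀ (E' : Type*) [Group E'] [Finite E'], Cfsg.IsExtraspecial 2 E' → Nat.card E' = Nat.card E →
      Nat.card {x : E' // x ^ 2 = 1} = Nat.card {x : E // x ^ 2 = 1} → Nonempty (E ≃* E') := by
  obtain ⟨n, w, π, c, hn, e⟩ := exists_coord hE
  have hsq := c.card_sq
  refine ⟨⟨n, hn, e, ?_⟩, fun E' _ _ hE' hcard hcount => ?_⟩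
  · have hle : 2 ^ n ≤ 2 ^ (2 * n) := Nat.pow_le_pow_right (by norm_num) (by omega)
    rcases eq_zero_or_one (quadFormPlus n (ZMod 2) w) with h | h <;> rw [h] at hsq
    · left
      rw [sgn_zero, one_mul] at hsq
      exact_mod_cast hsq
    · right
      rw [sgn_one] at hsq
      zify [hle]
      rw [hsq]
      push_cast
      ring
  · obtain ⟨n', w', π', c', -, e'⟩ := exists_coord hE'
    obtain rfl : n = n' := by
      have := Nat.pow_right_injective (le_refl 2) (e.symm.trans (hcard.symm.trans e')); omega
    refine c.nonempty_mulEquiv c' (sgn_inj _ _ ?_)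
    have hsq' := c'.card_sq
    rw [hcount, hsq] at hsq'
    exact mul_right_cancel₀ (b := (2 : ℤ) ^ n) (by positivity) (add_left_cancel hsq')

end Cfsg.Agent.S4416
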