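import Cfsg.Statements.S4421
-- import your own Cfsg.Agent.* helpers here

set_option autoImplicit false
open Cfsg

namespace Cfsg.Agent.S4421

/-- A factorization of a normalizer from two-step control of fusion. Let `G` be a finite group and `A ≤ S ≤ H` subgroups of `G` such that: (i) `S` controls the `G`-fusion of `A` in the sense that every `G`-conjugate of `A` lying in `S` is an `S`-conjugate of `A`; (ii) `H` controls the `G`-fusion of `S` in the same sense; (iii) every conjugate of `S` by an element of the normalizer of `A` lies in `H`. Then `N_G(A) = N_H(A) · (N_G(S) ∩ N_G(A))`: every element of the normalizer of `A` is a product of an element of `H` normalizing `A` and an element normalizing both `S` and `A`. -/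
theorem result {G : Type*} [Group G] [Finite G] (A S H : Subgroup G)
    (hAS : A ≤ S) (hSH : S ≤ H)
    (h1 : ∀ g : G, A.map (MulAut.conj g).toMonoidHom ≤ S → ∃ s ∈ S, A.map (MulAut.conj g).toMonoidHom = A.map (MulAut.conj s).toMonoidHom)
    (h2 : ∀ g : G, S.map (MulAut.conj g).toMonoidHom ≤ H → ∃ y ∈ H, S.map (MulAut.conj g).toMonoidHom = S.map (MulAut.conj y).toMonoidHom)
    (h3 : ∀ x ∈ Subgroup.normalizer (A : Set G), S.map (MulAut.conj x).toMonoidHom ≤ H) :
    ∀ x ∈ Subgroup.normalizer (A : Set G), ∃ y ∈ H ⊓ Subgroup.normalizer (A : Set G),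
      ∃ z ∈ Subgroup.normalizer (S : Set G) ⊓ Subgroup.normalizer (A : Set G), x = y * z := by
  intro x hx
  obtain ⟨y, hy, hxy⟩ := h2 x (h3 x hx)
  have key : ∀ g : G, ∀ T : Subgroup G,
      g ∈ Subgroup.normalizer (T : Set G) ↔ T.map (MulAut.conj g).toMonoidHom = T := by
    intro g T
    rw [Subgroup.mem_normalizer_iff]
    constructor
    · intro h
      ext z
      constructor
      · rintro ⟨w, hw, rfl⟩
        exact (h w).1 hw
      · intro hz
        refine ⟨g⁻¹ * z * g, (h _).2 ?_, ?_⟩
        · simpa [mul_assoc] using hz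
        · simp [mul_assoc]
    · intro h w
      constructor
      · intro hw
        rw [← h]
        exact ⟨w, hw, rfl⟩
      · intro hw
        rw [← h] at hw
        obtain ⟨v, hv, e⟩ := hw
        have : v = w := by simpa using e
        exact this ▸ hv
  have comp : ∀ (g h : G) (T : Subgroup G), (T.map (MulAut.conj h).toMonoidHom).map
      (MulAut.conj g).toMonoidHom = T.map (MulAut.conj (g * h)).toMonoidHom := by
    intro g h T
    rw [Subgroup.map_map]
    congr 1
    ext z
    simp [mul_assoc]
  have one : ∀ T : Subgroup G, T.map (MulAut.conj (1 : G)).toMonoidHom = T := fun T =>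
    (key 1 T).1 (one_mem _)
  have hz : (y⁻¹ * x) ∈ Subgroup.normalizer (S : Set G) := by
    rw [key, ← comp, hxy, comp, inv_mul_cancel, one]
  have hA1 : A.map (MulAut.conj y⁻¹).toMonoidHom = A.map (MulAut.conj (y⁻¹ * x)).toMonoidHom := by
    rw [← comp, (key x A).1 hx]
  obtain ⟨s, hs, hys⟩ := h1 y⁻¹ (by
    rw [hA1]
    exact (Subgroup.map_mono hAS).trans ((key _ S).1 hz).le)
  have hAy : y * s ∈ Subgroup.normalizer (A : Set G) := by
    rw [key, ← comp, ← hys, comp, mul_inv_cancel, one]
  refine ⟨y * s, Subgroup.mem_inf.2 ⟨mul_mem hy (hSH hs), hAy⟩, s⁻¹ * (y⁻¹ * x),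
    Subgroup.mem_inf.2 ⟨mul_mem (inv_mem (Subgroup.le_normalizer hs)) hz, ?_⟩, by group⟩
  have : s⁻¹ * (y⁻¹ * x) = (y * s)⁻¹ * x := by group
  rw [this]
  exact mul_mem (inv_mem hAy) hx

end Cfsg.Agent.S4421
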