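import Cfsg.Statements.S4422
-- import your own Cfsg.Agent.* helpers here

set_option autoImplicit false
open Cfsg

namespace Cfsg.Agent.S4422

/-- Primitive divisors of `q^e - 1` are congruent to 1 modulo `e`. Let `q ≥ 2` and `e ≥ 1` be natural numbers and let `m` be a divisor of `q^e - 1` that is coprime to `q^i - 1` for every `1 ≤ i < e` (so `m` divides the primitive part of `q^e - 1`, the largest such divisor). Then `m ≡ 1 (mod e)`. -/
theorem result (q e m : ℕ) (hq : 2 ≤ q) (he : 1 ≤ e)
    (hm : m ∣ q ^ e - 1) (hcop : ∀ i : ℕ, 1 ≤ i → i < e → Nat.Coprime m (q ^ i - 1)) :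
    m % e = 1 % e := by
  have hq1 : 1 ≤ q ^ e := Nat.one_le_pow _ _ (by omega)
  have main : ∀ r : ℕ, r.Prime → r ∣ m → r ≡ 1 [MOD e] := by
    intro r hr hrm
    haveI : Fact r.Prime := ⟨hr⟩
    have h1 : ((q : ZMod r)) ^ e = 1 := by
      have : ((q ^ e - 1 : ℕ) : ZMod r) = 0 :=
        (ZMod.natCast_eq_zero_iff _ _).2 (hrm.trans hm)
      rw [Nat.cast_sub hq1, Nat.cast_pow, Nat.cast_one, sub_eq_zero] at this
      exact this
    have hord : orderOf (q : ZMod r) = e := by
      rw [orderOf_eq_iff (by omega)]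
      refine ⟨h1, fun i hi hi0 h => ?_⟩
      have hri : r ∣ q ^ i - 1 := by
        rw [← ZMod.natCast_eq_zero_iff, Nat.cast_sub (Nat.one_le_pow _ _ (by omega)),
          Nat.cast_pow, Nat.cast_one, h, sub_self]
      have := Nat.dvd_gcd hrm hri
      rw [hcop i hi0 hi] at this
      exact hr.not_dvd_one this
    have hne : (q : ZMod r) ≠ 0 := fun h => by
      rw [h, zero_pow (by omega)] at h1
      exact zero_ne_one h1
    have := ZMod.orderOf_dvd_card_sub_one hne
    rw [hord] at this
    exact ((Nat.modEq_iff_dvd' hr.one_le).2 this).symm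
  have hm0 : m ≠ 0 := by
    rintro rfl
    have h2 : q ^ 1 ≤ q ^ e := Nat.pow_le_pow_right (by omega) he
    have := Nat.eq_zero_of_zero_dvd hm
    rw [pow_one] at h2
    omega
  have : ∀ n : ℕ, n ≠ 0 → (∀ r : ℕ, r.Prime → r ∣ n → r ≡ 1 [MOD e]) → n ≡ 1 [MOD e] := by
    intro n
    induction n using Nat.recOnMul with
    | zero => intro h; exact absurd rfl h
    | one => intros; rfl
    | prime r hr => intro _ h; exact h r hr dvd_rfl
    | mul a b iha ihb =>
      intro hab h
      have := (iha (left_ne_zero_of_mul hab) fun r hr hd => h r hr (hd.mul_right b)).mul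
        (ihb (right_ne_zero_of_mul hab) fun r hr hd => h r hr (hd.mul_left a))
      simpa using this
  exact this m hm0 main

end Cfsg.Agent.S4422
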