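import Cfsg.Statements.S4424
import Cfsg.Agent.Eq.Def_Blocks
import Cfsg.Agent.Blocks.HeightZero.Integral

set_option autoImplicit false
open Cfsg

namespace Cfsg.Agent.S4424

/-- Let χ be an irreducible character of the finite group G lying in the p-block B (relative to a maximal ideal M of the algebraic integers containing p), and let p^a be the p-part of the order of G. Then the class function that equals p^a · χ on the p-regular elements and vanishes on the p-singular elements is an integer combination of the irreducible characters in B: there are integers a_ψ, zero for ψ outside B, with that function equal to Σ a_ψ ψ. -/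
theorem result {G : Type*} [Group G] [Finite G] (p : ℕ) [Fact p.Prime] (M : Ideal Cfsg.AlgInt) (hM : Cfsg.IsPModular p M) (B : Set (Cfsg.IrrCharacter G)) (hB : Cfsg.IsPBlock M B) (χ : Cfsg.IrrCharacter G) (hχ : χ ∈ B) : ∃ a : Cfsg.IrrCharacter G → ℤ, (∀ ψ, ψ ∉ B → a ψ = 0) ∧ (fun x : G => if p ∣ orderOf x then (0 : ℂ) else ((p ^ (Nat.card G).factorization p : ℕ) : ℂ) * (χ : G → ℂ) x) = fun x => ∑ᶠ ψ : Cfsg.IrrCharacter G, (a ψ : ℂ) * (ψ : G → ℂ) x := by
  classical
  have := Fintype.ofFinite G
  have := CfsgLib.Blocks.isMaximal_of_isPModular hM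
  choose a ha using fun ψ : Cfsg.IrrCharacter G =>
    CfsgLib.Blocks.HeightZero.exists_int_classInner_scaled (p := p) χ ψ
  refine ⟨a, fun ψ hψ => ?_, funext fun x => ?_⟩
  · have h := ha ψ
    rw [CfsgLib.Blocks.HeightZero.classInner_scaled _ _ (CfsgLib.Chars.isCharacter_coe ψ),
      CfsgLib.Blocks.HeightZero.regPair_symm,
      CfsgLib.Blocks.HeightZero.regPair_eq_zero_of_ne_block hM hB hχ hψ, mul_zero] at h
    exact_mod_cast h.symm
  · have hcl : Cfsg.IsClassFunction G (fun x : G => if p ∣ orderOf x then (0 : ℂ)
        else ((p ^ (Nat.card G).factorization p : ℕ) : ℂ) * (χ : G → ℂ) x) := fun g h => by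
      have e : orderOf (h * g * h⁻¹) = orderOf g :=
        orderOf_injective (MulAut.conj h).toMonoidHom (MulAut.conj h).injective g
      simp only [e, CfsgLib.Chars.isClassFunction_coe χ g h]
    have e := CfsgLib.Chars.eq_sum_classInner_mul hcl x
    simp only [ha] at e
    rw [finsum_eq_sum_of_fintype, e]

end Cfsg.Agent.S4424
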