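import Cfsg.Statements.S4425
import Cfsg.Agent.Blocks.HeightZero.Integral

set_option autoImplicit false
open Cfsg

namespace Cfsg.Agent.S4425

/-- Let χ be an irreducible character of the finite group G, p a prime, p^a the p-part of the order of G and p^b the p-part of the degree χ(1). Let χ̃ be the class function equal to p^a · χ on p-regular elements and zero on p-singular elements. Then p^(−b) · χ̃ is a generalized character of G, while p^(−(b+1)) · χ̃ is not. -/
theorem result {G : Type*} [Group G] [Finite G] (p : ℕ) [Fact p.Prime] (χ : Cfsg.IrrCharacter G) : Cfsg.IsGeneralizedCharacter G (fun x : G => if p ∣ orderOf x then (0 : ℂ) else ((p ^ ((Nat.card G).factorization p - (Cfsg.charDegree (χ : G → ℂ)).factorization p) : ℕ) : ℂ) * (χ : G → ℂ) x) ∧ ¬ Cfsg.IsGeneralizedCharacter G (fun x : G => if p ∣ orderOf x then (0 : ℂ) else ((p ^ (Nat.card G).factorization p : ℕ) : ℂ) / ((p ^ ((Cfsg.charDegree (χ : G → ℂ)).factorization p + 1) : ℕ) : ℂ) * (χ : G → ℂ) x) := by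
  classical
  have := Fintype.ofFinite G
  have hp : p.Prime := Fact.out
  refine ⟨CfsgLib.Blocks.HeightZero.isGeneralizedCharacter_scaled χ, fun hgen => ?_⟩
  set a := (Nat.card G).factorization p
  set b := (Cfsg.charDegree (χ : G → ℂ)).factorization p
  obtain ⟨P⟩ : Nonempty (Sylow p G) := inferInstance
  have : Fintype (P : Subgroup G) := Fintype.ofFinite _
  obtain ⟨c, d, hc, hd, hcd⟩ := hgen
  obtain ⟨i, hi⟩ := CfsgLib.Chars.exists_nat_classInner'
    (CfsgLib.Chars.isCharacter_restrict hc (P : Subgroup G))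
    (CfsgLib.Chars.isCharacter_one (G := (P : Subgroup G)))
  obtain ⟨j, hj⟩ := CfsgLib.Chars.exists_nat_classInner'
    (CfsgLib.Chars.isCharacter_restrict hd (P : Subgroup G))
    (CfsgLib.Chars.isCharacter_one (G := (P : Subgroup G)))
  have hP : (Nat.card (P : Subgroup G) : ℂ) = ((p ^ a : ℕ) : ℂ) := by rw [P.card_eq_multiplicity]
  have hval : (Cfsg.charDegree (χ : G → ℂ) : ℂ) / ((p ^ (b + 1) : ℕ) : ℂ) = ((i : ℤ) - j : ℤ) := by
    push_cast
    rw [← hi, ← hj, ← CfsgLib.Chars.classInner_sub_left]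
    rw [show ((fun h : (P : Subgroup G) => c h) - fun h : (P : Subgroup G) => d h) =
      fun h : (P : Subgroup G) => (c - d) h from rfl, ← hcd, Cfsg.classInner,
      Finset.sum_eq_single (1 : (P : Subgroup G))]
    · beta_reduce
      rw [Subgroup.coe_one, orderOf_one, if_neg hp.not_dvd_one, CfsgLib.Chars.coe_charDegree, hP]
      have hpc : (p : ℂ) ≠ 0 := Nat.cast_ne_zero.2 hp.ne_zero
      simp only [Pi.one_apply, map_one, mul_one]
      push_cast
      field_simp
    · intro u _ hu
      obtain ⟨k, hk⟩ := IsPGroup.iff_orderOf.1 P.2 u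
      rw [← Subgroup.orderOf_coe] at hk
      beta_reduce
      rw [if_pos, zero_mul]
      rw [hk]
      refine dvd_pow_self p fun h0 => hu (Subtype.ext ?_)
      rwa [h0, pow_zero, orderOf_eq_one_iff] at hk
    · simp
  have hint : IsIntegral ℤ ((Cfsg.charDegree (χ : G → ℂ) : ℂ) / ((p ^ (b + 1) : ℕ) : ℂ)) := by
    rw [hval]
    exact isIntegral_algebraMap
  have hdvd := CfsgLib.Chars.dvd_of_isIntegral_div (pow_ne_zero _ hp.ne_zero) hint
  rw [hp.pow_dvd_iff_le_factorization (CfsgLib.Chars.charDegree_pos χ).ne'] at hdvd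
  omega

end Cfsg.Agent.S4425
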