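import Cfsg.Statements.S4426
import Cfsg.Agent.Eq.Def_Blocks
import Cfsg.Agent.Blocks.HeightZero.Integral
import Cfsg.Agent.Blocks.LocalDivisibility

set_option autoImplicit false
open Cfsg

namespace Cfsg.Agent.S4426

/-- Let χ be an irreducible character in the p-block B of the finite group G (relative to a maximal ideal M of the algebraic integers containing p), let p^a be the p-part of the order of G, and let χ̃ be the class function equal to p^a · χ on p-regular elements and zero elsewhere. For ξ ∈ B the inner product [χ̃, ξ] is an integer. The following are equivalent: (a) χ has height zero in B; (b) for some ξ ∈ B the integer [χ̃, ξ] is nonzero and the exact power of p dividing it equals the exact power of p dividing ξ(1); (c) the same holds for every ξ ∈ B. -/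
theorem result {G : Type*} [Group G] [Fintype G] (p : ℕ) [Fact p.Prime] (M : Ideal Cfsg.AlgInt) (hM : Cfsg.IsPModular p M) (B : Set (Cfsg.IrrCharacter G)) (hB : Cfsg.IsPBlock M B) (χ : Cfsg.IrrCharacter G) (hχ : χ ∈ B) : (Cfsg.blockHeight p B (χ : G → ℂ) = 0 ↔ ∃ ξ ∈ B, ∃ n : ℤ, Cfsg.classInner (fun x : G => if p ∣ orderOf x then (0 : ℂ) else ((p ^ (Nat.card G).factorization p : ℕ) : ℂ) * (χ : G → ℂ) x) (ξ : G → ℂ) = (n : ℂ) ∧ n ≠ 0 ∧ padicValInt p n = (Cfsg.charDegree (ξ : G → ℂ)).factorization p) ∧ (Cfsg.blockHeight p B (χ : G → ℂ) = 0 ↔ ∀ ξ ∈ B, ∃ n : ℤ, Cfsg.classInner (fun x : G => if p ∣ orderOf x then (0 : ℂ) else ((p ^ (Nat.card G).factorization p : ℕ) : ℂ) * (χ : G → ℂ) x) (ξ : G → ℂ) = (n : ℂ) ∧ n ≠ 0 ∧ padicValInt p n = (Cfsg.charDegree (ξ : G → ℂ)).factorization p) := by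
  classical
  have := CfsgLib.Blocks.isMaximal_of_isPModular hM
  have hp : p.Prime := Fact.out
  have key : ∀ ξ ∈ B, (Cfsg.blockHeight p B (χ : G → ℂ) = 0 ↔ ∃ n : ℤ,
      Cfsg.classInner (fun x : G => if p ∣ orderOf x then (0 : ℂ)
        else ((p ^ (Nat.card G).factorization p : ℕ) : ℂ) * (χ : G → ℂ) x) (ξ : G → ℂ) = (n : ℂ) ∧
      n ≠ 0 ∧ padicValInt p n = (Cfsg.charDegree (ξ : G → ℂ)).factorization p) := by
    intro ξ hξ
    obtain ⟨n, hn⟩ := CfsgLib.Blocks.HeightZero.exists_int_classInner_scaled (p := p) χ ξ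
    have hiff := CfsgLib.Blocks.HeightZero.memLocalIdeal_classInner_scaled_iff hM
      (CfsgLib.Chars.isClassFunction_coe χ)
      (fun x _ => CfsgLib.Blocks.HeightZero.memLocalRing_apply (CfsgLib.Chars.isCharacter_coe χ) x) ξ
    rw [hn] at hiff
    have hu : Cfsg.blockHeight p B (χ : G → ℂ) = 0 ↔
        ¬ Cfsg.MemLocalIdeal M ((n : ℂ) / (ξ : G → ℂ) 1) := by
      rw [hiff]
      exact ⟨fun h => CfsgLib.Blocks.HeightZero.not_memLocalIdeal_regPair_of_height_zero hM hB hχ h hξ,
        fun h => by_contra fun h0 => h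
          (CfsgLib.Blocks.HeightZero.memLocalIdeal_regPair_of_height_ne_zero hM hB hξ fun _ => h0)⟩
    have hloc : Cfsg.MemLocalRing M ((n : ℂ) / (ξ : G → ℂ) 1) := by
      have h1 := (CfsgLib.Blocks.localRing M).mul_mem
        (CfsgLib.Blocks.memLocalRing_natCast_div hM (pow_ne_zero _ hp.ne_zero) Nat.card_pos.ne'
          (CfsgLib.Blocks.HeightZero.factorization_pow_prime hp ((Nat.card G).factorization p)).ge)
        (CfsgLib.Blocks.HeightZero.memLocalRing_regPair hM (CfsgLib.Chars.isClassFunction_coe χ)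
          (fun x _ => CfsgLib.Blocks.HeightZero.memLocalRing_apply
            (CfsgLib.Chars.isCharacter_coe χ) x) ξ)
      rwa [← mul_div_assoc, ← CfsgLib.Blocks.HeightZero.classInner_scaled _ _
        (CfsgLib.Chars.isCharacter_coe ξ), hn] at h1
    have hd := (CfsgLib.Chars.charDegree_pos ξ).ne'
    rw [hu]
    constructor
    · intro h
      have hn0 : n ≠ 0 := fun h0 => h (by
        rw [h0, Int.cast_zero, zero_div]; exact CfsgLib.Blocks.memLocalIdeal_zero)
      refine ⟨n, hn, hn0, ?_⟩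
      rw [padicValInt, ← Nat.factorization_def _ hp]
      have hna : n.natAbs ≠ 0 := Int.natAbs_ne_zero.2 hn0
      have h' : ¬ Cfsg.MemLocalIdeal M ((n.natAbs : ℂ) / (Cfsg.charDegree (ξ : G → ℂ) : ℂ)) := by
        rw [CfsgLib.Chars.coe_charDegree]
        rcases Int.natAbs_eq n with e | e <;> intro hh <;> apply h <;> rw [e]
        · simpa using hh
        · simpa [neg_div] using CfsgLib.Blocks.memLocalIdeal_neg hh
      refine le_antisymm (not_lt.1 fun hlt =>
        h' (CfsgLib.Blocks.memLocalIdeal_natCast_div hM hd hna hlt)) (not_lt.1 fun hlt => ?_)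
      -- otherwise the quotient is not a local integer
      refine CfsgLib.Blocks.not_memLocalIdeal_one (M := M) ?_
      have h1 : Cfsg.MemLocalRing M ((n.natAbs : ℂ) / (Cfsg.charDegree (ξ : G → ℂ) : ℂ)) := by
        rw [CfsgLib.Chars.coe_charDegree]
        rcases Int.natAbs_eq n with e | e <;> rw [e] at hloc
        · simpa using hloc
        · simpa [neg_div] using (CfsgLib.Blocks.localRing M).neg_mem hloc
      have := CfsgLib.Blocks.memLocalIdeal_mul_right
        (CfsgLib.Blocks.memLocalIdeal_natCast_div hM hna hd hlt) h1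
      rwa [div_mul_div_comm, mul_comm (Cfsg.charDegree (ξ : G → ℂ) : ℂ),
        div_self (mul_ne_zero (Nat.cast_ne_zero.2 hna) (Nat.cast_ne_zero.2 hd))] at this
    · rintro ⟨m, hm, hm0, hv⟩ h
      obtain rfl : m = n := by exact_mod_cast hm.symm.trans hn
      rw [padicValInt, ← Nat.factorization_def _ hp] at hv
      have h' : Cfsg.MemLocalIdeal M ((m.natAbs : ℂ) / (Cfsg.charDegree (ξ : G → ℂ) : ℂ)) := by
        rw [CfsgLib.Chars.coe_charDegree]
        rcases Int.natAbs_eq m with e | e <;> rw [e] at h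
        · simpa using h
        · simpa [neg_div] using CfsgLib.Blocks.memLocalIdeal_neg h
      exact CfsgLib.Blocks.HeightZero.not_memLocalIdeal_natCast_div hM
        (Int.natAbs_ne_zero.2 hm0) hd hv h'
  refine ⟨⟨fun h => ⟨χ, hχ, (key χ hχ).1 h⟩, fun ⟨ξ, hξ, h⟩ => (key ξ hξ).2 h⟩,
    ⟨fun h ξ hξ => (key ξ hξ).1 h, fun h => (key χ hχ).2 (h χ hχ)⟩⟩

end Cfsg.Agent.S4426
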