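import Cfsg.Statements.S4428
import Cfsg.Agent.Eq.Def_Blocks
import Cfsg.Agent.Blocks.HeightZero.Induced

set_option autoImplicit false
open Cfsg

namespace Cfsg.Agent.S4428

/-- Let χ be an irreducible character of height zero in the p-block B of the finite group G (relative to a maximal ideal M of the algebraic integers containing p). Let x be a p-element of G with centralizer C, and let b be a block of C that induces B. Form the class function ϑ(c) = χ(x c) on C and its b-part (the sum over ψ ∈ b of the inner product of ϑ with ψ, times ψ). Then the b-part of ϑ does not vanish identically on the p-regular elements of C. (Compare the second main Theorem, which gives vanishing when b does not induce B.) -/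
theorem result {G : Type*} [Group G] [Finite G] (p : ℕ) [Fact p.Prime] (M : Ideal Cfsg.AlgInt) (hM : Cfsg.IsPModular p M) (B : Set (Cfsg.IrrCharacter G)) (hB : Cfsg.IsPBlock M B) (χ : Cfsg.IrrCharacter G) (hχ : χ ∈ B) (h0 : Cfsg.blockHeight p B (χ : G → ℂ) = 0) (x : G) (hx : ∃ k : ℕ, orderOf x = p ^ k) (b : Set (Cfsg.IrrCharacter (Subgroup.centralizer ({x} : Set G)))) (hb : Cfsg.IsInducedBlock M (Subgroup.centralizer ({x} : Set G)) b B) : ∃ y : Subgroup.centralizer ({x} : Set G), ¬ p ∣ orderOf y ∧ Cfsg.blockPart b (fun c : Subgroup.centralizer ({x} : Set G) => (χ : G → ℂ) (x * (c : G))) y ≠ 0 := by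
  classical
  have := CfsgLib.Blocks.isMaximal_of_isPModular hM
  have := Fintype.ofFinite G
  set C := Subgroup.centralizer ({x} : Set G)
  have : Fintype C := Fintype.ofFinite C
  obtain ⟨ψ, hψ⟩ := CfsgLib.Blocks.nonempty_of_isPBlock hb.1
  by_contra hcon
  push Not at hcon
  set ϑ : C → ℂ := fun c => (χ : G → ℂ) (x * (c : G))
  have hzero := CfsgLib.Blocks.HeightZero.regPair_eq_zero_of_blockPart hM hb.1 hcon hψ
  apply CfsgLib.Blocks.HeightZero.not_memLocalIdeal_regPair_induced hM hb hχ h0 hψ
  have hxc : ∀ c : C, Commute (c : G) x := fun c => Subgroup.mem_centralizer_singleton_iff.1 c.2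
  obtain ⟨k, hk⟩ := hx
  have hd : ∀ c : C, ¬ p ∣ orderOf c → Cfsg.MemLocalIdeal M ((χ : G → ℂ) (c : G) - ϑ c) := by
    intro c hc
    refine (CfsgLib.Blocks.HeightZero.congr_apply_mul hM (CfsgLib.Chars.isCharacter_coe χ)
      (hxc c).symm hk ?_).symm
    rwa [Subgroup.orderOf_coe]
  have hcl : Cfsg.IsClassFunction C fun c => (χ : G → ℂ) (c : G) - ϑ c := by
    intro g h
    simp only [ϑ, Subgroup.coe_mul, InvMemClass.coe_inv]
    rw [CfsgLib.Chars.isClassFunction_coe χ (g : G) (h : G),
      show x * ((h : G) * g * (h : G)⁻¹) = (h : G) * (x * g) * (h : G)⁻¹ by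
        rw [← mul_assoc, ← mul_assoc, (hxc h).eq.symm, mul_assoc (h : G) x],
      CfsgLib.Chars.isClassFunction_coe χ (x * (g : G)) (h : G)]
  have hs := CfsgLib.Blocks.HeightZero.memLocalIdeal_regPair_of_small hM hcl hd ψ
  have e : CfsgLib.Blocks.HeightZero.regPair p (fun c : C => (χ : G → ℂ) (c : G) - ϑ c) (ψ : C → ℂ) =
      CfsgLib.Blocks.HeightZero.regPair p (fun c : C => (χ : G → ℂ) c) (ψ : C → ℂ) := by
    have hz : CfsgLib.Blocks.HeightZero.regPair p ϑ (ψ : C → ℂ) = 0 := hzero
    simp only [CfsgLib.Blocks.HeightZero.regPair_eq_sum] at hz ⊢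
    refine Eq.trans ?_ (sub_zero _)
    rw [← hz, ← Finset.sum_sub_distrib]
    exact Finset.sum_congr rfl fun c _ => by split_ifs <;> ring
  rwa [e] at hs

end Cfsg.Agent.S4428
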