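import Cfsg.Statements.S4429
import Cfsg.Agent.M11Order.Degrees
import Cfsg.Agent.Eq.Def_Characters

set_option autoImplicit false
open Cfsg

namespace Cfsg.Agent.S4429

/-- Let G be a simple group of order 7920. Then G has exactly ten irreducible complex characters, and their degrees, listed with multiplicity, are 1, 10, 10, 10, 11, 16, 16, 44, 45, 55: for every natural number n, the number of irreducible characters of degree n is 1 if n ∈ {1, 11, 44, 45, 55}, 3 if n = 10, 2 if n = 16, and 0 otherwise. -/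
theorem result {G : Type*} [Group G] [Finite G] [IsSimpleGroup G] (hG : Nat.card G = 7920) : Nat.card (Cfsg.IrrCharacter G) = 10 ∧ ∀ n : ℕ, Nat.card {χ : Cfsg.IrrCharacter G // Cfsg.charDegree (χ : G → ℂ) = n} = (if n = 1 ∨ n = 11 ∨ n = 44 ∨ n = 45 ∨ n = 55 then 1 else if n = 10 then 3 else if n = 16 then 2 else 0) := by
  classical
  letI := Fintype.ofFinite G
  obtain ⟨T⟩ := CfsgLib.M11Order.exists_table hG
  have hcard : Nat.card (Cfsg.IrrCharacter G) = 10 := by
    rw [← Nat.card_eq_of_bijective T.χ T.bij, Nat.card_fin]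
  refine ⟨hcard, fun n => ?_⟩
  have he : Nat.card {χ : Cfsg.IrrCharacter G // Cfsg.charDegree (χ : G → ℂ) = n} =
      (Finset.univ.filter fun i : Fin 10 => CfsgLib.M11Order.degs i = n).card := by
    rw [← Nat.card_eq_finsetCard]
    refine (Nat.card_congr (Equiv.subtypeEquiv (Equiv.ofBijective T.χ T.bij) fun i => ?_)).symm
    simp [T.deg i]
  rw [he]
  by_cases h : n = 1 ∨ n = 10 ∨ n = 11 ∨ n = 16 ∨ n = 44 ∨ n = 45 ∨ n = 55
  · rcases h with rfl | rfl | rfl | rfl | rfl | rfl | rfl <;> rfl
  · push Not at h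
    obtain ⟨h1, h2, h3, h4, h5, h6, h7⟩ := h
    rw [if_neg (by omega), if_neg h2, if_neg h4, Finset.card_eq_zero, Finset.filter_eq_empty_iff]
    intro i _
    fin_cases i <;> simp [CfsgLib.M11Order.degs] <;> omega

end Cfsg.Agent.S4429
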