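import Cfsg.Statements.S4430
import Cfsg.Agent.Eq.Def_Blocks
import Cfsg.Agent.Blocks.HeightZero.Induced
import Cfsg.Agent.Blocks.HeightZero.Scaled
import Cfsg.Agent.Chars.Induced.Rep

set_option autoImplicit false
open Cfsg

namespace Cfsg.Agent.S4430

/-- Let H be a subgroup of the finite group G, b a block of H whose induced block B₀ in G is defined (relative to a maximal ideal M of the algebraic integers containing p), and ξ ∈ b. For a block B of G let n_B be the value at 1 of the B-part of the induced character ξ^G (a natural number: the sum over χ ∈ B of the multiplicity of χ in ξ^G times χ(1)). Then for B = B₀ the exact power of p dividing n_B equals the exact power of p dividing ξ^G(1), while for every other block B either n_B = 0 or n_B is divisible by a strictly higher power of p than ξ^G(1). -/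
theorem result {G : Type*} [Group G] [Fintype G] (p : ℕ) [Fact p.Prime] (M : Ideal Cfsg.AlgInt) (hM : Cfsg.IsPModular p M) (H : Subgroup G) [Fintype H] (b : Set (Cfsg.IrrCharacter H)) (B₀ : Set (Cfsg.IrrCharacter G)) (hind : Cfsg.IsInducedBlock M H b B₀) (ξ : Cfsg.IrrCharacter H) (hξ : ξ ∈ b) : (∃ n : ℕ, Cfsg.blockPart B₀ (Cfsg.indFun H (ξ : H → ℂ)) 1 = (n : ℂ) ∧ n ≠ 0 ∧ n.factorization p = (Cfsg.charDegree (Cfsg.indFun H (ξ : H → ℂ))).factorization p) ∧ ∀ B : Set (Cfsg.IrrCharacter G), Cfsg.IsPBlock M B → B ≠ B₀ → ∃ n : ℕ, Cfsg.blockPart B (Cfsg.indFun H (ξ : H → ℂ)) 1 = (n : ℂ) ∧ (n = 0 ∨ (Cfsg.charDegree (Cfsg.indFun H (ξ : H → ℂ))).factorization p < n.factorization p) := by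
  classical
  have := CfsgLib.Blocks.isMaximal_of_isPModular hM
  set N := H.index * Cfsg.charDegree (ξ : H → ℂ) with hN
  have hNpos : N ≠ 0 := mul_ne_zero Subgroup.index_ne_zero_of_finite
    (CfsgLib.Chars.charDegree_pos ξ).ne'
  have hdeg : Cfsg.charDegree (Cfsg.indFun H (ξ : H → ℂ)) = N := by
    refine CfsgLib.Chars.charDegree_eq_of_map_one ?_
    rw [CfsgLib.Chars.Induced.indFun_one_apply, hN, Nat.cast_mul, CfsgLib.Chars.coe_charDegree]
  have hnat : ∀ B : Set (Cfsg.IrrCharacter G), ∃ n : ℕ,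
      Cfsg.blockPart B (Cfsg.indFun H (ξ : H → ℂ)) 1 = (n : ℂ) := by
    intro B
    choose m hm using fun χ : Cfsg.IrrCharacter G => CfsgLib.Chars.exists_nat_classInner
      (CfsgLib.Chars.Induced.isCharacter_indFun H (CfsgLib.Chars.isCharacter_coe ξ)) χ
    refine ⟨∑ χ ∈ B.toFinite.toFinset, m χ * Cfsg.charDegree (χ : G → ℂ), ?_⟩
    simp only [Cfsg.blockPart, CfsgLib.Blocks.finsum_block_eq_sum, Nat.cast_sum, Nat.cast_mul,
      CfsgLib.Chars.coe_charDegree, ← hm]
    exact Finset.sum_congr rfl fun χ _ => by congr 2; exact Subsingleton.elim _ _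
  have key : ∀ B : Set (Cfsg.IrrCharacter G), Cfsg.IsPBlock M B → ∃ n : ℕ,
      Cfsg.blockPart B (Cfsg.indFun H (ξ : H → ℂ)) 1 = (n : ℂ) ∧
      CfsgLib.Blocks.Congr M ((n : ℂ) / (N : ℂ)) (if B = B₀ then 1 else 0) := by
    intro B hB
    obtain ⟨n, hn⟩ := hnat B
    obtain ⟨w, hw, hwc⟩ := CfsgLib.Blocks.HeightZero.congr_blockPart_indFun_one hM hind hB hξ
    refine ⟨n, hn, ?_⟩
    have : (n : ℂ) / (N : ℂ) = w := by
      rw [div_eq_iff (Nat.cast_ne_zero.2 hNpos), ← hn, hw, hN, Nat.cast_mul,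
        CfsgLib.Chars.coe_charDegree]
      ring
    rwa [this]
  rw [hdeg]
  refine ⟨?_, fun B hB hne => ?_⟩
  · obtain ⟨n, hn, hc⟩ := key B₀ hind.2.1
    rw [if_pos rfl] at hc
    have hu : ¬ Cfsg.MemLocalIdeal M ((n : ℂ) / (N : ℂ)) := fun h =>
      CfsgLib.Blocks.not_memLocalIdeal_one (M := M) (hc.mem_iff.1 h)
    have hn0 : n ≠ 0 := fun h => hu (by simpa [h] using CfsgLib.Blocks.memLocalIdeal_zero)
    refine ⟨n, hn, hn0, le_antisymm (not_lt.1 fun h =>
      hu (CfsgLib.Blocks.memLocalIdeal_natCast_div hM hNpos hn0 h)) (not_lt.1 fun h => ?_)⟩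
    refine CfsgLib.Blocks.not_memLocalIdeal_one (M := M) ?_
    have hloc : Cfsg.MemLocalRing M ((n : ℂ) / (N : ℂ)) := by
      have := CfsgLib.Blocks.memLocalRing_of_isIntegral (M := M) isIntegral_one
      simpa using (CfsgLib.Blocks.localRing M).add_mem (CfsgLib.Blocks.memLocalRing_of_memLocalIdeal hc) this
    have := CfsgLib.Blocks.memLocalIdeal_mul_right
      (CfsgLib.Blocks.memLocalIdeal_natCast_div hM hn0 hNpos h) hloc
    rwa [div_mul_div_comm, mul_comm (N : ℂ), div_self (mul_ne_zero (Nat.cast_ne_zero.2 hn0)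
      (Nat.cast_ne_zero.2 hNpos))] at this
  · obtain ⟨n, hn, hc⟩ := key B hB
    rw [if_neg hne] at hc
    refine ⟨n, hn, (eq_or_ne n 0).imp id fun hn0 => not_le.1 fun h => ?_⟩
    refine CfsgLib.Blocks.not_memLocalIdeal_one (M := M) ?_
    have := CfsgLib.Blocks.memLocalIdeal_mul_right (by simpa [CfsgLib.Blocks.Congr] using hc)
      (CfsgLib.Blocks.memLocalRing_natCast_div hM hNpos hn0 h)
    rwa [div_mul_div_comm, mul_comm (N : ℂ), div_self (mul_ne_zero (Nat.cast_ne_zero.2 hn0)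
      (Nat.cast_ne_zero.2 hNpos))] at this

end Cfsg.Agent.S4430
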