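import Cfsg.Statements.S4435
import Cfsg.Agent.Blocks.Covering.FongReynolds
import Cfsg.Agent.Blocks.Subsection.Major
import Cfsg.Agent.Blocks.HeightZero.InducedDefect
import Cfsg.Agent.Eq.Def_Blocks

set_option autoImplicit false
open Cfsg

namespace Cfsg.Agent.S4435

open CfsgLib.Chars.Induced CfsgLib.Blocks in
theorem mem_iff_blockStab {G : Type*} [Group G] [Fintype G] {M : Ideal Cfsg.AlgInt} [M.IsMaximal]
    {N : Subgroup G} [hN : N.Normal] {b : Set (Cfsg.IrrCharacter N)}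
    (hb : Cfsg.IsPBlock M b) {T : Subgroup G}
    (hT : ∀ g : G, g ∈ T ↔ ∀ θ ∈ b, ∀ θ' : Cfsg.IrrCharacter N, (∀ n : N, (θ' : N → ℂ) n = (θ : N → ℂ) ⟨g * n * g⁻¹, hN.conj_mem n n.2 g⟩) → θ' ∈ b) :
    ∀ g, g ∈ T ↔ g ∈ CfsgLib.Blocks.HeightZero.blockStab b := by
  intro g
  have key : ∀ (θ θ' : Cfsg.IrrCharacter N),
      (∀ n : N, (θ' : N → ℂ) n = (θ : N → ℂ) ⟨g * n * g⁻¹, hN.conj_mem n n.2 g⟩) ↔
        θ' = conjIrr g⁻¹ θ := by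
    intro θ θ'
    rw [Subtype.ext_iff, funext_iff]
    refine forall_congr' fun n => ?_
    rw [conjIrr_coe, conjFun_apply]
    simp only [inv_inv]
  rw [hT g]
  constructor
  · intro h
    obtain ⟨θ, hθ⟩ := nonempty_of_isPBlock hb
    have h1 := CfsgLib.Blocks.HeightZero.mem_blockStab_of_conj_mem hb hθ (h θ hθ _ ((key θ _).2 rfl))
    simpa using (CfsgLib.Blocks.HeightZero.blockStab b).inv_mem h1
  · intro h θ hθ θ' h'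
    rw [(key θ θ').1 h']
    exact (CfsgLib.Blocks.HeightZero.mem_blockStab.1
      ((CfsgLib.Blocks.HeightZero.blockStab b).inv_mem h) θ).2 hθ


/-- Let N be a normal subgroup of the finite group G, b a block of N (relative to a maximal ideal M of the algebraic integers containing p), and T the stabilizer of b in G (the elements g such that conjugating any member of b by g gives a member of b); N ≤ T. Say that a block of T (or of G) covers b when some member has a constituent in b on restriction to N. Then: (i) every block B′ of T covering b induces a block B of G, B covers b, every ψ ∈ B′ induces to an irreducible character of G, and B consists exactly of the characters induced from members of B′; (ii) distinct blocks of T covering b induce distinct blocks of G; (iii) every block of G covering b is induced by some block of T covering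 b. -/
theorem result {G : Type*} [Group G] [Fintype G] (p : ℕ) [Fact p.Prime] (M : Ideal Cfsg.AlgInt) (hM : Cfsg.IsPModular p M) (N : Subgroup G) [hN : N.Normal] [Fintype N] (b : Set (Cfsg.IrrCharacter N)) (hb : Cfsg.IsPBlock M b) (T : Subgroup G) [Fintype T] (hT : ∀ g : G, g ∈ T ↔ ∀ θ ∈ b, ∀ θ' : Cfsg.IrrCharacter N, (∀ n : N, (θ' : N → ℂ) n = (θ : N → ℂ) ⟨g * n * g⁻¹, hN.conj_mem n n.2 g⟩) → θ' ∈ b) (hNT : N ≤ T) : (∀ B' : Set (Cfsg.IrrCharacter T), Cfsg.IsPBlock M B' → (∃ ψ ∈ B', ∃ θ ∈ b, Cfsg.classInner (fun n : N => (ψ : T → ℂ) ⟨(n : G), hNT n.2⟩) (θ : N → ℂ) ≠ 0) → ∃ B : Set (Cfsg.IrrCharacter G), Cfsg.IsInducedBlock M T B' B ∧ (∃ χ ∈ B, ∃ θ ∈ b, Cfsg.classInner (fun n : N => (χ : G → ℂ) n) (θ : N → ℂ) ≠ 0) ∧ (∀ ψ ∈ B', Cfsg.IsIrrCharacter G (Cfsg.indFun T (ψ : T → ℂ))) ∧ ∀ χ : Cfsg.IrrCharacter G, χ ∈ B ↔ ∃ ψ ∈ B', (χ : G → ℂ) =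 Cfsg.indFun T (ψ : T → ℂ)) ∧ (∀ B'₁ B'₂ : Set (Cfsg.IrrCharacter T), Cfsg.IsPBlock M B'₁ → Cfsg.IsPBlock M B'₂ → (∃ ψ ∈ B'₁, ∃ θ ∈ b, Cfsg.classInner (fun n : N => (ψ : T → ℂ) ⟨(n : G), hNT n.2⟩) (θ : N → ℂ) ≠ 0) → (∃ ψ ∈ B'₂, ∃ θ ∈ b, Cfsg.classInner (fun n : N => (ψ : T → ℂ) ⟨(n : G), hNT n.2⟩) (θ : N → ℂ) ≠ 0) → ∀ B : Set (Cfsg.IrrCharacter G), Cfsg.IsInducedBlock M T B'₁ B → Cfsg.IsInducedBlock M T B'₂ B → B'₁ = B'₂) ∧ (∀ B : Set (Cfsg.IrrCharacter G), Cfsg.IsPBlock M B → (∃ χ ∈ B, ∃ θ ∈ b, Cfsg.classInner (fun n : N => (χ : G → ℂ) n) (θ : N → ℂ) ≠ 0) → ∃ B' : Set (Cfsg.IrrCharacter T), Cfsg.IsPBlock M B' ∧ (∃ ψ ∈ B', ∃ θ ∈ b, Cfsg.classInner (fun n : N => (ψ : T → ℂ) ⟨(n : G), hNT n.2⟩) (θ : N → ℂ) ≠ 0) ∧ Cfsg.IsInducedBlock M T B' B) := by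
  haveI := hM.2.1
  have hTb := mem_iff_blockStab hb hT
  have hle : CfsgLib.Blocks.HeightZero.blockStab b ≤ T := fun g hg => (hTb g).2 hg
  have conv : ∀ B' : Set (Cfsg.IrrCharacter T), (∃ ψ ∈ B', ∃ θ ∈ b, Cfsg.classInner (fun n : N => (ψ : T → ℂ) ⟨(n : G), hNT n.2⟩) (θ : N → ℂ) ≠ 0) → ∃ ψ ∈ B', ∃ θ ∈ b, CfsgLib.FongReynolds.multOn hNT ψ θ ≠ 0 :=
    fun B' ⟨ψ, h1, θ, h2, h3⟩ => ⟨ψ, h1, θ, h2, (CfsgLib.FongReynolds.classInner_ne_zero_iff ψ θ).1 h3⟩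
  have hN' : ∀ (χ : Cfsg.IrrCharacter G) (θ : Cfsg.IrrCharacter N),
      Cfsg.classInner (fun n : N => (χ : G → ℂ) n) (θ : N → ℂ) ≠ 0 ↔
        CfsgLib.Chars.Induced.mult (fun n : N => (χ : G → ℂ) n) θ ≠ 0 :=
    fun χ θ => CfsgLib.BlocksCover.mult_ne_zero_iff χ θ
  refine ⟨fun B' hB' hcov => ?_, fun B₁ B₂ hB₁ hB₂ hc₁ hc₂ B hi₁ hi₂ => ?_, fun B hB hcov => ?_⟩
  · obtain ⟨B, h1, ⟨χ, hχ, θ, hθ, h2⟩, -, h4, h5⟩ :=
      CfsgLib.FongReynolds.exists_induced hb hTb hB' (conv B' hcov)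
    exact ⟨B, h1, ⟨χ, hχ, θ, hθ, (hN' χ θ).2 h2⟩, h4, h5⟩
  · obtain ⟨ψ₁, hψ₁, θ₁, hθ₁, hm₁⟩ := conv B₁ hc₁
    obtain ⟨C₁, i₁, -, -, -, m₁⟩ := CfsgLib.FongReynolds.exists_induced hb hTb hB₁ (conv B₁ hc₁)
    obtain ⟨C₂, i₂, -, -, -, m₂⟩ := CfsgLib.FongReynolds.exists_induced hb hTb hB₂ (conv B₂ hc₂)
    obtain rfl := CfsgLib.FongReynolds.induced_unique i₁ hi₁
    obtain rfl := CfsgLib.FongReynolds.induced_unique i₂ hi₂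
    have hI₁ := CfsgLib.FongReynolds.inertia_le hb hle hθ₁
    let χ : Cfsg.IrrCharacter G := ⟨_, CfsgLib.FongReynolds.isIrrCharacter_indFun hI₁ hm₁⟩
    obtain ⟨ψ₂, hψ₂, heq⟩ := (m₂ χ).1 ((m₁ χ).2 ⟨ψ₁, hψ₁, rfl⟩)
    obtain ⟨ψ₀, hψ₀, θ₀, hθ₀, hm₀⟩ := conv B₂ hc₂
    obtain ⟨θ₂, hθ₂, hm₂⟩ := CfsgLib.FongReynolds.exists_over_of_mem hB₂ hb
      (fun t ht => (hTb t).1 ht) hψ₀ hψ₂ hθ₀ hm₀
    have hI₂ := CfsgLib.FongReynolds.inertia_le hb hle hθ₂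
    have h1 : CfsgLib.Chars.Induced.mult (Cfsg.indFun T (ψ₁ : T → ℂ)) χ ≠ 0 := by
      rw [show Cfsg.indFun T (ψ₁ : T → ℂ) = (χ : G → ℂ) from rfl, CfsgLib.Chars.Induced.mult_irr,
        if_pos rfl]
      exact one_ne_zero
    have e1 := (CfsgLib.FongReynolds.indFun_eq_of_inertia_le hI₁ ψ₁ hm₁ χ h1).2
    have e2 := (CfsgLib.FongReynolds.indFun_eq_of_inertia_le hI₂ ψ₂ hm₂ χ (by
      rw [← heq]; exact h1)).2
    obtain ⟨x, hx⟩ := CfsgLib.Chars.Induced.mem_conjOrbit_of_mult_ne_zero χ θ₁ θ₂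
      (by rw [e1]; exact hm₁) (by rw [e2]; exact hm₂)
    replace hx : CfsgLib.Chars.Induced.conjIrr x θ₁ = θ₂ := hx
    have hxT : x ∈ T := hle (CfsgLib.Blocks.HeightZero.mem_blockStab_of_conj_mem hb hθ₁ (by
      rw [hx]; exact hθ₂))
    have hψeq : ψ₁ = ψ₂ := CfsgLib.FongReynolds.indFun_injective hI₁ hm₁ (by
      rw [← CfsgLib.FongReynolds.multOn_conj ψ₂ θ₁ hxT, hx]; exact hm₂) heq
    subst hψeq
    rw [CfsgLib.Blocks.eq_blockOf_of_mem hB₁ hψ₁, CfsgLib.Blocks.eq_blockOf_of_mem hB₂ hψ₂]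
  · obtain ⟨χ, hχ, θ, hθ, hm⟩ := hcov
    have hI := CfsgLib.FongReynolds.inertia_le hb hle hθ
    obtain ⟨ψ, hψθ, hψχ⟩ := CfsgLib.FongReynolds.exists_indFun_eq hI hNT χ ((hN' χ θ).1 hm)
    have hB' : Cfsg.IsPBlock M (Cfsg.blockOf M (ψ : T → ℂ)) := ⟨ψ, rfl⟩
    refine ⟨_, hB', ⟨ψ, CfsgLib.Blocks.self_mem_blockOf ψ, θ, hθ,
      (CfsgLib.FongReynolds.classInner_ne_zero_iff ψ θ).2 hψθ⟩, ?_⟩
    obtain ⟨h1, -⟩ := CfsgLib.FongReynolds.mem_blockOf_iff hb hTb hB'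
      (CfsgLib.Blocks.self_mem_blockOf ψ) hθ hψθ (χ₀ := χ) hψχ.symm
    rwa [← CfsgLib.Blocks.eq_blockOf_of_mem hB hχ] at h1

end Cfsg.Agent.S4435
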