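import Cfsg.Statements.S4436
import Cfsg.Agent.Blocks.Covering.FongReynolds
import Cfsg.Agent.Blocks.Subsection.Major
import Cfsg.Agent.Blocks.HeightZero.InducedDefect
import Cfsg.Agent.Eq.Def_Blocks

set_option autoImplicit false
open Cfsg

namespace Cfsg.Agent.S4436

open CfsgLib.Chars.Induced CfsgLib.Blocks in
theorem mem_iff_blockStab {G : Type*} [Group G] [Fintype G] {M : Ideal Cfsg.AlgInt} [M.IsMaximal]
    {N : Subgroup G} [hN : N.Normal] {b : Set (Cfsg.IrrCharacter N)}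
    (hb : Cfsg.IsPBlock M b) {T : Subgroup G}
    (hT : ∀ g : G, g ∈ T ↔ ∀ θ ∈ b, ∀ θ' : Cfsg.IrrCharacter N, (∀ n : N, (θ' : N → ℂ) n = (θ : N → ℂ) ⟨g * n * g⁻¹, hN.conj_mem n n.2 g⟩) → θ' ∈ b) :
    ∀ g, g ∈ T ↔ g ∈ CfsgLib.Blocks.HeightZero.blockStab b := by
  intro g
  have key : ∀ (θ θ' : Cfsg.IrrCharacter N),
      (∀ n : N, (θ' : N → ℂ) n = (θ : N → ℂ) ⟨g * n * g⁻¹, hN.conj_mem n n.2 g⟩) ↔
        θ' = conjIrr g⁻¹ θ := by
    intro θ θ'
    rw [Subtype.ext_iff, funext_iff]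
    refine forall_congr' fun n => ?_
    rw [conjIrr_coe, conjFun_apply]
    simp only [inv_inv]
  rw [hT g]
  constructor
  · intro h
    obtain ⟨θ, hθ⟩ := nonempty_of_isPBlock hb
    have h1 := CfsgLib.Blocks.HeightZero.mem_blockStab_of_conj_mem hb hθ (h θ hθ _ ((key θ _).2 rfl))
    simpa using (CfsgLib.Blocks.HeightZero.blockStab b).inv_mem h1
  · intro h θ hθ θ' h'
    rw [(key θ θ').1 h']
    exact (CfsgLib.Blocks.HeightZero.mem_blockStab.1
      ((CfsgLib.Blocks.HeightZero.blockStab b).inv_mem h) θ).2 hθ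


/-- Let N be a normal subgroup of the finite group G, b a block of N (relative to a maximal ideal M of the algebraic integers containing p), T the stabilizer of b in G, N ≤ T, and B′ a block of T covering b (some member of B′ has a constituent in b on restriction to N) that induces the block B of G. Then every defect group of B′ is a defect group of B, and for every ψ ∈ B′ the induced character ψ^G is an irreducible character of G lying in B with the same height as ψ. -/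
theorem result {G : Type*} [Group G] [Fintype G] (p : ℕ) [Fact p.Prime] (M : Ideal Cfsg.AlgInt) (hM : Cfsg.IsPModular p M) (N : Subgroup G) [hN : N.Normal] [Fintype N] (b : Set (Cfsg.IrrCharacter N)) (hb : Cfsg.IsPBlock M b) (T : Subgroup G) [Fintype T] (hT : ∀ g : G, g ∈ T ↔ ∀ θ ∈ b, ∀ θ' : Cfsg.IrrCharacter N, (∀ n : N, (θ' : N → ℂ) n = (θ : N → ℂ) ⟨g * n * g⁻¹, hN.conj_mem n n.2 g⟩) → θ' ∈ b) (hNT : N ≤ T) (B' : Set (Cfsg.IrrCharacter T)) (hB' : Cfsg.IsPBlock M B') (hcov : (∃ ψ ∈ B', ∃ θ ∈ b, Cfsg.classInner (fun n : N => (ψ : T → ℂ) ⟨(n : G), hNT n.2⟩) (θ : N → ℂ) ≠ 0)) (B : Set (Cfsg.IrrCharacter G)) (hind : Cfsg.IsInducedBlock M T B' B) : (∀ D : Subgroup T, Cfsg.IsDefectGroup p M B' D → Cfsg.IsDefectGroup p M B (D.map T.subtype)) ∧ ∀ ψ ∈ B', ∃ χ ∈ B, (χ : G → ℂ) = Cfsg.indFun T (ψ : T → ℂ) ∧ Cfsg.blockHeight p B (χ : G → ℂ) = Cfsg.blockHeight p B' (ψ : T → ℂ) := by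
  haveI := hM.2.1
  have hTb := mem_iff_blockStab hb hT
  obtain ⟨ψ₀, hψ₀, θ, hθ, hm⟩ := hcov
  obtain ⟨C, hi, -, hinj, hirr, hmem⟩ := CfsgLib.FongReynolds.exists_induced hb hTb hB'
    ⟨ψ₀, hψ₀, θ, hθ, (CfsgLib.FongReynolds.classInner_ne_zero_iff ψ₀ θ).1 hm⟩
  obtain rfl := CfsgLib.FongReynolds.induced_unique hi hind
  have hp : p.Prime := Fact.out
  have hi0 : T.index ≠ 0 := Subgroup.index_ne_zero_of_finite
  have hdeg : ∀ (χ : Cfsg.IrrCharacter G) (ψ : Cfsg.IrrCharacter T),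
      (χ : G → ℂ) = Cfsg.indFun T (ψ : T → ℂ) → (Cfsg.charDegree (χ : G → ℂ)).factorization p =
        T.index.factorization p + (Cfsg.charDegree (ψ : T → ℂ)).factorization p := fun χ ψ h => by
    rw [CfsgLib.FongReynolds.charDegree_of_eq_indFun h, Nat.factorization_mul hi0
      (CfsgLib.Chars.charDegree_pos ψ).ne', Finsupp.add_apply]
  have hmin : CfsgLib.Blocks.HeightZero.minExp p C =
      T.index.factorization p + CfsgLib.Blocks.HeightZero.minExp p B' := by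
    obtain ⟨χ, hχ, h0⟩ := CfsgLib.Blocks.HeightZero.exists_height_zero (p := p) hind.2.1
    obtain ⟨ψ, hψ, h1⟩ := CfsgLib.Blocks.HeightZero.exists_height_zero (p := p) hB'
    rw [CfsgLib.Blocks.HeightZero.blockHeight_eq_zero_iff' hχ] at h0
    rw [CfsgLib.Blocks.HeightZero.blockHeight_eq_zero_iff' hψ] at h1
    obtain ⟨ψ', hψ', h2⟩ := (hmem χ).1 hχ
    refine le_antisymm ?_ ?_
    · refine le_of_le_of_eq (CfsgLib.Blocks.HeightZero.minExp_le ((hmem ⟨_, hirr ψ hψ⟩).2 ⟨ψ, hψ, rfl⟩)) ?_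
      rw [hdeg ⟨_, hirr ψ hψ⟩ ψ rfl, h1]
    · rw [← h0, hdeg χ ψ' h2]
      exact Nat.add_le_add_left (CfsgLib.Blocks.HeightZero.minExp_le hψ') _
  refine ⟨fun D hD => ?_, fun ψ hψ =>
    ⟨⟨_, hirr ψ hψ⟩, (hmem ⟨_, hirr ψ hψ⟩).2 ⟨ψ, hψ, rfl⟩, rfl, ?_⟩⟩
  · obtain ⟨E, hE, hle⟩ := CfsgLib.Blocks.HeightZero.exists_defectGroup_map_le hM hind hD
    have hcard : Nat.card E ≤ Nat.card (D.map T.subtype) := by
      rw [Subgroup.card_map_of_injective T.subtype_injective,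
        CfsgLib.Blocks.Contrib.natCard_defectGroup hM hind.2.1 hE,
        CfsgLib.Blocks.Contrib.natCard_defectGroup hM hB' hD]
      refine Nat.pow_le_pow_right hp.pos (le_of_eq ?_)
      rw [CfsgLib.Blocks.HeightZero.blockDefect_eq, CfsgLib.Blocks.HeightZero.blockDefect_eq, hmin,
        ← T.card_mul_index, Nat.factorization_mul Nat.card_pos.ne' hi0, Finsupp.add_apply]
      omega
    rwa [Subgroup.eq_of_le_of_card_ge hle hcard]
  · show (Cfsg.charDegree (Cfsg.indFun T (ψ : T → ℂ))).factorization p -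
        CfsgLib.Blocks.HeightZero.minExp p C =
      (Cfsg.charDegree (ψ : T → ℂ)).factorization p - CfsgLib.Blocks.HeightZero.minExp p B'
    rw [hmin, hdeg ⟨_, hirr ψ hψ⟩ ψ rfl]
    omega

end Cfsg.Agent.S4436
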