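import Cfsg.Statements.S4438
import Cfsg.Agent.Blocks.Defect.Covered
import Cfsg.Agent.Eq.Def_Blocks

set_option autoImplicit false
open Cfsg

namespace Cfsg.Agent.S4438

/-- Let N be a normal subgroup of the finite group G, b a block of N with defect group Q, and B a block of G covering b (some member of B has a constituent in b on restriction to N), all relative to a maximal ideal M of the algebraic integers containing p. Then B has a defect group P with P ⊓ N = Q. -/
theorem result {G : Type*} [Group G] [Fintype G] (p : ℕ) [Fact p.Prime] (M : Ideal Cfsg.AlgInt) (hM : Cfsg.IsPModular p M) (N : Subgroup G) [hN : N.Normal] [Fintype N] (b : Set (Cfsg.IrrCharacter N)) (hb : Cfsg.IsPBlock M b) (Q : Subgroup G) (hQN : Q ≤ N) (hQ : Cfsg.IsDefectGroup p M b (Q.subgroupOf N)) (B : Set (Cfsg.IrrCharacter G)) (hB : Cfsg.IsPBlock M B) (hcov : (∃ χ ∈ B, ∃ θ ∈ b, Cfsg.classInner (fun n : N => (χ : G → ℂ) n) (θ : N → ℂ) ≠ 0)) : ∃ P : Subgroup G, Cfsg.IsDefectGroup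 p M B P ∧ P ⊓ N = Q := by
  haveI := hM.2.1
  haveI := CfsgLib.Blocks.charP_kres hM
  obtain ⟨χ, hχ, θ, hθ, hcov'⟩ := hcov
  have hQ' := (CfsgLib.Blocks.isDefectGroup_subEl_iff hb _).mp hQ
  rw [Subgroup.map_subgroupOf_eq_of_le hQN] at hQ'
  obtain ⟨P, hP, hPN⟩ := CfsgLib.Blocks.exists_defectGroup_inf_eq
    (CfsgLib.Blocks.isBlockIdem_topEl hB) (CfsgLib.Blocks.isBlockIdem_subEl hb) hQ'
    (CfsgLib.Blocks.topEl_mul_subEl_ne_zero hB hb hχ hθ hcov')
  exact ⟨P, (CfsgLib.Blocks.isDefectGroup_topEl_iff hB P).mpr hP, hPN⟩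

end Cfsg.Agent.S4438
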