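import Cfsg.Statements.S4443
import Cfsg.Agent.S0968
import Cfsg.Agent.Blocks.Orth.DegreeSquares
import Cfsg.Agent.Blocks.Orth.ClassMult
import Cfsg.Agent.Blocks.Defect.Lifts
import Cfsg.Agent.Blocks.Defect.Translate
import Cfsg.Agent.Blocks.HeightZero.MinMax
import Cfsg.Agent.Blocks.Subsection.Major
import Cfsg.Agent.Chars.Basic.Columns
import Cfsg.Agent.Eq.Def_Blocks
import Mathlib.LinearAlgebra.Matrix.Rank

set_option autoImplicit false
open Cfsg

namespace Cfsg.Agent.S4443

/-- The rank does not change under a homomorphism of fields. -/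
theorem rank_map_field {F K : Type*} [Field F] [Field K] (f : F →+* K) {n : Type*} [Fintype n]
    [DecidableEq n] (A : Matrix n n F) : (A.map f).rank = A.rank := by
  classical
  obtain ⟨L, L', D, h⟩ := Matrix.Pivot.exists_list_transvec_mul_mul_list_transvec_eq_diagonal A
  set U := (L.map Matrix.TransvectionStruct.toMatrix).prod
  set V := (L'.map Matrix.TransvectionStruct.toMatrix).prod
  have hU : IsUnit U.det := by rw [Matrix.TransvectionStruct.det_toMatrix_prod]; exact isUnit_one
  have hV : IsUnit V.det := by rw [Matrix.TransvectionStruct.det_toMatrix_prod]; exact isUnit_one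
  have h1 : A.rank = (Matrix.diagonal D).rank := by
    rw [← h, Matrix.rank_mul_eq_left_of_isUnit_det V _ hV,
      Matrix.rank_mul_eq_right_of_isUnit_det U _ hU]
  have hU' : IsUnit (U.map f).det := by
    rw [← RingHom.mapMatrix_apply, ← RingHom.map_det]; exact hU.map f
  have hV' : IsUnit (V.map f).det := by
    rw [← RingHom.mapMatrix_apply, ← RingHom.map_det]; exact hV.map f
  have h2 : (A.map f).rank = (Matrix.diagonal (f ∘ D)).rank := by
    rw [show Matrix.diagonal (f ∘ D) = (Matrix.diagonal D).map f from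
        (Matrix.diagonal_map (map_zero f)).symm, ← h, Matrix.map_mul, Matrix.map_mul,
      Matrix.rank_mul_eq_left_of_isUnit_det _ _ hV', Matrix.rank_mul_eq_right_of_isUnit_det _ _ hU']
  rw [h1, h2, Matrix.rank_diagonal, Matrix.rank_diagonal]
  exact Fintype.card_congr (Equiv.subtypeEquivRight fun i => by simp)

/-- A matrix squeezed to an invertible diagonal has that rank. -/
theorem rank_eq_card_of_factor {K : Type*} [Field K] {ι β : Type*} [Fintype ι] [DecidableEq ι]
    [Fintype β] [DecidableEq β] (A : Matrix ι ι K) (W : Matrix ι β K) (R : Matrix β ι K)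
    (L : Matrix β ι K) (L' : Matrix ι β K) (c : β → K) (hc : ∀ b, c b ≠ 0)
    (hA : A = W * R) (hL : L * W = 1) (hR : R * L' = Matrix.diagonal c) :
    A.rank = Fintype.card β := by
  classical
  refine le_antisymm ?_ ?_
  · rw [hA]
    exact (Matrix.rank_mul_le_left W R).trans (Matrix.rank_le_card_width W)
  · have h1 : L * A * L' = Matrix.diagonal c := by
      rw [hA, ← Matrix.mul_assoc L, hL, Matrix.one_mul, hR]
    have h2 : (L * A * L').rank = Fintype.card β := by
      rw [h1, Matrix.rank_diagonal]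
      exact Fintype.card_congr (Equiv.subtypeUnivEquiv hc)
    exact h2 ▸ (Matrix.rank_mul_le_left _ L').trans (Matrix.rank_mul_le_right L A)

open CfsgLib.Blocks in
theorem redC_mul' {M : Ideal Cfsg.AlgInt} [M.IsMaximal] {z w : ℂ} (hz : Cfsg.MemLocalRing M z)
    (hw : Cfsg.MemLocalRing M w) : redC M (z * w) = redC M z * redC M w := by
  rw [redC_of_mem hz, redC_of_mem hw, redC_of_mem ((localRing M).mul_mem hz hw), ← map_mul]
  rfl

open CfsgLib.Blocks in
theorem redC_natCast' {M : Ideal Cfsg.AlgInt} [M.IsMaximal] (n : ℕ) :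
    redC M (n : ℂ) = (n : kres M) := by
  rw [redC_of_mem (natCast_mem (localRing M) n), ← map_natCast (res M)]
  rfl

theorem centralizer_inv_singleton {G : Type*} [Group G] (x : G) :
    Subgroup.centralizer ({x⁻¹} : Set G) = Subgroup.centralizer ({x} : Set G) := by
  ext y
  rw [Subgroup.mem_centralizer_singleton_iff, Subgroup.mem_centralizer_singleton_iff]
  exact ⟨fun h => (by simpa using Commute.inv_right (show Commute y x⁻¹ from h) : Commute y x),
    fun h => Commute.inv_right h⟩

theorem isConj_inv' {G : Type*} [Group G] {x y : G} (h : IsConj x y) : IsConj x⁻¹ y⁻¹ := by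
  obtain ⟨c, hc⟩ := isConj_iff.1 h
  exact isConj_iff.2 ⟨c, by rw [← hc]; group⟩


/-- Let D be a normal p-subgroup of the finite group G, of order p^d, let p^a be the p-part of the order of G, and fix a Sylow p-subgroup S and a maximal ideal M of the algebraic integers containing p. Index by a finite type ι (via an injective map K) exactly the conjugacy classes of p-regular elements x of G for which D is a Sylow p-subgroup of C_G(x). For classes K_i, K_j let ω(i, j) be the number of pairs (y, z) ∈ K_i × K_j with z y⁻¹ ∈ S; this number is divisible by p^(a−d). Then the number of p-blocks of G having D as a defect group equals the rank over ℤ/pℤ of the matrix with (i, j) entry ω(i, j)/p^(a−d) reduced modulo p. -/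
theorem result {G : Type*} [Group G] [Finite G] (p : ℕ) [Fact p.Prime] (M : Ideal Cfsg.AlgInt) (hM : Cfsg.IsPModular p M) (D : Subgroup G) [D.Normal] (hD : IsPGroup p D) (S : Sylow p G) {ι : Type*} [Fintype ι] [DecidableEq ι] (K : ι → ConjClasses G) (hKinj : Function.Injective K) (hK : ∀ C : ConjClasses G, (∃ i, K i = C) ↔ ∃ x ∈ C.carrier, ¬ p ∣ orderOf x ∧ ∃ Q : Sylow p (Subgroup.centralizer ({x} : Set G)), (Q : Subgroup (Subgroup.centralizer ({x} : Set G))).map (Subgroup.centralizer ({x} : Set G)).subtype = D) : Nat.card {B : Set (Cfsg.IrrCharacter G) // Cfsg.IsPBlock M B ∧ Cfsg.IsDefectGroup p M B D} = (Matrix.of fun i j : ι => ((Nat.card {yz : G × G // yz.1 ∈ (K i).carrier ∧ yz.2 ∈ (K j).carrier ∧ yz.2 * yz.1⁻¹ ∈ (S : Subgroup G)} / p ^ ((Nat.card G).factorization p - (Nat.card D).factorization p) : ℕ) : ZMod p)).rank := by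
  haveI := hM.2.1
  haveI := CfsgLib.Blocks.charP_kres hM
  classical
  haveI := Fintype.ofFinite G
  haveI : Fintype (ConjClasses G) := Fintype.ofFinite _
  haveI : Fintype (S : Subgroup G) := Fintype.ofFinite _
  open CfsgLib.Blocks in
  let x : ι → G := fun i => (K i).out
  have hp : p.Prime := Fact.out
  set a := (Nat.card G).factorization p with ha
  set d := (Nat.card D).factorization p with hd
  set q := p ^ (a - d) with hq
  have hq0 : q ≠ 0 := pow_ne_zero _ hp.ne_zero
  have hDcard : Nat.card D = p ^ d := by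
    obtain ⟨j, hj⟩ := IsPGroup.iff_card.mp hD
    rw [hd, hj, Nat.factorization_pow_self hp]
  have hda : d ≤ a :=
    (Nat.factorization_le_iff_dvd Nat.card_pos.ne' Nat.card_pos.ne').2 D.card_subgroup_dvd_card p
  have hG0 : (Nat.card G : ℂ) ≠ 0 := Nat.cast_ne_zero.2 Nat.card_pos.ne'
  -- the classes
  have hx : ∀ i, ¬ p ∣ orderOf (x i) ∧ D ≤ Subgroup.centralizer ({x i} : Set G) ∧
      (Nat.card (Subgroup.centralizer ({x i} : Set G))).factorization p = d := by
    intro i
    obtain ⟨y, hy, hreg, Q, hQ⟩ := (hK (K i)).1 ⟨i, rfl⟩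
    rw [ConjClasses.mem_carrier_iff_mk_eq] at hy
    obtain ⟨t, ht⟩ := isConj_iff.1 (ConjClasses.mk_eq_mk_iff_isConj.1
      (hy.trans (Quotient.out_eq (K i)).symm))
    have hord : orderOf (x i) = orderOf y := by
      show orderOf (K i).out = _
      rw [← ht]
      exact orderOf_injective (MulAut.conj t).toMonoidHom (MulAut.conj t).injective y
    have hcard : Nat.card (Subgroup.centralizer ({x i} : Set G)) =
        Nat.card (Subgroup.centralizer ({y} : Set G)) := by
      have h : (Subgroup.centralizer ({y} : Set G)).map (MulAut.conj t).toMonoidHom =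
          Subgroup.centralizer ({x i} : Set G) := by
        show _ = Subgroup.centralizer ({(K i).out} : Set G)
        ext z
        rw [Subgroup.mem_map, Subgroup.mem_centralizer_singleton_iff]
        constructor
        · rintro ⟨w, hw, rfl⟩
          rw [Subgroup.mem_centralizer_singleton_iff] at hw
          show (MulAut.conj t) w * _ = _ * (MulAut.conj t) w
          rw [← ht]
          show (MulAut.conj t) w * (MulAut.conj t) y = (MulAut.conj t) y * (MulAut.conj t) w
          rw [← map_mul, ← map_mul, hw]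
        · intro hz
          refine ⟨(MulAut.conj t).symm z, ?_, (MulAut.conj t).apply_symm_apply z⟩
          rw [Subgroup.mem_centralizer_singleton_iff]
          apply (MulAut.conj t).injective
          simp only [map_mul, MulEquiv.apply_symm_apply, MulAut.conj_apply, ht]
          exact hz
      rw [← h]
      exact Subgroup.card_map_of_injective (MulAut.conj t).injective
    refine ⟨hord ▸ hreg, fun u hu => ?_, ?_⟩
    · have hu' : t⁻¹ * u * t⁻¹⁻¹ ∈ D := (inferInstance : D.Normal).conj_mem u hu t⁻¹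
      rw [← hQ] at hu'
      obtain ⟨w, -, hw⟩ := hu'
      have hw' := Subgroup.mem_centralizer_singleton_iff.1 w.2
      rw [Subgroup.mem_centralizer_singleton_iff]
      show u * (K i).out = (K i).out * u
      rw [← ht, show u = t * (w : G) * t⁻¹ by rw [show ((w : G)) = _ from hw]; group]
      calc t * (w : G) * t⁻¹ * (t * y * t⁻¹) = t * ((w : G) * y) * t⁻¹ := by group
        _ = t * (y * (w : G)) * t⁻¹ := by rw [hw']
        _ = t * y * t⁻¹ * (t * (w : G) * t⁻¹) := by group
    · have h1 : Nat.card D = Nat.card (Q : Subgroup (Subgroup.centralizer ({y} : Set G))) := by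
        rw [← hQ]
        exact Subgroup.card_map_of_injective (Subgroup.subtype_injective _)
      rw [hcard]
      rw [hDcard, Q.card_eq_multiplicity] at h1
      exact (Nat.pow_right_injective hp.two_le h1).symm
  have hrange : ∀ g : G, ¬ p ∣ orderOf g → D ≤ Subgroup.centralizer ({g} : Set G) →
      (Nat.card (Subgroup.centralizer ({g} : Set G))).factorization p = d →
      ∃ i, K i = ConjClasses.mk g := by
    intro g hreg hle hf
    refine (hK (ConjClasses.mk g)).2 ⟨g, ConjClasses.mem_carrier_mk, hreg,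
      Sylow.ofCard (D.subgroupOf (Subgroup.centralizer ({g} : Set G))) ?_, ?_⟩
    · rw [Nat.card_congr (Subgroup.subgroupOfEquivOfLe hle).toEquiv, hDcard, hf]
    · exact Subgroup.map_subgroupOf_eq_of_le hle
  have hidx : ∀ g : G, (Nat.card (Subgroup.centralizer ({g} : Set G))).factorization p = d →
      (Subgroup.centralizer ({g} : Set G)).index.factorization p = a - d := fun g hg => by
    rw [ha, ← (Subgroup.centralizer ({g} : Set G)).card_mul_index, Nat.factorization_mul
      Nat.card_pos.ne' Subgroup.index_ne_zero_of_finite, Finsupp.add_apply, hg]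
    omega
  have hinvprop : ∀ i, (Nat.card (Subgroup.centralizer ({(x i)⁻¹} : Set G))).factorization p = d :=
    fun i => by rw [centralizer_inv_singleton]; exact (hx i).2.2
  -- blocks seen by the classes
  let β := {B : Set (Cfsg.IrrCharacter G) // Cfsg.IsPBlock M B ∧ Cfsg.IsDefectGroup p M B D}
  haveI : Fintype β := Fintype.ofFinite _
  open CfsgLib.Blocks in
  have hDle : ∀ B : Set (Cfsg.IrrCharacter G), Cfsg.IsPBlock M B → ∀ D', Cfsg.IsDefectGroup p M B D' → D ≤ D' :=
    fun B hB D' hD' => (isBlockIdem_topEl hB).normal_le_defectGroup hD le_top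
      (Subgroup.normalizer_eq_top_iff.mpr inferInstance).ge ((isDefectGroup_topEl_iff hB D').mp hD')
  open CfsgLib.Blocks in
  have hseen : ∀ (χ : Cfsg.IrrCharacter G) (g : G),
      (Nat.card (Subgroup.centralizer ({g} : Set G))).factorization p = d →
      ¬ Cfsg.MemLocalIdeal M (Cfsg.centralChar (χ : G → ℂ) g) →
      Cfsg.IsDefectGroup p M (Cfsg.blockOf M (χ : G → ℂ)) D := by
    intro χ g hg hω
    have hB : Cfsg.IsPBlock M (Cfsg.blockOf M (χ : G → ℂ)) := ⟨χ, rfl⟩
    obtain ⟨D', hD'⟩ := HeightZero.exists_defectGroup hM hB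
    obtain ⟨t, ht⟩ := HeightZero.exists_conj_le_centralizer hM hB (self_mem_blockOf χ) hω hD'
    have hle : D' ≤ Subgroup.centralizer ({t * g * t⁻¹} : Set G) := fun u hu =>
      Subgroup.mem_centralizer_singleton_iff.2 (Subgroup.mem_centralizer_iff.1 ht u hu)
    have hc : Nat.card (Subgroup.centralizer ({t * g * t⁻¹} : Set G)) =
        Nat.card (Subgroup.centralizer ({g} : Set G)) := by
      refine Nat.card_congr ((MulAut.conj t⁻¹).toEquiv.subtypeEquiv fun z => ?_)
      simp only [Subgroup.mem_centralizer_singleton_iff, MulEquiv.toEquiv_eq_coe, EquivLike.coe_coe,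
        MulAut.conj_apply, inv_inv]
      constructor
      · intro h
        calc t⁻¹ * z * t * g = t⁻¹ * (z * (t * g * t⁻¹)) * t := by group
          _ = g * (t⁻¹ * z * t) := by rw [h]; group
      · intro h
        calc z * (t * g * t⁻¹) = t * (t⁻¹ * z * t * g) * t⁻¹ := by group
          _ = t * g * t⁻¹ * z := by rw [h]; group
    have h1 := Contrib.natCard_defectGroup hM hB hD'
    have h2 : Nat.card D' ∣ Nat.card (Subgroup.centralizer ({g} : Set G)) :=
      hc ▸ Subgroup.card_dvd_of_le hle
    have h3 : Nat.card D' ≤ Nat.card D := by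
      rw [h1] at h2
      rw [h1, hDcard, ← hg]
      exact Nat.pow_le_pow_right hp.pos ((hp.pow_dvd_iff_le_factorization Nat.card_pos.ne').1 h2)
    rwa [Subgroup.eq_of_le_of_card_ge (hDle _ hB D' hD') h3]
  open CfsgLib.Blocks in
  have hsupp : ∀ (B : β) (g : G), ¬ Cfsg.MemLocalIdeal M (Cfsg.blockCoeff B.1 g) →
      ∃ i, K i = ConjClasses.mk g := by
    intro B g hg
    have hreg : ¬ p ∣ orderOf g := fun h => hg (by
      rw [blockCoeff_eq_zero_of_singular hM B.2.1 h]; exact memLocalIdeal_zero)
    have hne : (topEl M B.1).coeff g ≠ 0 := by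
      rw [coeff_topEl, Ne, redC_eq_zero_iff (memLocalRing_blockCoeff B.2.1 g)]; exact hg
    have hmem : g ∈ Subgroup.centralizer (D : Set G) := by
      by_contra h
      exact hne ((isBlockIdem_topEl B.2.1).isSupportedOn_centralizer hD le_top
        (Subgroup.normalizer_eq_top_iff.mpr inferInstance).ge g h)
    have hle : D ≤ Subgroup.centralizer ({g} : Set G) := fun u hu =>
      Subgroup.mem_centralizer_singleton_iff.2 (Subgroup.mem_centralizer_iff.1 hmem u hu)
    refine hrange g hreg hle (le_antisymm ?_ ?_)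
    · obtain ⟨Q⟩ : Nonempty (Sylow p (Subgroup.centralizer ({g} : Set G))) := inferInstance
      obtain ⟨t, ht⟩ := HeightZero.exists_le_conj_of_coeff hM B.2.1 hg (Q.2.map _)
        (Subgroup.map_subtype_le _) B.2.2
      have h := Subgroup.card_le_of_le ht
      rw [Subgroup.card_map_of_injective (Subgroup.subtype_injective _), card_map_conj,
        Q.card_eq_multiplicity, hDcard] at h
      exact (Nat.pow_le_pow_iff_right hp.one_lt).1 h
    · exact (Nat.factorization_le_iff_dvd Nat.card_pos.ne' Nat.card_pos.ne').2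
        (Subgroup.card_dvd_of_le hle) p
  -- the residues
  open CfsgLib.Blocks in
  let w : Cfsg.IrrCharacter G → G → kres M := fun χ g => redC M (Cfsg.centralChar (χ : G → ℂ) g)
  open CfsgLib.Blocks in
  let e : Set (Cfsg.IrrCharacter G) → G → kres M := fun B g => redC M (Cfsg.blockCoeff B g)
  open CfsgLib.Blocks in
  have hclass : ∀ (φ : G → ℂ), Cfsg.IsClassFunction G φ → ∀ g g' : G, IsConj g g' →
      Cfsg.centralChar φ g = Cfsg.centralChar φ g' := by
    intro φ hφ g g' hc
    rw [centralChar_eq_omega hφ, centralChar_eq_omega hφ]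
    congr 1
    refine ga_ext fun z => ?_
    rw [coeff_classSum, coeff_classSum]
    have hiff : IsConj g z ↔ IsConj g' z := ⟨fun h => hc.symm.trans h, fun h => hc.trans h⟩
    by_cases h : IsConj g z
    · rw [if_pos h, if_pos (hiff.1 h)]
    · rw [if_neg h, if_neg fun h' => h (hiff.2 h')]
  open CfsgLib.Blocks in
  have hbc : ∀ (B : Set (Cfsg.IrrCharacter G)) (g g' : G), IsConj g g' →
      Cfsg.blockCoeff B g = Cfsg.blockCoeff B g' := fun B g g' h => by
    obtain ⟨c, hc⟩ := isConj_iff.1 h
    have := (isCentralElt_setIdem B) g c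
    rw [hc] at this
    simpa [setIdem] using this.symm
  open CfsgLib.Blocks in
  have hwB : ∀ (B : β) (χ : Cfsg.IrrCharacter G), χ ∈ B.1 → ∀ φ ∈ B.1, ∀ g, w χ g = w φ g :=
    fun B χ hχ φ hφ g => (redC_eq_redC_iff (memLocalRing_centralChar χ g) (memLocalRing_centralChar φ g)).2
      (sameBlock_of_mem B.2.1 hχ hφ g)
  open CfsgLib.Blocks in
  choose θ hθ using fun B : β => nonempty_of_isPBlock B.2.1
  open CfsgLib.Blocks in
  have horth : ∀ B B' : β, ∑ C : ConjClasses G, e B.1 C.out * w (θ B') C.out =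
      if B = B' then 1 else 0 := by
    intro B B'
    have hm : ∀ C : ConjClasses G, Cfsg.MemLocalRing M (Cfsg.blockCoeff B.1 C.out * Cfsg.centralChar (θ B' : G → ℂ) C.out) :=
      fun C => (localRing M).mul_mem (memLocalRing_blockCoeff B.2.1 _) (memLocalRing_centralChar _ _)
    have h1 : ∑ C : ConjClasses G, e B.1 C.out * w (θ B') C.out = redC M (omega (θ B' : G → ℂ) (setIdem B.1)) := by
      rw [omega_eq_sum_classes (isCentralElt_setIdem B.1) (CfsgLib.Chars.isClassFunction_coe _)]
      simp only [setIdem, coeff_ofFun]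
      rw [redC_sum _ _ fun C _ => hm C]
      exact Finset.sum_congr rfl fun C _ =>
        (redC_mul' (memLocalRing_blockCoeff B.2.1 _) (memLocalRing_centralChar _ _)).symm
    rw [h1, omega_setIdem]
    by_cases h : B = B'
    · subst h; rw [if_pos (hθ B), if_pos rfl, redC_one]
    · rw [if_neg fun hm' => h (Subtype.ext ((eq_blockOf_of_mem B.2.1 hm').trans
        (eq_blockOf_of_mem B'.2.1 (hθ B')).symm)), if_neg h, redC_zero]
  open CfsgLib.Blocks in
  have hsumK : ∀ F : ConjClasses G → kres M, (∀ C, F C ≠ 0 → ∃ i, K i = C) →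
      ∑ i, F (K i) = ∑ C, F C := by
    intro F hF
    refine Fintype.sum_of_injective K hKinj _ _ (fun C hC => ?_) fun i => rfl
    by_contra h
    exact hC (hF C h)
  open CfsgLib.Blocks in
  have hne_e : ∀ (B : β) (g : G) (χ : Cfsg.IrrCharacter G), e B.1 g * w χ g ≠ 0 →
      ∃ i, K i = ConjClasses.mk g := fun B g χ h => hsupp B g fun hm => h (by
    show redC M _ * _ = 0
    rw [(redC_eq_zero_iff (memLocalRing_blockCoeff B.2.1 g)).2 hm, zero_mul])
  have hout : ∀ C : ConjClasses G, ConjClasses.mk C.out = C := fun C => Quotient.out_eq C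
  let inv : ConjClasses G → ConjClasses G := fun C => ConjClasses.mk C.out⁻¹
  have hinv : ∀ g : G, inv (ConjClasses.mk g) = ConjClasses.mk g⁻¹ := fun g =>
    ConjClasses.mk_eq_mk_iff_isConj.2 (isConj_inv' (ConjClasses.mk_eq_mk_iff_isConj.1 (hout _)))
  have hinv2 : Function.Involutive inv := fun C => by
    show inv (ConjClasses.mk C.out⁻¹) = C
    rw [hinv, inv_inv, hout]
  open CfsgLib.Blocks in
  have horth1 : ∀ B B' : β, ∑ i, e B.1 (x i) * w (θ B') (x i) = if B = B' then 1 else 0 := by
    intro B B'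
    rw [← horth B B', ← hsumK (fun C => e B.1 C.out * w (θ B') C.out) fun C hC => ?_]
    obtain ⟨i, hi⟩ := hne_e B C.out _ hC
    exact ⟨i, hi.trans (hout C)⟩
  open CfsgLib.Blocks in
  have horth2 : ∀ B B' : β, ∑ i, e B.1 (x i)⁻¹ * w (θ B') (x i)⁻¹ = if B = B' then 1 else 0 := by
    intro B B'
    rw [← horth B B', ← Equiv.sum_comp hinv2.toPerm]
    have hcl : ∀ C : ConjClasses G, e B.1 (inv C).out * w (θ B') (inv C).out =
        e B.1 C.out⁻¹ * w (θ B') C.out⁻¹ := fun C => by
      have h : IsConj (inv C).out C.out⁻¹ := ConjClasses.mk_eq_mk_iff_isConj.1 (hout _)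
      simp only [e, w]
      rw [hbc _ _ _ h, hclass _ (CfsgLib.Chars.isClassFunction_coe _) _ _ h]
    show ∑ i, _ = ∑ C, e B.1 (inv C).out * w (θ B') (inv C).out
    simp only [hcl]
    rw [← hsumK (fun C => e B.1 C.out⁻¹ * w (θ B') C.out⁻¹) fun C hC => ?_]
    obtain ⟨i, hi⟩ := hne_e B C.out⁻¹ _ hC
    obtain ⟨t, ht⟩ := isConj_iff.1 (ConjClasses.mk_eq_mk_iff_isConj.1 ((hout (K i)).trans hi))
    obtain ⟨h1, h2, h3⟩ := hx i
    have hreg : ¬ p ∣ orderOf C.out := by
      rwa [← orderOf_inv, ← ht, show orderOf (t * (K i).out * t⁻¹) = orderOf (K i).out from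
        orderOf_injective (MulAut.conj t).toMonoidHom (MulAut.conj t).injective _]
    have hcen : Subgroup.centralizer ({C.out} : Set G) =
        (Subgroup.centralizer ({x i} : Set G)).map (MulAut.conj t).toMonoidHom := by
      rw [← centralizer_inv_singleton, ← ht]
      ext z
      rw [Subgroup.mem_map, Subgroup.mem_centralizer_singleton_iff]
      constructor
      · intro hz
        refine ⟨t⁻¹ * z * t, ?_, by simp [mul_assoc]⟩
        rw [Subgroup.mem_centralizer_singleton_iff]
        show t⁻¹ * z * t * (K i).out = (K i).out * (t⁻¹ * z * t)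
        calc t⁻¹ * z * t * (K i).out = t⁻¹ * (z * (t * (K i).out * t⁻¹)) * t := by group
          _ = (K i).out * (t⁻¹ * z * t) := by rw [hz]; group
      · rintro ⟨w', hw', rfl⟩
        rw [Subgroup.mem_centralizer_singleton_iff] at hw'
        show t * w' * t⁻¹ * (t * (K i).out * t⁻¹) = t * (K i).out * t⁻¹ * (t * w' * t⁻¹)
        calc t * w' * t⁻¹ * (t * (K i).out * t⁻¹) = t * (w' * x i) * t⁻¹ := by
              show _ = t * (w' * (K i).out) * t⁻¹; group
          _ = t * (x i * w') * t⁻¹ := by rw [hw']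
          _ = t * (K i).out * t⁻¹ * (t * w' * t⁻¹) := by
              show t * ((K i).out * w') * t⁻¹ = _; group
    obtain ⟨j, hj⟩ := hrange C.out hreg (fun u hu => by
      rw [hcen]
      exact ⟨t⁻¹ * u * t⁻¹⁻¹, h2 ((inferInstance : D.Normal).conj_mem u hu t⁻¹), by simp [mul_assoc]⟩)
      (by rw [hcen, card_map_conj]; exact h3)
    exact ⟨j, hj.trans (hout C)⟩
  -- counting
  open CfsgLib.Blocks in
  choose k hk using fun χ : Cfsg.IrrCharacter G => exists_sum_subgroup_eq χ (S : Subgroup G)
  let N : ι → ι → ℕ := fun i j => Nat.card {yz : G × G // yz.1 ∈ (K i).carrier ∧ yz.2 ∈ (K j).carrier ∧ yz.2 * yz.1⁻¹ ∈ (S : Subgroup G)}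
  let nC : G → ℕ := fun g => (Subgroup.centralizer ({g} : Set G)).index
  have hind : ∀ (j : ι) (z : G), (if IsConj (x j) z then (1 : ℂ) else 0) =
      (nC (x j) : ℂ) / Nat.card G * ∑ χ : Cfsg.IrrCharacter G, (χ : G → ℂ) (x j) * (χ : G → ℂ) z⁻¹ := by
    intro j z
    rw [CfsgLib.Chars.sum_irr_mul_map_inv]
    split_ifs
    · rw [← (Subgroup.centralizer ({x j} : Set G)).card_mul_index, Nat.cast_mul]
      field_simp [Nat.cast_ne_zero.2 (Subgroup.index_ne_zero_of_finite :
        (Subgroup.centralizer ({x j} : Set G)).index ≠ 0), Nat.cast_ne_zero.2 (Nat.card_pos :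
          0 < Nat.card (Subgroup.centralizer ({x j} : Set G))).ne']
      simp [nC]
    · rw [mul_zero]
  have hkey : ∀ (χ : Cfsg.IrrCharacter G) (i : ι) (s : G),
      ∑ y : G, (if IsConj (x i) y then (χ : G → ℂ) (y⁻¹ * s) else 0) =
        Cfsg.centralChar (χ : G → ℂ) (x i)⁻¹ * (χ : G → ℂ) s := by
    intro χ i s
    open CfsgLib.Blocks in
    have h := omega_mul χ.2 (isCentralElt_classSum (x i)⁻¹) (MonoidAlgebra.single s (1 : ℂ))
    rw [← CfsgLib.Blocks.centralChar_eq_omega (CfsgLib.Chars.isClassFunction_coe χ)] at h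
    have h2 : CfsgLib.Blocks.omega (χ : G → ℂ) (CfsgLib.Blocks.classSum (x i)⁻¹ * MonoidAlgebra.single s (1 : ℂ)) =
        (∑ y : G, (if IsConj (x i) y then (χ : G → ℂ) (y⁻¹ * s) else 0)) / (χ : G → ℂ) 1 := by
      rw [CfsgLib.Blocks.omega_apply, Finset.sum_div]
      refine (Fintype.sum_equiv ((Equiv.inv G).trans (Equiv.mulRight s)) _ _ fun y => ?_).symm
      simp only [Equiv.trans_apply, Equiv.inv_apply, Equiv.coe_mulRight,
        MonoidAlgebra.coeff_mul_single_apply, mul_inv_cancel_right, mul_one,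
        CfsgLib.Blocks.coeff_classSum]
      by_cases hy : IsConj (x i) y
      · rw [if_pos hy, if_pos (isConj_inv' hy), one_mul]
      · rw [if_neg hy, if_neg fun h' => hy (by simpa using isConj_inv' h'), zero_mul]
    have h3 : CfsgLib.Blocks.omega (χ : G → ℂ) (MonoidAlgebra.single s (1 : ℂ)) = (χ : G → ℂ) s / (χ : G → ℂ) 1 := by
      rw [CfsgLib.Blocks.omega_apply, Finset.sum_eq_single s]
      · simp
      · intro b _ hb; simp [hb.symm]
      · exact fun h => absurd (Finset.mem_univ _) h
    rw [h2, h3, mul_div_assoc'] at h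
    exact (div_left_inj' (CfsgLib.Chars.map_one_ne_zero χ)).1 h
  let ρ : Cfsg.IrrCharacter G → ι → ℂ := fun χ j =>
    (Nat.card (S : Subgroup G) * nC (x j) : ℕ) / ((Nat.card G * q : ℕ) : ℂ) *
      ((χ : G → ℂ) (x j) * (k χ : ℂ))
  have hNeq : ∀ i j, (N i j : ℂ) / (q : ℂ) =
      ∑ χ : Cfsg.IrrCharacter G, Cfsg.centralChar (χ : G → ℂ) (x i)⁻¹ * ρ χ j := by
    intro i j
    have h1 : (N i j : ℂ) = ∑ y : G, ∑ s : (S : Subgroup G),
        if IsConj (x i) y then (if IsConj (x j) ((s : G) * y) then (1 : ℂ) else 0) else 0 := by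
      have hmem : ∀ (l : ι) (g : G), g ∈ (K l).carrier ↔ IsConj (x l) g := fun l g => by
        rw [ConjClasses.mem_carrier_iff_mk_eq]
        constructor
        · intro h; exact ConjClasses.mk_eq_mk_iff_isConj.1 ((hout (K l)).trans h.symm)
        · intro h; exact (ConjClasses.mk_eq_mk_iff_isConj.2 h).symm.trans (hout (K l))
      let T := {ys : G × (S : Subgroup G) // IsConj (x i) ys.1 ∧ IsConj (x j) ((ys.2 : G) * ys.1)}
      have hT : N i j = Fintype.card T := by
        rw [← Nat.card_eq_fintype_card]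
        exact Nat.card_congr
          { toFun := fun v => ⟨(v.1.1, ⟨v.1.2 * v.1.1⁻¹, v.2.2.2⟩), (hmem i _).1 v.2.1,
              by simpa using (hmem j _).1 v.2.2.1⟩
            invFun := fun v => ⟨(v.1.1, (v.1.2 : G) * v.1.1), (hmem i _).2 v.2.1, (hmem j _).2 v.2.2,
              by simp⟩
            left_inv := fun v => Subtype.ext (Prod.ext rfl (by simp))
            right_inv := fun v => Subtype.ext (Prod.ext rfl (Subtype.ext (by simp))) }
      rw [hT, Fintype.card_subtype, ← Fintype.sum_prod_type']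
      rw [Finset.natCast_card_filter]
      refine Finset.sum_congr rfl fun v _ => ?_
      rw [← ite_and]
    rw [h1]
    simp only [hind]
    have h2 : ∑ y : G, ∑ s : (S : Subgroup G), (if IsConj (x i) y then
        (nC (x j) : ℂ) / Nat.card G * ∑ χ : Cfsg.IrrCharacter G,
          (χ : G → ℂ) (x j) * (χ : G → ℂ) ((s : G) * y)⁻¹ else 0) =
        ∑ χ : Cfsg.IrrCharacter G, (nC (x j) : ℂ) / Nat.card G * (χ : G → ℂ) (x j) *
          (Cfsg.centralChar (χ : G → ℂ) (x i)⁻¹ * ∑ s : (S : Subgroup G), (χ : G → ℂ) s) := by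
      have hR : ∀ χ : Cfsg.IrrCharacter G, (nC (x j) : ℂ) / Nat.card G * (χ : G → ℂ) (x j) *
          (Cfsg.centralChar (χ : G → ℂ) (x i)⁻¹ * ∑ s : (S : Subgroup G), (χ : G → ℂ) s) =
          ∑ y : G, ∑ s : (S : Subgroup G), if IsConj (x i) y then
            (nC (x j) : ℂ) / Nat.card G * ((χ : G → ℂ) (x j) * (χ : G → ℂ) ((s : G) * y)⁻¹) else 0 := by
        intro χ
        rw [Finset.sum_comm, ← Equiv.sum_comp (Equiv.inv (S : Subgroup G))
          (fun s : (S : Subgroup G) => (χ : G → ℂ) s), Finset.mul_sum, Finset.mul_sum]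
        refine Finset.sum_congr rfl fun s _ => ?_
        rw [← hkey, Finset.mul_sum]
        refine Finset.sum_congr rfl fun y _ => ?_
        simp only [Equiv.inv_apply, Subgroup.coe_inv]
        split_ifs
        · rw [mul_inv_rev]; ring
        · simp
      rw [Finset.sum_congr rfl fun χ _ => hR χ]
      symm
      rw [Finset.sum_comm]
      refine Finset.sum_congr rfl fun y _ => ?_
      rw [Finset.sum_comm]
      refine Finset.sum_congr rfl fun s _ => ?_
      split_ifs
      · rw [Finset.mul_sum]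
      · simp
    rw [h2, Finset.sum_div]
    refine Finset.sum_congr rfl fun χ _ => ?_
    simp only [ρ, hk χ]
    push_cast
    field_simp
  open CfsgLib.Blocks in
  have hρmem : ∀ χ j, Cfsg.MemLocalRing M (ρ χ j) := by
    intro χ j
    refine (localRing M).mul_mem (memLocalRing_natCast_div hM (mul_ne_zero Nat.card_pos.ne'
      Subgroup.index_ne_zero_of_finite) (mul_ne_zero Nat.card_pos.ne' hq0) ?_)
      ((localRing M).mul_mem (HeightZero.memLocalRing_apply (CfsgLib.Chars.isCharacter_coe χ) _)
        (natCast_mem (localRing M) _))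
    rw [Nat.factorization_mul Nat.card_pos.ne' hq0, Nat.factorization_mul Nat.card_pos.ne'
      Subgroup.index_ne_zero_of_finite, Finsupp.add_apply, Finsupp.add_apply, S.card_eq_multiplicity,
      hq, Nat.factorization_pow_self hp, Nat.factorization_pow_self hp, hidx _ (hx j).2.2]
  open CfsgLib.Blocks in
  have hNdvd : ∀ i j, q ∣ N i j ∧ ((N i j / q : ℕ) : kres M) =
      ∑ χ : Cfsg.IrrCharacter G, w χ (x i)⁻¹ * redC M (ρ χ j) := by
    intro i j
    have hloc : Cfsg.MemLocalRing M ((N i j : ℂ) / (q : ℂ)) := by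
      rw [hNeq]
      exact Subring.sum_mem (localRing M) fun χ _ =>
        (localRing M).mul_mem (memLocalRing_centralChar _ _) (hρmem χ j)
    obtain ⟨z, hz⟩ := Cfsg.Agent.S0968.int_of_local hM (a - d) (N i j : ℤ) (by
      simpa [hq] using hloc)
    have hdvd : q ∣ N i j := by
      have hz' : ((N i j : ℤ) : ℂ) = ((q : ℤ) * z : ℤ) := by
        have h1 : (q : ℂ) ≠ 0 := Nat.cast_ne_zero.2 hq0
        rw [hq] at h1 ⊢
        push_cast at hz h1 ⊢
        rw [← hz]; field_simp
      exact Int.natCast_dvd_natCast.1 ⟨z, by exact_mod_cast hz'⟩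
    refine ⟨hdvd, ?_⟩
    rw [← redC_natCast', Nat.cast_div hdvd (Nat.cast_ne_zero.2 hq0), hNeq,
      redC_sum _ _ fun χ _ => (localRing M).mul_mem (memLocalRing_centralChar _ _) (hρmem χ j)]
    exact Finset.sum_congr rfl fun χ _ => redC_mul' (memLocalRing_centralChar _ _) (hρmem χ j)
  -- the factorisation
  open CfsgLib.Blocks in
  let R : Matrix β ι (kres M) := fun B j => ∑ χ ∈ B.1.toFinite.toFinset, redC M (ρ χ j)
  open CfsgLib.Blocks in
  let c : β → kres M := fun B =>
    redC M (((∑ χ ∈ B.1.toFinite.toFinset, Cfsg.charDegree (χ : G → ℂ) ^ 2 : ℕ) : ℂ) /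
      ((Nat.card G * q : ℕ) : ℂ))
  open CfsgLib.Blocks in
  have hmin : ∀ B : β, HeightZero.minExp p B.1 = a - d := by
    intro B
    have h := Contrib.natCard_defectGroup hM B.2.1 B.2.2
    rw [hDcard] at h
    have h' := Nat.pow_right_injective hp.two_le h
    rw [HeightZero.blockDefect_eq, ← ha] at h'
    obtain ⟨χ, hχ⟩ := nonempty_of_isPBlock B.2.1
    have := HeightZero.minExp_le_card (p := p) hχ
    omega
  open CfsgLib.Blocks in
  have hc : ∀ B : β, c B ≠ 0 := by
    intro B
    obtain ⟨h1, h2⟩ := factorization_sum_degree_sq hM B.2.1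
    show redC M _ ≠ 0
    rw [Ne, redC_eq_zero_iff (memLocalRing_natCast_div hM h1 (mul_ne_zero Nat.card_pos.ne' hq0) (by
      rw [h2, hmin, Nat.factorization_mul Nat.card_pos.ne' hq0, Finsupp.add_apply, hq,
        Nat.factorization_pow_self hp]))]
    refine HeightZero.not_memLocalIdeal_natCast_div hM h1 (mul_ne_zero Nat.card_pos.ne' hq0) ?_
    rw [h2, hmin, Nat.factorization_mul Nat.card_pos.ne' hq0, Finsupp.add_apply, hq,
      Nat.factorization_pow_self hp]
  open CfsgLib.Blocks in
  have hRc : ∀ (B : β) j, R B j = c B * w (θ B) (x j) := by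
    intro B j
    set T := B.1.toFinite.toFinset with hT
    have hmemT : ∀ χ ∈ T, χ ∈ B.1 := fun χ h => B.1.toFinite.mem_toFinset.1 h
    let cχ : Cfsg.IrrCharacter G → ℂ := fun χ =>
      ((Nat.card (S : Subgroup G) * (Cfsg.charDegree (χ : G → ℂ) * k χ) : ℕ) : ℂ) /
        ((Nat.card G * q : ℕ) : ℂ)
    have hcmem : ∀ χ ∈ T, Cfsg.MemLocalRing M (cχ χ) := by
      intro χ hχ
      by_cases hk0 : k χ = 0
      · simp [cχ, hk0, (localRing M).zero_mem]
        exact (localRing M).zero_mem
      refine memLocalRing_natCast_div hM (mul_ne_zero Nat.card_pos.ne' (mul_ne_zero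
        (CfsgLib.Chars.charDegree_pos χ).ne' hk0)) (mul_ne_zero Nat.card_pos.ne' hq0) ?_
      rw [Nat.factorization_mul Nat.card_pos.ne' hq0, Nat.factorization_mul Nat.card_pos.ne'
        (mul_ne_zero (CfsgLib.Chars.charDegree_pos χ).ne' hk0), Nat.factorization_mul
        (CfsgLib.Chars.charDegree_pos χ).ne' hk0, Finsupp.add_apply, Finsupp.add_apply,
        Finsupp.add_apply, S.card_eq_multiplicity, hq, Nat.factorization_pow_self hp,
        Nat.factorization_pow_self hp]
      have := HeightZero.minExp_le (p := p) (hmemT χ hχ)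
      rw [hmin] at this
      omega
    have h1 : ∀ χ ∈ T, redC M (ρ χ j) = redC M (cχ χ) * w χ (x j) := by
      intro χ hχ
      rw [← redC_mul' (hcmem χ hχ) (memLocalRing_centralChar _ _)]
      congr 1
      simp only [ρ, cχ, Cfsg.centralChar, nC]
      have := CfsgLib.Chars.map_one_ne_zero χ
      push_cast
      rw [CfsgLib.Chars.coe_charDegree]
      field_simp
    show ∑ χ ∈ T, redC M (ρ χ j) = _
    rw [Finset.sum_congr rfl fun χ hχ => (h1 χ hχ).trans
      (by rw [hwB B χ (hmemT χ hχ) (θ B) (hθ B)]), ← Finset.sum_mul, ← redC_sum _ _ hcmem]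
    congr 2
    simp only [cχ, ← Finset.sum_div]
    congr 1
    calc ∑ χ ∈ T, ((Nat.card (S : Subgroup G) * (Cfsg.charDegree (χ : G → ℂ) * k χ) : ℕ) : ℂ)
        = ∑ u : (S : Subgroup G), ∑ χ ∈ T, (χ : G → ℂ) 1 * (χ : G → ℂ) u := by
          rw [Finset.sum_comm]
          refine Finset.sum_congr rfl fun χ _ => ?_
          rw [← Finset.mul_sum, hk χ]
          push_cast
          rw [CfsgLib.Chars.coe_charDegree]
          ring
      _ = _ := by
          rw [Finset.sum_eq_single (1 : (S : Subgroup G))]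
          · push_cast
            simp only [Subgroup.coe_one, CfsgLib.Chars.coe_charDegree, sq]
            exact Finset.sum_congr (by ext; simp [hT]) fun _ _ => rfl
          · intro u _ hu
            rw [hT, ← finsum_mem_eq_finite_toFinset_sum (fun ψ : Cfsg.IrrCharacter G => (ψ : G → ℂ) 1 * (ψ : G → ℂ) u) B.1.toFinite]
            refine finsum_block_one_mul_singular hM B.2.1 ?_
            obtain ⟨n, hn⟩ := IsPGroup.iff_orderOf.1 S.isPGroup' u
            rw [Subgroup.orderOf_coe, hn]
            refine dvd_pow_self p fun hn0 => hu ?_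
            rw [hn0, pow_zero] at hn
            exact orderOf_eq_one_iff.1 hn
          · exact fun h => absurd (Finset.mem_univ _) h
  open CfsgLib.Blocks in
  let W : Matrix ι β (kres M) := fun i B => w (θ B) (x i)⁻¹
  open CfsgLib.Blocks in
  have hA : ((Matrix.of fun i j : ι => ((N i j / q : ℕ) : ZMod p)).map
      (ZMod.castHom dvd_rfl (kres M))) = W * R := by
    refine Matrix.ext fun i j => ?_
    rw [Matrix.map_apply, Matrix.of_apply, map_natCast, (hNdvd i j).2, Matrix.mul_apply]
    simp only [W, R, Finset.mul_sum]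
    rw [Finset.sum_sigma' Finset.univ (fun B : β => B.1.toFinite.toFinset)
      (fun (B : β) χ => w (θ B) (x i)⁻¹ * redC M (ρ χ j))]
    refine (Finset.sum_of_injOn (fun v : (_ : β) × Cfsg.IrrCharacter G => v.2) ?_
      (fun v _ => Finset.mem_univ _) ?_ ?_).symm
    · rintro ⟨B, χ⟩ h ⟨B', χ'⟩ h' (rfl : χ = χ')
      simp only [Finset.coe_sigma, Set.mem_sigma_iff, Finset.coe_univ, Set.mem_univ, true_and,
        Finset.mem_coe, Set.Finite.mem_toFinset] at h h'
      obtain rfl : B = B' := Subtype.ext ((eq_blockOf_of_mem B.2.1 h).trans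
        (eq_blockOf_of_mem B'.2.1 h').symm)
      rfl
    · intro χ _ hχ
      by_cases hz : w χ (x i)⁻¹ = 0
      · rw [hz, zero_mul]
      · exfalso
        have hdg := hseen χ (x i)⁻¹ (hinvprop i) fun hm =>
          hz ((redC_eq_zero_iff (memLocalRing_centralChar _ _)).2 hm)
        exact hχ ⟨⟨⟨Cfsg.blockOf M (χ : G → ℂ), ⟨χ, rfl⟩, hdg⟩, χ⟩,
          Finset.mem_coe.2 (Finset.mem_sigma.2 ⟨Finset.mem_univ _,
            (Set.Finite.mem_toFinset _).2 (self_mem_blockOf χ)⟩), rfl⟩
    · rintro ⟨B, χ⟩ h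
      simp only [Finset.mem_sigma, Finset.mem_univ, true_and, Set.Finite.mem_toFinset] at h
      rw [hwB B χ h (θ B) (hθ B)]
  open CfsgLib.Blocks in
  have hLW : (Matrix.of fun (B : β) i => e B.1 (x i)⁻¹) * W = 1 := by
    refine Matrix.ext fun B B' => ?_
    rw [Matrix.mul_apply, Matrix.one_apply]
    exact horth2 B B'
  open CfsgLib.Blocks in
  have hRL : R * (Matrix.of fun j (B : β) => e B.1 (x j)) = Matrix.diagonal c := by
    refine Matrix.ext fun B B' => ?_
    rw [Matrix.mul_apply]
    simp only [hRc, Matrix.of_apply, mul_assoc, ← Finset.mul_sum, mul_comm (w (θ B) _)]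
    rw [horth1 B' B, Matrix.diagonal_apply]
    by_cases h : B = B'
    · subst h; simp
    · simp [h, Ne.symm h]
  show Nat.card β = _
  rw [Nat.card_eq_fintype_card, ← rank_eq_card_of_factor _ W R _ _ c hc hA hLW hRL,
    rank_map_field]

end Cfsg.Agent.S4443
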