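import Cfsg.Statements.S4444
import Cfsg.Agent.Eq.Def_Characters
import Cfsg.Agent.Glauberman.Sub
open scoped CfsgLib.Glauberman

set_option autoImplicit false
open Cfsg

namespace Cfsg.Agent.S4444

/-- The Glauberman correspondence for a p-group of operators. Inside a finite group Γ let S normalise G with the orders of G and S coprime, S a p-group, and let C = G ⊓ C(S) be the fixed points. Call an irreducible character χ of G S-invariant when χ(s g s⁻¹) = χ(g) for s ∈ S, g ∈ G. Then: (i) for every S-invariant χ there is exactly one irreducible character β of C whose multiplicity [χ_C, β] in the restriction of χ is not divisible by p; (ii) that multiplicity is ≡ 1 or ≡ −1 (mod p); (iii) distinct S-invariant χ give distinct β; (iv) every irreducible character of C arises in this way. So χ ↦ β is a bijection from the S-invariant irreducible characters of G onto the irreducible characters of C. -/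
theorem result {Γ : Type*} [Group Γ] [Fintype Γ] (G S : Subgroup Γ) [Fintype G] (hnorm : ∀ s ∈ S, ∀ g ∈ G, s * g * s⁻¹ ∈ G) (hcop : (Nat.card G).Coprime (Nat.card S)) (p : ℕ) (hp : p.Prime) (hS : IsPGroup p S) (C : Subgroup Γ) [Fintype C] (hC : C = G ⊓ Subgroup.centralizer (S : Set Γ)) (hCG : C ≤ G) : (∀ χ : Cfsg.IrrCharacter G, (∀ s ∈ S, ∀ g g' : G, (g' : Γ) = s * g * s⁻¹ → (χ : G → ℂ) g' = (χ : G → ℂ) g) → ∃! β : Cfsg.IrrCharacter C, ∃ m : ℕ, Cfsg.classInner (fun c : C => (χ : G → ℂ) ⟨c, hCG c.2⟩) (β : C → ℂ) = (m : ℂ) ∧ ¬ p ∣ m) ∧ (∀ χ : Cfsg.IrrCharacter G, (∀ s ∈ S, ∀ g g' : G, (g' : Γ) = s * g * s⁻¹ → (χ : G → ℂ) g' = (χ : G → ℂ) g) → ∀ β : Cfsg.IrrCharacter C, ∀ m : ℕ, Cfsg.classInner (fun c : C => (χ : G → ℂ) ⟨c, hCG c.2⟩) (β : C → ℂ) = (m : ℂ) → ¬ p ∣ m → ((m : ℤ) ≡ 1 [ZMOD p] ∨ (m : ℤ) ≡ -1 [ZMOD p])) ∧ (∀ χ χ' : Cfsg.IrrCharacter G, (∀ s ∈ S, ∀ g g' : G, (g' : Γ) = s * g * s⁻¹ → (χ :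 G → ℂ) g' = (χ : G → ℂ) g) → (∀ s ∈ S, ∀ g g' : G, (g' : Γ) = s * g * s⁻¹ → (χ' : G → ℂ) g' = (χ' : G → ℂ) g) → ∀ β : Cfsg.IrrCharacter C, ∀ m m' : ℕ, Cfsg.classInner (fun c : C => (χ : G → ℂ) ⟨c, hCG c.2⟩) (β : C → ℂ) = (m : ℂ) → ¬ p ∣ m → Cfsg.classInner (fun c : C => (χ' : G → ℂ) ⟨c, hCG c.2⟩) (β : C → ℂ) = (m' : ℂ) → ¬ p ∣ m' → χ = χ') ∧ (∀ β : Cfsg.IrrCharacter C, ∃ χ : Cfsg.IrrCharacter G, (∀ s ∈ S, ∀ g g' : G, (g' : Γ) = s * g * s⁻¹ → (χ : G → ℂ) g' = (χ : G → ℂ) g) ∧ ∃ m : ℕ, Cfsg.classInner (fun c : C => (χ : G → ℂ) ⟨c, hCG c.2⟩) (β : C → ℂ) = (m : ℂ) ∧ ¬ p ∣ m) := by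
  classical
  haveI := Fact.mk hp
  letI := CfsgLib.Glauberman.conjSubAction G S hnorm
  let e : C →* G := Subgroup.inclusion hCG
  by_cases hpG : p ∣ Nat.card G
  · -- then `S` is trivial and `C = G`
    have hS1 : S = ⊥ := by
      obtain ⟨k, hk⟩ := IsPGroup.iff_card.1 hS
      refine Subgroup.card_eq_one.1 ?_
      cases k with
      | zero => rw [hk, pow_zero]
      | succ k =>
        exfalso
        refine hp.not_dvd_one ?_
        rw [← Nat.coprime_iff_gcd_eq_one.1 hcop]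
        exact Nat.dvd_gcd hpG (hk ▸ dvd_pow_self p (Nat.succ_ne_zero k))
    subst hS1
    have hCeq : G ≤ C := by
      rw [hC]
      refine le_inf le_rfl fun g hg => Subgroup.mem_centralizer_iff.2 fun s hs => ?_
      rw [Subgroup.mem_bot.1 (SetLike.mem_coe.1 hs), one_mul, mul_one]
    let σ : C ≃* G := MulEquiv.subgroupCongr (le_antisymm hCG hCeq)
    have hmult : ∀ (χ : Cfsg.IrrCharacter G) (β : Cfsg.IrrCharacter C) (m : ℕ),
        Cfsg.classInner (fun c : C => (χ : G → ℂ) ⟨c, hCG c.2⟩) (β : C → ℂ) = (m : ℂ) →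
          m = if CfsgLib.Glauberman.irrEquiv σ χ = β then 1 else 0 := by
      intro χ β m h
      have h1 := (CfsgLib.Chars.classInner_irr (CfsgLib.Glauberman.irrEquiv σ χ) β).symm.trans h
      split_ifs at h1 ⊢ with hb
      · exact_mod_cast h1.symm
      · exact_mod_cast h1.symm
    have hself : ∀ χ : Cfsg.IrrCharacter G, Cfsg.classInner (fun c : C => (χ : G → ℂ) ⟨c, hCG c.2⟩)
        ((CfsgLib.Glauberman.irrEquiv σ χ : Cfsg.IrrCharacter C) : C → ℂ) = ((1 : ℕ) : ℂ) := fun χ => by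
      rw [Nat.cast_one]
      exact CfsgLib.Chars.classInner_self (CfsgLib.Glauberman.irrEquiv σ χ)
    have hone : ∀ (χ : Cfsg.IrrCharacter G) (β : Cfsg.IrrCharacter C) (m : ℕ), Cfsg.classInner (fun c : C => (χ : G → ℂ)
        ⟨c, hCG c.2⟩) (β : C → ℂ) = ((m : ℕ) : ℂ) → ¬ p ∣ m →
        CfsgLib.Glauberman.irrEquiv σ χ = β ∧ m = 1 := by
      intro χ β m h hm
      have h1 := hmult χ β m h
      by_cases hb : CfsgLib.Glauberman.irrEquiv σ χ = β
      · exact ⟨hb, by rw [h1, if_pos hb]⟩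
      · rw [if_neg hb] at h1
        exact absurd (h1 ▸ dvd_zero p) hm
    refine ⟨fun χ _ => ⟨_, ⟨1, hself χ, hp.not_dvd_one⟩, fun β ⟨m, hm, hm'⟩ =>
      (hone χ β m hm hm').1.symm⟩, fun χ _ β m hm hm' => Or.inl ?_,
      fun χ χ' _ _ β m m' hm hm1 hm' hm2 => ?_, fun β => ?_⟩
    · rw [(hone χ β m hm hm').2]
      rfl
    · exact (CfsgLib.Glauberman.irrEquiv σ).injective
        ((hone χ β m hm hm1).1.trans (hone χ' β m' hm' hm2).1.symm)
    · refine ⟨(CfsgLib.Glauberman.irrEquiv σ).symm β, fun s hs g g' hg => ?_,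
        1, ?_, hp.not_dvd_one⟩
      · rw [Subgroup.mem_bot.1 hs, one_mul, inv_one, mul_one] at hg
        rw [Subtype.ext hg]
      · have h := hself ((CfsgLib.Glauberman.irrEquiv σ).symm β)
        rwa [Equiv.apply_symm_apply] at h
  have hfix : ∀ g : G, g ∈ MulAction.fixedPoints S G ↔ ∃ c, e c = g := by
    intro g
    rw [CfsgLib.Glauberman.fixed_iff_mem hnorm]
    constructor
    · intro h
      exact ⟨⟨g.1, hC ▸ h⟩, rfl⟩
    · rintro ⟨c, rfl⟩
      exact hC ▸ c.2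
  obtain ⟨h1, h2, h3⟩ := CfsgLib.Glauberman.glauberman (p := p) hS hpG e
    (Subgroup.inclusion_injective hCG) hfix
  have hm : ∀ (χ : Cfsg.IrrCharacter G) (β : Cfsg.IrrCharacter C) (m : ℕ),
      Cfsg.classInner (fun c : C => (χ : G → ℂ) ⟨c, hCG c.2⟩) (β : C → ℂ) = (m : ℂ) →
        CfsgLib.Glauberman.mult e χ β = m := fun χ β m h =>
    CfsgLib.Glauberman.mult_eq_of_classInner_eq e χ β h
  refine ⟨fun χ hχ => ?_, fun χ hχ β m h hd => ?_, fun χ χ' hχ hχ' β m m' h hd h' hd' => ?_,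
    fun β => ?_⟩
  · obtain ⟨β, hb, hu, -⟩ := h1 χ ((CfsgLib.Glauberman.invariant_iff hnorm χ).1 hχ)
    exact ⟨β, ⟨_, CfsgLib.Glauberman.classInner_eq_mult e χ β, hb⟩,
      fun β' ⟨m, h, hd⟩ => hu β' (by rwa [hm χ β' m h])⟩
  · obtain ⟨β₀, -, hu, hmod⟩ := h1 χ ((CfsgLib.Glauberman.invariant_iff hnorm χ).1 hχ)
    have hβ := hu β (by rwa [hm χ β m h])
    rwa [← hβ, hm χ β m h] at hmod
  · exact h2 χ ((CfsgLib.Glauberman.invariant_iff hnorm χ).1 hχ) χ'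
      ((CfsgLib.Glauberman.invariant_iff hnorm χ').1 hχ') β (by rwa [hm χ β m h])
      (by rwa [hm χ' β m' h'])
  · obtain ⟨χ, hχ, hb⟩ := h3 β
    exact ⟨χ, (CfsgLib.Glauberman.invariant_iff hnorm χ).2 hχ, _,
      CfsgLib.Glauberman.classInner_eq_mult e χ β, hb⟩

end Cfsg.Agent.S4444
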