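import Cfsg.Statements.S4445
import Cfsg.Agent.Eq.Def_Characters
import Cfsg.Agent.Glauberman.Sub
open scoped CfsgLib.Glauberman

set_option autoImplicit false
open Cfsg

namespace Cfsg.Agent.S4445

/-- Inside a finite group Γ let the solvable subgroup S normalise G with the orders of G and S coprime. Then the number of S-invariant irreducible characters of G (χ(s g s⁻¹) = χ(g) for all s ∈ S, g ∈ G) equals the number of conjugacy classes of G mapped to themselves by conjugation by every element of S. -/
theorem result {Γ : Type*} [Group Γ] [Fintype Γ] (G S : Subgroup Γ) [Fintype G] (hnorm : ∀ s ∈ S, ∀ g ∈ G, s * g * s⁻¹ ∈ G) (hcop : (Nat.card G).Coprime (Nat.card S)) (hsolv : Group.IsSolvable S) : Nat.card {χ : Cfsg.IrrCharacter G // (∀ s ∈ S, ∀ g g' : G, (g' : Γ) = s * g * s⁻¹ → (χ : G → ℂ) g' = (χ : G → ℂ) g)} = Nat.card {K : ConjClasses G // ∀ s ∈ S, ∀ g g' : G, (g' : Γ) = s * g * s⁻¹ → ConjClasses.mk g = K → ConjClasses.mk g' = K} := by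
  letI := CfsgLib.Glauberman.conjSubAction G S hnorm
  haveI := hsolv
  have h := CfsgLib.Glauberman.card_fixed_irr_eq_card_fixed_classes (S := S) (G := G) hcop
  refine Eq.trans ?_ (h.trans ?_)
  · exact Nat.card_congr (Equiv.subtypeEquivRight fun χ =>
      CfsgLib.Glauberman.invariant_iff hnorm χ)
  · exact (Nat.card_congr (Equiv.subtypeEquivRight fun K =>
      CfsgLib.Glauberman.class_invariant_iff hnorm K)).symm

end Cfsg.Agent.S4445
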