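import Cfsg.Statements.S4446
import Cfsg.Agent.Glauberman.Cyclic
import Cfsg.Agent.Coprime.Glauberman

set_option autoImplicit false
open Cfsg

namespace Cfsg.Agent.S4446

/-- Let the finite group Γ be generated by a normal subgroup G and a cyclic subgroup S of coprime orders, C = G ⊓ C(S), and let χ be an S-invariant irreducible character of G with canonical extension χ̂ to Γ (the extension whose determinantal order is coprime to the order of S). Then there are exactly one irreducible character β of C and one sign ε such that χ̂(c s) = ε β(c) for every c ∈ C and every generator s of S; this β is a constituent of the restriction of χ to C; distinct S-invariant χ give distinct β; and every irreducible character of C arises in this way. -/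
theorem result {Γ : Type*} [Group Γ] [Fintype Γ] (G S : Subgroup Γ) [Fintype G] (hnorm : ∀ s ∈ S, ∀ g ∈ G, s * g * s⁻¹ ∈ G) (hcop : (Nat.card G).Coprime (Nat.card S)) (htop : G ⊔ S = ⊤) (hcyc : IsCyclic S) (C : Subgroup Γ) [Fintype C] (hC : C = G ⊓ Subgroup.centralizer (S : Set Γ)) (hCG : C ≤ G) : (∀ (χ : Cfsg.IrrCharacter G) (χh : Cfsg.IrrCharacter Γ), (∀ s ∈ S, ∀ g g' : G, (g' : Γ) = s * g * s⁻¹ → (χ : G → ℂ) g' = (χ : G → ℂ) g) → (∀ g : G, (χh : Γ → ℂ) g = (χ : G → ℂ) g) → (Cfsg.detOrder (χh : Γ → ℂ)).Coprime (Nat.card S) → (∃! βε : Cfsg.IrrCharacter C × ℤ, (βε.2 = 1 ∨ βε.2 = -1) ∧ ∀ c : C, ∀ s : Γ, Subgroup.zpowers s = S → (χh : Γ → ℂ) ((c : Γ) * s) = (βε.2 : ℂ) * (βε.1 : C → ℂ) c) ∧ ∀ β : Cfsg.IrrCharacter C, ∀ ε : ℤ, (ε = 1 ∨ ε = -1) → (∀ c : C, ∀ s : Γ, Subgroup.zpowers s = S → (χh : Γ → ℂ) ((c : Γ) * s) = (ε : ℂ) * (β : C → ℂ) c) → Cfsg.classInner (fun c : C => (χ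 : G → ℂ) ⟨c, hCG c.2⟩) (β : C → ℂ) ≠ 0) ∧ (∀ (χ χ' : Cfsg.IrrCharacter G) (χh χh' : Cfsg.IrrCharacter Γ), (∀ s ∈ S, ∀ g g' : G, (g' : Γ) = s * g * s⁻¹ → (χ : G → ℂ) g' = (χ : G → ℂ) g) → (∀ s ∈ S, ∀ g g' : G, (g' : Γ) = s * g * s⁻¹ → (χ' : G → ℂ) g' = (χ' : G → ℂ) g) → (∀ g : G, (χh : Γ → ℂ) g = (χ : G → ℂ) g) → (∀ g : G, (χh' : Γ → ℂ) g = (χ' : G → ℂ) g) → (Cfsg.detOrder (χh : Γ → ℂ)).Coprime (Nat.card S) → (Cfsg.detOrder (χh' : Γ → ℂ)).Coprime (Nat.card S) → ∀ β : Cfsg.IrrCharacter C, ∀ ε ε' : ℤ, (ε = 1 ∨ ε = -1) → (ε' = 1 ∨ ε' = -1) → (∀ c : C, ∀ s : Γ, Subgroup.zpowers s = S → (χh : Γ → ℂ) ((c : Γ) * s) = (ε : ℂ) * (β : C → ℂ) c) → (∀ c : C, ∀ s : Γ, Subgroup.zpowers s = S → (χh' : Γ → ℂ) ((c : Γ) * s) = (ε' : ℂ) * (β : C → ℂ) c) → χ = χ') ∧ (∀ β : Cfsg.IrrCharacter C, ∃ (χ : Cfsg.IrrCharacter G) (χh : Cfsg.IrrCharacter Γ) (ε : ℤ), (∀ s ∈ S, ∀ g g' : G, (g' : Γ) = s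 * g * s⁻¹ → (χ : G → ℂ) g' = (χ : G → ℂ) g) ∧ (∀ g : G, (χh : Γ → ℂ) g = (χ : G → ℂ) g) ∧ (Cfsg.detOrder (χh : Γ → ℂ)).Coprime (Nat.card S) ∧ (ε = 1 ∨ ε = -1) ∧ ∀ c : C, ∀ s : Γ, Subgroup.zpowers s = S → (χh : Γ → ℂ) ((c : Γ) * s) = (ε : ℂ) * (β : C → ℂ) c) := by
  classical
  obtain ⟨s₀, hs₀⟩ := (Subgroup.isCyclic_iff_exists_zpowers_eq_top S).1 hcyc
  subst hs₀
  have hord : orderOf s₀ = Nat.card (Subgroup.zpowers s₀) := (Nat.card_zpowers s₀).symm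
  have hmem0 : s₀ ∈ Subgroup.zpowers s₀ := Subgroup.mem_zpowers s₀
  have hN : G.Normal := by
    have hle : G ⊔ Subgroup.zpowers s₀ ≤ Subgroup.normalizer (G : Set Γ) :=
      sup_le Subgroup.le_normalizer (CfsgLib.Coprime.le_normalizer_of_conj_mem hnorm)
    rw [htop] at hle
    exact ⟨fun n hn g => (Subgroup.mem_normalizer_iff.1 (hle (Subgroup.mem_top g)) n).1 hn⟩
  have h : CfsgLib.Glauberman.CyclicAction G C s₀ := by
    refine ⟨hN, htop, hord ▸ hcop, fun x => ?_⟩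
    rw [hC, Subgroup.mem_inf]
    refine and_congr_right fun _ => ⟨fun hx => (Subgroup.mem_centralizer_iff.1 hx s₀ hmem0).symm,
      fun hx => Subgroup.mem_centralizer_iff.2 ?_⟩
    rintro _ ⟨i, rfl⟩
    exact ((show Commute x s₀ from hx).zpow_right i).symm
  have hsame : ∀ {χ : IrrCharacter G} {χh : IrrCharacter Γ},
      (∀ g : G, (χh : Γ → ℂ) g = (χ : G → ℂ) g) →
      (detOrder (χh : Γ → ℂ)).Coprime (Nat.card (Subgroup.zpowers s₀)) →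
      ∀ (β : IrrCharacter C) (ε : ℤ),
      (∀ c : C, (χh : Γ → ℂ) ((c : Γ) * s₀) = (ε : ℂ) * (β : C → ℂ) c) →
      ∀ c : C, ∀ s : Γ, Subgroup.zpowers s = Subgroup.zpowers s₀ →
        (χh : Γ → ℂ) ((c : Γ) * s) = (ε : ℂ) * (β : C → ℂ) c := by
    intro χ χh hext hdet β ε hv c s hs
    rw [h.ext_apply_gen hext (hord ▸ hdet) hs c, hv c]
  refine ⟨fun χ χh _ hext hdet => ?_, fun χ χ' χh χh' _ _ hext hext' hdet hdet' β ε ε' hε hε' hv hv' =>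
    h.eq_of_sign_eq hext (hord ▸ hdet) hext' (hord ▸ hdet') β hε hε'
      (fun c => hv c s₀ rfl) (fun c => hv' c s₀ rfl), fun β => ?_⟩
  · obtain ⟨β, ε, hε, hval, hcons⟩ := h.exists_sign hext (hord ▸ hdet)
    have huniq : ∀ (β' : IrrCharacter C) (ε' : ℤ), (ε' = 1 ∨ ε' = -1) →
        (∀ c : C, (χh : Γ → ℂ) ((c : Γ) * s₀) = (ε' : ℂ) * (β' : C → ℂ) c) → β' = β ∧ ε' = ε := by
      intro β' ε' hε' hv
      have h1 : classInner ((ε' : ℂ) • (β' : C → ℂ)) (β : C → ℂ) =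
          classInner ((ε : ℂ) • (β : C → ℂ)) (β : C → ℂ) :=
        congrArg (fun f : C → ℂ => classInner f (β : C → ℂ))
          (funext fun c => (hv c).symm.trans (hval c))
      rw [CfsgLib.Chars.classInner_smul_left, CfsgLib.Chars.classInner_smul_left,
        CfsgLib.Chars.classInner_self, mul_one] at h1
      by_cases hb : β' = β
      · subst hb
        rw [CfsgLib.Chars.classInner_self, mul_one] at h1
        exact ⟨rfl, Int.cast_injective h1⟩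
      · rw [CfsgLib.Chars.classInner_of_ne hb, mul_zero] at h1
        rcases hε with rfl | rfl <;> simp at h1
    refine ⟨⟨(β, ε), ⟨hε, hsame hext hdet β ε hval⟩, ?_⟩, ?_⟩
    · rintro ⟨β', ε'⟩ ⟨hε', hv⟩
      obtain ⟨rfl, rfl⟩ := huniq β' ε' hε' fun c => hv c s₀ rfl
      rfl
    · intro β' ε' hε' hv
      obtain ⟨rfl, rfl⟩ := huniq β' ε' hε' fun c => hv c s₀ rfl
      rwa [show (fun c : C => (χ : G → ℂ) ⟨c, hCG c.2⟩) = fun c : C => (χh : Γ → ℂ) c from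
        funext fun c => (hext ⟨c, hCG c.2⟩).symm]
  · obtain ⟨χ, χh, ε, hext, hdet, hε, hv⟩ := h.exists_sign_of_irr β
    refine ⟨χ, χh, ε, fun s hs g g' hg => ?_, hext, hord ▸ hdet, hε,
      hsame hext (hord ▸ hdet) β ε hv⟩
    rw [← hext, ← hext, hg, CfsgLib.Chars.isClassFunction_coe χh]


end Cfsg.Agent.S4446
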