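import Cfsg.Statements.S4450
import Cfsg.Agent.Glauberman.Layers

set_option autoImplicit false
open Cfsg

namespace Cfsg.Agent.S4450

/-- Let N ≤ G be normal subgroups of the finite group Γ with the index of G in Γ coprime to the index of N in G, and Γ/G or G/N solvable. Then for every irreducible character ϑ of N invariant under conjugation by Γ, the induced character ϑ^G has an irreducible constituent invariant under conjugation by Γ. -/
theorem result {Γ : Type*} [Group Γ] [Fintype Γ] (G N : Subgroup Γ) [hG : G.Normal] [hN : N.Normal] [Fintype G] [Fintype N] (hNG : N ≤ G) (hcop : (G.index).Coprime (N.relIndex G)) (hsolv : Group.IsSolvable (Γ ⧸ G) ∨ Group.IsSolvable (G ⧸ N.subgroupOf G)) (θ : Cfsg.IrrCharacter N) (hinv : ∀ (x : Γ) (n : N), (θ : N → ℂ) ⟨x * n * x⁻¹, hN.conj_mem n n.2 x⟩ = (θ : N → ℂ) n) : ∃ χ : Cfsg.IrrCharacter G, Cfsg.classInner (fun n : N => (χ : G → ℂ) ⟨n, hNG n.2⟩) (θ : N → ℂ) ≠ 0 ∧ ∀ (x : Γ) (g : G), (χ : G → ℂ) ⟨x * g * x⁻¹, hG.conj_mem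 g g.2 x⟩ = (χ : G → ℂ) g := by
  classical
  rcases hsolv with h | h
  · haveI := h
    exact CfsgLib.Glauberman.exists_invariant_above_of_solvable_top G N hNG hcop θ hinv
  · haveI := h
    let mk : Γ →* Γ ⧸ N := QuotientGroup.mk' N
    haveI : (G.map mk).Normal := hG.map mk (QuotientGroup.mk'_surjective N)
    have hidx : (G.map mk).index = G.index :=
      Subgroup.index_map_eq G (QuotientGroup.mk'_surjective N)
        (by rw [QuotientGroup.ker_mk']; exact hNG)
    have hcard : Nat.card (G.map mk) = N.relIndex G := by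
      rw [← MonoidHom.restrict_range, ← Subgroup.index_ker, MonoidHom.ker_restrict,
        QuotientGroup.ker_mk']
      rfl
    obtain ⟨S₀, hS₀⟩ := Subgroup.exists_right_complement'_of_coprime (N := G.map mk)
      (by rw [hidx, hcard]; exact hcop.symm)
    let S : Subgroup Γ := S₀.comap mk
    have hNS : N.relIndex S = G.index := by
      have h1 : (⊥ : Subgroup (Γ ⧸ N)).comap mk = N := by
        rw [MonoidHom.comap_bot, QuotientGroup.ker_mk']
      conv_lhs => rw [← h1]
      rw [Subgroup.relIndex_comap,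
        Subgroup.map_comap_eq_self_of_surjective (QuotientGroup.mk'_surjective N),
        Subgroup.relIndex_bot_left, ← hS₀.symm.index_eq_card, hidx]
    obtain ⟨χ, hχ, hinvS⟩ := CfsgLib.Glauberman.exists_fixed_above S N
      (fun s _ n hn => hN.conj_mem n hn s) θ
      (fun s _ g g' hg => by
        rw [show g' = ⟨s * g * s⁻¹, hN.conj_mem g g.2 s⟩ from Subtype.ext hg]
        exact hinv s g)
      G (fun s _ g hg => hG.conj_mem g hg s) hNG (fun g _ n hn => hN.conj_mem n hn g)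
      (by rw [hNS]; exact hcop.symm) (fun {_} => h)
    refine ⟨χ, hχ, fun x g => ?_⟩
    obtain ⟨⟨⟨a, ha⟩, ⟨b, hb⟩⟩, hab⟩ := hS₀.2 (mk x)
    obtain ⟨g₁, hg₁, rfl⟩ := ha
    have hxs : g₁⁻¹ * x ∈ S := by
      show mk (g₁⁻¹ * x) ∈ S₀
      rw [map_mul, map_inv, show mk x = mk g₁ * b from hab.symm, inv_mul_cancel_left]
      exact hb
    set s : Γ := g₁⁻¹ * x with hs
    have hx : (⟨x * g * x⁻¹, hG.conj_mem g g.2 x⟩ : G) =
        ⟨g₁, hg₁⟩ * ⟨s * g * s⁻¹, hG.conj_mem g g.2 s⟩ * (⟨g₁, hg₁⟩ : G)⁻¹ :=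
      Subtype.ext (by
        show x * g.1 * x⁻¹ = g₁ * (s * g.1 * s⁻¹) * g₁⁻¹
        rw [hs]; group)
    rw [hx, CfsgLib.Chars.isClassFunction_coe χ _ (⟨g₁, hg₁⟩ : G)]
    exact hinvS s hxs g _ rfl


end Cfsg.Agent.S4450
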