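import Cfsg.Statements.S4451
import Cfsg.Agent.Glauberman.CyclicFixed
import Cfsg.Agent.Coprime.Glauberman

set_option autoImplicit false
open Cfsg

namespace Cfsg.Agent.S4451

/-- Let the finite group Γ be generated by a normal subgroup G and a cyclic subgroup S of coprime orders such that every non-identity element of S has the same centraliser C = G ⊓ C(S) in G. Let χ be an S-invariant irreducible character of G, χ̂ its canonical extension to Γ (determinantal order coprime to the order of S), and β the irreducible character of C with χ̂(c s) = ε₀ β(c) for c ∈ C and generators s of S (ε₀ = ±1). Then there are a sign ε = ±1, which may differ from ε₀, and a linear character μ of S with μ² = 1, such that: (a) χ̂(c x) = ε β(c) μ(x) for all c ∈ C and all x ∈ S other than 1; (b) the restriction of χ to C equals |S|·ϑ + ε β for some character ϑ of C or ϑ = 0; (c) |S| divides χ(1) − ε β(1). -/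
theorem result {Γ : Type*} [Group Γ] [Fintype Γ] (G S : Subgroup Γ) [Fintype G] (hnorm : ∀ s ∈ S, ∀ g ∈ G, s * g * s⁻¹ ∈ G) (hcop : (Nat.card G).Coprime (Nat.card S)) (htop : G ⊔ S = ⊤) (hcyc : IsCyclic S) (C : Subgroup Γ) [Fintype C] (hC : C = G ⊓ Subgroup.centralizer (S : Set Γ)) (hCG : C ≤ G) (hfpf : ∀ x ∈ S, x ≠ 1 → G ⊓ Subgroup.centralizer ({x} : Set Γ) = C) (χ : Cfsg.IrrCharacter G) (hinv : (∀ s ∈ S, ∀ g g' : G, (g' : Γ) = s * g * s⁻¹ → (χ : G → ℂ) g' = (χ : G → ℂ) g)) (χh : Cfsg.IrrCharacter Γ) (hext : (∀ g : G, (χh : Γ → ℂ) g = (χ : G → ℂ) g)) (hdet : (Cfsg.detOrder (χh : Γ → ℂ)).Coprime (Nat.card S)) (β : Cfsg.IrrCharacter C) (ε₀ : ℤ) (hε₀ : ε₀ = 1 ∨ ε₀ = -1) (hβ : ∀ c : C, ∀ s : Γ, Subgroup.zpowers s = S → (χh : Γ → ℂ) ((c : Γ) * s) = (ε₀ : ℂ) * (β : C → ℂ) c) : ∃ ε : ℤ, (ε = 1 ∨ ε = -1) ∧ (∃ μ : S → ℂ, Cfsg.IsCharacter S μ ∧ μ 1 = 1 ∧ (∀ x : S, μ x * μ x = 1) ∧ ∀ c : C, ∀ x : S, x ≠ 1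 → (χh : Γ → ℂ) ((c : Γ) * x) = (ε : ℂ) * (β : C → ℂ) c * μ x) ∧ (∃ ϑ : C → ℂ, Cfsg.IsCharacter C ϑ ∧ (fun c : C => (χ : G → ℂ) ⟨c, hCG c.2⟩) = fun c => (Nat.card S : ℂ) * ϑ c + (ε : ℂ) * (β : C → ℂ) c) ∧ (Nat.card S : ℤ) ∣ (Cfsg.charDegree (χ : G → ℂ) : ℤ) - ε * (Cfsg.charDegree (β : C → ℂ) : ℤ) := by
  classical
  obtain ⟨s₀, hs₀⟩ := (Subgroup.isCyclic_iff_exists_zpowers_eq_top S).1 hcyc
  subst hs₀
  have hord : orderOf s₀ = Nat.card (Subgroup.zpowers s₀) := (Nat.card_zpowers s₀).symm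
  have hmem0 : s₀ ∈ Subgroup.zpowers s₀ := Subgroup.mem_zpowers s₀
  have hN : G.Normal := by
    have hle : G ⊔ Subgroup.zpowers s₀ ≤ Subgroup.normalizer (G : Set Γ) :=
      sup_le Subgroup.le_normalizer (CfsgLib.Coprime.le_normalizer_of_conj_mem hnorm)
    rw [htop] at hle
    exact ⟨fun n hn g => (Subgroup.mem_normalizer_iff.1 (hle (Subgroup.mem_top g)) n).1 hn⟩
  have h : CfsgLib.Glauberman.CyclicAction G C s₀ := by
    refine ⟨hN, htop, hord ▸ hcop, fun x => ?_⟩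
    rw [hC, Subgroup.mem_inf]
    refine and_congr_right fun _ => ⟨fun hx => (Subgroup.mem_centralizer_iff.1 hx s₀ hmem0).symm,
      fun hx => Subgroup.mem_centralizer_iff.2 ?_⟩
    rintro _ ⟨i, rfl⟩
    exact ((show Commute x s₀ from hx).zpow_right i).symm
  set S := Subgroup.zpowers s₀ with hS
  let res : C → ℂ := fun c => (χ : G → ℂ) ⟨c, hCG c.2⟩
  have hres : ∀ c : C, res c = (χh : Γ → ℂ) c := fun c => (hext ⟨c, hCG c.2⟩).symm
  rcases subsingleton_or_nontrivial S with hsub | hnt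
  · have hs1 : s₀ = 1 := congrArg Subtype.val
      (Subsingleton.elim (⟨s₀, hmem0⟩ : S) 1)
    have hcard : Nat.card S = 1 := Nat.card_of_subsingleton (1 : S)
    have hval : ∀ c : C, res c = (ε₀ : ℂ) * (β : C → ℂ) c := fun c => by
      rw [hres, ← hβ c s₀ rfl, hs1, mul_one]
    refine ⟨ε₀, hε₀, ⟨fun _ => 1, CfsgLib.Chars.isCharacter_one, rfl, fun _ => by simp,
      fun c x hx => absurd (Subsingleton.elim x 1) hx⟩,
      ⟨0, CfsgLib.Chars.isCharacter_zero, funext fun c => by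
        show res c = _
        rw [hval c]; simp⟩, ?_⟩
    rw [hcard]; exact one_dvd _
  haveI := Fintype.ofFinite S
  letI : CommGroup S :=
    { (inferInstance : Group S) with mul_comm := fun a b => mul_comm' a b }
  have hcomm : ∀ (c : C) (t : S), (c : Γ) * (t : Γ) = (t : Γ) * c := by
    rintro c ⟨_, i, rfl⟩
    exact (show Commute (c : Γ) s₀ from h.commute c).zpow_right i
  let Ψ : C × S → ℂ := fun p => (χh : Γ → ℂ) ((p.1 : Γ) * p.2)
  let ν : C × S →* Γ :=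
    { toFun := fun p => (p.1 : Γ) * p.2
      map_one' := by simp
      map_mul' := fun a b => by
        simp only [Prod.fst_mul, Prod.snd_mul, Subgroup.coe_mul]
        calc (a.1 : Γ) * b.1 * ((a.2 : Γ) * b.2) = a.1 * ((b.1 : Γ) * a.2) * b.2 := by group
          _ = a.1 * ((a.2 : Γ) * b.1) * b.2 := by rw [hcomm b.1 a.2]
          _ = _ := by group }
  have hΨ : IsCharacter (C × S) Ψ :=
    CfsgLib.Chars.isCharacter_comp (CfsgLib.Chars.isCharacter_coe χh) ν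
  have hdet' : (detOrder (χh : Γ → ℂ)).Coprime (orderOf s₀) := hord ▸ hdet
  have hcl : ∀ t : S, IsClassFunction C fun c => Ψ (c, t) := fun t c x => by
    show (χh : Γ → ℂ) ((x : Γ) * c * (x : Γ)⁻¹ * t) = _
    rw [show (x : Γ) * c * (x : Γ)⁻¹ * t = (x : Γ) * ((c : Γ) * t) * (x : Γ)⁻¹ from ?_,
      CfsgLib.Chars.isClassFunction_coe χh]
    have h1 : (x : Γ)⁻¹ * t = t * (x : Γ)⁻¹ := hcomm x⁻¹ t
    simp only [mul_assoc, h1]
  have hnorm1 : ∀ t : S, t ≠ 1 →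
      classInner (fun c => Ψ (c, t)) (fun c => Ψ (c, t)) = 1 := by
    intro t ht
    refine (h.inner_translate' hext hdet' hext hdet' (x₀ := (t : Γ)) (fun y => ?_) ?_).trans
      (if_pos rfl)
    · rw [← hfpf t t.2 (fun h1 => ht (Subtype.ext h1)), Subgroup.mem_inf]
      refine and_congr_right fun _ => ?_
      rw [Subgroup.mem_centralizer_iff]
      exact ⟨fun hy => (hy t.1 rfl).symm, fun hy z hz => by
        rw [Set.mem_singleton_iff.1 hz]; exact hy.symm⟩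
    · exact hcop.coprime_dvd_right (Subgroup.orderOf_coe t ▸ orderOf_dvd_natCard t)
  obtain ⟨β', δ, l₀, ϑ, hδ, hϑ, hoff, hone⟩ :=
    CfsgLib.Glauberman.exists_sign_translates hΨ hcl hnorm1
  let t₀ : S := ⟨s₀, hmem0⟩
  have ht₀ : t₀ ≠ 1 := fun h1 => by
    have hs1 : s₀ = 1 := congrArg Subtype.val h1
    obtain ⟨x, hx⟩ := exists_ne (1 : S)
    obtain ⟨i, hi⟩ := x.2
    exact hx (Subtype.ext (by simp [← hi, hs1]))
  have hcoef : (ε₀ : ℂ) • (β : C → ℂ) = ((δ : ℂ) * ((l₀ t₀ : ℂˣ) : ℂ)) • (β' : C → ℂ) :=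
    funext fun c => (hβ c s₀ rfl).symm.trans (hoff c t₀ ht₀)
  have hββ : β' = β := by
    by_contra hne
    have h1 := congrArg (fun f : C → ℂ => classInner f (β : C → ℂ)) hcoef
    simp only [CfsgLib.Chars.classInner_smul_left, CfsgLib.Chars.classInner_self,
      CfsgLib.Chars.classInner_of_ne hne, mul_one, mul_zero] at h1
    rcases hε₀ with rfl | rfl <;> simp at h1
  subst hββ
  have hl : ((l₀ t₀ : ℂˣ) : ℂ) * ((l₀ t₀ : ℂˣ) : ℂ) = 1 := by
    have h1 := mul_right_cancel₀ (CfsgLib.Chars.map_one_ne_zero β') (congrFun hcoef 1)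
    have e1 : (ε₀ : ℂ) * (ε₀ : ℂ) = 1 := by rcases hε₀ with h2 | h2 <;> simp [h2]
    have e2 : (δ : ℂ) * (δ : ℂ) = 1 := by rcases hδ with h2 | h2 <;> simp [h2]
    linear_combination (-((ε₀ : ℂ)) - (δ : ℂ) * ((l₀ t₀ : ℂˣ) : ℂ)) * h1 + e1 -
      ((l₀ t₀ : ℂˣ) : ℂ) * ((l₀ t₀ : ℂˣ) : ℂ) * e2
  have hl2 : ∀ x : S, ((l₀ x : ℂˣ) : ℂ) * ((l₀ x : ℂˣ) : ℂ) = 1 := by
    intro x
    obtain ⟨i, hi⟩ := x.2
    have hx : x = t₀ ^ i := Subtype.ext (by rw [SubgroupClass.coe_zpow]; exact hi.symm)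
    rw [hx, map_zpow, ← Units.val_mul, ← mul_zpow,
      show l₀ t₀ * l₀ t₀ = 1 from Units.ext (by simpa using hl), one_zpow, Units.val_one]
  have hres' : res = fun c => (Nat.card S : ℂ) * ϑ c + (δ : ℂ) * (β' : C → ℂ) c := by
    rw [← hone]
    funext c
    show res c = (χh : Γ → ℂ) ((c : Γ) * ((1 : S) : Γ))
    rw [hres, OneMemClass.coe_one, mul_one]
  refine ⟨δ, hδ, ⟨fun x => ((l₀ x : ℂˣ) : ℂ),
    CfsgLib.Chars.isCharacter_coe (CfsgLib.Chars.linChar l₀), by simp, hl2,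
    fun c x hx => by
      rw [show (χh : Γ → ℂ) ((c : Γ) * x) = Ψ (c, x) from rfl, hoff c x hx]
      ring⟩, ⟨ϑ, hϑ, hres'⟩, ?_⟩
  obtain ⟨m, hm⟩ := CfsgLib.Chars.exists_natCast_map_one hϑ
  refine ⟨m, ?_⟩
  have h1 := congrFun hres' 1
  have h2 : res 1 = (χ : G → ℂ) 1 := rfl
  rw [h2, hm, ← CfsgLib.Chars.coe_charDegree, ← CfsgLib.Chars.coe_charDegree] at h1
  apply Int.cast_injective (α := ℂ)
  push_cast
  rw [h1]
  ring


end Cfsg.Agent.S4451
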