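import Cfsg.Statements.S4452
import Cfsg.Agent.Glauberman.CoprimeDegree

set_option autoImplicit false
open Cfsg

namespace Cfsg.Agent.S4452

/-- Let the finite group G be the product of a normal subgroup K and a solvable subgroup H of coprime orders, and let N = N_G(H). Then the number of irreducible characters of G of degree coprime to the order of H equals the number of irreducible characters of N of degree coprime to the order of H. (The two sets are in fact in a canonical bijection; only the equality of their sizes is stated here.) -/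
theorem result {G : Type*} [Group G] [Finite G] (K H : Subgroup G) [K.Normal] (hKH : K ⊔ H = ⊤) (hcop : (Nat.card K).Coprime (Nat.card H)) (hsolv : Group.IsSolvable H) : Nat.card {χ : Cfsg.IrrCharacter G // (Cfsg.charDegree (χ : G → ℂ)).Coprime (Nat.card H)} = Nat.card {η : Cfsg.IrrCharacter (Subgroup.normalizer (H : Set G)) // (Cfsg.charDegree (η : Subgroup.normalizer (H : Set G) → ℂ)).Coprime (Nat.card H)} := by
  classical
  haveI := hsolv
  set N : Subgroup G := Subgroup.normalizer (H : Set G) with hN
  have hHN : H ≤ N := Subgroup.le_normalizer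
  let e : H.subgroupOf N ≃* H := Subgroup.subgroupOfEquivOfLe hHN
  haveI : Group.IsSolvable (H.subgroupOf N) :=
    Group.isSolvable_of_isSolvable_injective (f := e.toMonoidHom) e.injective
  have hdisj := disjoint_iff.1 (Subgroup.disjoint_of_coprime_natCard hcop)
  have hcent : ∀ k ∈ K, k ∈ N → k ∈ Subgroup.centralizer (H : Set G) := by
    intro k hk hkN
    refine Subgroup.mem_centralizer_iff.2 fun h hh => ?_
    have h1 : h * k * h⁻¹ * k⁻¹ ∈ K ⊓ H :=
      ⟨K.mul_mem ((inferInstance : K.Normal).conj_mem k hk h) (K.inv_mem hk), by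
        rw [show h * k * h⁻¹ * k⁻¹ = h * (k * h⁻¹ * k⁻¹) by group]
        exact mul_mem hh ((Subgroup.mem_normalizer_iff.1 hkN h⁻¹).1 (H.inv_mem hh))⟩
    rw [hdisj, Subgroup.mem_bot] at h1
    rw [mul_inv_eq_one] at h1
    exact mul_inv_eq_iff_eq_mul.1 h1
  have htop : K.subgroupOf N ⊔ H.subgroupOf N = ⊤ := by
    refine eq_top_iff.2 fun n _ => ?_
    obtain ⟨k, hk, h, hh, hkh⟩ := Subgroup.mem_sup_of_normal_left.1
      (hKH ▸ Subgroup.mem_top (n : G) : (n : G) ∈ K ⊔ H)
    have hkN : k ∈ N := by
      rw [show k = n.1 * h⁻¹ by rw [← hkh, mul_inv_cancel_right]]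
      exact mul_mem n.2 (inv_mem (hHN hh))
    rw [show n = (⟨k, hkN⟩ : N) * ⟨h, hHN hh⟩ from Subtype.ext hkh.symm]
    exact Subgroup.mul_mem_sup hk hh
  have hcopN : (Nat.card (K.subgroupOf N)).Coprime (Nat.card (H.subgroupOf N)) := by
    rw [Nat.card_congr e.toEquiv]
    exact hcop.coprime_dvd_left
      (Subgroup.card_comap_dvd_of_injective K N.subtype N.subtype_injective)
  have hlin : Nat.card (H.subgroupOf N →* ℂˣ) = Nat.card (H →* ℂˣ) := Nat.card_congr
    { toFun := fun b => b.comp e.symm.toMonoidHom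
      invFun := fun b => b.comp e.toMonoidHom
      left_inv := fun b => MonoidHom.ext fun q => by simp
      right_inv := fun b => MonoidHom.ext fun q => by simp }
  rw [CfsgLib.Glauberman.card_coprime_degree K H hKH hcop, ← Nat.card_congr e.toEquiv,
    CfsgLib.Glauberman.card_coprime_degree (K.subgroupOf N) (H.subgroupOf N) htop hcopN, hlin]
  congr 1
  have hmem : ∀ x : N, x ∈ K.subgroupOf N ⊓
      Subgroup.centralizer ((H.subgroupOf N : Subgroup N) : Set N) ↔
      (x : G) ∈ K ⊓ Subgroup.centralizer (H : Set G) :=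
    fun x => ⟨fun h => ⟨h.1, hcent x.1 h.1 x.2⟩, fun h => ⟨h.1,
      Subgroup.mem_centralizer_iff.2 fun y hy => Subtype.ext
        (Subgroup.mem_centralizer_iff.1 h.2 y.1 hy)⟩⟩
  exact Nat.card_congr (CfsgLib.Glauberman.irrEquiv
    { toFun := fun x => ⟨x.1.1, (hmem x.1).1 x.2⟩
      invFun := fun x => ⟨⟨x.1, Subgroup.centralizer_le_normalizer _ x.2.2⟩,
        (hmem ⟨x.1, Subgroup.centralizer_le_normalizer _ x.2.2⟩).2 x.2⟩
      left_inv := fun _ => rfl
      right_inv := fun _ => rfl
      map_mul' := fun _ _ => rfl })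


end Cfsg.Agent.S4452
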