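import Cfsg.Statements.S4453
import Cfsg.Agent.OddSection.Main

set_option autoImplicit false
open Cfsg

namespace Cfsg.Agent.S4453

/-- Inside a finite group Γ let S normalise the solvable subgroup G of odd order with the orders of G and S coprime, let C = G ⊓ C(S), and let L ≤ K be S-invariant normal subgroups of G with K/L abelian, G = KC and H = LC (so C ≤ H ≤ G). Then for each S-invariant irreducible character χ of G there is exactly one S-invariant irreducible character ψ of H whose multiplicity in the restriction of χ to H is odd, and χ ↦ ψ is a bijection from the S-invariant irreducible characters of G onto those of H (distinct χ give distinct ψ, and every S-invariant ψ arises). -/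
theorem result {Γ : Type*} [Group Γ] [Fintype Γ] (G S : Subgroup Γ) [Fintype G] (hnorm : ∀ s ∈ S, ∀ g ∈ G, s * g * s⁻¹ ∈ G) (hcop : (Nat.card G).Coprime (Nat.card S)) (hGsolv : Group.IsSolvable G) (hodd : Odd (Nat.card G)) (C : Subgroup Γ) [Fintype C] (hC : C = G ⊓ Subgroup.centralizer (S : Set Γ)) (hCG : C ≤ G) (K L H : Subgroup Γ) [Fintype H] (hLK : L ≤ K) (hKG : K ≤ G) (hKn : ∀ g ∈ G, ∀ k ∈ K, g * k * g⁻¹ ∈ K) (hLn : ∀ g ∈ G, ∀ l ∈ L, g * l * g⁻¹ ∈ L) (hKS : ∀ s ∈ S, ∀ k ∈ K, s * k * s⁻¹ ∈ K) (hLS : ∀ s ∈ S, ∀ l ∈ L, s * l * s⁻¹ ∈ L) (hab : ∀ a ∈ K, ∀ b ∈ K, a * b * a⁻¹ * b⁻¹ ∈ L) (hGKC : K ⊔ C = G) (hH : H = L ⊔ C) (hHG : H ≤ G) : (∀ χ : Cfsg.IrrCharacter G, (∀ s ∈ S, ∀ g g' : G, (g' : Γ) = s * g * s⁻¹ → (χ : G → ℂ) g' = (χ : G → ℂ) g) → ∃! ψ : Cfsg.IrrCharacter H, (∀ s ∈ S, ∀ g g' : H, (g' : Γ) = s * g * s⁻¹ → (ψ : H → ℂ) g' = (ψ : H → ℂ) g) ∧ ∃ m : ℕ, Cfsg.classInner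 (fun h : H => (χ : G → ℂ) ⟨h, hHG h.2⟩) (ψ : H → ℂ) = (m : ℂ) ∧ Odd m) ∧ (∀ χ χ' : Cfsg.IrrCharacter G, (∀ s ∈ S, ∀ g g' : G, (g' : Γ) = s * g * s⁻¹ → (χ : G → ℂ) g' = (χ : G → ℂ) g) → (∀ s ∈ S, ∀ g g' : G, (g' : Γ) = s * g * s⁻¹ → (χ' : G → ℂ) g' = (χ' : G → ℂ) g) → ∀ ψ : Cfsg.IrrCharacter H, (∀ s ∈ S, ∀ g g' : H, (g' : Γ) = s * g * s⁻¹ → (ψ : H → ℂ) g' = (ψ : H → ℂ) g) → ∀ m m' : ℕ, Cfsg.classInner (fun h : H => (χ : G → ℂ) ⟨h, hHG h.2⟩) (ψ : H → ℂ) = (m : ℂ) → Odd m → Cfsg.classInner (fun h : H => (χ' : G → ℂ) ⟨h, hHG h.2⟩) (ψ : H → ℂ) = (m' : ℂ) → Odd m' → χ = χ') ∧ (∀ ψ : Cfsg.IrrCharacter H, (∀ s ∈ S, ∀ g g' : H, (g' : Γ) = s * g * s⁻¹ → (ψ : H → ℂ) g' = (ψ : H → ℂ) g) → ∃ χ : Cfsg.IrrCharacter G, (∀ s ∈ S, ∀ g g' : G, (g' : Γ) = s * g * s⁻¹ → (χ : G → ℂ) g' = (χ : G → ℂ) g) ∧ ∃ m : ℕ, Cfsg.classInner (fun h : H => (χ : G → ℂ) ⟨h, hHG h.2⟩) (ψ : H → ℂ) = (m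 : ℂ) ∧ Odd m) := by
  classical
  haveI : Fintype S := Fintype.ofFinite S
  let act : S →* MulAut G :=
    { toFun := fun s =>
        { toFun := fun g => ⟨(s : Γ) * g * (s : Γ)⁻¹, hnorm s s.2 g g.2⟩
          invFun := fun g => ⟨(s : Γ)⁻¹ * g * (s : Γ), by
            have h := hnorm (s : Γ)⁻¹ (inv_mem s.2) g g.2
            rwa [inv_inv] at h⟩
          left_inv := fun g => Subtype.ext (by
            show (s : Γ)⁻¹ * ((s : Γ) * g * (s : Γ)⁻¹) * s = g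
            group)
          right_inv := fun g => Subtype.ext (by
            show (s : Γ) * ((s : Γ)⁻¹ * g * s) * (s : Γ)⁻¹ = g
            group)
          map_mul' := fun x y => Subtype.ext (by
            show (s : Γ) * ((x : Γ) * y) * (s : Γ)⁻¹ =
              (s : Γ) * x * (s : Γ)⁻¹ * ((s : Γ) * y * (s : Γ)⁻¹)
            group) }
      map_one' := MulEquiv.ext fun g => Subtype.ext (by
        show ((1 : S) : Γ) * g * ((1 : S) : Γ)⁻¹ = g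
        simp)
      map_mul' := fun s t => MulEquiv.ext fun g => Subtype.ext (by
        show ((s * t : S) : Γ) * g * ((s * t : S) : Γ)⁻¹ =
          (s : Γ) * ((t : Γ) * g * (t : Γ)⁻¹) * (s : Γ)⁻¹
        rw [Subgroup.coe_mul]; group) }
  have hCmem : ∀ c : G, c ∈ C.subgroupOf G ↔ ∀ s : S, act s c = c := by
    intro c
    rw [Subgroup.mem_subgroupOf, hC, Subgroup.mem_inf, Subgroup.mem_centralizer_iff]
    constructor
    · intro h s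
      refine Subtype.ext ?_
      show (s : Γ) * c * (s : Γ)⁻¹ = c
      rw [h.2 s s.2, mul_inv_cancel_right]
    · intro h
      refine ⟨c.2, fun s hs => ?_⟩
      have h1 : s * (c : Γ) * s⁻¹ = c := congrArg Subtype.val (h ⟨s, hs⟩)
      exact mul_inv_eq_iff_eq_mul.1 h1
  have hKn' : (K.subgroupOf G).Normal := ⟨fun k hk g => hKn g g.2 k hk⟩
  have hLn' : (L.subgroupOf G).Normal := ⟨fun l hl g => hLn g g.2 l hl⟩
  have hLG : L ≤ G := hLK.trans hKG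
  have hH' : H.subgroupOf G = L.subgroupOf G ⊔ C.subgroupOf G := by
    rw [hH, Subgroup.subgroupOf_sup hLG hCG]
  have hcov : K.subgroupOf G ⊔ C.subgroupOf G = ⊤ := by
    rw [← Subgroup.subgroupOf_sup hKG hCG, hGKC, Subgroup.subgroupOf_self]
  haveI : Fintype (H.subgroupOf G) := Fintype.ofFinite _
  obtain ⟨c1, c2, c3⟩ := CfsgLib.OddSection.correspondence (act := act) (K := K.subgroupOf G)
    (L := L.subgroupOf G) (C := C.subgroupOf G) (H := H.subgroupOf G) hodd hcop.symm hGsolv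
    (fun x hx => hLK hx) hKn' hLn' (fun s k hk => hKS s s.2 k hk) (fun s l hl => hLS s s.2 l hl)
    (fun a ha b hb => hab a ha b hb) hcov hCmem hH'
  let e : H.subgroupOf G ≃* H := Subgroup.subgroupOfEquivOfLe hHG
  let up : Cfsg.IrrCharacter H → Cfsg.IrrCharacter (H.subgroupOf G) := CfsgLib.Glauberman.irrPull e
  let dn : Cfsg.IrrCharacter (H.subgroupOf G) → Cfsg.IrrCharacter H :=
    CfsgLib.Glauberman.irrPull e.symm
  have hud : ∀ ψ, up (dn ψ) = ψ := fun ψ => Subtype.ext (funext fun x => by simp [up, dn])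
  have hdu : ∀ ψ, dn (up ψ) = ψ := fun ψ => Subtype.ext (funext fun x => by simp [up, dn])
  have hmult : ∀ (χ : Cfsg.IrrCharacter G) (ψ : Cfsg.IrrCharacter H),
      Cfsg.classInner (fun h : H => (χ : G → ℂ) ⟨h, hHG h.2⟩) (ψ : H → ℂ) =
        (CfsgLib.Glauberman.mult (H.subgroupOf G).subtype χ (up ψ) : ℂ) := by
    intro χ ψ
    rw [← CfsgLib.Glauberman.classInner_eq_mult]
    simp only [Cfsg.classInner, up, CfsgLib.Glauberman.irrPull_apply, Nat.card_congr e.toEquiv]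
    congr 1
    exact (Fintype.sum_equiv e.toEquiv _ _ fun h => rfl).symm
  have hodd' : ∀ (χ : Cfsg.IrrCharacter G) (ψ : Cfsg.IrrCharacter H),
      (∃ m : ℕ, Cfsg.classInner (fun h : H => (χ : G → ℂ) ⟨h, hHG h.2⟩) (ψ : H → ℂ) = (m : ℂ) ∧
        Odd m) ↔ Odd (CfsgLib.Glauberman.mult (H.subgroupOf G).subtype χ (up ψ)) := by
    intro χ ψ
    constructor
    · rintro ⟨m, h1, h2⟩
      rw [hmult, Nat.cast_inj] at h1
      rwa [h1]
    · exact fun h => ⟨_, hmult χ ψ, h⟩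
  have hinvG : ∀ χ : Cfsg.IrrCharacter G,
      (∀ s ∈ S, ∀ g g' : G, (g' : Γ) = s * g * s⁻¹ → (χ : G → ℂ) g' = (χ : G → ℂ) g) ↔
      ∀ (s : S) g, (χ : G → ℂ) (act s g) = (χ : G → ℂ) g := fun χ =>
    ⟨fun h s g => h s s.2 g _ rfl, fun h s hs g g' hgg => by
      rw [show g' = act ⟨s, hs⟩ g from Subtype.ext hgg]; exact h _ g⟩
  have hinvH : ∀ ψ : Cfsg.IrrCharacter H,
      (∀ s ∈ S, ∀ g g' : H, (g' : Γ) = s * g * s⁻¹ → (ψ : H → ℂ) g' = (ψ : H → ℂ) g) ↔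
      ∀ s : S, CfsgLib.OddSection.Fixd (act s) (H.subgroupOf G) (up ψ : H.subgroupOf G → ℂ) :=
    fun ψ => ⟨fun h s n n' hn => h s s.2 _ _ (congrArg Subtype.val hn), fun h s hs g g' hgg => by
      have h1 := h ⟨s, hs⟩ (e.symm g) (e.symm g') (Subtype.ext hgg)
      simpa [up] using h1⟩
  refine ⟨fun χ hχ => ?_, fun χ χ' hχ hχ' ψ hψ m m' h1 h2 h3 h4 => ?_, fun ψ hψ => ?_⟩
  · obtain ⟨ψ, ⟨h1, h2⟩, h3⟩ := c1 χ ((hinvG χ).1 hχ)
    refine ⟨dn ψ, ⟨(hinvH _).2 (by rw [hud]; exact h1), (hodd' _ _).2 (by rw [hud]; exact h2)⟩,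
      fun ψ' h => ?_⟩
    rw [← hdu ψ', h3 (up ψ') ⟨(hinvH _).1 h.1, (hodd' _ _).1 h.2⟩]
  · exact c2 χ χ' ((hinvG χ).1 hχ) ((hinvG χ').1 hχ') (up ψ) ((hinvH ψ).1 hψ)
      ((hodd' χ ψ).1 ⟨m, h1, h2⟩) ((hodd' χ' ψ).1 ⟨m', h3, h4⟩)
  · obtain ⟨χ, h1, h2⟩ := c3 (up ψ) ((hinvH ψ).1 hψ)
    exact ⟨χ, (hinvG χ).2 h1, (hodd' χ ψ).2 h2⟩

end Cfsg.Agent.S4453
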