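import Cfsg.Statements.S4454
import Cfsg.Agent.Glauberman.CyclicFixed
import Cfsg.Agent.Chars.Induced.Covering

set_option autoImplicit false
open Cfsg

namespace Cfsg.Agent.S4454

/-- Let N ≤ G be normal subgroups of the finite group Γ with Γ/G cyclic and Γ/N a Frobenius group with kernel G/N: G ≠ Γ, N ≠ G, and no element of Γ outside G fixes a non-identity coset of N in G under conjugation. Let ϑ be an irreducible character of N invariant under conjugation by Γ and suppose ϑ is fully ramified in G: the character of G induced from ϑ equals e·χ for an irreducible character χ of G and a natural number e. Then the index of G in Γ divides e − 1 or e + 1. -/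
theorem result {Γ : Type*} [Group Γ] [Fintype Γ] (G N : Subgroup Γ) [hG : G.Normal] [hN : N.Normal] [Fintype G] [Fintype N] (hNG : N ≤ G) (hGlt : G ≠ ⊤) (hNlt : N ≠ G) (hcyc : IsCyclic (Γ ⧸ G)) (hfrob : ∀ x : Γ, x ∉ G → ∀ g : Γ, g ∈ G → x * g * x⁻¹ * g⁻¹ ∈ N → g ∈ N) (θ : Cfsg.IrrCharacter N) (hinv : ∀ (x : Γ) (n : N), (θ : N → ℂ) ⟨x * n * x⁻¹, hN.conj_mem n n.2 x⟩ = (θ : N → ℂ) n) (χ : Cfsg.IrrCharacter G) (e : ℕ) (hram : Cfsg.indFun (N.subgroupOf G) (fun n : N.subgroupOf G => (θ : N → ℂ) ⟨(n : G), n.2⟩) = fun g => (e : ℂ) * (χ : G → ℂ) g) : (G.index : ℤ) ∣ (e : ℤ) - 1 ∨ (G.index : ℤ) ∣ (e : ℤ) + 1 := by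
  classical
  have hsqG : ∀ {X : Type u_1} [Group X] [Fintype X] (ψ : IrrCharacter X),
      ∑ y : X, (ψ : X → ℂ) y * starRingEnd ℂ ((ψ : X → ℂ) y) = (Nat.card X : ℂ) := by
    intro X _ _ ψ
    have h1 := CfsgLib.Chars.classInner_self ψ
    rw [classInner, inv_mul_eq_one₀ (Nat.cast_ne_zero.2 Nat.card_pos.ne')] at h1
    exact h1.symm
  -- the character `θ` on the copy of `N` in `G`
  let N' : Subgroup G := N.subgroupOf G
  haveI := Fintype.ofFinite N'
  let eN : N' ≃* N := Subgroup.subgroupOfEquivOfLe hNG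
  let θ' : IrrCharacter N' := CfsgLib.Glauberman.irrPull eN θ
  set d := N'.index with hd
  have hind : ∀ g : G, (e : ℂ) * (χ : G → ℂ) g =
      if h : g ∈ N' then (d : ℂ) * (θ' : N' → ℂ) ⟨g, h⟩ else 0 := by
    intro g
    have h0 := congrFun hram g
    rw [← h0]
    split_ifs with h
    · refine (CfsgLib.Chars.Induced.indFun_normal_mem (N := N') _ ⟨g, h⟩).trans ?_
      have h1 : ∀ x : G, CfsgLib.Chars.Induced.conjFun N'
          x (fun n : N' => (θ : N → ℂ) ⟨(n : G), n.2⟩) ⟨g, h⟩ = (θ' : N' → ℂ) ⟨g, h⟩ := by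
        intro x
        rw [CfsgLib.Chars.Induced.conjFun_apply]
        refine Eq.trans ?_ (hinv (x⁻¹ : Γ) ⟨(g : Γ), h⟩)
        exact congrArg (θ : N → ℂ) (Subtype.ext (by
          show ((x : Γ))⁻¹ * (g : Γ) * (x : Γ) = (x : Γ)⁻¹ * (g : Γ) * ((x : Γ)⁻¹)⁻¹
          rw [inv_inv]))
      refine (congrArg _ (Finset.sum_congr rfl fun x _ => h1 x)).trans ?_
      simp only [Finset.sum_const, Finset.card_univ, nsmul_eq_mul, ← Nat.card_eq_fintype_card]
      rw [← Subgroup.index_mul_card N', ← hd, Nat.cast_mul]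
      have hc : (Nat.card N' : ℂ) ≠ 0 := Nat.cast_ne_zero.2 Nat.card_pos.ne'
      field_simp
    · exact CfsgLib.Chars.Induced.indFun_normal_notMem _ h
  have hθ'1 : (θ' : N' → ℂ) 1 ≠ 0 := CfsgLib.Chars.map_one_ne_zero θ'
  have hd0 : (d : ℂ) ≠ 0 := Nat.cast_ne_zero.2 Subgroup.index_ne_zero_of_finite
  have he0 : (e : ℂ) ≠ 0 := by
    intro h0
    have h1 := hind 1
    rw [h0, zero_mul, dif_pos (one_mem _), eq_comm, mul_eq_zero] at h1
    exact h1.elim hd0 hθ'1
  have hed : (e : ℂ) * (e : ℂ) = (d : ℂ) := by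
    have h1 := hsqG χ
    have h2 : ∀ g : G, ((e : ℂ) * (χ : G → ℂ) g) * starRingEnd ℂ ((e : ℂ) * (χ : G → ℂ) g) =
        if h : g ∈ N' then (d : ℂ) ^ 2 * ((θ' : N' → ℂ) ⟨g, h⟩ * starRingEnd ℂ
          ((θ' : N' → ℂ) ⟨g, h⟩)) else 0 := by
      intro g
      rw [hind g]
      split_ifs with h
      · simp only [map_mul, map_natCast]; ring
      · simp
    have h3 : ∑ g : G, ((e : ℂ) * (χ : G → ℂ) g) * starRingEnd ℂ ((e : ℂ) * (χ : G → ℂ) g) =
        (d : ℂ) ^ 2 * (Nat.card N' : ℂ) := by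
      simp only [h2]
      rw [← Finset.sum_filter_add_sum_filter_not Finset.univ (fun g : G => g ∈ N'),
        Finset.sum_eq_zero (s := Finset.univ.filter fun g : G => ¬ g ∈ N')
          (fun g hg => dif_neg (Finset.mem_filter.1 hg).2), add_zero,
        Finset.sum_subtype (p := fun g : G => g ∈ N') (Finset.univ.filter fun g : G => g ∈ N') (fun g => by simp)
          (fun g : G => if h : g ∈ N' then (d : ℂ) ^ 2 * ((θ' : N' → ℂ) ⟨g, h⟩ * starRingEnd ℂ
          ((θ' : N' → ℂ) ⟨g, h⟩)) else 0)]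
      refine (Finset.sum_congr rfl fun x _ => dif_pos x.2).trans ?_
      rw [← Finset.mul_sum]
      congr 1
      exact hsqG θ'
    rw [show ∑ g : G, ((e : ℂ) * (χ : G → ℂ) g) * starRingEnd ℂ ((e : ℂ) * (χ : G → ℂ) g) =
        (e : ℂ) * (e : ℂ) * (Nat.card G : ℂ) by
      rw [← h1, Finset.mul_sum]
      exact Finset.sum_congr rfl fun g _ => by simp only [map_mul, map_natCast]; ring] at h3
    rw [← Subgroup.index_mul_card N', ← hd, Nat.cast_mul] at h3
    have hc : (Nat.card N' : ℂ) ≠ 0 := Nat.cast_ne_zero.2 Nat.card_pos.ne'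
    apply mul_right_cancel₀ (mul_ne_zero hd0 hc)
    rw [h3]; ring
  have hchiN : ∀ (n : N), (χ : G → ℂ) ⟨n, hNG n.2⟩ = (e : ℂ) * (θ : N → ℂ) n := by
    intro n
    apply mul_left_cancel₀ he0
    rw [hind, dif_pos (show (⟨n, hNG n.2⟩ : G) ∈ N' from n.2), ← mul_assoc, hed]
    rfl
  have hχinv : ∀ (y : Γ) (g : G),
      (χ : G → ℂ) ⟨y * g * y⁻¹, hG.conj_mem g g.2 y⟩ = (χ : G → ℂ) g := by
    intro y g
    apply mul_left_cancel₀ he0
    rw [hind, hind]
    by_cases h : g ∈ N'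
    · rw [dif_pos h, dif_pos (show (⟨y * g * y⁻¹, hG.conj_mem g g.2 y⟩ : G) ∈ N' from
        hN.conj_mem _ h y)]
      exact congrArg ((d : ℂ) * ·) (hinv y ⟨(g : Γ), h⟩)
    · rw [dif_neg h, dif_neg]
      intro h'
      apply h
      show (g : Γ) ∈ N
      rw [show (g : Γ) = y⁻¹ * (y * g * y⁻¹) * y⁻¹⁻¹ by group]
      exact hN.conj_mem _ h' y⁻¹
  -- an extension to the whole group
  obtain ⟨χh, hχh⟩ := CfsgLib.Chars.Induced.exists_extension_of_isCyclic χ
    (CfsgLib.Chars.Induced.conjFun_eq_of_forall hχinv)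
  -- the complement
  obtain ⟨q, hq⟩ := IsCyclic.exists_generator (α := Γ ⧸ G)
  obtain ⟨x, rfl⟩ := QuotientGroup.mk_surjective q
  set m := G.index with hm
  have hxG : x ∉ G := fun hx => hGlt (Subgroup.eq_top_iff' G |>.2 fun y => by
    obtain ⟨i, hi⟩ := hq (y : Γ ⧸ G)
    simp only [(QuotientGroup.eq_one_iff x).2 hx, one_zpow] at hi
    exact (QuotientGroup.eq_one_iff y).1 hi.symm)
  have hxm : x ^ m ∈ N := hfrob x hxG (x ^ m) (Subgroup.pow_index_mem G x) (by
    rw [show x * x ^ m * x⁻¹ * (x ^ m)⁻¹ = 1 by group]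
    exact N.one_mem)
  let K : Subgroup Γ := N ⊔ Subgroup.zpowers x
  have hNK : N ≤ K := le_sup_left
  have hordq : orderOf (x : Γ ⧸ G) = m :=
    (orderOf_eq_card_of_forall_mem_zpowers hq).trans rfl
  have hKG : ∀ k ∈ K, k ∈ G → k ∈ N := by
    intro k hk hkG
    obtain ⟨n, hn, z, ⟨i, rfl⟩, rfl⟩ := Subgroup.mem_sup_of_normal_left.1 hk
    have h1 : x ^ i ∈ G := by simpa using G.mul_mem (G.inv_mem (hNG hn)) hkG
    have h2 : (m : ℤ) ∣ i := by
      rw [← hordq]
      refine orderOf_dvd_iff_zpow_eq_one.2 ?_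
      rw [← QuotientGroup.mk_zpow]
      exact (QuotientGroup.eq_one_iff _).2 h1
    obtain ⟨j, rfl⟩ := h2
    refine N.mul_mem hn ?_
    show x ^ ((m : ℤ) * j) ∈ N
    rw [zpow_mul, zpow_natCast]
    exact N.zpow_mem hxm j
  haveI := Fintype.ofFinite K
  let NK : Subgroup K := N.subgroupOf K
  haveI := Fintype.ofFinite NK
  let φK : K →* Γ ⧸ G := (QuotientGroup.mk' G).comp K.subtype
  have hφsurj : Function.Surjective φK := fun y => by
    obtain ⟨i, hi⟩ := hq y
    refine ⟨⟨x ^ i, Subgroup.mem_sup_right ⟨i, rfl⟩⟩, ?_⟩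
    show ((x ^ i : Γ) : Γ ⧸ G) = y
    rw [QuotientGroup.mk_zpow]
    exact hi
  have hφker : φK.ker = NK := le_antisymm
    (fun (k : K) hk => hKG (k : Γ) k.2 ((QuotientGroup.eq_one_iff (k : Γ)).1 hk))
    (fun (k : K) hk => (QuotientGroup.eq_one_iff (k : Γ)).2 (hNG hk))
  let eK : K ⧸ NK ≃* Γ ⧸ G :=
    (QuotientGroup.quotientMulEquivOfEq hφker.symm).trans
      (QuotientGroup.quotientKerEquivOfSurjective φK hφsurj)
  haveI : IsCyclic (K ⧸ NK) := isCyclic_of_surjective eK.symm.toMonoidHom eK.symm.surjective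
  have hNKidx : NK.index = m := Nat.card_congr eK.toEquiv
  let eNK : NK ≃* N := Subgroup.subgroupOfEquivOfLe hNK
  let θK : IrrCharacter NK := CfsgLib.Glauberman.irrPull eNK θ
  have hθKinv : ∀ k : K, CfsgLib.Chars.Induced.conjFun NK k (θK : NK → ℂ) = θK :=
    CfsgLib.Chars.Induced.conjFun_eq_of_forall fun k n => hinv (k : Γ) ⟨((n : K) : Γ), n.2⟩
  obtain ⟨θh, hθh⟩ := CfsgLib.Chars.Induced.exists_extension_of_isCyclic θK hθKinv
  have hresN : ∀ n : NK, (χh : Γ → ℂ) ((n : K) : Γ) = (e : ℂ) * (θK : NK → ℂ) n := fun n =>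
    (hχh ⟨((n : K) : Γ), hNG n.2⟩).trans (hchiN ⟨((n : K) : Γ), n.2⟩)
  -- the sum of squares on the complement
  set F : Γ → ℂ := fun y => (χh : Γ → ℂ) y * starRingEnd ℂ ((χh : Γ → ℂ) y) with hF
  have hsumK : ∑ k : K, F k = (Nat.card N : ℂ) * ((d : ℂ) + (m : ℂ) - 1) := by
    let f : (G ⧸ N') × {k : K // (k : Γ) ∉ G} → {y : Γ // y ∉ G} := fun p =>
      ⟨(p.1.out : Γ) * (p.2.1 : Γ) * (p.1.out : Γ)⁻¹, fun h => p.2.2 (by
        have h1 := hG.conj_mem _ h (p.1.out : Γ)⁻¹
        simpa [mul_assoc] using h1)⟩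
    have hinj : Function.Injective f := by
      rintro ⟨r, k⟩ ⟨r', k'⟩ he
      have he' : (r.out : Γ) * (k.1 : Γ) * (r.out : Γ)⁻¹ =
          (r'.out : Γ) * (k'.1 : Γ) * (r'.out : Γ)⁻¹ := congrArg Subtype.val he
      have hkk : (k'.1 : Γ) * (k.1 : Γ)⁻¹ ∈ N := by
        refine hKG _ (K.mul_mem k'.1.2 (K.inv_mem k.1.2)) ((QuotientGroup.eq_one_iff _).1 ?_)
        have h1 := congrArg (fun y : Γ => (y : Γ ⧸ G)) he'
        simp only [QuotientGroup.mk_mul, QuotientGroup.mk_inv,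
          (QuotientGroup.eq_one_iff (r.out : Γ)).2 r.out.2,
          (QuotientGroup.eq_one_iff (r'.out : Γ)).2 r'.out.2, one_mul, inv_one, mul_one] at h1
        rw [QuotientGroup.mk_mul, QuotientGroup.mk_inv, h1, mul_inv_cancel]
      have hu : r'.out⁻¹ * r.out ∈ N' := by
        set u : Γ := ((r'.out⁻¹ * r.out : G) : Γ) with hu'
        have huG : u ∈ G := (r'.out⁻¹ * r.out : G).2
        have e1 : u * (k.1 : Γ) * u⁻¹ = (k'.1 : Γ) := by
          calc u * (k.1 : Γ) * u⁻¹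
              = (r'.out : Γ)⁻¹ * ((r.out : Γ) * (k.1 : Γ) * (r.out : Γ)⁻¹) * (r'.out : Γ) := by
                simp only [hu', Subgroup.coe_mul, Subgroup.coe_inv]; group
            _ = (k'.1 : Γ) := by rw [he']; group
        show u ∈ N
        refine hfrob (k.1 : Γ) k.2 u huG ?_
        rw [show (k.1 : Γ) * u * (k.1 : Γ)⁻¹ * u⁻¹ =
          ((u * (k.1 : Γ) * u⁻¹) * (k.1 : Γ)⁻¹)⁻¹ by group, e1]
        exact N.inv_mem hkk
      have hr : r = r' := by
        rw [← QuotientGroup.out_eq' r, ← QuotientGroup.out_eq' r']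
        exact (QuotientGroup.eq.2 hu).symm
      subst hr
      refine Prod.ext rfl (Subtype.ext (Subtype.ext ?_))
      simpa using he'
    have hsubN : Nat.card N' = Nat.card N := Nat.card_congr eN.toEquiv
    have hKcard : Nat.card K = m * Nat.card N := by
      rw [← Subgroup.index_mul_card NK, hNKidx, Nat.card_congr eNK.toEquiv]
    have hGcard : Nat.card G = d * Nat.card N := by
      rw [← Subgroup.index_mul_card N', hsubN]
    have hΓcard : Nat.card Γ = m * (d * Nat.card N) := by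
      rw [← Subgroup.index_mul_card G, hGcard]
    let eKN : N ≃ {k : K // (k : Γ) ∈ G} :=
      { toFun := fun n => ⟨⟨n, hNK n.2⟩, hNG n.2⟩
        invFun := fun k => ⟨k.1.1, hKG _ k.1.2 k.2⟩
        left_inv := fun _ => rfl
        right_inv := fun _ => rfl }
    have hcard : Fintype.card ((G ⧸ N') × {k : K // (k : Γ) ∉ G}) =
        Fintype.card {y : Γ // y ∉ G} := by
      rw [Fintype.card_prod, Fintype.card_subtype_compl, Fintype.card_subtype_compl,
        ← Fintype.card_congr eKN]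
      simp only [← Nat.card_eq_fintype_card]
      rw [hKcard, hΓcard, show Nat.card (G ⧸ N') = d from rfl, hGcard, Nat.mul_sub, ← mul_assoc,
        ← mul_assoc, mul_comm d m]
    have hbij : Function.Bijective f :=
      (Fintype.bijective_iff_injective_and_card f).2 ⟨hinj, hcard⟩
    have hFcl : ∀ r y : Γ, F (r * y * r⁻¹) = F y := fun r y => by
      simp only [hF, CfsgLib.Chars.isClassFunction_coe χh y r]
    have h1 : ∑ y : {y : Γ // y ∉ G}, F y = (d : ℂ) * ∑ k : {k : K // (k : Γ) ∉ G}, F k.1 := by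
      rw [← Equiv.sum_comp (Equiv.ofBijective f hbij)]
      simp only [Equiv.ofBijective_apply, f, hFcl, Fintype.sum_prod_type, Finset.sum_const,
        nsmul_eq_mul, Finset.card_univ, ← Nat.card_eq_fintype_card]
      rfl
    have h2 : ∑ y : {y : Γ // y ∈ G}, F y = (Nat.card G : ℂ) := by
      rw [← hsqG χ]
      exact Finset.sum_congr rfl fun g _ => by simp only [hF]; rw [hχh g]
    have h3 := Fintype.sum_subtype_add_sum_subtype (fun y : Γ => y ∈ G) F
    rw [show ∑ y : Γ, F y = (Nat.card Γ : ℂ) from hsqG χh] at h3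
    replace h3 : (Nat.card G : ℂ) + (d : ℂ) * ∑ k : {k : K // (k : Γ) ∉ G}, F k.1 =
        (Nat.card Γ : ℂ) := by
      rw [← h1, ← h2]; convert h3
    have h4 : ∑ k : {k : K // (k : Γ) ∈ G}, F k.1 = (e : ℂ) * (e : ℂ) * (Nat.card N : ℂ) := by
      rw [← Equiv.sum_comp eKN, ← hsqG θ, Finset.mul_sum]
      refine Finset.sum_congr rfl fun n _ => ?_
      show F (n : Γ) = _
      simp only [hF]
      rw [show (χh : Γ → ℂ) (n : Γ) = _ from hχh ⟨n, hNG n.2⟩, hchiN n, map_mul, map_natCast]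
      ring
    rw [← Fintype.sum_subtype_add_sum_subtype (fun k : K => (k : Γ) ∈ G) (fun k : K => F k), h4,
      hed]
    rw [hΓcard, hGcard] at h3
    push_cast at h3
    apply mul_left_cancel₀ hd0
    linear_combination h3
  -- decomposition on the complement
  obtain ⟨c, hc, -⟩ := CfsgLib.Chars.exists_nat_coeff
    (CfsgLib.Chars.isCharacter_restrict (CfsgLib.Chars.isCharacter_coe χh) K)
  have hsupp : ∀ ψ : IrrCharacter K, c ψ ≠ 0 → ∀ n : NK, (ψ : K → ℂ) n = (θK : NK → ℂ) n := by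
    intro ψ hψ
    refine CfsgLib.Chars.Induced.restrict_eq_of_isCyclic θK hθKinv ψ ?_
    choose a ha using fun η : IrrCharacter K =>
      CfsgLib.Chars.exists_nat_classInner
        (CfsgLib.Chars.isCharacter_restrict (CfsgLib.Chars.isCharacter_coe η) NK)
    intro h0
    obtain ⟨ξ, hξ⟩ := CfsgLib.Chars.Induced.exists_mult_ne_zero
      (CfsgLib.Chars.isCharacter_restrict (CfsgLib.Chars.isCharacter_coe ψ) NK) fun hz =>
        CfsgLib.Chars.map_one_ne_zero ψ (congrFun hz 1)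
    have hne : θK ≠ ξ := fun h => hξ (h ▸ h0)
    have h1 : ∑ η : IrrCharacter K, (c η : ℂ) * (a η ξ : ℂ) = 0 := by
      have h2 : (fun n : NK => (χh : Γ → ℂ) ((n : K) : Γ)) =
          ∑ η : IrrCharacter K, (c η : ℂ) • fun n : NK => (η : K → ℂ) n := by
        funext n
        exact (congrFun hc (n : K)).trans (by simp [Finset.sum_apply])
      rw [show (fun n : NK => (χh : Γ → ℂ) ((n : K) : Γ)) = (e : ℂ) • (θK : NK → ℂ) from
        funext hresN] at h2
      have h3 := congrArg (fun f : NK → ℂ => classInner f (ξ : NK → ℂ)) h2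
      simp only [CfsgLib.Chars.classInner_smul_left, CfsgLib.Chars.classInner_sum_left, ha,
        CfsgLib.Chars.classInner_of_ne hne, mul_zero] at h3
      exact h3.symm
    have h4 : ∑ η : IrrCharacter K, c η * a η ξ = 0 := by exact_mod_cast h1
    rcases Nat.mul_eq_zero.1 (Finset.sum_eq_zero_iff.1 h4 ψ (Finset.mem_univ ψ)) with h5 | h5
    · exact hψ h5
    · apply (CfsgLib.Chars.Induced.mult_ne_zero_iff
        (CfsgLib.Chars.isCharacter_restrict (CfsgLib.Chars.isCharacter_coe ψ) NK) ξ).1 hξ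
      rw [ha ψ ξ, h5, Nat.cast_zero]
  -- the extensions are indexed by the linear characters of the quotient
  let P : ((K ⧸ NK) →* ℂˣ) → IrrCharacter K := fun l =>
    ⟨_, CfsgLib.Chars.Induced.gallagher_isIrrCharacter θh θK hθh (CfsgLib.Chars.linChar l)⟩
  have hPinj : Function.Injective P := fun l l' h => CfsgLib.Chars.linChar_injective
    (CfsgLib.Chars.Induced.gallagher_injective θh θK hθh _ _
      (congrFun (congrArg Subtype.val h)))
  haveI := Fintype.ofFinite ((K ⧸ NK) →* ℂˣ)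
  letI : CommGroup (K ⧸ NK) := IsCyclic.commGroup
  have hPrange : ∀ ψ : IrrCharacter K, c ψ ≠ 0 → ψ ∈ Finset.univ.image P := by
    intro ψ hψ
    obtain ⟨β, hβ⟩ := CfsgLib.Chars.Induced.gallagher_exists θh θK hθh ψ (by
      rw [CfsgLib.Chars.Induced.mult_ne_zero_iff (CfsgLib.Chars.isCharacter_restrict
        (CfsgLib.Chars.isCharacter_coe ψ) NK), funext (hsupp ψ hψ),
        CfsgLib.Chars.classInner_self]
      exact one_ne_zero)
    obtain ⟨l, rfl⟩ := CfsgLib.Chars.exists_linChar_eq β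
      (CfsgLib.Chars.map_one_eq_one_of_isMulCommutative β)
    exact Finset.mem_image.2 ⟨l, Finset.mem_univ l, Subtype.ext hβ.symm⟩
  let v : ((K ⧸ NK) →* ℂˣ) → ℤ := fun l => c (P l)
  have hP1 : ∀ l, (P l : K → ℂ) 1 = (θK : NK → ℂ) 1 := fun l => by
    show (θh : K → ℂ) 1 * _ = _
    rw [← hθh 1]
    simp
  have hsum1 : ∑ l, v l = (e : ℤ) := by
    apply Int.cast_injective (α := ℂ)
    push_cast
    have h1 := congrFun hc 1
    simp only [Finset.sum_apply, Pi.smul_apply, smul_eq_mul] at h1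
    rw [← Finset.sum_subset (Finset.subset_univ (Finset.univ.image P)) (fun ψ _ hψ => by
      rw [not_not.1 fun h => hψ (hPrange ψ h)]; simp),
      Finset.sum_image (fun a _ b _ h => hPinj h)] at h1
    simp only [hP1, ← Finset.sum_mul] at h1
    rw [show ((1 : K) : Γ) = (((1 : NK) : K) : Γ) from rfl, hresN 1] at h1
    simp only [v, Int.cast_natCast]
    exact (mul_right_cancel₀ (CfsgLib.Chars.map_one_ne_zero θK) h1).symm
  have hcardL : (Fintype.card ((K ⧸ NK) →* ℂˣ) : ℤ) = (m : ℤ) := by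
    rw [← Nat.card_eq_fintype_card, CfsgLib.Chars.card_monoidHom_units,
      show commutator (K ⧸ NK) = ⊥ from by
        rw [commutator_def, Subgroup.commutator_eq_bot_iff_le_centralizer]
        exact fun a _ => Subgroup.mem_centralizer_iff.2 fun b _ => mul_comm b a,
      Subgroup.index_bot, show Nat.card (K ⧸ NK) = m from hNKidx]
  have hsum2 : (m : ℤ) * ∑ l, v l ^ 2 - (e : ℤ) ^ 2 = (m : ℤ) - 1 := by
    apply Int.cast_injective (α := ℂ)
    push_cast
    have h1 : classInner (fun k : K => (χh : Γ → ℂ) k) (fun k : K => (χh : Γ → ℂ) k) =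
        ∑ l, ((v l : ℤ) : ℂ) ^ 2 := by
      conv_lhs => rw [hc]
      rw [CfsgLib.Chars.classInner_eq_sum (hc ▸ CfsgLib.Chars.isClassFunction_of_isCharacter
        (CfsgLib.Chars.isCharacter_restrict (CfsgLib.Chars.isCharacter_coe χh) K))]
      simp only [CfsgLib.Chars.classInner_sum_smul, map_natCast]
      rw [← Finset.sum_subset (Finset.subset_univ (Finset.univ.image P)) (fun ψ _ hψ => by
        rw [not_not.1 fun h => hψ (hPrange ψ h)]; simp),
        Finset.sum_image (fun a _ b _ h => hPinj h)]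
      simp [v, sq]
    rw [classInner, show ∑ g : K, (χh : Γ → ℂ) g * starRingEnd ℂ ((χh : Γ → ℂ) g) =
      ∑ k : K, F k from rfl, hsumK, ← Subgroup.index_mul_card NK, hNKidx,
      Nat.card_congr eNK.toEquiv] at h1
    push_cast at h1
    have hm0 : (m : ℂ) ≠ 0 := Nat.cast_ne_zero.2 Subgroup.index_ne_zero_of_finite
    have hN0 : (Nat.card N : ℂ) ≠ 0 := Nat.cast_ne_zero.2 Nat.card_pos.ne'
    rw [← h1, ← hed]
    field_simp
    ring
  by_cases hconst : ∃ i j, v i ≠ v j
  · obtain ⟨-, h2⟩ := CfsgLib.Glauberman.le_spread v hconst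
    rw [hcardL, hsum1] at h2
    obtain ⟨i₀, c₀, δ, hδ, hi₀, hoff⟩ := h2 hsum2
    have he : (e : ℤ) = (m : ℤ) * c₀ + δ := by
      rw [← hsum1, ← hcardL, ← Finset.add_sum_erase _ _ (Finset.mem_univ i₀),
        Finset.sum_congr rfl (g := fun _ => c₀) fun i hi => hoff i (Finset.ne_of_mem_erase hi),
        hi₀, Finset.sum_const, Finset.card_erase_of_mem (Finset.mem_univ _), Finset.card_univ,
        nsmul_eq_mul, Nat.cast_sub Fintype.card_pos, Nat.cast_one]
      ring
    rcases hδ with rfl | rfl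
    · exact Or.inl ⟨c₀, by rw [he]; ring⟩
    · exact Or.inr ⟨c₀, by rw [he]; ring⟩
  · exfalso
    push Not at hconst
    have h1 : v = fun _ => v 1 := funext fun i => hconst i 1
    rw [← hsum1, ← hcardL, h1] at hsum2
    simp only [Finset.sum_const, Finset.card_univ, nsmul_eq_mul] at hsum2
    have hm1 : m ≠ 1 := fun h => hGlt (Subgroup.index_eq_one.1 h)
    have : (Fintype.card ((K ⧸ NK) →* ℂˣ) : ℤ) = 1 := by nlinarith
    omega


end Cfsg.Agent.S4454
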