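import Cfsg.Statements.S4455
import Cfsg.Agent.Glauberman.PResidual

set_option autoImplicit false
open Cfsg

namespace Cfsg.Agent.S4455

/-- Fix a prime p and a finite group G. Let s be the sum of χ(1)² over the irreducible characters χ of G whose degree is not divisible by p and whose determinantal order o(χ) is not divisible by p. Then the order of O^p(G), the subgroup generated by the elements of order prime to p, is congruent to s modulo p. -/
theorem result {G : Type*} [Group G] [Finite G] (p : ℕ) (hp : p.Prime) : (Nat.card (Cfsg.pResidual p G) : ℤ) ≡ (∑ᶠ χ ∈ {χ : Cfsg.IrrCharacter G | ¬ p ∣ Cfsg.charDegree (χ : G → ℂ) ∧ ¬ p ∣ Cfsg.detOrder (χ : G → ℂ)}, (Cfsg.charDegree (χ : G → ℂ) : ℤ) ^ 2) [ZMOD p] := by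
  haveI := Fact.mk hp
  classical
  have := Fintype.ofFinite G
  have := Fintype.ofFinite (pResidual p G)
  refine (ZMod.intCast_eq_intCast_iff _ _ p).1 ?_
  rw [Int.cast_natCast, CfsgLib.Glauberman.card_pResidual_modEq]
  obtain ⟨r, hr, hrd⟩ := CfsgLib.Glauberman.bijOn_restrict_pResidual (G := G) p
  rw [← (Equiv.ofBijective r hr).sum_comp]
  simp only [Equiv.ofBijective_apply, hrd]
  rw [finsum_mem_eq_finite_toFinset_sum _ (Set.toFinite _), Int.cast_sum]
  push_cast
  refine Eq.symm ?_
  apply Finset.sum_subtype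
  exact fun x => Set.Finite.mem_toFinset _

end Cfsg.Agent.S4455
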