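import Cfsg.Statements.S4459
import Cfsg.Agent.Chars.TwoDegrees.Prime

set_option autoImplicit false
open Cfsg
open scoped commutatorElement

namespace Cfsg.Agent.S4459

/-- Let G be a non-abelian finite group and p a prime. Then the irreducible character degrees of G are exactly 1 and p if and only if either G has an abelian normal subgroup of index p or the centre of G has index p³. -/
theorem result {G : Type*} [Group G] [Finite G] (hG : ∃ a b : G, a * b ≠ b * a) (p : ℕ) (hp : p.Prime) : ((∀ χ : Cfsg.IrrCharacter G, Cfsg.charDegree (χ : G → ℂ) = 1 ∨ Cfsg.charDegree (χ : G → ℂ) = p) ∧ ∃ χ : Cfsg.IrrCharacter G, Cfsg.charDegree (χ : G → ℂ) = p) ↔ ((∃ A : Subgroup G, A.Normal ∧ (∀ a ∈ A, ∀ b ∈ A, a * b = b * a) ∧ A.index = p) ∨ (Subgroup.center G).index = p ^ 3) := by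
  haveI : Fact p.Prime := ⟨hp⟩
  constructor
  · rintro ⟨hcd, hm⟩
    have hder := CfsgLib.TwoDegrees.derived_abelian hcd hm hp.ne_one
    obtain ⟨A, ⟨hAG, hab⟩, hmax⟩ := (Set.toFinite {A : Subgroup G | commutator G ≤ A ∧ ∀ a ∈ A, ∀ b ∈ A, a * b = b * a}).exists_maximal
      ⟨commutator G, le_rfl, hder⟩
    haveI : A.Normal := ⟨fun a ha g => by
      have h : g * a * g⁻¹ = ⁅g, a⁆ * a := by simp [commutatorElement_def]
      rw [h]
      exact mul_mem (hAG (Subgroup.commutator_mem_commutator (Subgroup.mem_top g) (Subgroup.mem_top a))) ha⟩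
    have hself : ∀ x : G, (∀ a ∈ A, x * a = a * x) → x ∈ A := by
      intro x hx
      set U : Set G := insert x A
      have hU : ∀ u ∈ U, ∀ v ∈ U, u * v = v * u := by
        rintro u (rfl | hu) v (rfl | hv)
        · rfl
        · exact hx v hv
        · exact (hx u hu).symm
        · exact hab u hu v hv
      haveI := Subgroup.isMulCommutative_closure hU
      have hle : A ≤ Subgroup.closure U := fun a ha => Subgroup.subset_closure (Set.mem_insert_of_mem _ ha)
      exact hmax ⟨hAG.trans hle, fun a ha b hb => congrArg Subtype.val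
        (IsMulCommutative.is_comm.comm (⟨a, ha⟩ : Subgroup.closure U) ⟨b, hb⟩)⟩ hle
          (Subgroup.subset_closure (Set.mem_insert x _))
    have O : CfsgLib.TwoDegrees.Orbits A p :=
      { ab := hab
        self_cent := hself
        comm_mem := fun x y => hAG (Subgroup.commutator_mem_commutator (Subgroup.mem_top x) (Subgroup.mem_top y))
        index_eq := fun μ hμ => (CfsgLib.TwoDegrees.orbit_facts hcd A hab μ hμ).1
        ext_one := fun μ hμ x hx y hy => (CfsgLib.TwoDegrees.orbit_facts hcd A hab μ hμ).2 x hx y hy _ }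
    exact CfsgLib.TwoDegrees.index_cases O hG
  · intro h
    have hdeg : ∀ χ : Cfsg.IrrCharacter G, Cfsg.charDegree (χ : G → ℂ) = 1 ∨ Cfsg.charDegree (χ : G → ℂ) = p := by
      intro χ
      rcases h with ⟨A, hA, hab, hi⟩ | hi
      · haveI : IsMulCommutative A := ⟨⟨fun a b => Subtype.ext (hab a a.2 b b.2)⟩⟩
        exact (Nat.dvd_prime hp).1 (hi ▸ CfsgLib.Chars.Induced.ito A χ)
      · have h1 := hi ▸ CfsgLib.Chars.Induced.charDegree_dvd_index_center χ
        have h2 := hi ▸ CfsgLib.Chars.charDegree_sq_le_index_center χ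
        obtain ⟨k, -, hk⟩ := (Nat.dvd_prime_pow hp).1 h1
        rcases Nat.lt_or_ge k 2 with hk2 | hk2
        · interval_cases k <;> simp_all
        · exfalso
          rw [hk, ← pow_mul] at h2
          have := (Nat.pow_le_pow_iff_right hp.one_lt).1 h2
          omega
    refine ⟨hdeg, ?_⟩
    by_contra hne
    obtain ⟨a, b, hab⟩ := hG
    apply hab
    have hbot : commutator G = ⊥ := CfsgLib.Chars.commutator_eq_bot_iff.2 fun θ =>
      (CfsgLib.Chars.charDegree_eq_one_iff θ).1 ((hdeg θ).resolve_right fun e => hne ⟨θ, e⟩)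
    exact commutatorElement_eq_one_iff_mul_comm.1 (by
      have h1 := Subgroup.commutator_mem_commutator (Subgroup.mem_top a) (Subgroup.mem_top b)
      rw [← commutator_def, hbot, Subgroup.mem_bot] at h1
      exact h1)

end Cfsg.Agent.S4459
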