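import Cfsg.Statements.S4460
import Cfsg.Agent.ThreeDegrees.Solvable

set_option autoImplicit false
open Cfsg

namespace Cfsg.Agent.S4460

open CfsgLib CfsgLib.Chars in
/-- A finite group with exactly three distinct irreducible character degrees is solvable of derived length at most 3: its third derived subgroup is trivial. -/
theorem result {G : Type*} [Group G] [Finite G] (hcd : Nat.card {n : ℕ // ∃ χ : Cfsg.IrrCharacter G, Cfsg.charDegree (χ : G → ℂ) = n} = 3) : derivedSeries G 3 = ⊥ := by
  classical
  haveI := Fintype.ofFinite G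
  set S : Set ℕ := {n | ∃ χ : IrrCharacter G, charDegree (χ : G → ℂ) = n} with hS
  have h3 : S.ncard = 3 := by rw [← Nat.card_coe_set_eq]; exact hcd
  have h1 : (1 : ℕ) ∈ S := ⟨oneChar G, charDegree_eq_of_map_one (by simp [oneChar_apply])⟩
  obtain ⟨a, b, -, hab⟩ := Set.ncard_eq_two.1 (show (S \ {1}).ncard = 2 by
    rw [Set.ncard_sdiff_singleton_of_mem h1, h3])
  refine ThreeDegrees.derivedSeries_three_of_degrees (a := a) (b := b) fun χ => ?_
  by_cases hχ : charDegree (χ : G → ℂ) = 1
  · exact Or.inl hχ
  · have : charDegree (χ : G → ℂ) ∈ S \ {1} := ⟨⟨χ, rfl⟩, by simpa using hχ⟩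
    rw [hab] at this
    exact Or.inr (by simpa using this)

end Cfsg.Agent.S4460
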