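import Cfsg.Statements.S4471
import Cfsg.Agent.Chars.DegreeLtTwoPrime.Main

set_option autoImplicit false
open Cfsg

namespace Cfsg.Agent.S4471

/-- Let p ≥ 7 be a prime and let the finite group G have a faithful irreducible character of degree n with n < 2p and n ≠ p. If the Sylow p-subgroups of G are non-abelian then p² does not divide the index of O_p(G) in G; consequently, in every case G/O_p(G) has abelian Sylow p-subgroups. -/
theorem result {G : Type*} [Group G] [Finite G] (χ : Cfsg.IrrCharacter G) (hfaith : ∀ g : G, (χ : G → ℂ) g = (χ : G → ℂ) 1 → g = 1) (n : ℕ) (hn : Cfsg.charDegree (χ : G → ℂ) = n) (p : ℕ) (hp : p.Prime) (h7 : 7 ≤ p) (hn2 : n < 2 * p) (hnp : n ≠ p) : ((∃ P : Sylow p G, ∃ x ∈ (P : Subgroup G), ∃ y ∈ (P : Subgroup G), x * y ≠ y * x) → ¬ p ^ 2 ∣ (Cfsg.pCore p G).index) ∧ ∀ Q : Sylow p (G ⧸ Cfsg.pCore p G), ∀ x ∈ (Q : Subgroup (G ⧸ Cfsg.pCore p G)), ∀ y ∈ (Q : Subgroup (G ⧸ Cfsg.pCore p G)), x * y = y *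 x := by
  haveI := Fact.mk hp
  have main : ∀ S : Sylow p G, (∃ x ∈ (S : Subgroup G), ∃ y ∈ (S : Subgroup G), x * y ≠ y * x) →
      ¬ p ^ 2 ∣ (Cfsg.pCore p G).index := fun S hS =>
    CfsgLib.DegreeLtTwoP.not_sq_dvd_index_pCore hp h7 hfaith hn hn2 hnp S hS
  refine ⟨fun ⟨S, hS⟩ => main S hS, fun Q x hx y hy => ?_⟩
  by_cases hna : ∃ S : Sylow p G, ∃ x ∈ (S : Subgroup G), ∃ y ∈ (S : Subgroup G), x * y ≠ y * x
  · obtain ⟨S, hS⟩ := hna
    obtain ⟨k, hk⟩ := IsPGroup.iff_card.1 Q.isPGroup'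
    have hdvd : p ^ k ∣ (Cfsg.pCore p G).index := by
      rw [← hk, Subgroup.index_eq_card]
      exact Subgroup.card_subgroup_dvd_card _
    have hk1 : k ≤ 1 := by
      by_contra h
      exact main S hS ((pow_dvd_pow p (by omega : 2 ≤ k)).trans hdvd)
    have hcyc : IsCyclic (Q : Subgroup (G ⧸ Cfsg.pCore p G)) := by
      interval_cases k
      · haveI : Subsingleton (Q : Subgroup (G ⧸ Cfsg.pCore p G)) :=
          (Nat.card_eq_one_iff_unique.1 (by simpa using hk)).1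
        exact isCyclic_of_subsingleton
      · exact isCyclic_of_prime_card (p := p) (by simpa using hk)
    exact congrArg Subtype.val
      (IsCyclic.isMulCommutative.is_comm.comm (⟨x, hx⟩ : (Q : Subgroup (G ⧸ Cfsg.pCore p G))) ⟨y, hy⟩)
  · push Not at hna
    obtain ⟨S, rfl⟩ :=
      Sylow.mapSurjective_surjective (QuotientGroup.mk'_surjective (Cfsg.pCore p G)) p Q
    rw [Sylow.coe_mapSurjective] at hx hy
    obtain ⟨a, ha, rfl⟩ := hx
    obtain ⟨b, hb, rfl⟩ := hy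
    rw [← map_mul, ← map_mul, hna S a ha b hb]


end Cfsg.Agent.S4471
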