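import Cfsg.Statements.S4472
import Cfsg.Agent.DixonBound.Centralizer
import Cfsg.Agent.Constrained.CyclicNormalSylow
import Cfsg.Agent.Solvable.SchurZassenhaus
import Cfsg.Agent.Eq.Def_Solvable
import Mathlib.GroupTheory.SchurZassenhaus

set_option autoImplicit false
set_option linter.style.haveILetI false
open Cfsg

namespace Cfsg.Agent.S4472

open CfsgLib in
open scoped Pointwise in
/-- Let the finite p-solvable group G have a faithful character of degree n, and let p^a be the index of O_p(G) in a Sylow p-subgroup of G (the p-part of [G : O_p(G)]). Then a ≤ Σ_{i ≥ 0} ⌊n / ((p − 1) p^i)⌋ (a finite sum; the terms vanish for p^i > n). -/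
theorem result {G : Type*} [Group G] [Finite G] (χ : G → ℂ) (hχ : Cfsg.IsCharacter G χ) (hfaith : ∀ g : G, χ g = χ 1 → g = 1) (n : ℕ) (hn : Cfsg.charDegree χ = n) (p : ℕ) (hp : p.Prime) (hsolv : Cfsg.IsPSolvable p G) : ((Cfsg.pCore p G).index).factorization p ≤ ∑ i ∈ Finset.range (n + 1), n / ((p - 1) * p ^ i) := by
  haveI := Fact.mk hp
  set Q := Cfsg.pCore p G with hQ
  have hQp : IsPGroup p Q := Constrained.isPGroup_pCore
  haveI hQn : Q.Normal := Constrained.instNormalPCore p
  set f := QuotientGroup.mk' Q with hf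
  set Kb := Cfsg.pPrimeCore p (G ⧸ Q) with hKb
  haveI hKbn : Kb.Normal := Constrained.instNormalPPrimeCore p
  set N := Kb.comap f with hN
  haveI hNn : N.Normal := hKbn.comap f
  have hQN : Q ≤ N := fun x hx => by
    rw [hN, Subgroup.mem_comap, hf, QuotientGroup.mk'_apply, (QuotientGroup.eq_one_iff x).2 hx]
    exact one_mem _
  have hrel : Q.relIndex N = Nat.card Kb := by
    have h1 : Q = (⊥ : Subgroup (G ⧸ Q)).comap f := by
      rw [MonoidHom.comap_bot, hf, QuotientGroup.ker_mk']
    conv_lhs => rw [h1]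
    rw [Subgroup.relIndex_comap, hN,
      Subgroup.map_comap_eq_self_of_surjective (QuotientGroup.mk'_surjective Q),
      Subgroup.relIndex_bot_left]
  have hKbp : ¬ p ∣ Nat.card Kb := Constrained.pPrimeCore_not_dvd
  obtain ⟨q, hq⟩ := IsPGroup.iff_card.1 hQp
  have hco : (Nat.card (Q.subgroupOf N)).Coprime (Q.subgroupOf N).index := by
    rw [Nat.card_congr (Subgroup.subgroupOfEquivOfLe hQN).toEquiv, hq]
    show (p ^ q).Coprime (Q.relIndex N)
    rw [hrel]
    exact (hp.coprime_iff_not_dvd.2 hKbp).pow_left q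
  obtain ⟨K', hK'⟩ := Subgroup.exists_right_complement'_of_coprime hco
  set K := K'.map N.subtype with hK
  have hKcard : Nat.card K = Nat.card Kb := by
    rw [hK, Subgroup.card_map_of_injective N.subtype_injective, ← hK'.symm.index_eq_card]
    exact hrel
  have hKN : K ⊔ Q = N := by
    conv_rhs => rw [← N.range_subtype, MonoidHom.range_eq_map, ← hK'.sup_eq_top]
    rw [Subgroup.map_sup, Subgroup.map_subgroupOf_eq_of_le hQN, sup_comm, hK]
  have hKp : ¬ p ∣ Nat.card K := hKcard.symm ▸ hKbp
  have hKQ : (Nat.card K).Coprime (Nat.card Q) := by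
    rw [hq]
    exact ((hp.coprime_iff_not_dvd.2 hKp).pow_left q).symm
  -- the Frattini argument
  set NK := Subgroup.normalizer (K : Set G) with hNK
  have hfrat : NK ⊔ Q = ⊤ := by
    rw [eq_top_iff]
    intro g _
    have hconj : MulAut.conj g • K ⊔ Q = K ⊔ Q := by
      have h2 : MulAut.conj g • (K ⊔ Q) = MulAut.conj g • K ⊔ MulAut.conj g • Q :=
        Subgroup.smul_sup _ _ _
      rw [Subgroup.Normal.conj_smul_eq_self g Q] at h2
      rw [← h2, hKN]
      exact Subgroup.Normal.conj_smul_eq_self g N
    haveI := hQp.isNilpotent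
    obtain ⟨y, hy, hyeq⟩ := Solvable.exists_conj_of_sup_eq Q (MulAut.conj g • K) K
      hconj (by rwa [Solvable.card_conj_smul]) hKQ (Or.inl inferInstance)
    have hyg : y * g ∈ NK := by
      rw [smul_smul, ← map_mul] at hyeq
      rw [hNK, Subgroup.mem_normalizer_iff]
      intro k
      have h := (Subgroup.smul_mem_pointwise_smul_iff (a := MulAut.conj (y * g)) (S := K) (x := k)).symm
      rwa [hyeq] at h
    rw [show g = y⁻¹ * (y * g) from (inv_mul_cancel_left y g).symm]
    exact mul_mem (Subgroup.mem_sup_right (inv_mem hy)) (Subgroup.mem_sup_left hyg)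
  -- a Sylow subgroup of the normaliser
  obtain ⟨R0⟩ : Nonempty (Sylow p NK) := inferInstance
  set R := (R0 : Subgroup NK).map NK.subtype with hR
  have hRp : IsPGroup p R := R0.isPGroup'.map _
  have hRNK : R ≤ NK := Subgroup.map_subtype_le _
  have hidx : Q.index = Q.relIndex NK := by
    rw [← Subgroup.relIndex_top_right, ← hfrat, Subgroup.relIndex_sup_right]
  have hQR : Q.subgroupOf NK ≤ (R0 : Subgroup NK) :=
    IsPGroup.le_sylow_of_normal hQp.comap_subtype R0
  have hfac : Q.index.factorization p = ((Q.subgroupOf NK).relIndex (R0 : Subgroup NK)).factorization p := by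
    rw [hidx]
    show (Q.subgroupOf NK).index.factorization p = _
    rw [← Subgroup.relIndex_mul_index hQR,
      Nat.factorization_mul (a := (Q.subgroupOf NK).relIndex (R0 : Subgroup NK))
        Subgroup.index_ne_zero_of_finite Subgroup.index_ne_zero_of_finite,
      Finsupp.add_apply, Nat.factorization_eq_zero_of_not_dvd (R0.not_dvd_index), add_zero]
  -- the centraliser of `K` in `R` lies in `Q`
  have hcent : ∀ x ∈ R, x ∈ Subgroup.centralizer (K : Set G) → x ∈ Q := by
    intro x hxR hxC
    have hKmap : K.map f = Kb := by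
      have h1 : (K ⊔ Q).map f = Kb := by
        rw [hKN, hN, Subgroup.map_comap_eq_self_of_surjective (QuotientGroup.mk'_surjective Q)]
      rwa [Subgroup.map_sup, hf, QuotientGroup.map_mk'_self, sup_bot_eq] at h1
    have hx : f x ∈ Kb := by
      refine Constrained.centralizer_pPrimeCore_le (Constrained.IsPSolvable.quotient hsolv Q)
        Constrained.pCore_quotient_pCore (Subgroup.mem_centralizer_iff.2 fun y hy => ?_)
      rw [SetLike.mem_coe, ← hKb, ← hKmap] at hy
      obtain ⟨k, hk, rfl⟩ := hy
      rw [← map_mul, ← map_mul, Subgroup.mem_centralizer_iff.1 hxC k hk]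
    obtain ⟨b, hb⟩ := hRp ⟨x, hxR⟩
    have hxb : f x ^ p ^ b = 1 := by
      rw [← map_pow, show x ^ p ^ b = 1 from congrArg Subtype.val hb, map_one]
    have hxK : f x ^ Nat.card Kb = 1 := congrArg Subtype.val (pow_card_eq_one' (x := (⟨f x, hx⟩ : Kb)))
    have h1 := pow_gcd_eq_one.2 ⟨hxb, hxK⟩
    rw [((hp.coprime_iff_not_dvd.2 hKbp).pow_left b), pow_one] at h1
    exact (QuotientGroup.eq_one_iff x).1 h1
  -- the linear bound
  set L := K ⊔ R with hL
  haveI : Fintype L := Fintype.ofFinite L
  haveI : (K.subgroupOf L).Normal := by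
    rw [Subgroup.normal_subgroupOf_iff_le_normalizer le_sup_left]
    exact sup_le Subgroup.le_normalizer hRNK
  have hbound := DixonBound.index_centralizer_le (L := L) (K := K.subgroupOf L) (R := R.subgroupOf L)
    hp (by rwa [Nat.card_congr (Subgroup.subgroupOfEquivOfLe le_sup_left).toEquiv])
    (hRp.comap_subtype) (by
      rw [← Subgroup.subgroupOf_sup le_sup_left le_sup_right, Subgroup.subgroupOf_self])
    (χ := fun g : L => χ g) (CfsgLib.Chars.isCharacter_restrict hχ L)
    (fun g hg => Subtype.ext (hfaith _ (by simpa using hg))) (n := n)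
    (by rw [← hn, CfsgLib.Chars.charDegree_cast hχ, OneMemClass.coe_one])
  have hle : ((Subgroup.centralizer (K.subgroupOf L : Set L)).subgroupOf (R.subgroupOf L)).map
      ((L.subtype).comp (R.subgroupOf L).subtype) ≤ Q ⊓ R := by
    rintro _ ⟨x, hx, rfl⟩
    refine ⟨hcent _ x.2 (Subgroup.mem_centralizer_iff.2 fun k hk => ?_), x.2⟩
    exact congrArg Subtype.val
      (Subgroup.mem_centralizer_iff.1 hx ⟨k, le_sup_left (b := R) hk⟩ hk)
  have hdvd : (Q.subgroupOf NK).relIndex (R0 : Subgroup NK) ≤
      ((Subgroup.centralizer (K.subgroupOf L : Set L)).subgroupOf (R.subgroupOf L)).index := by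
    set C := (Subgroup.centralizer (K.subgroupOf L : Set L)).subgroupOf (R.subgroupOf L)
    have hinj : Function.Injective ((L.subtype).comp (R.subgroupOf L).subtype) :=
      L.subtype_injective.comp (R.subgroupOf L).subtype_injective
    have h1 : C.index = (C.map ((L.subtype).comp (R.subgroupOf L).subtype)).relIndex R := by
      rw [← Subgroup.relIndex_top_right, ← Subgroup.relIndex_map_map_of_injective _ _ hinj]
      congr 1
      rw [← Subgroup.map_map, ← MonoidHom.range_eq_map, Subgroup.range_subtype,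
        Subgroup.map_subgroupOf_eq_of_le le_sup_right]
    have h2 : (Q.subgroupOf NK).relIndex (R0 : Subgroup NK) = (Q ⊓ R).relIndex R := by
      rw [Subgroup.inf_relIndex_right, Subgroup.subgroupOf, Subgroup.relIndex_comap, hR]
    rw [h1, h2]
    exact Subgroup.relIndex_le_of_le_left hle Subgroup.index_ne_zero_of_finite
  rw [hfac]
  refine (Nat.pow_le_pow_iff_right hp.one_lt).1 (le_trans ?_ hbound)
  refine le_trans (Nat.le_of_dvd (Nat.pos_of_ne_zero Subgroup.index_ne_zero_of_finite) ?_) hdvd
  exact Nat.ordProj_dvd _ _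

end Cfsg.Agent.S4472
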