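import Cfsg.Statements.S4473
import Cfsg.Agent.Chars.PrimitiveDegTwo.Count
import Cfsg.Agent.Chars.Induced.Ito
-- import your own Cfsg.Agent.* helpers here

set_option autoImplicit false
open Cfsg

namespace Cfsg.Agent.S4473

/-- Let the finite group G have a faithful irreducible character χ of degree 2 that is primitive: χ is not induced from a character of any proper subgroup. Then the centre of G has index 12, 24 or 60. -/
theorem result {G : Type*} [Group G] [Fintype G] (χ : Cfsg.IrrCharacter G) (hfaith : ∀ g : G, (χ : G → ℂ) g = (χ : G → ℂ) 1 → g = 1) (h2 : Cfsg.charDegree (χ : G → ℂ) = 2) (hprim : ∀ H : Subgroup G, H ≠ ⊤ → ∀ θ : H → ℂ, Cfsg.IsCharacter H θ → (χ : G → ℂ) ≠ Cfsg.indFun H θ) : (Subgroup.center G).index = 12 ∨ (Subgroup.center G).index = 24 ∨ (Subgroup.center G).index = 60 := by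
  classical
  obtain ⟨n, ρ, hρ, hρχ⟩ := χ.2
  have hn : n = 2 := by
    have h1 := congrFun hρχ 1
    rw [Representation.char_one, Module.finrank_fin_fun, ← CfsgLib.Chars.coe_charDegree, h2,
      Nat.cast_inj] at h1
    exact h1
  subst hn
  refine CfsgLib.PrimitiveDegTwo.center_index ρ (fun g hg => hfaith g ?_) hρ fun H hH => ?_
  · rw [← congrFun hρχ g, ← congrFun hρχ 1]
    simp only [Representation.character, hg, map_one]
  by_contra hlt
  haveI : IsMulCommutative H := ⟨⟨fun a b => Subtype.ext (hH _ a.2 _ b.2)⟩⟩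
  haveI : Fintype H := Fintype.ofFinite _
  obtain ⟨θ, hθ⟩ := CfsgLib.Chars.Induced.exists_mult_ne_zero
    (CfsgLib.Chars.isCharacter_restrict (CfsgLib.Chars.isCharacter_coe χ) H)
    (fun e0 => (CfsgLib.Chars.charDegree_pos χ).ne' (by
      have := congrFun e0 1
      simp only [OneMemClass.coe_one, ← CfsgLib.Chars.coe_charDegree, Pi.zero_apply,
        Nat.cast_eq_zero] at this
      exact this))
  rw [← CfsgLib.Chars.Induced.mult_indFun_irr] at hθ
  have hI := CfsgLib.Chars.Induced.isCharacter_indFun H (CfsgLib.Chars.isCharacter_coe θ)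
  obtain ⟨s, hs, hsum⟩ := CfsgLib.Chars.Induced.exists_eq_sum_mult hI
  have h1 := congrFun hsum 1
  rw [CfsgLib.Chars.Induced.indFun_one_apply, CfsgLib.Chars.map_one_eq_one_of_isMulCommutative θ,
    mul_one, Finset.sum_apply] at h1
  simp only [Pi.smul_apply, smul_eq_mul, ← CfsgLib.Chars.coe_charDegree] at h1
  simp only [← Nat.cast_mul, ← Nat.cast_sum, Nat.cast_inj] at h1
  have hχs : χ ∈ s := (hs χ).2 hθ
  rw [← Finset.add_sum_erase _ _ hχs, h2] at h1
  have hm : 1 ≤ CfsgLib.Chars.Induced.mult (Cfsg.indFun H (θ : H → ℂ)) (χ : G → ℂ) :=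
    Nat.one_le_iff_ne_zero.2 hθ
  have hsE : s.erase χ = ∅ := by
    refine Finset.eq_empty_of_forall_notMem fun η hη => ?_
    have h3 := Finset.single_le_sum (f := fun η : Cfsg.IrrCharacter G =>
      CfsgLib.Chars.Induced.mult (Cfsg.indFun H (θ : H → ℂ)) (η : G → ℂ) *
        Cfsg.charDegree (η : G → ℂ)) (fun _ _ => Nat.zero_le _) hη
    have h4 : 0 < CfsgLib.Chars.Induced.mult (Cfsg.indFun H (θ : H → ℂ)) (η : G → ℂ) *
        Cfsg.charDegree (η : G → ℂ) := Nat.mul_pos
      (Nat.pos_of_ne_zero ((hs η).1 (Finset.mem_of_mem_erase hη)))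
      (CfsgLib.Chars.charDegree_pos η)
    omega
  rw [hsE, Finset.sum_empty] at h1
  have hm1 : CfsgLib.Chars.Induced.mult (Cfsg.indFun H (θ : H → ℂ)) (χ : G → ℂ) = 1 := by omega
  have hseq : s = {χ} := by
    rw [← Finset.insert_erase hχs, hsE]
    rfl
  rw [hseq, Finset.sum_singleton, hm1, Nat.cast_one, one_smul] at hsum
  refine hprim H (fun htop => ?_) _ (CfsgLib.Chars.isCharacter_coe θ) hsum.symm
  subst htop
  rw [Subgroup.index_top] at h1
  omega

end Cfsg.Agent.S4473
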