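import Cfsg.Statements.S4476
import Cfsg.Agent.Chars.FrobSchur.Count
import Mathlib.Algebra.Order.Chebyshev
open CfsgLib CfsgLib.FrobSchur

set_option autoImplicit false
open Cfsg

namespace Cfsg.Agent.S4476

/-- Let G be a finite group of even order g with exactly t involutions, and put α = (g − 1)/t (a rational number). Then (a) some non-identity element x of G has at most α² conjugates; and (b) some non-principal real-valued irreducible character of G has degree at most α. -/
theorem result {G : Type*} [Group G] [Fintype G] (heven : Even (Nat.card G)) (t : ℕ) (ht : Nat.card {x : G // orderOf x = 2} = t) : (∃ x : G, x ≠ 1 ∧ ((Subgroup.centralizer ({x} : Set G)).index : ℚ) ≤ (((Nat.card G : ℚ) - 1) / t) ^ 2) ∧ ∃ χ : Cfsg.IrrCharacter G, (χ : G → ℂ) ≠ (fun _ => 1) ∧ (∀ g : G, ((χ : G → ℂ) g).im = 0) ∧ (Cfsg.charDegree (χ : G → ℂ) : ℚ) ≤ ((Nat.card G : ℚ) - 1) / t := by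
  classical
  have ht0 : 0 < t := by
    haveI : Fact (Nat.Prime 2) := ⟨Nat.prime_two⟩
    obtain ⟨x, hx⟩ := exists_prime_orderOf_dvd_card' (G := G) 2 heven.two_dvd
    rw [← ht]
    haveI : Nonempty {x : G // orderOf x = 2} := ⟨⟨x, hx⟩⟩
    exact Nat.card_pos
  have ht' : t ≤ ∑ χ ∈ realNonprincipal G, Cfsg.charDegree (χ : G → ℂ) :=
    ht ▸ card_involutions_le_sum_real_degrees
  set R := realNonprincipal G
  set T := (Finset.univ : Finset (Cfsg.IrrCharacter G)).erase (Chars.oneChar G)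
  have hRT : R ⊆ T := fun χ hχ => by
    rw [Finset.mem_erase]
    refine ⟨fun e => (mem_realNonprincipal.1 hχ).1 ?_, Finset.mem_univ _⟩
    rw [e, coe_oneChar']
  have hsq : ∑ χ ∈ R, Cfsg.charDegree (χ : G → ℂ) ^ 2 + 1 ≤ Nat.card G := by
    rw [← sum_nonprincipal_degree_sq]
    exact Nat.add_le_add_right (Finset.sum_le_sum_of_subset hRT) 1
  set d : Cfsg.IrrCharacter G → ℚ := fun χ => (Cfsg.charDegree (χ : G → ℂ) : ℚ) with hd
  have htQ : (t : ℚ) ≤ ∑ χ ∈ R, d χ := by
    simpa [hd] using (Nat.cast_le (α := ℚ)).2 ht'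
  have hsqQ : ∑ χ ∈ R, d χ ^ 2 ≤ (Nat.card G : ℚ) - 1 := by
    rw [le_sub_iff_add_le]
    simpa [hd] using (Nat.cast_le (α := ℚ)).2 hsq
  have htp : (0 : ℚ) < t := by exact_mod_cast ht0
  set α : ℚ := ((Nat.card G : ℚ) - 1) / t with hα
  refine ⟨?_, ?_⟩
  · by_contra hne
    push Not at hne
    -- the conjugacy classes of non-identity elements
    let S := (Finset.univ : Finset (ConjClasses G)).erase (ConjClasses.mk 1)
    have hcount : (Nat.card G : ℚ) - 1 =
        ∑ C ∈ S, ((Nat.card C.carrier : ℕ) : ℚ) := by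
      have e : Fintype.card G = ∑ C : ConjClasses G, Nat.card C.carrier := by
        rw [← Fintype.card_congr (Equiv.sigmaFiberEquiv (ConjClasses.mk : G → ConjClasses G)),
          Fintype.card_sigma]
        refine Finset.sum_congr rfl fun C _ => ?_
        rw [← Nat.card_eq_fintype_card]
        exact Nat.card_congr (Equiv.subtypeEquivRight fun x => ConjClasses.mem_carrier_iff_mk_eq.symm)
      rw [← Finset.add_sum_erase _ _ (Finset.mem_univ (ConjClasses.mk (1 : G)))] at e
      have e1 : Nat.card (ConjClasses.mk (1 : G)).carrier = 1 := by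
        rw [Chars.card_carrier_eq_index, Subgroup.index_eq_one]
        ext x; simp [Subgroup.mem_centralizer_singleton_iff]
      rw [Nat.card_eq_fintype_card, e, e1]
      push_cast
      ring
    have hk : S.card = T.card := by
      rw [Finset.card_erase_of_mem (Finset.mem_univ _), Finset.card_erase_of_mem (Finset.mem_univ _),
        Finset.card_univ, Finset.card_univ, ← Nat.card_eq_fintype_card, ← Nat.card_eq_fintype_card,
        Chars.card_irrCharacter]
    have hS : S.Nonempty := by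
      rw [← Finset.card_pos, hk, Finset.card_pos]
      refine Finset.Nonempty.mono hRT ?_
      rw [Finset.nonempty_iff_ne_empty]
      intro h0
      rw [h0, Finset.sum_empty] at htQ
      linarith
    have hlt : ∑ _C ∈ S, α ^ 2 < ∑ C ∈ S, ((Nat.card C.carrier : ℕ) : ℚ) := by
      refine Finset.sum_lt_sum_of_nonempty hS fun C hC => ?_
      obtain ⟨x, rfl⟩ := ConjClasses.mk_surjective C
      rw [Chars.card_carrier_eq_index]
      exact hne x (fun e => (Finset.mem_erase.1 hC).1 (by rw [e]))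
    rw [← hcount, Finset.sum_const, nsmul_eq_mul, hk] at hlt
    have hcs : (∑ χ ∈ R, d χ) ^ 2 ≤ R.card * ∑ χ ∈ R, d χ ^ 2 := sq_sum_le_card_mul_sum_sq
    have hRc : (R.card : ℚ) ≤ T.card := by exact_mod_cast Finset.card_le_card hRT
    have hg : (0 : ℚ) ≤ (Nat.card G : ℚ) - 1 :=
      le_trans (Finset.sum_nonneg fun χ _ => sq_nonneg _) hsqQ
    have h1 : (t : ℚ) ^ 2 ≤ T.card * ((Nat.card G : ℚ) - 1) :=
      calc (t : ℚ) ^ 2 ≤ (∑ χ ∈ R, d χ) ^ 2 := pow_le_pow_left₀ htp.le htQ 2
        _ ≤ _ := hcs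
        _ ≤ _ := mul_le_mul hRc hsqQ (Finset.sum_nonneg fun χ _ => sq_nonneg _) (Nat.cast_nonneg _)
    have h2 : (T.card : ℚ) * α ^ 2 * (t : ℚ) ^ 2 = T.card * ((Nat.card G : ℚ) - 1) ^ 2 := by
      rw [hα, div_pow, mul_assoc, div_mul_cancel₀ _ (pow_ne_zero 2 htp.ne')]
    have h3 := mul_lt_mul_of_pos_right hlt (pow_pos htp 2)
    rw [h2] at h3
    nlinarith [mul_le_mul_of_nonneg_left h1 hg]
  · by_contra hne
    push Not at hne
    have hR : R.Nonempty := by
      rw [Finset.nonempty_iff_ne_empty]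
      intro h0
      rw [h0, Finset.sum_empty] at htQ
      linarith
    have hg : (0 : ℚ) ≤ α := div_nonneg
      (le_trans (Finset.sum_nonneg fun χ _ => sq_nonneg _) hsqQ) htp.le
    have h1 : α * ∑ χ ∈ R, d χ < ∑ χ ∈ R, d χ ^ 2 := by
      rw [Finset.mul_sum]
      refine Finset.sum_lt_sum_of_nonempty hR fun χ hχ => ?_
      obtain ⟨hn1, hre⟩ := mem_realNonprincipal.1 hχ
      have hlt : α < d χ := hne χ hn1 hre
      rw [sq]
      exact mul_lt_mul_of_pos_right hlt (lt_of_le_of_lt hg hlt)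
    have h2 : α * (t : ℚ) = (Nat.card G : ℚ) - 1 := div_mul_cancel₀ _ htp.ne'
    nlinarith [mul_le_mul_of_nonneg_left htQ hg]

end Cfsg.Agent.S4476
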