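import Cfsg.Statements.S4478
import Cfsg.Agent.Chars.Brauer.Defect
import Cfsg.Agent.Chars.FrobSchur.Count
-- import your own Cfsg.Agent.* helpers here

set_option autoImplicit false
open Cfsg

namespace Cfsg.Agent.S4478

/-- Let G be a finite group of even order and χ an irreducible character of G whose degree x is divisible by the full power of 2 dividing the order of G and, for every odd prime p such that G has an element of order 2p, by the full power of p dividing the order of G. Then all involutions of G are conjugate, the centralizer of every involution has order exactly x with x coprime to its index, and the Frobenius–Schur indicator of χ equals 1. -/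
theorem result {G : Type*} [Group G] [Fintype G] (heven : Even (Nat.card G)) (χ : Cfsg.IrrCharacter G) (h2 : 2 ^ (Nat.card G).factorization 2 ∣ Cfsg.charDegree (χ : G → ℂ)) (hp : ∀ p : ℕ, p.Prime → p ≠ 2 → (∃ g : G, orderOf g = 2 * p) → p ^ (Nat.card G).factorization p ∣ Cfsg.charDegree (χ : G → ℂ)) : (∀ s t : G, orderOf s = 2 → orderOf t = 2 → IsConj s t) ∧ (∀ s : G, orderOf s = 2 → Nat.card (Subgroup.centralizer ({s} : Set G)) = Cfsg.charDegree (χ : G → ℂ) ∧ (Nat.card (Subgroup.centralizer ({s} : Set G))).Coprime (Subgroup.centralizer ({s} : Set G)).index) ∧ (Nat.card G : ℂ)⁻¹ * ∑ g : G, (χ : G → ℂ) (g * g) = 1 := by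
  classical
  set d := Cfsg.charDegree (χ : G → ℂ) with hd
  have hG0 : Nat.card G ≠ 0 := Nat.card_pos.ne'
  -- the relevant primes
  let π : ℕ → Prop := fun q => q.Prime ∧ (q = 2 ∨ ∃ g : G, orderOf g = 2 * q)
  have hπ : ∀ q, π q → q ^ (Nat.card G).factorization q ∣ d := by
    rintro q ⟨hq, h | h⟩
    · subst h; exact h2
    · rcases eq_or_ne q 2 with rfl | hq2
      · exact h2
      · exact hp q hq hq2 h
  have hvan : ∀ q, π q → ∀ g : G, q ∣ orderOf g → (χ : G → ℂ) g = 0 := fun q hq g hg =>
    CfsgLib.Chars.Brauer.eq_zero_of_defect_zero hq.1 χ (Nat.ordProj_mul_ordCompl_eq_self _ q).symm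
      (Nat.not_dvd_ordCompl hq.1 hG0) (hπ q hq) hg
  -- centralizers of involutions
  have hCπ : ∀ s : G, orderOf s = 2 → ∀ q, q.Prime →
      q ∣ Nat.card (Subgroup.centralizer ({s} : Set G)) → π q := by
    intro s hs q hq hqd
    refine ⟨hq, ?_⟩
    rcases eq_or_ne q 2 with h | hq2
    · exact Or.inl h
    · right
      have : Fact q.Prime := ⟨hq⟩
      obtain ⟨y, hy⟩ := exists_prime_orderOf_dvd_card' q hqd
      refine ⟨s * (y : G), ?_⟩
      have hc : Commute s (y : G) :=
        (Subgroup.mem_centralizer_singleton_iff.1 y.2).symm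
      rw [hc.orderOf_mul_eq_mul_orderOf_of_coprime, hs, Subgroup.orderOf_coe, hy]
      rw [hs, Subgroup.orderOf_coe, hy]
      exact (Nat.coprime_primes Nat.prime_two hq).2 (Ne.symm hq2)
  have hCd : ∀ s : G, orderOf s = 2 → Nat.card (Subgroup.centralizer ({s} : Set G)) ∣ d := by
    intro s hs
    rw [Nat.dvd_iff_prime_pow_dvd_dvd]
    intro q j hq hj
    rcases Nat.eq_zero_or_pos j with rfl | hj0
    · simp
    refine dvd_trans (pow_dvd_pow q ?_) (hπ q (hCπ s hs q hq ((dvd_pow_self q hj0.ne').trans hj)))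
    exact (Nat.Prime.pow_dvd_iff_le_factorization hq hG0).1
      (hj.trans (Subgroup.card_subgroup_dvd_card _))
  have hcop : ∀ s : G, orderOf s = 2 → Nat.card (Subgroup.centralizer ({s} : Set G)) = d →
      (Nat.card (Subgroup.centralizer ({s} : Set G))).Coprime
        (Subgroup.centralizer ({s} : Set G)).index := by
    intro s hs he
    apply Nat.coprime_of_dvd
    intro q hq hqC hqi
    have h1 : q ^ (Nat.card G).factorization q ∣ Nat.card (Subgroup.centralizer ({s} : Set G)) := by
      rw [he]; exact hπ q (hCπ s hs q hq hqC)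
    have h3 := Nat.mul_dvd_mul h1 hqi
    rw [Subgroup.card_mul_index, ← pow_succ, Nat.Prime.pow_dvd_iff_le_factorization hq hG0] at h3
    omega
  -- the sum of the values at squares
  have h2G : 2 ∣ Nat.card G := heven.two_dvd
  have hd1 : d ≠ 1 := by
    intro h
    rw [h] at h2
    have h4 := Nat.Prime.factorization_pos_of_dvd Nat.prime_two hG0 h2G
    have h5 := Nat.le_of_dvd one_pos h2
    have h6 : 2 ^ 1 ≤ 2 ^ (Nat.card G).factorization 2 := Nat.pow_le_pow_right two_pos h4
    omega
  have hχ1 : χ ≠ CfsgLib.Chars.oneChar G := fun h => hd1 (by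
    rw [hd, h, ← Nat.cast_inj (R := ℂ), CfsgLib.Chars.coe_charDegree]; simp)
  have hsum0 : ∑ g : G, (χ : G → ℂ) g = 0 := by
    have h := CfsgLib.Chars.classInner_of_ne hχ1
    rw [Cfsg.classInner] at h
    simpa [Nat.card_pos.ne'] using h
  have hodd : ∀ g : G, ¬ Odd (orderOf g) → (χ : G → ℂ) g = 0 := fun g hg =>
    hvan 2 ⟨Nat.prime_two, Or.inl rfl⟩ g (Nat.not_odd_iff_even.1 hg).two_dvd
  set O : Finset G := Finset.univ.filter fun g => Odd (orderOf g)
  set I : Finset G := Finset.univ.filter fun g => orderOf g = 2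
  have hsqO : ∑ g ∈ O, (χ : G → ℂ) (g * g) = ∑ g ∈ O, (χ : G → ℂ) g := by
    refine Finset.sum_bij' (fun g _ => g * g) (fun g _ => g ^ ((orderOf g + 1) / 2)) ?_ ?_ ?_ ?_ ?_
    · intro g hg
      simp only [O, Finset.mem_filter, Finset.mem_univ, true_and] at hg ⊢
      rw [← pow_two, Nat.Coprime.orderOf_pow hg.coprime_two_right]
      exact hg
    · intro g hg
      simp only [O, Finset.mem_filter, Finset.mem_univ, true_and] at hg ⊢
      exact hg.of_dvd_nat (orderOf_pow_dvd _)
    · intro g hg
      simp only [O, Finset.mem_filter, Finset.mem_univ, true_and] at hg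
      rw [← pow_two, Nat.Coprime.orderOf_pow hg.coprime_two_right, ← pow_mul]
      obtain ⟨c, hc⟩ := hg
      rw [show 2 * ((orderOf g + 1) / 2) = orderOf g + 1 by omega, pow_succ, pow_orderOf_eq_one,
        one_mul]
    · intro g hg
      simp only [O, Finset.mem_filter, Finset.mem_univ, true_and] at hg
      obtain ⟨c, hc⟩ := hg
      rw [← pow_add, show (orderOf g + 1) / 2 + (orderOf g + 1) / 2 = orderOf g + 1 by omega,
        pow_succ, pow_orderOf_eq_one, one_mul]
    · intro g _; rfl
  have hO : ∑ g ∈ O, (χ : G → ℂ) g = 0 := by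
    rw [← hsum0]
    exact Finset.sum_subset (Finset.subset_univ _) fun g _ hg => hodd g (by simpa [O] using hg)
  have hrest : ∀ g : G, g ∉ O → g ∉ I → (χ : G → ℂ) (g * g) = 0 := by
    intro g hgO hgI
    simp only [O, I, Finset.mem_filter, Finset.mem_univ, true_and] at hgO hgI
    obtain ⟨m, hm⟩ := (Nat.not_odd_iff_even.1 hgO).two_dvd
    have hm0 : m ≠ 0 := fun h => (orderOf_pos g).ne' (by rw [hm, h, mul_zero])
    have hg2 : orderOf (g * g) = m := by
      rw [← pow_two, orderOf_pow_of_dvd two_ne_zero ⟨m, hm⟩, hm, Nat.mul_div_cancel_left _ two_pos]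
    obtain ⟨q, hq, hqm⟩ := Nat.exists_prime_and_dvd (show m ≠ 1 by omega)
    have hs : orderOf (g ^ m) = 2 := by
      rw [orderOf_pow_of_dvd hm0 ⟨2, by rw [hm, mul_comm]⟩, hm,
        Nat.mul_div_cancel _ (Nat.pos_of_ne_zero hm0)]
    refine hvan q (hCπ _ hs q hq (hqm.trans ?_)) _ (hqm.trans hg2.symm.dvd)
    have hmem : g * g ∈ Subgroup.centralizer ({g ^ m} : Set G) := by
      rw [Subgroup.mem_centralizer_singleton_iff, ← pow_two]
      exact (Commute.pow_pow_self g 2 m).eq
    have hdvd := Subgroup.orderOf_dvd_natCard _ hmem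
    rwa [hg2] at hdvd
  have htot : ∑ g : G, (χ : G → ℂ) (g * g) = (I.card : ℂ) * (d : ℂ) := by
    have hdisj : Disjoint O I := Finset.disjoint_filter.2 fun g _ h1 h2' => by
      rw [h2'] at h1; exact (Nat.not_odd_iff_even.2 even_two) h1
    rw [← Finset.sum_subset (Finset.subset_univ (O ∪ I)) (fun g _ hg => hrest g
      (fun h => hg (Finset.mem_union_left _ h)) (fun h => hg (Finset.mem_union_right _ h))),
      Finset.sum_union hdisj, hsqO, hO, zero_add, Finset.sum_congr rfl
        (g := fun _ => (χ : G → ℂ) 1) (fun g hg => by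
          have h := pow_orderOf_eq_one g
          rw [(Finset.mem_filter.1 hg).2, pow_two] at h
          rw [h]),
      Finset.sum_const, nsmul_eq_mul, hd, CfsgLib.Chars.coe_charDegree]
  -- each class contributes at least `|G| / d` involutions
  have hne : ∃ s : G, orderOf s = 2 := by
    have : Fact (Nat.Prime 2) := ⟨Nat.prime_two⟩
    exact exists_prime_orderOf_dvd_card' 2 h2G
  obtain ⟨s₀, hs₀⟩ := hne
  have hcls : ∀ s : G, orderOf s = 2 →
      Nat.card (Subgroup.centralizer ({s} : Set G)) *
        (I.filter fun g => IsConj s g).card = Nat.card G := by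
    intro s hs
    rw [← Subgroup.card_mul_index (Subgroup.centralizer ({s} : Set G)),
      ← CfsgLib.Chars.card_carrier_eq_index]
    congr 1
    rw [Nat.card_eq_fintype_card, ← Set.toFinset_card]
    congr 1
    ext g
    simp only [I, Finset.mem_filter, Finset.mem_univ, true_and, Set.mem_toFinset,
      ConjClasses.mem_carrier_iff_mk_eq, ConjClasses.mk_eq_mk_iff_isConj]
    refine ⟨fun h => h.2.symm, fun h => ⟨?_, h.symm⟩⟩
    obtain ⟨c, hc⟩ := isConj_iff.1 h.symm
    rw [← hc, ← MulAut.conj_apply, MulEquiv.orderOf_eq, hs]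
  have hpos : I.card ≠ 0 := Finset.card_ne_zero.2 ⟨s₀, by simp [I, hs₀]⟩
  have hd0 : d ≠ 0 := (CfsgLib.Chars.charDegree_pos χ).ne'
  have hind : CfsgLib.FrobSchur.indicator (χ : G → ℂ) = 1 ∧ I.card * d = Nat.card G := by
    have he : CfsgLib.FrobSchur.indicator (χ : G → ℂ) =
        ((I.card * d : ℕ) : ℂ) / (Nat.card G : ℂ) := by
      rw [CfsgLib.FrobSchur.indicator_def, htot, Nat.cast_mul]; ring
    have hGC : (Nat.card G : ℂ) ≠ 0 := Nat.cast_ne_zero.2 hG0
    rcases CfsgLib.FrobSchur.irr_trichotomy χ.2 with h | h | h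
    · exfalso
      rw [he, div_eq_zero_iff, or_iff_left hGC, Nat.cast_eq_zero, mul_eq_zero] at h
      exact h.elim hpos hd0
    · refine ⟨h, ?_⟩
      rw [he, div_eq_one_iff_eq hGC] at h
      exact_mod_cast h
    · exfalso
      rw [he, div_eq_iff hGC, neg_one_mul, eq_neg_iff_add_eq_zero, ← Nat.cast_add,
        Nat.cast_eq_zero] at h
      omega
  have hfull : ∀ s : G, orderOf s = 2 → Nat.card (Subgroup.centralizer ({s} : Set G)) = d ∧
      (I.filter fun g => IsConj s g) = I := by
    intro s hs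
    have e := hcls s hs
    have hk : (I.filter fun g => IsConj s g).card ≤ I.card := Finset.card_filter_le _ _
    have hc : Nat.card (Subgroup.centralizer ({s} : Set G)) ≤ d :=
      Nat.le_of_dvd (Nat.pos_of_ne_zero hd0) (hCd s hs)
    have h1 : I.card ≤ (I.filter fun g => IsConj s g).card := by
      have := Nat.mul_le_mul_right (I.filter fun g => IsConj s g).card hc
      rw [e, ← hind.2, mul_comm] at this
      exact Nat.le_of_mul_le_mul_left this (Nat.pos_of_ne_zero hd0)
    refine ⟨?_, Finset.eq_of_subset_of_card_le (Finset.filter_subset _ _) h1⟩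
    rw [le_antisymm hk h1, ← hind.2, mul_comm] at e
    exact Nat.eq_of_mul_eq_mul_left (Nat.pos_of_ne_zero hpos) e
  refine ⟨fun s t hs ht => ?_, fun s hs => ⟨(hfull s hs).1, hcop s hs (hfull s hs).1⟩, ?_⟩
  · have : t ∈ I := by simp [I, ht]
    rw [← (hfull s hs).2] at this
    exact (Finset.mem_filter.1 this).2
  · rw [← CfsgLib.FrobSchur.indicator_def]
    exact hind.1

end Cfsg.Agent.S4478
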