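import Cfsg.Statements.S4480
import Cfsg.Agent.Eq.Def_Blocks
import Cfsg.Agent.KleinFourBlock.Formula
import Cfsg.Agent.S4479

set_option autoImplicit false
open Cfsg

namespace Cfsg.Agent.S4480

/-- Same setting as the Klein-four order formula: G of order 4·g₀ (g₀ odd) with no normal 2-complement, P a Sylow 2-subgroup, J an involution of P, M over 2, principal 2-block {1, χ₁, χ₂, χ₃} with χ_i(J) = ε_i = ±1. Suppose ε₁ε₂ε₃ = −1 and ε₃ = −1, and put q = x₃ = χ₃(1). Then there is a natural number m with 4·c(J) = m·c(P)·(q + 1), and the order of G equals (m³·c(P)/4)·(q³ − q)/2, that is 8·#G = m³·c(P)·(q³ − q). -/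
theorem result {G : Type*} [Group G] [Finite G] (M : Ideal Cfsg.AlgInt) (hM : Cfsg.IsPModular 2 M) (g₀ : ℕ) (hg₀ : Odd g₀) (hG : Nat.card G = 4 * g₀) (hnc : ¬ ∃ N : Subgroup G, N.Normal ∧ Nat.card N = g₀) (P : Sylow 2 G) (J : G) (hJ : J ∈ (P : Subgroup G)) (hJ2 : orderOf J = 2) (χ₁ χ₂ χ₃ : Cfsg.IrrCharacter G) (ε₁ ε₂ ε₃ : ℤ) (hB : Cfsg.principalBlock M G = {χ : Cfsg.IrrCharacter G | (χ : G → ℂ) = (fun _ => 1) ∨ χ = χ₁ ∨ χ = χ₂ ∨ χ = χ₃}) (hdist : (χ₁ : G → ℂ) ≠ (fun _ => 1) ∧ (χ₂ : G → ℂ) ≠ (fun _ => 1) ∧ (χ₃ : G → ℂ) ≠ (fun _ => 1) ∧ χ₁ ≠ χ₂ ∧ χ₁ ≠ χ₃ ∧ χ₂ ≠ χ₃) (hε : (ε₁ = 1 ∨ ε₁ = -1) ∧ (ε₂ = 1 ∨ ε₂ = -1) ∧ (ε₃ = 1 ∨ ε₃ = -1)) (hval : (χ₁ : G → ℂ) J = ε₁ ∧ (χ₂ : G → ℂ) J = ε₂ ∧ (χ₃ : G → ℂ) J = ε₃) (hprod : ε₁ * ε₂ * ε₃ = -1) (hε₃ : ε₃ = -1) : ∃ m : ℕ, 4 * Nat.card (Subgroup.centralizer ({J} : Set G)) = m * Nat.card (Subgroup.centralizer ((P : Subgroup G) : Set G)) * (Cfsg.charDegree (χ₃ : G → ℂ) + 1) ∧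 8 * Nat.card G = m ^ 3 * Nat.card (Subgroup.centralizer ((P : Subgroup G) : Set G)) * (Cfsg.charDegree (χ₃ : G → ℂ) ^ 3 - Cfsg.charDegree (χ₃ : G → ℂ)) := by
  classical
  haveI := Fintype.ofFinite G
  haveI : Fact (Nat.Prime 2) := ⟨Nat.prime_two⟩
  have hP := CfsgLib.KleinFourBlock.isKleinFour_of_no_complement hg₀ hG hnc P
  have hone := CfsgLib.KleinFourBlock.isConj_of_no_complement hg₀ hG hnc P
  have hdeg : (1 : ℂ) + ((ε₁ : ℂ) * (χ₁ : G → ℂ) 1 + ((ε₂ : ℂ) * (χ₂ : G → ℂ) 1 + (ε₃ : ℂ) * (χ₃ : G → ℂ) 1)) = 0 := by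
    have h := CfsgLib.KleinFourBlock.sum_block_mul hM hP hone hJ2 1
    rw [Cfsg.Agent.S4479.sum_four M χ₁ χ₂ χ₃ hB hdist, if_neg (by rw [orderOf_one]; norm_num),
      CfsgLib.Chars.oneChar_apply, CfsgLib.Chars.oneChar_apply, hval.1, hval.2.1, hval.2.2, one_mul] at h
    exact h
  simp only [← CfsgLib.Chars.coe_charDegree] at hdeg
  have hx₁ := CfsgLib.Chars.charDegree_pos χ₁
  have hx₂ := CfsgLib.Chars.charDegree_pos χ₂
  have hx₃ := CfsgLib.Chars.charDegree_pos χ₃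
  have hdeg' : (1 : ℤ) + (ε₁ * (Cfsg.charDegree (χ₁ : G → ℂ) : ℤ) + (ε₂ * (Cfsg.charDegree (χ₂ : G → ℂ) : ℤ) +
      ε₃ * (Cfsg.charDegree (χ₃ : G → ℂ) : ℤ))) = 0 := by exact_mod_cast hdeg
  subst hε₃
  obtain ⟨h12, h23⟩ : ε₁ = 1 ∧ ε₂ = 1 := by
    rcases hε.1 with h | h <;> rcases hε.2.1 with h' | h' <;> subst h h'
    · exact ⟨rfl, rfl⟩
    · norm_num at hprod
    · norm_num at hprod
    · exfalso; linarith
  subst h12 h23
  push_cast at hval
  have hJ1 : ∀ χ ∈ Cfsg.principalBlock M G, (χ : G → ℂ) J = -1 → χ = χ₃ := by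
    intro χ hχ h
    rw [hB, Set.mem_ofPred_eq] at hχ
    rcases hχ with h' | h' | h' | h'
    · rw [h'] at h; norm_num at h
    · rw [h', hval.1] at h; norm_num at h
    · rw [h', hval.2.1] at h; norm_num at h
    · exact h'
  have hB' : ∀ χ : Cfsg.IrrCharacter G, (χ = χ₁ ∨ χ = χ₂ ∨ χ = χ₃) → χ ∈ Cfsg.principalBlock M G :=
    fun χ h => by rw [hB]; exact Or.inr h
  have hodd : ∀ (χ : Cfsg.IrrCharacter G) (v : ℤ), (χ : G → ℂ) J = v → Odd v → Odd (Cfsg.charDegree (χ : G → ℂ)) := by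
    intro χ v hv hvo
    obtain ⟨n, hn, hpar⟩ := Cfsg.Agent.S0944.result χ J hJ2
    rw [hn] at hv
    have hv' : n = v := by exact_mod_cast hv
    subst hv'
    obtain ⟨r, hr⟩ := hvo
    obtain ⟨s, hs⟩ := hpar
    rw [← Int.odd_coe_nat]
    exact ⟨r + s, by linarith⟩
  -- the first two characters are complex conjugate
  have hx12 : Cfsg.charDegree (χ₁ : G → ℂ) = Cfsg.charDegree (χ₂ : G → ℂ) := by
    obtain ⟨ψ, hψ, hψv⟩ := CfsgLib.KleinFourBlock.exists_conj_mem (hB' χ₁ (Or.inl rfl))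
    have hψJ : (ψ : G → ℂ) J = 1 := by rw [hψv, hval.1, map_one]
    by_cases h : ψ = χ₂
    · have := hψv 1
      rw [h, ← CfsgLib.Chars.coe_charDegree, ← CfsgLib.Chars.coe_charDegree, map_natCast] at this
      exact_mod_cast this.symm
    exfalso
    have hψ1 : ψ = χ₁ := by
      have hψ' := hψ
      rw [hB, Set.mem_ofPred_eq] at hψ'
      rcases hψ' with h' | h' | h' | h'
      · exfalso
        refine hdist.1 (funext fun g => ?_)
        have := congrArg (starRingEnd ℂ) (hψv g)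
        rw [h', map_one, Complex.conj_conj] at this
        exact this.symm
      · exact h'
      · exact absurd h' h
      · rw [h', hval.2.2] at hψJ; norm_num at hψJ
    have hreal1 : ∀ g, ((χ₁ : G → ℂ) g).im = 0 := fun g => by
      have := hψv g
      rw [hψ1] at this
      exact Complex.conj_eq_iff_im.1 this.symm
    have hreal3 : ∀ g, ((χ₃ : G → ℂ) g).im = 0 := by
      obtain ⟨φ, hφ, hφv⟩ := CfsgLib.KleinFourBlock.exists_conj_mem (hB' χ₃ (Or.inr (Or.inr rfl)))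
      have := hJ1 φ hφ (by rw [hφv, hval.2.2, map_neg, map_one])
      intro g
      have h' := hφv g
      rw [this] at h'
      exact Complex.conj_eq_iff_im.1 h'.symm
    have hreal2 : ∀ g, ((χ₂ : G → ℂ) g).im = 0 := by
      obtain ⟨φ, hφ, hφv⟩ := CfsgLib.KleinFourBlock.exists_conj_mem (hB' χ₂ (Or.inr (Or.inl rfl)))
      rw [hB, Set.mem_ofPred_eq] at hφ
      intro g
      rcases hφ with h' | h' | h' | h'
      · exfalso
        refine hdist.2.1 (funext fun g => ?_)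
        have := congrArg (starRingEnd ℂ) (hφv g)
        rw [h', map_one, Complex.conj_conj] at this
        exact this.symm
      · exfalso
        refine hdist.2.2.2.1 (Subtype.ext (funext fun g => ?_))
        have := congrArg (starRingEnd ℂ) (hφv g)
        rw [h', Complex.conj_conj, Complex.conj_eq_iff_im.2 (hreal1 g)] at this
        exact this
      · have h'' := hφv g
        rw [h'] at h''
        exact Complex.conj_eq_iff_im.1 h''.symm
      · exfalso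
        have := hφv J
        rw [h', hval.2.2, hval.2.1, map_one] at this
        norm_num at this
    have hν : ∀ (χ : Cfsg.IrrCharacter G) (v : ℤ), (χ : G → ℂ) J = v → Odd v →
        (∀ g, ((χ : G → ℂ) g).im = 0) → CfsgLib.FrobSchur.indicator (χ : G → ℂ) = 1 :=
      fun χ v hv hvo hr => CfsgLib.FrobSchur.irr_eq_one_of_odd χ.2 hr
        (CfsgLib.Chars.coe_charDegree χ).symm (hodd χ v hv hvo)
    have hsum := CfsgLib.KleinFourBlock.sum_indicator_block hM hP hone hJ2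
    rw [Cfsg.Agent.S4479.sum_four M χ₁ χ₂ χ₃ hB hdist, CfsgLib.Chars.oneChar_apply,
      CfsgLib.Chars.oneChar_coe, CfsgLib.FrobSchur.indicator_one,
      hν χ₁ 1 (by rw [hval.1, Int.cast_one]) odd_one hreal1,
      hν χ₂ 1 (by rw [hval.2.1, Int.cast_one]) odd_one hreal2,
      hν χ₃ (-1) (by rw [hval.2.2, Int.cast_neg, Int.cast_one]) odd_one.neg hreal3,
      hval.1, hval.2.1, hval.2.2] at hsum
    norm_num at hsum
  set x := Cfsg.charDegree (χ₁ : G → ℂ) with hxdef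
  rw [← hx12] at hdeg hdeg'
  set q := Cfsg.charDegree (χ₃ : G → ℂ) with hqdef
  have hq : q = 2 * x + 1 := by omega
  -- the order formula
  have hcube := CfsgLib.KleinFourBlock.card_mul_sum_cube hM hP hone hJ2
  rw [Cfsg.Agent.S4479.sum_four M χ₁ χ₂ χ₃ hB hdist, CfsgLib.Chars.oneChar_apply,
    CfsgLib.Chars.oneChar_apply, hval.1, hval.2.1, hval.2.2,
    ← CfsgLib.Chars.coe_charDegree, ← CfsgLib.Chars.coe_charDegree, ← CfsgLib.Chars.coe_charDegree,
    ← hx12, ← hxdef, ← hqdef] at hcube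
  haveI := hP
  haveI : Nontrivial (P : Subgroup G) :=
    Finite.one_lt_card_iff_nontrivial.1 (by rw [hP.card_four]; norm_num)
  obtain ⟨a, haP, ha1, haJ⟩ : ∃ a : G, a ∈ (P : Subgroup G) ∧ a ≠ 1 ∧ a ≠ J := by
    by_contra hcon
    push Not at hcon
    have h : Nat.card (P : Subgroup G) ≤ ({1, J} : Finset G).card := by
      rw [← Nat.card_eq_finsetCard]
      refine Nat.card_le_card_of_injective (fun y => ⟨(y : G), ?_⟩) fun y y' h =>
        Subtype.ext (congrArg Subtype.val h :)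
      simp only [Finset.mem_insert, Finset.mem_singleton]
      by_contra h'
      rw [not_or] at h'
      exact h'.2 (hcon y y.2 h'.1)
    have := Finset.card_le_two (a := (1 : G)) (b := J)
    rw [hP.card_four] at h
    omega
  have hJa : Commute J a :=
    (Subgroup.mem_centralizer_singleton_iff.1 (CfsgLib.KleinFourBlock.le_centralizer hP hJ haP)).symm
  have hN := CfsgLib.KleinFourBlock.card_cls hP hone hJ2 hJ2
    (CfsgLib.KleinFourBlock.orderOf_eq_two_of_mem hP haP ha1) hJa haJ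
  set N := Nat.card (CfsgLib.KleinFourBlock.cls J a)
  set c := Nat.card (Subgroup.centralizer ({J} : Set G)) with hcdef
  set cP := Nat.card (Subgroup.centralizer ((P : Subgroup G) : Set G)) with hcPdef
  set i := (Subgroup.centralizer ({J} : Set G)).index with hidef
  have hGi : Nat.card G = c * i := (Subgroup.card_mul_index _).symm
  have hcP0 : cP ≠ 0 := Nat.card_pos.ne'
  have hc0 : c ≠ 0 := Nat.card_pos.ne'
  have hkey : i * (x + 1) ^ 2 = 4 * N ^ 2 * (x * q) := by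
    have hxC : (x : ℂ) ≠ 0 := Nat.cast_ne_zero.2 hx₁.ne'
    have hqC : (q : ℂ) ≠ 0 := Nat.cast_ne_zero.2 hx₃.ne'
    have hqC' : (q : ℂ) = 2 * (x : ℂ) + 1 := by exact_mod_cast hq
    have hcne : (c : ℂ) * (cP : ℂ) ^ 2 ≠ 0 :=
      mul_ne_zero (Nat.cast_ne_zero.2 hc0) (pow_ne_zero _ (Nat.cast_ne_zero.2 hcP0))
    have hN' : (N : ℂ) * cP = c := by exact_mod_cast hN
    have h : ((i * (x + 1) ^ 2 : ℕ) : ℂ) = ((4 * N ^ 2 * (x * q) : ℕ) : ℂ) := by
      refine mul_left_cancel₀ hcne ?_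
      push_cast
      rw [hGi, Nat.cast_mul] at hcube
      field_simp at hcube
      rw [hqC'] at hcube ⊢
      linear_combination ((c : ℂ) / 2) * hcube -
        (4 * (x : ℂ) * (2 * x + 1) * c * ((N : ℂ) * cP + c)) * hN'
    exact_mod_cast h
  have hqi : q ∣ i := by
    refine CfsgLib.Chars.dvd_of_isIntegral_div hx₃.ne' ?_
    have h := CfsgLib.Chars.isIntegral_centralChar χ₃ J
    rw [Cfsg.centralChar, hval.2.2, ← CfsgLib.Chars.coe_charDegree, ← hqdef, ← hidef] at h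
    have e : (i : ℂ) / (q : ℂ) = -((i : ℂ) * (-1) / (q : ℂ)) := by ring
    rw [e]
    exact h.neg
  obtain ⟨i', hi'⟩ := hqi
  rw [hi'] at hkey hGi
  have hkey' : i' * (x + 1) ^ 2 = 4 * N ^ 2 * x :=
    Nat.eq_of_mul_eq_mul_left hx₃ (by linarith)
  have hxi : x ∣ i' := by
    refine Nat.Coprime.dvd_of_dvd_mul_right ?_ (Dvd.intro_left _ hkey'.symm)
    exact (Nat.coprime_self_add_right.2 (Nat.coprime_one_right x)).pow_right 2
  obtain ⟨j, rfl⟩ := hxi
  have hkey'' : j * (x + 1) ^ 2 = (2 * N) ^ 2 :=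
    Nat.eq_of_mul_eq_mul_left hx₁ (by linarith)
  obtain ⟨m, hm⟩ : x + 1 ∣ 2 * N :=
    (Nat.pow_dvd_pow_iff two_ne_zero).1 (Dvd.intro_left _ hkey'')
  have hj : j = m ^ 2 := Nat.eq_of_mul_eq_mul_right (pow_pos (Nat.succ_pos x) 2) (by
    rw [hm] at hkey''
    show j * (x + 1) ^ 2 = m ^ 2 * (x + 1) ^ 2
    linarith)
  refine ⟨m, ?_, ?_⟩
  · rw [← hN, hq]
    calc 4 * (N * cP) = 2 * (2 * N) * cP := by ring
      _ = _ := by rw [hm]; ring
  · have hsub : q ^ 3 - q = q * (2 * x) * (2 * (x + 1)) := by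
      refine Nat.sub_eq_of_eq_add ?_
      rw [hq]; ring
    rw [hsub, hGi, ← hN, hj]
    calc 8 * (N * cP * (q * (x * m ^ 2))) = 4 * (2 * N) * cP * (q * (x * m ^ 2)) := by ring
      _ = _ := by rw [hm]; ring

end Cfsg.Agent.S4480
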