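import Cfsg.Statements.S4481
import Cfsg.Agent.DihedralBlock.Block

set_option autoImplicit false
open Cfsg

namespace Cfsg.Agent.S4481

/-- The principal 2-block of a group with dihedral Sylow 2-subgroups. Let G be a finite group whose Sylow 2-subgroup P is dihedral of order 2^n ≥ 8, let σ be an element of P of order 2^(n−1), ζ a primitive 2^(n−1)-th root of unity, and M a maximal ideal of the algebraic integers containing 2. Then the principal 2-block consists of exactly 3 + 2^(n−2) irreducible characters, which can be labelled 1, χ₁, χ₂, χ₃ and χ^(j) for 1 ≤ j ≤ 2^(n−2) − 1 (all distinct), with signs δ₁, δ₂, δ₃ such that for 0 < λ < 2^(n−1): χ₁(σ^λ) = δ₁, χ₂(σ^λ) = δ₂(−1)^(λ+1), χ₃(σ^λ) = δ₃(−1)^(λ+1) and χ^(j)(σ^λ) = δ₁(ζ^(jλ) + ζ^(−jλ)); and for every element ρ of odd order and every j: 1 + δ₁χ₁(ρ) = −δ₂χ₂(ρ) − δ₃χ₃(ρ) = δ₁χ^(j)(ρ). -/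
theorem result {G : Type*} [Group G] [Finite G] (M : Ideal Cfsg.AlgInt) (hM : Cfsg.IsPModular 2 M) (n : ℕ) (hn : 3 ≤ n) (P : Sylow 2 G) (hP : Nonempty ((P : Subgroup G) ≃* DihedralGroup (2 ^ (n - 1)))) (σ : G) (hσ : σ ∈ (P : Subgroup G)) (hσo : orderOf σ = 2 ^ (n - 1)) (ζ : ℂ) (hζ : IsPrimitiveRoot ζ (2 ^ (n - 1))) : Nat.card (Cfsg.principalBlock M G) = 3 + 2 ^ (n - 2) ∧ ∃ (χ₁ χ₂ χ₃ : Cfsg.IrrCharacter G) (χ' : Fin (2 ^ (n - 2) - 1) → Cfsg.IrrCharacter G) (δ₁ δ₂ δ₃ : ℤ), (δ₁ = 1 ∨ δ₁ = -1) ∧ (δ₂ = 1 ∨ δ₂ = -1) ∧ (δ₃ = 1 ∨ δ₃ = -1) ∧ Function.Injective χ' ∧ (χ₁ : G → ℂ) ≠ (fun _ => 1) ∧ (χ₂ : G → ℂ) ≠ (fun _ => 1) ∧ (χ₃ : G → ℂ) ≠ (fun _ => 1) ∧ χ₁ ≠ χ₂ ∧ χ₁ ≠ χ₃ ∧ χ₂ ≠ χ₃ ∧ (∀ j, χ' j ≠ χ₁ ∧ χ' j ≠ χ₂ ∧ χ' j ≠ χ₃ ∧ (χ' j : G → ℂ) ≠ (fun _ => 1)) ∧ Cfsg.principalBlock M G = {χ : Cfsg.IrrCharacter G | (χ : G → ℂ) = (fun _ => 1) ∨ χ = χ₁ ∨ χ =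 χ₂ ∨ χ = χ₃ ∨ ∃ j, χ = χ' j} ∧ (∀ l : ℕ, 0 < l → l < 2 ^ (n - 1) → (χ₁ : G → ℂ) (σ ^ l) = δ₁ ∧ (χ₂ : G → ℂ) (σ ^ l) = δ₂ * (-1) ^ (l + 1) ∧ (χ₃ : G → ℂ) (σ ^ l) = δ₃ * (-1) ^ (l + 1) ∧ ∀ j : Fin (2 ^ (n - 2) - 1), (χ' j : G → ℂ) (σ ^ l) = δ₁ * (ζ ^ (((j : ℕ) + 1) * l) + (ζ ^ (((j : ℕ) + 1) * l))⁻¹)) ∧ ∀ ρ : G, Odd (orderOf ρ) → ∀ j : Fin (2 ^ (n - 2) - 1), 1 + δ₁ * (χ₁ : G → ℂ) ρ = -δ₂ * (χ₂ : G → ℂ) ρ - δ₃ * (χ₃ : G → ℂ) ρ ∧ 1 + δ₁ * (χ₁ : G → ℂ) ρ = δ₁ * (χ' j : G → ℂ) ρ := by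
  classical
  obtain ⟨e⟩ := hP
  obtain ⟨m, x, y, hm, h⟩ := CfsgLib.FusionTwo.exists_isDihGen P.isPGroup'
    (le_trans (by norm_num) (Nat.pow_le_pow_right (by norm_num) (by omega : 1 ≤ n - 1))) e
  obtain rfl : m = n - 1 := (Nat.pow_right_injective le_rfl hm).symm
  have hσs : σ * σ ≠ 1 := fun e1 => by
    have h1 := orderOf_dvd_of_pow_eq_one (x := σ) (n := 2) (by rw [pow_two, e1])
    rw [hσo] at h1
    have := Nat.le_of_dvd two_pos ((pow_dvd_pow 2 (show 2 ≤ n - 1 by omega)).trans h1)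
    omega
  obtain ⟨i, hi⟩ := CfsgLib.DihedralBlock.rot_of_sq_ne_one h hσ hσs
  have hle : Subgroup.zpowers σ ≤ Subgroup.zpowers x :=
    Subgroup.zpowers_le.2 (hi ▸ Subgroup.zpow_mem_zpowers x i)
  have hg : CfsgLib.FusionTwo.IsDihGen (P : Subgroup G) (n - 1) σ y :=
    ⟨h.one_le, h.card, hσ, h.y_mem, hσo, h.oy, by rw [hi, ← conj_zpow, h.rel, inv_zpow],
      fun hy => h.y_not_mem (hle hy)⟩
  obtain ⟨C, Y, Z, U, a, b, c, ha, hb, hc, hC1, hY1, hZ1, hCY, hCZ, hYZ, hU, hUinj, hmem, hval, hreg⟩ :=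
    CfsgLib.DihedralBlock.exists_table hg (by omega) hM
      (AddChar.zmodChar_primitive_of_primitive_root (2 ^ (n - 1)) hζ)
  rw [show n - 1 - 1 = n - 2 by omega] at hU hUinj hmem hval hreg
  have hone : ∀ χ : Cfsg.IrrCharacter G, (χ : G → ℂ) = (fun _ => 1) ↔ χ = CfsgLib.Chars.oneChar G :=
    fun χ => (CfsgLib.Chars.eq_oneChar_iff χ).symm
  let χ' : Fin (2 ^ (n - 2) - 1) → Cfsg.IrrCharacter G := fun j => U ((j : ℕ) + 1)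
  have hlt : ∀ j : Fin (2 ^ (n - 2) - 1), 1 ≤ (j : ℕ) + 1 ∧ (j : ℕ) + 1 < 2 ^ (n - 2) := fun j =>
    ⟨by omega, by have := j.2; omega⟩
  have hinj : Function.Injective χ' := fun i j e => Fin.ext (by
    have := hUinj _ _ (hlt i).1 (hlt i).2 (hlt j).1 (hlt j).2 e
    omega)
  have hset : Cfsg.principalBlock M G = {χ : Cfsg.IrrCharacter G | (χ : G → ℂ) = (fun _ => 1) ∨
      χ = C ∨ χ = Y ∨ χ = Z ∨ ∃ j, χ = χ' j} := by
    ext χ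
    rw [hmem, Set.mem_setOf_eq, hone]
    refine or_congr Iff.rfl (or_congr Iff.rfl (or_congr Iff.rfl (or_congr Iff.rfl ⟨?_, ?_⟩)))
    · rintro ⟨k, hk1, hk, rfl⟩
      exact ⟨⟨k - 1, by omega⟩, by simp [χ', show k - 1 + 1 = k by omega]⟩
    · rintro ⟨j, rfl⟩
      exact ⟨_, (hlt j).1, (hlt j).2, rfl⟩
  refine ⟨?_, C, Y, Z, χ', -a, -b, -c, by omega, by omega, by omega, hinj,
    fun e1 => hC1 ((hone C).1 e1), fun e1 => hY1 ((hone Y).1 e1), fun e1 => hZ1 ((hone Z).1 e1),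
    hCY, hCZ, hYZ, fun j => ?_, hset, fun l hl hl' => ?_, fun ρ hρ j => ?_⟩
  · have e2 : Cfsg.principalBlock M G =
        ↑(({CfsgLib.Chars.oneChar G, C, Y, Z} : Finset (Cfsg.IrrCharacter G)) ∪
          Finset.univ.image χ') := by
      rw [hset]
      ext χ
      simp [hone, or_assoc, eq_comm]
    rw [e2, Nat.card_coe_set_eq, Set.ncard_coe_finset, Finset.card_union_of_disjoint]
    · rw [Finset.card_image_of_injective _ hinj, Finset.card_univ, Fintype.card_fin,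
        Finset.card_insert_of_notMem (by simp [hC1.symm, hY1.symm, hZ1.symm]),
        Finset.card_insert_of_notMem (by simp [hCY, hCZ]), Finset.card_pair hYZ]
      have := Nat.two_pow_pos (n - 2)
      omega
    · rw [Finset.disjoint_right]
      intro χ hχ
      obtain ⟨j, -, rfl⟩ := Finset.mem_image.1 hχ
      obtain ⟨h1, h2, h3, h4⟩ := hU _ (hlt j).1 (hlt j).2
      simp [χ', h1, h2, h3, h4]
  · obtain ⟨h1, h2, h3, h4⟩ := hU _ (hlt j).1 (hlt j).2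
    exact ⟨h2, h3, h4, fun e1 => h1 ((hone _).1 e1)⟩
  · have hrot : CfsgLib.DihedralBlock.rot σ (l : ZMod (2 ^ (n - 1))) = σ ^ l := by
      have := CfsgLib.DihedralBlock.rot_intCast hg (l : ℤ)
      rw [Int.cast_natCast, zpow_natCast] at this
      exact this
    have hl0 : (l : ZMod (2 ^ (n - 1))) ≠ 0 := fun e1 => by
      rw [ZMod.natCast_eq_zero_iff] at e1
      have := Nat.le_of_dvd hl e1
      omega
    obtain ⟨vC, vY, vZ, vU⟩ := hval _ hl0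
    simp only [CfsgLib.DihedralBlock.rotVal, hrot] at vC vY vZ vU
    have hψ : AddChar.zmodChar (2 ^ (n - 1)) ((IsPrimitiveRoot.iff_def ζ _).mp hζ).left
        (CfsgLib.DihedralBlock.half (n - 1) * (l : ZMod (2 ^ (n - 1)))) = (-1 : ℂ) ^ l := by
      rw [mul_comm, ← nsmul_eq_mul, AddChar.map_nsmul_eq_pow,
        CfsgLib.DihedralBlock.apply_half (AddChar.zmodChar_primitive_of_primitive_root _ hζ) hg]
    refine ⟨by rw [vC]; push_cast; ring, ?_, ?_, fun j => ?_⟩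
    · rw [vY, hψ, pow_succ]; push_cast; ring
    · rw [vZ, hψ, pow_succ]; push_cast; ring
    · rw [vU _ (hlt j).1 (hlt j).2, AddChar.map_neg_eq_inv, ← Nat.cast_mul, AddChar.zmodChar_apply']
      push_cast
      ring
  · obtain ⟨r1, r2⟩ := hreg ρ hρ.not_two_dvd_nat
    have r3 := r2 _ (hlt j).1 (hlt j).2
    refine ⟨?_, ?_⟩
    · push_cast
      linear_combination (-1 : ℂ) * r1
    · push_cast
      simp only [χ']
      linear_combination (-1 : ℂ) * r3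

end Cfsg.Agent.S4481
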