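import Cfsg.Statements.S4482
import Cfsg.Agent.DihedralBlock.OneClass

set_option autoImplicit false
open Cfsg

namespace Cfsg.Agent.S4482

/-- An order formula for groups with dihedral Sylow 2-subgroups and one class of involutions. Let G be a finite group whose Sylow 2-subgroup P = ⟨σ, τ⟩ is dihedral of order 2^n ≥ 8 (σ of order 2^(n−1), τ an involution inverting σ), let J be the central involution σ^(2^(n−2)), and suppose J, τ and στ are conjugate in G. Fix M over 2 and let χ₁ be an irreducible character in the principal 2-block taking one constant value δ₁ = ±1 at every non-identity power of σ, with χ₁ ≠ 1. Then, with x₁ = χ₁(1) and c(·) denoting orders of centralizers, x₁ ≠ δ₁ and #G · (x₁ − δ₁)² = 2·x₁(x₁ + δ₁)·c(J)³·(1/c(J, τ) + 1/c(J, στ))², where c(J, y) is the order of the joint centralizer of J and y. -/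
theorem result {G : Type*} [Group G] [Finite G] (M : Ideal Cfsg.AlgInt) (hM : Cfsg.IsPModular 2 M) (n : ℕ) (hn : 3 ≤ n) (P : Sylow 2 G) (σ τ : G) (hσ : σ ∈ (P : Subgroup G)) (hτ : τ ∈ (P : Subgroup G)) (hσo : orderOf σ = 2 ^ (n - 1)) (hτo : orderOf τ = 2) (hrel : τ * σ * τ⁻¹ = σ⁻¹) (hgen : Subgroup.closure ({σ, τ} : Set G) = (P : Subgroup G)) (hconj : IsConj (σ ^ (2 ^ (n - 2))) τ ∧ IsConj (σ ^ (2 ^ (n - 2))) (σ * τ)) (χ₁ : Cfsg.IrrCharacter G) (hχ₁ : χ₁ ∈ Cfsg.principalBlock M G) (h1 : (χ₁ : G → ℂ) ≠ (fun _ => 1)) (δ₁ : ℤ) (hδ₁ : δ₁ = 1 ∨ δ₁ = -1) (hval : ∀ l : ℕ, 0 < l → l < 2 ^ (n - 1) → (χ₁ : G → ℂ) (σ ^ l) = δ₁) : (Cfsg.charDegree (χ₁ : G → ℂ) : ℤ) ≠ δ₁ ∧ (Nat.card G : ℚ) * ((Cfsg.charDegree (χ₁ : G → ℂ) : ℚ) - δ₁) ^ 2 = 2 * (Cfsg.charDegree (χ₁ : G → ℂ) : ℚ) * ((Cfsg.charDegree (χ₁ : G → ℂ) : ℚ) + δ₁) * (Nat.card (Subgroup.centralizer ({σ ^ (2 ^ (n - 2))} : Set G)) : ℚ) ^ 3 * (1 / (Nat.card (Subgroup.centralizer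 ({σ ^ (2 ^ (n - 2)), τ} : Set G)) : ℚ) + 1 / (Nat.card (Subgroup.centralizer ({σ ^ (2 ^ (n - 2)), σ * τ} : Set G)) : ℚ)) ^ 2 := by
  classical
  haveI : Fact (Nat.Prime 2) := ⟨Nat.prime_two⟩
  have hσ1 : σ⁻¹ ≠ σ := fun e1 => by
    have h1 : orderOf σ ∣ 2 := orderOf_dvd_of_pow_eq_one (by
      rw [pow_two]; exact mul_eq_one_iff_inv_eq.2 e1)
    rw [hσo] at h1
    have := Nat.le_of_dvd two_pos ((pow_dvd_pow 2 (show 2 ≤ n - 1 by omega)).trans h1)
    omega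
  have hτσ : τ ∉ Subgroup.zpowers σ := fun hm => by
    obtain ⟨i, rfl⟩ := Subgroup.mem_zpowers_iff.1 hm
    rw [(Commute.self_zpow σ i).symm.eq, mul_inv_cancel_right] at hrel
    exact hσ1 hrel.symm
  have hττ : τ * τ = 1 := by rw [← pow_two, ← hτo, pow_orderOf_eq_one]
  have hmove : ∀ i : ℤ, τ * σ ^ i = σ ^ (-i) * τ := fun i => by
    rw [← mul_inv_eq_iff_eq_mul, ← conj_zpow, hrel, inv_zpow, zpow_neg]
  have hcases : ∀ g ∈ (P : Subgroup G), ∃ i : ℤ, g = σ ^ i ∨ g = σ ^ i * τ := by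
    intro g hg
    rw [← hgen] at hg
    induction hg using Subgroup.closure_induction with
    | mem g hg =>
      rcases hg with rfl | rfl
      · exact ⟨1, Or.inl (zpow_one _).symm⟩
      · exact ⟨0, Or.inr (by rw [zpow_zero, one_mul])⟩
    | one => exact ⟨0, Or.inl (zpow_zero _).symm⟩
    | mul a b _ _ iha ihb =>
      obtain ⟨i, rfl | rfl⟩ := iha <;> obtain ⟨j, rfl | rfl⟩ := ihb
      · exact ⟨i + j, Or.inl (zpow_add _ _ _).symm⟩
      · exact ⟨i + j, Or.inr (by rw [zpow_add, mul_assoc])⟩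
      · exact ⟨i + -j, Or.inr (by rw [mul_assoc, hmove, ← mul_assoc, ← zpow_add])⟩
      · exact ⟨i + -j, Or.inl (by
          rw [mul_assoc, ← mul_assoc τ, hmove, mul_assoc, hττ, mul_one, ← zpow_add])⟩
    | inv a _ iha =>
      obtain ⟨i, rfl | rfl⟩ := iha
      · exact ⟨-i, Or.inl (zpow_neg _ _).symm⟩
      · exact ⟨i, Or.inr (inv_eq_of_mul_eq_one_left (by
          rw [mul_assoc, ← mul_assoc τ, hmove, mul_assoc, hττ, mul_one, ← zpow_add, add_neg_cancel,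
            zpow_zero]))⟩
  have hcard : Nat.card (P : Subgroup G) = 2 ^ (n - 1 + 1) := by
    have hK : (Subgroup.zpowers σ).relIndex (P : Subgroup G) = 2 := by
      refine (Subgroup.index_eq_two_iff_exists_notMem_and).2
        ⟨⟨τ, hτ⟩, fun hm => hτσ (Subgroup.mem_subgroupOf.1 hm), fun b => ?_⟩
      simp only [Subgroup.mem_subgroupOf, Subgroup.coe_mul]
      obtain ⟨i, e | e⟩ := hcases b b.2
      · exact Or.inr (e ▸ Subgroup.zpow_mem_zpowers σ i)
      · exact Or.inl (by rw [e, mul_assoc, hττ, mul_one]; exact Subgroup.zpow_mem_zpowers σ i)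
    have h1 := Subgroup.relIndex_mul_relIndex ⊥ (Subgroup.zpowers σ) (P : Subgroup G) bot_le
      (Subgroup.zpowers_le.2 hσ)
    rw [Subgroup.relIndex_bot_left, Subgroup.relIndex_bot_left, hK, Nat.card_zpowers, hσo,
      ← pow_succ] at h1
    exact h1.symm
  have hg : CfsgLib.FusionTwo.IsDihGen (P : Subgroup G) (n - 1) σ τ :=
    ⟨by omega, hcard, hσ, hτ, hσo, hτo, hrel, hτσ⟩
  have hz : σ ^ ((2 : ℤ) ^ (n - 1 - 1)) = σ ^ 2 ^ (n - 2) := by
    rw [show n - 1 - 1 = n - 2 by omega, ← zpow_natCast σ (2 ^ (n - 2))]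
    push_cast
    rfl
  have hone : ∀ t : G, orderOf t = 2 → IsConj (σ ^ ((2 : ℤ) ^ (n - 1 - 1))) t := by
    intro t ht
    obtain ⟨W, hW⟩ := (IsPGroup.of_card (p := 2) (n := 1) (G := Subgroup.zpowers t)
      (by rw [Nat.card_zpowers, ht, pow_one])).exists_le_sylow
    obtain ⟨g, hgW⟩ := MulAction.exists_smul_eq G W P
    have hgt : g * t * g⁻¹ ∈ (P : Subgroup G) := by
      rw [← hgW]; exact ⟨t, hW (Subgroup.mem_zpowers t), rfl⟩
    refine IsConj.trans ?_ (isConj_iff.2 ⟨g, rfl⟩).symm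
    rcases hg.mem_involution hgt
      ((orderOf_injective (MulAut.conj g).toMonoidHom (MulAut.conj g).injective t).trans ht) with
      e | ⟨k, e⟩
    · rw [e]
    · rw [e]
      rcases Int.even_or_odd' k with ⟨j, rfl | rfl⟩
      · refine (hz ▸ hconj.1).trans ?_
        have := hg.isConj_refl (i := 0) (i' := 2 * j) ⟨j, by ring⟩
        rwa [zpow_zero, one_mul] at this
      · refine (hz ▸ hconj.2).trans ?_
        have := hg.isConj_refl (i := 1) (i' := 2 * j + 1) ⟨j, by ring⟩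
        rwa [zpow_one] at this
  have hval' : ∀ μ : ZMod (2 ^ (n - 1)), μ ≠ 0 → CfsgLib.DihedralBlock.rotVal σ χ₁ μ = δ₁ := by
    intro μ hμ
    rw [CfsgLib.DihedralBlock.rotVal, CfsgLib.DihedralBlock.rot, zpow_natCast]
    exact hval _ (Nat.pos_of_ne_zero fun e => hμ ((ZMod.val_eq_zero μ).1 e)) (ZMod.val_lt μ)
  have h := CfsgLib.DihedralBlock.order_formula hg (by omega) hM hone hχ₁
    (fun e => h1 (by rw [e]; exact CfsgLib.Chars.oneChar_coe)) hval'
  rw [hz] at h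
  exact h

end Cfsg.Agent.S4482
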