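import Cfsg.Statements.S4483
import Cfsg.Agent.Chars.Apps.RealOdd
import Cfsg.Agent.Chars.Brauer.Characterization
-- import your own Cfsg.Agent.* helpers here

set_option autoImplicit false
open Cfsg

namespace Cfsg.Agent.S4483

open CfsgLib.Chars
open scoped ComplexConjugate

/-- In an elementary group the elements of odd order form a normal subgroup of 2-power index. -/
theorem exists_odd_subgroup {E : Type*} [Group E] [Finite E] {q : ℕ} (hq : q.Prime)
    (hE : Cfsg.IsElementary q E) :
    ∃ O : Subgroup E, O.Normal ∧ (∃ j, O.index = 2 ^ j) ∧ ∀ y : E, y ∈ O ↔ ¬ 2 ∣ orderOf y := by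
  obtain ⟨x, hx, hcop, k, hk⟩ := hE
  haveI : (Subgroup.zpowers x).Normal := ⟨fun y hy z => by
    have hy' : y ∈ Subgroup.center E := Subgroup.zpowers_le.mpr hx hy
    rwa [Subgroup.mem_center_iff.mp hy' z, mul_inv_cancel_right]⟩
  rcases eq_or_ne q 2 with rfl | hq2
  · refine ⟨Subgroup.zpowers x, inferInstance, ⟨k, hk⟩, fun y => ⟨fun hy h2 => ?_, fun hy => ?_⟩⟩
    · have h1 : orderOf y ∣ orderOf x := orderOf_dvd_of_mem_zpowers hy
      exact (Nat.Prime.coprime_iff_not_dvd Nat.prime_two).mp hcop.symm (h2.trans h1)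
    · have h1 : orderOf (y : E ⧸ Subgroup.zpowers x) ∣ orderOf y :=
        orderOf_map_dvd (QuotientGroup.mk' _) y
      have h2 : orderOf (y : E ⧸ Subgroup.zpowers x) ∣ 2 ^ k := by
        rw [← hk, Subgroup.index_eq_card]; exact orderOf_dvd_natCard _
      have h3 := Nat.dvd_gcd h1 h2
      rw [Nat.Coprime.gcd_eq_one
        ((((Nat.Prime.coprime_iff_not_dvd Nat.prime_two).mpr hy).symm).pow_right k),
        Nat.dvd_one, orderOf_eq_one_iff, QuotientGroup.eq_one_iff] at h3
      exact h3
  · have hle : Subgroup.zpowers x ≤ Subgroup.center E := Subgroup.zpowers_le.mpr hx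
    have hiodd : ¬ 2 ∣ (Subgroup.center E).index := by
      intro h
      have := h.trans (Subgroup.index_dvd_of_le hle)
      rw [hk] at this
      exact hq2 ((Nat.prime_dvd_prime_iff_eq Nat.prime_two hq).mp
        (Nat.prime_two.dvd_of_dvd_pow this)).symm
    obtain ⟨a, b, hb, hab⟩ := Nat.exists_eq_two_pow_mul_odd (Nat.card_pos (α := E)).ne'
    letI : CommGroup (Subgroup.center E) :=
      { (inferInstance : Group (Subgroup.center E)) with mul_comm := fun u v => mul_comm' u v }
    let φ : E →* Subgroup.center E :=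
      (powMonoidHom b).comp (MonoidHom.transferCenterPow (G := E))
    have hφ : ∀ y, (φ y : E) = y ^ ((Subgroup.center E).index * b) := fun y => by
      simp [φ, pow_mul]
    refine ⟨φ.ker, inferInstance, ?_, fun y => ⟨fun hy h2 => ?_, fun hy => ?_⟩⟩
    · have hd : φ.ker.index ∣ 2 ^ a := by
        rw [Subgroup.index_ker]
        have hp : IsPGroup 2 φ.range := by
          rintro ⟨_, z, rfl⟩
          refine ⟨a, Subtype.ext ?_⟩
          show φ z ^ 2 ^ a = 1
          refine Subtype.ext ?_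
          rw [SubmonoidClass.coe_pow, hφ, ← pow_mul, mul_assoc, mul_comm b, ← hab, mul_comm,
            pow_mul, pow_card_eq_one', one_pow]
          rfl
        obtain ⟨j, hj⟩ := IsPGroup.iff_card.mp hp
        have h1 : 2 ^ j ∣ Nat.card E :=
          hj ▸ (Subgroup.card_subgroup_dvd_card φ.range).trans (Subgroup.card_subgroup_dvd_card _)
        rw [hj]
        rw [hab] at h1
        exact ((Nat.coprime_two_left.mpr hb).pow_left j).dvd_of_dvd_mul_right h1
      obtain ⟨j, -, hj⟩ := (Nat.dvd_prime_pow Nat.prime_two).mp hd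
      exact ⟨j, hj⟩
    · have h1 : y ^ ((Subgroup.center E).index * b) = 1 := by
        rw [← hφ, MonoidHom.mem_ker.mp hy]; rfl
      rcases (Nat.Prime.dvd_mul Nat.prime_two).mp (h2.trans (orderOf_dvd_of_pow_eq_one h1)) with h | h
      · exact hiodd h
      · exact (Nat.not_even_iff_odd.mpr hb) (even_iff_two_dvd.mpr h)
    · refine MonoidHom.mem_ker.mpr (Subtype.ext ?_)
      rw [hφ]
      refine orderOf_dvd_iff_pow_eq_one.mp (Dvd.dvd.mul_left ?_ _)
      have h1 := orderOf_dvd_natCard y
      rw [hab] at h1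
      exact (((Nat.Prime.coprime_iff_not_dvd Nat.prime_two).mpr hy).symm.pow_right a).dvd_of_dvd_mul_left h1

/-- Let G be a finite group of order 2^n·g₀ with g₀ odd, and M a maximal ideal of the algebraic integers containing 2. Every real-valued irreducible character of G of odd degree lies in the principal 2-block; consequently G has at most 2^(2n) real-valued irreducible characters of odd degree. -/
theorem result {G : Type*} [Group G] [Finite G] (M : Ideal Cfsg.AlgInt) (hM : Cfsg.IsPModular 2 M) : (∀ χ : Cfsg.IrrCharacter G, (∀ g : G, ((χ : G → ℂ) g).im = 0) → Odd (Cfsg.charDegree (χ : G → ℂ)) → χ ∈ Cfsg.principalBlock M G) ∧ Nat.card {χ : Cfsg.IrrCharacter G // (∀ g : G, ((χ : G → ℂ) g).im = 0) ∧ Odd (Cfsg.charDegree (χ : G → ℂ))} ≤ 2 ^ (2 * (Nat.card G).factorization 2) := by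
  classical
  haveI := Fintype.ofFinite G
  haveI : M.IsMaximal := hM.2.1
  refine ⟨fun χ hr ho => CfsgLib.Chars.Apps.mem_principalBlock_of_odd_real M hM χ ho hr, ?_⟩
  set n := (Nat.card G).factorization 2 with hn
  set R := Finset.univ.filter (fun g : G => Cfsg.IsPRegular 2 g) with hR
  let F : G → ℂ := fun g => if Cfsg.IsPRegular 2 g then (2 : ℂ) ^ n else 0
  have hFcl : Cfsg.IsClassFunction G F := fun g h => by
    have : orderOf (h * g * h⁻¹) = orderOf g :=
      orderOf_injective (MulAut.conj h).toMonoidHom (MulEquiv.injective _) g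
    refine if_congr ?_ rfl rfl
    rw [Cfsg.IsPRegular, Cfsg.IsPRegular, this]
  have hFgen : Cfsg.IsGeneralizedCharacter G F := by
    refine CfsgLib.Chars.Brauer.isGeneralizedCharacter_of_elementary hFcl fun E q hq hE => ?_
    obtain ⟨O, hON, ⟨j, hj⟩, hO⟩ := exists_odd_subgroup hq hE
    haveI := Fintype.ofFinite E
    have hjn : j ≤ n := by
      refine (Nat.Prime.pow_dvd_iff_le_factorization Nat.prime_two Nat.card_pos.ne').mp ?_
      rw [← hj]
      exact O.index_dvd_card.trans (Subgroup.card_subgroup_dvd_card E)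
    have hchar := CfsgLib.Chars.Induced.isCharacter_indFun O (isCharacter_one (G := O))
    have e : (fun e : E => F e) = 2 ^ (n - j) • Cfsg.indFun O (1 : O → ℂ) := by
      funext y
      have hreg : Cfsg.IsPRegular 2 (y : G) ↔ y ∈ O := by
        rw [hO, Cfsg.IsPRegular, Subgroup.orderOf_coe]
      simp only [F, Pi.smul_apply, nsmul_eq_mul, Cfsg.indFun]
      by_cases hy : y ∈ O
      · rw [if_pos (hreg.mpr hy), Finset.sum_congr rfl fun x _ => show
          Cfsg.extendByZero O (1 : O → ℂ) (x⁻¹ * y * x) = 1 by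
            rw [CfsgLib.Chars.Induced.extendByZero_mem _ (by simpa using hON.conj_mem y hy x⁻¹)]
            rfl]
        rw [Finset.sum_const, Finset.card_univ, nsmul_eq_mul, mul_one,
          ← Nat.card_eq_fintype_card, ← O.card_mul_index, hj]
        push_cast
        rw [← mul_assoc ((Nat.card O : ℂ)⁻¹), inv_mul_cancel₀ (Nat.cast_ne_zero.mpr Nat.card_pos.ne'),
          one_mul, ← pow_add, Nat.sub_add_cancel hjn]
      · rw [if_neg (fun h => hy (hreg.mp h)), Finset.sum_eq_zero fun x _ => ?_, mul_zero, mul_zero]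
        refine CfsgLib.Chars.Induced.extendByZero_notMem _ fun h => hy ?_
        simpa [mul_assoc] using hON.conj_mem _ h x
    rw [e]
    exact CfsgLib.Chars.Exceptional.gen_of_char (isCharacter_nsmul _ hchar)
  have hint : ∀ χ : Cfsg.IrrCharacter G, ∃ z : ℤ, Cfsg.classInner F (χ : G → ℂ) = z := by
    intro χ
    obtain ⟨c, d, hc, hd, e⟩ := hFgen
    obtain ⟨u, hu⟩ := exists_nat_classInner hc χ
    obtain ⟨v, hv⟩ := exists_nat_classInner hd χ
    exact ⟨(u : ℤ) - v, by rw [e, classInner_sub_left, hu, hv]; push_cast; ring⟩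
  choose z hz using hint
  -- the coefficient at a real odd degree character is nonzero
  have hnz : ∀ χ : Cfsg.IrrCharacter G, (∀ g : G, ((χ : G → ℂ) g).im = 0) →
      Odd (Cfsg.charDegree (χ : G → ℂ)) → z χ ≠ 0 := by
    intro χ hr ho h
    have h1 := hz χ
    rw [h, Int.cast_zero, Cfsg.classInner] at h1
    have h2 := (mul_eq_zero.mp h1).resolve_left (inv_ne_zero (Nat.cast_ne_zero.mpr Nat.card_pos.ne'))
    simp only [F, ite_mul, zero_mul] at h2
    rw [← Finset.sum_filter, ← Finset.mul_sum] at h2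
    have h3 := (mul_eq_zero.mp h2).resolve_left (pow_ne_zero _ two_ne_zero)
    refine CfsgLib.Chars.Apps.sum_regular_ne_zero M hM χ ho (fun g a b ha hb => ?_) ?_
    · congr 1
      apply Subtype.val_injective
      show (a : ℂ) = b
      rw [ha, hb, map_inv_eq_conj (isCharacter_coe χ), Complex.conj_eq_iff_im.mpr (hr g)]
    · rw [← h3]
      exact Finset.sum_congr rfl fun g _ => (Complex.conj_eq_iff_im.mpr (hr g)).symm
  have hnorm : ((Nat.card G : ℤ) * ∑ χ : Cfsg.IrrCharacter G, z χ ^ 2) =
      (2 : ℤ) ^ (2 * n) * R.card := by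
    have h := classInner_eq_sum hFcl F
    simp only [hz, map_intCast] at h
    have h1 : Cfsg.classInner F F = (Nat.card G : ℂ)⁻¹ * ((2 : ℂ) ^ (2 * n) * R.card) := by
      rw [Cfsg.classInner]
      congr 1
      simp only [F, ite_mul, zero_mul, apply_ite (starRingEnd ℂ), map_pow, map_ofNat, map_zero,
        mul_ite, mul_zero]
      rw [Finset.sum_congr rfl (g := fun g : G => if Cfsg.IsPRegular 2 g then (2 : ℂ) ^ (2 * n) else 0)
        fun g _ => by split_ifs <;> ring]
      rw [← Finset.sum_filter, Finset.sum_const, nsmul_eq_mul, mul_comm]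
    rw [h1, inv_mul_eq_iff_eq_mul₀ (Nat.cast_ne_zero.mpr Nat.card_pos.ne')] at h
    have h2 : (((Nat.card G : ℤ) * ∑ χ : Cfsg.IrrCharacter G, z χ ^ 2 : ℤ) : ℂ) =
        (((2 : ℤ) ^ (2 * n) * R.card : ℤ) : ℂ) := by
      push_cast
      rw [h]
      congr 1
      exact Finset.sum_congr rfl fun χ _ => by ring
    exact_mod_cast h2
  set T := Finset.univ.filter (fun χ : Cfsg.IrrCharacter G =>
    (∀ g : G, ((χ : G → ℂ) g).im = 0) ∧ Odd (Cfsg.charDegree (χ : G → ℂ))) with hT
  rw [Nat.card_eq_fintype_card, Fintype.card_subtype]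
  have h1 : (T.card : ℤ) ≤ ∑ χ : Cfsg.IrrCharacter G, z χ ^ 2 := by
    calc (T.card : ℤ) = ∑ _χ ∈ T, (1 : ℤ) := by simp
      _ ≤ ∑ χ ∈ T, z χ ^ 2 := Finset.sum_le_sum fun χ hχ => by
          have := hnz χ (Finset.mem_filter.mp hχ).2.1 (Finset.mem_filter.mp hχ).2.2
          have : 0 < z χ ^ 2 := by positivity
          omega
      _ ≤ _ := Finset.sum_le_univ_sum_of_nonneg fun χ => sq_nonneg _
  have h2 : (R.card : ℤ) ≤ (Nat.card G : ℤ) := by
    rw [Nat.card_eq_fintype_card]; exact_mod_cast Finset.card_le_univ R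
  have h3 : (T.card : ℤ) ≤ (2 : ℤ) ^ (2 * n) := by
    refine le_of_mul_le_mul_left ?_ (a := (Nat.card G : ℤ)) (by exact_mod_cast Nat.card_pos)
    calc (Nat.card G : ℤ) * T.card ≤ (Nat.card G : ℤ) * ∑ χ : Cfsg.IrrCharacter G, z χ ^ 2 :=
          mul_le_mul_of_nonneg_left h1 (Int.natCast_nonneg _)
      _ = (2 : ℤ) ^ (2 * n) * R.card := hnorm
      _ ≤ (Nat.card G : ℤ) * (2 : ℤ) ^ (2 * n) := by
          rw [mul_comm (Nat.card G : ℤ)]
          exact mul_le_mul_of_nonneg_left h2 (by positivity)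
  exact_mod_cast h3

end Cfsg.Agent.S4483
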