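import Cfsg.Statements.S4485
import Cfsg.Agent.Chars.SmallDegreeTI.Endgame
open CfsgLib CfsgLib.SmallDegreeTI
open scoped commutatorElement

set_option autoImplicit false
open Cfsg

namespace Cfsg.Agent.S4485

/-- Let G be a finite group and p a prime dividing its order such that every non-identity element of a Sylow p-subgroup P has the same centralizer as P itself (so P is abelian); let p^n be the order of P. If G has a faithful character of degree x with x² < p^n − 1, then P is normal in G. -/
theorem result {G : Type*} [Group G] [Finite G] (p : ℕ) (hp : p.Prime) (hpG : p ∣ Nat.card G) (P : Sylow p G) (hstar : ∀ x ∈ (P : Subgroup G), x ≠ 1 → Subgroup.centralizer ({x} : Set G) = Subgroup.centralizer ((P : Subgroup G) : Set G)) (n : ℕ) (hn : Nat.card P = p ^ n) (χ : G → ℂ) (hχ : Cfsg.IsCharacter G χ) (hfaith : ∀ g : G, χ g = χ 1 → g = 1) (hdeg : Cfsg.charDegree χ ^ 2 + 1 < p ^ n) : (P : Subgroup G).Normal := by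
  classical
  haveI : Fact p.Prime := ⟨hp⟩
  haveI : Fintype G := Fintype.ofFinite G
  set K : Subgroup G := Subgroup.normalClosure ((P : Subgroup G) : Set G) with hKdef
  have hPK : (P : Subgroup G) ≤ K := Subgroup.le_normalClosure
  haveI : Fintype K := Fintype.ofFinite K
  -- conjugates of `P` are conjugates inside `K`
  have hsup := P.normalizer_sup_eq_top' hPK
  have hconj : ∀ g : G, ∀ y ∈ (P : Subgroup G),
      ∃ k ∈ K, ∃ y' ∈ (P : Subgroup G), g * y * g⁻¹ = k * y' * k⁻¹ := by
    intro g y hy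
    have hg : g ∈ ((K ⊔ Subgroup.normalizer ((P : Subgroup G) : Set G) : Subgroup G) : Set G) := by
      rw [sup_comm, show Subgroup.normalizer ((P : Subgroup G) : Set G) ⊔ K = ⊤ from hsup]
      trivial
    rw [Subgroup.normal_mul] at hg
    obtain ⟨k, hk, m, hm, rfl⟩ := hg
    exact ⟨k, hk, m * y * m⁻¹, (Subgroup.mem_normalizer_iff.1 hm y).1 hy, by group⟩
  set PK := P.subtype hPK with hPKdef
  have hmem : ∀ z : K, z ∈ (PK : Subgroup K) ↔ (z : G) ∈ (P : Subgroup G) := fun z => Iff.rfl
  have hcardPK : Nat.card (PK : Subgroup K) = p ^ n := by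
    rw [← hn]
    exact Nat.card_congr (Subgroup.subgroupOfEquivOfLe hPK).toEquiv
  have hstarK : ∀ z ∈ (PK : Subgroup K), z ≠ 1 → Subgroup.centralizer ({z} : Set K) =
      Subgroup.centralizer ((PK : Subgroup K) : Set K) := by
    intro z hz hz1
    ext w
    rw [Subgroup.mem_centralizer_singleton_iff, Subgroup.mem_centralizer_iff]
    constructor
    · intro h y hy
      have h' : (w : G) ∈ Subgroup.centralizer ((P : Subgroup G) : Set G) := by
        rw [← hstar z hz (fun e => hz1 (Subtype.ext e)), Subgroup.mem_centralizer_singleton_iff]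
        exact congrArg Subtype.val h
      exact Subtype.ext (Subgroup.mem_centralizer_iff.1 h' y hy)
    · exact fun h => (h z hz).symm
  have hproperK : ∀ L : Subgroup K, L.Normal → (PK : Subgroup K) ≤ L → L = ⊤ := by
    intro L hL hPL
    have hle : K ≤ L.map K.subtype := by
      conv_lhs => rw [hKdef, Subgroup.normalClosure]
      rw [Subgroup.closure_le]
      intro z hz
      obtain ⟨y, hy, hyz⟩ := Group.mem_conjugatesOfSet_iff.1 hz
      obtain ⟨g, rfl⟩ := isConj_iff.1 hyz
      obtain ⟨k, hk, y', hy', e⟩ := hconj g y hy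
      exact ⟨⟨k, hk⟩ * ⟨y', hPK hy'⟩ * ⟨k, hk⟩⁻¹,
        hL.conj_mem _ (hPL ((hmem ⟨y', hPK hy'⟩).2 hy')) _, e.symm⟩
    rw [eq_top_iff]
    intro z _
    obtain ⟨z', hz', e⟩ := hle z.2
    rwa [← Subtype.ext (a1 := z') (a2 := z) e]
  -- all constituents of the restriction are linear
  have hres : Cfsg.IsCharacter K (fun k : K => χ (k : G)) := Chars.isCharacter_restrict hχ K
  obtain ⟨c, hc, -⟩ := Chars.exists_nat_coeff hres
  have happ : ∀ k : K, χ (k : G) = ∑ φ : Cfsg.IrrCharacter K, (c φ : ℂ) * (φ : K → ℂ) k :=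
    fun k => by rw [congrFun hc k]; simp
  have hlin : ∀ φ : Cfsg.IrrCharacter K, c φ ≠ 0 → (φ : K → ℂ) 1 = 1 := by
    intro φ hφ
    rw [← Chars.charDegree_eq_one_iff]
    by_cases h1 : φ = Chars.oneChar K
    · rw [h1]; exact Chars.charDegree_eq_of_map_one (by simp)
    refine (sylow_degree_one PK hstarK hproperK φ h1 ?_).1
    have h2 := happ 1
    rw [Subgroup.coe_one, ← Chars.charDegree_cast hχ] at h2
    simp only [← Chars.coe_charDegree] at h2
    have h3 : Cfsg.charDegree χ = ∑ ψ : Cfsg.IrrCharacter K, c ψ * Cfsg.charDegree (ψ : K → ℂ) := by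
      exact_mod_cast h2
    have h4 : Cfsg.charDegree (φ : K → ℂ) ≤ Cfsg.charDegree χ := by
      rw [h3]
      exact le_trans (Nat.le_mul_of_pos_left _ (Nat.pos_of_ne_zero hφ))
        (Finset.single_le_sum (f := fun ψ => c ψ * Cfsg.charDegree (ψ : K → ℂ))
          (fun ψ _ => Nat.zero_le _) (Finset.mem_univ φ))
    rw [hcardPK]
    exact lt_of_le_of_lt (Nat.add_le_add_right (Nat.pow_le_pow_left h4 2) 1) hdeg
  have hab : ∀ a b : K, a * b = b * a := by
    intro a b
    have hval : χ ((⁅a, b⁆ : K) : G) = χ ((1 : K) : G) := by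
      rw [happ, happ]
      refine Finset.sum_congr rfl fun φ _ => ?_
      by_cases h0 : c φ = 0
      · simp [h0]
      congr 1
      obtain ⟨l, hl⟩ := Chars.exists_linChar_eq φ (hlin φ h0)
      rw [← hl, Chars.linChar_apply, Chars.linChar_apply, map_commutatorElement, map_one,
        commutatorElement_eq_one_iff_mul_comm.2 (mul_comm _ _)]
    rw [Subgroup.coe_one] at hval
    exact commutatorElement_eq_one_iff_mul_comm.1 (Subtype.ext (hfaith _ hval))
  constructor
  intro y hy g
  obtain ⟨k, hk, y', hy', e⟩ := hconj g y hy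
  have := congrArg Subtype.val (hab ⟨k, hk⟩ ⟨y', hPK hy'⟩)
  rw [e, show k * y' = y' * k from this, mul_inv_cancel_right]
  exact hy'

end Cfsg.Agent.S4485
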