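import Cfsg.Statements.S4495
import Cfsg.Agent.SelfCentPrime.Basic
open CfsgLib.SelfCentPrime

set_option autoImplicit false
open Cfsg

namespace Cfsg.Agent.S4495

/-- Let the finite group G contain an element x of prime order p with C_G(x) = ⟨x⟩, and let t be the number of conjugacy classes of elements of order p. If t ≠ p − 1 then the commutator subgroup has index at most (p − 1)/t; if t = p − 1 it has index exactly p. -/
theorem result {G : Type*} [Group G] [Finite G] (p : ℕ) (hp : p.Prime) (x : G) (hx : orderOf x = p) (hC : Subgroup.centralizer ({x} : Set G) = Subgroup.zpowers x) (t : ℕ) (ht : Nat.card {C : ConjClasses G // ∃ g ∈ C.carrier, orderOf g = p} = t) : (t ≠ p - 1 → (commutator G).index * t ≤ p - 1) ∧ (t = p - 1 → (commutator G).index = p) := by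
  have h : SelfCent G p x := ⟨hp, hx, hC⟩
  refine ⟨fun h1 => ?_, fun h1 => (commutator_complement h ht h1).2.1⟩
  have e := classes_mul h ht
  have hpos : 0 < p - 1 := Nat.sub_pos_of_lt hp.one_lt
  have hd := (index_commutator_le h ht h1).2
  have hr : 0 < (Subgroup.zpowers x).relIndex (nor x) :=
    Nat.pos_of_ne_zero fun e0 => by rw [e0, mul_zero] at e; omega
  calc (commutator G).index * t ≤ (Subgroup.zpowers x).relIndex (nor x) * t :=
        Nat.mul_le_mul_right t (Nat.le_of_dvd hr hd)
    _ = p - 1 := by rw [mul_comm, e]

end Cfsg.Agent.S4495
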