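import Cfsg.Statements.S4497
import Cfsg.Agent.SelfCentPrime.Basic
import Cfsg.Agent.SelfCentPrime.PrimeCore
open CfsgLib.SelfCentPrime
open scoped commutatorElement Pointwise

set_option autoImplicit false
open Cfsg

namespace Cfsg.Agent.S4497

/-- Let the finite group G contain an element x of prime order p with C_G(x) = ⟨x⟩, let t be the number of conjugacy classes of elements of order p, and let S* = O_{p′}(G) be the largest normal subgroup of order prime to p. Then S* ≤ G′; if t ≠ p − 1 the quotient G′/S* is simple (in particular non-trivial); if t = p − 1 then G′ = S*. -/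
theorem result {G : Type*} [Group G] [Finite G] (p : ℕ) (hp : p.Prime) (x : G) (hx : orderOf x = p) (hC : Subgroup.centralizer ({x} : Set G) = Subgroup.zpowers x) (t : ℕ) (ht : Nat.card {C : ConjClasses G // ∃ g ∈ C.carrier, orderOf g = p} = t) : Cfsg.pPrimeCore p G ≤ commutator G ∧ (t ≠ p - 1 → ∀ h : ((Cfsg.pPrimeCore p G).subgroupOf (commutator G)).Normal, IsSimpleGroup (↥(commutator G) ⧸ (Cfsg.pPrimeCore p G).subgroupOf (commutator G))) ∧ (t = p - 1 → commutator G = Cfsg.pPrimeCore p G) := by
  have h : SelfCent G p x := ⟨hp, hx, hC⟩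
  haveI := Fact.mk hp
  obtain ⟨hcn, hcc⟩ := pPrimeCore_mem (G := G) p
  haveI := hcn
  have hnd : ¬ p ∣ Nat.card (Cfsg.pPrimeCore p G) := fun hd =>
    hp.coprime_iff_not_dvd.1 hcc.symm hd
  have hle : Cfsg.pPrimeCore p G ≤ commutator G := le_commutator _ h hnd
  refine ⟨hle, fun h1 hn => ?_, fun h1 => le_antisymm (le_pPrimeCore inferInstance
    ((hp.coprime_iff_not_dvd.2 (commutator_complement h ht h1).2.2).symm)) hle⟩
  set S := (Cfsg.pPrimeCore p G).subgroupOf (commutator G)
  have hxG : x ∈ commutator G := (index_commutator_le h ht h1).1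
  haveI : Nontrivial (↥(commutator G) ⧸ S) :=
    ⟨⟨QuotientGroup.mk ⟨x, hxG⟩, 1, fun e => not_mem _ h hnd
      (Subgroup.mem_subgroupOf.1 ((QuotientGroup.eq_one_iff (⟨x, hxG⟩ : commutator G)).1 e))⟩⟩
  refine ⟨fun K hK => ?_⟩
  have hSL : S ≤ K.comap (QuotientGroup.mk' S) := fun z hz => by
    rw [Subgroup.mem_comap, QuotientGroup.mk'_apply, (QuotientGroup.eq_one_iff z).2 hz]
    exact K.one_mem
  have hKL := Subgroup.map_comap_eq_self_of_surjective (QuotientGroup.mk'_surjective S) K
  haveI hLn : (K.comap (QuotientGroup.mk' S)).Normal := hK.comap _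
  by_cases hL : p ∣ Nat.card (K.comap (QuotientGroup.mk' S))
  · right
    rw [← hKL, ← MonoidHom.range_eq_map (QuotientGroup.mk' S) |>.symm.trans
      (MonoidHom.range_eq_top.2 (QuotientGroup.mk'_surjective S))]
    congr 1
    rw [eq_top_iff]
    -- all elements of order `p` of `G` lie in `L`
    set L := K.comap (QuotientGroup.mk' S)
    let D : Subgroup G := Subgroup.closure {y : G | orderOf y = p}
    have hDn : D.Normal := by
      constructor
      intro d hd g
      have : D ≤ D.comap (MulAut.conj g).toMonoidHom := by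
        rw [Subgroup.closure_le]
        intro y hy
        apply Subgroup.subset_closure
        show orderOf (MulAut.conj g y) = p
        rw [MulEquiv.orderOf_eq]
        exact hy
      exact this hd
    have hDd : p ∣ Nat.card D := by
      have hxD : x ∈ D := Subgroup.subset_closure hx
      rw [← hx, ← Nat.card_zpowers]
      exact Subgroup.card_dvd_of_le (Subgroup.zpowers_le.2 hxD)
    have hGD := commutator_le_of_dvd h D hDd
    obtain ⟨⟨l, hl⟩, hlo⟩ := exists_prime_orderOf_dvd_card' (G := L) p hL
    rw [Subgroup.orderOf_mk] at hlo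
    have hDL : D ≤ L.map (commutator G).subtype := by
      rw [Subgroup.closure_le]
      intro y hy
      have hyp : (Subgroup.zpowers y) ≤ commutator G := by
        obtain ⟨g, hg⟩ := exists_conj_mem h hy
        have h2 : g * y * g⁻¹ ∈ commutator G := Subgroup.zpowers_le.2 hxG hg
        have h3 := (inferInstance : (commutator G).Normal).conj_mem _ h2 g⁻¹
        rw [Subgroup.zpowers_le]
        simpa [mul_assoc] using h3
      have hyG : y ∈ commutator G := hyp (Subgroup.mem_zpowers y)
      -- Sylow subgroups of the commutator subgroup are conjugate inside it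
      have hpy : IsPGroup p (Subgroup.zpowers (⟨y, hyG⟩ : commutator G)) :=
        IsPGroup.of_card (n := 1) (by rw [Nat.card_zpowers, Subgroup.orderOf_mk, hy, pow_one])
      have hpl : IsPGroup p (Subgroup.zpowers l) :=
        IsPGroup.of_card (n := 1) (by rw [Nat.card_zpowers, hlo, pow_one])
      obtain ⟨P, hP⟩ := hpy.exists_le_sylow
      obtain ⟨Q, hQ⟩ := hpl.exists_le_sylow
      have hQc : Nat.card Q ≤ p := by
        obtain ⟨R, hR⟩ := (Q.2.map (commutator G).subtype).exists_le_sylow
        calc Nat.card Q = Nat.card ((Q : Subgroup (commutator G)).map (commutator G).subtype) :=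
              Nat.card_congr (Subgroup.equivMapOfInjective _ _ (commutator G).subtype_injective).toEquiv
          _ ≤ Nat.card R := Nat.le_of_dvd Nat.card_pos (Subgroup.card_dvd_of_le hR)
          _ = p := sylow_card h R
      have hQl : (Q : Subgroup (commutator G)) = Subgroup.zpowers l :=
        (Subgroup.eq_of_le_of_card_ge hQ (by rw [Nat.card_zpowers, hlo]; exact hQc)).symm
      obtain ⟨c, hc⟩ := MulAction.exists_smul_eq (commutator G) Q P
      have hy' : (⟨y, hyG⟩ : commutator G) ∈ (P : Subgroup (commutator G)) := hP (Subgroup.mem_zpowers _)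
      rw [← hc, Sylow.coe_subgroup_smul] at hy'
      have hle' : MulAut.conj c • (Q : Subgroup (commutator G)) ≤ L := by
        intro z hz
        rw [Subgroup.mem_pointwise_smul_iff_inv_smul_mem, hQl] at hz
        have h4 : (MulAut.conj c)⁻¹ • z ∈ L := Subgroup.zpowers_le.2 hl hz
        have h5 := hLn.conj_mem _ h4 c
        have h6 : c * ((MulAut.conj c)⁻¹ • z) * c⁻¹ = z := by
          show MulAut.conj c ((MulAut.conj c)⁻¹ z) = z
          exact MulAut.apply_inv_self _ _ _
        rwa [h6] at h5
      exact ⟨⟨y, hyG⟩, hle' hy', rfl⟩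
    intro z _
    obtain ⟨z', hz', e⟩ := (hGD.trans hDL) z.2
    rwa [← Subtype.ext (a1 := z') (a2 := z) e]
  · left
    rw [← hKL, eq_bot_iff, Subgroup.map_le_iff_le_comap]
    intro z hz
    have h2 := le_pPrimeCore_of_normal_normal (commutator G) _ hLn
      (hp.coprime_iff_not_dvd.2 hL).symm ⟨z, hz, rfl⟩
    rw [Subgroup.mem_comap, Subgroup.mem_bot, QuotientGroup.mk'_apply, QuotientGroup.eq_one_iff]
    exact h2

end Cfsg.Agent.S4497
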