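import Cfsg.Statements.S4498
import Cfsg.Agent.Eq.Def_Blocks
import Cfsg.Agent.Blocks.Orth.TwoPrimes

set_option autoImplicit false
open Cfsg

namespace Cfsg.Agent.S4498

/-- Let p and q be distinct primes dividing the order of the finite group G, and suppose G has no element of order p·q. Fix maximal ideals M_p over p and M_q over q of the algebraic integers. Then the principal p-block and the principal q-block of G have a non-principal irreducible character in common. -/
theorem result {G : Type*} [Group G] [Finite G] (p q : ℕ) [Fact p.Prime] [Fact q.Prime] (hpq : p ≠ q) (hp : p ∣ Nat.card G) (hq : q ∣ Nat.card G) (hno : ∀ g : G, orderOf g ≠ p * q) (Mp Mq : Ideal Cfsg.AlgInt) (hMp : Cfsg.IsPModular p Mp) (hMq : Cfsg.IsPModular q Mq) : ∃ χ : Cfsg.IrrCharacter G, (χ : G → ℂ) ≠ (fun _ => 1) ∧ χ ∈ Cfsg.principalBlock Mp G ∧ χ ∈ Cfsg.principalBlock Mq G := by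
  classical
  haveI := Fintype.ofFinite G
  haveI := hMp.2.1
  haveI := hMq.2.1
  by_contra hcon
  push Not at hcon
  have hone : ∀ M : Ideal Cfsg.AlgInt, ∀ [M.IsMaximal], CfsgLib.Chars.oneChar G ∈ Cfsg.principalBlock M G := by
    intro M _
    show Cfsg.SameBlock M _ _
    rw [CfsgLib.Chars.oneChar_coe]
    exact CfsgLib.Blocks.sameBlock_refl _
  have hI : Cfsg.principalBlock Mp G ∩ Cfsg.principalBlock Mq G = {CfsgLib.Chars.oneChar G} := by
    refine Set.Subset.antisymm (fun χ hχ => ?_) (Set.singleton_subset_iff.2 ⟨hone Mp, hone Mq⟩)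
    by_contra hne
    refine hcon χ (fun h => hne ?_) hχ.1 hχ.2
    exact Subtype.ext (by rw [h, CfsgLib.Chars.oneChar_coe])
  obtain ⟨y, hy⟩ := exists_prime_orderOf_dvd_card' p hp
  obtain ⟨Q⟩ : Nonempty (Sylow q G) := inferInstance
  obtain ⟨ω, hω⟩ := CfsgLib.Blocks.exists_sum_inter_eq hMp.1 hMq.1 hMp hMq
    (CfsgLib.Blocks.separated_of_orderOf_ne hMp.1 hMq.1 hpq hno)
    CfsgLib.Blocks.isPBlock_principalBlock CfsgLib.Blocks.isPBlock_principalBlock
    (y := y) (hy ▸ dvd_rfl) Q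
  rw [hI, finsum_mem_singleton, CfsgLib.Chars.oneChar_apply, CfsgLib.Chars.oneChar_apply,
    one_mul] at hω
  have hdvd : q ∣ Nat.card Q := Q.dvd_card_of_dvd_card hq
  obtain ⟨k, hk⟩ := hdvd
  rw [hk, Nat.cast_mul] at hω
  refine hMq.2.1.ne_top ((Ideal.eq_top_iff_one _).2 ?_)
  have h1 : (1 : Cfsg.AlgInt) = (q : Cfsg.AlgInt) * ((k : Cfsg.AlgInt) * ω) :=
    Subtype.ext (by push_cast; rw [← mul_assoc]; exact hω)
  rw [h1]
  exact Mq.mul_mem_right _ hMq.2.2

end Cfsg.Agent.S4498
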