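import Cfsg.Statements.S4499
import Cfsg.Agent.Blocks.Contributions

set_option autoImplicit false
open Cfsg CfsgLib.Blocks CfsgLib.Blocks.HeightZero

namespace Cfsg.Agent.S4499

/-- Let G be a finite group whose order has p-part p^a (a ≥ 1), and fix a maximal ideal M of the algebraic integers containing p. If the degree of one irreducible character of a p-block B is divisible by p^(a−1), then the degree of every irreducible character in B is divisible by p^(a−1) (so B has defect at most 1). -/
theorem result {G : Type*} [Group G] [Finite G] (p : ℕ) [Fact p.Prime] (M : Ideal Cfsg.AlgInt) (hM : Cfsg.IsPModular p M) (hpa : p ∣ Nat.card G) (B : Set (Cfsg.IrrCharacter G)) (hB : Cfsg.IsPBlock M B) (χ : Cfsg.IrrCharacter G) (hχ : χ ∈ B) (hdiv : p ^ ((Nat.card G).factorization p - 1) ∣ Cfsg.charDegree (χ : G → ℂ)) (ψ : Cfsg.IrrCharacter G) (hψ : ψ ∈ B) : p ^ ((Nat.card G).factorization p - 1) ∣ Cfsg.charDegree (ψ : G → ℂ) := by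
  have hp := hM.1
  rw [hp.pow_dvd_iff_le_factorization (CfsgLib.Chars.charDegree_pos χ).ne'] at hdiv
  rw [hp.pow_dvd_iff_le_factorization (CfsgLib.Chars.charDegree_pos ψ).ne']
  haveI := Fintype.ofFinite G
  have h1 := minExp_le (p := p) hψ
  by_cases h : blockHeight p B (χ : G → ℂ) = 0
  · have h2 := (blockHeight_eq_zero_iff' hχ).1 h
    omega
  · have h2 := height_add_two_le_blockDefect hM hB hχ h
    have h3 := minExp_lt_of_height_ne_zero hχ h
    rw [blockDefect_eq, blockHeight] at h2
    change (charDegree (χ : G → ℂ)).factorization p - minExp p B + 2 ≤ _ at h2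
    omega

end Cfsg.Agent.S4499
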