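import Cfsg.Statements.S4500
import Cfsg.Agent.Eq.Def_Blocks
import Cfsg.Agent.Chars.Apps.Burnside
import Cfsg.Agent.Blocks.Contributions
import Cfsg.Agent.Blocks.PrincipalLinear

set_option autoImplicit false
open Cfsg

namespace Cfsg.Agent.S4500

open CfsgLib CfsgLib.Blocks

theorem core {G : Type*} [Group G] [Finite G] [Nontrivial G] (p q r a b c : ℕ) (hp : p.Prime)
    (hq : q.Prime) (hr : r.Prime) (hpq : p ≠ q) (hpr : p ≠ r) (hqr : q ≠ r) (ha : a ≤ 2)
    (hG : Nat.card G = p ^ a * q ^ b * r ^ c) :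
    ∃ χ : Cfsg.IrrCharacter G, (χ : G → ℂ) ≠ (fun _ => 1) ∧
      ∃ k : ℕ, Cfsg.charDegree (χ : G → ℂ) = q ^ k := by
  classical
  letI := Fintype.ofFinite G
  by_cases hperf : commutator G = ⊤
  · -- then `p` divides the order
    have ha1 : 0 < a := by
      by_contra h0
      have ha0 : a = 0 := by omega
      haveI : Group.IsSolvable G := CfsgLib.Chars.Apps.isSolvable_of_card_eq_pow_mul_pow G hq hr
        (by rw [hG, ha0, pow_zero, one_mul])
      exact absurd hperf (ne_of_lt (Group.IsSolvable.commutator_lt_top_of_nontrivial G))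
    haveI : Fact p.Prime := ⟨hp⟩
    obtain ⟨y, hy⟩ := exists_prime_orderOf_dvd_card' p (G := G)
      (by rw [hG]; exact ((dvd_pow_self p ha1.ne').trans (dvd_mul_right _ _)).trans (dvd_mul_right _ _))
    have hnu : ¬ IsUnit ((p : ℕ) : Cfsg.AlgInt) := by
      intro hu
      obtain ⟨z, hz⟩ := hu.exists_right_inv
      have hz' : (p : ℂ) * (z : ℂ) = 1 := by exact_mod_cast congrArg Subtype.val hz
      refine hp.ne_one (Nat.dvd_one.1 (Chars.dvd_of_isIntegral_div hp.ne_zero ?_))
      have : ((1 : ℕ) : ℂ) / (p : ℂ) = (z : ℂ) := by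
        rw [Nat.cast_one, div_eq_iff (by exact_mod_cast hp.ne_zero), mul_comm, hz']
      rw [this]
      exact z.2
    obtain ⟨M, hMmax, hMle⟩ := Ideal.exists_le_maximal (Ideal.span {((p : ℕ) : Cfsg.AlgInt)})
      (by rwa [Ne, Ideal.span_singleton_eq_top])
    have hM : Cfsg.IsPModular p M :=
      ⟨hp, hMmax, hMle (Ideal.mem_span_singleton_self _)⟩
    set B := Cfsg.principalBlock M G with hBdef
    have hB : Cfsg.IsPBlock M B := PrincipalLinear.isPBlock_principal M
    have h0 := finsum_block_one_mul_singular hM hB (y := y) (hy ▸ dvd_refl p)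
    rw [finsum_block_eq_sum] at h0
    have hmem : Chars.oneChar G ∈ B.toFinite.toFinset :=
      (Set.Finite.mem_toFinset _).2 (PrincipalLinear.one_mem hM)
    obtain ⟨χ, hχ, hne, hrχ⟩ : ∃ χ ∈ B.toFinite.toFinset, χ ≠ Chars.oneChar G ∧
        ¬ r ∣ Cfsg.charDegree (χ : G → ℂ) := by
      by_contra! hall
      rw [← Finset.add_sum_erase _ _ hmem, Chars.oneChar_coe, one_mul] at h0
      have hint : IsIntegral ℤ (∑ χ ∈ B.toFinite.toFinset.erase (Chars.oneChar G),
          ((Cfsg.charDegree (χ : G → ℂ) / r : ℕ) : ℂ) * (χ : G → ℂ) y) :=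
        IsIntegral.sum _ fun χ _ => by
          refine IsIntegral.mul ?_ (Chars.isIntegral_apply (Chars.isCharacter_coe χ) y)
          rw [← Int.cast_natCast (R := ℂ), ← eq_intCast (algebraMap ℤ ℂ)]
          exact isIntegral_algebraMap
      have hsum : ∑ χ ∈ B.toFinite.toFinset.erase (Chars.oneChar G),
          (χ : G → ℂ) 1 * (χ : G → ℂ) y = (r : ℂ) * ∑ χ ∈ B.toFinite.toFinset.erase (Chars.oneChar G),
          ((Cfsg.charDegree (χ : G → ℂ) / r : ℕ) : ℂ) * (χ : G → ℂ) y := by
        rw [Finset.mul_sum]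
        refine Finset.sum_congr rfl fun χ hχ => ?_
        obtain ⟨hne, hm⟩ := Finset.mem_erase.1 hχ
        rw [← mul_assoc, ← Nat.cast_mul, Nat.mul_div_cancel' (hall χ hm hne), Chars.coe_charDegree]
      rw [hsum] at h0
      refine hr.ne_one (Nat.dvd_one.1 (Chars.dvd_of_isIntegral_div hr.ne_zero ?_))
      have hrne : (r : ℂ) ≠ 0 := by exact_mod_cast hr.ne_zero
      rw [show ((1 : ℕ) : ℂ) / (r : ℂ) = -(∑ χ ∈ B.toFinite.toFinset.erase (Chars.oneChar G),
          ((Cfsg.charDegree (χ : G → ℂ) / r : ℕ) : ℂ) * (χ : G → ℂ) y) by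
        field_simp
        push_cast
        linear_combination h0]
      exact hint.neg
    have hχB := (Set.Finite.mem_toFinset _).1 hχ
    have hfa : (Nat.card G).factorization p ≤ a := by
      have hq0 : ¬ p ∣ q ^ b := fun h => hpq ((Nat.prime_dvd_prime_iff_eq hp hq).1 (hp.dvd_of_dvd_pow h))
      have hr0 : ¬ p ∣ r ^ c := fun h => hpr ((Nat.prime_dvd_prime_iff_eq hp hr).1 (hp.dvd_of_dvd_pow h))
      rw [hG, Nat.factorization_mul (mul_ne_zero (pow_ne_zero _ hp.ne_zero) (pow_ne_zero _ hq.ne_zero))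
        (pow_ne_zero _ hr.ne_zero), Nat.factorization_mul (pow_ne_zero _ hp.ne_zero)
        (pow_ne_zero _ hq.ne_zero), Finsupp.add_apply, Finsupp.add_apply, hp.factorization_pow,
        Finsupp.single_eq_same, Nat.factorization_eq_zero_of_not_dvd hq0,
        Nat.factorization_eq_zero_of_not_dvd hr0]
      omega
    have hpχ : ¬ p ∣ Cfsg.charDegree (χ : G → ℂ) := by
      rw [← PrincipalLinear.blockHeight_eq_zero_iff hM χ]
      by_contra hh
      have hh' : Cfsg.blockHeight p B (χ : G → ℂ) ≠ 0 := hh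
      have h1 := HeightZero.height_add_two_le_blockDefect hM hB hχB hh'
      have h2 : Cfsg.blockDefect p B ≤ (Nat.card G).factorization p := by
        rw [HeightZero.blockDefect_eq]; omega
      omega
    refine ⟨χ, fun h => hne ((Chars.eq_oneChar_iff χ).2 h), ?_⟩
    have hd := Chars.charDegree_dvd_card χ
    rw [hG] at hd
    have h1 : Cfsg.charDegree (χ : G → ℂ) ∣ q ^ b := by
      have hc1 : (Cfsg.charDegree (χ : G → ℂ)).Coprime (r ^ c) :=
        ((hr.coprime_iff_not_dvd.2 hrχ).symm).pow_right c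
      have hc2 : (Cfsg.charDegree (χ : G → ℂ)).Coprime (p ^ a) :=
        ((hp.coprime_iff_not_dvd.2 hpχ).symm).pow_right a
      exact hc2.dvd_of_dvd_mul_left (hc1.dvd_of_dvd_mul_right hd)
    obtain ⟨k, -, hk⟩ := (Nat.dvd_prime_pow hq).1 h1
    exact ⟨k, hk⟩
  · obtain ⟨l, hl⟩ := Chars.exists_nontrivial_linChar hperf
    refine ⟨Chars.linChar l, fun h => hl ?_, 0, Chars.charDegree_linChar l⟩
    exact (Chars.linChar_eq_oneChar_iff l).1 ((Chars.eq_oneChar_iff _).2 h)

/-- Let G be a non-trivial finite group of order p^a · q^b · r^c with p, q, r distinct primes and a ≤ 2. Then G has a non-principal irreducible character whose degree is a power of q, and a non-principal irreducible character whose degree is a power of r; the power may be the zeroth, so a non-principal linear character serves for both. -/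
theorem result {G : Type*} [Group G] [Finite G] [Nontrivial G] (p q r a b c : ℕ) (hp : p.Prime) (hq : q.Prime) (hr : r.Prime) (hpq : p ≠ q) (hpr : p ≠ r) (hqr : q ≠ r) (ha : a ≤ 2) (hG : Nat.card G = p ^ a * q ^ b * r ^ c) : (∃ χ : Cfsg.IrrCharacter G, (χ : G → ℂ) ≠ (fun _ => 1) ∧ ∃ k : ℕ, Cfsg.charDegree (χ : G → ℂ) = q ^ k) ∧ ∃ χ : Cfsg.IrrCharacter G, (χ : G → ℂ) ≠ (fun _ => 1) ∧ ∃ k : ℕ, Cfsg.charDegree (χ : G → ℂ) = r ^ k := by
  exact ⟨core p q r a b c hp hq hr hpq hpr hqr ha hG,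
    core p r q a c b hp hr hq hpr hpq hqr.symm ha (by rw [hG]; ring)⟩

end Cfsg.Agent.S4500
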