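import Cfsg.Statements.S4504
import Cfsg.Agent.SmallPRep.Degree

set_option autoImplicit false
open Cfsg

namespace Cfsg.Agent.S4504

/-- Let G be a finite group whose order is divisible by the prime p exactly once and which has no normal subgroup of order p. If G has a faithful character of degree exactly (p − 1)/2, then G modulo its centre is isomorphic to PSL(2, p). -/
theorem result {G : Type*} [Group G] [Finite G] (p : ℕ) (hp : p.Prime) (hdiv : p ∣ Nat.card G) (hsq : ¬ p ^ 2 ∣ Nat.card G) (hnn : ∀ H : Subgroup G, H.Normal → Nat.card H ≠ p) (χ : G → ℂ) (hχ : Cfsg.IsCharacter G χ) (hfaith : ∀ g : G, χ g = χ 1 → g = 1) (hdeg : 2 * Cfsg.charDegree χ + 1 = p) : Nonempty ((G ⧸ Subgroup.center G) ≃* Matrix.ProjectiveSpecialLinearGroup (Fin 2) (ZMod p)) := by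
  haveI : Fact p.Prime := ⟨hp⟩
  obtain ⟨n, ρ, rfl⟩ := hχ
  have hn : Cfsg.charDegree ρ.character = n := by
    simp [Cfsg.charDegree, Representation.char_one]
  have hρ : Function.Injective ρ := (injective_iff_map_eq_one' ρ).2 fun g => ⟨fun h => hfaith g (by
    show LinearMap.trace ℂ _ (ρ g) = LinearMap.trace ℂ _ (ρ 1)
    rw [h, ρ.map_one]), fun h => by rw [h, map_one]⟩
  rw [hn] at hdeg
  exact (CfsgLib.SmallPRep.small_degree hsq hdiv hnn ρ hρ hdeg.le).2

end Cfsg.Agent.S4504
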