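import Cfsg.Statements.S4505
import Cfsg.Agent.Eq.Def_Blocks
import Cfsg.Agent.S0962
import Cfsg.Agent.Blocks.Orth.BlockSupport

set_option autoImplicit false
open Cfsg

namespace Cfsg.Agent.S4505

/-- Let G be a finite group, p a prime and M a maximal ideal of the algebraic integers containing p. For every σ, the number of p-blocks of defect exactly σ is at most the number of conjugacy classes of p-regular elements whose centralizer has order divisible by p^σ but not by p^(σ+1). -/
theorem result {G : Type*} [Group G] [Finite G] (p : ℕ) [Fact p.Prime] (M : Ideal Cfsg.AlgInt) (hM : Cfsg.IsPModular p M) (σ : ℕ) : Nat.card {B : Set (Cfsg.IrrCharacter G) // Cfsg.IsPBlock M B ∧ Cfsg.blockDefect p B = σ} ≤ Nat.card {C : ConjClasses G // ∃ g : G, ConjClasses.mk g = C ∧ ¬ p ∣ orderOf g ∧ (Nat.card (Subgroup.centralizer ({g} : Set G))).factorization p = σ} := by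
  classical
  haveI := hM.2.1
  haveI : Fintype G := Fintype.ofFinite G
  haveI := CfsgLib.Blocks.finite_irrCharacter (G := G)
  haveI : Fintype (ConjClasses G) := Fintype.ofFinite _
  haveI : Fintype {B : Set (IrrCharacter G) // IsPBlock M B ∧ blockDefect p B = σ} := Fintype.ofFinite _
  let P : ConjClasses G → Prop := fun C => ∃ g : G, ConjClasses.mk g = C ∧ ¬ p ∣ orderOf g ∧
    (Nat.card (Subgroup.centralizer ({g} : Set G))).factorization p = σ
  haveI : Fintype {C : ConjClasses G // P C} := Fintype.ofFinite _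
  choose χ hχmem hχ using fun B : {B : Set (IrrCharacter G) // IsPBlock M B ∧ blockDefect p B = σ} =>
    Cfsg.Agent.S0962.exists_vanishing hM B.2.1 (le_of_eq B.2.2.symm)
  let A : Matrix {B : Set (IrrCharacter G) // IsPBlock M B ∧ blockDefect p B = σ} {C : ConjClasses G // P C}
      (CfsgLib.Blocks.kres M) :=
    fun B C => CfsgLib.Blocks.res M ⟨blockCoeff B.1 C.1.out, CfsgLib.Blocks.memLocalRing_blockCoeff B.2.1 _⟩
  let W : Matrix {C : ConjClasses G // P C} {B : Set (IrrCharacter G) // IsPBlock M B ∧ blockDefect p B = σ}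
      (CfsgLib.Blocks.kres M) :=
    fun C B => CfsgLib.Blocks.res M ⟨centralChar (χ B : G → ℂ) C.1.out, CfsgLib.Blocks.memLocalRing_centralChar (χ B) _⟩
  have hAW : A * W = 1 := by
    ext B B'
    let f : ConjClasses G → CfsgLib.Blocks.localRing M := fun C =>
      ⟨blockCoeff B.1 C.out, CfsgLib.Blocks.memLocalRing_blockCoeff B.2.1 _⟩ *
        ⟨centralChar (χ B' : G → ℂ) C.out, CfsgLib.Blocks.memLocalRing_centralChar (χ B') _⟩
    have hf : ∑ C, f C = if B = B' then 1 else 0 := by
      apply Subtype.ext
      push_cast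
      rw [apply_ite (Subtype.val : CfsgLib.Blocks.localRing M → ℂ)]
      have hone := CfsgLib.Blocks.omega_setIdem B.1 (χ B')
      rw [CfsgLib.Blocks.omega_eq_sum_classes (CfsgLib.Blocks.isCentralElt_setIdem B.1)
        (CfsgLib.Blocks.isClassFunction_of_isCharacter
          (CfsgLib.Blocks.isCharacter_of_isIrrCharacter (χ B').2))] at hone
      simp only [CfsgLib.Blocks.setIdem, CfsgLib.Blocks.coeff_ofFun] at hone
      simp only [f]
      push_cast
      refine hone.trans (if_congr ⟨fun h => Subtype.ext ?_, fun h => h ▸ hχmem B⟩ rfl rfl)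
      rw [CfsgLib.Blocks.eq_blockOf_of_mem B.2.1 h,
        CfsgLib.Blocks.eq_blockOf_of_mem B'.2.1 (hχmem B')]
    have hvan : ∀ C : ConjClasses G, ¬ P C → CfsgLib.Blocks.res M (f C) = 0 := by
      intro C hC
      rw [map_mul]
      by_cases hr : p ∣ orderOf C.out
      · rw [(CfsgLib.Blocks.res_eq_zero_iff).2 (show MemLocalIdeal M (blockCoeff B.1 C.out) by
          rw [CfsgLib.Blocks.blockCoeff_eq_zero_of_singular hM B.2.1 hr]
          exact CfsgLib.Blocks.memLocalIdeal_zero), zero_mul]
      rcases lt_trichotomy ((Nat.card (Subgroup.centralizer ({C.out} : Set G))).factorization p) σ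
        with hlt | heq | hgt
      · exact mul_eq_zero_of_right _ (CfsgLib.Blocks.res_eq_zero_iff.2 (hχ B' _ hlt))
      · exact absurd ⟨C.out, Quotient.out_eq C, hr, heq⟩ hC
      · refine mul_eq_zero_of_left (CfsgLib.Blocks.res_eq_zero_iff.2 ?_) _
        by_contra hne
        have := CfsgLib.Blocks.factorization_centralizer_le_blockDefect hM B.2.1 hne
        rw [B.2.2] at this
        omega
    have h1 := congrArg (CfsgLib.Blocks.res M) hf
    rw [map_sum, apply_ite (CfsgLib.Blocks.res M), map_one, map_zero,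
      ← Finset.sum_filter_of_ne (p := P) (fun C _ hne => by
          by_contra hC; exact hne (hvan C hC)),
      Finset.sum_subtype (p := P) _ (by simp)] at h1
    rw [Matrix.mul_apply, Matrix.one_apply, ← h1]
    exact Finset.sum_congr rfl fun C _ => by simp only [f, map_mul, A, W]
  rw [Nat.card_eq_fintype_card, Nat.card_eq_fintype_card]
  have h2 : (1 : Matrix _ _ (CfsgLib.Blocks.kres M)).rank ≤ A.rank := hAW ▸ Matrix.rank_mul_le_left A W
  rw [Matrix.rank_one] at h2
  convert h2.trans (Matrix.rank_le_card_width A)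

end Cfsg.Agent.S4505
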