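import Cfsg.Statements.S4506
import Cfsg.Agent.Chars.PConjugate.Main
import Cfsg.Agent.Chars.Basic.ClassSum

set_option autoImplicit false
open Cfsg

namespace Cfsg.Agent.S4506

/-- Let G be a finite group, p a prime, p^a the p-part of the order of G and g′ its p′-part. Call two irreducible characters p-conjugate when one is obtained from the other by applying a field automorphism of ℂ that fixes the g′-th roots of unity, and let r be the number of characters p-conjugate to the irreducible character χ (χ included). Then the exponent of p in r·χ(1) is at most a; and if p^a divides r·χ(1) then p^a already divides χ(1). -/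
theorem result {G : Type*} [Group G] [Finite G] (p : ℕ) (hp : p.Prime) (χ : Cfsg.IrrCharacter G) (r : ℕ) (hr : Nat.card {ψ : Cfsg.IrrCharacter G // ∃ σ : ℂ ≃+* ℂ, σ (Complex.exp (2 * Real.pi * Complex.I / ((Nat.card G / p ^ (Nat.card G).factorization p) : ℕ))) = Complex.exp (2 * Real.pi * Complex.I / ((Nat.card G / p ^ (Nat.card G).factorization p) : ℕ)) ∧ (ψ : G → ℂ) = fun g => σ ((χ : G → ℂ) g)} = r) : (r * Cfsg.charDegree (χ : G → ℂ)).factorization p ≤ (Nat.card G).factorization p ∧ (p ^ (Nat.card G).factorization p ∣ r * Cfsg.charDegree (χ : G → ℂ) → p ^ (Nat.card G).factorization p ∣ Cfsg.charDegree (χ : G → ℂ)) := by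
  haveI : Fintype G := Fintype.ofFinite G
  rcases Nat.eq_zero_or_pos ((Nat.card G).factorization p) with ha | ha
  · rw [ha] at hr ⊢
    have hpN : ¬ p ∣ Nat.card G := fun h => by
      have := (hp.factorization_pos_of_dvd Nat.card_pos.ne' h)
      omega
    have hr1 : r = 1 := by
      rw [← hr, Nat.card_eq_one_iff_unique]
      refine ⟨⟨fun x y => Subtype.ext ?_⟩, ⟨⟨χ, RingEquiv.refl ℂ, rfl, rfl⟩⟩⟩
      suffices h : ∀ z : {ψ : Cfsg.IrrCharacter G // ∃ σ : ℂ ≃+* ℂ,
          σ (Complex.exp (2 * Real.pi * Complex.I / ((Nat.card G / p ^ 0) : ℕ))) =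
            Complex.exp (2 * Real.pi * Complex.I / ((Nat.card G / p ^ 0) : ℕ)) ∧
          (ψ : G → ℂ) = fun g => σ ((χ : G → ℂ) g)}, z.1 = χ from (h x).trans (h y).symm
      intro z
      have hm : Nat.card G / p ^ 0 ∣ Nat.card G := by simp
      obtain ⟨k, hk⟩ := (CfsgLib.PConjugate.conjugate_iff hm χ z.1).1 z.2
      rw [← hk]
      refine Subtype.ext (funext fun g => ?_)
      rw [CfsgLib.PConjugate.twist_apply]
      refine congrArg (χ : G → ℂ) ?_
      have h1 : ((k.1 : (ZMod (Nat.card G))ˣ) : ZMod (Nat.card G)).val ≡ 1 [MOD orderOf g] :=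
        ((CfsgLib.PConjugate.mem_expo_iff k.1).1 k.2).of_dvd (by simpa using orderOf_dvd_natCard g)
      rw [pow_eq_pow_iff_modEq.2 h1, pow_one]
    subst hr1
    refine ⟨?_, fun _ => by simp⟩
    rw [one_mul, Nat.factorization_eq_zero_of_not_dvd fun h =>
      hpN (h.trans (CfsgLib.Chars.charDegree_dvd_card χ))]
  · exact CfsgLib.PConjugate.main (P := ⟨hp, ha, (Nat.ordProj_mul_ordCompl_eq_self _ _).symm,
      Nat.not_dvd_ordCompl hp Nat.card_pos.ne'⟩) χ hr

end Cfsg.Agent.S4506
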