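import Cfsg.Statements.S4507
import Cfsg.Agent.Blocks.Cyclic.PConjugate
import Cfsg.Agent.Blocks.Subsection.Major
import Cfsg.Agent.Eq.Def_BlockRank
import Cfsg.Agent.Eq.Def_Blocks

set_option autoImplicit false
open Cfsg

namespace Cfsg.Agent.S4507

/-- Let G be a finite group whose order g is divisible by the prime p exactly once, g′ = g/p, and fix a maximal ideal M of the algebraic integers containing p. Call two irreducible characters p-conjugate when a field automorphism of ℂ fixing the g′-th roots of unity carries one to the other. Let B be a p-block of positive defect (its defect group is a Sylow p-subgroup). Then B contains a subset Y (the exceptional family) such that: Y is a full p-conjugacy class (its members are pairwise p-conjugate and every p-conjugate of a member of Y lies in Y); every member of B outside Y is p-conjugate only to itself; the size t of Y divides p − 1 and B has exactly t + (p − 1)/t members; and there are signs δ_χ =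 ±1 (χ ∈ B) such that for every p-regular element x and every θ ∈ Y, Σ_{χ ∈ B ∖ Y} δ_χ χ(x) + δ_θ θ(x) = 0. -/
theorem result {G : Type*} [Group G] [Finite G] (p : ℕ) [Fact p.Prime] (M : Ideal Cfsg.AlgInt) (hM : Cfsg.IsPModular p M) (hdiv : p ∣ Nat.card G) (hsq : ¬ p ^ 2 ∣ Nat.card G) (B : Set (Cfsg.IrrCharacter G)) (hB : Cfsg.IsPBlock M B) (hd : 0 < Cfsg.blockDefect p B) : ∃ Y : Set (Cfsg.IrrCharacter G), Y ⊆ B ∧ Y.Nonempty ∧ (∀ θ ∈ Y, ∀ ψ : Cfsg.IrrCharacter G, (∃ σ : ℂ ≃+* ℂ, σ (Complex.exp (2 * Real.pi * Complex.I / ((Nat.card G / p ^ (Nat.card G).factorization p) : ℕ))) = Complex.exp (2 * Real.pi * Complex.I / ((Nat.card G / p ^ (Nat.card G).factorization p) : ℕ)) ∧ (ψ : G → ℂ) = fun g => σ ((θ : G → ℂ) g)) ↔ ψ ∈ Y) ∧ (∀ χ ∈ B, χ ∉ Y → ∀ ψ : Cfsg.IrrCharacter G, (∃ σ : ℂ ≃+* ℂ, σ (Complex.exp (2 * Real.pi * Complex.I / ((Nat.card G / p ^ (Nat.card G).factorization p) : ℕ))) = Complex.exp (2 * Real.pi * Complex.I / ((Nat.card G / p ^ (Nat.card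 G).factorization p) : ℕ)) ∧ (ψ : G → ℂ) = fun g => σ ((χ : G → ℂ) g)) → ψ = χ) ∧ Nat.card Y ∣ p - 1 ∧ Nat.card B = Nat.card Y + (p - 1) / Nat.card Y ∧ ∃ δ : Cfsg.IrrCharacter G → ℤ, (∀ χ ∈ B, δ χ = 1 ∨ δ χ = -1) ∧ ∀ x : G, ¬ p ∣ orderOf x → ∀ θ ∈ Y, (∑ᶠ χ ∈ B \ Y, (δ χ : ℂ) * (χ : G → ℂ) x) + (δ θ : ℂ) * (θ : G → ℂ) x = 0 := by
  classical
  haveI := Fintype.ofFinite G
  haveI := CfsgLib.Blocks.isMaximal_of_isPModular hM
  haveI := CfsgLib.Blocks.charP_kres hM
  have hp : p.Prime := Fact.out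
  have hN : Nat.card G ≠ 0 := Nat.card_pos.ne'
  have hν : (Nat.card G).factorization p = 1 := by
    have h1 := hp.factorization_pos_of_dvd hN hdiv
    have h2 : ¬ 2 ≤ (Nat.card G).factorization p := fun h =>
      hsq ((hp.pow_dvd_iff_le_factorization hN).2 h)
    omega
  have hE := CfsgLib.Blocks.isBlockIdem_topEl (M := M) hB
  obtain ⟨D, hD⟩ := hE.exists_defectGroup p
  have hBD : Cfsg.IsDefectGroup p M B D := (CfsgLib.Blocks.isDefectGroup_topEl_iff hB D).mpr hD
  have hDc : Nat.card D = p := by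
    have h1 := CfsgLib.Blocks.Contrib.natCard_defectGroup hM hB hBD
    have h2 : Cfsg.blockDefect p B ≤ 1 := by
      rw [← hν]
      exact Nat.sub_le _ _
    rw [h1, show Cfsg.blockDefect p B = 1 by omega, pow_one]
  have hD1 : D ≠ ⊥ := fun h0 => by
    rw [Subgroup.card_eq_one.2 h0] at hDc
    exact hp.ne_one hDc.symm
  have hcyc : IsCyclic D := isCyclic_of_prime_card hDc
  obtain ⟨c, hc⟩ := CfsgLib.Blocks.Cyclic.exists_inducing hM hB hBD hcyc
  obtain ⟨hset, -, hdvd⟩ := CfsgLib.Blocks.Cyclic.setting_of_cyclic hM hB hBD hD1 hcyc hc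
    (T := CfsgLib.Blocks.pairStab ⊤ D (CfsgLib.Blocks.subEl M _ c)) (fun t => by
      rw [CfsgLib.Blocks.mem_pairStab, CfsgLib.Blocks.stabilizesBlock_iff hc.1]
      exact ⟨fun ⟨⟨_, h1⟩, h2⟩ =>
          ⟨h1, CfsgLib.Blocks.normalizer_le_normalizer_centralizer D h1, h2⟩,
        fun ⟨h1, _, h2⟩ => ⟨⟨trivial, h1⟩, h2⟩⟩)
  have hl := CfsgLib.Blocks.Cyclic.blockRank_eq hM hB hBD hD1 hcyc hc hset
  set e := Nat.card (CfsgLib.Blocks.AbelianFree.aut D (CfsgLib.Blocks.subEl M _ c)) with he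
  obtain ⟨X, Y, r, δ₀, hs⟩ := CfsgLib.Blocks.Cyclic.exists_split hset hD1 hl
  set m := Nat.card G / p ^ (Nat.card G).factorization p with hmdef
  have hm : m ∣ Nat.card G := Nat.ordCompl_dvd _ _
  have hpm : p * m = Nat.card G := by
    rw [hmdef, hν, pow_one]
    exact Nat.mul_div_cancel' hdiv
  have hcop : Nat.Coprime p m := (Nat.coprime_ordCompl hp hN)
  have hmreg : ∀ g : G, Cfsg.IsPRegular p g → orderOf g ∣ m := fun g hg =>
    Nat.Coprime.dvd_of_dvd_mul_left ((hp.coprime_iff_not_dvd.2 hg).symm)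
      (hpm.symm ▸ orderOf_dvd_natCard g)
  have hk : ∀ (k : CfsgLib.PConjugate.expo G hm) (v : D), v ≠ 1 →
      Subgroup.zpowers ((v : G) ^ (k.1 : ZMod (Nat.card G)).val) = Subgroup.zpowers (v : G) := by
    intro k v _
    refine Subgroup.eq_of_le_of_card_ge
      (Subgroup.zpowers_le.2 (Subgroup.pow_mem _ (Subgroup.mem_zpowers _) _)) (le_of_eq ?_)
    rw [Nat.card_zpowers, Nat.card_zpowers, Nat.Coprime.orderOf_pow]
    exact (Nat.Coprime.of_dvd_right (orderOf_dvd_natCard (v : G))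
      (ZMod.val_coe_unit_coprime k.1)).symm
  letI := CfsgLib.PConjugate.expoAction G hm
  have hcancel : ∀ (k : CfsgLib.PConjugate.expo G hm) (χ ψ : Cfsg.IrrCharacter G),
      CfsgLib.PConjugate.twist k.1 χ = CfsgLib.PConjugate.twist k.1 ψ → χ = ψ :=
    fun k χ ψ h => MulAction.injective k h
  have hgen : ∀ v w : D, v ≠ 1 → w ≠ 1 → ∃ k : CfsgLib.PConjugate.expo G hm,
      w = v ^ (k.1 : ZMod (Nat.card G)).val := by
    intro v w hv hw
    obtain ⟨i, hi⟩ := (mem_powers_iff_mem_zpowers).2 (mem_zpowers_of_prime_card hDc hv (g' := w))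
    have hip : ¬ p ∣ i := fun ⟨d, hd⟩ => hw (by
      rw [← hi, hd]
      show v ^ (p * d) = 1
      rw [pow_mul, ← hDc, pow_card_eq_one', one_pow])
    obtain ⟨j, hj1, hj2⟩ := Nat.chineseRemainder hcop i 1
    have hjN : Nat.Coprime j (Nat.card G) := by
      rw [← hpm]
      refine Nat.Coprime.mul_right ?_ ?_
      · refine (hp.coprime_iff_not_dvd.2 fun hpj => hip ?_).symm
        exact (hj1.dvd_iff dvd_rfl).1 hpj
      · exact (Nat.coprime_of_mul_modEq_one 1 (by simpa using hj2))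
    have hval : ((ZMod.unitOfCoprime j hjN : (ZMod (Nat.card G))ˣ) : ZMod (Nat.card G)).val =
        j % Nat.card G := by rw [ZMod.coe_unitOfCoprime, ZMod.val_natCast]
    refine ⟨⟨ZMod.unitOfCoprime j hjN, ?_⟩, ?_⟩
    · rw [CfsgLib.PConjugate.mem_expo_iff, hval]
      exact ((Nat.mod_modEq j _).of_dvd hm).trans hj2
    · rw [← hi, hval]
      refine pow_eq_pow_iff_modEq.2 (Nat.ModEq.of_dvd (hDc ▸ orderOf_dvd_natCard v) ?_)
      exact hj1.symm.trans ((Nat.mod_modEq j _).of_dvd hdiv).symm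
  have hfix : ∀ (k : CfsgLib.PConjugate.expo G hm), ∀ χ ∈ X,
      CfsgLib.PConjugate.twist k.1 χ = χ := by
    intro k χ hχ
    by_contra hne
    have hχB : χ ∈ B := hs.mem_B (Or.inl hχ)
    have hT := CfsgLib.Blocks.Cyclic.twist_mem hM hB hm hmreg k hχB
    have h0 := CfsgLib.Blocks.Cyclic.coeff_eq_zero_of_comb hset
      (fun η => (if η = CfsgLib.PConjugate.twist k.1 χ then (1 : ℂ) else 0) -
        if η = χ then 1 else 0)
      (fun η hη => by
        rw [if_neg (fun e1 => hη (by rw [e1]; exact hT)), if_neg (fun e1 => hη (by rw [e1]; exact hχB)),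
          sub_self])
      (fun v hv => by
        have hvk : v ^ (k.1 : ZMod (Nat.card G)).val ≠ 1 := fun e1 => hv (by
          have h1 := hk k v hv
          rw [← SubgroupClass.coe_pow, e1, OneMemClass.coe_one, Subgroup.zpowers_one_eq_bot] at h1
          exact Subtype.ext (Subgroup.zpowers_eq_bot.1 h1.symm))
        simp only [sub_mul, ite_mul, one_mul, zero_mul, Finset.sum_sub_distrib, Finset.sum_ite_eq',
          Set.Finite.mem_toFinset, hT, hχB, if_true,
          CfsgLib.Blocks.Cyclic.gval_twist hset hm hmreg k (hk k) χ hv, hs.row χ hχ v hv,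
          hs.row χ hχ _ hvk, sub_self])
      (fun g hg => by
        simp only [sub_mul, ite_mul, one_mul, zero_mul, Finset.sum_sub_distrib, Finset.sum_ite_eq',
          Set.Finite.mem_toFinset, hT, hχB, if_true,
          CfsgLib.Blocks.Cyclic.twist_apply_regular hm hmreg k χ hg, sub_self]) χ
    simp [Ne.symm hne] at h0
  have hpres : ∀ (k : CfsgLib.PConjugate.expo G hm), ∀ θ ∈ Y,
      CfsgLib.PConjugate.twist k.1 θ ∈ Y := by
    intro k θ hθ
    have hT := CfsgLib.Blocks.Cyclic.twist_mem hM hB hm hmreg k (hs.mem_B (Or.inr hθ))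
    rw [← B.toFinite.mem_toFinset, ← hs.union, Finset.mem_union] at hT
    refine hT.resolve_left fun hx => ?_
    have h1 := hcancel k θ _ (hfix k _ hx).symm
    exact Finset.disjoint_left.1 hs.disj (h1.symm ▸ hx) hθ
  have htrans : ∀ θ ∈ Y, ∀ θ' ∈ Y, ∃ k : CfsgLib.PConjugate.expo G hm,
      CfsgLib.PConjugate.twist k.1 θ = θ' := by
    intro θ hθ θ' hθ'
    set O := Y.filter fun η => ∃ k : CfsgLib.PConjugate.expo G hm,
      CfsgLib.PConjugate.twist k.1 θ = η
    have hO : ∀ (k : CfsgLib.PConjugate.expo G hm), ∀ η ∈ O,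
        CfsgLib.PConjugate.twist k.1 η ∈ O := by
      intro k η hη
      obtain ⟨hηY, l, hl⟩ := Finset.mem_filter.1 hη
      exact Finset.mem_filter.2 ⟨hpres k η hηY, k * l,
        (mul_smul k l θ : (k * l) • θ = k • l • θ).trans (congrArg (CfsgLib.PConjugate.twist k.1) hl)⟩
    obtain ⟨v₀, hv₀⟩ : ∃ v : D, v ≠ 1 := by
      by_contra hcon
      push Not at hcon
      exact hD1 ((Subgroup.eq_bot_iff_forall _).2 fun z hz => congrArg Subtype.val (hcon ⟨z, hz⟩))
    have hconst : ∀ Z : Finset (Cfsg.IrrCharacter G), (∀ (k : CfsgLib.PConjugate.expo G hm),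
        ∀ η ∈ Z, CfsgLib.PConjugate.twist k.1 η ∈ Z) → ∀ v : D, v ≠ 1 →
        ∑ η ∈ Z, CfsgLib.Blocks.AbelianFree.gval p D (CfsgLib.Blocks.subEl M _ c) η v =
          ∑ η ∈ Z, CfsgLib.Blocks.AbelianFree.gval p D (CfsgLib.Blocks.subEl M _ c) η v₀ := by
      intro Z hZ v hv
      obtain ⟨k, rfl⟩ := hgen v₀ v hv₀ hv
      simp only [← CfsgLib.Blocks.Cyclic.gval_twist hset hm hmreg k (hk k) _ hv₀]
      have himg : Z.image (CfsgLib.PConjugate.twist k.1) = Z :=
        Finset.eq_of_subset_of_card_le (Finset.image_subset_iff.2 (hZ k))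
          (Finset.card_image_of_injective _ fun a b h => hcancel k a b h).ge
      conv_rhs => rw [← himg, Finset.sum_image fun a _ b _ h => hcancel k a b h]
    have hOY := hs.eq_of_const hset hD1 (Finset.filter_subset _ Y) ⟨θ, Finset.mem_filter.2 ⟨hθ, 1,
      (one_smul _ θ : (1 : CfsgLib.PConjugate.expo G hm) • θ = θ)⟩⟩ (hconst O hO) (hconst Y hpres)
    exact (Finset.mem_filter.1 (hOY.ge hθ')).2
  have he0 : 0 < e := Nat.card_pos
  have hYc : Y.card * e = p - 1 := by
    have h1 := hs.card_Y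
    rw [← he, hDc] at h1
    omega
  have hY0 : 0 < Y.card := by
    rcases Nat.eq_zero_or_pos Y.card with h0 | h0
    · rw [h0, zero_mul] at hYc
      have := hp.one_lt
      omega
    · exact h0
  refine ⟨(Y : Set _), fun θ hθ => hs.mem_B (Or.inr hθ),
    Finset.coe_nonempty.2 (Finset.card_pos.1 hY0), fun θ hθ ψ => ?_, fun χ hχ hχY ψ hψ => ?_, ?_, ?_,
    fun η => if η ∈ X then r η else δ₀, fun χ hχ => ?_, fun x hx θ hθ => ?_⟩
  · rw [CfsgLib.PConjugate.conjugate_iff hm θ ψ]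
    exact ⟨fun ⟨k, hk'⟩ => hk' ▸ hpres k θ hθ, fun hψ => htrans θ hθ ψ hψ⟩
  · rw [CfsgLib.PConjugate.conjugate_iff hm χ ψ] at hψ
    obtain ⟨k, rfl⟩ := hψ
    refine hfix k χ ?_
    rw [← B.toFinite.mem_toFinset, ← hs.union, Finset.mem_union] at hχ
    exact hχ.resolve_right hχY
  · rw [Nat.card_coe_set_eq, Set.ncard_coe_finset]
    exact ⟨e, hYc.symm⟩
  · rw [Nat.card_coe_set_eq, Nat.card_coe_set_eq, Set.ncard_coe_finset,
      Set.ncard_eq_toFinset_card B B.toFinite, ← hs.union, Finset.card_union_of_disjoint hs.disj,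
      hs.card_X, ← he, ← hYc, Nat.mul_div_cancel_left _ hY0, add_comm]
  · dsimp only
    split_ifs with h1
    · exact hs.sign χ h1
    · exact hs.sign₀
  · have hBY : B \ (Y : Set _) = (X : Set _) := by
      rw [← B.toFinite.coe_toFinset, ← hs.union, Finset.coe_union]
      exact Set.union_diff_cancel_right (by
        rw [← Set.disjoint_iff_inter_eq_empty.1 (Finset.disjoint_coe.2 hs.disj)])
    rw [hBY, finsum_mem_coe_finset]
    dsimp only
    rw [if_neg fun h1 => Finset.disjoint_left.1 hs.disj h1 hθ, add_comm,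
      Finset.sum_congr rfl fun η hη => by rw [if_pos hη]]
    exact hs.reg_sum θ hθ x hx

end Cfsg.Agent.S4507
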