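import Cfsg.Statements.S4509
import Cfsg.Agent.SelfCentPrime.Basic
open CfsgLib.SelfCentPrime
open scoped commutatorElement Pointwise

set_option autoImplicit false
open Cfsg

namespace Cfsg.Agent.S4509

/-- Let the finite group G contain an element x of prime order p with C_G(x) = ⟨x⟩; let t be the number of conjugacy classes of elements of order p and 1 + n·p the number of subgroups of order p. Then G has a normal subgroup of order 1 + n·p if and only if either t = p − 1, or t < p − 1 and G″ ≠ G′. Moreover, if t = p − 1 then G′ has order 1 + n·p and G/G′ is cyclic of order p; and if t < p − 1 and G″ ≠ G′ then G″ has order 1 + n·p and G′ has order p·(1 + n·p). -/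
theorem result {G : Type*} [Group G] [Finite G] (p : ℕ) (hp : p.Prime) (x : G) (hx : orderOf x = p) (hC : Subgroup.centralizer ({x} : Set G) = Subgroup.zpowers x) (t : ℕ) (ht : Nat.card {C : ConjClasses G // ∃ g ∈ C.carrier, orderOf g = p} = t) (n : ℕ) (hn : Nat.card {H : Subgroup G // Nat.card H = p} = 1 + n * p) : ((∃ S : Subgroup G, S.Normal ∧ Nat.card S = 1 + n * p) ↔ (t = p - 1 ∨ (t < p - 1 ∧ derivedSeries G 2 ≠ derivedSeries G 1))) ∧ (t = p - 1 → Nat.card (commutator G) = 1 + n * p ∧ IsCyclic (G ⧸ commutator G) ∧ (commutator G).index = p) ∧ (t < p - 1 → derivedSeries G 2 ≠ derivedSeries G 1 → Nat.card (derivedSeries G 2) = 1 + n * p ∧ Nat.card (commutator G) = p * (1 + n * p)) := by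
  have h : SelfCent G p x := ⟨hp, hx, hC⟩
  have e := classes_mul h ht
  have hnI : (nor x).index = 1 + n * p := by rw [← subgroups_card_eq h, hn]
  have hp1 : 1 < p := hp.one_lt
  have hN : p * (Subgroup.zpowers x).relIndex (nor x) = Nat.card (nor x) := by
    have := Subgroup.relIndex_mul_relIndex ⊥ (Subgroup.zpowers x) (nor x) bot_le zpowers_le_nor
    rwa [Subgroup.relIndex_bot_left, Subgroup.relIndex_bot_left, card_zpowers' h] at this
  have hG := Subgroup.card_mul_index (nor x)
  -- case `t = p - 1`
  have hA : t = p - 1 → Nat.card (commutator G) = 1 + n * p ∧ IsCyclic (G ⧸ commutator G) ∧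
      (commutator G).index = p := by
    intro h1
    obtain ⟨hnor, hidx, -⟩ := commutator_complement h ht h1
    haveI := Fact.mk hp
    refine ⟨?_, isCyclic_of_prime_card (p := p) (by rw [← Subgroup.index, hidx]), hidx⟩
    have e1 := Subgroup.card_mul_index (commutator G)
    rw [hidx, ← hG, hnI] at e1
    rw [hnor, card_zpowers' h] at e1
    exact Nat.eq_of_mul_eq_mul_right hp.pos (e1.trans (mul_comm _ _))
  -- case `t < p - 1`
  have hB : t < p - 1 → derivedSeries G 2 ≠ derivedSeries G 1 →
      Nat.card (derivedSeries G 2) = 1 + n * p ∧ Nat.card (commutator G) = p * (1 + n * p) := by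
    intro h1 h2
    obtain ⟨hxG, -⟩ := index_commutator_le h ht h1.ne
    have hD : ¬ p ∣ Nat.card (derivedSeries G 2) := by
      intro hd
      apply h2
      refine le_antisymm (derivedSeries_antitone G (by norm_num)) ?_
      rw [derivedSeries_one]
      exact commutator_le_of_dvd h _ hd
    set D := derivedSeries G 2 with hDdef
    have hq := quotient D h hD
    have hD2 : D = ⁅commutator G, commutator G⁆ := by
      rw [hDdef, derivedSeries_succ, derivedSeries_one]
    have hGD : commutator G = Subgroup.zpowers x ⊔ D := by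
      refine le_antisymm ?_ (sup_le (Subgroup.zpowers_le.2 hxG) ?_)
      · intro g hg
        have h3 : (QuotientGroup.mk g : G ⧸ D) ∈ Subgroup.zpowers (QuotientGroup.mk x : G ⧸ D) := by
          apply mem_of_commute hq
          rw [← QuotientGroup.mk_mul, ← QuotientGroup.mk_mul, QuotientGroup.eq, hD2]
          have h4 : (g * x)⁻¹ * (x * g) = ⁅x⁻¹, g⁻¹⁆ := by rw [commutatorElement_def]; group
          rw [h4]
          exact Subgroup.commutator_mem_commutator (inv_mem hxG) (inv_mem hg)
        obtain ⟨i, hi⟩ := h3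
        have h5 : (x ^ i)⁻¹ * g ∈ D := by
          rw [← QuotientGroup.eq, QuotientGroup.mk_zpow]; exact hi
        have h6 : g = x ^ i * ((x ^ i)⁻¹ * g) := by group
        rw [h6]
        exact Subgroup.mul_mem_sup (zpow_mem (Subgroup.mem_zpowers x) i) h5
      · rw [← derivedSeries_one]; exact derivedSeries_antitone G (by norm_num)
    have hsup : nor x ⊔ D = ⊤ := by
      rw [eq_top_iff, ← sup_nor_eq_top h (commutator G) hxG, hGD]
      exact sup_le le_sup_left (sup_le (zpowers_le_nor.trans le_sup_left) le_sup_right)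
    have hDc : Nat.card D = 1 + n * p := by
      have e1 := card_sup_nor D h hD
      rw [hsup, Subgroup.card_top, ← hG, hnI] at e1
      exact (Nat.eq_of_mul_eq_mul_left Nat.card_pos e1).symm
    refine ⟨hDc, ?_⟩
    have e2 := Subgroup.relIndex_mul_relIndex ⊥ D (Subgroup.zpowers x ⊔ D) bot_le le_sup_right
    rw [Subgroup.relIndex_bot_left, Subgroup.relIndex_bot_left, Subgroup.relIndex_sup_right] at e2
    have e3 : D.relIndex (Subgroup.zpowers x) = p := by
      rw [← Subgroup.inf_relIndex_right]
      have : D ⊓ Subgroup.zpowers x = ⊥ := by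
        rw [eq_bot_iff]
        exact fun z hz => Subgroup.mem_bot.2 (inf_zpowers_eq_bot D h hD hz.1 hz.2)
      rw [this, Subgroup.relIndex_bot_left, card_zpowers' h]
    rw [e3, ← hGD, hDc] at e2
    rw [← e2, mul_comm]
  refine ⟨⟨?_, ?_⟩, hA, hB⟩
  · rintro ⟨S, hSn, hSc⟩
    haveI := hSn
    have hS : ¬ p ∣ Nat.card S := by
      rw [hSc, Nat.dvd_add_left (Dvd.intro_left n rfl), Nat.dvd_one]
      exact hp.ne_one
    have hsup : nor x ⊔ S = ⊤ := by
      apply Subgroup.eq_top_of_card_eq
      rw [card_sup_nor S h hS, hSc, ← hG, hnI]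
    rcases lt_or_ge t (p - 1) with h1 | h1
    · right
      refine ⟨h1, fun h2 => ?_⟩
      obtain ⟨hxG, -⟩ := index_commutator_le h ht h1.ne
      have hq : (derivedSeries G 2).map (QuotientGroup.mk' S) = ⊥ := by
        rw [derivedSeries_succ, derivedSeries_one, Subgroup.map_commutator]
        have hle : (commutator G).map (QuotientGroup.mk' S) ≤
            Subgroup.zpowers (QuotientGroup.mk x : G ⧸ S) := by
          rw [commutator_def, Subgroup.map_commutator, Subgroup.commutator_le]
          rintro _ ⟨a, -, rfl⟩ _ ⟨b, -, rfl⟩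
          obtain ⟨m, hm, s, hs, rfl⟩ := exists_mul_of_sup_nor hsup a
          obtain ⟨k, hk, u, hu, rfl⟩ := exists_mul_of_sup_nor hsup b
          simp only [QuotientGroup.mk'_apply, QuotientGroup.mk_mul,
            (QuotientGroup.eq_one_iff s).2 hs, (QuotientGroup.eq_one_iff u).2 hu, mul_one]
          rw [← QuotientGroup.mk'_apply S m, ← QuotientGroup.mk'_apply S k, ← map_commutatorElement]
          obtain ⟨i, hi⟩ := commutator_nor_le h (Subgroup.commutator_mem_commutator hm hk)
          exact ⟨i, by rw [← hi]; simp⟩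
        rw [eq_bot_iff]
        refine (Subgroup.commutator_mono hle hle).trans ?_
        rw [Subgroup.commutator_le]
        rintro _ ⟨i, rfl⟩ _ ⟨j, rfl⟩
        rw [Subgroup.mem_bot, commutatorElement_eq_one_iff_mul_comm]
        exact (Commute.zpow_zpow (Commute.refl _) i j).eq
      rw [h2, derivedSeries_one, Subgroup.map_eq_bot_iff, QuotientGroup.ker_mk'] at hq
      exact not_mem S h hS (hq hxG)
    · left
      have hr : 1 ≤ (Subgroup.zpowers x).relIndex (nor x) := by
        rcases Nat.eq_zero_or_pos ((Subgroup.zpowers x).relIndex (nor x)) with h0 | h0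
        · rw [h0, mul_zero] at e; omega
        · exact h0
      exact le_antisymm (le_trans (Nat.le_mul_of_pos_right t hr) e.le) h1
  · rintro (h1 | ⟨h1, h2⟩)
    · exact ⟨commutator G, inferInstance, (hA h1).1⟩
    · exact ⟨derivedSeries G 2, inferInstance, (hB h1 h2).1⟩

end Cfsg.Agent.S4509
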