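import Cfsg.Statements.S4510
import Cfsg.Agent.Blocks.Orth.BlockCoeff
import Cfsg.Agent.Chars.Basic.ClassSum
import Cfsg.Agent.Eq.Def_Blocks

set_option autoImplicit false
open Cfsg CfsgLib CfsgLib.Blocks

namespace Cfsg.Agent.S4510

theorem min_of_defect {G : Type*} [Group G] [Finite G] (p : ℕ) (B : Set (IrrCharacter G))
    (hne : B.Nonempty) :
    ∃ ψ ∈ B, blockDefect p B + (charDegree (ψ : G → ℂ)).factorization p
        = (Nat.card G).factorization p ∧
      ∀ η ∈ B, (charDegree (ψ : G → ℂ)).factorization p ≤ (charDegree (η : G → ℂ)).factorization p := by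
  obtain ⟨ψ, hψ, heq⟩ := Nat.sInf_mem (hne.image
    fun χ : IrrCharacter G => (charDegree (χ : G → ℂ)).factorization p)
  refine ⟨ψ, hψ, ?_, fun η hη => (show _ ≤ _ from le_of_eq_of_le heq (Nat.sInf_le ⟨η, hη, rfl⟩))⟩
  unfold blockDefect
  rw [← heq]
  have := (Nat.factorization_le_iff_dvd (Chars.charDegree_pos ψ).ne' Nat.card_pos.ne').2
    (Chars.charDegree_dvd_card ψ) p
  dsimp only at this ⊢
  omega

/-- Let G be a finite group, p a prime, M a maximal ideal of the algebraic integers containing p, and call the defect of a conjugacy class the exponent of p in the order of the centralizer of its elements. Two irreducible characters lying in p-blocks of defect exactly d lie in the same block if and only if their central characters (class size times χ(x)/χ(1)) agree modulo the local ideal at M at every p-regular element x whose class has defect exactly d. -/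
theorem result {G : Type*} [Group G] [Finite G] (p : ℕ) [Fact p.Prime] (M : Ideal Cfsg.AlgInt) (hM : Cfsg.IsPModular p M) (d : ℕ) (χ ψ : Cfsg.IrrCharacter G) (hχ : Cfsg.blockDefect p (Cfsg.blockOf M (χ : G → ℂ)) = d) (hψ : Cfsg.blockDefect p (Cfsg.blockOf M (ψ : G → ℂ)) = d) : Cfsg.SameBlock M (χ : G → ℂ) (ψ : G → ℂ) ↔ ∀ x : G, ¬ p ∣ orderOf x → (Nat.card (Subgroup.centralizer ({x} : Set G))).factorization p = d → Cfsg.MemLocalIdeal M (Cfsg.centralChar (χ : G → ℂ) x - Cfsg.centralChar (ψ : G → ℂ) x) := by
  classical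
  haveI : Fintype G := Fintype.ofFinite G
  haveI : Fintype (ConjClasses G) := Fintype.ofFinite _
  have := hM.2.1
  refine ⟨fun h x _ _ => h x, fun h => ?_⟩
  set B := blockOf (G := G) M (χ : G → ℂ) with hBdef
  have hB : IsPBlock M B := ⟨χ, rfl⟩
  show ψ ∈ B
  by_contra hψB
  obtain ⟨χ₀, hχ₀, e₀, m₀⟩ := min_of_defect p B ⟨χ, self_mem_blockOf χ⟩
  obtain ⟨ψ₀, hψ₀, e₁, -⟩ := min_of_defect p (blockOf (G := G) M (ψ : G → ℂ)) ⟨ψ, self_mem_blockOf ψ⟩
  have h1 : omega (χ : G → ℂ) (setIdem B) = 1 := by rw [omega_setIdem, if_pos (self_mem_blockOf χ)]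
  have h0 : omega (ψ : G → ℂ) (setIdem B) = 0 := by rw [omega_setIdem, if_neg hψB]
  apply not_memLocalIdeal_one (M := M)
  have key : Congr M (omega (χ : G → ℂ) (setIdem B)) (omega (ψ : G → ℂ) (setIdem B)) := by
    rw [omega_eq_sum_classes (isCentralElt_setIdem B)
      (CfsgLib.Blocks.isClassFunction_of_isCharacter (isCharacter_of_isIrrCharacter χ.2)),
      omega_eq_sum_classes (isCentralElt_setIdem B)
      (CfsgLib.Blocks.isClassFunction_of_isCharacter (isCharacter_of_isIrrCharacter ψ.2))]
    refine congr_sum _ fun C _ => ?_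
    show Congr M (blockCoeff B C.out * _) (blockCoeff B C.out * _)
    by_cases hC : p ∣ orderOf C.out
    · rw [blockCoeff_eq_zero_of_singular hM hB hC, zero_mul, zero_mul]
      exact congr_refl _
    set g := C.out
    show MemLocalIdeal M (_ - _)
    rw [← mul_sub]
    have hfac : (Nat.card (Subgroup.centralizer ({g} : Set G))).factorization p +
        ((Subgroup.centralizer ({g} : Set G)).index).factorization p =
        (Nat.card G).factorization p := by
      rw [← Finsupp.add_apply, ← Nat.factorization_mul Nat.card_pos.ne'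
        Subgroup.index_ne_zero_of_finite, Subgroup.card_mul_index]
    have hdiff : MemLocalRing M (centralChar (χ : G → ℂ) g - centralChar (ψ : G → ℂ) g) :=
      (localRing M).sub_mem
        (memLocalRing_of_isIntegral (centralChar_isIntegral χ.2 g))
        (memLocalRing_of_isIntegral (centralChar_isIntegral ψ.2 g))
    rcases lt_trichotomy ((Nat.card (Subgroup.centralizer ({g} : Set G))).factorization p) d
      with hlt | heq | hgt
    · refine memLocalIdeal_mul_left (memLocalRing_blockCoeff hB g) (memLocalIdeal_sub ?_ ?_)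
      · exact Blocks.Orth.congr_centralChar_zero_of_lt hM hχ₀ (by omega)
      · exact Blocks.Orth.congr_centralChar_zero_of_lt hM hψ₀ (by omega)
    · exact memLocalIdeal_mul_left (memLocalRing_blockCoeff hB g) (h g hC heq)
    · exact memLocalIdeal_mul_right (Blocks.Orth.memLocalIdeal_blockCoeff_of_lt hM hB hC
        fun η hη => by have := m₀ η hη; omega) hdiff
  rw [h1, h0] at key
  simpa [Congr] using key

end Cfsg.Agent.S4510
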