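import Cfsg.Statements.S4513
import Cfsg.Agent.Blocks.DefectOne.Two

set_option autoImplicit false
open Cfsg

namespace Cfsg.Agent.S4513

/-- Blocks of defect one for p = 2. Let M be a maximal ideal of the algebraic integers containing 2, B a 2-block of the finite group G whose defect group is the subgroup generated by an involution x, C = C_G(x), b a block of C inducing B and θ a member of b taking the same value at x as at 1 (there is exactly one). Then B consists of exactly two irreducible characters, which agree on every element of odd order, and they can be labelled χ₁, χ₂ with signs ε₁, ε₂ = ±1, ε₁ε₂ = −1, such that χᵢ(x y) = εᵢ θ(y) for every element y of C of odd order. -/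
theorem result {G : Type*} [Group G] [Finite G] (M : Ideal Cfsg.AlgInt) (hM : Cfsg.IsPModular 2 M) (x : G) (hx : orderOf x = 2)
    (B : Set (Cfsg.IrrCharacter G)) (hB : Cfsg.IsPBlock M B) (hBD : Cfsg.IsDefectGroup 2 M B (Subgroup.zpowers x))
    (b : Set (Cfsg.IrrCharacter ↥(Subgroup.centralizer ({x} : Set G)))) (hb : Cfsg.IsInducedBlock M (Subgroup.centralizer ({x} : Set G)) b B)
    (θ : Cfsg.IrrCharacter ↥(Subgroup.centralizer ({x} : Set G))) (hθ : θ ∈ b)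
    (hθx : ∀ z : ↥(Subgroup.centralizer ({x} : Set G)), (z : G) = x → (θ : ↥(Subgroup.centralizer ({x} : Set G)) → ℂ) z = (θ : ↥(Subgroup.centralizer ({x} : Set G)) → ℂ) 1) :
    Nat.card B = 2 ∧ (∀ χ ∈ B, ∀ ψ ∈ B, ∀ g : G, ¬ 2 ∣ orderOf g → (χ : G → ℂ) g = (ψ : G → ℂ) g) ∧
      ∃ χ₁ ∈ B, ∃ χ₂ ∈ B, χ₁ ≠ χ₂ ∧ ∃ ε₁ ε₂ : ℤ, (ε₁ = 1 ∨ ε₁ = -1) ∧ (ε₂ = 1 ∨ ε₂ = -1) ∧ ε₁ * ε₂ = -1 ∧
        ∀ y : ↥(Subgroup.centralizer ({x} : Set G)), ¬ 2 ∣ orderOf y →
          (χ₁ : G → ℂ) (x * y) = (ε₁ : ℂ) * (θ : ↥(Subgroup.centralizer ({x} : Set G)) → ℂ) y ∧ (χ₂ : G → ℂ) (x * y) = (ε₂ : ℂ) * (θ : ↥(Subgroup.centralizer ({x} : Set G)) → ℂ) y := by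
  classical
  haveI := Fintype.ofFinite G
  haveI : Fintype (Subgroup.centralizer ({x} : Set G)) := Fintype.ofFinite _
  obtain ⟨hcard, t, ht⟩ := CfsgLib.Blocks.DefectOneTwo.exists_signs hM hx hB hBD rfl hb hθ
  obtain ⟨χ₁, χ₂, hne, hBeq⟩ := Set.ncard_eq_two.1 (show B.ncard = 2 by
    rw [← Nat.card_coe_set_eq]; exact hcard)
  have h1 : χ₁ ∈ B := by simp [hBeq]
  have h2 : χ₂ ∈ B := by simp [hBeq]
  have hθ1 := CfsgLib.Chars.map_one_ne_zero θ
  have hval : ∀ χ ∈ B, (χ : G → ℂ) x =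
      (t χ : ℂ) * (θ : Subgroup.centralizer ({x} : Set G) → ℂ) 1 := by
    intro χ hχ
    have h := (ht χ hχ).2 1 (by simp)
    simpa using h
  have hinv : x⁻¹ = x := inv_eq_of_mul_eq_one_right (by rw [← pow_two, ← hx, pow_orderOf_eq_one])
  have horth : ∀ g : G, ¬ 2 ∣ orderOf g →
      (χ₁ : G → ℂ) g * (t χ₁ : ℂ) + (χ₂ : G → ℂ) g * (t χ₂ : ℂ) = 0 := by
    intro g hg
    have h := CfsgLib.Blocks.sum_mul_inv_eq_zero_of_regular_of_singular hM
      (CfsgLib.Blocks.isIntegralSet_block hM hB) (x := g) (y := x) hg (by rw [hx])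
    have hT : B.toFinite.toFinset = ({χ₁, χ₂} : Finset (Cfsg.IrrCharacter G)) := by
      ext χ; simp [hBeq]
    rw [hT, Finset.sum_pair hne, hinv, hval χ₁ h1, hval χ₂ h2] at h
    refine (mul_eq_zero.1 ?_).resolve_right hθ1
    linear_combination h
  have hopp : t χ₁ = - t χ₂ := by
    have h := horth 1 (by simp)
    rw [← CfsgLib.Chars.coe_charDegree, ← CfsgLib.Chars.coe_charDegree] at h
    have h' : (Cfsg.charDegree (χ₁ : G → ℂ) : ℤ) * t χ₁ +
        (Cfsg.charDegree (χ₂ : G → ℂ) : ℤ) * t χ₂ = 0 := by exact_mod_cast h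
    have d1 := CfsgLib.Chars.charDegree_pos χ₁
    have d2 := CfsgLib.Chars.charDegree_pos χ₂
    rcases (ht χ₁ h1).1 with a | a <;> rcases (ht χ₂ h2).1 with b | b <;> rw [a, b] at h' ⊢ <;>
      omega
  have hagree : ∀ g : G, ¬ 2 ∣ orderOf g → (χ₁ : G → ℂ) g = (χ₂ : G → ℂ) g := by
    intro g hg
    have h := horth g hg
    rw [hopp] at h
    push_cast at h
    rcases (ht χ₂ h2).1 with b | b <;> rw [b] at h <;> push_cast at h
    · linear_combination -h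
    · linear_combination h
  refine ⟨hcard, ?_, χ₁, h1, χ₂, h2, hne, t χ₁, t χ₂, (ht χ₁ h1).1, (ht χ₂ h2).1, ?_,
    fun y hy => ⟨(ht χ₁ h1).2 y hy, (ht χ₂ h2).2 y hy⟩⟩
  · intro χ hχ ψ hψ g hg
    have hc : ∀ φ ∈ B, (φ : G → ℂ) g = (χ₁ : G → ℂ) g := by
      intro φ hφ
      rw [hBeq] at hφ
      rcases hφ with rfl | hφ
      · rfl
      · rw [Set.mem_singleton_iff.1 hφ, hagree g hg]
    rw [hc χ hχ, hc ψ hψ]
  · rw [hopp]
    rcases (ht χ₂ h2).1 with b | b <;> rw [b] <;> norm_num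

end Cfsg.Agent.S4513
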