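import Cfsg.Statements.S4636
-- import your own Cfsg.Agent.* helpers here

set_option autoImplicit false
open scoped Pointwise
open Cfsg

namespace Cfsg.Agent.S4636

/-- Let P be a nontrivial cyclic p-subgroup of the finite group G and Z its subgroup of order p. For every x outside N_G(Z), P meets its conjugate xPx⁻¹ trivially; consequently N_G(Q) ≤ N_G(Z) for every nontrivial subgroup Q of P. -/
theorem result {G : Type*} [Group G] [Finite G] (p : ℕ) [Fact p.Prime] (P : Subgroup G) (hP : IsPGroup p P) (hP1 : P ≠ ⊥) (hcyc : IsCyclic P) (Z : Subgroup G) (hZ : Z ≤ P) (hZcard : Nat.card Z = p) : (∀ x : G, x ∉ Subgroup.normalizer (Z : Set G) → P ⊓ MulAut.conj x • P = ⊥) ∧ ∀ Q : Subgroup G, Q ≤ P → Q ≠ ⊥ → Subgroup.normalizer (Q : Set G) ≤ Subgroup.normalizer (Z : Set G) := by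
  have hp : p.Prime := Fact.out
  have hmin : ∀ Q : Subgroup G, Q ≤ P → Q ≠ ⊥ → Z ≤ Q := by
    intro Q hQ hQ1
    have hQc : 1 < Nat.card Q := Q.one_lt_card_iff_ne_bot.mpr hQ1
    have hdvd : p ∣ Nat.card Q := by
      obtain ⟨n, hn⟩ := IsPGroup.iff_card.mp (hP.to_le hQ)
      rcases n with _ | n
      · simp [hn] at hQc
      · exact hn ▸ dvd_pow_self p (Nat.succ_ne_zero n)
    obtain ⟨q, hq⟩ := exists_prime_orderOf_dvd_card' (G := Q) p hdvd
    have hq' : orderOf (q : G) = p := by rw [Subgroup.orderOf_coe]; exact hq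
    have hsub : Subgroup.zpowers (q : G) ≤ Q := Subgroup.zpowers_le.mpr q.2
    have hcard : Nat.card (Subgroup.zpowers (q : G)) = p := by rw [Nat.card_zpowers, hq']
    have := hcyc
    classical
    have := Fintype.ofFinite P
    have hb : (Subgroup.zpowers (q : G)).subgroupOf P = Z.subgroupOf P := by
      have key : ∀ A : Subgroup P, Nat.card A = p →
          (A : Set P).toFinset = Finset.univ.filter (fun a : P => a ^ p = 1) := by
        intro A hA
        refine Finset.eq_of_subset_of_card_le ?_ ?_
        · intro a ha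
          simp only [Set.mem_toFinset, SetLike.mem_coe] at ha
          simp only [Finset.mem_filter, Finset.mem_univ, true_and]
          have h := pow_card_eq_one' (x := (⟨a, ha⟩ : A))
          rw [hA] at h
          exact congrArg Subtype.val h
        · refine (IsCyclic.card_pow_eq_one_le hp.pos).trans (le_of_eq ?_)
          rw [Set.toFinset_card, ← Nat.card_eq_fintype_card]
          exact hA.symm
      apply SetLike.coe_injective
      apply Set.toFinset_inj.mp
      rw [key _ (by rw [Nat.card_congr (Subgroup.subgroupOfEquivOfLe (hsub.trans hQ)).toEquiv,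
            hcard]),
        key _ (by rw [Nat.card_congr (Subgroup.subgroupOfEquivOfLe hZ).toEquiv, hZcard])]
    rw [← Subgroup.map_subgroupOf_eq_of_le hZ, ← hb,
      Subgroup.map_subgroupOf_eq_of_le (hsub.trans hQ)]
    exact hsub
  have hconj : ∀ x : G, MulAut.conj x⁻¹ • Z ≠ ⊥ := by
    intro x hb
    have hc := Nat.card_congr (Subgroup.equivSMul (MulAut.conj x⁻¹) Z).toEquiv
    rw [hZcard, hb, Subgroup.card_bot] at hc
    exact hp.one_lt.ne' hc
  have key : ∀ (x : G) (R : Subgroup G), R ≤ P → Z ≤ MulAut.conj x • R →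
      x ∈ Subgroup.normalizer (Z : Set G) := by
    intro x R hR h1
    have h2 : MulAut.conj x⁻¹ • Z ≤ P := by
      refine le_trans ?_ hR
      rw [Subgroup.pointwise_smul_subset_iff, map_inv, inv_inv]
      exact h1
    have h3 := hmin _ h2 (hconj x)
    rw [map_inv, ← Subgroup.pointwise_smul_subset_iff] at h3
    have heq : MulAut.conj x • Z = Z :=
      Subgroup.eq_of_le_of_card_ge h3
        (le_of_eq (Nat.card_congr (Subgroup.equivSMul (MulAut.conj x) Z).toEquiv))
    rw [Subgroup.mem_normalizer_iff]
    intro z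
    conv_rhs => rw [← heq]
    rw [Subgroup.mem_pointwise_smul_iff_inv_smul_mem]
    simp [mul_assoc]
  refine ⟨fun x hx => ?_, fun Q hQ hQ1 g hg => ?_⟩
  · by_contra h
    exact hx (key x P le_rfl (le_trans (hmin _ inf_le_left h) inf_le_right))
  · apply key g Q hQ
    intro z hz
    rw [Subgroup.mem_pointwise_smul_iff_inv_smul_mem]
    have h4 := (Subgroup.mem_normalizer_iff.mp hg (g⁻¹ * z * g)).mpr
      (by simpa [mul_assoc] using hmin Q hQ hQ1 hz)
    simpa [mul_assoc] using h4

end Cfsg.Agent.S4636
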