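import Cfsg.Statements.S4637
import Cfsg.Agent.Eq.Def_BlockRank
import Cfsg.Agent.Blocks.KleinFour.Rank

set_option autoImplicit false
open Cfsg

namespace Cfsg.Agent.S4637

/-- Let B be a block of the finite group G relative to a maximal ideal M of the algebraic integers containing 2, with a Klein four defect group P. Let c be a block of C_G(P) inducing B, T the stabilizer of c in N_G(P) and e the index of C_G(P) in T (the inertial index). Then e is 1 or 3, B contains exactly four irreducible characters, and the 2-regular rank of B (its number of irreducible Brauer characters) equals e. -/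
theorem result {G : Type*} [Group G] [Finite G] (M : Ideal Cfsg.AlgInt) (hM : Cfsg.IsPModular 2 M) (B : Set (Cfsg.IrrCharacter G)) (hB : Cfsg.IsPBlock M B) (P : Subgroup G) (hPD : Cfsg.IsDefectGroup 2 M B P) (hV : IsKleinFour P) (c : Set (Cfsg.IrrCharacter (Subgroup.centralizer (P : Set G)))) (hc : Cfsg.IsInducedBlock M (Subgroup.centralizer (P : Set G)) c B) (T : Subgroup G) (hT : ∀ g : G, g ∈ T ↔ (g ∈ Subgroup.normalizer (P : Set G) ∧ Cfsg.StabilizesBlock (Subgroup.centralizer (P : Set G)) c g)) (e : ℕ) (he : (Subgroup.centralizer (P : Set G)).relIndex T = e) : (e = 1 ∨ e = 3) ∧ Nat.card B = 4 ∧ Cfsg.blockRank 2 B = e := by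
  haveI : M.IsMaximal := hM.2.1
  haveI : Fact (Nat.Prime 2) := ⟨Nat.prime_two⟩
  haveI : CharP (CfsgLib.Blocks.kres M) 2 := CfsgLib.Blocks.charP_kres hM
  have hmax := CfsgLib.Blocks.KleinFour.isMaxPairIdem_of_induced hM hB hPD
    (CfsgLib.Blocks.KleinFour.comm_of_klein hV) hc
  have hTs := CfsgLib.Blocks.eq_pairStab (M := M) hc.1 hT
  obtain ⟨h4, hl⟩ := CfsgLib.Blocks.KleinFour.natCard_and_rank hM hB hPD hV hmax
  rw [← hTs, he] at hl
  obtain ⟨-, h⟩ := CfsgLib.Blocks.KleinFour.inertial hB hmax hV
  rw [← hTs, he] at h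
  exact ⟨h.imp_right And.left, h4, hl⟩

end Cfsg.Agent.S4637
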