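import Cfsg.Statements.S4639
import Cfsg.Agent.Eq.Def_Blocks
import Cfsg.Agent.Blocks.AbelianFree.Small
import Cfsg.Agent.Blocks.Cyclic.Lower

set_option autoImplicit false
open Cfsg CfsgLib CfsgLib.Blocks CfsgLib.Blocks.HeightZero CfsgLib.Blocks.Contrib

namespace Cfsg.Agent.S4639

/-- Let B be a block of the finite group G relative to a maximal ideal M of the algebraic integers containing the prime p, with a nontrivial commutative defect group P. Let c be a block of C_G(P) inducing B, T the stabilizer of c in N_G(P) and e the index of C_G(P) in T. Suppose that T/C_G(P) is commutative (all commutators of elements of T lie in C_G(P)) and acts freely on the non-identity elements of P (an element of T fixing a non-identity element of P under conjugation lies in C_G(P)). Then B has at most e + (#P − 1)/e irreducible characters and p-regular rank at most e; equality holds in the first bound exactly when it holds in the second; and both equalities hold when e ≤ 3. -/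
theorem result {G : Type*} [Group G] [Finite G] (p : ℕ) [Fact p.Prime] (M : Ideal Cfsg.AlgInt) (hM : Cfsg.IsPModular p M) (B : Set (Cfsg.IrrCharacter G)) (hB : Cfsg.IsPBlock M B) (P : Subgroup G) (hPD : Cfsg.IsDefectGroup p M B P) (hP1 : P ≠ ⊥) (hPab : ∀ x ∈ P, ∀ y ∈ P, x * y = y * x) (c : Set (Cfsg.IrrCharacter (Subgroup.centralizer (P : Set G)))) (hc : Cfsg.IsInducedBlock M (Subgroup.centralizer (P : Set G)) c B) (T : Subgroup G) (hT : ∀ g : G, g ∈ T ↔ (g ∈ Subgroup.normalizer (P : Set G) ∧ Cfsg.StabilizesBlock (Subgroup.centralizer (P : Set G)) c g)) (e : ℕ) (he : (Subgroup.centralizer (P : Set G)).relIndex T = e) (hEab : ∀ g ∈ T, ∀ h ∈ T, g * h * g⁻¹ * h⁻¹ ∈ Subgroup.centralizer (P : Set G)) (hfree : ∀ g ∈ T, ∀ x ∈ P, x ≠ 1 → g * x * g⁻¹ = x → g ∈ Subgroup.centralizer (P : Set G)) : Nat.card B ≤ e + (Nat.card P - 1) / e ∧ Cfsg.blockRank p B ≤ e ∧ (Nat.card B = e + (Nat.card P - 1) / e ↔ Cfsg.blockRank p B = e) ∧ (e ≤ 3 → Nat.card B = e + (Nat.card P - 1) / e ∧ Cfsg.blockRank p B = e) := by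
  classical
  haveI := isMaximal_of_isPModular hM
  haveI := charP_kres hM
  haveI := Fintype.ofFinite G
  obtain ⟨h, hTE⟩ := AbelianFree.Setting.of_block hM hB hPD hPab hc hT hfree
  generalize hf : subEl M (AbelianFree.cn P) c = f at h hTE
  have hcard := h.card_orb
  have hrank := h.natCard_eq_rank_add
  have haut : Nat.card (AbelianFree.aut P f) = e := by
    rw [AbelianFree.natCard_aut, ← hTE]; exact he
  have he0 : 0 < e := haut ▸ Nat.card_pos
  rw [haut] at hcard
  have hm : (Nat.card P - 1) / e =
      Nat.card (AbelianFrobenius.Orb (AbelianFree.aut P f)) := by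
    rw [← hcard, Nat.add_sub_cancel, Nat.mul_div_cancel _ he0]
  have hle := h.blockRank_le hP1
  rw [haut] at hle
  rw [hm]
  refine ⟨by omega, hle, ⟨fun _ => by omega, fun _ => by omega⟩, fun he3 => ?_⟩
  have heq := h.blockRank_eq_of_le_three hP1 (by omega) (fun hp => ?_)
  · rw [haut] at heq
    exact ⟨by omega, heq⟩
  · haveI : Fact (Nat.card P).Prime := ⟨hp⟩
    haveI := Fintype.ofFinite G
    rw [AbelianFree.natCard_aut, ← hf]
    exact CfsgLib.Blocks.Cyclic.relIndex_le_blockRank hM hB hPD hP1 (isCyclic_of_prime_card rfl) hc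

end Cfsg.Agent.S4639
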