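import Cfsg.Statements.S4672
import Cfsg.Agent.Blocks.Defect.OrbitBlock
import Cfsg.Agent.Eq.Def_Blocks
import Cfsg.Agent.Eq.Def_BlockLocal

set_option autoImplicit false
open Cfsg

namespace Cfsg.Agent.S4672

/-- Fix a prime p and a maximal ideal M of the algebraic integers containing p. Let N be a normal subgroup of the finite group G of p-power index and c a p-block of N stable under conjugation by G. Then the idempotent of c is a block idempotent of G: there is a p-block B of G whose idempotent coefficients agree with those of c on N and vanish off N; and for every defect group P of such a block B, G = NP and P ∩ N is a defect group of c. -/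
theorem result {G : Type*} [Group G] [Fintype G] (p : ℕ) [Fact p.Prime] (M : Ideal Cfsg.AlgInt) (hM : Cfsg.IsPModular p M) (N : Subgroup G) [N.Normal] (hN : ∃ k : ℕ, N.index = p ^ k) (c : Set (Cfsg.IrrCharacter N)) (hc : Cfsg.IsPBlock M c) (hst : ∀ x : G, Cfsg.StabilizesBlock N c x) : (∃ B : Set (Cfsg.IrrCharacter G), Cfsg.IsPBlock M B ∧ ∀ g : G, Cfsg.blockCoeff B g = Cfsg.subgroupBlockCoeff N c g) ∧ ∀ B : Set (Cfsg.IrrCharacter G), Cfsg.IsPBlock M B → (∀ g : G, Cfsg.blockCoeff B g = Cfsg.subgroupBlockCoeff N c g) → ∀ P : Subgroup G, Cfsg.IsDefectGroup p M B P → N ⊔ P = ⊤ ∧ Cfsg.IsDefectGroup p M c ((P ⊓ N).subgroupOf N) := by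
  haveI := hM.2.1
  haveI := CfsgLib.Blocks.charP_kres hM
  classical
  have hNn : (⊤ : Subgroup G) ≤ Subgroup.normalizer (N : Set G) :=
    (Subgroup.normalizer_eq_top_iff.mpr inferInstance).ge
  set f := CfsgLib.Blocks.subEl M N c with hf'
  have hf : CfsgLib.Blocks.IsBlockIdem N f := CfsgLib.Blocks.isBlockIdem_subEl hc
  have hfix : CfsgLib.Blocks.IsFixedBy f ⊤ := CfsgLib.Blocks.isFixedBy_iff_conjA.mpr
    fun x _ => ((CfsgLib.Blocks.stabilizesBlock_iff hc x).mp (hst x)).2
  obtain ⟨j, hj⟩ := hN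
  have hNtop : (N.subgroupOf ⊤).index = p ^ j := by
    show N.relIndex ⊤ = _
    rw [Subgroup.relIndex_top_right, hj]
  have hsupp : ∀ i ∈ CfsgLib.Blocks.centerIn (CfsgLib.Blocks.kres M) (⊤ : Subgroup G),
      i * i = i → CfsgLib.Blocks.IsSupportedOn i N := fun i hi hii =>
    CfsgLib.Blocks.isSupportedOn_of_index_pow hM ((inferInstance : N.Normal).subgroupOf ⊤) ⟨j, hNtop⟩
      hi hii
  have hfb : CfsgLib.Blocks.IsBlockIdem ⊤ f :=
    ⟨⟨CfsgLib.Blocks.isSupportedOn_top f, hfix⟩, hf.idem, hf.ne_zero, fun i hi hii =>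
      hf.2.2.2 i ⟨hsupp i hi hii, hi.2.mono le_top⟩ hii⟩
  refine ⟨?_, ?_⟩
  · obtain ⟨B, hB, hBf⟩ := CfsgLib.Blocks.exists_topEl_eq hfb
    obtain ⟨F, hF, hFe, hFc⟩ := CfsgLib.Blocks.exists_top_block hB
    refine ⟨B, hB, fun g => ?_⟩
    rw [← hFc g]
    exact CfsgLib.Blocks.subgroupBlockCoeff_eq_of_subEl_eq le_top hNn hF hc (hFe.trans hBf) g
  · intro B hB hcoef P hP
    have hef : CfsgLib.Blocks.topEl M B = f := MonoidAlgebra.ext (Finsupp.ext fun g => by
      rw [CfsgLib.Blocks.coeff_topEl, hf', CfsgLib.Blocks.coeff_subEl, hcoef])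
    have heP := (CfsgLib.Blocks.isDefectGroup_topEl_iff hB P).mp hP
    rw [hef] at heP
    obtain ⟨R⟩ := (inferInstance : Nonempty (Sylow p G))
    obtain ⟨g, hgN, hg0, hsees, hstab⟩ := hf.exists_stable_class R.isPGroup'
      (le_top.trans hNn) (hfix.mono le_top)
    set C := Subgroup.centralizer ({g} : Set G) with hC
    have hCN : ∀ y : G, ∃ t ∈ N, t * y ∈ C := by
      have hRN : (R : Subgroup G) ⊔ N = ⊤ := by
        rw [← Subgroup.index_eq_one]
        refine Nat.dvd_one.mp ?_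
        have h1 : ((R : Subgroup G) ⊔ N).index ∣ p ^ j :=
          hj ▸ Subgroup.index_dvd_of_le le_sup_right
        have h2 : ((R : Subgroup G) ⊔ N).index ∣ (R : Subgroup G).index :=
          Subgroup.index_dvd_of_le le_sup_left
        exact (Nat.Coprime.eq_one_of_dvd (((Fact.out : p.Prime).coprime_iff_not_dvd.mpr
          R.not_dvd_index).pow_left j |>.coprime_dvd_left h1) h2).dvd
      intro y
      obtain ⟨r, hr, t, ht, rfl⟩ := Subgroup.mem_sup_of_normal_right.mp
        (hRN ▸ Subgroup.mem_top y)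
      obtain ⟨u, hu, hur⟩ := hstab r hr
      refine ⟨u * (r * t * r⁻¹)⁻¹, N.mul_mem hu (N.inv_mem ((inferInstance : N.Normal).conj_mem t ht r)), ?_⟩
      convert hur using 1
      group
    have hcs : CfsgLib.Blocks.classSumIn (CfsgLib.Blocks.kres M) ⊤ g =
        CfsgLib.Blocks.classSumIn (CfsgLib.Blocks.kres M) N g := by
      refine MonoidAlgebra.ext (Finsupp.ext fun y => ?_)
      rw [CfsgLib.Blocks.coeff_classSumIn, CfsgLib.Blocks.coeff_classSumIn]
      congr 1
      refine propext ⟨?_, fun ⟨t, _, ht'⟩ => ⟨t, Subgroup.mem_top t, ht'⟩⟩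
      rintro ⟨y', -, rfl⟩
      obtain ⟨t, ht, htC⟩ := hCN y'
      refine ⟨t⁻¹, N.inv_mem ht, ?_⟩
      have hcomm := CfsgLib.Blocks.mem_centralizer_singleton'.mp htC
      calc t⁻¹ * g * t⁻¹⁻¹ = t⁻¹ * (g * (t * y')) * y'⁻¹ := by group
        _ = y' * g * y'⁻¹ := by rw [← hcomm]; group
    obtain ⟨D', hD'⟩ := CfsgLib.Blocks.exists_isSylowIn (p := p) ((⊤ : Subgroup G) ⊓ C)
    have hD'e := hfb.isDefectGroupIdem_of_class ⟨Subgroup.mem_top g, hg0, hcs.symm ▸ hsees⟩ hD'
    rw [top_inf_eq] at hD'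
    have hD'N : N ⊔ D' = ⊤ := by
      obtain ⟨S, hS⟩ := CfsgLib.Blocks.exists_sylow_map_eq hD'
      set φ := (QuotientGroup.mk' N).comp C.subtype with hφ
      have hsurj : Function.Surjective φ := by
        intro q
        obtain ⟨y, rfl⟩ := QuotientGroup.mk_surjective q
        obtain ⟨t, ht, htC⟩ := hCN y
        refine ⟨⟨t * y, htC⟩, ?_⟩
        show (QuotientGroup.mk (t * y) : G ⧸ N) = QuotientGroup.mk y
        rw [QuotientGroup.mk_mul, (QuotientGroup.eq_one_iff t).mpr ht, one_mul]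
      have h1 : ((S : Subgroup C).map φ).index = 1 := by
        refine Nat.Coprime.eq_one_of_dvd ?_ ((hj ▸ Subgroup.index_dvd_card _ :
          ((S : Subgroup C).map φ).index ∣ p ^ j))
        exact (((Fact.out : p.Prime).coprime_iff_not_dvd.mpr S.not_dvd_index).symm.coprime_dvd_left
          (Subgroup.index_map_dvd _ hsurj)).pow_right j
      have h2 := Subgroup.index_eq_one.mp h1
      rw [hφ, ← Subgroup.map_map, hS] at h2
      rw [← Subgroup.comap_map_eq_self (le_sup_left.trans' (QuotientGroup.ker_mk' N).le :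
        (QuotientGroup.mk' N).ker ≤ N ⊔ D'), Subgroup.map_sup, h2, sup_top_eq, Subgroup.comap_top]
    obtain ⟨x, -, hx⟩ := hD'e.exists_conj_eq heP
    refine ⟨?_, ?_⟩
    · rw [← hx, ← CfsgLib.Blocks.map_conj_eq_self_of_mem_normalizer (hNn (Subgroup.mem_top x)),
        ← Subgroup.map_sup, hD'N, Subgroup.map_top_of_surjective _ (MulAut.conj x).surjective]
    · rw [CfsgLib.Blocks.isDefectGroup_subEl_iff hc, Subgroup.map_subgroupOf_eq_of_le inf_le_right]
      obtain ⟨Q, hQ⟩ := hf.exists_defectGroup p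
      obtain ⟨P', hP', hP'N⟩ := CfsgLib.Blocks.exists_defectGroup_inf_eq hfb hf hQ
        (by rw [hf.idem]; exact hf.ne_zero)
      obtain ⟨y, -, hy⟩ := heP.exists_conj_eq hP'
      refine hQ.of_card_le hf.1 inf_le_right (heP.2.1.to_le inf_le_left) ?_ (le_of_eq ?_)
      · intro h0
        apply heP.2.2.1
        rw [← CfsgLib.Blocks.brTrunc_brTrunc (inf_le_left : P ⊓ N ≤ P), h0, map_zero]
      · rw [← hP'N, ← hy, ← CfsgLib.Blocks.card_map_conj (P ⊓ N) y, Subgroup.map_inf _ _ _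
          (MulAut.conj y).injective, CfsgLib.Blocks.map_conj_eq_self_of_mem_normalizer
            (hNn (Subgroup.mem_top y))]

end Cfsg.Agent.S4672
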