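import Cfsg.Statements.S4640
import Cfsg.Agent.S4672
import Cfsg.Agent.Blocks.Defect.OrbitBlock
import Cfsg.Agent.Blocks.HeightZero.RegularPair
import Cfsg.Agent.Blocks.DefectDegree
import Cfsg.Agent.Chars.Induced.Gallagher
import Cfsg.Agent.Chars.Basic.Linear
import Cfsg.Agent.Eq.Def_Blocks
import Cfsg.Agent.Eq.Def_BlockLocal
import Cfsg.Agent.Eq.Def_BlockRank

set_option autoImplicit false
open Cfsg

namespace Cfsg.Agent.S4640

/-- A height-preserving statement: translating a defect class by a defect-group element. -/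
theorem apply_mul_ne_zero {G : Type*} [Group G] [Fintype G] {p : ℕ} [Fact p.Prime]
    {M : Ideal Cfsg.AlgInt} (hM : Cfsg.IsPModular p M) {B : Set (Cfsg.IrrCharacter G)}
    (hB : Cfsg.IsPBlock M B) {g x : G} (hg : Cfsg.IsDefectClass M B g) {P : Subgroup G}
    (hP : CfsgLib.Blocks.IsSylowIn p P (Subgroup.centralizer ({g} : Set G)))
    (hab : ∀ a ∈ P, ∀ b ∈ P, a * b = b * a) (hx : x ∈ P) {χ : Cfsg.IrrCharacter G} (hχ : χ ∈ B) :
    (χ : G → ℂ) (x * g) ≠ 0 := by
  haveI := hM.2.1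
  have hcomm : Commute x g := CfsgLib.Blocks.mem_centralizer_singleton'.mp (hP.1 hx)
  have hreg := CfsgLib.Blocks.not_dvd_orderOf_of_isDefectClass hM hB hg
  obtain ⟨k, hk⟩ := IsPGroup.iff_orderOf.1 hP.2.1 ⟨x, hx⟩
  rw [Subgroup.orderOf_mk] at hk
  -- the centralizers of `g` and `x * g` have the same `p`-part
  have hCle : Subgroup.centralizer ({x * g} : Set G) ≤ Subgroup.centralizer ({g} : Set G) := by
    intro y hy
    rw [CfsgLib.Blocks.mem_centralizer_singleton'] at hy ⊢
    have hcop : Nat.Coprime (orderOf x) (orderOf g) :=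
      hk ▸ ((Fact.out : p.Prime).coprime_iff_not_dvd.2 hreg).pow_left k
    obtain ⟨e, he1, he2⟩ := Nat.chineseRemainder hcop 0 1
    have hge : (x * g) ^ e = g := by
      rw [hcomm.mul_pow, pow_eq_pow_iff_modEq.2 he1, pow_zero, pow_eq_pow_iff_modEq.2 he2, pow_one,
        one_mul]
    have h := Commute.pow_right (show Commute y (x * g) from hy) e
    rwa [hge] at h
  have hPle : P ≤ Subgroup.centralizer ({x * g} : Set G) := by
    intro y hy
    rw [CfsgLib.Blocks.mem_centralizer_singleton']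
    have h1 := CfsgLib.Blocks.mem_centralizer_singleton'.mp (hP.1 hy)
    calc y * (x * g) = (y * x) * g := by group
      _ = x * (y * g) := by rw [hab y hy x hx]; group
      _ = x * g * y := by rw [h1]; group
  have hidx : (Subgroup.centralizer ({x * g} : Set G)).index.factorization p =
      (Subgroup.centralizer ({g} : Set G)).index.factorization p := by
    obtain ⟨S, hS⟩ := CfsgLib.Blocks.exists_sylow_map_eq hP
    have hPc : (Nat.card (Subgroup.centralizer ({g} : Set G))).factorization p =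
        (Nat.card P).factorization p := by
      rw [← hS, Nat.card_congr ((S : Subgroup (Subgroup.centralizer ({g} : Set G))).equivMapOfInjective
        _ (Subgroup.subtype_injective _)).symm.toEquiv, S.card_eq_multiplicity,
        Nat.factorization_pow_self (Fact.out : p.Prime)]
    have h1 := (Nat.factorization_le_iff_dvd Nat.card_pos.ne' Nat.card_pos.ne').2
      (Subgroup.card_dvd_of_le hCle) p
    have h2 := (Nat.factorization_le_iff_dvd Nat.card_pos.ne' Nat.card_pos.ne').2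
      (Subgroup.card_dvd_of_le hPle) p
    have h3 := congrArg (fun n => Nat.factorization n p)
      (Subgroup.centralizer ({x * g} : Set G)).card_mul_index
    have h4 := congrArg (fun n => Nat.factorization n p)
      (Subgroup.centralizer ({g} : Set G)).card_mul_index
    simp only [Nat.factorization_mul Nat.card_pos.ne' Subgroup.index_ne_zero_of_finite,
      Finsupp.add_apply] at h3 h4
    omega
  obtain ⟨χ₀, hχ₀, h0⟩ := CfsgLib.Blocks.HeightZero.exists_height_zero (p := p) hB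
  have hdeg : (Cfsg.charDegree (χ₀ : G → ℂ)).factorization p =
      (Subgroup.centralizer ({x * g} : Set G)).index.factorization p := by
    rw [hidx, (CfsgLib.Blocks.HeightZero.blockHeight_eq_zero_iff' hχ₀).1 h0,
      CfsgLib.Blocks.HeightZero.minExp_eq_of_defectClass hM hB hg]
  have hunit := CfsgLib.Blocks.not_memLocalIdeal_apply_of_height_zero hM hB hg hχ₀ h0
  have hval : ¬ Cfsg.MemLocalIdeal M ((χ₀ : G → ℂ) (x * g)) := fun h => hunit
    ((CfsgLib.Blocks.Congr.mem_iff (CfsgLib.Blocks.HeightZero.congr_apply_mul hM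
      (CfsgLib.Chars.isCharacter_coe χ₀) hcomm hk hreg)).mp h)
  have hcc : ¬ Cfsg.MemLocalIdeal M (Cfsg.centralChar (χ₀ : G → ℂ) (x * g)) := by
    intro h
    apply hval
    have hi : ((Subgroup.centralizer ({x * g} : Set G)).index : ℂ) ≠ 0 :=
      Nat.cast_ne_zero.2 Subgroup.index_ne_zero_of_finite
    have heq : (χ₀ : G → ℂ) (x * g) = ((Cfsg.charDegree (χ₀ : G → ℂ) : ℂ) /
        ((Subgroup.centralizer ({x * g} : Set G)).index : ℂ)) *
          Cfsg.centralChar (χ₀ : G → ℂ) (x * g) := by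
      rw [Cfsg.centralChar, ← CfsgLib.Chars.coe_charDegree]
      field_simp [hi, (Nat.cast_ne_zero.2 (CfsgLib.Chars.charDegree_pos χ₀).ne' :
        (Cfsg.charDegree (χ₀ : G → ℂ) : ℂ) ≠ 0)]
    rw [heq]
    exact CfsgLib.Blocks.memLocalIdeal_mul_left (CfsgLib.Blocks.memLocalRing_natCast_div hM
      (CfsgLib.Chars.charDegree_pos χ₀).ne' Subgroup.index_ne_zero_of_finite hdeg.ge) h
  intro h
  apply hcc
  have h2 := CfsgLib.Blocks.sameBlock_of_mem hB hχ₀ hχ (x * g)
  rw [show Cfsg.centralChar (χ : G → ℂ) (x * g) = 0 by simp [Cfsg.centralChar, h], sub_zero] at h2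
  exact h2


/-- Let N be a normal subgroup of the finite group G of index a power of the prime p, M a maximal ideal of the algebraic integers containing p, b a block of N stabilized by every element of G, and B a block of G covering b (some member of B has a member of b as a constituent of its restriction to N). Suppose that B has a commutative defect group P. Then G = NP and P ∩ N is a defect group of b; every member of B restricts to a member of b; every member of b is the restriction of exactly [G : N] members of B; B contains exactly [G : N] times as many irreducible characters as b; and B and b have the same p-regular rank. -/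
theorem result {G : Type*} [Group G] [Fintype G] (p : ℕ) [Fact p.Prime] (M : Ideal Cfsg.AlgInt) (hM : Cfsg.IsPModular p M) (N : Subgroup G) [N.Normal] [Fintype N] (hNi : ∃ k : ℕ, N.index = p ^ k) (b : Set (Cfsg.IrrCharacter N)) (hb : Cfsg.IsPBlock M b) (hstab : ∀ g : G, Cfsg.StabilizesBlock N b g) (B : Set (Cfsg.IrrCharacter G)) (hB : Cfsg.IsPBlock M B) (hcov : ∃ χ ∈ B, ∃ θ ∈ b, Cfsg.classInner (fun n : N => (χ : G → ℂ) n) (θ : N → ℂ) ≠ 0) (P : Subgroup G) (hPD : Cfsg.IsDefectGroup p M B P) (hPab : ∀ x ∈ P, ∀ y ∈ P, x * y = y * x) : N ⊔ P = ⊤ ∧ Cfsg.IsDefectGroup p M b ((P ⊓ N).subgroupOf N) ∧ (∀ χ ∈ B, ∃ θ ∈ b, ∀ n : N, (χ : G → ℂ) n = (θ : N → ℂ) n) ∧ (∀ θ ∈ b, Nat.card {χ : Cfsg.IrrCharacter G // χ ∈ B ∧ ∀ n : N, (χ : G → ℂ) n = (θ : N → ℂ) n} = N.index) ∧ Nat.card B = N.index * Nat.card b ∧ Cfsg.blockRank p B = Cfsg.blockRank p b := by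
  haveI := hM.2.1
  haveI := CfsgLib.Blocks.charP_kres hM
  classical
  haveI := Fintype.ofFinite (G ⧸ N)
  obtain ⟨j, hj⟩ := hNi
  obtain ⟨χ₁, hχ₁, θ₁, hθ₁, hcov'⟩ := hcov
  have hNn : (⊤ : Subgroup G) ≤ Subgroup.normalizer (N : Set G) :=
    (Subgroup.normalizer_eq_top_iff.mpr inferInstance).ge
  obtain ⟨⟨B₀, hB₀, hB₀c⟩, hB₀P⟩ := Cfsg.Agent.S4672.result p M hM N ⟨j, hj⟩ b hb hstab
  have hB₀f : CfsgLib.Blocks.topEl M B₀ = CfsgLib.Blocks.subEl M N b :=
    MonoidAlgebra.ext (Finsupp.ext fun g => by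
      rw [CfsgLib.Blocks.coeff_topEl, CfsgLib.Blocks.coeff_subEl, hB₀c])
  -- the block over `b` is unique
  have huniq : ∀ B'' : Set (Cfsg.IrrCharacter G), Cfsg.IsPBlock M B'' → ∀ χ ∈ B'', ∀ θ ∈ b,
      Cfsg.classInner (fun n : N => (χ : G → ℂ) n) (θ : N → ℂ) ≠ 0 → B'' = B₀ := by
    intro B'' hB'' χ hχ θ hθ h
    have hne := CfsgLib.Blocks.topEl_mul_subEl_ne_zero hB'' hb hχ hθ h
    rw [← hB₀f] at hne
    exact CfsgLib.Blocks.topEl_injective hB'' hB₀
      ((CfsgLib.Blocks.isBlockIdem_topEl hB'').eq_of_mul_ne_zero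
        (CfsgLib.Blocks.isBlockIdem_topEl hB₀) hne)
  obtain rfl : B = B₀ := huniq B hB χ₁ hχ₁ θ₁ hθ₁ hcov'
  obtain ⟨hNP, hPN⟩ := hB₀P B hB hB₀c P hPD
  refine ⟨hNP, hPN, ?_⟩
  have heP := (CfsgLib.Blocks.isDefectGroup_topEl_iff hB P).mp hPD
  obtain ⟨g, hg, hgP⟩ := (CfsgLib.Blocks.isBlockIdem_topEl hB).exists_class_of_defectGroup heP
  rw [top_inf_eq] at hgP
  have hgN : g ∈ N := by_contra fun h => hg.2.1 (by
    rw [hB₀f]; exact CfsgLib.Blocks.isSupportedOn_subEl N b g h)
  have hgB : Cfsg.IsDefectClass M B g :=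
    (CfsgLib.Blocks.isDefectClass_iff (f := MonoidHom.id G) Function.injective_id hB g).mpr (by
      rw [CfsgLib.Blocks.range_monoidHom_id]; exact hg)
  -- every coset meets the translates of `g`
  have hcoset : ∀ q : G ⧸ N, ∃ x ∈ P, (QuotientGroup.mk (x * g) : G ⧸ N) = q := by
    intro q
    obtain ⟨y, rfl⟩ := QuotientGroup.mk_surjective q
    obtain ⟨x, hx, n, hn, rfl⟩ := Subgroup.mem_sup_of_normal_right.mp
      (show y ∈ P ⊔ N by rw [sup_comm, hNP]; exact Subgroup.mem_top y)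
    refine ⟨x, hx, ?_⟩
    rw [QuotientGroup.mk_mul, QuotientGroup.mk_mul, (QuotientGroup.eq_one_iff g).mpr hgN,
      (QuotientGroup.eq_one_iff n).mpr hn]
  haveI hcomm : IsMulCommutative (G ⧸ N) := ⟨⟨fun a c => by
    obtain ⟨x, hx, rfl⟩ := hcoset a
    obtain ⟨y, hy, rfl⟩ := hcoset c
    simp only [QuotientGroup.mk_mul, (QuotientGroup.eq_one_iff g).mpr hgN, mul_one]
    rw [← QuotientGroup.mk_mul, ← QuotientGroup.mk_mul, hPab x hx y hy]⟩⟩
  -- restrictions are irreducible
  have hirr : ∀ χ ∈ B, Cfsg.IsIrrCharacter N (fun n : N => (χ : G → ℂ) n) := by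
    intro χ hχ
    have hres := CfsgLib.Chars.isCharacter_restrict (CfsgLib.Chars.isCharacter_coe χ) N
    refine CfsgLib.Chars.isIrrCharacter_of_classInner_self hres ?_
    rw [← CfsgLib.Chars.Induced.classInner_indFun N _ (CfsgLib.Chars.isClassFunction_coe χ),
      CfsgLib.Chars.Induced.indFun_restrict_normal (CfsgLib.Chars.isClassFunction_coe χ),
      CfsgLib.Chars.classInner_sum_left]
    have hone : ∀ β : Cfsg.IrrCharacter (G ⧸ N), (β : G ⧸ N → ℂ) 1 = 1 := fun β =>
      CfsgLib.Chars.map_one_eq_one_of_isMulCommutative β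
    have hnorm : ∀ (β : Cfsg.IrrCharacter (G ⧸ N)) (q : G ⧸ N),
        (β : G ⧸ N → ℂ) q * (starRingEnd ℂ) ((β : G ⧸ N → ℂ) q) = 1 := by
      intro β q
      obtain ⟨l, hl⟩ := CfsgLib.Chars.exists_monoidHom_of_map_one_eq_one
        (CfsgLib.Chars.isCharacter_coe β) (hone β)
      rw [← CfsgLib.Chars.map_inv_eq_conj (CfsgLib.Chars.isCharacter_coe β) q, hl, hl,
        ← Units.val_mul, ← map_mul, mul_inv_cancel, map_one, Units.val_one]
    have hprod : ∀ β : Cfsg.IrrCharacter (G ⧸ N), Cfsg.IsIrrCharacter G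
        (fun y => (χ : G → ℂ) y * (β : G ⧸ N → ℂ) (y : G ⧸ N)) := by
      intro β
      refine CfsgLib.Chars.isIrrCharacter_of_classInner_self
        (CfsgLib.Chars.Induced.isCharacter_mul_quotient (CfsgLib.Chars.isCharacter_coe χ) β) ?_
      rw [← (CfsgLib.Chars.isIrrCharacter_iff.1 χ.2).2]
      simp only [Cfsg.classInner]
      congr 1
      refine Finset.sum_congr rfl fun y _ => ?_
      rw [map_mul, mul_mul_mul_comm, hnorm, mul_one]
    rw [Finset.sum_eq_single (CfsgLib.Chars.oneChar (G ⧸ N))]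
    · rw [CfsgLib.Chars.classInner_smul_left, hone, one_mul]
      simp only [CfsgLib.Chars.oneChar_apply, mul_one]
      exact (CfsgLib.Chars.isIrrCharacter_iff.1 χ.2).2
    · intro β _ hβ
      rw [CfsgLib.Chars.classInner_smul_left]
      refine mul_eq_zero_of_right _ (CfsgLib.Chars.classInner_of_ne (χ := ⟨_, hprod β⟩) (ψ := χ)
        fun he => hβ (Subtype.ext (funext fun q => ?_)))
      obtain ⟨x, hx, rfl⟩ := hcoset q
      have h1 := congrFun (congrArg Subtype.val he) (x * g)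
      simp only at h1
      rw [CfsgLib.Chars.oneChar_apply]
      exact mul_left_cancel₀ (apply_mul_ne_zero hM hB hgB hgP hPab hx hχ)
        (h1.trans (mul_one _).symm)
    · exact fun h => absurd (Finset.mem_univ _) h
  -- restriction of members
  have hres : ∀ χ ∈ B, ∃ θ ∈ b, ∀ n : N, (χ : G → ℂ) n = (θ : N → ℂ) n := by
    intro χ hχ
    refine ⟨⟨_, hirr χ hχ⟩, ?_, fun n => rfl⟩
    set θ : Cfsg.IrrCharacter N := ⟨_, hirr χ hχ⟩
    set b' := Cfsg.blockOf M (θ : N → ℂ) with hb'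
    have hb'b : Cfsg.IsPBlock M b' := CfsgLib.Blocks.isPBlock_blockOf M θ
    have hne := CfsgLib.Blocks.topEl_mul_subEl_ne_zero hB hb'b hχ
      (CfsgLib.Blocks.self_mem_blockOf θ) (by
        show Cfsg.classInner (θ : N → ℂ) (θ : N → ℂ) ≠ 0
        rw [(CfsgLib.Chars.isIrrCharacter_iff.1 θ.2).2]; exact one_ne_zero)
    rw [hB₀f] at hne
    have hbb : b' = b := (CfsgLib.Blocks.subEl_injective hb hb'b
      ((CfsgLib.Blocks.isBlockIdem_subEl hb).eq_of_mul_ne_zero
        (CfsgLib.Blocks.isBlockIdem_subEl hb'b) hne)).symm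
    exact hbb ▸ CfsgLib.Blocks.self_mem_blockOf θ
  refine ⟨hres, ?_⟩
  -- the fibres
  have hfib : ∀ θ ∈ b, Nat.card {χ : Cfsg.IrrCharacter G //
      χ ∈ B ∧ ∀ n : N, (χ : G → ℂ) n = (θ : N → ℂ) n} = N.index := by
    intro θ hθ
    obtain ⟨χ₀, hover⟩ := CfsgLib.BlocksCover.exists_irr_over N θ
    have hχ₀ : χ₀ ∈ B := by
      rw [← huniq _ (CfsgLib.Blocks.isPBlock_blockOf M χ₀) χ₀
        (CfsgLib.Blocks.self_mem_blockOf χ₀) θ hθ hover]
      exact CfsgLib.Blocks.self_mem_blockOf χ₀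
    have hext : ∀ n : N, (χ₀ : G → ℂ) n = (θ : N → ℂ) n := by
      obtain ⟨θ', -, hθ'⟩ := hres χ₀ hχ₀
      suffices θ' = θ by rw [← this]; exact hθ'
      by_contra hne
      apply hover
      rw [show (fun n : N => (χ₀ : G → ℂ) n) = (θ' : N → ℂ) from funext hθ']
      exact CfsgLib.Chars.classInner_of_ne hne
    have hover' : ∀ β : Cfsg.IrrCharacter (G ⧸ N), ∀ n : N,
        (χ₀ : G → ℂ) n * (β : G ⧸ N → ℂ) ((n : G) : G ⧸ N) = (θ : N → ℂ) n := by
      intro β n
      rw [CfsgLib.Chars.Induced.gallagher_restrict, CfsgLib.Chars.map_one_eq_one_of_isMulCommutative,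
        one_mul, hext]
    have hself : Cfsg.classInner (θ : N → ℂ) (θ : N → ℂ) ≠ 0 := by
      rw [(CfsgLib.Chars.isIrrCharacter_iff.1 θ.2).2]; exact one_ne_zero
    let F : Cfsg.IrrCharacter (G ⧸ N) → {χ : Cfsg.IrrCharacter G //
        χ ∈ B ∧ ∀ n : N, (χ : G → ℂ) n = (θ : N → ℂ) n} := fun β =>
      ⟨⟨_, CfsgLib.Chars.Induced.gallagher_isIrrCharacter χ₀ θ hext β⟩, by
        refine ⟨?_, hover' β⟩
        set ψ : Cfsg.IrrCharacter G :=
          ⟨_, CfsgLib.Chars.Induced.gallagher_isIrrCharacter χ₀ θ hext β⟩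
        rw [← huniq _ (CfsgLib.Blocks.isPBlock_blockOf M ψ) ψ (CfsgLib.Blocks.self_mem_blockOf ψ) θ hθ
          (by rw [show (fun n : N => (ψ : G → ℂ) n) = (θ : N → ℂ) from funext (hover' β)]; exact hself)]
        exact CfsgLib.Blocks.self_mem_blockOf ψ⟩
    have hF : Function.Bijective F := by
      refine ⟨fun β β' h => CfsgLib.Chars.Induced.gallagher_injective χ₀ θ hext β β'
        (congrFun (congrArg (fun t => ((t : _).1 : G → ℂ)) h)), ?_⟩
      rintro ⟨ψ, hψ, hψθ⟩
      obtain ⟨β, hβ⟩ := CfsgLib.Chars.Induced.gallagher_exists χ₀ θ hext ψ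
        ((CfsgLib.BlocksCover.mult_ne_zero_iff ψ θ).1 (by
          rw [show (fun n : N => (ψ : G → ℂ) n) = (θ : N → ℂ) from funext hψθ]; exact hself))
      exact ⟨β, Subtype.ext (Subtype.ext hβ.symm)⟩
    rw [← Nat.card_congr (Equiv.ofBijective F hF), CfsgLib.Chars.card_irrCharacter,
      Subgroup.index_eq_card]
    exact (Nat.card_congr (Equiv.ofBijective ConjClasses.mk
      ⟨fun a c h => by
        obtain ⟨t, ht⟩ := isConj_iff.mp (ConjClasses.mk_eq_mk_iff_isConj.mp h)
        rw [← ht, hcomm.is_comm.comm t a, mul_inv_cancel_right], ConjClasses.mk_surjective⟩)).symm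
  refine ⟨hfib, ?_, ?_⟩
  · haveI := CfsgLib.Blocks.finite_irrCharacter (G := G)
    haveI := CfsgLib.Blocks.finite_irrCharacter (G := N)
    haveI : Fintype b := Fintype.ofFinite b
    choose r hr hrv using hres
    let R : B → b := fun χ => ⟨r χ χ.2, hr χ χ.2⟩
    rw [Nat.card_congr (Equiv.sigmaFiberEquiv R).symm, Nat.card_sigma,
      Finset.sum_congr rfl (g := fun _ => N.index) (fun θ _ => ?_), Finset.sum_const,
      Finset.card_univ, smul_eq_mul, mul_comm, ← Nat.card_eq_fintype_card]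
    rw [← hfib θ θ.2]
    refine Nat.card_congr ⟨fun χ => ⟨χ.1.1, χ.1.2, fun n => ?_⟩,
      fun χ => ⟨⟨χ.1, χ.2.1⟩, ?_⟩, fun χ => rfl, fun χ => rfl⟩
    · rw [hrv χ.1.1 χ.1.2 n, show r χ.1.1 χ.1.2 = θ.1 from congrArg Subtype.val χ.2]
    · exact Subtype.ext (Subtype.ext (funext fun n =>
        (hrv χ.1 χ.2.1 n).symm.trans (χ.2.2 n)))
  · let E : (N → ℂ) →ₗ[ℂ] (G → ℂ) :=
      { toFun := fun u y => if h : y ∈ N then u ⟨y, h⟩ else 0
        map_add' := fun u v => funext fun y => by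
          by_cases h : y ∈ N <;> simp [h]
        map_smul' := fun c u => funext fun y => by
          by_cases h : y ∈ N <;> simp [h] }
    have hE : Function.Injective E := fun u v h => funext fun n => by
      have h1 := congrFun h (n : G)
      simpa [E] using h1
    have hpart : ∀ (χ : Cfsg.IrrCharacter G) (θ : Cfsg.IrrCharacter N),
        (∀ n : N, (χ : G → ℂ) n = (θ : N → ℂ) n) →
          Cfsg.pRegularPart p (χ : G → ℂ) = E (Cfsg.pRegularPart p (θ : N → ℂ)) := by
      intro χ θ hχθ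
      funext y
      by_cases hy : y ∈ N
      · simp [E, hy, Cfsg.pRegularPart, Cfsg.IsPRegular, Subgroup.orderOf_mk, hχθ ⟨y, hy⟩]
      · have hsing : ¬ Cfsg.IsPRegular p y := by
          intro hreg
          have h1 : orderOf (QuotientGroup.mk y : G ⧸ N) ∣ p ^ j :=
            hj ▸ orderOf_dvd_natCard _
          have h2 : orderOf (QuotientGroup.mk y : G ⧸ N) ∣ orderOf y :=
            orderOf_map_dvd (QuotientGroup.mk' N) y
          exact hy ((QuotientGroup.eq_one_iff y).mp (orderOf_eq_one_iff.mp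
            (Nat.Coprime.eq_one_of_dvd ((((Fact.out : p.Prime).coprime_iff_not_dvd.mpr hreg).pow_left
              j).coprime_dvd_left h1) h2)))
        simp [E, hy, Cfsg.pRegularPart, hsing]
    have himg : (fun χ : Cfsg.IrrCharacter G => Cfsg.pRegularPart p (χ : G → ℂ)) '' B =
        E '' ((fun θ : Cfsg.IrrCharacter N => Cfsg.pRegularPart p (θ : N → ℂ)) '' b) := by
      ext u
      constructor
      · rintro ⟨χ, hχ, rfl⟩
        obtain ⟨θ, hθ, h⟩ := hres χ hχ
        exact ⟨_, ⟨θ, hθ, rfl⟩, (hpart χ θ h).symm⟩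
      · rintro ⟨_, ⟨θ, hθ, rfl⟩, rfl⟩
        have hpos : 0 < Nat.card {χ : Cfsg.IrrCharacter G //
            χ ∈ B ∧ ∀ n : N, (χ : G → ℂ) n = (θ : N → ℂ) n} := by
          rw [hfib θ hθ]; exact Nat.pos_of_ne_zero Subgroup.index_ne_zero_of_finite
        obtain ⟨⟨χ, hχ, h⟩⟩ := (Nat.card_pos_iff.mp hpos).1
        exact ⟨χ, hχ, hpart χ θ h⟩
    rw [Cfsg.blockRank, Cfsg.blockRank, himg, Submodule.span_image]
    exact (LinearEquiv.finrank_eq (Submodule.equivMapOfInjective E hE _)).symm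

end Cfsg.Agent.S4640
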