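import Cfsg.Statements.S4641
import Cfsg.Agent.Eq.Def_Blocks
import Cfsg.Agent.Eq.Def_BlockRank
import Cfsg.Agent.Blocks.Modular.Block
import Cfsg.Agent.Blocks.Orth.DegreeSquares

set_option autoImplicit false
open Cfsg CfsgLib CfsgLib.Blocks

namespace Cfsg.Agent.S4641

/-- Let B be a block of the finite group G relative to a maximal ideal M of the algebraic integers containing the prime p, let p^a be the p-part of the order of G and p^d the order of a defect group D of B, and let g be the greatest common divisor of the degrees of the members of B. Then the p-part of g is exactly p^(a−d), and writing g = p^(a−d)·u there is a positive integer v, prime to p and at least the p-regular rank of B (its number of irreducible Brauer characters), with Σ_{χ ∈ B} χ(1)² = p^(2a−d)·u²·v. -/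
theorem result {G : Type*} [Group G] [Finite G] (p : ℕ) [Fact p.Prime] (M : Ideal Cfsg.AlgInt) (hM : Cfsg.IsPModular p M) (B : Set (Cfsg.IrrCharacter G)) (hB : Cfsg.IsPBlock M B) (D : Subgroup G) (hD : Cfsg.IsDefectGroup p M B D) (a d : ℕ) (ha : (Nat.card G).factorization p = a) (hd : Nat.card D = p ^ d) (g : ℕ) (hg1 : ∀ χ ∈ B, g ∣ Cfsg.charDegree (χ : G → ℂ)) (hg2 : ∀ g' : ℕ, (∀ χ ∈ B, g' ∣ Cfsg.charDegree (χ : G → ℂ)) → g' ∣ g) : g.factorization p = a - d ∧ ∃ v : ℕ, 0 < v ∧ ¬ p ∣ v ∧ Cfsg.blockRank p B ≤ v ∧ ∑ᶠ χ ∈ B, Cfsg.charDegree (χ : G → ℂ) ^ 2 = p ^ (2 * a - d) * (g / p ^ (a - d)) ^ 2 * v := by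
  classical
  have : Fintype G := Fintype.ofFinite G
  have := isMaximal_of_isPModular hM
  have := charP_kres hM
  have hp : p.Prime := hM.1
  obtain ⟨S⟩ := Modular.exists_idemSys (M := M) (G := G)
  -- the least exponent
  have hmin : HeightZero.minExp p B + d = a := by
    obtain ⟨x, hx, P, rfl⟩ := hD
    rw [HeightZero.minExp_eq_of_defectClass hM hB hx, ← ha]
    rw [Nat.card_congr ((P : Subgroup (Subgroup.centralizer ({x} : Set G))).equivMapOfInjective _
      (Subgroup.subtype_injective _)).symm.toEquiv, P.card_eq_multiplicity] at hd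
    rw [← Nat.pow_right_injective hp.two_le hd, ← Finsupp.add_apply,
      ← Nat.factorization_mul Subgroup.index_ne_zero_of_finite Nat.card_pos.ne',
      Subgroup.index_mul_card]
  obtain ⟨χ₀, hχ₀, h0⟩ := HeightZero.exists_height_zero (p := p) hB
  have hχ₀' : (charDegree (χ₀ : G → ℂ)).factorization p = a - d := by
    rw [(HeightZero.blockHeight_eq_zero_iff' hχ₀).1 h0]
    omega
  have hg0 : g ≠ 0 := fun h => (Chars.charDegree_pos χ₀).ne'
    (Nat.eq_zero_of_zero_dvd (h ▸ hg1 χ₀ hχ₀))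
  have hpg : p ^ (a - d) ∣ g := hg2 _ fun χ hχ => Dvd.dvd.trans
    (pow_dvd_pow p (by have := HeightZero.minExp_le (p := p) hχ; omega)) (Nat.ordProj_dvd _ _)
  have hgf : g.factorization p = a - d := le_antisymm
    (hχ₀' ▸ (Nat.factorization_le_iff_dvd hg0 (Chars.charDegree_pos χ₀).ne').2 (hg1 χ₀ hχ₀) p)
    ((hp.pow_dvd_iff_le_factorization hg0).1 hpg)
  refine ⟨hgf, ?_⟩
  obtain ⟨u, hu⟩ := hpg
  have hpu : ¬ p ∣ u := by
    intro h
    have h1 : p ^ (a - d + 1) ∣ g := by
      rw [pow_succ, hu]; exact Nat.mul_dvd_mul_left _ h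
    have := (hp.pow_dvd_iff_le_factorization hg0).1 h1
    omega
  have hu0 : u ≠ 0 := fun h => hpu (by rw [h]; exact dvd_zero p)
  have hgu : g / p ^ (a - d) = u := by
    rw [hu, Nat.mul_div_cancel_left _ (pow_pos hp.pos _)]
  rw [hgu]
  choose m hm using fun (χ : IrrCharacter G) (c : Fin S.n) =>
    Modular.exists_nat_dec S (Chars.isCharacter_coe χ) c
  choose f hf0 hf using fun c => S.exists_phi_one hM c
  set T := B.toFinite.toFinset with hT
  set C := S.cols B with hC
  set Φ : Fin S.n → ℕ := fun c => ∑ χ ∈ T, m χ c * charDegree (χ : G → ℂ) with hΦ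
  have hterm : ∀ c ∈ C, ∃ w, 0 < w ∧ f c * Φ c = p ^ (2 * a - d) * u ^ 2 * w := by
    intro c hc
    obtain ⟨b, hb⟩ := S.exists_int_block_comb hM hB hc
    have hgfc : g ∣ f c := by
      have e : (f c : ℤ) = ∑ χ ∈ T, b χ * (charDegree (χ : G → ℂ) : ℤ) := by
        have h : (f c : ℂ) = ∑ χ ∈ T, (b χ : ℂ) * (charDegree (χ : G → ℂ) : ℂ) := by
          rw [← hf, hb]
          simp only [Chars.coe_charDegree]
          rfl
        exact_mod_cast h
      rw [← Int.natCast_dvd_natCast, e]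
      exact Finset.dvd_sum fun χ hχ => Dvd.dvd.mul_left
        (Int.natCast_dvd_natCast.2 (hg1 χ (B.toFinite.mem_toFinset.1 hχ))) _
    have hgΦ : g ∣ Φ c := Finset.dvd_sum fun χ hχ =>
      Dvd.dvd.mul_left (hg1 χ (B.toFinite.mem_toFinset.1 hχ)) _
    have hpΦ : p ^ a ∣ Φ c := by
      obtain ⟨N, hN, hNe⟩ := S.exists_proj_degree hM c
      rw [← ha]
      convert hN using 1
      refine Nat.cast_injective (R := ℂ) ?_
      rw [← hNe, hΦ]
      push_cast
      simp only [← hm, Chars.coe_charDegree]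
      exact Finset.sum_subset (Finset.subset_univ _) fun χ _ hχ => by
        rw [S.dec_eq_zero_of_mem_cols hM hB hc fun h => hχ (B.toFinite.mem_toFinset.2 h), zero_mul]
    have hΦu : p ^ a * u ∣ Φ c := Nat.Coprime.mul_dvd_of_dvd_of_dvd
      (((hp.coprime_iff_not_dvd).2 hpu).pow_left a) hpΦ
      ((Dvd.intro_left _ rfl : u ∣ p ^ (a - d) * u).trans (hu ▸ hgΦ))
    obtain ⟨w₁, hw₁⟩ := hgfc
    obtain ⟨w₂, hw₂⟩ := hΦu
    have hpos : 0 < Φ c := by
      obtain ⟨χ, hχ, hχc⟩ := (Finset.mem_filter.1 hc).2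
      rw [hm, Nat.cast_ne_zero] at hχc
      exact lt_of_lt_of_le (Nat.mul_pos (Nat.pos_of_ne_zero hχc) (Chars.charDegree_pos χ))
        (Finset.single_le_sum (f := fun χ => m χ c * charDegree (χ : G → ℂ))
          (fun _ _ => Nat.zero_le _) (B.toFinite.mem_toFinset.2 hχ))
    refine ⟨w₁ * w₂, Nat.pos_of_ne_zero fun h => ?_, ?_⟩
    · rcases Nat.mul_eq_zero.1 h with h | h
      · exact (hf0 c).ne' (by rw [hw₁, h, mul_zero])
      · exact hpos.ne' (by rw [hw₂, h, mul_zero])
    · rw [hw₁, hw₂, hu, show 2 * a - d = (a - d) + a by omega, pow_add]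
      ring
  choose! w hw0 hw using hterm
  have hsum : ∑ᶠ χ ∈ B, charDegree (χ : G → ℂ) ^ 2 = p ^ (2 * a - d) * u ^ 2 * ∑ c ∈ C, w c := by
    rw [finsum_mem_eq_finite_toFinset_sum _ B.toFinite, ← hT, Finset.mul_sum,
      ← Finset.sum_congr rfl hw]
    simp only [hΦ, Finset.mul_sum]
    rw [Finset.sum_comm]
    refine Finset.sum_congr rfl fun χ hχ => Nat.cast_injective (R := ℂ) ?_
    have h1 : IsPRegular p (1 : G) := by
      show ¬ p ∣ orderOf (1 : G)
      rw [orderOf_one]
      exact hp.not_dvd_one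
    push_cast
    simp only [← hm, ← hf, Chars.coe_charDegree]
    have he : ∑ c ∈ C, S.dec (χ : G → ℂ) c * S.phi p c 1 = (χ : G → ℂ) 1 := by
      rw [S.apply_eq_sum hM (Chars.isCharacter_coe χ) h1]
      exact Finset.sum_subset (Finset.subset_univ C) fun c _ hc => by
        rw [S.dec_eq_zero_of_notMem_cols (B.toFinite.mem_toFinset.1 hχ) hc, zero_mul]
    rw [sq]
    conv_lhs => arg 1; rw [← he]
    rw [Finset.sum_mul]
    exact Finset.sum_congr rfl fun c _ => by ring
  have hne := (factorization_sum_degree_sq hM hB).1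
  have hfac := (factorization_sum_degree_sq hM hB).2
  rw [finsum_mem_eq_finite_toFinset_sum _ B.toFinite] at hsum
  rw [hsum] at hne hfac
  rw [finsum_mem_eq_finite_toFinset_sum _ B.toFinite]
  refine ⟨∑ c ∈ C, w c, Nat.pos_of_ne_zero fun h => hne (by rw [h, mul_zero]), ?_,
    (S.blockRank_le hM).trans ((Finset.card_eq_sum_ones C).trans_le (Finset.sum_le_sum hw0)), hsum⟩
  intro hdvd
  have h2 : p ^ (2 * a - d + 1) ∣ p ^ (2 * a - d) * u ^ 2 * ∑ c ∈ C, w c := by
    rw [pow_succ, mul_assoc (p ^ (2 * a - d))]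
    exact Nat.mul_dvd_mul_left _ (hdvd.mul_left _)
  have := (hp.pow_dvd_iff_le_factorization hne).1 h2
  rw [hfac, ha] at this
  omega

end Cfsg.Agent.S4641
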