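import Cfsg.Statements.S4644
import Cfsg.Agent.Blocks.InertiaFixed.Main
import Cfsg.Agent.Blocks.Basic.Residue
import Cfsg.Agent.Eq.Def_Blocks
import Cfsg.Agent.Eq.Def_BlockRank
import Cfsg.Agent.Eq.Def_BlockLocal

set_option autoImplicit false
open Cfsg CfsgLib CfsgLib.Blocks

namespace Cfsg.Agent.S4644

/-- Let B be a block of the finite group G relative to a maximal ideal M of the algebraic integers containing the prime p, with a commutative defect group P; let c be a block of C_G(P) inducing B and T the stabilizer of c in N_G(P). Let u be an element of P fixed under conjugation by every element of T, H = C_G(u) (so C_G(P) ≤ H), and f the block of H induced by c inside H. Then B and f have the same p-regular rank and the same number of irreducible characters. -/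
theorem result {G : Type*} [Group G] [Finite G] (p : ℕ) [Fact p.Prime] (M : Ideal Cfsg.AlgInt) (hM : Cfsg.IsPModular p M) (B : Set (Cfsg.IrrCharacter G)) (hB : Cfsg.IsPBlock M B) (P : Subgroup G) (hPD : Cfsg.IsDefectGroup p M B P) (hPab : ∀ x ∈ P, ∀ y ∈ P, x * y = y * x) (c : Set (Cfsg.IrrCharacter (Subgroup.centralizer (P : Set G)))) (hc : Cfsg.IsInducedBlock M (Subgroup.centralizer (P : Set G)) c B) (T : Subgroup G) (hT : ∀ g : G, g ∈ T ↔ (g ∈ Subgroup.normalizer (P : Set G) ∧ Cfsg.StabilizesBlock (Subgroup.centralizer (P : Set G)) c g)) (u : G) (hu : u ∈ P) (huT : ∀ g ∈ T, g * u * g⁻¹ = u) (H : Subgroup G) (hH : H = Subgroup.centralizer ({u} : Set G)) (f : Set (Cfsg.IrrCharacter H)) (hf : Cfsg.IsInducedBlockIn M H (Subgroup.centralizer (P : Set G)) c f) : Cfsg.blockRank p B = Cfsg.blockRank p f ∧ Nat.card B = Nat.card f := by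
  classical
  subst hH
  haveI : M.IsMaximal := hM.2.1
  haveI : CharP (kres M) p := charP_kres hM
  haveI := Fintype.ofFinite G
  have hmax := KleinFour.isMaxPairIdem_of_induced hM hB hPD hPab hc
  have hPp := hmax.1.1.1
  have hTs : T = pairStab ⊤ P (subEl M _ c) := eq_pairStab (M := M) hc.1 hT
  have hover : BrOver P (subEl M _ c) (subEl M _ f) :=
    (isInducedBlockIn_iff_brOver hM hPp (KleinFour.le_centralizer_of_abelian hPab le_rfl)
      (Subgroup.centralizer_le (Set.singleton_subset_iff.2 hu)) inf_le_right
      (Subgroup.centralizer_le_normalizer _) hc.1 hf.2.1).1 hf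
  exact InertiaFixed.counts_of_fixed hM hB hmax hPab hu (fun t ht => huT t (hTs ▸ ht)) hf.2.1 hover

end Cfsg.Agent.S4644
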