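import Cfsg.Statements.S4648
import Cfsg.Agent.Blocks.OneSimple.Small

set_option autoImplicit false
open Cfsg CfsgLib.Blocks

namespace Cfsg.Agent.S4648

/-- Let B be a block of the finite group G relative to a maximal ideal M of the algebraic integers containing the prime p, with a nontrivial defect group D. If B has p-regular rank 1 and at most four irreducible characters, then B is nilpotent, D has exactly as many elements as B has irreducible characters, and p is 2 or 3. -/
theorem result {G : Type*} [Group G] [Finite G] (p : ℕ) [Fact p.Prime] (M : Ideal Cfsg.AlgInt) (hM : Cfsg.IsPModular p M) (B : Set (Cfsg.IrrCharacter G)) (hB : Cfsg.IsPBlock M B) (D : Subgroup G) (hD : Cfsg.IsDefectGroup p M B D) (hD1 : D ≠ ⊥) (hl : Cfsg.blockRank p B = 1) (hk : Nat.card B ≤ 4) : Cfsg.IsNilpotentBlock p M B ∧ Nat.card D = Nat.card B ∧ (p = 2 ∨ p = 3) := by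
  classical
  haveI := Fintype.ofFinite G
  haveI : M.IsMaximal := hM.2.1
  haveI : CharP (kres M) p := charP_kres hM
  have hcard := Contrib.natCard_defectGroup hM hB hD
  have hd0 : blockDefect p B ≠ 0 := fun h => hD1 (Subgroup.eq_bot_of_card_eq D (by rw [hcard, h, pow_zero]))
  have hpd := OneSimple.pow_defect_eq_card hM hB hD hl hk
  refine ⟨?_, hcard.trans hpd, ?_⟩
  · obtain ⟨g, hmax⟩ := KleinFour.exists_maxPair (M := M) hB hD
    have hE := isBlockIdem_topEl (M := M) hB
    have hle := OneSimple.pairStab_le_centralizer hM hB hD hl hk hd0 hmax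
    rw [isNilpotentBlock_iff hB]
    have hab : ∀ x ∈ D, ∀ y ∈ D, x * y = y * x := by
      have hd2 : blockDefect p B ≤ 2 := by
        by_contra h
        have h8 : 2 ^ 3 ≤ p ^ blockDefect p B :=
          (Nat.pow_le_pow_left hM.1.two_le 3).trans (Nat.pow_le_pow_right hM.1.pos (by omega))
        omega
      intro x hx y hy
      rcases (show blockDefect p B = 1 ∨ blockDefect p B = 2 by omega) with h | h <;>
        rw [h] at hcard
      · rw [pow_one] at hcard
        haveI := isCyclic_of_prime_card (α := D) hcard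
        let := IsCyclic.commGroup (α := D)
        exact congrArg Subtype.val (mul_comm (⟨x, hx⟩ : D) ⟨y, hy⟩)
      · exact congrArg Subtype.val
          ((IsPGroup.isMulCommutative_of_card_eq_prime_sq hcard).is_comm.comm ⟨x, hx⟩ ⟨y, hy⟩)
    have hnil : IsNilpotentIdem p ⊤ (topEl M B) := by
      refine isNilpotentIdem_of_carries hE hmax fun Q x hc hmap _ => ?_
      obtain ⟨f, hf, hfx⟩ := hc
      rw [hmap] at hfx
      have hy : x ∈ pairStab ⊤ Q f := mem_pairStab.mpr
        ⟨⟨trivial, mem_normalizer_of_map_conj_le hmap.le⟩, PairLE.unique hmax.1.1 hfx hf⟩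
      obtain ⟨t, ht, c, hcC, rfl⟩ := exists_mul_of_abelian hE hmax hab hf hy
      exact Subgroup.mul_mem _ (Subgroup.centralizer_le hf.le (hle ht.1)) hcC
    exact fun Q f hf x => hnil Q f hf x trivial
  · have h4 : p ^ blockDefect p B ≤ 4 := by rw [hpd]; exact hk
    have hp4 : p ≤ 4 := (Nat.le_self_pow hd0 p).trans h4
    have := hM.1.two_le
    rcases (show p = 2 ∨ p = 3 ∨ p = 4 by omega) with h | h | h
    · exact Or.inl h
    · exact Or.inr h
    · exact absurd (h ▸ hM.1) (by norm_num)

end Cfsg.Agent.S4648
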