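import Cfsg.Statements.S4689
import Cfsg.Agent.Blocks.Star.Nilpotent
import Cfsg.Agent.Eq.Def_BlockRank

set_option autoImplicit false
open Cfsg

namespace Cfsg.Agent.S4689

/-- Fix a prime p and a maximal ideal M of the algebraic integers containing p, and a nilpotent p-block B of the finite group G. Then B has p-regular rank one (a single irreducible Brauer character), and some χ₀ ∈ B restricts to that Brauer character: every χ ∈ B agrees on the p-regular elements with a natural-number multiple of χ₀. -/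
theorem result {G : Type*} [Group G] [Fintype G] (p : ℕ) [Fact p.Prime] (M : Ideal Cfsg.AlgInt) (hM : Cfsg.IsPModular p M) (B : Set (Cfsg.IrrCharacter G)) (hnil : Cfsg.IsNilpotentBlock p M B) : Cfsg.blockRank p B = 1 ∧ ∃ χ₀ ∈ B, ∀ χ ∈ B, ∃ d : ℕ, ∀ x : G, Cfsg.pRegularPart p (χ : G → ℂ) x = (d : ℂ) * Cfsg.pRegularPart p (χ₀ : G → ℂ) x := by
  classical
  haveI := CfsgLib.Blocks.isMaximal_of_isPModular hM
  haveI := CfsgLib.Blocks.charP_kres hM
  have hB := hnil.1
  have hE := CfsgLib.Blocks.isBlockIdem_topEl (M := M) hB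
  obtain ⟨D, hD⟩ := hE.exists_defectGroup p
  have hD' : IsDefectGroup p M B D := (CfsgLib.Blocks.isDefectGroup_topEl_iff hB D).mpr hD
  obtain ⟨χ₀, hχ₀, h0⟩ := CfsgLib.Blocks.HeightZero.exists_height_zero (p := p) hB
  haveI := Fintype.ofFinite D
  obtain ⟨Φ, hΦ⟩ := CfsgLib.Blocks.exists_equiv_of_nilpotent hM hnil hD' hχ₀ h0
  have hmult : ∀ χ ∈ B, ∃ d : ℕ, ∀ x : G,
      pRegularPart p (χ : G → ℂ) x = (d : ℂ) * pRegularPart p (χ₀ : G → ℂ) x := by
    intro χ hχ
    refine ⟨charDegree ((Φ.symm ⟨χ, hχ⟩ : IrrCharacter D) : D → ℂ), fun x => ?_⟩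
    by_cases hx : IsPRegular p x
    · have h := hΦ (Φ.symm ⟨χ, hχ⟩) x hx
      rw [Equiv.apply_symm_apply] at h
      simpa [pRegularPart, hx] using h
    · simp [pRegularPart, hx]
  refine ⟨?_, χ₀, hχ₀, hmult⟩
  have hne : pRegularPart p (χ₀ : G → ℂ) ≠ 0 := by
    intro h
    have h1 := congrFun h 1
    simp [pRegularPart, IsPRegular, hM.1.ne_one, CfsgLib.Chars.map_one_ne_zero χ₀] at h1
  have hspan : Submodule.span ℂ ((fun φ : IrrCharacter G => pRegularPart p (φ : G → ℂ)) '' B) =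
      Submodule.span ℂ {pRegularPart p (χ₀ : G → ℂ)} := by
    refine le_antisymm (Submodule.span_le.2 ?_) (Submodule.span_mono ?_)
    · rintro _ ⟨ψ, hψ, rfl⟩
      obtain ⟨d, hd⟩ := hmult ψ hψ
      rw [SetLike.mem_coe, Submodule.mem_span_singleton]
      exact ⟨(d : ℂ), funext fun x => (hd x).symm⟩
    · rw [Set.singleton_subset_iff]
      exact ⟨χ₀, hχ₀, rfl⟩
  rw [blockRank, hspan, finrank_span_singleton hne]

end Cfsg.Agent.S4689
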