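import Cfsg.Statements.S4649
import Cfsg.Agent.Blocks.Cyclic.Main
import Cfsg.Agent.Blocks.Defect.CentralRankOne
import Cfsg.Agent.S4689
import Cfsg.Agent.Eq.Def_BlockRank
import Cfsg.Agent.Eq.Def_BrauerPairs

set_option autoImplicit false
open Cfsg

namespace Cfsg.Agent.S4649

/-- A block with cyclic defect group, of a finite group relative to a maximal ideal M of the algebraic integers containing the prime p, is nilpotent if and only if its p-regular rank is 1 (it has a unique irreducible Brauer character). -/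
theorem result {G : Type*} [Group G] [Finite G] (p : ℕ) [Fact p.Prime] (M : Ideal Cfsg.AlgInt) (hM : Cfsg.IsPModular p M) (B : Set (Cfsg.IrrCharacter G)) (hB : Cfsg.IsPBlock M B) (P : Subgroup G) (hPD : Cfsg.IsDefectGroup p M B P) (hcyc : IsCyclic P) : Cfsg.IsNilpotentBlock p M B ↔ Cfsg.blockRank p B = 1 := by
  classical
  haveI := Fintype.ofFinite G
  haveI := CfsgLib.Blocks.isMaximal_of_isPModular hM
  haveI := CfsgLib.Blocks.charP_kres hM
  refine ⟨fun hnil => (Cfsg.Agent.S4689.result p M hM B hnil).1, fun hl => ?_⟩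
  have hE := CfsgLib.Blocks.isBlockIdem_topEl (M := M) hB
  obtain ⟨g₀, hmax⟩ := CfsgLib.Blocks.KleinFour.exists_maxPair hB hPD
  rw [CfsgLib.Blocks.isNilpotentBlock_iff hB]
  intro Q f hf x hxN hxf hreg
  obtain ⟨g, -, hg⟩ := hf.exists_conj_le hE hmax
  by_cases hP1 : P = ⊥
  · have hQ : Q.map (MulAut.conj g).toMonoidHom = ⊥ := le_bot_iff.1 (hP1 ▸ hg.le)
    have hQ1 : Q = ⊥ := (Subgroup.map_eq_bot_iff_of_injective _ (MulAut.conj g).injective).1 hQ
    rw [Subgroup.mem_centralizer_iff]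
    intro q hq
    rw [hQ1] at hq
    rw [Subgroup.mem_bot.1 hq, one_mul, mul_one]
  have hmaxI := hmax.1.1.2.2
  rw [top_inf_eq] at hmaxI
  obtain ⟨c, hc, hce⟩ := CfsgLib.Blocks.exists_subEl_eq (M := M) hmaxI
  have hPC : P ≤ Subgroup.centralizer (P : Set G) :=
    CfsgLib.Blocks.Cyclic.le_centralizer_of_le hcyc le_rfl
  have hind : Cfsg.IsInducedBlock M (Subgroup.centralizer (P : Set G)) c B :=
    (CfsgLib.Blocks.isInducedBlock_iff_brOver hM hmax.1.1.1 hPC le_rfl
      (Subgroup.centralizer_le_normalizer _) hc hB).2 (hce.symm ▸ hmax.1.2)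
  obtain ⟨hset, -, -⟩ := CfsgLib.Blocks.Cyclic.setting_of_cyclic hM hB hPD hP1 hcyc hind
    (T := CfsgLib.Blocks.pairStab ⊤ P (CfsgLib.Blocks.subEl M _ c)) (fun t => by
      rw [CfsgLib.Blocks.mem_pairStab, CfsgLib.Blocks.stabilizesBlock_iff hc]
      exact ⟨fun ⟨⟨_, h1⟩, h2⟩ =>
          ⟨h1, CfsgLib.Blocks.normalizer_le_normalizer_centralizer P h1, h2⟩,
        fun ⟨h1, _, h2⟩ => ⟨⟨trivial, h1⟩, h2⟩⟩)
  have hA := CfsgLib.Blocks.Cyclic.blockRank_eq hM hB hPD hP1 hcyc hind hset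
  rw [hl, CfsgLib.Blocks.AbelianFree.natCard_aut] at hA
  have hstab : CfsgLib.Blocks.pairStab ⊤ P (CfsgLib.Blocks.subEl M _ c) ≤
      Subgroup.centralizer (P : Set G) := Subgroup.relIndex_eq_one.1 hA.symm
  rw [← hce] at hg
  set Q' := Q.map (MulAut.conj g).toMonoidHom with hQ'
  have hQP : Q' ≤ P := hg.le
  set x' := g * x * g⁻¹ with hx'
  have hx'N : Q'.map (MulAut.conj x').toMonoidHom = Q' := by
    rw [hQ', Subgroup.map_map]
    conv_rhs => rw [← CfsgLib.Blocks.map_conj_eq_self_of_mem_normalizer hxN, Subgroup.map_map]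
    congr 1
    ext q
    simp [hx', mul_assoc]
  have hfix : CfsgLib.Blocks.conjA x' (CfsgLib.Blocks.conjA g f) = CfsgLib.Blocks.conjA g f := by
    rw [CfsgLib.Blocks.conjA_conjA, hx', inv_mul_cancel_right, ← CfsgLib.Blocks.conjA_conjA, hxf]
  have hb : CfsgLib.Blocks.subEl M _ (CfsgLib.Blocks.AbelianFree.bl p P
      (CfsgLib.Blocks.subEl M _ c) Q') = CfsgLib.Blocks.conjA g f :=
    CfsgLib.Blocks.PairLE.unique hset.pair.1 (hset.spec hQP).2 hg
  obtain ⟨y, hy, hyx⟩ := hset.fusion hQP hQP hx'N (by rw [hb, hfix])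
  have hyx' := Subgroup.centralizer_le (show (Q' : Set G) ⊆ P from hQP) (hstab hyx)
  have hx'C : x' ∈ Subgroup.centralizer (Q' : Set G) := by
    simpa using (Subgroup.centralizer (Q' : Set G)).mul_mem
      ((Subgroup.centralizer (Q' : Set G)).inv_mem hy) hyx'
  rw [Subgroup.mem_centralizer_iff] at hx'C ⊢
  intro q hq
  have h1 := hx'C (g * q * g⁻¹) ⟨q, hq, rfl⟩
  have h2 : g * q * g⁻¹ * x' = g * (q * x) * g⁻¹ := by rw [hx']; group
  have h3 : x' * (g * q * g⁻¹) = g * (x * q) * g⁻¹ := by rw [hx']; group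
  rw [h2, h3] at h1
  exact mul_left_cancel (mul_right_cancel h1)

end Cfsg.Agent.S4649
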