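import Cfsg.Statements.S4651
import Cfsg.Agent.Blocks.KLSum.SingularSum
import Cfsg.Agent.Blocks.KLSum.Chains
import Cfsg.Agent.Eq.Def_Blocks
import Cfsg.Agent.Eq.Def_BlockRank

set_option autoImplicit false
open Cfsg

namespace Cfsg.Agent.S4651

open CfsgLib.Blocks.KLSum

/-- An alternating-sum identity over chains of p-subgroups (the character-count form behind the chain reformulation of Alperin's weight conjecture, which holds unconditionally for the difference k − l). Let b be a block of the finite group G relative to a maximal ideal M of the algebraic integers containing the prime p. Consider the nonempty chains s = {Q_0 < Q_1 < ⋯ < Q_m} of nontrivial p-subgroups of G in which every member is normal in the largest member; let N_G(s) be the intersection of the normalizers of the members (the stabilizer of the chain), and let b_s be the set of irreducible characters of N_G(s) lying in blocks of N_G(s) that induce b. Then #G · (k(b) − l(b)) equals the sum over all such chains s of (−1)^m · #N_G(s) · (k(b_s)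 − l(b_s)), where k counts irreducible characters and l is the p-regular rank; equivalently, k(b) − l(b) is the alternating sum of k(b_s) − l(b_s) over representatives of the conjugacy classes of such chains. -/
theorem result {G : Type*} [Group G] [Finite G] (p : ℕ) [Fact p.Prime] (M : Ideal Cfsg.AlgInt) (hM : Cfsg.IsPModular p M) (b : Set (Cfsg.IrrCharacter G)) (hb : Cfsg.IsPBlock M b) : (Nat.card G : ℤ) * ((Nat.card b : ℤ) - (Cfsg.blockRank p b : ℤ)) = ∑ᶠ s ∈ {s : Finset (Subgroup G) | s.Nonempty ∧ (∀ Q ∈ s, ∀ R ∈ s, Q ≤ R ∨ R ≤ Q) ∧ (∀ Q ∈ s, Q ≠ ⊥ ∧ IsPGroup p Q) ∧ ∃ T ∈ s, ∀ Q ∈ s, Q ≤ T ∧ T ≤ Subgroup.normalizer ((Q : Subgroup G) : Set G)}, (-1 : ℤ) ^ (s.card - 1) * (Nat.card (((⨅ Q ∈ s, Subgroup.normalizer ((Q : Subgroup G) : Set G) : Subgroup G))) : ℤ) * ((Nat.card {ψ : Cfsg.IrrCharacter (((⨅ Q ∈ s, Subgroup.normalizer ((Q : Subgroup G) : Set G) : Subgroup G))) | ∃ β : Set (Cfsg.IrrCharacter (((⨅ Q ∈ s, Subgroup.normalizer ((Q : Subgroup G) : Set G) : Subgroup G)))), ψ ∈ β ∧ Cfsg.IsInducedBlock M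 (((⨅ Q ∈ s, Subgroup.normalizer ((Q : Subgroup G) : Set G) : Subgroup G))) β b} : ℤ) - (Cfsg.blockRank p {ψ : Cfsg.IrrCharacter (((⨅ Q ∈ s, Subgroup.normalizer ((Q : Subgroup G) : Set G) : Subgroup G))) | ∃ β : Set (Cfsg.IrrCharacter (((⨅ Q ∈ s, Subgroup.normalizer ((Q : Subgroup G) : Set G) : Subgroup G)))), ψ ∈ β ∧ Cfsg.IsInducedBlock M (((⨅ Q ∈ s, Subgroup.normalizer ((Q : Subgroup G) : Set G) : Subgroup G))) β b} : ℤ)) := by
  classical
  have := Fintype.ofFinite G
  have := Fintype.ofFinite (Finset (Subgroup G))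
  let F : Subgroup G → ℤ := fun H => (Nat.card H : ℤ) *
    ((Nat.card (overSet M b H) : ℤ) - blockRank p (overSet M b H))
  have hrhs : ∑ᶠ s ∈ {s : Finset (Subgroup G) | s.Nonempty ∧ (∀ Q ∈ s, ∀ R ∈ s, Q ≤ R ∨ R ≤ Q) ∧
      (∀ Q ∈ s, Q ≠ ⊥ ∧ IsPGroup p Q) ∧
      ∃ T ∈ s, ∀ Q ∈ s, Q ≤ T ∧ T ≤ Subgroup.normalizer ((Q : Subgroup G) : Set G)},
      chainSign s * F (chainNorm s) =
      ∑ s ∈ Finset.univ.filter (fun s => IsPChain p s ∧ IsNormalChain s),
        chainSign s * F (chainNorm s) := by
    rw [finsum_mem_eq_toFinset_sum]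
    refine Finset.sum_congr ?_ fun _ _ => rfl
    ext s
    simp only [Set.mem_toFinset, Set.mem_ofPred_eq, Finset.mem_filter, Finset.mem_univ, true_and,
      IsPChain, IsNormalChain, and_assoc]
  have hgoal : (Nat.card G : ℤ) * ((Nat.card b : ℤ) - (Cfsg.blockRank p b : ℤ)) =
      ∑ s ∈ Finset.univ.filter (fun s => IsPChain p s ∧ IsNormalChain s),
        chainSign s * F (chainNorm s) := by
    rw [← sum_chains_eq_sum_normal F, card_mul_sub_block hM hb]
    let Φ : Subgroup G → ℤ := fun K => (localWeight p M b K : ℤ)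
    calc ∑ x ∈ Finset.univ.filter (fun x : G => (∃ e : ℕ, orderOf x = p ^ e) ∧ x ≠ 1),
          Φ (Subgroup.centralizer ({x} : Set G))
        = ∑ x ∈ Finset.univ.filter (fun x : G => (∃ e : ℕ, orderOf x = p ^ e) ∧ x ≠ 1),
            ∑ s ∈ Finset.univ.filter (fun s => IsPChain p s ∧ x ∈ chainNorm s),
              chainSign s * Φ (chainNorm s ⊓ Subgroup.centralizer ({x} : Set G)) := by
          refine Finset.sum_congr rfl fun x hx => ?_
          simp only [Finset.mem_filter, Finset.mem_univ, true_and] at hx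
          exact (sum_chains_fixed Φ hx.1 hx.2).symm
      _ = ∑ s ∈ Finset.univ.filter (fun s => IsPChain p s), chainSign s * F (chainNorm s) := by
          rw [Finset.sum_comm' (t' := Finset.univ.filter (fun s => IsPChain p s))
            (s' := fun s => Finset.univ.filter
              (fun x : G => (∃ e : ℕ, orderOf x = p ^ e) ∧ x ≠ 1 ∧ x ∈ chainNorm s))]
          · refine Finset.sum_congr rfl fun s _ => ?_
            rw [← Finset.mul_sum]
            congr 1
            simp only [F, card_mul_sub_overSet hM b (chainNorm s)]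
            exact Finset.sum_congr (by ext x; simp) fun _ _ => rfl
          · intro x s
            simp only [Finset.mem_filter, Finset.mem_univ, true_and]
            tauto
  rw [hgoal, ← hrhs]
  exact finsum_congr fun s => finsum_congr fun _ => (mul_assoc _ _ _).symm

end Cfsg.Agent.S4651
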