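import Cfsg.Statements.S4653
import Cfsg.Agent.Blocks.Defect.NormalizedSupport

set_option autoImplicit false
open Cfsg CfsgLib.Blocks

namespace Cfsg.Agent.S4653

/-- Fix a prime p and a maximal ideal M of the algebraic integers containing p. Let P be a normal p-subgroup of the finite group G and B a p-block of G. Then the idempotent of B is supported on C_G(P): its coefficient at every element of G outside C_G(P) is zero. -/
theorem result {G : Type*} [Group G] [Fintype G] (p : ℕ) [Fact p.Prime] (M : Ideal Cfsg.AlgInt) (hM : Cfsg.IsPModular p M) (P : Subgroup G) [P.Normal] (hP : IsPGroup p P) (B : Set (Cfsg.IrrCharacter G)) (hB : Cfsg.IsPBlock M B) (g : G) (hg : g ∉ Subgroup.centralizer (P : Set G)) : Cfsg.blockCoeff B g = 0 := by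
  haveI : M.IsMaximal := hM.2.1
  haveI : CharP (kres M) p := charP_kres hM
  obtain ⟨F, hF, hFe, hFc⟩ := exists_top_block hB
  rw [← hFc g]
  have hnorm : (⊤ : Subgroup G) ≤ Subgroup.normalizer (P : Set G) :=
    (Subgroup.normalizer_eq_top_iff.mpr ‹P.Normal›).ge
  have hnormC : (⊤ : Subgroup G) ≤
      Subgroup.normalizer ((Subgroup.centralizer (P : Set G) : Subgroup G) : Set G) := by
    have := inf_normalizer_le_normalizer_inf_centralizer (⊤ : Subgroup G) P
    rwa [top_inf_eq, top_inf_eq, top_le_iff.mp hnorm] at this
  refine subgroupBlockCoeff_eq_zero_of_supported le_top hnormC hF ?_ hg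
  exact (isBlockIdem_subEl hF).isSupportedOn_centralizer hP le_top hnorm

end Cfsg.Agent.S4653
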