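import Cfsg.Statements.S4654
import Cfsg.Agent.Blocks.Defect.Stabilizer

set_option autoImplicit false
open Cfsg CfsgLib.Blocks

namespace Cfsg.Agent.S4654

/-- Fix a prime p and a maximal ideal M of the algebraic integers containing p. Let P be a normal p-subgroup of the finite group G, B a p-block of G and e a p-block of C_G(P) such that (P, e) is a Brauer pair of B (as P is normal, this says that e occurs in the idempotent of B, which is supported on C_G(P)). Let T be the stabilizer of e in G under conjugation. Then the idempotent of e is a block idempotent of T: some block E of T has, at every element of T, the same idempotent coefficient as e (zero off C_G(P)); and the idempotent of B is the sum of the distinct G-conjugates of the idempotent of e: its coefficient at g is the sum over all x in G of the coefficient of e at x⁻¹ g x, divided by the order of T. -/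
theorem result {G : Type*} [Group G] [Fintype G] (p : ℕ) [Fact p.Prime] (M : Ideal Cfsg.AlgInt) (hM : Cfsg.IsPModular p M) (P : Subgroup G) [P.Normal] (hP : IsPGroup p P) (B : Set (Cfsg.IrrCharacter G)) (e : Set (Cfsg.IrrCharacter (Subgroup.centralizer (P : Set G)))) (hBe : Cfsg.IsBrauerPairOf p M B P e) (T : Subgroup G) (hT : ∀ x : G, x ∈ T ↔ Cfsg.StabilizesBlock (Subgroup.centralizer (P : Set G)) e x) : (∃ E : Set (Cfsg.IrrCharacter T), Cfsg.IsPBlock M E ∧ ∀ t : T, Cfsg.blockCoeff E t = Cfsg.subgroupBlockCoeff (Subgroup.centralizer (P : Set G)) e (t : G)) ∧ ∀ g : G, Cfsg.blockCoeff B g = (Nat.card T : ℂ)⁻¹ * ∑ x : G, Cfsg.subgroupBlockCoeff (Subgroup.centralizer (P : Set G)) e (x⁻¹ * g * x) := by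
  classical
  haveI : M.IsMaximal := hM.2.1
  haveI : CharP (kres M) p := charP_kres hM
  obtain ⟨⟨hPp, he⟩, hB, hom⟩ := hBe
  have hnorm : ∀ x : G, x ∈ Subgroup.normalizer (P : Set G) := fun x =>
    (Subgroup.normalizer_eq_top_iff.mpr ‹P.Normal›).ge trivial
  have hnormC : ∀ x : G, x ∈ Subgroup.normalizer ((Subgroup.centralizer (P : Set G)) : Set G) := fun x => by
    have := inf_normalizer_le_normalizer_inf_centralizer (⊤ : Subgroup G) P ⟨trivial, hnorm x⟩
    rwa [top_inf_eq] at this
  have hT' : ∀ x, x ∈ T ↔ conjA x (subEl M (Subgroup.centralizer (P : Set G)) e) = subEl M (Subgroup.centralizer (P : Set G)) e := fun x => by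
    rw [hT, stabilizesBlock_iff he]
    exact and_iff_right (hnormC x)
  set e' := subEl M (Subgroup.centralizer (P : Set G)) e with he'
  have hbe := isBlockIdem_subEl he (M := M)
  have hfixT : IsFixedBy e' T := isFixedBy_iff_conjA.mpr fun x hx => (hT' x).mp hx
  have hCT : (Subgroup.centralizer (P : Set G)) ≤ T := fun x hx => (hT' x).mpr (isFixedBy_iff_conjA.mp hbe.mem.2 x hx)
  have hPT : P ≤ T := fun x hx => (hT' x).mpr
    (isFixedBy_iff_conjA.mp (isFixedBy_of_supported_centralizer hbe.mem.1) x hx)
  refine ⟨?_, ?_⟩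
  · have hbT : IsBlockIdem T e' := by
      refine IsBlockIdem.isBlockIdem_of_fixed (H := ⊤) ?_ hPp hPT le_top ?_ (fun x _ => hnorm x)
        hfixT
      · rwa [top_inf_eq]
      · rwa [top_inf_eq]
    obtain ⟨E, hE, hEe⟩ := exists_subEl_eq hbT
    refine ⟨E, hE, fun t => ?_⟩
    rw [← subgroupBlockCoeff_eq_of_subEl_eq hCT (fun x _ => hnormC x) hE he hEe]
    simp [subgroupBlockCoeff]
  · choose cb hcb hcbe hcbc using fun x : G => exists_block_conj (M := M) he (hnormC x)
    obtain ⟨F, hF, hFe, hFc⟩ := exists_top_block hB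
    set S : Finset (Set (IrrCharacter (Subgroup.centralizer (P : Set G)))) := Finset.univ.image cb with hS
    have hpair := (isBrauerPairOf_iff hB he).mp ⟨⟨hPp, he⟩, hB, hom⟩
    have hE := isBlockIdem_subEl hF (M := M)
    have hEe : subEl M ⊤ F * e' = e' := by
      have h2 : brTrunc P (topEl M B) * e' = e' := hpair.2
      rw [← hFe, hE.brTrunc_eq_self hPp le_top (fun x _ => hnorm x)] at h2
      exact h2
    have hcbF : ∀ x, subEl M ⊤ F * subEl M (Subgroup.centralizer (P : Set G)) (cb x) = subEl M (Subgroup.centralizer (P : Set G)) (cb x) := fun x => by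
      rw [hcbe]
      conv_lhs => rw [← isFixedBy_iff_conjA.mp hE.mem.2 x trivial]
      rw [← map_mul, hEe]
    set s := ∑ f ∈ S, subEl M (Subgroup.centralizer (P : Set G)) f with hs
    have hSblock : ∀ f ∈ S, IsPBlock M f := fun f hf => by
      obtain ⟨x, -, rfl⟩ := Finset.mem_image.mp hf
      exact hcb x
    have hsE : subEl M ⊤ F * s = s := by
      rw [hs, Finset.mul_sum]
      refine Finset.sum_congr rfl fun f hf => ?_
      obtain ⟨x, -, rfl⟩ := Finset.mem_image.mp hf
      exact hcbF x
    have hstab : ∀ f ∈ S, ∀ h ∈ (⊤ : Subgroup G), ∃ f' ∈ S,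
        subEl M (Subgroup.centralizer (P : Set G)) f' = conjA h (subEl M (Subgroup.centralizer (P : Set G)) f) := by
      intro f hf h _
      obtain ⟨x, -, rfl⟩ := Finset.mem_image.mp hf
      exact ⟨cb (h * x), Finset.mem_image_of_mem _ (Finset.mem_univ _), by
        rw [hcbe, hcbe, conjA_conjA]⟩
    have hscent : s ∈ centerIn (kres M) (⊤ : Subgroup G) := by
      refine ⟨isSupportedOn_top _, isFixedBy_iff_conjA.mpr fun h _ => ?_⟩
      have hex : ∀ f ∈ S, ∃ f' ∈ S, subEl M (Subgroup.centralizer (P : Set G)) f' = conjA h (subEl M (Subgroup.centralizer (P : Set G)) f) :=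
        fun f hf => hstab f hf h trivial
      choose σ hσS hσ using hex
      rw [hs, map_sum]
      refine Finset.sum_bij σ hσS (fun f hf f' hf' hff => ?_) (fun f hf => ?_)
        (fun f hf => (hσ f hf).symm)
      · refine subEl_injective (hSblock f hf) (hSblock f' hf') ((conjA h).injective ?_)
        rw [← hσ f hf, ← hσ f' hf', hff]
      · obtain ⟨f₀, hf₀, he₀⟩ := hstab f hf h⁻¹ trivial
        refine ⟨f₀, hf₀, subEl_injective (hSblock _ (hσS f₀ hf₀)) (hSblock f hf) ?_⟩
        rw [hσ, he₀, conjA_conjA, mul_inv_cancel, conjA_one_left]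
    have horth : ∀ f ∈ S, s * subEl M (Subgroup.centralizer (P : Set G)) f = subEl M (Subgroup.centralizer (P : Set G)) f := by
      intro f hf
      rw [hs, Finset.sum_mul, Finset.sum_eq_single f (fun f' hf' hne => ?_) (fun h => absurd hf h)]
      · exact (isBlockIdem_subEl (hSblock f hf)).idem
      · exact (isBlockIdem_subEl (hSblock f' hf')).orthogonal (isBlockIdem_subEl (hSblock f hf))
          fun h => hne (subEl_injective (hSblock f' hf') (hSblock f hf) h)
    have hsidem : s * s = s := by
      conv_lhs => arg 2; rw [hs]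
      rw [Finset.mul_sum, hs]
      exact Finset.sum_congr rfl horth
    have hsum : subEl M ⊤ F = s := by
      rcases hE.2.2.2 s hscent hsidem with h0 | h1
      · exfalso
        rw [(commute_centerIn hscent hE.mem).eq, hsE] at h0
        have h2 := horth (cb 1) (Finset.mem_image_of_mem _ (Finset.mem_univ _))
        rw [h0, zero_mul] at h2
        exact (isBlockIdem_subEl (hcb 1)).ne_zero h2.symm
      · rw [(commute_centerIn hscent hE.mem).eq, hsE] at h1
        exact h1.symm
    intro g
    have hsumG := subgroupBlockCoeff_eq_sum le_top (fun x _ => hnormC x) hF S hSblock hstab hsum g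
    rw [hFc] at hsumG
    have hterm : ∀ x : G, subgroupBlockCoeff (Subgroup.centralizer (P : Set G)) e (x⁻¹ * g * x) =
        subgroupBlockCoeff (Subgroup.centralizer (P : Set G)) (cb x) g := fun x => by
      rw [← hcbc x (x⁻¹ * g * x)]
      congr 1
      group
    have hfiber : ∀ f ∈ S, (Finset.univ.filter fun x => cb x = f).card = Nat.card T := by
      intro f hf
      obtain ⟨x₀, -, rfl⟩ := Finset.mem_image.mp hf
      rw [← Fintype.card_subtype, ← Nat.card_eq_fintype_card]
      have key : ∀ x, cb x = cb x₀ ↔ x₀⁻¹ * x ∈ T := fun x => by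
        rw [hT']
        constructor
        · intro h
          rw [← conjA_conjA, ← hcbe x, h, hcbe, conjA_conjA, inv_mul_cancel, conjA_one_left]
        · intro h
          refine subEl_injective (hcb x) (hcb x₀) ?_
          rw [hcbe, hcbe, show x = x₀ * (x₀⁻¹ * x) by group, ← conjA_conjA, h]
      exact Nat.card_congr
        { toFun := fun x => ⟨x₀⁻¹ * x.1, (key x.1).mp x.2⟩
          invFun := fun t => ⟨x₀ * t.1, (key _).mpr (by rw [inv_mul_cancel_left]; exact t.2)⟩
          left_inv := fun x => Subtype.ext (mul_inv_cancel_left x₀ x.1)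
          right_inv := fun t => Subtype.ext (inv_mul_cancel_left x₀ t.1) }
    rw [Finset.sum_congr rfl fun x _ => hterm x,
      ← Finset.sum_fiberwise_of_maps_to (t := S) (g := cb)
        (fun x hx => Finset.mem_image_of_mem _ hx), Finset.sum_congr rfl fun f hf => (by
          rw [Finset.sum_congr rfl (g := fun _ => subgroupBlockCoeff (Subgroup.centralizer (P : Set G)) f g)
            (fun x hx => by rw [(Finset.mem_filter.mp hx).2]), Finset.sum_const, hfiber f hf,
            nsmul_eq_mul] : _ = (Nat.card T : ℂ) * subgroupBlockCoeff (Subgroup.centralizer (P : Set G)) f g),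
      ← Finset.mul_sum, ← mul_assoc, inv_mul_cancel₀ (Nat.cast_ne_zero.mpr Nat.card_pos.ne'),
      one_mul, hsumG]

end Cfsg.Agent.S4654
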