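import Cfsg.Statements.S4655
import Cfsg.Agent.Blocks.Defect.Translate

set_option autoImplicit false
open Cfsg CfsgLib.Blocks

namespace Cfsg.Agent.S4655

/-- Fix a prime p and a maximal ideal M of the algebraic integers containing p. Let (P, e) be a Brauer pair of the finite group G (P a p-subgroup, e a p-block of C_G(P)) and Q a subgroup of P. Then there is exactly one p-block f of C_G(Q) such that the Brauer pair (Q, f) lies below (P, e). -/
theorem result {G : Type*} [Group G] [Fintype G] (p : ℕ) [Fact p.Prime] (M : Ideal Cfsg.AlgInt) (hM : Cfsg.IsPModular p M) (P Q : Subgroup G) (e : Set (Cfsg.IrrCharacter (Subgroup.centralizer (P : Set G)))) (hPe : Cfsg.IsBrauerPair p M P e) (hQP : Q ≤ P) : ∃! f : Set (Cfsg.IrrCharacter (Subgroup.centralizer (Q : Set G))), Cfsg.IsPBlock M f ∧ Cfsg.SubpairLE p M Q f P e := by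
  haveI : M.IsMaximal := hM.2.1
  haveI : CharP (kres M) p := charP_kres hM
  obtain ⟨g, hg, hguniq⟩ := ((isBrauerPair_iff hPe.2).mp hPe).existsUnique_le hQP
  obtain ⟨f, hf, -, rfl⟩ := exists_brauerPair_eq (hg.isPair_left ((isBrauerPair_iff hPe.2).mp hPe))
  refine ⟨f, ⟨hf, (subpairLE_iff hf hPe.2).mpr hg⟩, fun f' hf' => ?_⟩
  exact subEl_injective hf'.1 hf (hguniq _ ((subpairLE_iff hf'.1 hPe.2).mp hf'.2))

end Cfsg.Agent.S4655
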