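import Cfsg.Statements.S4657
import Cfsg.Agent.Blocks.Defect.Translate

set_option autoImplicit false
open Cfsg CfsgLib.Blocks

namespace Cfsg.Agent.S4657

/-- Fix a prime p and a maximal ideal M of the algebraic integers containing p. Every Brauer pair (P, e) of the finite group G is a Brauer pair of exactly one p-block B of G. -/
theorem result {G : Type*} [Group G] [Fintype G] (p : ℕ) [Fact p.Prime] (M : Ideal Cfsg.AlgInt) (hM : Cfsg.IsPModular p M) (P : Subgroup G) (e : Set (Cfsg.IrrCharacter (Subgroup.centralizer (P : Set G)))) (hPe : Cfsg.IsBrauerPair p M P e) : ∃! B : Set (Cfsg.IrrCharacter G), Cfsg.IsBrauerPairOf p M B P e := by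
  haveI : M.IsMaximal := hM.2.1
  haveI : CharP (kres M) p := charP_kres hM
  obtain ⟨E, ⟨hE, hEof⟩, huniq⟩ := ((isBrauerPair_iff hPe.2).mp hPe).existsUnique_block
  obtain ⟨B, hB, rfl⟩ := exists_topEl_eq hE
  refine ⟨B, (isBrauerPairOf_iff hB hPe.2).mpr hEof, fun B' hB' => ?_⟩
  exact topEl_injective hB'.2.1 hB (huniq _ ⟨isBlockIdem_topEl hB'.2.1,
    (isBrauerPairOf_iff hB'.2.1 hPe.2).mp hB'⟩)

end Cfsg.Agent.S4657
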