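import Cfsg.Statements.S4661
import Cfsg.Agent.Blocks.Defect.LocalBlocks

set_option autoImplicit false
open Cfsg CfsgLib.Blocks

namespace Cfsg.Agent.S4661

/-- Fix a prime p and a maximal ideal M of the algebraic integers containing p. Let (P, e) be a maximal Brauer pair of the p-block B of the finite group G, Q ≤ P, and f the p-block of C_G(Q) with (Q, f) ≤ (P, e). Then C_P(Q) is contained in a defect group of f (as a block of the group C_G(Q)); and for some x in G the conjugate pair (x Q x⁻¹, conjugate of f) again lies below (P, e) and C_P(x Q x⁻¹) is a defect group of the conjugate of f in C_G(x Q x⁻¹). -/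
theorem result {G : Type*} [Group G] [Fintype G] (p : ℕ) [Fact p.Prime] (M : Ideal Cfsg.AlgInt) (hM : Cfsg.IsPModular p M) (B : Set (Cfsg.IrrCharacter G)) (P Q : Subgroup G) (e : Set (Cfsg.IrrCharacter (Subgroup.centralizer (P : Set G)))) (f : Set (Cfsg.IrrCharacter (Subgroup.centralizer (Q : Set G)))) (hmax : Cfsg.IsMaximalBrauerPair p M B P e) (hQP : Q ≤ P) (hf : Cfsg.IsPBlock M f) (hle : Cfsg.SubpairLE p M Q f P e) : (∃ D : Subgroup (Subgroup.centralizer (Q : Set G)), Cfsg.IsDefectGroup p M f D ∧ (P ⊓ Subgroup.centralizer (Q : Set G)).subgroupOf (Subgroup.centralizer (Q : Set G)) ≤ D) ∧ ∃ x : G, Cfsg.SubpairLE p M (Q.map (MulAut.conj x).toMonoidHom) (Cfsg.conjBlock Q x f) P e ∧ Cfsg.IsDefectGroup p M (Cfsg.conjBlock Q x f) ((P ⊓ Subgroup.centralizer ((Q.map (MulAut.conj x).toMonoidHom) : Set G)).subgroupOf (Subgroup.centralizer ((Q.map (MulAut.conj x).toMonoidHom) : Set G))) := by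
  haveI : M.IsMaximal := hM.2.1
  haveI : CharP (kres M) p := charP_kres hM
  have hB := hmax.1.2.1
  have hmax' := IsMaximalBrauerPair.toIdem hmax
  have hE := isBlockIdem_topEl (M := M) hB
  have hle' := (subpairLE_iff hf hmax.1.1.2).mp hle
  have hp := hle'.isPair_left hmax'.1.1
  have hpair : IsBrauerPair p M Q f := ⟨hp.1, hf⟩
  have hpof := (hle'.pairOf_iff hE hmax'.1.1).mpr hmax'.1
  refine ⟨?_, ?_⟩
  · have hb := isBlockIdem_subEl (M := M) hf
    obtain ⟨D, hD⟩ := hb.exists_defectGroup p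
    obtain ⟨h1, h2⟩ := hle'.inf_trunc hmax'.1.1 (Subgroup.centralizer_le_normalizer (Q : Set G))
    obtain ⟨D', hD', hle2⟩ := hD.exists_ge hb.mem inf_le_right h1 h2
    refine ⟨D'.subgroupOf _, (isDefectGroup_subgroupOf_iff hD'.1 hf).mpr hD',
      fun t ht => hle2 ht⟩
  · have hCK : (⊤ : Subgroup G) ⊓ Subgroup.centralizer (Q : Set G) ≤ pairStab ⊤ Q (subEl M _ f) :=
      hp.inf_centralizer_le_pairStab
    obtain ⟨x, -, hx1, hx2⟩ := hpof.exists_good_conj hE hmax'
      (K := Subgroup.centralizer (Q : Set G)) (by rwa [top_inf_eq] at hCK) inf_le_right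
      (isBlockIdem_subEl hf)
    refine ⟨x, (subpairLE_iff (isPBlock_conjBlock x hf) hmax.1.1.2).mpr ?_, ?_⟩
    · rwa [subEl_conjBlock]
    · rw [map_conj_centralizer, ← subEl_conjBlock] at hx2
      exact (isDefectGroup_subgroupOf_iff inf_le_right (isPBlock_conjBlock x hf)).mpr hx2

end Cfsg.Agent.S4661
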