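import Cfsg.Statements.S4662
import Cfsg.Agent.Blocks.Defect.LocalBlocks

set_option autoImplicit false
open Cfsg CfsgLib.Blocks

namespace Cfsg.Agent.S4662

/-- Fix a prime p and a maximal ideal M of the algebraic integers containing p. Let (P, e) be a maximal Brauer pair of the p-block B of the finite group G, Q ≤ P, and f the p-block of C_G(Q) with (Q, f) ≤ (P, e). Let T be the stabilizer of f in N_G(Q). Then the idempotent of f is a block idempotent of T, and N_P(Q) is contained in a defect group of that block of T; moreover for some x in G the conjugate pair (x Q x⁻¹, conjugate of f) again lies below (P, e) and, with T' the stabilizer of the conjugate of f in N_G(x Q x⁻¹), N_P(x Q x⁻¹) is a defect group of the block of T' whose idempotent is that of the conjugate of f. -/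
theorem result {G : Type*} [Group G] [Fintype G] (p : ℕ) [Fact p.Prime] (M : Ideal Cfsg.AlgInt) (hM : Cfsg.IsPModular p M) (B : Set (Cfsg.IrrCharacter G)) (P Q : Subgroup G) (e : Set (Cfsg.IrrCharacter (Subgroup.centralizer (P : Set G)))) (f : Set (Cfsg.IrrCharacter (Subgroup.centralizer (Q : Set G)))) (hmax : Cfsg.IsMaximalBrauerPair p M B P e) (hQP : Q ≤ P) (hf : Cfsg.IsPBlock M f) (hle : Cfsg.SubpairLE p M Q f P e) (T : Subgroup G) (hT : ∀ y : G, y ∈ T ↔ y ∈ Subgroup.normalizer (Q : Set G) ∧ Cfsg.StabilizesBlock (Subgroup.centralizer (Q : Set G)) f y) : (∃ F : Set (Cfsg.IrrCharacter T), Cfsg.IsPBlock M F ∧ (∀ t : T, Cfsg.blockCoeff F t = Cfsg.subgroupBlockCoeff (Subgroup.centralizer (Q : Set G)) f (t : G)) ∧ ∃ D : Subgroup T, Cfsg.IsDefectGroup p M F D ∧ (P ⊓ Subgroup.normalizer (Q : Set G)).subgroupOf T ≤ D) ∧ ∃ x : G, Cfsg.SubpairLE p M (Q.map (MulAut.conj x).toMonoidHom) (Cfsg.conjBlock Q x f) P e ∧ ∀ (T' : Subgroup G), (∀ y : G, y ∈ T' ↔ y ∈ Subgroup.normalizer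 ((Q.map (MulAut.conj x).toMonoidHom) : Set G) ∧ Cfsg.StabilizesBlock (Subgroup.centralizer ((Q.map (MulAut.conj x).toMonoidHom) : Set G)) (Cfsg.conjBlock Q x f) y) → ∃ F' : Set (Cfsg.IrrCharacter T'), Cfsg.IsPBlock M F' ∧ (∀ t : T', Cfsg.blockCoeff F' t = Cfsg.subgroupBlockCoeff (Subgroup.centralizer ((Q.map (MulAut.conj x).toMonoidHom) : Set G)) (Cfsg.conjBlock Q x f) (t : G)) ∧ Cfsg.IsDefectGroup p M F' ((P ⊓ Subgroup.normalizer ((Q.map (MulAut.conj x).toMonoidHom) : Set G)).subgroupOf T') := by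
  haveI : M.IsMaximal := hM.2.1
  haveI : CharP (kres M) p := charP_kres hM
  have hB := hmax.1.2.1
  have hmax' := IsMaximalBrauerPair.toIdem hmax
  have hE := isBlockIdem_topEl (M := M) hB
  have hle' := (subpairLE_iff hf hmax.1.1.2).mp hle
  have hp := hle'.isPair_left hmax'.1.1
  have hpair : IsBrauerPair p M Q f := ⟨hp.1, hf⟩
  have hpof := (hle'.pairOf_iff hE hmax'.1.1).mpr hmax'.1
  have hTs := eq_pairStab (M := M) hf hT
  refine ⟨?_, ?_⟩
  · obtain ⟨F, hF, hFc, hFe⟩ := exists_stab_block hpair hTs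
    refine ⟨F, hF, hFc, ?_⟩
    have hb := isBlockIdem_subEl (M := M) hF
    obtain ⟨D, hD⟩ := hb.exists_defectGroup p
    obtain ⟨h2, h3⟩ := hle'.trunc_ne_zero hmax'.1.1 (le_refl (P ⊓ Subgroup.normalizer (Q : Set G)))
    rw [← hFe] at h2
    obtain ⟨D', hD', hle2⟩ := hD.exists_ge hb.mem (by rw [hTs]; exact h3)
      (hmax'.1.1.1.to_le inf_le_left) h2
    refine ⟨D'.subgroupOf _, (isDefectGroup_subgroupOf_iff hD'.1 hF).mpr hD', fun t ht => hle2 ht⟩
  · obtain ⟨x, -, hx1, hx2⟩ := hpof.exists_good_conj hE hmax'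
      (K := pairStab ⊤ Q (subEl M _ f)) le_rfl hp.inf_centralizer_le_pairStab
      hp.isBlockIdem_pairStab
    have hcb := isPBlock_conjBlock (M := M) x hf
    refine ⟨x, (subpairLE_iff hcb hmax.1.1.2).mpr ?_, fun T' hT' => ?_⟩
    · rwa [subEl_conjBlock]
    rw [← subEl_conjBlock] at hx1
    have hT's := eq_pairStab (M := M) hcb hT'
    obtain ⟨F', hF', hFc', hFe'⟩ := exists_stab_block ⟨hp.1.map _, hcb⟩ hT's
    refine ⟨F', hF', hFc', ?_⟩
    rw [pairStab_map_conj _ (H := ⊤) (x := x) (Subgroup.mem_top x), ← subEl_conjBlock, ← hT's, ← hFe'] at hx2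
    obtain ⟨-, h3⟩ := hx1.trunc_ne_zero hmax'.1.1
      (le_refl (P ⊓ Subgroup.normalizer ((Q.map (MulAut.conj x).toMonoidHom : Subgroup G) : Set G)))
    have heq : P ⊓ Subgroup.normalizer ((Q.map (MulAut.conj x).toMonoidHom : Subgroup G) : Set G) =
        P ⊓ T' := by
      refine le_antisymm (le_inf inf_le_left ?_) (inf_le_inf_left P ?_)
      · rw [hT's]; exact h3
      · rw [hT's]; exact pairStab_le_normalizer _ _ _
    rw [heq]
    exact (isDefectGroup_subgroupOf_iff inf_le_right hF').mpr hx2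

end Cfsg.Agent.S4662
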