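import Cfsg.Statements.S4664
import Cfsg.Agent.Eq.Def_Blocks
import Cfsg.Agent.Blocks.Orth.Blocks
import Cfsg.Agent.Chars.Basic

set_option autoImplicit false
open Cfsg

namespace Cfsg.Agent.S4664

/-- Fix a prime p and a maximal ideal M of the algebraic integers containing p, and let B be a p-block of the finite group G. Let m be the p'-part of the order of G and η = exp(2πi/m). Then every coefficient of the idempotent of B lies in the cyclotomic field ℚ(η). -/
theorem result {G : Type*} [Group G] [Fintype G] (p : ℕ) [Fact p.Prime] (M : Ideal Cfsg.AlgInt) (hM : Cfsg.IsPModular p M) (B : Set (Cfsg.IrrCharacter G)) (hB : Cfsg.IsPBlock M B) (g : G) : Cfsg.blockCoeff B g ∈ IntermediateField.adjoin ℚ ({Complex.exp (2 * Real.pi * Complex.I / ((Nat.card G / p ^ (Nat.card G).factorization p : ℕ) : ℂ))} : Set ℂ) := by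
  classical
  by_cases hg : p ∣ orderOf g
  · rw [CfsgLib.Blocks.blockCoeff_eq_zero_of_singular hM hB hg]
    exact zero_mem _
  set m := Nat.card G / p ^ (Nat.card G).factorization p with hm
  set η := Complex.exp (2 * Real.pi * Complex.I / (m : ℂ)) with hη
  set K := IntermediateField.adjoin ℚ ({η} : Set ℂ) with hK
  have hηK : η ∈ K := IntermediateField.subset_adjoin ℚ _ rfl
  have hdvd := Nat.ordProj_dvd (Nat.card G) p
  have hm0 : m ≠ 0 :=
    (Nat.div_pos (Nat.le_of_dvd Nat.card_pos hdvd) (pow_pos hM.1.pos _)).ne'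
  have : NeZero m := ⟨hm0⟩
  have hprim : IsPrimitiveRoot η m := Complex.isPrimitiveRoot_exp m hm0
  have hord : orderOf g ∣ m := by
    refine (Nat.Coprime.pow_right ((Nat.card G).factorization p)
      ((hM.1.coprime_iff_not_dvd.2 hg).symm)).dvd_of_dvd_mul_left ?_
    rw [hm, Nat.mul_div_cancel' hdvd]
    exact orderOf_dvd_natCard g
  have hval : ∀ χ : IrrCharacter G, starRingEnd ℂ ((χ : G → ℂ) g) ∈ K := by
    intro χ
    obtain ⟨s, h1, -, h3⟩ := CfsgLib.Chars.exists_roots (CfsgLib.Chars.isCharacter_coe χ) g⁻¹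
    rw [← CfsgLib.Chars.map_inv_eq_conj (CfsgLib.Chars.isCharacter_coe χ)]
    have h31 := h3 1
    simp only [pow_one] at h31
    rw [h31]
    refine multiset_sum_mem _ fun z hz => ?_
    obtain ⟨w, hw, rfl⟩ := Multiset.mem_map.1 hz
    have hwm : w ^ m = 1 := by
      obtain ⟨t, ht⟩ := hord
      rw [ht, pow_mul, ← orderOf_inv g, h1 w hw, one_pow]
    obtain ⟨i, -, rfl⟩ := hprim.eq_pow_of_pow_eq_one hwm
    exact pow_mem hηK i
  rw [Cfsg.blockCoeff, CfsgLib.Blocks.finsum_block_eq_sum]
  refine mul_mem (inv_mem (natCast_mem K _)) (sum_mem fun χ _ => mul_mem ?_ (hval χ))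
  obtain ⟨n, hn⟩ := CfsgLib.Chars.exists_natCast_map_one (CfsgLib.Chars.isCharacter_coe χ)
  rw [hn]
  exact natCast_mem K _

end Cfsg.Agent.S4664
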