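import Cfsg.Statements.S4666
import Mathlib
import Cfsg.Agent.Eq.Def_BlockRank
import Cfsg.Agent.Chars.Brauer.Defect
import Cfsg.Agent.Blocks.Orth.Blocks

set_option autoImplicit false
open Cfsg

namespace Cfsg.Agent.S4666

open CfsgLib.Chars CfsgLib.Chars.Brauer CfsgLib.Chars.Exceptional

/-- Fix a prime p and a maximal ideal M of the algebraic integers containing p, and a p-block B of the finite group G of defect d. For every integer combination χ of the irreducible characters in B, p^d times the function that agrees with χ on p-regular elements and vanishes elsewhere is again an integer combination of the irreducible characters in B. -/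
theorem result {G : Type*} [Group G] [Fintype G] (p : ℕ) [Fact p.Prime] (M : Ideal Cfsg.AlgInt) (hM : Cfsg.IsPModular p M) (B : Set (Cfsg.IrrCharacter G)) (hB : Cfsg.IsPBlock M B) (χ : G → ℂ) (hχ : (∃ n : Cfsg.IrrCharacter G → ℤ, ∀ g : G, χ g = ∑ᶠ ψ ∈ B, (n ψ : ℂ) * (ψ : G → ℂ) g)) : (∃ n : Cfsg.IrrCharacter G → ℤ, ∀ g : G, (p ^ Cfsg.blockDefect p B : ℂ) * Cfsg.pRegularPart p χ g = ∑ᶠ ψ ∈ B, (n ψ : ℂ) * (ψ : G → ℂ) g) := by
  classical
  haveI := hM.2.1
  have hp : p.Prime := Fact.out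
  obtain ⟨n, hn⟩ := hχ
  set a := (Nat.card G).factorization p with ha
  set d := Cfsg.blockDefect p B with hd
  have hG : Nat.card G = p ^ a * (Nat.card G / p ^ a) :=
    (Nat.ordProj_mul_ordCompl_eq_self _ _).symm
  have hm : ¬ p ∣ Nat.card G / p ^ a := Nat.not_dvd_ordCompl hp Nat.card_pos.ne'
  let f : G → ℂ := fun g => (p ^ d : ℂ) * Cfsg.pRegularPart p χ g
  have hmem : ∀ ψ ∈ B, IsGeneralizedCharacter G
      (fun g => (p ^ d : ℂ) * Cfsg.pRegularPart p (ψ : G → ℂ) g) := by
    intro ψ hψ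
    set e := (Cfsg.charDegree (ψ : G → ℂ)).factorization p with he
    have hle : a - e ≤ d := by
      rw [hd, Cfsg.blockDefect, ← ha]
      have hinf := Nat.sInf_le (s := (fun χ : Cfsg.IrrCharacter G =>
        (Cfsg.charDegree (χ : G → ℂ)).factorization p) '' B) ⟨ψ, hψ, rfl⟩
      simp only at hinf
      rw [← he] at hinf
      omega
    have h := regularPart_gen hp ψ hG hm (e := e) (Nat.ordProj_dvd _ _)
    have h2 := gen_zsmul (((p ^ (d - (a - e)) : ℕ) : ℤ)) h
    convert h2 using 1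
    funext g
    rw [Pi.smul_apply, zsmul_eq_mul, ← mul_assoc]
    push_cast
    rw [← pow_add, Nat.sub_add_cancel hle]
  let T : Finset (Cfsg.IrrCharacter G) := Finset.univ.filter (· ∈ B)
  have hT : ∀ F : Cfsg.IrrCharacter G → ℂ, ∑ᶠ ψ ∈ B, F ψ = ∑ ψ ∈ T, F ψ := fun F =>
    finsum_mem_eq_finite_toFinset_sum _ (Set.toFinite B) |>.trans
      (Finset.sum_congr (by ext x; simp [T]) fun _ _ => rfl)
  have hf : f = ∑ ψ ∈ T, (n ψ) • fun g => (p ^ d : ℂ) * Cfsg.pRegularPart p (ψ : G → ℂ) g := by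
    funext g
    simp only [Finset.sum_apply, Pi.smul_apply]
    simp only [zsmul_eq_mul, f, Cfsg.pRegularPart]
    by_cases hr : IsPRegular p g
    · simp only [if_pos hr, hn, hT, Finset.mul_sum]
      exact Finset.sum_congr rfl fun x _ => by ring
    · simp [if_neg hr]
  have hgen : IsGeneralizedCharacter G f := by
    rw [hf]
    exact gen_sum _ _ fun ψ hψ => gen_zsmul _ (hmem ψ (Finset.mem_filter.mp hψ).2)
  have hblock : ∀ c : Cfsg.IrrCharacter G → ℂ, Cfsg.blockPart B (fun g => ∑ᶠ ψ ∈ B, c ψ * (ψ : G → ℂ) g) =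
      fun g => ∑ᶠ ψ ∈ B, c ψ * (ψ : G → ℂ) g := by
    intro c
    funext g
    simp only [Cfsg.blockPart, hT]
    refine Finset.sum_congr rfl fun φ hφ => ?_
    congr 1
    have e : (fun g => ∑ ψ ∈ T, c ψ * (ψ : G → ℂ) g)
        = ∑ ψ : Cfsg.IrrCharacter G, (if ψ ∈ T then c ψ else 0) • (ψ : G → ℂ) := by
      funext g
      rw [Finset.sum_apply, ← Finset.sum_subset (Finset.subset_univ T) (fun x _ hx => by simp [hx])]
      exact Finset.sum_congr rfl fun x hx => by simp [hx]
    convert classInner_sum_smul (fun ψ => if ψ ∈ T then c ψ else 0) φ using 1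
    · rw [← e]; congr 1; exact Subsingleton.elim _ _
    · rw [if_pos hφ]
  have hχ' : χ = fun g => ∑ᶠ ψ ∈ B, (n ψ : ℂ) * (ψ : G → ℂ) g := funext hn
  have hind : Cfsg.pRegularPart p χ = Set.indicator {g | IsPRegular p g} χ := by
    funext g
    simp only [Cfsg.pRegularPart, Set.indicator_apply, Set.mem_setOf_eq]
  have hBf : Cfsg.blockPart B (Cfsg.pRegularPart p χ) = Cfsg.pRegularPart p χ := by
    rw [hind, CfsgLib.Blocks.blockPart_indicator hM hB {g | IsPRegular p g} (fun x hx y hy i hi h =>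
      CfsgLib.Blocks.not_isConj_pow_of_dvd_of_not_dvd hp (x := x) (y := y) (not_not.mp hy) hx i hi h.symm), hχ', hblock]
  choose z hz using fun ψ : Cfsg.IrrCharacter G => gen_inner_int hgen (gen_of_char (isCharacter_coe ψ))
  refine ⟨z, fun g => ?_⟩
  rw [← congrFun hBf g]
  simp only [Cfsg.blockPart, hT, Finset.mul_sum]
  refine Finset.sum_congr rfl fun ψ _ => ?_
  rw [← hz ψ, ← mul_assoc]
  congr 1
  convert (CfsgLib.Chars.Exceptional.inner_smul_left ((p : ℂ) ^ d) (Cfsg.pRegularPart p χ)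
    (ψ : G → ℂ)).symm using 3
  all_goals first | rfl | exact Subsingleton.elim _ _

end Cfsg.Agent.S4666
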