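import Cfsg.Statements.S4668
import Cfsg.Agent.Blocks.Defect.NormalizedSupport

set_option autoImplicit false
open Cfsg CfsgLib.Blocks

namespace Cfsg.Agent.S4668

/-- Fix a prime p and a maximal ideal M of the algebraic integers containing p. Let Q₀ < Q₁ < ⋯ < Q_m be a strictly increasing chain of p-subgroups of the finite group G and N the intersection of their normalizers. Then every block idempotent of N is supported on C_G(Q_m): for every p-block E of N, the idempotent coefficient of E vanishes at every element of N outside C_G(Q_m). -/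
theorem result {G : Type*} [Group G] [Fintype G] (p : ℕ) [Fact p.Prime] (M : Ideal Cfsg.AlgInt) (hM : Cfsg.IsPModular p M) (m : ℕ) (Q : Fin (m + 1) → Subgroup G) (hQ : StrictMono Q) (hQp : ∀ i, IsPGroup p (Q i)) (N : Subgroup G) (hN : ∀ g : G, g ∈ N ↔ ∀ i, g ∈ Subgroup.normalizer (Q i : Set G)) (E : Set (Cfsg.IrrCharacter N)) (hE : Cfsg.IsPBlock M E) (n : N) (hn : (n : G) ∉ Subgroup.centralizer (Q (Fin.last m) : Set G)) : Cfsg.blockCoeff E n = 0 := by
  haveI : M.IsMaximal := hM.2.1
  haveI : CharP (kres M) p := charP_kres hM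
  have hQN : ∀ g ∈ N, ∀ i, g ∈ Subgroup.normalizer (Q i : Set G) := fun g hg => (hN g).mp hg
  have hE' := isBlockIdem_subEl hE (M := M)
  have hsupp := isSupportedOn_chain hQ.monotone hQp hN hE'.mem hE'.idem (Fin.last m)
  set C := N ⊓ Subgroup.centralizer (Q (Fin.last m) : Set G) with hC
  have hNC : N ≤ Subgroup.normalizer (C : Set G) := by
    refine le_trans ?_ (inf_normalizer_le_normalizer_inf_centralizer N (Q (Fin.last m)))
    exact fun g hg => ⟨hg, hQN g hg _⟩
  have h := subgroupBlockCoeff_eq_zero_of_supported inf_le_left hNC hE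
    (hE'.mem.1.inf hsupp) (g := (n : G)) (fun h => hn h.2)
  rwa [show subgroupBlockCoeff N E n = blockCoeff E n by simp [subgroupBlockCoeff]] at h

end Cfsg.Agent.S4668
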