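import Cfsg.Statements.S4670
import Cfsg.Agent.Blocks.Defect.Translate

set_option autoImplicit false
open Cfsg CfsgLib.Blocks

namespace Cfsg.Agent.S4670

open scoped MonoidAlgebra in
/-- Congruence on the centralizer is equality of the truncations. -/
theorem congr_iff_trunc {G : Type*} [Group G] [Finite G] {M : Ideal AlgInt} [M.IsMaximal]
    {P H : Subgroup G} {B : Set (IrrCharacter G)} (hB : IsPBlock M B)
    {c : Set (IrrCharacter H)} (hc : IsPBlock M c) :
    (∀ x : G, x ∈ Subgroup.centralizer (P : Set G) →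
      MemLocalIdeal M (blockCoeff B x - subgroupBlockCoeff H c x)) ↔
      brTrunc P (topEl M B) = brTrunc P (subEl M H c) := by
  haveI := Fintype.ofFinite G
  have key : ∀ x : G, MemLocalIdeal M (blockCoeff B x - subgroupBlockCoeff H c x) ↔
      (topEl M B).coeff x = (subEl M H c).coeff x := fun x => by
    rw [coeff_topEl, coeff_subEl, redC_eq_redC_iff (memLocalRing_blockCoeff hB x)
      (memLocalRing_subgroupBlockCoeff hc x)]
  constructor
  · intro h
    refine MonoidAlgebra.ext (Finsupp.ext fun x => ?_)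
    by_cases hx : x ∈ Subgroup.centralizer (P : Set G)
    · rw [coeff_brTrunc_of_mem _ hx, coeff_brTrunc_of_mem _ hx, (key x).mp (h x hx)]
    · rw [coeff_brTrunc_of_not_mem _ hx, coeff_brTrunc_of_not_mem _ hx]
  · intro h x hx
    rw [key x, ← coeff_brTrunc_of_mem (topEl M B) hx, h, coeff_brTrunc_of_mem _ hx]

/-- Fix a prime p and a maximal ideal M of the algebraic integers containing p. Let P be a p-subgroup of the finite group G and H a subgroup containing N_G(P). For every p-block B of G with defect group P there is exactly one p-block c of H with defect group P whose idempotent agrees with that of B, modulo the local ideal at M, at every element of C_G(P) (their Brauer-map images at P coincide); and every p-block c of H with defect group P arises in this way from exactly one such B. This is the Brauer correspondence over H. -/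
theorem result {G : Type*} [Group G] [Fintype G] (p : ℕ) [Fact p.Prime] (M : Ideal Cfsg.AlgInt) (hM : Cfsg.IsPModular p M) (P H : Subgroup G) (hP : IsPGroup p P) (hH : Subgroup.normalizer (P : Set G) ≤ H) : (∀ B : Set (Cfsg.IrrCharacter G), Cfsg.IsPBlock M B → Cfsg.IsDefectGroup p M B P → ∃! c : Set (Cfsg.IrrCharacter H), Cfsg.IsPBlock M c ∧ Cfsg.IsDefectGroup p M c (P.subgroupOf H) ∧ ∀ x : G, x ∈ Subgroup.centralizer (P : Set G) → Cfsg.MemLocalIdeal M (Cfsg.blockCoeff B x - Cfsg.subgroupBlockCoeff H c x)) ∧ (∀ c : Set (Cfsg.IrrCharacter H), Cfsg.IsPBlock M c → Cfsg.IsDefectGroup p M c (P.subgroupOf H) → ∃! B : Set (Cfsg.IrrCharacter G), Cfsg.IsPBlock M B ∧ Cfsg.IsDefectGroup p M B P ∧ ∀ x : G, x ∈ Subgroup.centralizer (P : Set G) → Cfsg.MemLocalIdeal M (Cfsg.blockCoeff B x - Cfsg.subgroupBlockCoeff H c x)) := by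
  haveI : M.IsMaximal := hM.2.1
  haveI : CharP (kres M) p := charP_kres hM
  have hPH : P ≤ H := Subgroup.le_normalizer.trans hH
  have hmap : (P.subgroupOf H).map H.subtype = P := Subgroup.map_subgroupOf_eq_of_le hPH
  have hK : H ⊓ Subgroup.normalizer (P : Set G) = ⊤ ⊓ Subgroup.normalizer (P : Set G) := by
    rw [top_inf_eq, inf_eq_right.mpr hH]
  have defH : ∀ c : Set (IrrCharacter H), IsPBlock M c →
      (IsDefectGroup p M c (P.subgroupOf H) ↔ IsDefectGroupIdem p H (subEl M H c) P) :=
    fun c hc => by rw [isDefectGroup_subEl_iff hc, hmap]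
  have over_of_eq : ∀ {a b : MonoidAlgebra (kres M) G}, b * b = b → brTrunc P a = b →
      BrOver P b a := fun hb h => by
    show brTrunc P _ * _ = _
    rw [h, hb]
  constructor
  · intro B hB hD
    have hE := isBlockIdem_topEl hB (M := M)
    have hDE := (isDefectGroup_topEl_iff hB P).mp hD
    have hb := hDE.trunc_isBlockIdem hE
    have hbD := hDE.defect_over hE hb (over_of_eq hb.idem rfl)
    rw [← hK] at hb hbD
    obtain ⟨e, ⟨he, heo⟩, heu⟩ := (brSetting_normalizer hP hPH).existsUnique_over hb
    have heD := IsDefectGroupIdem.of_over hb hbD he heo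
    have heb : brTrunc P e = brTrunc P (topEl M B) :=
      IsDefectGroupIdem.over_unique hb hbD (heD.trunc_isBlockIdem he) he heo
        (over_of_eq (heD.trunc_isBlockIdem he).idem rfl)
    obtain ⟨c, hc, rfl⟩ := exists_subEl_eq he
    refine ⟨c, ⟨hc, (defH c hc).mpr heD, (congr_iff_trunc hB hc).mpr heb.symm⟩, ?_⟩
    rintro c' ⟨hc', -, hcon⟩
    refine subEl_injective hc' hc (heu _ ⟨isBlockIdem_subEl hc', ?_⟩)
    exact over_of_eq hb.idem ((congr_iff_trunc hB hc').mp hcon).symm
  · intro c hc hD
    have hE := isBlockIdem_subEl hc (M := M)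
    have hDE := (defH c hc).mp hD
    have hb := hDE.trunc_isBlockIdem hE
    have hbD := hDE.defect_over hE hb (over_of_eq hb.idem rfl)
    rw [hK] at hb hbD
    obtain ⟨e, ⟨he, heo⟩, heu⟩ := (brSetting_normalizer hP le_top).existsUnique_over hb
    have heD := IsDefectGroupIdem.of_over hb hbD he heo
    have heb : brTrunc P e = brTrunc P (subEl M H c) :=
      IsDefectGroupIdem.over_unique hb hbD (heD.trunc_isBlockIdem he) he heo
        (over_of_eq (heD.trunc_isBlockIdem he).idem rfl)
    obtain ⟨B, hB, rfl⟩ := exists_topEl_eq he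
    refine ⟨B, ⟨hB, (isDefectGroup_topEl_iff hB P).mpr heD, (congr_iff_trunc hB hc).mpr heb⟩, ?_⟩
    rintro B' ⟨hB', -, hcon⟩
    refine topEl_injective hB' hB (heu _ ⟨isBlockIdem_topEl hB', ?_⟩)
    exact over_of_eq hb.idem ((congr_iff_trunc hB' hc).mp hcon)

end Cfsg.Agent.S4670
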