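import Cfsg.Statements.S4671
import Cfsg.Agent.Blocks.Defect.OrbitBlock
import Cfsg.Agent.Eq.Def_Blocks
import Cfsg.Agent.Eq.Def_BlockLocal

set_option autoImplicit false
open Cfsg

namespace Cfsg.Agent.S4671

/-- Fix a prime p and a maximal ideal M of the algebraic integers containing p. Let N be a normal subgroup of the finite group G, B a p-block of G and P a defect group of B. Then there is a p-block c of N, stable under conjugation by P and covered by B (some member of B has a constituent in c on restriction to N), such that P ∩ N is a defect group of c. -/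
theorem result {G : Type*} [Group G] [Fintype G] (p : ℕ) [Fact p.Prime] (M : Ideal Cfsg.AlgInt) (hM : Cfsg.IsPModular p M) (N : Subgroup G) [N.Normal] [Fintype N] (B : Set (Cfsg.IrrCharacter G)) (hB : Cfsg.IsPBlock M B) (P : Subgroup G) (hP : Cfsg.IsDefectGroup p M B P) : ∃ c : Set (Cfsg.IrrCharacter N), Cfsg.IsPBlock M c ∧ (∀ x ∈ P, Cfsg.StabilizesBlock N c x) ∧ (∃ χ ∈ B, ∃ θ ∈ c, Cfsg.classInner (fun n : N => (χ : G → ℂ) n) (θ : N → ℂ) ≠ 0) ∧ Cfsg.IsDefectGroup p M c ((P ⊓ N).subgroupOf N) := by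
  haveI := hM.2.1
  haveI := CfsgLib.Blocks.charP_kres hM
  classical
  have hNn : (⊤ : Subgroup G) ≤ Subgroup.normalizer (N : Set G) :=
    (Subgroup.normalizer_eq_top_iff.mpr inferInstance).ge
  have he := CfsgLib.Blocks.isBlockIdem_topEl hB (M := M)
  have heP := (CfsgLib.Blocks.isDefectGroup_topEl_iff hB P).mp hP
  obtain ⟨f, hf, hef⟩ := CfsgLib.Blocks.exists_block_mul_ne_zero (H := N) he.ne_zero
  have hef' : CfsgLib.Blocks.topEl M B * f ≠ 0 := by
    rwa [← (CfsgLib.Blocks.commute_of_isFixedBy hf.1.1 (he.1.2.mono le_top)).eq]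
  obtain ⟨f', hf'mem, hfix, hne, hef''⟩ :=
    CfsgLib.Blocks.exists_fixed_member_of_covers he hf heP.2.1 heP.2.2.1 hef'
  have hf'b := CfsgLib.Blocks.isBlockIdem_of_mem_conjOrbit hNn hf hf'mem
  obtain ⟨c, hc, hcf⟩ := CfsgLib.Blocks.exists_subEl_eq hf'b
  refine ⟨c, hc, ?_, ?_, ?_⟩
  · rw [CfsgLib.Blocks.forall_stabilizesBlock_iff hc (le_top.trans hNn), hcf]
    exact hfix
  · exact CfsgLib.Blocks.covers_of_mul_ne_zero hB hc (hcf.symm ▸ hef'')
  · rw [CfsgLib.Blocks.isDefectGroup_subEl_iff hc, hcf,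
      Subgroup.map_subgroupOf_eq_of_le inf_le_right]
    obtain ⟨Q, hQ⟩ := hf'b.exists_defectGroup p
    obtain ⟨P', hP', hP'N⟩ := CfsgLib.Blocks.exists_defectGroup_inf_eq he hf'b hQ hef''
    obtain ⟨x, -, hx⟩ := heP.exists_conj_eq hP'
    refine hQ.of_card_le hf'b.1 inf_le_right (heP.2.1.to_le inf_le_left) ?_ (le_of_eq ?_)
    · intro h0
      apply hne
      rw [← CfsgLib.Blocks.brTrunc_brTrunc (inf_le_left : P ⊓ N ≤ P), h0, map_zero]
    · rw [← hP'N, ← hx, ← CfsgLib.Blocks.card_map_conj (P ⊓ N) x, Subgroup.map_inf _ _ _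
        (MulAut.conj x).injective, CfsgLib.Blocks.map_conj_eq_self_of_mem_normalizer
          (hNn (Subgroup.mem_top x))]

end Cfsg.Agent.S4671
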