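import Cfsg.Statements.S4673
import Cfsg.Agent.Blocks.Defect.OrbitBlock
import Cfsg.Agent.Eq.Def_Blocks
import Cfsg.Agent.Eq.Def_BlockLocal

set_option autoImplicit false
open Cfsg

namespace Cfsg.Agent.S4673

/-- Fix a prime p and a maximal ideal M of the algebraic integers containing p. Let N ≤ L be normal subgroups of the finite group G with L/N a p-group, let B be a p-block of G covering the p-block c of N (some member of B has a constituent in c on restriction to N), and suppose that N contains a defect group of B. Then the stabilizer T of c in G satisfies T ∩ L = N. -/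
theorem result {G : Type*} [Group G] [Fintype G] (p : ℕ) [Fact p.Prime] (M : Ideal Cfsg.AlgInt) (hM : Cfsg.IsPModular p M) (N L : Subgroup G) [N.Normal] [L.Normal] [Fintype N] (hNL : N ≤ L) (hLN : ∃ k : ℕ, (N.subgroupOf L).index = p ^ k) (B : Set (Cfsg.IrrCharacter G)) (hB : Cfsg.IsPBlock M B) (c : Set (Cfsg.IrrCharacter N)) (hc : Cfsg.IsPBlock M c) (hcov : (∃ χ ∈ B, ∃ θ ∈ c, Cfsg.classInner (fun n : N => (χ : G → ℂ) n) (θ : N → ℂ) ≠ 0)) (hD : ∃ D : Subgroup G, Cfsg.IsDefectGroup p M B D ∧ D ≤ N) (T : Subgroup G) (hT : ∀ x : G, x ∈ T ↔ Cfsg.StabilizesBlock N c x) : T ⊓ L = N := by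
  haveI := hM.2.1
  haveI := CfsgLib.Blocks.charP_kres hM
  classical
  have hNn : (⊤ : Subgroup G) ≤ Subgroup.normalizer (N : Set G) :=
    (Subgroup.normalizer_eq_top_iff.mpr inferInstance).ge
  obtain ⟨χ, hχ, θ, hθ, hcov'⟩ := hcov
  obtain ⟨D, hD, hDN⟩ := hD
  have hef := CfsgLib.Blocks.topEl_mul_subEl_ne_zero hB hc hχ hθ hcov'
  set e := CfsgLib.Blocks.topEl M B with he'
  set f := CfsgLib.Blocks.subEl M N c with hf'
  have hf : CfsgLib.Blocks.IsBlockIdem N f := CfsgLib.Blocks.isBlockIdem_subEl hc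
  have he : CfsgLib.Blocks.IsBlockIdem ⊤ e := CfsgLib.Blocks.isBlockIdem_topEl hB
  have heD := (CfsgLib.Blocks.isDefectGroup_topEl_iff hB D).mp hD
  have hT' : ∀ x, x ∈ T ↔ CfsgLib.Blocks.conjA x f = f := fun x => by
    rw [hT, CfsgLib.Blocks.stabilizesBlock_iff hc x]
    exact ⟨fun h => h.2, fun h => ⟨hNn (Subgroup.mem_top x), h⟩⟩
  have hNT : N ≤ T := fun x hx => (hT' x).mpr (CfsgLib.Blocks.isFixedBy_iff_conjA.mp hf.1.2 x hx)
  refine le_antisymm ?_ (le_inf hNT hNL)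
  by_contra hnot
  obtain ⟨x, hx, hxN⟩ := SetLike.not_le_iff_exists.mp hnot
  obtain ⟨j, hj⟩ := hLN
  haveI hNLn : (N.subgroupOf L).Normal := (inferInstance : N.Normal).subgroupOf L
  -- p-th parts of elements of L outside N stay outside N
  have key : ∀ z : G, z ∈ L → z ∉ N → ∃ i : ℕ,
      IsPGroup p (Subgroup.zpowers (z ^ i)) ∧ z ^ i ∉ N := by
    intro z hzL hzN
    obtain ⟨a, m, hm, ham⟩ := Nat.exists_eq_pow_mul_and_not_dvd (orderOf_pos z).ne' p
      (Fact.out : p.Prime).ne_one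
    have hm0 : m ≠ 0 := fun h => hm (h.symm ▸ dvd_zero p)
    refine ⟨m, IsPGroup.of_card (n := a) ?_, fun hzm => hzN ?_⟩
    · rw [Nat.card_zpowers, orderOf_pow' z hm0, ham, Nat.gcd_eq_right (dvd_mul_left m _),
        Nat.mul_div_cancel _ (Nat.pos_of_ne_zero hm0)]
    · have h1 : orderOf (QuotientGroup.mk (⟨z, hzL⟩ : L) : L ⧸ N.subgroupOf L) ∣ p ^ j :=
        hj ▸ orderOf_dvd_natCard _
      have h2 : orderOf (QuotientGroup.mk (⟨z, hzL⟩ : L) : L ⧸ N.subgroupOf L) ∣ m :=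
        orderOf_dvd_of_pow_eq_one (by
          rw [← QuotientGroup.mk_pow, QuotientGroup.eq_one_iff]
          exact hzm)
      exact (QuotientGroup.eq_one_iff (N := N.subgroupOf L) ⟨z, hzL⟩).mp (orderOf_eq_one_iff.mp
        (Nat.Coprime.eq_one_of_dvd
          ((((Fact.out : p.Prime).coprime_iff_not_dvd.mpr hm).pow_left j).coprime_dvd_left h1) h2))
  obtain ⟨i, hip, hiN⟩ := key x hx.2 hxN
  have hiT : Subgroup.zpowers (x ^ i) ≤ T := Subgroup.zpowers_le.mpr (T.pow_mem hx.1 i)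
  have hfT : CfsgLib.Blocks.IsFixedBy f T :=
    CfsgLib.Blocks.isFixedBy_iff_conjA.mpr fun y hy => (hT' y).mp hy
  obtain ⟨g, hgN, hg0, -, hgR⟩ := hf.exists_stable_class hip (le_top.trans hNn) (hfT.mono hiT)
  obtain ⟨u, hu, huC⟩ := hgR _ (Subgroup.mem_zpowers _)
  have huL : u * x ^ i ∈ L := L.mul_mem (hNL hu) (L.pow_mem hx.2 i)
  obtain ⟨i', hi'p, hi'N⟩ := key _ huL fun h => hiN (by simpa using N.mul_mem (N.inv_mem hu) h)
  set y := (u * x ^ i) ^ i' with hy
  have hyL : Subgroup.zpowers y ≤ L := Subgroup.zpowers_le.mpr (L.pow_mem huL i')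
  have hyT : Subgroup.zpowers y ≤ T :=
    Subgroup.zpowers_le.mpr (T.pow_mem (T.mul_mem (hNT hu) (T.pow_mem hx.1 i)) i')
  have hLn : L ≤ Subgroup.normalizer (N : Set G) := le_top.trans hNn
  have hE := CfsgLib.Blocks.isBlockIdem_orbitSum hNL hLn hf fun a ha haa =>
    CfsgLib.Blocks.isSupportedOn_of_index_pow hM hNLn ⟨j, hj⟩ ha haa
  set E := CfsgLib.Blocks.orbitSum L f with hE'
  have hEf : E * f = f :=
    CfsgLib.Blocks.orbitSum_mul_of_mem hLn hf (CfsgLib.Blocks.self_mem_conjOrbit L f)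
  have hne : CfsgLib.Blocks.brTrunc (Subgroup.zpowers y) E ≠ 0 := by
    intro h0
    apply CfsgLib.Blocks.brTrunc_ne_zero_of_coeff hg0
      (Subgroup.zpowers_le.mpr (Subgroup.pow_mem _ huC i'))
    rw [← hEf, CfsgLib.Blocks.brTrunc_mul hi'p (hE.1.2.mono hyL) (hfT.mono hyT), h0, zero_mul]
  have heE : e * E ≠ 0 := fun h => hef (by rw [← hEf, ← mul_assoc, h, zero_mul])
  have hye := CfsgLib.Blocks.brTrunc_ne_zero_of_covers hE hi'p hyL hne he.1 he.idem heE
  obtain ⟨n, -, hn⟩ := heD.2.2.2 _ le_top hi'p hye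
  exact hi'N ((Subgroup.mem_normalizer_iff.mp (hNn (Subgroup.mem_top n)) y).mpr
    (hDN (hn ⟨y, Subgroup.mem_zpowers y, rfl⟩)))

end Cfsg.Agent.S4673
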