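import Cfsg.Statements.S4674
import Cfsg.Agent.Blocks.Defect.HarrisKnorr
import Cfsg.Agent.Blocks.Defect.CoverSub
import Cfsg.Agent.Blocks.Defect.InducedIn
import Cfsg.Agent.Blocks.Defect.LocalBlocks
import Cfsg.Agent.Eq.Def_Blocks
import Cfsg.Agent.Eq.Def_BlockLocal

set_option autoImplicit false
open Cfsg

namespace Cfsg.Agent.S4674

open CfsgLib.Blocks

/-- Fix a prime p and a maximal ideal M of the algebraic integers containing p. Let N be a normal subgroup of the finite group G, Q a p-subgroup of N, H = N_G(Q) and L = H ∩ N = N_N(Q). Let d be a p-block of N with defect group Q and e the p-block of L with defect group Q that induces d inside N (its Brauer correspondent). Then block induction from H to G is a bijection from the p-blocks of H covering e onto the p-blocks of G covering d: every block of H covering e induces exactly one block of G, and that block covers d; and every block of G covering d is induced by exactly one block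 of H covering e. -/
theorem result {G : Type*} [Group G] [Fintype G] (p : ℕ) [Fact p.Prime] (M : Ideal Cfsg.AlgInt) (hM : Cfsg.IsPModular p M) (N : Subgroup G) [N.Normal] [Fintype N] (Q : Subgroup G) (hQ : IsPGroup p Q) (hQN : Q ≤ N) [Fintype ↥(Subgroup.normalizer (Q : Set G) ⊓ N)] (d : Set (Cfsg.IrrCharacter N)) (hd : Cfsg.IsPBlock M d) (hdQ : Cfsg.IsDefectGroup p M d (Q.subgroupOf N)) (e : Set (Cfsg.IrrCharacter ↥(Subgroup.normalizer (Q : Set G) ⊓ N))) (he : Cfsg.IsPBlock M e) (heQ : Cfsg.IsDefectGroup p M e (Q.subgroupOf (Subgroup.normalizer (Q : Set G) ⊓ N))) (hed : Cfsg.IsInducedBlockIn M N (Subgroup.normalizer (Q : Set G) ⊓ N) e d) : (∀ c : Set (Cfsg.IrrCharacter ↥(Subgroup.normalizer (Q : Set G))), Cfsg.IsPBlock M c → (∃ ψ ∈ c, ∃ ξ ∈ e, Cfsg.classInner (fun l : ↥(Subgroup.normalizer (Q : Set G) ⊓ N) => (ψ : ↥(Subgroup.normalizer (Q : Set G)) → ℂ) (Subgroup.inclusion inf_le_left l)) (ξ : ↥(Subgroup.normalizer (Q : Set G) ⊓ N) → ℂ)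 ≠ 0) → ∃! B : Set (Cfsg.IrrCharacter G), Cfsg.IsInducedBlock M (Subgroup.normalizer (Q : Set G)) c B ∧ (∃ χ ∈ B, ∃ θ ∈ d, Cfsg.classInner (fun n : N => (χ : G → ℂ) n) (θ : N → ℂ) ≠ 0)) ∧ (∀ B : Set (Cfsg.IrrCharacter G), Cfsg.IsPBlock M B → (∃ χ ∈ B, ∃ θ ∈ d, Cfsg.classInner (fun n : N => (χ : G → ℂ) n) (θ : N → ℂ) ≠ 0) → ∃! c : Set (Cfsg.IrrCharacter ↥(Subgroup.normalizer (Q : Set G))), (Cfsg.IsPBlock M c ∧ ∃ ψ ∈ c, ∃ ξ ∈ e, Cfsg.classInner (fun l : ↥(Subgroup.normalizer (Q : Set G) ⊓ N) => (ψ : ↥(Subgroup.normalizer (Q : Set G)) → ℂ) (Subgroup.inclusion inf_le_left l)) (ξ : ↥(Subgroup.normalizer (Q : Set G) ⊓ N) → ℂ) ≠ 0) ∧ Cfsg.IsInducedBlock M (Subgroup.normalizer (Q : Set G)) c B) := by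
  classical
  have := hM.2.1
  have := charP_kres hM
  have hCH : Subgroup.centralizer (Q : Set G) ≤ (Subgroup.normalizer (Q : Set G)) := Subgroup.centralizer_le_normalizer _
  have hdQ' : IsDefectGroupIdem p N (subEl M N d) Q :=
    (isDefectGroup_subgroupOf_iff hQN hd).mp hdQ
  have hdI : IsBlockIdem N (subEl M N d) := isBlockIdem_subEl hd
  have hnorm : (((Subgroup.normalizer (Q : Set G)) ⊓ N).subgroupOf (Subgroup.normalizer (Q : Set G))).Normal := by
    constructor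
    intro n hn h
    exact ⟨(h * n * h⁻¹).2, (inferInstance : N.Normal).conj_mem (n : G) hn.2 (h : G)⟩
  have heq : subEl M ((Subgroup.normalizer (Q : Set G)) ⊓ N) e = brTrunc Q (subEl M N d) := by
    have ho := (isInducedBlockIn_iff_brOver hM hQ (le_inf Subgroup.le_normalizer hQN) inf_le_right
      (le_inf (inf_le_right.trans hCH) inf_le_left) inf_le_left he hd).mp hed
    have hx : IsBlockIdem (N ⊓ (Subgroup.normalizer (Q : Set G))) (subEl M ((Subgroup.normalizer (Q : Set G)) ⊓ N) e) := by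
      rw [inf_comm N (Subgroup.normalizer (Q : Set G))]
      exact isBlockIdem_subEl he
    refine ((hdQ'.trunc_isBlockIdem hdI).eq_of_mul_ne_zero hx ?_).symm
    have ho' : brTrunc Q (subEl M N d) * subEl M ((Subgroup.normalizer (Q : Set G)) ⊓ N) e = subEl M ((Subgroup.normalizer (Q : Set G)) ⊓ N) e := ho
    rw [ho']
    exact hx.ne_zero
  have hcov : ∀ c : Set (IrrCharacter (Subgroup.normalizer (Q : Set G))), IsPBlock M c →
      ((∃ ψ ∈ c, ∃ ξ ∈ e, classInner (fun l : ↥((Subgroup.normalizer (Q : Set G)) ⊓ N) =>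
        (ψ : (Subgroup.normalizer (Q : Set G)) → ℂ) (Subgroup.inclusion inf_le_left l)) (ξ : ↥((Subgroup.normalizer (Q : Set G)) ⊓ N) → ℂ) ≠ 0) ↔
      subEl M (Subgroup.normalizer (Q : Set G)) c * brTrunc Q (subEl M N d) ≠ 0) := by
    intro c hc
    rw [covers_sub_iff inf_le_left hc he, heq]
  have hcovN : ∀ B : Set (IrrCharacter G), IsPBlock M B →
      ((∃ χ ∈ B, ∃ θ ∈ d, classInner (fun n : N => (χ : G → ℂ) n) (θ : N → ℂ) ≠ 0) ↔
      topEl M B * subEl M N d ≠ 0) := fun B hB =>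
    ⟨fun ⟨χ, hχ, θ, hθ, h⟩ => topEl_mul_subEl_ne_zero hB hd hχ hθ h,
      covers_of_mul_ne_zero hB hd⟩
  have hind : ∀ (c : Set (IrrCharacter (Subgroup.normalizer (Q : Set G)))) (B : Set (IrrCharacter G)), IsPBlock M c →
      IsPBlock M B → (IsInducedBlock M (Subgroup.normalizer (Q : Set G)) c B ↔ BrOver Q (subEl M (Subgroup.normalizer (Q : Set G)) c) (topEl M B)) :=
    fun c B hc hB => isInducedBlock_iff_brOver hM hQ Subgroup.le_normalizer hCH le_rfl hc hB
  have S := brSetting_top_normalizer (G := G) (Q := Q) hQ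
  constructor
  · intro c hc hcov'
    rw [hcov c hc] at hcov'
    obtain ⟨E, ⟨hE, ho⟩, huniq⟩ := S.existsUnique_over (isBlockIdem_subEl (M := M) hc)
    obtain ⟨B, hB, rfl⟩ := exists_topEl_eq hE
    refine ⟨B, ⟨(hind c B hc hB).mpr ho, (hcovN B hB).mpr
      (mul_ne_zero_of_over hdI hdQ' (isBlockIdem_subEl hc) hE ho hcov')⟩, ?_⟩
    rintro B' ⟨hB', -⟩
    exact topEl_injective hB'.2.1 hB
      (huniq _ ⟨isBlockIdem_topEl hB'.2.1, (hind c B' hc hB'.2.1).mp hB'⟩)
  · intro B hB hBd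
    rw [hcovN B hB] at hBd
    have hE := isBlockIdem_topEl (M := M) hB
    obtain ⟨ce, hce, hne, ho⟩ := exists_over_of_mul_ne_zero hdI hdQ' hE hBd
    obtain ⟨c, hc, rfl⟩ := exists_subEl_eq hce
    refine ⟨c, ⟨⟨hc, (hcov c hc).mpr hne⟩, (hind c B hc hB).mpr ho⟩, ?_⟩
    rintro c' ⟨⟨hc', hcov'⟩, hi⟩
    rw [hcov c' hc'] at hcov'
    exact subEl_injective hc' hc (eq_of_over hdI hdQ' (isBlockIdem_subEl hc') hce hE
      ((hind c' B hc' hB).mp hi) ho hcov' hne)

end Cfsg.Agent.S4674
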