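import Cfsg.Statements.S4675
import Cfsg.Agent.Eq.Def_Blocks
import Cfsg.Agent.Eq.Def_BlockRank
import Cfsg.Agent.Blocks.Orth.DegreeSquares
import Cfsg.Agent.S0908

set_option autoImplicit false
open Cfsg

namespace Cfsg.Agent.S4675

/-- Fix a prime p and a maximal ideal M of the algebraic integers containing p. Let B be a p-block of the finite group G with defect group P and p-regular rank one (a single irreducible Brauer character). Then there are a function φ on G that is, on the p-regular elements, an integer combination of the members of B, and natural numbers d_χ (χ ∈ B), such that every χ ∈ B agrees with d_χ·φ on the p-regular elements and Σ_{χ ∈ B} d_χ² equals the order of P (the single Cartan invariant of B is the order of P). -/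
theorem result {G : Type*} [Group G] [Fintype G] (p : ℕ) [Fact p.Prime] (M : Ideal Cfsg.AlgInt) (hM : Cfsg.IsPModular p M) (B : Set (Cfsg.IrrCharacter G)) (hB : Cfsg.IsPBlock M B) (P : Subgroup G) (hP : Cfsg.IsDefectGroup p M B P) (hl : Cfsg.blockRank p B = 1) : ∃ φ : G → ℂ, ∃ d : Cfsg.IrrCharacter G → ℕ, (∃ n : Cfsg.IrrCharacter G → ℤ, ∀ x : G, Cfsg.IsPRegular p x → φ x = ∑ᶠ ψ ∈ B, (n ψ : ℂ) * (ψ : G → ℂ) x) ∧ (∀ χ ∈ B, ∀ x : G, Cfsg.IsPRegular p x → (χ : G → ℂ) x = (d χ : ℂ) * φ x) ∧ ∑ᶠ χ ∈ B, d χ ^ 2 = Nat.card P := by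
  classical
  have := hM.2.1
  set S := B.toFinite.toFinset with hS
  have hmem : ∀ {ψ}, ψ ∈ S ↔ ψ ∈ B := fun {ψ} => B.toFinite.mem_toFinset
  obtain ⟨χ₀, hχ₀⟩ := CfsgLib.Blocks.nonempty_of_isPBlock hB
  set g := S.gcd fun χ : IrrCharacter G => charDegree (χ : G → ℂ) with hg
  have hg0 : g ≠ 0 := by
    rw [hg, Ne, Finset.gcd_eq_zero_iff]
    exact fun h => (CfsgLib.Chars.charDegree_pos χ₀).ne' (h χ₀ (hmem.2 hχ₀))
  have hgd : ∀ χ ∈ B, g ∣ charDegree (χ : G → ℂ) := fun χ hχ => Finset.gcd_dvd (hmem.2 hχ)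
  set f : IrrCharacter G → G → ℂ := fun χ => pRegularPart p (χ : G → ℂ) with hf
  have hf1 : ∀ χ : IrrCharacter G, f χ 1 = (χ : G → ℂ) 1 := fun χ => by
    simp [hf, pRegularPart, IsPRegular, hM.1.ne_one]
  have hne : f χ₀ ≠ 0 := fun h => CfsgLib.Chars.map_one_ne_zero χ₀ (by rw [← hf1, h]; rfl)
  have hprop : ∀ χ ∈ B, ∃ r : ℂ, f χ = r • f χ₀ := by
    intro χ hχ
    obtain ⟨v, -, hv⟩ := finrank_eq_one_iff'.1 (show Module.finrank ℂ
      (Submodule.span ℂ (f '' B)) = 1 from hl)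
    obtain ⟨a, ha⟩ := hv ⟨f χ, Submodule.subset_span ⟨χ, hχ, rfl⟩⟩
    obtain ⟨b, hb⟩ := hv ⟨f χ₀, Submodule.subset_span ⟨χ₀, hχ₀, rfl⟩⟩
    have ha' := congrArg Subtype.val ha
    have hb' := congrArg Subtype.val hb
    simp only [Submodule.coe_smul] at ha' hb'
    have hb0 : b ≠ 0 := fun h => hne (by rw [← hb', h, zero_smul])
    refine ⟨a / b, ?_⟩
    rw [← ha', ← hb', smul_smul, div_mul_cancel₀ _ hb0]
  have hrat : ∀ χ ∈ B, ∀ x : G, IsPRegular p x → (χ : G → ℂ) x * (χ₀ : G → ℂ) 1 =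
      (χ : G → ℂ) 1 * (χ₀ : G → ℂ) x := by
    intro χ hχ x hx
    obtain ⟨r, hr⟩ := hprop χ hχ
    have h1 := congrFun hr 1
    have hx' := congrFun hr x
    simp only [Pi.smul_apply, smul_eq_mul, hf1] at h1
    simp only [Pi.smul_apply, smul_eq_mul, hf, pRegularPart, hx, if_true] at hx'
    rw [h1, hx']
    ring
  have hbez : ∀ T : Finset (IrrCharacter G), ∃ n : IrrCharacter G → ℤ,
      ∑ χ ∈ T, n χ * (charDegree (χ : G → ℂ) : ℤ) =
        ((T.gcd fun χ : IrrCharacter G => charDegree (χ : G → ℂ) : ℕ) : ℤ) := by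
    intro T
    induction T using Finset.induction with
    | empty => exact ⟨0, by simp⟩
    | insert a T ha ih =>
      obtain ⟨n, hn⟩ := ih
      refine ⟨fun χ => if χ = a then Nat.gcdA (charDegree (a : G → ℂ))
        (T.gcd fun χ : IrrCharacter G => charDegree (χ : G → ℂ)) else
        Nat.gcdB (charDegree (a : G → ℂ))
        (T.gcd fun χ : IrrCharacter G => charDegree (χ : G → ℂ)) * n χ, ?_⟩
      rw [Finset.gcd_insert, gcd_eq_nat_gcd, Nat.gcd_eq_gcd_ab, Finset.sum_insert ha]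
      dsimp only
      rw [if_pos rfl, ← hn, Finset.sum_mul]
      congr 1
      · ring
      · refine Finset.sum_congr rfl fun χ hχ => ?_
        rw [if_neg (fun h => ha (by rw [← h]; exact hχ))]
        ring
  obtain ⟨n, hn⟩ := hbez S
  let d : IrrCharacter G → ℕ := fun χ => charDegree (χ : G → ℂ) / g
  have hdg : ∀ χ ∈ B, d χ * g = charDegree (χ : G → ℂ) := fun χ hχ => Nat.div_mul_cancel (hgd χ hχ)
  refine ⟨fun x => ∑ᶠ ψ ∈ B, (n ψ : ℂ) * (ψ : G → ℂ) x, d, ⟨n, fun x _ => rfl⟩, fun χ hχ x hx => ?_, ?_⟩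
  · show _ = (d χ : ℂ) * ∑ᶠ ψ ∈ B, (n ψ : ℂ) * (ψ : G → ℂ) x
    refine mul_right_cancel₀ (CfsgLib.Chars.map_one_ne_zero χ₀) ?_
    rw [CfsgLib.Blocks.finsum_block_eq_sum, mul_assoc, Finset.sum_mul, hrat χ hχ x hx,
      Finset.sum_congr rfl fun ψ hψ => show (n ψ : ℂ) * (ψ : G → ℂ) x * (χ₀ : G → ℂ) 1 =
        ((n ψ * (charDegree (ψ : G → ℂ) : ℤ) : ℤ) : ℂ) * (χ₀ : G → ℂ) x by
        push_cast
        rw [CfsgLib.Chars.coe_charDegree, mul_assoc, hrat ψ (hmem.1 hψ) x hx]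
        ring, ← Finset.sum_mul, ← Int.cast_sum, hn, ← mul_assoc]
    congr 1
    rw [Int.cast_natCast, ← Nat.cast_mul, hdg χ hχ, CfsgLib.Chars.coe_charDegree]
  -- the sum of the squares
  obtain ⟨m, hm⟩ := CfsgLib.Blocks.BrauerFeit.exists_regMatrix hM hB
  obtain ⟨hN0, hNv⟩ := CfsgLib.Blocks.factorization_sum_degree_sq hM hB
  set N := ∑ χ ∈ S, charDegree (χ : G → ℂ) ^ 2 with hN
  set D := ∑ χ ∈ S, d χ ^ 2 with hD
  have hND : N = g ^ 2 * D := by
    rw [hN, hD, Finset.mul_sum]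
    refine Finset.sum_congr rfl fun χ hχ => ?_
    rw [← hdg χ (hmem.1 hχ)]
    ring
  have hreg : ∀ χ ∈ B, ∀ ψ ∈ B, (m χ ψ : ℂ) * (D : ℂ) = (p : ℂ) ^ blockDefect p B * (d χ : ℂ) * (d ψ : ℂ) := by
    intro χ hχ ψ hψ
    have h5 : (N : ℂ) * CfsgLib.Blocks.HeightZero.regPair p (χ : G → ℂ) (ψ : G → ℂ) =
        (Nat.card G : ℂ) * (χ : G → ℂ) 1 * (ψ : G → ℂ) 1 := by
      have h6 := CfsgLib.Blocks.sum_blockCoeff_eq_card_mul_blockRank hM hB
      rw [hl, Nat.cast_one, mul_one] at h6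
      have hx : ∀ x : G, IsPRegular p x → ∀ η ∈ B,
          (η : G → ℂ) x * (η : G → ℂ) x⁻¹ * ((χ₀ : G → ℂ) 1) ^ 2 =
            ((η : G → ℂ) 1) ^ 2 * ((χ₀ : G → ℂ) x * (χ₀ : G → ℂ) x⁻¹) := by
        intro x hx η hη
        have hx' : IsPRegular p x⁻¹ := by
          show ¬ p ∣ _
          rw [orderOf_inv]
          exact hx
        linear_combination ((η : G → ℂ) x⁻¹ * (χ₀ : G → ℂ) 1) * hrat η hη x hx +
          ((η : G → ℂ) 1 * (χ₀ : G → ℂ) x) * hrat η hη x⁻¹ hx'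
      set R := ∑ x ∈ CfsgLib.Blocks.regSet p G, (χ₀ : G → ℂ) x * (χ₀ : G → ℂ) x⁻¹
      have hR : (N : ℂ) * R = (Nat.card G : ℂ) * ((χ₀ : G → ℂ) 1) ^ 2 := by
        conv_rhs => rw [← h6, Finset.sum_mul]
        rw [Finset.mul_sum]
        refine Finset.sum_congr rfl fun x hxr => ?_
        simp only [← CfsgLib.Blocks.idemCoeff_toFinset]
        rw [CfsgLib.Blocks.sum_idemCoeff_conj_mul B.toFinite.toFinset x⁻¹ x, Finset.sum_mul]
        push_cast [hN]
        rw [Finset.sum_mul]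
        refine Finset.sum_congr rfl fun η hη => ?_
        rw [CfsgLib.Chars.coe_charDegree, inv_inv,
          ← hx x (CfsgLib.Blocks.mem_regSet.1 hxr) η (hmem.1 hη)]
        ring
      have hP : CfsgLib.Blocks.HeightZero.regPair p (χ : G → ℂ) (ψ : G → ℂ) * ((χ₀ : G → ℂ) 1) ^ 2 =
          (χ : G → ℂ) 1 * (ψ : G → ℂ) 1 * R := by
        simp only [R, CfsgLib.Blocks.regSet]
        rw [CfsgLib.Blocks.HeightZero.regPair_eq_sum, Finset.sum_mul, Finset.sum_filter,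
          Finset.mul_sum]
        refine Finset.sum_congr rfl fun x _ => ?_
        by_cases hx1 : p ∣ orderOf x
        · rw [if_pos hx1, if_neg (fun h : IsPRegular p x => h hx1), zero_mul, mul_zero]
        · rw [if_neg hx1, if_pos (show IsPRegular p x from hx1)]
          have hx' : IsPRegular p x⁻¹ := by
            show ¬ p ∣ _
            rwa [orderOf_inv]
          linear_combination ((ψ : G → ℂ) x⁻¹ * (χ₀ : G → ℂ) 1) * hrat χ hχ x hx1 +
            ((χ : G → ℂ) 1 * (χ₀ : G → ℂ) x) * hrat ψ hψ x⁻¹ hx'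
      refine mul_right_cancel₀ (pow_ne_zero 2 (CfsgLib.Chars.map_one_ne_zero χ₀)) ?_
      rw [mul_assoc, hP]
      linear_combination ((χ : G → ℂ) 1 * (ψ : G → ℂ) 1) * hR
    have hG0 : (Nat.card G : ℂ) ≠ 0 := Nat.cast_ne_zero.2 Nat.card_pos.ne'
    refine mul_left_cancel₀ (pow_ne_zero 2 (Nat.cast_ne_zero.2 hg0 : (g : ℂ) ≠ 0)) ?_
    rw [hm χ hχ ψ]
    calc _ = (p : ℂ) ^ blockDefect p B / (Nat.card G : ℂ) *
          ((N : ℂ) * CfsgLib.Blocks.HeightZero.regPair p (χ : G → ℂ) (ψ : G → ℂ)) := by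
          rw [hND]; push_cast; ring
      _ = _ := by
          rw [h5, ← CfsgLib.Chars.coe_charDegree, ← CfsgLib.Chars.coe_charDegree, ← hdg χ hχ,
            ← hdg ψ hψ]
          push_cast
          field_simp
  have hdvd : ∀ χ ∈ B, ∀ ψ ∈ B, D ∣ p ^ blockDefect p B * d χ * d ψ := by
    intro χ hχ ψ hψ
    have h := hreg χ hχ ψ hψ
    have h' : (m χ ψ) * (D : ℤ) = ((p ^ blockDefect p B * d χ * d ψ : ℕ) : ℤ) := by
      exact_mod_cast h
    exact Int.natCast_dvd_natCast.1 ⟨m χ ψ, by rw [← h', mul_comm]⟩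
  have hgcd : S.gcd d = 1 := by
    have h := Finset.gcd_mul_right (s := S) (f := d) (a := g)
    rw [Finset.gcd_congr rfl fun χ hχ => hdg χ (hmem.1 hχ), ← hg, normalize_eq] at h
    have h' : S.gcd d * g = 1 * g := by rw [one_mul]; exact h.symm
    exact Nat.eq_of_mul_eq_mul_right (Nat.pos_of_ne_zero hg0) h'
  have hDd : D ∣ p ^ blockDefect p B := by
    have h1 : ∀ χ ∈ B, D ∣ p ^ blockDefect p B * d χ := by
      intro χ hχ
      have h := Finset.dvd_gcd (s := S) (f := fun ψ => p ^ blockDefect p B * d χ * d ψ)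
        fun ψ hψ => hdvd χ hχ ψ (hmem.1 hψ)
      rwa [Finset.gcd_mul_left, normalize_eq, hgcd, mul_one] at h
    have h := Finset.dvd_gcd (s := S) (f := fun χ => p ^ blockDefect p B * d χ)
      fun χ hχ => h1 χ (hmem.1 hχ)
    rwa [Finset.gcd_mul_left, normalize_eq, hgcd, mul_one] at h
  have hgm : g.factorization p = CfsgLib.Blocks.HeightZero.minExp p B := by
    refine le_antisymm ?_ ?_
    · obtain ⟨χ, hχ, h0⟩ := CfsgLib.Blocks.HeightZero.exists_height_zero (p := p) hB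
      rw [← (CfsgLib.Blocks.HeightZero.blockHeight_eq_zero_iff' hχ).1 h0]
      exact (Nat.factorization_le_iff_dvd hg0 (CfsgLib.Chars.charDegree_pos χ).ne').2 (hgd χ hχ) p
    · refine (hM.1.pow_dvd_iff_le_factorization hg0).1 (Finset.dvd_gcd fun χ hχ => ?_)
      exact (pow_dvd_pow p (CfsgLib.Blocks.HeightZero.minExp_le (hmem.1 hχ))).trans
        (Nat.ordProj_dvd _ _)
  obtain ⟨j, hj, hjD⟩ := (Nat.dvd_prime_pow hM.1).1 hDd
  have hcard := Cfsg.Agent.S0908.result p M hM B hB P hP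
  rw [CfsgLib.Blocks.finsum_block_eq_sum, hcard, ← hS]
  show D = _
  rw [hjD]
  congr 1
  rw [hND, hjD, Nat.factorization_mul (pow_ne_zero _ hg0) (pow_ne_zero _ hM.1.ne_zero),
    Finsupp.add_apply, CfsgLib.Blocks.HeightZero.factorization_pow_prime hM.1,
    Nat.factorization_pow, Finsupp.smul_apply, smul_eq_mul, hgm] at hNv
  have := CfsgLib.Blocks.HeightZero.minExp_le_card (p := p) hχ₀
  rw [CfsgLib.Blocks.HeightZero.blockDefect_eq]
  omega

end Cfsg.Agent.S4675
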