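import Cfsg.Statements.S4676
import Cfsg.Agent.Eq.Def_Blocks
import Cfsg.Agent.Blocks.HeightZero.RegularPair
import Cfsg.Agent.Blocks.HeightZero.Scaled
import Cfsg.Agent.Blocks.LocalDivisibility
import Cfsg.Agent.Blocks.LocalRing
import Cfsg.Agent.Chars.Basic
import Cfsg.Agent.S0961

set_option autoImplicit false
open Cfsg CfsgLib CfsgLib.Blocks CfsgLib.Blocks.HeightZero
open scoped ComplexConjugate

namespace Cfsg.Agent.S4676

/-- An integer which is `p ^ k` times a local unit has absolute value at least `p ^ k`. -/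
theorem pow_le_of_eq_mul_unit {p : ℕ} {M : Ideal AlgInt} (hM : IsPModular p M) {N : ℤ} {k : ℕ}
    {w : ℂ} (hw : MemLocalRing M w) (hwi : ¬ MemLocalIdeal M w)
    (h : (N : ℂ) = (p : ℂ) ^ k * w) : (p : ℤ) ^ (2 * k) ≤ N ^ 2 := by
  have := isMaximal_of_isPModular hM
  have hp : (p : ℂ) ≠ 0 := Nat.cast_ne_zero.2 hM.1.ne_zero
  have hdiv : ∀ i ≤ k, (p : ℤ) ^ i ∣ N := by
    intro i hi
    induction i with
    | zero => simp
    | succ i ih =>
      obtain ⟨c, hc⟩ := ih (by omega)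
      obtain ⟨j, hj⟩ : ∃ j, k = i + (j + 1) := ⟨k - i - 1, by omega⟩
      have hcw : (c : ℂ) = (p : ℂ) * ((p : ℂ) ^ j * w) := by
        rw [hc, hj] at h
        push_cast at h
        rw [pow_add, pow_succ] at h
        apply mul_left_cancel₀ (pow_ne_zero i hp)
        linear_combination h
      have hpI : MemLocalIdeal M (p : ℂ) := by
        have : ((p : AlgInt) : ℂ) = (p : ℂ) := by simp
        rw [← this, memLocalIdeal_coe_iff]
        exact hM.2.2
      have hcI : MemLocalIdeal M (((c : AlgInt)) : ℂ) := by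
        have e : (((c : AlgInt)) : ℂ) = (c : ℂ) := by simp
        rw [e, hcw, mul_comm]
        refine memLocalIdeal_mul_left ((localRing M).mul_mem ((localRing M).pow_mem ?_ j) hw) hpI
        simp
      rw [memLocalIdeal_coe_iff, intCast_mem_iff hM] at hcI
      rw [hc, pow_succ]
      exact mul_dvd_mul_left _ hcI
  have hN : N ≠ 0 := by
    rintro rfl
    have : w = 0 := by simpa [hp] using h.symm
    exact hwi (this ▸ memLocalIdeal_zero)
  rw [pow_mul', sq, sq, ← Int.natAbs_mul_self (a := N), ← Nat.cast_pow, ← Nat.cast_mul,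
    Nat.cast_le]
  have hle : p ^ k ≤ N.natAbs := Nat.le_of_dvd (Int.natAbs_pos.2 hN)
    (by simpa [Int.natAbs_pow] using Int.natAbs_dvd_natAbs.2 (hdiv k le_rfl))
  exact Nat.mul_le_mul hle hle

/-- Fix a prime p and a maximal ideal M of the algebraic integers containing p. The theorem of Brauer and Feit: for a p-block of the finite group G with defect group P, the sum over its irreducible characters χ of p raised to twice the height of χ is at most |P|^2/4 + 1. In particular the block has at most |P|^2/4 + 1 irreducible characters. -/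
theorem result {G : Type*} [Group G] [Fintype G] (p : ℕ) [Fact p.Prime] (M : Ideal Cfsg.AlgInt) (hM : Cfsg.IsPModular p M) (B : Set (Cfsg.IrrCharacter G)) (hB : Cfsg.IsPBlock M B) (P : Subgroup G) (hP : Cfsg.IsDefectGroup p M B P) : ∑ᶠ χ ∈ B, p ^ (2 * Cfsg.blockHeight p B (χ : G → ℂ)) ≤ Nat.card P ^ 2 / 4 + 1 := by
  classical
  have := isMaximal_of_isPModular hM
  have hp := hM.1
  obtain ⟨g, hg, S, rfl⟩ := hP
  have hcard : Nat.card ((S : Subgroup (Subgroup.centralizer ({g} : Set G))).map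
      (Subgroup.centralizer ({g} : Set G)).subtype) =
      p ^ (Nat.card (Subgroup.centralizer ({g} : Set G))).factorization p := by
    rw [Subgroup.card_map_of_injective (Subgroup.centralizer ({g} : Set G)).subtype_injective,
      S.card_eq_multiplicity]
  rw [hcard]
  set C := Subgroup.centralizer ({g} : Set G)
  set d := (Nat.card C).factorization p with hd
  set e := minExp p B with he
  set a := (Nat.card G).factorization p with ha
  have hade : a = d + e := by
    rw [ha, he, minExp_eq_of_defectClass hM hB hg, ← C.card_mul_index,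
      Nat.factorization_mul Nat.card_pos.ne' Subgroup.index_ne_zero_of_finite, Finsupp.add_apply]
  obtain ⟨χ₀, hχ₀, h0⟩ := exists_height_zero (p := p) hB
  set F : G → ℂ := fun x => if p ∣ orderOf x then 0 else ((p ^ a : ℕ) : ℂ) * (χ₀ : G → ℂ) x with hF
  obtain ⟨c₁, c₂, hc₁, hc₂, hFc⟩ : IsGeneralizedCharacter G F := Cfsg.Agent.S0961.result p χ₀
  obtain ⟨n₁, e₁, hn₁⟩ := Chars.exists_nat_coeff hc₁
  obtain ⟨n₂, e₂, hn₂⟩ := Chars.exists_nat_coeff hc₂
  set N : IrrCharacter G → ℤ := fun ψ => (n₁ ψ : ℤ) - n₂ ψ with hN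
  have hFN : F = ∑ ψ : IrrCharacter G, (N ψ : ℂ) • (ψ : G → ℂ) := by
    rw [hFc, e₁, e₂, ← Finset.sum_sub_distrib]
    exact Finset.sum_congr rfl fun ψ _ => by simp [hN, sub_smul]
  have hinner : ∀ ψ : IrrCharacter G, classInner F (ψ : G → ℂ) = (N ψ : ℂ) := fun ψ => by
    rw [hFN, Chars.classInner_sum_smul]
  have hscaled : ∀ ψ : IrrCharacter G, (N ψ : ℂ) =
      ((p ^ a : ℕ) : ℂ) / (Nat.card G : ℂ) * regPair p (χ₀ : G → ℂ) (ψ : G → ℂ) := fun ψ => by
    rw [← hinner, hF, classInner_scaled _ _ (Chars.isCharacter_coe ψ)]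
  have hout : ∀ ψ, ψ ∉ B → N ψ = 0 := fun ψ hψ => by
    have := hscaled ψ
    rw [regPair_symm, regPair_eq_zero_of_ne_block hM hB hχ₀ hψ, mul_zero] at this
    exact_mod_cast this
  have hsq : ∑ ψ : IrrCharacter G, N ψ ^ 2 = (p : ℤ) ^ a * N χ₀ := by
    have h1 : classInner F F = ∑ ψ : IrrCharacter G, (N ψ : ℂ) ^ 2 := by
      conv_lhs => arg 1; rw [hFN]
      rw [Chars.classInner_sum_left]
      refine Finset.sum_congr rfl fun ψ _ => ?_
      rw [Chars.classInner_smul_left, ← Chars.classInner_conj_symm, hinner, sq, map_intCast]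
    have h2 : classInner F F = ((p ^ a : ℕ) : ℂ) * classInner F (χ₀ : G → ℂ) := by
      simp only [classInner, Finset.mul_sum]
      refine Finset.sum_congr rfl fun x _ => ?_
      by_cases hx : p ∣ orderOf x
      · simp [hF, hx]
      · simp only [hF, hx, if_false, map_mul, map_natCast]
        ring
    rw [h1, hinner] at h2
    exact_mod_cast h2
  have hlow : ∀ ψ ∈ B, (p : ℤ) ^ (2 * (e + blockHeight p B (ψ : G → ℂ))) ≤ N ψ ^ 2 := by
    intro ψ hψ
    set k := (charDegree (ψ : G → ℂ)).factorization p with hk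
    have hek : e + blockHeight p B (ψ : G → ℂ) = k := Nat.add_sub_cancel' (minExp_le hψ)
    rw [hek]
    set m := p ^ a * charDegree (ψ : G → ℂ) with hm
    set n := p ^ k * Nat.card G with hn
    have hm0 : m ≠ 0 := mul_ne_zero (pow_ne_zero _ hp.ne_zero) (Chars.charDegree_pos ψ).ne'
    have hn0 : n ≠ 0 := mul_ne_zero (pow_ne_zero _ hp.ne_zero) Nat.card_pos.ne'
    have hmn : m.factorization p = n.factorization p := by
      rw [hm, hn, Nat.factorization_mul (pow_ne_zero _ hp.ne_zero) (Chars.charDegree_pos ψ).ne',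
        Nat.factorization_mul (pow_ne_zero _ hp.ne_zero) Nat.card_pos.ne', Finsupp.add_apply,
        Finsupp.add_apply, factorization_pow_prime hp, factorization_pow_prime hp, ← hk, ← ha,
        add_comm]
    have hloc := memLocalRing_regPair hM (Chars.isClassFunction_coe χ₀)
      (fun x _ => memLocalRing_apply (Chars.isCharacter_coe χ₀) x) ψ
    refine pow_le_of_eq_mul_unit hM (w := (m : ℂ) / n *
      (regPair p (χ₀ : G → ℂ) (ψ : G → ℂ) / (ψ : G → ℂ) 1))
      ((localRing M).mul_mem (memLocalRing_natCast_div hM hm0 hn0 hmn.ge) hloc)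
      (not_memLocalIdeal_mul (memLocalRing_natCast_div hM hm0 hn0 hmn.ge) hloc
        (not_memLocalIdeal_natCast_div hM hm0 hn0 hmn)
        (not_memLocalIdeal_regPair_of_height_zero hM hB hχ₀ h0 hψ)) ?_
    rw [hscaled, hm, hn, ← Chars.coe_charDegree]
    have : (p : ℂ) ≠ 0 := Nat.cast_ne_zero.2 hp.ne_zero
    have : (charDegree (ψ : G → ℂ) : ℂ) ≠ 0 := Nat.cast_ne_zero.2 (Chars.charDegree_pos ψ).ne'
    have : (Nat.card G : ℂ) ≠ 0 := Chars.natCard_ne_zero
    push_cast
    field_simp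
  set T := B.toFinite.toFinset with hT
  have hmemT : χ₀ ∈ T := (Set.Finite.mem_toFinset _).2 hχ₀
  rw [finsum_mem_eq_finite_toFinset_sum _ B.toFinite]
  rw [← Finset.add_sum_erase _ _ hmemT, h0, mul_zero, pow_zero, add_comm 1]
  refine Nat.add_le_add_right ((Nat.le_div_iff_mul_le (by norm_num)).2 ?_) 1
  have h3 : ∑ ψ ∈ T.erase χ₀, N ψ ^ 2 ≤ (p : ℤ) ^ a * N χ₀ - N χ₀ ^ 2 := by
    rw [← hsq, ← Finset.add_sum_erase _ _ (Finset.mem_univ χ₀), add_sub_cancel_left]
    exact Finset.sum_le_sum_of_subset_of_nonneg (Finset.erase_subset_erase _ (Finset.subset_univ _))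
      fun ψ _ _ => sq_nonneg _
  have h4 : ((p : ℤ) ^ e) ^ 2 * ∑ ψ ∈ T.erase χ₀, (p : ℤ) ^ (2 * blockHeight p B (ψ : G → ℂ)) ≤
      ∑ ψ ∈ T.erase χ₀, N ψ ^ 2 := by
    rw [Finset.mul_sum]
    refine Finset.sum_le_sum fun ψ hψ => ?_
    refine le_trans (le_of_eq ?_) (hlow ψ ((Set.Finite.mem_toFinset _).1 (Finset.mem_of_mem_erase hψ)))
    ring
  set S' := ∑ ψ ∈ T.erase χ₀, (p : ℤ) ^ (2 * blockHeight p B (ψ : G → ℂ)) with hS'
  suffices h5 : S' * 4 ≤ ((p : ℤ) ^ d) ^ 2 by
    rw [hS'] at h5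
    exact_mod_cast h5
  have hpe : (0 : ℤ) < ((p : ℤ) ^ e) ^ 2 := pow_pos (pow_pos (by exact_mod_cast hp.pos) e) 2
  refine le_of_mul_le_mul_left ?_ hpe
  calc ((p : ℤ) ^ e) ^ 2 * (S' * 4) = (((p : ℤ) ^ e) ^ 2 * S') * 4 := by ring
    _ ≤ ((p : ℤ) ^ a * N χ₀ - N χ₀ ^ 2) * 4 := by linarith [h4.trans h3]
    _ ≤ ((p : ℤ) ^ a) ^ 2 := by nlinarith [sq_nonneg ((p : ℤ) ^ a - 2 * N χ₀)]
    _ = ((p : ℤ) ^ e) ^ 2 * ((p : ℤ) ^ d) ^ 2 := by rw [hade, pow_add]; ring

end Cfsg.Agent.S4676
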