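import Cfsg.Statements.S4679
import Cfsg.Agent.Blocks.Defect.Fusion

set_option autoImplicit false
open Cfsg CfsgLib.Blocks

namespace Cfsg.Agent.S4679

/-- Fix a prime p and a maximal ideal M of the algebraic integers containing p, a p-block B of the finite group G with maximal Brauer pair (P, e), its fusion system F on P, a Brauer pair (Q, f) ≤ (P, e), and let T be the stabilizer of f in N_G(Q). Then Q is fully normalized in F if and only if N_P(Q) is a defect group of the block of T whose idempotent is that of f. -/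
theorem result {G : Type*} [Group G] [Fintype G] (p : ℕ) [Fact p.Prime] (M : Ideal Cfsg.AlgInt) (hM : Cfsg.IsPModular p M) (B : Set (Cfsg.IrrCharacter G)) (P : Subgroup G) (e : Set (Cfsg.IrrCharacter (Subgroup.centralizer (P : Set G)))) (hmax : Cfsg.IsMaximalBrauerPair p M B P e) (F : Cfsg.FusionSystem P) (hF : Cfsg.IsBlockFusionSystemOn p M B P e F) (Q : Subgroup G) (f : Set (Cfsg.IrrCharacter (Subgroup.centralizer (Q : Set G)))) (hQP : Q ≤ P) (hf : Cfsg.IsPBlock M f) (hle : Cfsg.SubpairLE p M Q f P e) (T : Subgroup G) (hT : ∀ y : G, y ∈ T ↔ y ∈ Subgroup.normalizer (Q : Set G) ∧ Cfsg.StabilizesBlock (Subgroup.centralizer (Q : Set G)) f y) : F.IsFullyNormalized Q ↔ ∃ F' : Set (Cfsg.IrrCharacter T), Cfsg.IsPBlock M F' ∧ (∀ t : T, Cfsg.blockCoeff F' t = Cfsg.subgroupBlockCoeff (Subgroup.centralizer (Q : Set G)) f (t : G)) ∧ Cfsg.IsDefectGroup p M F' ((P ⊓ Subgroup.normalizer (Q : Set G)).subgroupOf T) := by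
  haveI : M.IsMaximal := hM.2.1
  haveI : CharP (kres M) p := charP_kres hM
  have hle' := (subpairLE_iff hf hmax.1.1.2).mp hle
  have hg := (IsMaximalBrauerPair.toIdem hmax).1.1
  have hp := hle'.isPair_left hg
  have hTs := eq_pairStab (M := M) hf hT
  have hPT : P ⊓ Subgroup.normalizer (Q : Set G) ≤ T := by
    rw [hTs, ← inf_pairStab_eq hg hle']
    exact inf_le_right
  rw [isFullyNormalized_iff hF hle']
  constructor
  · intro h
    obtain ⟨F', hF', hc, he⟩ := exists_stab_block ⟨hp.1, hf⟩ hTs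
    refine ⟨F', hF', hc, (isDefectGroup_subgroupOf_iff hPT hF').mpr ?_⟩
    rw [he]
    rw [← hTs] at h
    exact h
  · rintro ⟨F', hF', hc, hD⟩
    have he := subEl_eq_of_coeff (M := M) (by rw [hTs]; exact centralizer_le_pairStab hp) hc
    have h := (isDefectGroup_subgroupOf_iff hPT hF').mp hD
    rw [he] at h
    rw [← hTs]
    exact h

end Cfsg.Agent.S4679
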