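import Cfsg.Statements.S4681
import Cfsg.Agent.Blocks.Defect.Principal
import Cfsg.Agent.Eq.Def_BlockFusion

set_option autoImplicit false
open Cfsg

namespace Cfsg.Agent.S4681

/-- Fix a prime p and a maximal ideal M of the algebraic integers containing p. Let B₀ be the principal p-block of the finite group G, P a Sylow p-subgroup and e₀ the principal p-block of C_G(P). Then (P, e₀) is a maximal Brauer pair of B₀, and the fusion system of B₀ on (P, e₀) is the fusion system of G on P: its maps from each subgroup of P are exactly the conjugation maps into P by elements of G. -/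
theorem result {G : Type*} [Group G] [Fintype G] (p : ℕ) [Fact p.Prime] (M : Ideal Cfsg.AlgInt) (hM : Cfsg.IsPModular p M) (S : Sylow p G) : Cfsg.IsMaximalBrauerPair p M (Cfsg.principalBlock M G) (S : Subgroup G) (Cfsg.principalBlock M (Subgroup.centralizer ((S : Subgroup G) : Set G))) ∧ ∀ F : Cfsg.FusionSystem (S : Subgroup G), Cfsg.IsBlockFusionSystemOn p M (Cfsg.principalBlock M G) (S : Subgroup G) (Cfsg.principalBlock M (Subgroup.centralizer ((S : Subgroup G) : Set G))) F → ∀ Q : Subgroup G, F.Hom Q = (Cfsg.groupFusionSystem (S : Subgroup G)).Hom Q := by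
  haveI : M.IsMaximal := hM.2.1
  haveI : CharP (CfsgLib.Blocks.kres M) p := CfsgLib.Blocks.charP_kres hM
  refine ⟨CfsgLib.Blocks.isMaximalBrauerPair_principalBlock S, fun F hF Q => Set.ext fun φ => ?_⟩
  rw [hF.2 Q φ]
  constructor
  · rintro ⟨hQ, g, hg, hle, -⟩
    exact ⟨hQ, fun x => hle ⟨x, x.2, (hg x).symm⟩, g, hg⟩
  · rintro ⟨hQ, hφ, g, hg⟩
    have hle : Q.map (MulAut.conj g).toMonoidHom ≤ (S : Subgroup G) := by
      rintro _ ⟨x, hx, rfl⟩
      have := hφ ⟨x, hx⟩
      rw [hg] at this
      exact this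
    refine ⟨hQ, g, hg, hle, _, CfsgLib.Blocks.subpairLE_principalBlock S.isPGroup' hQ, ?_⟩
    rw [CfsgLib.Blocks.conjBlock_principalBlock]
    exact CfsgLib.Blocks.subpairLE_principalBlock S.isPGroup' hle

end Cfsg.Agent.S4681
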