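import Cfsg.Statements.S4682
import Cfsg.Agent.Blocks.Defect.Nilpotent

set_option autoImplicit false
open Cfsg CfsgLib.Blocks

namespace Cfsg.Agent.S4682

/-- Fix a prime p and a maximal ideal M of the algebraic integers containing p, a p-block B of the finite group G with maximal Brauer pair (P, e), P abelian, and a Brauer pair (Q, f) ≤ (P, e). Let T_Q be the stabilizer of f in N_G(Q) and T_P the stabilizer of e in N_G(P). Then every element of T_Q is a product of an element of T_P and an element of C_G(Q); and the index of C_G(Q) in T_Q equals the index of T_P ∩ C_G(Q) in T_P ∩ N_G(Q). -/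
theorem result {G : Type*} [Group G] [Fintype G] (p : ℕ) [Fact p.Prime] (M : Ideal Cfsg.AlgInt) (hM : Cfsg.IsPModular p M) (B : Set (Cfsg.IrrCharacter G)) (P : Subgroup G) (e : Set (Cfsg.IrrCharacter (Subgroup.centralizer (P : Set G)))) (hmax : Cfsg.IsMaximalBrauerPair p M B P e) (hab : ∀ x ∈ P, ∀ y ∈ P, x * y = y * x) (Q : Subgroup G) (f : Set (Cfsg.IrrCharacter (Subgroup.centralizer (Q : Set G)))) (hQP : Q ≤ P) (hf : Cfsg.IsPBlock M f) (hle : Cfsg.SubpairLE p M Q f P e) (TQ : Subgroup G) (hTQ : ∀ y : G, y ∈ TQ ↔ y ∈ Subgroup.normalizer (Q : Set G) ∧ Cfsg.StabilizesBlock (Subgroup.centralizer (Q : Set G)) f y) (TP : Subgroup G) (hTP : ∀ y : G, y ∈ TP ↔ y ∈ Subgroup.normalizer (P : Set G) ∧ Cfsg.StabilizesBlock (Subgroup.centralizer (P : Set G)) e y) : (∀ x ∈ TQ, ∃ y ∈ TP, ∃ c ∈ Subgroup.centralizer (Q : Set G), x = y * c) ∧ ((Subgroup.centralizer (Q : Set G)).subgroupOf TQ).index = ((TP ⊓ Subgroup.centralizer (Q : Set G)).subgroupOf (TP ⊓ Subgroup.normalizer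 (Q : Set G))).index := by
  haveI : M.IsMaximal := hM.2.1
  haveI : CharP (kres M) p := charP_kres hM
  have hmax' := IsMaximalBrauerPair.toIdem hmax
  have hE := isBlockIdem_topEl (M := M) hmax.1.2.1
  have hf' := (subpairLE_iff hf hmax.1.1.2).mp hle
  have hp := hf'.isPair_left hmax'.1.1
  have hQeq := eq_pairStab (M := M) hf hTQ
  have hPeq := eq_pairStab (M := M) hmax.1.1.2 hTP
  have hmain : ∀ x ∈ TQ, ∃ y ∈ TP ⊓ Subgroup.normalizer (Q : Set G),
      ∃ c ∈ Subgroup.centralizer (Q : Set G), x = y * c := fun x hx => by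
    rw [hQeq] at hx
    rw [hPeq]
    exact exists_mul_of_abelian hE hmax' hab hf' hx
  refine ⟨fun x hx => ?_, ?_⟩
  · obtain ⟨y, hy, c, hc, he⟩ := hmain x hx
    exact ⟨y, hy.1, c, hc, he⟩
  · set C := Subgroup.centralizer (Q : Set G) with hC
    set A := TP ⊓ Subgroup.normalizer (Q : Set G) with hA
    have hCT : C ≤ TQ := by rw [hQeq]; exact centralizer_le_pairStab hp
    have hAT : A ≤ TQ := by
      rw [hA, hQeq, hPeq]
      exact pairStab_inf_normalizer_le hmax'.1.1 hf'
    have hTN : TQ ≤ Subgroup.normalizer (C : Set G) := by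
      rw [hQeq]
      exact (pairStab_le_normalizer _ _ _).trans (normalizer_le_normalizer_centralizer Q)
    haveI : (C.subgroupOf TQ).Normal := (Subgroup.normal_subgroupOf_iff_le_normalizer hCT).mpr hTN
    have htop : A.subgroupOf TQ ⊔ C.subgroupOf TQ = ⊤ := by
      rw [eq_top_iff]
      rintro ⟨x, hx⟩ -
      obtain ⟨y, hy, c, hc, rfl⟩ := hmain x hx
      exact Subgroup.mul_mem_sup (S := A.subgroupOf TQ) (T := C.subgroupOf TQ)
        (x := ⟨y, hAT hy⟩) (y := ⟨c, hCT hc⟩) hy hc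
    have h1 : (C.subgroupOf TQ).index = (C.subgroupOf TQ).relIndex (A.subgroupOf TQ) := by
      rw [← Subgroup.relIndex_top_right, ← htop, Subgroup.relIndex_sup_right]
    rw [h1, Subgroup.relIndex_subgroupOf hAT, Subgroup.relIndex]
    congr 1
    ext ⟨t, ht⟩
    exact ⟨fun h => ⟨ht.1, h⟩, fun h => h.2⟩

end Cfsg.Agent.S4682
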