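import Cfsg.Statements.S4683
import Cfsg.Agent.Blocks.Orth.Subsection
import Cfsg.Agent.Eq.Def_BrauerPairs

set_option autoImplicit false
open Cfsg

namespace Cfsg.Agent.S4683

/-- Fix a prime p and a maximal ideal M of the algebraic integers containing p, a p-block B of the finite group G, a p-element u and a p-block e of C = C_G(u) such that (⟨u⟩, e) is a Brauer pair of B (a Brauer element of B). For χ ∈ B let χ_u be the e-part of the class function c ↦ χ(u c) on C and χ_u' the e-part of c ↦ χ(u⁻¹ c). Then the sum over χ ∈ B and over the p-regular elements s of C of χ_u(s)·χ_u'(s⁻¹) equals the order of C times the p-regular rank of e (the number of irreducible Brauer characters of e). -/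
theorem result {G : Type*} [Group G] [Fintype G] (p : ℕ) [Fact p.Prime] (M : Ideal Cfsg.AlgInt) (hM : Cfsg.IsPModular p M) (B : Set (Cfsg.IrrCharacter G)) (u : G) (hu : ∃ k : ℕ, orderOf u = p ^ k) (e : Set (Cfsg.IrrCharacter (Subgroup.centralizer (Subgroup.zpowers u : Set G)))) (hBe : Cfsg.IsBrauerPairOf p M B (Subgroup.zpowers u) e) : ∑ᶠ χ ∈ B, ∑ᶠ s : Subgroup.centralizer (Subgroup.zpowers u : Set G), Cfsg.pRegularPart p (Cfsg.blockPart e (fun c : Subgroup.centralizer (Subgroup.zpowers u : Set G) => (χ : G → ℂ) (u * c))) s * Cfsg.blockPart e (fun c : Subgroup.centralizer (Subgroup.zpowers u : Set G) => (χ : G → ℂ) (u⁻¹ * c)) s⁻¹ = (Nat.card (Subgroup.centralizer (Subgroup.zpowers u : Set G)) : ℂ) * (Cfsg.blockRank p e : ℂ) := by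
  classical
  obtain ⟨⟨-, he⟩, hB, hω⟩ := hBe
  have hH : Subgroup.centralizer (Subgroup.zpowers u : Set G) =
      Subgroup.centralizer ({u} : Set G) := by
    rw [Subgroup.zpowers_eq_closure, Subgroup.centralizer_closure]
  haveI := CfsgLib.Blocks.isMaximal_of_isPModular hM
  obtain ⟨ξ, hξ⟩ := CfsgLib.Blocks.nonempty_of_isPBlock he
  have hind := CfsgLib.Blocks.isInducedBlock_of_brauerOmega hM hH hu he hB hξ (by
    have h := hω ξ hξ
    rwa [brauerOmega, finsum_eq_sum_of_fintype] at h)
  have hcl := fun χ : IrrCharacter G => CfsgLib.Blocks.isClassFunction_translate hH χ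
  rw [CfsgLib.Blocks.finsum_block_eq_sum, ← CfsgLib.Blocks.sum_block_subsection hM hH hu hind]
  refine Finset.sum_congr rfl fun χ _ => ?_
  rw [finsum_eq_sum_of_fintype,
    ← CfsgLib.Blocks.sum_blockPart_mul_conj_blockPart hM he (hcl χ),
    CfsgLib.Blocks.regSet, Finset.sum_filter]
  refine Finset.sum_congr rfl fun s _ => ?_
  by_cases hs : IsPRegular p s
  · rw [if_pos hs, pRegularPart, if_pos hs]
    congr 1
    have hcl' : IsClassFunction (Subgroup.centralizer (Subgroup.zpowers u : Set G))
        (fun c => (χ : G → ℂ) (u⁻¹ * (c : G))) := CfsgLib.Blocks.isClassFunction_translate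
      (u := u⁻¹) (by
        rw [hH]
        ext x
        simp only [Subgroup.mem_centralizer_iff, Set.mem_singleton_iff, forall_eq]
        exact ⟨fun h => (Commute.inv_left (show Commute u x from h)).eq,
          fun h => by simpa using (Commute.inv_left (show Commute u⁻¹ x from h)).eq⟩) χ
    rw [CfsgLib.Blocks.blockPart_eq_sum_blockCoeff e hcl',
      CfsgLib.Blocks.blockPart_eq_sum_blockCoeff e (hcl χ), map_sum]
    refine Fintype.sum_equiv (Equiv.inv _) _ _ fun k => ?_
    rw [map_mul, Equiv.inv_apply, CfsgLib.Blocks.conj_blockCoeff, inv_inv]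
    congr 1
    rw [← CfsgLib.Chars.map_inv_eq_conj (CfsgLib.Chars.isCharacter_coe χ)]
    simp only [Subgroup.coe_mul, Subgroup.coe_inv]
    have hc := CfsgLib.Chars.classFunction_mul_comm (CfsgLib.Chars.isClassFunction_coe χ)
      ((s : G)⁻¹ * (k : G)) u⁻¹
    rw [show (u * ((k : G)⁻¹ * (s : G)))⁻¹ = (s : G)⁻¹ * (k : G) * u⁻¹ by group, hc]
    have hsk := (hcl' : _)  (k * s⁻¹) s⁻¹
    simp only [Subgroup.coe_mul, Subgroup.coe_inv, inv_inv] at hsk
    rw [← hsk]
    group
  · rw [if_neg hs, pRegularPart, if_neg hs, zero_mul]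

end Cfsg.Agent.S4683
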