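import Cfsg.Statements.S4684
import Cfsg.Agent.Blocks.Star.Free

set_option autoImplicit false
open Cfsg
open scoped commutatorElement

namespace Cfsg.Agent.S4684

/-- Fix a prime p and a maximal ideal M of the algebraic integers containing p, a p-block B of the finite group G with maximal Brauer pair (P, e) and fusion system F on P. Then the number of irreducible characters of height zero in B is divisible by the index in P of the focal subgroup of F. -/
theorem result {G : Type*} [Group G] [Fintype G] (p : ℕ) [Fact p.Prime] (M : Ideal Cfsg.AlgInt) (hM : Cfsg.IsPModular p M) (B : Set (Cfsg.IrrCharacter G)) (P : Subgroup G) (e : Set (Cfsg.IrrCharacter (Subgroup.centralizer (P : Set G)))) (hmax : Cfsg.IsMaximalBrauerPair p M B P e) (F : Cfsg.FusionSystem P) (hF : Cfsg.IsBlockFusionSystemOn p M B P e F) : (F.focalSubgroup.subgroupOf P).index ∣ Nat.card {χ : Cfsg.IrrCharacter G // χ ∈ B ∧ Cfsg.blockHeight p B (χ : G → ℂ) = 0} := by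
  classical
  haveI := CfsgLib.Blocks.isMaximal_of_isPModular hM
  haveI := CfsgLib.Blocks.charP_kres hM
  haveI := CfsgLib.Blocks.normal_focal_subgroupOf F
  have hc := CfsgLib.Blocks.commutator_le_focal_subgroupOf F
  have h := CfsgLib.Blocks.index_dvd_card_height hM hF 0
    (⊥ : Subgroup ((P ⧸ F.focalSubgroup.subgroupOf P) →* ℂˣ)) fun χ hχ h0 l hl => ?_
  · have hcard : Nat.card ((P ⧸ F.focalSubgroup.subgroupOf P) →* ℂˣ) =
        (F.focalSubgroup.subgroupOf P).index := by
      rw [CfsgLib.Chars.card_monoidHom_units, Subgroup.index_eq_card (F.focalSubgroup.subgroupOf P)]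
      have : commutator (P ⧸ F.focalSubgroup.subgroupOf P) = ⊥ := by
        rw [eq_bot_iff, commutator_def, Subgroup.commutator_le]
        intro a _ b _
        rw [Subgroup.mem_bot, commutatorElement_eq_one_iff_mul_comm]
        exact CfsgLib.Blocks.mul_comm_quotient hc a b
      rw [this, Subgroup.index_bot]
    rwa [Subgroup.index_bot, hcard] at h
  · rw [Subgroup.mem_bot]
    have h1 := CfsgLib.Blocks.eq_one_of_fixes_height_zero hM hF
      (l.comp (QuotientGroup.mk' (F.focalSubgroup.subgroupOf P))) (fun v hv => by
        rw [MonoidHom.comp_apply, QuotientGroup.mk'_apply,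
          (QuotientGroup.eq_one_iff v).mpr (Subgroup.mem_subgroupOf.mpr hv), map_one]) hχ h0 hl
    refine MonoidHom.ext fun a => ?_
    obtain ⟨v, rfl⟩ := QuotientGroup.mk'_surjective _ a
    exact DFunLike.congr_fun h1 v

end Cfsg.Agent.S4684
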