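import Cfsg.Statements.S4685
import Cfsg.Agent.Blocks.Star.Free

set_option autoImplicit false
open Cfsg
open scoped commutatorElement

namespace Cfsg.Agent.S4685

/-- Fix a prime p and a maximal ideal M of the algebraic integers containing p, a p-block B of the finite group G with maximal Brauer pair (P, e) and fusion system F on P. Then for every h the number of irreducible characters of height h in B is divisible by the index of Z(P) ∩ foc(F) in Z(P), where foc(F) is the focal subgroup of F. -/
theorem result {G : Type*} [Group G] [Fintype G] (p : ℕ) [Fact p.Prime] (M : Ideal Cfsg.AlgInt) (hM : Cfsg.IsPModular p M) (B : Set (Cfsg.IrrCharacter G)) (P : Subgroup G) (e : Set (Cfsg.IrrCharacter (Subgroup.centralizer (P : Set G)))) (hmax : Cfsg.IsMaximalBrauerPair p M B P e) (F : Cfsg.FusionSystem P) (hF : Cfsg.IsBlockFusionSystemOn p M B P e F) (h : ℕ) : ((P ⊓ Subgroup.centralizer (P : Set G) ⊓ F.focalSubgroup).subgroupOf (P ⊓ Subgroup.centralizer (P : Set G))).index ∣ Nat.card {χ : Cfsg.IrrCharacter G //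 χ ∈ B ∧ Cfsg.blockHeight p B (χ : G → ℂ) = h} := by
  classical
  haveI := CfsgLib.Blocks.isMaximal_of_isPModular hM
  haveI := CfsgLib.Blocks.charP_kres hM
  haveI := CfsgLib.Blocks.normal_focal_subgroupOf F
  have hc := CfsgLib.Blocks.commutator_le_focal_subgroupOf F
  letI : CommGroup (P ⧸ F.focalSubgroup.subgroupOf P) :=
    { (inferInstance : Group (P ⧸ F.focalSubgroup.subgroupOf P)) with
      mul_comm := CfsgLib.Blocks.mul_comm_quotient hc }
  let f : (P ⊓ Subgroup.centralizer (P : Set G) : Subgroup G) →* P ⧸ F.focalSubgroup.subgroupOf P :=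
    (QuotientGroup.mk' _).comp (Subgroup.inclusion inf_le_left)
  have hker : f.ker = (P ⊓ Subgroup.centralizer (P : Set G) ⊓ F.focalSubgroup).subgroupOf
      (P ⊓ Subgroup.centralizer (P : Set G)) := by
    ext z
    rw [MonoidHom.mem_ker, Subgroup.mem_subgroupOf, Subgroup.mem_inf]
    show ((Subgroup.inclusion inf_le_left z : P) : P ⧸ F.focalSubgroup.subgroupOf P) = 1 ↔ _
    rw [QuotientGroup.eq_one_iff, Subgroup.mem_subgroupOf]
    exact ⟨fun hz => ⟨z.2, hz⟩, fun hz => hz.2⟩
  rw [← hker, Subgroup.index_ker, ← CfsgLib.Blocks.index_ker_restrict f.range]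
  refine CfsgLib.Blocks.index_dvd_card_height hM hF h _ fun χ hχ _ l hl => ?_
  rw [MonoidHom.mem_ker]
  refine MonoidHom.ext fun a => ?_
  obtain ⟨z, hz⟩ := a.2
  have h1 := CfsgLib.Blocks.apply_center_of_fixes hM hF
    (l.comp (QuotientGroup.mk' (F.focalSubgroup.subgroupOf P))) (fun v hv => by
      rw [MonoidHom.comp_apply, QuotientGroup.mk'_apply,
        (QuotientGroup.eq_one_iff v).mpr (Subgroup.mem_subgroupOf.mpr hv), map_one]) hχ hl
    (Subgroup.inclusion inf_le_left z) z.2.2
  show l (a : P ⧸ F.focalSubgroup.subgroupOf P) = 1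
  rw [← hz]
  exact h1

end Cfsg.Agent.S4685
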