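import Cfsg.Statements.S4686
import Cfsg.Agent.Blocks.Defect.Nilpotent

set_option autoImplicit false
open Cfsg CfsgLib.Blocks

namespace Cfsg.Agent.S4686

/-- Fix a prime p and a maximal ideal M of the algebraic integers containing p, a p-block B of the finite group G with maximal Brauer pair (P, e) and fusion system F on P. Then B is nilpotent (for every Brauer pair (Q, f) of B the stabilizer of f in N_G(Q) is C_G(Q) extended by a p-group) if and only if F is the inner fusion system of P: its maps from each subgroup of P are exactly the conjugations by elements of P. -/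
theorem result {G : Type*} [Group G] [Fintype G] (p : ℕ) [Fact p.Prime] (M : Ideal Cfsg.AlgInt) (hM : Cfsg.IsPModular p M) (B : Set (Cfsg.IrrCharacter G)) (P : Subgroup G) (e : Set (Cfsg.IrrCharacter (Subgroup.centralizer (P : Set G)))) (hmax : Cfsg.IsMaximalBrauerPair p M B P e) (F : Cfsg.FusionSystem P) (hF : Cfsg.IsBlockFusionSystemOn p M B P e F) : Cfsg.IsNilpotentBlock p M B ↔ ∀ Q : Subgroup G, F.Hom Q = (Cfsg.innerFusionSystem P).Hom Q := by
  haveI : M.IsMaximal := hM.2.1
  haveI : CharP (kres M) p := charP_kres hM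
  have hnilI : IsNilpotentBlock p M B ↔ IsNilpotentIdem p ⊤ (topEl M B) := by
    rw [isNilpotentBlock_iff hmax.1.2.1]
    exact ⟨fun h Q f hf x _ => h Q f hf x, fun h Q f hf x => h Q f hf x trivial⟩
  have hmax' := IsMaximalBrauerPair.toIdem hmax
  have hE := isBlockIdem_topEl (M := M) hmax.1.2.1
  rw [hnilI]
  constructor
  · intro h Q
    ext φ
    rw [mem_hom_iff hF]
    constructor
    · rintro ⟨x, hx, hc⟩
      obtain ⟨u, hu, c, hcC, rfl⟩ := hc.mem_mul_of_nilpotent hE hmax' h
      refine ⟨hc.le.1, u, hu, fun q => ?_⟩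
      rw [hx]
      have := Subgroup.mem_centralizer_iff.mp hcC q q.2
      calc u * c * (q : G) * (u * c)⁻¹ = u * (c * (q : G)) * c⁻¹ * u⁻¹ := by group
        _ = u * ((q : G) * c) * c⁻¹ * u⁻¹ := by rw [this]
        _ = u * (q : G) * u⁻¹ := by group
    · rintro ⟨hQ, u, hu, hφ⟩
      exact ⟨u, hφ, carries_of_mem hmax'.1.1 hu hQ⟩
  · intro h
    refine isNilpotentIdem_of_carries hE hmax' fun Q x hc hmap hreg => ?_
    have hmem : (MulAut.conj x).toMonoidHom.comp Q.subtype ∈ F.Hom Q :=
      (mem_hom_iff hF _).mpr ⟨x, fun _ => rfl, hc⟩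
    rw [h Q] at hmem
    obtain ⟨-, u, hu, hux⟩ := hmem
    have hxN := mem_normalizer_of_map_conj_le hmap.le
    have hact : ∀ q ∈ Q, x * q * x⁻¹ = u * q * u⁻¹ := fun q hq => hux ⟨q, hq⟩
    have huN : u ∈ Subgroup.normalizer (Q : Set G) := by
      refine mem_normalizer_of_map_conj_le ?_
      rintro _ ⟨q, hq, rfl⟩
      show u * q * u⁻¹ ∈ Q
      rw [← hact q hq]
      exact (Subgroup.mem_normalizer_iff.mp hxN q).mp hq
    exact mem_centralizer_of_regular (exists_pow_eq_one_of_pair hmax'.1.1 hu) hreg hxN huN hact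

end Cfsg.Agent.S4686
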