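import Cfsg.Statements.S4687
import Cfsg.Agent.Blocks.Defect.Nilpotent

set_option autoImplicit false
open Cfsg CfsgLib.Blocks

namespace Cfsg.Agent.S4687

/-- Fix a prime p and a maximal ideal M of the algebraic integers containing p, and a p-block B of the finite group G with maximal Brauer pair (P, e), P abelian. Then B is nilpotent if and only if its inertial quotient is trivial: every element of N_G(P) stabilizing e centralizes P. -/
theorem result {G : Type*} [Group G] [Fintype G] (p : ℕ) [Fact p.Prime] (M : Ideal Cfsg.AlgInt) (hM : Cfsg.IsPModular p M) (B : Set (Cfsg.IrrCharacter G)) (P : Subgroup G) (e : Set (Cfsg.IrrCharacter (Subgroup.centralizer (P : Set G)))) (hmax : Cfsg.IsMaximalBrauerPair p M B P e) (hab : ∀ x ∈ P, ∀ y ∈ P, x * y = y * x) : Cfsg.IsNilpotentBlock p M B ↔ ∀ x : G, x ∈ Subgroup.normalizer (P : Set G) → Cfsg.StabilizesBlock (Subgroup.centralizer (P : Set G)) e x → x ∈ Subgroup.centralizer (P : Set G) := by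
  haveI : M.IsMaximal := hM.2.1
  haveI : CharP (kres M) p := charP_kres hM
  have hnilI : IsNilpotentBlock p M B ↔ IsNilpotentIdem p ⊤ (topEl M B) := by
    rw [isNilpotentBlock_iff hmax.1.2.1]
    exact ⟨fun h Q f hf x _ => h Q f hf x, fun h Q f hf x => h Q f hf x trivial⟩
  have hmax' := IsMaximalBrauerPair.toIdem hmax
  have hE := isBlockIdem_topEl (M := M) hmax.1.2.1
  have hst : ∀ x : G, (x ∈ Subgroup.normalizer (P : Set G) ∧
      StabilizesBlock (Subgroup.centralizer (P : Set G)) e x) ↔ x ∈ pairStab ⊤ P (subEl M _ e) := by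
    intro x
    rw [stabilizesBlock_iff hmax.1.1.2, mem_pairStab]
    exact ⟨fun ⟨h1, _, h3⟩ => ⟨⟨trivial, h1⟩, h3⟩,
      fun ⟨⟨_, h1⟩, h3⟩ => ⟨h1, normalizer_le_normalizer_centralizer P h1, h3⟩⟩
  have hPC : P ≤ Subgroup.centralizer (P : Set G) := fun x hx =>
    Subgroup.mem_centralizer_iff.mpr fun q hq => hab q hq x hx
  rw [hnilI]
  constructor
  · intro h x hxN hxs
    have hx := (hst x).mp ⟨hxN, hxs⟩
    rw [pairStab_eq_of_nilpotent h hmax'.1 (isDefectGroupIdem_pairStab_self hE hmax'),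
      sup_eq_left.mpr (inf_le_left.trans hPC)] at hx
    exact hx
  · intro h
    refine isNilpotentIdem_of_carries hE hmax' fun Q x hc hmap _ => ?_
    obtain ⟨f, hf, hfx⟩ := hc
    rw [hmap] at hfx
    have hy : x ∈ pairStab ⊤ Q f := mem_pairStab.mpr
      ⟨⟨trivial, mem_normalizer_of_map_conj_le hmap.le⟩, PairLE.unique hmax'.1.1 hfx hf⟩
    obtain ⟨t, ht, c, hcC, rfl⟩ := exists_mul_of_abelian hE hmax' hab hf hy
    have ht' := (hst t).mpr ht.1
    exact Subgroup.mul_mem _ (Subgroup.centralizer_le hf.le (h t ht'.1 ht'.2)) hcC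

end Cfsg.Agent.S4687
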