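import Cfsg.Statements.S4688
import Cfsg.Agent.Blocks.Defect.SubgroupTransport

set_option autoImplicit false
open Cfsg CfsgLib.Blocks

namespace Cfsg.Agent.S4688

/-- Fix a prime p and a maximal ideal M of the algebraic integers containing p, and a nilpotent p-block B of the finite group G with maximal Brauer pair (P, e). Then for every Brauer pair (Q, f) of B, f is a nilpotent block of C_G(Q); and if moreover (Q, f) ≤ (P, e), then C_P(Q) is a defect group of f as a block of C_G(Q). -/
theorem result {G : Type*} [Group G] [Fintype G] (p : ℕ) [Fact p.Prime] (M : Ideal Cfsg.AlgInt) (hM : Cfsg.IsPModular p M) (B : Set (Cfsg.IrrCharacter G)) (P : Subgroup G) (e : Set (Cfsg.IrrCharacter (Subgroup.centralizer (P : Set G)))) (hmax : Cfsg.IsMaximalBrauerPair p M B P e) (hnil : Cfsg.IsNilpotentBlock p M B) (Q : Subgroup G) (f : Set (Cfsg.IrrCharacter (Subgroup.centralizer (Q : Set G)))) (hQf : Cfsg.IsBrauerPairOf p M B Q f) : Cfsg.IsNilpotentBlock p M f ∧ (Cfsg.SubpairLE p M Q f P e → Cfsg.IsDefectGroup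 p M f ((P ⊓ Subgroup.centralizer (Q : Set G)).subgroupOf (Subgroup.centralizer (Q : Set G)))) := by
  haveI : M.IsMaximal := hM.2.1
  haveI : CharP (kres M) p := charP_kres hM
  have hmax' := IsMaximalBrauerPair.toIdem hmax
  have hE := isBlockIdem_topEl (M := M) hmax.1.2.1
  have hnilI : IsNilpotentIdem p ⊤ (topEl M B) := fun R r hR x _ =>
    (isNilpotentBlock_iff hmax.1.2.1).mp hnil R r hR x
  have hfb := hQf.1.2
  have hQp := hQf.1.1
  have hpof := (isBrauerPairOf_iff hmax.1.2.1 hfb).mp hQf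
  have hfC := isBlockIdem_subEl (M := M) hfb
  refine ⟨?_, fun hle => ?_⟩
  · rw [isNilpotentBlock_subEl_iff hfb]
    intro R r hR x hxC hxN hxr hreg
    have hRC : R ≤ Subgroup.centralizer (Q : Set G) := hR.1.2.1
    have hQC : ∀ q ∈ Q, q ∈ Subgroup.centralizer (R : Set G) := fun q hq =>
      Subgroup.mem_centralizer_iff.mpr fun a ha =>
        (Subgroup.mem_centralizer_iff.mp (hRC ha) q hq).symm
    have hRQp : IsPGroup p (R ⊔ Q : Subgroup G) :=
      IsPGroup.to_sup_of_normal_right' hR.1.1 hQp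
        (hRC.trans (Subgroup.centralizer_le_normalizer _))
    have hcent : (⊤ : Subgroup G) ⊓ Subgroup.centralizer ((R ⊔ Q : Subgroup G) : Set G) =
        Subgroup.centralizer (Q : Set G) ⊓ Subgroup.centralizer (R : Set G) := by
      rw [top_inf_eq]
      refine le_antisymm (le_inf (Subgroup.centralizer_le (SetLike.coe_subset_coe.mpr (le_sup_right : Q ≤ R ⊔ Q)))
        (Subgroup.centralizer_le (SetLike.coe_subset_coe.mpr (le_sup_left : R ≤ R ⊔ Q)))) ?_
      rintro y ⟨hy1, hy2⟩
      exact mem_centralizer_of_le_centralizer_singleton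
        (sup_le (le_centralizer_singleton_of_mem hy2) (le_centralizer_singleton_of_mem hy1))
    have hpair : IsPairIdem p ⊤ (R ⊔ Q) r := ⟨hRQp, le_top, by rw [hcent]; exact hR.1.2.2⟩
    have hsupN : R ⊔ Q ≤ Subgroup.normalizer (Q : Set G) :=
      sup_le (hRC.trans (Subgroup.centralizer_le_normalizer _)) Subgroup.le_normalizer
    have hfix : IsFixedBy (subEl M _ f) (R ⊔ Q) :=
      (hfC.mem.2.mono hRC).sup (isFixedBy_of_supported_centralizer hfC.mem.1)
    have hover : BrOver (R ⊔ Q) r (subEl M _ f) := by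
      show brTrunc (R ⊔ Q) (subEl M _ f) * r = r
      have h1 : brTrunc R (subEl M _ f) * r = r := hR.2
      rw [show brTrunc (R ⊔ Q) (subEl M _ f) = brTrunc R (subEl M _ f) from ?_, h1]
      refine MonoidAlgebra.ext (Finsupp.ext fun y => ?_)
      by_cases hy : y ∈ Subgroup.centralizer (R : Set G)
      · rw [coeff_brTrunc_of_mem _ hy]
        by_cases hyQ : y ∈ Subgroup.centralizer (Q : Set G)
        · rw [coeff_brTrunc_of_mem]
          exact mem_centralizer_of_le_centralizer_singleton
            (sup_le (le_centralizer_singleton_of_mem hy) (le_centralizer_singleton_of_mem hyQ))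
        · rw [hfC.mem.1 y hyQ, coeff_brTrunc_of_not_mem]
          exact fun h => hyQ (Subgroup.centralizer_le (SetLike.coe_subset_coe.mpr (le_sup_right : Q ≤ R ⊔ Q)) h)
      · rw [coeff_brTrunc_of_not_mem _ hy, coeff_brTrunc_of_not_mem]
        exact fun h => hy (Subgroup.centralizer_le (SetLike.coe_subset_coe.mpr (le_sup_left : R ≤ R ⊔ Q)) h)
    have hn : IsNormalPairIdem p ⊤ Q (subEl M _ f) (R ⊔ Q) r :=
      ⟨hpof.1, hpair, le_sup_right, hsupN, hfix, hover⟩
    have hof : IsPairOfIdem p ⊤ (topEl M B) (R ⊔ Q) r :=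
      ((PairLE.single hn).pairOf_iff hE hpair).mp hpof
    have hxsup : x ∈ Subgroup.normalizer ((R ⊔ Q : Subgroup G) : Set G) := by
      refine mem_normalizer_of_map_conj_le ?_
      rw [Subgroup.map_sup, map_conj_eq_self_of_mem_normalizer hxN,
        map_conj_eq_of_mem_centralizer hxC]
    exact Subgroup.centralizer_le (SetLike.coe_subset_coe.mpr (le_sup_left : R ≤ R ⊔ Q)) (hnilI _ r hof x trivial hxsup hxr hreg)
  · have hf' := (subpairLE_iff hfb hmax.1.1.2).mp hle
    refine (isDefectGroup_subgroupOf_iff inf_le_right hfb).mpr ?_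
    refine (isDefectGroupIdem_centralizer_iff hE hmax' hf').mp fun x hx => ?_
    obtain ⟨u, hu, c, hc, rfl⟩ := hx.mem_mul_of_nilpotent hE hmax' hnilI
    have hback : (P ⊓ Subgroup.centralizer ((Q.map (MulAut.conj (u * c)).toMonoidHom : Subgroup G) :
        Set G)).map (MulAut.conj u⁻¹).toMonoidHom ≤ P ⊓ Subgroup.centralizer (Q : Set G) := by
      rw [← map_conj_map_conj, map_conj_eq_of_mem_centralizer hc]
      rintro _ ⟨y, ⟨hyP, hyC⟩, rfl⟩
      show u⁻¹ * y * u⁻¹⁻¹ ∈ _
      rw [inv_inv]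
      exact ⟨P.mul_mem (P.mul_mem (P.inv_mem hu) hyP) hu, mem_centralizer_map_conj_iff.mp hyC⟩
    calc _ = Nat.card ((P ⊓ Subgroup.centralizer ((Q.map (MulAut.conj (u * c)).toMonoidHom :
            Subgroup G) : Set G)).map (MulAut.conj u⁻¹).toMonoidHom : Subgroup G) :=
          (card_map_conj _ _).symm
      _ ≤ _ := Subgroup.card_le_of_le hback

end Cfsg.Agent.S4688
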