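import Cfsg.Statements.S4690
import Cfsg.Agent.Blocks.Star.Nilpotent
import Cfsg.Agent.Eq.Def_BlockRank

set_option autoImplicit false
open Cfsg

namespace Cfsg.Agent.S4690

/-- Fix a prime p and a maximal ideal M of the algebraic integers containing p, and a nilpotent p-block B of the finite group G with defect group P. Then there is a bijection from B onto the irreducible characters of P carrying the height of each χ ∈ B to the exponent of p in the degree of its image. -/
theorem result {G : Type*} [Group G] [Fintype G] (p : ℕ) [Fact p.Prime] (M : Ideal Cfsg.AlgInt) (hM : Cfsg.IsPModular p M) (B : Set (Cfsg.IrrCharacter G)) (hnil : Cfsg.IsNilpotentBlock p M B) (P : Subgroup G) (hP : Cfsg.IsDefectGroup p M B P) : ∃ Φ : B ≃ Cfsg.IrrCharacter P, ∀ χ : B, Cfsg.blockHeight p B ((χ : Cfsg.IrrCharacter G) : G → ℂ) = (Cfsg.charDegree ((Φ χ : Cfsg.IrrCharacter P) : P → ℂ)).factorization p := by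
  classical
  haveI := CfsgLib.Blocks.isMaximal_of_isPModular hM
  haveI := CfsgLib.Blocks.charP_kres hM
  have hB := hnil.1
  obtain ⟨χ₀, hχ₀, h0⟩ := CfsgLib.Blocks.HeightZero.exists_height_zero (p := p) hB
  haveI := Fintype.ofFinite P
  obtain ⟨Φ, hΦ⟩ := CfsgLib.Blocks.exists_equiv_of_nilpotent hM hnil hP hχ₀ h0
  refine ⟨Φ.symm, fun χ => ?_⟩
  have h := hΦ (Φ.symm χ) 1 (by simp [IsPRegular, hM.1.ne_one])
  rw [Equiv.apply_symm_apply, ← CfsgLib.Chars.coe_charDegree,
    ← CfsgLib.Chars.coe_charDegree] at h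
  have h' : charDegree ((χ : IrrCharacter G) : G → ℂ) =
      charDegree ((Φ.symm χ : IrrCharacter P) : P → ℂ) * charDegree (χ₀ : G → ℂ) := by
    exact_mod_cast h
  have hmin := (CfsgLib.Blocks.HeightZero.blockHeight_eq_zero_iff' hχ₀).mp h0
  have hfac : (charDegree ((χ : IrrCharacter G) : G → ℂ)).factorization p =
      (charDegree ((Φ.symm χ : IrrCharacter P) : P → ℂ)).factorization p +
        (charDegree (χ₀ : G → ℂ)).factorization p := by
    rw [h', Nat.factorization_mul (CfsgLib.Chars.charDegree_pos _).ne'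
      (CfsgLib.Chars.charDegree_pos _).ne', Finsupp.add_apply]
  show (charDegree ((χ : IrrCharacter G) : G → ℂ)).factorization p -
      CfsgLib.Blocks.HeightZero.minExp p B = _
  rw [← hmin, hfac, Nat.add_sub_cancel]

end Cfsg.Agent.S4690
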