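import Cfsg.Statements.S4692
import Cfsg.Agent.Blocks.Defect.SubgroupTransport
import Cfsg.Agent.Blocks.Defect.OrbitBlock

set_option autoImplicit false
open Cfsg CfsgLib.Blocks

namespace Cfsg.Agent.S4692

/-- Fix a prime p and a maximal ideal M of the algebraic integers containing p. Let N be a normal subgroup of p-power index in the finite group G and c a p-block of N stable under conjugation by G, and let B be the p-block of G whose idempotent is that of c (it exists and is unique). Then c is nilpotent as a block of N if and only if B is nilpotent as a block of G. -/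
theorem result {G : Type*} [Group G] [Fintype G] (p : ℕ) [Fact p.Prime] (M : Ideal Cfsg.AlgInt) (hM : Cfsg.IsPModular p M) (N : Subgroup G) [N.Normal] (hN : ∃ k : ℕ, N.index = p ^ k) (c : Set (Cfsg.IrrCharacter N)) (hc : Cfsg.IsPBlock M c) (hst : ∀ x : G, Cfsg.StabilizesBlock N c x) (B : Set (Cfsg.IrrCharacter G)) (hB : Cfsg.IsPBlock M B) (hBc : ∀ g : G, Cfsg.blockCoeff B g = Cfsg.subgroupBlockCoeff N c g) : Cfsg.IsNilpotentBlock p M c ↔ Cfsg.IsNilpotentBlock p M B := by
  haveI : M.IsMaximal := hM.2.1
  haveI : CharP (kres M) p := charP_kres hM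
  haveI := Fintype.ofFinite N
  obtain ⟨j, hj⟩ := hN
  have hE := isBlockIdem_topEl (M := M) hB
  have hcI := isBlockIdem_subEl (M := M) hc
  have heq : topEl M B = subEl M N c :=
    MonoidAlgebra.ext (Finsupp.ext fun g => by rw [coeff_topEl, coeff_subEl, hBc])
  rw [isNilpotentBlock_subEl_iff hc, isNilpotentBlock_iff hB]
  have hKnorm : ∀ R : Subgroup G, Subgroup.centralizer (R : Set G) ≤
      Subgroup.normalizer ((N ⊓ Subgroup.centralizer (R : Set G) : Subgroup G) : Set G) := fun R x hx =>
    Subgroup.inf_normalizer_le_normalizer_inf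
      ⟨(Subgroup.normalizer_eq_top_iff.mpr ‹N.Normal›).ge trivial, Subgroup.le_normalizer hx⟩
  have hsupp : ∀ R : Subgroup G, ∀ i ∈ centerIn (kres M) (Subgroup.centralizer (R : Set G)),
      i * i = i → IsSupportedOn i (N ⊓ Subgroup.centralizer (R : Set G)) := fun R i hi hii => by
    obtain ⟨t, -, ht⟩ := (Nat.dvd_prime_pow (Fact.out : p.Prime)).mp
      (hj ▸ Subgroup.relIndex_dvd_index_of_normal N (Subgroup.centralizer (R : Set G)))
    exact (isSupportedOn_of_index_pow hM inferInstance ⟨t, ht⟩ hi hii).inf hi.1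
  constructor
  · -- pairs of `B` from pairs of `c`
    intro hnil Q s hs x hx hsx hreg
    have hxNorm := hx
    have hxN : x ∈ N := by
      rw [← QuotientGroup.eq_one_iff (N := N), ← orderOf_eq_one_iff]
      refine Nat.eq_one_of_dvd_coprimes
        (((Fact.out : p.Prime).coprime_iff_not_dvd.mpr hreg).pow_left j) ?_
        (orderOf_map_dvd (QuotientGroup.mk' N) x)
      rw [← hj, Subgroup.index_eq_card]
      exact orderOf_dvd_natCard _
    have hQNorm : Q ≤ Subgroup.normalizer ((Q ⊓ N : Subgroup G) : Set G) := fun q hq =>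
      Subgroup.inf_normalizer_le_normalizer_inf
        ⟨Subgroup.le_normalizer hq, (Subgroup.normalizer_eq_top_iff.mpr ‹N.Normal›).ge trivial⟩
    obtain ⟨t, ht, -⟩ := hs.1.existsUnique_le (inf_le_left : Q ⊓ N ≤ Q)
    have hxR : x ∈ Subgroup.normalizer ((Q ⊓ N : Subgroup G) : Set G) :=
      Subgroup.inf_normalizer_le_normalizer_inf
        ⟨hxNorm, (Subgroup.normalizer_eq_top_iff.mpr ‹N.Normal›).ge trivial⟩
    have hxt : conjA x t = t := by
      have h := ht.conjA (x := x) trivial
      rw [map_conj_eq_self_of_mem_normalizer hxR, map_conj_eq_self_of_mem_normalizer hxNorm,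
        hsx] at h
      exact PairLE.unique hs.1 h ht
    have htp := ht.isPair_left hs.1
    have htb := htp.2.2
    rw [top_inf_eq] at htb
    have htof := (ht.pairOf_iff hE hs.1).mpr hs
    obtain ⟨f, hf, hft⟩ := exists_block_mul_ne_zero (H := N ⊓ Subgroup.centralizer ((Q ⊓ N :
      Subgroup G) : Set G)) htb.ne_zero
    set R := Q ⊓ N with hR
    have htf0 : t * f ≠ 0 := by
      rwa [← (commute_of_isFixedBy hf.mem.1 (htb.mem.2.mono inf_le_right)).eq]
    have htf : t * f = f :=
      (hf.2.2.2 t ⟨hsupp R t htb.mem htb.idem, htb.mem.2.mono inf_le_right⟩ htb.idem).resolve_left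
        htf0
    have hT : t = orbitSum (Subgroup.centralizer (R : Set G)) f := by
      have hs0 := isBlockIdem_orbitSum inf_le_right (hKnorm R) hf (hsupp R)
      refine htb.eq_of_mul_ne_zero hs0 ?_
      rw [← (commute_centerIn hs0.mem htb.mem).eq,
        mul_orbitSum_eq_self inf_le_right (hKnorm R) hf htb htf0]
      exact htb.ne_zero
    have hxK : x ∈ Subgroup.normalizer ((N ⊓ Subgroup.centralizer (R : Set G) : Subgroup G) :
        Set G) :=
      Subgroup.inf_normalizer_le_normalizer_inf
        ⟨Subgroup.le_normalizer hxN, normalizer_le_normalizer_centralizer R hxR⟩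
    have hxf : ∃ d ∈ Subgroup.centralizer (R : Set G), conjA d f = conjA x f := by
      have hxb := hf.conjA x
      rw [map_conj_eq_self_of_mem_normalizer hxK] at hxb
      have hne : t * conjA x f ≠ 0 := by
        rw [← hxt, ← map_mul, htf]
        exact fun h => hf.ne_zero ((conjA x).map_eq_zero_iff.mp h)
      obtain ⟨a, ha, hane⟩ : ∃ a ∈ conjOrbit (Subgroup.centralizer (R : Set G)) f,
          a * conjA x f ≠ 0 := by
        by_contra h
        simp only [not_exists, not_and, not_not] at h
        exact hne (by rw [hT, orbitSum, Finset.sum_mul]; exact Finset.sum_eq_zero h)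
      obtain ⟨d, hd, rfl⟩ := mem_conjOrbit.mp ha
      exact ⟨d, hd, (isBlockIdem_of_mem_conjOrbit (hKnorm R) hf ha).eq_of_mul_ne_zero hxb hane⟩
    obtain ⟨d, hd, hdx⟩ := hxf
    have hfix : ∀ z ∈ N ⊓ Subgroup.centralizer (R : Set G), conjA z f = f :=
      isFixedBy_iff_conjA.mp hf.mem.2
    have hpow : ∀ i : ℕ, conjA (x ^ i) f = conjA (d ^ i) f := by
      intro i
      induction i with
      | zero => simp
      | succ i ih =>
        have hdi : d ^ i ∈ Subgroup.centralizer (R : Set G) := Subgroup.pow_mem _ hd i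
        have hcomm : (d ^ i * x)⁻¹ * (x * d ^ i) ∈ N ⊓ Subgroup.centralizer (R : Set G) := by
          constructor
          · rw [show (d ^ i * x)⁻¹ * (x * d ^ i) = x⁻¹ * ((d ^ i)⁻¹ * x * (d ^ i)) by group]
            exact N.mul_mem (N.inv_mem hxN)
              (by simpa using ‹N.Normal›.conj_mem x hxN (d ^ i)⁻¹)
          · rw [show (d ^ i * x)⁻¹ * (x * d ^ i) = (x⁻¹ * (d ^ i)⁻¹ * x) * d ^ i by group]
            refine Subgroup.mul_mem _ ?_ hdi
            exact (Subgroup.mem_normalizer_iff''.mp (normalizer_le_normalizer_centralizer R hxR)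
              _).mp (Subgroup.inv_mem _ hdi)
        calc conjA (x ^ (i + 1)) f = conjA x (conjA (x ^ i) f) := by rw [conjA_conjA, pow_succ']
          _ = conjA (x * d ^ i) f := by rw [ih, conjA_conjA]
          _ = conjA ((d ^ i * x) * ((d ^ i * x)⁻¹ * (x * d ^ i))) f := by rw [mul_inv_cancel_left]
          _ = conjA (d ^ i) (conjA d f) := by rw [← conjA_conjA, hfix _ hcomm, ← conjA_conjA, hdx]
          _ = conjA (d ^ (i + 1)) f := by rw [conjA_conjA, pow_succ]
    have hdm : conjA (d ^ orderOf x) f = f := by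
      rw [← hpow, pow_orderOf_eq_one, conjA_one_left]
    have hdq : conjA (d ^ p ^ j) f = f :=
      hfix _ ⟨hj ▸ Subgroup.pow_index_mem N d, Subgroup.pow_mem _ hd _⟩
    have hd1 : conjA d f = f := by
      have hcop : Nat.gcd (orderOf x) (p ^ j) = 1 :=
        (((Fact.out : p.Prime).coprime_iff_not_dvd.mpr hreg).pow_left j).symm
      have hmem : d ∈ conjStab f := by
        have h1 : d ^ ((orderOf x : ℕ) : ℤ) ∈ conjStab f := by
          rw [zpow_natCast]; exact hdm
        have h2 : d ^ ((p ^ j : ℕ) : ℤ) ∈ conjStab f := by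
          rw [zpow_natCast]; exact hdq
        have h3 := Nat.gcd_eq_gcd_ab (orderOf x) (p ^ j)
        rw [hcop] at h3
        rw [← zpow_one d, show (1 : ℤ) = ((1 : ℕ) : ℤ) from rfl, h3, zpow_add, zpow_mul, zpow_mul]
        exact (conjStab f).mul_mem (Subgroup.zpow_mem _ h1 _) (Subgroup.zpow_mem _ h2 _)
      exact hmem
    have hxC : x ∈ Subgroup.centralizer (R : Set G) := by
      refine hnil R f ⟨⟨htp.1, inf_le_right, hf⟩, ?_⟩ x hxN hxR (by rw [← hdx, hd1]) hreg
      show brTrunc R (subEl M N c) * f = f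
      have h1 : brTrunc R (topEl M B) * t = t := htof.2
      rw [← heq]
      conv_lhs => rw [← htf, ← mul_assoc, h1]
      exact htf
    rw [Subgroup.mem_centralizer_iff]
    intro q hq
    have hr : x * q * x⁻¹ * q⁻¹ ∈ R :=
      ⟨Q.mul_mem ((Subgroup.mem_normalizer_iff.mp hxNorm q).mp hq) (Q.inv_mem hq), by
        have h := N.mul_mem hxN (‹N.Normal›.conj_mem _ (N.inv_mem hxN) q)
        simpa [mul_assoc] using h⟩
    set r := x * q * x⁻¹ * q⁻¹ with hr'
    have hrx : r * x = x * r := Subgroup.mem_centralizer_iff.mp hxC r hr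
    have hiter : ∀ i : ℕ, x ^ i * q * (x ^ i)⁻¹ = r ^ i * q := by
      intro i
      induction i with
      | zero => simp
      | succ i ih =>
        have hcm : Commute x (r ^ i) := (Commute.pow_right (show Commute x r from hrx.symm) i)
        calc x ^ (i + 1) * q * (x ^ (i + 1))⁻¹ = x * (x ^ i * q * (x ^ i)⁻¹) * x⁻¹ := by
              rw [pow_succ']; group
          _ = x * (r ^ i * q) * x⁻¹ := by rw [ih]
          _ = x * r ^ i * (q * x⁻¹) := by group
          _ = r ^ i * x * (q * x⁻¹) := by rw [hcm.eq]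
          _ = r ^ i * (x * q * x⁻¹ * q⁻¹) * q := by group
          _ = r ^ (i + 1) * q := by rw [← hr', pow_succ]
    have hrm : r ^ orderOf x = 1 := by
      have h := hiter (orderOf x)
      rw [pow_orderOf_eq_one, one_mul, inv_one, mul_one] at h
      exact mul_right_cancel (h.symm.trans (one_mul q).symm)
    obtain ⟨i, hi⟩ := hs.1.1 ⟨r, hr.1⟩
    have hr1 : r = 1 := orderOf_eq_one_iff.mp (Nat.eq_one_of_dvd_coprimes
      ((((Fact.out : p.Prime).coprime_iff_not_dvd.mpr hreg)).pow_left i)
      (orderOf_dvd_of_pow_eq_one (by simpa using congrArg Subtype.val hi))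
      (orderOf_dvd_of_pow_eq_one hrm))
    have h := hiter 1
    rw [pow_one, pow_one, hr1, one_mul] at h
    calc q * x = x * q * x⁻¹ * x := by rw [h]
      _ = x * q := by group
  · -- pairs of `c` from pairs of `B`
    intro hnil Q f hf x hxN hx hfx hreg
    obtain ⟨⟨hQp, hQN, hfb⟩, hover⟩ := hf
    have hs := isBlockIdem_orbitSum (L := Subgroup.centralizer (Q : Set G)) inf_le_right
      (hKnorm Q) hfb (hsupp Q)
    have hpair : IsPairOfIdem p ⊤ (topEl M B) Q (orbitSum (Subgroup.centralizer (Q : Set G)) f) := by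
      refine ⟨⟨hQp, le_top, by rw [top_inf_eq]; exact hs⟩, ?_⟩
      show brTrunc Q (topEl M B) * _ = _
      rw [orbitSum, Finset.mul_sum]
      refine Finset.sum_congr rfl fun a ha => ?_
      obtain ⟨n, hn, rfl⟩ := mem_conjOrbit.mp ha
      have hfix := isFixedBy_iff_conjA.mp (brTrunc_mem_centerIn (Q := Q) hE.mem).2 n ⟨trivial, hn⟩
      conv_lhs => rw [← hfix]
      rw [← map_mul, heq]
      exact congrArg (conjA n) hover
    have hxC : x ∈ Subgroup.normalizer ((Subgroup.centralizer (Q : Set G) : Subgroup G) : Set G) :=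
      normalizer_le_normalizer_centralizer Q hx
    have hxs : conjA x (orbitSum (Subgroup.centralizer (Q : Set G)) f) =
        orbitSum (Subgroup.centralizer (Q : Set G)) f := by
      have hb := hs.conjA x
      rw [map_conj_eq_self_of_mem_normalizer hxC] at hb
      have h1 := orbitSum_mul_of_mem (hKnorm Q) hfb
        (self_mem_conjOrbit (Subgroup.centralizer (Q : Set G)) f)
      refine hb.eq_of_mul_ne_zero hs fun h0 => hfb.ne_zero ?_
      calc f = conjA x (orbitSum (Subgroup.centralizer (Q : Set G)) f) *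
            (orbitSum (Subgroup.centralizer (Q : Set G)) f * f) := by
            rw [h1]
            conv_rhs => arg 2; rw [← hfx]
            rw [← map_mul, h1, hfx]
        _ = 0 := by rw [← mul_assoc, h0, zero_mul]
    exact hnil Q _ hpair x hx hxs hreg

end Cfsg.Agent.S4692
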