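import Cfsg.Statements.S4693
import Cfsg.Agent.Blocks.Defect.SubgroupTransport

set_option autoImplicit false
open Cfsg CfsgLib.Blocks
open scoped Pointwise

namespace Cfsg.Agent.S4693

/-- Fix a prime p and a maximal ideal M of the algebraic integers containing p, a p-block B of the finite group G with maximal Brauer pair (P, e) and fusion system F on P, and a Brauer pair (Q, f) ≤ (P, e) with Q centric in F. Suppose every element of G normalizes Q and stabilizes f. Then the idempotent of B agrees with that of f modulo M at every element of G, and f is the idempotent of a nilpotent block of Q·C_G(Q): some p-block of Q·C_G(Q) has the idempotent coefficients of f and is nilpotent. -/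
theorem result {G : Type*} [Group G] [Fintype G] (p : ℕ) [Fact p.Prime] (M : Ideal Cfsg.AlgInt) (hM : Cfsg.IsPModular p M) (B : Set (Cfsg.IrrCharacter G)) (P : Subgroup G) (e : Set (Cfsg.IrrCharacter (Subgroup.centralizer (P : Set G)))) (hmax : Cfsg.IsMaximalBrauerPair p M B P e) (F : Cfsg.FusionSystem P) (hF : Cfsg.IsBlockFusionSystemOn p M B P e F) (Q : Subgroup G) (f : Set (Cfsg.IrrCharacter (Subgroup.centralizer (Q : Set G)))) (hQP : Q ≤ P) (hf : Cfsg.IsPBlock M f) (hle : Cfsg.SubpairLE p M Q f P e) (hcen : F.IsCentric Q) (hG : ∀ x : G, x ∈ Subgroup.normalizer (Q : Set G) ∧ Cfsg.StabilizesBlock (Subgroup.centralizer (Q : Set G)) f x) : (∀ g : G, Cfsg.MemLocalIdeal M (Cfsg.blockCoeff B g - Cfsg.subgroupBlockCoeff (Subgroup.centralizer (Q : Set G)) f g)) ∧ ∃ F' : Set (Cfsg.IrrCharacter ↥(Q ⊔ Subgroup.centralizer (Q : Set G))), Cfsg.IsPBlock M F' ∧ (∀ t : ↥(Q ⊔ Subgroup.centralizer (Q : Set G)), Cfsg.blockCoeff F' t = Cfsg.subgroupBlockCoeff (Subgroup.centralizer (Q : Set G)) f (t : G)) ∧ Cfsg.IsNilpotentBlock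 p M F' := by
  haveI : M.IsMaximal := hM.2.1
  haveI : CharP (kres M) p := charP_kres hM
  have hmax' := IsMaximalBrauerPair.toIdem hmax
  have hB := hmax.1.2.1
  have hE := isBlockIdem_topEl (M := M) hB
  have hf' := (subpairLE_iff hf hmax.1.1.2).mp hle
  have hp := hf'.isPair_left hmax'.1.1
  have hfC := isBlockIdem_subEl (M := M) hf
  have hnorm : (⊤ : Subgroup G) ≤ Subgroup.normalizer (Q : Set G) := fun x _ => (hG x).1
  have hstab : pairStab ⊤ Q (subEl M _ f) = ⊤ := eq_top_iff.mpr fun x _ =>
    mem_pairStab.mpr ⟨⟨trivial, (hG x).1⟩, ((stabilizesBlock_iff hf x).mp (hG x).2).2⟩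
  have hbT := hp.isBlockIdem_pairStab
  rw [hstab] at hbT
  have hpof := (hf'.pairOf_iff hE hmax'.1.1).mpr hmax'.1
  have heq : topEl M B = subEl M _ f := by
    refine hE.eq_of_mul_ne_zero hbT ?_
    have h1 : brTrunc Q (topEl M B) * subEl M _ f = subEl M _ f := hpof.2
    rw [hE.brTrunc_eq_self hp.1 le_top hnorm] at h1
    rw [h1]
    exact hbT.ne_zero
  refine ⟨fun g => ?_, ?_⟩
  · rw [← redC_eq_redC_iff (memLocalRing_blockCoeff hB g) (memLocalRing_subgroupBlockCoeff hf g),
      ← coeff_topEl, ← coeff_subEl, heq]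
  · have hCL : Subgroup.centralizer (Q : Set G) ≤ Q ⊔ Subgroup.centralizer (Q : Set G) :=
      le_sup_right
    have hLN : Q ⊔ Subgroup.centralizer (Q : Set G) ≤ Subgroup.normalizer (Q : Set G) :=
      le_top.trans hnorm
    have hfixL : IsFixedBy (subEl M _ f) (Q ⊔ Subgroup.centralizer (Q : Set G)) :=
      hbT.mem.2.mono le_top
    have hbL : IsBlockIdem (Q ⊔ Subgroup.centralizer (Q : Set G)) (subEl M _ f) :=
      hp.2.2.isBlockIdem_of_fixed hp.1 le_sup_left le_top (by rw [top_inf_eq]; exact hCL) hLN hfixL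
    obtain ⟨F', hF', hFe⟩ := exists_subEl_eq hbL
    refine ⟨F', hF', fun t => ?_, ?_⟩
    · rw [← subgroupBlockCoeff_eq_of_subEl_eq hCL
        (hLN.trans (normalizer_le_normalizer_centralizer Q)) hF' hf hFe]
      simp [subgroupBlockCoeff]
    · have hfeq : ∀ {a : MonoidAlgebra (kres M) G}, IsNilpotentIdem p
          (Q ⊔ Subgroup.centralizer (Q : Set G)) a → a = subEl M _ F' → IsNilpotentBlock p M F' :=
        fun h ha => (isNilpotentBlock_subEl_iff hF').mpr (ha ▸ h)
      refine hfeq (a := subEl M _ f) ?_ hFe.symm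
      have hcen := (isCentric_iff hF hf').mp hcen
      obtain ⟨D, hD⟩ := hbL.exists_defectGroup p
      have hQD := hbL.normal_le_defectGroup hp.1 le_sup_left hLN hD
      have hDeq : D ≤ Q := by
        have hne : brTrunc (D ⊓ Subgroup.centralizer (Q : Set G)) (subEl M _ f) ≠ 0 := fun h0 =>
          hD.2.2.1 (by rw [← brTrunc_brTrunc (inf_le_left :
            D ⊓ Subgroup.centralizer (Q : Set G) ≤ D), h0, map_zero])
        obtain ⟨c, hc, hle⟩ := hcen.2.2.2 _ inf_le_right (hD.2.1.to_le inf_le_left) hne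
        have hkey : ∀ y ∈ D, y ∈ Subgroup.centralizer (Q : Set G) → y ∈ Q := by
          intro y hy hyC
          have h1 := hle ⟨y, ⟨hy, hyC⟩, rfl⟩
          simp only [MulEquiv.coe_toMonoidHom, MulAut.conj_apply] at h1
          have h2 := Subgroup.mem_centralizer_iff.mp hc _ h1.1
          have h3 : y = c * y * c⁻¹ := by
            calc y = c⁻¹ * ((c * y * c⁻¹) * c) := by group
              _ = c⁻¹ * (c * (c * y * c⁻¹)) := by rw [h2]
              _ = c * y * c⁻¹ := by group
          rw [h3]
          exact h1.1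
        intro d hd
        have hd' : d ∈ (Q : Set G) * (Subgroup.centralizer (Q : Set G) : Set G) := by
          rw [← Subgroup.coe_mul_of_left_le_normalizer_right _ _
            (Subgroup.le_normalizer.trans (normalizer_le_normalizer_centralizer Q))]
          exact hD.1 hd
        obtain ⟨q, hq, z, hz, rfl⟩ := Set.mem_mul.mp hd'
        refine Q.mul_mem hq (hkey z ?_ hz)
        have h4 := D.mul_mem (D.inv_mem (hQD hq)) hd
        rwa [inv_mul_cancel_left] at h4
      intro R r hR x hx hxN _ hreg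
      have hRne : brTrunc R (subEl M _ f) ≠ 0 := fun h0 => by
        have h1 : brTrunc R (subEl M _ f) * r = r := hR.2
        rw [h0, zero_mul] at h1
        exact hR.1.2.2.ne_zero h1.symm
      obtain ⟨t, ht, hle⟩ := hD.2.2.2 R hR.1.2.1 hR.1.1 hRne
      have hRQ : R ≤ Q := by
        intro a ha
        have h1 : t * a * t⁻¹ ∈ Q := hDeq (hle ⟨a, ha, rfl⟩)
        exact (Subgroup.mem_normalizer_iff.mp (hLN ht) a).mpr h1
      have hx' : x ∈ (Q : Set G) * (Subgroup.centralizer (Q : Set G) : Set G) := by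
        rw [← Subgroup.coe_mul_of_left_le_normalizer_right _ _
          (Subgroup.le_normalizer.trans (normalizer_le_normalizer_centralizer Q))]
        exact hx
      obtain ⟨q, hq, c, hc, rfl⟩ := Set.mem_mul.mp hx'
      have hact : ∀ a ∈ R, q * c * a * (q * c)⁻¹ = q * a * q⁻¹ := fun a ha => by
        have hac := Subgroup.mem_centralizer_iff.mp hc a (hRQ ha)
        calc q * c * a * (q * c)⁻¹ = q * (c * a) * c⁻¹ * q⁻¹ := by group
          _ = q * (a * c) * c⁻¹ * q⁻¹ := by rw [hac]
          _ = q * a * q⁻¹ := by group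
      have hqN : q ∈ Subgroup.normalizer (R : Set G) := by
        refine mem_normalizer_of_map_conj_le ?_
        rintro _ ⟨a, ha, rfl⟩
        show q * a * q⁻¹ ∈ R
        rw [← hact a ha]
        exact (Subgroup.mem_normalizer_iff.mp hxN a).mp ha
      exact mem_centralizer_of_regular (exists_pow_eq_one_of_pair hp hq) hreg hxN hqN hact

end Cfsg.Agent.S4693
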