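import Cfsg.Statements.S4694
import Cfsg.Agent.Blocks.Defect.CentralDefect
import Cfsg.Agent.Blocks.Defect.LocalBlocks
import Cfsg.Agent.Chars.Induced.Ito
import Cfsg.Agent.Blocks.Covering.Basic

set_option autoImplicit false
open Cfsg CfsgLib CfsgLib.Blocks

namespace Cfsg.Agent.S4694

/-- Fix a prime p and a maximal ideal M of the algebraic integers containing p, a p-block B of the finite group G and a Brauer pair (Q, e) of B. Let T be the stabilizer of e in N_G(Q) and suppose that (Q, e) carries a weight: the block of T whose idempotent is that of e contains an irreducible character χ that is constant on the cosets of Q and whose degree has p-part equal to the p-part of the index of Q in T. Then Z(Q) is a defect group of e as a block of C_G(Q), and Q is the largest normal p-subgroup of T: every p-subgroup of T normalized by T lies in Q. -/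
theorem result {G : Type*} [Group G] [Fintype G] (p : ℕ) [Fact p.Prime] (M : Ideal Cfsg.AlgInt) (hM : Cfsg.IsPModular p M) (B : Set (Cfsg.IrrCharacter G)) (Q : Subgroup G) (e : Set (Cfsg.IrrCharacter (Subgroup.centralizer (Q : Set G)))) (hQe : Cfsg.IsBrauerPairOf p M B Q e) (T : Subgroup G) (hT : ∀ y : G, y ∈ T ↔ y ∈ Subgroup.normalizer (Q : Set G) ∧ Cfsg.StabilizesBlock (Subgroup.centralizer (Q : Set G)) e y) (F' : Set (Cfsg.IrrCharacter T)) (hF' : Cfsg.IsPBlock M F') (hF'e : ∀ t : T, Cfsg.blockCoeff F' t = Cfsg.subgroupBlockCoeff (Subgroup.centralizer (Q : Set G)) e (t : G)) (χ : Cfsg.IrrCharacter T) (hχ : χ ∈ F') (hχQ : ∀ q : G, q ∈ Q → ∀ t : T, ∀ t' : T, (t' : G) = q * (t : G) → (χ : T → ℂ) t' = (χ : T → ℂ) t) (hdeg : (Cfsg.charDegree (χ : T → ℂ)).factorization p + (Nat.card Q).factorization p = (Nat.card T).factorization p) : Cfsg.IsDefectGroup p M e ((Q ⊓ Subgroup.centralizer (Q : Set G)).subgroupOf (Subgroup.centralizer (Q : Set G))) ∧ ∀ R : Subgroup G, R ≤ T → IsPGroup p R → (∀ t ∈ T, t ∈ Subgroup.normalizer (R : Set G))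 → R ≤ Q := by
  haveI : M.IsMaximal := hM.2.1
  haveI : CharP (kres M) p := charP_kres hM
  classical
  obtain ⟨⟨hQp, he⟩, -, -⟩ := hQe
  haveI : Fintype T := Fintype.ofFinite T
  have hp' := (isBrauerPair_iff (M := M) he).mp ⟨hQp, he⟩
  have hTs := eq_pairStab (M := M) he hT
  have hCT : Subgroup.centralizer (Q : Set G) ≤ T := by rw [hTs]; exact centralizer_le_pairStab hp'
  have hQT : Q ≤ T := by rw [hTs]; exact hp'.le_pairStab
  have hTN : T ≤ Subgroup.normalizer (Q : Set G) := by
    rw [hTs]; exact pairStab_le_normalizer _ _ _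
  haveI : (Q.subgroupOf T).Normal := (Subgroup.normal_subgroupOf_iff_le_normalizer hQT).mpr hTN
  have hker : Q.subgroupOf T ≤ Chars.charKer (χ : T → ℂ) := fun q hq =>
    (Chars.mem_charKer_iff (Chars.isCharacter_coe χ)).2 (hχQ q hq 1 q (by simp))
  obtain ⟨ψ, hψ⟩ := Chars.exists_inflate_eq (Q.subgroupOf T) χ hker
  have hQcard : Nat.card (Q.subgroupOf T) = Nat.card Q :=
    Nat.card_congr (Subgroup.subgroupOfEquivOfLe hQT).toEquiv
  have hψdeg : (charDegree (ψ : T ⧸ Q.subgroupOf T → ℂ)).factorization p =
      (Nat.card (T ⧸ Q.subgroupOf T)).factorization p := by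
    rw [← Chars.charDegree_inflate (Q.subgroupOf T) ψ, hψ, ← Subgroup.index_eq_card]
    rw [← Subgroup.card_mul_index (Q.subgroupOf T), Nat.factorization_mul Nat.card_pos.ne'
      Subgroup.index_ne_zero_of_finite, Finsupp.add_apply, hQcard] at hdeg
    omega
  -- constituents of the restriction to a normal subgroup of the quotient have full `p`-part
  have hcons : ∀ (N : Subgroup (T ⧸ Q.subgroupOf T)), N.Normal → ∀ [Fintype N]
      (η : IrrCharacter N), classInner (fun n : N => (ψ : T ⧸ Q.subgroupOf T → ℂ) n) (η : N → ℂ) ≠ 0 →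
      (Nat.card N).factorization p ≤ (charDegree (η : N → ℂ)).factorization p := by
    intro N hN _ η hη
    haveI := hN
    haveI := Fintype.ofFinite (T ⧸ Q.subgroupOf T)
    have h := (Nat.factorization_le_iff_dvd (Chars.charDegree_pos ψ).ne'
      (mul_ne_zero (Chars.charDegree_pos η).ne' Subgroup.index_ne_zero_of_finite)).2
      (Chars.Induced.charDegree_dvd_mul_index ψ η ((BlocksCover.mult_ne_zero_iff ψ η).1 hη)) p
    rw [hψdeg, ← Subgroup.card_mul_index N, Nat.factorization_mul Nat.card_pos.ne'
      Subgroup.index_ne_zero_of_finite, Nat.factorization_mul (Chars.charDegree_pos η).ne'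
      Subgroup.index_ne_zero_of_finite, Finsupp.add_apply, Finsupp.add_apply] at h
    omega
  refine ⟨?_, fun R hRT hRp hRn => ?_⟩
  · set π : (Subgroup.centralizer (Q : Set G)) →* T ⧸ Q.subgroupOf T := (QuotientGroup.mk' _).comp (Subgroup.inclusion hCT) with hπ
    set N := π.range with hN
    haveI : Fintype N := Fintype.ofFinite N
    have hNn : N.Normal := by
      have h1 : N = ((Subgroup.centralizer (Q : Set G)).subgroupOf T).map (QuotientGroup.mk' (Q.subgroupOf T)) := by
        rw [hN, hπ, MonoidHom.range_comp]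
        congr 1
        exact Subgroup.inclusion_range hCT
      rw [h1]
      exact Subgroup.Normal.map ((Subgroup.normal_subgroupOf_iff_le_normalizer hCT).mpr
        (hTN.trans (normalizer_le_normalizer_centralizer Q))) _
        (QuotientGroup.mk'_surjective _)
    -- the idempotent of `e` does not kill `χ`
    have homega : omega (χ : T → ℂ) (setIdem F') = 1 := by
      rw [omega_setIdem, if_pos hχ]
    have hsum : ∑ c : (Subgroup.centralizer (Q : Set G)), blockCoeff e c * (χ : T → ℂ) (Subgroup.inclusion hCT c) /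
        (χ : T → ℂ) 1 = 1 := by
      rw [← homega, omega_apply]
      refine Fintype.sum_of_injective (Subgroup.inclusion hCT) (Subgroup.inclusion_injective hCT) _ _
        ?_ fun c => ?_
      · intro t ht
        have htC : (t : G) ∉ (Subgroup.centralizer (Q : Set G)) := fun h => ht ⟨⟨t, h⟩, rfl⟩
        have h0 : blockCoeff F' t = 0 := by
          rw [hF'e]
          simp [subgroupBlockCoeff, htC]
        simp [setIdem, h0]
      · have h0 : blockCoeff F' (Subgroup.inclusion hCT c) = blockCoeff e c := by
          rw [hF'e]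
          simp [subgroupBlockCoeff]
        simp [setIdem, h0]
    have hres : ∀ c : (Subgroup.centralizer (Q : Set G)), (χ : T → ℂ) (Subgroup.inclusion hCT c) =
        ∑ η : IrrCharacter N, classInner (fun n : N => (ψ : T ⧸ Q.subgroupOf T → ℂ) n) (η : N → ℂ) *
          (η : N → ℂ) (π.rangeRestrict c) := fun c => by
      rw [← hψ, Chars.inflate_apply]
      exact Chars.eq_sum_classInner_mul (isClassFunction_of_isCharacter (Chars.isCharacter_restrict (Chars.isCharacter_coe ψ) N)) (π.rangeRestrict c)
    obtain ⟨η, hη, hne⟩ : ∃ η : IrrCharacter N,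
        classInner (fun n : N => (ψ : T ⧸ Q.subgroupOf T → ℂ) n) (η : N → ℂ) ≠ 0 ∧
          ∑ c : (Subgroup.centralizer (Q : Set G)), blockCoeff e c * (η : N → ℂ) (π.rangeRestrict c) ≠ 0 := by
      by_contra hcon
      simp only [not_exists, not_and, not_not] at hcon
      rw [← Finset.sum_div] at hsum
      simp only [hres, Finset.mul_sum] at hsum
      rw [Finset.sum_comm, Finset.sum_eq_zero, zero_div] at hsum
      · exact zero_ne_one hsum
      · intro η _
        by_cases h : classInner (fun n : N => (ψ : T ⧸ Q.subgroupOf T → ℂ) n) (η : N → ℂ) = 0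
        · simp [h]
        · rw [Finset.sum_congr rfl fun c _ => mul_left_comm _ _ _, ← Finset.mul_sum, hcon η h,
            mul_zero]
    set θ : IrrCharacter (Subgroup.centralizer (Q : Set G)) := ⟨fun c => (η : N → ℂ) (π.rangeRestrict c),
      Chars.isIrrCharacter_comp η.2 π.rangeRestrict π.rangeRestrict_surjective⟩ with hθ
    have hθe : θ ∈ e := by
      by_contra h
      apply hne
      have h0 := omega_setIdem e θ
      rw [if_neg h, omega_apply, ← Finset.sum_div, div_eq_zero_iff] at h0
      exact h0.resolve_right (apply_one_ne_zero θ.2)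
    have hkerπ : π.ker = Q.subgroupOf (Subgroup.centralizer (Q : Set G)) := by
      ext c
      rw [MonoidHom.mem_ker, hπ, MonoidHom.comp_apply, QuotientGroup.mk'_apply,
        QuotientGroup.eq_one_iff]
      rfl
    have hcardC : Nat.card (Subgroup.centralizer (Q : Set G)) = Nat.card (Q.subgroupOf (Subgroup.centralizer (Q : Set G))) * Nat.card N := by
      rw [← hkerπ, hN, ← Subgroup.index_ker, Subgroup.card_mul_index]
    have hdegθ : (charDegree (θ : (Subgroup.centralizer (Q : Set G)) → ℂ)).factorization p +
        (Nat.card ((Q ⊓ (Subgroup.centralizer (Q : Set G))).subgroupOf (Subgroup.centralizer (Q : Set G)))).factorization p = (Nat.card (Subgroup.centralizer (Q : Set G))).factorization p := by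
      have h1 : charDegree (θ : (Subgroup.centralizer (Q : Set G)) → ℂ) = charDegree (η : N → ℂ) := by
        have h2 : (charDegree (θ : (Subgroup.centralizer (Q : Set G)) → ℂ) : ℂ) = (charDegree (η : N → ℂ) : ℂ) := by
          rw [Chars.coe_charDegree, Chars.coe_charDegree]
          show (η : N → ℂ) (π.rangeRestrict 1) = _
          rw [map_one]
        exact_mod_cast h2
      rw [h1, Subgroup.inf_subgroupOf_right, hcardC, Nat.factorization_mul Nat.card_pos.ne'
        Nat.card_pos.ne', Finsupp.add_apply, add_comm]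
      congr 1
      refine le_antisymm ((Nat.factorization_le_iff_dvd (Chars.charDegree_pos η).ne'
        Nat.card_pos.ne').2 (Chars.charDegree_dvd_card η) p) (hcons N hNn η hη)
    rw [eq_blockOf_of_mem he hθe]
    refine isDefectGroup_of_central_defect_zero hM
      ((hp'.1.to_le inf_le_left).of_equiv (Subgroup.subgroupOfEquivOfLe inf_le_right).symm) ?_ θ ?_
      hdegθ
    · intro z hz
      rw [Subgroup.mem_center_iff]
      exact fun c => Subtype.ext (Subgroup.mem_centralizer_iff.mp c.2 _ hz.1).symm
    · intro z hz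
      show (η : N → ℂ) (π.rangeRestrict z) = (η : N → ℂ) (π.rangeRestrict 1)
      have hzk : z ∈ π.ker := by rw [hkerπ]; exact hz.1
      rw [show π.rangeRestrict z = π.rangeRestrict 1 from
        Subtype.ext ((MonoidHom.mem_ker.mp hzk).trans (map_one π).symm)]
  · haveI : (R.subgroupOf T).Normal :=
      (Subgroup.normal_subgroupOf_iff_le_normalizer hRT).mpr fun t ht => hRn t ht
    set N := (R.subgroupOf T).map (QuotientGroup.mk' (Q.subgroupOf T)) with hN
    haveI : Fintype N := Fintype.ofFinite N
    have hNn : N.Normal := Subgroup.Normal.map inferInstance _ (QuotientGroup.mk'_surjective _)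
    have hNp : IsPGroup p N := (hRp.of_equiv (Subgroup.subgroupOfEquivOfLe hRT).symm).map _
    haveI := Fintype.ofFinite (T ⧸ Q.subgroupOf T)
    obtain ⟨η, hη⟩ := BlocksCover.exists_constituent ψ N
    have hbot : N = ⊥ := by
      obtain ⟨n, hn⟩ := IsPGroup.iff_card.mp hNp
      have h1 := hcons N hNn η hη
      rw [hn, Nat.factorization_pow, Finsupp.smul_apply, (Fact.out : p.Prime).factorization_self,
        smul_eq_mul, mul_one] at h1
      have h2 : p ^ n ≤ charDegree (η : N → ℂ) := Nat.le_of_dvd (Chars.charDegree_pos η)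
        ((pow_dvd_pow p h1).trans (Nat.ordProj_dvd _ p))
      have h3 : charDegree (η : N → ℂ) ^ 2 ≤ (Subgroup.center N).index :=
        Chars.charDegree_sq_le_index_center η
      have h4 : (Subgroup.center N).index ≤ p ^ n :=
        hn ▸ Nat.le_of_dvd Nat.card_pos (Subgroup.index_dvd_card _)
      apply Subgroup.eq_bot_of_card_eq
      rw [hn]
      have h5 : p ^ n * p ^ n ≤ p ^ n * 1 := by
        rw [mul_one]
        exact (Nat.mul_le_mul h2 h2).trans (le_trans (by rw [sq] at h3; exact h3) h4)
      exact le_antisymm (Nat.le_of_mul_le_mul_left h5 (pow_pos (Fact.out : p.Prime).pos n))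
        (Nat.one_le_pow _ _ (Fact.out : p.Prime).pos)
    intro r hr
    have : QuotientGroup.mk' (Q.subgroupOf T) ⟨r, hRT hr⟩ ∈ N := ⟨⟨r, hRT hr⟩, hr, rfl⟩
    rw [hbot, Subgroup.mem_bot] at this
    exact (QuotientGroup.eq_one_iff (N := Q.subgroupOf T) ⟨r, hRT hr⟩).mp this

end Cfsg.Agent.S4694
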