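import Cfsg.Statements.S4696
import Cfsg.Agent.Blocks.Cyclic.Main
import Cfsg.Agent.Eq.Def_BlockRank
import Cfsg.Agent.Eq.Def_Blocks
import Cfsg.Agent.Eq.Def_BlockLocal

set_option autoImplicit false
open Cfsg

namespace Cfsg.Agent.S4696

/-- Let p be a prime, M a maximal ideal of the algebraic integers containing p, and B a p-block of the finite group G whose defect group D is cyclic of order p^a with a ≥ 1. Let C = C_G(D), let b be a block of C inducing B, let T be the stabilizer of b in N_G(D) (the elements g of N_G(D) such that the g-conjugate of every member of b is again in b), and let e be the index of C in T (the inertial index of B). Then e divides p − 1, every irreducible character in B has height zero, and B is the disjoint union of a set X of e characters and a set Y of (p^a − 1)/e characters, the members of Y agreeing on p-regular elements, for which there are signs δ_χ = ±1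 (χ ∈ X) and δ₀ = ±1 such that: for every ψ ∈ Y and every p-regular g, δ₀ ψ(g) + Σ_{χ ∈ X} δ_χ χ(g) = 0; for all χ, χ' ∈ X the integers δ_χ χ(1) and δ_χ' χ'(1) are congruent modulo p^a; and for ψ ∈ Y and χ ∈ X, ψ(1) ≡ −e δ₀ δ_χ χ(1) modulo p^a. -/
theorem result {G : Type*} [Group G] [Finite G] (p : ℕ) [Fact p.Prime] (M : Ideal Cfsg.AlgInt) (hM : Cfsg.IsPModular p M) (D : Subgroup G) (hD : IsCyclic D) (a : ℕ) (ha : 1 ≤ a) (hDa : Nat.card D = p ^ a) (B : Set (Cfsg.IrrCharacter G)) (hB : Cfsg.IsPBlock M B) (hBD : Cfsg.IsDefectGroup p M B D) (b : Set (Cfsg.IrrCharacter (Subgroup.centralizer (D : Set G)))) (hind : Cfsg.IsInducedBlock M (Subgroup.centralizer (D : Set G)) b B) (T : Subgroup G) (hT : ∀ g : G, g ∈ T ↔ (g ∈ Subgroup.normalizer (D : Set G) ∧ ∀ θ ∈ b, ∀ θ' : Cfsg.IrrCharacter (Subgroup.centralizer (D : Set G)), (∀ h h' : Subgroup.centralizer (D : Set G), (h' : G) = g * h * g⁻¹ → (θ'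 : Subgroup.centralizer (D : Set G) → ℂ) h' = (θ : Subgroup.centralizer (D : Set G) → ℂ) h) → θ' ∈ b)) (e : ℕ) (he : (Subgroup.centralizer (D : Set G)).relIndex T = e) : e ∣ p - 1 ∧ (∀ χ ∈ B, Cfsg.blockHeight p B (χ : G → ℂ) = 0) ∧ ∃ X Y : Set (Cfsg.IrrCharacter G), B = X ∪ Y ∧ Disjoint X Y ∧ Nat.card X = e ∧ Nat.card Y = (p ^ a - 1) / e ∧ (∀ ψ ∈ Y, ∀ ψ' ∈ Y, ∀ g : G, ¬ p ∣ orderOf g → (ψ : G → ℂ) g = (ψ' : G → ℂ) g) ∧ ∃ (δ : Cfsg.IrrCharacter G → ℤ) (δ₀ : ℤ), (∀ χ ∈ X, δ χ = 1 ∨ δ χ = -1) ∧ (δ₀ = 1 ∨ δ₀ = -1) ∧ (∀ ψ ∈ Y, ∀ g : G, ¬ p ∣ orderOf g → (δ₀ : ℂ) * (ψ : G → ℂ) g + ∑ᶠ χ ∈ X, (δ χ : ℂ) * (χ : G → ℂ) g = 0) ∧ (∀ χ ∈ X, ∀ χ' ∈ X, δ χ * (Cfsg.charDegree (χ : G → ℂ) : ℤ) ≡ δ χ' * (Cfsg.charDegree (χ' : G → ℂ) : ℤ) [ZMOD (p : ℤ) ^ a]) ∧ (∀ ψ ∈ Y, ∀ χ ∈ X, (Cfsg.charDegree (ψ : G → ℂ) : ℤ) ≡ -((e : ℤ) * δ₀ * δ χ * (Cfsg.charDegree (χ : G → ℂ) : ℤ)) [ZMOD (p : ℤ) ^ a]) := by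
  classical
  haveI := Fintype.ofFinite G
  haveI := CfsgLib.Blocks.isMaximal_of_isPModular hM
  haveI := CfsgLib.Blocks.charP_kres hM
  have hD1 : D ≠ ⊥ := fun h0 => by
    rw [h0, Subgroup.card_bot] at hDa
    exact absurd hDa.symm (Nat.one_lt_pow (by omega) (Fact.out : p.Prime).one_lt).ne'
  have hT' : ∀ g : G, g ∈ T ↔ (g ∈ Subgroup.normalizer (D : Set G) ∧
      Cfsg.StabilizesBlock (Subgroup.centralizer (D : Set G)) b g) := fun g => by
    rw [hT g]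
    exact and_congr_right fun hg => (CfsgLib.Blocks.Cyclic.stabilizesBlock_iff_forall hg).symm
  obtain ⟨hset, hTeq, hdvd⟩ :=
    CfsgLib.Blocks.Cyclic.setting_of_cyclic hM hB hBD hD1 hD hind hT'
  have hl := CfsgLib.Blocks.Cyclic.blockRank_eq hM hB hBD hD1 hD hind hset
  have hA := CfsgLib.Blocks.AbelianFree.natCard_aut (P := D)
    (CfsgLib.Blocks.subEl M (Subgroup.centralizer (D : Set G)) b)
  rw [← hTeq, CfsgLib.Blocks.AbelianFree.cn, he] at hA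
  rw [he] at hdvd
  obtain ⟨X, Y, r, δ₀, hs⟩ := CfsgLib.Blocks.Cyclic.exists_split hset hD1 hl
  refine ⟨hdvd, fun χ hχ => hs.height_zero hset hD1 (hA.symm ▸ hdvd) hχ, (X : Set _), (Y : Set _),
    ?_, ?_, ?_, ?_, fun ψ hψ ψ' hψ' g hg => hs.reg_eq ψ hψ ψ' hψ' g hg,
    r, δ₀, hs.sign, hs.sign₀, fun ψ hψ g hg => ?_, fun χ hχ χ' hχ' => ?_, fun ψ hψ χ hχ => ?_⟩
  · rw [← Finset.coe_union, hs.union, Set.Finite.coe_toFinset]
  · exact Finset.disjoint_coe.2 hs.disj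
  · rw [Nat.card_coe_set_eq, Set.ncard_coe_finset, hs.card_X, hA]
  · rw [Nat.card_coe_set_eq, Set.ncard_coe_finset]
    have h1 := hs.card_Y
    rw [hA, hDa] at h1
    have he0 : 0 < e := by
      rw [← hA]; exact Nat.card_pos
    rw [← h1, Nat.add_sub_cancel, Nat.mul_div_cancel _ he0]
  · rw [finsum_mem_coe_finset]
    exact hs.reg_sum ψ hψ g hg
  · have hpa : ((p : ℤ) ^ a) ∣ ((p ^ (Nat.card G).factorization p : ℕ) : ℤ) := by
      rw [← Nat.cast_pow, Int.natCast_dvd_natCast, ← hDa]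
      obtain ⟨S⟩ : Nonempty (Sylow p G) := inferInstance
      obtain ⟨Q, hQ⟩ := hset.isPGroup.exists_le_sylow
      rw [← Q.card_eq_multiplicity]
      exact Subgroup.card_dvd_of_le hQ
    exact (hs.modEq_X hset hχ hχ').of_dvd hpa
  · have hpa : ((p : ℤ) ^ a) ∣ ((p ^ (Nat.card G).factorization p : ℕ) : ℤ) := by
      rw [← Nat.cast_pow, Int.natCast_dvd_natCast, ← hDa]
      obtain ⟨Q, hQ⟩ := hset.isPGroup.exists_le_sylow
      rw [← Q.card_eq_multiplicity]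
      exact Subgroup.card_dvd_of_le hQ
    rw [← hA]
    exact (hs.modEq_Y hset hψ hχ).of_dvd hpa

end Cfsg.Agent.S4696
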