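import Cfsg.Statements.S4697
import Cfsg.Agent.Blocks.AbelianRank.RankTwo
import Cfsg.Agent.Blocks.AbelianRank.Central
import Cfsg.Agent.Blocks.AbelianRank.Major
import Cfsg.Agent.Blocks.HeightZero.MinMax
-- import your own Cfsg.Agent.* helpers here

set_option autoImplicit false
set_option linter.style.haveILetI false
open Cfsg

namespace Cfsg.Agent.S4697

open CfsgLib CfsgLib.Blocks CfsgLib.Blocks.AbelianRank

universe u

section group

variable {K : Type u} [Group K] [Finite K] {p : ℕ} [Fact p.Prime]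

/-- The image of an abelian `p`-group modulo an element of maximal order. -/
theorem image_facts {P : Subgroup K} (hPp : IsPGroup p P) (hPab : ∀ x ∈ P, ∀ y ∈ P, x * y = y * x)
    (hΩ : Nat.card {x : P // x ^ p = 1} ≤ p ^ 3) {z : K} [(Subgroup.zpowers z).Normal] (hz : z ∈ P)
    (hv : ∀ v ∈ P, v ^ p ≠ z) {Q : Subgroup (K ⧸ Subgroup.zpowers z)}
    (hQ : Q ≤ P.map (QuotientGroup.mk' (Subgroup.zpowers z))) :
    (∀ x ∈ Q, ∀ y ∈ Q, x * y = y * x) ∧ Nat.card {x : Q // x ^ p = 1} ≤ p ^ 2 ∧
      Nat.card Q * orderOf z ≤ Nat.card P := by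
  set N := Subgroup.zpowers z
  set J := P.map (QuotientGroup.mk' N) with hJ
  have hJab : ∀ x ∈ J, ∀ y ∈ J, x * y = y * x := by
    rintro _ ⟨x, hx, rfl⟩ _ ⟨y, hy, rfl⟩
    rw [← map_mul, ← map_mul, hPab x hx y hy]
  refine ⟨fun x hx y hy => hJab x (hQ hx) y (hQ hy), ?_, ?_⟩
  · letI : CommGroup P :=
      { (inferInstance : Group P) with mul_comm := fun a b => Subtype.ext (hPab a a.2 b b.2) }
    letI : CommGroup J :=
      { (inferInstance : Group J) with mul_comm := fun a b => Subtype.ext (hJab a a.2 b b.2) }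
    have hle := card_kerPow_map_le (p := p) hPp ((QuotientGroup.mk' N).subgroupMap P)
      ((QuotientGroup.mk' N).subgroupMap_surjective P) (r := 2)
      ((Nat.card_congr (Equiv.subtypeEquivRight fun _ => mem_kerPow)).trans_le hΩ)
      (u := ⟨z, hz⟩) (MonoidHom.mem_ker.2 (Subtype.ext
        ((QuotientGroup.eq_one_iff z).2 (Subgroup.mem_zpowers z))))
      fun v h => hv v v.2 (congrArg Subtype.val h)
    refine le_trans (Nat.card_le_card_of_injective
      (fun x : {x : Q // x ^ p = 1} => (⟨⟨x.1, hQ x.1.2⟩, mem_kerPow.2 (Subtype.ext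
        (by simpa using congrArg Subtype.val x.2))⟩ : kerPow p J)) fun a b h => ?_) hle
    exact Subtype.ext (Subtype.ext (congrArg (fun y : kerPow p J => ((y : J) : K ⧸ N)) h))
  · refine (Nat.mul_le_mul_right _ (Subgroup.card_le_of_le hQ)).trans (le_of_eq ?_)
    have h := ((QuotientGroup.mk' N).subgroupMap P).ker.card_mul_index
    rw [Subgroup.index_ker, MonoidHom.range_eq_top.2 ((QuotientGroup.mk' N).subgroupMap_surjective P),
      Subgroup.card_top] at h
    rw [← h, mul_comm, ← Nat.card_zpowers z]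
    congr 1
    refine Nat.card_congr ⟨fun x => ⟨⟨x, (Subgroup.zpowers_le.2 hz) x.2⟩, MonoidHom.mem_ker.2
      (Subtype.ext ((QuotientGroup.eq_one_iff _).2 x.2))⟩, fun x => ⟨((x : P) : K),
      (QuotientGroup.eq_one_iff _).1 (congrArg Subtype.val (MonoidHom.mem_ker.1 x.2))⟩,
      fun x => rfl, fun x => rfl⟩

end group

/-- The case of rank three. -/
theorem rank_three {G : Type u} [Group G] [Finite G] {p : ℕ} [Fact p.Prime] {M : Ideal AlgInt}
    [M.IsMaximal] [CharP (kres M) p] (hM : IsPModular p M) {B : Set (IrrCharacter G)}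
    (hB : IsPBlock M B) {D : Subgroup G} (hD : IsDefectGroup p M B D)
    (hab : ∀ x ∈ D, ∀ y ∈ D, x * y = y * x) (hrank : Group.rank D ≤ 3) :
    Nat.card B ^ 3 ≤ p ^ (5 * blockDefect p B) := by
  classical
  haveI := Fintype.ofFinite G
  have hp : p.Prime := Fact.out
  set d := blockDefect p B with hd
  have hcard := Contrib.natCard_defectGroup hM hB hD
  have hDp : IsPGroup p D := IsPGroup.of_card hcard
  letI : CommGroup D :=
    { (inferInstance : Group D) with mul_comm := fun a b => Subtype.ext (hab a a.2 b b.2) }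
  obtain ⟨⟨u, huD⟩, hu⟩ :=
    Monoid.exists_orderOf_eq_exponent (Monoid.ExponentExists.of_finite (G := D))
  obtain ⟨m, hm⟩ := IsPGroup.iff_orderOf.1 hDp ⟨u, huD⟩
  have hmax : ∀ x ∈ D, x ^ p ^ m = 1 := fun x hx => by
    have h := Monoid.pow_exponent_eq_one (⟨x, hx⟩ : D)
    rw [← hu, hm] at h
    simpa using congrArg Subtype.val h
  have hdm : d ≤ 3 * m := by
    have h := Nat.le_of_dvd (pow_pos (pow_pos hp.pos m) _)
      (card_dvd_exponent_pow_rank' (D : Type u) (n := p ^ m)
        fun x => Subtype.ext (by simpa using hmax x x.2))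
    rw [hcard, ← pow_mul, Nat.pow_le_pow_iff_right hp.one_lt] at h
    exact h.trans (by rw [mul_comm 3 m]; exact Nat.mul_le_mul_left m hrank)
  rw [Subgroup.orderOf_mk] at hm
  rcases Nat.eq_zero_or_pos d with hd0 | hd0
  · have h := Contrib.natCard_le_of_defect_le_two hM hB (by omega)
    rw [← hd, hd0, pow_zero] at h
    rw [hd0, mul_zero, pow_zero]
    exact pow_le_one' h 3
  have hm0 : 0 < m := by omega
  obtain ⟨g, hmaxp⟩ := KleinFour.exists_maxPair (M := M) hB hD
  have hg := hmaxp.1.1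
  obtain ⟨f, hf, -⟩ := hg.existsUnique_le (Subgroup.zpowers_le.2 huD)
  obtain ⟨H, hH, b, hb, hf⟩ : ∃ H : Subgroup G, H = Subgroup.centralizer ({u} : Set G) ∧
      ∃ b : Set (IrrCharacter H), IsInducedBlock M H b B ∧
        PairLE p ⊤ (Subgroup.zpowers u) (subEl M H b) D g := by
    obtain ⟨b, hb, hbf⟩ := KleinFour.exists_block_of_isPairOf hM hB ⟨m, hm⟩
      ((hf.pairOf_iff (isBlockIdem_topEl hB) hg).2 hmaxp.1)
    exact ⟨_, rfl, b, hb, hbf ▸ hf⟩
  haveI := Fintype.ofFinite H
  have hbD := (KleinFour.maxPair_centralizer (isBlockIdem_topEl hB) hmaxp hab hf).2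
  rw [HeightZero.centralizer_zpowers_eq, ← hH] at hbD
  have hDH : D ≤ H := hbD.1
  have hbD' : IsDefectGroup p M b (D.subgroupOf H) := (isDefectGroup_subgroupOf_iff hDH hb.1).2 hbD
  have hmaj : blockDefect p b = d := Nat.pow_right_injective hp.two_le (by
    show p ^ _ = p ^ _
    rw [← hcard, ← Contrib.natCard_defectGroup hM hb.1 hbD',
      Nat.card_congr (Subgroup.subgroupOfEquivOfLe hDH).toEquiv])
  have hk : Nat.card B ≤ p ^ d * blockRank p b :=
    natCard_le_mul_blockRank hM hH (by rw [← hm, pow_orderOf_eq_one]) hb hmaj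
  -- the quotient by the cyclic group
  let z : H := ⟨u, by rw [hH, Subgroup.mem_centralizer_singleton_iff]⟩
  have hzc : z ∈ Subgroup.center H := Subgroup.mem_center_iff.2 fun c => Subtype.ext (by
    have hc := c.2
    simp only [hH, Subgroup.mem_centralizer_singleton_iff] at hc
    exact hc)
  haveI := Contrib.zpowers_normal_of_center hzc
  have hzord : orderOf z = p ^ m := (Subgroup.orderOf_mk u _).trans hm
  have hNp : IsPGroup p (Subgroup.zpowers z) :=
    IsPGroup.of_card (n := m) ((Nat.card_zpowers z).trans hzord)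
  obtain ⟨hBq, hl⟩ := exists_below_block hM (Subgroup.zpowers_le.2 hzc) hNp hb.1
  obtain ⟨Q, hQ⟩ := HeightZero.exists_defectGroup hM hBq
  obtain ⟨P, hP, hQP⟩ := Quot.exists_defectGroup_map hM hb.1 hBq (le_refl _) hQ
  obtain ⟨x, hx⟩ := HeightZero.defectGroup_conj_eq hM hb.1 hbD' hP
  have hback : ∀ v ∈ P, ∃ w : H, (w : G) ∈ D ∧ x * w * x⁻¹ = v := by
    intro v hv
    rw [← hx] at hv
    obtain ⟨w, hw, rfl⟩ := hv
    exact ⟨w, hw, rfl⟩
  have hPp : IsPGroup p P := IsPGroup.of_card (Contrib.natCard_defectGroup hM hb.1 hP)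
  have hPab : ∀ a ∈ P, ∀ c ∈ P, a * c = c * a := by
    intro a ha c hc
    obtain ⟨a', ha', rfl⟩ := hback a ha
    obtain ⟨c', hc', rfl⟩ := hback c hc
    simp only [← MulAut.conj_apply, ← map_mul,
      show a' * c' = c' * a' from Subtype.ext (hab _ ha' _ hc')]
  have hPΩ : Nat.card {a : P // a ^ p = 1} ≤ p ^ 3 := by
    refine le_trans ?_ ((Nat.card_congr (Equiv.subtypeEquivRight fun _ => mem_kerPow)).symm.trans_le
      ((card_kerPow_le (A := D) hp.pos rfl).trans (Nat.pow_le_pow_right hp.pos hrank)))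
    choose w hwD hw using hback
    refine Nat.card_le_card_of_injective (fun a => ⟨⟨w a.1 a.1.2, hwD _ _⟩, Subtype.ext ?_⟩)
      fun a c h => ?_
    · have h1 : x * (w a.1 a.1.2) ^ p * x⁻¹ = 1 := by
        rw [← conj_pow, hw]
        exact congrArg Subtype.val a.2
      have h2 := congrArg Subtype.val (conj_eq_one_iff.1 h1)
      simpa using h2
    · have h1 := congrArg (fun y : {y : D // y ^ p = 1} => ((y : D) : G)) h
      refine Subtype.ext (Subtype.ext ?_)
      rw [← hw a.1 a.1.2, ← hw c.1 c.1.2, Subtype.ext (a1 := w a.1 a.1.2) h1]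
  have hxz : x * z * x⁻¹ = z := by
    rw [Subgroup.mem_center_iff.1 hzc x, mul_inv_cancel_right]
  have hzP : z ∈ P := by
    rw [← hx]
    exact ⟨z, huD, hxz⟩
  have hv : ∀ v ∈ P, v ^ p ≠ z := by
    intro v hv heq
    obtain ⟨w, hw, rfl⟩ := hback v hv
    rw [conj_pow] at heq
    have hwz : w ^ p = z := (MulAut.conj x).injective (heq.trans hxz.symm)
    have h1 : z ^ p ^ (m - 1) = 1 := by
      rw [← hwz, ← pow_mul, ← pow_succ', Nat.sub_add_cancel hm0]
      exact Subtype.ext (by simpa using hmax _ hw)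
    have h2 := orderOf_dvd_of_pow_eq_one h1
    rw [hzord, Nat.pow_dvd_pow_iff_le_right hp.one_lt] at h2
    omega
  obtain ⟨hQab, hQΩ, hQcard⟩ := image_facts hPp hPab hPΩ hzP hv hQP
  have hkq := natCard_le_of_omega hM hBq hQ hQab hQΩ
  rw [hzord, Contrib.natCard_defectGroup hM hBq hQ, Contrib.natCard_defectGroup hM hb.1 hP, hmaj,
    ← pow_add, Nat.pow_le_pow_iff_right hp.one_lt] at hQcard
  calc Nat.card B ^ 3 ≤ (p ^ d * p ^ (d - m)) ^ 3 := Nat.pow_le_pow_left
        (hk.trans (Nat.mul_le_mul_left _ (hl.trans (hkq.trans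
          (Nat.pow_le_pow_right hp.pos (by omega)))))) 3
    _ ≤ p ^ (5 * d) := by
        rw [← pow_add, ← pow_mul]
        exact Nat.pow_le_pow_right hp.pos (by omega)

/-- Let p be a prime, M a maximal ideal of the algebraic integers containing p, and B a p-block of the finite group G with an abelian defect group D of order p^d. If D has rank 2 (its least number of generators is 2) then B contains at most p^d irreducible characters; if D has rank 3 then the number k of irreducible characters in B satisfies k^3 ≤ p^(5d). -/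
theorem result {G : Type*} [Group G] [Finite G] (p : ℕ) [Fact p.Prime] (M : Ideal Cfsg.AlgInt) (hM : Cfsg.IsPModular p M) (B : Set (Cfsg.IrrCharacter G)) (hB : Cfsg.IsPBlock M B) (D : Subgroup G) (hBD : Cfsg.IsDefectGroup p M B D) (hab : IsMulCommutative D) (d : ℕ) (hDd : Nat.card D = p ^ d) : (Group.rank D = 2 → Nat.card B ≤ p ^ d) ∧ (Group.rank D = 3 → Nat.card B ^ 3 ≤ p ^ (5 * d)) := by
  classical
  haveI : M.IsMaximal := hM.2.1
  haveI : CharP (kres M) p := charP_kres hM
  have hab' : ∀ x ∈ D, ∀ y ∈ D, x * y = y * x := fun x hx y hy =>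
    congrArg Subtype.val (hab.is_comm.comm (⟨x, hx⟩ : D) ⟨y, hy⟩)
  have hdd : d = blockDefect p B := Nat.pow_right_injective (Fact.out : p.Prime).two_le
    (hDd.symm.trans (Contrib.natCard_defectGroup hM hB hBD))
  subst hdd
  refine ⟨fun h2 => ?_, fun h3 => rank_three hM hB hBD hab' h3.le⟩
  letI : CommGroup D :=
    { (inferInstance : Group D) with mul_comm := fun a b => Subtype.ext (hab' a a.2 b b.2) }
  refine natCard_le_of_omega hM hB hBD hab' ?_
  exact (Nat.card_congr (Equiv.subtypeEquivRight fun _ => mem_kerPow)).symm.trans_le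
    (card_kerPow_le (A := D) (Fact.out : p.Prime).pos h2)

end Cfsg.Agent.S4697
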