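import Cfsg.Statements.S4698
import Cfsg.Agent.Blocks.Subsection.MajorHeights
import Cfsg.Agent.Blocks.Subsection.MajorExists
import Cfsg.Agent.Blocks.Subsection.QuotientBlock
import Cfsg.Agent.Blocks.Subsection.SmallDefect

set_option autoImplicit false
open Cfsg

namespace Cfsg.Agent.S4698

open CfsgLib.Blocks CfsgLib.Blocks.Contrib

universe u

theorem aux {p : ℕ} {M : Ideal AlgInt} (hM : IsPModular p M) :
    ∀ (d : ℕ) (G : Type u) [Group G] [Finite G] (B : Set (IrrCharacter G)),
      IsPBlock M B → blockDefect p B = d → 3 ≤ d → Nat.card B ≤ p ^ (2 * d - 2) := by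
  intro d
  induction d using Nat.strong_induction_on with
  | _ d ih =>
    intro G _ _ B hB hd hd3
    classical
    have : Fact p.Prime := ⟨hM.1⟩
    haveI := Fintype.ofFinite G
    obtain ⟨z, hz, hbex⟩ := exists_major_subsection hM hB (by omega)
    set H := Subgroup.centralizer ({z} : Set G) with hH
    haveI := Fintype.ofFinite H
    obtain ⟨b, hind, hmaj⟩ := hbex
    have hzH : z ∈ H := Subgroup.mem_centralizer_singleton_iff.2 rfl
    have hzc : (⟨z, hzH⟩ : H) ∈ Subgroup.center H :=
      Subgroup.mem_center_iff.2 fun c => Subtype.ext (Subgroup.mem_centralizer_singleton_iff.1 c.2)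
    have := zpowers_normal_of_center hzc
    obtain ⟨Bq, hBq, hdq, hl⟩ := exists_quotient_block hM hind.1 hzc
      (by rw [Subgroup.orderOf_mk, hz] : orderOf (⟨z, hzH⟩ : H) = p)
    have hl' : blockRank p b ≤ p ^ (2 * d - 4) := by
      refine hl.trans ?_
      rcases Nat.lt_or_ge (blockDefect p Bq) 3 with h | h
      · exact (natCard_le_of_defect_le_two hM hBq (by omega)).trans
          (Nat.pow_le_pow_right hM.1.pos (by omega))
      · exact (ih _ (by omega) _ Bq hBq rfl h).trans (Nat.pow_le_pow_right hM.1.pos (by omega))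
    obtain ⟨k₀, k₁, hk, -, h1, h2⟩ := major_height_ineq (k := 1) hM hH
      (by rw [pow_one, ← hz, pow_orderOf_eq_one]) hind hmaj
    rw [hd] at h1 h2
    rw [hk]
    refine add_le_of_height_ineq (π := p ^ 2) ?_ (h1.trans ?_) (h2.trans_eq ?_)
    · nlinarith [hM.1.two_le]
    · calc p ^ (2 * d) * blockRank p b ≤ p ^ (2 * d) * p ^ (2 * d - 4) :=
            Nat.mul_le_mul_left _ hl'
        _ = (p ^ (2 * d - 2)) ^ 2 := by rw [← pow_add, ← pow_mul]; congr 1; omega
    · rw [← pow_add]; congr 1; omega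

/-- Let p be a prime, M a maximal ideal of the algebraic integers containing p, and B a p-block of defect d of the finite group G, containing k irreducible characters. Then k ≤ p^d when d ≤ 2, and k ≤ p^(2d − 2) when d ≥ 3. -/
theorem result {G : Type*} [Group G] [Finite G] (p : ℕ) [Fact p.Prime] (M : Ideal Cfsg.AlgInt) (hM : Cfsg.IsPModular p M) (B : Set (Cfsg.IrrCharacter G)) (hB : Cfsg.IsPBlock M B) (d : ℕ) (hd : Cfsg.blockDefect p B = d) : (d ≤ 2 → Nat.card B ≤ p ^ d) ∧ (3 ≤ d → Nat.card B ≤ p ^ (2 * d - 2)) := by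
  refine ⟨fun h2 => ?_, fun h3 => aux hM d G B hB hd h3⟩
  exact hd ▸ natCard_le_of_defect_le_two hM hB (hd ▸ h2)

end Cfsg.Agent.S4698
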