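import Cfsg.Statements.S4699
import Cfsg.Agent.Modular.CyclicTI.Main

set_option autoImplicit false
open Cfsg

namespace Cfsg.Agent.S4699

/-- Let p be a prime and G a finite group whose Sylow p-subgroup P is cyclic of order p^n with n ≥ 2 and meets every other Sylow p-subgroup trivially. Then every faithful irreducible representation of G on a finite-dimensional space over a finite field of characteristic p has dimension at least p^n − (p − 1). -/
theorem result {G : Type*} [Group G] [Finite G] (p : ℕ) [Fact p.Prime] (P : Sylow p G) (hcyc : IsCyclic P) (n : ℕ) (hn : 2 ≤ n) (hPn : Nat.card P = p ^ n) (hTI : ∀ Q : Sylow p G, Q ≠ P → (P : Subgroup G) ⊓ (Q : Subgroup G) = ⊥) (F : Type*) [Field F] [Finite F] [CharP F p] (V : Type*) [AddCommGroup V] [Module F V] [FiniteDimensional F V] (ρ : Representation F G V) (hfaith : Function.Injective ρ) (hirr : ρ.IsIrreducible) : p ^ n - (p - 1) ≤ Module.finrank F V := by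
  classical
  refine CfsgLib.Modular.CyclicTI.sub_le_finrank P hn hPn ?_ ρ hfaith ?_
  · intro x hx g hg hxg
    set y := g⁻¹ * x * g with hy
    have hpy : IsPGroup p (Subgroup.zpowers y) := by
      have : Subgroup.zpowers y ≤ (P : Subgroup G).map (MulAut.conj g⁻¹).toMonoidHom :=
        Subgroup.zpowers_le.2 ⟨x, hx, by simp [hy]⟩
      exact (P.isPGroup'.map _).to_le this
    have hyP : y ∈ (P : Subgroup G) := by
      have h1 : IsPGroup p (Subgroup.zpowers y ⊔ (P : Subgroup G) : Subgroup G) :=
        hpy.to_sup_of_normal_right' P.isPGroup' (Subgroup.zpowers_le.2 hxg)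
      have h2 := P.is_maximal' h1 le_sup_right
      rw [← h2]
      exact Subgroup.mem_sup_left (Subgroup.mem_zpowers y)
    have hQ : g • P ≠ P := fun h => hg (Sylow.smul_eq_iff_mem_normalizer.1 h)
    have hmem : x ∈ (P : Subgroup G) ⊓ ((g • P : Sylow p G) : Subgroup G) := by
      refine ⟨hx, ?_⟩
      rw [Sylow.coe_subgroup_smul]
      exact Subgroup.mem_smul_pointwise_iff_exists _ _ _ |>.2 ⟨y, hyP, by simp [hy, mul_assoc]⟩
    rw [hTI _ hQ] at hmem
    exact Subgroup.mem_bot.1 hmem
  · intro W hW
    haveI := hirr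
    rcases eq_bot_or_eq_top (⟨W, fun g v hv => hW g v hv⟩ : Subrepresentation ρ) with h | h
    · exact Or.inl (congrArg Subrepresentation.toSubmodule h)
    · exact Or.inr (congrArg Subrepresentation.toSubmodule h)

end Cfsg.Agent.S4699
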