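import Cfsg.Statements.S4708
import Cfsg.Agent.IsoBlocks.Basic
import Cfsg.Agent.Chars.Basic.Columns
import Cfsg.Agent.Eq.Def_Blocks

set_option autoImplicit false
open Cfsg CfsgLib

namespace Cfsg.Agent.S4708

/-- Let p be a prime, M a maximal ideal of the algebraic integers containing p, G a finite group and H a normal subgroup. Write λ(X) for the sum of the squares of the degrees of the irreducible characters in the principal p-block of a group X. Then λ(H) ≤ λ(G) ≤ [G : H]·λ(H). -/
theorem result {G : Type*} [Group G] [Finite G] (p : ℕ) [Fact p.Prime] (M : Ideal Cfsg.AlgInt) (hM : Cfsg.IsPModular p M) (H : Subgroup G) [H.Normal] : (∑ᶠ θ ∈ Cfsg.principalBlock M H, Cfsg.charDegree (θ : H → ℂ) ^ 2) ≤ (∑ᶠ χ ∈ Cfsg.principalBlock M G, Cfsg.charDegree (χ : G → ℂ) ^ 2) ∧ (∑ᶠ χ ∈ Cfsg.principalBlock M G, Cfsg.charDegree (χ : G → ℂ) ^ 2) ≤ H.index * ∑ᶠ θ ∈ Cfsg.principalBlock M H, Cfsg.charDegree (θ : H → ℂ) ^ 2 := by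
  classical
  haveI : Fintype G := Fintype.ofFinite G
  haveI : Fintype H := Fintype.ofFinite H
  set SH : Finset (IrrCharacter H) := (Set.toFinite (principalBlock M H)).toFinset
  set SG : Finset (IrrCharacter G) := (Set.toFinite (principalBlock M G)).toFinset
  have hSH : ∀ θ, θ ∈ SH ↔ θ ∈ principalBlock M H := fun θ => Set.Finite.mem_toFinset _
  have hSG : ∀ χ, χ ∈ SG ↔ χ ∈ principalBlock M G := fun χ => Set.Finite.mem_toFinset _
  rw [finsum_mem_eq_finite_toFinset_sum _ (Set.toFinite (principalBlock M H)),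
    finsum_mem_eq_finite_toFinset_sum _ (Set.toFinite (principalBlock M G))]
  let dG : IrrCharacter G → ℕ := fun χ => charDegree (χ : G → ℂ)
  let dH : IrrCharacter H → ℕ := fun θ => charDegree (θ : H → ℂ)
  let m : IrrCharacter G → IrrCharacter H → ℕ := fun χ θ =>
    Chars.Induced.mult (fun h : H => (χ : G → ℂ) h) θ
  have hres : ∀ χ ∈ SG, dG χ = ∑ θ ∈ SH, m χ θ * dH θ := by
    intro χ hχ
    have hc := Chars.isCharacter_restrict (Chars.isCharacter_coe χ) H
    obtain ⟨s, hs, hsum⟩ := Chars.Induced.exists_eq_sum_mult hc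
    have hss : s ⊆ SH := fun θ hθ => (hSH θ).2 (IsoBlocks.mem_principalBlock_of_over H hM
      ((hSG χ).1 hχ) ((Chars.Induced.mult_ne_zero_iff hc θ).1 ((hs θ).1 hθ)))
    rw [← Finset.sum_subset hss fun θ _ hθ => by
      rw [show m χ θ = 0 from not_not.1 (mt (hs θ).2 hθ), zero_mul]]
    apply Nat.cast_injective (R := ℂ)
    push_cast
    have := congrFun hsum 1
    simp only [Finset.sum_apply, Pi.smul_apply, smul_eq_mul, OneMemClass.coe_one] at this
    rw [Chars.coe_charDegree, this]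
    exact Finset.sum_congr rfl fun θ _ => by rw [Chars.coe_charDegree]
  have hind : ∀ θ : IrrCharacter H, ∑ χ : IrrCharacter G, m χ θ * dG χ = H.index * dH θ := by
    intro θ
    have hΦ := Chars.Induced.isCharacter_indFun H (Chars.isCharacter_coe θ)
    obtain ⟨s, hs, hsum⟩ := Chars.Induced.exists_eq_sum_mult hΦ
    rw [← Finset.sum_subset (Finset.subset_univ s) fun χ _ hχ => by
      rw [show m χ θ = 0 by
        rw [← not_not (a := m χ θ = 0)]
        exact fun h => hχ ((hs χ).2 (by rwa [Chars.Induced.mult_indFun_irr])), zero_mul]]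
    apply Nat.cast_injective (R := ℂ)
    push_cast
    have := congrFun hsum 1
    simp only [Finset.sum_apply, Pi.smul_apply, smul_eq_mul] at this
    rw [Chars.Induced.indFun_one_apply, ← Chars.coe_charDegree] at this
    rw [this]
    exact Finset.sum_congr rfl fun χ _ => by
      rw [Chars.coe_charDegree, Chars.Induced.mult_indFun_irr]
  constructor
  · calc ∑ θ ∈ SH, dH θ ^ 2 ≤ ∑ θ ∈ SH, ∑ χ ∈ SG, (m χ θ * dH θ) ^ 2 := by
          refine Finset.sum_le_sum fun θ hθ => ?_
          obtain ⟨χ, hχ, hne⟩ := IsoBlocks.exists_over H hM ((hSH θ).1 hθ)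
          refine le_trans ?_ (Finset.single_le_sum (fun _ _ => Nat.zero_le _) ((hSG χ).2 hχ))
          refine Nat.pow_le_pow_left (Nat.le_mul_of_pos_left _ (Nat.pos_of_ne_zero ?_)) 2
          exact (Chars.Induced.mult_ne_zero_iff
            (Chars.isCharacter_restrict (Chars.isCharacter_coe χ) H) θ).2 hne
      _ = ∑ χ ∈ SG, ∑ θ ∈ SH, (m χ θ * dH θ) ^ 2 := Finset.sum_comm
      _ ≤ ∑ χ ∈ SG, dG χ ^ 2 := Finset.sum_le_sum fun χ hχ => by
          rw [hres χ hχ]
          exact Finset.sum_sq_le_sq_sum_of_nonneg fun _ _ => Nat.zero_le _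
  · calc ∑ χ ∈ SG, dG χ ^ 2 = ∑ χ ∈ SG, ∑ θ ∈ SH, dH θ * (m χ θ * dG χ) :=
          Finset.sum_congr rfl fun χ hχ => by
            rw [sq]
            nth_rw 1 [hres χ hχ]
            rw [Finset.sum_mul]
            exact Finset.sum_congr rfl fun θ _ => by ring
      _ = ∑ θ ∈ SH, dH θ * ∑ χ ∈ SG, m χ θ * dG χ := by
          rw [Finset.sum_comm]
          exact Finset.sum_congr rfl fun θ _ => by rw [Finset.mul_sum]
      _ ≤ ∑ θ ∈ SH, dH θ * (H.index * dH θ) := Finset.sum_le_sum fun θ _ =>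
          Nat.mul_le_mul_left _ (le_of_le_of_eq
            (Finset.sum_le_sum_of_subset (Finset.subset_univ _)) (hind θ))
      _ = H.index * ∑ θ ∈ SH, dH θ ^ 2 := by
          rw [Finset.mul_sum]
          exact Finset.sum_congr rfl fun θ _ => by ring

end Cfsg.Agent.S4708
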