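import Cfsg.Statements.S4711
import Cfsg.Agent.Eq.Def_Blocks
import Cfsg.Agent.Eq.Def_Local
import Cfsg.Agent.Blocks.IsaacsSmithThm.Main

set_option autoImplicit false
open Cfsg

namespace Cfsg.Agent.S4711

/-- Let p be a prime, M a maximal ideal of the algebraic integers containing p, G a finite group, P a Sylow p-subgroup and N = N_G(P). Then G has p-length 1 (G = O_{p',p,p'}(G)) if and only if every irreducible character in the principal p-block of G restricts to an irreducible character of N. -/
theorem result {G : Type*} [Group G] [Finite G] (p : ℕ) [Fact p.Prime] (M : Ideal Cfsg.AlgInt) (hM : Cfsg.IsPModular p M) (P : Sylow p G) : Cfsg.PLengthLE p 1 G ↔ ∀ χ ∈ Cfsg.principalBlock M G, Cfsg.IsIrrCharacter ↥(Subgroup.normalizer ((P : Subgroup G) : Set G)) (fun n : ↥(Subgroup.normalizer ((P : Subgroup G) : Set G)) => (χ : G → ℂ) n) := by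
  exact ⟨fun h => CfsgLib.Blocks.IsaacsSmith.restrictsIrr_of_pLengthLE_one hM h,
    fun h => CfsgLib.Blocks.IsaacsSmith.pLengthLE_one hM h⟩

end Cfsg.Agent.S4711
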