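import Cfsg.Statements.S4712
import Cfsg.Agent.Blocks.BrauerBasis.PRational
import Mathlib.RingTheory.ZMod.UnitsCyclic

set_option autoImplicit false
open Cfsg

namespace Cfsg.Agent.S4712

/-- Let p be an odd prime, M a maximal ideal of the algebraic integers containing p, G a finite group of order n with p-part p^a, and B a p-block of G. Call an irreducible character χ p-rational when χ(g^k) = χ(g) for every g and every k coprime to n with k ≡ 1 modulo n/p^a (χ is fixed by the Galois automorphisms fixing the roots of unity of order prime to p). Then the number of p-rational irreducible characters in B is at least the p-regular rank of B (the number of irreducible Brauer characters in B). -/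
theorem result {G : Type*} [Group G] [Finite G] (p : ℕ) [Fact p.Prime] (hodd : p ≠ 2) (M : Ideal Cfsg.AlgInt) (hM : Cfsg.IsPModular p M) (B : Set (Cfsg.IrrCharacter G)) (hB : Cfsg.IsPBlock M B) : Cfsg.blockRank p B ≤ Nat.card {χ : Cfsg.IrrCharacter G // χ ∈ B ∧ ∀ k : ℕ, Nat.Coprime k (Nat.card G) → k ≡ 1 [MOD Nat.card G / p ^ (Nat.card G).factorization p] → ∀ g : G, (χ : G → ℂ) (g ^ k) = (χ : G → ℂ) g} := by
  classical
  haveI := Fintype.ofFinite G
  set n := Nat.card G with hn
  set a := n.factorization p with ha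
  set m := n / p ^ a with hm
  have hn0 : n ≠ 0 := Nat.card_pos.ne'
  have hp := (Fact.out : p.Prime)
  have hnm : p ^ a * m = n := Nat.ordProj_mul_ordCompl_eq_self n p
  have hco : (p ^ a).Coprime m := (Nat.coprime_ordCompl hp hn0).pow_left a
  haveI : NeZero (p ^ a) := ⟨pow_ne_zero a hp.ne_zero⟩
  haveI := ZMod.isCyclic_units_of_prime_pow p hp hodd a
  obtain ⟨u, hu⟩ := IsCyclic.exists_generator (α := (ZMod (p ^ a))ˣ)
  obtain ⟨k, hk1, hk2⟩ := Nat.chineseRemainder hco (u : ZMod (p ^ a)).val 1
  have hkcop : k.Coprime n := by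
    rw [← hnm]
    refine Nat.Coprime.mul_right ?_ ?_
    · have := ZMod.val_coe_unit_coprime u
      rw [Nat.Coprime, Nat.ModEq.gcd_eq hk1]
      exact this
    · rw [Nat.Coprime, Nat.ModEq.gcd_eq hk2]
      simp
  have hreg : ∀ s : G, Cfsg.IsPRegular p s → s ^ k = s := by
    intro s hs
    have hd : orderOf s ∣ m := by
      have h2 : orderOf s ∣ p ^ a * m := hnm ▸ orderOf_dvd_natCard s
      exact (((hp.coprime_iff_not_dvd).2 hs).pow_left a).symm.dvd_of_dvd_mul_left h2
    conv_rhs => rw [← pow_one s]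
    rw [pow_eq_pow_iff_modEq]
    exact hk2.of_dvd hd
  refine (CfsgLib.Blocks.BrauerBasis.blockRank_le_card_fixed hM hB hkcop hreg).trans ?_
  haveI : Finite {χ : Cfsg.IrrCharacter G // χ ∈ B ∧ ∀ k : ℕ, Nat.Coprime k n → k ≡ 1 [MOD m] →
      ∀ g : G, (χ : G → ℂ) (g ^ k) = (χ : G → ℂ) g} := inferInstance
  refine Nat.card_le_card_of_injective (fun χ => ⟨χ.1, χ.2.1, fun l hl hl1 g => ?_⟩) ?_
  · -- every admissible exponent is a power of `k` modulo `n`
    have hlcop : l.Coprime (p ^ a) := Nat.Coprime.coprime_dvd_right ⟨m, hnm.symm⟩ hl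
    obtain ⟨j, hj⟩ := (Submonoid.mem_powers_iff _ _).1
      (mem_powers_iff_mem_zpowers.2 (hu (ZMod.unitOfCoprime l hlcop)))
    have hju : (u : ZMod (p ^ a)) ^ j = (l : ZMod (p ^ a)) := by
      rw [← Units.val_pow_eq_pow_val, hj, ZMod.coe_unitOfCoprime]
    have h1 : k ^ j ≡ l [MOD p ^ a] := by
      rw [← ZMod.natCast_eq_natCast_iff, Nat.cast_pow, (ZMod.natCast_eq_natCast_iff _ _ _).2 hk1,
        ZMod.natCast_zmod_val, hju]
    have h2 : k ^ j ≡ l [MOD m] := by
      refine Nat.ModEq.trans ?_ hl1.symm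
      simpa using hk2.pow j
    have h3 : k ^ j ≡ l [MOD n] := hnm ▸ (Nat.modEq_and_modEq_iff_modEq_mul hco).1 ⟨h1, h2⟩
    have h4 : g ^ l = g ^ (k ^ j) := by
      rw [pow_eq_pow_iff_modEq]
      exact (h3.symm).of_dvd (orderOf_dvd_natCard g)
    have hfix : ∀ (i : ℕ) (y : G), (χ.1 : G → ℂ) (y ^ (k ^ i)) = (χ.1 : G → ℂ) y := by
      intro i
      induction i with
      | zero => simp
      | succ i ih =>
        intro y
        rw [pow_succ, pow_mul]
        have := congrFun (congrArg Subtype.val χ.2.2) (y ^ (k ^ i))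
        rw [CfsgLib.Blocks.Orth.powIrr_apply] at this
        rw [this, ih]
    rw [h4, hfix]
  · intro χ ψ h
    exact Subtype.ext (congrArg (fun z => z.1) h)

end Cfsg.Agent.S4712
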