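import Cfsg.Statements.S4714
import Cfsg.Agent.S0188
import Cfsg.Agent.Blocks.Defect.CentralCharacters

set_option autoImplicit false
open Cfsg CfsgLib CfsgLib.Blocks

namespace Cfsg.Agent.S4714

variable {G : Type*} [Group G] [Finite G] {p : ℕ}

theorem exists_mul_of_sup_eq_top {D : Subgroup G}
    (hG : D ⊔ Subgroup.centralizer (D : Set G) = ⊤) (g : G) :
    ∃ (y : D) (c : Subgroup.centralizer (D : Set G)), g = (y : G) * c := by
  have hn : Subgroup.centralizer (D : Set G) ≤ Subgroup.normalizer (D : Set G) :=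
    Subgroup.centralizer_le_normalizer _
  have hD : D.Normal := Subgroup.normalizer_eq_top_iff.1 (eq_top_iff.2
    (hG ▸ sup_le Subgroup.le_normalizer hn))
  haveI := hD
  obtain ⟨y, hy, c, hc, h⟩ := Subgroup.mem_sup_of_normal_left.1
    (hG ▸ Subgroup.mem_top g : g ∈ D ⊔ Subgroup.centralizer (D : Set G))
  exact ⟨⟨y, hy⟩, ⟨c, hc⟩, h.symm⟩

theorem commute_coe {D : Subgroup G} (y : D) (c : Subgroup.centralizer (D : Set G)) :
    Commute (y : G) (c : G) :=
  Subgroup.mem_centralizer_iff.mp c.2 _ y.2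

theorem mem_centralizer_of_regular [Fact p.Prime] {D : Subgroup G} (hD : IsPGroup p D)
    (hG : D ⊔ Subgroup.centralizer (D : Set G) = ⊤) {x : G} (hx : ¬ p ∣ orderOf x) :
    x ∈ Subgroup.centralizer (D : Set G) := by
  obtain ⟨y, c, rfl⟩ := exists_mul_of_sup_eq_top hG x
  haveI hDn : D.Normal := Subgroup.normalizer_eq_top_iff.1 (eq_top_iff.2
    (hG ▸ sup_le Subgroup.le_normalizer (Subgroup.centralizer_le_normalizer _)))
  have h1 : QuotientGroup.mk' (Subgroup.centralizer (D : Set G)) ((y : G) * c) =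
      QuotientGroup.mk' (Subgroup.centralizer (D : Set G)) (y : G) := by
    rw [map_mul, show QuotientGroup.mk' (Subgroup.centralizer (D : Set G)) (c : G) = 1 from
      (QuotientGroup.eq_one_iff (c : G)).2 c.2, mul_one]
  rw [← QuotientGroup.eq_one_iff, ← orderOf_eq_one_iff]
  obtain ⟨k, hk⟩ := IsPGroup.iff_orderOf.1 hD y
  refine Nat.eq_one_of_dvd_coprimes (a := p ^ k) (b := orderOf ((y : G) * c))
    (((Fact.out : p.Prime).coprime_iff_not_dvd.2 hx).pow_left k) ?_
    (orderOf_map_dvd (QuotientGroup.mk' (Subgroup.centralizer (D : Set G))) _)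
  rw [← hk, ← Subgroup.orderOf_coe]
  show orderOf (QuotientGroup.mk' (Subgroup.centralizer (D : Set G)) ((y : G) * c)) ∣ _
  rw [h1]
  exact orderOf_map_dvd _ _

/-- The centralizer of an element of the centralizer of `D` has the same index there. -/
theorem index_centralizer_coe {D : Subgroup G}
    (hG : D ⊔ Subgroup.centralizer (D : Set G) = ⊤) (c : Subgroup.centralizer (D : Set G)) :
    (Subgroup.centralizer ({(c : G)} : Set G)).index =
      (Subgroup.centralizer ({c} : Set (Subgroup.centralizer (D : Set G)))).index := by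
  haveI hDn : D.Normal := Subgroup.normalizer_eq_top_iff.1 (eq_top_iff.2
    (hG ▸ sup_le Subgroup.le_normalizer (Subgroup.centralizer_le_normalizer _)))
  have htop : (Subgroup.centralizer ({(c : G)} : Set G)) ⊔ (Subgroup.centralizer (D : Set G)) = ⊤ := by
    rw [eq_top_iff, ← hG]
    refine sup_le_sup_right ?_ _
    intro y hy
    exact Subgroup.mem_centralizer_singleton_iff.2 (commute_coe ⟨y, hy⟩ c)
  have h1 : (Subgroup.centralizer (D : Set G)).relIndex (Subgroup.centralizer ({(c : G)} : Set G)) = (Subgroup.centralizer (D : Set G)).index := by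
    rw [← Subgroup.relIndex_sup_right (H := Subgroup.centralizer ({(c : G)} : Set G)) (K := Subgroup.centralizer (D : Set G)), htop, Subgroup.relIndex_top_right]
  have h2 := Subgroup.relIndex_mul_index (inf_le_left : (Subgroup.centralizer ({(c : G)} : Set G)) ⊓ (Subgroup.centralizer (D : Set G)) ≤ (Subgroup.centralizer ({(c : G)} : Set G)))
  have h3 := Subgroup.relIndex_mul_index (inf_le_right : (Subgroup.centralizer ({(c : G)} : Set G)) ⊓ (Subgroup.centralizer (D : Set G)) ≤ (Subgroup.centralizer (D : Set G)))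
  rw [Subgroup.inf_relIndex_left, h1] at h2
  rw [Subgroup.inf_relIndex_right, ← h2, mul_comm (Subgroup.centralizer (D : Set G)).index] at h3
  have h4 : (Subgroup.centralizer ({(c : G)} : Set G)).relIndex (Subgroup.centralizer (D : Set G)) = (Subgroup.centralizer ({(c : G)} : Set G)).index :=
    Nat.eq_of_mul_eq_mul_right (Nat.pos_of_ne_zero Subgroup.index_ne_zero_of_finite) h3
  rw [← h4, Subgroup.relIndex]
  congr 1
  ext t
  simp only [Subgroup.mem_subgroupOf, Subgroup.mem_centralizer_singleton_iff, Subtype.ext_iff,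
    Subgroup.coe_mul]

/-- Let p be a prime, M a maximal ideal of the algebraic integers containing p, D a p-subgroup of the finite group G with G = D·C_G(D), and B a p-block with defect group D. Let χ be a member of B having D in its kernel (there is exactly one, the canonical character of B). Then the irreducible characters in B are exactly the functions θ on G for which there is an irreducible character ζ of D such that θ(yx) = ζ(y)χ(x) whenever y ∈ D, x has order prime to p and x commutes with y, and θ(z) = 0 whenever the p-part of z does not lie in D. -/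
theorem result {G : Type*} [Group G] [Finite G] (p : ℕ) [Fact p.Prime] (M : Ideal Cfsg.AlgInt) (hM : Cfsg.IsPModular p M) (D : Subgroup G) (hD : IsPGroup p D) (hG : D ⊔ Subgroup.centralizer (D : Set G) = ⊤) (B : Set (Cfsg.IrrCharacter G)) (hB : Cfsg.IsPBlock M B) (hBD : Cfsg.IsDefectGroup p M B D) (χ : Cfsg.IrrCharacter G) (hχ : χ ∈ B) (hχD : ∀ y ∈ D, (χ : G → ℂ) y = (χ : G → ℂ) 1) : (∀ θ : Cfsg.IrrCharacter G, θ ∈ B ↔ ∃ ζ : Cfsg.IrrCharacter D, (∀ (y : D) (x : G), ¬ p ∣ orderOf x → Commute (y : G) x → (θ : G → ℂ) ((y : G) * x) = (ζ : D → ℂ) y * (χ : G → ℂ) x) ∧ (∀ z : G, (∀ y : G, Cfsg.IsPPart p z y → y ∉ D) → (θ : G → ℂ) z = 0)) ∧ ∀ ζ : Cfsg.IrrCharacter D, ∃ θ ∈ B, (∀ (y : D) (x : G), ¬ p ∣ orderOf x → Commute (y : G) x → (θ : G → ℂ) ((y : G) * x) = (ζ : D → ℂ) y * (χ : G → ℂ) x) ∧ (∀ z : G, (∀ y : G, Cfsg.IsPPart p z y → y ∉ D) → (θ : G → ℂ) z = 0) := by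
  classical
  haveI := Fintype.ofFinite G
  haveI := Fintype.ofFinite D
  haveI : M.IsMaximal := hM.2.1
  haveI : CharP (kres M) p := charP_kres hM
  haveI := Fintype.ofFinite (Subgroup.centralizer (D : Set G))
  haveI hDn : D.Normal := Subgroup.normalizer_eq_top_iff.1 (eq_top_iff.2
    (hG ▸ sup_le Subgroup.le_normalizer (Subgroup.centralizer_le_normalizer _)))
  set φ : D × Subgroup.centralizer (D : Set G) →* G :=
    D.subtype.noncommCoprod (Subgroup.centralizer (D : Set G)).subtype commute_coe with hφdef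
  have hφ : ∀ (y : D) (c : Subgroup.centralizer (D : Set G)), φ (y, c) = (y : G) * c :=
    fun y c => rfl
  have hφs : Function.Surjective φ := fun g => by
    obtain ⟨y, c, h⟩ := exists_mul_of_sup_eq_top hG g
    exact ⟨(y, c), h.symm⟩
  -- every character is a product
  have hsplit : ∀ θ : IrrCharacter G, ∃ (α : IrrCharacter D)
      (β : IrrCharacter (Subgroup.centralizer (D : Set G))),
      ∀ (y : D) (c : Subgroup.centralizer (D : Set G)),
        (θ : G → ℂ) ((y : G) * c) = (α : D → ℂ) y *
          (β : Subgroup.centralizer (D : Set G) → ℂ) c := by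
    intro θ
    obtain ⟨α, β, hα, hβ, heq⟩ := (Cfsg.Agent.S0188.result (fun q => (θ : G → ℂ) (φ q))).1
      (Chars.isIrrCharacter_comp θ.2 φ hφs)
    exact ⟨⟨α, hα⟩, ⟨β, hβ⟩, fun y c => congrFun heq (y, c)⟩
  -- the canonical character on the centralizer
  obtain ⟨α₀, η₀, h₀⟩ := hsplit χ
  have hker : ∀ (y : D) (g : G), (χ : G → ℂ) ((y : G) * g) = (χ : G → ℂ) g := fun y g =>
    Chars.map_mul_of_mem_charKer ((Chars.mem_charKer_iff (Chars.isCharacter_coe χ)).2 (hχD y y.2)) g
  have hα₀ : ∀ y : D, (α₀ : D → ℂ) y = 1 := by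
    have hconst : ∀ y : D, (α₀ : D → ℂ) y = (α₀ : D → ℂ) 1 := fun y => by
      have h := h₀ y 1
      rw [hker, ← hker 1 ((1 : Subgroup.centralizer (D : Set G)) : G), h₀] at h
      exact (mul_right_cancel₀ (Chars.map_one_ne_zero η₀) h).symm
    have h := Chars.classInner_self α₀
    simp only [classInner, hconst, Finset.sum_const, Finset.card_univ, nsmul_eq_mul,
      ← Chars.coe_charDegree, map_natCast, ← Nat.card_eq_fintype_card] at h
    rw [← mul_assoc, inv_mul_cancel₀ Chars.natCard_ne_zero, one_mul] at h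
    have : charDegree (α₀ : D → ℂ) = 1 := by
      have : charDegree (α₀ : D → ℂ) * charDegree (α₀ : D → ℂ) = 1 := by exact_mod_cast h
      exact (mul_eq_one.1 this).1
    intro y
    rw [hconst y, ← Chars.coe_charDegree, this, Nat.cast_one]
  have hη₀ : ∀ c : Subgroup.centralizer (D : Set G),
      (η₀ : Subgroup.centralizer (D : Set G) → ℂ) c = (χ : G → ℂ) c := fun c => by
    have h := h₀ 1 c
    rw [hα₀, one_mul, OneMemClass.coe_one, one_mul] at h
    exact h.symm
  set Z := D.subgroupOf (Subgroup.centralizer (D : Set G)) with hZdef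
  have hZc : Z ≤ Subgroup.center (Subgroup.centralizer (D : Set G)) := by
    intro z hz
    rw [Subgroup.mem_center_iff]
    exact fun c => Subtype.ext (commute_coe (⟨(z : G), hz⟩ : D) c).eq.symm
  have hZp : IsPGroup p Z :=
    (hD.comap_of_injective _ (Subgroup.subtype_injective _))
  have hdeg : (charDegree (η₀ : Subgroup.centralizer (D : Set G) → ℂ)).factorization p +
      (Nat.card Z).factorization p =
      (Nat.card (Subgroup.centralizer (D : Set G))).factorization p := by
    have hd : charDegree (η₀ : Subgroup.centralizer (D : Set G) → ℂ) = charDegree (χ : G → ℂ) := by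
      have : (charDegree (η₀ : Subgroup.centralizer (D : Set G) → ℂ) : ℂ) =
          (charDegree (χ : G → ℂ) : ℂ) := by
        rw [Chars.coe_charDegree, Chars.coe_charDegree, hη₀, OneMemClass.coe_one]
      exact_mod_cast this
    have hidx : D.index = Z.index := by
      rw [hZdef, ← Subgroup.relIndex, ← Subgroup.relIndex_sup_left (K := D), hG,
        Subgroup.relIndex_top_right]
    have hlow := minExp_add_of_defectGroup hM hB hBD
    have hmin := HeightZero.minExp_le (p := p) hχ
    obtain ⟨ψ, hψ⟩ := Chars.exists_inflate_eq D χ fun y hy =>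
      (Chars.mem_charKer_iff (Chars.isCharacter_coe χ)).2 (hχD y hy)
    have hup := (Nat.factorization_le_iff_dvd (Chars.charDegree_pos ψ).ne' Nat.card_pos.ne').2
      (Chars.charDegree_dvd_card ψ) p
    rw [← Chars.charDegree_inflate D ψ, hψ, ← Subgroup.index_eq_card] at hup
    rw [← Subgroup.card_mul_index D, Nat.factorization_mul Nat.card_pos.ne'
      Subgroup.index_ne_zero_of_finite, Finsupp.add_apply] at hlow
    rw [hd, ← Subgroup.card_mul_index Z, Nat.factorization_mul Nat.card_pos.ne'
      Subgroup.index_ne_zero_of_finite, Finsupp.add_apply, ← hidx]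
    omega
  set b := blockOf M (η₀ : Subgroup.centralizer (D : Set G) → ℂ) with hbdef
  have hb : IsPBlock M b := ⟨η₀, rfl⟩
  have hbD : IsDefectGroup p M b Z := by
    refine isDefectGroup_of_central_defect_zero hM hZp hZc η₀ (fun z hz => ?_) hdeg
    rw [hη₀, hη₀, OneMemClass.coe_one]
    exact hχD _ hz
  have hbreg : ∀ η ∈ b, ∀ c : Subgroup.centralizer (D : Set G), ¬ p ∣ orderOf (c : G) →
      (η : Subgroup.centralizer (D : Set G) → ℂ) c = (χ : G → ℂ) c := by
    intro η hη c hc
    rw [apply_regular_eq_of_central_defect hM hb hZc hbD (self_mem_blockOf η₀) hη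
      (by rwa [← Subgroup.orderOf_coe] : ¬ p ∣ orderOf c), hη₀]
  have hbzero : ∀ η ∈ b, ∀ (y : D) (c : Subgroup.centralizer (D : Set G)),
      (∀ u : G, IsPPart p ((y : G) * c) u → u ∉ D) →
      (η : Subgroup.centralizer (D : Set G) → ℂ) c = 0 := by
    intro η hη y c h
    refine eq_zero_of_pPart_not_mem hM hb hZc hbD hη fun z hz hpp => ?_
    obtain ⟨w, hw, hcw, -, hwr⟩ := hpp
    obtain ⟨k, hk⟩ := IsPGroup.iff_orderOf.1 hD (y * ⟨(z : G), hz⟩)
    refine h ((y : G) * (z : G)) ⟨w, ?_, ?_, ⟨k, ?_⟩, ?_⟩ (D.mul_mem y.2 hz)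
    · rw [mul_assoc, ← Subgroup.coe_mul, hw]
    · exact Commute.mul_left (commute_coe y w) (congrArg Subtype.val hcw.eq)
    · rw [← hk, ← Subgroup.orderOf_coe]
      rfl
    · rwa [Subgroup.orderOf_coe]
  have hregmem : ∀ x : G, ¬ p ∣ orderOf x → x ∈ Subgroup.centralizer (D : Set G) :=
    fun x hx => mem_centralizer_of_regular hD hG hx
  -- construction
  have hexists : ∀ ζ : IrrCharacter D, ∃ θ ∈ B, (∀ (y : D) (x : G), ¬ p ∣ orderOf x →
      Commute (y : G) x → (θ : G → ℂ) ((y : G) * x) = (ζ : D → ℂ) y * (χ : G → ℂ) x) ∧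
      (∀ z : G, (∀ y : G, IsPPart p z y → y ∉ D) → (θ : G → ℂ) z = 0) := by
    intro ζ
    have hcen : ∀ z : Z, (⟨((z : Subgroup.centralizer (D : Set G)) : G), z.2⟩ : D) ∈
        Subgroup.center D := fun z => by
      rw [Subgroup.mem_center_iff]
      exact fun y => Subtype.ext (commute_coe y (z : Subgroup.centralizer (D : Set G))).eq
    set lam : Z → ℂ := fun z =>
      (ζ : D → ℂ) ⟨((z : Subgroup.centralizer (D : Set G)) : G), z.2⟩ / (ζ : D → ℂ) 1 with hlam
    obtain ⟨η, hη, hηz⟩ := exists_mem_with_central_values hM hb hZc hbD lam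
      (fun a a' => by
        simp only [hlam]
        rw [show (⟨(((a * a' : Z) : Subgroup.centralizer (D : Set G)) : G), (a * a').2⟩ : D) =
          ⟨((a : Subgroup.centralizer (D : Set G)) : G), a.2⟩ *
          ⟨((a' : Subgroup.centralizer (D : Set G)) : G), a'.2⟩ from rfl,
          Chars.map_mul_of_mem_center ζ (hcen a)]
        field_simp [Chars.map_one_ne_zero ζ])
      (by
        simp only [hlam]
        exact div_self (Chars.map_one_ne_zero ζ))
    have hP := (Cfsg.Agent.S0188.result (fun q : D × Subgroup.centralizer (D : Set G) =>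
      (ζ : D → ℂ) q.1 * (η : Subgroup.centralizer (D : Set G) → ℂ) q.2)).2
        ⟨_, _, ζ.2, η.2, rfl⟩
    set P : IrrCharacter (D × Subgroup.centralizer (D : Set G)) := ⟨_, hP⟩ with hPdef
    have hkerP : φ.ker ≤ Chars.charKer (P : D × Subgroup.centralizer (D : Set G) → ℂ) := by
      rintro ⟨y, c⟩ hyc
      rw [MonoidHom.mem_ker, hφ] at hyc
      rw [Chars.mem_charKer_iff (Chars.isCharacter_coe P)]
      show (ζ : D → ℂ) y * (η : Subgroup.centralizer (D : Set G) → ℂ) c =
        (ζ : D → ℂ) 1 * (η : Subgroup.centralizer (D : Set G) → ℂ) 1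
      have hc : c ∈ Z := by
        rw [hZdef, Subgroup.mem_subgroupOf, eq_inv_of_mul_eq_one_right hyc]
        exact D.inv_mem y.2
      have hy : (⟨((c : Subgroup.centralizer (D : Set G)) : G), hc⟩ : D)⁻¹ = y :=
        Subtype.ext (by rw [Subgroup.coe_inv]; exact (eq_inv_of_mul_eq_one_left hyc).symm)
      have hmulc := Chars.map_mul_of_mem_center ζ (hcen ⟨c, hc⟩) y
      rw [← hy, mul_inv_cancel] at hmulc
      rw [hηz ⟨c, hc⟩, hlam, ← hy]
      simp only at hmulc ⊢
      have h1 := Chars.map_one_ne_zero ζ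
      field_simp at hmulc ⊢
      linear_combination -hmulc * (η : Subgroup.centralizer (D : Set G) → ℂ) 1
    obtain ⟨ψ, hψ⟩ := Chars.exists_inflate_eq φ.ker P hkerP
    set θ : IrrCharacter G :=
      Chars.irrEquiv (QuotientGroup.quotientKerEquivOfSurjective φ hφs) ψ with hθdef
    have hθ : ∀ (y : D) (c : Subgroup.centralizer (D : Set G)),
        (θ : G → ℂ) ((y : G) * c) = (ζ : D → ℂ) y *
          (η : Subgroup.centralizer (D : Set G) → ℂ) c := by
      intro y c
      have h : (θ : G → ℂ) (φ (y, c)) = (P : D × Subgroup.centralizer (D : Set G) → ℂ) (y, c) := by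
        rw [hθdef, Chars.irrEquiv_apply, ← hψ, Chars.inflate_apply]
        refine congrArg _ ?_
        rw [MulEquiv.symm_apply_eq]
        rfl
      exact h
    have hreg : ∀ x : G, ¬ p ∣ orderOf x → ∀ y : D,
        (θ : G → ℂ) ((y : G) * x) = (ζ : D → ℂ) y * (χ : G → ℂ) x := fun x hx y => by
      rw [hθ y ⟨x, hregmem x hx⟩, hbreg η hη ⟨x, hregmem x hx⟩ hx]
    refine ⟨θ, ?_, fun y x hx _ => hreg x hx y, fun z hz => ?_⟩
    · by_contra hnot
      have hom := omega_setIdem B θ
      rw [if_neg hnot] at hom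
      have hom' : omega (χ : G → ℂ) (setIdem B) = 1 := by rw [omega_setIdem, if_pos hχ]
      apply one_ne_zero (α := ℂ)
      rw [← hom', ← hom, omega_apply, omega_apply]
      refine Finset.sum_congr rfl fun g _ => ?_
      by_cases hg : p ∣ orderOf g
      · have h0 : blockCoeff B g = 0 := blockCoeff_eq_zero_of_singular hM hB hg
        simp [setIdem, h0]
      · have h1 : (θ : G → ℂ) 1 = (ζ : D → ℂ) 1 * (χ : G → ℂ) 1 := by
          have := hreg 1 (by simp [hM.1.ne_one]) 1
          simpa using this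
        have h2 : (θ : G → ℂ) g = (ζ : D → ℂ) 1 * (χ : G → ℂ) g := by
          have := hreg g hg 1
          simpa using this
        rw [h1, h2]
        field_simp [Chars.map_one_ne_zero ζ]
    · obtain ⟨y, c, rfl⟩ := exists_mul_of_sup_eq_top hG z
      rw [hθ, hbzero η hη y c hz, mul_zero]
  refine ⟨fun θ => ⟨fun hθB => ?_, ?_⟩, hexists⟩
  · obtain ⟨α, β, hαβ⟩ := hsplit θ
    have hβb : β ∈ b := by
      intro c
      have hθc : ∀ c : Subgroup.centralizer (D : Set G), centralChar (θ : G → ℂ) (c : G) =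
          centralChar (β : Subgroup.centralizer (D : Set G) → ℂ) c := fun c => by
        have h1 := hαβ 1 c
        have h2 := hαβ 1 1
        rw [OneMemClass.coe_one, one_mul] at h1 h2
        rw [OneMemClass.coe_one] at h2
        rw [centralChar, centralChar, h1, h2, index_centralizer_coe hG c]
        field_simp [Chars.map_one_ne_zero α]
      have hχc : centralChar (χ : G → ℂ) (c : G) =
          centralChar (η₀ : Subgroup.centralizer (D : Set G) → ℂ) c := by
        rw [centralChar, centralChar, index_centralizer_coe hG c, hη₀, hη₀, OneMemClass.coe_one]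
      rw [← hθc c, ← hχc]
      exact sameBlock_of_mem hB hχ hθB (c : G)
    refine ⟨α, fun y x hx _ => ?_, fun z hz => ?_⟩
    · rw [hαβ y ⟨x, hregmem x hx⟩, hbreg β hβb ⟨x, hregmem x hx⟩ hx]
    · obtain ⟨y, c, rfl⟩ := exists_mul_of_sup_eq_top hG z
      rw [hαβ, hbzero β hβb y c hz, mul_zero]
  · rintro ⟨ζ, hζ, hζ0⟩
    obtain ⟨θ', hθ'B, hθ', hθ'0⟩ := hexists ζ
    have heq : θ = θ' := Subtype.ext (funext fun g => by
      by_cases hg : ∀ y : G, IsPPart p g y → y ∉ D
      · rw [hζ0 g hg, hθ'0 g hg]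
      · simp only [not_forall, not_not] at hg
        obtain ⟨u, hu, huD⟩ := hg
        obtain ⟨x, rfl, hcomm, -, hx⟩ := hu
        exact (hζ ⟨u, huD⟩ x hx hcomm).trans (hθ' ⟨u, huD⟩ x hx hcomm).symm)
    rw [heq]
    exact hθ'B

end Cfsg.Agent.S4714
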