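import Cfsg.Statements.S4715
import Cfsg.Agent.Blocks.Subsection.HeightCenter
import Cfsg.Agent.Eq.Def_Blocks

set_option autoImplicit false
open Cfsg CfsgLib CfsgLib.Blocks

namespace Cfsg.Agent.S4715

/-- Let p be a prime, M a maximal ideal of the algebraic integers containing p, B a p-block of the finite group G with defect group D of order p^d, H = D·C_G(D), b a block of H inducing B, T the stabilizer of b in N_G(D) and e = [T : H] the inertial index of B; let n be the integer with p^n ≤ e < p^(n+1) and p^c the order of the centre of D. Then every irreducible character in B has height h with h + c ≤ n + d. -/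
theorem result {G : Type*} [Group G] [Finite G] (p : ℕ) [Fact p.Prime] (M : Ideal Cfsg.AlgInt) (hM : Cfsg.IsPModular p M) (B : Set (Cfsg.IrrCharacter G)) (hB : Cfsg.IsPBlock M B) (D : Subgroup G) (hBD : Cfsg.IsDefectGroup p M B D) (d : ℕ) (hDd : Nat.card D = p ^ d) (H : Subgroup G) (hH : H = D ⊔ Subgroup.centralizer (D : Set G)) (b : Set (Cfsg.IrrCharacter H)) (hind : Cfsg.IsInducedBlock M H b B) (T : Subgroup G) (hT : ∀ g : G, g ∈ T ↔ (g ∈ Subgroup.normalizer (D : Set G) ∧ ∀ θ ∈ b, ∀ θ' : Cfsg.IrrCharacter H, (∀ h h' : H, (h' : G) = g * h * g⁻¹ → (θ' : H → ℂ) h' = (θ : H → ℂ) h) → θ' ∈ b)) (e : ℕ) (he : H.relIndex T = e) (n : ℕ) (hn : p ^ n ≤ e ∧ e < p ^ (n + 1)) (c : ℕ) (hc : Nat.card (Subgroup.center D) = p ^ c) : ∀ χ ∈ B, Cfsg.blockHeight p B (χ : G → ℂ) + c ≤ n + d := by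
  classical
  have : M.IsMaximal := hM.2.1
  have : CharP (kres M) p := charP_kres hM
  have := Fintype.ofFinite G
  have hp : p.Prime := Fact.out
  have hDI := (isDefectGroup_topEl_iff (M := M) hB D).1 hBD
  have hDp := hDI.2.1
  set C := Subgroup.centralizer (D : Set G) with hC
  have hDH : D ≤ H := hH ▸ le_sup_left
  have hCH : C ≤ H := hH ▸ le_sup_right
  have hHN : H ≤ Subgroup.normalizer (D : Set G) :=
    hH ▸ sup_le Subgroup.le_normalizer (Subgroup.centralizer_le_normalizer _)
  set eb := subEl M H b with heb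
  have hbI : IsBlockIdem H eb := isBlockIdem_subEl hind.1
  have hsupp : IsSupportedOn eb C :=
    hbI.isSupportedOn_of_normalizing hDp (hDH.trans Subgroup.le_normalizer) hHN
  have hcen : eb ∈ centerIn (kres M) C := ⟨hsupp, hbI.1.2.mono hCH⟩
  obtain ⟨f, hf, hfe⟩ : ∃ f, IsBlockIdem C f ∧ eb * f = f := by
    by_contra hcon
    simp only [not_exists, not_and] at hcon
    apply hbI.ne_zero
    rw [← mul_one eb, ← sum_blockIdems C, Finset.mul_sum]
    exact Finset.sum_eq_zero fun f hf =>
      ((mem_blockIdems.mp hf).2.2.2 eb hcen hbI.idem).resolve_right (hcon f (mem_blockIdems.mp hf))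
  have hfD : IsFixedBy f D := by
    rw [isFixedBy_iff_conjA]
    intro u hu
    refine MonoidAlgebra.ext (Finsupp.ext fun g => ?_)
    rw [coeff_conjA]
    by_cases hg : g ∈ C
    · congr 1
      rw [mul_assoc, ← Subgroup.mem_centralizer_iff.1 hg u hu, inv_mul_cancel_left]
    · rw [hf.1.1 g hg, hf.1.1]
      intro h
      apply hg
      have h1 := Subgroup.mem_centralizer_iff.1 h u hu
      have h2 : g = u⁻¹ * g * u := by
        calc g = (u * (u⁻¹ * g * u)) * u⁻¹ := by group
          _ = (u⁻¹ * g * u * u) * u⁻¹ := by rw [h1]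
          _ = _ := by group
      rw [h2]
      exact h
  have hfH : IsFixedBy f H := hH ▸ hfD.sup hf.1.2
  have hfI : IsBlockIdem H f := IsBlockIdem.isBlockIdem_of_fixed (H := ⊤) (Q := D)
    (by rwa [top_inf_eq]) hDp hDH le_top (by rwa [top_inf_eq]) hHN hfH
  have hefb : eb = f := by
    by_contra hne
    exact hfI.ne_zero (hfe ▸ hbI.orthogonal hfI hne)
  have hfb : BrOver D f eb := by
    show brTrunc D eb * f = f
    rw [hbI.brTrunc_eq_self hDp hDH hHN, hfe]
  have hpair : IsPairOfIdem p ⊤ (topEl M B) D f :=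
    ⟨⟨hDp, le_top, by rwa [top_inf_eq]⟩, brOver_of_isInducedBlock hM hDp hDH hCH hind hf hfb⟩
  have hstab : pairStab ⊤ D f ≤ T := by
    intro g hg
    obtain ⟨⟨-, hgN⟩, hgf⟩ := mem_pairStab.mp hg
    refine (hT g).2 ⟨hgN, fun θ hθ θ' hθ' => ?_⟩
    have hmap : H.map (MulAut.conj g).toMonoidHom = H := by
      rw [hH, Subgroup.map_sup, map_conj_eq_self_of_mem_normalizer hgN, map_conj_centralizer,
        map_conj_eq_self_of_mem_normalizer hgN]
    set φ := conjIso H H g hmap with hφ
    have hblk : mapBlock φ b = b := subEl_injective (M := M) (isPBlock_mapBlock φ hind.1) hind.1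
      (by rw [hφ, subEl_mapBlock_conj, ← heb, hefb, hgf])
    have hmem : Chars.irrEquiv φ θ ∈ mapBlock φ b := ⟨θ, hθ, rfl⟩
    have heq : θ' = Chars.irrEquiv φ θ := by
      refine Subtype.ext (funext fun h' => ?_)
      obtain ⟨h, rfl⟩ := φ.surjective h'
      rw [Chars.irrEquiv_apply, MulEquiv.symm_apply_apply, hθ' h (φ h) (coe_conjIso ..)]
    rw [hblk] at hmem
    rwa [heq]
  intro χ hχ
  have h := HeightCenter.pow_height_mul_card_center_le hM hB hBD hpair hH.symm hstab hχ
  have hd : blockDefect p B = d := Nat.pow_right_injective hp.two_le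
    ((Contrib.natCard_defectGroup hM hB hBD).symm.trans hDd)
  rw [hc, he, hd, ← pow_add] at h
  have h2 : p ^ (blockHeight p B (χ : G → ℂ) + c) < p ^ (n + 1 + d) := by
    rw [pow_add p (n + 1) d]
    exact h.trans_lt (Nat.mul_lt_mul_of_pos_right hn.2 (pow_pos hp.pos d))
  have := (Nat.pow_lt_pow_iff_right hp.one_lt).1 h2
  omega

end Cfsg.Agent.S4715
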