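import Cfsg.Statements.S4717
import Cfsg.Agent.Eq.Def_Blocks
import Cfsg.Agent.Blocks.HeightZero.PrincipalSection
import Cfsg.Agent.Blocks.Defect.Induced
import Cfsg.Agent.Blocks.HeightZero.MinMax
import Cfsg.Agent.S0908
import Cfsg.Agent.S0917

set_option autoImplicit false
open Cfsg

namespace Cfsg.Agent.S4717

open CfsgLib CfsgLib.Blocks
open CfsgLib.Blocks.HeightZero (isInducedBlock_principal_iff exists_defectGroup centralizer_zpowers_eq)

theorem le_blockDefect_of_card_le {G H : Type*} [Group G] [Group H] {p a b : ℕ} (hp : p.Prime)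
    {D : Subgroup G} {E : Subgroup H} (hD : Nat.card D = p ^ a) (hE : Nat.card E = p ^ b)
    (h : Nat.card D ≤ Nat.card E) : a ≤ b :=
  (Nat.pow_le_pow_iff_right hp.one_lt).1 (hD ▸ hE ▸ h)

/-- Let p be a prime, M a maximal ideal of the algebraic integers containing p, and r a natural number; say that a finite group X has deficiency class r when X has no non-principal p-block of defect ≥ r. If G has deficiency class r then so does the centralizer of every p-element of G; conversely, if r > 0 and the centralizer of every element of order p has deficiency class r, then G has deficiency class r. -/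
theorem result {G : Type*} [Group G] [Finite G] (p : ℕ) [Fact p.Prime] (M : Ideal Cfsg.AlgInt) (hM : Cfsg.IsPModular p M) (r : ℕ) : ((∀ B' : Set (Cfsg.IrrCharacter G), Cfsg.IsPBlock M B' → B' ≠ Cfsg.principalBlock M G → Cfsg.blockDefect p B' < r) → ∀ y : G, (∃ k : ℕ, orderOf y = p ^ k) → (∀ B' : Set (Cfsg.IrrCharacter ↥(Subgroup.centralizer ({y} : Set G))), Cfsg.IsPBlock M B' → B' ≠ Cfsg.principalBlock M ↥(Subgroup.centralizer ({y} : Set G)) → Cfsg.blockDefect p B' < r)) ∧ (0 < r → (∀ y : G, orderOf y = p → (∀ B' : Set (Cfsg.IrrCharacter ↥(Subgroup.centralizer ({y} : Set G))), Cfsg.IsPBlock M B' → B' ≠ Cfsg.principalBlock M ↥(Subgroup.centralizer ({y} : Set G)) → Cfsg.blockDefect p B' < r)) → (∀ B' : Set (Cfsg.IrrCharacter G), Cfsg.IsPBlock M B' → B' ≠ Cfsg.principalBlock M G → Cfsg.blockDefect p B' < r)) := by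
  classical
  have := Fintype.ofFinite G
  have := isMaximal_of_isPModular hM
  have := charP_kres hM
  refine ⟨fun hG y hy b hb hne => ?_, fun hr hC B hB hne => ?_⟩
  · have := Fintype.ofFinite ↥(Subgroup.centralizer ({y} : Set G))
    obtain ⟨B, hind⟩ := HeightZero.inducedBlockDefined_centralizer hM hy hb
    have hBne : B ≠ principalBlock M G := fun h =>
      hne ((isInducedBlock_principal_iff hM hy hb).1 (h ▸ hind))
    obtain ⟨D, hD⟩ := exists_defectGroup hM hb
    obtain ⟨E, hE, hDE⟩ := Cfsg.Agent.S0917.result p M hM _ b hb B hind.2.1 hind D hD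
    refine lt_of_le_of_lt ?_ (hG B hind.2.1 hBne)
    refine le_blockDefect_of_card_le hM.1 (Cfsg.Agent.S0908.result p M hM b hb D hD)
      (Cfsg.Agent.S0908.result p M hM B hind.2.1 E hE) ?_
    rw [← Subgroup.card_map_of_injective (Subgroup.centralizer ({y} : Set G)).subtype_injective (K := D)]
    exact Subgroup.card_le_of_le hDE
  · by_contra hlt
    push Not at hlt
    obtain ⟨D, hD⟩ := exists_defectGroup hM hB
    have hcard := Cfsg.Agent.S0908.result p M hM B hB D hD
    have hDp : IsPGroup p D := IsPGroup.of_card hcard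
    have : Nontrivial D := by
      rw [← Finite.one_lt_card_iff_nontrivial, hcard]
      exact Nat.one_lt_pow (by omega) hM.1.one_lt
    have := hDp.center_nontrivial
    obtain ⟨w, hw⟩ := exists_prime_orderOf_dvd_card' (G := Subgroup.center D) p (by
      obtain ⟨n, hn, hn'⟩ := (hDp.to_subgroup _).nontrivial_iff_card.1 this
      rw [hn']; exact dvd_pow_self p hn.ne')
    set z : G := ((w : D) : G) with hz
    have hzord : orderOf z = p := by rw [hz, Subgroup.orderOf_coe, Subgroup.orderOf_coe, hw]
    have hzp : ∃ k : ℕ, orderOf z = p ^ k := ⟨1, by rw [hzord, pow_one]⟩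
    have hDH : D ≤ Subgroup.centralizer ({z} : Set G) := fun d hd => by
      rw [Subgroup.mem_centralizer_singleton_iff]
      exact congrArg Subtype.val (Subgroup.mem_center_iff.1 w.2 ⟨d, hd⟩)
    have hPD : Subgroup.zpowers z ≤ D := Subgroup.zpowers_le.2 (w : D).2
    have hPp : IsPGroup p (Subgroup.zpowers z) :=
      IsPGroup.of_card (n := 1) (by rw [Nat.card_zpowers, hzord, pow_one])
    have hPH : Subgroup.zpowers z ≤ Subgroup.centralizer ({z} : Set G) := hPD.trans hDH
    have hCH := (centralizer_zpowers_eq z).le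
    have hHN : Subgroup.centralizer ({z} : Set G) ≤
        Subgroup.normalizer (Subgroup.zpowers z : Set G) := by
      rw [← centralizer_zpowers_eq]
      exact Subgroup.centralizer_le_normalizer _
    have hDI := (isDefectGroup_topEl_iff (p := p) hB D).1 hD
    have he := isBlockIdem_topEl (M := M) hB
    have S : BrSetting p ⊤ (Subgroup.zpowers z) (Subgroup.centralizer ({z} : Set G)) :=
      ⟨hPp, le_top, inf_le_right.trans hCH, le_top, hHN⟩
    have ht := S.trunc_mem he.1
    have hti := S.trunc_idem he.1 he.idem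
    obtain ⟨f, hf, hfD⟩ : ∃ f ∈ blockIdems (kres M) (Subgroup.centralizer ({z} : Set G)),
        brTrunc D (brTrunc (Subgroup.zpowers z) (topEl M B) * f) ≠ 0 := by
      apply Finset.exists_ne_zero_of_sum_ne_zero
      rw [← map_sum, ← Finset.mul_sum, sum_blockIdems, mul_one, brTrunc_brTrunc hPD]
      exact hDI.2.2.1
    rw [mem_blockIdems] at hf
    have hfeq : brTrunc (Subgroup.zpowers z) (topEl M B) * f = f := by
      rcases hf.2.2.2 _ ht hti with h | h
      · exact absurd (by rw [h, map_zero]) hfD
      · exact h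
    rw [hfeq] at hfD
    obtain ⟨b, hb, rfl⟩ := exists_subEl_eq hf
    have := Fintype.ofFinite ↥(Subgroup.centralizer ({z} : Set G))
    have hind : IsInducedBlock M (Subgroup.centralizer ({z} : Set G)) b B :=
      (isInducedBlock_iff_brOver hM hPp hPH hCH hHN hb hB).2 hfeq
    have hbne : b ≠ principalBlock M ↥(Subgroup.centralizer ({z} : Set G)) := fun h =>
      hne (isInducedBlock_unique hM hind ((isInducedBlock_principal_iff hM hzp hb).2 h))
    obtain ⟨E, hE⟩ := exists_defectGroup hM hb
    have hEI := (isDefectGroup_subEl_iff (p := p) hb E).1 hE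
    obtain ⟨h, -, hle⟩ := hEI.2.2.2 D hDH hDp hfD
    refine absurd (hC z hzord b hb hbne) (not_lt.2 (hlt.trans ?_))
    refine le_blockDefect_of_card_le hM.1 hcard (Cfsg.Agent.S0908.result p M hM b hb E hE) ?_
    rw [← card_map_conj D h, ← Subgroup.card_map_of_injective
      (Subgroup.centralizer ({z} : Set G)).subtype_injective (K := E)]
    exact Subgroup.card_le_of_le hle

end Cfsg.Agent.S4717
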