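import Cfsg.Statements.S4718
import Cfsg.Agent.Eq.Def_Blocks
import Cfsg.Agent.Blocks.Orth.BrauerFeit
import Cfsg.Agent.Blocks.Orth.Landau
import Cfsg.Agent.Blocks.Basic.Principal

set_option autoImplicit false
universe u
open Cfsg

namespace Cfsg.Agent.S4718

/-- Let p be a prime and a a natural number. There is a bound N such that every finite group whose Sylow p-subgroups have order p^a and whose only p-block (relative to a maximal ideal of the algebraic integers containing p) is the principal block has order at most N. -/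
theorem result (p : ℕ) [Fact p.Prime] (a : ℕ) : ∃ N : ℕ, ∀ (G : Type u) [Group G] [Finite G] (M : Ideal Cfsg.AlgInt), Cfsg.IsPModular p M → (Nat.card G).factorization p = a → (∀ B : Set (Cfsg.IrrCharacter G), Cfsg.IsPBlock M B → B = Cfsg.principalBlock M G) → Nat.card G ≤ N := by
  obtain ⟨N, hN⟩ := CfsgLib.Blocks.exists_bound_card_of_card_conjClasses.{u} (p ^ (2 * a) + 1)
  refine ⟨N, fun G _ _ M hM hsyl hone => hN G ?_⟩
  have := Fintype.ofFinite G
  have := hM.2.1
  have hB : Cfsg.IsPBlock M (Cfsg.principalBlock M G) := CfsgLib.Blocks.isPBlock_principalBlock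
  have huniv : Cfsg.principalBlock M G = Set.univ := Set.eq_univ_of_forall fun χ => by
    rw [← hone (Cfsg.blockOf M (χ : G → ℂ)) ⟨χ, rfl⟩]
    exact CfsgLib.Blocks.self_mem_blockOf χ
  have h := CfsgLib.Blocks.BrauerFeit.four_mul_card_le hM hB
  have hd : Cfsg.blockDefect p (Cfsg.principalBlock M G) ≤ a := by
    rw [← hsyl]
    exact Nat.sub_le _ _
  have hpw := Nat.pow_le_pow_right (Fact.out : p.Prime).pos
    (show 2 * Cfsg.blockDefect p (Cfsg.principalBlock M G) ≤ 2 * a by omega)
  have hk : Nat.card (Cfsg.principalBlock M G) = Nat.card (ConjClasses G) := by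
    rw [huniv, Nat.card_congr (Equiv.Set.univ _), CfsgLib.Chars.card_irrCharacter]
  omega

end Cfsg.Agent.S4718
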