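import Cfsg.Statements.S4719
import Cfsg.Agent.Deficiency.Blocks
import Cfsg.Agent.Deficiency.FourBound
import Cfsg.Agent.S4718

set_option autoImplicit false
universe u
open Cfsg

namespace Cfsg.Agent.S4719

/-- For every natural number a there is a bound N with the following property. Let G be a finite group with Sylow 2-subgroups of order 2^a and r ≥ 0 such that G has no non-principal 2-block (relative to a maximal ideal of the algebraic integers containing 2) of defect ≥ r, and suppose a Sylow 2-subgroup of G contains an elementary abelian subgroup of order 2^(r+1). Then the order of G is at most N. -/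
theorem result (a : ℕ) : ∃ N : ℕ, ∀ (G : Type u) [Group G] [Finite G] (M : Ideal Cfsg.AlgInt) (r : ℕ) (P : Sylow 2 G), Cfsg.IsPModular 2 M → Nat.card P = 2 ^ a → (∀ B : Set (Cfsg.IrrCharacter G), Cfsg.IsPBlock M B → B ≠ Cfsg.principalBlock M G → Cfsg.blockDefect 2 B < r) → (∃ E : Subgroup G, E ≤ (P : Subgroup G) ∧ IsMulCommutative E ∧ (∀ x ∈ E, x * x = 1) ∧ Nat.card E = 2 ^ (r + 1)) → Nat.card G ≤ N := by
  classical
  haveI : Fact (Nat.Prime 2) := ⟨Nat.prime_two⟩
  choose N0 hN0 using fun a' : ℕ => Cfsg.Agent.S4718.result.{u} 2 a'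
  set c0 := (Finset.range (a + 1)).sup N0 with hc0
  let seq : ℕ → ℕ := fun k => Nat.rec c0 (fun _ c => 2 ^ a * CfsgLib.Deficiency.bound c a) k
  refine ⟨(Finset.range (a + 1)).sup seq, fun G _ _ M r P hM hP hdef hE => ?_⟩
  obtain ⟨E, hEP, hEc, hEsq, hEcard⟩ := hE
  haveI := Fintype.ofFinite G
  have hva : ∀ (K : Type u) [Group K] [Finite K], Nat.card K ∣ Nat.card G →
      (Nat.card K).factorization 2 ≤ a := by
    intro K _ _ hK
    refine le_trans ((Nat.factorization_le_iff_dvd Nat.card_pos.ne' Nat.card_pos.ne').2 hK 2)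
      (le_of_eq ?_)
    rw [P.card_eq_multiplicity] at hP
    exact Nat.pow_right_injective le_rfl hP
  have hra : r + 1 ≤ a := by
    have h := Subgroup.card_le_of_le hEP
    rw [hEcard, hP] at h
    exact (Nat.pow_le_pow_iff_right (le_refl 2)).1 h
  have hcomm : ∀ p ∈ E, ∀ q ∈ E, p * q = q * p := fun p hp q hq =>
    congrArg Subtype.val (hEc.is_comm.comm (⟨p, hp⟩ : E) ⟨q, hq⟩)
  have main : ∀ k, k ≤ r → ∀ Q : Subgroup G, Q ≤ E → Nat.card Q = 2 ^ (r - k) →
      Nat.card (Subgroup.centralizer (Q : Set G)) ≤ seq k := by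
    intro k
    induction k with
    | zero =>
      intro _ Q hQE hQcard
      rw [Nat.sub_zero] at hQcard
      set C := Subgroup.centralizer (Q : Set G) with hC
      have hone : ∀ b : Set (Cfsg.IrrCharacter C), Cfsg.IsPBlock M b → b = Cfsg.principalBlock M C :=
        fun b hb => CfsgLib.Deficiency.eq_principalBlock_centralizer hM hdef
          (IsPGroup.of_card hQcard)
          (fun q hq => Subgroup.mem_centralizer_iff.2 fun q' hq' => hcomm q' (hQE hq') q (hQE hq))
          hQcard.ge hb
      have hle := hva C (Subgroup.card_subgroup_dvd_card C)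
      exact (hN0 _ C M hM rfl hone).trans
        (Finset.le_sup (f := N0) (Finset.mem_range.2 (Nat.lt_succ_iff.2 hle)))
    | succ k ih =>
      intro hk Q hQE hQcard
      set H := Subgroup.centralizer (Q : Set G) with hH
      have hEH : E ≤ H := fun e he =>
        Subgroup.mem_centralizer_iff.2 fun q hq => hcomm q (hQE hq) e he
      have hQH : Q ≤ H := hQE.trans hEH
      set QH := Q.subgroupOf H with hQH'
      haveI hQn : QH.Normal := ⟨fun q hq g => by
        rw [hQH', Subgroup.mem_subgroupOf] at hq ⊢
        have hc := Subgroup.mem_centralizer_iff.1 g.2 (q : G) hq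
        simp only [Subgroup.coe_mul, Subgroup.coe_inv]
        rw [← hc, mul_inv_cancel_right]
        exact hq⟩
      -- adjoining one involution
      have hext : ∀ w ∈ E, w ∉ Q → ∃ Q' : Subgroup G, Q' ≤ E ∧ Q ≤ Q' ∧ w ∈ Q' ∧
          Nat.card Q' = 2 ^ (r - k) := by
        intro w hw hwQ
        have hww := hEsq w hw
        let Q' : Subgroup G :=
          { carrier := {g | g ∈ E ∧ (g ∈ Q ∨ w * g ∈ Q)}
            one_mem' := ⟨E.one_mem, Or.inl Q.one_mem⟩
            mul_mem' := by
              rintro p q ⟨hpE, hp⟩ ⟨hqE, hq⟩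
              refine ⟨E.mul_mem hpE hqE, ?_⟩
              rcases hp with hp | hp <;> rcases hq with hq | hq
              · exact Or.inl (Q.mul_mem hp hq)
              · refine Or.inr ?_
                rw [← mul_assoc, hcomm w hw p hpE, mul_assoc]
                exact Q.mul_mem hp hq
              · refine Or.inr ?_
                rw [← mul_assoc]
                exact Q.mul_mem hp hq
              · refine Or.inl ?_
                have e : p * q = w * p * (w * q) := by
                  rw [hcomm w hw p hpE, mul_assoc p w, ← mul_assoc w w, hww, one_mul]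
                rw [e]
                exact Q.mul_mem hp hq
            inv_mem' := by
              rintro p ⟨hpE, hp⟩
              have : p⁻¹ = p := inv_eq_of_mul_eq_one_left (hEsq p hpE)
              show p⁻¹ ∈ E ∧ (p⁻¹ ∈ Q ∨ w * p⁻¹ ∈ Q)
              rw [this]
              exact ⟨hpE, hp⟩ }
        refine ⟨Q', fun g hg => hg.1, fun g hg => ⟨hQE hg, Or.inl hg⟩,
          ⟨hw, Or.inr (hww ▸ Q.one_mem)⟩, ?_⟩
        have e2 : Nat.card Q' = Nat.card (Q × Bool) := (Nat.card_eq_of_bijective
          (fun x : Q × Bool => (⟨if x.2 then w * x.1 else x.1, by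
            rcases x with ⟨q, _ | _⟩
            · exact ⟨hQE q.2, Or.inl q.2⟩
            · exact ⟨E.mul_mem hw (hQE q.2), Or.inr (by
                simp only [if_true, ← mul_assoc, hww, one_mul]; exact q.2)⟩⟩ : Q'))
          ⟨by
            rintro ⟨q, b⟩ ⟨q', b'⟩ e
            have e' : (if b then w * (q : G) else q) = (if b' then w * (q' : G) else q') :=
              congrArg Subtype.val e
            cases b <;> cases b' <;> simp only [Bool.false_eq_true, if_false, if_true] at e'
            · exact Prod.ext (Subtype.ext e') rfl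
            · exact absurd (show w ∈ Q by
                rw [show w = (q : G) * (q' : G)⁻¹ by rw [e', mul_inv_cancel_right]]
                exact Q.mul_mem q.2 (Q.inv_mem q'.2)) hwQ
            · exact absurd (show w ∈ Q by
                rw [show w = (q' : G) * (q : G)⁻¹ by rw [← e', mul_inv_cancel_right]]
                exact Q.mul_mem q'.2 (Q.inv_mem q.2)) hwQ
            · exact Prod.ext (Subtype.ext (mul_left_cancel e')) rfl,
          by
            rintro ⟨g, hgE, hg | hg⟩
            · exact ⟨(⟨g, hg⟩, false), Subtype.ext (by simp)⟩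
            · exact ⟨(⟨w * g, hg⟩, true), Subtype.ext (by simp [← mul_assoc, hww])⟩⟩).symm
        rw [e2, Nat.card_prod, hQcard, Nat.card_eq_fintype_card (α := Bool), Fintype.card_bool,
          ← pow_succ, show r - (k + 1) + 1 = r - k by omega]
      obtain ⟨u, huE, huQ⟩ : ∃ u ∈ E, u ∉ Q := by
        by_contra h
        push Not at h
        have h' := Subgroup.card_le_of_le (show E ≤ Q from h)
        rw [hEcard, hQcard, Nat.pow_le_pow_iff_right (le_refl 2)] at h'
        omega
      obtain ⟨Qu, hQuE, hQQu, huQu, hQucard⟩ := hext u huE huQ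
      obtain ⟨v, hvE, hvQu⟩ : ∃ v ∈ E, v ∉ Qu := by
        by_contra h
        push Not at h
        have h' := Subgroup.card_le_of_le (show E ≤ Qu from h)
        rw [hEcard, hQucard, Nat.pow_le_pow_iff_right (le_refl 2)] at h'
        omega
      have hvQ : v ∉ Q := fun h => hvQu (hQQu h)
      have huvQ : u * v ∉ Q := fun h => hvQu (by
        have h1 := Qu.mul_mem huQu (hQQu h)
        rwa [← mul_assoc, hEsq u huE, one_mul] at h1)
      let toQ : H →* H ⧸ QH := QuotientGroup.mk' QH
      have hord : ∀ (w : G) (hw : w ∈ E), w ∉ Q → orderOf (toQ ⟨w, hEH hw⟩) = 2 := by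
        intro w hw hwQ
        refine orderOf_eq_prime ?_ fun e => hwQ ?_
        · rw [← map_pow, pow_two,
            show (⟨w, hEH hw⟩ : H) * ⟨w, hEH hw⟩ = 1 from Subtype.ext (hEsq w hw), map_one]
        · exact Subgroup.mem_subgroupOf.1 ((QuotientGroup.eq_one_iff _).1 e)
      have hcen : ∀ (w : G) (hw : w ∈ E), w ∉ Q →
          Nat.card (Subgroup.centralizer ({toQ ⟨w, hEH hw⟩} : Set (H ⧸ QH))) ≤ seq k := by
        intro w hw hwQ
        refine (CfsgLib.Deficiency.card_centralizer_quotient_le QH (⟨w, hEH hw⟩ : H)).trans ?_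
        obtain ⟨Qw', hQw'E, hQQw', hwQw', hQw'card⟩ := hext w hw hwQ
        refine le_trans ?_ (ih (by omega) (Subgroup.closure ((Q : Set G) ∪ {w}))
          ((Subgroup.closure_le _).2 (Set.union_subset hQE (Set.singleton_subset_iff.2 hw))) ?_)
        · refine Nat.card_le_card_of_injective (fun g => ⟨((g : H) : G), ?_⟩) fun g g' e =>
            Subtype.ext (Subtype.ext (congrArg Subtype.val e :))
          rw [Subgroup.centralizer_closure, Subgroup.mem_centralizer_iff]
          rintro q (hq | hq)
          · exact Subgroup.mem_centralizer_iff.1 (g : H).2 q hq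
          · rw [Set.mem_singleton_iff] at hq
            subst hq
            exact (congrArg Subtype.val (Subgroup.mem_centralizer_singleton_iff.1 g.2)).symm
        · have hle1 : Subgroup.closure ((Q : Set G) ∪ {w}) ≤ Qw' :=
            (Subgroup.closure_le _).2 (Set.union_subset hQQw' (Set.singleton_subset_iff.2 hwQw'))
          have hlt : Q < Subgroup.closure ((Q : Set G) ∪ {w}) :=
            lt_of_le_of_ne (fun q hq => Subgroup.subset_closure (Or.inl hq))
              fun e => hwQ (e ▸ Subgroup.subset_closure (Or.inr rfl))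
          obtain ⟨j, hj, hj'⟩ := (Nat.dvd_prime_pow Nat.prime_two).1
            ((Subgroup.card_dvd_of_le hle1).trans (dvd_of_eq hQw'card))
          have h1 : r - (k + 1) < j := by
            by_contra hcon
            refine absurd (Subgroup.eq_of_le_of_card_ge hlt.le ?_) hlt.ne
            rw [hj', hQcard]
            exact Nat.pow_le_pow_right two_pos (not_lt.1 hcon)
          rw [hj', show j = r - k by omega]
      have hb := CfsgLib.Deficiency.card_le_bound (seq k) a (H ⧸ QH)
        (hva _ ((Subgroup.card_quotient_dvd_card QH).trans (Subgroup.card_subgroup_dvd_card H)))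
        (toQ ⟨u, hEH huE⟩) (toQ ⟨v, hEH hvE⟩) (hord u huE huQ) (hord v hvE hvQ)
        (by
          show toQ _ * toQ _ = toQ _ * toQ _
          rw [← map_mul, ← map_mul,
            show (⟨u, hEH huE⟩ : H) * ⟨v, hEH hvE⟩ = ⟨v, hEH hvE⟩ * ⟨u, hEH huE⟩ from
              Subtype.ext (hcomm u huE v hvE)])
        (fun e => huvQ (by
          have e1 : toQ (⟨u, hEH huE⟩ * ⟨v, hEH hvE⟩) = 1 := by
            rw [map_mul, e, ← map_mul,
              show (⟨v, hEH hvE⟩ : H) * ⟨v, hEH hvE⟩ = 1 from Subtype.ext (hEsq v hvE), map_one]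
          exact Subgroup.mem_subgroupOf.1 ((QuotientGroup.eq_one_iff _).1 e1)))
        (hcen u huE huQ) (hcen v hvE hvQ)
        (by
          rw [← map_mul]
          exact hcen (u * v) (E.mul_mem huE hvE) huvQ)
      rw [Subgroup.card_eq_card_quotient_mul_card_subgroup QH,
        Nat.card_congr (Subgroup.subgroupOfEquivOfLe hQH).toEquiv, hQcard, mul_comm]
      exact Nat.mul_le_mul (Nat.pow_le_pow_right two_pos (by omega)) hb
  have hfin := main r le_rfl ⊥ bot_le (by rw [Nat.sub_self, pow_zero, Subgroup.card_bot])
  have htop : Subgroup.centralizer ((⊥ : Subgroup G) : Set G) = ⊤ := eq_top_iff.2 fun g _ =>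
    Subgroup.mem_centralizer_iff.2 fun q hq => by
      rw [SetLike.mem_coe, Subgroup.mem_bot] at hq
      rw [hq, one_mul, mul_one]
  rw [htop, Subgroup.card_top] at hfin
  exact hfin.trans (Finset.le_sup (f := seq) (Finset.mem_range.2 (by omega)))

end Cfsg.Agent.S4719
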