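import Cfsg.Statements.S4720
import Cfsg.Agent.Blocks.HeightZero.PrincipalSection
import Cfsg.Agent.Blocks.Orth.Blocks

set_option autoImplicit false
open Cfsg

namespace Cfsg.Agent.S4720

open CfsgLib CfsgLib.Blocks CfsgLib.Blocks.HeightZero
open scoped ComplexConjugate

theorem extendByZero_coe {G : Type*} [Group G] (H : Subgroup G) (θ : ↥H → ℂ) (h : ↥H) :
    extendByZero H θ (h : G) = θ h :=
  Function.Injective.extend_apply Subtype.val_injective θ 0 h

open scoped Classical in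
/-- The conjugates inside `P` of an element of `U`, weighted by its centralizer in `N`. -/
theorem sum_conj_in_P {G : Type*} [Group G] [Fintype G] (P N : Subgroup G) [Fintype ↥P] [Fintype ↥N]
    (hNP : ∀ x ∈ N, ∀ y ∈ P, x * y * x⁻¹ ∈ P) (f : ↥P → ℂ) (y : ↥P)
    (hfus : ∀ g : G, g * (y : G) * g⁻¹ ∈ (P : Set G) → ∃ n ∈ N, n * (y : G) * n⁻¹ = g * y * g⁻¹) :
    ∑ x : ↥N, extendByZero P f ((x : G) * (y : G) * (x : G)⁻¹) =
      ∑ y' : ↥P, if IsConj (y : G) y' then
        (Nat.card ↥(N ⊓ Subgroup.centralizer ({(y : G)} : Set G)) : ℂ) * f y' else 0 := by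
  classical
  set φ : ↥N → ↥P := fun x => ⟨(x : G) * (y : G) * (x : G)⁻¹, hNP x x.2 y y.2⟩ with hφ
  rw [← Finset.sum_fiberwise Finset.univ φ]
  refine Finset.sum_congr rfl fun y' _ => ?_
  split_ifs with hc
  · obtain ⟨g, hg⟩ := isConj_iff.1 hc
    obtain ⟨n, hn, hn'⟩ := hfus g (by rw [hg]; exact y'.2)
    rw [Finset.sum_congr rfl fun x hx => by
      rw [show ((x : G) * (y : G) * (x : G)⁻¹) = ((φ x : ↥P) : G) from rfl, extendByZero_coe,
        (Finset.mem_filter.1 hx).2], Finset.sum_const, nsmul_eq_mul]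
    congr 2
    rw [Nat.card_eq_fintype_card, ← Fintype.card_coe]
    apply Fintype.card_congr
    refine ⟨fun x => ⟨n⁻¹ * (x.1 : G), N.mul_mem (N.inv_mem hn) x.1.2, ?_⟩,
      fun c => ⟨⟨n * (c : G), N.mul_mem hn c.2.1⟩, ?_⟩, fun x => ?_, fun c => ?_⟩
    · have hx : (x.1 : G) * y * (x.1 : G)⁻¹ = n * y * n⁻¹ := by
        have := congrArg Subtype.val (Finset.mem_filter.1 x.2).2
        rw [hn', hg]; exact this
      refine Subgroup.mem_centralizer_singleton_iff.2 ?_
      calc n⁻¹ * (x.1 : G) * y = n⁻¹ * ((x.1 : G) * y * (x.1 : G)⁻¹) * x.1 := by group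
        _ = _ := by rw [hx]; group
    · rw [Finset.mem_filter]
      refine ⟨Finset.mem_univ _, Subtype.ext ?_⟩
      have hcc : (c : G) * y = y * c := Subgroup.mem_centralizer_singleton_iff.1 c.2.2
      calc n * (c : G) * y * (n * (c : G))⁻¹ = n * ((c : G) * y) * (c : G)⁻¹ * n⁻¹ := by group
        _ = y' := by rw [hcc, ← hg, ← hn']; group
    · apply Subtype.ext; apply Subtype.ext; simp
    · apply Subtype.ext; simp
  · refine Finset.sum_eq_zero fun x hx => absurd ?_ hc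
    rw [← (Finset.mem_filter.1 hx).2]
    exact isConj_iff.2 ⟨x, rfl⟩

/-- Let p be a prime, M a maximal ideal of the algebraic integers containing p, P a p-subgroup of the finite group G, N a subgroup with P ≤ N ≤ N_G(P), and U a nonempty subset of P normalized by N such that an element of U and an element of P that are conjugate in G are already conjugate in N, and such that λ(C_G(y)) = w·#C_N(y) for every y ∈ U with one rational number w, where λ(X) denotes the sum of the squares of the degrees of the irreducible characters in the principal p-block of X. For a complex function θ on P and χ in the principal block of G put a_χ(θ) = #P⁻¹ Σ_{y ∈ P} χ(y) θ(y⁻¹). Then for generalized characters θ, η of P with θ vanishing outside U, Σ_χ a_χ(θ)·conj(a_χ(η)) = (w/#P²)·Σ_{y ∈ P} θ(y)·conj(Σ_{x ∈ N} η(x y x⁻¹)) (η extended by zero off P; the conjugates lie in P), the first sum over the principal p-block of G. -/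
theorem result {G : Type*} [Group G] [Finite G] (p : ℕ) [Fact p.Prime] (M : Ideal Cfsg.AlgInt) (hM : Cfsg.IsPModular p M) (P : Subgroup G) (hP : IsPGroup p P) (N : Subgroup G) (hPN : P ≤ N) (hNN : N ≤ Subgroup.normalizer (P : Set G)) (U : Set G) (hUne : U.Nonempty) (hUP : U ⊆ (P : Set G)) (hUN : ∀ n ∈ N, ∀ u ∈ U, n * u * n⁻¹ ∈ U) (hfus : ∀ u ∈ U, ∀ g : G, g * u * g⁻¹ ∈ (P : Set G) → ∃ n ∈ N, n * u * n⁻¹ = g * u * g⁻¹) (w : ℚ) (hw : ∀ y ∈ U, ((∑ᶠ ψ ∈ Cfsg.principalBlock M ↥(Subgroup.centralizer ({y} : Set G)), Cfsg.charDegree (ψ : ↥(Subgroup.centralizer ({y} : Set G)) → ℂ) ^ 2) : ℚ) = w * Nat.card ↥(N ⊓ Subgroup.centralizer ({y} : Set G))) (θ η : ↥P → ℂ) (hθ : Cfsg.IsGeneralizedCharacter ↥P θ) (hη : Cfsg.IsGeneralizedCharacter ↥P η) (hθU : ∀ y : ↥P, (y : G) ∉ U → θ y = 0) : ∑ᶠ χ ∈ Cfsg.principalBlock M G, ((Nat.card ↥P : ℂ)⁻¹ * ∑ᶠ y : ↥P, (χ : G → ℂ) (y : G) * θ y⁻¹) * (starRingEnd ℂ) ((Nat.card ↥P : ℂ)⁻¹ * ∑ᶠ y : ↥P, (χ : G → ℂ) (y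 : G) * η y⁻¹) = ((w : ℂ) / ((Nat.card ↥P : ℂ) ^ 2)) * ∑ᶠ y : ↥P, θ y * (starRingEnd ℂ) (∑ᶠ x : ↥N, Cfsg.extendByZero P η ((x : G) * (y : G) * (x : G)⁻¹)) := by
  classical
  have := Fintype.ofFinite G
  have := isMaximal_of_isPModular hM
  have hB : IsPBlock M (principalBlock M G) := isPBlock_principalBlock
  set B := (principalBlock M G).toFinite.toFinset with hBdef
  -- conjugates inside `P` of `y ∈ U`
  have hpel : ∀ y : ↥P, ∃ e : ℕ, orderOf (y : G) = p ^ e := fun y => by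
    obtain ⟨e, he⟩ := (IsPGroup.iff_orderOf.1 hP) y
    exact ⟨e, by rw [Subgroup.orderOf_coe]; exact he⟩
  have hpart : ∀ y : G, (∃ e : ℕ, orderOf y = p ^ e) → IsPPart p y y := fun y hy =>
    ⟨1, mul_one y, Commute.one_right y, hy, by simp [hM.1.ne_one]⟩
  -- the pair sums of the principal block
  have hS : ∀ y y' : ↥P, (y : G) ∈ U →
      ∑ χ ∈ B, (χ : G → ℂ) ((y⁻¹ : ↥P) : G) * conj ((χ : G → ℂ) ((y'⁻¹ : ↥P) : G)) =
        if IsConj (y : G) y' then
          (w : ℂ) * (Nat.card ↥(N ⊓ Subgroup.centralizer ({(y : G)} : Set G)) : ℂ) else 0 := by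
    intro y y' hyU
    split_ifs with hc
    · obtain ⟨g, hg⟩ := isConj_iff.1 hc
      have hq := hw y hyU
      have := Fintype.ofFinite ↥(Subgroup.centralizer ({(y : G)} : Set G))
      have h := sum_principal_section hM (hpel y) (s := 1) (by simp [hM.1.ne_one])
      simp only [OneMemClass.coe_one, mul_one] at h
      have e1 : ∑ χ ∈ B, (χ : G → ℂ) ((y⁻¹ : ↥P) : G) * conj ((χ : G → ℂ) ((y'⁻¹ : ↥P) : G)) =
          ∑ χ ∈ B, (χ : G → ℂ) (y : G) * conj ((χ : G → ℂ) (y : G)) := by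
        refine Finset.sum_congr rfl fun χ _ => ?_
        rw [InvMemClass.coe_inv, InvMemClass.coe_inv, ← hg,
          show (g * (y : G) * g⁻¹)⁻¹ = g * (y : G)⁻¹ * g⁻¹ by group,
          Chars.isClassFunction_coe χ, Chars.map_inv_eq_conj (Chars.isCharacter_coe χ),
          Complex.conj_conj, mul_comm]
      rw [e1, h, finsum_block_eq_sum] at *
      have hq' := congrArg (fun t : ℚ => (t : ℂ)) hq
      simp only [Rat.cast_mul, Rat.cast_natCast, Rat.cast_sum, Rat.cast_pow] at hq'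
      rw [← hq']
      push_cast
      refine Finset.sum_congr rfl fun ψ _ => ?_
      rw [Chars.conj_map_one (Chars.isCharacter_coe ψ), Chars.coe_charDegree, sq]
    · rw [← finsum_block_eq_sum (principalBlock M G)
        (fun χ => (χ : G → ℂ) ((y⁻¹ : ↥P) : G) * conj ((χ : G → ℂ) ((y'⁻¹ : ↥P) : G)))]
      refine finsum_block_mul_conj_eq_zero_of_pPart hM hB (hpart _ (hpel _)) (hpart _ (hpel _))
        fun h => hc ?_
      obtain ⟨g, hg⟩ := isConj_iff.1 h
      refine isConj_iff.2 ⟨g⁻¹, ?_⟩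
      rw [InvMemClass.coe_inv, InvMemClass.coe_inv] at hg
      calc g⁻¹ * (y : G) * g⁻¹⁻¹ = g⁻¹ * ((y : G)⁻¹)⁻¹ * g := by group
        _ = _ := by rw [← hg]; group
  rw [finsum_block_eq_sum]
  simp only [finsum_eq_sum_of_fintype]
  -- expand the products
  calc ∑ χ ∈ B, ((Nat.card ↥P : ℂ)⁻¹ * ∑ y : ↥P, (χ : G → ℂ) (y : G) * θ y⁻¹) *
        conj ((Nat.card ↥P : ℂ)⁻¹ * ∑ y : ↥P, (χ : G → ℂ) (y : G) * η y⁻¹)
      = ((Nat.card ↥P : ℂ)⁻¹ * (Nat.card ↥P : ℂ)⁻¹) * ∑ y : ↥P, ∑ y' : ↥P, θ y * conj (η y') *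
          ∑ χ ∈ B, (χ : G → ℂ) ((y⁻¹ : ↥P) : G) * conj ((χ : G → ℂ) ((y'⁻¹ : ↥P) : G)) := by
        have e : ∀ (φ : G → ℂ) (f : ↥P → ℂ), ∑ y : ↥P, φ (y : G) * f y⁻¹ =
            ∑ y : ↥P, φ ((y⁻¹ : ↥P) : G) * f y := fun φ f =>
          Fintype.sum_equiv (Equiv.inv ↥P) _ _ fun y => by simp
        simp only [e, map_mul, map_inv₀, map_natCast, map_sum, Finset.mul_sum, Finset.sum_mul]
        rw [Finset.sum_comm]
        conv_rhs => rw [Finset.sum_comm]
        refine Finset.sum_congr rfl fun y _ => ?_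
        rw [Finset.sum_comm]
        refine Finset.sum_congr rfl fun y' _ => Finset.sum_congr rfl fun χ _ => ?_
        ring
    _ = ((Nat.card ↥P : ℂ)⁻¹ * (Nat.card ↥P : ℂ)⁻¹) * ∑ y : ↥P,
          (w : ℂ) * (θ y * conj (∑ x : ↥N, extendByZero P η ((x : G) * (y : G) * (x : G)⁻¹))) := by
        congr 1
        refine Finset.sum_congr rfl fun y _ => ?_
        by_cases hyU : (y : G) ∈ U
        · rw [sum_conj_in_P P N (fun x hx z hz => (Subgroup.mem_normalizer_iff.1 (hNN hx) z).1 hz) η y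
            (hfus y hyU), map_sum, Finset.mul_sum, Finset.mul_sum]
          refine Finset.sum_congr rfl fun y' _ => ?_
          rw [hS y y' hyU]
          split_ifs
          · rw [map_mul, map_natCast]; ring
          · simp
        · simp [hθU y hyU]
    _ = _ := by
        rw [← Finset.mul_sum]; ring

end Cfsg.Agent.S4720
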