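import Cfsg.Statements.S4721
import Cfsg.Agent.Blocks.AbelianFrobenius.IndexThreeInvolution
-- import your own Cfsg.Agent.* helpers here

set_option autoImplicit false
open Cfsg

namespace Cfsg.Agent.S4721

open CfsgLib CfsgLib.Blocks.AbelianFrobenius

/-- Let p be a prime, M a maximal ideal of the algebraic integers containing p, and G a finite group with a nontrivial abelian Sylow p-subgroup P, N = N_G(P), C = C_G(P), such that N/C is cyclic of order 3, #P > 4, and C_G(y) ∩ N = C for every non-identity y ∈ P. Then the principal p-block is the disjoint union of a set X of exactly 3 characters containing the principal character and a set Y of (#P − 1)/3 characters, with signs a_χ = ±1 (χ ∈ X, a = 1 at the principal character) and δ = ±1 such that every χ ∈ X takes the value a_χ at every element whose p-part is a non-identity element of P, and there is a map ζ from the non-principal linear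 characters of P onto Y, constant on N-conjugacy classes, with ζ_ψ(z) = δ·Σ ψ'(y) over the N-orbit of ψ, for z with p-part y ≠ 1 in P. If moreover G has an involution lying in no proper normal subgroup of G, then exactly two of the three numbers −δ and a_χ (χ ∈ X non-principal) equal −1, and the product of the degrees of the two non-principal members of X and of any member of Y is a perfect square. -/
theorem result {G : Type*} [Group G] [Finite G] (p : ℕ) [Fact p.Prime] (M : Ideal Cfsg.AlgInt) (hM : Cfsg.IsPModular p M) (P : Sylow p G) (hab : IsMulCommutative P) (hP1 : Nat.card P ≠ 1) (hCN : (Subgroup.centralizer ((P : Subgroup G) : Set G)).relIndex (Subgroup.normalizer ((P : Subgroup G) : Set G)) = 3) (hcyc : ∃ g : G, g ∈ Subgroup.normalizer ((P : Subgroup G) : Set G) ∧ Subgroup.centralizer ((P : Subgroup G) : Set G) ⊔ Subgroup.zpowers g = Subgroup.normalizer ((P : Subgroup G) : Set G))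 (hm2 : 3 + 1 < Nat.card P) (hfrob : ∀ y : G, y ∈ (P : Subgroup G) → y ≠ 1 → Subgroup.centralizer ({y} : Set G) ⊓ Subgroup.normalizer ((P : Subgroup G) : Set G) = Subgroup.centralizer ((P : Subgroup G) : Set G)) : ∃ (X Y : Set (Cfsg.IrrCharacter G)), Cfsg.principalBlock M G = X ∪ Y ∧ Disjoint X Y ∧ Nat.card X = 3 ∧ Nat.card Y = (Nat.card P - 1) / 3 ∧ (∃ χ₁ ∈ X, (χ₁ : G → ℂ) = fun _ => 1) ∧ ∃ (a : Cfsg.IrrCharacter G → ℤ) (δ : ℤ) (ζ : (↥(P : Subgroup G) →* ℂˣ) → Cfsg.IrrCharacter G), (δ = 1 ∨ δ = -1) ∧ (∀ χ ∈ X, (a χ = 1 ∨ a χ = -1) ∧ ∀ z y : G, Cfsg.IsPPart p z y → y ∈ (P : Subgroup G) → y ≠ 1 → (χ : G → ℂ) z = (a χ : ℂ)) ∧ (∀ ψ : ↥(P : Subgroup G) →* ℂˣ, ψ ≠ 1 → ζ ψ ∈ Y) ∧ (∀ η ∈ Y, ∃ ψ : ↥(P : Subgroup G) →* ℂˣ, ψ ≠ 1 ∧ ζ ψ = η) ∧ (∀ ψ ψ' : ↥(P : Subgroup G) →* ℂˣ, ψ ≠ 1 → (∃ n : G, n ∈ Subgroup.normalizer ((P : Subgroup G) : Set G) ∧ ∀ w w' : ↥(P : Subgroup G), (w' : G) = n * w * n⁻¹ →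 ψ' w' = ψ w) → ζ ψ' = ζ ψ) ∧ (∀ ψ : ↥(P : Subgroup G) →* ℂˣ, ψ ≠ 1 → ∀ (z : G) (y : ↥(P : Subgroup G)), Cfsg.IsPPart p z (y : G) → (y : G) ≠ 1 → (ζ ψ : G → ℂ) z = (δ : ℂ) * ∑ᶠ ψ' ∈ {ψ' : ↥(P : Subgroup G) →* ℂˣ | ∃ n : G, n ∈ Subgroup.normalizer ((P : Subgroup G) : Set G) ∧ ∀ w w' : ↥(P : Subgroup G), (w' : G) = n * w * n⁻¹ → ψ' w' = ψ w}, ((ψ' y : ℂˣ) : ℂ)) ∧ ((∃ t : G, orderOf t = 2 ∧ ∀ K : Subgroup G, K.Normal → t ∈ K → K = ⊤) → Nat.card {χ : Cfsg.IrrCharacter G // χ ∈ X ∧ (χ : G → ℂ) ≠ (fun _ => 1) ∧ a χ = -1} + (if δ = 1 then 1 else 0) = 2 ∧ ∀ η ∈ Y, IsSquare (Cfsg.charDegree (η : G → ℂ) * ∏ᶠ χ ∈ {χ : Cfsg.IrrCharacter G | χ ∈ X ∧ (χ : G → ℂ) ≠ fun _ => 1}, Cfsg.charDegree (χ : G → ℂ))) := by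
  classical
  haveI := Fintype.ofFinite G
  haveI : IsMulCommutative ↥(P : Subgroup G) := hab
  haveI : Finite (MulAut ↥(P : Subgroup G)) := Finite.of_injective _ DFunLike.coe_injective
  have hA3 : Nat.card (autP P) = 3 := (card_autP P).trans hCN
  have hF : Frob P := hfrob
  have hfpf : FPF (autP P) := fpf_autP hF
  have hm : 4 < Nat.card (P : Subgroup G) := hm2
  obtain ⟨χ₂, χ₃, a₂, a₃, δ, ζ, hδ, ha₂, ha₃, hinj, h21, h31, h23, hdisj, hB, hv, hY, hagree, hcnt,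
    hrel⟩ := exists_three_family hM hF hA3 hm
  have hr : Nat.card (Orb (autP P)) = (Nat.card P - 1) / 3 := by
    have e : Nat.card P - 1 = Nat.card (Orb (autP P)) * 3 := by rw [← hcnt]; rfl
    rw [e, Nat.mul_div_cancel _ (by norm_num : 0 < 3)]
  haveI := CfsgLib.Blocks.isMaximal_of_isPModular hM
  let a : Cfsg.IrrCharacter G → ℤ := fun χ => if χ = χ₂ then a₂ else if χ = χ₃ then a₃ else 1
  let ζ' : (↥(P : Subgroup G) →* ℂˣ) → Cfsg.IrrCharacter G := fun ψ =>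
    if h : ψ ≠ 1 then ζ (Quotient.mk (orbSetoid (autP P)) ⟨ψ, h⟩) else CfsgLib.Chars.oneChar G
  have hconj : ∀ (ψ ψ' : ↥(P : Subgroup G) →* ℂˣ) (n : G) (hn : n ∈ Subgroup.normalizer ((P : Subgroup G) : Set G)),
      (∀ w w' : ↥(P : Subgroup G), (w' : G) = n * w * n⁻¹ → ψ' w' = ψ w) ↔
        twist ((P : Subgroup G).normalizerMonoidHom ⟨n, hn⟩) ψ' = ψ := by
    intro ψ ψ' n hn
    constructor
    · intro h
      exact MonoidHom.ext fun w => h w _ rfl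
    · intro h w w' he
      rw [← h, twist_apply]
      congr 1
      exact Subtype.ext he
  have hset : ∀ ψ : ↥(P : Subgroup G) →* ℂˣ,
      {ψ' : ↥(P : Subgroup G) →* ℂˣ | ∃ n : G, n ∈ Subgroup.normalizer ((P : Subgroup G) : Set G) ∧
        ∀ w w' : ↥(P : Subgroup G), (w' : G) = n * w * n⁻¹ → ψ' w' = ψ w} =
      Set.range fun a : (autP P) => twist (a : MulAut ↥(P : Subgroup G)) ψ := by
    intro ψ
    ext ψ'
    simp only [Set.mem_setOf_eq, Set.mem_range]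
    constructor
    · rintro ⟨n, hn, h⟩
      rw [hconj ψ ψ' n hn] at h
      refine ⟨(⟨_, ⟨⟨n, hn⟩, rfl⟩⟩ : (autP P))⁻¹, ?_⟩
      rw [← h, Subgroup.coe_inv, twist_twist, mul_inv_cancel, twist_one]
    · rintro ⟨⟨a, n, rfl⟩, rfl⟩
      refine ⟨((n⁻¹ : _) : G), (n⁻¹).2, (hconj _ _ ((n⁻¹ : _) : G) (n⁻¹).2).2 ?_⟩
      rw [show (⟨((n⁻¹ : _) : G), (n⁻¹).2⟩ : Subgroup.normalizer ((P : Subgroup G) : Set G)) = n⁻¹
        from rfl, map_inv, twist_twist, mul_inv_cancel, twist_one]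
  have hva : ∀ χ ∈ ({Chars.oneChar G, χ₂, χ₃} : Set (Cfsg.IrrCharacter G)),
      (a χ = 1 ∨ a χ = -1) ∧ ∀ z y : G, Cfsg.IsPPart p z y → y ∈ (P : Subgroup G) → y ≠ 1 →
        (χ : G → ℂ) z = (a χ : ℂ) := by
    intro χ hχ
    have hmem : χ ∈ Cfsg.principalBlock M G := hB ▸ Set.mem_union_left _ hχ
    have key : ∀ z y : G, Cfsg.IsPPart p z y → ∀ (hy : y ∈ (P : Subgroup G)), y ≠ 1 →
        (χ : G → ℂ) z = (χ : G → ℂ) y := fun z y hzy hy hy1 =>
      apply_section hM hF hmem (y := ⟨y, hy⟩) hzy hy1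
    simp only [Set.mem_insert_iff, Set.mem_singleton_iff] at hχ
    rcases hχ with rfl | rfl | rfl
    · refine ⟨Or.inl (by simp [a, h21.symm, h31.symm]), fun z y hzy hy hy1 => ?_⟩
      rw [key z y hzy hy hy1]
      simp [a, h21.symm, h31.symm, Chars.oneChar_apply]
    · refine ⟨by simpa [a] using ha₂, fun z y hzy hy hy1 => ?_⟩
      rw [key z y hzy hy hy1, (hv ⟨y, hy⟩ hy1).1]
      simp [a]
    · refine ⟨by simpa [a, h23.symm] using ha₃, fun z y hzy hy hy1 => ?_⟩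
      rw [key z y hzy hy hy1, (hv ⟨y, hy⟩ hy1).2]
      simp [a, h23.symm]
  refine ⟨{Chars.oneChar G, χ₂, χ₃}, Set.range ζ, hB, hdisj, ?_, ?_, ?_, a, δ, ζ', hδ, hva, ?_, ?_,
    ?_, ?_, ?_⟩
  · rw [Nat.card_coe_set_eq, Set.ncard_eq_three]
    exact ⟨_, _, _, h21.symm, h31.symm, h23, rfl⟩
  · rw [Nat.card_range_of_injective hinj, hr]
  · exact ⟨Chars.oneChar G, Set.mem_insert _ _, Chars.oneChar_coe⟩
  · intro ψ hψ
    simp only [ζ', dif_pos hψ]
    exact ⟨_, rfl⟩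
  · rintro η ⟨i, rfl⟩
    refine ⟨Orb.rep (autP P) i, Orb.rep_ne_one (autP P) i, ?_⟩
    simp only [ζ', dif_pos (Orb.rep_ne_one (autP P) i)]
    congr 1
    exact Quotient.out_eq i
  · rintro ψ ψ' hψ ⟨n, hn, h⟩
    rw [hconj ψ ψ' n hn] at h
    have hψ' : ψ' ≠ 1 := fun e => hψ (by rw [← h, e, twist_trivial])
    simp only [ζ', dif_pos hψ, dif_pos hψ']
    congr 1
    exact Quotient.sound ⟨_, ⟨⟨n, hn⟩, rfl⟩, h⟩
  · intro ψ hψ z y hzy hy1
    simp only [ζ', dif_pos hψ]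
    set i := Quotient.mk (orbSetoid (autP P)) ⟨ψ, hψ⟩ with hi
    rw [apply_section hM hF (hB ▸ Set.mem_union_right _ ⟨i, rfl⟩) hzy hy1, hY i y hy1, hset,
      finsum_mem_range (fun a b h => Subtype.ext (twist_injOn hfpf hψ a.2 b.2 h))]
    congr 1
    obtain ⟨a₀, ha₀, h⟩ := Quotient.mk_out (s := orbSetoid (autP P)) (⟨ψ, hψ⟩ : {ψ : ↥(P : Subgroup G) →* ℂˣ // ψ ≠ 1})
    refine (finsum_eq_of_bijective (fun a : (autP P) => (⟨a₀, ha₀⟩ : (autP P)) * a)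
      (Group.mulLeft_bijective _) fun a => ?_).symm
    show ((twist (a : MulAut ↥(P : Subgroup G)) ψ y : ℂˣ) : ℂ) = _
    have h' : twist a₀ (Orb.rep (autP P) i) = ψ := h
    rw [← h']
    rfl
  rintro ⟨t, ht, hnormal⟩
  obtain ⟨hsign, hsq⟩ := three_signs_square hM hF hA3 hm hδ ha₂ ha₃ hinj h21 h31 h23 hdisj hB hv hY
    hagree hcnt hrel ht hnormal
  have hcoe : ∀ χ : Cfsg.IrrCharacter G, (χ : G → ℂ) = (fun _ => 1) ↔ χ = Chars.oneChar G := by
    intro χ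
    rw [← Chars.oneChar_coe]
    exact Subtype.coe_inj
  have hcard : ∀ (Q : Cfsg.IrrCharacter G → Prop) [DecidablePred Q],
      (∀ χ, Q χ → χ = χ₂ ∨ χ = χ₃) →
      Nat.card {χ // Q χ} = (if Q χ₂ then 1 else 0) + (if Q χ₃ then 1 else 0) := by
    intro Q _ hQ
    rw [Nat.subtype_card (({χ₂, χ₃} : Finset _).filter Q) (fun χ => by
      rw [Finset.mem_filter, Finset.mem_insert, Finset.mem_singleton]
      exact ⟨fun h => h.2, fun h => ⟨hQ χ h, h⟩⟩)]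
    rw [Finset.card_filter, Finset.sum_pair h23]
  have hX' : ∀ χ : Cfsg.IrrCharacter G, χ ∈ ({Chars.oneChar G, χ₂, χ₃} : Set _) ∧
      (χ : G → ℂ) ≠ (fun _ => 1) ↔ χ = χ₂ ∨ χ = χ₃ := by
    intro χ
    rw [ne_eq, hcoe]
    simp only [Set.mem_insert_iff, Set.mem_singleton_iff]
    constructor
    · rintro ⟨h, h'⟩
      exact h.resolve_left h'
    · rintro (rfl | rfl) <;> simp [h21, h31]
  refine ⟨?_, ?_⟩
  · rw [hcard _ fun χ h => (hX' χ).1 ⟨h.1, h.2.1⟩]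
    simp only [(hX' χ₂).2 (Or.inl rfl), (hX' χ₃).2 (Or.inr rfl), true_and, ne_eq, hcoe, h21, h31,
      not_false_eq_true]
    simp only [Set.mem_insert_iff, Set.mem_singleton_iff, true_or, or_true, true_and, a, h23.symm,
      if_true, if_false]
    rcases hsign with ⟨rfl, rfl, rfl⟩ | ⟨rfl, rfl, rfl⟩ | ⟨rfl, rfl, rfl⟩ <;> norm_num
  · rintro η ⟨i, rfl⟩
    have hset' : {χ : Cfsg.IrrCharacter G | χ ∈ ({Chars.oneChar G, χ₂, χ₃} : Set _) ∧
        (χ : G → ℂ) ≠ fun _ => 1} = {χ₂, χ₃} := Set.ext hX'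
    rw [hset', finprod_mem_pair h23]
    exact hsq i

end Cfsg.Agent.S4721
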