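import Cfsg.Statements.S4722
import Cfsg.Agent.Eq.Def_Blocks
import Cfsg.Agent.Blocks.Orth.InvolutionColumns
import Cfsg.Agent.Blocks.Basic.Principal
import Cfsg.Agent.Constrained.Basic

set_option autoImplicit false
open Cfsg

namespace Cfsg.Agent.S4722

/-- Let M be a maximal ideal of the algebraic integers containing 2, P a 2-subgroup of the finite group G, U a subset of P, and t an involution of G such that no element of U is inverted by any conjugate of t. Let θ be a generalized character of P vanishing outside U, and for χ in the principal 2-block B₀ put a_χ = #P⁻¹ Σ_{y ∈ P} χ(y) θ(y⁻¹). Then Σ_{χ ∈ B₀} a_χ χ(t)^2/χ(1) = 0, Σ_{χ ∈ B₀} a_χ χ(1) = 0 and Σ_{χ ∈ B₀} a_χ χ(t) = 0. If moreover #P⁻¹ Σ_{y ∈ P} θ(y) ≠ 0, then either at least two of the a_χ have positive real part and at least two have negative real part, or G has a proper normal subgroup containing O_2'(G) and t. -/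
theorem result {G : Type*} [Group G] [Finite G] (M : Ideal Cfsg.AlgInt) (hM : Cfsg.IsPModular 2 M) (P : Subgroup G) (hP : IsPGroup 2 P) (U : Set G) (hUP : U ⊆ (P : Set G)) (t : G) (ht : orderOf t = 2) (hinv : ∀ u ∈ U, ∀ g : G, (g * t * g⁻¹) * u * (g * t * g⁻¹)⁻¹ ≠ u⁻¹) (θ : ↥P → ℂ) (hθ : Cfsg.IsGeneralizedCharacter ↥P θ) (hθU : ∀ y : ↥P, (y : G) ∉ U → θ y = 0) : (∑ᶠ χ ∈ Cfsg.principalBlock M G, ((Nat.card ↥P : ℂ)⁻¹ * ∑ᶠ y : ↥P, (χ : G → ℂ) (y : G) * θ y⁻¹) * (χ : G → ℂ) t ^ 2 / (χ : G → ℂ) 1 = 0) ∧ (∑ᶠ χ ∈ Cfsg.principalBlock M G, ((Nat.card ↥P : ℂ)⁻¹ * ∑ᶠ y : ↥P, (χ : G → ℂ) (y : G) * θ y⁻¹) * (χ : G → ℂ) 1 = 0) ∧ (∑ᶠ χ ∈ Cfsg.principalBlock M G, ((Nat.card ↥P : ℂ)⁻¹ * ∑ᶠ y : ↥P, (χ : G → ℂ) (y : G) * θ y⁻¹) * (χ : G → ℂ) t = 0) ∧ ((Nat.card ↥P : ℂ)⁻¹ * ∑ᶠ y : ↥P, θ y ≠ 0 → (2 ≤ Nat.card {χ : Cfsg.IrrCharacter G // χ ∈ Cfsg.principalBlock M G ∧ 0 < (((Nat.card ↥P : ℂ)⁻¹ * ∑ᶠ y : ↥P, (χ : G → ℂ) (y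 : G) * θ y⁻¹)).re} ∧ 2 ≤ Nat.card {χ : Cfsg.IrrCharacter G // χ ∈ Cfsg.principalBlock M G ∧ (((Nat.card ↥P : ℂ)⁻¹ * ∑ᶠ y : ↥P, (χ : G → ℂ) (y : G) * θ y⁻¹)).re < 0}) ∨ ∃ K : Subgroup G, K.Normal ∧ K ≠ ⊤ ∧ Cfsg.pPrimeCore 2 G ≤ K ∧ t ∈ K) := by
  classical
  have := Fintype.ofFinite G
  have := Fintype.ofFinite P
  have := hM.2.1
  set B := Cfsg.principalBlock M G
  have hB : IsPBlock M B := CfsgLib.Blocks.isPBlock_principalBlock
  set S := B.toFinite.toFinset with hS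
  set a : IrrCharacter G → ℂ :=
    fun χ => (Nat.card P : ℂ)⁻¹ * ∑ᶠ y : P, (χ : G → ℂ) (y : G) * θ y⁻¹ with ha
  have hint : ∀ χ : IrrCharacter G, ∃ z : ℤ, a χ = z := by
    intro χ
    obtain ⟨z, hz⟩ := CfsgLib.Chars.Exceptional.gen_inner_int
      (CfsgLib.Chars.Brauer.gen_restrict (CfsgLib.Chars.Exceptional.gen_of_char
        (CfsgLib.Chars.isCharacter_coe χ)) P) hθ
    refine ⟨z, ?_⟩
    rw [← hz]
    simp only [ha, finsum_eq_sum_of_fintype, classInner]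
    congr 1
    refine Finset.sum_congr rfl fun y _ => ?_
    congr 1
    obtain ⟨α, β, hα, hβ, rfl⟩ := hθ
    simp only [Pi.sub_apply, map_sub]
    rw [CfsgLib.Chars.map_inv_eq_conj hα, CfsgLib.Chars.map_inv_eq_conj hβ]
  choose z hz using hint
  have key : ∀ w : IrrCharacter G → ℂ,
      (∀ y : P, θ y⁻¹ ≠ 0 → ∑ χ ∈ S, w χ * (χ : G → ℂ) y = 0) →
      ∑ χ ∈ S, a χ * w χ = 0 := by
    intro w hw
    simp only [ha, finsum_eq_sum_of_fintype, Finset.mul_sum, Finset.sum_mul]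
    rw [Finset.sum_comm]
    refine Finset.sum_eq_zero fun y _ => ?_
    by_cases hy : θ y⁻¹ = 0
    · simp [hy]
    · calc _ = (Nat.card P : ℂ)⁻¹ * θ y⁻¹ * ∑ χ ∈ S, w χ * (χ : G → ℂ) y := by
            rw [Finset.mul_sum]
            exact Finset.sum_congr rfl fun χ _ => by ring
        _ = 0 := by rw [hw y hy, mul_zero]
  have hcol : ∀ y : P, θ y⁻¹ ≠ 0 →
      (∑ χ ∈ S, (χ : G → ℂ) t ^ 2 / (χ : G → ℂ) 1 * (χ : G → ℂ) y = 0) ∧
      (∑ χ ∈ S, (χ : G → ℂ) 1 * (χ : G → ℂ) y = 0) ∧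
      ∑ χ ∈ S, (χ : G → ℂ) t * (χ : G → ℂ) y = 0 := by
    intro y hy
    have hU : ((y : G))⁻¹ ∈ U := by
      by_contra h
      exact hy (hθU _ (by simpa using h))
    have h := CfsgLib.Blocks.columns_vanish hM hB ht (y := ((y : G))⁻¹) (by
      obtain ⟨k, hk⟩ := IsPGroup.iff_orderOf.1 hP y
      exact ⟨k, by rw [orderOf_inv, Subgroup.orderOf_coe, hk]⟩) (hinv _ hU)
    simp only [← CfsgLib.Chars.map_inv_eq_conj (CfsgLib.Chars.isCharacter_coe _), inv_inv] at h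
    exact h
  have e1 := key _ fun y hy => (hcol y hy).1
  have e2 := key _ fun y hy => (hcol y hy).2.1
  have e3 := key _ fun y hy => (hcol y hy).2.2
  simp only [CfsgLib.Blocks.finsum_block_eq_sum, ← hS]
  refine ⟨?_, e2, e3, fun hne => ?_⟩
  · rw [← e1]
    exact Finset.sum_congr rfl fun χ _ => mul_div_assoc _ _ _
  have htt : t⁻¹ = t := inv_eq_of_mul_eq_one_right (by rw [← sq, ← ht]; exact pow_orderOf_eq_one t)
  set d : IrrCharacter G → ℝ := fun χ => (Cfsg.charDegree (χ : G → ℂ) : ℝ) with hd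
  set x : IrrCharacter G → ℝ := fun χ => ((χ : G → ℂ) t).re with hx
  have hdC : ∀ χ : IrrCharacter G, (χ : G → ℂ) 1 = (d χ : ℂ) := fun χ => by
    rw [hd, ← CfsgLib.Chars.coe_charDegree]; simp
  have hxC : ∀ χ : IrrCharacter G, (χ : G → ℂ) t = (x χ : ℂ) := by
    intro χ
    have h := CfsgLib.Chars.map_inv_eq_conj (CfsgLib.Chars.isCharacter_coe χ) t
    rw [htt] at h
    exact (Complex.conj_eq_iff_re.1 h.symm).symm
  have hpos : ∀ χ ∈ S, 0 < d χ := fun χ _ => by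
    simpa [hd] using CfsgLib.Chars.charDegree_pos χ
  let s : IrrCharacter G → ℝ := fun χ => (z χ : ℝ)
  have hsC : ∀ χ, a χ = (s χ : ℂ) := fun χ => by simp [s, hz]
  have r1 : ∑ χ ∈ S, s χ * d χ = 0 := by
    simp only [hsC, hdC, ← Complex.ofReal_mul, ← Complex.ofReal_sum] at e2
    exact_mod_cast e2
  have r2 : ∑ χ ∈ S, s χ * x χ = 0 := by
    simp only [hsC, hxC, ← Complex.ofReal_mul, ← Complex.ofReal_sum] at e3
    exact_mod_cast e3
  have r3 : ∑ χ ∈ S, s χ * (x χ ^ 2 / d χ) = 0 := by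
    simp only [hsC, hdC, hxC, ← Complex.ofReal_mul, ← Complex.ofReal_pow, ← Complex.ofReal_div,
      ← Complex.ofReal_sum] at e1
    exact_mod_cast e1
  set one := CfsgLib.Chars.oneChar G
  have hone : one ∈ S := by
    rw [hS, Set.Finite.mem_toFinset]
    show Cfsg.SameBlock M _ _
    rw [CfsgLib.Chars.oneChar_coe]
    exact CfsgLib.Blocks.sameBlock_refl _
  have hs1 : s one ≠ 0 := by
    intro h
    refine hne ?_
    have h' := hsC one
    rw [h, Complex.ofReal_zero] at h'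
    rw [← h']
    simp only [ha, finsum_eq_sum_of_fintype, one, CfsgLib.Chars.oneChar_apply, one_mul]
    congr 1
    exact Fintype.sum_equiv (Equiv.inv P) _ _ fun y => by simp
  -- with fewer than two of one sign
  have main : (∀ i ∈ S, ∀ j ∈ S, 0 < s i → 0 < s j → i = j) ∨
      (∀ i ∈ S, ∀ j ∈ S, s i < 0 → s j < 0 → i = j) →
      ∃ K : Subgroup G, K.Normal ∧ K ≠ ⊤ ∧ Cfsg.pPrimeCore 2 G ≤ K ∧ t ∈ K := by
    intro hcase
    have hratio : ∀ i ∈ S, ∀ j ∈ S, s i ≠ 0 → s j ≠ 0 → x i * d j = x j * d i := by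
      rcases hcase with h | h
      · exact CfsgLib.Blocks.eq_ratio_of_one_pos S s d x hpos r1 r2 r3 h
      · intro i hi j hj hzi hzj
        refine CfsgLib.Blocks.eq_ratio_of_one_pos S (fun k => -s k) d x hpos ?_ ?_ ?_
          (fun i hi j hj h1 h2 => h i hi j hj (neg_pos.1 h1) (neg_pos.1 h2))
          i hi j hj (neg_ne_zero.2 hzi) (neg_ne_zero.2 hzj)
        all_goals simp only [neg_mul, Finset.sum_neg_distrib, r1, r2, r3, neg_zero]
    obtain ⟨χ, hχ, hχ1, hsχ⟩ : ∃ χ ∈ S, χ ≠ one ∧ s χ ≠ 0 := by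
      by_contra hc
      push Not at hc
      rw [Finset.sum_eq_single one (fun χ hχ hne' => by rw [hc χ hχ hne', zero_mul])
        (fun h => absurd hone h)] at r1
      exact hs1 ((mul_eq_zero.1 r1).resolve_right (hpos one hone).ne')
    have hker : t ∈ CfsgLib.Chars.charKer (χ : G → ℂ) := by
      rw [CfsgLib.Chars.mem_charKer_iff (CfsgLib.Chars.isCharacter_coe χ), hxC, hdC]
      have h := hratio χ hχ one hone hsχ hs1
      have hd1 : d one = 1 := by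
        have h0 := hdC one
        simp only [one, CfsgLib.Chars.oneChar_apply] at h0
        exact_mod_cast h0.symm
      have hx1 : x one = 1 := by simp [hx, one, CfsgLib.Chars.oneChar_apply]
      rw [hd1, hx1, mul_one, one_mul] at h
      rw [h]
    refine ⟨CfsgLib.Chars.charKer (χ : G → ℂ), inferInstance, fun htop => ?_, ?_, hker⟩
    · have h := CfsgLib.Chars.classInner_irr χ one
      rw [if_neg hχ1] at h
      have hc : ∀ g : G, (χ : G → ℂ) g = (χ : G → ℂ) 1 := fun g =>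
        CfsgLib.Chars.map_eq_map_one_of_mem_charKer (htop ▸ Subgroup.mem_top g)
      simp only [classInner, hc, one, CfsgLib.Chars.oneChar_apply, map_one, mul_one,
        Finset.sum_const, Finset.card_univ, nsmul_eq_mul, ← Nat.card_eq_fintype_card] at h
      rw [← mul_assoc, inv_mul_cancel₀ (Nat.cast_ne_zero.2 Nat.card_pos.ne'), one_mul] at h
      exact CfsgLib.Chars.map_one_ne_zero χ h
    · haveI : (Cfsg.pPrimeCore 2 G).Normal := CfsgLib.Constrained.instNormalPPrimeCore 2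
      exact CfsgLib.Blocks.le_charKer_of_mem_principalBlock (Cfsg.pPrimeCore 2 G) hM
        CfsgLib.Constrained.pPrimeCore_not_dvd ((B.toFinite.mem_toFinset).1 hχ)
  have hcount : ∀ Q : IrrCharacter G → Prop,
      ¬ 2 ≤ Nat.card {χ : IrrCharacter G // χ ∈ B ∧ Q χ} →
      ∀ i ∈ S, ∀ j ∈ S, Q i → Q j → i = j := by
    intro Q hQ i hi j hj hi' hj'
    by_contra hne'
    apply hQ
    rw [hS, Set.Finite.mem_toFinset] at hi hj
    have : Nontrivial {χ : IrrCharacter G // χ ∈ B ∧ Q χ} :=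
      ⟨⟨⟨i, hi, hi'⟩, ⟨j, hj, hj'⟩, fun h => hne' (congrArg Subtype.val h)⟩⟩
    exact Finite.one_lt_card
  have hre : ∀ χ, (a χ).re = s χ := fun χ => by rw [hsC]; simp
  by_cases hp : 2 ≤ Nat.card {χ : IrrCharacter G // χ ∈ B ∧ 0 < (a χ).re}
  · by_cases hn : 2 ≤ Nat.card {χ : IrrCharacter G // χ ∈ B ∧ (a χ).re < 0}
    · exact Or.inl ⟨hp, hn⟩
    · exact Or.inr (main (Or.inr fun i hi j hj h1 h2 =>
        hcount (fun χ => (a χ).re < 0) hn i hi j hj (by rwa [hre]) (by rwa [hre])))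
  · exact Or.inr (main (Or.inl fun i hi j hj h1 h2 =>
      hcount (fun χ => 0 < (a χ).re) hp i hi j hj (by rwa [hre]) (by rwa [hre])))

end Cfsg.Agent.S4722
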