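import Cfsg.Statements.S4723
import Cfsg.Agent.Eq.Def_Blocks
import Cfsg.Agent.Blocks.HeightZero.Conjugation

set_option autoImplicit false
open Cfsg

namespace Cfsg.Agent.S4723

/-- Let p be a prime, M a maximal ideal of the algebraic integers containing p, H a normal subgroup of the finite group G and b a p-block of H. Let T be the stabilizer of b in G. Then b contains a character θ of height zero whose own stabilizer in G (the elements g with θ(g h g⁻¹) = θ(h) for all h ∈ H) has index prime to p in T, i.e. contains a Sylow p-subgroup of T. -/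
theorem result {G : Type*} [Group G] [Finite G] (p : ℕ) [Fact p.Prime] (M : Ideal Cfsg.AlgInt) (hM : Cfsg.IsPModular p M) (H : Subgroup G) [H.Normal] (b : Set (Cfsg.IrrCharacter ↥H)) (hb : Cfsg.IsPBlock M b) (T : Subgroup G) (hT : (∀ g : G, g ∈ T ↔ ∀ θ ∈ b, ∀ θ' : Cfsg.IrrCharacter ↥H, (∀ h h' : ↥H, (h' : G) = g * h * g⁻¹ → (θ' : ↥H → ℂ) h' = (θ : ↥H → ℂ) h) → θ' ∈ b)) : ∃ θ ∈ b, Cfsg.blockHeight p b (θ : ↥H → ℂ) = 0 ∧ ∃ S : Subgroup G, S ≤ T ∧ (∀ g : G, g ∈ S ↔ (g ∈ T ∧ ∀ h h' : ↥H, (h' : G) = g * h * g⁻¹ → (θ : ↥H → ℂ) h' = (θ : ↥H → ℂ) h)) ∧ ¬ p ∣ S.relIndex T := by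
  classical
  have := CfsgLib.Blocks.isMaximal_of_isPModular hM
  obtain ⟨θ, hθ, h0, hfix⟩ := CfsgLib.Blocks.HeightZero.exists_height_zero_fixed (G := G) hM hb
  have hconj : ∀ (g : G) (α : Cfsg.IrrCharacter ↥H) (h h' : ↥H), (h' : G) = g * h * g⁻¹ →
      (CfsgLib.Chars.Induced.conjIrr g α : ↥H → ℂ) h' = (α : ↥H → ℂ) h := by
    intro g α h h' e
    rw [CfsgLib.Chars.Induced.conjIrr_coe, CfsgLib.Chars.Induced.conjFun_apply]
    exact congrArg _ (Subtype.ext (by simp [e, mul_assoc]))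
  have hTeq : T = CfsgLib.Blocks.HeightZero.blockStab b := by
    ext g
    rw [hT]
    refine ⟨fun h => CfsgLib.Blocks.HeightZero.mem_blockStab_of_conj_mem hb hθ
      (h θ hθ _ (hconj g θ)), fun h α hα α' hα' => ?_⟩
    have hmem := (CfsgLib.Blocks.HeightZero.mem_blockStab.1 h α).2 hα
    have e : α' = CfsgLib.Chars.Induced.conjIrr g α := Subtype.ext (funext fun n => by
      rw [CfsgLib.Chars.Induced.conjIrr_coe, CfsgLib.Chars.Induced.conjFun_apply]
      exact hα' _ n (by simp [mul_assoc]))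
    rwa [e]
  refine ⟨θ, hθ, h0, T ⊓ CfsgLib.Chars.Induced.inertia H (θ : ↥H → ℂ), inf_le_left,
    fun g => ?_, ?_⟩
  · rw [Subgroup.mem_inf, CfsgLib.Chars.Induced.mem_inertia_iff_forall]
  · rw [inf_comm, Subgroup.inf_relIndex_right, hTeq]
    exact hfix

end Cfsg.Agent.S4723
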