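import Cfsg.Statements.S4725
import Cfsg.Agent.Eq.Def_Blocks
import Cfsg.Agent.Blocks.HeightZero.RegularPair
import Cfsg.Agent.S4430
import Cfsg.Agent.Chars.Induced.Rep
import Cfsg.Agent.Chars.Induced.Basic

set_option autoImplicit false
open Cfsg

namespace Cfsg.Agent.S4725

/-- Let p be a prime, M a maximal ideal of the algebraic integers containing p, H a subgroup of the finite group G, and b a p-block of H inducing the p-block B of G, with b and B of the same defect. Then for every height-zero ζ ∈ b there is a height-zero χ ∈ B whose multiplicity in the character induced from ζ is not divisible by p. -/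
theorem result {G : Type*} [Group G] [Fintype G] (p : ℕ) [Fact p.Prime] (M : Ideal Cfsg.AlgInt) (hM : Cfsg.IsPModular p M) (H : Subgroup G) (b : Set (Cfsg.IrrCharacter ↥H)) (B : Set (Cfsg.IrrCharacter G)) (hind : Cfsg.IsInducedBlock M H b B) (hdef : Cfsg.blockDefect p b = Cfsg.blockDefect p B) (ζ : Cfsg.IrrCharacter ↥H) (hζ : ζ ∈ b) (hζ0 : Cfsg.blockHeight p b (ζ : ↥H → ℂ) = 0) : ∃ χ ∈ B, Cfsg.blockHeight p B (χ : G → ℂ) = 0 ∧ ∃ a : ℕ, Cfsg.classInner (Cfsg.indFun H (ζ : ↥H → ℂ)) (χ : G → ℂ) = (a : ℂ) ∧ ¬ p ∣ a := by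
  classical
  have hp : p.Prime := Fact.out
  have := CfsgLib.Blocks.isMaximal_of_isPModular hM
  have : Fintype H := Fintype.ofFinite H
  obtain ⟨⟨n, hn, hn0, hnv⟩, -⟩ := Cfsg.Agent.S4430.result p M hM H b B hind ζ hζ
  have hm1 : (Cfsg.charDegree (Cfsg.indFun H (ζ : H → ℂ))).factorization p =
      CfsgLib.Blocks.HeightZero.minExp p B := by
    have hd : Cfsg.charDegree (Cfsg.indFun H (ζ : H → ℂ)) =
        H.index * Cfsg.charDegree (ζ : H → ℂ) := CfsgLib.Chars.charDegree_eq_of_map_one (by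
      rw [CfsgLib.Chars.Induced.indFun_one_apply, Nat.cast_mul, CfsgLib.Chars.coe_charDegree])
    rw [hd, Nat.factorization_mul Subgroup.index_ne_zero_of_finite
      (CfsgLib.Chars.charDegree_pos ζ).ne', Finsupp.add_apply,
      (CfsgLib.Blocks.HeightZero.blockHeight_eq_zero_iff' hζ).1 hζ0]
    have h1 := congrArg (fun k => k.factorization p) H.card_mul_index
    simp only [Nat.factorization_mul Nat.card_pos.ne' Subgroup.index_ne_zero_of_finite,
      Finsupp.add_apply] at h1
    rw [CfsgLib.Blocks.HeightZero.blockDefect_eq, CfsgLib.Blocks.HeightZero.blockDefect_eq] at hdef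
    have h2 := CfsgLib.Blocks.HeightZero.minExp_le_card (p := p) hζ
    obtain ⟨φ, hφ⟩ := CfsgLib.Blocks.nonempty_of_isPBlock hind.2.1
    have h3 := CfsgLib.Blocks.HeightZero.minExp_le_card (p := p) hφ
    omega
  choose a ha using fun χ : Cfsg.IrrCharacter G => CfsgLib.Chars.exists_nat_classInner
    (CfsgLib.Chars.Induced.isCharacter_indFun H (CfsgLib.Chars.isCharacter_coe ζ)) χ
  have hsum : n = ∑ χ ∈ B.toFinite.toFinset, a χ * Cfsg.charDegree (χ : G → ℂ) := by
    refine Nat.cast_injective (R := ℂ) ?_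
    rw [← hn]
    simp only [Cfsg.blockPart, CfsgLib.Blocks.finsum_block_eq_sum, Nat.cast_sum, Nat.cast_mul,
      CfsgLib.Chars.coe_charDegree, ← ha]
    exact Finset.sum_congr rfl fun χ _ => by congr 2; exact Subsingleton.elim _ _
  by_contra hcon
  push Not at hcon
  have hdvd : p ^ (CfsgLib.Blocks.HeightZero.minExp p B + 1) ∣ n := by
    rw [hsum]
    refine Finset.dvd_sum fun χ hχ => ?_
    have hχB := B.toFinite.mem_toFinset.1 hχ
    by_cases h0 : Cfsg.blockHeight p B (χ : G → ℂ) = 0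
    · have := hcon χ hχB h0 (a χ) (ha χ)
      rw [pow_succ']
      exact mul_dvd_mul this (((CfsgLib.Blocks.HeightZero.blockHeight_eq_zero_iff' hχB).1 h0) ▸
        Nat.ordProj_dvd _ _)
    · exact dvd_mul_of_dvd_right (((hp.pow_dvd_iff_le_factorization
        (CfsgLib.Chars.charDegree_pos χ).ne').2
          (CfsgLib.Blocks.HeightZero.minExp_lt_of_height_ne_zero hχB h0))) _
  rw [hp.pow_dvd_iff_le_factorization hn0, hnv, hm1] at hdvd
  omega

end Cfsg.Agent.S4725
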