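import Cfsg.Statements.S4726
import Cfsg.Agent.Eq.Def_Blocks
import Cfsg.Agent.Blocks.Defect.InducedPair
import Cfsg.Agent.Blocks.HeightZero.MinMax

set_option autoImplicit false
open Cfsg

namespace Cfsg.Agent.S4726

open CfsgLib CfsgLib.Blocks

/-- Let p be a prime, M a maximal ideal of the algebraic integers containing p, H a subgroup of the finite group G and b a p-block of H with defect group D₀ such that C_G(D₀) ≤ H. Then b induces a block of G, and for every block B of G induced by b there is a defect group D of B with Z(D) ≤ Z(D₀) ≤ D₀ ≤ D (as subgroups of G). In particular, if the defect groups of B are abelian then D₀ is a defect group of B. -/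
theorem result {G : Type*} [Group G] [Finite G] (p : ℕ) [Fact p.Prime] (M : Ideal Cfsg.AlgInt) (hM : Cfsg.IsPModular p M) (H : Subgroup G) (b : Set (Cfsg.IrrCharacter ↥H)) (hb : Cfsg.IsPBlock M b) (D₀ : Subgroup ↥H) (hD₀ : Cfsg.IsDefectGroup p M b D₀) (hC : Subgroup.centralizer ((D₀.map H.subtype : Subgroup G) : Set G) ≤ H) : Cfsg.InducedBlockDefined M H b ∧ ∀ B : Set (Cfsg.IrrCharacter G), Cfsg.IsInducedBlock M H b B → (∃ D : Subgroup G, Cfsg.IsDefectGroup p M B D ∧ (Subgroup.center ↥D).map D.subtype ≤ ((Subgroup.center ↥D₀).map D₀.subtype).map H.subtype ∧ ((Subgroup.center ↥D₀).map D₀.subtype).map H.subtype ≤ D₀.map H.subtype ∧ D₀.map H.subtype ≤ D) ∧ (∀ D : Subgroup G, Cfsg.IsDefectGroup p M B D → IsMulCommutative ↥D → Cfsg.IsDefectGroup p M B (D₀.map H.subtype)) := by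
  classical
  have := Fintype.ofFinite G
  have := isMaximal_of_isPModular hM
  have := charP_kres hM
  set P := D₀.map H.subtype with hPdef
  have hbI := (isDefectGroup_subEl_iff (p := p) hb D₀).1 hD₀
  obtain ⟨hPH, hPp, hPne, hPmax⟩ := hbI
  obtain ⟨f, hf, hfb⟩ := exists_pair_of_brTrunc_ne_zero hPp hPH hC hb hPne
  obtain ⟨B₁, hB₁, hfB₁⟩ := exists_block_of_pair hPp hf
  refine ⟨⟨B₁, isInducedBlock_of_brOver hPp hPH hC hb hB₁ hf hfb hfB₁⟩, fun B hind => ?_⟩
  have hfB := brOver_of_isInducedBlock hM hPp hPH hC hind hf hfb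
  have he := isBlockIdem_topEl (M := M) hind.2.1
  have hpair : IsPairOfIdem p ⊤ (topEl M B) P f := ⟨⟨hPp, le_top, by rwa [top_inf_eq]⟩, hfB⟩
  obtain ⟨E, g, hmax, hle⟩ := hpair.exists_max
  have hEI := hmax.isDefectGroupIdem he
  have hE : IsDefectGroup p M B E := (isDefectGroup_topEl_iff (p := p) hind.2.1 E).2 hEI
  have hcen : ((Subgroup.center ↥D₀).map D₀.subtype).map H.subtype ≤ P :=
    Subgroup.map_mono (Subgroup.map_subtype_le _)
  -- `Z(E)` lies in `D₀`
  have hZ : (Subgroup.center ↥E).map E.subtype ≤ P := by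
    set Z := (Subgroup.center ↥E).map E.subtype
    have hZE : Z ≤ E := Subgroup.map_subtype_le _
    have hcomm : ∀ z ∈ Z, ∀ d ∈ E, d * z = z * d := by
      rintro _ ⟨z, hz, rfl⟩ d hd
      exact congrArg Subtype.val (Subgroup.mem_center_iff.1 hz ⟨d, hd⟩)
    have hZC : Z ≤ Subgroup.centralizer (P : Set G) := fun z hz =>
      Subgroup.mem_centralizer_iff.2 fun d hd => hcomm z hz d (hle.le hd)
    set Q := P ⊔ Z
    have hQE : Q ≤ E := sup_le hle.le hZE
    have hQN : Q ≤ Subgroup.normalizer (P : Set G) :=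
      sup_le Subgroup.le_normalizer (hZC.trans (Subgroup.centralizer_le_normalizer _))
    obtain ⟨r, hr, -⟩ := hmax.1.1.existsUnique_le hQE
    have hn := (hle.intermediate hmax.1.1 hr le_sup_left).isNormal (hr.isPair_left hmax.1.1) hQN
    have hfQ : IsFixedBy f Q := hn.2.2.2.2.1
    have hne : brTrunc Q f ≠ 0 := fun h => hn.2.1.2.2.ne_zero (by
      rw [← hn.2.2.2.2.2, h, zero_mul])
    have hQH : Q ≤ H := sup_le hPH (hZC.trans hC)
    have hQp : IsPGroup p Q := hEI.2.1.to_le hQE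
    have hne' : brTrunc Q (subEl M H b) ≠ 0 := fun h => hne (by
      have hbfix : IsFixedBy (brTrunc P (subEl M H b)) Q :=
        ((isBlockIdem_subEl hb).1.2.mono hQH).brTrunc hQN
      rw [← hfb, brTrunc_mul hQp hbfix hfQ, brTrunc_brTrunc le_sup_left, h, zero_mul])
    obtain ⟨x, -, hx⟩ := hPmax Q hQH hQp hne'
    have : P = Q := Subgroup.eq_of_le_of_card_ge le_sup_left (by
      rw [← card_map_conj Q x]; exact Subgroup.card_le_of_le hx)
    rw [this]
    exact le_sup_right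
  refine ⟨⟨E, hE, ?_, hcen, hle.le⟩, fun D hD hab => ?_⟩
  · rintro y hy
    obtain ⟨d, hd, rfl⟩ := hZ hy
    obtain ⟨z, hz, hzd⟩ := hy
    refine ⟨d, ⟨⟨_, hd⟩, ?_, rfl⟩, rfl⟩
    rw [SetLike.mem_coe, Subgroup.mem_center_iff]
    intro e
    apply Subtype.ext
    apply Subtype.ext
    have := congrArg Subtype.val (Subgroup.mem_center_iff.1 hz ⟨_, hle.le ⟨e, e.2, rfl⟩⟩)
    simp only [Subgroup.coe_subtype] at hzd
    simpa [hzd] using this
  · obtain ⟨x, hx⟩ := HeightZero.defectGroup_conj_eq hM hind.2.1 hD hE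
    have habE : ∀ a ∈ E, ∀ c ∈ E, c * a = a * c := by
      rw [← hx]
      rintro _ ⟨a, ha, rfl⟩ _ ⟨c, hc, rfl⟩
      rw [← map_mul, ← map_mul]
      exact congrArg _ (congrArg Subtype.val (mul_comm' (⟨c, hc⟩ : D) ⟨a, ha⟩))
    have hEZ : E ≤ (Subgroup.center ↥E).map E.subtype := fun a ha =>
      ⟨⟨a, ha⟩, Subgroup.mem_center_iff.2 fun c => Subtype.ext (habE a ha c c.2), rfl⟩
    rwa [show P = E from le_antisymm hle.le (hEZ.trans hZ)]

end Cfsg.Agent.S4726
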