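import Cfsg.Statements.S4727
import Cfsg.Agent.FongBlock.KernelPairs
import Cfsg.Agent.FongBlock.PrincipalType

set_option autoImplicit false
open Cfsg
open CfsgLib.Blocks CfsgLib.FongBlock

namespace Cfsg.Agent.S4727

/-- Let p be a prime, π a set of primes containing p, M a maximal ideal of the algebraic integers containing p, and B a p-block of the finite group G with defect group D; let B₁ be the block of N_G(D) with defect group D that induces B (the Brauer correspondent of B). Suppose every element of O_π'(N_G(D)), the largest normal subgroup of N_G(D) whose order has no prime divisor in π, lies in the kernel of every member of B₁. If y is a p-element whose centralizer C has a normal Hall π'-subgroup (every element of C whose order has no prime divisor in π lies in O_π'(C)), then χ(y x) = χ(y) for every χ ∈ B and every x ∈ C whose order has no prime divisor in π. -/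
theorem result {G : Type*} [Group G] [Finite G] (p : ℕ) [Fact p.Prime] (M : Ideal Cfsg.AlgInt) (hM : Cfsg.IsPModular p M) (π : Set ℕ) (hpπ : p ∈ π) (B : Set (Cfsg.IrrCharacter G)) (hB : Cfsg.IsPBlock M B) (D : Subgroup G) (hBD : Cfsg.IsDefectGroup p M B D) (B₁ : Set (Cfsg.IrrCharacter ↥(Subgroup.normalizer (D : Set G)))) (hB₁ : Cfsg.IsInducedBlock M (Subgroup.normalizer (D : Set G)) B₁ B) (hB₁D : Cfsg.IsDefectGroup p M B₁ (D.subgroupOf (Subgroup.normalizer (D : Set G)))) (hker : ∀ n : ↥(Subgroup.normalizer (D : Set G)), n ∈ Cfsg.piCore {q | q ∉ π} ↥(Subgroup.normalizer (D : Set G)) → n ∈ Cfsg.blockKer B₁) (y : G) (hy : ∃ k : ℕ, orderOf y = p ^ k) (hC : ∀ x : ↥(Subgroup.centralizer ({y} : Set G)), (∀ q : ℕ, q.Prime → q ∣ orderOf x → q ∉ π) → x ∈ Cfsg.piCore {q | q ∉ π} ↥(Subgroup.centralizer ({y} : Set G))) : ∀ χ ∈ B, ∀ x : G, x ∈ Subgroup.centralizer ({y} : Set G) → (∀ q : ℕ, q.Prime → q ∣ orderOf x → q ∉ π) → (χ : G → ℂ) (y * x) = (χ : G → ℂ) y := by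
  classical
  haveI := Fintype.ofFinite G
  haveI := isMaximal_of_isPModular hM
  haveI := charP_kres hM
  haveI := Fintype.ofFinite ↥(Subgroup.normalizer (D : Set G))
  letI := Fintype.ofFinite ↥(Subgroup.centralizer ({y} : Set G))
  intro χ hχ x hx ho
  obtain ⟨g, hg, hiff⟩ := exists_maxPair_centCore_iff hM hpπ hB hBD hB₁
  set C := Subgroup.centralizer ({y} : Set G) with hCdef
  obtain ⟨j, hj⟩ := hy
  have hP : IsPGroup p (Subgroup.zpowers y) :=
    IsPGroup.of_card (n := j) (by rw [Nat.card_zpowers, hj])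
  have hcen : C = Subgroup.centralizer ((Subgroup.zpowers y : Subgroup G) : Set G) := by
    rw [hCdef, Subgroup.zpowers_eq_closure, Subgroup.centralizer_closure]
  have hYC : centCore π (Subgroup.zpowers y) = piCoreOf {q | q ∉ π} C := by
    rw [centCore, ← hcen]
  have hxY : (⟨x, hx⟩ : C) ∈ piCore {q | q ∉ π} C :=
    hC ⟨x, hx⟩ fun q hq hd => ho q hq (by rwa [Subgroup.orderOf_mk] at hd)
  set φ : C → ℂ := fun c => (χ : G → ℂ) (y * (c : G)) with hφdef
  have hφ : IsClassFunction C φ := by
    intro a k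
    show (χ : G → ℂ) (y * ((k * a * k⁻¹ : C) : G)) = _
    refine Eq.trans ?_ (irrCharacter_conj χ (y * (a : G)) (k : G))
    have hk : Commute y (k : G) := Subgroup.mem_centralizer_iff.1 k.2 y rfl
    push_cast
    simp only [← mul_assoc]
    rw [hk.eq]
  have hpx : ¬ p ∣ orderOf (⟨x, hx⟩ : C) := fun hd =>
    ho p Fact.out (by rwa [Subgroup.orderOf_mk] at hd) hpπ
  have key : φ ⟨x, hx⟩ = φ 1 := by
    rw [CfsgLib.Chars.eq_sum_classInner_mul hφ, CfsgLib.Chars.eq_sum_classInner_mul hφ (1 : C),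
      ← Finset.sum_fiberwise_of_maps_to (g := fun ψ : IrrCharacter C => blockOf M (ψ : C → ℂ))
        (fun ψ _ => Finset.mem_image_of_mem (fun ψ : IrrCharacter C => blockOf M (ψ : C → ℂ)) (Finset.mem_univ ψ)),
      ← Finset.sum_fiberwise_of_maps_to (g := fun ψ : IrrCharacter C => blockOf M (ψ : C → ℂ))
        (fun ψ _ => Finset.mem_image_of_mem (fun ψ : IrrCharacter C => blockOf M (ψ : C → ℂ)) (Finset.mem_univ ψ))]
    refine Finset.sum_congr rfl fun b hb => ?_
    obtain ⟨ψ₀, -, rfl⟩ := Finset.mem_image.mp hb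
    set b := blockOf M (ψ₀ : C → ℂ)
    have hbl : IsPBlock M b := ⟨ψ₀, rfl⟩
    have hfib : ∀ ψ : IrrCharacter C, blockOf M (ψ : C → ℂ) = b ↔ ψ ∈ b := fun ψ =>
      ⟨fun h => h ▸ self_mem_blockOf ψ, fun h => (eq_blockOf_of_mem hbl h).symm⟩
    by_cases hind : IsInducedBlock M C b B
    · have hbr := (isInducedBlock_centralizer_iff hP hcen hbl hB).mp hind
      have hf : IsPairOfIdem p ⊤ (topEl M B) (Subgroup.zpowers y) (subEl M C b) := by
        refine ⟨⟨hP, le_top, ?_⟩, hbr⟩
        rw [top_inf_eq, ← hcen]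
        exact isBlockIdem_subEl hbl
      have hfix := centCore_mul_eq_self hpπ (isBlockIdem_topEl hB) hg (hiff.mp hker) hf
      rw [hYC] at hfix
      have hk := (piCore_le_blockKer_iff hM hpπ hbl).mpr hfix ⟨x, hx⟩ hxY
      refine Finset.sum_congr rfl fun ψ hψ => ?_
      rw [hk ψ ((hfib ψ).mp (Finset.mem_filter.mp hψ).2)]
    · have h1 := blockPart_translate_eq_zero hM ⟨j, hj⟩ hB hχ hbl hind ⟨x, hx⟩ hpx
      have h2 := blockPart_translate_eq_zero hM ⟨j, hj⟩ hB hχ hbl hind (1 : C)
        (by simpa using (Fact.out : p.Prime).not_dvd_one)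
      have hval : ∀ c : C, blockPart b φ c =
          ∑ ψ ∈ Finset.univ.filter (fun ψ : IrrCharacter C => blockOf M (ψ : C → ℂ) = b),
            classInner φ (ψ : C → ℂ) * (ψ : C → ℂ) c := by
        intro c
        rw [show (Finset.univ.filter fun ψ : IrrCharacter C => blockOf M (ψ : C → ℂ) = b) =
          b.toFinite.toFinset by ext ψ; simp [hfib]]
        show (∑ᶠ ψ ∈ b, _) = _
        rw [finsum_block_eq_sum]
        refine Finset.sum_congr rfl fun ψ _ => ?_
        congr 2
        exact Subsingleton.elim _ _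
      rw [← hval, ← hval]
      exact h1.trans h2.symm
  simpa [hφdef] using key

end Cfsg.Agent.S4727
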