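import Cfsg.Statements.S4728
import Cfsg.Agent.FongBlock.KernelPairs

set_option autoImplicit false
open Cfsg
open CfsgLib.Blocks CfsgLib.FongBlock

namespace Cfsg.Agent.S4728

/-- Let p be a prime, π a set of primes containing p, M a maximal ideal of the algebraic integers containing p, B a p-block of the finite group G with defect group D, and B₁ the block of N_G(D) with defect group D inducing B. Let D₀ be a p-subgroup, H₀ = D₀·C_G(D₀), and b a block of H₀ inducing B. Write O_π'(X) for the largest normal subgroup of X whose order has no prime divisor in π. Suppose that O_π'(C_G(D₀)) is a normal Hall π'-subgroup of C_G(D₀) (it contains every element of C_G(D₀) whose order has no prime divisor in π) and that every element of it lies in the kernel of every member of b. Then every element of O_π'(N_G(D)) lies in the kernel of every member of B₁. -/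
theorem result {G : Type*} [Group G] [Finite G] (p : ℕ) [Fact p.Prime] (M : Ideal Cfsg.AlgInt) (hM : Cfsg.IsPModular p M) (π : Set ℕ) (hpπ : p ∈ π) (B : Set (Cfsg.IrrCharacter G)) (hB : Cfsg.IsPBlock M B) (D : Subgroup G) (hBD : Cfsg.IsDefectGroup p M B D) (B₁ : Set (Cfsg.IrrCharacter ↥(Subgroup.normalizer (D : Set G)))) (hB₁ : Cfsg.IsInducedBlock M (Subgroup.normalizer (D : Set G)) B₁ B) (hB₁D : Cfsg.IsDefectGroup p M B₁ (D.subgroupOf (Subgroup.normalizer (D : Set G)))) (D₀ : Subgroup G) (hD₀ : IsPGroup p D₀) (H₀ : Subgroup G) (hH₀ : H₀ = D₀ ⊔ Subgroup.centralizer (D₀ : Set G)) (b : Set (Cfsg.IrrCharacter ↥H₀)) (hb : Cfsg.IsInducedBlock M H₀ b B) (hcompl : ∀ x : ↥(Subgroup.centralizer (D₀ : Set G)), (∀ q : ℕ, q.Prime → q ∣ orderOf x → q ∉ π) → x ∈ Cfsg.piCore {q | q ∉ π} ↥(Subgroup.centralizer (D₀ : Set G))) (hkerb : ∀ x : ↥(Subgroup.centralizer (D₀ : Set G)), x ∈ Cfsg.piCore {q | q ∉ π} ↥(Subgroup.centralizer (D₀ : Set G)) → ∀ θ ∈ b, ∀ h :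 ↥H₀, (h : G) = (x : G) → (θ : ↥H₀ → ℂ) h = (θ : ↥H₀ → ℂ) 1) : ∀ n : ↥(Subgroup.normalizer (D : Set G)), n ∈ Cfsg.piCore {q | q ∉ π} ↥(Subgroup.normalizer (D : Set G)) → n ∈ Cfsg.blockKer B₁ := by
  classical
  haveI := Fintype.ofFinite G
  haveI := Fintype.ofFinite ↥H₀
  haveI := Fintype.ofFinite ↥(Subgroup.normalizer (D : Set G))
  haveI := isMaximal_of_isPModular hM
  haveI := charP_kres hM
  have hDH : D₀ ≤ H₀ := hH₀ ▸ le_sup_left
  have hCH : Subgroup.centralizer (D₀ : Set G) ≤ H₀ := hH₀ ▸ le_sup_right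
  have hHN : H₀ ≤ Subgroup.normalizer (D₀ : Set G) :=
    hH₀ ▸ sup_le Subgroup.le_normalizer (Subgroup.centralizer_le_normalizer _)
  have hβ : IsBlockIdem H₀ (subEl M H₀ b) := isBlockIdem_subEl hb.1
  have hβbr := hβ.brTrunc_eq_self hD₀ hDH hHN
  obtain ⟨f, hf, hfb⟩ :=
    exists_brOver_of_induced hM hb hDH hD₀ hCH (hβbr.symm ▸ hβ.ne_zero)
  rw [hβbr] at hfb
  have hX : avgEl (kres M) (centCore π D₀) * subEl M H₀ b = subEl M H₀ b := by
    refine (avgEl_mul_subEl_eq_iff hM ((piCoreOf_le_self _).trans hCH)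
      (hHN.trans (normalizer_le_normalizer_centCore _))
      (not_dvd_card_piCoreOf Fact.out hpπ _) hb.1).mpr ?_
    rintro h ⟨x, hx, hxh⟩ θ hθ
    exact hkerb x hx θ hθ h hxh.symm
  have hfix : avgEl (kres M) (centCore π D₀) * f = f := by rw [← hfb, ← mul_assoc, hX]
  have hall : HasHallCore π D₀ := fun x hx ho =>
    ⟨⟨x, hx⟩, hcompl ⟨x, hx⟩ (fun q hq hd => ho q hq (by rwa [Subgroup.orderOf_mk] at hd)), rfl⟩
  obtain ⟨g, hg, hiff⟩ := exists_maxPair_centCore_iff hM hpπ hB hBD hB₁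
  exact hiff.mpr (centCore_mul_eq_self_max hpπ (isBlockIdem_topEl hB) hg hf hall hfix)

end Cfsg.Agent.S4728
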