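import Cfsg.Statements.S4729
import Cfsg.Agent.Eq.Def_Blocks
import Cfsg.Agent.Blocks.LocalRing
import Mathlib.RingTheory.RootsOfUnity.Complex
import Mathlib.LinearAlgebra.Projection
import Mathlib.GroupTheory.Abelianization.Defs
import Mathlib.GroupTheory.Sylow

set_option autoImplicit false
open Cfsg CfsgLib.Blocks

namespace Cfsg.Agent.S4729

variable {V : Type*} [AddCommGroup V] [Module ℂ V] [FiniteDimensional ℂ V]

lemma det_one_add_smul_proj (E : V →ₗ[ℂ] V) (hE : E * E = E) (c : ℂ) :
    LinearMap.det (1 + c • E) = (1 + c) ^ Module.finrank ℂ (LinearMap.range E) := by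
  have hp : LinearMap.IsProj (LinearMap.range E) E :=
    ⟨fun v => LinearMap.mem_range_self E v, fun v hv => by
      obtain ⟨w, rfl⟩ := hv
      exact LinearMap.congr_fun hE w⟩
  let e := Submodule.prodEquivOfIsCompl _ _ hp.isCompl
  have h : (1 + c • E : V →ₗ[ℂ] V) = e.conj
      (LinearMap.prodMap ((1 + c) • LinearMap.id) LinearMap.id) := by
    apply LinearMap.ext
    intro v
    obtain ⟨⟨a, b⟩, rfl⟩ := e.surjective v
    have ha : E (a : V) = a := hp.map_id _ a.2
    have hb : E (b : V) = 0 := b.2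
    simp [e, LinearEquiv.conj_apply, Submodule.coe_prodEquivOfIsCompl', ha, hb, add_smul]
    abel
  rw [h, LinearEquiv.conj_apply, LinearMap.comp_assoc, LinearMap.det_conj]
  simp [LinearMap.det_prodMap, LinearMap.det_smul]

lemma trace_proj (E : V →ₗ[ℂ] V) (hE : E * E = E) :
    LinearMap.trace ℂ V E = Module.finrank ℂ (LinearMap.range E) := by
  have hp : LinearMap.IsProj (LinearMap.range E) E :=
    ⟨fun v => LinearMap.mem_range_self E v, fun v hv => by
      obtain ⟨w, rfl⟩ := hv
      exact LinearMap.congr_fun hE w⟩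
  exact hp.trace

/-- The averaging projection onto the fixed space of `A` when `A ^ m = 1`. -/
noncomputable def avg (m : ℕ) (A : V →ₗ[ℂ] V) : V →ₗ[ℂ] V :=
  (m : ℂ)⁻¹ • ∑ i ∈ Finset.range m, A ^ i

omit [FiniteDimensional ℂ V] in
lemma mul_avg {m : ℕ} (A : V →ₗ[ℂ] V) (hA : A ^ m = 1) : A * avg m A = avg m A := by
  rw [avg, mul_smul_comm, Finset.mul_sum]
  congr 1
  have h1 := Finset.sum_range_succ' (fun i => A ^ i) m
  rw [Finset.sum_range_succ, hA, pow_zero, add_left_inj] at h1
  simpa [pow_succ'] using h1.symm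

omit [FiniteDimensional ℂ V] in
lemma avg_idem {m : ℕ} (hm : 0 < m) (A : V →ₗ[ℂ] V) (hA : A ^ m = 1) :
    avg m A * avg m A = avg m A := by
  conv_lhs => lhs; rw [avg]
  rw [smul_mul_assoc, Finset.sum_mul]
  have : ∀ i, A ^ i * avg m A = avg m A := by
    intro i
    induction i with
    | zero => simp
    | succ i ih => rw [pow_succ, mul_assoc, mul_avg A hA, ih]
  rw [Finset.sum_congr rfl fun i _ => this i, Finset.sum_const, Finset.card_range,
    ← Nat.cast_smul_eq_nsmul ℂ, smul_smul, inv_mul_cancel₀ (by exact_mod_cast hm.ne'), one_smul]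

/-- An endomorphism of order dividing `m`, all of whose traces of powers are congruent to the
dimension, whose dimension is below `2 * p`, and of determinant 1, is the identity. -/
lemma eq_one_of_trace_congr {p m : ℕ} (hp : p.Prime) {M : Ideal AlgInt} (hM : IsPModular p M)
    (hm : 0 < m) (hpm : ¬ p ∣ m) (L : V →ₗ[ℂ] V) (hL : L ^ m = 1)
    (hn : Module.finrank ℂ V < 2 * p) (hdet : LinearMap.det L = 1)
    (hcong : ∀ i, MemLocalIdeal M
      (LinearMap.trace ℂ V (L ^ i) - (Module.finrank ℂ V : ℂ))) : L = 1 := by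
  have := isMaximal_of_isPModular hM
  obtain ⟨ζ, hζ⟩ : ∃ ζ : ℂ, IsPrimitiveRoot ζ m := ⟨_, Complex.isPrimitiveRoot_exp m hm.ne'⟩
  let μ : ℕ → ℂ := fun j => ζ⁻¹ ^ j
  have hμ : ∀ j, μ j ^ m = 1 := fun j => by
    rw [← pow_mul, mul_comm, pow_mul, inv_pow, hζ.pow_eq_one, inv_one, one_pow]
  let E : ℕ → (V →ₗ[ℂ] V) := fun j => avg m (μ j • L)
  have hA : ∀ j, (μ j • L) ^ m = 1 := fun j => by rw [smul_pow, hμ, hL, one_smul]
  let r : ℕ → ℕ := fun j => Module.finrank ℂ (LinearMap.range (E j))
  have htr : ∀ j, LinearMap.trace ℂ V (E j) = r j := fun j =>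
    trace_proj _ (avg_idem hm _ (hA j))
  have hinv : IsPrimitiveRoot ζ⁻¹ m := hζ.inv
  have hdvd : ∀ j ∈ Finset.range m, j ≠ 0 → p ∣ r j := by
    intro j hj hj0
    have hμ1 : μ j ≠ 1 := hinv.pow_ne_one_of_pos_of_lt hj0 (Finset.mem_range.1 hj)
    have h1 : ((m * r j : ℕ) : ℂ) =
        ∑ i ∈ Finset.range m, μ j ^ i *
          (LinearMap.trace ℂ V (L ^ i) - (Module.finrank ℂ V : ℂ)) := by
      simp only [mul_sub, Finset.sum_sub_distrib, ← Finset.sum_mul]
      rw [geom_sum_eq hμ1, hμ, sub_self, zero_div, zero_mul, sub_zero]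
      rw [Nat.cast_mul, ← htr j]
      simp only [E, avg, map_smul, map_sum, smul_eq_mul, smul_pow]
      rw [← mul_assoc, mul_inv_cancel₀ (by exact_mod_cast hm.ne'), one_mul]
    have h2 : MemLocalIdeal M ((m * r j : ℕ) : ℂ) := by
      rw [h1]
      refine memLocalIdeal_sum _ fun i _ => memLocalIdeal_mul_left ?_ (hcong i)
      exact memLocalRing_of_isIntegral
        ((IsIntegral.of_pow hm (x := μ j) (by rw [hμ]; exact isIntegral_one)).pow i)
    exact (hp.dvd_mul.1 ((memLocalIdeal_natCast_iff hM _).1 h2)).resolve_left hpm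
  have hsum : ∑ j ∈ Finset.range m, E j = 1 := by
    simp only [E, avg, smul_pow, ← Finset.smul_sum]
    rw [Finset.sum_comm, Finset.sum_eq_single 0]
    · simp only [pow_zero, one_smul, Finset.sum_const, Finset.card_range,
        ← Nat.cast_smul_eq_nsmul ℂ, smul_smul]
      rw [inv_mul_cancel₀ (by exact_mod_cast hm.ne'), one_smul]
    · intro i hi hi0
      rw [← Finset.sum_smul]
      have h1 : (ζ⁻¹ ^ i) ≠ 1 := hinv.pow_ne_one_of_pos_of_lt hi0 (Finset.mem_range.1 hi)
      have h2 : ∑ j ∈ Finset.range m, μ j ^ i = 0 := by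
        rw [show (∑ j ∈ Finset.range m, μ j ^ i) = ∑ j ∈ Finset.range m, (ζ⁻¹ ^ i) ^ j from
          Finset.sum_congr rfl fun j _ => by simp only [μ, ← pow_mul, mul_comm]]
        rw [geom_sum_eq h1, ← pow_mul, mul_comm, pow_mul, hinv.pow_eq_one, one_pow, sub_self,
          zero_div]
      rw [h2, zero_smul]
    · intro h; simp [hm] at h
  have hrsum : ∑ j ∈ Finset.range m, r j = Module.finrank ℂ V := by
    have h := congrArg (LinearMap.trace ℂ V) hsum
    rw [map_sum, LinearMap.trace_one] at h
    simp only [htr] at h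
    exact_mod_cast h
  have hLE : ∀ j, L * E j = (μ j)⁻¹ • E j := by
    intro j
    have h := mul_avg (μ j • L) (hA j)
    have h0 : μ j ≠ 0 := pow_ne_zero _ (inv_ne_zero (hζ.ne_zero hm.ne'))
    rw [smul_mul_assoc] at h
    calc L * E j = (μ j)⁻¹ • (μ j • (L * E j)) := by rw [smul_smul, inv_mul_cancel₀ h0, one_smul]
      _ = _ := by rw [h]
  have hzero : ∀ j, r j = 0 → E j = 0 := fun j h =>
    LinearMap.range_eq_bot.1 (Submodule.finrank_eq_zero.1 h)
  have hLsum : L = ∑ j ∈ Finset.range m, (μ j)⁻¹ • E j := by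
    conv_lhs => rw [← mul_one L, ← hsum, Finset.mul_sum]
    exact Finset.sum_congr rfl fun j _ => hLE j
  have h0m : 0 ∈ Finset.range m := Finset.mem_range.2 hm
  by_cases hex : ∃ j ∈ Finset.range m, j ≠ 0 ∧ r j ≠ 0
  · obtain ⟨j, hj, hj0, hrj⟩ := hex
    exfalso
    have hge : p ≤ r j := Nat.le_of_dvd (Nat.pos_of_ne_zero hrj) (hdvd j hj hj0)
    have hother : ∀ k ∈ Finset.range m, k ≠ 0 → k ≠ j → E k = 0 := by
      intro k hk hk0 hkj
      apply hzero
      by_contra hrk
      have hgek : p ≤ r k := Nat.le_of_dvd (Nat.pos_of_ne_zero hrk) (hdvd k hk hk0)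
      have h2 : r k + r j ≤ Module.finrank ℂ V := by
        rw [← hrsum, ← Finset.sum_pair hkj]
        exact Finset.sum_le_sum_of_subset
          (Finset.insert_subset_iff.2 ⟨hk, Finset.singleton_subset_iff.2 hj⟩)
      omega
    have hrj_eq : r j = p := by
      have h2 : r j ≤ Module.finrank ℂ V := hrsum ▸ Finset.single_le_sum (by simp) hj
      obtain ⟨c, hc⟩ := hdvd j hj hj0
      have hc1 : c < 2 := by nlinarith
      have : c = 1 := by interval_cases c <;> simp_all
      simp [hc, this]
    have hpair : ∀ f : ℕ → (V →ₗ[ℂ] V), (∀ k ∈ Finset.range m, k ≠ 0 → k ≠ j → f k = 0) →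
        ∑ k ∈ Finset.range m, f k = f 0 + f j := fun f hf => by
      rw [← Finset.sum_pair (Ne.symm hj0)]
      refine (Finset.sum_subset (Finset.insert_subset_iff.2
        ⟨h0m, Finset.singleton_subset_iff.2 hj⟩) fun k hk hk' => ?_).symm
      simp only [Finset.mem_insert, Finset.mem_singleton, not_or] at hk'
      exact hf k hk hk'.1 hk'.2
    rw [hpair _ hother] at hsum
    rw [hpair _ (fun k hk a b => by rw [hother k hk a b, smul_zero])] at hLsum
    have hL1 : L = 1 + ((μ j)⁻¹ - 1) • E j := by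
      rw [hLsum, show μ 0 = 1 from pow_zero _, inv_one, one_smul, ← hsum, sub_smul, one_smul]
      abel
    have hd := det_one_add_smul_proj (E j) (avg_idem hm _ (hA j)) ((μ j)⁻¹ - 1)
    rw [← hL1, hdet, add_sub_cancel, show Module.finrank ℂ (LinearMap.range (E j)) = p from hrj_eq,
      inv_pow, eq_comm, inv_eq_one] at hd
    have hord : orderOf (μ j) ∣ 1 := by
      rw [← Nat.Coprime.gcd_eq_one ((hp.coprime_iff_not_dvd).2 hpm)]
      exact Nat.dvd_gcd (orderOf_dvd_of_pow_eq_one hd) (orderOf_dvd_of_pow_eq_one (hμ j))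
    exact hinv.pow_ne_one_of_pos_of_lt hj0 (Finset.mem_range.1 hj)
      (orderOf_eq_one_iff.1 (Nat.dvd_one.1 hord))
  · push Not at hex
    rw [Finset.sum_eq_single 0 (fun k hk hk0 => hzero k (hex k hk hk0))
      (fun h => absurd h0m h)] at hsum
    rw [Finset.sum_eq_single 0 (fun k hk hk0 => by rw [hzero k (hex k hk hk0), smul_zero])
      (fun h => absurd h0m h)] at hLsum
    rw [hLsum, hsum, show μ 0 = 1 from pow_zero _, inv_one, one_smul]

/-- Let p be a prime, M a maximal ideal of the algebraic integers containing p, G a finite perfect group and P a Sylow p-subgroup. If the principal p-block of G contains a faithful irreducible character of degree less than 2p, then the centralizer of P is a p-group. -/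
theorem result {G : Type*} [Group G] [Finite G] (p : ℕ) [Fact p.Prime] (M : Ideal Cfsg.AlgInt) (hM : Cfsg.IsPModular p M) (hperf : commutator G = ⊤) (P : Sylow p G) (χ : Cfsg.IrrCharacter G) (hχ : χ ∈ Cfsg.principalBlock M G) (hfaith : ∀ g : G, (χ : G → ℂ) g = (χ : G → ℂ) 1 → g = 1) (hdeg : Cfsg.charDegree (χ : G → ℂ) < 2 * p) : IsPGroup p ↥(Subgroup.centralizer ((P : Subgroup G) : Set G)) := by
  have hp : p.Prime := Fact.out
  have := isMaximal_of_isPModular hM
  obtain ⟨χ, n, ρ, hirr, hρ⟩ := χ
  subst hρ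
  simp only [Set.mem_setOf_eq, principalBlock, blockOf, SameBlock] at hχ
  have h1 : ρ.character 1 = (n : ℂ) := by simp
  have hcd : charDegree (ρ.character) = n := by simp [charDegree]
  simp only [hcd] at hdeg
  -- elements of order prime to p in the centralizer are trivial
  have key : ∀ x : G, x ∈ Subgroup.centralizer ((P : Subgroup G) : Set G) →
      ¬ p ∣ orderOf x → x = 1 := by
    intro x hx hpx
    apply hfaith
    rcases Nat.eq_zero_or_pos n with hn0 | hnpos
    · subst hn0
      have : ρ x = 1 := Subsingleton.elim _ _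
      simp [Representation.character, this]
    suffices hρx : ρ x = 1 by simp [Representation.character, hρx]
    refine eq_one_of_trace_congr hp hM (orderOf_pos x) hpx (ρ x)
      (by rw [← map_pow, pow_orderOf_eq_one, map_one]) (by simpa using hdeg) ?_ ?_
    · -- determinant
      let d : G →* ℂˣ := ((LinearMap.det : (Module.End ℂ (Fin n → ℂ)) →* ℂ).comp ρ).toHomUnits
      have : x ∈ d.ker := by
        apply Abelianization.commutator_subset_ker d
        rw [hperf]; trivial
      exact congrArg Units.val (MonoidHom.mem_ker.1 this)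
    · intro i
      rw [← map_pow]
      set y := x ^ i
      have hy : y ∈ Subgroup.centralizer ((P : Subgroup G) : Set G) := pow_mem hx i
      set c := (Subgroup.centralizer ({y} : Set G)).index with hc
      have hPc : (P : Subgroup G) ≤ Subgroup.centralizer ({y} : Set G) := fun z hz =>
        Subgroup.mem_centralizer_iff.2 fun w hw => by
          rw [Set.mem_singleton_iff.1 hw]
          exact (Subgroup.mem_centralizer_iff.1 hy z hz).symm
      have hpc : ¬ p ∣ c := fun h => P.not_dvd_index (h.trans (Subgroup.index_dvd_of_le hPc))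
      have h := hχ y
      rw [centralChar, centralChar, h1, ← hc, mul_one, div_one] at h
      have h2 : MemLocalIdeal M ((c : ℂ)⁻¹ * (c - c * ρ.character y / n) * (n : ℂ)) :=
        memLocalIdeal_mul_right (memLocalIdeal_mul_left (memLocalRing_inv_natCast hM hpc) h)
          (by simpa using memLocalRing_coe (M := M) (n : AlgInt))
      have hc0 : (c : ℂ) ≠ 0 := by
        intro h0; exact hpc (by simp [Nat.cast_eq_zero.1 h0])
      have hn0 : (n : ℂ) ≠ 0 := by exact_mod_cast hnpos.ne'
      convert memLocalIdeal_neg h2 using 1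
      show _ = _
      simp [Representation.character]
      field_simp
      ring
  intro g
  refine ⟨(orderOf g).factorization p, ?_⟩
  have hord : orderOf (g ^ p ^ (orderOf g).factorization p) =
      orderOf g / p ^ (orderOf g).factorization p :=
    orderOf_pow_of_dvd (pow_ne_zero _ hp.ne_zero) (Nat.ordProj_dvd _ _)
  have h := key _ (g ^ p ^ (orderOf g).factorization p).2
    (by rw [Subgroup.orderOf_coe, hord]; exact Nat.not_dvd_ordCompl hp (orderOf_pos g).ne')
  exact Subtype.ext h

end Cfsg.Agent.S4729
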