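import Cfsg.Statements.S4730
import Cfsg.Agent.Eq.Def_Blocks
import Cfsg.Agent.Blocks.Orth.ClassMult
import Cfsg.Agent.Chars.Basic
import Cfsg.Agent.Chars.Apps.RootSums

set_option autoImplicit false
open Cfsg CfsgLib.Blocks

namespace Cfsg.Agent.S4730

/-- Let p be a prime, M a maximal ideal of the algebraic integers containing p, and G a finite group with trivial centre, Sylow p-subgroup P of order p^a and centre Z(P) of order p^b. If χ is a faithful irreducible character of G whose degree is a power of p, then the p-block of χ has defect at most a − b; in particular, if P is abelian then χ lies in a block of defect zero. -/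
theorem result {G : Type*} [Group G] [Finite G] (p : ℕ) [Fact p.Prime] (M : Ideal Cfsg.AlgInt) (hM : Cfsg.IsPModular p M) (hZ : Subgroup.center G = ⊥) (P : Sylow p G) (a b : ℕ) (ha : Nat.card P = p ^ a) (hb : Nat.card (Subgroup.center ↥(P : Subgroup G)) = p ^ b) (χ : Cfsg.IrrCharacter G) (hfaith : ∀ g : G, (χ : G → ℂ) g = (χ : G → ℂ) 1 → g = 1) (n : ℕ) (hdeg : Cfsg.charDegree (χ : G → ℂ) = p ^ n) : Cfsg.blockDefect p (Cfsg.blockOf M (χ : G → ℂ)) ≤ a - b ∧ (IsMulCommutative ↥(P : Subgroup G) → Cfsg.blockDefect p (Cfsg.blockOf M (χ : G → ℂ)) = 0) := by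
  classical
  have := Fintype.ofFinite G
  have := isMaximal_of_isPModular hM
  have hp : p.Prime := Fact.out
  have hpC : (p : ℂ) ≠ 0 := by exact_mod_cast hp.ne_zero
  set A : Subgroup G := (Subgroup.center ↥(P : Subgroup G)).map (P : Subgroup G).subtype with hA
  have := Fintype.ofFinite A
  have hAcard : Nat.card A = p ^ b := by
    rw [hA, Subgroup.card_map_of_injective (P : Subgroup G).subtype_injective, hb]
  have hAidx : ∀ y ∈ A, ¬ p ∣ (Subgroup.centralizer ({y} : Set G)).index := by
    rintro y ⟨z, hz, rfl⟩ h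
    refine P.not_dvd_index (h.trans (Subgroup.index_dvd_of_le fun x hx => ?_))
    rw [Subgroup.mem_centralizer_iff]
    intro w hw
    rw [Set.mem_singleton_iff.1 hw]
    exact congrArg Subtype.val (Subgroup.mem_center_iff.1 hz ⟨x, hx⟩).symm
  have hzero : ∀ y ∈ A, y ≠ 1 → (χ : G → ℂ) y = 0 := by
    intro y hy hy1
    obtain ⟨m, ρ, hirr, hρ⟩ := χ.2
    have h1 : (χ : G → ℂ) 1 = (m : ℂ) := by rw [← hρ]; simp
    have hm : m = p ^ n := by
      rw [← hdeg, Cfsg.charDegree, h1, Complex.natCast_re, Nat.floor_natCast]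
    have hm0 : m ≠ 0 := hm ▸ pow_ne_zero _ hp.ne_zero
    have hint : IsIntegral ℤ (ρ.character y / m) := by
      refine CfsgLib.Chars.Apps.isIntegral_div_of_coprime
        (m := (Subgroup.centralizer ({y} : Set G)).index) (CfsgLib.Chars.Apps.isIntegral_char ρ y)
        (hm ▸ Nat.Coprime.pow_right _ ((hp.coprime_iff_not_dvd).2 (hAidx y hy)).symm) ?_
      have := CfsgLib.Chars.isIntegral_centralChar χ y
      rwa [Cfsg.centralChar, h1, ← hρ] at this
    rcases CfsgLib.Chars.Apps.char_eq_zero_or_norm_eq ρ y hint with h | h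
    · rw [← hρ]; exact h
    exfalso
    obtain ⟨c, hc⟩ := CfsgLib.Chars.Apps.exists_smul_of_norm_char_eq ρ y h
    refine hy1 ?_
    have : y ∈ Subgroup.center G := by
      rw [Subgroup.mem_center_iff]
      intro g
      rw [eq_comm, ← mul_inv_eq_one]
      refine hfaith _ ?_
      have hone : ρ (y * g * (g * y)⁻¹) = 1 := by
        have hcomm : ρ (y * g) = ρ (g * y) := by
          rw [map_mul, map_mul, hc, smul_mul_assoc, one_mul, mul_smul_comm, mul_one]
        rw [map_mul, hcomm, ← map_mul, mul_inv_cancel, map_one]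
      rw [← hρ]
      simp only [Representation.character]
      rw [hone, map_one ρ]
    rwa [hZ, Subgroup.mem_bot] at this
  have hmain : ∀ ψ : Cfsg.IrrCharacter G, ψ ∈ Cfsg.blockOf M (χ : G → ℂ) →
      b ≤ (Cfsg.charDegree (ψ : G → ℂ)).factorization p := by
    intro ψ hψ
    set d := Cfsg.charDegree (ψ : G → ℂ)
    set c := d.factorization p
    by_contra hcb
    push Not at hcb
    have hd1 : (d : ℂ) = (ψ : G → ℂ) 1 := CfsgLib.Chars.coe_charDegree ψ
    have hd0 : d ≠ 0 := (CfsgLib.Chars.charDegree_pos ψ).ne'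
    set d' := d / p ^ c
    have hsplit : p ^ c * d' = d := Nat.ordProj_mul_ordCompl_eq_self d p
    have hd' : ¬ p ∣ d' := Nat.not_dvd_ordCompl hp hd0
    have hd'0 : (d' : ℂ) ≠ 0 := by
      exact_mod_cast (fun h => hd' (h ▸ dvd_zero p) : d' ≠ 0)
    obtain ⟨m, hm⟩ := exists_sum_subgroup_eq ψ A
    rw [← Finset.add_sum_erase _ _ (Finset.mem_univ (1 : A)), OneMemClass.coe_one, ← hd1,
      hAcard] at hm
    have key : ((p ^ (b - c) * m : ℕ) : ℂ) - (d' : ℂ) =
        ∑ y ∈ Finset.univ.erase (1 : A), (ψ : G → ℂ) (y : G) / (p : ℂ) ^ c := by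
      rw [← Finset.sum_div, eq_div_iff (pow_ne_zero c hpC), sub_mul]
      have hm' : (p : ℂ) ^ c * (d' : ℂ) + ∑ i ∈ Finset.univ.erase (1 : A), (ψ : G → ℂ) (i : G) =
          (p : ℂ) ^ b * (m : ℂ) := by
        push_cast at hm
        rw [← hm, ← hsplit]
        push_cast
        ring
      push_cast
      rw [eq_comm, eq_sub_iff_add_eq', mul_comm (d' : ℂ), hm',
        show (p : ℂ) ^ b = (p : ℂ) ^ (b - c) * (p : ℂ) ^ c by
        rw [← pow_add, Nat.sub_add_cancel hcb.le]]
      ring
    have hmem : MemLocalIdeal M (((p ^ (b - c) * m : ℕ) : ℂ) - (d' : ℂ)) := by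
      rw [key]
      refine memLocalIdeal_sum _ fun y hy => ?_
      have hy1 : (y : G) ≠ 1 := fun h => (Finset.ne_of_mem_erase hy) (Subtype.ext h)
      have hω : MemLocalIdeal M (Cfsg.centralChar (ψ : G → ℂ) (y : G)) := by
        have h := hψ (y : G)
        have h0 : Cfsg.centralChar (χ : G → ℂ) (y : G) = 0 := by
          simp [Cfsg.centralChar, hzero _ y.2 hy1]
        rw [h0, zero_sub] at h
        simpa using memLocalIdeal_neg h
      set I := (Subgroup.centralizer ({(y : G)} : Set G)).index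
      have hI : ¬ p ∣ I := hAidx _ y.2
      have hI0 : (I : ℂ) ≠ 0 := by exact_mod_cast (fun h => hI (h ▸ dvd_zero p) : I ≠ 0)
      have heq : (ψ : G → ℂ) (y : G) / (p : ℂ) ^ c =
          ((d' : ℂ) * (I : ℂ)⁻¹) * Cfsg.centralChar (ψ : G → ℂ) (y : G) := by
        rw [Cfsg.centralChar, ← hd1, ← hsplit]
        push_cast
        simp only [← show I = (Subgroup.centralizer ({(y : G)} : Set G)).index from rfl]
        field_simp
      rw [heq]
      exact memLocalIdeal_mul_left
        ((mem_localRing.1 (mul_mem (natCast_mem (localRing M) d')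
          (mem_localRing.2 (memLocalRing_inv_natCast hM hI))))) hω
    have hbig : MemLocalIdeal M ((p ^ (b - c) * m : ℕ) : ℂ) :=
      (memLocalIdeal_natCast_iff hM _).2 (dvd_mul_of_dvd_left (dvd_pow_self p (by omega)) m)
    have := memLocalIdeal_sub hbig hmem
    rw [sub_sub_cancel] at this
    exact hd' ((memLocalIdeal_natCast_iff hM _).1 this)
  have hself : χ ∈ Cfsg.blockOf M (χ : G → ℂ) := fun g => by
    rw [sub_self]; exact memLocalIdeal_zero
  have hcardG : (Nat.card G).factorization p = a := by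
    have h := P.card_eq_multiplicity
    rw [ha] at h
    exact (Nat.pow_right_injective hp.two_le h).symm
  have hdef : Cfsg.blockDefect p (Cfsg.blockOf M (χ : G → ℂ)) ≤ a - b := by
    rw [Cfsg.blockDefect, hcardG]
    refine Nat.sub_le_sub_left (le_csInf (Set.Nonempty.image _ ⟨χ, hself⟩) ?_) a
    rintro _ ⟨ψ, hψ, rfl⟩
    exact hmain ψ hψ
  refine ⟨hdef, fun hab => ?_⟩
  have hba : a = b := by
    have h1 : Subgroup.center ↥(P : Subgroup G) = ⊤ := by
      rw [eq_top_iff]
      intro x _
      rw [Subgroup.mem_center_iff]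
      intro g
      exact hab.is_comm.comm g x
    rw [h1, Subgroup.card_top, ha] at hb
    exact Nat.pow_right_injective hp.two_le hb
  omega

end Cfsg.Agent.S4730
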