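import Cfsg.Statements.S4734
import Cfsg.Agent.FongBlock.KernelPairs

set_option autoImplicit false
open Cfsg
open CfsgLib.Blocks CfsgLib.FongBlock

namespace Cfsg.Agent.S4734

/-- Let p be a prime, π a set of primes containing p, M a maximal ideal of the algebraic integers containing p, B a p-block of the finite group G with defect group D, and B₁ the block of N_G(D) with defect group D inducing B. Write O_π'(X) for the largest normal subgroup of X whose order has no prime divisor in π, and suppose every element of O_π'(N_G(D)) lies in the kernel of every member of B₁. Let G₀ be a subgroup and B₀ a block of G₀ with defect group D₀ such that C_G(D₀) ≤ G₀ and B₀ induces B. Then every element of O_π'(G₀) lies in the kernel of every member of B₀. -/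
theorem result {G : Type*} [Group G] [Finite G] (p : ℕ) [Fact p.Prime] (M : Ideal Cfsg.AlgInt) (hM : Cfsg.IsPModular p M) (π : Set ℕ) (hpπ : p ∈ π) (B : Set (Cfsg.IrrCharacter G)) (hB : Cfsg.IsPBlock M B) (D : Subgroup G) (hBD : Cfsg.IsDefectGroup p M B D) (B₁ : Set (Cfsg.IrrCharacter ↥(Subgroup.normalizer (D : Set G)))) (hB₁ : Cfsg.IsInducedBlock M (Subgroup.normalizer (D : Set G)) B₁ B) (hB₁D : Cfsg.IsDefectGroup p M B₁ (D.subgroupOf (Subgroup.normalizer (D : Set G)))) (hker : ∀ n : ↥(Subgroup.normalizer (D : Set G)), n ∈ Cfsg.piCore {q | q ∉ π} ↥(Subgroup.normalizer (D : Set G)) → n ∈ Cfsg.blockKer B₁) (G₀ : Subgroup G) (B₀ : Set (Cfsg.IrrCharacter ↥G₀)) (hB₀ : Cfsg.IsInducedBlock M G₀ B₀ B) (D₀ : Subgroup ↥G₀) (hD₀ : Cfsg.IsDefectGroup p M B₀ D₀) (hC : Subgroup.centralizer ((D₀.map G₀.subtype : Subgroup G) : Set G) ≤ G₀) : ∀ x : ↥G₀, x ∈ Cfsg.piCore {q | q ∉ π} ↥G₀ → x ∈ Cfsg.blockKer B₀ := by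
  classical
  haveI := Fintype.ofFinite G
  haveI := Fintype.ofFinite ↥G₀
  haveI := Fintype.ofFinite ↥(Subgroup.normalizer (D : Set G))
  haveI := isMaximal_of_isPModular hM
  haveI := charP_kres hM
  set β := subEl M G₀ B₀ with hβdef
  have hβ : IsBlockIdem G₀ β := isBlockIdem_subEl hB₀.1
  have hdef := (isDefectGroup_subEl_iff hB₀.1 D₀).mp hD₀
  set D' := D₀.map G₀.subtype with hD'
  obtain ⟨f, hf, hfb⟩ := exists_brOver_of_induced hM hB₀ hdef.1 hdef.2.1 hC hdef.2.2.1
  obtain ⟨g, hg, hiff⟩ := exists_maxPair_centCore_iff hM hpπ hB hBD hB₁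
  have hfix := centCore_mul_eq_self hpπ (isBlockIdem_topEl hB) hg (hiff.mp hker) hf
  rw [piCore_le_blockKer_iff hM hpπ hB₀.1]
  set X := piCoreOf {q | q ∉ π} G₀ with hX
  have hpX : ¬ p ∣ Nat.card X := not_dvd_card_piCoreOf Fact.out hpπ _
  have hXN : G₀ ≤ Subgroup.normalizer (X : Set G) := le_normalizer_piCoreOf_self _
  refine (hβ.2.2.2 _ (avgEl_mem_centerIn (piCoreOf_le_self _) hXN)
    (avgEl_idem (natCast_card_ne_zero (p := p) hpX))).resolve_left fun h0 => hf.1.2.2.ne_zero ?_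
  rw [← hfix]
  refine avgEl_mul_eq_zero_of_le
    (inf_le_piCoreOf (hC.trans hXN) (isPiCard_piCoreOf G₀))
    (natCast_card_ne_zero (p := p) fun hd => hpX (hd.trans (Subgroup.card_dvd_of_le inf_le_left))) ?_
  rw [← brTrunc_avgEl hdef.2.1 (hdef.1.trans hXN) hpX, ← hfb, ← mul_assoc,
    ← brTrunc_mul hdef.2.1 (isFixedBy_avgEl (hdef.1.trans hXN)) (hβ.1.2.mono hdef.1), h0,
    map_zero, zero_mul]

end Cfsg.Agent.S4734
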