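import Cfsg.Statements.S4736
import Cfsg.Agent.FongBlock.HeightBound
import Cfsg.Agent.S4713

set_option autoImplicit false
open Cfsg CfsgLib.Blocks CfsgLib.FongBlock

namespace Cfsg.Agent.S4736

/-- Let p be a prime, M a maximal ideal of the algebraic integers containing p, and G a finite p-solvable group with Sylow p-subgroup P. Then P is abelian if and only if every irreducible character in the principal p-block of G has height zero. -/
theorem result {G : Type*} [Group G] [Finite G] (p : ℕ) [Fact p.Prime] (M : Ideal Cfsg.AlgInt) (hM : Cfsg.IsPModular p M) (hsolv : Cfsg.IsPSolvable p G) (P : Sylow p G) : IsMulCommutative P ↔ ∀ χ ∈ Cfsg.principalBlock M G, Cfsg.blockHeight p (Cfsg.principalBlock M G) (χ : G → ℂ) = 0 := by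
  classical
  haveI := Fintype.ofFinite G
  haveI := isMaximal_of_isPModular hM
  haveI := Fintype.ofFinite (Cfsg.pPrimeCore p G)
  have hinv : IsInvariant (CfsgLib.Chars.oneChar ↥(Cfsg.pPrimeCore p G)) := fun g n => by
    rw [CfsgLib.Chars.oneChar_apply, CfsgLib.Chars.oneChar_apply]
  obtain ⟨B, hB, hmem, hsyl, -⟩ := exists_block_of_invariant hM hsolv rfl hinv
  have hone : (fun _ : G => (1 : ℂ)) = (CfsgLib.Chars.oneChar G : G → ℂ) :=
    funext fun g => (CfsgLib.Chars.oneChar_apply g).symm
  have h1 : CfsgLib.Chars.oneChar G ∈ B := by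
    rw [hmem]
    rw [show (fun n : ↥(Cfsg.pPrimeCore p G) => (CfsgLib.Chars.oneChar G : G → ℂ) n) =
        (CfsgLib.Chars.oneChar ↥(Cfsg.pPrimeCore p G) : ↥(Cfsg.pPrimeCore p G) → ℂ) from
      funext fun n => by rw [CfsgLib.Chars.oneChar_apply, CfsgLib.Chars.oneChar_apply],
      CfsgLib.Chars.Induced.classInner_irr_self]
    exact one_ne_zero
  have hB0 : Cfsg.principalBlock M G = B := by
    rw [Cfsg.principalBlock, hone, eq_blockOf_of_mem hB h1]
  rw [hB0]
  constructor
  · intro hab χ hχ
    have h := height_le_center_index_of_pSolvable hM _ G rfl hsolv B hB _ (hsyl P) χ hχ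
    have hc : Subgroup.center ↥(P : Subgroup G) = ⊤ := by
      rw [eq_top_iff]
      intro a _
      rw [Subgroup.mem_center_iff]
      exact fun b => hab.is_comm.comm b a
    rw [hc, Subgroup.index_top, Nat.factorization_one, Finsupp.zero_apply] at h
    omega
  · intro hall
    set q := QuotientGroup.mk' (Cfsg.pPrimeCore p G) with hq
    have hmin : CfsgLib.Blocks.HeightZero.minExp p B = 0 := by
      have h := CfsgLib.Blocks.HeightZero.minExp_le (p := p) h1
      have hd : Cfsg.charDegree (CfsgLib.Chars.oneChar G : G → ℂ) = 1 :=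
        CfsgLib.Chars.charDegree_eq_of_map_one (by rw [CfsgLib.Chars.oneChar_apply, Nat.cast_one])
      rw [hd, Nat.factorization_one, Finsupp.zero_apply] at h
      exact Nat.le_zero.mp h
    have hdeg : ∀ ψ : Cfsg.IrrCharacter (G ⧸ Cfsg.pPrimeCore p G),
        ¬ p ∣ Cfsg.charDegree (ψ : G ⧸ Cfsg.pPrimeCore p G → ℂ) := by
      intro ψ hdvd
      set χ := CfsgLib.Chars.inflate (Cfsg.pPrimeCore p G) ψ with hχdef
      have hd : Cfsg.charDegree (χ : G → ℂ) = Cfsg.charDegree (ψ : G ⧸ Cfsg.pPrimeCore p G → ℂ) := by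
        apply Nat.cast_injective (R := ℂ)
        rw [CfsgLib.Chars.coe_charDegree, CfsgLib.Chars.coe_charDegree, hχdef,
          CfsgLib.Chars.inflate_apply, QuotientGroup.mk_one]
      have hχ : χ ∈ B := by
        rw [hmem]
        rw [show (fun n : ↥(Cfsg.pPrimeCore p G) => (χ : G → ℂ) n) =
            (χ : G → ℂ) 1 •
              (CfsgLib.Chars.oneChar ↥(Cfsg.pPrimeCore p G) : ↥(Cfsg.pPrimeCore p G) → ℂ) from
          funext fun n => by
            rw [hχdef, CfsgLib.Chars.inflate_apply, Pi.smul_apply, smul_eq_mul,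
              CfsgLib.Chars.oneChar_apply, mul_one, CfsgLib.Chars.inflate_apply,
              QuotientGroup.mk_one, (QuotientGroup.eq_one_iff (n : G)).2 n.2],
          CfsgLib.Chars.Induced.classInner_smul_left,
          CfsgLib.Chars.Induced.classInner_irr_self, mul_one]
        exact apply_one_ne_zero χ.2
      have h0 := (CfsgLib.Blocks.HeightZero.blockHeight_eq_zero_iff' hχ).mp (hall χ hχ)
      rw [hmin, hd] at h0
      have hpos := (Fact.out : p.Prime).factorization_pos_of_dvd
        (CfsgLib.Chars.charDegree_pos ψ).ne' hdvd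
      omega
    have hab := (S4713.main _ (G ⧸ Cfsg.pPrimeCore p G) rfl
      (CfsgLib.Constrained.IsPSolvable.quotient hsolv _) hdeg
      (P.mapSurjective (QuotientGroup.mk'_surjective (Cfsg.pPrimeCore p G)))).2
    refine ⟨⟨fun a b => Subtype.ext ?_⟩⟩
    have h2 := hab (q a) (by rw [Sylow.coe_mapSurjective]; exact ⟨a, a.2, rfl⟩) (q b)
      (by rw [Sylow.coe_mapSurjective]; exact ⟨b, b.2, rfl⟩)
    rw [← map_mul, ← map_mul] at h2
    have h3 : ((a * b) * (b * a)⁻¹ : ↥(P : Subgroup G)).1 ∈
        (P : Subgroup G) ⊓ Cfsg.pPrimeCore p G := by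
      refine ⟨SetLike.coe_mem _, (QuotientGroup.eq_one_iff _).mp ?_⟩
      show q ((a : G) * b * ((b : G) * a)⁻¹) = 1
      rw [map_mul, map_inv, h2, mul_inv_cancel]
    rw [CfsgLib.Constrained.disjoint_of_isPGroup_of_not_dvd P.isPGroup'
      CfsgLib.Constrained.pPrimeCore_not_dvd, Subgroup.mem_bot] at h3
    exact mul_inv_eq_one.mp h3

end Cfsg.Agent.S4736
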