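import Cfsg.Statements.S4955
import Cfsg.Agent.Chars.Basic.Columns
import Cfsg.Agent.Chars.GaloisSum.Basic
import Cfsg.Agent.Chars.GaloisSum.Nonvanishing

set_option autoImplicit false
open Cfsg

namespace Cfsg.Agent.S4955

/-- Let X be a finite group with an abelian normal Sylow p-subgroup V (a normal p-subgroup of index prime to p in which any two elements commute), and let G be a complement to V in X. Then for every v in V, writing C for the centralizer of v in G, the number k(X) of conjugacy classes of X satisfies k(X) ≤ (order of C)·(order of V) − ((order of G) − k(G)); the statement is written with the subtracted term moved to the left. In particular, if some v in V is centralized by no nonidentity element of G, then k(X) is at most the order of V. -/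
theorem result {X : Type*} [Group X] [Finite X] (p : ℕ) [Fact p.Prime] (V : Subgroup X) [V.Normal] (hVp : IsPGroup p V) (hidx : ¬ p ∣ V.index) (hab : ∀ a ∈ V, ∀ b ∈ V, a * b = b * a) (G : Subgroup X) (hGV : Subgroup.IsComplement' V G) (v : X) (hv : v ∈ V) : Nat.card (ConjClasses X) + Nat.card G ≤ Nat.card ↥(G ⊓ Subgroup.centralizer ({v} : Set X)) * Nat.card V + Nat.card (ConjClasses G) := by
  classical
  have : Fintype X := Fintype.ofFinite X
  have hp : p.Prime := Fact.out
  obtain ⟨k, hk⟩ : ∃ k, v ^ p ^ k = 1 := by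
    obtain ⟨k, hk⟩ := hVp ⟨v, hv⟩
    exact ⟨k, congrArg Subtype.val hk⟩
  -- the generators of the subgroup spanned by `v`
  let S : Finset X := Finset.univ.filter fun x => ∃ j : ℕ, j.Coprime (Nat.card X) ∧ v ^ j = x
  have hvS : v ∈ S := Finset.mem_filter.2 ⟨Finset.mem_univ _, 1, Nat.coprime_one_left _, pow_one v⟩
  have hSclosed : ∀ x ∈ S, ∀ j : ℕ, j.Coprime (Nat.card X) → x ^ j ∈ S := by
    intro x hx j hj
    obtain ⟨i, hi, rfl⟩ := (Finset.mem_filter.1 hx).2
    exact Finset.mem_filter.2 ⟨Finset.mem_univ _, i * j, hi.mul_left hj, pow_mul v i j⟩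
  have hSV : ∀ x ∈ S, x ∈ V := fun x hx => by
    obtain ⟨i, -, rfl⟩ := (Finset.mem_filter.1 hx).2
    exact V.pow_mem hv i
  have hcen : ∀ x ∈ S, Nat.card ↥(Subgroup.centralizer ({x} : Set X)) =
      Nat.card ↥(Subgroup.centralizer ({v} : Set X)) := by
    intro x hx
    obtain ⟨i, hi, rfl⟩ := (Finset.mem_filter.1 hx).2
    refine congrArg (fun H : Subgroup X => Nat.card ↥H) (Subgroup.ext fun y => ?_)
    simp only [Subgroup.mem_centralizer_singleton_iff]
    refine ⟨fun h => ?_, fun h => (Commute.pow_right h i)⟩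
    obtain ⟨m, hm⟩ := exists_pow_eq_self_of_coprime (x := v) (n := i)
      (hi.coprime_dvd_right (orderOf_dvd_natCard v))
    rw [← hm]
    exact (Commute.pow_right h m)
  -- the centralizer of `v`
  have hcard : Nat.card ↥(Subgroup.centralizer ({v} : Set X)) =
      Nat.card ↥(G ⊓ Subgroup.centralizer ({v} : Set X)) * Nat.card V := by
    rw [← Nat.card_prod]
    refine (Nat.card_eq_of_bijective
      (fun z : ↥(G ⊓ Subgroup.centralizer ({v} : Set X)) × ↥V =>
        (⟨(z.2 : X) * z.1, (Subgroup.centralizer ({v} : Set X)).mul_mem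
          (Subgroup.mem_centralizer_singleton_iff.2 (hab _ z.2.2 _ hv)) z.1.2.2⟩ :
            ↥(Subgroup.centralizer ({v} : Set X)))) ⟨?_, ?_⟩).symm
    · rintro ⟨⟨g, hg⟩, ⟨u, hu⟩⟩ ⟨⟨g', hg'⟩, ⟨u', hu'⟩⟩ h
      have := @hGV.1 (⟨u, hu⟩, ⟨g, hg.1⟩) (⟨u', hu'⟩, ⟨g', hg'.1⟩) (congrArg Subtype.val h)
      simp only [Prod.mk.injEq, Subtype.mk.injEq] at this ⊢
      exact ⟨this.2, this.1⟩
    · rintro ⟨y, hy⟩
      obtain ⟨⟨⟨u, hu⟩, ⟨g, hg⟩⟩, rfl⟩ := hGV.2 y
      have hgC : g ∈ Subgroup.centralizer ({v} : Set X) := by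
        have := (Subgroup.centralizer ({v} : Set X)).mul_mem
          ((Subgroup.centralizer ({v} : Set X)).inv_mem
            (Subgroup.mem_centralizer_singleton_iff.2 (hab u hu v hv))) hy
        simpa using this
      exact ⟨(⟨g, hg, hgC⟩, ⟨u, hu⟩), rfl⟩
  -- inflation from the complement
  let π : X →* ↥G := hGV.symm.QuotientMulEquiv.toMonoidHom.comp (QuotientGroup.mk' V)
  have hπ : Function.Surjective π :=
    hGV.symm.QuotientMulEquiv.surjective.comp (QuotientGroup.mk'_surjective V)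
  have hπV : ∀ x ∈ V, π x = 1 := fun x hx => by
    show hGV.symm.QuotientMulEquiv (QuotientGroup.mk' V x) = 1
    rw [show QuotientGroup.mk' V x = 1 from (QuotientGroup.eq_one_iff x).2 hx, map_one]
  let infl : Cfsg.IrrCharacter ↥G → Cfsg.IrrCharacter X := fun θ =>
    ⟨fun x => (θ : ↥G → ℂ) (π x), CfsgLib.Chars.isIrrCharacter_comp θ.2 π hπ⟩
  have hinfl : Function.Injective infl := fun θ θ' h => Subtype.ext (funext fun g => by
    obtain ⟨x, rfl⟩ := hπ g
    exact congrFun (congrArg Subtype.val h) x)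
  let a : Cfsg.IrrCharacter X → ℝ := fun χ => ∑ x ∈ S, (‖(χ : X → ℂ) x‖ ^ 2 - 1)
  have ha : ∀ χ, 0 ≤ a χ := by
    intro χ
    have := CfsgLib.Chars.GaloisSum.card_le_sum_norm_sq_char (CfsgLib.Chars.isCharacter_coe χ) S
      hSclosed fun x hx => CfsgLib.Chars.GaloisSum.apply_ne_zero_of_abelian_normal V hab hp hidx χ
        (hSV x hx) (k := k) (by
          obtain ⟨i, -, rfl⟩ := (Finset.mem_filter.1 hx).2
          rw [← pow_mul, mul_comm, pow_mul, hk, one_pow])
    simp only [a, Finset.sum_sub_distrib, Finset.sum_const, nsmul_eq_mul, mul_one]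
    linarith
  have h1 : ∑ χ, a χ = (S.card : ℝ) * ((Nat.card ↥(Subgroup.centralizer ({v} : Set X)) : ℝ) -
      Nat.card (ConjClasses X)) := by
    simp only [a]
    rw [Finset.sum_comm, Finset.sum_congr rfl (g := fun _ =>
      (Nat.card ↥(Subgroup.centralizer ({v} : Set X)) : ℝ) - Nat.card (ConjClasses X))
      fun x hx => ?_, Finset.sum_const, nsmul_eq_mul]
    rw [Finset.sum_sub_distrib, CfsgLib.Chars.sum_irr_norm_sq, hcen x hx, Finset.sum_const,
      Finset.card_univ, nsmul_eq_mul, mul_one, ← Nat.card_eq_fintype_card,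
      CfsgLib.Chars.card_irrCharacter]
  have h2 : ∑ θ, a (infl θ) = (S.card : ℝ) * ((Nat.card G : ℝ) - Nat.card (ConjClasses G)) := by
    simp only [a]
    rw [Finset.sum_comm, Finset.sum_congr rfl (g := fun _ =>
      (Nat.card G : ℝ) - Nat.card (ConjClasses G)) fun x hx => ?_, Finset.sum_const, nsmul_eq_mul]
    rw [Finset.sum_sub_distrib, Finset.sum_const,
      Finset.card_univ, nsmul_eq_mul, mul_one, ← Nat.card_eq_fintype_card,
      CfsgLib.Chars.card_irrCharacter, ← CfsgLib.Chars.sum_charDegree_sq (G := ↥G)]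
    push_cast
    congr 1
    refine Finset.sum_congr rfl fun θ _ => ?_
    show ‖(θ : ↥G → ℂ) (π x)‖ ^ 2 = _
    rw [hπV x (hSV x hx), ← CfsgLib.Chars.coe_charDegree, Complex.norm_natCast]
  have h3 : ∑ θ, a (infl θ) ≤ ∑ χ, a χ := by
    rw [← Finset.sum_image (fun θ _ θ' _ h => hinfl h)]
    exact Finset.sum_le_univ_sum_of_nonneg ha
  rw [h1, h2, hcard] at h3
  have h4 := le_of_mul_le_mul_left h3 (Nat.cast_pos.2 (Finset.card_pos.2 ⟨v, hvS⟩))
  push_cast at h4
  have h5 : (Nat.card (ConjClasses X) : ℝ) + Nat.card G ≤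
      (Nat.card ↥(G ⊓ Subgroup.centralizer ({v} : Set X)) : ℝ) * Nat.card V +
        Nat.card (ConjClasses G) := by linarith
  exact_mod_cast h5

end Cfsg.Agent.S4955
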