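import Cfsg.Statements.S4956
import Mathlib

set_option autoImplicit false
open Cfsg

namespace Cfsg.Agent.S4956

/-- Let X be a finite group, V an abelian normal subgroup of X (any two elements of V commute) and G a complement to V in X whose order is coprime to that of V. Let S be a set of representatives of the orbits of G on V under conjugation: S lies in V and every element of V is conjugate under G to exactly one member of S. Then the number of conjugacy classes of X equals the sum, over s in S, of the number of conjugacy classes of the centralizer of s in G. -/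
theorem result {X : Type*} [Group X] [Finite X] (V : Subgroup X) [V.Normal] (hab : ∀ a ∈ V, ∀ b ∈ V, a * b = b * a) (G : Subgroup X) (hGV : Subgroup.IsComplement' V G) (hcop : (Nat.card V).Coprime (Nat.card G)) (S : Finset X) (hSV : ∀ s ∈ S, s ∈ V) (hrep : ∀ v ∈ V, ∃! s, s ∈ S ∧ ∃ g ∈ G, g * v * g⁻¹ = s) : Nat.card (ConjClasses X) = ∑ s ∈ S, Nat.card (ConjClasses ↥(G ⊓ Subgroup.centralizer ({s} : Set X))) := by
  classical
  have hinj : ∀ a ∈ V, a ∈ G → a = 1 := by
    intro a haV haG
    have h := hGV.disjoint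
    exact Subgroup.mem_bot.1 (h.le_bot ⟨haV, haG⟩)
  have hVnorm : V.Normal := inferInstance
  -- coprime decomposition of `V` under an element of `G`
  have hdec : ∀ g ∈ G, ∀ v ∈ V, ∃ c ∈ V, ∃ u ∈ V,
      g * c = c * g ∧ v = c * (u * (g * u * g⁻¹)⁻¹) := by
    intro g hg v hv
    have hc : ∀ a b : ↥V, a * b = b * a := fun a b => Subtype.ext (hab _ a.2 _ b.2)
    let δ : ↥V →* ↥V :=
      { toFun := fun u => u * (MulAut.conjNormal g u)⁻¹
        map_one' := by simp
        map_mul' := fun a b => by
          rw [map_mul, mul_inv_rev]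
          calc a * b * ((MulAut.conjNormal g b)⁻¹ * (MulAut.conjNormal g a)⁻¹)
              = a * (b * (MulAut.conjNormal g b)⁻¹) * (MulAut.conjNormal g a)⁻¹ := by group
            _ = a * (MulAut.conjNormal g a)⁻¹ * (b * (MulAut.conjNormal g b)⁻¹) := by
                rw [mul_assoc, hc (b * _) _, ← mul_assoc] }
    have hdisj : Disjoint δ.ker δ.range := by
      rw [disjoint_iff, Subgroup.eq_bot_iff_forall]
      rintro c ⟨hck, u, rfl⟩
      have hck' : g * (δ u : X) = (δ u : X) * g := by
        have h1 : δ u = MulAut.conjNormal g (δ u) := mul_inv_eq_one.1 hck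
        have h2 := congrArg Subtype.val h1
        rw [MulAut.conjNormal_apply] at h2
        conv_rhs => rw [h2]
        group
      set c : X := (δ u : X) with hcdef
      have hc1 : g * u * g⁻¹ = c⁻¹ * u := by
        show g * (u : X) * g⁻¹ = ((u * (MulAut.conjNormal g u)⁻¹ : ↥V) : X)⁻¹ * u
        rw [Subgroup.coe_mul, Subgroup.coe_inv, MulAut.conjNormal_apply]
        group
      have hci : Commute g c⁻¹ := Commute.inv_right hck'
      have hpow : ∀ n : ℕ, g ^ n * u * (g ^ n)⁻¹ = c⁻¹ ^ n * u := by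
        intro n
        induction n with
        | zero => simp
        | succ n ih =>
          calc g ^ (n + 1) * u * (g ^ (n + 1))⁻¹
              = g * (g ^ n * u * (g ^ n)⁻¹) * g⁻¹ := by rw [pow_succ' g n]; group
            _ = g * c⁻¹ ^ n * u * g⁻¹ := by rw [ih]; group
            _ = c⁻¹ ^ n * (g * u * g⁻¹) := by rw [(hci.pow_right n).eq]; group
            _ = c⁻¹ ^ (n + 1) * u := by rw [hc1, pow_succ]; group
      have hcm := hpow (Nat.card G)
      have hgm : g ^ Nat.card G = 1 := by
        exact congrArg Subtype.val (pow_card_eq_one' (x := (⟨g, hg⟩ : ↥G)))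
      rw [hgm, one_mul, inv_one, mul_one, right_eq_mul, inv_pow, inv_eq_one] at hcm
      have hcV : c ^ Nat.card V = 1 := by
        exact congrArg Subtype.val (pow_card_eq_one' (x := δ u))
      apply Subtype.ext
      show c = 1
      have := (pow_gcd_eq_one (a := c)).2 ⟨hcV, hcm⟩
      simpa [hcop.gcd_eq_one] using this
    have hprod : Nat.card δ.ker * Nat.card δ.range = Nat.card V := by
      rw [← Nat.card_congr (QuotientGroup.quotientKerEquivRange δ).toEquiv, mul_comm,
        ← Subgroup.card_eq_card_quotient_mul_card_subgroup]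
    have hcomp := Subgroup.isComplement'_of_card_mul_and_disjoint hprod hdisj
    obtain ⟨⟨⟨c, hck⟩, ⟨w, u, rfl⟩⟩, hcw⟩ := hcomp.2 ⟨v, hv⟩
    refine ⟨c, c.2, u, u.2, ?_, ?_⟩
    · have h1 : c = MulAut.conjNormal g c := mul_inv_eq_one.1 hck
      have h2 := congrArg Subtype.val h1
      rw [MulAut.conjNormal_apply] at h2
      conv_rhs => rw [h2]
      group
    · have h3 := congrArg Subtype.val hcw
      simp only [δ, MonoidHom.coe_mk, OneHom.coe_mk, Subgroup.coe_mul, Subgroup.coe_inv,
        MulAut.conjNormal_apply] at h3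
      exact h3.symm
  -- the parametrising map
  have hsC : ∀ (s : X) (h : ↥(G ⊓ Subgroup.centralizer ({s} : Set X))),
      (h : X) ∈ G ∧ (h : X) * s = s * h := fun s h =>
    ⟨h.2.1, Subgroup.mem_centralizer_singleton_iff.1 h.2.2⟩
  let F : (Σ s : ↥S, ConjClasses ↥(G ⊓ Subgroup.centralizer ({(s : X)} : Set X))) →
      ConjClasses X := fun q =>
    Quotient.liftOn q.2 (fun h => ConjClasses.mk ((q.1 : X) * h)) (by
      intro a b hab'
      obtain ⟨k, hk⟩ := isConj_iff.1 hab'
      apply ConjClasses.mk_eq_mk_iff_isConj.2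
      refine isConj_iff.2 ⟨k, ?_⟩
      rw [← hk]
      simp only [Subgroup.coe_mul, Subgroup.coe_inv]
      rw [← mul_assoc, (hsC _ k).2]
      group)
  have hF : Function.Bijective F := by
    constructor
    · rintro ⟨⟨s, hs⟩, q⟩ ⟨⟨t, ht⟩, q'⟩ hqq
      induction q using Quotient.inductionOn with | h a => ?_
      induction q' using Quotient.inductionOn with | h b => ?_
      have hsb := hSV s hs
      have htb := hSV t ht
      obtain ⟨y, hy⟩ := isConj_iff.1 (ConjClasses.mk_eq_mk_iff_isConj.1 hqq)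
      simp only at hy
      -- separate the parts of coprime order
      obtain ⟨e, he1, he2⟩ := Nat.chineseRemainder hcop 1 0
      have hpw : ∀ (z w : X), z ∈ V → w ∈ G → Commute z w → (z * w) ^ e = z := by
        intro z w hz hw hzw
        rw [hzw.mul_pow]
        have h1 : z ^ e = z ^ 1 := by
          apply pow_eq_pow_iff_modEq.2
          exact he1.of_dvd (by simpa using orderOf_dvd_natCard (⟨z, hz⟩ : ↥V))
        have h2 : w ^ e = w ^ 0 := by
          apply pow_eq_pow_iff_modEq.2
          exact he2.of_dvd (by simpa using orderOf_dvd_natCard (⟨w, hw⟩ : ↥G))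
        rw [h1, h2, pow_one, pow_zero, mul_one]
      have hys : y * s * y⁻¹ = t := by
        have := congrArg (· ^ e) hy
        simp only [conj_pow] at this
        rwa [hpw s a hsb (hsC s a).1 (hsC s a).2.symm,
          hpw t b htb (hsC t b).1 (hsC t b).2.symm] at this
      have hya : y * a * y⁻¹ = b := by
        have : y * s * y⁻¹ * (y * a * y⁻¹) = t * b := by rw [← hy]; group
        rw [hys] at this
        exact mul_left_cancel this
      obtain ⟨⟨⟨u, hu⟩, ⟨k, hk⟩⟩, rfl⟩ := hGV.2 y
      simp only at hys hya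
      have hks : k * s * k⁻¹ = t := by
        have hksV : k * s * k⁻¹ ∈ V := hVnorm.conj_mem s hsb k
        calc k * s * k⁻¹ = u * (k * s * k⁻¹) * u⁻¹ := by
              rw [hab u hu _ hksV]; group
          _ = t := by rw [← hys]; group
      have hst : s = t :=
        (hrep s (hSV s hs)).unique ⟨hs, 1, G.one_mem, by group⟩ ⟨ht, k, hk, hks⟩
      subst hst
      have hkC : k ∈ G ⊓ Subgroup.centralizer ({s} : Set X) :=
        ⟨hk, Subgroup.mem_centralizer_singleton_iff.2 (mul_inv_eq_iff_eq_mul.1 hks)⟩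
      have hka : k * a * k⁻¹ = b := by
        have hG1 : k * a * k⁻¹ ∈ G := G.mul_mem (G.mul_mem hk (hsC s a).1) (G.inv_mem hk)
        have hV1 : (b : X) * (k * a * k⁻¹)⁻¹ ∈ V := by
          have : (b : X) * (k * a * k⁻¹)⁻¹
              = u * ((k * a * k⁻¹) * u⁻¹ * (k * a * k⁻¹)⁻¹) := by rw [← hya]; group
          rw [this]
          exact V.mul_mem hu (hVnorm.conj_mem _ (V.inv_mem hu) _)
        exact (mul_inv_eq_one.1 (hinj _ hV1 (G.mul_mem (hsC s b).1 (G.inv_mem hG1)))).symm
      have : (Quotient.mk _ a : ConjClasses ↥(G ⊓ Subgroup.centralizer ({s} : Set X)))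
          = Quotient.mk _ b :=
        ConjClasses.mk_eq_mk_iff_isConj.2 (isConj_iff.2 ⟨⟨k, hkC⟩, Subtype.ext hka⟩)
      rw [this]
    · intro q
      induction q using Quotient.inductionOn with | h x => ?_
      obtain ⟨⟨⟨v, hv⟩, ⟨g, hg⟩⟩, rfl⟩ := hGV.2 x
      obtain ⟨c, hc, u, hu, hgc, rfl⟩ := hdec g hg v hv
      obtain ⟨s, ⟨hs, k, hk, hks⟩, -⟩ := hrep c hc
      have hC : k * g * k⁻¹ ∈ G ⊓ Subgroup.centralizer ({s} : Set X) := by
        refine ⟨G.mul_mem (G.mul_mem hk hg) (G.inv_mem hk), ?_⟩
        apply Subgroup.mem_centralizer_singleton_iff.2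
        rw [← hks]
        calc k * g * k⁻¹ * (k * c * k⁻¹) = k * (g * c) * k⁻¹ := by group
          _ = _ := by rw [hgc]; group
      refine ⟨⟨⟨s, hs⟩, ConjClasses.mk ⟨_, hC⟩⟩, ?_⟩
      apply ConjClasses.mk_eq_mk_iff_isConj.2
      refine isConj_iff.2 ⟨u * k⁻¹, ?_⟩
      show u * k⁻¹ * (s * (k * g * k⁻¹)) * (u * k⁻¹)⁻¹ = c * (u * (g * u * g⁻¹)⁻¹) * g
      rw [← hks]
      calc u * k⁻¹ * (k * c * k⁻¹ * (k * g * k⁻¹)) * (u * k⁻¹)⁻¹
          = (u * c) * g * u⁻¹ := by group
        _ = _ := by rw [hab u hu c hc]; group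
  rw [← Nat.card_congr (Equiv.ofBijective F hF), Nat.card_sigma,
    ← Finset.sum_coe_sort S fun s : X =>
      Nat.card (ConjClasses ↥(G ⊓ Subgroup.centralizer ({s} : Set X)))]

end Cfsg.Agent.S4956
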