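import Cfsg.Statements.S4958
import Cfsg.Agent.KGV.Weights
import Cfsg.Agent.Chars.Basic.Columns
import Cfsg.Agent.Chars.Apps.RootSums
import Cfsg.Agent.Chars.GaloisSum.Basic
import Cfsg.Agent.Chars.GaloisSum.Nonvanishing
import Mathlib.GroupTheory.NoncommCoprod
import Mathlib.Data.Nat.ChineseRemainder
import Mathlib.Algebra.BigOperators.Group.Multiset.Basic

set_option autoImplicit false
open Cfsg

namespace Cfsg.Agent.S4958

open Polynomial CfsgLib.Chars

/-- Evaluation of integer polynomials at all primitive `p`-th roots of unity. -/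
noncomputable def evalAll (p : ℕ) : ℤ[X] →+ (↥(primitiveRoots p ℂ) → ℂ) where
  toFun P := fun μ => aeval (μ : ℂ) P
  map_zero' := funext fun _ => map_zero _
  map_add' _ _ := funext fun _ => map_add _ _ _

theorem evalAll_bound {p : ℕ} (hp : 0 < p) :
    ∀ a ∈ (evalAll p).range, a ≠ 0 →
      (Fintype.card ↥(primitiveRoots p ℂ) : ℝ) ≤ ∑ μ, ‖a μ‖ ^ 2 := by
  rintro _ ⟨P, rfl⟩ hne
  obtain ⟨ν, hν⟩ := Function.ne_iff.1 hne
  have hall : ∀ μ ∈ primitiveRoots p ℂ, aeval μ P ≠ 0 := by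
    intro μ hμ h0
    apply hν
    have hμ' := (mem_primitiveRoots hp).1 hμ
    have hν' := (mem_primitiveRoots hp).1 ν.2
    have hd := minpoly.isIntegrallyClosed_dvd (hμ'.isIntegral hp) h0
    rw [← cyclotomic_eq_minpoly hμ' hp, cyclotomic_eq_minpoly hν' hp] at hd
    exact aeval_eq_zero_of_dvd_aeval_eq_zero hd (minpoly.aeval ℤ _)
  rw [← Finset.card_univ]
  refine GaloisSum.card_le_sum_of_one_le_prod Finset.univ _
    (fun μ _ => pow_pos (norm_pos_iff.2 (hall μ μ.2)) 2) ?_
  rw [Finset.prod_pow]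
  refine one_le_pow₀ ?_
  show 1 ≤ ∏ x : ↥(primitiveRoots p ℂ), ‖aeval (x : ℂ) P‖
  rw [Finset.prod_coe_sort (primitiveRoots p ℂ) fun μ => ‖aeval μ P‖]
  exact CfsgLib.Chars.Apps.one_le_prod_norm hp P hall

/-- A sum of linear characters of `A × C`, read at `(v ^ j, h)`, has polynomial coefficients. -/
theorem exists_coeff_of_homs {A C : Type*} [Group A] [CommGroup C] [Finite C] {p : ℕ}
    (hp : 0 < p) {ζ : ℂ} (hζ : IsPrimitiveRoot ζ p) (v : A) (hv : v ^ p = 1)
    (e : ↥(primitiveRoots p ℂ) → ℕ) (he : ∀ μ, ζ ^ e μ = (μ : ℂ))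
    (s : Multiset (A × C →* ℂˣ)) :
    ∃ a : (C →* ℂˣ) → (↥(primitiveRoots p ℂ) → ℂ), (∀ φ, a φ ∈ (evalAll p).range) ∧
      ∀ μ h, CfsgLib.KGV.evalCoeff a μ h =
        (s.map fun l => ((l (v ^ e μ, h) : ℂˣ) : ℂ)).sum := by
  classical
  have := CfsgLib.KGV.finite_dual C
  have : Fintype (C →* ℂˣ) := Fintype.ofFinite _
  induction s using Multiset.induction with
  | empty =>
    refine ⟨0, fun φ => zero_mem _, fun μ h => ?_⟩
    simp [CfsgLib.KGV.evalCoeff_eq_sum]
  | cons l s ih =>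
    obtain ⟨a, ha, has⟩ := ih
    have : NeZero p := ⟨hp.ne'⟩
    obtain ⟨k, -, hk⟩ := hζ.eq_pow_of_pow_eq_one (ξ := ((l (v, 1) : ℂˣ) : ℂ)) (by
      rw [← Units.val_pow_eq_pow_val, ← map_pow, Prod.pow_mk, hv, one_pow,
        show ((1 : A), (1 : C)) = 1 from rfl, map_one, Units.val_one])
    set φ₀ : C →* ℂˣ := l.comp (MonoidHom.inr A C)
    refine ⟨fun φ => a φ + if φ = φ₀ then evalAll p (X ^ k) else 0, fun φ => ?_, fun μ h => ?_⟩
    · refine AddSubgroup.add_mem _ (ha φ) ?_
      split_ifs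
      · exact ⟨_, rfl⟩
      · exact zero_mem _
    · rw [Multiset.map_cons, Multiset.sum_cons, ← has μ h]
      simp only [CfsgLib.KGV.evalCoeff_eq_sum, Pi.add_apply, add_mul, Finset.sum_add_distrib]
      rw [add_comm]
      congr 1
      rw [Finset.sum_eq_single φ₀ (fun φ _ hφ => by rw [if_neg hφ]; simp)
        (fun h' => absurd (Finset.mem_univ _) h'), if_pos rfl]
      show aeval (μ : ℂ) (X ^ k) * ((l (1, h) : ℂˣ) : ℂ) = ((l (v ^ e μ, h) : ℂˣ) : ℂ)
      rw [map_pow, aeval_X, ← he μ, ← pow_mul, mul_comm (e μ) k, pow_mul, hk,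
        ← Units.val_pow_eq_pow_val, ← Units.val_mul, ← map_pow, ← map_mul, Prod.pow_mk, one_pow,
        Prod.mk_mul_mk, mul_one, one_mul]


/-- Let X be a finite group and V a normal subgroup of X in which every element has order dividing the prime p, whose index in X is prime to p and which is its own centralizer in X; so V is an elementary abelian normal Sylow p-subgroup, and any complement G to V in X is a group of order prime to p acting faithfully on the vector space V by conjugation (the coprime linear setting of the k(GV) problem). Let G be a complement to V in X and suppose that for some v in V the centralizer of v in G is abelian. Then the number of conjugacy classes of X is at most the order of V (the abelian-stabilizer criterion for the k(GV) problem). -/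
theorem result {X : Type*} [Group X] [Finite X] (p : ℕ) [Fact p.Prime] (V : Subgroup X) [V.Normal] (hVexp : ∀ v ∈ V, v ^ p = 1) (hidx : ¬ p ∣ V.index) (hself : Subgroup.centralizer (V : Set X) = V) (G : Subgroup X) (hGV : Subgroup.IsComplement' V G) (v : X) (hv : v ∈ V) (hab : ∀ a ∈ G ⊓ Subgroup.centralizer ({v} : Set X), ∀ b ∈ G ⊓ Subgroup.centralizer ({v} : Set X), a * b = b * a) : Nat.card (ConjClasses X) ≤ Nat.card V := by
  classical
  have : Fintype X := Fintype.ofFinite X
  have hp : p.Prime := Fact.out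
  have hVab : ∀ a ∈ V, ∀ b ∈ V, a * b = b * a := fun a ha b hb => by
    have : a ∈ Subgroup.centralizer (V : Set X) := hself.symm ▸ ha
    exact ((Subgroup.mem_centralizer_iff.1 this) b hb).symm
  set C := G ⊓ Subgroup.centralizer ({v} : Set X) with hCdef
  have hCv : ∀ h ∈ C, h * v = v * h := fun h hh => Subgroup.mem_centralizer_singleton_iff.1 hh.2
  letI : CommGroup ↥C :=
    { (inferInstance : Group ↥C) with mul_comm := fun a b => Subtype.ext (hab _ a.2 _ b.2) }
  have hGidx : V.index = Nat.card G := hGV.symm.index_eq_card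
  have hCp : ¬ p ∣ Nat.card C := fun h =>
    hidx (hGidx ▸ h.trans (Subgroup.card_dvd_of_le inf_le_left))
  obtain ⟨P, iP, iP', w, ι, hadm, hker, hwt⟩ :=
    CfsgLib.KGV.exists_weight (evalAll_bound (p := p) hp.pos) p C hab hCp (Nat.card V) V le_rfl
      hVab hVexp (fun h _ y hy => ‹V.Normal›.conj_mem y hy h)
  have hι : Function.Injective ι := by
    rw [injective_iff_map_eq_one]
    intro h hh
    have h1 : (h : X) ∈ Subgroup.centralizer (V : Set X) :=
      Subgroup.mem_centralizer_iff.2 fun y hy => ((hker h).1 hh y hy).symm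
    rw [hself] at h1
    exact Subtype.ext (Subgroup.mem_bot.1 (hGV.disjoint.le_bot ⟨h1, h.2.1⟩))
  have hζ := Complex.isPrimitiveRoot_exp p hp.ne_zero
  set ζ := Complex.exp (2 * Real.pi * Complex.I / (p : ℂ))
  have : NeZero p := ⟨hp.ne_zero⟩
  have hex : ∀ μ : ↥(primitiveRoots p ℂ), ∃ j : ℕ, j.Coprime p ∧ ζ ^ j = (μ : ℂ) := by
    intro μ
    have hμ := (mem_primitiveRoots hp.pos).1 μ.2
    obtain ⟨j, -, hj⟩ := hζ.eq_pow_of_pow_eq_one hμ.pow_eq_one
    exact ⟨j, (hζ.pow_iff_coprime hp.pos j).1 (hj ▸ hμ), hj⟩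
  choose e hecop he using hex
  have hvp : v ^ p = 1 := hVexp v hv
  have hvback : ∀ μ, ∃ m : ℕ, (v ^ e μ) ^ m = v := fun μ =>
    exists_pow_eq_self_of_coprime ((hecop μ).coprime_dvd_right (orderOf_dvd_of_pow_eq_one hvp))
  -- the coefficients of one character
  have hrow : ∀ χ : Cfsg.IrrCharacter X,
      (Fintype.card ↥(primitiveRoots p ℂ) : ℝ) * (Fintype.card ↥C : ℝ) ^ 2 ≤
        ∑ μ, ∑ h : ↥C, w (ι h) * ‖(χ : X → ℂ) (v ^ e μ * (h : X))‖ ^ 2 := by
    intro χ
    let m : ↥(Subgroup.zpowers v) × ↥C →* X :=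
      MonoidHom.noncommCoprod (Subgroup.zpowers v).subtype C.subtype fun a b => by
        obtain ⟨i, hi⟩ := Subgroup.mem_zpowers_iff.1 a.2
        show Commute (a : X) (b : X)
        rw [← hi]
        exact (show Commute v (b : X) from (hCv b b.2).symm).zpow_left i
    have : IsMulCommutative (↥(Subgroup.zpowers v) × ↥C) :=
      ⟨⟨fun a b => Prod.ext (mul_comm' a.1 b.1) (mul_comm a.2 b.2)⟩⟩
    obtain ⟨s, hs⟩ := exists_multiset_irr (isCharacter_comp (isCharacter_coe χ) m)
    choose f hf using fun ψ : Cfsg.IrrCharacter (↥(Subgroup.zpowers v) × ↥C) =>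
      exists_monoidHom_of_map_one_eq_one (isCharacter_coe ψ) (map_one_eq_one_of_isMulCommutative ψ)
    obtain ⟨a, ha, hae⟩ := exists_coeff_of_homs (A := ↥(Subgroup.zpowers v)) (C := ↥C) hp.pos hζ
      ⟨v, Subgroup.mem_zpowers v⟩ (Subtype.ext hvp) e he (s.map f)
    have hval : ∀ μ (h : ↥C), CfsgLib.KGV.evalCoeff a μ h = (χ : X → ℂ) (v ^ e μ * (h : X)) := by
      intro μ h
      rw [hae]
      have h1 := congrFun hs ((⟨v, Subgroup.mem_zpowers v⟩ : ↥(Subgroup.zpowers v)) ^ e μ, h)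
      simp only [Pi.multiset_sum_apply, Multiset.map_map] at h1
      rw [Multiset.map_map]
      refine Eq.trans (congrArg Multiset.sum (Multiset.map_congr rfl fun ψ _ => (hf ψ _).symm)) ?_
      refine h1.symm.trans ?_
      show (χ : X → ℂ) (m _) = _
      simp [m]
    have hne : ∃ φ, a φ ≠ 0 := by
      by_contra hcon
      push_neg at hcon
      obtain ⟨μ₀⟩ : Nonempty ↥(primitiveRoots p ℂ) :=
        ⟨⟨ζ, (mem_primitiveRoots hp.pos).2 hζ⟩⟩
      have h0 := hval μ₀ 1
      rw [Subgroup.coe_one, mul_one, CfsgLib.KGV.evalCoeff, finsum_eq_zero_of_forall_eq_zero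
        fun φ => by rw [hcon φ]; simp] at h0
      exact CfsgLib.Chars.GaloisSum.apply_ne_zero_of_abelian_normal V hVab hp hidx χ
        (V.pow_mem hv _) (k := 1) (by rw [pow_one, ← pow_mul, mul_comm, pow_mul, hvp, one_pow])
        h0.symm
    refine (hadm.comap ι hι a ha hne).trans_eq ?_
    simp only [hval]
  -- the centraliser of `v ^ j * h`
  have hcen : ∀ μ (h : ↥C), Nat.card ↥(Subgroup.centralizer ({v ^ e μ * (h : X)} : Set X)) =
      Nat.card ↥(V ⊓ Subgroup.centralizer {(h : X)}) * Nat.card ↥C := by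
    intro μ h
    set v' := v ^ e μ with hv'
    have hv'p : v' ^ p = 1 := by rw [hv', ← pow_mul, mul_comm, pow_mul, hvp, one_pow]
    have hhC : (h : X) ^ Nat.card C = 1 := congrArg Subtype.val (pow_card_eq_one' (x := h))
    have hcomm : Commute v' (h : X) := Commute.pow_left (hCv h h.2).symm _
    obtain ⟨k, hk1, hk2⟩ := Nat.chineseRemainder (hp.coprime_iff_not_dvd.2 hCp) 1 0
    have hsep : (v' * (h : X)) ^ k = v' := by
      rw [hcomm.mul_pow, pow_eq_pow_iff_modEq.2 (hk1.of_dvd (orderOf_dvd_of_pow_eq_one hv'p)),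
        pow_eq_pow_iff_modEq.2 (hk2.of_dvd (orderOf_dvd_of_pow_eq_one hhC)), pow_one, pow_zero,
        mul_one]
    rw [← Nat.card_prod]
    refine (Nat.card_eq_of_bijective
      (fun z : ↥(V ⊓ Subgroup.centralizer {(h : X)}) × ↥C =>
        (⟨(z.1 : X) * z.2, Subgroup.mem_centralizer_singleton_iff.2 ?_⟩ :
          ↥(Subgroup.centralizer ({v' * (h : X)} : Set X)))) ⟨?_, ?_⟩).symm
    · have a1 : Commute (z.1 : X) v' := hVab _ z.1.2.1 _ (V.pow_mem hv _)
      have a2 : Commute (z.1 : X) (h : X) := Subgroup.mem_centralizer_singleton_iff.1 z.1.2.2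
      have a3 : Commute (z.2 : X) v' := Commute.pow_right (hCv _ z.2.2) _
      have a4 : Commute (z.2 : X) (h : X) := hab _ z.2.2 _ h.2
      exact ((a1.mul_right a2).mul_left (a3.mul_right a4)).eq
    · rintro ⟨⟨u, hu⟩, ⟨g, hg⟩⟩ ⟨⟨u', hu'⟩, ⟨g', hg'⟩⟩ hh
      have := @hGV.1 (⟨u, hu.1⟩, ⟨g, hg.1⟩) (⟨u', hu'.1⟩, ⟨g', hg'.1⟩) (congrArg Subtype.val hh)
      simp only [Prod.mk.injEq, Subtype.mk.injEq] at this ⊢
      exact this
    · rintro ⟨y, hy⟩
      obtain ⟨⟨⟨u, hu⟩, ⟨g, hg⟩⟩, rfl⟩ := hGV.2 y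
      have hy' : Commute (u * g) (v' * (h : X)) := Subgroup.mem_centralizer_singleton_iff.1 hy
      have h1 : Commute (u * g) v' := hsep ▸ hy'.pow_right k
      have h2 : Commute (u * g) (h : X) := by
        have h3 := h1.inv_right.mul_right hy'
        rwa [inv_mul_cancel_left] at h3
      obtain ⟨m, hm⟩ := hvback μ
      have h4 : Commute (u * g) v := hm ▸ h1.pow_right m
      have h5 : Commute g v := by
        have h6 : Commute u v := hVab u hu v hv
        have h7 := h6.inv_left.mul_left h4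
        rwa [inv_mul_cancel_left] at h7
      have hgC : g ∈ C := ⟨hg, Subgroup.mem_centralizer_singleton_iff.2 h5.eq⟩
      have h8 : Commute u (h : X) := by
        have h9 : Commute g (h : X) := hab g hgC _ h.2
        have h10 := h2.mul_left h9.inv_left
        rwa [mul_inv_cancel_right] at h10
      exact ⟨(⟨u, hu, Subgroup.mem_centralizer_singleton_iff.2 h8.eq⟩, ⟨g, hgC⟩), rfl⟩
  -- summing over all characters
  have hsum := Finset.sum_le_sum (s := (Finset.univ : Finset (Cfsg.IrrCharacter X)))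
    fun χ _ => hrow χ
  rw [Finset.sum_const, Finset.card_univ, ← Nat.card_eq_fintype_card, card_irrCharacter,
    nsmul_eq_mul, Finset.sum_comm] at hsum
  have hup : ∑ μ : ↥(primitiveRoots p ℂ), ∑ χ : Cfsg.IrrCharacter X, ∑ h : ↥C,
      w (ι h) * ‖(χ : X → ℂ) (v ^ e μ * (h : X))‖ ^ 2 ≤
      (Fintype.card ↥(primitiveRoots p ℂ) : ℝ) * (Fintype.card ↥C : ℝ) ^ 2 * Nat.card V := by
    refine (Finset.sum_le_card_nsmul _ _ ((Fintype.card ↥C : ℝ) ^ 2 * Nat.card V) fun μ _ => ?_).trans_eq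
      (by rw [nsmul_eq_mul, Finset.card_univ]; ring)
    rw [Finset.sum_comm]
    refine (Finset.sum_le_card_nsmul _ _ ((Fintype.card ↥C : ℝ) * Nat.card V) fun h _ => ?_).trans_eq
      (by rw [nsmul_eq_mul, Finset.card_univ]; ring)
    rw [← Finset.mul_sum, sum_irr_norm_sq, hcen μ h, Nat.cast_mul, ← mul_assoc,
      Nat.card_eq_fintype_card (α := ↥C), mul_comm (Fintype.card ↥C : ℝ) (Nat.card V : ℝ)]
    exact mul_le_mul_of_nonneg_right (hwt h) (Nat.cast_nonneg _)
  have hfin := hsum.trans hup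
  have hpos : (0 : ℝ) < (Fintype.card ↥(primitiveRoots p ℂ) : ℝ) * (Fintype.card ↥C : ℝ) ^ 2 := by
    have h1 : 0 < Fintype.card ↥(primitiveRoots p ℂ) :=
      Fintype.card_pos_iff.2 ⟨⟨ζ, (mem_primitiveRoots hp.pos).2 hζ⟩⟩
    have h2 : 0 < Fintype.card ↥C := Fintype.card_pos
    positivity
  rw [mul_comm ((Nat.card (ConjClasses X) : ℝ))] at hfin
  exact_mod_cast le_of_mul_le_mul_left hfin hpos

end Cfsg.Agent.S4958
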