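import Cfsg.Statements.S4959
import Cfsg.Agent.RealVector.Engine
import Cfsg.Agent.RealVector.Mul
import Cfsg.Agent.RealVector.Misc
import Mathlib.Algebra.Module.ZMod

set_option autoImplicit false
open Cfsg

namespace Cfsg.Agent.S4959

/-- Let X be a finite group and V a normal subgroup of X in which every element has order dividing the prime p, whose index in X is prime to p and which is its own centralizer in X; so V is an elementary abelian normal Sylow p-subgroup, and any complement G to V in X is a group of order prime to p acting faithfully on the vector space V by conjugation (the coprime linear setting of the k(GV) problem). Let G be a complement to V in X, let v be in V and let H be the centralizer of v in G. Suppose there is a subgroup U of V normalized by H, on which H acts faithfully, and carrying an H-invariant bi-additive pairing β with values in the integers modulo p that is nondegenerate on U (equivalently: the restriction of the module V to H has a faithful self-dual submodule; such a v is called a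 real vector for G). Then the number of conjugacy classes of X is at most the order of V (the real-vector criterion for the k(GV) problem). The pairing is given as a function on X whose relevant values are those on pairs from U. -/
theorem result {X : Type*} [Group X] [Finite X] (p : ℕ) [Fact p.Prime] (V : Subgroup X) [V.Normal] (hVexp : ∀ v ∈ V, v ^ p = 1) (hidx : ¬ p ∣ V.index) (hself : Subgroup.centralizer (V : Set X) = V) (G : Subgroup X) (hGV : Subgroup.IsComplement' V G) (v : X) (hv : v ∈ V) (U : Subgroup X) (hUV : U ≤ V) (hUinv : ∀ h ∈ G, h * v * h⁻¹ = v → ∀ u ∈ U, h * u * h⁻¹ ∈ U) (hUfaith : ∀ h ∈ G, h * v * h⁻¹ = v → (∀ u ∈ U, h * u * h⁻¹ = u) → h = 1) (β : X → X → ZMod p) (hβl : ∀ u ∈ U, ∀ u' ∈ U, ∀ w ∈ U, β (u * u') w = β u w + β u' w) (hβr : ∀ u ∈ U, ∀ w ∈ U, ∀ w' ∈ U, β u (w * w') = β u w + β u w') (hβinv : ∀ h ∈ G, h * v * h⁻¹ = v → ∀ u ∈ U, ∀ w ∈ U, β (h * u * h⁻¹) (h * w * h⁻¹) = β u w) (hβnd : ∀ u ∈ U, (∀ w ∈ U, β u w = 0) → u = 1) : Nat.card (ConjClasses X) ≤ Nat.card V := by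
  classical
  have hp : p.Prime := Fact.out
  by_cases hV1 : V = ⊥
  · -- everything is trivial
    have htop : (⊤ : Subgroup X) = ⊥ := by
      refine eq_bot_iff.2 fun x _ => ?_
      have : x ∈ Subgroup.centralizer (V : Set X) := Subgroup.mem_centralizer_iff.2 fun y hy => by
        rw [show y = 1 from Subgroup.mem_bot.1 (hV1 ▸ hy), one_mul, mul_one]
      rwa [hself, hV1] at this
    have : Subsingleton X := ⟨fun a b =>
      (Subgroup.mem_bot.1 (htop ▸ Subgroup.mem_top a : a ∈ (⊥ : Subgroup X))).trans
        (Subgroup.mem_bot.1 (htop ▸ Subgroup.mem_top b : b ∈ (⊥ : Subgroup X))).symm⟩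
    have : Subsingleton (ConjClasses X) := ⟨fun a b => by
      obtain ⟨a, rfl⟩ := ConjClasses.mk_surjective a
      obtain ⟨b, rfl⟩ := ConjClasses.mk_surjective b
      rw [Subsingleton.elim a b]⟩
    rw [Nat.card_unique]
    exact Nat.card_pos
  have hpX : p ∣ Nat.card X := by
    obtain ⟨x, hx, hx1⟩ := V.bot_or_exists_ne_one.resolve_left hV1
    have : orderOf x = p := orderOf_eq_prime (hVexp x hx) hx1
    exact this ▸ orderOf_dvd_natCard x
  have hVab : ∀ a ∈ V, ∀ b ∈ V, a * b = b * a := fun a ha b hb => by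
    have : a ∈ Subgroup.centralizer (V : Set X) := hself.symm ▸ ha
    exact ((Subgroup.mem_centralizer_iff.1 this) b hb).symm
  set C : Subgroup X := G ⊓ Subgroup.centralizer ({v} : Set X) with hC
  have : Fintype ↥C := Fintype.ofFinite _
  have hCv : ∀ h ∈ C, h * v * h⁻¹ = v := fun h hh => by
    rw [Subgroup.mem_centralizer_singleton_iff.1 hh.2, mul_inv_cancel_right]
  have hCp : ¬ p ∣ Nat.card C := fun h =>
    hidx (hGV.symm.index_eq_card ▸ h.trans (Subgroup.card_dvd_of_le inf_le_left))
  have hUn : ∀ h ∈ C, ∀ u ∈ U, h * u * h⁻¹ ∈ U := fun h hh => hUinv h hh.1 (hCv h hh)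
  -- the module
  letI : CommGroup ↥U := { (inferInstance : Group ↥U) with
    mul_comm := fun a b => Subtype.ext (hVab _ (hUV a.2) _ (hUV b.2)) }
  letI : Module (ZMod p) (Additive ↥U) := AddCommGroup.zmodModule (n := p) fun x =>
    Additive.toMul.injective (Subtype.ext (by
      rw [toMul_nsmul, SubmonoidClass.coe_pow]
      exact hVexp _ (hUV (Additive.toMul x).2)))
  let conjEquiv : ↥C → MulAut ↥U := fun h =>
    { toFun := fun x => ⟨(h : X) * x * (h : X)⁻¹, hUn h h.2 _ x.2⟩
      invFun := fun x => ⟨(h : X)⁻¹ * x * (h : X), by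
        simpa using hUn ((h⁻¹ : ↥C) : X) (h⁻¹ : ↥C).2 _ x.2⟩
      left_inv := fun x => Subtype.ext (by simp [mul_assoc])
      right_inv := fun x => Subtype.ext (by simp [mul_assoc])
      map_mul' := fun x y => Subtype.ext (by simp [mul_assoc]) }
  let act : ↥C →* MulAut ↥U :=
    { toFun := conjEquiv
      map_one' := MulEquiv.ext fun x => Subtype.ext (by simp [conjEquiv])
      map_mul' := fun a b => MulEquiv.ext fun x => Subtype.ext (by simp [conjEquiv, mul_assoc]) }
  have hact : ∀ (h : ↥C) (x : ↥U), ((act h x : ↥U) : X) = (h : X) * x * (h : X)⁻¹ := fun _ _ => rfl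
  obtain ⟨M, hM⟩ : ∃ M : Ideal Cfsg.AlgInt, Cfsg.IsPModular p M :=
    CfsgLib.RealVector.exists_modular p
  have hN : 0 < Nat.card X := Nat.card_pos
  have hζ := Complex.isPrimitiveRoot_exp (Nat.card X) hN.ne'
  obtain ⟨δ, hgc, hmem, hone, hnorm, hMδ⟩ := CfsgLib.RealVector.exists_good_mul hN hζ
    (Subgroup.card_subgroup_dvd_card C) hpX hM hCp act (fun x y => β (x : X) (y : X))
    (fun x x' y => hβl _ x.2 _ x'.2 _ y.2) (fun x y y' => hβr _ x.2 _ y.2 _ y'.2)
    (fun h x y => by
      rw [hact, hact]
      exact hβinv h h.2.1 (hCv h h.2) _ x.2 _ y.2)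
    (fun x hx => Subtype.ext (hβnd _ x.2 fun w hw => hx ⟨w, hw⟩))
  have hfix : ∀ h : ↥C, Nat.card {x : ↥U // act h x = x} =
      Nat.card ↥(U ⊓ Subgroup.centralizer ({(h : X)} : Set X)) := fun h =>
    Nat.card_congr
      { toFun := fun x => ⟨(x.1 : X), x.1.2, Subgroup.mem_centralizer_singleton_iff.2
          ((mul_inv_eq_iff_eq_mul.1 ((hact h x.1).symm.trans (congrArg Subtype.val x.2))).symm)⟩
        invFun := fun y => ⟨⟨y, y.2.1⟩, Subtype.ext (by
          rw [hact]
          show (h : X) * y * (h : X)⁻¹ = y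
          rw [← Subgroup.mem_centralizer_singleton_iff.1 y.2.2, mul_inv_cancel_right])⟩
        left_inv := fun _ => rfl
        right_inv := fun _ => rfl }
  refine CfsgLib.RealVector.card_conjClasses_le p V hVexp hidx hself G hGV v hv C hC hζ hM δ hgc
    hmem hone (fun h => ?_) (fun h hh => hMδ h fun heq => hh ?_)
  · refine ⟨(Nat.card U : ℚ) / (Nat.card ↥(U ⊓ Subgroup.centralizer ({(h : X)} : Set X)) : ℚ),
      ?_, ?_⟩
    · have := hnorm h
      rw [hfix] at this
      push_cast
      rw [eq_div_iff (Nat.cast_ne_zero.2 Nat.card_pos.ne'), this]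
    · push_cast
      rw [div_mul_eq_mul_div, div_le_iff₀ (Nat.cast_pos.2 Nat.card_pos)]
      exact_mod_cast CfsgLib.RealVector.card_mul_card_inf_le U V
        (Subgroup.centralizer ({(h : X)} : Set X)) hUV
  · -- faithfulness
    rw [hfix] at heq
    have hle : U ≤ Subgroup.centralizer ({(h : X)} : Set X) :=
      inf_eq_left.1 (Subgroup.eq_of_le_of_card_ge inf_le_left heq.ge)
    refine Subtype.ext (hUfaith h h.2.1 (hCv h h.2) fun u hu => ?_)
    rw [← Subgroup.mem_centralizer_singleton_iff.1 (hle hu), mul_inv_cancel_right]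

end Cfsg.Agent.S4959
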