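import Cfsg.Statements.S4965
import Mathlib

set_option autoImplicit false
open Cfsg

namespace Cfsg.Agent.S4965

/-- Let X be a finite group with an abelian normal subgroup V (any two elements of V commute), and let φ be the action of X ⧸ V on V induced by conjugation (well defined because V is abelian; the hypothesis hφ says that the class of x acts as conjugation by x). Then X has at most as many conjugacy classes as the semidirect product of V by X ⧸ V formed with this action: the split extension has the largest class number among extensions with the given action. -/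
theorem result {X : Type*} [Group X] [Finite X] (V : Subgroup X) [V.Normal] (hab : ∀ a ∈ V, ∀ b ∈ V, a * b = b * a) (φ : X ⧸ V →* MulAut ↥V) (hφ : ∀ (x : X) (v : ↥V), ((φ (QuotientGroup.mk x) v : ↥V) : X) = x * v * x⁻¹) : Nat.card (ConjClasses X) ≤ Nat.card (ConjClasses (SemidirectProduct ↥V (X ⧸ V) φ)) := by
  classical
  haveI : Finite (SemidirectProduct ↥V (X ⧸ V) φ) :=
    Finite.of_equiv _ SemidirectProduct.equivProd.symm
  have hcard : Nat.card (SemidirectProduct ↥V (X ⧸ V) φ) = Nat.card X := by
    rw [Nat.card_congr SemidirectProduct.equivProd, Nat.card_prod,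
      Subgroup.card_eq_card_quotient_mul_card_subgroup V, mul_comm]
  refine Nat.le_of_mul_le_mul_right ?_ (Nat.card_pos (α := X))
  conv_rhs => rw [← hcard]
  rw [← card_comm_eq_card_conjClasses_mul_card, ← card_comm_eq_card_conjClasses_mul_card]
  set P := {p : X × X // Commute p.1 p.2}
  let π : P → (X ⧸ V) × (X ⧸ V) := fun p =>
    (QuotientGroup.mk p.1.1, QuotientGroup.mk p.1.2)
  haveI : Nonempty P := ⟨⟨(1, 1), Commute.one_left 1⟩⟩
  let r : P → P := fun p => Function.invFun π (π p)
  have hr : ∀ p, π (r p) = π p := fun p => Function.invFun_eq ⟨p, rfl⟩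
  have hd1 : ∀ p : P, p.1.1 * (r p).1.1⁻¹ ∈ V := by
    intro p
    have h := congrArg Prod.fst (hr p)
    rw [← QuotientGroup.eq_one_iff, QuotientGroup.mk_mul, QuotientGroup.mk_inv]
    exact mul_inv_eq_one.2 h.symm
  have hd2 : ∀ p : P, p.1.2 * (r p).1.2⁻¹ ∈ V := by
    intro p
    have h := congrArg Prod.snd (hr p)
    rw [← QuotientGroup.eq_one_iff, QuotientGroup.mk_mul, QuotientGroup.mk_inv]
    exact mul_inv_eq_one.2 h.symm
  let Φ : P → {q : SemidirectProduct ↥V (X ⧸ V) φ × SemidirectProduct ↥V (X ⧸ V) φ //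
      Commute q.1 q.2} := fun p =>
    ⟨(⟨⟨_, hd1 p⟩, QuotientGroup.mk p.1.1⟩, ⟨⟨_, hd2 p⟩, QuotientGroup.mk p.1.2⟩), by
      have hp : p.1.1 * p.1.2 = p.1.2 * p.1.1 := p.2
      have hr0 : (r p).1.1 * (r p).1.2 = (r p).1.2 * (r p).1.1 := (r p).2
      refine SemidirectProduct.ext ?_ ?_
      · rw [SemidirectProduct.mul_left, SemidirectProduct.mul_left]
        apply Subtype.ext
        have e1 : (QuotientGroup.mk p.1.1 : X ⧸ V) = QuotientGroup.mk (r p).1.1 :=
          (congrArg Prod.fst (hr p)).symm
        have e2 : (QuotientGroup.mk p.1.2 : X ⧸ V) = QuotientGroup.mk (r p).1.2 :=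
          (congrArg Prod.snd (hr p)).symm
        dsimp only
        rw [e1, e2, Subgroup.coe_mul, Subgroup.coe_mul, hφ, hφ]
        have key : ∀ x y x0 y0 : X,
            x * x0⁻¹ * (x0 * (y * y0⁻¹) * x0⁻¹) = x * y * (x0 * y0)⁻¹ := by
          intros; group
        rw [key, key, hp, hr0]
      · rw [SemidirectProduct.mul_right, SemidirectProduct.mul_right]
        dsimp only
        rw [← QuotientGroup.mk_mul, ← QuotientGroup.mk_mul, hp]⟩
  refine Nat.card_le_card_of_injective Φ ?_
  intro p q h
  have h' := congrArg Subtype.val h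
  have a1 : p.1.1 * (r p).1.1⁻¹ = q.1.1 * (r q).1.1⁻¹ :=
    congrArg (fun z => ((z.1.left : ↥V) : X)) h'
  have a2 : p.1.2 * (r p).1.2⁻¹ = q.1.2 * (r q).1.2⁻¹ :=
    congrArg (fun z => ((z.2.left : ↥V) : X)) h'
  have b1 := congrArg (fun z => z.1.right) h'
  have b2 := congrArg (fun z => z.2.right) h'
  have hπ : π p = π q := Prod.ext b1 b2
  have hrr : r p = r q := congrArg (Function.invFun π) hπ
  rw [hrr] at a1 a2
  exact Subtype.ext (Prod.ext (mul_right_cancel a1) (mul_right_cancel a2))

end Cfsg.Agent.S4965
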