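import Cfsg.Statements.S4966
import Mathlib

set_option autoImplicit false
open Cfsg

namespace Cfsg.Agent.S4966

section
variable {F : Type*} [Field F] {G : Type*} [Group G] {V : Type*} [AddCommGroup V] [Module F V]

/-- A subspace stable under the representation. -/
def Stable (ρ : Representation F G V) (U : Submodule F V) : Prop :=
  ∀ g : G, ∀ u ∈ U, ρ g u ∈ U

theorem rho_inv_apply (ρ : Representation F G V) (g : G) (x : V) : ρ g⁻¹ (ρ g x) = x := by
  rw [← Module.End.mul_apply, ← map_mul, inv_mul_cancel, map_one, Module.End.one_apply]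

theorem rho_apply_inv (ρ : Representation F G V) (g : G) (x : V) : ρ g (ρ g⁻¹ x) = x := by
  rw [← Module.End.mul_apply, ← map_mul, mul_inv_cancel, map_one, Module.End.one_apply]

theorem exists_stable_compl [Finite G] (hcard : (Nat.card G : F) ≠ 0)
    (ρ : Representation F G V) (W T : Submodule F V) (hW : Stable ρ W) (hT : Stable ρ T)
    (hWT : W ≤ T) :
    ∃ D : Submodule F V, D ≤ T ∧ Stable ρ D ∧ W ⊓ D = ⊥ ∧ W ⊔ D = T := by
  have : Fintype G := Fintype.ofFinite G
  obtain ⟨C, hC⟩ := W.exists_isCompl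
  let P : V →ₗ[F] V := W.projection C hC
  let Q : V →ₗ[F] V := (Nat.card G : F)⁻¹ • ∑ g : G, ρ g ∘ₗ P ∘ₗ ρ g⁻¹
  have hQW : ∀ x, Q x ∈ W := by
    intro x
    simp only [Q, LinearMap.smul_apply, LinearMap.sum_apply, LinearMap.comp_apply]
    exact W.smul_mem _ (W.sum_mem fun g _ => hW g _ (Submodule.projection_apply_mem hC _))
  have hQid : ∀ x ∈ W, Q x = x := by
    intro x hx
    simp only [Q, LinearMap.smul_apply, LinearMap.sum_apply, LinearMap.comp_apply]
    have : ∀ g : G, ρ g (P (ρ g⁻¹ x)) = x := fun g => by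
      rw [Submodule.projection_apply_of_mem_left hC (hW _ _ hx), rho_apply_inv]
    rw [Finset.sum_congr rfl fun g _ => this g, Finset.sum_const, Finset.card_univ,
      ← Nat.card_eq_fintype_card, ← Nat.cast_smul_eq_nsmul F, smul_smul,
      inv_mul_cancel₀ hcard, one_smul]
  have hQcomm : ∀ (h : G) x, Q (ρ h x) = ρ h (Q x) := by
    intro h x
    simp only [Q, LinearMap.smul_apply, LinearMap.sum_apply, LinearMap.comp_apply, map_smul,
      map_sum]
    congr 1
    refine Fintype.sum_equiv (Equiv.mulLeft h⁻¹) _ _ fun g => ?_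
    simp only [Equiv.coe_mulLeft, mul_inv_rev, inv_inv, map_mul, Module.End.mul_apply,
      rho_apply_inv]
  refine ⟨T ⊓ LinearMap.ker Q, inf_le_left, fun g u hu => ⟨hT g u hu.1, ?_⟩, ?_, ?_⟩
  · show ρ g u ∈ LinearMap.ker Q
    rw [LinearMap.mem_ker, hQcomm, LinearMap.mem_ker.1 hu.2, map_zero]
  · rw [Submodule.eq_bot_iff]
    rintro x ⟨hxW, -, hxQ⟩
    rw [← hQid x hxW]; exact hxQ
  · refine le_antisymm (sup_le hWT inf_le_left) fun x hx => ?_
    refine Submodule.mem_sup.2 ⟨Q x, hQW x, x - Q x, ⟨T.sub_mem hx (hWT (hQW x)), ?_⟩, by abel⟩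
    show x - Q x ∈ LinearMap.ker Q
    rw [LinearMap.mem_ker, map_sub, hQid _ (hQW x), sub_self]

variable [FiniteDimensional F V]

/-- If no nonzero vector of `S` is killed by all of `M`, every functional on `S` comes from `M`. -/
theorem exists_rep_of_nondeg (M S : Submodule F V) (Φ : V →ₗ[F] V →ₗ[F] F)
    (h : ∀ s ∈ S, (∀ m ∈ M, Φ m s = 0) → s = 0) (f : V →ₗ[F] F) :
    ∃ m ∈ M, ∀ s ∈ S, Φ m s = f s := by
  let Ψ : S →ₗ[F] Module.Dual F M := (Φ.flip.domRestrict S).compr₂ₛₗ (LinearMap.id) |>.flip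
    |>.domRestrict M |>.flip
  have hΨ : ∀ (s : S) (m : M), Ψ s m = Φ m s := fun s m => rfl
  have hinj : Function.Injective Ψ := by
    rw [← LinearMap.ker_eq_bot, LinearMap.ker_eq_bot']
    intro s hs
    exact Subtype.ext (h s s.2 fun m hm => by
      rw [← hΨ s ⟨m, hm⟩, hs, LinearMap.zero_apply])
  obtain ⟨φ, hφ⟩ := LinearMap.dualMap_surjective_of_injective hinj (f.domRestrict S)
  obtain ⟨m, rfl⟩ := (Module.evalEquiv F M).surjective φ
  refine ⟨m, m.2, fun s hs => ?_⟩
  have := LinearMap.congr_fun hφ ⟨s, hs⟩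
  simpa [hΨ] using this

/-- Left nondegeneracy on a subspace gives right nondegeneracy. -/
theorem right_nondeg (T : Submodule F V) (B : LinearMap.BilinForm F V)
    (h : ∀ x ∈ T, (∀ y ∈ T, B x y = 0) → x = 0) :
    ∀ y ∈ T, (∀ x ∈ T, B x y = 0) → y = 0 := by
  intro y hy hy0
  obtain ⟨C, hC⟩ := T.exists_isCompl
  by_contra hne
  obtain ⟨f, hf⟩ : ∃ f : V →ₗ[F] F, f y ≠ 0 := by
    by_contra hcon
    push_neg at hcon
    exact hne ((Module.forall_dual_apply_eq_zero_iff F y).1 hcon)
  obtain ⟨m, hm, hms⟩ := exists_rep_of_nondeg T T B.flip (fun s hs h0 => h s hs h0) f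
  have h2 : ∀ x ∈ T, f x = B x m := fun x hx => (hms x hx).symm
  -- the map `m ↦ B(·, m)` on `T` is onto its dual, hence injective
  let Ψ : T →ₗ[F] Module.Dual F T := (B.flip.domRestrict T).compr₂ₛₗ (LinearMap.id) |>.flip
    |>.domRestrict T |>.flip
  have hsurj : Function.Surjective Ψ := by
    intro φ
    obtain ⟨n, hn, hns⟩ := exists_rep_of_nondeg T T B.flip (fun s hs h0 => h s hs h0)
      (φ ∘ₗ Submodule.projectionOnto T C hC)
    refine ⟨⟨n, hn⟩, LinearMap.ext fun x => ?_⟩
    have h3 := hns x x.2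
    rw [LinearMap.comp_apply, Submodule.projectionOnto_apply_left] at h3
    exact h3
  have hinj : Function.Injective Ψ :=
    (LinearMap.injective_iff_surjective_of_finrank_eq_finrank
      Subspace.dual_finrank_eq.symm).2 hsurj
  have h4 : Ψ ⟨y, hy⟩ = 0 := LinearMap.ext fun x => hy0 x x.2
  exact hne (congrArg Subtype.val (hinj (h4.trans (map_zero Ψ).symm)))

/-- The data produced for a stable subspace `T`. -/
def HasSplit (ρ : Representation F G V) (p : ℕ) (T : Submodule F V) : Prop :=
  ∃ U W : Submodule F V, U ⊓ W = ⊥ ∧ U ⊔ W = T ∧ Stable ρ U ∧ Stable ρ W ∧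
    (∃ A : LinearMap.BilinForm F V, (∀ x : V, A x x = 0) ∧
      (∀ g : G, ∀ x ∈ U, ∀ y ∈ U, A (ρ g x) (ρ g y) = A x y) ∧
      (∀ x ∈ U, (∀ y ∈ U, A x y = 0) → x = 0)) ∧
    (∃ S : LinearMap.BilinForm F V, (∀ x y : V, S x y = S y x) ∧
      (∀ g : G, ∀ x ∈ W, ∀ y ∈ W, S (ρ g x) (ρ g y) = S x y) ∧
      (∀ x ∈ W, (∀ y ∈ W, S x y = 0) → x = 0)) ∧
    (p = 2 → ∀ g : G, ∀ w ∈ W, ρ g w = w)

theorem stable_sup (ρ : Representation F G V) {U U' : Submodule F V} (hU : Stable ρ U)
    (hU' : Stable ρ U') : Stable ρ (U ⊔ U') := by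
  intro g x hx
  obtain ⟨a, ha, b, hb, rfl⟩ := Submodule.mem_sup.1 hx
  rw [map_add]
  exact Submodule.add_mem_sup (hU g a ha) (hU' g b hb)

omit [FiniteDimensional F V] in
theorem stable_bot (ρ : Representation F G V) : Stable ρ ⊥ := by
  intro g x hx
  rw [Submodule.mem_bot] at hx ⊢
  rw [hx, map_zero]

/-- Gluing two forms living on independent stable subspaces. -/
theorem merge_forms (ρ : Representation F G V) (U U' : Submodule F V) (hU : Stable ρ U)
    (hU' : Stable ρ U') (hd : Disjoint U U') (A A' : LinearMap.BilinForm F V)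
    (hA : ∀ g : G, ∀ x ∈ U, ∀ y ∈ U, A (ρ g x) (ρ g y) = A x y)
    (hA' : ∀ g : G, ∀ x ∈ U', ∀ y ∈ U', A' (ρ g x) (ρ g y) = A' x y)
    (hn : ∀ x ∈ U, (∀ y ∈ U, A x y = 0) → x = 0)
    (hn' : ∀ x ∈ U', (∀ y ∈ U', A' x y = 0) → x = 0) :
    ∃ P P' : V →ₗ[F] V,
      (∀ g : G, ∀ x ∈ U ⊔ U', ∀ y ∈ U ⊔ U',
        (A.compl₁₂ P P + A'.compl₁₂ P' P') (ρ g x) (ρ g y)
          = (A.compl₁₂ P P + A'.compl₁₂ P' P') x y) ∧
      (∀ x ∈ U ⊔ U', (∀ y ∈ U ⊔ U', (A.compl₁₂ P P + A'.compl₁₂ P' P') x y = 0) → x = 0) := by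
  obtain ⟨C, hUC, hC⟩ := hd.symm.exists_isCompl
  obtain ⟨C', hU'C, hC'⟩ := hd.exists_isCompl
  have hC2 : IsCompl U C := hC.symm
  have hC2' : IsCompl U' C' := hC'.symm
  let P : V →ₗ[F] V := U.projection C hC2
  let P' : V →ₗ[F] V := U'.projection C' hC2'
  have hP1 : ∀ x ∈ U, P x = x := fun x hx => Submodule.projection_apply_of_mem_left hC2 hx
  have hP2 : ∀ x ∈ U', P x = 0 := fun x hx =>
    (Submodule.projection_apply_eq_zero_iff hC2).2 (hUC hx)
  have hP1' : ∀ x ∈ U', P' x = x := fun x hx => Submodule.projection_apply_of_mem_left hC2' hx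
  have hP2' : ∀ x ∈ U, P' x = 0 := fun x hx =>
    (Submodule.projection_apply_eq_zero_iff hC2').2 (hU'C hx)
  refine ⟨P, P', ?_, ?_⟩
  · intro g x hx y hy
    obtain ⟨a, ha, b, hb, rfl⟩ := Submodule.mem_sup.1 hx
    obtain ⟨c, hc, d, hd', rfl⟩ := Submodule.mem_sup.1 hy
    simp only [LinearMap.add_apply, LinearMap.compl₁₂_apply, map_add, hP1 a ha, hP1 c hc,
      hP2 b hb, hP2 d hd', hP2' a ha, hP2' c hc, hP1' b hb, hP1' d hd', hP1 _ (hU g a ha),
      hP1 _ (hU g c hc), hP2 _ (hU' g b hb), hP2 _ (hU' g d hd'), hP2' _ (hU g a ha),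
      hP2' _ (hU g c hc), hP1' _ (hU' g b hb), hP1' _ (hU' g d hd'), map_zero,
      LinearMap.zero_apply, add_zero, zero_add, hA g a ha c hc, hA' g b hb d hd']
  · intro x hx hx0
    obtain ⟨a, ha, b, hb, rfl⟩ := Submodule.mem_sup.1 hx
    have ha0 : a = 0 := hn a ha fun y hy => by
      have := hx0 y (Submodule.mem_sup_left hy)
      simpa [LinearMap.add_apply, LinearMap.compl₁₂_apply, map_add, hP1 a ha, hP2 b hb,
        hP1 y hy, hP2' y hy, hP2' a ha, hP1' b hb] using this
    have hb0 : b = 0 := hn' b hb fun y hy => by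
      have := hx0 y (Submodule.mem_sup_right hy)
      simpa [LinearMap.add_apply, LinearMap.compl₁₂_apply, map_add, hP1 a ha, hP2 b hb,
        hP2 y hy, hP1' y hy, hP2' a ha, hP1' b hb] using this
    rw [ha0, hb0, add_zero]

theorem HasSplit.sup {ρ : Representation F G V} {p : ℕ} {T T' : Submodule F V}
    (hd : Disjoint T T') (h : HasSplit ρ p T) (h' : HasSplit ρ p T') :
    HasSplit ρ p (T ⊔ T') := by
  obtain ⟨U, W, hUW, rfl, hU, hW, ⟨A, hAa, hAi, hAn⟩, ⟨S, hSs, hSi, hSn⟩, htr⟩ := h
  obtain ⟨U', W', hUW', rfl, hU', hW', ⟨A', hAa', hAi', hAn'⟩, ⟨S', hSs', hSi', hSn'⟩, htr'⟩ := h'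
  obtain ⟨P, P', h1, h2⟩ := merge_forms ρ U U' hU hU'
    (hd.mono le_sup_left le_sup_left) A A' hAi hAi' hAn hAn'
  obtain ⟨Q, Q', h3, h4⟩ := merge_forms ρ W W' hW hW'
    (hd.mono le_sup_right le_sup_right) S S' hSi hSi' hSn hSn'
  refine ⟨U ⊔ U', W ⊔ W', ?_, ?_, stable_sup ρ hU hU', stable_sup ρ hW hW',
    ⟨_, ?_, h1, h2⟩, ⟨_, ?_, h3, h4⟩, ?_⟩
  · rw [Submodule.eq_bot_iff]
    rintro x ⟨hxU, hxW⟩
    obtain ⟨a, ha, b, hb, rfl⟩ := Submodule.mem_sup.1 hxU
    obtain ⟨c, hc, d, hd', hcd⟩ := Submodule.mem_sup.1 hxW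
    have hT : a - c ∈ U ⊔ W := Submodule.sub_mem _
      (Submodule.mem_sup_left ha) (Submodule.mem_sup_right hc)
    have hT' : a - c ∈ U' ⊔ W' := by
      have : a - c = d - b := by rw [sub_eq_sub_iff_add_eq_add, ← hcd, add_comm]
      rw [this]
      exact Submodule.sub_mem _ (Submodule.mem_sup_right hd') (Submodule.mem_sup_left hb)
    have hac : a = c := sub_eq_zero.1 (Submodule.disjoint_def.1 hd _ hT hT')
    have ha0 : a = 0 := by
      have : a ∈ U ⊓ W := ⟨ha, hac ▸ hc⟩
      rwa [hUW, Submodule.mem_bot] at this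
    have hbd : b = d := by
      rw [← hac] at hcd
      exact (add_left_cancel hcd).symm
    have hb0 : b = 0 := by
      have : b ∈ U' ⊓ W' := ⟨hb, hbd ▸ hd'⟩
      rwa [hUW', Submodule.mem_bot] at this
    rw [ha0, hb0, add_zero]
  · rw [sup_sup_sup_comm]
  · intro x
    simp [hAa, hAa']
  · intro x y
    simp only [LinearMap.add_apply, LinearMap.compl₁₂_apply, hSs (Q x), hSs' (Q' x)]
  · intro h2p g w hw
    obtain ⟨a, ha, b, hb, rfl⟩ := Submodule.mem_sup.1 hw
    rw [map_add, htr h2p g a ha, htr' h2p g b hb]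

theorem hasSplit_alt (ρ : Representation F G V) (p : ℕ) {T : Submodule F V} (hT : Stable ρ T)
    (A : LinearMap.BilinForm F V) (h1 : ∀ x : V, A x x = 0)
    (h2 : ∀ g : G, ∀ x ∈ T, ∀ y ∈ T, A (ρ g x) (ρ g y) = A x y)
    (h3 : ∀ x ∈ T, (∀ y ∈ T, A x y = 0) → x = 0) : HasSplit ρ p T := by
  refine ⟨T, ⊥, inf_bot_eq _, sup_bot_eq _, hT, stable_bot ρ, ⟨A, h1, h2, h3⟩,
    ⟨0, fun _ _ => rfl, fun _ _ _ _ _ => rfl, fun x hx _ => (Submodule.mem_bot _).1 hx⟩, ?_⟩
  intro _ g w hw
  rw [(Submodule.mem_bot _).1 hw, map_zero]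

theorem hasSplit_sym (ρ : Representation F G V) (p : ℕ) {T : Submodule F V} (hT : Stable ρ T)
    (S : LinearMap.BilinForm F V) (h1 : ∀ x y : V, S x y = S y x)
    (h2 : ∀ g : G, ∀ x ∈ T, ∀ y ∈ T, S (ρ g x) (ρ g y) = S x y)
    (h3 : ∀ x ∈ T, (∀ y ∈ T, S x y = 0) → x = 0)
    (h4 : p = 2 → ∀ g : G, ∀ w ∈ T, ρ g w = w) : HasSplit ρ p T :=
  ⟨⊥, T, bot_inf_eq _, bot_sup_eq _, stable_bot ρ, hT,
    ⟨0, fun _ => rfl, fun _ _ _ _ _ => rfl, fun x hx _ => (Submodule.mem_bot _).1 hx⟩,
    ⟨S, h1, h2, h3⟩, h4⟩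

theorem hasSplit_of_nondeg [Finite G] (p : ℕ) [CharP F p] (hcard : (Nat.card G : F) ≠ 0)
    (ρ : Representation F G V) (B : LinearMap.BilinForm F V)
    (hBinv : ∀ g : G, ∀ x y : V, B (ρ g x) (ρ g y) = B x y) :
    ∀ (n : ℕ) (T : Submodule F V), Module.finrank F T ≤ n → Stable ρ T →
      (∀ x ∈ T, (∀ y ∈ T, B x y = 0) → x = 0) → HasSplit ρ p T := by
  classical
  intro n
  induction n with
  | zero =>
    intro T hn hT _
    have : T = ⊥ := Submodule.finrank_eq_zero.1 (Nat.le_zero.1 hn)
    subst this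
    exact hasSplit_alt ρ p hT 0 (fun _ => rfl) (fun _ _ _ _ _ => rfl)
      (fun x hx _ => (Submodule.mem_bot _).1 hx)
  | succ n ih =>
    intro T hn hT hnd
    by_cases hbot : T = ⊥
    · subst hbot
      exact hasSplit_alt ρ p hT 0 (fun _ => rfl) (fun _ _ _ _ _ => rfl)
        (fun x hx _ => (Submodule.mem_bot _).1 hx)
    have hndR := right_nondeg T B hnd
    have inv' : ∀ (g : G) x y, B (ρ g x) y = B x (ρ g⁻¹ y) := fun g x y => by
      conv_lhs => rw [← rho_apply_inv ρ g y, hBinv]
    have inv'' : ∀ (g : G) x y, B x (ρ g y) = B (ρ g⁻¹ x) y := fun g x y => by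
      conv_lhs => rw [← rho_apply_inv ρ g x, hBinv]
    -- a simple stable subspace
    obtain ⟨S, ⟨hST, hSst, hS0⟩, hSmin⟩ := WellFounded.has_min (wellFounded_lt)
      {S : Submodule F V | S ≤ T ∧ Stable ρ S ∧ S ≠ ⊥} ⟨T, le_rfl, hT, hbot⟩
    have hsimple : ∀ R : Submodule F V, Stable ρ R → R ≤ S → R = ⊥ ∨ R = S := by
      intro R hR hRS
      by_contra hcon
      push_neg at hcon
      exact hSmin R ⟨hRS.trans hST, hR, hcon.1⟩ (lt_of_le_of_ne hRS hcon.2)
    have hrad : ∀ Φ : LinearMap.BilinForm F V,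
        (∀ g : G, ∀ x ∈ S, ∀ y ∈ S, Φ (ρ g x) (ρ g y) = Φ x y) →
        (∃ x ∈ S, ∃ y ∈ S, Φ x y ≠ 0) → ∀ x ∈ S, (∀ y ∈ S, Φ x y = 0) → x = 0 := by
      intro Φ hΦ ⟨a, ha, b, hb, hab⟩
      let R : Submodule F V :=
        { carrier := {x | x ∈ S ∧ ∀ y ∈ S, Φ x y = 0}
          add_mem' := fun h h' => ⟨S.add_mem h.1 h'.1, fun y hy => by
            rw [map_add, LinearMap.add_apply, h.2 y hy, h'.2 y hy, add_zero]⟩
          zero_mem' := ⟨S.zero_mem, fun y _ => by rw [map_zero, LinearMap.zero_apply]⟩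
          smul_mem' := fun c x h => ⟨S.smul_mem c h.1, fun y hy => by
            rw [map_smul, LinearMap.smul_apply, h.2 y hy, smul_zero]⟩ }
      have hR : Stable ρ R := fun g x hx => ⟨hSst g x hx.1, fun y hy => by
        have := hΦ g x hx.1 (ρ g⁻¹ y) (hSst _ y hy)
        rw [rho_apply_inv] at this
        rw [this]; exact hx.2 _ (hSst _ y hy)⟩
      rcases hsimple R hR (fun x hx => hx.1) with h | h
      · intro x hx hx0
        have : x ∈ R := ⟨hx, hx0⟩
        rwa [h, Submodule.mem_bot] at this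
      · exfalso
        have : a ∈ R := h ▸ ha
        exact hab (this.2 b hb)
    suffices hQ : ∃ Q : Submodule F V, Q ≤ T ∧ Q ≠ ⊥ ∧ Stable ρ Q ∧
        (∀ x ∈ Q, (∀ y ∈ Q, B x y = 0) → x = 0) ∧ HasSplit ρ p Q by
      obtain ⟨Q, hQT, hQ0, hQst, hQnd, hQsplit⟩ := hQ
      let Q' : Submodule F V :=
        { carrier := {x | x ∈ T ∧ ∀ y ∈ Q, B x y = 0}
          add_mem' := fun h h' => ⟨T.add_mem h.1 h'.1, fun y hy => by
            rw [map_add, LinearMap.add_apply, h.2 y hy, h'.2 y hy, add_zero]⟩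
          zero_mem' := ⟨T.zero_mem, fun y _ => by rw [map_zero, LinearMap.zero_apply]⟩
          smul_mem' := fun c x h => ⟨T.smul_mem c h.1, fun y hy => by
            rw [map_smul, LinearMap.smul_apply, h.2 y hy, smul_zero]⟩ }
      have hQ'st : Stable ρ Q' := fun g x hx => ⟨hT g x hx.1, fun y hy => by
        rw [inv']; exact hx.2 _ (hQst _ y hy)⟩
      have hd : Disjoint Q Q' := Submodule.disjoint_def.2 fun x hx hx' => hQnd x hx hx'.2
      have hsum : Q ⊔ Q' = T := by
        refine le_antisymm (sup_le hQT fun x hx => hx.1) fun x hx => ?_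
        obtain ⟨q, hq, hqs⟩ := exists_rep_of_nondeg Q Q B (right_nondeg Q B hQnd) (B x)
        refine Submodule.mem_sup.2 ⟨q, hq, x - q, ⟨T.sub_mem hx (hQT hq), fun y hy => ?_⟩, by abel⟩
        rw [map_sub, LinearMap.sub_apply, hqs y hy, sub_self]
      have hlt : Q' < T := by
        refine lt_of_le_of_ne (fun x hx => hx.1) fun heq => hQ0 ?_
        rw [← disjoint_self]
        exact hd.mono_right (heq ▸ hQT)
      have hnd' : ∀ x ∈ Q', (∀ y ∈ Q', B x y = 0) → x = 0 := by
        intro x hx hx0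
        refine hnd x hx.1 fun y hy => ?_
        rw [← hsum] at hy
        obtain ⟨a, ha, b, hb, rfl⟩ := Submodule.mem_sup.1 hy
        rw [map_add, hx.2 a ha, hx0 b hb, add_zero]
      have hn' : Module.finrank F Q' ≤ n := by
        have := Submodule.finrank_lt_finrank_of_lt hlt
        omega
      rw [← hsum]
      exact hQsplit.sup hd (ih Q' hn' hQ'st hnd')
    by_cases hiso : ∀ x ∈ S, ∀ y ∈ S, B x y = 0
    · -- a totally isotropic simple subspace: form a hyperbolic piece
      let Lp : Submodule F V :=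
        { carrier := {x | x ∈ T ∧ ∀ s ∈ S, B x s = 0}
          add_mem' := fun h h' => ⟨T.add_mem h.1 h'.1, fun y hy => by
            rw [map_add, LinearMap.add_apply, h.2 y hy, h'.2 y hy, add_zero]⟩
          zero_mem' := ⟨T.zero_mem, fun y _ => by rw [map_zero, LinearMap.zero_apply]⟩
          smul_mem' := fun c x h => ⟨T.smul_mem c h.1, fun y hy => by
            rw [map_smul, LinearMap.smul_apply, h.2 y hy, smul_zero]⟩ }
      let R : Submodule F V :=
        { carrier := {x | x ∈ T ∧ ∀ s ∈ S, B s x = 0}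
          add_mem' := fun h h' => ⟨T.add_mem h.1 h'.1, fun y hy => by
            rw [map_add, h.2 y hy, h'.2 y hy, add_zero]⟩
          zero_mem' := ⟨T.zero_mem, fun y _ => by rw [map_zero]⟩
          smul_mem' := fun c x h => ⟨T.smul_mem c h.1, fun y hy => by
            rw [map_smul, h.2 y hy, smul_zero]⟩ }
      have hLst : Stable ρ Lp := fun g x hx => ⟨hT g x hx.1, fun y hy => by
        rw [inv']; exact hx.2 _ (hSst _ y hy)⟩
      have hRst : Stable ρ R := fun g x hx => ⟨hT g x hx.1, fun y hy => by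
        rw [inv'']; exact hx.2 _ (hSst _ y hy)⟩
      obtain ⟨D, hDT, hDst, hDd, hDs⟩ := exists_stable_compl hcard ρ (Lp ⊓ R) T
        (fun g x hx => ⟨hLst g x hx.1, hRst g x hx.2⟩) hT (fun x hx => hx.1.1)
      obtain ⟨C, hCT, hCst, hCL, hCR, hCsum⟩ : ∃ C : Submodule F V, C ≤ T ∧ Stable ρ C ∧
          (∀ x ∈ C, (∀ s ∈ S, B x s = 0) → x = 0) ∧
          (∀ x ∈ C, (∀ s ∈ S, B s x = 0) → x = 0) ∧
          (∀ t ∈ T, ∃ x ∈ C, ∀ s ∈ S, B x s = B t s) := by
        have hzero : ∀ x ∈ D, (∀ s ∈ S, B x s = 0) → (∀ s ∈ S, B s x = 0) → x = 0 := by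
          intro x hx h1 h2
          have : x ∈ (Lp ⊓ R) ⊓ D := ⟨⟨⟨hDT hx, h1⟩, hDT hx, h2⟩, hx⟩
          rwa [hDd, Submodule.mem_bot] at this
        have hdec : ∀ t ∈ T, ∃ x ∈ D, (∀ s ∈ S, B x s = B t s) ∧ (∀ s ∈ S, B s x = B s t) := by
          intro t ht
          rw [← hDs] at ht
          obtain ⟨z, hz, x, hx, rfl⟩ := Submodule.mem_sup.1 ht
          exact ⟨x, hx, fun s hs => by rw [map_add, LinearMap.add_apply, hz.1.2 s hs, zero_add],
            fun s hs => by rw [map_add, hz.2.2 s hs, zero_add]⟩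
        by_cases hLR : (∀ x ∈ Lp, x ∈ R) ∧ (∀ x ∈ R, x ∈ Lp)
        · refine ⟨D, hDT, hDst, fun x hx h1 => hzero x hx h1 ((hLR.1 x ⟨hDT hx, h1⟩).2),
            fun x hx h2 => hzero x hx (hLR.2 x ⟨hDT hx, h2⟩).2 h2, fun t ht => ?_⟩
          obtain ⟨x, hx, h1, -⟩ := hdec t ht
          exact ⟨x, hx, h1⟩
        · let C : Submodule F V :=
            { carrier := {x | x ∈ D ∧ ∀ s ∈ S, B x s = B s x}
              add_mem' := fun h h' => ⟨D.add_mem h.1 h'.1, fun y hy => by
                simp only [map_add, LinearMap.add_apply, h.2 y hy, h'.2 y hy]⟩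
              zero_mem' := ⟨D.zero_mem, fun y _ => by simp⟩
              smul_mem' := fun c x h => ⟨D.smul_mem c h.1, fun y hy => by
                simp only [map_smul, LinearMap.smul_apply, h.2 y hy]⟩ }
          refine ⟨C, fun x hx => hDT hx.1, fun g x hx => ⟨hDst g x hx.1, fun s hs => ?_⟩,
            fun x hx h1 => hzero x hx.1 h1 (fun s hs => (hx.2 s hs).symm.trans (h1 s hs)),
            fun x hx h2 => hzero x hx.1 (fun s hs => (hx.2 s hs).trans (h2 s hs)) h2, ?_⟩
          · exact (inv' g x s).trans ((hx.2 _ (hSst _ s hs)).trans (inv'' g s x).symm)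
          intro t ht
          -- both one-sided pairings of the perpendiculars with `S` are onto
          have key : ∀ (M : Submodule F V) (Φ : LinearMap.BilinForm F V), Stable ρ M →
              (∀ g x y, Φ (ρ g x) y = Φ x (ρ g⁻¹ y)) →
              (∃ m ∈ M, ∃ s ∈ S, Φ m s ≠ 0) → ∃ m ∈ M, ∀ s ∈ S, Φ m s = B t s := by
            intro M Φ hM hΦ ⟨a, ha, b, hb, hab⟩
            refine exists_rep_of_nondeg M S Φ ?_ (B t)
            let K : Submodule F V :=
              { carrier := {x | x ∈ S ∧ ∀ m ∈ M, Φ m x = 0}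
                add_mem' := fun h h' => ⟨S.add_mem h.1 h'.1, fun y hy => by
                  rw [map_add, h.2 y hy, h'.2 y hy, add_zero]⟩
                zero_mem' := ⟨S.zero_mem, fun y _ => by rw [map_zero]⟩
                smul_mem' := fun c x h => ⟨S.smul_mem c h.1, fun y hy => by
                  rw [map_smul, h.2 y hy, smul_zero]⟩ }
            have hK : Stable ρ K := fun g x hx => ⟨hSst g x hx.1, fun m hm => by
              have := hΦ g⁻¹ m x
              rw [inv_inv] at this
              rw [← this]; exact hx.2 _ (hM _ m hm)⟩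
            intro s hs hs0
            rcases hsimple K hK (fun x hx => hx.1) with h | h
            · have : s ∈ K := ⟨hs, hs0⟩
              rwa [h, Submodule.mem_bot] at this
            · exfalso
              have : b ∈ K := h ▸ hb
              exact hab (this.2 a ha)
          -- one proper inclusion forces the other, by counting dimensions
          have hboth : (∃ m ∈ R, ∃ s ∈ S, B m s ≠ 0) ∧ (∃ m ∈ Lp, ∃ s ∈ S, B.flip m s ≠ 0) := by
            have hdim : Module.finrank F Lp = Module.finrank F R := by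
              let f1 : T →ₗ[F] Module.Dual F S :=
                ((B.domRestrict T).flip.domRestrict S).flip
              let f2 : T →ₗ[F] Module.Dual F S :=
                ((B.flip.domRestrict T).flip.domRestrict S).flip
              have hf1 : Function.Surjective f1 := by
                intro φ
                obtain ⟨C₀, hC₀⟩ := S.exists_isCompl
                obtain ⟨m, hm, hms⟩ := exists_rep_of_nondeg T S B
                  (fun s hs h0 => hndR s (hST hs) h0) (φ ∘ₗ Submodule.projectionOnto S C₀ hC₀)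
                refine ⟨⟨m, hm⟩, LinearMap.ext fun s => ?_⟩
                have h3 := hms s s.2
                rw [LinearMap.comp_apply, Submodule.projectionOnto_apply_left] at h3
                exact h3
              have hf2 : Function.Surjective f2 := by
                intro φ
                obtain ⟨C₀, hC₀⟩ := S.exists_isCompl
                obtain ⟨m, hm, hms⟩ := exists_rep_of_nondeg T S B.flip
                  (fun s hs h0 => hnd s (hST hs) h0) (φ ∘ₗ Submodule.projectionOnto S C₀ hC₀)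
                refine ⟨⟨m, hm⟩, LinearMap.ext fun s => ?_⟩
                have h3 := hms s s.2
                rw [LinearMap.comp_apply, Submodule.projectionOnto_apply_left] at h3
                exact h3
              have e1 : (LinearMap.ker f1).map T.subtype = Lp := by
                ext x
                constructor
                · rintro ⟨y, hy, rfl⟩
                  exact ⟨y.2, fun s hs => LinearMap.congr_fun hy ⟨s, hs⟩⟩
                · intro hx
                  exact ⟨⟨x, hx.1⟩, LinearMap.ext fun s => hx.2 s s.2, rfl⟩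
              have e2 : (LinearMap.ker f2).map T.subtype = R := by
                ext x
                constructor
                · rintro ⟨y, hy, rfl⟩
                  exact ⟨y.2, fun s hs => LinearMap.congr_fun hy ⟨s, hs⟩⟩
                · intro hx
                  exact ⟨⟨x, hx.1⟩, LinearMap.ext fun s => hx.2 s s.2, rfl⟩
              have k1 := LinearMap.finrank_range_add_finrank_ker f1
              have k2 := LinearMap.finrank_range_add_finrank_ker f2
              rw [LinearMap.range_eq_top.2 hf1, finrank_top] at k1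
              rw [LinearMap.range_eq_top.2 hf2, finrank_top] at k2
              rw [← e1, ← e2, Submodule.finrank_map_subtype_eq, Submodule.finrank_map_subtype_eq]
              omega
            constructor
            · by_contra hcon
              push_neg at hcon
              have hle : R ≤ Lp := fun x hx => ⟨hx.1, fun s hs => hcon x hx s hs⟩
              have := Submodule.eq_of_le_of_finrank_eq hle hdim.symm
              exact hLR ⟨fun x hx => this ▸ hx, fun x hx => this ▸ hx⟩
            · by_contra hcon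
              push_neg at hcon
              have hle : Lp ≤ R := fun x hx => ⟨hx.1, fun s hs => hcon x hx s hs⟩
              have := Submodule.eq_of_le_of_finrank_eq hle hdim
              exact hLR ⟨fun x hx => this ▸ hx, fun x hx => this ▸ hx⟩
          obtain ⟨r, hr, hrs⟩ := key R B hRst inv' hboth.1
          obtain ⟨l, hl, hls⟩ := key Lp B.flip hLst (fun g x y => inv'' g y x) hboth.2
          obtain ⟨x, hx, hx1, hx2⟩ := hdec (r + l) (T.add_mem hr.1 hl.1)
          have hv1 : ∀ s ∈ S, B x s = B t s := fun s hs => by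
            rw [hx1 s hs, map_add, LinearMap.add_apply, hrs s hs, hl.2 s hs, add_zero]
          have hv2 : ∀ s ∈ S, B s x = B t s := fun s hs => by
            have := hls s hs
            rw [LinearMap.BilinForm.flip_apply] at this
            rw [hx2 s hs, map_add, hr.2 s hs, zero_add, this]
          exact ⟨x, ⟨hx, fun s hs => (hv1 s hs).trans (hv2 s hs).symm⟩, hv1⟩
      have hd : Disjoint S C :=
        Submodule.disjoint_def.2 fun x hx hx' => hCL x hx' fun s hs => hiso x hx s hs
      have hC0 : ∀ s ∈ S, (∀ x ∈ C, B x s = 0) → s = 0 := by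
        intro s hs h0
        refine hndR s (hST hs) fun t ht => ?_
        obtain ⟨x, hx, hxs⟩ := hCsum t ht
        rw [← hxs s hs]; exact h0 x hx
      have hC0' : ∀ s ∈ S, (∀ x ∈ C, B s x = 0) → s = 0 := by
        intro s hs h0
        let K : Submodule F V :=
          { carrier := {z | z ∈ S ∧ ∀ m ∈ C, B z m = 0}
            add_mem' := fun h h' => ⟨S.add_mem h.1 h'.1, fun y hy => by
              rw [map_add, LinearMap.add_apply, h.2 y hy, h'.2 y hy, add_zero]⟩
            zero_mem' := ⟨S.zero_mem, fun y _ => by rw [map_zero, LinearMap.zero_apply]⟩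
            smul_mem' := fun c x h => ⟨S.smul_mem c h.1, fun y hy => by
              rw [map_smul, LinearMap.smul_apply, h.2 y hy, smul_zero]⟩ }
        have hK : Stable ρ K := fun g z hz => ⟨hSst g z hz.1, fun m hm => by
          rw [inv']; exact hz.2 _ (hCst _ m hm)⟩
        rcases hsimple K hK (fun z hz => hz.1) with h | h
        · have : s ∈ K := ⟨hs, h0⟩
          rwa [h, Submodule.mem_bot] at this
        · exfalso
          apply hS0
          have hCbot : ∀ x ∈ C, x = 0 := fun x hx =>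
            hCR x hx fun z hz => (h ▸ hz : z ∈ K).2 x hx
          rw [Submodule.eq_bot_iff]
          intro z hz
          exact hC0 z hz fun x hx => by rw [hCbot x hx, map_zero, LinearMap.zero_apply]
      obtain ⟨C₁, hSC₁, hC₁⟩ := hd.symm.exists_isCompl
      obtain ⟨C₂, hCC₂, hC₂⟩ := hd.exists_isCompl
      let Ps : V →ₗ[F] V := S.projection C₁ hC₁.symm
      let Pc : V →ₗ[F] V := C.projection C₂ hC₂.symm
      have hs1 : ∀ x ∈ S, Ps x = x := fun x hx => Submodule.projection_apply_of_mem_left _ hx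
      have hs2 : ∀ x ∈ C, Ps x = 0 := fun x hx =>
        (Submodule.projection_apply_eq_zero_iff _).2 (hSC₁ hx)
      have hc1 : ∀ x ∈ C, Pc x = x := fun x hx => Submodule.projection_apply_of_mem_left _ hx
      have hc2 : ∀ x ∈ S, Pc x = 0 := fun x hx =>
        (Submodule.projection_apply_eq_zero_iff _).2 (hCC₂ hx)
      refine ⟨S ⊔ C, sup_le hST hCT, ?_, stable_sup ρ hSst hCst, ?_, ?_⟩
      · exact fun h => hS0 (le_bot_iff.1 (h ▸ le_sup_left))
      · intro x hx hx0
        obtain ⟨s, hs, c, hc, rfl⟩ := Submodule.mem_sup.1 hx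
        have hc0 : c = 0 := hCL c hc fun z hz => by
          have := hx0 z (Submodule.mem_sup_left hz)
          rwa [map_add, LinearMap.add_apply, hiso s hs z hz, zero_add] at this
        subst hc0
        rw [add_zero] at hx0 ⊢
        exact hC0' s hs fun z hz => hx0 z (Submodule.mem_sup_right hz)
      · refine hasSplit_alt ρ p (stable_sup ρ hSst hCst) (B.compl₁₂ Pc Ps - (B.compl₁₂ Pc Ps).flip)
          (fun x => sub_self _) ?_ ?_
        · intro g x hx y hy
          obtain ⟨a, ha, b, hb, rfl⟩ := Submodule.mem_sup.1 hx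
          obtain ⟨c, hc, d, hd', rfl⟩ := Submodule.mem_sup.1 hy
          simp only [LinearMap.sub_apply, LinearMap.flip_apply, LinearMap.compl₁₂_apply, map_add,
            LinearMap.add_apply, hs1 a ha, hs1 c hc, hs2 b hb, hs2 d hd', hc2 a ha, hc2 c hc,
            hc1 b hb, hc1 d hd', hs1 _ (hSst g a ha), hs1 _ (hSst g c hc), hs2 _ (hCst g b hb),
            hs2 _ (hCst g d hd'), hc2 _ (hSst g a ha), hc2 _ (hSst g c hc), hc1 _ (hCst g b hb),
            hc1 _ (hCst g d hd'), map_zero, LinearMap.zero_apply, add_zero, zero_add, hBinv]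
        · intro x hx hx0
          obtain ⟨a, ha, b, hb, rfl⟩ := Submodule.mem_sup.1 hx
          have hb0 : b = 0 := hCL b hb fun z hz => by
            have := hx0 z (Submodule.mem_sup_left hz)
            simpa [hs1 a ha, hs2 b hb, hc2 a ha, hc1 b hb, hs1 z hz, hc2 z hz] using this
          have ha0 : a = 0 := hC0 a ha fun z hz => by
            have := hx0 z (Submodule.mem_sup_right hz)
            simpa [hs1 a ha, hs2 b hb, hc2 a ha, hc1 b hb, hs2 z hz, hc1 z hz] using this
          rw [ha0, hb0, add_zero]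
    · -- the form is already nondegenerate on `S`
      push_neg at hiso
      obtain ⟨C₀, hC₀⟩ := S.exists_isCompl
      let P : V →ₗ[F] V := S.projection C₀ hC₀
      have hP1 : ∀ x ∈ S, P x = x := fun x hx => Submodule.projection_apply_of_mem_left _ hx
      have hPm : ∀ x, P x ∈ S := fun x => Submodule.projection_apply_mem hC₀ x
      have hBi : ∀ g : G, ∀ x ∈ S, ∀ y ∈ S,
          (B.compl₁₂ P P) (ρ g x) (ρ g y) = (B.compl₁₂ P P) x y := by
        intro g x hx y hy
        simp only [LinearMap.compl₁₂_apply, hP1 x hx, hP1 y hy, hP1 _ (hSst g x hx),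
          hP1 _ (hSst g y hy), hBinv]
      have hBS : ∀ x ∈ S, (∀ y ∈ S, B x y = 0) → x = 0 :=
        hrad B (fun g x _ y _ => hBinv g x y) hiso
      have hBP : ∀ x ∈ S, (∀ y ∈ S, (B.compl₁₂ P P) x y = 0) → x = 0 := by
        intro x hx h0
        refine hBS x hx fun y hy => ?_
        simpa [LinearMap.compl₁₂_apply, hP1 x hx, hP1 y hy] using h0 y hy
      refine ⟨S, hST, hS0, hSst, hBS, ?_⟩
      by_cases halt : ∀ x ∈ S, B x x = 0
      · exact hasSplit_alt ρ p hSst (B.compl₁₂ P P) (fun x => halt _ (hPm x)) hBi hBP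
      by_cases hsym : ∀ x ∈ S, ∀ y ∈ S, B x y = B y x
      · refine hasSplit_sym ρ p hSst (B.compl₁₂ P P)
          (fun x y => hsym _ (hPm x) _ (hPm y)) hBi hBP ?_
        intro hp2 g w hw
        subst hp2
        have h2 : (2 : F) = 0 := by exact_mod_cast CharP.cast_eq_zero F 2
        let K : Submodule F V :=
          { carrier := {x | x ∈ S ∧ B x x = 0}
            add_mem' := fun {x y} h h' => ⟨S.add_mem h.1 h'.1, by
              simp only [map_add, LinearMap.add_apply, h.2, h'.2, hsym y h'.1 x h.1]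
              linear_combination (B x y) * h2⟩
            zero_mem' := ⟨S.zero_mem, by simp⟩
            smul_mem' := fun c x h => ⟨S.smul_mem c h.1, by simp [h.2]⟩ }
        have hK : Stable ρ K := fun g x hx => ⟨hSst g x hx.1, by rw [hBinv]; exact hx.2⟩
        rcases hsimple K hK (fun x hx => hx.1) with h | h
        · have hmem : ρ g w - w ∈ K := by
            refine ⟨S.sub_mem (hSst g w hw) hw, ?_⟩
            simp only [map_sub, LinearMap.sub_apply, hBinv, hsym w hw _ (hSst g w hw)]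
            linear_combination (B w w - B (ρ g w) w) * h2
          rw [h, Submodule.mem_bot, sub_eq_zero] at hmem
          exact hmem
        · exact absurd (fun x hx => ((h ▸ hx) : x ∈ K).2) halt
      · push_neg at hsym
        obtain ⟨a, ha, b, hb, hab⟩ := hsym
        refine hasSplit_alt ρ p hSst (B - B.flip) (fun x => sub_self _) ?_
          (hrad (B - B.flip) ?_ ⟨a, ha, b, hb, ?_⟩)
        · intro g x _ y _
          simp [hBinv]
        · intro g x _ y _
          simp [hBinv]
        · simpa [sub_eq_zero] using hab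

end

/-- Let F be a finite field of characteristic p, G a finite group of order prime to p, and V a finite-dimensional representation of G over F carrying a nondegenerate G-invariant bilinear form (equivalently, V is self-dual). Then V is the direct sum of two G-invariant subspaces U and W such that U carries a G-invariant alternating bilinear form that is nondegenerate on U and W carries a G-invariant symmetric bilinear form that is nondegenerate on W; moreover when p = 2 the decomposition can be chosen with G acting trivially on W. -/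
theorem result {F : Type*} [Field F] [Fintype F] (p : ℕ) [Fact p.Prime] [CharP F p] {G : Type*} [Group G] [Finite G] (hcop : ¬ p ∣ Nat.card G) {V : Type*} [AddCommGroup V] [Module F V] [FiniteDimensional F V] (ρ : Representation F G V) (B : LinearMap.BilinForm F V) (hB : B.Nondegenerate) (hBinv : ∀ g : G, ∀ x y : V, B (ρ g x) (ρ g y) = B x y) : ∃ U W : Submodule F V, IsCompl U W ∧ (∀ g : G, ∀ u ∈ U, ρ g u ∈ U) ∧ (∀ g : G, ∀ w ∈ W, ρ g w ∈ W) ∧ (∃ A : LinearMap.BilinForm F V, (∀ x : V, A x x = 0) ∧ (∀ g : G, ∀ x ∈ U, ∀ y ∈ U, A (ρ g x) (ρ g y) = A x y) ∧ (∀ x ∈ U, (∀ y ∈ U, A x y = 0) → x = 0)) ∧ (∃ S : LinearMap.BilinForm F V, (∀ x y : V, S x y = S y x) ∧ (∀ g : G, ∀ x ∈ W, ∀ y ∈ W, S (ρ g x) (ρ g y) = S x y) ∧ (∀ x ∈ W, (∀ y ∈ W, S x y = 0) → x = 0)) ∧ (p = 2 → ∀ g : G, ∀ w ∈ W, ρ g w = w) := by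
  have hcard : (Nat.card G : F) ≠ 0 := by
    rwa [Ne, CharP.cast_eq_zero_iff F p]
  obtain ⟨U, W, h1, h2, hU, hW, hA, hS, htr⟩ := hasSplit_of_nondeg p hcard ρ B hBinv
    (Module.finrank F (⊤ : Submodule F V)) ⊤ le_rfl (fun _ _ _ => Submodule.mem_top)
    (fun x _ hx => hB.1 x fun y => hx y Submodule.mem_top)
  exact ⟨U, W, IsCompl.of_eq h1 h2, hU, hW, hA, hS, htr⟩

end Cfsg.Agent.S4966
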