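import Cfsg.Statements.S4967
import Mathlib

set_option autoImplicit false
open Cfsg

namespace Cfsg.Agent.S4967

section
variable {F : Type*} [Field F] {H : Type*} [CommGroup H] {V : Type*} [AddCommGroup V] [Module F V]

/-- The algebra of endomorphisms generated by the acting group. -/
abbrev envAlg (ρ : Representation F H V) : Subalgebra F (Module.End F V) :=
  Algebra.adjoin F (Set.range ρ)

/-- A generator of `envAlg`. -/
def gen (ρ : Representation F H V) (h : H) : envAlg ρ :=
  ⟨ρ h, Algebra.subset_adjoin ⟨h, rfl⟩⟩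

theorem env_comm_gen (ρ : Representation F H V) (e : envAlg ρ) (h : H) :
    (e : Module.End F V) * ρ h = ρ h * e := by
  refine (Algebra.commute_of_mem_adjoin_of_forall_mem_commute e.2 ?_).eq.symm
  rintro _ ⟨k, rfl⟩
  show ρ h * ρ k = ρ k * ρ h
  rw [← map_mul, ← map_mul, mul_comm]

theorem env_comm (ρ : Representation F H V) (e f : envAlg ρ) : e * f = f * e := by
  apply Subtype.ext
  refine (Algebra.commute_of_mem_adjoin_of_forall_mem_commute f.2 ?_).eq
  rintro _ ⟨k, rfl⟩
  exact env_comm_gen ρ e k

end

/-- Let F be a finite field with r elements and of characteristic p, H a finite abelian group of order prime to p, and V a faithful irreducible representation of H over F of dimension n (faithful: distinct elements act differently; irreducible: the only H-invariant subspaces are 0 and V). Call V self-dual when it carries a nondegenerate H-invariant bilinear form. If n = 1 and V is self-dual then H has order at most 2. If n ≥ 2 then V is self-dual if and only if n is even and the order of H divides r^(n/2) + 1. -/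
theorem result {F : Type*} [Field F] [Fintype F] (p : ℕ) [Fact p.Prime] [CharP F p] {H : Type*} [CommGroup H] [Finite H] (hcop : ¬ p ∣ Nat.card H) {V : Type*} [AddCommGroup V] [Module F V] [FiniteDimensional F V] (ρ : Representation F H V) (hfaith : Function.Injective ρ) (hirr : ∀ U : Submodule F V, (∀ h : H, ∀ u ∈ U, ρ h u ∈ U) → U = ⊥ ∨ U = ⊤) : (Module.finrank F V = 1 → (∃ B : LinearMap.BilinForm F V, B.Nondegenerate ∧ ∀ h : H, ∀ x y : V, B (ρ h x) (ρ h y) = B x y) → Nat.card H ≤ 2) ∧ (2 ≤ Module.finrank F V → ((∃ B : LinearMap.BilinForm F V, B.Nondegenerate ∧ ∀ h : H, ∀ x y : V, B (ρ h x) (ρ h y) = B x y) ↔ (Even (Module.finrank F V) ∧ Nat.card H ∣ Fintype.card F ^ (Module.finrank F V / 2) + 1))) := by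
  classical
  rcases eq_or_ne (Module.finrank F V) 0 with h0 | h0
  · exact ⟨fun h => by omega, fun h => by omega⟩
  have : Nontrivial V := Module.nontrivial_of_finrank_pos (Nat.pos_of_ne_zero h0)
  obtain ⟨v, hv⟩ := exists_ne (0 : V)
  -- the algebra generated by the group
  let _ : CommRing ↥(envAlg ρ) := { (inferInstance : Ring ↥(envAlg ρ)) with mul_comm := env_comm ρ }
  have hinj : ∀ e : envAlg ρ, e ≠ 0 → Function.Injective (e : Module.End F V) := by
    intro e he
    rw [← LinearMap.ker_eq_bot]
    rcases hirr (LinearMap.ker (e : Module.End F V)) (fun h u hu => by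
      rw [LinearMap.mem_ker, ← Module.End.mul_apply, env_comm_gen, Module.End.mul_apply,
        LinearMap.mem_ker.1 hu, map_zero]) with h | h
    · exact h
    · exact absurd (Subtype.ext (LinearMap.ker_eq_top.1 h)) he
  have : NoZeroDivisors ↥(envAlg ρ) := ⟨fun {a b} hab => by
    by_contra hcon
    push_neg at hcon
    apply hv
    have : (a : Module.End F V) ((b : Module.End F V) v) = 0 := by
      rw [← Module.End.mul_apply, ← Subalgebra.coe_mul, hab]; rfl
    exact hinj b hcon.2 ((hinj a hcon.1 (this.trans (map_zero _).symm)).trans (map_zero _).symm)⟩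
  have : Nontrivial ↥(envAlg ρ) := ⟨0, 1, fun h => hv <| by
    have := LinearMap.congr_fun (congrArg Subtype.val h) v
    exact this.symm⟩
  have : IsDomain ↥(envAlg ρ) := NoZeroDivisors.to_isDomain _
  have : Finite ↥(envAlg ρ) := by
    have : Finite V := Module.finite_of_finite F
    have : Finite (V → V) := inferInstance
    exact Finite.of_injective (fun e : envAlg ρ => ((e : Module.End F V) : V → V))
      fun a b h => Subtype.ext (DFunLike.coe_injective h)
  let _ : Field ↥(envAlg ρ) := (Finite.isField_of_domain ↥(envAlg ρ)).toField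
  -- evaluation at `v` identifies the algebra with the module
  let ev : envAlg ρ →ₗ[F] V :=
    { toFun := fun e => (e : Module.End F V) v
      map_add' := fun _ _ => rfl
      map_smul' := fun _ _ => rfl }
  have hev : Function.Bijective ev := by
    constructor
    · rw [← LinearMap.ker_eq_bot, LinearMap.ker_eq_bot']
      intro e he
      by_contra hne
      exact hv (hinj e hne (he.trans (map_zero _).symm))
    · rw [← LinearMap.range_eq_top]
      rcases hirr (LinearMap.range ev) (fun h u hu => by
        obtain ⟨e, rfl⟩ := hu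
        exact ⟨gen ρ h * e, rfl⟩) with h | h
      · exact absurd ((Submodule.eq_bot_iff _).1 h v ⟨1, rfl⟩) hv
      · exact h
  let eV := LinearEquiv.ofBijective ev hev
  have hn : Module.finrank F ↥(envAlg ρ) = Module.finrank F V := eV.finrank_eq
  -- the group sits in the multiplicative group of the field
  let ι : H →* ↥(envAlg ρ) :=
    { toFun := gen ρ
      map_one' := Subtype.ext (map_one ρ)
      map_mul' := fun a b => Subtype.ext (map_mul ρ a b) }
  have hι : Function.Injective ι := fun a b h => hfaith (congrArg Subtype.val h)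
  have hcyc : IsCyclic H := isCyclic_of_subgroup_isDomain ι hι
  have hgen : ∀ e₁ e₂ : ↥(envAlg ρ) →ₐ[F] ↥(envAlg ρ), (∀ h, e₁ (ι h) = e₂ (ι h)) → e₁ = e₂ := by
    intro e₁ e₂ h
    refine AlgHom.ext fun e => ?_
    obtain ⟨e, he⟩ := e
    induction he using Algebra.adjoin_induction with
    | mem x hx => obtain ⟨k, rfl⟩ := hx; exact h k
    | algebraMap r => exact (e₁.commutes r).trans (e₂.commutes r).symm
    | add x y hx hy ihx ihy =>
      show e₁ (⟨x, hx⟩ + ⟨y, hy⟩) = e₂ (⟨x, hx⟩ + ⟨y, hy⟩)
      rw [map_add, map_add, ihx, ihy]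
    | mul x y hx hy ihx ihy =>
      show e₁ (⟨x, hx⟩ * ⟨y, hy⟩) = e₂ (⟨x, hx⟩ * ⟨y, hy⟩)
      rw [map_mul, map_mul, ihx, ihy]
  -- an invariant form gives an automorphism inverting the group
  have hfwd : (∃ B : LinearMap.BilinForm F V, B.Nondegenerate ∧
      ∀ h : H, ∀ x y : V, B (ρ h x) (ρ h y) = B x y) →
      ∃ σ : ↥(envAlg ρ) →ₐ[F] ↥(envAlg ρ), ∀ h, σ (ι h) = ι h⁻¹ := by
    rintro ⟨B, hB, hBinv⟩
    have hadj : ∀ e : envAlg ρ, ∃ e' : envAlg ρ, ∀ x y,
        B ((e : Module.End F V) x) y = B x ((e' : Module.End F V) y) := by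
      rintro ⟨e, he⟩
      induction he using Algebra.adjoin_induction with
      | mem x hx =>
        obtain ⟨k, rfl⟩ := hx
        refine ⟨ι k⁻¹, fun a b => ?_⟩
        show B (ρ k a) b = B a (ρ k⁻¹ b)
        conv_rhs => rw [← hBinv k, ← Module.End.mul_apply, ← map_mul, mul_inv_cancel, map_one,
          Module.End.one_apply]
      | algebraMap r => exact ⟨algebraMap F _ r, fun a b => by simp [Algebra.algebraMap_eq_smul_one]⟩
      | add x y hx hy ihx ihy =>
        obtain ⟨x', hx'⟩ := ihx
        obtain ⟨y', hy'⟩ := ihy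
        exact ⟨x' + y', fun a b => by simp [hx' a b, hy' a b]⟩
      | mul x y hx hy ihx ihy =>
        obtain ⟨x', hx'⟩ := ihx
        obtain ⟨y', hy'⟩ := ihy
        refine ⟨y' * x', fun a b => ?_⟩
        show B (x (y a)) b = B a ((y' : Module.End F V) ((x' : Module.End F V) b))
        rw [hx' (y a) b, hy']
    choose σ hσ using hadj
    have huniq : ∀ e f : envAlg ρ, (∀ x y, B ((e : Module.End F V) x) y =
        B x ((f : Module.End F V) y)) → σ e = f := by
      intro e f h
      refine Subtype.ext (LinearMap.ext fun y => ?_)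
      rw [← sub_eq_zero]
      refine hB.2 _ fun x => ?_
      rw [map_sub, ← hσ e x y, h x y, sub_self]
    refine ⟨
      { toFun := σ
        map_one' := huniq 1 1 fun _ _ => rfl
        map_zero' := huniq 0 0 fun x y => by simp
        map_add' := fun a b => huniq _ _ fun x y => by simp [hσ a x y, hσ b x y]
        map_mul' := fun a b => huniq _ _ fun x y => by
          rw [mul_comm (σ a) (σ b)]
          show B ((a : Module.End F V) ((b : Module.End F V) x)) y
            = B x ((σ b : Module.End F V) ((σ a : Module.End F V) y))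
          rw [hσ a, hσ b]
        commutes' := fun r => huniq _ _ fun x y => by simp [Algebra.algebraMap_eq_smul_one] },
      fun h => huniq _ _ fun a b => ?_⟩
    show B (ρ h a) b = B a (ρ h⁻¹ b)
    conv_rhs => rw [← hBinv h, ← Module.End.mul_apply, ← map_mul, mul_inv_cancel, map_one,
      Module.End.one_apply]
  constructor
  · intro h1 hsd
    obtain ⟨σ, hσ⟩ := hfwd hsd
    have hfix : ∀ e : envAlg ρ, σ e = e := by
      intro e
      obtain ⟨c, hc⟩ := (finrank_eq_one_iff_of_nonzero' (1 : envAlg ρ) one_ne_zero).1
        (hn.trans h1) e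
      rw [← hc, map_smul, map_one]
    have hpm : ∀ h, ι h = 1 ∨ ι h = -1 := fun h => mul_self_eq_one_iff.1 (by
      conv_lhs => arg 2; rw [← hfix (ι h), hσ]
      rw [← map_mul, mul_inv_cancel, map_one])
    calc Nat.card H ≤ Nat.card ({1, -1} : Set ↥(envAlg ρ)) :=
          Nat.card_le_card_of_injective (fun h => ⟨ι h, hpm h⟩)
            fun a b h => hι (congrArg Subtype.val h)
      _ ≤ 2 := by
          rw [Nat.card_coe_set_eq]
          exact (Set.ncard_insert_le _ _).trans (by rw [Set.ncard_singleton])
  intro h2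
  constructor
  · intro hsd
    obtain ⟨σ, hσ⟩ := hfwd hsd
    have hσσ : ∀ e, σ (σ e) = e := fun e => by
      have := hgen (σ.comp σ) (AlgHom.id F _) fun h => by
        simp only [AlgHom.comp_apply, hσ, inv_inv, AlgHom.id_apply]
      exact AlgHom.congr_fun this e
    obtain ⟨⟨j, hjlt⟩, hj⟩ := (FiniteField.bijective_frobeniusAlgHom_pow F ↥(envAlg ρ)).2 σ
    simp only at hj
    have hfrob : ∀ (i : ℕ) (e : envAlg ρ),
        (FiniteField.frobeniusAlgHom F ↥(envAlg ρ) ^ i) e = e ^ (Fintype.card F ^ i) := by
      intro i e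
      rw [AlgHom.coe_pow, FiniteField.coe_frobeniusAlgHom, pow_iterate]
    have hdvd : Module.finrank F ↥(envAlg ρ) ∣ 2 * j := by
      rw [← FiniteField.orderOf_frobeniusAlgHom F ↥(envAlg ρ)]
      refine orderOf_dvd_of_pow_eq_one ?_
      rw [two_mul, pow_add, hj]
      exact AlgHom.ext hσσ
    have hj0 : j ≠ 0 := by
      intro hj0
      rw [hj0, pow_zero] at hj
      -- then every element of the group is a scalar
      have hbot : ∀ e : envAlg ρ, e ∈ (⊥ : Subalgebra F ↥(envAlg ρ)) := by
        rintro ⟨e, he⟩
        induction he using Algebra.adjoin_induction with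
        | mem x hx =>
          obtain ⟨k, rfl⟩ := hx
          have h1 : ι k * ι k = 1 := by
            conv_lhs => arg 2; rw [show ι k = σ (ι k) by rw [← hj]; rfl, hσ]
            rw [← map_mul, mul_inv_cancel, map_one]
          rcases mul_self_eq_one_iff.1 h1 with h | h
          · show ι k ∈ _
            rw [h]; exact Subalgebra.one_mem _
          · show ι k ∈ _
            rw [h]; exact Subalgebra.neg_mem _ (Subalgebra.one_mem _)
        | algebraMap r => exact Subalgebra.algebraMap_mem _ r
        | add x y hx hy ihx ihy => exact Subalgebra.add_mem _ ihx ihy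
        | mul x y hx hy ihx ihy => exact Subalgebra.mul_mem _ ihx ihy
      have : Module.finrank F ↥(envAlg ρ) = 1 := by
        rw [← Subalgebra.bot_eq_top_iff_finrank_eq_one]
        exact le_antisymm bot_le fun e _ => hbot e
      omega
    obtain ⟨c, hc⟩ := hdvd
    have hn2 : Module.finrank F ↥(envAlg ρ) = 2 * j := by
      have : c = 1 := by
        rcases Nat.lt_or_ge c 2 with h | h
        · rcases Nat.eq_zero_or_pos c with h' | h'
          · subst h'; omega
          · omega
        · have : Module.finrank F ↥(envAlg ρ) * 2 ≤ Module.finrank F ↥(envAlg ρ) * c :=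
            Nat.mul_le_mul_left _ h
          omega
      subst this; omega
    refine ⟨⟨j, by omega⟩, ?_⟩
    rw [← IsCyclic.exponent_eq_card, show Module.finrank F V / 2 = j by omega]
    refine Monoid.exponent_dvd_of_forall_pow_eq_one fun h => hι ?_
    rw [pow_succ, map_mul, map_pow, ← hfrob, hj, hσ, ← map_mul, inv_mul_cancel]
  · rintro ⟨⟨k, hk⟩, hdvd⟩
    rw [show Module.finrank F V / 2 = k by omega] at hdvd
    let σ := FiniteField.frobeniusAlgHom F ↥(envAlg ρ) ^ k
    have hσ : ∀ h, σ (ι h) = ι h⁻¹ := by
      intro h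
      show (FiniteField.frobeniusAlgHom F ↥(envAlg ρ) ^ k) (ι h) = _
      rw [AlgHom.coe_pow, FiniteField.coe_frobeniusAlgHom, pow_iterate]
      dsimp only
      rw [← map_pow]
      congr 1
      obtain ⟨c, hc⟩ := hdvd
      apply eq_inv_of_mul_eq_one_left
      rw [← pow_succ, hc, pow_mul, pow_card_eq_one', one_pow]
    let T := Algebra.traceForm F ↥(envAlg ρ)
    refine ⟨T.compl₁₂ eV.symm.toLinearMap (σ.toLinearMap ∘ₗ eV.symm.toLinearMap), ⟨?_, ?_⟩, ?_⟩
    · intro x hx
      have : eV.symm x = 0 := (traceForm_nondegenerate F ↥(envAlg ρ)).1 _ fun e => by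
        obtain ⟨e', rfl⟩ := (Finite.injective_iff_surjective.1 (RingHom.injective σ.toRingHom)) e
        have := hx (eV e')
        simpa [T] using this
      simpa using this
    · intro y hy
      have : σ (eV.symm y) = 0 := (traceForm_nondegenerate F ↥(envAlg ρ)).2 _ fun e => by
        have := hy (eV e)
        simpa [T] using this
      have h' : eV.symm y = 0 := RingHom.injective σ.toRingHom (this.trans (map_zero σ).symm)
      simpa using h'
    · intro h x y
      have hsymm : ∀ z, eV.symm (ρ h z) = ι h * eV.symm z := fun z => by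
        apply eV.injective
        rw [LinearEquiv.apply_symm_apply]
        conv_lhs => rw [← eV.apply_symm_apply z]
        rfl
      show Algebra.traceForm F ↥(envAlg ρ) (eV.symm (ρ h x)) (σ (eV.symm (ρ h y)))
        = Algebra.traceForm F ↥(envAlg ρ) (eV.symm x) (σ (eV.symm y))
      rw [hsymm, hsymm, Algebra.traceForm_apply, Algebra.traceForm_apply, map_mul σ, hσ]
      congr 1
      rw [mul_mul_mul_comm, ← map_mul, mul_inv_cancel, map_one, one_mul]

end Cfsg.Agent.S4967
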