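import Cfsg.Statements.S5005
import Cfsg.Agent.Blocks.SingleBlock.MathieuChars
import Cfsg.Agent.Mathieu.Small
import Cfsg.Agent.Eq.Def_Spor_Mathieu

set_option autoImplicit false
set_option linter.style.haveILetI false
open Cfsg

namespace Cfsg.Agent.S5005

open CfsgLib CfsgLib.Chars CfsgLib.Golay CfsgLib.Mathieu CfsgLib.Blocks.SingleBlock

theorem m22_le : Cfsg.Spor.M22 ≤ Cfsg.M24 := fun _ h => h.1.1

theorem octPointFix_le {t : Equiv.Perm GolayPt} (ht : t ∈ Cfsg.Spor.M22) :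
    octPointFix (fixedPts t) ≤ Cfsg.Spor.M22 := by
  intro e he
  refine ⟨⟨he.1, (mem_fixingSubgroup_iff _).1 he.2 none (Finset.mem_coe.2 (mem_fixedPts.2 ?_))⟩,
    (mem_fixingSubgroup_iff _).1 he.2 (some 0) (Finset.mem_coe.2 (mem_fixedPts.2 ?_))⟩
  · exact ht.1.2
  · exact ht.2

theorem fix_points : ∀ p ∈ ({none, some 0} : Finset GolayPt), ∀ g ∈ Cfsg.Spor.M22, g p = p := by
  intro p hp g hg
  rcases Finset.mem_insert.1 hp with rfl | hp
  · exact hg.1.2
  · rw [Finset.mem_singleton.1 hp]; exact hg.2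

/-- The number of Sylow subgroups, at the primes 11, 7 and 5. -/
theorem count (q f n B D : ℕ) [Fact q.Prime] (h5 : 5 ≤ q) (hf : f < 9)
    (hfq : (24 - f) % q = 0) (h9 : 9 ≤ q + f) (hB : (f - 2).factorial * (24 - f) = B)
    (hD : (q - 1) * B = q * D) (h1 : q ∣ 443520) (h2 : ¬ q ^ 2 ∣ 443520) (hn : ∀ k ∈ Nat.divisors D,
      q * k ∣ 443520 → 443520 / (q * k) % q = 1 → 443520 / (q * k) = n) :
    (∀ P : Sylow q Cfsg.Spor.M22, Nat.card P = q) ∧ Nat.card (Sylow q Cfsg.Spor.M22) = n := by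
  have hP : ∀ P : Sylow q Cfsg.Spor.M22, Nat.card P = q :=
    card_sylow_prime (by rwa [card_M22]) (by rwa [card_M22])
  refine ⟨hP, ?_⟩
  obtain ⟨P⟩ : Nonempty (Sylow q Cfsg.Spor.M22) := inferInstance
  have hC := card_centralizer_sylow m22_le h5 hf hfq h9 _ fix_points P (hP P)
  rw [show ({none, some 0} : Finset GolayPt).card = 2 from rfl, hB] at hC
  obtain ⟨k, hk, hmul, hmod, -⟩ := exists_count P (hP P) hC hD
  rw [card_M22] at hmul
  have hne : D ≠ 0 := by
    rintro rfl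
    rw [mul_zero] at hD
    have : 0 < (q - 1) * B := Nat.mul_pos (by omega)
      (hB ▸ Nat.mul_pos (Nat.factorial_pos _) (by omega))
    omega
  have hpos : 0 < q * k := by
    rcases Nat.eq_zero_or_pos (q * k) with h | h
    · rw [h, mul_zero] at hmul; omega
    · exact h
  have e : 443520 / (q * k) = Nat.card (Sylow q Cfsg.Spor.M22) :=
    Nat.div_eq_of_eq_mul_left hpos hmul.symm
  rw [← e] at hmod ⊢
  exact hn k (Nat.mem_divisors.2 ⟨hk, hne⟩) ⟨_, by rw [mul_comm, hmul]⟩ hmod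

open scoped Classical in
theorem part {χ : Cfsg.Spor.M22 → ℂ} [Fintype Cfsg.Spor.M22] (hχ : Cfsg.IsCharacter _ χ)
    {d f r q n : ℕ} [Fact q.Prime] (hd : χ 1 = d) (hdr : d = f * q + r)
    (hc : (∀ P : Sylow q Cfsg.Spor.M22, Nat.card P = q) ∧
      Nat.card (Sylow q Cfsg.Spor.M22) = n) :
    (n : ℝ) * ((r * ((q : ℤ) - r) : ℤ) : ℝ) ≤
        ∑ x ∈ Finset.univ.filter (fun x => orderOf x = q), ‖χ x‖ ^ 2 ∧
      ((n : ℝ) * ((r * ((q : ℤ) - r) : ℤ) : ℝ) =
          ∑ x ∈ Finset.univ.filter (fun x => orderOf x = q), ‖χ x‖ ^ 2 →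
        ∃ j : ℕ, (j = 0 ∨ j = n) ∧ ∑ x ∈ Finset.univ.filter (fun x => orderOf x = q), χ x =
          (((n : ℤ) * ((q : ℤ) * f - d) + j * q : ℤ) : ℂ)) := by
  obtain ⟨hq, hn⟩ := hc
  haveI : Fintype (Sylow q Cfsg.Spor.M22) := Fintype.ofFinite _
  haveI hcomm : ∀ P : Sylow q Cfsg.Spor.M22, IsMulCommutative (P : Subgroup Cfsg.Spor.M22) :=
    fun P => haveI := isCyclic_of_prime_card (hq P); ⟨⟨IsCyclic.commGroup.mul_comm⟩⟩
  choose N m hN hm hge heq using fun P : Sylow q Cfsg.Spor.M22 =>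
    haveI := hcomm P
    sum_bounds hχ (P : Subgroup Cfsg.Spor.M22) hd (hq P) hdr
  rw [sum_orderOf_eq q hq (fun x => ‖χ x‖ ^ 2), sum_orderOf_eq q hq χ]
  simp only [hN, hm, hd, Complex.norm_natCast]
  have hterm : ∀ P, ((r * ((q : ℤ) - r) : ℤ) : ℝ) ≤ (q : ℝ) * N P - (d : ℝ) ^ 2 := fun P => by
    have : (((d : ℤ) ^ 2 + r * ((q : ℤ) - r) : ℤ) : ℝ) ≤ (((q * N P : ℕ) : ℤ) : ℝ) :=
      Int.cast_le.2 (by exact_mod_cast hge P)
    push_cast at this ⊢
    linarith
  have hsum : (n : ℝ) * ((r * ((q : ℤ) - r) : ℤ) : ℝ) =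
      ∑ _P : Sylow q Cfsg.Spor.M22, ((r * ((q : ℤ) - r) : ℤ) : ℝ) := by
    rw [Finset.sum_const, Finset.card_univ, ← Nat.card_eq_fintype_card, hn, nsmul_eq_mul]
  refine ⟨hsum ▸ Finset.sum_le_sum fun P _ => hterm P, fun h => ?_⟩
  rw [hsum, Finset.sum_eq_sum_iff_of_le fun P _ => hterm P] at h
  have hmf : ∀ P, m P = f ∨ m P = f + 1 := fun P => heq P (by
    have h' := h P (Finset.mem_univ _)
    have : (((q * N P : ℕ) : ℤ) : ℝ) = (((d : ℤ) ^ 2 + r * ((q : ℤ) - r) : ℤ) : ℝ) := by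
      push_cast at h' ⊢
      linarith
    exact_mod_cast Int.cast_inj.1 this)
  have hconst : ∀ P Q : Sylow q Cfsg.Spor.M22, m P = m Q := fun P Q => by
    obtain ⟨g, rfl⟩ := MulAction.exists_smul_eq Cfsg.Spor.M22 P Q
    have hs : ∑ u : ((g • P : Sylow q Cfsg.Spor.M22) : Subgroup Cfsg.Spor.M22), χ u =
        ∑ u : (P : Subgroup Cfsg.Spor.M22), χ u := by
      refine (Fintype.sum_equiv ((P : Subgroup Cfsg.Spor.M22).equivMapOfInjective
        (MulAut.conj g).toMonoidHom (MulAut.conj g).injective).toEquiv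
        (fun u => χ (u : Cfsg.Spor.M22)) _ fun u => ?_).symm
      exact (isClassFunction_of_isCharacter hχ (u : Cfsg.Spor.M22) g).symm
    rw [hm, hm] at hs
    exact_mod_cast (mul_left_cancel₀ (Nat.cast_ne_zero.2 (Fact.out : q.Prime).ne_zero) hs).symm
  refine ⟨(Finset.univ.filter fun P => m P = f + 1).card, ?_, ?_⟩
  · obtain ⟨P₀⟩ : Nonempty (Sylow q Cfsg.Spor.M22) := inferInstance
    rcases hmf P₀ with e | e
    · left
      rw [Finset.card_eq_zero, Finset.filter_eq_empty_iff]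
      intro P _ hP
      have := hconst P P₀
      omega
    · right
      rw [Finset.filter_true_of_mem (fun P _ => (hconst P P₀).trans e), Finset.card_univ,
        ← Nat.card_eq_fintype_card, hn]
  rw [Finset.card_filter, ← hn, Nat.card_eq_fintype_card, ← Finset.card_univ]
  push_cast
  rw [Finset.sum_mul, ← nsmul_eq_mul, ← Finset.sum_const, ← Finset.sum_add_distrib]
  refine Finset.sum_congr rfl fun P _ => ?_
  rcases hmf P with e | e <;> simp [e] <;> ring

theorem no_defect_zero (χ : Cfsg.IrrCharacter Cfsg.Spor.M22) :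
    ¬ 2 ^ (Nat.card Cfsg.Spor.M22).factorization 2 ∣
      Cfsg.charDegree (χ : Cfsg.Spor.M22 → ℂ) := by
  classical
  intro h
  haveI := Fintype.ofFinite Cfsg.Spor.M22
  obtain ⟨c, hd, hc, hc0, hcc, -⟩ := defect_zero_data χ (a := 7) (m := 3465)
    (by rw [card_M22]; norm_num) (by norm_num) h
  haveI : Fact (Nat.Prime 11) := ⟨by norm_num⟩
  haveI : Fact (Nat.Prime 7) := ⟨by norm_num⟩
  haveI : Fact (Nat.Prime 5) := ⟨by norm_num⟩
  have c11 := count 11 2 8064 22 20 (by norm_num) (by norm_num) (by norm_num) (by norm_num) rfl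
    (by norm_num) (by norm_num) (by norm_num) (by decide +kernel)
  have c7 := count 7 3 21120 21 18 (by norm_num) (by norm_num) (by norm_num) (by norm_num) rfl
    (by norm_num) (by norm_num) (by norm_num) (by decide +kernel)
  have c5 := count 5 4 22176 40 32 (by norm_num) (by norm_num) (by norm_num) (by norm_num) rfl
    (by norm_num) (by norm_num) (by norm_num) (by decide +kernel)
  have hχ := isCharacter_coe χ
  have hcases : c = 1 ∨ c = 3 ∨ c = 5 := by
    have h6 : c ≤ 5 := by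
      by_contra h6
      have h36 : 6 * 6 ≤ c * c := Nat.mul_le_mul (by omega) (by omega)
      nlinarith
    interval_cases c <;> simp_all
  have hd' : (χ : Cfsg.Spor.M22 → ℂ) 1 = ((128 * c : ℕ) : ℂ) := by rw [hd]; norm_num
  set d := 128 * c with hdd
  set F : Cfsg.Spor.M22 → ℝ := fun x => ‖(χ : Cfsg.Spor.M22 → ℂ) x‖ ^ 2
  set U := insert (1 : Cfsg.Spor.M22) (({11, 7, 5} : Finset ℕ).biUnion fun q =>
    Finset.univ.filter fun x : Cfsg.Spor.M22 => orderOf x = q) with hUdef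
  have hU : ∀ {A : Type} [AddCommMonoid A] (F : Cfsg.Spor.M22 → A), ∑ x ∈ U, F x = F 1 +
      ((∑ x ∈ Finset.univ.filter (fun x => orderOf x = 11), F x) +
       ((∑ x ∈ Finset.univ.filter (fun x => orderOf x = 7), F x) +
        (∑ x ∈ Finset.univ.filter (fun x => orderOf x = 5), F x))) := by
    intro A _ F
    rw [hUdef, sum_biUnion_orders _ F (by decide), Finset.sum_insert (by decide),
      Finset.sum_insert (by decide), Finset.sum_singleton]
  have htot : ∑ x, F x = 443520 := by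
    rw [GaloisSum.sum_norm_sq_of_isIrrCharacter χ.2, card_M22]; norm_num
  have hnn : ∀ x, 0 ≤ F x := fun x => sq_nonneg _
  have hle : ∑ x ∈ U, F x ≤ 443520 :=
    htot ▸ Finset.sum_le_univ_sum_of_nonneg hnn
  have h1F : F 1 = (d : ℝ) ^ 2 := by
    simp only [F]; rw [hd', Complex.norm_natCast]
  rw [hU, h1F] at hle
  have hf : ∀ q : ℕ, d = d / q * q + d % q := fun q => by
    rw [mul_comm]; exact (Nat.div_add_mod d q).symm
  obtain ⟨l11, e11⟩ := part hχ hd' (hf 11) c11
  obtain ⟨l7, e7⟩ := part hχ hd' (hf 7) c7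
  obtain ⟨l5, e5⟩ := part hχ hd' (hf 5) c5
  simp only [hdd] at hle l11 l7 l5
  rcases hcases with rfl | rfl | rfl <;> norm_num at hle l11 l7 l5
  · linarith
  swap
  · linarith
  -- the degree 384 meets every bound with equality
  obtain ⟨j11, hj11, s11⟩ := e11 (by norm_num [hdd]; linarith)
  obtain ⟨j7, hj7, s7⟩ := e7 (by norm_num [hdd]; linarith)
  obtain ⟨j5, hj5, s5⟩ := e5 (by norm_num [hdd]; linarith)
  have hrest : ∀ x, x ∉ U → (χ : Cfsg.Spor.M22 → ℂ) x = 0 := by
    have hs : ∑ x ∈ Finset.univ \ U, F x = 0 := by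
      have := Finset.sum_sdiff (f := F) (Finset.subset_univ U)
      rw [htot, hU, h1F] at this
      have h0 : 0 ≤ ∑ x ∈ Finset.univ \ U, F x := Finset.sum_nonneg fun x _ => hnn x
      have hd2 : (d : ℝ) ^ 2 = 147456 := by norm_num [hdd]
      simp only [F] at this h0 hle ⊢
      linarith
    intro x hx
    have := (Finset.sum_eq_zero_iff_of_nonneg fun x _ => hnn x).1 hs x
      (Finset.mem_sdiff.2 ⟨Finset.mem_univ _, hx⟩)
    simpa [F] using this
  have hne : χ ≠ oneChar _ := fun e => by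
    rw [e, oneChar_apply] at hd'
    norm_num [hdd] at hd'
  have h0 := classInner_of_ne hne
  rw [Cfsg.classInner, mul_eq_zero, or_iff_right (inv_ne_zero natCard_ne_zero)] at h0
  simp only [oneChar_apply, map_one, mul_one] at h0
  rw [← Finset.sum_subset (Finset.subset_univ U) (fun x _ hx => hrest x hx), hU, hd', s11, s7,
    s5] at h0
  norm_num [hdd] at h0
  have h0' : (384 : ℤ) + (8064 * -10 + j11 * 11 + (21120 * -6 + j7 * 7 +
      (22176 * -4 + j5 * 5))) = 0 := by exact_mod_cast h0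
  omega

/-- All irreducible complex characters of the Mathieu group `M₂₂` lie in a single 2-block: any two of them lie in the same block relative to every maximal ideal of the algebraic integers containing 2. -/
theorem result (M : Ideal Cfsg.AlgInt) (hM : Cfsg.IsPModular 2 M)
    (χ ψ : Cfsg.IrrCharacter ↥Cfsg.Spor.M22) : Cfsg.SameBlock M (χ : ↥Cfsg.Spor.M22 → ℂ) (ψ : ↥Cfsg.Spor.M22 → ℂ) := by
  refine CfsgLib.Blocks.SingleBlock.sameBlock_of_criterion hM (fun t ht => ?_) no_defect_zero χ ψ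
  refine CfsgLib.Blocks.SingleBlock.exists_core m22_le (fun s hs _ _ => octPointFix_le hs) (fun s hs h2 h0 => ?_) t ht
  exact absurd hs.2 (h0 (some 0))

end Cfsg.Agent.S5005
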