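import Cfsg.Statements.S5006
import Cfsg.Agent.Blocks.SingleBlock.MathieuChars
import Cfsg.Agent.Mathieu.Simple
import Cfsg.Agent.Mathieu.OutSmall
import Cfsg.Agent.Eq.Def_Sporadic_a

set_option autoImplicit false
set_option linter.style.haveILetI false
open Cfsg

namespace Cfsg.Agent.S5006

open CfsgLib CfsgLib.Chars CfsgLib.Golay CfsgLib.Mathieu CfsgLib.Blocks.SingleBlock

/-- An element of order seven. -/
def sevenTab : List ℕ :=
  [1, 2, 3, 4, 7, 5, 17, 12, 19, 9, 10, 16, 0, 23, 11, 14, 22, 13, 15, 21, 18, 6, 20, 8]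

/-- An involution commuting with it. -/
def invTab : List ℕ :=
  [0, 1, 2, 3, 4, 9, 14, 7, 20, 5, 10, 17, 12, 16, 6, 21, 13, 11, 19, 18, 8, 15, 23, 22]

theorem witness_facts : tabInM24 sevenTab = true ∧ tabInM24 invTab = true ∧
    orderTabOK 7 sevenTab = true ∧ orderTabOK 2 invTab = true ∧
    fcomp sevenTab invTab = fcomp invTab sevenTab := by decide +kernel

theorem card_G : Nat.card ↥Cfsg.M24 = 244823040 := card_M24

/-- The possible normalizer orders, at the primes 23, 11, 7 and 5. -/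
theorem count (q f B D : ℕ) [Fact q.Prime] (h5 : 5 ≤ q) (hf : f < 9)
    (hfq : (24 - f) % q = 0) (h9 : 9 ≤ q + f) (hB : f.factorial * (24 - f) = B)
    (hD : (q - 1) * B = q * D) (h1 : q ∣ 244823040) (h2 : ¬ q ^ 2 ∣ 244823040)
    (P : Sylow q ↥Cfsg.M24) :
    ∃ k ∈ Nat.divisors D, q * k ∣ 244823040 ∧ 244823040 / (q * k) % q = 1 ∧
      Nat.card (Sylow q ↥Cfsg.M24) = 244823040 / (q * k) ∧
      q * k ∣ (q - 1) * Nat.card (Subgroup.centralizer ((P : Subgroup ↥Cfsg.M24) : Set ↥Cfsg.M24)) := by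
  have hP : Nat.card P = q := card_sylow_prime (by rwa [card_G]) (by rwa [card_G]) P
  have hC := card_centralizer_sylow le_rfl h5 hf hfq h9 ∅ (by simp) P hP
  rw [Finset.card_empty, Nat.sub_zero, hB] at hC
  obtain ⟨k, hk, hmul, hmod, hdvd⟩ := exists_count P hP hC hD
  rw [card_G] at hmul
  have hne : D ≠ 0 := by
    rintro rfl
    rw [mul_zero] at hD
    have : 0 < (q - 1) * B := Nat.mul_pos (by omega)
      (hB ▸ Nat.mul_pos (Nat.factorial_pos _) (by omega))
    omega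
  have hpos : 0 < q * k := by
    rcases Nat.eq_zero_or_pos (q * k) with h | h
    · rw [h, mul_zero] at hmul; omega
    · exact h
  have e : 244823040 / (q * k) = Nat.card (Sylow q ↥Cfsg.M24) :=
    Nat.div_eq_of_eq_mul_left hpos hmul.symm
  refine ⟨k, Nat.mem_divisors.2 ⟨hk, hne⟩, ⟨_, by rw [mul_comm, hmul]⟩, ?_, e.symm, hdvd⟩
  rw [e]; exact hmod

theorem two_dvd_centralizer_seven [Fact (Nat.Prime 7)] (P : Sylow 7 ↥Cfsg.M24) :
    2 ∣ Nat.card (Subgroup.centralizer ((P : Subgroup ↥Cfsg.M24) : Set ↥Cfsg.M24)) := by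
  obtain ⟨hx, hs, hx7, hs2, hcomm⟩ := witness_facts
  obtain ⟨x, hxM, ex⟩ := rep_of_tabInM24 hx
  obtain ⟨s, hsM, es⟩ := rep_of_tabInM24 hs
  have ox : orderOf (⟨x, hxM⟩ : ↥Cfsg.M24) = 7 := by
    rw [Subgroup.orderOf_mk]; exact orderOf_of_tab (by norm_num) (by rw [ex]; exact hx7)
  have os : orderOf s = 2 := orderOf_of_tab (by norm_num) (by rw [es]; exact hs2)
  have hc : x * s = s * x := toTab_injective (by rw [← fcomp_toTab, ← fcomp_toTab, ex, es, hcomm])
  obtain ⟨Q, hQ⟩ := (IsPGroup.of_card (p := 7) (n := 1)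
    (show Nat.card (Subgroup.zpowers (⟨x, hxM⟩ : ↥Cfsg.M24)) = 7 ^ 1 by
      rw [Nat.card_zpowers, ox, pow_one])).exists_le_sylow
  have hQ' := Subgroup.eq_of_le_of_card_ge hQ (by
    rw [Nat.card_zpowers, ox,
      card_sylow_prime (by rw [card_G]; norm_num) (by rw [card_G]; norm_num) Q])
  obtain ⟨g, rfl⟩ := MulAction.exists_smul_eq ↥Cfsg.M24 Q P
  have hmem : g * ⟨s, hsM⟩ * g⁻¹ ∈
      Subgroup.centralizer (((g • Q : Sylow 7 ↥Cfsg.M24) : Subgroup ↥Cfsg.M24) : Set ↥Cfsg.M24) := by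
    rw [Subgroup.mem_centralizer_iff]
    rintro _ ⟨u, hu, rfl⟩
    obtain ⟨i, rfl⟩ : u ∈ Subgroup.zpowers (⟨x, hxM⟩ : ↥Cfsg.M24) := hQ'.symm ▸ hu
    have h : Commute ((⟨x, hxM⟩ : ↥Cfsg.M24) ^ i) ⟨s, hsM⟩ :=
      Commute.zpow_left (show Commute (⟨x, hxM⟩ : ↥Cfsg.M24) ⟨s, hsM⟩ from Subtype.ext hc) i
    simp only [MonoidHom.coe_coe, MulDistribMulAction.toMonoidEnd_apply,
      MulDistribMulAction.toMonoidHom_apply, MulAut.smul_def, MulAut.conj_apply]
    calc g * (⟨x, hxM⟩ : ↥Cfsg.M24) ^ i * g⁻¹ * (g * ⟨s, hsM⟩ * g⁻¹)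
        = g * ((⟨x, hxM⟩ : ↥Cfsg.M24) ^ i * ⟨s, hsM⟩) * g⁻¹ := by group
      _ = g * (⟨s, hsM⟩ * (⟨x, hxM⟩ : ↥Cfsg.M24) ^ i) * g⁻¹ := by rw [h.eq]
      _ = g * ⟨s, hsM⟩ * g⁻¹ * (g * (⟨x, hxM⟩ : ↥Cfsg.M24) ^ i * g⁻¹) := by group
  refine Eq.dvd (show orderOf (g * ⟨s, hsM⟩ * g⁻¹) = 2 from ?_).symm |>.trans
    (Subgroup.orderOf_dvd_natCard _ hmem)
  rw [show g * ⟨s, hsM⟩ * g⁻¹ = (MulAut.conj g).toMonoidHom ⟨s, hsM⟩ from rfl,
    orderOf_injective _ (MulAut.conj g).injective, Subgroup.orderOf_mk, os]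

open scoped Classical in
theorem part_low [Fintype ↥Cfsg.M24] {χ : ↥Cfsg.M24 → ℂ} (hχ : Cfsg.IsCharacter _ χ)
    {d f r q : ℕ} [Fact q.Prime] (hd : χ 1 = d) (hdr : d = f * q + r)
    (hq : ∀ P : Sylow q ↥Cfsg.M24, Nat.card P = q) :
    (Nat.card (Sylow q ↥Cfsg.M24) : ℝ) * ((r * ((q : ℤ) - r) : ℤ) : ℝ) ≤
      ∑ x ∈ Finset.univ.filter (fun x => orderOf x = q), ‖χ x‖ ^ 2 := by
  refine le_sum_orderOf hd hq fun P _ => ?_
  haveI := isCyclic_of_prime_card (hq P)
  haveI : IsMulCommutative (P : Subgroup ↥Cfsg.M24) := ⟨⟨IsCyclic.commGroup.mul_comm⟩⟩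
  obtain ⟨N, m, hN, -, hge, -⟩ := sum_bounds hχ (P : Subgroup ↥Cfsg.M24) hd (hq P) hdr
  rw [hN]
  have : (((d : ℤ) ^ 2 + r * ((q : ℤ) - r) : ℤ) : ℝ) ≤ (((q * N : ℕ) : ℤ) : ℝ) :=
    Int.cast_le.2 (by exact_mod_cast hge)
  push_cast at this ⊢
  linarith

open scoped Classical in
theorem part_two [Fintype ↥Cfsg.M24] {χ : ↥Cfsg.M24 → ℂ} (hχ : Cfsg.IsCharacter _ χ)
    (hvan : ∀ g, 2 ∣ orderOf g → χ g = 0) {d q j : ℕ} [Fact q.Prime] (hq2 : q ≠ 2)
    (hd : χ 1 = d) (hnd : ¬ q ∣ d) (hq : ∀ P : Sylow q ↥Cfsg.M24, Nat.card P = q)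
    (hj : ∀ P : Sylow q ↥Cfsg.M24,
      2 ^ j ∣ Nat.card (Subgroup.centralizer ((P : Subgroup ↥Cfsg.M24) : Set ↥Cfsg.M24))) :
    (Nat.card (Sylow q ↥Cfsg.M24) : ℝ) * (((q : ℝ) - 1) * ((2 ^ j : ℕ) : ℝ) ^ 2) ≤
      ∑ x ∈ Finset.univ.filter (fun x => orderOf x = q), ‖χ x‖ ^ 2 := by
  refine le_sum_orderOf hd hq fun P _ => ?_
  haveI : Fact (Nat.Prime 2) := ⟨Nat.prime_two⟩
  obtain ⟨W, hW⟩ := Sylow.exists_subgroup_card_pow_prime 2 (hj P)
  set V := W.map (Subgroup.centralizer ((P : Subgroup ↥Cfsg.M24) : Set ↥Cfsg.M24)).subtype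
  have hV : Nat.card V = 2 ^ j :=
    (Subgroup.card_map_of_injective (Subgroup.subtype_injective _)).trans hW
  have hVC : ∀ v ∈ V, ∀ u ∈ (P : Subgroup ↥Cfsg.M24), u * v = v * u := fun v hv u hu =>
    Subgroup.mem_centralizer_iff.1 (Subgroup.map_subtype_le _ hv) u hu
  have := card_sub_one_mul_sq_le hχ (P : Subgroup ↥Cfsg.M24) V hd (hq P) Fact.out hnd
    (fun u hu v hv => hVC v hv u hu) (fun u hu v hv hv1 => hvan _ (by
      have hu1 : orderOf u ∣ q := hq P ▸ Subgroup.orderOf_dvd_natCard _ hu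
      have hv2 : orderOf v ∣ 2 ^ j := hV ▸ Subgroup.orderOf_dvd_natCard _ hv
      have hc : Commute u v := hVC v hv u hu
      rw [hc.orderOf_mul_eq_mul_orderOf_of_coprime (Nat.Coprime.coprime_dvd_left hu1
        (Nat.Coprime.coprime_dvd_right hv2
          (((Nat.coprime_primes Fact.out Nat.prime_two).2 hq2).pow_right j)))]
      refine dvd_mul_of_dvd_right ?_ _
      obtain ⟨i, -, hi⟩ := (Nat.dvd_prime_pow Nat.prime_two).1 hv2
      rw [hi]
      refine dvd_pow_self 2 fun h0 => hv1 (orderOf_eq_one_iff.1 ?_)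
      rw [hi, h0, pow_zero]))
  rw [hV] at this
  linarith

theorem no_defect_zero (χ : Cfsg.IrrCharacter ↥Cfsg.M24) :
    ¬ 2 ^ (Nat.card ↥Cfsg.M24).factorization 2 ∣
      Cfsg.charDegree (χ : ↥Cfsg.M24 → ℂ) := by
  classical
  intro h
  haveI := Fintype.ofFinite ↥Cfsg.M24
  obtain ⟨c, hd, hc, hc0, hcc, hvan⟩ := defect_zero_data χ (a := 10) (m := 239085)
    (by rw [card_G]; norm_num) (by norm_num) h
  haveI : Fact (Nat.Prime 23) := ⟨by norm_num⟩
  haveI : Fact (Nat.Prime 11) := ⟨by norm_num⟩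
  haveI : Fact (Nat.Prime 7) := ⟨by norm_num⟩
  haveI : Fact (Nat.Prime 5) := ⟨by norm_num⟩
  have hχ := isCharacter_coe χ
  have hd' : (χ : ↥Cfsg.M24 → ℂ) 1 = ((1024 * c : ℕ) : ℂ) := by rw [hd]; norm_num
  set d := 1024 * c with hdd
  set F : ↥Cfsg.M24 → ℝ := fun x => ‖(χ : ↥Cfsg.M24 → ℂ) x‖ ^ 2
  set U := insert (1 : ↥Cfsg.M24) (({23, 11, 7, 5} : Finset ℕ).biUnion fun q =>
    Finset.univ.filter fun x : ↥Cfsg.M24 => orderOf x = q) with hUdef
  have hle : (d : ℝ) ^ 2 +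
      ((∑ x ∈ Finset.univ.filter (fun x => orderOf x = 23), F x) +
      ((∑ x ∈ Finset.univ.filter (fun x => orderOf x = 11), F x) +
       ((∑ x ∈ Finset.univ.filter (fun x => orderOf x = 7), F x) +
        (∑ x ∈ Finset.univ.filter (fun x => orderOf x = 5), F x)))) ≤ 244823040 := by
    have h := Finset.sum_le_univ_sum_of_nonneg (s := U) (f := F) (fun x => sq_nonneg _)
    rw [GaloisSum.sum_norm_sq_of_isIrrCharacter χ.2, card_G, hUdef,
      sum_biUnion_orders _ F (by decide), Finset.sum_insert (by decide),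
      Finset.sum_insert (by decide), Finset.sum_insert (by decide), Finset.sum_singleton,
      show F 1 = (d : ℝ) ^ 2 by simp only [F]; rw [hd', Complex.norm_natCast]] at h
    exact_mod_cast h
  have hq : ∀ q : ℕ, [Fact q.Prime] → q ∣ 244823040 → ¬ q ^ 2 ∣ 244823040 →
      ∀ P : Sylow q ↥Cfsg.M24, Nat.card P = q := fun q _ h1 h2 =>
    card_sylow_prime (by rwa [card_G]) (by rwa [card_G])
  have hnn : ∀ q : ℕ, (0 : ℝ) ≤ ∑ x ∈ Finset.univ.filter
      (fun x : ↥Cfsg.M24 => orderOf x = q), F x := fun q => Finset.sum_nonneg fun x _ => sq_nonneg _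
  -- the element of order 23
  obtain ⟨P23⟩ : Nonempty (Sylow 23 ↥Cfsg.M24) := inferInstance
  obtain ⟨k, hk, hk1, hk2, n23, -⟩ := count 23 1 23 22 (by norm_num) (by norm_num) (by norm_num)
    (by norm_num) rfl (by norm_num) (by norm_num) (by norm_num) P23
  have hn23 : Nat.card (Sylow 23 ↥Cfsg.M24) = 967680 := n23.trans
    ((by decide +kernel : ∀ k ∈ Nat.divisors 22, 23 * k ∣ 244823040 →
      244823040 / (23 * k) % 23 = 1 → 244823040 / (23 * k) = 967680) k hk hk1 hk2)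
  have l23 := part_low hχ hd' (show d = d / 23 * 23 + d % 23 by omega)
    (hq 23 (by norm_num) (by norm_num))
  rw [hn23] at l23
  -- the element of order 11
  obtain ⟨P11⟩ : Nonempty (Sylow 11 ↥Cfsg.M24) := inferInstance
  obtain ⟨k, hk, hk1, hk2, n11, -⟩ := count 11 2 44 40 (by norm_num) (by norm_num) (by norm_num)
    (by norm_num) rfl (by norm_num) (by norm_num) (by norm_num) P11
  have hn11 : Nat.card (Sylow 11 ↥Cfsg.M24) = 2225664 := n11.trans
    ((by decide +kernel : ∀ k ∈ Nat.divisors 40, 11 * k ∣ 244823040 →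
      244823040 / (11 * k) % 11 = 1 → 244823040 / (11 * k) = 2225664) k hk hk1 hk2)
  have l11 := part_low hχ hd' (show d = d / 11 * 11 + d % 11 by omega)
    (hq 11 (by norm_num) (by norm_num))
  rw [hn11] at l11
  -- the element of order 7
  have l7 : ¬ 7 ∣ d → (46632960 : ℝ) ≤
      ∑ x ∈ Finset.univ.filter (fun x => orderOf x = 7), F x := fun hnd => by
    obtain ⟨P7⟩ : Nonempty (Sylow 7 ↥Cfsg.M24) := inferInstance
    obtain ⟨k, hk, hk1, hk2, n7, -⟩ := count 7 3 126 108 (by norm_num) (by norm_num) (by norm_num)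
      (by norm_num) rfl (by norm_num) (by norm_num) (by norm_num) P7
    have hn : 1943040 ≤ Nat.card (Sylow 7 ↥Cfsg.M24) :=
      ((by decide +kernel : ∀ k ∈ Nat.divisors 108, 7 * k ∣ 244823040 →
        244823040 / (7 * k) % 7 = 1 → 1943040 ≤ 244823040 / (7 * k)) k hk hk1 hk2).trans_eq n7.symm
    have h := part_two hχ hvan (by norm_num) hd' hnd (hq 7 (by norm_num) (by norm_num))
      (j := 1) (fun P => by simpa using two_dvd_centralizer_seven P)
    rw [Nat.card_eq_fintype_card] at hn h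
    have hn' : (1943040 : ℝ) ≤ (Fintype.card (Sylow 7 ↥Cfsg.M24) : ℝ) := by exact_mod_cast hn
    simp only [F]
    norm_num at h ⊢
    linarith
  -- the element of order 5
  have l5 : ¬ 5 ∣ d → (65286144 : ℝ) ≤
      ∑ x ∈ Finset.univ.filter (fun x => orderOf x = 5), F x := fun hnd => by
    obtain ⟨P5⟩ : Nonempty (Sylow 5 ↥Cfsg.M24) := inferInstance
    obtain ⟨k, hk, hk1, hk2, n5, -⟩ := count 5 4 480 384 (by norm_num) (by norm_num) (by norm_num)
      (by norm_num) rfl (by norm_num) (by norm_num) (by norm_num) P5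
    have hk' := (by decide +kernel : ∀ k ∈ Nat.divisors 384, 5 * k ∣ 244823040 →
      244823040 / (5 * k) % 5 = 1 → k = 3 ∨ k = 8 ∨ k = 48 ∨ k = 128) k hk hk1 hk2
    have hdvd : ∀ P : Sylow 5 ↥Cfsg.M24, 5 * k ∣ 4 * Nat.card
        (Subgroup.centralizer ((P : Subgroup ↥Cfsg.M24) : Set ↥Cfsg.M24)) := fun P => by
      obtain ⟨k', hk'1, hk'2, hk'3, n5', h⟩ := count 5 4 480 384 (by norm_num) (by norm_num)
        (by norm_num) (by norm_num) rfl (by norm_num) (by norm_num) (by norm_num) P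
      have e := n5'.symm.trans n5
      have := (by decide +kernel : ∀ k ∈ Nat.divisors 384, 5 * k ∣ 244823040 →
        244823040 / (5 * k) % 5 = 1 → k = 3 ∨ k = 8 ∨ k = 48 ∨ k = 128) k' hk'1 hk'2 hk'3
      rcases hk' with rfl | rfl | rfl | rfl <;> rcases this with rfl | rfl | rfl | rfl <;>
        first | exact h | (norm_num at e)
    rcases hk' with rfl | rfl | rfl | rfl
    · have h := part_two hχ hvan (by norm_num) hd' hnd (hq 5 (by norm_num) (by norm_num))
        (j := 0) (fun P => one_dvd _)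
      rw [n5] at h
      simp only [F]
      norm_num at h ⊢
      linarith
    · have h := part_two hχ hvan (by norm_num) hd' hnd (hq 5 (by norm_num) (by norm_num))
        (j := 1) (fun P => by
          obtain ⟨a, ha⟩ := hdvd P
          simp only [Nat.reducePow]
          omega)
      rw [n5] at h
      simp only [F]
      norm_num at h ⊢
      linarith
    · have h := part_two hχ hvan (by norm_num) hd' hnd (hq 5 (by norm_num) (by norm_num))
        (j := 2) (fun P => by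
          obtain ⟨a, ha⟩ := hdvd P
          simp only [Nat.reducePow]
          omega)
      rw [n5] at h
      simp only [F]
      norm_num at h ⊢
      linarith
    · have h := part_two hχ hvan (by norm_num) hd' hnd (hq 5 (by norm_num) (by norm_num))
        (j := 5) (fun P => by
          obtain ⟨a, ha⟩ := hdvd P
          simp only [Nat.reducePow]
          omega)
      rw [n5] at h
      simp only [F]
      norm_num at h ⊢
      linarith
  have hbound : c ≤ 15 := by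
    by_contra hb
    have : 16 * 16 ≤ c * c := Nat.mul_le_mul (by omega) (by omega)
    nlinarith
  have h7 := hnn 7
  have h5 := hnn 5
  simp only [F] at hle l7 l5 h7 h5
  interval_cases c <;> norm_num at hc <;> norm_num [hdd] at hle l23 l11 l7 l5 <;> linarith

/-- All irreducible complex characters of the Mathieu group `M₂₄` lie in a single 2-block: any two of them lie in the same block relative to every maximal ideal of the algebraic integers containing 2. -/
theorem result (M : Ideal Cfsg.AlgInt) (hM : Cfsg.IsPModular 2 M)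
    (χ ψ : Cfsg.IrrCharacter ↥Cfsg.M24) : Cfsg.SameBlock M (χ : ↥Cfsg.M24 → ℂ) (ψ : ↥Cfsg.M24 → ℂ) := by
  refine CfsgLib.Blocks.SingleBlock.sameBlock_of_criterion hM (fun t ht => ?_) no_defect_zero χ ψ
  exact CfsgLib.Blocks.SingleBlock.exists_core le_rfl (fun _ _ _ _ => inf_le_left)
    (fun _ _ _ _ => inf_le_left) t ht

end Cfsg.Agent.S5006
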