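import Cfsg.Statements.S5010
import Cfsg.Agent.RelDegree.Coprime
import Cfsg.Agent.MovedVector.Vanishing
import Cfsg.Agent.Chars.TwoDegrees.Main
import Cfsg.Agent.Chars.Apps.MonomialGroups
import Cfsg.Agent.Constrained.Fitting
import Cfsg.Agent.Coprime.Basic

set_option autoImplicit false
open Cfsg

namespace Cfsg.Agent.S5010

open CfsgLib.Chars CfsgLib.Chars.Induced CfsgLib.MovedVector

theorem commutator_le_frattini_of_nilpotent {M : Type*} [Group M] [Finite M] [Group.IsNilpotent M] :
    commutator M ≤ frattini M := by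
  refine le_iInf₂ fun K hK => ?_
  haveI : K.Normal := Subgroup.NormalizerCondition.normal_of_coatom K Group.normalizerCondition_of_isNilpotent hK
  haveI : Nontrivial (M ⧸ K) := by
    rw [QuotientGroup.nontrivial_iff]
    exact hK.1
  by_contra h
  have htop : K ⊔ commutator M = ⊤ := hK.2 _ (lt_of_le_of_ne le_sup_left fun e => h (le_sup_right.trans e.ge))
  have h2 : commutator (M ⧸ K) = ⊤ := by
    rw [← (MonoidHom.range_eq_top.mpr (QuotientGroup.mk'_surjective K)), MonoidHom.range_eq_map,
      ← htop, Subgroup.map_sup, QuotientGroup.map_mk'_self, bot_sup_eq, commutator_def, commutator_def,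
      Subgroup.map_commutator, Subgroup.map_top_of_surjective _ (QuotientGroup.mk'_surjective K)]
  exact (Group.IsSolvable.commutator_lt_top_of_nontrivial (M ⧸ K)).ne h2

/-- A commutative coprime group of automorphisms of an abelian group has a regular orbit. -/
theorem exists_regular {p : ℕ} [hp : Fact p.Prime] {C : Type*} [CommGroup C] [Finite C]
    (hC : ∀ c : C, ∃ m : ℕ, p.Coprime m ∧ c ^ m = 1) (Q : Subgroup (MulAut C)) (hQ : IsPGroup p Q)
    (hQc : ∀ a ∈ Q, ∀ b ∈ Q, a * b = b * a) : ∃ c : C, ∀ e ∈ Q, e c = c → e = 1 := by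
  haveI : Finite (MulAut C) := Finite.of_injective (fun e => (e : C → C)) DFunLike.coe_injective
  have key : ∀ a ∈ Q, ∀ u : C, a (a u * u⁻¹) = a u * u⁻¹ → a u * u⁻¹ = 1 := by
    intro a ha u hfix
    set w := a u * u⁻¹ with hw
    have hn : ∀ n : ℕ, (a ^ n) u = w ^ n * u := by
      intro n
      induction n with
      | zero => simp
      | succ n ih =>
        rw [pow_succ', MulAut.mul_apply, ih, map_mul, map_pow, hfix, pow_succ, mul_assoc]
        congr 1
        rw [hw, inv_mul_cancel_right]
    obtain ⟨j, hj⟩ := hQ ⟨a, ha⟩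
    have h1 := hn (p ^ j)
    rw [show a ^ p ^ j = 1 from congrArg Subtype.val hj, MulAut.one_apply, right_eq_mul] at h1
    obtain ⟨m, hm, hwm⟩ := hC w
    have h2 := pow_gcd_eq_one.mpr ⟨h1, hwm⟩
    rwa [(hm.pow_left j).gcd_eq_one, pow_one] at h2
  obtain ⟨v, -, hmin⟩ := Set.exists_min_image (Set.univ : Set C)
    (fun v => Nat.card {e : MulAut C // e ∈ Q ∧ e v = v}) Set.finite_univ ⟨1, trivial⟩
  refine ⟨v, fun a ha hav => ?_⟩
  by_contra ha1
  obtain ⟨u, hu⟩ : ∃ u, a u ≠ u := by
    by_contra h
    push Not at h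
    exact ha1 (MulEquiv.ext h)
  set w := a u * u⁻¹ with hw
  have haw : a w ≠ w := fun h => hu (mul_inv_eq_one.mp (key a ha u h))
  have hsplit : ∀ e ∈ Q, e (v * w) = v * w → e v = v ∧ e w = w := by
    intro e he hfix
    rw [map_mul] at hfix
    have hcomm : ∀ x, a (e x) = e (a x) := fun x => DFunLike.congr_fun (hQc a ha e he) x
    set u' := u * (e u)⁻¹ with hu'
    have hd : e v * v⁻¹ = a u' * u'⁻¹ := by
      have h1 : e v * v⁻¹ = w * (e w)⁻¹ := by
        rw [eq_mul_inv_iff_mul_eq, mul_right_comm, hfix, mul_right_comm, mul_inv_cancel, one_mul]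
      rw [h1, hw, hu', map_mul, map_mul, map_inv, map_inv, hcomm, mul_inv, mul_inv, inv_inv]
      simp only [mul_comm, mul_assoc, mul_left_comm]
    have h2 := key a ha u' (by rw [← hd, map_mul, map_inv, hcomm, hav])
    rw [← hd, mul_inv_eq_one] at h2
    refine ⟨h2, ?_⟩
    rw [h2] at hfix
    exact mul_left_cancel hfix
  have hlt : Nat.card {e : MulAut C // e ∈ Q ∧ e (v * w) = v * w} <
      Nat.card {e : MulAut C // e ∈ Q ∧ e v = v} := by
    classical
    haveI := Fintype.ofFinite {e : MulAut C // e ∈ Q ∧ e (v * w) = v * w}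
    haveI := Fintype.ofFinite {e : MulAut C // e ∈ Q ∧ e v = v}
    rw [Nat.card_eq_fintype_card, Nat.card_eq_fintype_card]
    refine Fintype.card_lt_of_injective_of_notMem
      (Subtype.map id fun e he => ⟨he.1, (hsplit e he.1 he.2).1⟩)
      (Subtype.map_injective _ Function.injective_id) (b := ⟨a, ha, hav⟩) ?_
    rintro ⟨⟨e, he⟩, hea⟩
    have hea' : e = a := congrArg Subtype.val hea
    exact haw (hea' ▸ (hsplit e he.1 he.2).2)
  exact absurd (hmin (v * w) trivial) (not_le.mpr hlt)

universe u
variable {G : Type u} [Group G] [Finite G] [Group.IsSolvable G]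

/-- The cores of `G / F(G)` have at most prime order. -/
theorem card_pCore_quotient_le
    (h : ∀ χ : Cfsg.IrrCharacter G, Squarefree (Cfsg.charDegree (χ : G → ℂ)))
    (p : ℕ) [hp : Fact p.Prime] : Nat.card ↥(pCore p (G ⧸ fittingSubgroup G)) ≤ p := by
  classical
  letI := Fintype.ofFinite G
  set F := fittingSubgroup G with hF
  haveI hFn : F.Normal := CfsgLib.Constrained.instNormalFitting
  set π := QuotientGroup.mk' F with hπ
  set R : Subgroup G := (pCore p (G ⧸ F)).comap π with hR
  have hFR : F ≤ R := fun x hx => by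
    rw [hR, Subgroup.mem_comap, hπ, show QuotientGroup.mk' F x = 1 from (QuotientGroup.eq_one_iff x).2 hx]
    exact one_mem _
  have hRp : IsPGroup p ↥(pCore p (G ⧸ F)) := CfsgLib.Constrained.isPGroup_pCore
  -- `p'`-elements of `R` lie in `F`
  have hreg : ∀ y ∈ R, ¬ p ∣ orderOf y → y ∈ F := by
    intro y hy hyp
    obtain ⟨j, hj⟩ := hRp ⟨π y, hy⟩
    have h1 : π y ^ p ^ j = 1 := congrArg Subtype.val hj
    have h2 : π y ^ orderOf y = 1 := by rw [← map_pow, pow_orderOf_eq_one, map_one]
    have h3 := pow_gcd_eq_one.mpr ⟨h1, h2⟩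
    rw [((hp.out.coprime_iff_not_dvd.2 hyp).pow_left j).gcd_eq_one, pow_one] at h3
    exact (QuotientGroup.eq_one_iff y).1 h3
  set M : Subgroup G := F ⊓ pPrimeCore p G with hM
  haveI : (pPrimeCore p G).Normal := CfsgLib.Constrained.instNormalPPrimeCore p
  haveI hMn : M.Normal := inferInstance
  have hMcard : (Nat.card ↥M).Coprime p := by
    refine Nat.Coprime.symm ((hp.out.coprime_iff_not_dvd).2 fun hd => ?_)
    exact CfsgLib.Constrained.pPrimeCore_not_dvd (hd.trans (Subgroup.card_dvd_of_le inf_le_right))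
  haveI : Group.IsNilpotent ↥M := by
    haveI : Group.IsNilpotent ↥F := CfsgLib.Constrained.isNilpotent_fitting
    exact Subgroup.isNilpotent_of_ker_le_center (Subgroup.inclusion (inf_le_left : M ≤ F))
      (le_of_eq_of_le ((MonoidHom.ker_eq_bot_iff _).mpr (Subgroup.inclusion_injective _)) bot_le)
  letI := Fintype.ofFinite ↥M
  haveI := finite_dual M
  set D := dualAction M with hD
  -- `F` fixes every linear character of `M`
  have hFker : ∀ x ∈ F, D x = 1 := by
    intro x hx
    have key : ∀ q : ℕ, q.Prime → ∀ z ∈ pCore q G, D z = 1 := by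
      intro q hq z hz
      haveI := Fact.mk hq
      refine MulEquiv.ext fun l => MonoidHom.ext fun m => ?_
      show l ((MulAut.conjNormal z : MulAut M)⁻¹ m) = l m
      by_cases hqp : q = p
      · congr 1
        have hdis : Disjoint (pCore p G) (pPrimeCore p G) := by
          refine disjoint_iff.2 (Subgroup.inf_eq_bot_of_coprime ?_)
          obtain ⟨k, hk⟩ := IsPGroup.iff_card.mp (CfsgLib.Constrained.isPGroup_pCore (p := p) (G := G))
          rw [hk]
          exact ((hp.out.coprime_iff_not_dvd).2 CfsgLib.Constrained.pPrimeCore_not_dvd).pow_left k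
        have hc : Commute (m : G) z := (Subgroup.commute_of_normal_of_disjoint _ _ inferInstance
          inferInstance hdis z m (hqp ▸ hz) m.2.2).symm
        refine Subtype.ext ?_
        rw [MulAut.conjNormal_inv_apply]
        rw [show z⁻¹ * (m : G) = (m : G) * z⁻¹ from hc.inv_right.eq.symm, inv_mul_cancel_right]
      · have hzM : z ∈ M := by
          refine ⟨CfsgLib.Constrained.pCore_le_fitting hz, CfsgLib.Constrained.le_pPrimeCore_of_not_dvd
            inferInstance ?_ hz⟩
          obtain ⟨k, hk⟩ := IsPGroup.iff_card.mp (CfsgLib.Constrained.isPGroup_pCore (p := q) (G := G))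
          rw [hk]
          exact fun hd => hqp ((Nat.prime_dvd_prime_iff_eq hp.out hq).mp (hp.out.dvd_of_dvd_pow hd)).symm
        have e : (MulAut.conjNormal z : MulAut M)⁻¹ m = (⟨z, hzM⟩ : M)⁻¹ * m * ⟨z, hzM⟩ :=
          Subtype.ext (by rw [MulAut.conjNormal_inv_apply]; rfl)
        rw [e, map_mul, map_mul, map_inv, mul_comm (l (⟨z, hzM⟩ : M))⁻¹, inv_mul_cancel_right]
    have hle : F ≤ D.ker := by
      rw [hF, CfsgLib.Constrained.fitting_eq_iSup_pCore]
      exact iSup₂_le fun q hq z hz => key q hq z hz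
    exact hle hx
  -- the `p`-elements of `R` fixing all linear characters lie in `F`
  have hker : ∀ x ∈ R, D x = 1 → x ∈ F := by
    intro x hxR hDx
    obtain ⟨a, m, hm, ham⟩ := Nat.exists_eq_pow_mul_and_not_dvd (orderOf_pos x).ne' p hp.out.ne_one
    set y := x ^ m with hy
    have hyp : y ^ p ^ a = 1 := by rw [hy, ← pow_mul, mul_comm, ← ham, pow_orderOf_eq_one]
    have hyR : y ∈ R := pow_mem hxR m
    have hDy : D y = 1 := by rw [hy, map_pow, hDx, one_pow]
    -- `y` centralises `M`
    set A := Subgroup.zpowers y with hA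
    have hcomm : ⁅M, A⁆ ≤ (frattini ↥M).map M.subtype := by
      refine le_trans ?_ (Subgroup.map_mono commutator_le_frattini_of_nilpotent)
      rw [Subgroup.commutator_le]
      intro n hn b hb
      obtain ⟨k, rfl⟩ := Subgroup.mem_zpowers_iff.1 hb
      have hDb : D ((y ^ k)⁻¹) = 1 := by rw [map_inv, map_zpow, hDy, one_zpow, inv_one]
      refine ⟨(⟨n, hn⟩ : M) * ((MulAut.conjNormal ((y ^ k)⁻¹) : MulAut M)⁻¹ ⟨n, hn⟩)⁻¹, ?_, ?_⟩
      · by_contra hne
        obtain ⟨l, hl⟩ := exists_linChar_ne_one (G := M) hne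
        refine hl ?_
        rw [map_mul, map_inv, mul_inv_eq_one]
        exact (DFunLike.congr_fun (DFunLike.congr_fun hDb l) ⟨n, hn⟩).symm
      · rw [map_mul, map_inv, commutatorElement_def]
        show n * (((MulAut.conjNormal ((y ^ k)⁻¹) : MulAut M)⁻¹ ⟨n, hn⟩ : M) : G)⁻¹ = _
        rw [MulAut.conjNormal_inv_apply]
        show n * ((y ^ k)⁻¹⁻¹ * n * (y ^ k)⁻¹)⁻¹ = _
        group
    have hyM : M ≤ Subgroup.centralizer (A : Set G) := by
      refine CfsgLib.Coprime.le_centralizer_of_frattini (Subgroup.le_normalizer_of_normal (H := M) |>.trans' le_top) ?_ hcomm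
      obtain ⟨i, -, hi⟩ := (Nat.dvd_prime_pow hp.out).1 (orderOf_dvd_of_pow_eq_one hyp)
      rw [hA, Nat.card_zpowers, hi]
      exact hMcard.symm.pow_left i
    -- the centraliser of `M` in `R` is nilpotent
    set C : Subgroup G := R ⊓ Subgroup.centralizer (M : Set G) with hC
    have hyC : y ∈ C := ⟨hyR, Subgroup.mem_centralizer_iff.2 fun n hn =>
      ((Subgroup.mem_centralizer_iff.1 (hyM hn)) y (Subgroup.mem_zpowers y)).symm⟩
    haveI : C.Normal := inferInstance
    have hCnil : Group.IsNilpotent ↥C := by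
      have hcen : ∀ z : C, ¬ p ∣ orderOf z → z ∈ Subgroup.center C := by
        intro z hz
        have hz' : ¬ p ∣ orderOf (z : G) := by rwa [Subgroup.orderOf_coe]
        have hzF : (z : G) ∈ F := hreg _ z.2.1 hz'
        have hzM : (z : G) ∈ M := by
          refine ⟨hzF, ?_⟩
          have hzord := orderOf_pos (z : G)
          -- decompose into prime power parts
          have hle : Subgroup.zpowers (z : G) ≤ pPrimeCore p G := by
            have htop : (pPrimeCore p G).subgroupOf (Subgroup.zpowers (z : G)) = ⊤ := by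
              refine CfsgLib.Constrained.eq_top_of_forall_sylow_le _ fun q hq => ?_
              haveI := Fact.mk hq
              obtain ⟨S⟩ : Nonempty (Sylow q ↥(Subgroup.zpowers (z : G))) := inferInstance
              refine ⟨S, fun w hw => ?_⟩
              rw [Subgroup.mem_subgroupOf]
              by_cases hqp : q = p
              · obtain ⟨i, hi⟩ := IsPGroup.iff_orderOf.mp S.isPGroup' ⟨w, hw⟩
                rw [Subgroup.orderOf_mk] at hi
                have hwd : orderOf (w : G) ∣ orderOf (z : G) :=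
                  orderOf_dvd_of_mem_zpowers w.2
                rcases Nat.eq_zero_or_pos i with rfl | hipos
                · rw [show w = 1 from orderOf_eq_one_iff.1 (by rw [hi, pow_zero])]; exact one_mem _
                · exfalso
                  refine hz' (dvd_trans ?_ hwd)
                  rw [Subgroup.orderOf_coe, hi, hqp]
                  exact dvd_pow_self p hipos.ne'
              · have hSF : (S : Subgroup ↥(Subgroup.zpowers (z : G))).map
                    (Subgroup.inclusion (Subgroup.zpowers_le.2 hzF)) ≤ ⊤ := le_top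
                obtain ⟨S', hS'⟩ := (S.isPGroup'.map (Subgroup.inclusion
                  (Subgroup.zpowers_le.2 hzF))).exists_le_sylow
                have hwq : (w : G) ∈ pCore q G :=
                  CfsgLib.Constrained.map_sylow_le_pCore hFn CfsgLib.Constrained.isNilpotent_fitting S'
                    ⟨_, hS' ⟨w, hw, rfl⟩, rfl⟩
                refine CfsgLib.Constrained.le_pPrimeCore_of_not_dvd inferInstance ?_ hwq
                obtain ⟨k, hk⟩ := IsPGroup.iff_card.mp
                  (CfsgLib.Constrained.isPGroup_pCore (p := q) (G := G))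
                rw [hk]
                exact fun hd => hqp ((Nat.prime_dvd_prime_iff_eq hp.out hq).mp
                  (hp.out.dvd_of_dvd_pow hd)).symm
            exact Subgroup.subgroupOf_eq_top.mp htop
          exact hle (Subgroup.mem_zpowers _)
        rw [Subgroup.mem_center_iff]
        intro w
        exact Subtype.ext ((Subgroup.mem_centralizer_iff.1 w.2.2 _ hzM).symm)
      have hpq : IsPGroup p (C ⧸ Subgroup.center C) := by
        intro q
        obtain ⟨w, rfl⟩ := QuotientGroup.mk'_surjective _ q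
        obtain ⟨b, n, hn, hbn⟩ := Nat.exists_eq_pow_mul_and_not_dvd (orderOf_pos w).ne' p hp.out.ne_one
        refine ⟨b, ?_⟩
        rw [← map_pow]
        refine (QuotientGroup.eq_one_iff _).2 (hcen _ fun hd => hn (hd.trans ?_))
        exact orderOf_dvd_of_pow_eq_one (by rw [← pow_mul, ← hbn, pow_orderOf_eq_one])
      haveI := hpq.isNilpotent
      exact Group.of_quotient_center_nilpotent inferInstance
    have hyF : y ∈ F := CfsgLib.Constrained.le_fitting inferInstance hCnil hyC
    -- the remaining part of `x` is a `p'`-element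
    have h1 : π x ^ m = 1 := by rw [← map_pow]; exact (QuotientGroup.eq_one_iff _).2 hyF
    obtain ⟨j, hj⟩ := hRp ⟨π x, hxR⟩
    have h2 : π x ^ p ^ j = 1 := congrArg Subtype.val hj
    have h3 := pow_gcd_eq_one.mpr ⟨h2, h1⟩
    rw [((hp.out.coprime_iff_not_dvd.2 hm).pow_left j).gcd_eq_one, pow_one] at h3
    exact (QuotientGroup.eq_one_iff x).1 h3
  set Q := R.map D with hQ
  have hQp : IsPGroup p ↥Q := by
    rintro ⟨_, x, hx, rfl⟩
    obtain ⟨j, hj⟩ := hRp ⟨π x, hx⟩
    refine ⟨j, Subtype.ext ?_⟩
    show (D x) ^ p ^ j = 1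
    rw [← map_pow]
    refine hFker _ ((QuotientGroup.eq_one_iff _).1 ?_)
    rw [← hπ] at *
    exact (map_pow π x _).trans (congrArg Subtype.val hj)
  -- `Q` has the order of the core
  have hcardQ : Nat.card ↥(pCore p (G ⧸ F)) ≤ Nat.card ↥Q := by
    have hsur : ∀ c : ↥(pCore p (G ⧸ F)), ∃ x ∈ R, π x = c := fun c => by
      obtain ⟨x, hx⟩ := QuotientGroup.mk'_surjective F (c : G ⧸ F)
      exact ⟨x, by rw [hR, Subgroup.mem_comap, hπ, hx]; exact c.2, hx⟩
    choose f hfR hf using hsur
    haveI : Finite (MulAut (M →* ℂˣ)) := Finite.of_injective (fun e => (e : _ → _)) DFunLike.coe_injective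
    refine Nat.card_le_card_of_injective (fun c => (⟨D (f c), f c, hfR c, rfl⟩ : Q)) fun c c' hcc => ?_
    have he : D (f c) = D (f c') := congrArg Subtype.val hcc
    have := hker ((f c)⁻¹ * f c') (mul_mem (inv_mem (hfR c)) (hfR c')) (by
      rw [map_mul, map_inv, he, inv_mul_cancel])
    exact Subtype.ext (by rw [← hf c, ← hf c']; exact (QuotientGroup.eq).2 this)
  refine hcardQ.trans ?_
  by_contra hbig
  push Not at hbig
  haveI : Finite (MulAut (M →* ℂˣ)) := Finite.of_injective (fun e => (e : _ → _)) DFunLike.coe_injective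
  obtain ⟨n, hn⟩ := IsPGroup.iff_card.mp hQp
  have hn2 : 2 ≤ n := by
    by_contra h2
    rw [hn] at hbig
    have := Nat.pow_le_pow_right hp.out.pos (show n ≤ 1 by omega)
    rw [pow_one] at this
    omega
  obtain ⟨B, hB⟩ := Sylow.exists_subgroup_card_pow_prime p (G := ↥Q) (n := 2)
    (hn ▸ pow_dvd_pow p hn2)
  set Q0 : Subgroup (MulAut (M →* ℂˣ)) := B.map Q.subtype with hQ0
  have hQ0card : Nat.card ↥Q0 = p ^ 2 := by rw [hQ0, Subgroup.card_subtype, hB]
  have hQ0p : IsPGroup p ↥Q0 := IsPGroup.of_card hQ0card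
  have hQ0c : ∀ a ∈ Q0, ∀ b ∈ Q0, a * b = b * a := fun a ha b hb =>
    congrArg Subtype.val (IsPGroup.commutative_of_card_eq_prime_sq hQ0card (⟨a, ha⟩ : Q0) ⟨b, hb⟩)
  obtain ⟨l, hl⟩ := exists_regular (p := p) (C := M →* ℂˣ)
    (fun c => ⟨Nat.card M, hMcard.symm, MonoidHom.ext fun z => by
      rw [MonoidHom.pow_apply, ← map_pow, pow_card_eq_one', map_one, MonoidHom.one_apply]⟩) Q0 hQ0p hQ0c
  let S : Subgroup (MulAut (M →* ℂˣ)) :=
    { carrier := {e | e l = l}
      mul_mem' := fun {a b} (ha : a l = l) (hb : b l = l) => by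
        show (a * b) l = l
        rw [MulAut.mul_apply, hb, ha]
      one_mem' := rfl
      inv_mem' := fun {a} (ha : a l = l) => by
        show a⁻¹ l = l
        conv_lhs => rw [← ha]
        exact a.symm_apply_apply l }
  have hS : ∀ e : MulAut (M →* ℂˣ), e ∈ S ↔ e l = l := fun e => Iff.rfl
  obtain ⟨χ, hχ⟩ := CfsgLib.RelDegree.exists_over (G := G) (linChar (l : M →* ℂˣ))
  obtain ⟨hdvd, -⟩ := CfsgLib.RelDegree.inertia_index_dvd χ _ hχ
  have hT : inertia M ((linChar (l : M →* ℂˣ) : IrrCharacter M) : M → ℂ) ≤ S.comap D := by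
    intro g hg
    rw [Subgroup.mem_comap, hS]
    have hg' : g⁻¹ ∈ inertia M ((linChar (l : M →* ℂˣ) : IrrCharacter M) : M → ℂ) := inv_mem hg
    refine MonoidHom.ext fun z => Units.ext ?_
    have h2 : conjFun M g ((linChar (l : M →* ℂˣ) : IrrCharacter M) : M → ℂ) z =
        ((linChar (l : M →* ℂˣ) : IrrCharacter M) : M → ℂ) z := by
      rw [show conjFun M g ((linChar (l : M →* ℂˣ) : IrrCharacter M) : M → ℂ) = _ from hg]
    exact h2
  have h2 : p ^ 2 ∣ charDegree (χ : G → ℂ) := by
    refine dvd_trans ?_ ((Subgroup.index_dvd_of_le hT).trans hdvd)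
    refine dvd_trans ?_ (CfsgLib.RelDegree.relIndex_dvd_index (S.comap D) R)
    rw [Subgroup.relIndex_comap, ← hQ]
    have hdiv : S.relIndex Q ∣ Nat.card ↥Q := Subgroup.relIndex_dvd_card S Q
    obtain ⟨i, -, hi⟩ := (Nat.dvd_prime_pow hp.out).1 (hn ▸ hdiv)
    have h0 : S.relIndex Q0 = p ^ 2 := by
      have hbot : S ⊓ Q0 = ⊥ := (Subgroup.eq_bot_iff_forall _).2 fun e he => hl e he.2 he.1
      rw [← Subgroup.inf_relIndex_right, hbot, Subgroup.relIndex_bot_left, hQ0card]
    have hle : S.relIndex Q0 ≤ S.relIndex Q := Subgroup.relIndex_le_of_le_right (Subgroup.map_subtype_le B)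
      (by rw [hi]; exact pow_ne_zero i hp.out.ne_zero)
    rw [hi, h0] at hle
    rw [hi]
    exact pow_dvd_pow p ((Nat.pow_le_pow_iff_right hp.out.one_lt).1 hle)
  have := (h χ) p (by rwa [← sq])
  exact hp.out.not_isUnit this

/-- The second derived subgroup is in the Fitting subgroup. -/
theorem derived_two_le_fitting
    (h : ∀ χ : Cfsg.IrrCharacter G, Squarefree (Cfsg.charDegree (χ : G → ℂ))) :
    derivedSeries G 2 ≤ fittingSubgroup G := by
  classical
  haveI : (fittingSubgroup G).Normal := CfsgLib.Constrained.instNormalFitting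
  set H := G ⧸ fittingSubgroup G
  haveI : Group.IsSolvable H :=
    Group.isSolvable_of_surjective (QuotientGroup.mk'_surjective (fittingSubgroup G))
  have hcent : commutator H ≤ Subgroup.centralizer (fittingSubgroup H : Set H) := by
    rw [Subgroup.le_centralizer_iff]
    refine le_of_eq_of_le CfsgLib.Constrained.fitting_eq_iSup_pCore ?_
    refine iSup₂_le fun q hq => ?_
    rw [← Subgroup.le_centralizer_iff]
    haveI := Fact.mk hq
    haveI hcyc : IsCyclic ↥(pCore q H) := by
      obtain ⟨k, hk⟩ := IsPGroup.iff_card.mp (CfsgLib.Constrained.isPGroup_pCore (p := q) (G := H))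
      have hle := card_pCore_quotient_le h q
      rcases k with _ | _ | k
      · haveI : Subsingleton ↥(pCore q H) := (Nat.card_eq_one_iff_unique.1 (by rw [hk, pow_zero])).1
        exact isCyclic_of_subsingleton
      · exact isCyclic_of_prime_card (p := q) (by rw [hk, zero_add, pow_one])
      · exfalso
        rw [hk] at hle
        have := Nat.pow_lt_pow_right hq.one_lt (show 1 < k + 1 + 1 by omega)
        rw [pow_one] at this
        exact absurd hle (not_le.2 this)
    intro c hc
    letI : CommGroup (MulAut ↥(pCore q H)) :=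
      { (inferInstance : Group (MulAut ↥(pCore q H))) with
        mul_comm := fun a b => (IsCyclic.mulAutMulEquiv ↥(pCore q H)).injective
          (by rw [map_mul, map_mul, mul_comm]) }
    have h1 : (MulAut.conjNormal (H := pCore q H) : H →* MulAut ↥(pCore q H)) c = 1 :=
      MonoidHom.mem_ker.1 (Abelianization.commutator_subset_ker _ hc)
    rw [Subgroup.mem_centralizer_iff]
    intro z hz
    have h2 : c * z * c⁻¹ = z := by
      have := congrArg Subtype.val (DFunLike.congr_fun h1 ⟨z, hz⟩)
      rw [MulAut.conjNormal_apply] at this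
      exact this
    exact (mul_inv_eq_iff_eq_mul.1 h2).symm
  have hle : commutator H ≤ fittingSubgroup H := hcent.trans CfsgLib.Constrained.centralizer_fitting_le
  have h2 : derivedSeries H 2 = ⊥ := by
    rw [derivedSeries_succ, derivedSeries_one, Subgroup.commutator_eq_bot_iff_le_centralizer]
    exact hcent.trans (Subgroup.centralizer_le hle)
  rw [← map_derivedSeries_eq (QuotientGroup.mk'_surjective (fittingSubgroup G)) 2,
    Subgroup.map_eq_bot_iff, QuotientGroup.ker_mk'] at h2
  exact h2

omit [Group.IsSolvable G] in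
/-- Cores have abelian derived subgroup. -/
theorem pCore_derived_comm
    (h : ∀ χ : Cfsg.IrrCharacter G, Squarefree (Cfsg.charDegree (χ : G → ℂ)))
    (p : ℕ) [hp : Fact p.Prime] :
    ⁅pCore p G, pCore p G⁆ ≤ Subgroup.centralizer ((⁅pCore p G, pCore p G⁆ : Subgroup G) : Set G) := by
  classical
  letI := Fintype.ofFinite G
  set P := pCore p G with hP
  letI := Fintype.ofFinite ↥P
  have hPp : IsPGroup p ↥P := CfsgLib.Constrained.isPGroup_pCore
  have hdeg : CfsgLib.TwoDegrees.Degrees ↥P p := by
    intro θ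
    obtain ⟨χ, hχ⟩ := CfsgLib.RelDegree.exists_over (G := G) θ
    have hsq := (h χ).squarefree_of_dvd (CfsgLib.RelDegree.inertia_index_dvd χ θ hχ).2
    obtain ⟨k, hk⟩ := IsPGroup.iff_card.mp hPp
    obtain ⟨i, -, hi⟩ := (Nat.dvd_prime_pow hp.out).1 (hk ▸ charDegree_dvd_card θ)
    rcases i with _ | _ | i
    · exact Or.inl (by rw [hi, pow_zero])
    · exact Or.inr (by rw [hi, zero_add, pow_one])
    · exfalso
      refine hp.out.not_isUnit (hsq p ?_)
      rw [hi, ← sq]
      exact pow_dvd_pow p (by omega)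
  have hcomm := CfsgLib.TwoDegrees.derived_two_of_monomial hdeg
    (CfsgLib.Chars.Apps.isMonomialFun_of_isNilpotent _ ↥P hPp.isNilpotent rfl)
  rw [← Subgroup.map_subtype_commutator]
  rintro _ ⟨a, ha, rfl⟩
  rw [Subgroup.mem_centralizer_iff]
  rintro _ ⟨b, hb, rfl⟩
  exact congrArg Subtype.val (hcomm b hb a ha)

omit [Group.IsSolvable G] in
theorem pCore_commute {p q : ℕ} [hp : Fact p.Prime] [hq : Fact q.Prime] (hne : p ≠ q) :
    pCore p G ≤ Subgroup.centralizer (pCore q G : Set G) := by
  intro x hx
  rw [Subgroup.mem_centralizer_iff]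
  intro y hy
  refine (Subgroup.commute_of_normal_of_disjoint _ _ inferInstance inferInstance ?_ x y hx hy).eq.symm
  refine disjoint_iff.2 (Subgroup.inf_eq_bot_of_coprime ?_)
  obtain ⟨i, hi⟩ := IsPGroup.iff_card.mp (CfsgLib.Constrained.isPGroup_pCore (p := p) (G := G))
  obtain ⟨j, hj⟩ := IsPGroup.iff_card.mp (CfsgLib.Constrained.isPGroup_pCore (p := q) (G := G))
  rw [hi, hj]
  exact ((Nat.coprime_primes hp.out hq.out).2 hne).pow i j

omit [Group.IsSolvable G] in
/-- The second derived subgroup of the Fitting subgroup is trivial. -/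
theorem fitting_derived_two
    (h : ∀ χ : Cfsg.IrrCharacter G, Squarefree (Cfsg.charDegree (χ : G → ℂ))) :
    ⁅⁅fittingSubgroup G, fittingSubgroup G⁆, ⁅fittingSubgroup G, fittingSubgroup G⁆⁆ = ⊥ := by
  classical
  set D : Subgroup G := ⨆ (p : ℕ) (_ : p.Prime), ⁅pCore p G, pCore p G⁆ with hD
  haveI : D.Normal := by
    rw [hD]
    haveI : ∀ p : ℕ, (⨆ (_ : p.Prime), ⁅pCore p G, pCore p G⁆ : Subgroup G).Normal := fun p => by
      haveI : (pCore p G).Normal := inferInstance
      exact Subgroup.iSup_normal _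
    exact Subgroup.iSup_normal _
  have hFD : ⁅fittingSubgroup G, fittingSubgroup G⁆ ≤ D := by
    refine le_of_le_of_eq ?_ (QuotientGroup.ker_mk' D)
    refine (Subgroup.map_eq_bot_iff _).1 ?_
    rw [Subgroup.map_commutator, Subgroup.commutator_eq_bot_iff_le_centralizer,
      CfsgLib.Constrained.fitting_eq_iSup_pCore]
    simp only [Subgroup.map_iSup]
    refine iSup₂_le fun p hp => ?_
    rw [Subgroup.le_centralizer_iff]
    refine iSup₂_le fun q hq => ?_
    haveI := Fact.mk hp
    haveI := Fact.mk hq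
    rw [← Subgroup.commutator_eq_bot_iff_le_centralizer, ← Subgroup.map_commutator,
      Subgroup.map_eq_bot_iff, QuotientGroup.ker_mk']
    by_cases hpq : q = p
    · subst hpq
      exact le_iSup₂ (f := fun (p : ℕ) (_ : p.Prime) => ⁅pCore p G, pCore p G⁆) q hq
    · rw [Subgroup.commutator_eq_bot_iff_le_centralizer.2 (pCore_commute hpq)]
      exact bot_le
  have hDD : D ≤ Subgroup.centralizer (D : Set G) := by
    rw [hD]
    refine iSup₂_le fun p hp => ?_
    rw [Subgroup.le_centralizer_iff]
    refine iSup₂_le fun q hq => ?_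
    haveI := Fact.mk hp
    haveI := Fact.mk hq
    by_cases hpq : q = p
    · subst hpq
      exact pCore_derived_comm h q
    · exact (Subgroup.commutator_le_self _).trans ((pCore_commute hpq).trans
        (Subgroup.centralizer_le (Subgroup.commutator_le_self _)))
  rw [Subgroup.commutator_eq_bot_iff_le_centralizer]
  exact hFD.trans (hDD.trans (Subgroup.centralizer_le hFD))

/-- Let `G` be a finite solvable group. If every irreducible complex character degree of `G` is squarefree (1 included), then the derived length of `G` is at most 4. -/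
theorem result {G : Type*} [Group G] [Finite G] [Group.IsSolvable G]
    (h : ∀ χ : Cfsg.IrrCharacter G, Squarefree (Cfsg.charDegree (χ : G → ℂ))) : derivedSeries G 4 = ⊥ := by
  have h2 := derived_two_le_fitting h
  have h3 := Subgroup.commutator_mono h2 h2
  rw [eq_bot_iff, ← fitting_derived_two h]
  rw [derivedSeries_succ, derivedSeries_succ]
  exact Subgroup.commutator_mono h3 h3

end Cfsg.Agent.S5010
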