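import Cfsg.Statements.S5014
import Cfsg.Agent.RootSubgroups.RankOne

set_option autoImplicit false
open Cfsg

namespace Cfsg.Agent.S5014

/-- Let X = ⟨A, B⟩ be a rank one group with unipotent subgroups A and B and let Ω be the set of conjugates of A under X. Then Ω has at least three members, X acts doubly transitively on Ω by conjugation (any two ordered pairs of distinct members are carried to one another by a single element of X), and A acts regularly on Ω with A removed: for C, D in Ω different from A there is exactly one element of A conjugating C to D. -/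
theorem result {G : Type*} [Group G] {A B : Subgroup G} (h : Cfsg.IsRankOnePair A B) :
    (∃ C₁ ∈ Cfsg.unipotentSubgroups A B, ∃ C₂ ∈ Cfsg.unipotentSubgroups A B, ∃ C₃ ∈ Cfsg.unipotentSubgroups A B,
      C₁ ≠ C₂ ∧ C₁ ≠ C₃ ∧ C₂ ≠ C₃) ∧
    (∀ C₁ ∈ Cfsg.unipotentSubgroups A B, ∀ C₂ ∈ Cfsg.unipotentSubgroups A B, ∀ D₁ ∈ Cfsg.unipotentSubgroups A B,
      ∀ D₂ ∈ Cfsg.unipotentSubgroups A B, C₁ ≠ C₂ → D₁ ≠ D₂ →
        ∃ x ∈ A ⊔ B, Cfsg.conjBy C₁ x = D₁ ∧ Cfsg.conjBy C₂ x = D₂) ∧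
    (∀ C ∈ Cfsg.unipotentSubgroups A B, ∀ D ∈ Cfsg.unipotentSubgroups A B, C ≠ A → D ≠ A →
      ∃! a : G, a ∈ A ∧ Cfsg.conjBy C a = D) := by
  have hB := CfsgLib.RootSubgroups.RankOne.right_mem_unipotent h
  refine ⟨?_, ?_, fun C hC D hD hCA hDA => CfsgLib.RootSubgroups.RankOne.regular h hC hD hCA hDA⟩
  · obtain ⟨a, ha, ha1⟩ := CfsgLib.RootSubgroups.RankOne.exists_left h
    refine ⟨A, CfsgLib.RootSubgroups.RankOne.left_mem_unipotent, B, hB, Cfsg.conjBy B a,
      CfsgLib.RootSubgroups.RankOne.conjBy_mem_unipotent hB (Subgroup.mem_sup_left ha), h.ne,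
      ?_, ?_⟩
    · intro he
      rw [eq_comm, CfsgLib.RootSubgroups.conjBy_eq_iff,
        CfsgLib.RootSubgroups.conjBy_self_of_mem (inv_mem ha)] at he
      exact h.ne he.symm
    · exact fun he => ha1 (CfsgLib.RootSubgroups.RankOne.eq_one_of_normalizes h ha he.symm)
  · intro C₁ hC₁ C₂ hC₂ D₁ hD₁ D₂ hD₂ hC hD
    obtain ⟨x, hx, hx1, hx2⟩ := CfsgLib.RootSubgroups.RankOne.exists_pair_map h hC₁ hC₂ hC
    obtain ⟨y, hy, hy1, hy2⟩ := CfsgLib.RootSubgroups.RankOne.exists_pair_map h hD₁ hD₂ hD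
    refine ⟨y * x⁻¹, mul_mem hy (inv_mem hx), ?_, ?_⟩
    · rw [← hx1, CfsgLib.RootSubgroups.conjBy_conjBy, inv_mul_cancel_right, hy1]
    · rw [← hx2, CfsgLib.RootSubgroups.conjBy_conjBy, inv_mul_cancel_right, hy2]

end Cfsg.Agent.S5014
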