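import Cfsg.Statements.S5015
import Cfsg.Agent.RootSubgroups.RankOne

set_option autoImplicit false
open Cfsg

namespace Cfsg.Agent.S5015

/-- Let a group Y act doubly transitively on a set Ω with at least three points, and suppose that the stabilizer of a point α contains a nilpotent subgroup A, normalized by that stabilizer, which acts regularly on the points other than α. Then for any y in Y moving α, the subgroups A and y A y⁻¹ are the unipotent subgroups of a rank one group, and the normal closure of A in Y (the subgroup generated by all conjugates of A) is generated by A and y A y⁻¹ alone. -/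
theorem result {Y Ω : Type*} [Group Y] [MulAction Y Ω]
    (h2 : MulAction.IsMultiplyPretransitive Y Ω 2) (hΩ : 3 ≤ ENat.card Ω) (α : Ω) (A : Subgroup Y)
    (hA : A ≤ MulAction.stabilizer Y α) (hAn : ∀ y ∈ MulAction.stabilizer Y α, Cfsg.conjBy A y = A)
    (hnil : Group.IsNilpotent A) (hreg : ∀ β γ : Ω, β ≠ α → γ ≠ α → ∃! a : Y, a ∈ A ∧ a • β = γ)
    (y : Y) (hy : y ∉ MulAction.stabilizer Y α) :
    Cfsg.IsRankOnePair A (Cfsg.conjBy A y) ∧ Subgroup.normalClosure (A : Set Y) = A ⊔ Cfsg.conjBy A y := by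
  classical
  -- the conjugate of `A` only depends on the image of `α`
  have hdep : ∀ u v : Y, u • α = v • α → Cfsg.conjBy A u = Cfsg.conjBy A v := by
    intro u v huv
    have hst : v⁻¹ * u ∈ MulAction.stabilizer Y α := by
      rw [MulAction.mem_stabilizer_iff, mul_smul, huv, inv_smul_smul]
    have := congrArg (fun C => Cfsg.conjBy C v) (hAn _ hst)
    simpa only [CfsgLib.RootSubgroups.conjBy_conjBy, mul_inv_cancel_left] using this
  have hyα : y • α ≠ α := fun he => hy (MulAction.mem_stabilizer_iff.2 he)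
  have hfixA : ∀ a ∈ A, a • α = α := fun a ha => MulAction.mem_stabilizer_iff.1 (hA ha)
  have hfixB : ∀ b ∈ Cfsg.conjBy A y, b • (y • α) = y • α := by
    intro b hb
    have := hfixA _ (CfsgLib.RootSubgroups.mem_conjBy.1 hb)
    rw [mul_smul, mul_smul, inv_smul_eq_iff] at this
    exact this
  -- a third point
  obtain ⟨γ, hγ1, hγ2⟩ : ∃ γ : Ω, γ ≠ α ∧ γ ≠ y • α := by
    by_contra hc
    push Not at hc
    have hle : ENat.card Ω ≤ ({α, y • α} : Set Ω).encard := by
      rw [← Set.encard_univ]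
      refine Set.encard_le_encard fun z _ => ?_
      by_cases hz : z = α
      · exact Or.inl hz
      · exact Or.inr (hc z hz)
    rw [Set.encard_pair hyα.symm] at hle
    exact absurd (hΩ.trans hle) (by norm_num)
  obtain ⟨a₀, ⟨ha₀, ha₀γ⟩, -⟩ := hreg _ _ hyα hγ1
  -- regularity of the conjugate
  have hregB : ∀ β δ : Ω, β ≠ y • α → δ ≠ y • α →
      ∃ b ∈ Cfsg.conjBy A y, b • β = δ := by
    intro β δ hβ hδ
    obtain ⟨a, ⟨ha, haδ⟩, -⟩ := hreg (y⁻¹ • β) (y⁻¹ • δ)
      (fun he => hβ (inv_smul_eq_iff.1 he)) (fun he => hδ (inv_smul_eq_iff.1 he))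
    refine ⟨y * a * y⁻¹, CfsgLib.RootSubgroups.mem_conjBy.2 (by simpa [mul_assoc] using ha), ?_⟩
    rw [mul_smul, mul_smul, haδ, smul_inv_smul]
  refine ⟨⟨?_, hnil, (Group.isNilpotent_congr
    (A.equivMapOfInjective _ (MulAut.conj y).injective)).1 hnil, ?_, ?_⟩, ?_⟩
  · intro he
    exact hγ2 (ha₀γ.symm.trans (hfixB a₀ (he ▸ ha₀)))
  · -- condition on `A`
    intro a ha ha1
    have hne : a⁻¹ • (y • α) ≠ y • α := by
      intro he
      obtain ⟨u, -, hu⟩ := hreg (y • α) (y • α) hyα hyα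
      exact ha1 (inv_eq_one.1 ((hu a⁻¹ ⟨inv_mem ha, he⟩).trans
        (hu 1 ⟨one_mem _, one_smul _ _⟩).symm))
    have hne' : a⁻¹ • (y • α) ≠ α := by
      intro he
      rw [inv_smul_eq_iff, hfixA a ha] at he
      exact hyα he
    obtain ⟨b, hb, hbα⟩ := hregB α _ hyα.symm hne
    refine ⟨b⁻¹, inv_mem hb, fun h1 => hne' ?_, ?_⟩
    · rw [inv_eq_one] at h1
      rw [← hbα, h1, one_smul]
    · rw [inv_inv, CfsgLib.RootSubgroups.conjBy_conjBy]
      exact hdep _ _ (by rw [mul_smul, hbα])
  · -- condition on the conjugate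
    intro b hb hb1
    have hne : b⁻¹ • α ≠ α := by
      intro he
      obtain ⟨u, -, hu⟩ := hreg (y⁻¹ • α) (y⁻¹ • α) (fun h0 => hyα (inv_smul_eq_iff.1 h0).symm)
        (fun h0 => hyα (inv_smul_eq_iff.1 h0).symm)
      have h1 : (y⁻¹ * b⁻¹ * y) • (y⁻¹ • α) = y⁻¹ • α := by
        rw [mul_smul, mul_smul, smul_inv_smul, he]
      have h0 : y⁻¹ * b⁻¹ * y ∈ A := by
        simpa [mul_assoc] using inv_mem (CfsgLib.RootSubgroups.mem_conjBy.1 hb)
      have h2 := (hu _ ⟨h0, h1⟩).trans (hu 1 ⟨one_mem _, one_smul _ _⟩).symm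
      apply hb1
      simpa [mul_assoc] using congrArg (fun t => y * t * y⁻¹) h2
    have hne' : b⁻¹ • α ≠ y • α := by
      intro he
      rw [inv_smul_eq_iff, hfixB b hb] at he
      exact hyα he.symm
    obtain ⟨a, ⟨ha, haα⟩, -⟩ := hreg (y • α) _ hyα hne
    refine ⟨a⁻¹, inv_mem ha, fun h1 => hne' ?_, ?_⟩
    · rw [inv_eq_one] at h1
      rw [← haα, h1, one_smul]
    · rw [inv_inv, CfsgLib.RootSubgroups.conjBy_conjBy]
      exact hdep _ _ (by rw [mul_smul, haα])
  · -- normal closure
    apply le_antisymm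
    · rw [Subgroup.normalClosure, Subgroup.closure_le]
      intro x hx
      obtain ⟨a, ha, hax⟩ := Group.mem_conjugatesOfSet_iff.1 hx
      obtain ⟨g, rfl⟩ := isConj_iff.1 hax
      have hmem : g * a * g⁻¹ ∈ Cfsg.conjBy A g :=
        CfsgLib.RootSubgroups.mem_conjBy.2 (by simpa [mul_assoc] using ha)
      by_cases hg : g • α = α
      · rw [hAn g (MulAction.mem_stabilizer_iff.2 hg)] at hmem
        exact Subgroup.mem_sup_left hmem
      · obtain ⟨c, ⟨hc, hcα⟩, -⟩ := hreg (y • α) (g • α) hyα hg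
        rw [hdep g (c * y) (by rw [mul_smul, hcα]), ← CfsgLib.RootSubgroups.conjBy_conjBy] at hmem
        have h1 := CfsgLib.RootSubgroups.mem_conjBy.1 hmem
        have h2 := mul_mem (mul_mem (Subgroup.mem_sup_left (T := Cfsg.conjBy A y) hc)
          (Subgroup.mem_sup_right h1)) (inv_mem (Subgroup.mem_sup_left (T := Cfsg.conjBy A y) hc))
        simpa [mul_assoc] using h2
    · refine sup_le (fun x hx => Subgroup.subset_normalClosure hx) (fun x hx => ?_)
      have hn := (Subgroup.normalClosure_normal (s := (A : Set Y))).conj_mem _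
        (Subgroup.subset_normalClosure (CfsgLib.RootSubgroups.mem_conjBy.1 hx)) y
      simpa [mul_assoc] using hn

end Cfsg.Agent.S5015
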