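import Cfsg.Statements.S5016
import Cfsg.Agent.RootSubgroups.SL2

set_option autoImplicit false
open Cfsg

namespace Cfsg.Agent.S5016

/-- For any field k, the special linear group SL₂(k) is a special rank one group with abelian unipotent subgroups, the unipotent subgroups being the group of lower unitriangular matrices and the group of upper unitriangular matrices. -/
theorem result (k : Type*) [Field k] :
    Cfsg.IsRankOneGroup (Matrix.SpecialLinearGroup (Fin 2) k) (Cfsg.lowerUnipotentSL2 k) (Cfsg.upperUnipotentSL2 k) ∧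
    Cfsg.IsSpecialRankOnePair (Cfsg.lowerUnipotentSL2 k) (Cfsg.upperUnipotentSL2 k) ∧
    Cfsg.HasAbelianUnipotents (Cfsg.lowerUnipotentSL2 k) (Cfsg.upperUnipotentSL2 k) := by
  refine ⟨⟨CfsgLib.RootSubgroups.SLTwo.sup_eq_top, CfsgLib.RootSubgroups.SLTwo.isRankOnePair⟩,
    CfsgLib.RootSubgroups.SLTwo.isSpecial, ⟨⟨fun x y => Subtype.ext ?_⟩⟩,
    ⟨⟨fun x y => Subtype.ext ?_⟩⟩⟩
  · obtain ⟨s, hs⟩ := CfsgLib.RootSubgroups.SLTwo.mem_lower.1 x.2
    obtain ⟨t, ht⟩ := CfsgLib.RootSubgroups.SLTwo.mem_lower.1 y.2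
    simp [hs, ht, CfsgLib.RootSubgroups.SLTwo.low_mul, add_comm]
  · obtain ⟨s, hs⟩ := CfsgLib.RootSubgroups.SLTwo.mem_upper.1 x.2
    obtain ⟨t, ht⟩ := CfsgLib.RootSubgroups.SLTwo.mem_upper.1 y.2
    simp [hs, ht, CfsgLib.RootSubgroups.SLTwo.up_mul, add_comm]

end Cfsg.Agent.S5016
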