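import Cfsg.Statements.S5017
import Cfsg.Agent.RootSubgroups.RankOne

set_option autoImplicit false
open Cfsg

namespace Cfsg.Agent.S5017

/-- Let X be a rank one group with unipotent subgroups A and B and N a normal subgroup of X. Then either X = N A or N lies in the centre of X. Consequently a perfect rank one group is quasisimple. -/
theorem result {X : Type*} [Group X] {A B : Subgroup X} (h : Cfsg.IsRankOneGroup X A B) :
    (∀ N : Subgroup X, N.Normal → N ⊔ A = ⊤ ∨ N ≤ Subgroup.center X) ∧
    (Group.IsPerfect X → Cfsg.IsQuasisimple X) := by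
  have hd := CfsgLib.RootSubgroups.RankOne.group_dichotomy h
  refine ⟨hd, fun hp => ⟨hp, ?_⟩⟩
  haveI : Nontrivial (X ⧸ Subgroup.center X) :=
    QuotientGroup.nontrivial_iff.2 (CfsgLib.RootSubgroups.RankOne.center_ne_top h)
  refine ⟨fun M hM => ?_⟩
  haveI : (M.comap (QuotientGroup.mk' (Subgroup.center X))).Normal := hM.comap _
  rcases hd _ this with hN | hN
  · right
    -- the quotient by `N` is perfect and nilpotent, hence trivial
    set N := M.comap (QuotientGroup.mk' (Subgroup.center X)) with hNdef
    have hsurj : Function.Surjective ((QuotientGroup.mk' N).comp A.subtype) := by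
      rw [← MonoidHom.range_eq_top, MonoidHom.range_comp, Subgroup.range_subtype]
      have hm : (N ⊔ A).map (QuotientGroup.mk' N) = ⊤ := by
        rw [hN, Subgroup.map_top_of_surjective _ (QuotientGroup.mk'_surjective N)]
      rw [Subgroup.map_sup, QuotientGroup.map_mk'_self, bot_sup_eq] at hm
      exact hm
    haveI := h.2.nilpotent_left
    haveI : Group.IsNilpotent (X ⧸ N) := Group.nilpotent_of_surjective _ hsurj
    have hperf : commutator (X ⧸ N) = ⊤ := by
      have h1 := congrArg (Subgroup.map (QuotientGroup.mk' N)) hp.commutator_eq_top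
      rw [Subgroup.map_top_of_surjective _ (QuotientGroup.mk'_surjective N)] at h1
      rw [commutator_def, Subgroup.map_commutator,
        Subgroup.map_top_of_surjective _ (QuotientGroup.mk'_surjective N)] at h1
      rw [commutator_def]
      exact h1
    have hall : ∀ n, derivedSeries (X ⧸ N) n = ⊤ := by
      intro n
      induction n with
      | zero => rfl
      | succ n ih => rw [derivedSeries_succ, ih, ← commutator_def, hperf]
    obtain ⟨n, hn⟩ := (inferInstance : Group.IsSolvable (X ⧸ N)).solvable
    have htriv : (⊤ : Subgroup (X ⧸ N)) = ⊥ := (hall n).symm.trans hn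
    have hNtop : N = ⊤ := by
      rw [eq_top_iff]
      intro x _
      have : (x : X ⧸ N) ∈ (⊥ : Subgroup (X ⧸ N)) := htriv ▸ Subgroup.mem_top _
      exact (QuotientGroup.eq_one_iff x).1 (Subgroup.mem_bot.1 this)
    rw [eq_top_iff]
    intro z _
    obtain ⟨x, rfl⟩ := QuotientGroup.mk'_surjective _ z
    exact (hNtop ▸ Subgroup.mem_top x : x ∈ N)
  · left
    rw [Subgroup.eq_bot_iff_forall]
    intro z hz
    obtain ⟨x, rfl⟩ := QuotientGroup.mk'_surjective _ z
    exact (QuotientGroup.eq_one_iff x).2 (hN hz)

end Cfsg.Agent.S5017
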