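import Cfsg.Statements.S5018
import Cfsg.Agent.RootSubgroups.RankOne

set_option autoImplicit false
open Cfsg

namespace Cfsg.Agent.S5018

/-- A rank one group is not nilpotent, and its second centre equals its centre. -/
theorem result {X : Type*} [Group X] {A B : Subgroup X} (h : Cfsg.IsRankOneGroup X A B) :
    Subgroup.upperCentralSeries X 2 = Subgroup.center X ∧ ¬ Group.IsNilpotent X := by
  have hle : Subgroup.center X ≤ Subgroup.upperCentralSeries X 2 := by
    rw [← Subgroup.upperCentralSeries_one]
    exact Subgroup.upperCentralSeries_mono X (by norm_num)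
  have h2 : Subgroup.upperCentralSeries X 2 = Subgroup.center X := by
    refine le_antisymm ?_ hle
    rcases CfsgLib.RootSubgroups.RankOne.group_dichotomy h (Subgroup.upperCentralSeries X 2) inferInstance with hN | hN
    · exfalso
      -- every element moves `A` into `A Z(X)`, which normalizes `A`
      obtain ⟨x, -, hxB⟩ := CfsgLib.RootSubgroups.RankOne.right_mem_unipotent h.2
      have hx : x ∈ Subgroup.upperCentralSeries X 2 ⊔ A := hN ▸ Subgroup.mem_top x
      rw [Subgroup.mem_sup_of_normal_left] at hx
      obtain ⟨z, hz, a, ha, rfl⟩ := hx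
      rw [← CfsgLib.RootSubgroups.conjBy_conjBy,
        CfsgLib.RootSubgroups.conjBy_self_of_mem ha] at hxB
      obtain ⟨b, hb, hb1⟩ :=
        CfsgLib.RootSubgroups.RankOne.exists_left (Cfsg.RankOnePair_symm h.2)
      apply hb1
      refine CfsgLib.RootSubgroups.RankOne.eq_one_of_normalizes
        (Cfsg.RankOnePair_symm h.2) hb ?_
      have hb' : z⁻¹ * b * z ∈ A := CfsgLib.RootSubgroups.mem_conjBy.1 (hxB ▸ hb)
      have hc := (Subgroup.mem_upperCentralSeries_succ_iff (n := 1) (x := z)).1 hz (z⁻¹ * b * z)
      rw [Subgroup.upperCentralSeries_one, Subgroup.mem_center_iff, commutatorElement_def] at hc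
      have hfix := CfsgLib.RootSubgroups.conjBy_eq_of_commutes (B := A)
        (fun y _ => (hc y).symm)
      have hbeq : z * (z⁻¹ * b * z) * z⁻¹ * (z⁻¹ * b * z)⁻¹ * (z⁻¹ * b * z) = b := by
        simp [mul_assoc]
      rw [← hbeq, ← CfsgLib.RootSubgroups.conjBy_conjBy,
        CfsgLib.RootSubgroups.conjBy_self_of_mem hb', hfix]
    · exact hN
  refine ⟨h2, fun hnil => CfsgLib.RootSubgroups.RankOne.center_ne_top h ?_⟩
  haveI := hnil
  have hstab : ∀ n, Subgroup.upperCentralSeries X (n + 1) = Subgroup.center X := by
    intro n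
    induction n with
    | zero => exact Subgroup.upperCentralSeries_one X
    | succ n ih =>
      ext z
      rw [Subgroup.mem_upperCentralSeries_succ_iff, ih, ← Subgroup.upperCentralSeries_one,
        ← Subgroup.mem_upperCentralSeries_succ_iff, h2, Subgroup.upperCentralSeries_one]
  obtain ⟨n, hn⟩ := Group.IsNilpotent.nilpotent (G := X)
  have hmono := Subgroup.upperCentralSeries_mono X (Nat.le_succ n)
  rw [hn, Nat.succ_eq_add_one, hstab n, top_le_iff] at hmono
  exact hmono

end Cfsg.Agent.S5018
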