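import Cfsg.Statements.S5020
import Cfsg.Agent.RootSubgroups.SpecialMinimal
import Cfsg.Agent.RootSubgroups.SpecialNormal

set_option autoImplicit false
open Cfsg

namespace Cfsg.Agent.S5020

/-- Let X be a special rank one group with abelian unipotent subgroups A and B, and H = N(A) ∩ N(B) its diagonal subgroup. Then either A has at most three elements and X is isomorphic to SL₂(2), SL₂(3) or PSL₂(3); or X = X' A with the commutator subgroup X' quasisimple and the commutator subgroup ⁅A, H⁆ having more than three elements. -/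
theorem result {X : Type*} [Group X] {A B : Subgroup X} (h : Cfsg.IsRankOneGroup X A B)
    (hs : Cfsg.IsSpecialRankOnePair A B) (hab : Cfsg.HasAbelianUnipotents A B) :
    (ENat.card A ≤ 3 ∧ (Nonempty (X ≃* Matrix.SpecialLinearGroup (Fin 2) (ZMod 2)) ∨
        Nonempty (X ≃* Matrix.SpecialLinearGroup (Fin 2) (ZMod 3)) ∨
        Nonempty (X ≃* Matrix.ProjectiveSpecialLinearGroup (Fin 2) (ZMod 3)))) ∨
    (commutator X ⊔ A = ⊤ ∧ Cfsg.IsQuasisimple (commutator X) ∧
      3 < ENat.card ↥(⁅A, Cfsg.rankOneDiagonal A B⁆ : Subgroup X)) := by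
  classical
  have hS := CfsgLib.RootSubgroups.AbSpecial.of_commutative hs hab.1 hab.2
  by_cases hA : 3 < ENat.card A
  · have hd : ⁅A ⊔ B, A ⊔ B⁆ = commutator X := by rw [h.1, commutator_def]
    refine Or.inr ⟨?_, ?_, ?_⟩
    · rw [← hd, CfsgLib.RootSubgroups.AbSpecial.derived_sup hS, h.1]
    · rw [← hd]; exact CfsgLib.RootSubgroups.AbSpecial.derived_quasisimple hS hA
    · obtain ⟨h1, h2⟩ := CfsgLib.RootSubgroups.AbSpecial.absorbs_diagonal hS
      exact CfsgLib.RootSubgroups.AbSpecial.three_lt_absorbing hS hA h2 h1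
  refine Or.inl ⟨not_lt.1 hA, ?_⟩
  haveI : Finite A := by
    rw [← ENat.card_lt_top]
    exact lt_of_le_of_lt (not_lt.1 hA) (by decide)
  have hA3 : Nat.card A ≤ 3 := by
    have := not_lt.1 hA
    rw [ENat.card_eq_coe_natCard] at this
    exact_mod_cast this
  obtain ⟨a, ha, ha1⟩ := CfsgLib.RootSubgroups.RankOne.exists_left hS.rk
  have hA1 : 1 < Nat.card A := Finite.one_lt_card_iff_nontrivial.2
    ⟨⟨a, ha⟩, 1, fun he => ha1 (congrArg Subtype.val he)⟩
  have key : ∀ p : ℕ, p.Prime → Nat.card A = p →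
      Nonempty (X ≃* Matrix.SpecialLinearGroup (Fin 2) (ZMod p)) ∨
        Nonempty (X ≃* Matrix.ProjectiveSpecialLinearGroup (Fin 2) (ZMod p)) := by
    intro p hp hcard
    haveI : Fact p.Prime := ⟨hp⟩
    have hexp : ∀ x ∈ A, x ^ p = 1 := fun x hx =>
      congrArg Subtype.val (hcard ▸ pow_card_eq_one' (x := (⟨x, hx⟩ : A)))
    have hgen : ∀ (C : Subgroup X), Nat.card C = p → ∀ c ∈ C, c ≠ 1 →
        C ≤ Subgroup.zpowers c := by
      intro C hC c hc hc1 x hx
      obtain ⟨n, hn⟩ := Subgroup.mem_zpowers_iff.1 (mem_zpowers_of_prime_card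
        (g := (⟨c, hc⟩ : C)) (g' := ⟨x, hx⟩) hC (fun he => hc1 (congrArg Subtype.val he)))
      exact ⟨n, congrArg Subtype.val hn⟩
    have hBcard : Nat.card B = p := by
      rw [← CfsgLib.RootSubgroups.AbSpecial.conjBy_flip_left hS ha ha1, ← hcard]
      exact Subgroup.card_map_of_injective (MulAut.conj _).injective
    have htop : Subgroup.closure ({a, CfsgLib.RootSubgroups.opp A B a} : Set X) = ⊤ := by
      rw [eq_top_iff, ← h.1]
      refine sup_le ((hgen A hcard a ha ha1).trans ?_) ((hgen B hBcard _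
        (CfsgLib.RootSubgroups.AbSpecial.opp_mem hS ha)
        (CfsgLib.RootSubgroups.AbSpecial.opp_ne_one hS ha ha1)).trans ?_)
      · rw [Subgroup.zpowers_le]; exact Subgroup.subset_closure (by simp)
      · rw [Subgroup.zpowers_le]; exact Subgroup.subset_closure (by simp)
    have e : X ≃* ↥(Subgroup.closure ({a, CfsgLib.RootSubgroups.opp A B a} : Set X)) :=
      Subgroup.topEquiv.symm.trans (MulEquiv.subgroupCongr htop.symm)
    exact (CfsgLib.RootSubgroups.AbSpecial.minimal_sl2 hS hexp ha ha1).imp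
      (fun ⟨f⟩ => ⟨e.trans f⟩) (fun ⟨f⟩ => ⟨e.trans f⟩)
  rcases (show Nat.card A = 2 ∨ Nat.card A = 3 by omega) with h2 | h3
  · rcases key 2 Nat.prime_two h2 with h' | hf
    · exact Or.inl h'
    · have hc : Subgroup.center (Matrix.SpecialLinearGroup (Fin 2) (ZMod 2)) = ⊥ := by
        rw [Subgroup.eq_bot_iff_forall]
        intro g hg
        obtain ⟨r, hr, hrg⟩ := Matrix.SpecialLinearGroup.mem_center_iff.1 hg
        rw [Fintype.card_fin] at hr
        have h1 : r = 1 := (show ∀ r : ZMod 2, r ^ 2 = 1 → r = 1 by decide) r hr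
        exact Subtype.ext (by rw [← hrg, h1]; simp)
      obtain ⟨f⟩ := hf
      exact Or.inl ⟨(f.trans (QuotientGroup.quotientMulEquivOfEq hc)).trans QuotientGroup.quotientBot⟩
  · exact Or.inr (key 3 Nat.prime_three h3)

end Cfsg.Agent.S5020
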