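import Cfsg.Statements.S5023
import Cfsg.Agent.RootSubgroups.Quadratic

set_option autoImplicit false
open Cfsg

namespace Cfsg.Agent.S5023

/-- Let X be a rank one group with unipotent subgroups A and B that acts faithfully on an abelian group V (written additively) with A acting quadratically: a' • (a • v − v) = a • v − v for all a, a' in A and v in V. Then A is either torsion-free or an elementary abelian p-group for some prime p. -/
theorem result {X : Type*} [Group X] {A B : Subgroup X} (h : Cfsg.IsRankOneGroup X A B)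
    {V : Type*} [AddCommGroup V] [DistribMulAction X V] (hf : ∀ x : X, (∀ v : V, x • v = v) → x = 1)
    (hq : ∀ a ∈ A, ∀ a' ∈ A, ∀ v : V, a' • (a • v - v) = a • v - v) :
    (∀ a ∈ A, a ≠ 1 → ¬ IsOfFinOrder a) ∨ ∃ p : ℕ, p.Prime ∧ Cfsg.IsElementaryAbelian p A := by
  -- the group does not act quadratically as a whole
  have hX : ¬ ∀ (x y : X) (v : V), y • (x • v - v) = x • v - v := by
    intro hall
    apply CfsgLib.RootSubgroups.RankOne.center_ne_top h
    rw [eq_top_iff]
    intro x _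
    rw [Subgroup.mem_center_iff]
    intro y
    refine mul_inv_eq_one.1 (hf _ fun v => ?_)
    have key : ∀ w : V, (y * x) • w = (x * y) • w := fun w => by
      have h1 := hall x y w
      have h2 := hall y x w
      rw [smul_sub, sub_eq_iff_eq_add] at h1 h2
      rw [mul_smul, mul_smul, h1, h2]
      abel
    rw [mul_smul, key, smul_inv_smul]
  have hqB := CfsgLib.RootSubgroups.Quad.quad_right h (N := V) hq
  have hsp := CfsgLib.RootSubgroups.Quad.special h hq hX
  by_cases htf : ∀ a ∈ A, a ≠ 1 → ¬ IsOfFinOrder a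
  · exact Or.inl htf
  right
  push Not at htf
  obtain ⟨a₀, ha₀, ha₀1, hfin⟩ := htf
  obtain ⟨p, hp, hpd⟩ := Nat.exists_prime_and_dvd (n := orderOf a₀)
    (fun h1 => ha₀1 (orderOf_eq_one_iff.1 h1))
  obtain ⟨a, ha, hap, ha1⟩ : ∃ a ∈ A, a ^ p = 1 ∧ a ≠ 1 := by
    refine ⟨a₀ ^ (orderOf a₀ / p), pow_mem ha₀ _, ?_, ?_⟩
    · rw [← pow_mul, Nat.div_mul_cancel hpd, pow_orderOf_eq_one]
    · exact pow_ne_one_of_lt_orderOf
        (Nat.div_pos (Nat.le_of_dvd hfin.orderOf_pos hpd) hp.pos).ne'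
        (Nat.div_lt_self hfin.orderOf_pos hp.one_lt)
  obtain ⟨b, hb, hb1, hab⟩ := h.2.cond_left a ha ha1
  have hbp : b ^ p = 1 := by
    have h1 := hsp.2 a ha ha1 b hb hb1 hab
    have h2 : b⁻¹ = (a * b⁻¹) * a * (a * b⁻¹)⁻¹ := by
      calc b⁻¹ = a * (a⁻¹ * b⁻¹ * a) * a⁻¹ := by simp [mul_assoc]
        _ = a * (b⁻¹ * a * b) * a⁻¹ := by rw [h1]
        _ = (a * b⁻¹) * a * (a * b⁻¹)⁻¹ := by simp [mul_assoc]
    have h3 : b⁻¹ ^ p = 1 := by rw [h2, conj_pow, hap]; simp
    simpa using h3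
  have hkill : ∀ {C : Subgroup X}, CfsgLib.RootSubgroups.Quad.IsQuad C V → ∀ c ∈ C, c ^ p = 1 →
      ∀ v : V, p • (c • v - v) = 0 := by
    intro C hqC c hc hcp v
    have h1 := CfsgLib.RootSubgroups.Quad.pow_smul_eq hqC hc p v
    rw [hcp, one_smul] at h1
    simpa using h1
  -- `p` maps the commutator space into the fixed points
  have hpM : ∀ m ∈ CfsgLib.RootSubgroups.Quad.comm (N := V) A ⊔
      CfsgLib.RootSubgroups.Quad.comm (N := V) B, ∀ c ∈ A, c • (p • m) = p • m := by
    intro m hm c hc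
    obtain ⟨u, hu, w, hw, rfl⟩ := AddSubgroup.mem_sup.1 hm
    have hu' := (CfsgLib.RootSubgroups.Quad.err_mem hq hqB ha hb hab hu).1
    have hw' := (CfsgLib.RootSubgroups.Quad.err_mem hqB hq hb ha hab.symm hw).2
    have h1 := nsmul_mem hu' p
    have h2 := nsmul_mem hw' p
    rw [nsmul_sub, hkill hq a ha hap, sub_zero] at h1
    rw [nsmul_sub, hkill hqB b hb hbp, sub_zero] at h2
    exact CfsgLib.RootSubgroups.Quad.fix_comm hq hc (by rw [nsmul_add]; exact add_mem h1 h2)
  refine ⟨p, hp, ⟨⟨fun x y => Subtype.ext ?_⟩⟩, fun c hc => ?_⟩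
  · show (x : X) * y = y * x
    refine mul_inv_eq_one.1 (hf _ fun v => ?_)
    have key : ∀ w : V, ((x : X) * y) • w = ((y : X) * x) • w := fun w => by
      have h1 := hq x x.2 y y.2 w
      have h2 := hq y y.2 x x.2 w
      rw [smul_sub, sub_eq_iff_eq_add] at h1 h2
      rw [mul_smul, mul_smul, h1, h2]
      abel
    rw [mul_smul, key, smul_inv_smul]
  · refine CfsgLib.RootSubgroups.RankOne.centralizer_inf_eq_one h.2 (pow_mem hc p)
      (Subgroup.center_le_centralizer _
        (CfsgLib.RootSubgroups.Quad.kern_le_center h hq hqB hX fun m hm => ?_))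
    rw [CfsgLib.RootSubgroups.Quad.pow_smul_eq hq hc p m, nsmul_sub, ← smul_comm c p m,
      hpM m hm c hc, sub_self, add_zero]

end Cfsg.Agent.S5023
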