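import Cfsg.Statements.S5024
import Cfsg.Agent.RootSubgroups.Contained

set_option autoImplicit false
open Cfsg

namespace Cfsg.Agent.S5024

/-- Let S be a set of abstract root subgroups of G, A and C members of S, B a rank one partner of A in S and D a rank one partner of C in S. If the rank one group ⟨A, B⟩ is contained in ⟨C, D⟩ then the two coincide, and C and D are conjugates of A inside ⟨A, B⟩. -/
theorem result {G : Type*} [Group G] {S : Set (Subgroup G)} (hS : Cfsg.IsRootSubgroupSet S)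
    {A B C D : Subgroup G} (hA : A ∈ S) (hC : C ∈ S) (hB : B ∈ Cfsg.rankOnePartners S A) (hD : D ∈ Cfsg.rankOnePartners S C)
    (hle : A ⊔ B ≤ C ⊔ D) : A ⊔ B = C ⊔ D ∧ C ∈ Cfsg.unipotentSubgroups A B ∧ D ∈ Cfsg.unipotentSubgroups A B := by
  obtain ⟨hBS, hAB⟩ := hB
  obtain ⟨hDS, hCD⟩ := hD
  have hmemU : ∀ E F : Subgroup G, E ∈ S → F ∈ S → Cfsg.IsRankOnePair E F → E ≤ C ⊔ D → F ≤ C ⊔ D →
      E ∈ Cfsg.unipotentSubgroups C D := by
    intro E F hE hF hEF hEle hFle
    refine (CfsgLib.RootSubgroups.RootSet.mem_or_central_of_le hS hC hDS hCD hE hEle).resolve_right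
      fun hcen => ?_
    obtain ⟨e, he, he1⟩ := CfsgLib.RootSubgroups.RankOne.exists_left hEF
    exact he1 (CfsgLib.RootSubgroups.RankOne.eq_one_of_commutes hEF he fun f hf =>
      (Subgroup.mem_centralizer_iff.1 (hcen he) f (hFle hf)).symm)
  have hAu := hmemU A B hA hBS hAB (le_sup_left.trans hle) (le_sup_right.trans hle)
  have hBu := hmemU B A hBS hA (Cfsg.RankOnePair_symm hAB) (le_sup_right.trans hle)
    (le_sup_left.trans hle)
  have hsup := CfsgLib.RootSubgroups.RankOne.sup_eq_of_mem hCD hAu hBu hAB.ne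
  obtain ⟨x, hx, hxA⟩ := hAu
  have key : ∀ E ∈ Cfsg.unipotentSubgroups C D, E ∈ Cfsg.unipotentSubgroups A B := by
    rintro E ⟨y, hy, rfl⟩
    refine ⟨y * x⁻¹, hsup ▸ mul_mem hy (inv_mem hx), ?_⟩
    rw [hxA, CfsgLib.RootSubgroups.conjBy_conjBy, inv_mul_cancel_right]
  exact ⟨hsup, key C CfsgLib.RootSubgroups.RankOne.left_mem_unipotent,
    key D (CfsgLib.RootSubgroups.RankOne.right_mem_unipotent hCD)⟩

end Cfsg.Agent.S5024
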