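import Cfsg.Statements.S5026
import Cfsg.Agent.RootSubgroups.RootSet

set_option autoImplicit false
open Cfsg

namespace Cfsg.Agent.S5026

/-- Let S be a degenerate set of abstract root subgroups of G (a set of abstract transvection groups) and let a, b be commuting non-identity elements of members of S with a b ≠ 1. Then the members of S centralizing a b are exactly those centralizing both a and b. -/
theorem result {G : Type*} [Group G] {S : Set (Subgroup G)} (hS : Cfsg.IsRootSubgroupSet S) (hdeg : Cfsg.IsDegenerateRootSet S)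
    {a b : G} (ha : a ∈ Cfsg.rootElements S) (hb : b ∈ Cfsg.rootElements S) (hab : a * b = b * a) (hab1 : a * b ≠ 1) :
    Cfsg.centralizingMembers S (Subgroup.zpowers (a * b)) =
      Cfsg.centralizingMembers S (Subgroup.zpowers a) ∩ Cfsg.centralizingMembers S (Subgroup.zpowers b) := by
  obtain ⟨ha1, A, hA, haA⟩ := ha
  obtain ⟨hb1, B, hB, hbB⟩ := hb
  have hmem : ∀ (E : Subgroup G) (x : G), E ≤ Subgroup.centralizer ((Subgroup.zpowers x : Subgroup G) : Set G) ↔
      ∀ e ∈ E, x * e = e * x := by
    intro E x
    rw [Subgroup.zpowers_eq_closure, Subgroup.centralizer_closure]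
    exact ⟨fun h e he => (Subgroup.mem_centralizer_singleton_iff.1 (h he)).symm,
      fun h e he => Subgroup.mem_centralizer_singleton_iff.2 (h e he).symm⟩
  apply Set.Subset.antisymm
  · rintro E ⟨hE, hEab⟩
    rw [hmem] at hEab
    have hfix : Cfsg.conjBy E (a * b) = E :=
      CfsgLib.RootSubgroups.conjBy_eq_of_commutes hEab
    have habn : Cfsg.conjBy E a⁻¹ = Cfsg.conjBy E b := by
      rw [CfsgLib.RootSubgroups.conjBy_eq_iff, inv_inv, CfsgLib.RootSubgroups.conjBy_conjBy]
      exact hfix.symm
    have hEA : ⁅E, A⁆ = ⊥ := by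
      rcases hS.pair E hE A hA with h | h | h
      · exact h
      · exfalso
        rcases hS.pair E hE B hB with h' | h' | h'
        · -- `b` centralizes `E`
          apply ha1
          have hbE : Cfsg.conjBy E b = E := CfsgLib.RootSubgroups.conjBy_eq_of_commutes
            fun e he => (CfsgLib.RootSubgroups.commutator_eq_bot_iff_commutes.1 h' e he b hbB).symm
          exact inv_eq_one.1 (CfsgLib.RootSubgroups.RankOne.eq_one_of_normalizes
            (Cfsg.RankOnePair_symm h) (inv_mem haA) (habn.trans hbE))
        · -- rank one with both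
          obtain ⟨e, he, -, hea⟩ := h.cond_right a haA ha1
          obtain ⟨e', he', -, heb⟩ := h'.cond_right b⁻¹ (inv_mem hbB) (by simpa using hb1)
          rw [inv_inv, ← habn, ← hea, CfsgLib.RootSubgroups.conjBy_eq_iff, inv_inv,
            CfsgLib.RootSubgroups.conjBy_conjBy] at heb
          -- `B` is a conjugate of `A` under `E`
          have hBmem : B ∈ Cfsg.unipotentSubgroups A E :=
            ⟨e' * e⁻¹, Subgroup.mem_sup_right (mul_mem he' (inv_mem he)), heb⟩
          have hEA' := Cfsg.RankOnePair_symm h
          have hABc : ⁅A, B⁆ = ⊥ := by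
            rcases hS.pair A hA B hB with hp | hp | hp
            · exact hp
            · exfalso
              refine ha1 (CfsgLib.RootSubgroups.RankOne.eq_one_of_normalizes hp haA ?_)
              refine CfsgLib.RootSubgroups.RootSet.eq_of_inter hS hB hE (Cfsg.RankOnePair_symm h')
                (hS.conj_mem B hB a) hbB (CfsgLib.RootSubgroups.mem_conjBy.2 ?_) hb1
              rw [mul_assoc, ← hab, inv_mul_cancel_left]
              exact hbB
            · exact (hdeg A hA B hB hp).elim
          have hAB : A = B := CfsgLib.RootSubgroups.RootSet.eq_of_mem_unipotent_of_commutes hEA'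
            CfsgLib.RootSubgroups.RankOne.left_mem_unipotent hBmem hABc
          exact hab1 (CfsgLib.RootSubgroups.RankOne.eq_one_of_normalizes hEA'
            (mul_mem haA (hAB ▸ hbB)) hfix)
        · exact hdeg E hE B hB h'
      · exact (hdeg E hE A hA h).elim
    have hcA : ∀ e ∈ E, a * e = e * a := fun e he =>
      (CfsgLib.RootSubgroups.commutator_eq_bot_iff_commutes.1 hEA e he a haA).symm
    refine ⟨⟨hE, (hmem E a).2 hcA⟩, ⟨hE, (hmem E b).2 fun e he => ?_⟩⟩
    have h1 := hEab e he
    have h2 : a * (b * e) = a * (e * b) := by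
      rw [← mul_assoc, h1, ← mul_assoc e a b, ← hcA e he, mul_assoc]
    exact mul_left_cancel h2
  · rintro E ⟨⟨hE, hEa⟩, -, hEb⟩
    rw [hmem] at hEa hEb
    refine ⟨hE, (hmem E (a * b)).2 fun e he => ?_⟩
    rw [mul_assoc, hEb e he, ← mul_assoc, hEa e he, mul_assoc]

end Cfsg.Agent.S5026
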