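import Cfsg.Statements.S5027
import Cfsg.Agent.RootSubgroups.RootSet

set_option autoImplicit false
open Cfsg

namespace Cfsg.Agent.S5027

/-- Let S be a set of abstract root subgroups of G such that every member of S has a rank one partner in S (the graph of rank one pairs on S has no isolated vertex). Then the second centre of G equals its centre. -/
theorem result {G : Type*} [Group G] {S : Set (Subgroup G)} (hS : Cfsg.IsRootSubgroupSet S)
    (hF : ∀ A ∈ S, ¬ Cfsg.IsIsolatedIn (Cfsg.FAdj S) S A) : Subgroup.upperCentralSeries G 2 = Subgroup.center G := by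
  apply le_antisymm
  · intro z hz
    have hz' : ∀ y : G, z * y * z⁻¹ * y⁻¹ ∈ Subgroup.center G := by
      intro y
      have h1 := (Subgroup.mem_upperCentralSeries_succ_iff (n := 1) (x := z)).1 hz y
      rwa [Subgroup.upperCentralSeries_one] at h1
    have key : ∀ A ∈ S, A ≤ Subgroup.centralizer ({z} : Set G) := by
      intro A hA a ha
      by_cases ha1 : a = 1
      · rw [ha1]; exact one_mem _
      obtain ⟨B, hB, hAB⟩ := CfsgLib.RootSubgroups.RootSet.exists_partner hA (hF A hA)
      have hroot : z * a * z⁻¹ * a⁻¹ * a ∈ Cfsg.rootElements S := by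
        rw [inv_mul_cancel_right]
        refine ⟨fun h1 => ha1 ?_, Cfsg.conjBy A z, hS.conj_mem A hA z,
          CfsgLib.RootSubgroups.mem_conjBy.2 (by simpa [mul_assoc] using ha)⟩
        simpa [mul_assoc] using congrArg (fun t => z⁻¹ * t * z) h1
      by_cases hx : z * a * z⁻¹ * a⁻¹ = 1
      · rw [Subgroup.mem_centralizer_singleton_iff]
        have : z * a = a * z := by
          calc z * a = z * a * z⁻¹ * a⁻¹ * (a * z) := by simp [mul_assoc]
            _ = a * z := by rw [hx, one_mul]
        exact this.symm
      · exact absurd hroot (CfsgLib.RootSubgroups.RootSet.translate_not_root hS hA hB hAB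
          (Subgroup.center_le_centralizer _ (hz' a)) hx a ha ha1)
    have htop : Subgroup.centralizer ({z} : Set G) = ⊤ := by
      rw [eq_top_iff, ← hS.generates]
      exact iSup₂_le key
    rw [Subgroup.mem_center_iff]
    intro g
    exact Subgroup.mem_centralizer_singleton_iff.1 (htop ▸ Subgroup.mem_top g)
  · rw [← Subgroup.upperCentralSeries_one]
    exact Subgroup.upperCentralSeries_mono G (by norm_num)

end Cfsg.Agent.S5027
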