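import Cfsg.Statements.S5029
import Cfsg.Agent.RootSubgroups.Commutator

set_option autoImplicit false
open Cfsg

namespace Cfsg.Agent.S5029

/-- Let S be a set of abstract root subgroups of G, A ∈ S having a rank one partner in S, and B ∈ S with C = ⁅A, B⁆ ∈ S. Then the members of S contained in AC are the conjugates of A by elements of B together with C, they partition AC, the members of S inside AC partition AC so that A is a line partner of C, and for every non-identity a ∈ A the map b ↦ a⁻¹ b⁻¹ a b is an isomorphism from B onto C. -/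
theorem result {G : Type*} [Group G] {S : Set (Subgroup G)} (hS : Cfsg.IsRootSubgroupSet S)
    {A B : Subgroup G} (hA : ¬ Cfsg.IsIsolatedIn (Cfsg.FAdj S) S A) (hAS : A ∈ S) (hB : B ∈ S) (hC : ⁅A, B⁆ ∈ S) :
    Cfsg.membersIn S (A ⊔ ⁅A, B⁆) = (fun b : G => Cfsg.conjBy A b) '' (B : Set G) ∪ {⁅A, B⁆} ∧
    Cfsg.IsSubgroupPartition (A ⊔ ⁅A, B⁆) (Cfsg.membersIn S (A ⊔ ⁅A, B⁆)) ∧
    A ∈ Cfsg.linePartners S ⁅A, B⁆ ∧
    ∀ a ∈ A, a ≠ 1 → ∃ φ : ↥B ≃* ↥⁅A, B⁆, ∀ b : ↥B, (φ b : G) = a⁻¹ * (b : G)⁻¹ * a * b := by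
  obtain ⟨P, hP, hAP⟩ := CfsgLib.RootSubgroups.RootSet.exists_partner hAS hA
  have h := CfsgLib.RootSubgroups.CommCase.of_mem hS hAS hB hC
  refine ⟨CfsgLib.RootSubgroups.CommCase.membersIn_eq hS h hAS hP hAP,
    CfsgLib.RootSubgroups.CommCase.partition hS h hAS hP hAP,
    CfsgLib.RootSubgroups.CommCase.line_commutator hS h hAS hP hAP, fun a ha ha1 => ?_⟩
  have ha' : a⁻¹ ∈ A := inv_mem ha
  have ha1' : a⁻¹ ≠ 1 := by simpa using ha1
  -- b ↦ [a⁻¹, b]⁻¹-type map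
  have hmem : ∀ b : ↥B, a⁻¹ * (b : G)⁻¹ * a * b ∈ ⁅A, B⁆ := fun b => by
    have := CfsgLib.RootSubgroups.CommCase.comm_mem h ha' (inv_mem b.2)
    simpa [mul_assoc] using this
  let f : ↥B →* ↥⁅A, B⁆ :=
    { toFun := fun b => ⟨a⁻¹ * (b : G)⁻¹ * a * b, hmem b⟩
      map_one' := Subtype.ext (by simp)
      map_mul' := fun b b' => Subtype.ext (by
        show a⁻¹ * ((b * b' : ↥B) : G)⁻¹ * a * ((b * b' : ↥B) : G) =
          (a⁻¹ * (b : G)⁻¹ * a * b) * (a⁻¹ * (b' : G)⁻¹ * a * b')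
        have h1 := CfsgLib.RootSubgroups.CommCase.comm_mul h ha' (inv_mem b'.2) (inv_mem b.2)
        simp only [inv_inv] at h1
        have h2 := h.2.1 _ (hmem b') _ (Subgroup.mem_sup_right b.2)
        have h3 := h.2.1 _ (hmem b) _ (SetLike.le_def.1 le_sup_left (one_mem A))
        calc a⁻¹ * ((b : G) * b')⁻¹ * a * ((b : G) * b')
            = (a⁻¹ * (b' : G)⁻¹ * a * b') * (b' : G)⁻¹ * (a⁻¹ * (b : G)⁻¹ * a * b) * b' := by
              simp [mul_assoc]
          _ = (a⁻¹ * (b' : G)⁻¹ * a * b') * ((b' : G)⁻¹ * ((a⁻¹ * (b : G)⁻¹ * a * b) * b')) := by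
              simp [mul_assoc]
          _ = (a⁻¹ * (b' : G)⁻¹ * a * b') * (a⁻¹ * (b : G)⁻¹ * a * b) := by
              rw [h.2.1 _ (hmem b) _ (Subgroup.mem_sup_right b'.2), inv_mul_cancel_left]
          _ = _ := by
              obtain ⟨x, hx, hxe⟩ : ∃ x ∈ (A ⊔ B : Subgroup G), x = a⁻¹ * (b : G)⁻¹ * a * b :=
                ⟨_, mul_mem (mul_mem (mul_mem (Subgroup.mem_sup_left ha')
                  (Subgroup.mem_sup_right (inv_mem b.2))) (Subgroup.mem_sup_left ha))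
                  (Subgroup.mem_sup_right b.2), rfl⟩
              rw [← hxe]
              exact h.2.1 _ (hmem b') x hx) }
  refine ⟨MulEquiv.ofBijective f ⟨?_, ?_⟩, fun b => rfl⟩
  · rw [injective_iff_map_eq_one]
    intro b hb
    by_contra hb1
    refine CfsgLib.RootSubgroups.CommCase.comm_ne_one hS h hAS hP hAP ha' ha1' (inv_mem b.2)
      (fun h0 => hb1 (Subtype.ext (inv_eq_one.1 h0))) ?_
    have := congrArg Subtype.val hb
    simpa [f, mul_assoc] using this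
  · intro c
    obtain ⟨b, hb, hbc⟩ := CfsgLib.RootSubgroups.CommCase.exists_comm_eq h ha' ha1' c.2
    refine ⟨⟨b⁻¹, inv_mem hb⟩, Subtype.ext ?_⟩
    simpa [f, mul_assoc] using hbc

end Cfsg.Agent.S5029
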