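import Cfsg.Statements.S5030
import Cfsg.Agent.RootSubgroups.ClassesTriple

set_option autoImplicit false
open Cfsg

namespace Cfsg.Agent.S5030

/-- Let S be a set of abstract root subgroups of G and A, B, C ∈ S with ⁅A, B⁆ ∈ S and ⁅B, C⁆ ∈ S, where A and C are different and commute. For a non-identity b ∈ B put X = ⟨A, b⁻¹ C b⟩ and Y = ⟨b⁻¹ A b, C⟩ and R = ⟨A, B, C⟩. Then X and Y are either both abelian or both nilpotent of class exactly two; X and Y commute elementwise; XY is normal in R with R = (XY) B; and R is nilpotent. -/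
theorem result {G : Type*} [Group G] {S : Set (Subgroup G)} (hS : Cfsg.IsRootSubgroupSet S)
    {A B C : Subgroup G} (hA : A ∈ S) (hB : B ∈ S) (hC : C ∈ S) (hAB : ⁅A, B⁆ ∈ S) (hBC : ⁅B, C⁆ ∈ S)
    (hAC : C ∈ Cfsg.commutingPartners S A)
    {b : G} (hb : b ∈ B) (hb1 : b ≠ 1) :
    ((IsMulCommutative ↥(A ⊔ Cfsg.conjBy C b⁻¹) ∧ IsMulCommutative ↥(Cfsg.conjBy A b⁻¹ ⊔ C)) ∨
      ((¬ IsMulCommutative ↥(A ⊔ Cfsg.conjBy C b⁻¹) ∧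
          ⁅⁅A ⊔ Cfsg.conjBy C b⁻¹, A ⊔ Cfsg.conjBy C b⁻¹⁆, A ⊔ Cfsg.conjBy C b⁻¹⁆ = ⊥) ∧
        (¬ IsMulCommutative ↥(Cfsg.conjBy A b⁻¹ ⊔ C) ∧
          ⁅⁅Cfsg.conjBy A b⁻¹ ⊔ C, Cfsg.conjBy A b⁻¹ ⊔ C⁆, Cfsg.conjBy A b⁻¹ ⊔ C⁆ = ⊥))) ∧
    ⁅A ⊔ Cfsg.conjBy C b⁻¹, Cfsg.conjBy A b⁻¹ ⊔ C⁆ = ⊥ ∧
    (∀ r ∈ A ⊔ B ⊔ C, Cfsg.conjBy ((A ⊔ Cfsg.conjBy C b⁻¹) ⊔ (Cfsg.conjBy A b⁻¹ ⊔ C)) r =
      (A ⊔ Cfsg.conjBy C b⁻¹) ⊔ (Cfsg.conjBy A b⁻¹ ⊔ C)) ∧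
    ((A ⊔ Cfsg.conjBy C b⁻¹) ⊔ (Cfsg.conjBy A b⁻¹ ⊔ C)) ⊔ B = A ⊔ B ⊔ C ∧
    Group.IsNilpotent ↥(A ⊔ B ⊔ C) := by
  have ht : CfsgLib.RootSubgroups.Cls.Triple S A B C :=
    ⟨hA, hB, hC, CfsgLib.RootSubgroups.CommCase.of_mem hS hA hB hAB,
      CfsgLib.RootSubgroups.CommCase.of_mem hS hB hC hBC, hAC.2.2⟩
  rw [sup_comm (Cfsg.conjBy A b⁻¹) C]
  have hcomm := ht.commute_sup hS hb
  rw [sup_comm (Cfsg.conjBy A b⁻¹) C] at hcomm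
  have hnorm := ht.core_normal hS hb hb1
  rw [sup_comm (Cfsg.conjBy A b⁻¹) C] at hnorm
  refine ⟨?_, hcomm, fun r hr => CfsgLib.RootSubgroups.conjBy_eq_self_iff.2 (hnorm hr), ?_,
    ht.nilpotent hS hb hb1⟩
  · by_cases h : ⁅A, ⁅B, C⁆⁆ = ⊥
    · exact Or.inl ⟨ht.abelian hS hb hb1 h, ht.symm.abelian hS hb hb1 (ht.bot_iff.1 h)⟩
    · exact Or.inr ⟨ht.class_two hS hb hb1 h,
        ht.symm.class_two hS hb hb1 (fun h' => h (ht.bot_iff.2 h'))⟩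
  · have hconj : ∀ K : Subgroup G, K ≤ A ⊔ B ⊔ C → Cfsg.conjBy K b⁻¹ ≤ A ⊔ B ⊔ C := by
      intro K hK x hx
      have hb' : b ∈ A ⊔ B ⊔ C := Subgroup.mem_sup_left (Subgroup.mem_sup_right hb)
      have h1 := hK (CfsgLib.RootSubgroups.mem_conjBy.1 hx)
      simp only [inv_inv] at h1
      simpa [mul_assoc] using mul_mem (mul_mem (inv_mem hb') h1) hb'
    have hA' : A ≤ A ⊔ B ⊔ C := le_sup_left.trans le_sup_left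
    have hC' : C ≤ A ⊔ B ⊔ C := le_sup_right
    refine le_antisymm (sup_le (sup_le (sup_le hA' (hconj C hC')) (sup_le hC' (hconj A hA')))
      (le_sup_right.trans le_sup_left)) ?_
    exact sup_le (sup_le ((le_sup_left.trans le_sup_left).trans le_sup_left) le_sup_right)
      ((le_sup_left.trans le_sup_right).trans le_sup_left)

end Cfsg.Agent.S5030
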