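import Cfsg.Statements.S5031
import Cfsg.Agent.RootSubgroups.Components

set_option autoImplicit false
open Cfsg

namespace Cfsg.Agent.S5031

/-- Let S be a set of abstract root subgroups of G and let A, B ∈ S lie in different connected components of the graph of rank one pairs on S, each component having more than one member. Then B is not a line partner of A. -/
theorem result {G : Type*} [Group G] {S : Set (Subgroup G)} (hS : Cfsg.IsRootSubgroupSet S)
    {A B : Subgroup G} (hA : A ∈ S) (hB : B ∈ S)
    (hne : Cfsg.componentOf (Cfsg.FAdj S) S A ≠ Cfsg.componentOf (Cfsg.FAdj S) S B)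
    (hA2 : ∃ A' ∈ Cfsg.componentOf (Cfsg.FAdj S) S A, A' ≠ A) (hB2 : ∃ B' ∈ Cfsg.componentOf (Cfsg.FAdj S) S B, B' ≠ B) :
    B ∉ Cfsg.linePartners S A := by
  intro h
  obtain ⟨A', hA', hA'ne⟩ := hA2
  obtain ⟨B', hB', hB'ne⟩ := hB2
  exact hne (CfsgLib.RootSubgroups.componentOf_eq (CfsgLib.RootSubgroups.reach_of_line hS hA
    (CfsgLib.RootSubgroups.exists_partner_of_ne hA'.2 hA'ne)
    (CfsgLib.RootSubgroups.exists_partner_of_ne hB'.2 hB'ne) h))

end Cfsg.Agent.S5031
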