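import Cfsg.Statements.S5032
import Cfsg.Agent.RootSubgroups.Components

set_option autoImplicit false
open Cfsg

namespace Cfsg.Agent.S5032

/-- Let S be a set of abstract root subgroups of G with more than one member. Then the graph of rank one pairs on S is connected if and only if S is a single conjugacy class of G and some member of S has a rank one partner in S. -/
theorem result {G : Type*} [Group G] {S : Set (Subgroup G)} (hS : Cfsg.IsRootSubgroupSet S) (h2 : ∃ A ∈ S, ∃ B ∈ S, A ≠ B) :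
    Cfsg.IsConnectedFamily (Cfsg.FAdj S) S ↔
      (Cfsg.IsConjClassOfSubgroups S ∧ ∃ A ∈ S, ¬ Cfsg.IsIsolatedIn (Cfsg.FAdj S) S A) := by
  obtain ⟨A, hA, B, hB, hAB⟩ := h2
  constructor
  · intro hc
    refine ⟨⟨⟨A, hA⟩, fun X hX Y hY => CfsgLib.RootSubgroups.conj_of_reach (hc X hX Y hY)⟩,
      A, hA, fun hiso => ?_⟩
    obtain ⟨P, hP, hAP⟩ := CfsgLib.RootSubgroups.exists_partner_of_ne (hc A hA B hB) hAB.symm
    exact (hiso.2 P).1 ⟨hA, hP, hAP⟩
  · rintro ⟨hcl, A₀, hA₀, hiso⟩
    obtain ⟨P, hP, hAP⟩ := CfsgLib.RootSubgroups.RootSet.exists_partner hA₀ hiso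
    exact CfsgLib.RootSubgroups.connected_of_class hS hcl hA₀ hP hAP

end Cfsg.Agent.S5032
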