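import Cfsg.Statements.S5033
import Cfsg.Agent.RootSubgroups.Quasisimple

set_option autoImplicit false
open Cfsg

namespace Cfsg.Agent.S5033

/-- Quasisimplicity criterion for groups generated by abstract root subgroups. Let S be a set of abstract root subgroups of G with more than one member such that: the graph of rank one pairs on S is connected; no two different members of S have the same set of commuting members of S; if S is degenerate then every member of S has more than three elements; and every rank one pair in S is special. Then for every A ∈ S one has G = G' A with A ∩ G' ≠ 1, and the commutator subgroup G' is quasisimple. Moreover G is perfect if S is non-degenerate, or if some rank one pair A, B in S generates a perfect group. -/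
theorem result {G : Type*} [Group G] {S : Set (Subgroup G)} (hS : Cfsg.IsRootSubgroupSet S) (h2 : ∃ A ∈ S, ∃ B ∈ S, A ≠ B)
    (h1 : Cfsg.IsConnectedFamily (Cfsg.FAdj S) S)
    (h2' : ∀ A ∈ S, ∀ C ∈ S, A ≠ C → Cfsg.centralizingMembers S A ≠ Cfsg.centralizingMembers S C)
    (h3 : Cfsg.IsDegenerateRootSet S → ∀ A ∈ S, 3 < ENat.card A)
    (h4 : ∀ A ∈ S, ∀ B ∈ Cfsg.rankOnePartners S A, Cfsg.IsSpecialRankOnePair A B) :
    (∀ A ∈ S, commutator G ⊔ A = ⊤ ∧ A ⊓ commutator G ≠ ⊥) ∧ Cfsg.IsQuasisimple ↥(commutator G) ∧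
    (Cfsg.IsNondegenerateRootSet S → commutator G = ⊤) ∧
    ((∃ A ∈ S, ∃ B ∈ Cfsg.rankOnePartners S A, Group.IsPerfect ↥(A ⊔ B)) → commutator G = ⊤) := by
  obtain ⟨A₀, hA₀, B₀, hB₀, hne⟩ := h2
  have hpart : ∀ A ∈ S, ∃ B ∈ S, Cfsg.IsRankOnePair A B := by
    intro A hA
    by_cases hAA : A = A₀
    · exact CfsgLib.RootSubgroups.exists_partner_of_ne (h1 A hA B₀ hB₀) (hAA ▸ hne.symm)
    · exact CfsgLib.RootSubgroups.exists_partner_of_ne (h1 A hA A₀ hA₀) (Ne.symm hAA)
  have h : CfsgLib.RootSubgroups.Criterion S :=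
    ⟨hS, fun A hA B hB => CfsgLib.RootSubgroups.conj_of_reach (h1 A hA B hB), hpart, h1, h2', h3,
      fun A hA B hB hAB => h4 A hA B ⟨hB, hAB⟩⟩
  refine ⟨fun A hA => ⟨h.le_supplement hA, h.inf_derived_ne_bot hA⟩, h.derived_quasisimple hA₀,
    ?_, ?_⟩
  · rintro ⟨-, -, P, hP, Q, hQ, hcc⟩
    exact h.eq_top_of_member_le inferInstance hcc.1 (Subgroup.commutator_mono le_top le_top)
  · rintro ⟨A, hA, B, hB, hperf⟩
    refine h.eq_top_of_member_le inferInstance hA ?_
    have hc : commutator ↥(A ⊔ B) = ⊤ := hperf.commutator_eq_top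
    have he : (⁅A ⊔ B, A ⊔ B⁆ : Subgroup G) = A ⊔ B := by
      rw [← Subgroup.map_subtype_commutator, hc, ← MonoidHom.range_eq_map, Subgroup.range_subtype]
    exact (le_sup_left.trans he.ge).trans (Subgroup.commutator_mono le_top le_top)

end Cfsg.Agent.S5033
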