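import Cfsg.Statements.S5037
import Cfsg.Agent.RootSubgroups.ClassesIncomp

set_option autoImplicit false
open Cfsg

namespace Cfsg.Agent.S5037

/-- Let S be a class of abstract root subgroups of G that is either degenerate or non-degenerate (so either the commutator case never occurs, or all three cases occur), and A ≠ C members of S. If every member of S commuting with A commutes with C, then A and C have the same commuting members of S; and if every rank one partner of A is a rank one partner of C, then A and C commute and have the same rank one partners. -/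
theorem result {G : Type*} [Group G] {S : Set (Subgroup G)} (hS : Cfsg.IsRootSubgroupClass S)
    (hdn : Cfsg.IsDegenerateRootSet S ∨ Cfsg.IsNondegenerateRootSet S)
    {A C : Subgroup G} (hA : A ∈ S) (hC : C ∈ S) (hAC : A ≠ C) :
    (Cfsg.centralizingMembers S A ⊆ Cfsg.centralizingMembers S C →
      Cfsg.centralizingMembers S A = Cfsg.centralizingMembers S C) ∧
    (Cfsg.rankOnePartners S A ⊆ Cfsg.rankOnePartners S C →
      ⁅A, C⁆ = ⊥ ∧ Cfsg.rankOnePartners S A = Cfsg.rankOnePartners S C) := by
  have hall : CfsgLib.RootSubgroups.Cls.AllPartners S := by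
    rcases hdn with hd | hn
    · by_cases hr : ∃ X ∈ S, ∃ Y ∈ S, Cfsg.IsRankOnePair X Y
      · obtain ⟨X, hX, Y, hY, h⟩ := hr
        exact CfsgLib.RootSubgroups.Cls.allPartners_of_class hS.2 hS.1 hX hY h
      · exfalso
        push Not at hr
        obtain ⟨g, rfl⟩ := hS.2.2 A hA C hC
        have hle : (⊤ : Subgroup G) ≤ Subgroup.centralizer (A : Set G) := by
          rw [← hS.1.generates]
          refine iSup₂_le fun E hE => ?_
          rcases hS.1.pair E hE A hA with h | h | h
          · exact Subgroup.commutator_eq_bot_iff_le_centralizer.1 h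
          · exact absurd h (hr E hE A hA)
          · exact absurd h (hd E hE A hA)
        exact hAC (CfsgLib.RootSubgroups.conjBy_eq_of_commutes fun a ha =>
          (Subgroup.mem_centralizer_iff.1 (hle (Subgroup.mem_top g)) a ha).symm).symm
    · obtain ⟨-, ⟨X, hX, Y, hY, h⟩, -⟩ := hn
      exact CfsgLib.RootSubgroups.Cls.allPartners_of_class hS.2 hS.1 hX hY h
  exact ⟨CfsgLib.RootSubgroups.Cls.centralizing_eq hS.1 hall hA hC,
    CfsgLib.RootSubgroups.Cls.rankOne_eq hS.1 hall hA hC⟩

end Cfsg.Agent.S5037
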