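import Cfsg.Statements.S5043
import Cfsg.Agent.RootSubgroups.SLTransvection

set_option autoImplicit false
open Matrix
open Cfsg

namespace Cfsg.Agent.S5043

/-- Let k be a field and n a natural number. In SL_{n+3}(k) (so in every dimension at least 3) the conjugates of the root subgroup of elementary transvections 1 + c E₁₂ (c ∈ k) — that is, the groups of transvections attached to an incident point–hyperplane pair — form a non-degenerate class of abstract k-root subgroups of SL_{n+3}(k) whose graph of rank one pairs is connected. -/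
theorem result (k : Type*) [Field k] (n : ℕ) :
    Cfsg.IsRootSubgroupClass {A : Subgroup (Matrix.SpecialLinearGroup (Fin (n + 3)) k) |
        ∃ g : Matrix.SpecialLinearGroup (Fin (n + 3)) k,
          A = Cfsg.conjBy (Subgroup.closure {t : Matrix.SpecialLinearGroup (Fin (n + 3)) k |
            ∃ c : k, (t : Matrix (Fin (n + 3)) (Fin (n + 3)) k) = Matrix.transvection 0 1 c}) g} ∧
    Cfsg.IsNondegenerateRootSet {A : Subgroup (Matrix.SpecialLinearGroup (Fin (n + 3)) k) |
        ∃ g : Matrix.SpecialLinearGroup (Fin (n + 3)) k,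
          A = Cfsg.conjBy (Subgroup.closure {t : Matrix.SpecialLinearGroup (Fin (n + 3)) k |
            ∃ c : k, (t : Matrix (Fin (n + 3)) (Fin (n + 3)) k) = Matrix.transvection 0 1 c}) g} ∧
    Cfsg.IsKRootSubgroupSet k {A : Subgroup (Matrix.SpecialLinearGroup (Fin (n + 3)) k) |
        ∃ g : Matrix.SpecialLinearGroup (Fin (n + 3)) k,
          A = Cfsg.conjBy (Subgroup.closure {t : Matrix.SpecialLinearGroup (Fin (n + 3)) k |
            ∃ c : k, (t : Matrix (Fin (n + 3)) (Fin (n + 3)) k) = Matrix.transvection 0 1 c}) g} ∧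
    Cfsg.IsConnectedFamily (Cfsg.FAdj {A : Subgroup (Matrix.SpecialLinearGroup (Fin (n + 3)) k) |
        ∃ g : Matrix.SpecialLinearGroup (Fin (n + 3)) k,
          A = Cfsg.conjBy (Subgroup.closure {t : Matrix.SpecialLinearGroup (Fin (n + 3)) k |
            ∃ c : k, (t : Matrix (Fin (n + 3)) (Fin (n + 3)) k) = Matrix.transvection 0 1 c}) g})
      {A : Subgroup (Matrix.SpecialLinearGroup (Fin (n + 3)) k) |
        ∃ g : Matrix.SpecialLinearGroup (Fin (n + 3)) k,
          A = Cfsg.conjBy (Subgroup.closure {t : Matrix.SpecialLinearGroup (Fin (n + 3)) k |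
            ∃ c : k, (t : Matrix (Fin (n + 3)) (Fin (n + 3)) k) = Matrix.transvection 0 1 c}) g} := by
  have h3 : 3 ≤ Fintype.card (Fin (n + 3)) := by simp
  have hset : {A : Subgroup (Matrix.SpecialLinearGroup (Fin (n + 3)) k) |
      ∃ g : Matrix.SpecialLinearGroup (Fin (n + 3)) k,
        A = Cfsg.conjBy (Subgroup.closure {t : Matrix.SpecialLinearGroup (Fin (n + 3)) k |
          ∃ c : k, (t : Matrix (Fin (n + 3)) (Fin (n + 3)) k) = Matrix.transvection 0 1 c}) g} =
      CfsgLib.RootSubgroups.SLTransv.transvectionSubgroups (Fin (n + 3)) k := by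
    have h01 : (0 : Fin (n + 3)) ≠ 1 := Fin.zero_ne_one
    have hcl := (CfsgLib.RootSubgroups.SLTransv.rootSubgroupClass (F := k) h3).1.1
    ext A
    simp only [Set.mem_setOf_eq, CfsgLib.RootSubgroups.SLTransv.closure_base h01]
    refine ⟨?_, fun hA => ?_⟩
    · rintro ⟨g, rfl⟩
      exact hcl.conj_mem _ (CfsgLib.RootSubgroups.SLTransv.base_mem h01) g
    · obtain ⟨g, hg⟩ := CfsgLib.RootSubgroups.SLTransv.exists_conjBy_base h3 h01 hA
      exact ⟨g⁻¹, by rw [← hg, CfsgLib.RootSubgroups.conjBy_conjBy, inv_mul_cancel,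
        CfsgLib.RootSubgroups.conjBy_one]⟩
  rw [hset]
  obtain ⟨h1, h2, h4⟩ := CfsgLib.RootSubgroups.SLTransv.rootSubgroupClass (F := k) h3
  exact ⟨h1, h2, h4, CfsgLib.RootSubgroups.SLTransv.connected⟩

end Cfsg.Agent.S5043
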