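import Cfsg.Statements.S5049
import Cfsg.Agent.Eq.Def_RootSubgroups
import Cfsg.Agent.CharP.PCore

set_option autoImplicit false
open Cfsg

namespace Cfsg.Agent.S5049

/-- Let G be a finite group generated by a set D of odd transpositions (root involutions with no product of order 4), Q = O₂(G), and for a ∈ D let Q_a be the commutator subgroup of Q with a. Then every member of D commuting with a centralizes Q_a; and for b ∈ D with ab of odd order greater than 1, the centralizer of ab in Q is the intersection of the centralizers of a and b in Q. -/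
theorem result {G : Type*} [Group G] [Finite G] {D : Set G} (hD : Cfsg.IsOddTranspositionSet D) {a : G} (ha : a ∈ D) :
    (∀ e ∈ Cfsg.commutingMembers D a, ∀ q ∈ ⁅Cfsg.pCore 2 G, Subgroup.zpowers a⁆, e * q = q * e) ∧
    (∀ b ∈ Cfsg.oddPartners D a,
      Cfsg.pCore 2 G ⊓ Subgroup.centralizer {a * b} = Cfsg.pCore 2 G ⊓ Subgroup.centralizer {a} ⊓ Subgroup.centralizer {b}) := by
  obtain ⟨hDr, hD4⟩ := hD
  set Q := Cfsg.pCore 2 G with hQdef
  have hQn : Q.Normal := Cfsg.pCore_normal 2 G
  have hQ2 : IsPGroup 2 Q := CfsgLib.CharP.isPGroup_pCore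
  have hinv : ∀ {d : G}, d ∈ D → d⁻¹ = d := fun {d} hd =>
    inv_eq_of_mul_eq_one_right (by
      have := pow_orderOf_eq_one d
      rwa [hDr.orderOf_eq d hd, pow_two] at this)
  -- members whose product lies in `Q` times a product of commuting members commute
  have key : ∀ u ∈ D, ∀ v ∈ D, (∃ n, (u * v) ^ 2 ^ n = 1) → u * v = v * u := by
    rintro u hu v hv ⟨n, hn⟩
    rcases hDr.pair u hu v hv with h | h | h
    · exact h
    · obtain ⟨j, hj, hje⟩ := (Nat.dvd_prime_pow Nat.prime_two).1 (orderOf_dvd_of_pow_eq_one hn)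
      rcases Nat.eq_zero_or_pos j with rfl | hpos
      · rw [pow_zero] at hje
        have h1 : u * v = 1 := orderOf_eq_one_iff.1 hje
        have : v = u := by rw [← hinv hu]; exact (inv_eq_of_mul_eq_one_right h1).symm
        rw [this]
      · rw [hje] at h
        exact absurd h (by simp [Nat.not_odd_iff_even, Nat.even_pow, Nat.ne_of_gt hpos])
    · exact absurd h.1 (hD4 u hu v hv)
  have hconjQ : ∀ q ∈ Q, ∀ e ∈ D, (∀ u ∈ D, u * e = e * u →
      (u * (q * e * q⁻¹) = (q * e * q⁻¹) * u)) := by
    intro q hq e he u hu hue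
    refine key u hu _ (hDr.conj_mem e he q) ?_
    -- the square of the product lies in `Q`
    have hx : u * (q * e * q⁻¹) = (u * e) * ((e⁻¹ * q * e) * q⁻¹) := by simp [mul_assoc]
    have ht : (e⁻¹ * q * e) * q⁻¹ ∈ Q := by
      refine mul_mem ?_ (inv_mem hq)
      simpa using hQn.conj_mem q hq e⁻¹
    set t := (e⁻¹ * q * e) * q⁻¹ with htdef
    have hsq : (u * e) * (u * e) = 1 := by
      rw [mul_assoc, ← mul_assoc e u e, ← hue]
      rw [mul_assoc u e e]
      have he2 : e * e = 1 := by nth_rw 1 [← hinv he]; exact inv_mul_cancel e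
      have hu2 : u * u = 1 := by nth_rw 1 [← hinv hu]; exact inv_mul_cancel u
      rw [he2, mul_one, hu2]
    have hmem : ((u * e) * t) ^ 2 ∈ Q := by
      have : ((u * e) * t) ^ 2 = ((u * e) * t * (u * e)⁻¹) * ((u * e) * (u * e)) * t := by
        simp [pow_two, mul_assoc]
      rw [this, hsq, mul_one]
      exact mul_mem (hQn.conj_mem t ht _) ht
    obtain ⟨n, hn⟩ := hQ2 ⟨_, hmem⟩
    refine ⟨n + 1, ?_⟩
    rw [hx, pow_succ', pow_mul]
    exact congrArg Subtype.val hn
  constructor
  · rintro e ⟨he, hea⟩
    have hle : ⁅Q, Subgroup.zpowers a⁆ ≤ Subgroup.centralizer ({e} : Set G) := by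
      rw [Subgroup.commutator_le]
      intro q hq z hz
      have ha' : ∀ g : G, g ∈ Subgroup.zpowers a → g = 1 ∨ g = a := by
        intro g hg
        obtain ⟨i, rfl⟩ := Subgroup.mem_zpowers_iff.1 hg
        rw [← zpow_mod_orderOf, hDr.orderOf_eq a ha]
        rcases Int.emod_two_eq_zero_or_one i with h | h <;> simp [h]
      rcases ha' z hz with rfl | rfl
      · rw [commutatorElement_one_right]; exact one_mem _
      · rw [Subgroup.mem_centralizer_singleton_iff, commutatorElement_def]
        have h1 := hconjQ q hq z ha e he hea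
        rw [mul_assoc, hinv ha, ← hea, ← mul_assoc, ← h1, mul_assoc]
    intro q hq
    exact (Subgroup.mem_centralizer_singleton_iff.1 (hle hq)).symm
  · rintro b ⟨hb, hne, hodd⟩
    apply le_antisymm
    · rintro q ⟨hq, hqc⟩
      have hc : q * (a * b) = (a * b) * q := Subgroup.mem_centralizer_singleton_iff.1 hqc
      -- `q a q⁻¹ = t a` with `t` an involution in `Q` centralizing `a * b`
      set x := a * b with hxdef
      set t := q * a * q⁻¹ * a with htdef
      have ha2 : a * a = 1 := by nth_rw 1 [← hinv ha]; exact inv_mul_cancel a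
      have hb2 : b * b = 1 := by nth_rw 1 [← hinv hb]; exact inv_mul_cancel b
      have hta : t * a = q * a * q⁻¹ := by rw [htdef, mul_assoc _ a a, ha2, mul_one]
      have hcommA := hconjQ q hq a ha a ha rfl
      have ht2 : t * t = 1 := by
        rw [htdef]
        calc q * a * q⁻¹ * a * (q * a * q⁻¹ * a)
            = q * a * q⁻¹ * (a * (q * a * q⁻¹)) * a := by simp [mul_assoc]
          _ = q * (a * a) * q⁻¹ * (a * a) := by rw [hcommA]; simp [mul_assoc]
          _ = 1 := by rw [ha2]; simp
      have haxa : a * x * a = x⁻¹ := by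
        rw [hxdef, mul_inv_rev, hinv ha, hinv hb, ← mul_assoc a a b, ha2, one_mul]
      have htx : Commute t x := by
        show t * x = x * t
        have hqx : q⁻¹ * x = x * q⁻¹ := ((show Commute q x from hc).inv_left).eq
        have hqxi : q⁻¹ * x⁻¹ = x⁻¹ * q⁻¹ := ((show Commute q x from hc).inv_left.inv_right).eq
        have hax : a * x = x⁻¹ * a := by rw [← haxa, mul_assoc _ a a, ha2, mul_one]
        have haxi : a * x⁻¹ = x * a := by rw [← haxa, ← mul_assoc, ← mul_assoc, ha2, one_mul]
        calc t * x = q * a * q⁻¹ * (a * x) := by simp [htdef, mul_assoc]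
          _ = q * a * (q⁻¹ * x⁻¹) * a := by rw [hax]; simp [mul_assoc]
          _ = q * (a * x⁻¹) * q⁻¹ * a := by rw [hqxi]; simp [mul_assoc]
          _ = (q * x) * a * q⁻¹ * a := by rw [haxi]; simp [mul_assoc]
          _ = x * t := by rw [hc]; simp [htdef, mul_assoc]
      have hx1 : x ≠ 1 := by
        intro h
        exact hne ((inv_eq_of_mul_eq_one_right h).symm.trans (hinv ha))
      have ht1 : t = 1 := by
        by_contra ht1
        have hto : orderOf t = 2 := by
          refine orderOf_eq_prime ?_ ht1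
          rw [pow_two, ht2]
        have hord : orderOf (q * a * q⁻¹ * b) = 2 * orderOf x := by
          rw [← hta, mul_assoc, ← hxdef, htx.orderOf_mul_eq_mul_orderOf_of_coprime, hto]
          rw [hto]
          exact (Nat.Prime.coprime_iff_not_dvd Nat.prime_two).2 hodd.not_two_dvd_nat
        have hqa := hDr.conj_mem a ha q
        rcases hDr.pair _ hqa b hb with h | h | h
        · have h2 : orderOf (q * a * q⁻¹ * b) ∣ 2 := by
            refine orderOf_dvd_of_pow_eq_one ?_
            have hq2 : (q * a * q⁻¹) * (q * a * q⁻¹) = 1 := by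
              calc (q * a * q⁻¹) * (q * a * q⁻¹) = q * (a * a) * q⁻¹ := by simp [mul_assoc]
                _ = 1 := by rw [ha2]; simp
            rw [pow_two]
            nth_rw 2 [h]
            rw [mul_assoc, ← mul_assoc b b, hb2, one_mul, hq2]
          rw [hord] at h2
          have h3 : orderOf x = 1 := Nat.dvd_one.1 ((Nat.mul_dvd_mul_iff_left two_pos).1 (by simpa using h2))
          exact hx1 (orderOf_eq_one_iff.1 h3)
        · rw [hord] at h
          exact absurd h (by simp [Nat.not_odd_iff_even])
        · exact hD4 _ hqa b hb h.1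
      have hqa : q * a = a * q := by
        have : q * a * q⁻¹ = a := by rw [← hta, ht1, one_mul]
        calc q * a = q * a * q⁻¹ * q := by simp
          _ = a * q := by rw [this]
      refine ⟨⟨hq, Subgroup.mem_centralizer_singleton_iff.2 hqa⟩,
        Subgroup.mem_centralizer_singleton_iff.2 ?_⟩
      have h4 : a * (q * b) = a * (b * q) := by rw [← mul_assoc, ← hqa, mul_assoc, ← hxdef, hc, hxdef, mul_assoc]
      exact mul_left_cancel h4
    · rintro q ⟨⟨hq, hqa⟩, hqb⟩
      refine ⟨hq, Subgroup.mem_centralizer_singleton_iff.2 ?_⟩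
      rw [← mul_assoc, Subgroup.mem_centralizer_singleton_iff.1 hqa, mul_assoc,
        Subgroup.mem_centralizer_singleton_iff.1 hqb, mul_assoc]

end Cfsg.Agent.S5049
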