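import Cfsg.Statements.S5055
import Cfsg.Agent.RootInvolutions.Structure52.Main

set_option autoImplicit false
open Cfsg

namespace Cfsg.Agent.S5055

/-- The Root Structure Theorem for root involutions. Let G be a finite group with O₂(G) = 1 and trivial centre, generated by a non-degenerate class D of root involutions such that for every d ∈ D the members of D with the same commuting members as d, together with 1, form a subgroup E(d). For d ∈ D let M_d be the subgroup generated by d and the members e ≠ d of D commuting with d with ed ∈ D, let W_d be the set of members of D commuting with d that have no partner with product of odd order among the members commuting with d, and let N_d be the subgroup generated by W_d. Then N_d = M_d; the members of D in N_d are d and the e just described; the commutator subgroup of N_d is E(d); and the members of D central in N_d are exactly those with the same commuting members as d. -/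
theorem result {G : Type*} [Group G] [Finite G] {D : Set G} (hD : Cfsg.IsNondegenerateRootInvolutionSet D)
    (hcl : Cfsg.IsRootInvolutionClass D) (hO : Cfsg.pCore 2 G = ⊥) (hZ : Subgroup.center G = ⊥)
    (hE : ∀ d ∈ D, (Cfsg.sameCommutingSubgroup D d : Set G) = Cfsg.sameCommutingClass D d ∪ {1}) {d : G} (hd : d ∈ D) :
    Subgroup.closure {w | Cfsg.IsIsolatedElem (Cfsg.OddAdj (Cfsg.commutingMembers D d)) (Cfsg.commutingMembers D d) w} =
      Subgroup.closure (Cfsg.productPartners D d ∪ {d}) ∧
    D ∩ (Subgroup.closure (Cfsg.productPartners D d ∪ {d}) : Set G) = Cfsg.productPartners D d ∪ {d} ∧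
    ⁅Subgroup.closure (Cfsg.productPartners D d ∪ {d}), Subgroup.closure (Cfsg.productPartners D d ∪ {d})⁆ =
      Cfsg.sameCommutingSubgroup D d ∧
    Cfsg.sameCommutingClass D d = {e | e ∈ D ∧ e ∈ Subgroup.closure (Cfsg.productPartners D d ∪ {d}) ∧
      ∀ y ∈ Subgroup.closure (Cfsg.productPartners D d ∪ {d}), e * y = y * e} := by
  have hC : CfsgLib.RootInv.Structure52.Ctx D := ⟨hD.1, hcl.2.2, hE⟩
  obtain ⟨p, hp, q, hq, h4⟩ := hD.2.2.2
  have heq := CfsgLib.RootInv.Structure52.local2_eq hC hd
  rw [← heq]
  refine ⟨rfl, ?_, CfsgLib.RootInv.Structure52.commutator_eq hC hd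
    (CfsgLib.RootInv.Structure52.exists_non_twin hC hp hq h4 hd),
    CfsgLib.RootInv.Structure52.twins_eq_central hC hd⟩
  exact Set.Subset.antisymm
    (fun x hx => CfsgLib.RootInv.Structure52.mem_local2_of_core2 hC hx.1 hx.2)
    (fun x hx => ⟨hx.1.1, Subgroup.subset_closure hx⟩)

end Cfsg.Agent.S5055
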