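import Cfsg.Statements.S5057


set_option autoImplicit false
open Cfsg

namespace Cfsg.Agent.S5057

set_option maxRecDepth 10000 in
theorem even_orders : ∀ g : Equiv.Perm (Fin 6), Equiv.Perm.sign g = 1 →
    (g ^ 2 = 1 ∨ g ^ 3 = 1 ∨ g ^ 4 = 1 ∨ g ^ 5 = 1) ∧
      (g ^ 2 = 1 → g = 1 ∨ g.support.card = 4) := by decide +kernel


/-- The involutions of the alternating group of degree 6 form a class of root involutions (a single conjugacy class of involutions generating the group, any two of which commute, have product of odd order, or have product of order 4 whose square is again an involution of the class), and the product of any two of them has order at most 5. -/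
theorem result :
    Cfsg.IsRootInvolutionClass {g : ↥(alternatingGroup (Fin 6)) | orderOf g = 2} ∧
    ∀ d ∈ {g : ↥(alternatingGroup (Fin 6)) | orderOf g = 2}, ∀ e ∈ {g : ↥(alternatingGroup (Fin 6)) | orderOf g = 2},
      orderOf (d * e) ≤ 5 := by
  classical
  have hord : ∀ g : ↥(alternatingGroup (Fin 6)),
      g ^ 2 = 1 ∨ g ^ 3 = 1 ∨ g ^ 4 = 1 ∨ g ^ 5 = 1 := by
    intro g
    rcases (even_orders g.1 g.2).1 with h | h | h | h
    · exact Or.inl (Subtype.ext h)
    · exact Or.inr (Or.inl (Subtype.ext h))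
    · exact Or.inr (Or.inr (Or.inl (Subtype.ext h)))
    · exact Or.inr (Or.inr (Or.inr (Subtype.ext h)))
  have hdiv : ∀ g : ↥(alternatingGroup (Fin 6)), orderOf g = 1 ∨ orderOf g = 2 ∨
      orderOf g = 3 ∨ orderOf g = 4 ∨ orderOf g = 5 := by
    intro g
    have h0 : 0 < orderOf g := orderOf_pos g
    rcases hord g with h | h | h | h <;>
    · have h1 := orderOf_dvd_of_pow_eq_one h
      have h2 := Nat.le_of_dvd (by norm_num) h1
      omega
  have hdata : ∀ g : ↥(alternatingGroup (Fin 6)), orderOf g = 2 →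
      (g : Equiv.Perm (Fin 6)).cycleType = {2, 2} ∧ (g : Equiv.Perm (Fin 6)).support.card = 4 := by
    intro g hg
    have ho : orderOf (g : Equiv.Perm (Fin 6)) = 2 := by rw [Subgroup.orderOf_coe, hg]
    have hp : (g : Equiv.Perm (Fin 6)) ^ 2 = 1 := ho ▸ pow_orderOf_eq_one _
    have hne : (g : Equiv.Perm (Fin 6)) ≠ 1 := by
      intro h1; rw [h1, orderOf_one] at ho; exact absurd ho (by norm_num)
    have hcard := ((even_orders g.1 g.2).2 hp).resolve_left hne
    refine ⟨?_, hcard⟩
    obtain ⟨n, hn⟩ := Equiv.Perm.cycleType_prime_order (ho.symm ▸ Nat.prime_two)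
    rw [ho] at hn
    have hs := Equiv.Perm.sum_cycleType (g : Equiv.Perm (Fin 6))
    rw [hn, Multiset.sum_replicate, hcard, smul_eq_mul] at hs
    rw [hn, show n + 1 = 2 by omega]
    rfl
  let t : ↥(alternatingGroup (Fin 6)) :=
    ⟨Equiv.swap 0 1 * Equiv.swap 3 4, by rw [Equiv.Perm.mem_alternatingGroup]; decide⟩
  let u : ↥(alternatingGroup (Fin 6)) :=
    ⟨Equiv.swap 1 2 * Equiv.swap 3 4, by rw [Equiv.Perm.mem_alternatingGroup]; decide⟩
  have ht : orderOf t = 2 := orderOf_eq_prime (Subtype.ext (by decide))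
    (fun h => absurd (congrArg Subtype.val h) (by decide))
  have hu : orderOf u = 2 := orderOf_eq_prime (Subtype.ext (by decide))
    (fun h => absurd (congrArg Subtype.val h) (by decide))
  have htu : ((t * u : ↥(alternatingGroup (Fin 6))) : Equiv.Perm (Fin 6)).IsThreeCycle := by
    rw [← card_support_eq_three_iff]; decide
  have hconj : ∀ d : ↥(alternatingGroup (Fin 6)), orderOf d = 2 →
      ∀ g : ↥(alternatingGroup (Fin 6)), orderOf (g * d * g⁻¹) = 2 := by
    intro d hd g
    rw [← hd]
    exact orderOf_injective (MulAut.conj g).toMonoidHom (MulAut.conj g).injective d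
  refine ⟨⟨⟨fun d hd => hd, ?_, hconj, ?_⟩, ⟨t, ht⟩, ?_⟩, ?_⟩
  · rw [eq_top_iff]
    intro x _
    have hx : (x : Equiv.Perm (Fin 6)) ∈
        (Subgroup.closure {g : ↥(alternatingGroup (Fin 6)) | orderOf g = 2}).map
          (alternatingGroup (Fin 6)).subtype := by
      suffices h : Subgroup.closure {c : Equiv.Perm (Fin 6) | c.IsThreeCycle} ≤ _ from
        h ((Equiv.Perm.closure_three_cycles_eq_alternating (α := Fin 6)).symm ▸ x.2)
      rw [Subgroup.closure_le]
      intro c hc
      let c' : ↥(alternatingGroup (Fin 6)) := ⟨c, hc.mem_alternatingGroup⟩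
      obtain ⟨g, hg⟩ := isConj_iff.1 (alternatingGroup.isConj_of (σ := t * u) (τ := c')
        (Equiv.Perm.isConj_iff_cycleType_eq.2 (htu.cycleType.trans hc.cycleType.symm))
        (by rw [htu.card_support, Fintype.card_fin]; norm_num))
      refine ⟨c', ?_, rfl⟩
      rw [← hg, show g * (t * u) * g⁻¹ = (g * t * g⁻¹) * (g * u * g⁻¹) by simp [mul_assoc]]
      exact mul_mem (Subgroup.subset_closure (hconj t ht g))
        (Subgroup.subset_closure (hconj u hu g))
    obtain ⟨y, hy, hyx⟩ := hx
    exact Subtype.ext hyx ▸ hy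
  · intro a ha b hb
    rcases hdiv (a * b) with h | h | h | h | h
    · exact Or.inr (Or.inl (by rw [h]; decide))
    · refine Or.inl ?_
      have h2 : (a * b) ^ 2 = 1 := h ▸ pow_orderOf_eq_one _
      have hab : (a * b)⁻¹ = a * b := inv_eq_of_mul_eq_one_right (by rw [← sq, h2])
      have ha2 : a⁻¹ = a := inv_eq_of_mul_eq_one_right (by rw [← sq]; exact ha ▸ pow_orderOf_eq_one a)
      have hb2 : b⁻¹ = b := inv_eq_of_mul_eq_one_right (by rw [← sq]; exact hb ▸ pow_orderOf_eq_one b)
      rw [mul_inv_rev, ha2, hb2] at hab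
      exact hab.symm
    · exact Or.inr (Or.inl (by rw [h]; decide))
    · refine Or.inr (Or.inr ⟨h, ?_⟩)
      show orderOf ((a * b) ^ 2) = 2
      rw [orderOf_pow, h]; rfl
    · exact Or.inr (Or.inl (by rw [h]; decide))
  · intro a ha b hb
    obtain ⟨g, hg⟩ := isConj_iff.1 (alternatingGroup.isConj_of (σ := a) (τ := b)
      (Equiv.Perm.isConj_iff_cycleType_eq.2 ((hdata a ha).1.trans (hdata b hb).1.symm))
      (by rw [(hdata a ha).2, Fintype.card_fin]))
    exact ⟨g, hg.symm⟩
  · intro d _ e _
    rcases hdiv (d * e) with h | h | h | h | h <;> omega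

end Cfsg.Agent.S5057
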