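import Cfsg.Statements.S5058
import Cfsg.Agent.RootSubgroups.SLRootInvolution

set_option autoImplicit false
open Matrix
open Cfsg

namespace Cfsg.Agent.S5058

/-- Let F be a finite field of characteristic 2 and n a natural number. Then the transvections of SL_{n+3}(F) (so in every dimension at least 3) (the conjugates of the elementary matrices 1 + c E₁₂, c ≠ 0) form a class of root involutions of SL_{n+3}(F); when F has two elements they form a class of {3,4}⁺-transpositions (every product of odd order has order 1 or 3). -/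
theorem result (F : Type*) [Field F] [Fintype F] [CharP F 2] (n : ℕ) :
    Cfsg.IsRootInvolutionClass {t : Matrix.SpecialLinearGroup (Fin (n + 3)) F | ∃ c : F, c ≠ 0 ∧
        ∃ g : Matrix.SpecialLinearGroup (Fin (n + 3)) F, ((g⁻¹ * t * g : Matrix.SpecialLinearGroup (Fin (n + 3)) F) :
          Matrix (Fin (n + 3)) (Fin (n + 3)) F) = Matrix.transvection 0 1 c} ∧
    (Fintype.card F = 2 → Cfsg.IsThreeFourPlusTranspositionSet {t : Matrix.SpecialLinearGroup (Fin (n + 3)) F | ∃ c : F, c ≠ 0 ∧
        ∃ g : Matrix.SpecialLinearGroup (Fin (n + 3)) F, ((g⁻¹ * t * g : Matrix.SpecialLinearGroup (Fin (n + 3)) F) :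
          Matrix (Fin (n + 3)) (Fin (n + 3)) F) = Matrix.transvection 0 1 c}) := by
  have h01 : (0 : Fin (n + 3)) ≠ 1 := Fin.zero_ne_one
  have h3 : 3 ≤ Fintype.card (Fin (n + 3)) := by simp
  have hset : {t : Matrix.SpecialLinearGroup (Fin (n + 3)) F | ∃ c : F, c ≠ 0 ∧
      ∃ g : Matrix.SpecialLinearGroup (Fin (n + 3)) F, ((g⁻¹ * t * g : Matrix.SpecialLinearGroup (Fin (n + 3)) F) :
        Matrix (Fin (n + 3)) (Fin (n + 3)) F) = Matrix.transvection 0 1 c} =
      CfsgLib.RootSubgroups.SLTransv.transvectionSet (Fin (n + 3)) F := by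
    have htr : ∀ c : F, ((Matrix.SpecialLinearGroup.transvection h01 c : Matrix.SpecialLinearGroup (Fin (n + 3)) F) :
        Matrix (Fin (n + 3)) (Fin (n + 3)) F) = Matrix.transvection 0 1 c := fun c => by
      simp [Matrix.SpecialLinearGroup.transvection_coe, Matrix.transvection]
    ext t
    simp only [Set.mem_setOf_eq]
    constructor
    · rintro ⟨c, hc, g, hg⟩
      have h9 : g⁻¹ * t * g = Matrix.SpecialLinearGroup.transvection h01 c := Subtype.ext (by rw [hg, htr])
      rw [show t = g * Matrix.SpecialLinearGroup.transvection h01 c * g⁻¹ by rw [← h9]; group]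
      exact (CfsgLib.RootSubgroups.SLTransv.rootInvolutionClass h3).1.conj_mem _
        ⟨Pi.single 0 1, Pi.single 1 c, by simp, by simp [hc], by simp [h01.symm],
          CfsgLib.RootSubgroups.SLTransv.transvection_eq_tv h01 c⟩ g
    · rintro ⟨v, φ, hv, hφ, h, rfl⟩
      obtain ⟨g, hg⟩ := isConj_iff.1 (CfsgLib.Classical.Linear.isConj_transvection_of_three_le h3 h01 one_ne_zero
        (CfsgLib.RootSubgroups.SLTransv.isTransvection_tv hv hφ h))
      exact ⟨1, one_ne_zero, g⁻¹, by rw [inv_inv, hg, htr]⟩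
  rw [hset]
  refine ⟨CfsgLib.RootSubgroups.SLTransv.rootInvolutionClass h3, fun hcard =>
    ⟨(CfsgLib.RootSubgroups.SLTransv.rootInvolutionClass h3).1, fun a ha b hb hodd => ?_⟩⟩
  have h01' : ∀ x : F, x = 0 ∨ x = 1 := by
    classical
    intro x
    have hu : ({0, 1} : Finset F) = Finset.univ :=
      Finset.eq_univ_of_card _ (by rw [Finset.card_pair zero_ne_one, hcard])
    simpa using (hu ▸ Finset.mem_univ x : x ∈ ({0, 1} : Finset F))
  rcases CfsgLib.RootSubgroups.SLTransv.mul_cases ha hb with h | ⟨-, h⟩ | ⟨h, -⟩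
  · have h2 : (a * b) ^ 2 = 1 := by
      rw [(Commute.mul_pow h 2), ← CfsgLib.RootSubgroups.SLTransv.orderOf_eq_two ha, pow_orderOf_eq_one,
        CfsgLib.RootSubgroups.SLTransv.orderOf_eq_two ha, ← CfsgLib.RootSubgroups.SLTransv.orderOf_eq_two hb,
        pow_orderOf_eq_one, one_mul]
    rcases (Nat.dvd_prime Nat.prime_two).1 (orderOf_dvd_of_pow_eq_one h2) with h9 | h9
    · exact Or.inl h9
    · rw [h9] at hodd; exact absurd hodd (by decide)
  · exact (Nat.dvd_prime Nat.prime_three).1 (orderOf_dvd_of_pow_eq_one (h h01'))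
  · rw [h] at hodd; exact absurd hodd (by decide)

end Cfsg.Agent.S5058
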