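import Cfsg.Statements.S5059
import Cfsg.Agent.Eq.Def_RootSubgroups


set_option autoImplicit false
universe u
open Cfsg

namespace Cfsg.Agent.S5059

/-- Let k be a field of characteristic not 2 with k not of order 3, M a finite-dimensional k-vector space and G ≤ GL(M) such that (G, M) is a quadratic pair (M irreducible for G, and G generated by its quadratically acting elements σ whose scalar family 1 + c(σ − 1), c ∈ k, lies in G). Write 𝒬_d for the quadratic elements of G of minimal commutator rank, E(σ) for the subgroup generated by the members of 𝒬_d with the same fixed space and commutator space as σ, and Σ for the set of these subgroups. Then for σ ∈ 𝒬_d the subgroup E(σ) consists exactly of those members together with the identity, it is abelian, and if k has prime characteristic p every element of E(σ) has order dividing p. -/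
theorem result {k : Type u} [Field k] (hk2 : ringChar k ≠ 2) (hk3 : Nat.card k ≠ 3)
    {M : Type u} [AddCommGroup M] [Module k M] [FiniteDimensional k M]
    {G : Subgroup (LinearMap.GeneralLinearGroup k M)} (hG : Cfsg.IsQuadraticPair G)
    {σ : LinearMap.GeneralLinearGroup k M} (hσ : σ ∈ Cfsg.minimalQuadraticElements G) :
    (Cfsg.sameActionSubgroup G σ : Set (LinearMap.GeneralLinearGroup k M)) = Cfsg.sameActionClass G σ ∪ {1} ∧
    IsMulCommutative ↥(Cfsg.sameActionSubgroup G σ) ∧
    (∀ p : ℕ, p.Prime → ringChar k = p → ∀ x ∈ Cfsg.sameActionSubgroup G σ, x ^ p = 1) := by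
  set α := (σ : M →ₗ[k] M) - 1 with hα
  have hσq : IsQuadraticOn σ := hσ.1.2.1
  have hker : LinearMap.range α ≤ LinearMap.ker α := by
    rintro _ ⟨m, rfl⟩
    rw [LinearMap.mem_ker, ← Module.End.mul_apply, hσq.1]; rfl
  -- elements of the class, written as `1 + φ`
  have hzero : ∀ φ ψ : M →ₗ[k] M, LinearMap.range ψ ≤ LinearMap.ker φ → φ * ψ = 0 := by
    intro φ ψ h
    ext m
    exact h ⟨m, rfl⟩
  let K : Set (LinearMap.GeneralLinearGroup k M) := Cfsg.sameActionClass G σ ∪ {1}
  have hK : ∀ x ∈ K, x ∈ G ∧ LinearMap.ker α ≤ LinearMap.ker ((x : M →ₗ[k] M) - 1) ∧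
      LinearMap.range ((x : M →ₗ[k] M) - 1) ≤ LinearMap.range α ∧
      scalarFamily x ⊆ (G : Set (LinearMap.GeneralLinearGroup k M)) := by
    rintro x (⟨hx, hk, hr⟩ | rfl)
    · exact ⟨hx.1.1, hk.ge, hr.le, hx.1.2.2⟩
    · refine ⟨one_mem _, by simp, by simp, ?_⟩
      rintro τ ⟨c, hc⟩
      have : τ = 1 := Units.ext (by simpa using hc)
      rw [this]; exact one_mem _
  have hcross : ∀ x ∈ K, ∀ y ∈ K, ((x : M →ₗ[k] M) - 1) * ((y : M →ₗ[k] M) - 1) = 0 :=
    fun x hx y hy => hzero _ _ (((hK y hy).2.2.1.trans hker).trans (hK x hx).2.1)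
  -- membership criterion
  have hmem : ∀ (z : LinearMap.GeneralLinearGroup k M) (φ : M →ₗ[k] M),
      (z : M →ₗ[k] M) = 1 + φ → LinearMap.ker α ≤ LinearMap.ker φ →
      LinearMap.range φ ≤ LinearMap.range α →
      scalarFamily z ⊆ (G : Set (LinearMap.GeneralLinearGroup k M)) → z ∈ K := by
    intro z φ hz hk hr hs
    by_cases h0 : φ = 0
    · right
      exact Units.ext (by simp [hz, h0])
    left
    have hzφ : (z : M →ₗ[k] M) - 1 = φ := by rw [hz]; simp
    have hq : z ∈ quadraticElements G := by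
      refine ⟨hs ⟨1, by rw [one_smul, hzφ, hz]⟩, ⟨?_, by rw [hzφ]; exact h0⟩, hs⟩
      rw [hzφ]
      exact hzero _ _ ((hr.trans hker).trans hk)
    have hrk := hσ.2 z hq
    have hle : commutatorRank z ≤ commutatorRank σ := by
      rw [commutatorRank, commutatorRank, hzφ]
      exact Submodule.finrank_mono hr
    have hreq : LinearMap.range φ = LinearMap.range α := by
      apply Submodule.eq_of_le_of_finrank_le hr
      rw [commutatorRank, commutatorRank, hzφ] at hrk
      exact hrk
    refine ⟨⟨hq, fun τ hτ => hle.trans (hσ.2 τ hτ)⟩, ?_, ?_⟩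
    · rw [hzφ]
      refine (Submodule.eq_of_le_of_finrank_le hk ?_).symm
      have h1 := LinearMap.finrank_range_add_finrank_ker φ
      have h2 := LinearMap.finrank_range_add_finrank_ker α
      rw [hreq] at h1
      omega
    · rw [hzφ]; exact hreq
  have hexp : ∀ x ∈ K, ∀ y ∈ K, ((x * y : LinearMap.GeneralLinearGroup k M) : M →ₗ[k] M) =
      1 + (((x : M →ₗ[k] M) - 1) + ((y : M →ₗ[k] M) - 1)) := by
    intro x hx y hy
    have e : ((x : M →ₗ[k] M) - 1) * ((y : M →ₗ[k] M) - 1) = 0 := hcross x hx y hy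
    have e2 : (1 + ((x : M →ₗ[k] M) - 1)) * (1 + ((y : M →ₗ[k] M) - 1)) =
        1 + (((x : M →ₗ[k] M) - 1) + ((y : M →ₗ[k] M) - 1)) := by
      rw [add_mul, mul_add, mul_add, e, one_mul, one_mul, mul_one]; abel
    rw [add_sub_cancel, add_sub_cancel] at e2
    rw [Units.val_mul]; exact e2
  -- units with prescribed displacement
  have hunit : ∀ x ∈ K, ∀ c : k, ∃ u : LinearMap.GeneralLinearGroup k M,
      (u : M →ₗ[k] M) = 1 + c • ((x : M →ₗ[k] M) - 1) := by
    intro x hx c
    refine ⟨⟨1 + c • ((x : M →ₗ[k] M) - 1), 1 - c • ((x : M →ₗ[k] M) - 1), ?_, ?_⟩, rfl⟩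
    · rw [add_mul, mul_sub, mul_sub, smul_mul_smul_comm, hcross x hx x hx]; simp
    · rw [sub_mul, mul_add, mul_add, smul_mul_smul_comm, hcross x hx x hx]; simp
  have hmul : ∀ x ∈ K, ∀ y ∈ K, x * y ∈ K := by
    intro x hx y hy
    obtain ⟨hxG, hxk, hxr, hxs⟩ := hK x hx
    obtain ⟨hyG, hyk, hyr, hys⟩ := hK y hy
    refine hmem _ _ (hexp x hx y hy) ?_ ?_ ?_
    · intro m hm
      have h1 := hxk hm
      have h2 := hyk hm
      rw [LinearMap.mem_ker] at h1 h2 ⊢
      rw [LinearMap.add_apply, h1, h2, add_zero]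
    · rintro _ ⟨m, rfl⟩
      rw [LinearMap.add_apply]
      exact add_mem (hxr ⟨m, rfl⟩) (hyr ⟨m, rfl⟩)
    · rintro τ ⟨c, hc⟩
      obtain ⟨u, hu⟩ := hunit x hx c
      obtain ⟨v, hv⟩ := hunit y hy c
      have : τ = u * v := by
        refine Units.ext ?_
        rw [hc, hexp x hx y hy, Units.val_mul, hu, hv, add_sub_cancel_left, add_mul, mul_add,
          mul_add, smul_mul_smul_comm, hcross x hx y hy]
        simp [smul_add]; abel
      rw [this]
      exact mul_mem (hxs ⟨c, hu⟩) (hys ⟨c, hv⟩)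
  have hone : (1 : LinearMap.GeneralLinearGroup k M) ∈ K := Or.inr rfl
  have hinv : ∀ x ∈ K, x⁻¹ ∈ K := by
    intro x hx
    obtain ⟨hxG, hxk, hxr, hxs⟩ := hK x hx
    obtain ⟨u, hu⟩ := hunit x hx (-1)
    have hux : x * u = 1 := by
      refine Units.ext ?_
      rw [Units.val_mul, hu, Units.val_one]
      have e : (1 + ((x : M →ₗ[k] M) - 1)) * (1 + (-1 : k) • ((x : M →ₗ[k] M) - 1)) = 1 := by
        rw [add_mul, mul_add, mul_add, mul_smul_comm, mul_smul_comm, hcross x hx x hx, smul_zero, add_zero, one_mul, one_mul, mul_one, neg_one_smul]; abel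
      rwa [add_sub_cancel] at e
    rw [inv_eq_of_mul_eq_one_right hux]
    refine hmem _ _ hu ?_ ?_ ?_
    · intro m hm
      have h1 := hxk hm
      rw [LinearMap.mem_ker] at h1 ⊢
      rw [LinearMap.smul_apply, h1, smul_zero]
    · rintro _ ⟨m, rfl⟩
      rw [LinearMap.smul_apply]
      exact Submodule.smul_mem _ _ (hxr ⟨m, rfl⟩)
    · rintro τ ⟨c, hc⟩
      refine hxs ⟨c * (-1), ?_⟩
      rw [hc, hu, add_sub_cancel_left, smul_smul]
  let H : Subgroup (LinearMap.GeneralLinearGroup k M) :=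
    { carrier := K, one_mem' := hone, mul_mem' := fun hx hy => hmul _ hx _ hy,
      inv_mem' := fun hx => hinv _ hx }
  have hEH : Cfsg.sameActionSubgroup G σ = H := by
    refine le_antisymm ((Subgroup.closure_le _).2 fun x hx => Or.inl hx) ?_
    rintro x (hx | hx)
    · exact Subgroup.subset_closure hx
    · rw [Set.mem_singleton_iff.1 hx]; exact one_mem _
  rw [hEH]
  refine ⟨rfl, ⟨⟨fun x y => Subtype.ext (Units.ext ?_)⟩⟩, ?_⟩
  · change ((x.1 * y.1 : LinearMap.GeneralLinearGroup k M) : M →ₗ[k] M) =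
      ((y.1 * x.1 : LinearMap.GeneralLinearGroup k M) : M →ₗ[k] M)
    rw [hexp x.1 x.2 y.1 y.2, hexp y.1 y.2 x.1 x.2]; abel
  · intro p hp hchar x hx
    have hpow : ∀ n : ℕ, ((x ^ n : LinearMap.GeneralLinearGroup k M) : M →ₗ[k] M) =
        1 + (n : k) • ((x : M →ₗ[k] M) - 1) := by
      intro n
      induction n with
      | zero => simp
      | succ n ih =>
        rw [pow_succ, hexp _ (pow_mem (show x ∈ H from hx) n) x hx, ih, Nat.cast_succ, add_smul,
          one_smul, add_sub_cancel_left]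
    refine Units.ext ?_
    rw [hpow p, ← hchar, ringChar.Nat.cast_ringChar, zero_smul, add_zero, Units.val_one]

end Cfsg.Agent.S5059
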