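import Cfsg.Statements.S5060
import Cfsg.Agent.RootSubgroups.GenRing

set_option autoImplicit false
open Cfsg

namespace Cfsg.Agent.S5060

/-- Let k ⊆ K be fields with the characteristic of k not 2 and k not of order 3, and let α ∈ K be a non-zero element algebraic over k. Then the subgroup of SL₂(K) generated by the upper unitriangular matrices with entry c and the lower unitriangular matrices with entry cα, c ranging over k, is exactly the group of matrices of SL₂(K) with all entries in k(α). -/
theorem result {k K : Type*} [Field k] [Field K] [Algebra k K] (hk2 : ringChar k ≠ 2) (hk3 : Nat.card k ≠ 3)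
    (α : K) (hα : IsAlgebraic k α) (hα0 : α ≠ 0) :
    (Subgroup.closure ({g : Matrix.SpecialLinearGroup (Fin 2) K | ∃ c : k, (g : Matrix (Fin 2) (Fin 2) K) = !![1, algebraMap k K c; 0, 1]} ∪
        {g : Matrix.SpecialLinearGroup (Fin 2) K | ∃ c : k, (g : Matrix (Fin 2) (Fin 2) K) = !![1, 0; algebraMap k K c * α, 1]}) :
      Set (Matrix.SpecialLinearGroup (Fin 2) K)) =
    {g : Matrix.SpecialLinearGroup (Fin 2) K | ∀ i j : Fin 2, (g : Matrix (Fin 2) (Fin 2) K) i j ∈ IntermediateField.adjoin k ({α} : Set K)} := by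
  classical
  have h2 : (2 : k) ≠ 0 := Ring.two_ne_zero hk2
  set F := IntermediateField.adjoin k ({α} : Set K) with hF
  have : FiniteDimensional k F := IntermediateField.adjoin.finiteDimensional hα.isIntegral
  set a : F := ⟨α, IntermediateField.mem_adjoin_simple_self k α⟩ with ha
  have ha0 : a ≠ 0 := fun h => hα0 (congrArg Subtype.val h)
  have htop : Algebra.adjoin k ({a} : Set F) = ⊤ := by
    rw [← (Subalgebra.map_injective (f := F.val) Subtype.val_injective).eq_iff, AlgHom.map_adjoin,
      Set.image_singleton, Algebra.map_top, IntermediateField.range_val]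
    exact (IntermediateField.adjoin_simple_toSubalgebra_of_isAlgebraic hα).symm
  have hgen : ∀ x : Matrix.SpecialLinearGroup (Fin 2) F, x ∈ CfsgLib.RootSubgroups.Gen.gen k a := by
    intro x
    have hall := fun r => CfsgLib.RootSubgroups.Gen.gen_contains h2 hk3
      (isUnit_iff_ne_zero.2 ha0) htop r
    have hx : x ∈ Cfsg.lowerUnipotentSL2 F ⊔ Cfsg.upperUnipotentSL2 F := by
      rw [CfsgLib.RootSubgroups.SLTwo.sup_eq_top]; trivial
    refine sup_le (?_ : Cfsg.lowerUnipotentSL2 F ≤ _) ?_ hx
    · intro z hz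
      obtain ⟨t, rfl⟩ := CfsgLib.RootSubgroups.SLTwo.mem_lower.1 hz
      exact (hall t).2
    · intro z hz
      obtain ⟨t, rfl⟩ := CfsgLib.RootSubgroups.SLTwo.mem_upper.1 hz
      exact (hall t).1
  have hmap : (CfsgLib.RootSubgroups.Gen.gen k a).map
      (Matrix.SpecialLinearGroup.map F.val.toRingHom) =
        CfsgLib.RootSubgroups.Gen.gen k (α : K) :=
    CfsgLib.RootSubgroups.Gen.map_gen F.val a
  have hsets : Subgroup.closure
      ({g : Matrix.SpecialLinearGroup (Fin 2) K | ∃ c : k, (g : Matrix (Fin 2) (Fin 2) K) = !![1, algebraMap k K c; 0, 1]} ∪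
        {g : Matrix.SpecialLinearGroup (Fin 2) K | ∃ c : k, (g : Matrix (Fin 2) (Fin 2) K) = !![1, 0; algebraMap k K c * α, 1]}) =
      CfsgLib.RootSubgroups.Gen.gen k (α : K) := by
    unfold CfsgLib.RootSubgroups.Gen.gen
    congr 1
    ext g
    simp only [Set.mem_union, Set.mem_setOf_eq, Set.mem_range]
    refine or_congr ?_ ?_ <;>
      exact exists_congr fun c => ⟨fun h => (Subtype.ext h).symm, fun h => (congrArg Subtype.val h).symm⟩
  rw [hsets, ← hmap]
  ext g
  constructor
  · rintro ⟨x, -, rfl⟩ i j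
    exact (x.1 i j).2
  · intro hg
    refine ⟨⟨Matrix.of fun i j => ⟨g.1 i j, hg i j⟩, ?_⟩, hgen _, Subtype.ext (Matrix.ext fun i j => rfl)⟩
    refine Subtype.ext ?_
    have hdet := g.2
    rw [Matrix.det_fin_two] at hdet
    rw [Matrix.det_fin_two]
    simpa using hdet

end Cfsg.Agent.S5060
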