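import Cfsg.Statements.S5062
import Cfsg.Agent.RootSubgroups.QPRootSet

set_option autoImplicit false
universe u
open Cfsg

namespace Cfsg.Agent.S5062

/-- Let k be a field of characteristic not 2 with k not of order 3, M a finite-dimensional k-vector space and G ≤ GL(M) such that (G, M) is a quadratic pair (M irreducible for G, and G generated by its quadratically acting elements σ whose scalar family 1 + c(σ − 1), c ∈ k, lies in G). Write 𝒬_d for the quadratic elements of G of minimal commutator rank, E(σ) for the subgroup generated by the members of 𝒬_d with the same fixed space and commutator space as σ, and Σ for the set of these subgroups. Then, inside the subgroup G₀ generated by Σ, the members of Σ form a set of abstract root subgroups of G₀ in which every member has a rank one partner; and whenever a member A and a rank one partner B of A lie in a connected component of the rank-one-pair graph that is degenerate (no commutator case among its members), there are subgroups A₀ ≤ A, B₀ ≤ B generating an image of SL₂(k₁) with central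 kernel on unitriangular subgroups, for some field k₁ with at least four elements. -/
theorem result {k : Type u} [Field k] (hk2 : ringChar k ≠ 2) (hk3 : Nat.card k ≠ 3)
    {M : Type u} [AddCommGroup M] [Module k M] [FiniteDimensional k M]
    {G : Subgroup (LinearMap.GeneralLinearGroup k M)} (hG : Cfsg.IsQuadraticPair G) :
    Cfsg.IsRootSubgroupSet ((fun A : Subgroup (LinearMap.GeneralLinearGroup k M) => A.subgroupOf (⨆ B ∈ Cfsg.quadraticRootSubgroups G, B)) ''
      Cfsg.quadraticRootSubgroups G) ∧
    (∀ A ∈ Cfsg.quadraticRootSubgroups G, ¬ Cfsg.IsIsolatedIn (Cfsg.FAdj (Cfsg.quadraticRootSubgroups G)) (Cfsg.quadraticRootSubgroups G) A) ∧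
    (∀ A ∈ Cfsg.quadraticRootSubgroups G, ∀ B ∈ Cfsg.rankOnePartners (Cfsg.quadraticRootSubgroups G) A,
      (∀ C ∈ Cfsg.componentOf (Cfsg.FAdj (Cfsg.quadraticRootSubgroups G)) (Cfsg.quadraticRootSubgroups G) A,
        ∀ D ∈ Cfsg.componentOf (Cfsg.FAdj (Cfsg.quadraticRootSubgroups G)) (Cfsg.quadraticRootSubgroups G) A,
          ¬ Cfsg.RootCommutatorCase (Cfsg.quadraticRootSubgroups G) C D) →
      ∃ A₀ B₀ : Subgroup (LinearMap.GeneralLinearGroup k M), A₀ ≤ A ∧ B₀ ≤ B ∧
        ∃ (k₁ : Type u) (_ : Field k₁), 3 < ENat.card k₁ ∧ Cfsg.IsPSL2PairOver k₁ A₀ B₀) := by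
  have h2' := Ring.two_ne_zero hk2
  refine ⟨CfsgLib.RootSubgroups.Within.isRootSubgroupSet rfl
    (fun A hA => CfsgLib.RootSubgroups.QP.commutative_of_mem_roots hA)
    (fun A hA => CfsgLib.RootSubgroups.QP.ne_bot_of_mem_roots hA)
    (fun A hA g hg => CfsgLib.RootSubgroups.QP.conjBy_mem_roots hA
      (CfsgLib.RootSubgroups.QP.join_roots_le hg))
    (CfsgLib.RootSubgroups.QP.roots_pair h2' hk3 hG.1), fun A hA hiso => ?_, ?_⟩
  · obtain ⟨g, hg, h⟩ := CfsgLib.RootSubgroups.QP.exists_rankOne_partner h2' hk3 hG.1 hA
    exact (hiso.2 _).1 ⟨hA, CfsgLib.RootSubgroups.QP.conjBy_mem_roots hA hg, h⟩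
  · rintro A hA B ⟨hB, hAB⟩ -
    exact CfsgLib.RootSubgroups.QP.exists_psl_pair h2' hk3 hG.1 hA hB hAB

end Cfsg.Agent.S5062
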