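import Cfsg.Statements.S5063
import Cfsg.Agent.RootSubgroups.QPDecomp
import Cfsg.Agent.RootSubgroups.RankOne

set_option autoImplicit false
universe u
open Cfsg

namespace Cfsg.Agent.S5063

/-- Let k be a field of characteristic not 2 with k not of order 3, M a finite-dimensional k-vector space and G ≤ GL(M) such that (G, M) is a quadratic pair (M irreducible for G, and G generated by its quadratically acting elements σ whose scalar family 1 + c(σ − 1), c ∈ k, lies in G). Write 𝒬_d for the quadratic elements of G of minimal commutator rank, E(σ) for the subgroup generated by the members of 𝒬_d with the same fixed space and commutator space as σ, and Σ for the set of these subgroups. Then G is a central product of finitely many quasisimple normal subgroups G₁, …, G_s (pairwise commuting and together generating G), each generated by the quadratic elements of G it contains, and every quadratic element of G lies in one of them. -/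
theorem result {k : Type u} [Field k] (hk2 : ringChar k ≠ 2) (hk3 : Nat.card k ≠ 3)
    {M : Type u} [AddCommGroup M] [Module k M] [FiniteDimensional k M]
    {G : Subgroup (LinearMap.GeneralLinearGroup k M)} (hG : Cfsg.IsQuadraticPair G) :
    ∃ (s : ℕ) (Gi : Fin s → Subgroup (LinearMap.GeneralLinearGroup k M)),
      (∀ i, Gi i ≤ G ∧ ∀ g ∈ G, Cfsg.conjBy (Gi i) g = Gi i) ∧ (∀ i j, i ≠ j → ⁅Gi i, Gi j⁆ = ⊥) ∧ (⨆ i, Gi i) = G ∧
      (∀ i, Cfsg.IsQuasisimple ↥(Gi i) ∧ Subgroup.closure (Cfsg.quadraticElements G ∩ (Gi i : Set (LinearMap.GeneralLinearGroup k M))) = Gi i) ∧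
      Cfsg.quadraticElements G ⊆ ⋃ i, (Gi i : Set (LinearMap.GeneralLinearGroup k M)) := by
  have h2 := Ring.two_ne_zero hk2
  obtain ⟨s, N, h1, hN2, hN3, hN4, hN5⟩ :=
    CfsgLib.RootSubgroups.QP.decomp h2 hk3 (Module.finrank k M) M G le_rfl hG
  refine ⟨s, N, fun i => ⟨(h1 i).1, fun g hg => ?_⟩, hN2, hN3, hN4, fun σ hσ => ?_⟩
  · rw [CfsgLib.RootSubgroups.conjBy_eq_self_iff, Subgroup.mem_normalizer_iff]
    refine fun m => ⟨(h1 i).2 g hg m, fun hm => ?_⟩
    have := (h1 i).2 g⁻¹ (inv_mem hg) _ hm
    simpa [mul_assoc] using this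
  · obtain ⟨hfam, hne⟩ := CfsgLib.RootSubgroups.QP.mem_quadraticElements.1 hσ
    obtain ⟨i, -, hi⟩ := hN5 _ hfam hne
    obtain ⟨g, hg, he⟩ := hi 1
    rw [one_smul, add_sub_cancel] at he
    exact Set.mem_iUnion.2 ⟨i, Units.ext he ▸ hg⟩

end Cfsg.Agent.S5063
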