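import Cfsg.Statements.S5067
import Cfsg.Agent.Eq.Def_RootSubgroups

set_option autoImplicit false
open Cfsg

namespace Cfsg.Agent.S5067

theorem key {P : Type*} [Group P] [Group.IsNilpotent P] (hna : ¬ IsMulCommutative P)
    {E : Subgroup P} (hE : IsMulCommutative E) :
    Group.nilpotencyClass ↥(Subgroup.normalClosure (E : Set P)) < Group.nilpotencyClass P := by
  obtain ⟨c, hc⟩ : ∃ c, Group.nilpotencyClass P = c + 2 := by
    refine ⟨Group.nilpotencyClass P - 2, ?_⟩
    by_contra h
    have hle : Group.nilpotencyClass P ≤ 1 := by omega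
    have h1 := (Subgroup.lowerCentralSeries_eq_bot_iff_nilpotencyClass_le (G := P)).2 hle
    rw [Subgroup.top_lowerCentralSeries_one, commutator_def,
      Subgroup.commutator_eq_bot_iff_le_centralizer] at h1
    exact hna ⟨⟨fun a b => h1 (Subgroup.mem_top b) a (Subgroup.mem_top a)⟩⟩
  -- the normal closure lies in `H = E P'`
  let H : Subgroup P := E ⊔ commutator P
  have hHn : H.Normal := Subgroup.Normal.of_commutator_le _ le_sup_right
  have hsub : Subgroup.normalClosure (E : Set P) ≤ H :=
    Subgroup.normalClosure_le_normal (show (E : Set P) ⊆ H from fun x hx => Subgroup.mem_sup_left hx)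
  have hD : ⁅H, H⁆ ≤ (⊤ : Subgroup P).lowerCentralSeries 2 := by
    have hQ := QuotientGroup.ker_mk' ((⊤ : Subgroup P).lowerCentralSeries 2)
    rw [← hQ, ← Subgroup.map_eq_bot_iff, Subgroup.map_commutator,
      Subgroup.commutator_eq_bot_iff_le_centralizer, Subgroup.map_sup]
    set f := QuotientGroup.mk' ((⊤ : Subgroup P).lowerCentralSeries 2)
    have h2 : ∀ K : Subgroup P, (commutator P).map f ≤
        Subgroup.centralizer (K.map f : Set (P ⧸ _)) := by
      intro K
      rw [← Subgroup.commutator_eq_bot_iff_le_centralizer, ← Subgroup.map_commutator,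
        Subgroup.map_eq_bot_iff, hQ]
      exact Subgroup.commutator_mono le_rfl le_top
    have h1 : E.map f ≤ Subgroup.centralizer (E.map f : Set (P ⧸ _)) := by
      rintro _ ⟨a, ha, rfl⟩ _ ⟨b, hb, rfl⟩
      rw [← map_mul, ← map_mul]
      exact congrArg f (congrArg Subtype.val (hE.is_comm.comm (⟨b, hb⟩ : E) ⟨a, ha⟩))
    refine sup_le (Subgroup.le_centralizer_iff.1 (sup_le h1 (h2 E)))
      (Subgroup.le_centralizer_iff.1 (sup_le ?_ (h2 _)))
    exact Subgroup.le_centralizer_iff.1 (h2 E)
  have hn : ∀ n, H.lowerCentralSeries (n + 1) ≤ (⊤ : Subgroup P).lowerCentralSeries (n + 2) := by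
    intro n
    induction n with
    | zero => exact hD
    | succ n ih =>
      rw [Subgroup.lowerCentralSeries_succ, Subgroup.lowerCentralSeries_succ ⊤ (n + 2)]
      exact Subgroup.commutator_mono ih le_top
  rw [hc]
  refine Nat.lt_succ_of_le ?_
  rw [← Subgroup.lowerCentralSeries_eq_bot_iff_nilpotencyClass_le]
  rw [← Subgroup.map_eq_bot_iff_of_injective _
    (Subgroup.normalClosure (E : Set P)).subtype_injective, Subgroup.top_subtype_lowerCentralSeries]
  refine le_bot_iff.1 (((Subgroup.lowerCentralSeries_mono (c + 1)) hsub).trans ?_)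
  exact (hn c).trans (Subgroup.lowerCentralSeries_eq_bot_iff_nilpotencyClass_le.2 hc.le).le


/-- Let P be a non-abelian nilpotent p-group (every element of p-power order; P possibly infinite) generated by two abelian subgroups E and F. Then the normal closure of E in P, and likewise that of F, has nilpotency class strictly smaller than that of P. -/
theorem result {P : Type*} [Group P] {p : ℕ} [Fact p.Prime] (hP : IsPGroup p P) [Group.IsNilpotent P]
    (hna : ¬ IsMulCommutative P) {E F : Subgroup P} (hE : IsMulCommutative ↥E) (hF : IsMulCommutative ↥F) (hgen : E ⊔ F = ⊤) :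
    Group.nilpotencyClass ↥(Subgroup.normalClosure (E : Set P)) < Group.nilpotencyClass P ∧
    Group.nilpotencyClass ↥(Subgroup.normalClosure (F : Set P)) < Group.nilpotencyClass P := by
  exact ⟨key hna hE, key hna hF⟩

end Cfsg.Agent.S5067
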