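import Cfsg.Statements.S5069
import Cfsg.Agent.RootSubgroups.QPClasses

set_option autoImplicit false
universe u
open Cfsg

namespace Cfsg.Agent.S5069

/-- Let k be a field of characteristic not 2 with k not of order 3, M a finite-dimensional k-vector space and G ≤ GL(M) such that (G, M) is a quadratic pair (M irreducible for G, and G generated by its quadratically acting elements σ whose scalar family 1 + c(σ − 1), c ∈ k, lies in G). Write 𝒬_d for the quadratic elements of G of minimal commutator rank, E(σ) for the subgroup generated by the members of 𝒬_d with the same fixed space and commutator space as σ, and Σ for the set of these subgroups. Then Σ is a disjoint union of finitely many parts Σ₁, …, Σ_r such that the subgroups G_i generated by the Σ_i commute pairwise, each G_i is quasisimple, and inside G_i the members of Σ_i form a class of abstract root subgroups in which every rank one pair A, B contains subgroups A₀ ≤ A, B₀ ≤ B generating an image of SL₂(k₁) with central kernel on unitriangular subgroups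 for some field k₁ with at least four elements. -/
theorem result {k : Type u} [Field k] (hk2 : ringChar k ≠ 2) (hk3 : Nat.card k ≠ 3)
    {M : Type u} [AddCommGroup M] [Module k M] [FiniteDimensional k M]
    {G : Subgroup (LinearMap.GeneralLinearGroup k M)} (hG : Cfsg.IsQuadraticPair G) :
    ∃ (r : ℕ) (part : Fin r → Set (Subgroup (LinearMap.GeneralLinearGroup k M))),
      (⋃ i, part i) = Cfsg.quadraticRootSubgroups G ∧ (∀ i j, i ≠ j → Disjoint (part i) (part j)) ∧ (∀ i, (part i).Nonempty) ∧
      (∀ i j, i ≠ j → ⁅(⨆ A ∈ part i, A), (⨆ A ∈ part j, A)⁆ = ⊥) ∧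
      (∀ i, Cfsg.IsQuasisimple ↥(⨆ A ∈ part i, A) ∧
        Cfsg.IsRootSubgroupClass ((fun A : Subgroup (LinearMap.GeneralLinearGroup k M) => A.subgroupOf (⨆ B ∈ part i, B)) '' (part i)) ∧
        ∀ A ∈ part i, ∀ B ∈ Cfsg.rankOnePartners (part i) A, ∃ A₀ B₀ : Subgroup (LinearMap.GeneralLinearGroup k M), A₀ ≤ A ∧ B₀ ≤ B ∧
          ∃ (k₁ : Type u) (_ : Field k₁), 3 < ENat.card k₁ ∧ Cfsg.IsPSL2PairOver k₁ A₀ B₀) := by
  classical
  have h2' := Ring.two_ne_zero hk2
  have := (CfsgLib.RootSubgroups.QP.finite_comps h2' hk3 hG.1).fintype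
  let e := (Fintype.equivFin ↥((CfsgLib.RootSubgroups.QP.comp G) '' Cfsg.quadraticRootSubgroups G)).symm
  let part : Fin _ → Set (Subgroup (LinearMap.GeneralLinearGroup k M)) := fun i => (e i).1
  have hrep : ∀ i, ∃ A ∈ Cfsg.quadraticRootSubgroups G, CfsgLib.RootSubgroups.QP.comp G A = part i :=
    fun i => (e i).2
  refine ⟨_, part, ?_, ?_, ?_, ?_, ?_⟩
  · ext B
    rw [Set.mem_iUnion]
    constructor
    · rintro ⟨i, hB⟩
      obtain ⟨A, hA, he⟩ := hrep i
      exact ((he.symm ▸ hB : B ∈ CfsgLib.RootSubgroups.QP.comp G A)).1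
    · intro hB
      refine ⟨e.symm ⟨_, B, hB, rfl⟩, ?_⟩
      simp only [part, Equiv.apply_symm_apply]
      exact CfsgLib.RootSubgroups.QP.self_mem_comp hB
  · intro i j hij
    rw [Set.disjoint_left]
    intro B hi hj
    obtain ⟨A, -, hA'⟩ := hrep i
    obtain ⟨A', -, hA''⟩ := hrep j
    rw [← hA'] at hi
    rw [← hA''] at hj
    refine hij (e.injective (Subtype.ext ?_))
    show part i = part j
    rw [← hA', ← hA'', ← CfsgLib.RootSubgroups.QP.comp_eq hi, ← CfsgLib.RootSubgroups.QP.comp_eq hj]
  · intro i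
    obtain ⟨A, hA, he⟩ := hrep i
    exact ⟨A, he ▸ CfsgLib.RootSubgroups.QP.self_mem_comp hA⟩
  · intro i j hij
    obtain ⟨A, -, hA'⟩ := hrep i
    obtain ⟨A', -, hA''⟩ := hrep j
    have h := CfsgLib.RootSubgroups.QP.commutator_comps h2' hk3 hG.1 (A := A) (B := A')
      (fun h0 => hij (e.injective (Subtype.ext (show part i = part j by rw [← hA', ← hA'', h0]))))
    rw [← hA', ← hA'']
    exact h
  · intro i
    obtain ⟨A, hA, he⟩ := hrep i
    rw [← he]
    refine ⟨CfsgLib.RootSubgroups.QP.quasisimple_comp h2' hk3 hG.1 hA,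
      ⟨CfsgLib.RootSubgroups.QP.isRootSubgroupSet_comp h2' hk3 hG.1,
        CfsgLib.RootSubgroups.QP.isConjClass_comp hA⟩, fun B hB C hC => ?_⟩
    exact CfsgLib.RootSubgroups.QP.exists_psl_pair h2' hk3 hG.1 hB.1 hC.1.1 hC.2

end Cfsg.Agent.S5069
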