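import Cfsg.Statements.S5070
import Cfsg.Agent.RootSubgroups.TransvectionClass
import Cfsg.Agent.Classical.Symp.Transvection

set_option autoImplicit false
open Matrix
open Cfsg

namespace Cfsg.Agent.S5070
open CfsgLib.Classical.Symp CfsgLib.RootSubgroups Matrix

section
variable {F : Type*} [Field F] {m : ℕ}

/-- The transvection subgroup of a vector. -/
def tsub (p : Fin m ⊕ Fin m → F) : Subgroup ↥(Matrix.symplecticGroup (Fin m) F) :=
  (MonoidHom.mk' (fun c : Multiplicative F => spT p c.toAdd) fun a b => spT_add p _ _).range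

theorem mem_tsub {p : Fin m ⊕ Fin m → F} {g} : g ∈ tsub p ↔ ∃ c, spT p c = g :=
  ⟨fun ⟨c, h⟩ => ⟨c.toAdd, h⟩, fun ⟨c, h⟩ => ⟨Multiplicative.ofAdd c, h⟩⟩

theorem tsub_smul {p : Fin m ⊕ Fin m → F} {l : F} (hl : l ≠ 0) : tsub (l • p) = tsub p := by
  ext g
  simp only [mem_tsub, spT_smul]
  exact ⟨fun ⟨c, h⟩ => ⟨_, h⟩, fun ⟨c, h⟩ => ⟨c / l ^ 2, by rw [mul_div_cancel₀ _ (pow_ne_zero 2 hl)]; exact h⟩⟩

theorem closure_eq_tsub (p : Fin m ⊕ Fin m → F) :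
    Subgroup.closure {g : ↥(Matrix.symplecticGroup (Fin m) F) | ∃ c : F, ∀ v : Fin m ⊕ Fin m → F,
      (g : Matrix (Fin m ⊕ Fin m) (Fin m ⊕ Fin m) F) *ᵥ v = v + (c * (v ⬝ᵥ (Matrix.J (Fin m) F *ᵥ p))) • p} = tsub p := by
  conv_rhs => rw [← Subgroup.closure_eq (tsub p)]
  congr 1
  ext g
  rw [SetLike.mem_coe, mem_tsub]
  exact ⟨fun ⟨c, h⟩ => ⟨c, (symp_ext fun x => (h x).trans (spT_mulVec p c x).symm).symm⟩,
    fun ⟨c, h⟩ => ⟨c, fun v => h ▸ spT_mulVec p c v⟩⟩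

theorem pair_tsub {p r : Fin m ⊕ Fin m → F} (h : Cfsg.sympForm m F p r ≠ 0) :
    Cfsg.IsPSL2PairOver F (tsub p) (tsub r) := by
  classical
  obtain ⟨f, hf, hpf⟩ : ∃ f, tsub r = tsub f ∧ Cfsg.sympForm m F p f = 1 :=
    ⟨(Cfsg.sympForm m F p r)⁻¹ • r, (tsub_smul (inv_ne_zero h)).symm, by rw [form_smul_right, inv_mul_cancel₀ h]⟩
  rw [hf]
  set a := Matrix.J (Fin m) F *ᵥ f
  set b := -(Matrix.J (Fin m) F *ᵥ p)
  have ha : ∀ x, a ⬝ᵥ x = Cfsg.sympForm m F x f := fun x => dotProduct_comm _ _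
  have hb : ∀ x, b ⬝ᵥ x = -Cfsg.sympForm m F x p := fun x => by rw [neg_dotProduct, dotProduct_comm]; rfl
  let Φ := planeHom (e := p) (f := f) (a := a) (b := b) (RingHom.id F) (by rw [ha, hpf]) (by rw [ha, form_self])
    (by rw [hb, form_self, neg_zero]) (by rw [hb, form_swap, hpf, neg_neg]) (one_ne_zero (α := F))
  have hup : ∀ s, Φ (SLTwo.up s) = (spT p (-s) : Matrix (Fin m ⊕ Fin m) (Fin m ⊕ Fin m) F) := fun s => by
    refine Matrix.ext_iff_mulVec.2 fun x => ?_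
    simp [Φ, planeHom, planeMat_mulVec, spT_mulVec, hb]
  have hlow : ∀ t, Φ (SLTwo.low t) = (spT f t : Matrix (Fin m ⊕ Fin m) (Fin m ⊕ Fin m) F) := fun t => by
    refine Matrix.ext_iff_mulVec.2 fun x => ?_
    simp [Φ, planeHom, planeMat_mulVec, spT_mulVec, ha]
  have hmem : ∀ M, Φ M ∈ Matrix.symplecticGroup (Fin m) F := slTwo_induction
    (fun s => by rw [hup]; exact SetLike.coe_mem _) (fun t => by rw [hlow]; exact SetLike.coe_mem _)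
    (fun x y hx hy => by rw [map_mul]; exact mul_mem hx hy)
  refine psl2Pair_of_hom (Φ.codRestrict _ hmem) (fun x y hxy => planeHom_injective (RingHom.id F) _ _ _ _ _ (congrArg Subtype.val hxy))
    (fun g => ?_) (fun g => ?_)
  · rw [mem_tsub]
    exact ⟨fun ⟨c, h⟩ => ⟨-c, Subtype.ext (by rw [← h]; exact (hup (-c)).trans (by rw [neg_neg]))⟩,
      fun ⟨s, h⟩ => ⟨-s, Subtype.ext (by rw [← h]; exact (hup s).symm)⟩⟩
  · rw [mem_tsub]
    exact ⟨fun ⟨c, h⟩ => ⟨c, Subtype.ext (by rw [← h]; exact hlow c)⟩,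
      fun ⟨s, h⟩ => ⟨s, Subtype.ext (by rw [← h]; exact (hlow s).symm)⟩⟩

end


/-- Let F be a field, m a natural number and V = F^{2(m+1)} with the standard non-degenerate alternating form f(u, v) = uᵀ J v. For a non-zero vector p let T(p) be the group of symplectic transvections v ↦ v + c f(v, p) p, c ∈ F. Then the subgroups T(p), p ≠ 0, generate the symplectic group Sp_{2(m+1)}(F) and form a degenerate class of abstract F-root subgroups of it (any two of them either commute elementwise or are the unipotent subgroups of a rank one group that is an image of SL₂(F) with central kernel, never the commutator case), and their graph of rank one pairs is connected. -/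
theorem result (F : Type*) [Field F] (m : ℕ) :
    Cfsg.IsRootSubgroupClass {A : Subgroup ↥(Matrix.symplecticGroup (Fin (m + 1)) F) | ∃ p : Fin (m + 1) ⊕ Fin (m + 1) → F, p ≠ 0 ∧
        A = Subgroup.closure {g : ↥(Matrix.symplecticGroup (Fin (m + 1)) F) | ∃ c : F, ∀ v : Fin (m + 1) ⊕ Fin (m + 1) → F,
          (g : Matrix (Fin (m + 1) ⊕ Fin (m + 1)) (Fin (m + 1) ⊕ Fin (m + 1)) F) *ᵥ v =
            v + (c * (v ⬝ᵥ (Matrix.J (Fin (m + 1)) F *ᵥ p))) • p}} ∧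
    Cfsg.IsDegenerateRootSet {A : Subgroup ↥(Matrix.symplecticGroup (Fin (m + 1)) F) | ∃ p : Fin (m + 1) ⊕ Fin (m + 1) → F, p ≠ 0 ∧
        A = Subgroup.closure {g : ↥(Matrix.symplecticGroup (Fin (m + 1)) F) | ∃ c : F, ∀ v : Fin (m + 1) ⊕ Fin (m + 1) → F,
          (g : Matrix (Fin (m + 1) ⊕ Fin (m + 1)) (Fin (m + 1) ⊕ Fin (m + 1)) F) *ᵥ v =
            v + (c * (v ⬝ᵥ (Matrix.J (Fin (m + 1)) F *ᵥ p))) • p}} ∧
    Cfsg.IsKRootSubgroupSet F {A : Subgroup ↥(Matrix.symplecticGroup (Fin (m + 1)) F) | ∃ p : Fin (m + 1) ⊕ Fin (m + 1) → F, p ≠ 0 ∧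
        A = Subgroup.closure {g : ↥(Matrix.symplecticGroup (Fin (m + 1)) F) | ∃ c : F, ∀ v : Fin (m + 1) ⊕ Fin (m + 1) → F,
          (g : Matrix (Fin (m + 1) ⊕ Fin (m + 1)) (Fin (m + 1) ⊕ Fin (m + 1)) F) *ᵥ v =
            v + (c * (v ⬝ᵥ (Matrix.J (Fin (m + 1)) F *ᵥ p))) • p}} ∧
    Cfsg.IsConnectedFamily (Cfsg.FAdj {A : Subgroup ↥(Matrix.symplecticGroup (Fin (m + 1)) F) | ∃ p : Fin (m + 1) ⊕ Fin (m + 1) → F, p ≠ 0 ∧
        A = Subgroup.closure {g : ↥(Matrix.symplecticGroup (Fin (m + 1)) F) | ∃ c : F, ∀ v : Fin (m + 1) ⊕ Fin (m + 1) → F,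
          (g : Matrix (Fin (m + 1) ⊕ Fin (m + 1)) (Fin (m + 1) ⊕ Fin (m + 1)) F) *ᵥ v =
            v + (c * (v ⬝ᵥ (Matrix.J (Fin (m + 1)) F *ᵥ p))) • p}})
      {A : Subgroup ↥(Matrix.symplecticGroup (Fin (m + 1)) F) | ∃ p : Fin (m + 1) ⊕ Fin (m + 1) → F, p ≠ 0 ∧
        A = Subgroup.closure {g : ↥(Matrix.symplecticGroup (Fin (m + 1)) F) | ∃ c : F, ∀ v : Fin (m + 1) ⊕ Fin (m + 1) → F,
          (g : Matrix (Fin (m + 1) ⊕ Fin (m + 1)) (Fin (m + 1) ⊕ Fin (m + 1)) F) *ᵥ v =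
            v + (c * (v ⬝ᵥ (Matrix.J (Fin (m + 1)) F *ᵥ p))) • p}} := by
  classical
  have hset : {A : Subgroup ↥(Matrix.symplecticGroup (Fin (m + 1)) F) | ∃ p : Fin (m + 1) ⊕ Fin (m + 1) → F, p ≠ 0 ∧
      A = Subgroup.closure {g : ↥(Matrix.symplecticGroup (Fin (m + 1)) F) | ∃ c : F, ∀ v : Fin (m + 1) ⊕ Fin (m + 1) → F,
        (g : Matrix (Fin (m + 1) ⊕ Fin (m + 1)) (Fin (m + 1) ⊕ Fin (m + 1)) F) *ᵥ v =
          v + (c * (v ⬝ᵥ (Matrix.J (Fin (m + 1)) F *ᵥ p))) • p}} = {A | ∃ p, p ≠ 0 ∧ A = tsub p} := by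
    simp only [closure_eq_tsub]
  rw [hset]
  refine CfsgLib.RootSubgroups.class_of_psl2Pairs ?_ ?_ ?_ ?_ ?_ ?_ ?_
  · exact ⟨_, Pi.single (Sum.inl 0) 1, by simp, rfl⟩
  · rw [eq_top_iff, ← closure_transvectionSet, Subgroup.closure_le]
    rintro g ⟨w, c, hg⟩
    rw [show g = spT w c from Subtype.ext hg]
    by_cases hw : w = 0
    · subst hw; rw [spT_zero_left]; exact one_mem _
    · exact Subgroup.mem_iSup_of_mem (tsub w) (Subgroup.mem_iSup_of_mem ⟨w, hw, rfl⟩ (mem_tsub.2 ⟨c, rfl⟩))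
  · rintro _ ⟨p, hp, rfl⟩ h
    obtain ⟨v, hv⟩ := exists_form_eq_one hp
    have h1 : spT p 1 = 1 := (Subgroup.eq_bot_iff_forall _).1 h _ (mem_tsub.2 ⟨1, rfl⟩)
    have h2 := congrArg (fun g : ↥(Matrix.symplecticGroup (Fin (m + 1)) F) =>
      (g : Matrix (Fin (m + 1) ⊕ Fin (m + 1)) (Fin (m + 1) ⊕ Fin (m + 1)) F) *ᵥ v) h1
    simp [spT_mulVec, form_swap v p, hv, hp] at h2
  · rintro _ ⟨p, -, rfl⟩
    refine ⟨⟨fun x y => Subtype.ext ?_⟩⟩
    obtain ⟨c, hc⟩ := mem_tsub.1 x.2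
    obtain ⟨d, hd⟩ := mem_tsub.1 y.2
    show (x : ↥(Matrix.symplecticGroup (Fin (m + 1)) F)) * y = y * x
    rw [← hc, ← hd, ← spT_add, ← spT_add, add_comm c d]
  · rintro _ ⟨p, hp, rfl⟩ B - g -
    refine ⟨(g : Matrix (Fin (m + 1) ⊕ Fin (m + 1)) (Fin (m + 1) ⊕ Fin (m + 1)) F) *ᵥ p, ?_, ?_⟩
    · intro h
      apply hp
      have h1 := congrArg (fun x => ((g⁻¹ : ↥(Matrix.symplecticGroup (Fin (m + 1)) F)) : Matrix (Fin (m + 1) ⊕ Fin (m + 1)) (Fin (m + 1) ⊕ Fin (m + 1)) F) *ᵥ x) h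
      simp only [← mul_mulVec, inv_mul_cancel, Matrix.mulVec_zero] at h1
      simpa using h1
    · ext x
      rw [CfsgLib.RootSubgroups.mem_conjBy, mem_tsub, mem_tsub]
      exact ⟨fun ⟨c, h⟩ => ⟨c, by rw [← conj_spT, h]; group⟩, fun ⟨c, h⟩ => ⟨c, by rw [← h, ← conj_spT]; group⟩⟩
  · rintro _ ⟨p, -, rfl⟩ _ ⟨r, -, rfl⟩
    by_cases h : Cfsg.sympForm (m + 1) F p r = 0
    · left
      rw [CfsgLib.RootSubgroups.commutator_eq_bot_iff_commutes]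
      intro x hx y hy
      obtain ⟨c, rfl⟩ := mem_tsub.1 hx
      obtain ⟨d, rfl⟩ := mem_tsub.1 hy
      exact spT_commute h c d
    · exact Or.inr (pair_tsub h)
  · rintro _ ⟨p, hp, rfl⟩ _ ⟨r, hr, rfl⟩
    obtain ⟨u, hu⟩ := exists_form_eq_one hp
    obtain ⟨w, hw⟩ := exists_form_eq_one hr
    obtain ⟨s, hps, hrs⟩ : ∃ s, Cfsg.sympForm (m + 1) F p s ≠ 0 ∧ Cfsg.sympForm (m + 1) F r s ≠ 0 := by
      by_cases h1 : Cfsg.sympForm (m + 1) F r u = 0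
      · by_cases h2 : Cfsg.sympForm (m + 1) F p w = 0
        · exact ⟨u + w, by simp [form_add_right, hu, h2], by simp [form_add_right, hw, h1]⟩
        · exact ⟨w, h2, by simp [hw]⟩
      · exact ⟨u, by simp [hu], h1⟩
    have hs0 : s ≠ 0 := fun h => hps (by rw [h, form_zero_right])
    refine (Relation.ReflTransGen.single ⟨⟨p, hp, rfl⟩, ⟨s, hs0, rfl⟩, pair_tsub hps⟩).tail
      ⟨⟨s, hs0, rfl⟩, ⟨r, hr, rfl⟩, pair_tsub ?_⟩
    rwa [form_swap, neg_ne_zero]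

end Cfsg.Agent.S5070
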