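import Cfsg.Statements.S5071
import Cfsg.Agent.RootSubgroups.TransvectionClass
import Cfsg.Agent.Classical.Unitary.Isotropic
import Cfsg.Agent.Classical.Unitary.Order

set_option autoImplicit false
open Matrix
open Cfsg

namespace Cfsg.Agent.S5071
open CfsgLib.Unitary CfsgLib.RootSubgroups Matrix

section
variable {F : Type*} [Field F] [Fintype F] {q n : ℕ}

theorem trace_mul (hF : Fintype.card F = q ^ 2) {δ : F} (hδ : δ + δ ^ q = 0) {t : F} (ht : t ^ q = t) :
    δ * t + (δ * t) ^ q = 0 := by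
  rw [mul_pow, ht, ← add_mul, hδ, zero_mul]

/-- The transvection subgroup of an isotropic vector. -/
def tsub (hF : Fintype.card F = q ^ 2) (p : Fin n → F) (hp : hermForm n F q p p = 0) : Subgroup ↥(SU n F q) where
  carrier := {g | ∃ (c : F) (hc : c + c ^ q = 0), g = transvSU hF p c hp hc}
  one_mem' := ⟨0, by rw [zero_add, zero_pow_q hF], (transvSU_eq_one hF hp _ (Or.inl rfl)).symm⟩
  mul_mem' := by
    rintro _ _ ⟨c, hc, rfl⟩ ⟨d, hd, rfl⟩
    exact ⟨c + d, by rw [add_pow_q hF]; linear_combination hc + hd, transvSU_mul hF hp hc hd _⟩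
  inv_mem' := by
    rintro _ ⟨c, hc, rfl⟩
    refine ⟨-c, by rw [neg_pow_q hF]; linear_combination -hc, inv_eq_of_mul_eq_one_right ?_⟩
    rw [transvSU_mul hF hp hc _ (by rw [add_neg_cancel, zero_add, zero_pow_q hF])]
    exact transvSU_eq_one hF hp _ (Or.inl (add_neg_cancel c))

theorem mem_tsub {hF : Fintype.card F = q ^ 2} {p : Fin n → F} {hp : hermForm n F q p p = 0} {g : ↥(SU n F q)} :
    g ∈ tsub hF p hp ↔ ∃ (c : F) (hc : c + c ^ q = 0), g = transvSU hF p c hp hc := Iff.rfl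

theorem tsub_smul (hF : Fintype.card F = q ^ 2) {p : Fin n → F} (hp : hermForm n F q p p = 0) {l : F} (hl : l ≠ 0) :
    ∃ h, tsub hF (l • p) h = tsub hF p hp := by
  refine ⟨by rw [herm_self_smul, hp, mul_zero], ?_⟩
  have hn : (l ^ (q + 1)) ^ q = l ^ (q + 1) := norm_pow_q hF l
  ext g
  constructor
  · rintro ⟨c, hc, rfl⟩
    have hd : c * l ^ (q + 1) + (c * l ^ (q + 1)) ^ q = 0 := by rw [mul_pow, hn, ← add_mul, hc, zero_mul]
    exact ⟨_, hd, transvSU_smul hF hp _ hc hd⟩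
  · rintro ⟨c, hc, rfl⟩
    have hc' : c / l ^ (q + 1) + (c / l ^ (q + 1)) ^ q = 0 := by rw [div_pow, hn, ← add_div, hc, zero_div]
    refine ⟨_, hc', ?_⟩
    have e : c / l ^ (q + 1) * l ^ (q + 1) = c := div_mul_cancel₀ _ (pow_ne_zero _ hl)
    rw [transvSU_smul hF hp _ hc' (by rw [e]; exact hc)]
    simp only [e]

theorem closure_eq_tsub (hF : Fintype.card F = q ^ 2) {p : Fin n → F} (hp0 : p ≠ 0) (hp : hermForm n F q p p = 0) :
    Subgroup.closure {g : ↥(SU n F q) |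
      (∀ v : Fin n → F, ∃ c : F, ((g : Matrix.SpecialLinearGroup (Fin n) F) : Matrix (Fin n) (Fin n) F) *ᵥ v = v + c • p) ∧
      ∀ v : Fin n → F, hermForm n F q v p = 0 →
        ((g : Matrix.SpecialLinearGroup (Fin n) F) : Matrix (Fin n) (Fin n) F) *ᵥ v = v} = tsub hF p hp := by
  conv_rhs => rw [← Subgroup.closure_eq (tsub hF p hp)]
  congr 1
  ext g
  rw [SetLike.mem_coe, mem_tsub]
  constructor
  · rintro ⟨hmove, hfix⟩
    obtain ⟨f, -, hf, hpf⟩ := exists_partner hF (isNondeg_top hF) trivial hp0 hp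
    have hfp : hermForm n F q f p = 1 := by rw [herm_conj hF, hpf, one_pow]
    obtain ⟨c, hc⟩ := hmove f
    have hgx : ∀ x, sv g x = x + (c * hermForm n F q x p) • p := by
      intro x
      have h1 : sv g (x - hermForm n F q x p • f) = x - hermForm n F q x p • f :=
        hfix _ (by rw [herm_sub_left, herm_smul_left, hfp, mul_one, sub_self])
      rw [sv_sub, sv_smul, show sv g f = f + c • p from hc] at h1
      linear_combination (norm := module) h1
    have hc' : c + c ^ q = 0 := by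
      have h := sv_herm g f f
      rw [hgx, hfp, mul_one] at h
      simp only [herm_add_left, herm_add_right hF, herm_smul_left, herm_smul_right, hp, hf, hpf, hfp] at h
      linear_combination h
    exact ⟨c, hc', sv_ext fun x => by rw [sv_transvSU, hgx]⟩
  · rintro ⟨c, hc, rfl⟩
    exact ⟨fun v => ⟨_, sv_transvSU hF hp hc v⟩, fun v hv => (sv_transvSU hF hp hc v).trans (by rw [hv, mul_zero, zero_smul, add_zero])⟩

theorem pair_tsub (hF : Fintype.card F = q ^ 2) {L : Type*} [Field L] (θ : L →+* F)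
    (hθ : ∀ y : F, y ^ q = y ↔ ∃ x, θ x = y) {δ : F} (hδ0 : δ ≠ 0) (hδ : δ + δ ^ q = 0) {p r : Fin n → F}
    (hp : hermForm n F q p p = 0) (hr : hermForm n F q r r = 0) (h : hermForm n F q p r ≠ 0) :
    IsPSL2PairOver L (tsub hF p hp) (tsub hF r hr) := by
  classical
  obtain ⟨f, hf, hTf, hpf⟩ : ∃ (f : Fin n → F) (hf : hermForm n F q f f = 0), tsub hF r hr = tsub hF f hf ∧
      hermForm n F q p f = 1 := by
    obtain ⟨h', e⟩ := tsub_smul hF hr (l := ((hermForm n F q p r)⁻¹) ^ q) (pow_ne_zero _ (inv_ne_zero h))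
    exact ⟨_, h', e.symm, by rw [herm_smul_right, pow_q_q hF, inv_mul_cancel₀ h]⟩
  rw [hTf]
  have hfp : hermForm n F q f p = 1 := by rw [herm_conj hF, hpf, one_pow]
  have hdot : ∀ z x : Fin n → F, (fun i => z i ^ q) ⬝ᵥ x = hermForm n F q x z := fun z x => by
    simp [hermForm, dotProduct, mul_comm]
  let Φ := planeHom (e := p) (f := f) (a := fun i => f i ^ q) (b := fun i => p i ^ q) θ (by rw [hdot, hpf])
    (by rw [hdot, hf]) (by rw [hdot, hp]) (by rw [hdot, hfp]) hδ0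
  have hfix : ∀ t : L, θ t ^ q = θ t := fun t => (hθ _).2 ⟨t, rfl⟩
  have hδ' : δ⁻¹ + δ⁻¹ ^ q = 0 := by
    rw [inv_pow, show δ ^ q = -δ from (neg_eq_of_add_eq_zero_right hδ).symm, inv_neg, add_neg_cancel]
  let M : ↥(SU n F q) →* Matrix (Fin n) (Fin n) F :=
    { toFun := fun g => ((g : Matrix.SpecialLinearGroup (Fin n) F) : Matrix (Fin n) (Fin n) F)
      map_one' := rfl
      map_mul' := fun _ _ => rfl }
  have hup : ∀ s, Φ (SLTwo.up s) = M (transvSU hF p _ hp (trace_mul hF hδ (hfix s))) := fun s => by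
    refine Matrix.ext_iff_mulVec.2 fun x => ?_
    show _ = sv (transvSU hF p _ hp (trace_mul hF hδ (hfix s))) x
    simp [Φ, planeHom, planeMat_mulVec, sv_transvSU, hdot]
  have hlow : ∀ t, Φ (SLTwo.low t) = M (transvSU hF f _ hf (trace_mul hF hδ' (hfix t))) := fun t => by
    refine Matrix.ext_iff_mulVec.2 fun x => ?_
    show _ = sv (transvSU hF f _ hf (trace_mul hF hδ' (hfix t))) x
    simp [Φ, planeHom, planeMat_mulVec, sv_transvSU, hdot]
  have hmem : ∀ X, ∃ g, M g = Φ X := slTwo_induction (fun s => ⟨_, (hup s).symm⟩) (fun t => ⟨_, (hlow t).symm⟩)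
    (fun x y ⟨g, hg⟩ ⟨g', hg'⟩ => ⟨g * g', by rw [map_mul, hg, hg', map_mul]⟩)
  choose ψ hψ using hmem
  have hM : Function.Injective M := fun a b e => Subtype.ext (Subtype.ext e)
  let φ : Matrix.SpecialLinearGroup (Fin 2) L →* ↥(SU n F q) :=
    MonoidHom.mk' ψ fun x y => hM (by rw [map_mul, hψ, hψ, hψ, map_mul])
  refine psl2Pair_of_hom φ (fun x y hxy => planeHom_injective θ _ _ _ _ _ ((hψ x).symm.trans ((congrArg M hxy).trans (hψ y))))
    (fun g => ⟨?_, ?_⟩) (fun g => ⟨?_, ?_⟩)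
  · rintro ⟨c, hc, rfl⟩
    obtain ⟨s, hs⟩ := (hθ (c / δ)).1 (by
      rw [div_pow, show c ^ q = -c from (neg_eq_of_add_eq_zero_right hc).symm,
        show δ ^ q = -δ from (neg_eq_of_add_eq_zero_right hδ).symm, neg_div_neg_eq])
    refine ⟨s, hM ((hψ _).trans ((hup s).trans ?_))⟩
    simp only [hs, mul_div_cancel₀ c hδ0]
  · rintro ⟨s, rfl⟩
    exact ⟨_, trace_mul hF hδ (hfix s), hM ((hψ _).trans (hup s))⟩
  · rintro ⟨c, hc, rfl⟩
    obtain ⟨s, hs⟩ := (hθ (c / δ⁻¹)).1 (by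
      rw [div_pow, show c ^ q = -c from (neg_eq_of_add_eq_zero_right hc).symm,
        show δ⁻¹ ^ q = -δ⁻¹ from (neg_eq_of_add_eq_zero_right hδ').symm, neg_div_neg_eq])
    refine ⟨s, hM ((hψ _).trans ((hlow s).trans ?_))⟩
    simp only [hs, mul_div_cancel₀ c (inv_ne_zero hδ0)]
  · rintro ⟨s, rfl⟩
    exact ⟨_, trace_mul hF hδ' (hfix s), hM ((hψ _).trans (hlow s))⟩

end


/-- Let F be a finite field with q² elements, n a natural number, and h the Hermitian form Σ uᵢ vᵢ^q on F^{n+2}. For a non-zero isotropic vector p let T(p) be the group of unitary transvections with centre ⟨p⟩: the elements of SU_{n+2}(q) moving every vector by a multiple of p and fixing every vector perpendicular to p. Let Σ be the set of these T(p) and G₀ the subgroup they generate. Then, viewed inside G₀, the members of Σ form a degenerate class of abstract k-root subgroups of G₀ for some field k with q elements (any two commute or are the unipotent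 subgroups of a rank one group that is an image of SL₂(k) with central kernel, never the commutator case), and their graph of rank one pairs is connected. -/
theorem result (F : Type*) [Field F] [Fintype F] (q n : ℕ) (hF : Fintype.card F = q ^ 2) :
    Cfsg.IsRootSubgroupClass ((fun A : Subgroup ↥(Cfsg.SU (n + 2) F q) => A.subgroupOf (⨆ B ∈ {A : Subgroup ↥(Cfsg.SU (n + 2) F q) | ∃ p : Fin (n + 2) → F, p ≠ 0 ∧ Cfsg.hermForm (n + 2) F q p p = 0 ∧
          A = Subgroup.closure {g : ↥(Cfsg.SU (n + 2) F q) |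
            (∀ v : Fin (n + 2) → F, ∃ c : F, ((g : Matrix.SpecialLinearGroup (Fin (n + 2)) F) : Matrix (Fin (n + 2)) (Fin (n + 2)) F) *ᵥ v = v + c • p) ∧
            ∀ v : Fin (n + 2) → F, Cfsg.hermForm (n + 2) F q v p = 0 →
              ((g : Matrix.SpecialLinearGroup (Fin (n + 2)) F) : Matrix (Fin (n + 2)) (Fin (n + 2)) F) *ᵥ v = v}}, B)) ''
      {A : Subgroup ↥(Cfsg.SU (n + 2) F q) | ∃ p : Fin (n + 2) → F, p ≠ 0 ∧ Cfsg.hermForm (n + 2) F q p p = 0 ∧
          A = Subgroup.closure {g : ↥(Cfsg.SU (n + 2) F q) |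
            (∀ v : Fin (n + 2) → F, ∃ c : F, ((g : Matrix.SpecialLinearGroup (Fin (n + 2)) F) : Matrix (Fin (n + 2)) (Fin (n + 2)) F) *ᵥ v = v + c • p) ∧
            ∀ v : Fin (n + 2) → F, Cfsg.hermForm (n + 2) F q v p = 0 →
              ((g : Matrix.SpecialLinearGroup (Fin (n + 2)) F) : Matrix (Fin (n + 2)) (Fin (n + 2)) F) *ᵥ v = v}}) ∧
    Cfsg.IsDegenerateRootSet ((fun A : Subgroup ↥(Cfsg.SU (n + 2) F q) => A.subgroupOf (⨆ B ∈ {A : Subgroup ↥(Cfsg.SU (n + 2) F q) | ∃ p : Fin (n + 2) → F, p ≠ 0 ∧ Cfsg.hermForm (n + 2) F q p p = 0 ∧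
          A = Subgroup.closure {g : ↥(Cfsg.SU (n + 2) F q) |
            (∀ v : Fin (n + 2) → F, ∃ c : F, ((g : Matrix.SpecialLinearGroup (Fin (n + 2)) F) : Matrix (Fin (n + 2)) (Fin (n + 2)) F) *ᵥ v = v + c • p) ∧
            ∀ v : Fin (n + 2) → F, Cfsg.hermForm (n + 2) F q v p = 0 →
              ((g : Matrix.SpecialLinearGroup (Fin (n + 2)) F) : Matrix (Fin (n + 2)) (Fin (n + 2)) F) *ᵥ v = v}}, B)) ''
      {A : Subgroup ↥(Cfsg.SU (n + 2) F q) | ∃ p : Fin (n + 2) → F, p ≠ 0 ∧ Cfsg.hermForm (n + 2) F q p p = 0 ∧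
          A = Subgroup.closure {g : ↥(Cfsg.SU (n + 2) F q) |
            (∀ v : Fin (n + 2) → F, ∃ c : F, ((g : Matrix.SpecialLinearGroup (Fin (n + 2)) F) : Matrix (Fin (n + 2)) (Fin (n + 2)) F) *ᵥ v = v + c • p) ∧
            ∀ v : Fin (n + 2) → F, Cfsg.hermForm (n + 2) F q v p = 0 →
              ((g : Matrix.SpecialLinearGroup (Fin (n + 2)) F) : Matrix (Fin (n + 2)) (Fin (n + 2)) F) *ᵥ v = v}}) ∧
    (∃ (L : Type) (_ : Field L) (_ : Fintype L), Fintype.card L = q ∧ Cfsg.IsKRootSubgroupSet L ((fun A : Subgroup ↥(Cfsg.SU (n + 2) F q) => A.subgroupOf (⨆ B ∈ {A : Subgroup ↥(Cfsg.SU (n + 2) F q) | ∃ p : Fin (n + 2) → F, p ≠ 0 ∧ Cfsg.hermForm (n + 2) F q p p = 0 ∧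
          A = Subgroup.closure {g : ↥(Cfsg.SU (n + 2) F q) |
            (∀ v : Fin (n + 2) → F, ∃ c : F, ((g : Matrix.SpecialLinearGroup (Fin (n + 2)) F) : Matrix (Fin (n + 2)) (Fin (n + 2)) F) *ᵥ v = v + c • p) ∧
            ∀ v : Fin (n + 2) → F, Cfsg.hermForm (n + 2) F q v p = 0 →
              ((g : Matrix.SpecialLinearGroup (Fin (n + 2)) F) : Matrix (Fin (n + 2)) (Fin (n + 2)) F) *ᵥ v = v}}, B)) ''
      {A : Subgroup ↥(Cfsg.SU (n + 2) F q) | ∃ p : Fin (n + 2) → F, p ≠ 0 ∧ Cfsg.hermForm (n + 2) F q p p = 0 ∧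
          A = Subgroup.closure {g : ↥(Cfsg.SU (n + 2) F q) |
            (∀ v : Fin (n + 2) → F, ∃ c : F, ((g : Matrix.SpecialLinearGroup (Fin (n + 2)) F) : Matrix (Fin (n + 2)) (Fin (n + 2)) F) *ᵥ v = v + c • p) ∧
            ∀ v : Fin (n + 2) → F, Cfsg.hermForm (n + 2) F q v p = 0 →
              ((g : Matrix.SpecialLinearGroup (Fin (n + 2)) F) : Matrix (Fin (n + 2)) (Fin (n + 2)) F) *ᵥ v = v}})) ∧
    Cfsg.IsConnectedFamily (Cfsg.FAdj ((fun A : Subgroup ↥(Cfsg.SU (n + 2) F q) => A.subgroupOf (⨆ B ∈ {A : Subgroup ↥(Cfsg.SU (n + 2) F q) | ∃ p : Fin (n + 2) → F, p ≠ 0 ∧ Cfsg.hermForm (n + 2) F q p p = 0 ∧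
          A = Subgroup.closure {g : ↥(Cfsg.SU (n + 2) F q) |
            (∀ v : Fin (n + 2) → F, ∃ c : F, ((g : Matrix.SpecialLinearGroup (Fin (n + 2)) F) : Matrix (Fin (n + 2)) (Fin (n + 2)) F) *ᵥ v = v + c • p) ∧
            ∀ v : Fin (n + 2) → F, Cfsg.hermForm (n + 2) F q v p = 0 →
              ((g : Matrix.SpecialLinearGroup (Fin (n + 2)) F) : Matrix (Fin (n + 2)) (Fin (n + 2)) F) *ᵥ v = v}}, B)) ''
      {A : Subgroup ↥(Cfsg.SU (n + 2) F q) | ∃ p : Fin (n + 2) → F, p ≠ 0 ∧ Cfsg.hermForm (n + 2) F q p p = 0 ∧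
          A = Subgroup.closure {g : ↥(Cfsg.SU (n + 2) F q) |
            (∀ v : Fin (n + 2) → F, ∃ c : F, ((g : Matrix.SpecialLinearGroup (Fin (n + 2)) F) : Matrix (Fin (n + 2)) (Fin (n + 2)) F) *ᵥ v = v + c • p) ∧
            ∀ v : Fin (n + 2) → F, Cfsg.hermForm (n + 2) F q v p = 0 →
              ((g : Matrix.SpecialLinearGroup (Fin (n + 2)) F) : Matrix (Fin (n + 2)) (Fin (n + 2)) F) *ᵥ v = v}})) ((fun A : Subgroup ↥(Cfsg.SU (n + 2) F q) => A.subgroupOf (⨆ B ∈ {A : Subgroup ↥(Cfsg.SU (n + 2) F q) | ∃ p : Fin (n + 2) → F, p ≠ 0 ∧ Cfsg.hermForm (n + 2) F q p p = 0 ∧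
          A = Subgroup.closure {g : ↥(Cfsg.SU (n + 2) F q) |
            (∀ v : Fin (n + 2) → F, ∃ c : F, ((g : Matrix.SpecialLinearGroup (Fin (n + 2)) F) : Matrix (Fin (n + 2)) (Fin (n + 2)) F) *ᵥ v = v + c • p) ∧
            ∀ v : Fin (n + 2) → F, Cfsg.hermForm (n + 2) F q v p = 0 →
              ((g : Matrix.SpecialLinearGroup (Fin (n + 2)) F) : Matrix (Fin (n + 2)) (Fin (n + 2)) F) *ᵥ v = v}}, B)) ''
      {A : Subgroup ↥(Cfsg.SU (n + 2) F q) | ∃ p : Fin (n + 2) → F, p ≠ 0 ∧ Cfsg.hermForm (n + 2) F q p p = 0 ∧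
          A = Subgroup.closure {g : ↥(Cfsg.SU (n + 2) F q) |
            (∀ v : Fin (n + 2) → F, ∃ c : F, ((g : Matrix.SpecialLinearGroup (Fin (n + 2)) F) : Matrix (Fin (n + 2)) (Fin (n + 2)) F) *ᵥ v = v + c • p) ∧
            ∀ v : Fin (n + 2) → F, Cfsg.hermForm (n + 2) F q v p = 0 →
              ((g : Matrix.SpecialLinearGroup (Fin (n + 2)) F) : Matrix (Fin (n + 2)) (Fin (n + 2)) F) *ᵥ v = v}}) := by
  classical
  have hq2 := two_le_q hF
  obtain ⟨δ, hδ0, hδ⟩ := exists_trace_zero_ne_zero hF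
  -- a copy of the fixed field in Type
  let σ : F →+* F := conjHom hF
  let L₀ : Subfield F := RingHom.eqLocusField σ (RingHom.id F)
  haveI : Fintype L₀ := Fintype.ofFinite _
  have hcard : Fintype.card L₀ = q := by rw [← Nat.card_eq_fintype_card]; exact card_fixed hF
  have hone : (1 : Fin (n + 2) → F) = 1 := rfl
  letI eqv : Fin q ≃ L₀ := (Fintype.equivFinOfCardEq hcard).symm
  letI : Field (Fin q) := eqv.field
  let θ : Fin q →+* F := L₀.subtype.comp (Equiv.ringEquiv eqv).toRingHom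
  have hθ : ∀ y : F, y ^ q = y ↔ ∃ x, θ x = y := fun y =>
    ⟨fun hy => ⟨eqv.symm ⟨y, hy⟩, by show ((eqv (eqv.symm ⟨y, hy⟩)) : F) = y; rw [Equiv.apply_symm_apply]⟩,
      fun ⟨x, hx⟩ => hx ▸ (eqv x).2⟩
  set S₀ := {A : Subgroup ↥(Cfsg.SU (n + 2) F q) | ∃ p : Fin (n + 2) → F, p ≠ 0 ∧ Cfsg.hermForm (n + 2) F q p p = 0 ∧
      A = Subgroup.closure {g : ↥(Cfsg.SU (n + 2) F q) |
        (∀ v : Fin (n + 2) → F, ∃ c : F, ((g : Matrix.SpecialLinearGroup (Fin (n + 2)) F) : Matrix (Fin (n + 2)) (Fin (n + 2)) F) *ᵥ v = v + c • p) ∧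
        ∀ v : Fin (n + 2) → F, Cfsg.hermForm (n + 2) F q v p = 0 →
          ((g : Matrix.SpecialLinearGroup (Fin (n + 2)) F) : Matrix (Fin (n + 2)) (Fin (n + 2)) F) *ᵥ v = v}} with hS₀
  have hmemS : ∀ (p : Fin (n + 2) → F) (hp0 : p ≠ 0) (hp : hermForm (n + 2) F q p p = 0), tsub hF p hp ∈ S₀ :=
    fun p hp0 hp => ⟨p, hp0, hp, (closure_eq_tsub hF hp0 hp).symm⟩
  have hform : ∀ A ∈ S₀, ∃ (p : Fin (n + 2) → F) (hp : hermForm (n + 2) F q p p = 0), p ≠ 0 ∧ A = tsub hF p hp := by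
    rintro A ⟨p, hp0, hp, rfl⟩
    exact ⟨p, hp, hp0, closure_eq_tsub hF hp0 hp⟩
  have key := CfsgLib.RootSubgroups.class_of_psl2Pairs_generated (k := Fin q) (S₀ := S₀) ?_ ?_ ?_ ?_ ?_ ?_
  · exact ⟨key.1, key.2.1, ⟨Fin q, inferInstance, inferInstance, Fintype.card_fin q, key.2.2.1⟩, key.2.2.2⟩
  · obtain ⟨s, hs⟩ := exists_norm_eq hF (a := -1) (by rw [neg_pow_q hF, one_pow])
    refine ⟨_, hmemS (Fin.cons 1 (Fin.cons s 0)) ?_ ?_⟩
    · exact fun h => by simpa using congrFun h 0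
    · rw [herm_cons_cons, herm_cons_cons, herm_zero_left, one_pow, one_mul, add_zero, ← pow_succ', hs, add_neg_cancel]
  · intro A hA h
    obtain ⟨p, hp, hp0, rfl⟩ := hform A hA
    obtain ⟨f, -, -, hpf⟩ := exists_partner hF (isNondeg_top hF) trivial hp0 hp
    have hfp : hermForm (n + 2) F q f p = 1 := by rw [herm_conj hF, hpf, one_pow]
    have h1 := (Subgroup.eq_bot_iff_forall _).1 h _ ⟨δ, hδ, rfl⟩
    have h2 := congrArg (fun g => sv g f) h1
    simp [sv_transvSU, hfp, hδ0, hp0] at h2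
  · intro A hA
    obtain ⟨p, hp, hp0, rfl⟩ := hform A hA
    refine ⟨⟨fun x y => Subtype.ext ?_⟩⟩
    obtain ⟨c, hc, hx⟩ := mem_tsub.1 x.2
    obtain ⟨d, hd, hy⟩ := mem_tsub.1 y.2
    show (x : ↥(Cfsg.SU (n + 2) F q)) * y = y * x
    rw [hx, hy]
    refine sv_ext fun v => ?_
    simp only [sv_mul, sv_transvSU, herm_add_left, herm_smul_left, hp, mul_zero, add_zero]
    module
  · intro A hA B _ b _
    obtain ⟨p, hp, hp0, rfl⟩ := hform A hA
    convert hmemS (sv b p) ?_ (herm_sv_self_eq_zero b hp) using 1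
    · ext x
      rw [CfsgLib.RootSubgroups.mem_conjBy, mem_tsub, mem_tsub]
      exact ⟨fun ⟨c, hc, h⟩ => ⟨c, hc, by rw [← conj_transvSU hF b hp hc, ← h]; group⟩,
        fun ⟨c, hc, h⟩ => ⟨c, hc, by rw [h, ← conj_transvSU hF b hp hc]; group⟩⟩
    · intro h
      apply hp0
      rw [← sv_inv_sv b p, h]
      exact Matrix.mulVec_zero _
  · intro A hA B hB
    obtain ⟨p, hp, hp0, rfl⟩ := hform A hA
    obtain ⟨r, hr, hr0, rfl⟩ := hform B hB
    by_cases h : hermForm (n + 2) F q p r = 0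
    · left
      rw [CfsgLib.RootSubgroups.commutator_eq_bot_iff_commutes]
      rintro x ⟨c, hc, rfl⟩ y ⟨d, hd, rfl⟩
      refine sv_ext fun v => ?_
      simp only [sv_mul, sv_transvSU, herm_add_left, herm_smul_left, h, herm_eq_zero_comm hF h, mul_zero, add_zero]
      module
    · exact Or.inr (pair_tsub hF θ hθ hδ0 hδ hp hr h)
  · intro A hA B hB
    obtain ⟨p, hp, hp0, rfl⟩ := hform A hA
    obtain ⟨r, hr, hr0, rfl⟩ := hform B hB
    obtain ⟨s, hs, hps, hsr⟩ : ∃ s, hermForm (n + 2) F q s s = 0 ∧ hermForm (n + 2) F q p s ≠ 0 ∧ hermForm (n + 2) F q s r ≠ 0 := by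
      obtain ⟨f, -, hf, hpf⟩ := exists_partner hF (isNondeg_top hF) trivial hp0 hp
      obtain ⟨g, -, hg, hrg⟩ := exists_partner hF (isNondeg_top hF) trivial hr0 hr
      have hgr : hermForm (n + 2) F q g r = 1 := by rw [herm_conj hF, hrg, one_pow]
      by_cases h1 : hermForm (n + 2) F q f r = 0
      swap
      · exact ⟨f, hf, by simp [hpf], h1⟩
      by_cases h2 : hermForm (n + 2) F q p g = 0
      swap
      · exact ⟨g, hg, h2, by simp [hgr]⟩
      set a := hermForm (n + 2) F q f g with ha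
      obtain ⟨l, hl0, hl⟩ : ∃ l : F, l ≠ 0 ∧ l ^ q * a + (l ^ q * a) ^ q = 0 := by
        by_cases ha0 : a = 0
        · exact ⟨1, one_ne_zero, by simp [ha0, zero_pow_q hF]⟩
        · refine ⟨(δ / a) ^ q, pow_ne_zero _ (div_ne_zero hδ0 ha0), ?_⟩
          rw [pow_q_q hF, div_mul_cancel₀ _ ha0]; exact hδ
      refine ⟨f + l • g, ?_, ?_, ?_⟩
      · simp only [herm_add_left, herm_add_right hF, herm_smul_left, herm_smul_right, hf, hg, ← ha,
          show hermForm (n + 2) F q g f = a ^ q from herm_conj hF f g]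
        rw [mul_pow, pow_q_q hF] at hl
        linear_combination hl
      · simp [herm_add_right hF, herm_smul_right, hpf, h2]
      · simp [herm_add_left, herm_smul_left, h1, hgr, hl0]
    have hs0 : s ≠ 0 := fun h => hps (by rw [h, herm_zero_right hF])
    exact (Relation.ReflTransGen.single ⟨hmemS p hp0 hp, hmemS s hs0 hs, pair_tsub hF θ hθ hδ0 hδ hp hs hps⟩).tail
      ⟨hmemS s hs0 hs, hmemS r hr0 hr, pair_tsub hF θ hθ hδ0 hδ hs hr hsr⟩

end Cfsg.Agent.S5071
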