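import Cfsg.Statements.S5079
import Cfsg.Agent.Fus.Extension

set_option autoImplicit false
open Cfsg

namespace Cfsg.Agent.S5079

/-- In any fusion system over a finite p-group S: if P is fully automized and receptive and Q is conjugate to P in the system, then there is a map of the system with source N_S(Q) and values in N_S(P) carrying Q onto P. -/
theorem result {Ω : Type*} [Group Ω] {S : Subgroup Ω} [Finite S] (p : ℕ) [Fact p.Prime] (hS : IsPGroup p S) (F : Cfsg.FusionSystem S) (P Q : Subgroup Ω) (h₁ : F.IsFullyAutomized p P) (h₂ : F.IsReceptive P) (hQ : F.IsConj Q P) : ∃ φ ∈ F.Hom (Cfsg.FusionSystem.normalizerIn S Q), (∀ x, φ x ∈ Cfsg.FusionSystem.normalizerIn S P) ∧ (Q.subgroupOf (Cfsg.FusionSystem.normalizerIn S Q)).map φ = P := by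
  obtain ⟨φ, hφ, hr, ψ, hψ, hext⟩ := CfsgLib.Fus.exists_normalizer_map hS h₁ h₂ hQ
  have hQN := CfsgLib.Fus.le_normalizerIn (CfsgLib.Fus.hom_le F hφ)
  refine ⟨ψ, hψ, fun x => CfsgLib.Fus.map_mem_normalizerIn hr hψ hQN (fun y => hext y _) x.2.2, ?_⟩
  ext z
  constructor
  · rintro ⟨x, hx, rfl⟩
    rw [← hr, show ψ x = φ ⟨x, hx⟩ from hext ⟨x, hx⟩ x.2]
    exact ⟨_, rfl⟩
  · intro hz
    obtain ⟨x, rfl⟩ : z ∈ φ.range := by rw [hr]; exact hz
    exact ⟨Subgroup.inclusion hQN x, x.2, hext x _⟩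

end Cfsg.Agent.S5079
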