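import Cfsg.Statements.S5081
import Cfsg.Agent.Fusion.Alperin.Theorem

set_option autoImplicit false
open Cfsg

namespace Cfsg.Agent.S5081

open CfsgLib.Fus Cfsg.FusionSystem in
theorem proper_image_stronglyEmbedded {Ω : Type*} [Group Ω] {S : Subgroup Ω} [Finite S] {p : ℕ}
    [Fact p.Prime] (hS : IsPGroup p S) {F : Cfsg.FusionSystem S} (hF : F.IsSaturated p)
    {P : Subgroup Ω} (hP : F.IsFullyNormalized P) (hc : F.IsCentric P) (hPS : P ≠ S)
    (H : Subgroup (F.autGroup P)) (hH : H ≠ ⊤)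
    (hmem : ∀ α : F.autGroup P, ∀ g ∈ normalizerIn S P, g ∉ P →
      (∀ hgN : g ∈ Subgroup.normalizer (P : Set Ω),
        (α : MulAut P) * conjAut hgN * (α : MulAut P)⁻¹ ∈ Cfsg.autInducedBy S P) → α ∈ H)
    [((Cfsg.Inn P).subgroupOf (F.autGroup P)).Normal] :
    Cfsg.IsStronglyPEmbedded p
      (H.map (QuotientGroup.mk' ((Cfsg.Inn P).subgroupOf (F.autGroup P)))) := by
  have : Finite P := finite_of_le hP.1
  have : Finite (MulAut P) := finite_mulAut P
  obtain ⟨-, R, hR⟩ := (fullyNormalized_props hS hF hP).1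
  obtain ⟨g, hg, hgP⟩ := CfsgLib.Fusion.Alperin.exists_normalizing_not_mem hS hP.1 hPS
  set I : Subgroup (F.autGroup P) := (Cfsg.Inn P).subgroupOf (F.autGroup P)
  have hIR : I ≤ (R : Subgroup (F.autGroup P)) := by
    rw [hR]
    exact fun a ha => inn_le_autInducedBy hP.1 ha
  have hIH : I ≤ H := by
    intro α hα
    refine hmem α g hg hgP fun hgN => ?_
    have hi : (α : MulAut P) ∈ Cfsg.autInducedBy S P := inn_le_autInducedBy hP.1 hα
    exact Subgroup.mul_mem _ (Subgroup.mul_mem _ hi (conjAut_mem_autInducedBy hgN hg.1))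
      (Subgroup.inv_mem _ hi)
  refine CfsgLib.LocalCharP.isStronglyPEmbedded_intro ?_ ?_
    (R.mapSurjective (QuotientGroup.mk'_surjective I)) ?_
  · set t : F.autGroup P :=
      ⟨conjAut hg.2, autInducedBy_le_autGroup F hP.1 (conjAut_mem_autInducedBy hg.2 hg.1)⟩ with ht
    have htR : QuotientGroup.mk' I t ∈ (R.mapSurjective (QuotientGroup.mk'_surjective I)).1 := by
      refine ⟨t, ?_, rfl⟩
      rw [SetLike.mem_coe, hR]
      exact conjAut_mem_autInducedBy hg.2 hg.1
    have ht1 : QuotientGroup.mk' I t ≠ 1 := by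
      intro h
      rw [QuotientGroup.mk'_apply, QuotientGroup.eq_one_iff] at h
      exact hgP (CfsgLib.Fusion.Alperin.mem_of_conjAut_inn hc hg.1 hg.2 h)
    by_contra hd
    have hb : (R.mapSurjective (QuotientGroup.mk'_surjective I)).1 = ⊥ := by
      rw [← Subgroup.card_eq_one, Sylow.card_eq_multiplicity,
        Nat.factorization_eq_zero_of_not_dvd hd, pow_zero]
    rw [hb] at htR
    exact ht1 htR
  · intro htop
    refine hH (eq_top_iff.2 fun a _ => ?_)
    obtain ⟨b, hb, hab⟩ := (htop.symm ▸ Subgroup.mem_top (QuotientGroup.mk' I a) :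
      QuotientGroup.mk' I a ∈ H.map (QuotientGroup.mk' I))
    rw [QuotientGroup.mk'_eq_mk'] at hab
    obtain ⟨z, hz, rfl⟩ := hab
    exact H.mul_mem hb (hIH hz)
  · intro W hW hW1 a ha
    obtain ⟨a, rfl⟩ := QuotientGroup.mk'_surjective I a
    obtain ⟨w, hw, hw1⟩ : ∃ w, w ∈ W ∧ w ≠ 1 := by
      by_contra h
      push Not at h
      exact hW1 (Subgroup.eq_bot_iff_forall _ |>.2 h)
    obtain ⟨c, hc', rfl⟩ := hW hw
    have hcW : QuotientGroup.mk' I (a * c * a⁻¹) ∈ W := by
      rw [map_mul, map_mul, map_inv]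
      exact (Subgroup.mem_normalizer_iff.1 ha _).1 hw
    obtain ⟨d, hd, hde⟩ := hW hcW
    rw [QuotientGroup.mk'_eq_mk'] at hde
    obtain ⟨z, hz, hdz⟩ := hde
    have hconj : a * c * a⁻¹ ∈ (R : Subgroup (F.autGroup P)) :=
      hdz ▸ (R : Subgroup (F.autGroup P)).mul_mem hd (hIR hz)
    rw [hR] at hc' hconj
    obtain ⟨k, hk, hkc⟩ := mem_autInducedBy_iff.1 (hc' : (c : MulAut P) ∈ Cfsg.autInducedBy S P)
    have hkN := mem_normalizer_of_aut hkc
    have hck : (c : MulAut P) = conjAut hkN := MulEquiv.ext fun x => Subtype.ext (hkc x)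
    refine ⟨a, hmem a k ⟨hk, hkN⟩ ?_ fun _ => ?_, rfl⟩
    · intro hkP
      apply hw1
      rw [QuotientGroup.mk'_apply, QuotientGroup.eq_one_iff]
      show (c : MulAut P) ∈ Cfsg.Inn P
      rw [inn_eq_autInducedBy_self]
      exact mem_autInducedBy_iff.2 ⟨k, hkP, hkc⟩
    · have h : ((a * c * a⁻¹ : F.autGroup P) : MulAut P) ∈ Cfsg.autInducedBy S P := hconj
      simp only [Subgroup.coe_mul, Subgroup.coe_inv, hck] at h
      exact h


/-- Let F be a saturated fusion system over a finite p-group S, P a proper subgroup of S that is fully normalized, and H the subgroup of Aut_F(P) generated by the automorphisms that extend to maps of the system defined on strictly larger subgroups of S. Then either P is not essential and H is all of Aut_F(P), or P is essential and the image of H in Out_F(P) = Aut_F(P)/Inn(P) is strongly p-embedded there. -/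
theorem result {Ω : Type*} [Group Ω] {S : Subgroup Ω} [Finite S] (p : ℕ) [Fact p.Prime] (hS : IsPGroup p S) (F : Cfsg.FusionSystem S) (hF : F.IsSaturated p) (P : Subgroup Ω) (hPS : P < S) (hPn : F.IsFullyNormalized P) (H : Subgroup (MulAut P)) (hH : H = Subgroup.closure {α : MulAut P | ∃ (Q : Subgroup Ω) (hPQ : P < Q) (φ : Q →* Ω), φ ∈ F.Hom Q ∧ ∀ x : P, φ (Subgroup.inclusion hPQ.le x) = α x}) : (¬ F.IsEssential p P ∧ H = F.autGroup P) ∨ (F.IsEssential p P ∧ ∃ _ : ((Cfsg.Inn P).subgroupOf (F.autGroup P)).Normal, Cfsg.IsStronglyPEmbedded p ((H.subgroupOf (F.autGroup P)).map (QuotientGroup.mk' ((Cfsg.Inn P).subgroupOf (F.autGroup P))))) := by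
  have hPS' : P ≤ S := hPS.le
  have := CfsgLib.Fus.finite_of_le hPS'
  have := CfsgLib.Fus.finite_mulAut P
  set A := F.autGroup P with hA
  have hHA : H ≤ A := by
    rw [hH, Subgroup.closure_le]
    rintro α ⟨Q, hPQ, φ, hφ, hα⟩
    exact CfsgLib.Fus.mem_autGroup_of_apply F (CfsgLib.Fus.restrict_mem F hφ hPQ.le)
      fun x => (hα x).symm
  set H₀ : Subgroup A := H.subgroupOf A with hH₀
  have hext : ∀ α : A, ∀ g ∈ FusionSystem.normalizerIn S P, g ∉ P →
      (∀ hgN : g ∈ Subgroup.normalizer (P : Set Ω),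
        (α : MulAut P) * CfsgLib.Fus.conjAut hgN * (α : MulAut P)⁻¹ ∈ Cfsg.autInducedBy S P) →
      α ∈ H₀ := by
    intro α g hg hgP h
    obtain ⟨N, hPN, ψ, hψ, hlt, he⟩ :=
      CfsgLib.Fusion.Alperin.exists_extend_aut hS hF hPn α.2 hg.1 hg.2 hgP (h hg.2)
    show (α : MulAut P) ∈ H
    rw [hH]
    refine Subgroup.subset_closure ⟨N, ?_, ψ, hψ, fun x => DFunLike.congr_fun he x⟩
    exact lt_of_le_of_ne hPN fun e => by rw [← e] at hlt; exact lt_irrefl _ hlt
  by_cases hHt : H = A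
  · refine Or.inl ⟨?_, hHt⟩
    rintro ⟨hc, -, hn, E, hE⟩
    set I := (Cfsg.Inn P).subgroupOf A
    obtain ⟨T, hTE, -⟩ := CfsgLib.LocalCharP.exists_sylow_le hE
    obtain ⟨-, R, hR⟩ := (CfsgLib.Fus.fullyNormalized_props hS hF hPn).1
    obtain ⟨c, hc'⟩ := CfsgLib.Fus.exists_conj_mem_sylow T
      (R.isPGroup'.map (QuotientGroup.mk' I) : IsPGroup p ((R : Subgroup A).map (QuotientGroup.mk' I)))
    -- every extendable automorphism lies in the preimage of a conjugate of `E`
    let E' : Subgroup (MulAut P) :=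
      ((E.comap (MulAut.conj c).toMonoidHom).comap (QuotientGroup.mk' I)).map A.subtype
    have hgen : H ≤ E' := by
      rw [hH, Subgroup.closure_le]
      rintro α ⟨Q, hPQ, φ, hφ, hα⟩
      have hαA : α ∈ A := CfsgLib.Fus.mem_autGroup_of_apply F
        (CfsgLib.Fus.restrict_mem F hφ hPQ.le) fun x => (hα x).symm
      refine ⟨⟨α, hαA⟩, ?_, rfl⟩
      -- an element of `N_Q(P)` outside `P`
      have hQS := CfsgLib.Fus.hom_le F hφ
      have hQp : IsPGroup p Q := hS.to_le hQS
      have := CfsgLib.Fus.finite_of_le hQS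
      have : Group.IsNilpotent Q := hQp.isNilpotent
      obtain ⟨⟨n, hnQ⟩, hn', hnP⟩ := SetLike.exists_of_lt
        ((Group.normalizerCondition_of_isNilpotent : NormalizerCondition Q) (P.subgroupOf Q)
          (lt_top_iff_ne_top.2 fun h => hPQ.not_ge (Subgroup.subgroupOf_eq_top.1 h)))
      have hnN : n ∈ Subgroup.normalizer (P : Set Ω) := by
        refine Subgroup.mem_normalizer_iff.2 fun y => ⟨fun hy => ?_, fun hy => ?_⟩
        · exact (Subgroup.mem_normalizer_iff.1 hn' ⟨y, hPQ.le hy⟩).1 hy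
        · have hyQ : y ∈ Q := by
            have h2 := Q.mul_mem (Q.mul_mem (Q.inv_mem hnQ) (hPQ.le hy)) hnQ
            simpa [mul_assoc] using h2
          exact (Subgroup.mem_normalizer_iff.1 hn' ⟨y, hyQ⟩).2 hy
      set x : A := ⟨CfsgLib.Fus.conjAut hnN, CfsgLib.Fus.autInducedBy_le_autGroup F hPS'
        (CfsgLib.Fus.conjAut_mem_autInducedBy hnN (hQS hnQ))⟩ with hx
      have hxR : x ∈ (R : Subgroup A) := by
        rw [hR]; exact CfsgLib.Fus.conjAut_mem_autInducedBy hnN (hQS hnQ)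
      have hyR : (⟨α, hαA⟩ : A) * x * (⟨α, hαA⟩ : A)⁻¹ ∈ (R : Subgroup A) := by
        rw [hR]
        refine CfsgLib.Fus.mem_autInducedBy_iff.2
          ⟨φ ⟨n, hnQ⟩, CfsgLib.Fus.hom_mem F hφ _, fun y => ?_⟩
        show ((α (CfsgLib.Fus.conjAut hnN (α⁻¹ y)) : P) : Ω) = _
        obtain ⟨z, rfl⟩ := α.surjective y
        rw [MulAut.inv_def, MulEquiv.symm_apply_apply, ← hα, ← hα, ← map_inv, ← map_mul, ← map_mul]
        exact congrArg φ (Subtype.ext rfl)
      set w := QuotientGroup.mk' I x with hw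
      have hw1 : w ≠ 1 := by
        intro h
        rw [hw, QuotientGroup.mk'_apply, QuotientGroup.eq_one_iff] at h
        exact hnP (CfsgLib.Fusion.Alperin.mem_of_conjAut_inn hc (hQS hnQ) hnN h)
      have hwR : w ∈ (R : Subgroup A).map (QuotientGroup.mk' I) := ⟨x, hxR, rfl⟩
      obtain ⟨b, hb⟩ := R.isPGroup'.map (QuotientGroup.mk' I) ⟨w, hwR⟩
      have hb' : w ^ p ^ b = 1 := congrArg Subtype.val hb
      obtain ⟨j, -, hord⟩ := (Nat.dvd_prime_pow (Fact.out : p.Prime)).1 (orderOf_dvd_of_pow_eq_one hb')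
      have hj : j ≠ 0 := fun h0 => hw1 (orderOf_eq_one_iff.1 (by rw [hord, h0, pow_zero]))
      set a := QuotientGroup.mk' I ⟨α, hαA⟩ with ha
      set m := p ^ (j - 1) with hm
      have hum : orderOf (w ^ m) = p := by
        rw [orderOf_pow' _ (pow_pos (Fact.out : p.Prime).pos _).ne', hord,
          Nat.gcd_eq_right (pow_dvd_pow p (Nat.sub_le j 1)), Nat.pow_div (Nat.sub_le j 1)
            (Fact.out : p.Prime).pos, show j - (j - 1) = 1 by omega, pow_one]
      have hcu : c * w * c⁻¹ ∈ E := hTE (hc' w hwR)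
      have hcau : c * (a * w * a⁻¹) * c⁻¹ ∈ E := by
        refine hTE (hc' _ ⟨_, hyR, ?_⟩)
        rw [ha, hw, map_mul, map_mul, map_inv]
      have hmem : c * a * c⁻¹ ∈ E := by
        refine CfsgLib.LocalCharP.mem_of_conj_mem hE (x := (c * w * c⁻¹) ^ m) (E.pow_mem hcu m) ?_ ?_
        · rw [← hum, conj_pow]
          exact (SemiconjBy.orderOf_eq c (by simp [SemiconjBy, mul_assoc])).symm
        · have := E.pow_mem hcau m
          rw [conj_pow] at this ⊢
          rw [conj_pow] at this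
          convert this using 1
          group
      exact hmem
    refine hE.2.1 (eq_top_iff.2 fun u _ => ?_)
    obtain ⟨v, hv⟩ := QuotientGroup.mk'_surjective I (c⁻¹ * u * c)
    obtain ⟨v', hv', hvv'⟩ := hgen (hHt.ge v.2)
    have e : v' = v := Subtype.ext hvv'
    subst e
    have h2 : c * QuotientGroup.mk' I v' * c⁻¹ ∈ E := hv'
    rw [hv] at h2
    simpa [mul_assoc] using h2
  · have hH₀t : H₀ ≠ ⊤ := fun h => hHt (le_antisymm hHA (Subgroup.subgroupOf_eq_top.1 h))
    have hc : F.IsCentric P := by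
      refine CfsgLib.Fus.isCentric_of_fullyCentralized
        (CfsgLib.Fus.fullyCentralized_of_fullyNormalized hS hF hPn) fun g hg => ?_
      by_contra hgP
      refine hH₀t (eq_top_iff.2 fun α _ => hext α g
        (CfsgLib.Fus.centralizerIn_le_normalizerIn P hg) hgP fun hgN => ?_)
      have h1 : CfsgLib.Fus.conjAut hgN = 1 := MulEquiv.ext fun x => Subtype.ext (by
        rw [CfsgLib.Fus.conjAut_apply, ← hg.2 x x.2, mul_inv_cancel_right]; rfl)
      rw [h1, mul_one, mul_inv_cancel]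
      exact one_mem _
    have hess := CfsgLib.Fusion.Alperin.essential_of_proper hS hF hPn hc hPS.ne H₀ hH₀t hext
    obtain ⟨hn, -⟩ := hess.2.2
    exact Or.inr ⟨hess, hn, proper_image_stronglyEmbedded hS hF hPn hc hPS.ne H₀ hH₀t hext⟩

end Cfsg.Agent.S5081
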