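import Cfsg.Statements.S5082
import Cfsg.Agent.Fusion.Alperin.Theorem

set_option autoImplicit false
open Cfsg

namespace Cfsg.Agent.S5082

/-- Alperin–Goldschmidt fusion Theorem for fusion systems: a saturated fusion system F over a finite p-group S is generated by the automorphism groups Aut_F(P) for P = S and for P essential — every fusion system over S whose automorphism groups of these subgroups contain those of F contains every map of F. -/
theorem result {Ω : Type*} [Group Ω] {S : Subgroup Ω} [Finite S] (p : ℕ) [Fact p.Prime] (hS : IsPGroup p S) (F : Cfsg.FusionSystem S) (hF : F.IsSaturated p) (E : Cfsg.FusionSystem S) (hE : ∀ P : Subgroup Ω, (P = S ∨ F.IsEssential p P) → F.autGroup P ≤ E.autGroup P) : F ≤ E := by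
  intro P φ hφ
  refine CfsgLib.Fusion.Alperin.hom_induction hS hF (C := fun P φ => φ ∈ E.Hom P)
    (fun R hR α hα => (CfsgLib.Fus.mem_autGroup_iff E hR.fullyNormalized.1).1
      (hE R hR.top_or_essential hα))
    (fun hPQ _ _ h => CfsgLib.Fus.restrict_mem E h hPQ) (fun _ _ h h₁ h₂ => E.comp_mem h₁ h₂ h)
    (fun {P Q φ ψ} _ _ hr hψφ h => ?_) hφ
  obtain ⟨χ, hχ, -, hχφ, -⟩ := CfsgLib.Fus.exists_inv E h hr
  refine CfsgLib.Fus.hom_congr E hχ fun y => ?_
  obtain ⟨x, hx⟩ : (y : Ω) ∈ φ.range := by rw [hr]; exact y.2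
  have e : y = ⟨φ x, hx.symm ▸ y.2⟩ := Subtype.ext hx.symm
  rw [e, hψφ, hχφ]

end Cfsg.Agent.S5082
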