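import Cfsg.Statements.S5083
import Cfsg.Agent.Fusion.Alperin.Criteria

set_option autoImplicit false
open Cfsg

namespace Cfsg.Agent.S5083

/-- If F is a saturated fusion system over a finite p-group S in which Aut_F(P) is a p-group for every P ≤ S, then F is the inner fusion system of S (all its maps are conjugations by elements of S). -/
theorem result {Ω : Type*} [Group Ω] {S : Subgroup Ω} [Finite S] (p : ℕ) [Fact p.Prime] (hS : IsPGroup p S) (F : Cfsg.FusionSystem S) (hF : F.IsSaturated p) (h : ∀ P : Subgroup Ω, P ≤ S → IsPGroup p (F.autGroup P)) : F = Cfsg.innerFusionSystem S := by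
  have key : ∀ P : Subgroup Ω, F.Hom P = (Cfsg.innerFusionSystem S).Hom P := by
    refine CfsgLib.Fusion.Alperin.eq_inner_of_autGroup_le hS hF fun R hR α hα => ?_
    have hRS := hR.centric.1
    obtain ⟨-, T, hT⟩ := (CfsgLib.Fus.fullyNormalized_props hS hF hR.fullyNormalized).1
    have htop : (T : Subgroup (F.autGroup R)) = ⊤ :=
      (T.is_maximal' ((h R hRS).to_subgroup ⊤) le_top).symm
    have h1 : (⟨α, hα⟩ : F.autGroup R) ∈ (T : Subgroup (F.autGroup R)) := by
      rw [htop]
      exact Subgroup.mem_top _
    rw [hT] at h1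
    exact h1
  cases F
  unfold Cfsg.innerFusionSystem at key ⊢
  congr
  exact funext key

end Cfsg.Agent.S5083
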