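import Cfsg.Statements.S5084
import Cfsg.Agent.Fusion.Alperin.Criteria

set_option autoImplicit false
open Cfsg

namespace Cfsg.Agent.S5084

/-- In a saturated fusion system over a finite p-group S, a subgroup Q is central in the system if and only if Q ≤ S and no element of Q is conjugate in the system to any element other than itself. -/
theorem result {Ω : Type*} [Group Ω] {S : Subgroup Ω} [Finite S] (p : ℕ) [Fact p.Prime] (hS : IsPGroup p S) (F : Cfsg.FusionSystem S) (hF : F.IsSaturated p) (Q : Subgroup Ω) : F.IsCentral Q ↔ (Q ≤ S ∧ ∀ x ∈ Q, ∀ y : Ω, F.IsConjElt x y → y = x) := by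
  constructor
  · intro hQ
    refine ⟨hQ.1, fun x hx y hxy => ?_⟩
    obtain ⟨φ, hφ, hφx⟩ := hxy
    obtain ⟨ψ, -, hψe, hψQ⟩ := hQ.2 _ φ hφ
    exact hφx.symm.trans ((hψe ⟨x, Subgroup.mem_zpowers x⟩).symm.trans (hψQ ⟨x, hx⟩))
  · rintro ⟨hQS, hfix⟩
    have hz : ∀ {R : Subgroup Ω} {φ : R →* Ω}, φ ∈ F.Hom R → ∀ x : R, (x : Ω) ∈ Q → φ x = x := by
      intro R φ hφ x hx
      refine hfix x hx _ ⟨_, CfsgLib.Fus.restrict_mem F hφ (Subgroup.zpowers_le.2 x.2), ?_⟩
      rfl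
    refine CfsgLib.Fusion.Alperin.isCentral_criterion hS hF hQS (fun R hR x hx => ?_)
      fun R hR α hα x hx => ?_
    · refine CfsgLib.Fus.centralizerIn_le_of_centric hR.centric ⟨hQS hx, fun y hy => ?_⟩
      have h1 : y * x * y⁻¹ = x := hz (F.conj_mem le_rfl (hR.centric.1 hy)) ⟨x, hQS hx⟩ hx
      exact mul_inv_eq_iff_eq_mul.1 h1
    · exact Subtype.ext (hz ((CfsgLib.Fus.mem_autGroup_iff F hR.centric.1).1 hα) x hx)

end Cfsg.Agent.S5084
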