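import Cfsg.Statements.S5088
import Cfsg.Agent.Fus.NormalSeries

set_option autoImplicit false
open Cfsg
open scoped commutatorElement

namespace Cfsg.Agent.S5088

/-- In a saturated fusion system over a finite p-group, a subgroup Q is normal in the system if and only if there is a chain of subgroups 1 = Q₀ ≤ Q₁ ≤ ⋯ ≤ Qₙ = Q such that each Qᵢ with i ≥ 1 is strongly closed in the system and [Q, Qᵢ] ≤ Qᵢ₋₁. -/
theorem result {Ω : Type*} [Group Ω] {S : Subgroup Ω} [Finite S] (p : ℕ) [Fact p.Prime] (hS : IsPGroup p S) (F : Cfsg.FusionSystem S) (hF : F.IsSaturated p) (Q : Subgroup Ω) : F.IsNormal Q ↔ ∃ (n : ℕ) (Qs : Fin (n + 1) → Subgroup Ω), Qs 0 = ⊥ ∧ Qs (Fin.last n) = Q ∧ Monotone Qs ∧ ∀ i : Fin n, F.StronglyClosed (Qs i.succ) ∧ ⁅Q, Qs i.succ⁆ ≤ Qs (Fin.castSucc i) := by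
  constructor
  · intro hQ
    obtain ⟨c, hc⟩ := CfsgLib.Fus.exists_lowerCentralSeries_eq_bot hS hQ.1
    refine ⟨c, fun i => Q.lowerCentralSeries (c - (i : ℕ)), by simpa using hc, by simp,
      fun i j hij => Q.lowerCentralSeries_antitone (by omega), fun i => ⟨?_, ?_⟩⟩
    · exact CfsgLib.Fusion.Alperin.stronglyClosed_of_isNormal
        (CfsgLib.Fus.isNormal_lowerCentralSeries hQ _)
    · simp only [Fin.val_succ, Fin.val_castSucc]
      have e : c - (i : ℕ) = c - ((i : ℕ) + 1) + 1 := by omega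
      rw [Subgroup.commutator_comm, e, Subgroup.lowerCentralSeries_succ]
  · rintro ⟨n, Qs, h0, hlast, hmono, hstep⟩
    rcases n with _ | n
    · rw [← hlast, Fin.last_zero, h0]
      exact CfsgLib.Fusion.Alperin.isNormal_bot F
    have hsc : ∀ k : Fin (n + 2), F.StronglyClosed (Qs k) := by
      intro k
      refine Fin.cases ?_ (fun i => (hstep i).1) k
      rw [h0]
      exact CfsgLib.Fus.stronglyClosed_bot F
    have hQ : F.StronglyClosed Q := hlast ▸ hsc _
    refine CfsgLib.Fusion.Alperin.isNormal_of_series hS hF hQ (n + 1)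
      (fun i => Qs ⟨min i (n + 1), by omega⟩) (by simpa using h0) ?_ (fun i j hij => hmono ?_)
      (fun i _ => hsc _) ?_
    · exact (congrArg Qs (Fin.ext (by simp))).trans hlast
    · show min i (n + 1) ≤ min j (n + 1)
      omega
    · intro i hi g hg x hx
      have e1 : (⟨min (i + 1) (n + 1), by omega⟩ : Fin (n + 2)) = Fin.succ ⟨i, hi⟩ := Fin.ext (by simp; omega)
      have e2 : (⟨min i (n + 1), by omega⟩ : Fin (n + 2)) = Fin.castSucc ⟨i, hi⟩ := Fin.ext (by simp; omega)
      show x⁻¹ * (g * x * g⁻¹) ∈ Qs ⟨min i (n + 1), _⟩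
      rw [e2]
      have hx' : x ∈ Qs (Fin.succ ⟨i, hi⟩) := e1 ▸ hx
      refine (hstep ⟨i, hi⟩).2 ?_
      rw [Subgroup.commutator_comm]
      have h2 := Subgroup.commutator_mem_commutator (Subgroup.inv_mem _ hx') hg
      rw [commutatorElement_def] at h2
      convert h2 using 1
      group

end Cfsg.Agent.S5088
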