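import Cfsg.Statements.S5089
import Cfsg.Agent.Fus.NormalSeries

set_option autoImplicit false
open Cfsg
open scoped commutatorElement

namespace Cfsg.Agent.S5089

/-- A saturated fusion system over a finite p-group has a nontrivial subgroup that is normal in the system (O_p(F) ≠ 1) if and only if some nontrivial abelian subgroup is strongly closed in the system. -/
theorem result {Ω : Type*} [Group Ω] {S : Subgroup Ω} [Finite S] (p : ℕ) [Fact p.Prime] (hS : IsPGroup p S) (F : Cfsg.FusionSystem S) (hF : F.IsSaturated p) : F.core ≠ ⊥ ↔ ∃ Q : Subgroup Ω, Q ≠ ⊥ ∧ IsMulCommutative Q ∧ F.StronglyClosed Q := by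
  constructor
  · intro hne
    have hN := CfsgLib.Fusion.Alperin.isNormal_core F
    set K := F.core
    have := CfsgLib.Fus.finite_of_le hN.1
    have hKp : IsPGroup p K := hS.to_le hN.1
    set Z := (Subgroup.center K).map K.subtype with hZ
    have hZK : Z ≤ K := Subgroup.map_subtype_le _
    have hZn : F.IsNormal Z := Cfsg.Agent.S5085.result F K Z hN hZK (by
      rw [hZ, ← Subgroup.comap_subtype, Subgroup.comap_map_eq_self_of_injective K.subtype_injective]
      infer_instance)
    refine ⟨Z, ?_, inferInstance, CfsgLib.Fusion.Alperin.stronglyClosed_of_isNormal hZn⟩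
    rw [hZ, Ne, Subgroup.map_eq_bot_iff_of_injective _ K.subtype_injective]
    have : Nontrivial K := (Subgroup.nontrivial_iff_ne_bot K).2 hne
    exact (Subgroup.nontrivial_iff_ne_bot _).1 hKp.center_nontrivial
  · rintro ⟨Q, hne, hcomm, hsc⟩ hbot
    refine hne (le_bot_iff.1 (hbot ▸ CfsgLib.Fusion.Alperin.le_core ?_))
    refine CfsgLib.Fus.isNormal_of_stronglyClosed_lcs hS hF fun i => ?_
    rcases i with _ | i
    · exact hsc
    · have h1 : Q.lowerCentralSeries 1 = ⊥ := by
        rw [Subgroup.lowerCentralSeries_succ, Subgroup.lowerCentralSeries_zero,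
          Subgroup.commutator_eq_bot_iff_le_centralizer]
        exact fun a ha b hb => congrArg Subtype.val (hcomm.is_comm.comm (⟨b, hb⟩ : Q) ⟨a, ha⟩)
      have h2 : Q.lowerCentralSeries (i + 1) = ⊥ :=
        le_bot_iff.1 (h1 ▸ Q.lowerCentralSeries_antitone (show 1 ≤ i + 1 by omega))
      rw [h2]
      exact CfsgLib.Fus.stronglyClosed_bot F

end Cfsg.Agent.S5089
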