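import Cfsg.Statements.S5099
import Cfsg.Agent.Fus.KNormalizer

set_option autoImplicit false
open Cfsg

namespace Cfsg.Agent.S5099

/-- If F is a saturated fusion system over a finite p-group S and Q is fully centralized in F, then the centralizer system C_F(Q) is a saturated fusion system over C_S(Q). -/
theorem result {Ω : Type*} [Group Ω] {S : Subgroup Ω} [Finite S] (p : ℕ) [Fact p.Prime] (hS : IsPGroup p S) (F : Cfsg.FusionSystem S) (hF : F.IsSaturated p) (Q : Subgroup Ω) (hQ : F.IsFullyCentralized Q) (E : Cfsg.FusionSystem (Cfsg.FusionSystem.centralizerIn S Q)) (hE : F.IsCentralizerSystem Q E) : E.IsSaturated p := by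
  refine CfsgLib.Fus.isSaturated_kNormalizer hS hF
    (CfsgLib.Fus.receptive_of_fullyCentralized hS hF hQ) (K := ⊥) (fun X hX _ => ?_)
    (CfsgLib.Fus.kNormalizer_bot Q).symm E fun P φ => ?_
  · refine ⟨1, Subgroup.one_mem _, fun x hx => ?_⟩
    have hx1 : x = 1 := (hX hx).2
    subst hx1
    simp
  rw [hE P]
  constructor
  · rintro ⟨hφ, hP, hφN, ψ, hψ, hext, hψQ⟩
    exact ⟨hφ, hP, hφN, ψ, hψ, hext, 1, Subgroup.one_mem _, hψQ⟩
  · rintro ⟨hφ, hP, hφN, ψ, hψ, hext, α, hα, hαx⟩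
    rw [Subgroup.mem_bot] at hα
    subst hα
    exact ⟨hφ, hP, hφN, ψ, hψ, hext, hαx⟩

end Cfsg.Agent.S5099
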