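import Cfsg.Statements.S5101
import Cfsg.Agent.Fus.Group

set_option autoImplicit false
open Cfsg

namespace Cfsg.Agent.S5101

/-- In the fusion system of a finite group G on a Sylow p-subgroup S, a subgroup P ≤ S is fully centralized if and only if C_S(P) is a Sylow p-subgroup of C_G(P). -/
theorem result {G : Type*} [Group G] [Finite G] (p : ℕ) [Fact p.Prime] (S : Sylow p G) (P : Subgroup G) (hP : P ≤ S) : (Cfsg.groupFusionSystem (S : Subgroup G)).IsFullyCentralized P ↔ ∃ R : Sylow p ↥(Subgroup.centralizer (P : Set G)), (R : Subgroup ↥(Subgroup.centralizer (P : Set G))) = (Cfsg.FusionSystem.centralizerIn (S : Subgroup G) P).subgroupOf (Subgroup.centralizer (P : Set G)) := by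
  have hle : Cfsg.FusionSystem.centralizerIn (S : Subgroup G) P ≤
      Subgroup.centralizer (P : Set G) := inf_le_right
  rw [CfsgLib.Fus.fullyCentralized_group_iff S hP,
    ← Nat.card_congr (Subgroup.subgroupOfEquivOfLe hle).toEquiv]
  exact ⟨fun h => ⟨Sylow.ofCard _ h, rfl⟩, fun ⟨R, hR⟩ => hR ▸ R.card_eq_multiplicity⟩

end Cfsg.Agent.S5101
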