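import Cfsg.Statements.S5102
import Cfsg.Agent.Fus.Basic

set_option autoImplicit false
open Cfsg

namespace Cfsg.Agent.S5102

/-- A normal p-subgroup of a finite group G is normal in the fusion system of G on a Sylow p-subgroup. -/
theorem result {G : Type*} [Group G] [Finite G] (p : ℕ) [Fact p.Prime] (S : Sylow p G) (R : Subgroup G) [R.Normal] (hR : IsPGroup p R) : (Cfsg.groupFusionSystem (S : Subgroup G)).IsNormal R := by
  obtain ⟨T, hT⟩ := hR.exists_le_sylow
  obtain ⟨g, hg⟩ := MulAction.exists_smul_eq G T S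
  have hRS : R ≤ (S : Subgroup G) := by
    intro x hx
    rw [← hg, Sylow.coe_subgroup_smul]
    refine ⟨g⁻¹ * x * g, hT ?_, ?_⟩
    · simpa using (inferInstance : R.Normal).conj_mem x hx g⁻¹
    · simp [mul_assoc]
  refine ⟨hRS, ?_⟩
  rintro P φ ⟨hP, hφS, a, ha⟩
  refine ⟨Cfsg.conjHom (P ⊔ R) a, ⟨sup_le hP hRS, ?_, a, fun x => rfl⟩, fun x => (ha x).symm, ?_⟩
  · intro x
    have h : (P ⊔ R).map (MulAut.conj a).toMonoidHom ≤ (S : Subgroup G) := by
      rw [Subgroup.map_sup]
      refine sup_le ?_ ?_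
      · rintro _ ⟨y, hy, rfl⟩
        have := hφS ⟨y, hy⟩
        rw [ha] at this
        exact this
      · rintro _ ⟨y, hy, rfl⟩
        exact hRS ((inferInstance : R.Normal).conj_mem y hy a)
    exact h ⟨x, x.2, rfl⟩
  · ext z
    constructor
    · rintro ⟨x, hx, rfl⟩
      exact (inferInstance : R.Normal).conj_mem x hx a
    · intro hz
      have hz' : a⁻¹ * z * a ∈ R := by
        simpa using (inferInstance : R.Normal).conj_mem z hz a⁻¹
      refine ⟨⟨a⁻¹ * z * a, Subgroup.mem_sup_right hz'⟩, hz', ?_⟩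
      show a * (a⁻¹ * z * a) * a⁻¹ = z
      group

end Cfsg.Agent.S5102
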