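import Cfsg.Statements.S5103
import Cfsg.Agent.Fus.Realized
import Cfsg.Agent.Fusion.Alperin.Criteria

set_option autoImplicit false
open Cfsg

namespace Cfsg.Agent.S5103

/-- A fusion system over a finite p-group that has a model (a finite group realizing it on a Sylow p-subgroup with self-centralizing largest normal p-subgroup) is constrained. -/
theorem result {Ω : Type*} [Group Ω] {S : Subgroup Ω} [Finite S] (p : ℕ) [Fact p.Prime] (hS : IsPGroup p S) (F : Cfsg.FusionSystem S) {G : Type*} [Group G] (ι : S →* G) (hG : F.IsModel p G ι) : F.IsConstrained p := by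
  obtain ⟨hfin, hF, ⟨T, hT⟩, hC⟩ := hG
  refine ⟨CfsgLib.Fus.isSaturated_of_realized hF ⟨T, hT⟩, ?_⟩
  set O := Cfsg.pCore p G with hO
  have hOn : O.Normal := Cfsg.pCore_normal p G
  have hOle : O ≤ ι.range := hT ▸ CfsgLib.CharP.pCore_le_sylow T
  set Q := CfsgLib.Fus.realPreimage ι O with hQdef
  have hQS : Q ≤ S := CfsgLib.Fus.realPreimage_le O
  have hmemQ : ∀ s : S, (s : Ω) ∈ Q ↔ ι s ∈ O := by
    intro s
    refine ⟨?_, fun h => ⟨s, h, rfl⟩⟩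
    rintro ⟨z, hz, hzs⟩
    have e : z = s := Subtype.ext hzs
    exact e ▸ hz
  have hN : F.IsNormal Q := by
    refine CfsgLib.Fusion.Alperin.isNormal_intro hQS fun P φ hφ => ?_
    have hP := CfsgLib.Fus.hom_le F hφ
    have hPQ : P ⊔ Q ≤ S := sup_le hP hQS
    obtain ⟨g, hg⟩ := (hF.2 P hP φ (CfsgLib.Fus.hom_mem F hφ)).1 hφ
    have hmem : ∀ x : CfsgLib.Fus.realImage ι (P ⊔ Q), g * (x : G) * g⁻¹ ∈ ι.range := by
      rintro ⟨_, ⟨x, hxS⟩, hx, rfl⟩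
      have hle : P ⊔ Q ≤ ((ι.range.comap (MulAut.conj g).toMonoidHom).comap ι).map S.subtype :=
        sup_le (fun y hy => ⟨⟨y, hP hy⟩, ⟨_, hg ⟨y, hy⟩⟩, rfl⟩)
          fun y hy => ⟨⟨y, hQS hy⟩, hOle (hOn.conj_mem _ ((hmemQ ⟨y, hQS hy⟩).1 hy) g), rfl⟩
      obtain ⟨z, hz, hzx⟩ := hle hx
      have e : z = ⟨x, hxS⟩ := Subtype.ext hzx
      exact e ▸ hz
    obtain ⟨ψ, hψ, hψe⟩ := CfsgLib.Fus.real_hom_back hF hPQ
      (φ' := Cfsg.conjHom _ g) ⟨CfsgLib.Fus.realImage_le _, hmem, g, fun _ => rfl⟩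
    refine ⟨ψ, hψ, fun x => ?_, fun x hx => ?_⟩
    · have h1 := hψe (Subgroup.inclusion le_sup_left x) (CfsgLib.Fus.hom_mem F hψ _)
      exact congrArg Subtype.val (hF.1 (h1.symm.trans (hg x).symm))
    · refine (hmemQ ⟨ψ x, CfsgLib.Fus.hom_mem F hψ x⟩).2 ?_
      rw [← hψe x]
      exact hOn.conj_mem _ ((hmemQ ⟨x, hPQ x.2⟩).1 hx) g
  refine ⟨Q, hN, hQS, fun R hR => ?_⟩
  obtain ⟨φ, hφ, hr⟩ := hR
  have := CfsgLib.Fus.finite_of_le hQS
  have hRQ : R = Q := by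
    refine Subgroup.eq_of_le_of_card_ge ?_ (CfsgLib.Fus.isConj_card ⟨φ, hφ, hr⟩).le
    rw [← hr]
    rintro _ ⟨x, rfl⟩
    exact CfsgLib.Fusion.Alperin.map_mem_of_isNormal hN hφ x.2
  subst hRQ
  intro c hc
  refine (hmemQ ⟨c, hc.1⟩).2 (hC fun y hy => ?_)
  obtain ⟨x, rfl⟩ := hOle hy
  rw [← map_mul, ← map_mul]
  exact congrArg ι (Subtype.ext (hc.2 x ((hmemQ x).2 hy)))

end Cfsg.Agent.S5103
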