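import Cfsg.Statements.S5104
import Cfsg.Agent.Fus.Basic

set_option autoImplicit false
open Cfsg

namespace Cfsg.Agent.S5104

/-- In a saturated fusion system over a finite p-group S, a fully centralized subgroup U with C_S(U) ≤ U is centric. -/
theorem result {Ω : Type*} [Group Ω] {S : Subgroup Ω} [Finite S] (p : ℕ) [Fact p.Prime] (hS : IsPGroup p S) (F : Cfsg.FusionSystem S) (hF : F.IsSaturated p) (U : Subgroup Ω) (hU : F.IsFullyCentralized U) (hC : Cfsg.FusionSystem.centralizerIn S U ≤ U) : F.IsCentric U := by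
  refine ⟨hU.1, fun Q hUQ => ?_⟩
  obtain ⟨φ, hφ, hr⟩ := hUQ
  have hQS : Q ≤ S := hr ▸ CfsgLib.Fus.range_le F hφ
  have : Finite (FusionSystem.centralizerIn S U) :=
    CfsgLib.Fus.finite_of_le (CfsgLib.Fus.centralizerIn_le U)
  have : Finite (FusionSystem.centralizerIn S Q) :=
    CfsgLib.Fus.finite_of_le (CfsgLib.Fus.centralizerIn_le Q)
  -- the map `C_S(U) → C_S(Q)` is injective, hence bijective
  have hcle := hU.2 Q ⟨φ, hφ, hr⟩
  let f : FusionSystem.centralizerIn S U → FusionSystem.centralizerIn S Q := fun g =>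
    ⟨φ ⟨g, hC g.2⟩, CfsgLib.Fus.map_mem_centralizerIn hr hφ le_rfl (fun x => rfl) g.2.2⟩
  have hf : Function.Injective f := fun a b hab => by
    have h1 := F.injective_of_mem hφ (Subtype.mk_eq_mk.1 hab)
    exact Subtype.ext (Subtype.mk_eq_mk.1 h1)
  have hsurj : Function.Surjective f :=
    (hf.bijective_of_nat_card_le hcle).2
  intro y hy
  obtain ⟨g, hg⟩ := hsurj ⟨y, hy⟩
  rw [← hr]
  exact ⟨⟨g, hC g.2⟩, congrArg Subtype.val hg⟩

end Cfsg.Agent.S5104
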