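import Cfsg.Statements.S5105
import Cfsg.Agent.Fus.Basic
import Cfsg.Agent.LocalCharP.Residual

set_option autoImplicit false
open Cfsg

namespace Cfsg.Agent.S5105

open scoped IsMulCommutative in
/-- A crossed homomorphism into an abelian normal `p`-subgroup vanishing on a subgroup of index prime
to `p` is principal, stated multiplicatively for a map `ψ`. -/
theorem exists_conjugator {G : Type*} [Group G] [Finite G] {p : ℕ} [Fact p.Prime]
    (A : Subgroup G) [IsMulCommutative A] (hA : IsPGroup p A) (hn : A.Normal) (T : Subgroup G)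
    (hT : ¬ p ∣ T.index) (ψ : G ≃* G) (hψT : ∀ t ∈ T, ψ t = t)
    (hmem : ∀ g, ψ g * g⁻¹ ∈ A) : ∃ b ∈ A, ∀ g, ψ g = b * g * b⁻¹ := by
  let d : G → A := fun g => ⟨ψ g * g⁻¹, hmem g⟩
  let c : G → A →* A := fun h =>
    ((MulAut.conj h).toMonoidHom.comp A.subtype).codRestrict A fun a => hn.conj_mem a a.2 h
  have hd : ∀ g h, d (g * h) = d g * c g (d h) := fun g h =>
    Subtype.ext (show ψ (g * h) * (g * h)⁻¹ = ψ g * g⁻¹ * (g * (ψ h * h⁻¹) * g⁻¹) by
      rw [map_mul]; group)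
  have hdT : ∀ g, ∀ t ∈ T, d (g * t) = d g := fun g t ht => Subtype.ext (show _ = ψ g * g⁻¹ by
    show ψ (g * t) * (g * t)⁻¹ = _
    rw [map_mul, hψT t ht]
    group)
  have : Fintype (G ⧸ T) := Fintype.ofFinite _
  let D : G ⧸ T → A := fun q => d q.out
  have hD : ∀ g : G, D (g : G ⧸ T) = d g := by
    intro g
    obtain ⟨t, ht⟩ := QuotientGroup.mk_out_eq_mul T g
    show d (g : G ⧸ T).out = d g
    rw [ht, hdT g t t.2]
  obtain ⟨n, hn'⟩ : ∃ n, Nat.card A = p ^ n := IsPGroup.iff_card.1 hA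
  have hcop : (Nat.card A).Coprime (Fintype.card (G ⧸ T)) := by
    rw [hn', ← Nat.card_eq_fintype_card]
    exact Nat.Coprime.pow_left n ((Fact.out : p.Prime).coprime_iff_not_dvd.2 hT)
  set a : A := ∏ q, D q
  obtain ⟨b, hb⟩ : ∃ b : A, b ^ Fintype.card (G ⧸ T) = a :=
    ⟨(powCoprime hcop).symm a, (powCoprime hcop).apply_symm_apply a⟩
  refine ⟨b, b.2, fun g => ?_⟩
  have ha : a = d g ^ Fintype.card (G ⧸ T) * c g a := by
    calc a = ∏ q, D (g • q) :=
          (Equiv.prod_comp (MulAction.toPerm g : Equiv.Perm (G ⧸ T)) D).symm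
      _ = ∏ q, d g * c g (D q) := Finset.prod_congr rfl fun q _ => by
          conv_lhs => rw [← QuotientGroup.out_eq' q]
          show D ((g * q.out : G) : G ⧸ T) = _
          rw [hD, hd]
      _ = _ := by rw [Finset.prod_mul_distrib, Finset.prod_const, Finset.card_univ, ← map_prod]
  have key : b = d g * c g b := by
    apply (powCoprime hcop).injective
    show b ^ _ = (d g * c g b) ^ _
    rw [mul_pow, ← map_pow, hb, ← ha]
  have key' : (b : G) = ψ g * g⁻¹ * (g * (b : G) * g⁻¹) := congrArg Subtype.val key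
  calc ψ g = (ψ g * g⁻¹ * (g * (b : G) * g⁻¹)) * g * (b : G)⁻¹ := by group
    _ = b * g * (b : G)⁻¹ := by rw [← key']


/-- Model Theorem, rigidity: if G is a model of a constrained fusion system over a finite p-group S (through ι : S → G), then every automorphism of G fixing ι(S) elementwise is conjugation by ι(z) for some z in the centre of S. -/
theorem result {Ω : Type*} [Group Ω] {S : Subgroup Ω} [Finite S] (p : ℕ) [Fact p.Prime] (hS : IsPGroup p S) (F : Cfsg.FusionSystem S) (hF : F.IsConstrained p) {G : Type*} [Group G] (ι : S →* G) (hG : F.IsModel p G ι) (ψ : G ≃* G) (hψ : ∀ x : S, ψ (ι x) = ι x) : ∃ z : S, z ∈ Subgroup.center S ∧ ∀ g : G, ψ g = ι z * g * (ι z)⁻¹ := by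
  obtain ⟨hfin, ⟨hinj, -⟩, ⟨T, hT⟩, hC⟩ := hG
  set Q := Cfsg.pCore p G with hQ
  have hQn : Q.Normal := Cfsg.pCore_normal p G
  have hQT : Q ≤ (T : Subgroup G) := CfsgLib.CharP.pCore_le_sylow T
  have hψT : ∀ t ∈ (T : Subgroup G), ψ t = t := by
    intro t ht
    obtain ⟨x, rfl⟩ := hT.le ht
    exact hψ x
  set A := Q ⊓ Subgroup.centralizer (Q : Set G) with hA
  have : IsMulCommutative A := ⟨⟨fun a b => Subtype.ext (b.2.2 _ a.2.1)⟩⟩
  have hAn : A.Normal := inferInstance
  have hmem : ∀ g, ψ g * g⁻¹ ∈ A := by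
    intro g
    have h1 : g⁻¹ * ψ g ∈ A := by
      have h2 : g⁻¹ * ψ g ∈ Subgroup.centralizer (Q : Set G) := by
        intro y hy
        have e : ψ (g * y * g⁻¹) = g * y * g⁻¹ := hψT _ (hQT (hQn.conj_mem y hy g))
        rw [map_mul, map_mul, map_inv, hψT y (hQT hy)] at e
        calc y * (g⁻¹ * ψ g) = g⁻¹ * (g * y * g⁻¹) * ψ g := by group
          _ = g⁻¹ * (ψ g * y * (ψ g)⁻¹) * ψ g := by rw [e]
          _ = g⁻¹ * ψ g * y := by group
      exact ⟨hC h2, h2⟩
    have h3 := hAn.conj_mem _ h1 g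
    convert h3 using 1
    group
  obtain ⟨b, hb, hbψ⟩ := exists_conjugator A ((CfsgLib.CharP.isPGroup_pCore).to_le inf_le_left) hAn
    (T : Subgroup G) T.not_dvd_index ψ hψT hmem
  obtain ⟨z, rfl⟩ := hT.le (hQT hb.1)
  refine ⟨z, Subgroup.mem_center_iff.2 fun x => hinj ?_, hbψ⟩
  have h := hbψ (ι x)
  rw [hψ x] at h
  rw [map_mul, map_mul]
  calc ι x * ι z = ι z * ι x * (ι z)⁻¹ * ι z := by rw [← h]
    _ = ι z * ι x := by group

end Cfsg.Agent.S5105
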