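import Cfsg.Statements.S5106
import Cfsg.Agent.Fus.NormalSeries

set_option autoImplicit false
open Cfsg

namespace Cfsg.Agent.S5106

/-- In a saturated fusion system over a finite p-group S, a subgroup R ≤ S is normal in the system if and only if every map of the system whose source is a subgroup of R is the restriction of an element of Aut_F(R). -/
theorem result {Ω : Type*} [Group Ω] {S : Subgroup Ω} [Finite S] (p : ℕ) [Fact p.Prime] (hS : IsPGroup p S) (F : Cfsg.FusionSystem S) (hF : F.IsSaturated p) (R : Subgroup Ω) (hRS : R ≤ S) : F.IsNormal R ↔ ∀ (P : Subgroup Ω) (hPR : P ≤ R) (φ : P →* Ω), φ ∈ F.Hom P → ∃ α ∈ F.autGroup R, ∀ x : P, ((α (Subgroup.inclusion hPR x) : R) : Ω) = φ x := by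
  constructor
  · intro hR P hPR φ hφ
    obtain ⟨ψ, hψ, hψe, hψR⟩ := hR.2 P φ hφ
    have hle : R ≤ P ⊔ R := le_sup_right
    have hr : (ψ.comp (Subgroup.inclusion hle)).range = R := by
      ext z
      constructor
      · rintro ⟨x, rfl⟩
        exact hψR.le ⟨Subgroup.inclusion hle x, x.2, rfl⟩
      · intro hz
        obtain ⟨x, hx, rfl⟩ := hψR.ge hz
        exact ⟨⟨x, hx⟩, rfl⟩
    exact ⟨_, CfsgLib.Fus.isoOf_mem_autGroup (CfsgLib.Fus.restrict_mem F hψ hle) hr,
      fun x => hψe x⟩
  · intro h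
    refine CfsgLib.Fus.isNormal_of_stronglyClosed_lcs hS hF fun i => ?_
    have hle := Subgroup.lowerCentralSeries_le_self R i
    refine ⟨hle.trans hRS, fun P hP φ hφ x => ?_⟩
    obtain ⟨α, -, hαx⟩ := h P (hP.trans hle) φ hφ
    rw [← hαx x]
    have hc := CfsgLib.Fus.lowerCentralSeries_subgroupOf_characteristic R i
    have hx : (Subgroup.inclusion (hP.trans hle) x) ∈
        ((R.lowerCentralSeries i).subgroupOf R).comap α.toMonoidHom := by
      rw [hc.fixed α]
      exact hP x.2
    exact hx

end Cfsg.Agent.S5106
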