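import Cfsg.Statements.S5107
import Cfsg.Agent.Fus.NormalSeries
import Cfsg.Agent.Fus.Group
import Cfsg.Agent.Eq.Def_TwoFusion

set_option autoImplicit false
open Cfsg
open scoped commutatorElement

namespace Cfsg.Agent.S5107

/-- If a Sylow p-subgroup S of a finite group G has nilpotency class at most two and its centre is strongly closed in S with respect to G, then every map of the fusion system of G on S is conjugation by an element of N_G(S), and S is the largest subgroup normal in that fusion system. -/
theorem result {G : Type*} [Group G] [Finite G] (p : ℕ) [Fact p.Prime] (S : Sylow p G) (hcl : ⁅(S : Subgroup G), (S : Subgroup G)⁆ ≤ (S : Subgroup G) ⊓ Subgroup.centralizer ((S : Subgroup G) : Set G)) (hZ : Cfsg.IsStronglyClosed ((S : Subgroup G) ⊓ Subgroup.centralizer ((S : Subgroup G) : Set G)) (S : Subgroup G)) : (∀ (P : Subgroup G) (φ : P →* G), φ ∈ (Cfsg.groupFusionSystem (S : Subgroup G)).Hom P → ∃ g ∈ Subgroup.normalizer ((S : Subgroup G) : Set G), ∀ x : P, φ x = g * (x : G) * g⁻¹) ∧ (Cfsg.groupFusionSystem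 (S : Subgroup G)).core = S := by
  set F := Cfsg.groupFusionSystem (S : Subgroup G) with hFdef
  set Z : Subgroup G := (S : Subgroup G) ⊓ Subgroup.centralizer ((S : Subgroup G) : Set G) with hZdef
  have hsat : F.IsSaturated p := CfsgLib.Fus.isSaturated_group S
  have hZsc : F.StronglyClosed Z := by
    refine ⟨inf_le_left, fun R hR φ hφ x => ?_⟩
    obtain ⟨-, hφS, g, hg⟩ := hφ
    have h1 := hφS x
    rw [hg] at h1 ⊢
    exact hZ.2 x (hR x.2) g h1
  have hSsc : F.StronglyClosed (S : Subgroup G) :=
    ⟨le_rfl, fun R _ φ hφ x => CfsgLib.Fus.hom_mem F hφ x⟩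
  have hN : F.IsNormal (S : Subgroup G) := by
    refine CfsgLib.Fusion.Alperin.isNormal_of_series S.isPGroup' hsat hSsc 2
      (fun i => if i = 0 then ⊥ else if i = 1 then Z else (S : Subgroup G)) (by simp) (by simp)
      ?_ ?_ ?_
    · refine monotone_nat_of_le_succ fun i => ?_
      rcases i with _ | _ | i
      · simp
      · show Z ≤ (S : Subgroup G)
        exact inf_le_left
      · simp
    · intro i hi
      interval_cases i
      · simpa using CfsgLib.Fus.stronglyClosed_bot F
      · simpa using hZsc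
      · simpa using hSsc
    · intro i hi g hg x hx
      interval_cases i
      · simp only [zero_add, one_ne_zero, if_false, if_true] at hx ⊢
        rw [Subgroup.mem_bot, hx.2 g hg]
        group
      · simp only [show (1 + 1 : ℕ) ≠ 0 by omega, show (1 + 1 : ℕ) ≠ 1 by omega, one_ne_zero,
          if_false, if_true] at hx ⊢
        have h2 := Subgroup.commutator_mem_commutator (Subgroup.inv_mem _ hx) hg
        rw [commutatorElement_def] at h2
        refine hcl ?_
        convert h2 using 1
        group
  refine ⟨fun P φ hφ => ?_, le_antisymm (sSup_le fun Q hQ => hQ.1)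
    (CfsgLib.Fusion.Alperin.le_core hN)⟩
  obtain ⟨ψ, hψ, hψe, hψS⟩ := hN.2 P φ hφ
  obtain ⟨-, -, g, hg⟩ := hψ
  refine ⟨g, ?_, fun x => by rw [← hψe, hg]; rfl⟩
  rw [Subgroup.mem_normalizer_iff_map_conj_eq]
  ext z
  constructor
  · rintro ⟨x, hx, rfl⟩
    exact hψS.le ⟨⟨x, Subgroup.mem_sup_right hx⟩, hx, hg _⟩
  · intro hz
    obtain ⟨x, hx, rfl⟩ := hψS.ge hz
    exact ⟨x, hx, (hg x).symm⟩

end Cfsg.Agent.S5107
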