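import Cfsg.Statements.S5112
import Cfsg.Agent.Fus.Saturation
import Cfsg.Agent.S3116

set_option autoImplicit false
open Cfsg

namespace Cfsg.Agent.S5112

/-- If S is a dihedral or generalized quaternion 2-group of order at least 16, then in every saturated fusion system over S (at the prime 2) the automorphism group Aut_F(S) consists of the inner automorphisms of S. -/
theorem result {Ω : Type*} [Group Ω] {S : Subgroup Ω} [Finite S] (n : ℕ) (hn : 4 ≤ n) (hshape : Nonempty (S ≃* DihedralGroup (2 ^ (n - 1))) ∨ Nonempty (S ≃* QuaternionGroup (2 ^ (n - 2)))) (F : Cfsg.FusionSystem S) (hF : F.IsSaturated 2) : F.autGroup S = Cfsg.Inn S := by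
  have hne : ∀ m : ℕ, NeZero (2 ^ m) := fun m => ⟨(pow_pos two_pos m).ne'⟩
  have := hne (n - 1); have := hne (n - 2)
  have hAut : IsPGroup 2 (MulAut S) := by
    rcases hshape with ⟨⟨e⟩⟩ | ⟨⟨e⟩⟩
    · refine IsPGroup.of_equiv ?_ (MulAut.congr e).symm
      refine Cfsg.Agent.S3116.isPGroup_mulAut (DihedralGroup.r 1) (DihedralGroup.sr 0) (n - 1) 2
        DihedralGroup.orderOf_r_one ?_ ?_ ?_ two_pos ?_
      · have h := Subgroup.card_mul_index (Subgroup.zpowers (DihedralGroup.r 1 : DihedralGroup (2 ^ (n - 1))))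
        rw [Nat.card_zpowers, DihedralGroup.orderOf_r_one, DihedralGroup.nat_card, mul_comm 2] at h
        exact Nat.eq_of_mul_eq_mul_left (pow_pos two_pos _) h
      · rintro ⟨k, hk⟩
        simp at hk
      · calc 2 < 2 ^ 3 := by norm_num
          _ ≤ 2 ^ (n - 1) := Nat.pow_le_pow_right two_pos (by omega)
      · rintro (i | i) hi
        · exact absurd ⟨i.val, by simp⟩ hi
        · rw [pow_two, DihedralGroup.sr_mul_self]
    · refine IsPGroup.of_equiv ?_ (MulAut.congr e).symm
      have ho : orderOf (QuaternionGroup.a 1 : QuaternionGroup (2 ^ (n - 2))) = 2 ^ (n - 1) := by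
        rw [QuaternionGroup.orderOf_a_one, ← pow_succ', show n - 2 + 1 = n - 1 by omega]
      refine Cfsg.Agent.S3116.isPGroup_mulAut (QuaternionGroup.a 1) (QuaternionGroup.xa 0) (n - 1) 4
        ho ?_ ?_ ?_ (by norm_num) ?_
      · have h := Subgroup.card_mul_index (Subgroup.zpowers (QuaternionGroup.a 1 : QuaternionGroup (2 ^ (n - 2))))
        rw [Nat.card_zpowers, ho, Nat.card_eq_fintype_card (α := QuaternionGroup (2 ^ (n - 2))),
          QuaternionGroup.card, show 4 * 2 ^ (n - 2) = 2 ^ (n - 1) * 2 by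
            rw [show n - 1 = n - 2 + 1 by omega, pow_succ]; ring] at h
        exact Nat.eq_of_mul_eq_mul_left (pow_pos two_pos _) h
      · intro hk
        obtain ⟨k, hk⟩ := mem_powers_iff_mem_zpowers.2 hk
        simp [QuaternionGroup.a_one_pow] at hk
      · calc 4 < 2 ^ 3 := by norm_num
          _ ≤ 2 ^ (n - 1) := Nat.pow_le_pow_right two_pos (by omega)
      · rintro (i | i) hi
        · refine absurd ⟨((ZMod.val i : ℕ) : ℤ), ?_⟩ hi
          show QuaternionGroup.a 1 ^ ((ZMod.val i : ℕ) : ℤ) = _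
          rw [zpow_natCast, QuaternionGroup.a_one_pow, ZMod.natCast_zmod_val]
        · exact orderOf_dvd_iff_pow_eq_one.1 (dvd_of_eq (QuaternionGroup.orderOf_xa i))
  have hfn := CfsgLib.Fus.isFullyNormalized_top F
  have hS : IsPGroup 2 S := by
    have hcard : ∃ m, Nat.card S = 2 ^ m := by
      rcases hshape with ⟨⟨e⟩⟩ | ⟨⟨e⟩⟩
      · exact ⟨n - 1 + 1, by rw [Nat.card_congr e.toEquiv, DihedralGroup.nat_card, pow_succ']⟩
      · exact ⟨n - 2 + 2, by
          rw [Nat.card_congr e.toEquiv, Nat.card_eq_fintype_card, QuaternionGroup.card, pow_add]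
          ring⟩
    exact IsPGroup.iff_card.2 hcard
  obtain ⟨-, T, hT⟩ := (CfsgLib.Fus.fullyNormalized_props hS hF hfn).1
  have htop : (T : Subgroup (F.autGroup S)) = ⊤ :=
    (T.is_maximal' ((hAut.to_subgroup _).to_subgroup ⊤) le_top).symm
  refine le_antisymm (fun α hα => ?_) (CfsgLib.Fus.inn_le_autGroup F le_rfl)
  have h1 : (⟨α, hα⟩ : F.autGroup S) ∈ (T : Subgroup (F.autGroup S)) := by
    rw [htop]
    exact Subgroup.mem_top _
  rw [hT] at h1
  rw [CfsgLib.Fus.inn_eq_autInducedBy_self]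
  exact h1

end Cfsg.Agent.S5112
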