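import Cfsg.Statements.S5122
import Cfsg.Agent.Fus.Group
import Cfsg.Agent.Fus.NormalOverSylow

set_option autoImplicit false
open Cfsg

namespace Cfsg.Agent.S5122

open CfsgLib.Fus in
theorem card_of_sylow {G : Type*} [Group G] [Finite G] {p : ℕ} [Fact p.Prime] {A B : Subgroup G}
    (hAB : A ≤ B) : (∃ R : Sylow p B, (R : Subgroup B) = A.subgroupOf B) ↔
      Nat.card A = p ^ (Nat.card B).factorization p := by
  constructor
  · rintro ⟨R, hR⟩
    rw [← R.card_eq_multiplicity, ← Nat.card_congr (Subgroup.subgroupOfEquivOfLe hAB).toEquiv, hR]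
  · intro h
    exact ⟨Sylow.ofCard (A.subgroupOf B)
      (by rw [Nat.card_congr (Subgroup.subgroupOfEquivOfLe hAB).toEquiv, h]), rfl⟩

/-- Let G be a finite group with Sylow p-subgroup S. Every subgroup P of S has a G-conjugate Q ≤ S such that N_S(Q) is a Sylow p-subgroup of N_G(Q); and for any Q ≤ S with that property, C_S(Q) is a Sylow p-subgroup of C_G(Q) and the automorphisms of Q induced by N_S(Q) form a Sylow p-subgroup of those induced by N_G(Q). -/
theorem result {G : Type*} [Group G] [Finite G] (p : ℕ) [Fact p.Prime] (S : Sylow p G) : (∀ P : Subgroup G, P ≤ S → ∃ g : G, P.map (MulAut.conj g).toMonoidHom ≤ S ∧ (∃ R : Sylow p ↥(Subgroup.normalizer ((P.map (MulAut.conj g).toMonoidHom : Subgroup G) : Set G)), (R : Subgroup ↥(Subgroup.normalizer ((P.map (MulAut.conj g).toMonoidHom : Subgroup G) : Set G))) = (Cfsg.FusionSystem.normalizerIn (S : Subgroup G) (P.map (MulAut.conj g).toMonoidHom)).subgroupOf (Subgroup.normalizer ((P.map (MulAut.conj g).toMonoidHom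 : Subgroup G) : Set G)))) ∧ ∀ Q : Subgroup G, Q ≤ S → (∃ R : Sylow p ↥(Subgroup.normalizer (Q : Set G)), (R : Subgroup ↥(Subgroup.normalizer (Q : Set G))) = (Cfsg.FusionSystem.normalizerIn (S : Subgroup G) Q).subgroupOf (Subgroup.normalizer (Q : Set G))) → (∃ R : Sylow p ↥(Subgroup.centralizer (Q : Set G)), (R : Subgroup ↥(Subgroup.centralizer (Q : Set G))) = (Cfsg.FusionSystem.centralizerIn (S : Subgroup G) Q).subgroupOf (Subgroup.centralizer (Q : Set G))) ∧ (∃ R : Sylow p ↥(Cfsg.autInducedBy ⊤ Q), (R : Subgroup ↥(Cfsg.autInducedBy ⊤ Q)) = (Cfsg.autInducedBy (S : Subgroup G) Q).subgroupOf (Cfsg.autInducedBy ⊤ Q)) := by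
  constructor
  · intro P hP
    obtain ⟨Q, hPQ, hQ⟩ := CfsgLib.Fus.exists_conj_sylow_normalizer S hP
    obtain ⟨-, hQS, g, hg⟩ := CfsgLib.Fus.exists_isConj_iff.1 hPQ
    refine ⟨g, hg ▸ hQS, ?_⟩
    rw [hg]
    exact (card_of_sylow inf_le_right).2 hQ
  · intro Q hQ hR
    have h := (card_of_sylow inf_le_right).1 hR
    refine ⟨(card_of_sylow inf_le_right).2 (CfsgLib.Fus.sylow_centralizer_of_normalizer S h), ?_⟩
    have h2 := (CfsgLib.Fus.fullyAutomized_group S hQ h).2
    rwa [CfsgLib.Fus.NormalOverSylow.autGroup_group hQ] at h2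

end Cfsg.Agent.S5122
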