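import Cfsg.Statements.S5123
import Cfsg.Agent.Fus.Group

set_option autoImplicit false
open Cfsg

namespace Cfsg.Agent.S5123

/-- Let G be a finite group with Sylow p-subgroup S, P, Q ≤ S and g ∈ G with gPg⁻¹ = Q, and suppose N_S(Q) is a Sylow p-subgroup of N_G(Q). Let N be the set of x ∈ N_S(P) with gxg⁻¹ ∈ N_S(Q)C_G(Q). Then some h ∈ C_G(Q) satisfies (hg)N(hg)⁻¹ ≤ S. -/
theorem result {G : Type*} [Group G] [Finite G] (p : ℕ) [Fact p.Prime] (S : Sylow p G) (P Q : Subgroup G) (hP : P ≤ S) (hQ : Q ≤ S) (g : G) (hg : P.map (MulAut.conj g).toMonoidHom = Q) (hN : (∃ R : Sylow p ↥(Subgroup.normalizer (Q : Set G)), (R : Subgroup ↥(Subgroup.normalizer (Q : Set G))) = (Cfsg.FusionSystem.normalizerIn (S : Subgroup G) Q).subgroupOf (Subgroup.normalizer (Q : Set G)))) : ∃ h ∈ Subgroup.centralizer (Q : Set G), ((Cfsg.FusionSystem.normalizerIn (S : Subgroup G) P) ⊓ (Cfsg.FusionSystem.normalizerIn (S : Subgroup G) Q ⊔ Subgroup.centralizer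 (Q : Set G)).comap (MulAut.conj g).toMonoidHom).map (MulAut.conj (h * g)).toMonoidHom ≤ S := by
  set M := Subgroup.normalizer (Q : Set G) with hM
  set NQ := Cfsg.FusionSystem.normalizerIn (S : Subgroup G) Q with hNQ
  set C := Subgroup.centralizer (Q : Set G) with hC
  have hCM : C ≤ M := Subgroup.centralizer_le_normalizer _
  have hNQM : NQ ≤ M := inf_le_right
  obtain ⟨R, hR⟩ := hN
  set L := NQ ⊔ C with hL
  have hLM : L ≤ M := sup_le hNQM hCM
  set A := ((Cfsg.FusionSystem.normalizerIn (S : Subgroup G) P) ⊓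
    L.comap (MulAut.conj g).toMonoidHom).map (MulAut.conj g).toMonoidHom with hA
  have hAL : A ≤ L := by
    rintro _ ⟨x, hx, rfl⟩
    exact hx.2
  have hAp : IsPGroup p A :=
    (S.isPGroup'.to_le (inf_le_left.trans inf_le_left)).map _
  -- `N_S(Q)` is a Sylow subgroup of `N_S(Q) C_G(Q)`
  have hRle : (R : Subgroup M) ≤ L.subgroupOf M := by
    rw [hR]
    exact fun x hx => Subgroup.mem_sup_left hx
  let RL : Sylow p (L.subgroupOf M) := R.subtype hRle
  have hA' : IsPGroup p ((A.subgroupOf M).subgroupOf (L.subgroupOf M)) :=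
    (hAp.comap_of_injective _ (Subgroup.subtype_injective M)).comap_of_injective _
      (Subgroup.subtype_injective _)
  obtain ⟨l, hl⟩ := CfsgLib.Fus.exists_conj_mem_sylow RL hA'
  have hlL : ((l : M) : G) ∈ NQ ⊔ C := l.2
  have hnorm : NQ ≤ Subgroup.normalizer (C : Set G) := fun s hs => by
    refine Subgroup.mem_normalizer_fintype fun c hc y hy => ?_
    have hsy : s⁻¹ * y * s ∈ Q :=
      (Subgroup.mem_normalizer_iff''.1 (hNQM hs) y).1 hy
    have := hc _ hsy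
    calc y * (s * c * s⁻¹) = s * ((s⁻¹ * y * s) * c) * s⁻¹ := by group
      _ = s * (c * (s⁻¹ * y * s)) * s⁻¹ := by rw [this]
      _ = s * c * s⁻¹ * y := by group
  rw [← SetLike.mem_coe, Subgroup.coe_mul_of_left_le_normalizer_right NQ C hnorm] at hlL
  obtain ⟨s, hs, h, hh, hsh⟩ := Set.mem_mul.1 hlL
  refine ⟨h, hh, ?_⟩
  rintro _ ⟨x, hx, rfl⟩
  have hgx : g * x * g⁻¹ ∈ A := ⟨x, hx, rfl⟩
  have h1 := hl ⟨⟨g * x * g⁻¹, hLM (hAL hgx)⟩, hAL hgx⟩ hgx
  have h2 : ((l : M) : G) * (g * x * g⁻¹) * ((l : M) : G)⁻¹ ∈ NQ := by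
    have h3 : (l : M) * ⟨g * x * g⁻¹, hLM (hAL hgx)⟩ * (l : M)⁻¹ ∈ (R : Subgroup M) := h1
    rw [hR] at h3
    exact h3
  rw [← hsh] at h2
  show h * g * x * (h * g)⁻¹ ∈ (S : Subgroup G)
  have h4 := (NQ.mul_mem (NQ.mul_mem (NQ.inv_mem hs) h2) hs).1
  rw [show h * g * x * (h * g)⁻¹ = s⁻¹ * (s * h * (g * x * g⁻¹) * (s * h)⁻¹) * s by group]
  exact h4

end Cfsg.Agent.S5123
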