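import Cfsg.Statements.S5139
import Cfsg.Agent.Fus.GroupNormal
import Cfsg.Agent.Fus.Focal
import Cfsg.Agent.FusAut.PPower
import Cfsg.Agent.CharP.PResidual
import Cfsg.Agent.LocalCharP.Residual

set_option autoImplicit false
open Cfsg

namespace Cfsg.Agent.S5139

theorem transport {Ω : Type*} [Group Ω] {S T : Subgroup Ω} [Finite S] {p : ℕ} [Fact p.Prime]
    {F : Cfsg.FusionSystem S} {H : Subgroup Ω} (heq : H = T) (hS : IsPGroup p S)
    (E : Cfsg.FusionSystem H) (D : Cfsg.FusionSystem T) (hE : E.IsSaturated p ∧ E.HasPPowerIndexIn F p)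
    (hD : D.IsSaturated p) (hD' : D.HasPPowerIndexIn F p) (hTS : T ≤ S := by exact inf_le_left) :
    ∀ P : Subgroup Ω, E.Hom P = D.Hom P := by
  subst heq
  intro P
  rw [CfsgLib.FusAut.hom_eq_of_pPowerIndex hS hTS hE.1 hD hE.2 hD']

open CfsgLib.Fus in
theorem pResidual_subsystem_index {G : Type*} [Group G] [Finite G] {p : ℕ} [Fact p.Prime] (S : Sylow p G)
    (hsub : (Cfsg.fusionSystemOfSubgroup (Cfsg.pResidual p G)
      ((S : Subgroup G) ⊓ Cfsg.pResidual p G) inf_le_right).IsSubsystemOf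
        (Cfsg.groupFusionSystem (S : Subgroup G)))
    (heq : (Cfsg.groupFusionSystem (S : Subgroup G)).hyperfocalSubgroup p =
      (S : Subgroup G) ⊓ Cfsg.pResidual p G) :
    (Cfsg.fusionSystemOfSubgroup (Cfsg.pResidual p G)
      ((S : Subgroup G) ⊓ Cfsg.pResidual p G) inf_le_right).HasPPowerIndexIn
        (Cfsg.groupFusionSystem (S : Subgroup G)) p := by
  refine ⟨hsub, heq.le, fun P hP => ?_⟩
  have hPS : P ≤ (S : Subgroup G) := hP.trans inf_le_left
  set F := Cfsg.groupFusionSystem (S : Subgroup G)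
  let f : ↥(Subgroup.normalizer (P : Set G)) →* F.autGroup P :=
    P.normalizerMonoidHom.codRestrict (F.autGroup P) fun n =>
      (mem_autGroup_group_iff hPS).2 ⟨n, fun x => rfl⟩
  have hf : Function.Surjective f := by
    rintro ⟨α, hα⟩
    obtain ⟨g, hg⟩ := (mem_autGroup_group_iff hPS).1 hα
    exact ⟨⟨g, mem_normalizer_of_aut hg⟩, Subtype.ext (MulEquiv.ext fun x => Subtype.ext (hg x).symm)⟩
  rw [← CfsgLib.LocalCharP.map_pResidual hf]
  rintro _ ⟨_, ⟨n, hn, rfl⟩, rfl⟩
  have hnG : (n : G) ∈ Cfsg.pResidual p G :=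
    CfsgLib.LocalCharP.map_pResidual_le (Subgroup.normalizer (P : Set G)).subtype ⟨n, hn, rfl⟩
  refine mem_autGroup_of_mem _ ⟨hP, fun x => hP ((f n : MulAut P) x).2, n, hnG, fun x => rfl⟩


/-- Let G be a finite group with Sylow p-subgroup S and O^p(G) the subgroup generated by the elements of order prime to p. Then the p-residual subsystem of the fusion system of G on S — the saturated subsystem of p-power index over the hyperfocal subgroup — is the fusion system of O^p(G) on S ∩ O^p(G): its maps are exactly the conjugation maps by elements of O^p(G) between subgroups of S ∩ O^p(G). -/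
theorem result {G : Type*} [Group G] [Finite G] (p : ℕ) [Fact p.Prime] (S : Sylow p G) (E : Cfsg.FusionSystem ((Cfsg.groupFusionSystem (S : Subgroup G)).hyperfocalSubgroup p)) (hE : (Cfsg.groupFusionSystem (S : Subgroup G)).IsPResidual p E) : ∃ h : (S : Subgroup G) ⊓ Cfsg.pResidual p G ≤ Cfsg.pResidual p G, ∀ P : Subgroup G, E.Hom P = (Cfsg.fusionSystemOfSubgroup (Cfsg.pResidual p G) ((S : Subgroup G) ⊓ Cfsg.pResidual p G) h).Hom P := by
  haveI : (Cfsg.pResidual p G).Normal := CfsgLib.CharP.pResidual_normal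
  refine ⟨inf_le_right, ?_⟩
  have heq : (Cfsg.groupFusionSystem (S : Subgroup G)).hyperfocalSubgroup p = (S : Subgroup G) ⊓ Cfsg.pResidual p G :=
    CfsgLib.Fus.hyperfocal_group_eq S
  have hD := CfsgLib.Fus.isNormalIn_of_normal (p := p) S (Cfsg.pResidual p G)
  have hDp : (Cfsg.fusionSystemOfSubgroup (Cfsg.pResidual p G)
      ((S : Subgroup G) ⊓ Cfsg.pResidual p G) inf_le_right).HasPPowerIndexIn (Cfsg.groupFusionSystem (S : Subgroup G)) p :=
    pResidual_subsystem_index S hD.1.2.2.1 heq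
  exact transport (F := Cfsg.groupFusionSystem (S : Subgroup G)) heq S.isPGroup' E _ hE hD.1.1 hDp

end Cfsg.Agent.S5139
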