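import Cfsg.Statements.S5147
import Cfsg.Agent.Fus.SubnormalConstrained

/-!
Constrainedness passes to subnormal subgroups and to quotients by central subgroups.
-/

set_option autoImplicit false
open Cfsg Cfsg.FusionSystem CfsgLib.Fus CfsgLib.Fusion.Alperin

namespace Cfsg.Agent.S5147

/-- A central quotient of a group with a constrained system has a constrained system. -/
theorem isConstrained_central_quotient {G : Type*} [Group G] [Finite G] {p : ℕ} [Fact p.Prime]
    (P : Sylow p G) (hF : (Cfsg.groupFusionSystem (P : Subgroup G)).IsConstrained p) (Z : Subgroup G)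
    [Z.Normal] (hZ : Z ≤ Subgroup.center G) :
    (Cfsg.groupFusionSystem ((P : Subgroup G).map (QuotientGroup.mk' Z))).IsConstrained p := by
  obtain ⟨hsat, Q, hQn, hQc⟩ := hF
  set F := Cfsg.groupFusionSystem (P : Subgroup G) with hFdef
  set N := F.core
  have hN : F.IsNormal N := isNormal_core F
  have hNc : F.IsCentric N := isCentric_of_le hQc (le_core hQn) hN.1
  set π := QuotientGroup.mk' Z
  let Pb : Sylow p (G ⧸ Z) := P.mapSurjective (QuotientGroup.mk'_surjective Z)
  set E := Cfsg.groupFusionSystem ((P : Subgroup G).map π) with hE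
  have hEsat : E.IsSaturated p := isSaturated_group Pb
  have hcomm : ∀ {z : G}, z ∈ Z → ∀ g : G, g * z = z * g := fun hz g => Subgroup.mem_center_iff.1 (hZ hz) g
  -- central `p`-elements lie in the Sylow subgroup
  have hzP : ∀ {z : G}, z ∈ Z → IsPGroup p (Subgroup.zpowers z) → z ∈ (P : Subgroup G) := by
    intro z hz hp
    have hn : (Subgroup.zpowers z).Normal := ⟨fun w hw g => by
      rw [hcomm ((Subgroup.zpowers_le.2 hz) hw) g, mul_inv_cancel_right]
      exact hw⟩
    exact CfsgLib.CharP.pCore_le_sylow P (CfsgLib.CharP.le_pCore hn hp (Subgroup.mem_zpowers z))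
  have hdiv : ∀ {x y : G}, x ∈ (P : Subgroup G) → y ∈ (P : Subgroup G) → ∀ {g z : G}, z ∈ Z →
      g * x * g⁻¹ = y * z → z ∈ (P : Subgroup G) := by
    intro x y hx hy g z hz h
    refine hzP hz ?_
    have hy' : y = g * (x * z⁻¹) * g⁻¹ := by
      rw [← mul_assoc g x, mul_assoc (g * x), ← hcomm (Z.inv_mem hz) g⁻¹, ← mul_assoc, h,
        mul_inv_cancel_right]
    obtain ⟨a, ha⟩ := P.isPGroup' ⟨x, hx⟩
    obtain ⟨b, hb⟩ := P.isPGroup' ⟨y, hy⟩
    have ha' : x ^ p ^ a = 1 := congrArg Subtype.val ha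
    have hb' : y ^ p ^ b = 1 := congrArg Subtype.val hb
    rw [hy', conj_pow, conj_eq_one_iff] at hb'
    have hxz : Commute x z⁻¹ := hcomm (Z.inv_mem hz) x
    have h1 : (z⁻¹) ^ p ^ (a + b) = 1 := by
      have e : (x * z⁻¹) ^ p ^ (a + b) = 1 := by
        rw [pow_add, mul_comm, pow_mul, hb', one_pow]
      rw [hxz.mul_pow, pow_add p, pow_mul x, ha', one_pow, one_mul] at e
      rw [pow_add p]
      exact e
    have hord : orderOf z ∣ p ^ (a + b) := orderOf_dvd_of_pow_eq_one (by rwa [inv_pow, inv_eq_one] at h1)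
    obtain ⟨k, -, hk⟩ := (Nat.dvd_prime_pow (Fact.out : p.Prime)).1 hord
    exact IsPGroup.of_card (by rw [Nat.card_zpowers, hk])
  have hsc : ∀ {L : Subgroup G}, F.StronglyClosed L → E.StronglyClosed (L.map π) := by
    intro L hL
    refine ⟨Subgroup.map_mono hL.1, fun R hR φ hφ x => ?_⟩
    obtain ⟨-, hφP, g', hg⟩ := hφ
    obtain ⟨g, rfl⟩ := QuotientGroup.mk'_surjective Z g'
    obtain ⟨l, hl, hlx⟩ := hR x.2
    obtain ⟨y, hy, hyx⟩ := hφP x
    rw [hg, ← hlx, ← map_inv, ← map_mul, ← map_mul] at hyx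
    obtain ⟨z, hz, hzy⟩ : ∃ z ∈ Z, g * l * g⁻¹ = y * z :=
      ⟨y⁻¹ * (g * l * g⁻¹), QuotientGroup.eq.1 hyx, by group⟩
    have hgl : g * l * g⁻¹ ∈ (P : Subgroup G) :=
      hzy ▸ (P : Subgroup G).mul_mem hy (hdiv (hL.1 hl) hy hz hzy)
    have hmem := hL.2 (Subgroup.zpowers l) (Subgroup.zpowers_le.2 hl)
      (Cfsg.conjHom (Subgroup.zpowers l) g)
      ⟨Subgroup.zpowers_le.2 (hL.1 hl), fun w => by
        obtain ⟨_, k, rfl⟩ := w
        show g * l ^ k * g⁻¹ ∈ (P : Subgroup G)
        rw [← conj_zpow]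
        exact zpow_mem hgl k, g, fun w => rfl⟩ ⟨l, Subgroup.mem_zpowers l⟩
    refine ⟨g * l * g⁻¹, hmem, ?_⟩
    rw [hg, ← hlx, map_mul, map_mul, map_inv]
  have hnorm : E.IsNormal (N.map π) := isNormal_of_stronglyClosed_lcs Pb.isPGroup' hEsat fun i => by
    rw [← Subgroup.map_lowerCentralSeries]
    exact hsc (stronglyClosed_of_isNormal (isNormal_lowerCentralSeries hN i))
  refine ⟨hEsat, _, hnorm, isCentric_of_normal hnorm ?_⟩
  rintro _ ⟨⟨x, hx, rfl⟩, hc⟩
  refine Subgroup.mem_map_of_mem π ?_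
  have hNP : (P : Subgroup G) ≤ Subgroup.normalizer (N : Set G) :=
    le_normalizer_of_stronglyClosed (stronglyClosed_of_isNormal hN)
  refine mem_core_of_stabilizes P.isPGroup' hsat hN hNc (R := (P : Subgroup G) ⊓ Z) ⟨inf_le_left, ?_⟩
    (fun z hz => ?_) hx (fun n hn => ?_) (fun r hr => ?_)
  · intro R hR φ hφ w
    obtain ⟨-, -, g, hg⟩ := hφ
    rw [hg, hcomm (hR w.2).2 g, mul_inv_cancel_right]
    exact hR w.2
  · exact centralizerIn_le_of_centric hNc ⟨hz.1, Subgroup.mem_centralizer_iff.2 fun n _ => hcomm hz.2 n⟩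
  · refine ⟨(P : Subgroup G).mul_mem ((P : Subgroup G).inv_mem (hN.1 hn))
      ((P : Subgroup G).mul_mem ((P : Subgroup G).mul_mem hx (hN.1 hn)) ((P : Subgroup G).inv_mem hx)), ?_⟩
    show n⁻¹ * (x * n * x⁻¹) ∈ Z
    refine (QuotientGroup.eq_one_iff _).1 ?_
    show π (n⁻¹ * (x * n * x⁻¹)) = 1
    rw [map_mul, map_mul, map_mul, map_inv, map_inv,
      ← Subgroup.mem_centralizer_iff.1 hc (π n) ⟨n, hn, rfl⟩]
    group
  · rw [hcomm hr.2 x, mul_inv_cancel_right]

/-- Let G be a finite group with Sylow 2-subgroup S whose 2-fusion system on S is constrained, and L a component of G (a subnormal quasisimple subgroup). Then the 2-fusion system of L/Z(L) on the image of S ∩ L is constrained. -/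
theorem result {G : Type*} [Group G] [Finite G] (S : Sylow 2 G) (hF : (Cfsg.groupFusionSystem (S : Subgroup G)).IsConstrained 2) (L : Subgroup G) (hL : Cfsg.IsComponent L) : (Cfsg.groupFusionSystem (((S : Subgroup G).subgroupOf L).map (QuotientGroup.mk' (Subgroup.center L)))).IsConstrained 2 := by
  obtain ⟨⟨R, hR⟩, -⟩ := constrainedAt_of_subnormal S hF hL.1
  have hR' : (R : Subgroup L) = (S : Subgroup G).subgroupOf L := by
    rw [hR, Subgroup.inf_subgroupOf_right]
  have h := isConstrained_of_subnormal S hF hL.1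
  rw [← hR'] at h ⊢
  exact isConstrained_central_quotient R h _ le_rfl

end Cfsg.Agent.S5147
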