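import Cfsg.Statements.S5163
import Cfsg.Agent.Fus.LinearSimple

set_option autoImplicit false
open Cfsg

namespace Cfsg.Agent.S5163

/-- For a finite field K of characteristic p and n ≥ 3, the p-fusion system of the projective special linear group PSL_n(K) on a Sylow p-subgroup is simple. -/
theorem result {K : Type*} [Field K] [Fintype K] (p : ℕ) [Fact p.Prime] [CharP K p] (n : ℕ) (hn : 3 ≤ n) (S : Sylow p (Matrix.ProjectiveSpecialLinearGroup (Fin n) K)) : (Cfsg.groupFusionSystem (S : Subgroup (Matrix.ProjectiveSpecialLinearGroup (Fin n) K))).IsSimple p := by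
  classical
  let π₀ : Matrix.SpecialLinearGroup (Fin n) K →* Matrix.ProjectiveSpecialLinearGroup (Fin n) K :=
    QuotientGroup.mk' _
  have hs : Function.Surjective π₀ := QuotientGroup.mk'_surjective _
  obtain ⟨g, hg⟩ := MulAction.exists_smul_eq (Matrix.ProjectiveSpecialLinearGroup (Fin n) K)
    ((CfsgLib.Fus.LinearSimple.uniSylow (K := K) (n := n) p).mapSurjective hs) S
  refine CfsgLib.Fus.LinearSimple.isSimple_image p
    ((MulAut.conj g).toMonoidHom.comp π₀) ((MulAut.conj g).surjective.comp hs) ?_ hn S ?_
  · intro x hx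
    rw [MonoidHom.mem_ker, MonoidHom.comp_apply] at hx
    exact (QuotientGroup.eq_one_iff x).1 ((MulAut.conj g).injective (hx.trans (map_one _).symm))
  · rw [← hg, ← Subgroup.map_map]
    rfl

end Cfsg.Agent.S5163
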