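import Cfsg.Statements.S5164
import Mathlib

set_option autoImplicit false
open Cfsg

namespace Cfsg.Agent.S5164

/-- wreath-type permutations of `ZMod p × ZMod p` -/
def wreath (p : ℕ) : Subgroup (Equiv.Perm (ZMod p × ZMod p)) where
  carrier := {σ | ∃ (f : ZMod p → ZMod p) (c : ZMod p), ∀ x, σ x = (x.1 + f x.2, x.2 + c)}
  one_mem' := ⟨0, 0, fun x => by simp⟩
  mul_mem' := by
    rintro σ τ ⟨f, c, hσ⟩ ⟨g, d, hτ⟩
    refine ⟨fun j => g j + f (j + d), d + c, fun x => ?_⟩
    simp [Equiv.Perm.mul_apply, hτ, hσ, add_assoc]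
  inv_mem' := by
    rintro σ ⟨f, c, hσ⟩
    refine ⟨fun j => - f (j - c), -c, fun x => ?_⟩
    apply σ.injective
    rw [Equiv.Perm.coe_inv, Equiv.apply_symm_apply, hσ]
    ext <;> simp [sub_eq_add_neg, add_assoc]

theorem wreath_pow {p : ℕ} {σ : Equiv.Perm (ZMod p × ZMod p)} (hσ : σ ∈ wreath p) :
    σ ^ (p * p) = 1 := by
  obtain ⟨f, c, hσ⟩ := hσ
  have h1 : ∀ k : ℕ, ∃ g : ZMod p → ZMod p, ∀ x, (σ ^ k) x = (x.1 + g x.2, x.2 + k • c) := by
    intro k
    induction k with
    | zero => exact ⟨0, fun x => by simp⟩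
    | succ k ih =>
      obtain ⟨g, hg⟩ := ih
      refine ⟨fun j => g j + f (j + k • c), fun x => ?_⟩
      rw [pow_succ', Equiv.Perm.mul_apply, hg, hσ]
      simp [add_assoc, add_nsmul, add_mul]
  obtain ⟨g, hg⟩ := h1 p
  have hg' : ∀ x, (σ ^ p) x = (x.1 + g x.2, x.2) := fun x => by rw [hg]; simp
  have h2 : ∀ k : ℕ, ∀ x, ((σ ^ p) ^ k) x = (x.1 + k • g x.2, x.2) := by
    intro k
    induction k with
    | zero => simp
    | succ k ih =>
      intro x
      rw [pow_succ', Equiv.Perm.mul_apply, ih, hg']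
      simp [add_assoc, add_mul]
  ext x <;> rw [pow_mul, h2] <;> simp

theorem wreath_isPGroup (p : ℕ) [Fact p.Prime] : IsPGroup p (wreath p) := fun σ =>
  ⟨2, Subtype.ext (by rw [pow_two]; simpa using wreath_pow σ.2)⟩

theorem wreath_noncomm (p : ℕ) [Fact p.Prime] : ∃ a b : wreath p, a * b ≠ b * a := by
  classical
  let a : Equiv.Perm (ZMod p × ZMod p) :=
    { toFun := fun x => (x.1 + (if x.2 = 0 then 1 else 0), x.2)
      invFun := fun x => (x.1 - (if x.2 = 0 then 1 else 0), x.2)
      left_inv := fun x => by simp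
      right_inv := fun x => by simp }
  let b : Equiv.Perm (ZMod p × ZMod p) :=
    { toFun := fun x => (x.1, x.2 + 1)
      invFun := fun x => (x.1, x.2 - 1)
      left_inv := fun x => by simp
      right_inv := fun x => by simp }
  refine ⟨⟨a, fun j => if j = 0 then 1 else 0, 0, fun x => by simp [a]⟩,
    ⟨b, 0, 1, fun x => by simp [b]⟩, fun h => ?_⟩
  have := congrArg (fun s : wreath p => ((s : Equiv.Perm (ZMod p × ZMod p)) (0, 0)).1) h
  simp [a, b] at this

/-- extension of permutations along an embedding into `Fin n` -/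
theorem exists_hom {X : Type*} [Fintype X] [DecidableEq X] {n : ℕ} (h : Fintype.card X ≤ n) :
    ∃ η : Equiv.Perm X →* Equiv.Perm (Fin n), Function.Injective η ∧
      ∀ σ, Equiv.Perm.sign (η σ) = Equiv.Perm.sign σ := by
  classical
  obtain ⟨e⟩ : Nonempty (X ↪ Fin n) := Function.Embedding.nonempty_of_card_le (by simpa using h)
  let g : X ≃ {y // y ∈ Set.range e} := Equiv.ofInjective e e.injective
  exact ⟨Equiv.Perm.extendDomainHom g, Equiv.Perm.extendDomainHom_injective g,
    fun σ => Equiv.Perm.sign_extendDomain σ g⟩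

theorem not_comm_of_hom {n p : ℕ} [Fact p.Prime] (S : Sylow p (alternatingGroup (Fin n)))
    {W : Type*} [Group W] (hW : IsPGroup p W) (hne : ∃ a b : W, a * b ≠ b * a)
    (η : W →* Equiv.Perm (Fin n)) (hη : Function.Injective η)
    (hs : ∀ w, Equiv.Perm.sign (η w) = 1) : ¬ IsMulCommutative S := by
  intro hc
  let η' : W →* alternatingGroup (Fin n) := η.codRestrict _ hs
  have hη' : Function.Injective η' := fun a b h => hη (congrArg Subtype.val h)
  obtain ⟨P, hP⟩ := (hW.of_surjective η'.rangeRestrict η'.rangeRestrict_surjective).exists_le_sylow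
  obtain ⟨a, b, hab⟩ := hne
  let e := P.equiv S
  have hcomm := hc.is_comm.comm (e ⟨η' a, hP ⟨a, rfl⟩⟩) (e ⟨η' b, hP ⟨b, rfl⟩⟩)
  rw [← map_mul, ← map_mul] at hcomm
  apply hab
  apply hη'
  rw [map_mul, map_mul]
  exact congrArg Subtype.val (e.injective hcomm)


/-- For n ≥ 6 and a prime p, a nontrivial Sylow p-subgroup of the alternating group of degree n is abelian if and only if n < p². -/
theorem result (n p : ℕ) (hn : 6 ≤ n) [Fact p.Prime] (S : Sylow p (alternatingGroup (Fin n))) (hS : (S : Subgroup (alternatingGroup (Fin n))) ≠ ⊥) : IsMulCommutative S ↔ n < p ^ 2 := by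
  classical
  have hp := (Fact.out : p.Prime)
  constructor
  · intro hc
    by_contra hn2
    push Not at hn2
    rcases hp.eq_two_or_odd with rfl | hodd
    · let τ : ℤˣ →* Equiv.Perm (Fin 2) :=
        { toFun := fun u => if u = 1 then 1 else Equiv.swap 0 1
          map_one' := rfl
          map_mul' := by decide }
      have hτ : ∀ u, Equiv.Perm.sign (τ u) = u := by decide
      let ψ : Equiv.Perm (ZMod 2 × ZMod 2) →* Equiv.Perm ((ZMod 2 × ZMod 2) ⊕ Fin 2) :=
        (Equiv.Perm.sumCongrHom _ _).comp ((MonoidHom.id _).prod (τ.comp Equiv.Perm.sign))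
      obtain ⟨η, hη, hsign⟩ := exists_hom (X := (ZMod 2 × ZMod 2) ⊕ Fin 2) (n := n) (by simpa using hn)
      refine not_comm_of_hom S (wreath_isPGroup 2) (wreath_noncomm 2)
        ((η.comp ψ).comp (wreath 2).subtype) ?_ ?_ hc
      · intro a b h
        have h1 := hη h
        have h2 := Equiv.Perm.sumCongrHom_injective h1
        exact Subtype.ext (congrArg Prod.fst h2)
      · intro w
        show Equiv.Perm.sign (η (Equiv.Perm.sumCongr (w : Equiv.Perm (ZMod 2 × ZMod 2)) (τ (Equiv.Perm.sign (w : Equiv.Perm (ZMod 2 × ZMod 2)))))) = 1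
        rw [hsign, Equiv.Perm.sign_sumCongr, hτ, Int.units_mul_self]
    · obtain ⟨η, hη, hsign⟩ := exists_hom (X := ZMod p × ZMod p) (n := n)
        (by simpa [ZMod.card, ← pow_two] using hn2)
      refine not_comm_of_hom S (wreath_isPGroup p) (wreath_noncomm p) (η.comp (wreath p).subtype)
        (fun a b h => Subtype.ext (hη h)) ?_ hc
      intro w
      show Equiv.Perm.sign (η (w : Equiv.Perm (ZMod p × ZMod p))) = 1
      rw [hsign]
      have h1 := congrArg Equiv.Perm.sign (wreath_pow w.2)
      rw [map_pow, map_one] at h1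
      have hpp : (p * p) % 2 = 1 := by simp [Nat.mul_mod, hodd]
      rcases Int.units_eq_one_or (Equiv.Perm.sign (w : Equiv.Perm (ZMod p × ZMod p))) with h | h
      · exact h
      · rw [h, ← Nat.div_add_mod (p * p) 2, hpp, pow_succ, pow_mul] at h1
        simp at h1
  · intro hlt
    have : NeZero p := ⟨hp.ne_zero⟩
    set m := n / p with hm
    have hcard : Fintype.card (Fin m × ZMod p) ≤ n := by
      simp [ZMod.card, hm, Nat.div_mul_le_self]
    obtain ⟨η, hη, -⟩ := exists_hom hcard
    let ι : Multiplicative (Fin m → ZMod p) →* Equiv.Perm (Fin m × ZMod p) :=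
      { toFun := fun f =>
          { toFun := fun x => (x.1, x.2 + f.toAdd x.1)
            invFun := fun x => (x.1, x.2 - f.toAdd x.1)
            left_inv := fun x => by simp
            right_inv := fun x => by simp }
        map_one' := by ext x <;> simp
        map_mul' := fun f g => by ext x <;> simp [add_assoc, add_comm (f.toAdd x.1)] }
    have hι : Function.Injective ι := fun f g h => by
      apply Multiplicative.toAdd.injective
      funext i
      simpa [ι] using congrArg (fun σ : Equiv.Perm (Fin m × ZMod p) => (σ (i, 0)).2) h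
    set A := (η.comp ι).range with hA
    have hcardA : Nat.card A = p ^ m := by
      rw [hA, ← Nat.card_congr (MonoidHom.ofInjective (f := η.comp ι) (hη.comp hι)).toEquiv]
      simp
    have hAcomm : ∀ x ∈ A, ∀ y ∈ A, x * y = y * x := by
      rintro _ ⟨f, rfl⟩ _ ⟨g, rfl⟩
      rw [← map_mul, ← map_mul, mul_comm]
    have hval : (Nat.card (Equiv.Perm (Fin n))).factorization p = m := by
      rw [Nat.card_eq_fintype_card, Fintype.card_perm, Fintype.card_fin,
        Nat.factorization_def _ hp]
      have hlog : Nat.log p n < 2 := Nat.log_lt_of_lt_pow (by omega) hlt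
      rw [padicValNat_factorial hlog]
      simp [hm]
    let PA : Sylow p (Equiv.Perm (Fin n)) := Sylow.ofCard A (by rw [hcardA, hval])
    obtain ⟨Q, hQ⟩ := (S.isPGroup'.map (alternatingGroup (Fin n)).subtype).exists_le_sylow
    let e := Q.equiv PA
    refine ⟨⟨fun x y => ?_⟩⟩
    let x' : Q := ⟨((x : alternatingGroup (Fin n)) : Equiv.Perm (Fin n)), hQ ⟨x, x.2, rfl⟩⟩
    let y' : Q := ⟨((y : alternatingGroup (Fin n)) : Equiv.Perm (Fin n)), hQ ⟨y, y.2, rfl⟩⟩
    have h : x' * y' = y' * x' := e.injective (by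
      rw [map_mul, map_mul]
      exact Subtype.ext (hAcomm _ (e x').2 _ (e y').2))
    have h' : ((x : alternatingGroup (Fin n)) : Equiv.Perm (Fin n)) * (y : alternatingGroup (Fin n)) =
        ((y : alternatingGroup (Fin n)) : Equiv.Perm (Fin n)) * (x : alternatingGroup (Fin n)) := congrArg Subtype.val h
    exact Subtype.ext (Subtype.ext h')

end Cfsg.Agent.S5164
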