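import Cfsg.Statements.S5171
import Cfsg.Agent.Eq.Def_Classical
import Cfsg.Agent.Classical.Symp.FusionSimple

set_option autoImplicit false
open Cfsg

namespace Cfsg.Agent.S5171

/-- For a finite field K of characteristic p and m ≥ 2, excluding the case m = 2 with K of two elements, the p-fusion system of the projective symplectic group PSp_{2m}(K) on a Sylow p-subgroup is simple. -/
theorem result {K : Type*} [Field K] [Fintype K] (p : ℕ) [Fact p.Prime] [CharP K p] (m : ℕ) (hm : 2 ≤ m) (hex : m = 2 → 3 ≤ Fintype.card K) (S : Sylow p (Cfsg.PSp m K)) : (Cfsg.groupFusionSystem (S : Subgroup (Cfsg.PSp m K))).IsSimple p := by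
  classical
  let π₀ : Matrix.symplecticGroup (Fin m) K →* Cfsg.PSp m K := QuotientGroup.mk' _
  have hs : Function.Surjective π₀ := QuotientGroup.mk'_surjective _
  obtain ⟨g, hg⟩ := MulAction.exists_smul_eq (Cfsg.PSp m K)
    ((CfsgLib.Classical.Symp.Unipotent.uniSylow (K := K) (m := m) p).mapSurjective hs) S
  refine CfsgLib.Classical.Symp.FusionSimple.isSimple_image p
    ((MulAut.conj g).toMonoidHom.comp π₀) ((MulAut.conj g).surjective.comp hs) ?_ hm hex S ?_
  · intro x hx
    rw [MonoidHom.mem_ker, MonoidHom.comp_apply] at hx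
    exact (QuotientGroup.eq_one_iff x).1 ((MulAut.conj g).injective (hx.trans (map_one _).symm))
  · rw [← hg, ← Subgroup.map_map]
    rfl

end Cfsg.Agent.S5171
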