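import Cfsg.Statements.S5172
import Cfsg.Agent.Eq.Def_Classical
import Cfsg.Agent.Classical.Unitary.Anti.FusionSimple
import Cfsg.Agent.Classical.Unitary.Anti.Standard

set_option autoImplicit false
open Cfsg

namespace Cfsg.Agent.S5172

/-- For a finite field K with q² elements of characteristic p and n ≥ 4, the p-fusion system of the projective special unitary group PSU_n(q) (realised over K) on a Sylow p-subgroup is simple. -/
theorem result {K : Type*} [Field K] [Fintype K] (p q : ℕ) [Fact p.Prime] [CharP K p] (hK : Fintype.card K = q ^ 2) (n : ℕ) (hn : 4 ≤ n) (S : Sylow p (Cfsg.PSU n K q)) : (Cfsg.groupFusionSystem (S : Subgroup (Cfsg.PSU n K q))).IsSimple p := by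
  classical
  obtain ⟨e⟩ := CfsgLib.Unitary.Anti.exists_equiv_SU (n := n) hK
  let π₀ : ↥(CfsgLib.Unitary.Anti.SUJ n K q) →* Cfsg.PSU n K q :=
    (QuotientGroup.mk' _).comp e.toMonoidHom
  have hs : Function.Surjective π₀ := (QuotientGroup.mk'_surjective _).comp e.surjective
  obtain ⟨g, hg⟩ := MulAction.exists_smul_eq (Cfsg.PSU n K q)
    ((CfsgLib.Unitary.Anti.uniSylow (n := n) p hK).mapSurjective hs) S
  refine CfsgLib.Unitary.Anti.FusionSimple.isSimple_image hK p
    ((MulAut.conj g).toMonoidHom.comp π₀) ((MulAut.conj g).surjective.comp hs) ?_ hn S ?_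
  · intro x hx
    rw [MonoidHom.mem_ker, MonoidHom.comp_apply] at hx
    have hx' := (QuotientGroup.eq_one_iff (e x)).1 ((MulAut.conj g).injective (hx.trans (map_one _).symm))
    exact Subgroup.mem_center_iff.2 fun y => e.injective (by
      rw [map_mul, map_mul, Subgroup.mem_center_iff.1 hx' (e y)])
  · rw [← hg, ← Subgroup.map_map]
    rfl

end Cfsg.Agent.S5172
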