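import Cfsg.Statements.S5345
-- import your own Cfsg.Agent.* helpers here

set_option autoImplicit false
open Cfsg

namespace Cfsg.Agent.S5345

/-- Let D be a conjugation-invariant generating set of 3-transpositions of a finite group G and T a Sylow 2-subgroup of G. Then the members of D lying in T generate an abelian subgroup, and their number is the width of D (the largest number of pairwise commuting members of D). -/
theorem result {G : Type*} [Group G] [Finite G] {D : Set G} (hD : Cfsg.IsThreeTranspositionGroup D) (T : Sylow 2 G) : IsMulCommutative (Subgroup.closure {d : G | d ∈ D ∧ d ∈ T}) ∧ {d : G | d ∈ D ∧ d ∈ T}.ncard = Cfsg.commutingWidth D := by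
  obtain ⟨⟨h2, h23⟩, hconj, -⟩ := hD
  have key : ∀ P : Subgroup G, IsPGroup 2 P → ∀ a ∈ D, ∀ b ∈ D, a ∈ P → b ∈ P → Commute a b := by
    intro P hP a ha b hb haP hbP
    have hab : a * b ∈ P := P.mul_mem haP hbP
    have hsq : (a * b) ^ 2 = 1 := by
      rcases h23 a ha b hb with h | h
      · exact h
      · obtain ⟨k, hk⟩ := hP ⟨a * b, hab⟩
        have hk' : (a * b) ^ 2 ^ k = 1 := by simpa using congrArg Subtype.val hk
        have h3 := orderOf_dvd_of_pow_eq_one h
        have hd := orderOf_dvd_of_pow_eq_one hk'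
        have : orderOf (a * b) = 1 := by
          have hcop : Nat.Coprime (2 ^ k) 3 := Nat.Coprime.pow_left _ (by norm_num)
          exact Nat.dvd_one.1 (hcop ▸ Nat.dvd_gcd hd h3)
        rw [orderOf_eq_one_iff.1 this, one_pow]
    have haa : a⁻¹ = a := inv_eq_of_mul_eq_one_left (by
      rw [← pow_two, ← h2 a ha, pow_orderOf_eq_one])
    have hbb : b⁻¹ = b := inv_eq_of_mul_eq_one_left (by
      rw [← pow_two, ← h2 b hb, pow_orderOf_eq_one])
    have := inv_eq_of_mul_eq_one_left (show (a * b) * (a * b) = 1 by rw [← pow_two]; exact hsq)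
    rw [mul_inv_rev, haa, hbb] at this
    exact this.symm
  refine ⟨Subgroup.isMulCommutative_closure ?_, ?_⟩
  · intro a ha b hb
    exact key T T.2 a ha.1 b hb.1 ha.2 hb.2
  · have hmem : {d : G | d ∈ D ∧ d ∈ T}.ncard ∈ {n : ℕ | ∃ E : Set G, E ⊆ D ∧ E.Finite ∧ (∀ a ∈ E, ∀ b ∈ E, Commute a b) ∧ E.ncard = n} :=
      ⟨_, fun x hx => hx.1, Set.toFinite _, fun a ha b hb => key T T.2 a ha.1 b hb.1 ha.2 hb.2, rfl⟩
    refine (IsGreatest.csSup_eq ⟨hmem, ?_⟩).symm
    rintro n ⟨E, hED, -, hcomm, rfl⟩
    have hCle : IsMulCommutative (Subgroup.closure E) := Subgroup.isMulCommutative_closure hcomm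
    have hEp : IsPGroup 2 (Subgroup.closure E) := by
      intro z
      refine ⟨1, ?_⟩
      obtain ⟨z, hz⟩ := z
      apply Subtype.ext
      simp only [pow_one, SubmonoidClass.coe_pow, OneMemClass.coe_one]
      induction hz using Subgroup.closure_induction with
      | mem x hx => rw [← h2 x (hED hx), pow_orderOf_eq_one]
      | one => exact one_pow 2
      | mul x y hx hy ihx ihy =>
        have : Commute x y := congrArg Subtype.val (hCle.is_comm.comm ⟨x, hx⟩ ⟨y, hy⟩)
        rw [this.mul_pow, ihx, ihy, one_mul]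
      | inv x _ ih => rw [inv_pow, ih, inv_one]
    obtain ⟨Q, hQ⟩ := hEp.exists_le_sylow
    obtain ⟨g, hg⟩ := MulAction.exists_smul_eq G Q T
    refine Set.ncard_le_ncard_of_injOn (fun x => g * x * g⁻¹) ?_ ?_ (Set.toFinite _)
    · intro x hx
      refine ⟨hconj g x (hED hx), ?_⟩
      rw [← hg]
      exact Subgroup.smul_mem_pointwise_smul x (MulAut.conj g) _ (hQ (Subgroup.subset_closure hx))
    · intro x _ y _ hxy
      simpa using hxy

end Cfsg.Agent.S5345
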