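import Cfsg.Statements.S5346
import Cfsg.Agent.Eq.Def_FischerSpaces
import Cfsg.Agent.ThreeTransp.WidthOne

set_option autoImplicit false
open Cfsg

namespace Cfsg.Agent.S5346

/-- Let D be a conjugation-invariant generating set of 3-transpositions of a finite group G and d a member of D. Then D has width 1 (no two different members of D commute) if and only if G is the product of the subgroup generated by d with the largest normal 3-subgroup of G. -/
theorem result {G : Type*} [Group G] [Finite G] {D : Set G} (hD : Cfsg.IsThreeTranspositionGroup D) {d : G} (hd : d ∈ D) : Cfsg.commutingWidth D = 1 ↔ Subgroup.zpowers d ⊔ Cfsg.pCore 3 G = ⊤ := by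
  haveI : Fact (Nat.Prime 3) := ⟨Nat.prime_three⟩
  haveI : Fintype G := Fintype.ofFinite G
  have hbdd : BddAbove {n : ℕ | ∃ E : Set G, E ⊆ D ∧ E.Finite ∧ (∀ a ∈ E, ∀ b ∈ E, Commute a b) ∧ E.ncard = n} :=
    ⟨Nat.card G, by rintro n ⟨E, -, -, -, rfl⟩; exact Set.ncard_univ G ▸ Set.ncard_le_ncard (Set.subset_univ E)⟩
  have h1mem : 1 ∈ {n : ℕ | ∃ E : Set G, E ⊆ D ∧ E.Finite ∧ (∀ a ∈ E, ∀ b ∈ E, Commute a b) ∧ E.ncard = n} :=
    ⟨{d}, by simpa using hd, Set.toFinite _, by simp, Set.ncard_singleton d⟩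
  have hiff : Cfsg.commutingWidth D = 1 ↔ CfsgLib.ThreeTransp.WidthOne D := by
    constructor
    · intro h a ha b hb hab
      by_contra hne
      have h2 : 2 ≤ Cfsg.commutingWidth D := by
        refine le_csSup hbdd ⟨{a, b}, by simp [Set.insert_subset_iff, ha, hb], Set.toFinite _, ?_,
          Set.ncard_pair hne⟩
        rintro x (rfl | rfl) y (rfl | rfl) <;> first | exact Commute.refl _ | exact hab | exact hab.symm
      omega
    · intro hw
      refine le_antisymm (csSup_le ⟨1, h1mem⟩ ?_) (le_csSup hbdd h1mem)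
      rintro n ⟨E, hED, -, hc, rfl⟩
      rw [Set.ncard_le_one (Set.toFinite _)]
      exact fun a ha b hb => hw a (hED ha) b (hED hb) (hc a ha b hb)
  rw [hiff]
  refine ⟨fun hw => hw.sup_eq_top hD hd, fun htop a ha b hb hab => ?_⟩
  by_contra hne
  -- the quotient by the 3-core has at most two elements
  have hcl : ∀ x : G, x ∈ Cfsg.pCore 3 G ∨ x * d ∈ Cfsg.pCore 3 G := by
    intro x
    obtain ⟨z, ⟨n, rfl⟩, k, hk, rfl⟩ := Subgroup.mem_sup_of_normal_right.1 (htop ▸ Subgroup.mem_top x)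
    have hdd : d * d = 1 := CfsgLib.ThreeTransp.tt_mul_self hD.1 hd
    rcases Int.even_or_odd n with ⟨m, rfl⟩ | ⟨m, rfl⟩
    · left
      have : d ^ (m + m) = 1 := by rw [← two_mul, zpow_mul, zpow_two, hdd, one_zpow]
      simpa [this] using hk
    · right
      have : d ^ (2 * m + 1) = d := by rw [zpow_add, zpow_mul, zpow_two, hdd, one_zpow, one_mul, zpow_one]
      have h := (inferInstance : (Cfsg.pCore 3 G).Normal).conj_mem k hk d
      simpa [this, CfsgLib.ThreeTransp.tt_inv hD.1 hd, mul_assoc] using h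
  have hP := CfsgLib.Constrained.isPGroup_pCore (p := 3) (G := G)
  have key : ∀ x : G, x * x = 1 → x ∈ Cfsg.pCore 3 G → x = 1 := by
    intro x hx hm
    obtain ⟨k, hk⟩ := hP ⟨x, hm⟩
    have hk' : x ^ 3 ^ k = 1 := by simpa using congrArg Subtype.val hk
    obtain ⟨m, hm⟩ : Odd (3 ^ k) := (by decide : Odd 3).pow
    rwa [hm, pow_succ, pow_mul, pow_two, hx, one_pow, one_mul] at hk'
  have hnot : ∀ x ∈ D, x * d ∈ Cfsg.pCore 3 G := fun x hx => (hcl x).resolve_left fun h =>
    CfsgLib.ThreeTransp.tt_ne_one hD.1 hx (key x (CfsgLib.ThreeTransp.tt_mul_self hD.1 hx) h)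
  have hab' : a * b ∈ Cfsg.pCore 3 G := by
    have := mul_mem (hnot a ha) (inv_mem (hnot b hb))
    simpa [mul_assoc, CfsgLib.ThreeTransp.tt_inv hD.1 hb] using this
  refine hne ((eq_inv_of_mul_eq_one_left (key _ ?_ hab')).trans (CfsgLib.ThreeTransp.tt_inv hD.1 hb))
  rw [← pow_two, hab.mul_pow, pow_two, pow_two, CfsgLib.ThreeTransp.tt_mul_self hD.1 ha,
    CfsgLib.ThreeTransp.tt_mul_self hD.1 hb, mul_one]

end Cfsg.Agent.S5346
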