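import Cfsg.Statements.S5347
-- import your own Cfsg.Agent.* helpers here

set_option autoImplicit false
open Cfsg

namespace Cfsg.Agent.S5347

/-- Let D be a conjugation-invariant generating set of 3-transpositions of a finite group G, p a prime bigger than 3, and P a p-subgroup of G. If a member d of D normalizes P then d centralizes P. -/
theorem result {G : Type*} [Group G] [Finite G] {D : Set G} (hD : Cfsg.IsThreeTranspositionGroup D) {p : ℕ} (hp : p.Prime) (hp3 : 3 < p) (P : Subgroup G) (hP : IsPGroup p P) {d : G} (hd : d ∈ D) (hnorm : d ∈ Subgroup.normalizer (P : Set G)) : ∀ x ∈ P, Commute d x := by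
  obtain ⟨⟨h2, h23⟩, hconj, -⟩ := hD
  intro x hx
  have hdd : d * d = 1 := by rw [← pow_two, ← h2 d hd, pow_orderOf_eq_one]
  have hy : d * (x * d * x⁻¹) ∈ P := by
    have h1 : d * x * d⁻¹ ∈ P := (Subgroup.mem_normalizer_iff.1 hnorm x).1 hx
    rw [inv_eq_of_mul_eq_one_left hdd] at h1
    have := P.mul_mem h1 (P.inv_mem hx)
    simpa only [mul_assoc] using this
  have : orderOf (d * (x * d * x⁻¹)) = 1 := by
    obtain ⟨k, hk⟩ := hP ⟨_, hy⟩
    have hk' : (d * (x * d * x⁻¹)) ^ p ^ k = 1 := by simpa using congrArg Subtype.val hk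
    have hd' := orderOf_dvd_of_pow_eq_one hk'
    have h6 : orderOf (d * (x * d * x⁻¹)) ∣ 6 := by
      rcases h23 d hd _ (hconj x d hd) with h | h
      · exact (orderOf_dvd_of_pow_eq_one h).trans (by norm_num)
      · exact (orderOf_dvd_of_pow_eq_one h).trans (by norm_num)
    have hcop : Nat.Coprime (p ^ k) 6 := by
      refine Nat.Coprime.pow_left _ ((Nat.Prime.coprime_iff_not_dvd hp).2 fun h => ?_)
      have : p ≤ 6 := Nat.le_of_dvd (by norm_num) h
      interval_cases p <;> simp_all (config := {decide := true})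
    exact Nat.dvd_one.1 (hcop ▸ Nat.dvd_gcd hd' h6)
  have h := orderOf_eq_one_iff.1 this
  have hxd : x * d * x⁻¹ = d := by
    calc x * d * x⁻¹ = (d * d) * (x * d * x⁻¹) := by rw [hdd, one_mul]
      _ = d * (d * (x * d * x⁻¹)) := mul_assoc _ _ _
      _ = d := by rw [h, mul_one]
  exact (mul_inv_eq_iff_eq_mul.1 hxd).symm

end Cfsg.Agent.S5347
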