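import Cfsg.Statements.S5348
-- import your own Cfsg.Agent.* helpers here

set_option autoImplicit false
open Cfsg

namespace Cfsg.Agent.S5348

/-- Let D be a conjugation-invariant generating set of 3-transpositions of a finite group G and d a member of D. Let V be the set of members of D commuting with exactly the same members of D as d, and W the set of members w of D such that the members of D other than w commuting with w are precisely the members of D other than d commuting with d. Then V = {d} or W = {d}. -/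
theorem result {G : Type*} [Group G] [Finite G] {D : Set G} (hD : Cfsg.IsThreeTranspositionGroup D) {d : G} (hd : d ∈ D) : {v : G | v ∈ D ∧ ∀ e ∈ D, Commute v e ↔ Commute d e} = {d} ∨ {w : G | w ∈ D ∧ {y : G | y ∈ D ∧ y ≠ d ∧ Commute d y} = {y : G | y ∈ D ∧ y ≠ w ∧ Commute w y}} = {d} := by
  have _ := hD
  by_contra hcon
  push_neg at hcon
  obtain ⟨h1, h2⟩ := hcon
  obtain ⟨v, hv, hvd⟩ : ∃ v ∈ {v : G | v ∈ D ∧ ∀ e ∈ D, Commute v e ↔ Commute d e}, v ≠ d := by
    by_contra h
    push_neg at h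
    exact h1 (Set.Subset.antisymm h (Set.singleton_subset_iff.2 ⟨hd, fun e _ => Iff.rfl⟩))
  obtain ⟨w, hw, hwd⟩ : ∃ w ∈ {w : G | w ∈ D ∧ {y : G | y ∈ D ∧ y ≠ d ∧ Commute d y} = {y : G | y ∈ D ∧ y ≠ w ∧ Commute w y}}, w ≠ d := by
    by_contra h
    push_neg at h
    exact h2 (Set.Subset.antisymm h (Set.singleton_subset_iff.2 ⟨hd, rfl⟩))
  have hdv : Commute d v := ((hv.2 d hd).2 (Commute.refl d)).symm
  have hwd' : ¬ Commute d w := by
    intro h
    have : w ∈ {y : G | y ∈ D ∧ y ≠ d ∧ Commute d y} := ⟨hw.1, hwd, h⟩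
    rw [hw.2] at this
    exact this.2.1 rfl
  have hv' : v ∈ {y : G | y ∈ D ∧ y ≠ d ∧ Commute d y} := ⟨hv.1, hvd, hdv⟩
  rw [hw.2] at hv'
  exact hwd' ((hv.2 w hw.1).1 hv'.2.2.symm)

end Cfsg.Agent.S5348
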