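import Cfsg.Statements.S5349
import Cfsg.Agent.ThreeTransp.ClassBasic

set_option autoImplicit false
open Cfsg

namespace Cfsg.Agent.S5349

/-- Let D be a conjugacy class of 3-transpositions generating the finite group G, with at least two members, and d a member of D. Then the set of members of D commuting with exactly the same members of D as d coincides with the set of members of D lying in the coset of d modulo the largest normal 2-subgroup of G, and also with the orbit of d under conjugation by that normal 2-subgroup. -/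
theorem result {G : Type*} [Group G] [Finite G] {D : Set G} (hD : Cfsg.IsThreeTranspositionClass D) (hD2 : ∃ a ∈ D, ∃ b ∈ D, a ≠ b) {d : G} (hd : d ∈ D) : {v : G | v ∈ D ∧ ∀ e ∈ D, Commute v e ↔ Commute d e} = {v : G | v ∈ D ∧ d⁻¹ * v ∈ Cfsg.pCore 2 G} ∧ {v : G | v ∈ D ∧ ∀ e ∈ D, Commute v e ↔ Commute d e} = {v : G | ∃ g ∈ Cfsg.pCore 2 G, v = g * d * g⁻¹} := by
  have hG := CfsgLib.ThreeTransp.ttg_of_class hD
  rw [CfsgLib.ThreeTransp.twinSet_eq (fun e _ => Commute.refl e) hd]
  constructor
  · ext v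
    exact ⟨fun h => ⟨h.2.1, (CfsgLib.ThreeTransp.twins_iff_pCore hG hd h.2.1).1 h⟩,
      fun h => (CfsgLib.ThreeTransp.twins_iff_pCore hG hd h.1).2 h.2⟩
  · haveI : Fact (Nat.Prime 2) := ⟨Nat.prime_two⟩
    haveI := CfsgLib.LocalP.pCore_characteristic (G := G) 2
    have hn : (Cfsg.pCore 2 G).Normal := inferInstance
    ext v
    constructor
    · intro h
      by_cases hdv : d = v
      · exact ⟨1, Subgroup.one_mem _, by simp [hdv]⟩
      · obtain ⟨g, hg, e⟩ := CfsgLib.ThreeTransp.twins_swap_mem_pCore hG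
          (CfsgLib.ThreeTransp.singleClass_of_class hD) h hdv
        exact ⟨g, hg, e.symm⟩
    · rintro ⟨g, hg, rfl⟩
      refine (CfsgLib.ThreeTransp.twins_iff_pCore hG hd (hG.2.1 g d hd)).2 ?_
      rw [show d⁻¹ * (g * d * g⁻¹) = d⁻¹ * g * d * g⁻¹ by simp only [mul_assoc]]
      refine Subgroup.mul_mem _ ?_ (Subgroup.inv_mem _ hg)
      simpa using hn.conj_mem g hg d⁻¹

end Cfsg.Agent.S5349
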