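import Cfsg.Statements.S5350
import Cfsg.Agent.Eq.Def_FischerSpaces
import Cfsg.Agent.ThreeTransp.NbrTwins

set_option autoImplicit false
open Cfsg

namespace Cfsg.Agent.S5350

/-- Let D be a conjugacy class of 3-transpositions generating the finite group G, with at least two members, and d a member of D. Then the set of members w of D whose commuting partners in D (other than w) are exactly those of d (other than d) coincides with the set of members of D lying in the coset of d modulo the largest normal 3-subgroup of G, and also with the orbit of d under conjugation by that normal 3-subgroup. -/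
theorem result {G : Type*} [Group G] [Finite G] {D : Set G} (hD : Cfsg.IsThreeTranspositionClass D) (hD2 : ∃ a ∈ D, ∃ b ∈ D, a ≠ b) {d : G} (hd : d ∈ D) : {w : G | w ∈ D ∧ {y : G | y ∈ D ∧ y ≠ d ∧ Commute d y} = {y : G | y ∈ D ∧ y ≠ w ∧ Commute w y}} = {w : G | w ∈ D ∧ d⁻¹ * w ∈ Cfsg.pCore 3 G} ∧ {w : G | w ∈ D ∧ {y : G | y ∈ D ∧ y ≠ d ∧ Commute d y} = {y : G | y ∈ D ∧ y ≠ w ∧ Commute w y}} = {w : G | ∃ g ∈ Cfsg.pCore 3 G, w = g * d * g⁻¹} := by
  have hG := CfsgLib.ThreeTransp.ttg_of_class hD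
  have hdi : d⁻¹ = d := CfsgLib.ThreeTransp.tt_inv hG.1 hd
  have h1 : ∀ w, (w ∈ D ∧ CfsgLib.ThreeTransp.nbr D d = CfsgLib.ThreeTransp.nbr D w) ↔ (w ∈ D ∧ d⁻¹ * w ∈ Cfsg.pCore 3 G) := by
    intro w
    rw [hdi]
    exact ⟨fun h => ⟨h.1, CfsgLib.ThreeTransp.sameNbr_mul_mem_pCore hG hd h⟩,
      fun h => ⟨h.1, CfsgLib.ThreeTransp.sameNbr_of_mem_pCore hG hd h.1 h.2⟩⟩
  refine ⟨Set.ext h1, Set.ext fun w => (h1 w).trans ⟨?_, ?_⟩⟩
  · rintro ⟨hw, hm⟩
    rw [hdi] at hm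
    refine ⟨d * w, hm, ?_⟩
    by_cases hc : Commute d w
    · have hsq : d * w * (d * w) = 1 := by
        rw [← pow_two, hc.mul_pow, pow_two, pow_two, CfsgLib.ThreeTransp.tt_mul_self hG.1 hd,
          CfsgLib.ThreeTransp.tt_mul_self hG.1 hw, mul_one]
      have h0 := CfsgLib.ThreeTransp.eq_one_of_mem_pCore_three hsq hm
      rw [h0, one_mul, inv_one, mul_one, ← CfsgLib.ThreeTransp.tt_inv hG.1 hw]
      exact (eq_inv_of_mul_eq_one_left h0).symm
    · rw [mul_inv_rev, hdi, CfsgLib.ThreeTransp.tt_inv hG.1 hw,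
        CfsgLib.ThreeTransp.tt_braid hG.1 hd hw hc]
      simp [mul_assoc, CfsgLib.ThreeTransp.tt_cancel_left hG.1 hw,
        CfsgLib.ThreeTransp.tt_mul_self hG.1 hd]
  · rintro ⟨g, hg, rfl⟩
    refine ⟨hG.2.1 g d hd, ?_⟩
    rw [show d⁻¹ * (g * d * g⁻¹) = (d⁻¹ * g * d⁻¹⁻¹) * g⁻¹ by simp [mul_assoc]]
    exact Subgroup.mul_mem _ ((inferInstance : (Cfsg.pCore 3 G).Normal).conj_mem g hg d⁻¹) (Subgroup.inv_mem _ hg)

end Cfsg.Agent.S5350
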