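import Cfsg.Statements.S5354
import Cfsg.Agent.Eq.Def_FischerSpaces
import Cfsg.Agent.ThreeTransp.FittingApps

set_option autoImplicit false
open Cfsg

namespace Cfsg.Agent.S5354

/-- Let D be a conjugation-invariant generating set of 3-transpositions of the finite group G on which G acts primitively by conjugation, and suppose two different members of D commute (width at least 2). Then G has a quasisimple normal subgroup L of index at most 2 with the generalized Fitting subgroup of G equal to L times the centre, the commuting graph of D is connected, and for d in D the subgroup generated by the members of D commuting with d is a maximal D-subgroup: it is proper, and every subgroup generated by members of D that contains it is either it or G. -/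
theorem result {G : Type*} [Group G] [Finite G] {D : Set G} (hD : Cfsg.IsThreeTranspositionGroup D) (hprim : Cfsg.IsPrimitiveUnderConj D) (hw : ∃ a ∈ D, ∃ b ∈ D, a ≠ b ∧ Commute a b) : (∃ L : Subgroup G, L.Normal ∧ Cfsg.IsQuasisimple L ∧ L.index ≤ 2 ∧ Cfsg.generalizedFittingSubgroup G = L ⊔ Subgroup.center G) ∧ (Cfsg.commutingGraph D).Connected ∧ ∀ d ∈ D, Subgroup.closure {y : G | y ∈ D ∧ Commute d y} ≠ ⊤ ∧ ∀ H : Subgroup G, Cfsg.IsDSubgroup D H → Subgroup.closure {y : G | y ∈ D ∧ Commute d y} ≤ H → H = Subgroup.closure {y : G | y ∈ D ∧ Commute d y} ∨ H = ⊤ := by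
  have hcl := CfsgLib.ThreeTransp.class_of_primitive hD hprim
  have hs := CfsgLib.ThreeTransp.singleClass_of_class hcl
  obtain ⟨a, ha, b, hb, hab⟩ := CfsgLib.ThreeTransp.exists_not_commute_of_class hcl hprim.2.1
  obtain ⟨h2, h3⟩ := CfsgLib.ThreeTransp.pCores_le_center_of_primitive hD hprim hw
  obtain ⟨K, hK⟩ := CfsgLib.ThreeTransp.exists_component hD hs ha hb hab h2 h3
  haveI := CfsgLib.ThreeTransp.component_normal hD hK
  have hcon := CfsgLib.ThreeTransp.commutingGraph_connected_of_primitive hD hprim hw
  refine ⟨⟨K, inferInstance, hK.2,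
    CfsgLib.ThreeTransp.index_le_two_of_connected hcl hprim.2.1 h2 h3 hK hcon, ?_⟩, hcon,
    fun d hd => CfsgLib.ThreeTransp.commuting_closure_maximal hD hprim hw hd⟩
  rw [generalizedFittingSubgroup, CfsgLib.ThreeTransp.layer_eq_component hD hs ha hK,
    CfsgLib.ThreeTransp.fitting_eq_center hD hs ha h2 h3]

end Cfsg.Agent.S5354
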