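import Cfsg.Statements.S5355
import Cfsg.Agent.ThreeTransp.ClassBasic

set_option autoImplicit false
open Cfsg

namespace Cfsg.Agent.S5355

/-- Let D be a conjugacy class of 3-transpositions generating the finite group G, with at least two members, and d a member of D. Suppose that every member of D commuting with d commutes with exactly the same members of D as d does, and that exactly one member of D other than d commutes with d. Then G is isomorphic to the symmetric group of degree 4. -/
theorem result {G : Type*} [Group G] [Finite G] {D : Set G} (hD : Cfsg.IsThreeTranspositionClass D) (hD2 : ∃ a ∈ D, ∃ b ∈ D, a ≠ b) {d : G} (hd : d ∈ D) (hV : {y : G | y ∈ D ∧ Commute d y} = {v : G | v ∈ D ∧ ∀ e ∈ D, Commute v e ↔ Commute d e}) (hm : {y : G | y ∈ D ∧ Commute d y}.ncard = 2) : Nonempty (G ≃* Equiv.Perm (Fin 4)) := by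
  have hG := CfsgLib.ThreeTransp.ttg_of_class hD
  have hs := CfsgLib.ThreeTransp.singleClass_of_class hD
  have h3 := hG.1
  rw [CfsgLib.ThreeTransp.twinSet_eq (fun e _ => Commute.refl e) hd] at hV
  have hcls : ∀ x ∈ D, ∃ x', x' ≠ x ∧ CfsgLib.ThreeTransp.AreTwins D x x' ∧
      ∀ y ∈ D, Commute x y → y = x ∨ y = x' := by
    intro x hx
    obtain ⟨g, hg⟩ := hs d hd x hx
    obtain ⟨p, q, hpq, hset⟩ := Set.ncard_eq_two.1 hm
    obtain ⟨d', hd'ne, hd'⟩ : ∃ d', d' ≠ d ∧ {y : G | y ∈ D ∧ Commute d y} = {d, d'} := by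
      have hdm : d ∈ ({p, q} : Set G) := hset ▸ (⟨hd, Commute.refl d⟩ : d ∈ D ∧ Commute d d)
      rcases hdm with h | h
      · exact ⟨q, h ▸ hpq.symm, h ▸ hset⟩
      · rw [Set.mem_singleton_iff] at h
        exact ⟨p, h ▸ hpq, by rw [hset, h, Set.pair_comm]⟩
    have hd't : CfsgLib.ThreeTransp.AreTwins D d d' := by
      have : d' ∈ {y : G | y ∈ D ∧ Commute d y} := by rw [hd']; simp
      rwa [hV] at this
    refine ⟨g * d' * g⁻¹, ?_, hg ▸ hd't.conj hG.2.1 g, fun y hy hxy => ?_⟩
    · rw [← hg]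
      intro h
      exact hd'ne (mul_left_cancel (mul_right_cancel h))
    · have hy' : g⁻¹ * y * g ∈ ({d, d'} : Set G) := by
        rw [← hd']
        refine ⟨by simpa using hG.2.1 g⁻¹ y hy, ?_⟩
        rw [← CfsgLib.ThreeTransp.commute_conj_iff' (g := g), hg,
          show g * (g⁻¹ * y * g) * g⁻¹ = y by simp [mul_assoc]]
        exact hxy
      rcases hy' with h | h
      · left; rw [← hg, ← h]; simp [mul_assoc]
      · rw [Set.mem_singleton_iff] at h
        right; rw [← h]; simp [mul_assoc]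
  obtain ⟨d', hne, htw, hall⟩ := hcls d hd
  have hd'D := htw.2.1
  obtain ⟨u, hu, hud, hud'⟩ := CfsgLib.ThreeTransp.exists_common_noncommute hG hs hd hd'D
    hne.symm htw.2.2.1
  obtain ⟨φ, hinj, h1, h2, h3'⟩ := CfsgLib.TTSym4.exists_injective_hom h3 hd hu hd'D
    hne.symm htw.2.2.1 (fun h => hud h.symm) hud'
  refine ⟨(MulEquiv.ofBijective φ ⟨hinj, ?_⟩).symm⟩
  rw [← MonoidHom.range_eq_top, ← top_le_iff, ← hG.2.2, Subgroup.closure_le]
  intro e he
  have hdR : d ∈ φ.range := ⟨_, h1⟩
  have huR : u ∈ φ.range := ⟨_, h2⟩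
  have hd'R : d' ∈ φ.range := ⟨_, h3'⟩
  have hu' := CfsgLib.ThreeTransp.twins_conj_by_twin_mul hG htw hu
  obtain ⟨u', hu'ne, hu'tw, hu'all⟩ := hcls u hu
  have hu'eq : d * d' * u * (d * d')⁻¹ = u' := by
    rcases hu'all _ hu'.2.1 hu'.2.2.1 with h | h
    · exfalso
      apply hud
      exact (CfsgLib.ThreeTransp.commute_of_commute_mul h3 hu hd hd'D htw.2.2.1 hne.symm
        (by
          show u * (d * d') = d * d' * u
          conv_lhs => rw [← h]
          rw [inv_mul_cancel_right])).1
    · exact h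
  have hu'R : u' ∈ φ.range := by
    rw [← hu'eq]
    exact Subgroup.mul_mem _ (Subgroup.mul_mem _ (Subgroup.mul_mem _ hdR hd'R) huR)
      (Subgroup.inv_mem _ (Subgroup.mul_mem _ hdR hd'R))
  by_cases hed : Commute d e
  · rcases hall e he hed with rfl | rfl
    · exact hdR
    · exact hd'R
  by_cases heu : Commute u e
  · rcases hu'all e he heu with rfl | rfl
    · exact huR
    · exact hu'R
  have hf : u * d * u ∈ D := CfsgLib.ThreeTransp.tt_conj_mem' hG hu hd
  obtain ⟨f', hf'ne, hf'tw, hf'all⟩ := hcls _ hf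
  have hf'eq : u * d' * u = f' := by
    have ht := htw.conj hG.2.1 u
    rw [CfsgLib.ThreeTransp.tt_inv h3 hu] at ht
    rcases hf'all _ ht.2.1 ht.2.2.1 with h | h
    · exact absurd (mul_left_cancel (mul_right_cancel h)) hne
    · exact h
  by_cases hef : Commute (u * d * u) e
  · rcases hf'all e he hef with rfl | rfl
    · exact Subgroup.mul_mem _ (Subgroup.mul_mem _ huR hdR) huR
    · rw [← hf'eq]
      exact Subgroup.mul_mem _ (Subgroup.mul_mem _ huR hd'R) huR
  exfalso
  obtain ⟨e', he'ne, he'tw, he'all⟩ := hcls e he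
  -- each product of twins exchanges `e` and its twin
  have flip : ∀ p q : G, CfsgLib.ThreeTransp.AreTwins D p q → p ≠ q → ¬ Commute p e →
      p * q * e * (p * q)⁻¹ = e' := by
    intro p q hpq hpne hpe
    have ht := CfsgLib.ThreeTransp.twins_conj_by_twin_mul hG hpq he
    rcases he'all _ ht.2.1 ht.2.2.1 with h | h
    · exfalso
      apply hpe
      refine ((CfsgLib.ThreeTransp.commute_of_commute_mul h3 he hpq.1 hpq.2.1 hpq.2.2.1 hpne
        ?_).1).symm
      show e * (p * q) = p * q * e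
      conv_lhs => rw [← h]
      rw [inv_mul_cancel_right]
    · exact h
  have f1 := flip d d' htw hne.symm hed
  have f2 := flip u u' hu'tw hu'ne.symm heu
  have f3 := flip _ f' hf'tw hf'ne.symm hef
  have f1' : d * d' * e' * (d * d')⁻¹ = e := by
    have hc := CfsgLib.ThreeTransp.twins_conj_by_twin_mul hG htw he'tw.2.1
    rw [← f1] at hc ⊢
    have hsq : d * d' * (d * d') = 1 := by
      rw [show d * d' * (d * d') = d * (d' * d) * d' by simp only [mul_assoc], ← htw.2.2.1.eq,
        CfsgLib.ThreeTransp.tt_cancel_left h3 hd, CfsgLib.ThreeTransp.tt_mul_self h3 hd'D]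
    rw [inv_eq_of_mul_eq_one_left hsq]
    rw [show d * d' * (d * d' * e * (d * d')) * (d * d') = d * d' * (d * d') * e *
      (d * d' * (d * d')) by simp only [mul_assoc], hsq, one_mul, mul_one]
  have hmul : (u * d * u) * f' = (d * d') * (u * u') := by
    rw [← hf'eq, ← hu'eq, ← h1, ← h2, ← h3']
    simp only [← map_inv, ← map_mul]
    exact congrArg φ (by decide)
  rw [hmul, show d * d' * (u * u') * e * (d * d' * (u * u'))⁻¹ =
    d * d' * (u * u' * e * (u * u')⁻¹) * (d * d')⁻¹ by simp only [mul_inv_rev, mul_assoc], f2,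
    f1'] at f3
  exact he'ne f3.symm

end Cfsg.Agent.S5355
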