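import Cfsg.Statements.S5356
import Cfsg.Agent.Eq.Def_FischerSpaces
import Cfsg.Agent.ThreeTransp.TwinComplement

set_option autoImplicit false
open Cfsg

namespace Cfsg.Agent.S5356

/-- Let D be a conjugacy class of 3-transpositions generating the finite group G, with at least two members, and d a member of D such that every member of D commuting with d commutes with exactly the same members of D as d. Then there is a Sylow 3-subgroup P of G normalized by d such that G is generated by d, P and the largest normal 2-subgroup of G. -/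
theorem result {G : Type*} [Group G] [Finite G] {D : Set G} (hD : Cfsg.IsThreeTranspositionClass D) (hD2 : ∃ a ∈ D, ∃ b ∈ D, a ≠ b) {d : G} (hd : d ∈ D) (hV : {y : G | y ∈ D ∧ Commute d y} = {v : G | v ∈ D ∧ ∀ e ∈ D, Commute v e ↔ Commute d e}) : ∃ P : Sylow 3 G, d ∈ Subgroup.normalizer (P : Set G) ∧ Subgroup.zpowers d ⊔ (P : Subgroup G) ⊔ Cfsg.pCore 2 G = ⊤ := by
  have hG := CfsgLib.ThreeTransp.ttg_of_class hD
  have hs := CfsgLib.ThreeTransp.singleClass_of_class hD
  obtain ⟨a, ha, b, hb, hab⟩ := CfsgLib.ThreeTransp.exists_not_commute_of_class hD hD2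
  obtain ⟨g, hg⟩ := hs a ha d hd
  have htw : ∀ x ∈ D, ∀ y ∈ D, Commute x y → CfsgLib.ThreeTransp.AreTwins D x y := by
    intro x hx y hy hxy
    obtain ⟨k, hk⟩ := hs x hx d hd
    have h1 : k * y * k⁻¹ ∈ {y : G | y ∈ D ∧ Commute d y} :=
      ⟨hG.2.1 k y hy, hk ▸ CfsgLib.ThreeTransp.commute_conj_iff'.2 hxy⟩
    rw [hV, CfsgLib.ThreeTransp.twinSet_eq (fun e _ => Commute.refl e) hd] at h1
    have h2 : CfsgLib.ThreeTransp.AreTwins D d (k * y * k⁻¹) := h1
    have h3 := h2.conj hG.2.1 k⁻¹
    rwa [inv_inv, show k⁻¹ * d * k = x by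
      rw [← hk]; simp only [mul_assoc, inv_mul_cancel_left, inv_mul_cancel, mul_one],
      show k⁻¹ * (k * y * k⁻¹) * k = y by
        simp only [mul_assoc, inv_mul_cancel_left, inv_mul_cancel, mul_one]] at h3
  exact CfsgLib.ThreeTransp.exists_normalized_sylow_three hG hs htw hd (hG.2.1 g b hb)
    (hg ▸ fun h => hab (CfsgLib.ThreeTransp.commute_conj_iff'.1 h))

end Cfsg.Agent.S5356
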