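import Cfsg.Statements.S5357
import Cfsg.Agent.ThreeTransp.Refl3

set_option autoImplicit false
open scoped MatrixGroups Matrix
open Cfsg

namespace Cfsg.Agent.S5357

/-- Let Q be a non-degenerate quadratic form on the n-dimensional coordinate space over the field with three elements, n ≥ 5, and c a non-zero scalar. In the subgroup of the isometry group of Q generated by the reflections in vectors v with Q(v) = c, these reflections form a single conjugacy class of 3-transpositions generating that subgroup. -/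
theorem result (n : ℕ) (hn : 5 ≤ n) (Q : QuadraticForm (ZMod 3) (Fin n → ZMod 3)) (hQ : (QuadraticMap.polarBilin Q).Nondegenerate) (c : ZMod 3) (hc : c ≠ 0) : Cfsg.IsThreeTranspositionClass {g : ↥(Cfsg.reflectionSubgroup (⇑Q) c) | (g : ↥(Cfsg.isometryGroup (ZMod 3) (⇑Q))) ∈ Cfsg.reflectionsOfNorm (⇑Q) c} := by
  classical
  have h2 : (2 : ZMod 3) ≠ 0 := by decide
  set D := {g : ↥(Cfsg.reflectionSubgroup (⇑Q) c) | (g : ↥(Cfsg.isometryGroup (ZMod 3) (⇑Q))) ∈ Cfsg.reflectionsOfNorm (⇑Q) c} with hD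
  let M : ↥(Cfsg.reflectionSubgroup (⇑Q) c) → Matrix (Fin n) (Fin n) (ZMod 3) := fun g =>
    (((g : ↥(Cfsg.isometryGroup (ZMod 3) (⇑Q))) : GL (Fin n) (ZMod 3)) : Matrix (Fin n) (Fin n) (ZMod 3))
  have hMinj : Function.Injective M := fun g h e => Subtype.ext (Subtype.ext (Units.ext e))
  have hMmul : ∀ g h, M (g * h) = M g * M h := fun g h => rfl
  have hM1 : M 1 = 1 := rfl
  have hne : ∀ v : Fin n → ZMod 3, Q v = c → Q v ≠ 0 := fun v hv => hv ▸ hc
  have hex : ∀ v : Fin n → ZMod 3, Q v = c → ∃ g ∈ D, M g = Cfsg.reflectionMatrix (⇑Q) v := fun v hv =>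
    ⟨⟨CfsgLib.TTRefl3.refl Q (hne v hv), Subgroup.subset_closure ⟨v, hv, rfl⟩⟩, ⟨v, hv, rfl⟩, rfl⟩
  have hsq : ∀ d ∈ D, d * d = 1 := by
    rintro d ⟨v, hv, hdv⟩
    exact hMinj (by rw [hMmul, hM1]; show M d * M d = 1; simp only [M, hdv, CfsgLib.TTRefl3.refl_mul_self Q (hne v hv)])
  have hord : ∀ d ∈ D, orderOf d = 2 := by
    intro d hd
    rw [orderOf_eq_prime_iff]
    refine ⟨by rw [pow_two]; exact hsq d hd, fun h1 => ?_⟩
    obtain ⟨v, hv, hdv⟩ := hd
    have h := CfsgLib.TTRefl3.refl_self Q (hne v hv)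
    rw [← hdv] at h
    rw [h1] at h
    change (1 : Matrix (Fin n) (Fin n) (ZMod 3)) *ᵥ v = -v at h
    rw [Matrix.one_mulVec] at h
    apply hne v hv
    have hv0 : v = 0 := funext fun i => by
      have := congrFun h i
      rw [Pi.neg_apply] at this
      show v i = 0
      revert this
      generalize v i = a
      revert a
      decide
    rw [hv0, QuadraticMap.map_zero]
  -- reflections in orthogonal vectors commute; otherwise the braid relation holds
  have key : ∀ (u v : Fin n → ZMod 3) (d e : ↥(Cfsg.reflectionSubgroup (⇑Q) c)), Q u = c → Q v = c →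
      M d = Cfsg.reflectionMatrix (⇑Q) u → M e = Cfsg.reflectionMatrix (⇑Q) v →
      (QuadraticMap.polar (⇑Q) u v = 0 → d * e = e * d) ∧
      (QuadraticMap.polar (⇑Q) u v ≠ 0 → d * e * d = e * d * e) := by
    intro u v d e hu hv hdu hev
    have hsymm : QuadraticMap.polar (⇑Q) v u = QuadraticMap.polar (⇑Q) u v := QuadraticMap.polar_comm _ _ _
    constructor
    · intro h0
      refine hMinj (Matrix.ext_of_mulVec_single fun i => ?_)
      rw [hMmul, hMmul, hdu, hev]
      simp only [← Matrix.mulVec_mulVec, CfsgLib.TTRefl3.refl_mulVec, CfsgLib.TTRefl3.polar_sub_smul, hsymm, h0]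
      simp only [mul_zero, sub_zero]
      abel
    · intro hf
      refine hMinj (Matrix.ext_of_mulVec_single fun i => ?_)
      rw [hMmul, hMmul, hMmul, hMmul, hdu, hev]
      simp only [← Matrix.mulVec_mulVec, CfsgLib.TTRefl3.refl_mulVec, CfsgLib.TTRefl3.polar_sub_smul, hsymm,
        CfsgLib.TTRefl3.polar_self', hu, hv]
      generalize QuadraticMap.polar (⇑Q) u (Pi.single i 1) = s
      generalize QuadraticMap.polar (⇑Q) v (Pi.single i 1) = t
      funext j
      simp only [Pi.sub_apply, Pi.smul_apply, smul_eq_mul]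
      generalize (Pi.single i 1 : Fin n → ZMod 3) j = e0
      generalize u j = a
      generalize v j = b
      revert hf
      generalize QuadraticMap.polar (⇑Q) u v = k
      intro hf
      have hcc : c = 1 ∨ c = -1 := by revert hc; generalize c = c'; revert c'; decide
      have hkk : k = 1 ∨ k = -1 := by revert hf; generalize k = c'; revert c'; decide
      have i1 : (1 : ZMod 3)⁻¹ = 1 := inv_one
      have i2 : (-1 : ZMod 3)⁻¹ = -1 := by rw [inv_neg, inv_one]
      rcases hcc with hc' | hc' <;> rcases hkk with hk' | hk' <;> rw [hc', hk'] <;>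
        simp only [i1, i2] <;> revert s t a b e0 <;> decide
  have hset : Cfsg.IsThreeTranspositionSet D := by
    refine ⟨hord, ?_⟩
    intro d hd e he
    obtain ⟨u, hu, hdu⟩ := id hd
    obtain ⟨v, hv, hev⟩ := id he
    obtain ⟨k1, k2⟩ := key u v d e hu hv hdu hev
    by_cases h0 : QuadraticMap.polar (⇑Q) u v = 0
    · left
      rw [pow_two, mul_assoc, ← mul_assoc e d e, ← k1 h0, mul_assoc d e e, hsq e he, mul_one, hsq d hd]
    · right
      have h3 := k2 h0
      have e1 : (d * e * d) * (e * d * e) = (e * d * e) * (e * d * e) := by rw [h3]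
      have e2 : (e * d * e) * (e * d * e) = 1 := by
        calc (e * d * e) * (e * d * e) = e * d * (e * e) * d * e := by simp only [mul_assoc]
          _ = e * (d * d) * e := by rw [hsq e he, mul_one]; simp only [mul_assoc]
          _ = 1 := by rw [hsq d hd, mul_one, hsq e he]
      rw [e2] at e1
      rw [pow_succ, pow_two]
      simpa only [mul_assoc] using e1
  have hconj1 : ∀ (u v : Fin n → ZMod 3) (d e : ↥(Cfsg.reflectionSubgroup (⇑Q) c)), Q u = c → Q v = c →
      d ∈ D → e ∈ D →
      M d = Cfsg.reflectionMatrix (⇑Q) u → M e = Cfsg.reflectionMatrix (⇑Q) v →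
      QuadraticMap.polar (⇑Q) u v ≠ 0 → IsConj d e := by
    intro u v d e hu hv hd he hdu hev hf
    refine isConj_iff.2 ⟨d * e, ?_⟩
    rw [mul_inv_rev, inv_eq_of_mul_eq_one_left (hsq d hd), inv_eq_of_mul_eq_one_left (hsq e he)]
    have h3 := (key u v d e hu hv hdu hev).2 hf
    calc d * e * d * (e * d) = (e * d * e) * (e * d) := by rw [h3]
      _ = e * d * (e * e) * d := by simp only [mul_assoc]
      _ = e := by rw [hsq e he, mul_one, mul_assoc, hsq d hd, mul_one]
  have hconj : ∀ d ∈ D, ∀ e ∈ D, IsConj d e := by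
    intro d hd e he
    obtain ⟨u, hu, hdu⟩ := id hd
    obtain ⟨v, hv, hev⟩ := id he
    by_cases h0 : QuadraticMap.polar (⇑Q) u v = 0
    swap
    · exact hconj1 u v d e hu hv hd he hdu hev h0
    have horth : ∀ i j : Fin 2, i ≠ j → QuadraticMap.polar (⇑Q) (![u, v] i) (![u, v] j) = 0 := by
      intro i j hij
      fin_cases i <;> fin_cases j <;> first | exact absurd rfl hij | exact h0 | exact (QuadraticMap.polar_comm _ _ _).trans h0
    obtain ⟨z1, hz1, hp1⟩ := CfsgLib.TTRefl3.exists_perp Q h2 hQ (k := 2) (by omega) ![u, v]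
      (fun i => by fin_cases i <;> simp [hu, hv, hc]) horth
    have hu1 : QuadraticMap.polar (⇑Q) u z1 = 0 := hp1 0
    have hv1 : QuadraticMap.polar (⇑Q) v z1 = 0 := hp1 1
    obtain ⟨z2, hz2, hp2⟩ := CfsgLib.TTRefl3.exists_perp Q h2 hQ (k := 3) (by omega) ![u, v, z1]
      (fun i => by fin_cases i <;> simp [hu, hv, hc, hz1]) (by
        intro i j hij
        fin_cases i <;> fin_cases j <;>
          first
            | exact absurd rfl hij
            | exact h0
            | exact hu1
            | exact hv1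
            | exact (QuadraticMap.polar_comm _ _ _).trans h0
            | exact (QuadraticMap.polar_comm _ _ _).trans hu1
            | exact (QuadraticMap.polar_comm _ _ _).trans hv1)
    have hu2 : QuadraticMap.polar (⇑Q) u z2 = 0 := hp2 0
    have hv2 : QuadraticMap.polar (⇑Q) v z2 = 0 := hp2 1
    have h12 : QuadraticMap.polar (⇑Q) z1 z2 = 0 := hp2 2
    obtain ⟨z, hzu, hzv, hz⟩ : ∃ z, QuadraticMap.polar (⇑Q) u z = 0 ∧ QuadraticMap.polar (⇑Q) v z = 0 ∧ Q z = -c := by
      by_cases a1 : Q z1 = -c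
      · exact ⟨z1, hu1, hv1, a1⟩
      by_cases a2 : Q z2 = -c
      · exact ⟨z2, hu2, hv2, a2⟩
      refine ⟨z1 + z2, by rw [QuadraticMap.polar_add_right, hu1, hu2, add_zero],
        by rw [QuadraticMap.polar_add_right, hv1, hv2, add_zero], ?_⟩
      rw [QuadraticMap.map_add (⇑Q), h12, add_zero]
      revert a1 a2 hz1 hz2 hc
      generalize Q z1 = a
      generalize Q z2 = b
      generalize c = c'
      revert a b c'
      decide
    have hw : Q (u + v + z) = c := by
      rw [QuadraticMap.map_add (⇑Q), QuadraticMap.map_add (⇑Q), h0, hu, hv, hz, QuadraticMap.polar_add_left, hzu, hzv]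
      ring
    obtain ⟨g, hgD, hg⟩ := hex _ hw
    have hfu : QuadraticMap.polar (⇑Q) u (u + v + z) ≠ 0 := by
      rw [QuadraticMap.polar_add_right, QuadraticMap.polar_add_right, h0, hzu, CfsgLib.TTRefl3.polar_self', hu,
        add_zero, add_zero]
      exact mul_ne_zero h2 hc
    have hfv : QuadraticMap.polar (⇑Q) (u + v + z) v ≠ 0 := by
      rw [QuadraticMap.polar_add_left, QuadraticMap.polar_add_left, h0, QuadraticMap.polar_comm _ z v, hzv,
        CfsgLib.TTRefl3.polar_self', hv, zero_add, add_zero]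
      exact mul_ne_zero h2 hc
    exact (hconj1 u _ d g hu hw hd hgD hdu hg hfu).trans (hconj1 _ v g e hw hv hgD he hg hev hfv)
  refine ⟨hset, ?_, ?_⟩
  · -- some vector has norm c
    obtain ⟨z1, hz1, -⟩ := CfsgLib.TTRefl3.exists_perp Q h2 hQ (k := 0) (by omega) ![] (fun i => i.elim0) (fun i => i.elim0)
    obtain ⟨z2, hz2, hp⟩ := CfsgLib.TTRefl3.exists_perp Q h2 hQ (k := 1) (by omega) ![z1]
      (fun i => by fin_cases i; simpa using hz1) (fun i j hij => absurd (Subsingleton.elim i j) hij)
    have h12 : QuadraticMap.polar (⇑Q) z1 z2 = 0 := hp 0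
    obtain ⟨v, hv⟩ : ∃ v, Q v = c := by
      by_cases a1 : Q z1 = c
      · exact ⟨z1, a1⟩
      by_cases a2 : Q z2 = c
      · exact ⟨z2, a2⟩
      refine ⟨z1 + z2, ?_⟩
      rw [QuadraticMap.map_add (⇑Q), h12, add_zero]
      revert a1 a2 hz1 hz2 hc
      generalize Q z1 = a
      generalize Q z2 = b
      generalize c = c'
      revert a b c'
      decide
    obtain ⟨d, hd, hdv⟩ := hex v hv
    refine ⟨d, hd, Set.Subset.antisymm (fun e he => hconj d hd e he) fun e he => ?_⟩
    obtain ⟨g, hg⟩ := isConj_iff.1 he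
    subst hg
    -- conjugation by an isometry moves the centre of the reflection
    refine ⟨M g *ᵥ v, ?_, ?_⟩
    · exact ((g : ↥(Cfsg.isometryGroup (ZMod 3) (⇑Q))).2 v v).trans hv
    · show M (g * d * g⁻¹) = _
      refine Matrix.ext_of_mulVec_single fun i => ?_
      rw [hMmul, hMmul, hdv, ← Matrix.mulVec_mulVec, ← Matrix.mulVec_mulVec, CfsgLib.TTRefl3.refl_mulVec,
        CfsgLib.TTRefl3.refl_mulVec, Matrix.mulVec_sub, Matrix.mulVec_smul, Matrix.mulVec_mulVec, ← hMmul,
        mul_inv_cancel, hM1, Matrix.one_mulVec]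
      have hiso : ∀ x, Q (M g *ᵥ x) = Q x := fun x => (g : ↥(Cfsg.isometryGroup (ZMod 3) (⇑Q))).2 x x
      have hpol : ∀ x y, QuadraticMap.polar (⇑Q) (M g *ᵥ x) (M g *ᵥ y) = QuadraticMap.polar (⇑Q) x y := fun x y => by
        simp only [QuadraticMap.polar, ← Matrix.mulVec_add, hiso]
      have hcancel : M g *ᵥ (M g⁻¹ *ᵥ Pi.single i 1) = Pi.single i 1 := by
        rw [Matrix.mulVec_mulVec, ← hMmul, mul_inv_cancel, hM1, Matrix.one_mulVec]
      conv_rhs => rw [← hcancel, hiso, hpol, hcancel]
  · exact Subgroup.closure_closure_coe_preimage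

end Cfsg.Agent.S5357
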