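import Cfsg.Statements.S5358
import Cfsg.Agent.Eq.Def_ClassicalGeometry

set_option autoImplicit false
open scoped MatrixGroups
open Cfsg

namespace Cfsg.Agent.S5358

/-- Let Q be a non-degenerate quadratic form on the n-dimensional coordinate space over the field with three elements and u, v vectors of the same non-zero norm Q(u) = Q(v) spanning different lines (v ≠ u and v ≠ −u). Then the reflection matrices of u and v commute if and only if u and v are orthogonal for the polar form of Q. -/
theorem result (n : ℕ) (Q : QuadraticForm (ZMod 3) (Fin n → ZMod 3)) (hQ : (QuadraticMap.polarBilin Q).Nondegenerate) (u v : Fin n → ZMod 3) (hu : Q u ≠ 0) (huv : Q u = Q v) (h1 : v ≠ u) (h2 : v ≠ -u) : Commute (Cfsg.reflectionMatrix (⇑Q) u) (Cfsg.reflectionMatrix (⇑Q) v) ↔ QuadraticMap.polar (⇑Q) u v = 0 := by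
  have _ := hQ
  set B := QuadraticMap.polarBilin Q with hB
  have hpv : ∀ a x : Fin n → ZMod 3, Cfsg.polarVec (⇑Q) a ⬝ᵥ x = QuadraticMap.polar (⇑Q) a x := by
    intro a x
    conv_rhs => rw [pi_eq_sum_univ' x, ← QuadraticMap.polarBilin_apply_apply, map_sum]
    refine Finset.sum_congr rfl fun j _ => ?_
    rw [map_smul, smul_eq_mul, mul_comm]
    rfl
  have hr : ∀ a x : Fin n → ZMod 3, (Cfsg.reflectionMatrix (⇑Q) a).mulVec x
      = x - ((Q a)⁻¹ * QuadraticMap.polar (⇑Q) a x) • a := by
    intro a x
    rw [Cfsg.reflectionMatrix, Matrix.sub_mulVec, Matrix.one_mulVec, Matrix.smul_mulVec,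
      Matrix.vecMulVec_mulVec, hpv, ← smul_smul]
    simp
  have hpp : ∀ a : Fin n → ZMod 3, QuadraticMap.polar (⇑Q) a a = 2 * Q a := fun a => by
    rw [QuadraticMap.polar_self, nsmul_eq_mul]; norm_num
  have hsymm : ∀ a b : Fin n → ZMod 3, QuadraticMap.polar (⇑Q) a b = QuadraticMap.polar (⇑Q) b a :=
    fun a b => QuadraticMap.polar_comm _ a b
  have hsub : ∀ a x y : Fin n → ZMod 3, ∀ c : ZMod 3, QuadraticMap.polar (⇑Q) a (x - c • y)
      = QuadraticMap.polar (⇑Q) a x - c * QuadraticMap.polar (⇑Q) a y := fun a x y c => by
    rw [QuadraticMap.polar_sub_right, QuadraticMap.polar_smul_right, smul_eq_mul]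
  constructor
  · intro h
    by_contra hne
    have h' := congrArg (fun M => Matrix.mulVec M u) h.eq
    simp only [← Matrix.mulVec_mulVec, hr, hsub, hpp] at h'
    rw [← huv, hsymm v u] at h'
    set f := QuadraticMap.polar (⇑Q) u v with hf
    set c := (Q u)⁻¹ * f with hc
    have hcne : c ≠ 0 := mul_ne_zero (inv_ne_zero hu) hne
    have h3 : (Q u)⁻¹ * (2 * Q u) = 2 := by field_simp
    have h6 : (Q u)⁻¹ * (2 * Q u - c * f) = 2 - c * c := by rw [hc]; field_simp
    have h7 : (Q u)⁻¹ * (f - 2 * f) = -c := by rw [hc]; ring
    rw [h3] at h'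
    simp only [h6, h7] at h'
    have hcases : c = 1 ∨ c = -1 := by
      revert hcne
      generalize c = e
      revert e
      decide
    have hall : ∀ i, (u i - c * v i - (2 - c * c) * u i) = (u i - 2 * u i - (-c) * v i) := by
      intro i
      simpa using congrFun h' i
    rcases hcases with h8 | h8
    · apply h2
      funext i
      have := hall i
      rw [h8] at this
      show v i = -u i
      revert this
      generalize u i = a
      generalize v i = b
      revert a b
      decide
    · apply h1
      funext i
      have := hall i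
      rw [h8] at this
      show v i = u i
      revert this
      generalize u i = a
      generalize v i = b
      revert a b
      decide
  · intro h
    refine Matrix.ext_of_mulVec_single fun i => ?_
    simp only [← Matrix.mulVec_mulVec, hr, hsub]
    rw [h, hsymm v u, h]
    simp only [mul_zero, sub_zero, zero_smul]
    abel

end Cfsg.Agent.S5358
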