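import Cfsg.Statements.S5359
import Cfsg.Agent.Eq.Def_Classical
import Cfsg.Agent.Eq.Def_ClassicalGeometry
import Cfsg.Agent.Eq.Def_FischerSpaces
import Cfsg.Agent.Classical.Orth.ReflClass
import Cfsg.Agent.Classical.Orth.Forms

set_option autoImplicit false
open scoped MatrixGroups
open Cfsg

namespace Cfsg.Agent.S5359
open CfsgLib.Classical.Orth CfsgLib.OrthGeo

/-- Let Q be a non-degenerate quadratic form on the n-dimensional coordinate space over the field with three elements, n odd and at least 5, and c a non-zero scalar. Then the subgroup of the isometry group of Q generated by the reflections in vectors of norm c has index 2 in the isometry group. -/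
theorem result (n : ℕ) (hn : 5 ≤ n) (hodd : Odd n) (Q : QuadraticForm (ZMod 3) (Fin n → ZMod 3)) (hQ : (QuadraticMap.polarBilin Q).Nondegenerate) (c : ZMod 3) (hc : c ≠ 0) : (Cfsg.reflectionSubgroup (⇑Q) c).index = 2 := by
  have : Fact (Nat.Prime 3) := ⟨Nat.prime_three⟩
  exact index_reflGen (isNondegQF_of_quadraticForm Q hQ) (by decide) (by simp; omega)
    (Or.inr (Or.inr (by simpa using hn))) hc

end Cfsg.Agent.S5359
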