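import Cfsg.Statements.S5361
import Cfsg.Agent.Eq.Def_FischerSpaces
import Cfsg.Agent.ThreeTransp.FittingApps

set_option autoImplicit false
open Cfsg

namespace Cfsg.Agent.S5361

/-- Let D be a conjugacy class of 3-transpositions generating the finite group G, and suppose the centre of G is trivial and some two different members of D commute. Then the following are equivalent: (1) the commutator subgroup of G is simple (possibly of prime order); (2) G acts primitively on D by conjugation; (3) the largest normal 2-subgroup and the largest normal 3-subgroup of G are trivial and the commuting graph of D is connected. -/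
theorem result {G : Type*} [Group G] [Finite G] {D : Set G} (hD : Cfsg.IsThreeTranspositionClass D) (hZ : Subgroup.center G = ⊥) (hw : ∃ a ∈ D, ∃ b ∈ D, a ≠ b ∧ Commute a b) : (IsSimpleGroup (commutator G) ↔ Cfsg.IsPrimitiveUnderConj D) ∧ (Cfsg.IsPrimitiveUnderConj D ↔ (Cfsg.pCore 2 G = ⊥ ∧ Cfsg.pCore 3 G = ⊥ ∧ (Cfsg.commutingGraph D).Connected)) := by
  have hG := CfsgLib.ThreeTransp.ttg_of_class hD
  have hs := CfsgLib.ThreeTransp.singleClass_of_class hD
  obtain ⟨a, ha, b, hb, hne, hab⟩ := id hw
  have h2' : ∃ x ∈ D, ∃ y ∈ D, x ≠ y := ⟨a, ha, b, hb, hne⟩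
  obtain ⟨p, hp, q, hq, hpq⟩ := CfsgLib.ThreeTransp.exists_not_commute_of_class hD h2'
  have hbot : ∀ {N : Subgroup G}, N ≤ Subgroup.center G → N = ⊥ := fun h => le_bot_iff.1 (hZ ▸ h)
  have core : Cfsg.IsPrimitiveUnderConj D →
      Cfsg.pCore 2 G = ⊥ ∧ Cfsg.pCore 3 G = ⊥ ∧ (Cfsg.commutingGraph D).Connected := fun hprim =>
    ⟨hbot (CfsgLib.ThreeTransp.pCores_le_center_of_primitive hG hprim hw).1,
      hbot (CfsgLib.ThreeTransp.pCores_le_center_of_primitive hG hprim hw).2,
      CfsgLib.ThreeTransp.commutingGraph_connected_of_primitive hG hprim hw⟩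
  have back : Cfsg.pCore 2 G = ⊥ ∧ Cfsg.pCore 3 G = ⊥ ∧ (Cfsg.commutingGraph D).Connected →
      Cfsg.IsPrimitiveUnderConj D ∧ IsSimpleGroup (commutator G) := by
    rintro ⟨e2, e3, hcon⟩
    have h2 : Cfsg.pCore 2 G ≤ Subgroup.center G := e2 ▸ bot_le
    have h3 : Cfsg.pCore 3 G ≤ Subgroup.center G := e3 ▸ bot_le
    obtain ⟨K, hK⟩ := CfsgLib.ThreeTransp.exists_component hG hs hp hq hpq h2 h3
    haveI := CfsgLib.ThreeTransp.component_normal hG hK
    obtain ⟨hprim, hK'⟩ := CfsgLib.ThreeTransp.primitive_of_index_le_two hD h2' h2 h3 hK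
      (CfsgLib.ThreeTransp.index_le_two_of_connected hD h2' h2 h3 hK hcon)
    refine ⟨hprim, ?_⟩
    rw [hK']
    haveI := hK.2.2
    have hc : Subgroup.center ↥K = ⊥ := by
      have hle : (Subgroup.center ↥K).map K.subtype = ⊥ := by
        refine hbot (CfsgLib.ThreeTransp.solvable_normal_le_center hG hs hp h2 h3 _ ?_)
        haveI : Group.IsSolvable ↥(Subgroup.center ↥K) :=
          Group.isSolvable_of_comm fun u v => Subtype.ext (Subgroup.mem_center_iff.1 v.2 u.1)
        exact Group.isSolvable_of_surjective (K.subtype.subgroupMap_surjective _)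
      exact (Subgroup.map_eq_bot_iff_of_injective _ K.subtype_injective).1 hle
    exact ((QuotientGroup.quotientMulEquivOfEq hc).trans QuotientGroup.quotientBot).symm.isSimpleGroup
  refine ⟨⟨fun hsimple => ?_, fun hprim => (back (core hprim)).2⟩, ⟨core, fun h => (back h).1⟩⟩
  haveI := hsimple
  have hns : ¬ Group.IsSolvable ↥(commutator G) := by
    intro hsol
    have hcomm := (IsSimpleGroup.comm_iff_isSolvable (G := ↥(commutator G))).2 hsol
    have hab' : a * b ∈ commutator G :=
      CfsgLib.ThreeTransp.closure_mul_le_commutator hG hs (Subgroup.subset_closure ⟨a, ha, b, hb, rfl⟩)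
    have hsq : (a * b) ^ 2 = 1 := by
      rw [hab.mul_pow, pow_two, pow_two, CfsgLib.ThreeTransp.tt_mul_self hG.1 ha,
        CfsgLib.ThreeTransp.tt_mul_self hG.1 hb, mul_one]
    have hne1 : a * b ≠ 1 := fun h =>
      hne ((eq_inv_of_mul_eq_one_left h).trans (CfsgLib.ThreeTransp.tt_inv hG.1 hb))
    obtain ⟨z, hz⟩ : ∃ z : ↥(commutator G), z = ⟨a * b, hab'⟩ := ⟨_, rfl⟩
    have hn : (Subgroup.zpowers z).Normal :=
      ⟨fun x hx g => by rwa [hcomm g x, mul_inv_cancel_right]⟩
    rcases hn.eq_bot_or_eq_top with h | h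
    · rw [Subgroup.zpowers_eq_bot, hz] at h
      exact hne1 (congrArg Subtype.val h)
    · refine hne1 (Subgroup.mem_bot.1 (hZ ▸ (?_ : a * b ∈ Subgroup.center G)))
      rw [Subgroup.mem_center_iff]
      intro g
      have hm : g * (a * b) * g⁻¹ ∈ commutator G := (inferInstance : (commutator G).Normal).conj_mem _ hab' g
      obtain ⟨i, hi⟩ := (h ▸ Subgroup.mem_top _ : (⟨_, hm⟩ : ↥(commutator G)) ∈ Subgroup.zpowers z)
      have hi' : (a * b) ^ i = g * (a * b) * g⁻¹ := by
        have := congrArg Subtype.val hi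
        simpa [hz] using this
      rcases Int.even_or_odd i with ⟨m, rfl⟩ | ⟨m, rfl⟩
      · rw [← two_mul, zpow_mul, zpow_two, ← pow_two, hsq, one_zpow] at hi'
        exact absurd (conj_eq_one_iff.1 hi'.symm) hne1
      · rw [zpow_add, zpow_mul, zpow_two, ← pow_two, hsq, one_zpow, one_mul, zpow_one] at hi'
        exact (mul_inv_eq_iff_eq_mul.1 hi'.symm)
  have hno : ∀ N : Subgroup G, N.Normal → N ≤ commutator G → Group.IsSolvable ↥N → N = ⊥ := by
    intro N hN hle hsol
    rcases (hN.subgroupOf (commutator G)).eq_bot_or_eq_top with h | h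
    · rwa [Subgroup.subgroupOf_eq_bot, disjoint_iff, inf_eq_left.2 hle] at h
    · exact absurd (Group.isSolvable_of_isSolvable_injective
        (Subgroup.inclusion_injective (Subgroup.subgroupOf_eq_top.1 h))) hns
  have hperf : ⁅commutator G, commutator G⁆ = commutator G := by
    have hle : ⁅commutator G, commutator G⁆ ≤ commutator G := Subgroup.commutator_le_right _ _
    rcases ((inferInstance : (⁅commutator G, commutator G⁆).Normal).subgroupOf (commutator G)).eq_bot_or_eq_top with h | h
    · rw [Subgroup.subgroupOf_eq_bot, disjoint_iff, inf_eq_left.2 hle] at h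
      exact absurd (Group.isSolvable_of_comm fun x y => Subtype.ext
        (CfsgLib.Cores.commute_of_commutator_eq_bot h x.2 y.2)) hns
    · exact le_antisymm hle (Subgroup.subgroupOf_eq_top.1 h)
  exact CfsgLib.ThreeTransp.primitive_of_perfect hD h2' hperf hno

end Cfsg.Agent.S5361
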