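import Cfsg.Statements.S5363
-- import your own Cfsg.Agent.* helpers here

set_option autoImplicit false
open Cfsg

namespace Cfsg.Agent.S5363

/-- Let D be a conjugation-invariant set of involutions of a finite group G. Then every product of two members of D has odd order or order 2 if and only if, for every a in D and every b in D different from a and commuting with a, the members of D commuting with a b are exactly those commuting with both a and b. -/
theorem result {G : Type*} [Group G] [Finite G] {D : Set G} (hinv : ∀ d ∈ D, orderOf d = 2) (hconj : ∀ g : G, ∀ d ∈ D, g * d * g⁻¹ ∈ D) : (∀ a ∈ D, ∀ b ∈ D, Odd (orderOf (a * b)) ∨ orderOf (a * b) = 2) ↔ ∀ a ∈ D, ∀ b ∈ D, b ≠ a → Commute a b → {y : G | y ∈ D ∧ Commute (a * b) y} = {y : G | y ∈ D ∧ Commute a y} ∩ {y : G | y ∈ D ∧ Commute b y} := by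
  have hsq : ∀ d ∈ D, d * d = 1 := fun d hd => by rw [← pow_two, ← hinv d hd, pow_orderOf_eq_one]
  constructor
  · intro h a ha b hb hba hab
    ext y
    refine ⟨fun hy => ?_, fun hy => ⟨hy.1.1, hy.1.2.mul_left hy.2.2⟩⟩
    obtain ⟨hyD, hyc⟩ := hy
    suffices hay : Commute a y by
      refine ⟨⟨hyD, hay⟩, hyD, ?_⟩
      have : Commute (a * (a * b)) y := hay.mul_left hyc
      rwa [← mul_assoc, hsq a ha, one_mul] at this
    have hzz : (a * b) * (a * b) = 1 := by
      rw [mul_assoc, ← mul_assoc b a b, hab.symm.eq, mul_assoc a b b, hsq b hb, mul_one, hsq a ha]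
    by_contra hnot
    rcases h a ha y hyD with hodd | h2
    · have hb' : b = (a * b) * a := by
        rw [hab.eq, mul_assoc, hsq a ha, mul_one]
      have hcz : Commute (a * b) (a * y) := ((Commute.refl a).mul_left hab.symm).mul_right hyc
      have hby : b * y = (a * b) * (a * y) := by
        conv_lhs => rw [hb', mul_assoc]
      have hz2 : orderOf (a * b) = 2 := by
        rw [orderOf_eq_prime_iff]
        refine ⟨by rw [pow_two, hzz], fun h1 => hba ?_⟩
        have := (eq_inv_of_mul_eq_one_right h1).trans (inv_eq_of_mul_eq_one_left (hsq a ha))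
        exact this
      have hne : orderOf (a * y) ≠ 1 := fun h1 => hnot (by
        have := (eq_inv_of_mul_eq_one_right (orderOf_eq_one_iff.1 h1)).trans (inv_eq_of_mul_eq_one_left (hsq a ha))
        rw [this])
      have hord : orderOf (b * y) = 2 * orderOf (a * y) := by
        rw [hby, hcz.orderOf_mul_eq_mul_orderOf_of_coprime, hz2]
        rw [hz2]
        exact hodd.coprime_two_left
      rcases h b hb y hyD with ho | h2'
      · rw [hord] at ho
        exact (Nat.not_odd_iff_even.2 (even_two_mul _)) ho
      · rw [hord] at h2'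
        omega
    · apply hnot
      have h1 : (a * y) * (a * y) = 1 := by rw [← pow_two, ← h2, pow_orderOf_eq_one]
      have := inv_eq_of_mul_eq_one_left h1
      rw [mul_inv_rev, inv_eq_of_mul_eq_one_left (hsq a ha), inv_eq_of_mul_eq_one_left (hsq y hyD)] at this
      exact this.symm
  · intro h a ha b hb
    rcases Nat.even_or_odd (orderOf (a * b)) with ⟨m, hm⟩ | ho
    swap
    · exact Or.inl ho
    right
    have hpos : 0 < orderOf (a * b) := orderOf_pos _
    by_contra hne
    set x := a * b with hx
    set z := x ^ m with hz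
    have hzne : z ≠ 1 := pow_ne_one_of_lt_orderOf (by omega) (by omega)
    have hzz : z * z = 1 := by rw [hz, ← pow_add, ← hm, pow_orderOf_eq_one]
    have hzinv : z⁻¹ = z := inv_eq_of_mul_eq_one_left hzz
    have hax : a * x * a⁻¹ = x⁻¹ := by
      rw [hx, mul_inv_rev, inv_eq_of_mul_eq_one_left (hsq a ha), inv_eq_of_mul_eq_one_left (hsq b hb), ← mul_assoc, hsq a ha, one_mul]
    have hbx : b * x * b⁻¹ = x⁻¹ := by
      rw [hx, mul_inv_rev, inv_eq_of_mul_eq_one_left (hsq a ha), inv_eq_of_mul_eq_one_left (hsq b hb), mul_assoc, mul_assoc a b b, hsq b hb, mul_one]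
    have hzcomm : ∀ u : G, u * x * u⁻¹ = x⁻¹ → Commute u z := by
      intro u hu
      have : u * z * u⁻¹ = z := by rw [hz, ← conj_pow, hu, inv_pow, ← hz, hzinv]
      exact mul_inv_eq_iff_eq_mul.1 this
    have haz : Commute a z := hzcomm a hax
    have hbz : Commute b z := hzcomm b hbx
    -- the involution a z lies in D
    have hazD : a * z ∈ D := by
      have hshift : ∀ k : ℕ, x ^ k * a = a * (x ^ k)⁻¹ := by
        intro k
        have : a * x ^ k * a⁻¹ = (x ^ k)⁻¹ := by rw [← conj_pow, hax, inv_pow]
        rw [← this, inv_eq_of_mul_eq_one_left (hsq a ha)]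
        simp only [← mul_assoc, hsq a ha, one_mul]
      rcases Nat.even_or_odd m with ⟨k, hk⟩ | ⟨k, hk⟩
      · have h' := hconj (x ^ k) a ha
        rw [hshift, mul_assoc, ← mul_inv_rev, ← pow_add, ← hk, ← hz, hzinv] at h'
        exact h'
      · have h' := hconj (x ^ k)⁻¹ b hb
        have hb' : b = a * x := by rw [hx, ← mul_assoc, hsq a ha, one_mul]
        have e : (x ^ k)⁻¹ * b * ((x ^ k)⁻¹)⁻¹ = a * z := by
          have h2 : (x ^ k)⁻¹ * a = a * x ^ k := by
            rw [inv_mul_eq_iff_eq_mul, ← mul_assoc, hshift, mul_assoc, inv_mul_cancel, mul_one]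
          rw [hb', inv_inv, ← mul_assoc, h2, hz, hk, mul_assoc, mul_assoc, ← pow_succ', ← pow_add]
          congr 2
          omega
        rwa [e] at h'
    have hne' : a * z ≠ a := fun h' => hzne (mul_left_cancel (h'.trans (mul_one a).symm))
    have hc : Commute a (a * z) := (Commute.refl a).mul_right haz
    have hset := h a ha (a * z) hazD hne' hc
    have hbmem : b ∈ {y : G | y ∈ D ∧ Commute (a * (a * z)) y} := by
      refine ⟨hb, ?_⟩
      rw [← mul_assoc, hsq a ha, one_mul]
      exact hbz.symm
    rw [hset] at hbmem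
    have hab : Commute a b := hbmem.1.2
    have hx2 : orderOf (a * b) ∣ 2 := orderOf_dvd_of_pow_eq_one (by
      rw [pow_two, mul_assoc, ← mul_assoc b a b, hab.symm.eq, mul_assoc a b b, hsq b hb, mul_one, hsq a ha])
    rw [← hx] at hx2
    have := Nat.le_of_dvd (by norm_num) hx2
    omega

end Cfsg.Agent.S5363
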