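import Cfsg.Statements.S5364
-- import your own Cfsg.Agent.* helpers here

set_option autoImplicit false
open Cfsg

namespace Cfsg.Agent.S5364

/-- Let D be a conjugation-invariant set of involutions of a finite group G and t an involution in the centre of G such that d t does not lie in D for any d in D. If the images of the members of D in G modulo the subgroup generated by t satisfy the 3-transposition order conditions (each has order 2 and any two have product of order at most 3), then so do the members of D. -/
theorem result {G : Type*} [Group G] [Finite G] {D : Set G} (hinv : ∀ d ∈ D, orderOf d = 2) (hconj : ∀ g : G, ∀ d ∈ D, g * d * g⁻¹ ∈ D) (t : G) (ht : orderOf t = 2) (htZ : t ∈ Subgroup.center G) (hDt : ∀ d ∈ D, d * t ∉ D) [(Subgroup.zpowers t).Normal] (himg : Cfsg.IsThreeTranspositionSet ((QuotientGroup.mk : G → G ⧸ Subgroup.zpowers t) '' D)) : Cfsg.IsThreeTranspositionSet D := by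
  have hsq : ∀ d ∈ D, d * d = 1 := fun d hd => by rw [← pow_two, ← hinv d hd, pow_orderOf_eq_one]
  have htt : t * t = 1 := by rw [← pow_two, ← ht, pow_orderOf_eq_one]
  have hmem : ∀ x : G, x ∈ Subgroup.zpowers t → x = 1 ∨ x = t := by
    intro x hx
    obtain ⟨k, rfl⟩ := hx
    rcases Int.even_or_odd k with ⟨j, rfl⟩ | ⟨j, rfl⟩
    · exact Or.inl (by show t ^ (j + j) = 1; rw [← two_mul, zpow_mul, zpow_two, htt, one_zpow])
    · exact Or.inr (by show t ^ (2 * j + 1) = t; rw [zpow_add, zpow_mul, zpow_two, htt, one_zpow, one_mul, zpow_one])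
  refine ⟨hinv, fun d hd e he => ?_⟩
  have hq := himg.2 _ ⟨d, hd, rfl⟩ _ ⟨e, he, rfl⟩
  rw [← QuotientGroup.mk_mul, ← QuotientGroup.mk_pow, ← QuotientGroup.mk_pow,
    QuotientGroup.eq_one_iff, QuotientGroup.eq_one_iff] at hq
  have hdd := hsq d hd
  have hee := hsq e he
  rcases hq with h | h <;> rcases hmem _ h with h' | h'
  · exact Or.inl h'
  · exfalso
    -- (d e)^2 = t gives d t = e d e
    apply hDt d hd
    have he' := hconj e d hd
    rw [inv_eq_of_mul_eq_one_left hee] at he'
    rwa [← h', pow_two, ← mul_assoc, ← mul_assoc, ← mul_assoc, hdd, one_mul]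
  · exact Or.inr h'
  · exfalso
    -- (d e)^3 = t gives d t = (e d) e (e d)⁻¹
    apply hDt d hd
    have he' := hconj (e * d) e he
    rw [mul_inv_rev, inv_eq_of_mul_eq_one_left hee, inv_eq_of_mul_eq_one_left hdd] at he'
    rw [← h', pow_succ, pow_two]
    simp only [← mul_assoc, hdd, one_mul] at he' ⊢
    exact he'

end Cfsg.Agent.S5364
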