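import Cfsg.Statements.S5387
import Cfsg.Agent.PSL34.Central

set_option autoImplicit false
open Cfsg

namespace Cfsg.Agent.S5387

open scoped commutatorElement

/-- Up to isomorphism there is at most one quasisimple group whose centre is elementary abelian of order 4 and whose central quotient is isomorphic to the projective special linear group of dimension 3 over the field with four elements: any two such groups are isomorphic. -/
theorem result {L₁ L₂ : Type*} [Group L₁] [Finite L₁] [Group L₂] [Finite L₂] (F : Type) [Field F] [Fintype F] (hF : Fintype.card F = 4) (h₁ : Cfsg.IsQuasisimple L₁) (h₂ : Cfsg.IsQuasisimple L₂) (hc₁ : Nat.card (Subgroup.center L₁) = 4) (hc₂ : Nat.card (Subgroup.center L₂) = 4) (he₁ : ∀ x ∈ Subgroup.center L₁, x * x = 1) (he₂ : ∀ x ∈ Subgroup.center L₂, x * x = 1) (e₁ : L₁ ⧸ Subgroup.center L₁ ≃* Matrix.ProjectiveSpecialLinearGroup (Fin 3) F) (e₂ : L₂ ⧸ Subgroup.center L₂ ≃* Matrix.ProjectiveSpecialLinearGroup (Fin 3) F) : Nonempty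 (L₁ ≃* L₂) := by
  haveI : Group.IsPerfect L₁ := h₁.1
  haveI : Group.IsPerfect L₂ := h₂.1
  let q₁ := e₁.toMonoidHom.comp (QuotientGroup.mk' (Subgroup.center L₁))
  let q₂ := e₂.toMonoidHom.comp (QuotientGroup.mk' (Subgroup.center L₂))
  have hs₁ : Function.Surjective q₁ := e₁.surjective.comp (QuotientGroup.mk'_surjective _)
  have hs₂ : Function.Surjective q₂ := e₂.surjective.comp (QuotientGroup.mk'_surjective _)
  have hk₁ : ∀ a, q₁ a = 1 → a ∈ Subgroup.center L₁ := fun a h => by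
    simpa [q₁, QuotientGroup.eq_one_iff] using h
  have hk₂ : ∀ a, q₂ a = 1 → a ∈ Subgroup.center L₂ := fun a h => by
    simpa [q₂, QuotientGroup.eq_one_iff] using h
  let D : Subgroup (L₁ × L₂) :=
    (q₁.comp (MonoidHom.fst L₁ L₂)).eqLocus (q₂.comp (MonoidHom.snd L₁ L₂))
  let p₁ : D →* L₁ := (MonoidHom.fst L₁ L₂).comp D.subtype
  let p₂ : D →* L₂ := (MonoidHom.snd L₁ L₂).comp D.subtype
  have hDp : ∀ x : D, q₁ (p₁ x) = q₂ (p₂ x) := fun x => x.2
  have hp₁ : Function.Surjective p₁ := fun a => by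
    obtain ⟨b, hb⟩ := hs₂ (q₁ a)
    exact ⟨⟨(a, b), hb.symm⟩, rfl⟩
  have hp₂ : Function.Surjective p₂ := fun b => by
    obtain ⟨a, ha⟩ := hs₁ (q₂ b)
    exact ⟨⟨(a, b), ha⟩, rfl⟩
  have hker : ∀ x : D, q₁ (p₁ x) = 1 → (∀ y : D, y * x = x * y) ∧ x * x = 1 := by
    intro x h
    have c₁ := hk₁ _ h
    have c₂ := hk₂ _ (hDp x ▸ h)
    exact ⟨fun y => Subtype.ext (Prod.ext (Subgroup.mem_center_iff.mp c₁ _)
      (Subgroup.mem_center_iff.mp c₂ _)), Subtype.ext (Prod.ext (he₁ _ c₁) (he₂ _ c₂))⟩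
  set E := commutator D with hE
  have hmapcomm : ∀ {H : Type _} [Group H] [Group.IsPerfect H] (p : D →* H),
      Function.Surjective p → E.map p = ⊤ := by
    intro H _ hH p hp
    rw [hE, commutator_def, Subgroup.map_commutator, Subgroup.map_top_of_surjective p hp]
    exact hH.commutator_eq_top
  let q : E →* Matrix.ProjectiveSpecialLinearGroup (Fin 3) F := (q₁.comp p₁).comp E.subtype
  have hi₁ : Function.Surjective (p₁.comp E.subtype) := fun a => by
    have : a ∈ E.map p₁ := by rw [hmapcomm p₁ hp₁]; trivial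
    obtain ⟨x, hx, rfl⟩ := this
    exact ⟨⟨x, hx⟩, rfl⟩
  have hi₂ : Function.Surjective (p₂.comp E.subtype) := fun a => by
    have : a ∈ E.map p₂ := by
      rw [hE, commutator_def, Subgroup.map_commutator, Subgroup.map_top_of_surjective p₂ hp₂,
        ← commutator_def, Group.IsPerfect.commutator_eq_top]
      trivial
    obtain ⟨x, hx, rfl⟩ := this
    exact ⟨⟨x, hx⟩, rfl⟩
  have hq : Function.Surjective q := hs₁.comp hi₁
  have hdec : ∀ g : D, ∃ a ∈ E, ∃ k : D, g = a * k ∧ ∀ y : D, y * k = k * y := by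
    intro g
    obtain ⟨a, ha⟩ := hq (q₁ (p₁ g))
    refine ⟨a, a.2, (a : D)⁻¹ * g, by rw [mul_inv_cancel_left], (hker _ ?_).1⟩
    rw [map_mul, map_mul, map_inv, map_inv, ← ha, inv_mul_eq_one]
    rfl
  have hperf : commutator E = ⊤ := by
    have hle : E ≤ ⁅E, E⁆ := by
      conv_lhs => rw [hE, commutator_def]
      rw [Subgroup.commutator_le]
      intro g _ h _
      obtain ⟨a, ha, k, rfl, hk⟩ := hdec g
      obtain ⟨b, hb, l, rfl, hl⟩ := hdec h
      have e : ⁅a * k, b * l⁆ = ⁅a, b⁆ := by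
        rw [commutatorElement_def, commutatorElement_def]
        calc a * k * (b * l) * (a * k)⁻¹ * (b * l)⁻¹
            = a * (k * b) * l * k⁻¹ * a⁻¹ * l⁻¹ * b⁻¹ := by group
          _ = a * b * (k * l) * k⁻¹ * a⁻¹ * l⁻¹ * b⁻¹ := by rw [← hk b]; group
          _ = a * b * (l * a⁻¹) * l⁻¹ * b⁻¹ := by rw [hl k]; group
          _ = _ := by rw [← hl a⁻¹]; group
      rw [e]
      exact Subgroup.commutator_mem_commutator ha hb
    refine Subgroup.map_injective E.subtype_injective ?_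
    rw [Subgroup.map_subtype_commutator, ← MonoidHom.range_eq_map, Subgroup.range_subtype]
    exact le_antisymm (Subgroup.commutator_le_self E) hle
  have hcard : Nat.card q.ker ≤ 4 := CfsgLib.PSL34.card_ker_le hF q hq hperf
    (fun x hx => Subgroup.mem_center_iff.mpr fun y =>
      Subtype.ext ((hker _ hx).1 y))
    (fun x hx => Subtype.ext (hker _ hx).2)
  have hEcard : Nat.card E ≤ 4 * Nat.card (Matrix.ProjectiveSpecialLinearGroup (Fin 3) F) := by
    rw [Subgroup.card_eq_card_quotient_mul_card_subgroup q.ker,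
      Nat.card_congr (QuotientGroup.quotientKerEquivOfSurjective q hq).toEquiv, mul_comm]
    gcongr
  have hL₁ : Nat.card L₁ = 4 * Nat.card (Matrix.ProjectiveSpecialLinearGroup (Fin 3) F) := by
    rw [Subgroup.card_eq_card_quotient_mul_card_subgroup (Subgroup.center L₁), hc₁,
      Nat.card_congr e₁.toEquiv, mul_comm]
  have hL₂ : Nat.card L₂ = 4 * Nat.card (Matrix.ProjectiveSpecialLinearGroup (Fin 3) F) := by
    rw [Subgroup.card_eq_card_quotient_mul_card_subgroup (Subgroup.center L₂), hc₂,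
      Nat.card_congr e₂.toEquiv, mul_comm]
  let i₁ : E ≃* L₁ := MulEquiv.ofBijective (p₁.comp E.subtype)
    ((Nat.bijective_iff_surjective_and_card _).mpr ⟨hi₁,
      le_antisymm (hL₁ ▸ hEcard) (Nat.card_le_card_of_surjective _ hi₁)⟩)
  let i₂ : E ≃* L₂ := MulEquiv.ofBijective (p₂.comp E.subtype)
    ((Nat.bijective_iff_surjective_and_card _).mpr ⟨hi₂,
      le_antisymm (hL₂ ▸ hEcard) (Nat.card_le_card_of_surjective _ hi₂)⟩)
  exact ⟨i₁.symm.trans i₂⟩

end Cfsg.Agent.S5387
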