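import Cfsg.Statements.S5436
import Cfsg.Agent.LargeExtraspecial.Simple

set_option autoImplicit false
open Cfsg CfsgLib CfsgLib.LargeExtraspecial

namespace Cfsg.Agent.S5436

/-- Let z be an involution of the finite group G with centralizer H whose generalized Fitting subgroup Q is extraspecial of width at least 2 (order 2^(2w+1), w ≥ 2); suppose some conjugate of z other than z lies in Q, H/Q is a non-abelian simple group, H acts irreducibly by conjugation on Q modulo the subgroup generated by z (the only H-invariant subgroups of Q containing z are that subgroup and Q), and Q is not the subgroup generated by the conjugates of z lying in H. Then G is simple. -/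
theorem result {G : Type*} [Group G] [Finite G] (z : G) (hz : orderOf z = 2) (Q : Subgroup (Subgroup.centralizer ({z} : Set G))) [Q.Normal] (hF : Cfsg.generalizedFittingSubgroup ↥(Subgroup.centralizer ({z} : Set G)) = Q) (hQ : Cfsg.IsExtraspecial 2 ↥Q) (w : ℕ) (hw : 2 ≤ w) (hcard : Nat.card ↥Q = 2 ^ (2 * w + 1)) (hnwc : ∃ g : G, (∃ hq : g * z * g⁻¹ ∈ Subgroup.centralizer ({z} : Set G), (⟨g * z * g⁻¹, hq⟩ : Subgroup.centralizer ({z} : Set G)) ∈ Q) ∧ g * z * g⁻¹ ≠ z) (hsimp : IsSimpleGroup (↥(Subgroup.centralizer ({z} : Set G)) ⧸ Q)) (hna : ¬ IsMulCommutative (↥(Subgroup.centralizer ({z} : Set G)) ⧸ Q)) (hirr : ∀ W : Subgroup (Subgroup.centralizer ({z} : Set G)), W.Normal → W ≤ Q → (W = Q ∨ ∀ x ∈ W, (x : G) ∈ Subgroup.zpowers z)) (hwcl : Subgroup.closure {x : Subgroup.centralizer ({z} : Set G) | IsConj z (x : G)} ≠ Q) : IsSimpleGroup G := by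
  classical
  set Q' := Q.map (Subgroup.centralizer ({z} : Set G)).subtype with hQ'
  let e : ↥Q ≃* ↥Q' := Q.equivMapOfInjective _ (Subgroup.centralizer ({z} : Set G)).subtype_injective
  have hQE : Cfsg.IsExtraspecial 2 ↥Q' := CfsgLib.LargeExtraspecial.isExtraspecial_of_mulEquiv e hQ
  have h : Setting Q' z := setting_of_generalizedFitting hz (Subgroup.map_subtype_le _)
    (by rw [hQ', ← hF]) hQE
  have h32 : 32 ≤ Nat.card ↥Q' := by
    rw [← Nat.card_congr e.toEquiv, hcard]
    calc 32 = 2 ^ (2 * 2 + 1) := by norm_num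
      _ ≤ 2 ^ (2 * w + 1) := Nat.pow_le_pow_right (by norm_num) (by omega)
  obtain ⟨g, ⟨hgC, hgQ⟩, hgz⟩ := hnwc
  have hlarge : Cfsg.IsLargeExtraspecial Q' :=
    isLarge_of_conj_mem h h32 g ⟨_, hgQ, rfl⟩ hgz
  set S : Set ↥(Subgroup.centralizer ({z} : Set G)) := {x : ↥(Subgroup.centralizer ({z} : Set G)) | IsConj z (x : G)} with hS
  set X := Subgroup.closure S with hX
  haveI hXn : X.Normal := by
    refine ⟨fun n hn c => ?_⟩
    have : X ≤ X.comap (MulAut.conj c).toMonoidHom := by
      rw [hX, Subgroup.closure_le]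
      intro x hx
      refine Subgroup.subset_closure ?_
      refine IsConj.trans hx (isConj_iff.2 ⟨(c : G), ?_⟩)
      simp
    exact this hn
  have hsS : (⟨g * z * g⁻¹, hgC⟩ : ↥(Subgroup.centralizer ({z} : Set G))) ∈ X := Subgroup.subset_closure (isConj_iff.2 ⟨g, rfl⟩)
  have hQX : Q ≤ X := by
    rcases hirr (X ⊓ Q) inferInstance inf_le_right with e1 | e1
    · exact e1 ▸ inf_le_left
    · exfalso
      have := e1 _ ⟨hsS, hgQ⟩
      rw [← zOf_eq_zpowers h.z_mem_zOf h.mem_iff, h.mem_iff] at this
      rcases this with e2 | e2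
      · exact h.z_ne_one (conj_eq_one_iff.1 e2)
      · exact hgz e2
  have hXtop : X = ⊤ := by
    haveI := hsimp
    have hmap : (X.map (QuotientGroup.mk' Q)).Normal := hXn.map _ (QuotientGroup.mk'_surjective Q)
    have key : (X.map (QuotientGroup.mk' Q)).comap (QuotientGroup.mk' Q) = X := by
      rw [Subgroup.comap_map_eq, QuotientGroup.ker_mk', sup_eq_left.2 hQX]
    rcases hmap.eq_bot_or_eq_top with e1 | e1
    · exfalso
      apply hwcl
      rw [e1, MonoidHom.comap_bot, QuotientGroup.ker_mk'] at key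
      exact key.symm
    · rw [e1, Subgroup.comap_top] at key
      exact key.symm
  refine isSimpleGroup_of_centralizer_le hlarge h ?_ ⟨g, hgz⟩
  intro c hc
  have hle : X ≤ (Subgroup.normalClosure ({z} : Set G)).comap (Subgroup.centralizer ({z} : Set G)).subtype := by
    rw [hX, Subgroup.closure_le]
    intro x hx
    obtain ⟨a, ha⟩ := isConj_iff.1 (show IsConj z (x : G) from hx)
    show (x : G) ∈ Subgroup.normalClosure ({z} : Set G)
    rw [← ha]
    exact Subgroup.normalClosure_normal.conj_mem z (Subgroup.subset_normalClosure (Set.mem_singleton z)) a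
  exact hle (show (⟨c, hc⟩ : ↥(Subgroup.centralizer ({z} : Set G))) ∈ X from hXtop ▸ Subgroup.mem_top _)

end Cfsg.Agent.S5436
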