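import Cfsg.Statements.S5392
import Cfsg.Agent.Leech.Spanning

set_option autoImplicit false
open Cfsg

namespace Cfsg.Agent.S5392

open CfsgLib.Leech in
/-- An automorphism sending every short vector to itself or its negative is central. -/
theorem central_of_signs {g : Co0}
    (hpm : ∀ v : leechLattice, sqNorm (v : GolayPt → ℤ) = 32 → g • v = v ∨ g • v = -v) :
    g ∈ Subgroup.center Co0 := by
  have hodd : sqNorm (oddElt : GolayPt → ℤ) = 32 := by decide +kernel
  obtain ⟨s, hs, hgs⟩ : ∃ s : ℤ, (s = 1 ∨ s = -1) ∧ g • oddElt = s • oddElt := by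
    rcases hpm oddElt hodd with h | h
    · exact ⟨1, Or.inl rfl, by rw [h, one_zsmul]⟩
    · exact ⟨-1, Or.inr rfl, by rw [h, neg_one_zsmul]⟩
  let K : AddSubgroup leechLattice :=
    (addHom g - zsmulAddGroupHom s : leechLattice →+ leechLattice).ker
  have hKmem : ∀ v, v ∈ K ↔ g • v = s • v := fun v => by
    show g • v - s • v = 0 ↔ _
    exact sub_eq_zero
  have step : ∀ v : leechLattice, sqNorm (v : GolayPt → ℤ) = 32 →
      dotInt (v : GolayPt → ℤ) (oddElt : GolayPt → ℤ) ≠ 0 → v ∈ K := by
    intro v hv hd
    rw [hKmem]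
    have h := co0_dotInt g v oddElt
    rw [hgs] at h
    rcases hpm v hv with e | e <;> rw [e] at h ⊢ <;> rcases hs with rfl | rfl
    · simp
    · simp [dotInt] at h hd
      omega
    · simp [dotInt] at h hd
      omega
    · simp
  have hle : leechLattice ≤ K.map leechLattice.subtype := by
    refine leech_le_of_genList ?_
    have hmem : ∀ (x : GolayPt → ℤ) (hx : x ∈ leechLattice), sqNorm x = 32 →
        dotInt x (oddVec none) ≠ 0 → x ∈ K.map leechLattice.subtype := fun x hx hn hd =>
      ⟨⟨x, hx⟩, step ⟨x, hx⟩ hn hd, rfl⟩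
    have ho : oddVec none ∈ K.map leechLattice.subtype :=
      ⟨oddElt, (hKmem _).2 hgs, rfl⟩
    have hp : ∀ j : ZMod 23,
        (single none 4 + single (some j) 4 ∈ K.map leechLattice.subtype) ∧
        (single none 4 + single (some j) (-4) ∈ K.map leechLattice.subtype) := by
      intro j
      constructor <;> refine hmem _ (mem_leech_of_check ?_) ?_ ?_ <;> revert j <;> decide +kernel
    have h8 : single none (8 : ℤ) ∈ K.map leechLattice.subtype := by
      convert add_mem (hp 0).1 (hp 0).2 using 1
      funext i
      simp only [single, Pi.add_apply]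
      split_ifs <;> norm_num
    intro x hx
    simp only [genList, List.mem_append, List.mem_cons, List.not_mem_nil, or_false,
      List.mem_map] at hx
    rcases hx with ((rfl | rfl | rfl) | ⟨j, -, rfl⟩) | ⟨t, -, rfl⟩
    · exact h8
    · convert add_mem (add_mem ho ho) h8 using 1
      funext i
      simp only [single, oddVec, Pi.add_apply]
      split_ifs <;> norm_num
    · exact ho
    · exact (hp _).1
    · have h := hmem (signFun (qrWord (t : ZMod 23)) (oddVec none))
        (signFun_mem (qrWord_mem_code _) (oddVec_mem none))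
        (by generalize (t : ZMod 23) = u; revert u; decide +kernel)
        (by generalize (t : ZMod 23) = u; revert u; decide +kernel)
      convert sub_mem ho h using 1
      funext i
      generalize (t : ZMod 23) = u
      revert u i
      decide +kernel
  have hall : ∀ v : leechLattice, g • v = s • v := by
    intro v
    obtain ⟨w, hw, hwv⟩ := hle v.2
    rw [(Subtype.ext hwv : w = v)] at hw
    exact (hKmem v).1 hw
  rw [Subgroup.mem_center_iff]
  intro h
  refine Subtype.ext (Equiv.ext fun v => ?_)
  show h • (g • v) = g • (h • v)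
  rw [hall, hall, co0_map_zsmul]


/-- The Leech lattice modulo twice itself is a faithful irreducible module for the first Conway group: an automorphism of the rank-24 lattice built from the length-24 code that moves every lattice vector only by twice a lattice vector lies in the centre of the automorphism group (the centre consists of ±1, which act trivially there, so the kernel is exactly the centre), and an additive subgroup lying between twice the lattice and the lattice that is invariant under all lattice automorphisms is one of the two. -/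
theorem result : (∀ g : ↥Cfsg.Co0, (∀ v : ↥Cfsg.leechLattice, ∃ w : ↥Cfsg.leechLattice, ((g • v : ↥Cfsg.leechLattice) : Cfsg.GolayPt → ℤ) - (v : Cfsg.GolayPt → ℤ) = 2 • (w : Cfsg.GolayPt → ℤ)) → g ∈ Subgroup.center ↥Cfsg.Co0) ∧ ∀ M : AddSubgroup (Cfsg.GolayPt → ℤ), (∀ v ∈ Cfsg.leechLattice, (2 : ℤ) • v ∈ M) → M ≤ Cfsg.leechLattice → (∀ g : ↥Cfsg.Co0, ∀ v : ↥Cfsg.leechLattice, (v : Cfsg.GolayPt → ℤ) ∈ M → ((g • v : ↥Cfsg.leechLattice) : Cfsg.GolayPt → ℤ) ∈ M) → (∀ x ∈ M, ∃ w ∈ Cfsg.leechLattice, x = (2 : ℤ) • w) ∨ M = Cfsg.leechLattice := by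
  refine ⟨?_, fun M hM2 hML hinv => ?_⟩
  · intro g hg
    refine central_of_signs fun v hv => ?_
    obtain ⟨w, hw⟩ := hg v
    have hc : CfsgLib.Leech.Cg (g • v) v := CfsgLib.Leech.cg_iff_exists.2 ⟨w, w.2, hw⟩
    have hgv := CfsgLib.Leech.co0_sqNorm g v
    rcases CfsgLib.Leech.cg_short hc (by omega) (by omega) with h | h | h
    · exact Or.inl h
    · exact Or.inr h
    · omega
  · let M' : AddSubgroup leechLattice := M.comap leechLattice.subtype
    rcases CfsgLib.Leech.invariant_cases (M := M')
      (fun w => by
        show ((w + w : leechLattice) : GolayPt → ℤ) ∈ M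
        rw [AddSubgroup.coe_add, ← two_zsmul]
        exact hM2 _ w.2) (fun g v hv => hinv g v hv) with h | h
    · left
      intro x hx
      obtain ⟨z, hz, hxz⟩ := CfsgLib.Leech.cg_iff_exists.1 (h ⟨x, hML hx⟩ hx)
      refine ⟨z, hz, ?_⟩
      rw [ZeroMemClass.coe_zero, sub_zero] at hxz
      change x = 2 • z at hxz
      rw [hxz, two_nsmul, two_zsmul]
    · right
      refine le_antisymm hML fun x hx => ?_
      have h2 : (⟨x, hx⟩ : leechLattice) ∈ (⊤ : AddSubgroup leechLattice) := AddSubgroup.mem_top _
      rw [← h] at h2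
      exact h2

end Cfsg.Agent.S5392
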