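import Cfsg.Statements.S5393
import Cfsg.Agent.Leech.ShiftFrame

set_option autoImplicit false
open Cfsg

namespace Cfsg.Agent.S5393

/-- The length-24 code built from the squares modulo 23 contains the all-ones word, and the code modulo the all-ones word is an irreducible module over the field with two elements for the code's automorphism group: a subspace of the code that contains the all-ones word and is invariant under every coordinate permutation preserving the code is either the span of the all-ones word or the whole code. -/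
theorem result : (fun _ : Cfsg.GolayPt => (1 : ZMod 2)) ∈ Cfsg.golayCode ∧ ∀ W : Submodule (ZMod 2) (Cfsg.GolayPt → ZMod 2), (fun _ => (1 : ZMod 2)) ∈ W → W ≤ Cfsg.golayCode → (∀ σ ∈ Cfsg.M24, ∀ w ∈ W, (fun p => w (σ.symm p)) ∈ W) → W = Submodule.span (ZMod 2) {fun _ => (1 : ZMod 2)} ∨ W = Cfsg.golayCode := by
  classical
  refine ⟨CfsgLib.Leech.one_mem_code, fun W h1 hle hinv => ?_⟩
  haveI : Fact (Nat.Prime 23) := ⟨by norm_num⟩
  letI : Fintype W := Fintype.ofFinite W
  let f : Function.End W := fun w =>
    ⟨fun p => w.1 (CfsgLib.Leech.shiftM.1.symm p), hinv _ CfsgLib.Leech.shiftM.2 _ w.2⟩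
  have hpow : ∀ (n : ℕ) (w : W) (p : Cfsg.GolayPt),
      ((f ^ n : Function.End W) w).1 p = w.1 (((CfsgLib.Leech.shiftM ^ n : Cfsg.M24).1).symm p) := by
    intro n
    induction n with
    | zero => intro w p; rfl
    | succ n ih =>
      intro w p
      rw [pow_succ, pow_succ]
      show ((f ^ n : Function.End W) (f w)).1 p = _
      rw [ih]
      rfl
  have hf : f ^ 23 ^ 1 = 1 := funext fun w => Subtype.ext (funext fun p => by
    rw [pow_one, hpow, CfsgLib.Leech.shiftM_pow]; rfl)
  have hmod := Equiv.Perm.card_fixedPoints_modEq (f := f) hf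
  have h0 : (0 : Cfsg.GolayPt → ZMod 2) ≠ fun _ => 1 := fun h => by
    simpa using congrFun h none
  have hfix : Fintype.card f.fixedPoints = 2 := by
    rw [← Nat.card_eq_fintype_card, Nat.card_coe_set_eq]
    have : (f.fixedPoints : Set W) = {⟨0, W.zero_mem⟩, ⟨_, h1⟩} := by
      ext w
      constructor
      · intro hw
        have hw' : ∀ i, w.1 (CfsgLib.Leech.shiftM.1.symm i) = w.1 i := fun i =>
          congrFun (congrArg Subtype.val hw) i
        rcases CfsgLib.Leech.code_fix_shift (hle w.2) hw' with h | h
        · exact Or.inl (Subtype.ext h)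
        · exact Or.inr (Subtype.ext h)
      · rintro (rfl | rfl) <;> exact Subtype.ext rfl
    rw [this]
    exact Set.ncard_pair fun h => h0 (congrArg Subtype.val h)
  rw [hfix, ← Nat.card_eq_fintype_card, Module.natCard_eq_pow_finrank (K := ZMod 2),
    Nat.card_zmod] at hmod
  have hb : 2 ^ Module.finrank (ZMod 2) W ≤ 2 ^ 12 := by
    have hc := Nat.card_le_card_of_injective (Submodule.inclusion hle) (Submodule.inclusion_injective hle)
    rw [Module.natCard_eq_pow_finrank (K := ZMod 2) (V := W), Nat.card_zmod, CfsgLib.Leech.card_code] at hc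
    exact hc
  have hk : Module.finrank (ZMod 2) W = 1 ∨ Module.finrank (ZMod 2) W = 12 := by
    have hle12 := (Nat.pow_le_pow_iff_right (by norm_num : 1 < 2)).1 hb
    unfold Nat.ModEq at hmod
    generalize Module.finrank (ZMod 2) W = k at hmod hle12 ⊢
    interval_cases k <;> simp_all
  rcases hk with h | h
  · left
    refine (Submodule.eq_of_le_of_finrank_le ((Submodule.span_singleton_le_iff_mem _ _).2 h1) ?_).symm
    rw [h, finrank_span_singleton h0.symm]
  · right
    refine SetLike.coe_injective (Set.eq_of_subset_of_ncard_le hle ?_ (Set.toFinite _))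
    rw [← Nat.card_coe_set_eq, ← Nat.card_coe_set_eq]
    refine (CfsgLib.Leech.card_code).le.trans ?_
    show 2 ^ 12 ≤ Nat.card W
    rw [Module.natCard_eq_pow_finrank (K := ZMod 2) (V := W), Nat.card_zmod, h]

end Cfsg.Agent.S5393
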