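import Cfsg.Statements.S5394
import Cfsg.Agent.Mathieu.Classes

set_option autoImplicit false
open Cfsg

namespace Cfsg.Agent.S5394

/-- The automorphism group of the length-24 code built from the squares modulo 23 has exactly two conjugacy classes of involutions: an involution either fixes exactly the eight points of an octad or has no fixed points, both kinds occur, and any two involutions of the same kind are conjugate in the group. -/
theorem result : (∀ g ∈ Cfsg.M24, orderOf g = 2 → (Finset.univ.filter fun p => g p = p) ∈ Cfsg.octads ∨ ∀ p, g p ≠ p) ∧ (∃ g ∈ Cfsg.M24, orderOf g = 2 ∧ (Finset.univ.filter fun p => g p = p) ∈ Cfsg.octads) ∧ (∃ g ∈ Cfsg.M24, orderOf g = 2 ∧ ∀ p, g p ≠ p) ∧ ∀ g ∈ Cfsg.M24, ∀ h ∈ Cfsg.M24, orderOf g = 2 → orderOf h = 2 → ((∀ p, g p ≠ p) ↔ (∀ p, h p ≠ p)) → ∃ k ∈ Cfsg.M24, k * g * k⁻¹ = h := by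
  have hfree : ∀ g : Equiv.Perm Cfsg.GolayPt,
      (CfsgLib.Mathieu.fixedPts g).card = 0 ↔ ∀ p, g p ≠ p := fun g => by
    rw [Finset.card_eq_zero, Finset.eq_empty_iff_forall_notMem]
    simp
  have hdata := CfsgLib.Mathieu.data_rep
  refine ⟨fun g hg h2 => ?_, ?_, ?_, fun g hg h hh hg2 hh2 hiff => ?_⟩
  · by_cases h0 : (CfsgLib.Mathieu.fixedPts g).card = 0
    · exact Or.inr ((hfree g).1 h0)
    · exact Or.inl (CfsgLib.Mathieu.fixedPts_mem_octads hg h2 h0)
  · obtain ⟨g, hg, h2, hc⟩ := CfsgLib.Mathieu.exists_prime_tab 2 Nat.prime_two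
      hdata.2.2.2.2.2.1 (by decide +kernel) (by decide +kernel)
    refine ⟨g, hg, h2, CfsgLib.Mathieu.fixedPts_mem_octads hg h2 ?_⟩
    rw [hc]
    decide +kernel
  · obtain ⟨g, hg, h2, hc⟩ := CfsgLib.Mathieu.exists_prime_tab 2 Nat.prime_two
      hdata.2.2.2.2.1 (by decide +kernel) (by decide +kernel)
    refine ⟨g, hg, h2, (hfree g).1 ?_⟩
    rw [hc]
    decide +kernel
  · refine CfsgLib.Mathieu.isConj_of_involution hg hh hg2 hh2 ?_
    rw [← hfree g, ← hfree h] at hiff
    rcases CfsgLib.Mathieu.exists_conj_involution hg hg2 with ⟨a, -⟩ | ⟨a, -⟩ <;>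
      rcases CfsgLib.Mathieu.exists_conj_involution hh hh2 with ⟨b, -⟩ | ⟨b, -⟩
    · omega
    · have := hiff.1 a; omega
    · have := hiff.2 b; omega
    · omega

end Cfsg.Agent.S5394
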