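import Cfsg.Statements.S5396
import Cfsg.Agent.Eq.Def_Transfer
import Cfsg.Agent.ExtraspecialTwo.Rank
import Cfsg.Agent.ExtraspecialTwo.Model
-- import your own Cfsg.Agent.* helpers here

set_option autoImplicit false
open Cfsg CfsgLib.ExtraspecialTwo CfsgLib.F2Forms

namespace Cfsg.Agent.S5396

/-- For every n ≥ 1 there exist finite extraspecial 2-groups of order 2^(2n+1) whose 2-rank (the largest rank of an elementary abelian subgroup) is n, and ones whose 2-rank is n + 1 (so for each such order there are two non-isomorphic extraspecial 2-groups, told apart by their 2-rank). -/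
theorem result (n : ℕ) (hn : 1 ≤ n) : ∀ r ∈ ({n, n + 1} : Set ℕ), ∃ (E : Type) (_ : Group E) (_ : Finite E), Cfsg.IsExtraspecial 2 E ∧ Nat.card E = 2 ^ (2 * n + 1) ∧ sSup {k : ℕ | ∃ A : Subgroup E, Cfsg.IsElementaryAbelian 2 A ∧ Nat.card A = 2 ^ k} = r := by
  obtain ⟨k, rfl⟩ : ∃ k, n = k + 1 := ⟨n - 1, by omega⟩
  have main : ∀ (w : Sp (k + 1)) (r : ℕ),
      r = (if quadFormPlus (k + 1) (ZMod 2) w = 0 then k + 1 + 1 else k + 1) →
      ∃ (E : Type) (_ : Group E) (_ : Finite E), Cfsg.IsExtraspecial 2 E ∧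
        Nat.card E = 2 ^ (2 * (k + 1) + 1) ∧
        sSup {j : ℕ | ∃ A : Subgroup E, Cfsg.IsElementaryAbelian 2 A ∧ Nat.card A = 2 ^ j} = r := by
    intro w r hr
    refine ⟨Model (k + 1) w, inferInstance, inferInstance, Model.isExtraspecial hn, Model.card, ?_⟩
    have hrk := fun j => (Model.isCoord (n := k + 1) (w := w)).pRankLE_iff hn j
    refine IsGreatest.csSup_eq ⟨?_, ?_⟩
    · obtain ⟨h0, h1⟩ := (Model.isCoord (n := k + 1) (w := w)).exists_max_elementary hn
      subst hr
      split_ifs with hw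
      · exact h0 hw
      · exact h1 ((ne_zero_iff _).1 hw)
    · rintro j ⟨A, hA, hj⟩
      have h2 := (hrk r).2 hr.ge A hA.1 hA.2
      rw [hj] at h2
      exact (Nat.pow_le_pow_iff_right (by norm_num)).1 h2
  intro r hr
  rcases hr with hr | hr
  · exact main (wMinus k) r (by rw [if_neg (by rw [quadFormPlus_wMinus]; decide), hr])
  · exact main 0 r (by rw [if_pos (quadFormPlus_zero _), Set.mem_singleton_iff.1 hr])

end Cfsg.Agent.S5396
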