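import Cfsg.Statements.S5399
import Cfsg.Agent.ThreeTransp.M23Inv
-- import your own Cfsg.Agent.* helpers here

set_option autoImplicit false
open Cfsg

namespace Cfsg.Agent.S5399

/-- Let G be a finite group with trivial centre generated by a conjugation-invariant set D of 3-transpositions on which it acts primitively, such that for some d in D the subgroup generated by the members of D other than d commuting with d has central largest normal 2- and 3-subgroups, and suppose G with D is of type M(23). Then G has exactly 3 conjugacy classes of involutions: every involution is a product of m distinct pairwise commuting members of D for some m between 1 and 3; for each such m these products form one non-empty conjugacy class; and the value of m is determined by the involution. -/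
theorem result {G : Type*} [Group G] [Finite G] {D : Set G} (hD : Cfsg.IsThreeTranspositionGroup D) (hprim : Cfsg.IsPrimitiveUnderConj D) (d : G) (hd : d ∈ D) (h3 : Cfsg.pCore 3 ↥(Subgroup.closure {y : G | y ∈ D ∧ y ≠ d ∧ Commute d y}) ≤ Subgroup.center ↥(Subgroup.closure {y : G | y ∈ D ∧ y ≠ d ∧ Commute d y})) (h2 : Cfsg.pCore 2 ↥(Subgroup.closure {y : G | y ∈ D ∧ y ≠ d ∧ Commute d y}) ≤ Subgroup.center ↥(Subgroup.closure {y : G | y ∈ D ∧ y ≠ d ∧ Commute d y})) (ht : Cfsg.IsOfTypeM23 G D) : (∀ x : G, orderOf x = 2 → ∃ m : ℕ, 1 ≤ m ∧ m ≤ 3 ∧ (∃ l : List G, l.Nodup ∧ l.length = m ∧ (∀ a ∈ l, a ∈ D) ∧ (∀ a ∈ l, ∀ b ∈ l, Commute a b) ∧ l.prod = x)) ∧ (∀ m : ℕ, 1 ≤ m → m ≤ 3 → (∃ x : G, orderOf x = 2 ∧ (∃ l : List G, l.Nodup ∧ l.length = m ∧ (∀ a ∈ l, a ∈ D) ∧ (∀ a ∈ l, ∀ b ∈ l, Commute a b) ∧ l.prod = x)) ∧ ∀ x y : G, (∃ l : List G, l.Nodup ∧ l.length = m ∧ (∀ a ∈ l, a ∈ D) ∧ (∀ a ∈ l, ∀ b ∈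 l, Commute a b) ∧ l.prod = x) → (∃ l : List G, l.Nodup ∧ l.length = m ∧ (∀ a ∈ l, a ∈ D) ∧ (∀ a ∈ l, ∀ b ∈ l, Commute a b) ∧ l.prod = y) → IsConj x y) ∧ ∀ (m m' : ℕ) (x : G), 1 ≤ m → m ≤ 3 → 1 ≤ m' → m' ≤ 3 → (∃ l : List G, l.Nodup ∧ l.length = m ∧ (∀ a ∈ l, a ∈ D) ∧ (∀ a ∈ l, ∀ b ∈ l, Commute a b) ∧ l.prod = x) → (∃ l : List G, l.Nodup ∧ l.length = m' ∧ (∀ a ∈ l, a ∈ D) ∧ (∀ a ∈ l, ∀ b ∈ l, Commute a b) ∧ l.prod = x) → m = m' := by
  refine ⟨fun x hx => ?_, fun m h1 hm3 => ⟨?_, ?_⟩, fun m m' x h1 hm3 h1' hm3' hl hl' => ?_⟩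
  · obtain ⟨m, h1, hm3, hl⟩ := CfsgLib.ThreeTransp.m23_involution_fact hD hprim ht hx
    exact ⟨m, h1, hm3, hl⟩
  · obtain ⟨x, l, hl⟩ := CfsgLib.ThreeTransp.m23_exists_fact hD hprim ht h1 hm3
    exact ⟨x, CfsgLib.ThreeTransp.m23_fact_orderOf hD hprim ht h1 hm3 hl, l, hl⟩
  · rintro x y ⟨l, hl⟩ ⟨l', hl'⟩
    exact isConj_iff.2 (CfsgLib.ThreeTransp.m23_fact_conj hD hprim ht h1 hm3 hl hl')
  · obtain ⟨l, a1, a2, a3, a4, a5⟩ := hl
    obtain ⟨l', b1, b2, b3, b4, b5⟩ := hl'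
    rw [← a2, ← b2]
    exact CfsgLib.ThreeTransp.m23_fact_length_le hD hprim ht l.length l l' le_rfl a1 a3 a4 (by omega)
      b1 b3 b4 (by omega) (a5.trans b5.symm)

end Cfsg.Agent.S5399
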