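import Cfsg.Statements.S5409
import Cfsg.Agent.Leech.Monster.Orbits

set_option autoImplicit false
open Cfsg

namespace Cfsg.Agent.S5409

/-- Let G be a finite group of Monster type at the involution z with Q the extraspecial normal subgroup of order 2^25 of C = C_G(z) (so C/Q is identified with the first Conway group with Q modulo its centre the Leech lattice modulo 2, and z is not weakly closed in Q). Then for a conjugate s = g z g⁻¹ of z lying in Q and different from z, the intersection of Q with its conjugate g Q g⁻¹ (both regarded as subgroups of G) has order 2^13. -/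
theorem result {G : Type*} [Group G] [Finite G] (z : G) (Q : Subgroup (Subgroup.centralizer ({z} : Set G))) [Q.Normal] (hM : Cfsg.IsOfMonsterType z Q) (s : G) (hsQ : ∃ hsc : s ∈ Subgroup.centralizer ({z} : Set G), (⟨s, hsc⟩ : Subgroup.centralizer ({z} : Set G)) ∈ Q) (hs : IsConj z s) (hs1 : s ≠ z) (g : G) (hg : g * z * g⁻¹ = s) : Nat.card ↥((Q.map (Subgroup.centralizer ({z} : Set G)).subtype) ⊓ (Q.map (Subgroup.centralizer ({z} : Set G)).subtype).map (MulAut.conj g).toMonoidHom) = 2 ^ 13 := by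
  obtain ⟨hS, e, ψ, hψ⟩ := hM
  have hc : CfsgLib.Leech.Ctx z Q e ψ := ⟨hS, hψ⟩
  obtain ⟨hsc, hs'⟩ := hsQ
  subst hg
  have hp : CfsgLib.Leech.ConjPair z Q g ⟨_, hs'⟩ := ⟨rfl, hs1⟩
  obtain ⟨v, hv⟩ := hc.exists_class ⟨_, hs'⟩
  obtain ⟨t, ht⟩ := hc.class_frame hp hv
  rw [← (hc.meet_orders hp hv ht).1]
  refine Nat.card_congr ⟨fun x => ⟨⟨⟨x.1, ?_⟩, ?_⟩, ?_⟩, fun y => ⟨((y.1 : Subgroup.centralizer ({z} : Set G)) : G),
    ⟨⟨y.1.1, y.1.2, rfl⟩, y.2⟩⟩, fun x => rfl, fun y => rfl⟩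
  · obtain ⟨c, hc', hcx⟩ := x.2.1
    exact hcx ▸ c.2
  · obtain ⟨c, hc', hcx⟩ := x.2.1
    rwa [show (⟨x.1, hcx ▸ c.2⟩ : Subgroup.centralizer ({z} : Set G)) = c from Subtype.ext hcx.symm]
  · exact x.2.2

end Cfsg.Agent.S5409
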