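import Cfsg.Statements.S5413
import Cfsg.Agent.Co0FiveFix81.Monster
import Cfsg.Agent.Eq.Def_MonsterType

set_option autoImplicit false
open Cfsg CfsgLib.Leech CfsgLib.MonsterCent13 CfsgLib.Co0FiveFix81

namespace Cfsg.Agent.S5413

/-- Let G be a finite group of Monster type at the involution z with Q the extraspecial normal subgroup of order 2^25 of C = C_G(z) (so C/Q is identified with the first Conway group with Q modulo its centre the Leech lattice modulo 2, and z is not weakly closed in Q). Let s be a conjugate of z in Q other than z and let B be a Sylow 5-subgroup of the joint centralizer of z and s. Then the centralizer of B modulo B is a group of Harada–Norton type (an involution whose centralizer D has generalized Fitting subgroup R extraspecial of order 2^9 with D/R the wreath product of the alternating group of degree 5 by a group of order 2, the involution not weakly closed in R). -/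
theorem result {G : Type*} [Group G] [Finite G] (z : G) (Q : Subgroup (Subgroup.centralizer ({z} : Set G))) [Q.Normal] (hM : Cfsg.IsOfMonsterType z Q) (s : G) (hsQ : ∃ hsc : s ∈ Subgroup.centralizer ({z} : Set G), (⟨s, hsc⟩ : Subgroup.centralizer ({z} : Set G)) ∈ Q) (hs : IsConj z s) (hs1 : s ≠ z) (B : Subgroup G) (hB : B ≤ Subgroup.centralizer ({z, s} : Set G)) (hBp : Nat.card B = 5 ^ (Nat.card ↥(Subgroup.centralizer ({z, s} : Set G))).factorization 5) [hn : (B.subgroupOf (Subgroup.centralizer (B : Set G))).Normal] : Cfsg.IsOfHaradaNortonType (↥(Subgroup.centralizer (B : Set G)) ⧸ B.subgroupOf (Subgroup.centralizer (B : Set G))) := by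
  classical
  obtain ⟨hS, e, ψ, hψ⟩ := hM
  have hc : Ctx z Q e ψ := ⟨hS, hψ⟩
  obtain ⟨hsc, hsQ'⟩ := hsQ
  obtain ⟨g, hp⟩ := exists_conjPair_of_isConj (x := ⟨_, hsQ'⟩) hs hs1
  haveI : Fact (Nat.Prime 5) := ⟨by norm_num⟩
  obtain ⟨b, γ, t, hb, hγ, hm, hcs, hBb, ht⟩ := exists_five_generator hc hp B hB hBp
  obtain ⟨⟨f⟩, hfaith, w, hw, hall, hinj⟩ := conj_facts ht
  obtain ⟨zb, R, hR, χ, hz, hF, hE, hcard, hχ, hker, hx⟩ :=
    quot_setting hc (by norm_num : (5 : ℕ) ≠ 2) hb hγ hm hp hcs B hBb hfaith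
      (fun T hT hT2 => @quot_core _ _ f T hT hT2)
  refine ⟨zb, R, hR, ⟨hz, hF, hE, ?_, hx⟩,
    ⟨((QuotientGroup.quotientMulEquivOfEq hker.symm).trans
      (QuotientGroup.quotientKerEquivOfSurjective χ hχ)).trans f⟩⟩
  rw [hcard, card_fixQ hc (by norm_num : (5 : ℕ) ≠ 2) hb hm]
  have h256 : Nat.card {c : Q ⧸ Subgroup.center Q // ∃ v, ψ v = c ∧ Cg (γ • v) v} = 256 := by
    have hbij : Function.Bijective (fun m : Fin 256 =>
        (⟨ψ (w m), w m, rfl, hw m⟩ : {c : Q ⧸ Subgroup.center Q // ∃ v, ψ v = c ∧ Cg (γ • v) v})) := by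
      refine ⟨fun a b h => hinj a b ((psi_eq_iff hc.iso _ _).1 (congrArg Subtype.val h)), ?_⟩
      rintro ⟨c, v, rfl, hv⟩
      obtain ⟨m, hmv⟩ := hall v hv
      exact ⟨m, Subtype.ext ((psi_eq_iff hc.iso _ _).2 hmv.symm)⟩
    rw [← Nat.card_congr (Equiv.ofBijective _ hbij), Nat.card_fin]
  rw [h256]
  norm_num

end Cfsg.Agent.S5413
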