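import Cfsg.Statements.S5414
import Cfsg.Agent.MonsterCent.ThreeLocal
import Cfsg.Agent.Eq.Def_MonsterType

set_option autoImplicit false
open Cfsg CfsgLib.Leech CfsgLib.MonsterCent CfsgLib.MonsterCent13

namespace Cfsg.Agent.S5414

/-- Let G be a finite group of Monster type at the involution z with Q the extraspecial normal subgroup of order 2^25 of C = C_G(z) (so C/Q is identified with the first Conway group with Q modulo its centre the Leech lattice modulo 2, and z is not weakly closed in Q). Let s be a conjugate of z in Q other than z and let Y be a subgroup of order 3 of the joint centralizer L of z and s that is not 3-central in L (Y lies in the centre of no Sylow 3-subgroup of L). Then the centralizer of Y modulo Y is a group of Thompson type (an involution whose centralizer D has generalized Fitting subgroup R extraspecial of order 2^9 with D/R the alternating group of degree 9, the involution not weakly closed in R). -/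
theorem result {G : Type*} [Group G] [Finite G] (z : G) (Q : Subgroup (Subgroup.centralizer ({z} : Set G))) [Q.Normal] (hM : Cfsg.IsOfMonsterType z Q) (s : G) (hsQ : ∃ hsc : s ∈ Subgroup.centralizer ({z} : Set G), (⟨s, hsc⟩ : Subgroup.centralizer ({z} : Set G)) ∈ Q) (hs : IsConj z s) (hs1 : s ≠ z) (Y : Subgroup G) (hY : Y ≤ Subgroup.centralizer ({z, s} : Set G)) (hY3 : Nat.card Y = 3) (hnc : ∀ P : Sylow 3 ↥(Subgroup.centralizer ({z, s} : Set G)), ¬ Y.subgroupOf (Subgroup.centralizer ({z, s} : Set G)) ≤ (Subgroup.center ↥(P : Subgroup ↥(Subgroup.centralizer ({z, s} : Set G)))).map (P : Subgroup ↥(Subgroup.centralizer ({z, s} : Set G))).subtype) [hn : (Y.subgroupOf (Subgroup.centralizer (Y : Set G))).Normal] : Cfsg.IsOfThompsonType (↥(Subgroup.centralizer (Y : Set G)) ⧸ Y.subgroupOf (Subgroup.centralizer (Y : Set G))) := by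
  classical
  obtain ⟨hS, e, ψ, hψ⟩ := hM
  have hc : Ctx z Q e ψ := ⟨hS, hψ⟩
  obtain ⟨hsc, hsQ'⟩ := hsQ
  let sq : Q := ⟨⟨s, hsc⟩, hsQ'⟩
  obtain ⟨v, hv⟩ := hc.exists_class sq
  obtain ⟨t₀, ht₀⟩ := (hc.conj_iff_frame hv).1 ⟨hs, hs1⟩
  have hax : (fun w => ψ (t₀⁻¹ • w)) (axisVec none) = QuotientGroup.mk sq := by
    show ψ (t₀⁻¹ • axisVec none) = _
    rw [← hv]
    exact (psi_eq_iff hψ _ _).2 (by simpa using (ht₀.smul t₀⁻¹).symm)
  have hc₁ := ctx_twist hc t₀
  obtain ⟨b, t, hb, hm, hcs, hYb⟩ :=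
    Three.exists_generator hc₁ (sq := sq) hax Y hY hY3 hnc
  have hc₂ := ctx_twist hc₁ t
  obtain ⟨g, hp⟩ := exists_conjPair_of_isConj (x := sq) hs hs1
  haveI : Fact (Nat.Prime 3) := ⟨Nat.prime_three⟩
  obtain ⟨γ, hγ, hγ3, hfaith, ⟨f⟩⟩ := Three.exists_element
  rw [hγ] at hm
  have h8 := Three.el_card_fixed hc₂.iso
  rw [hγ] at h8
  obtain ⟨zb, R, hR, χ, hzb, hF, hE, hcard, hχ, hker, hx⟩ :=
    quot_setting hc₂ (by norm_num : (3 : ℕ) ≠ 2) hb hγ3 hm hp hcs Y hYb
      hfaith (fun T hT hT2 => by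
        haveI : (T.map f.toMonoidHom).Normal := hT.map _ f.surjective
        have h := no_normal_two_of_odd (alternatingGroup (Fin 9)) (by decide)
          (fun a b => alternating_transitive (by norm_num) a b) (T.map f.toMonoidHom)
          (hT2.map f.toMonoidHom)
        exact (Subgroup.map_eq_bot_iff_of_injective _ f.injective).1 h)
  refine ⟨zb, R, hR, ⟨hzb, hF, hE, ?_, hx⟩,
    ⟨((QuotientGroup.quotientMulEquivOfEq hker.symm).trans
      (QuotientGroup.quotientKerEquivOfSurjective χ hχ)).trans f⟩⟩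
  rw [hcard, card_fixQ hc₂ (by norm_num : (3 : ℕ) ≠ 2) hb hm]
  rw [h8]
  norm_num

end Cfsg.Agent.S5414
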