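import Cfsg.Statements.S5416
import Cfsg.Agent.MonsterSeven97.Quot
import Cfsg.Agent.MonsterSeven97.Count
import Cfsg.Agent.MonsterSeven97.LatticeSide
-- import your own Cfsg.Agent.* helpers here

set_option autoImplicit false
open Cfsg

namespace Cfsg.Agent.S5416

/-- Let G be a finite group of Monster type at the involution z with Q the extraspecial normal subgroup of order 2^25 of C = C_G(z) (so C/Q is identified with the first Conway group with Q modulo its centre the Leech lattice modulo 2, and z is not weakly closed in Q). Let s be a conjugate of z in Q other than z and let B be a Sylow 7-subgroup of the joint centralizer of z and s. Then the centralizer of B modulo B is a group of Held type (an involution whose centralizer D has generalized Fitting subgroup R extraspecial of order 2^7 with D/R isomorphic to SL(3, 2), exactly 29 of its conjugates lying in R, and the involution not weakly closed in R). -/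
theorem result {G : Type*} [Group G] [Finite G] (z : G) (Q : Subgroup (Subgroup.centralizer ({z} : Set G))) [Q.Normal] (hM : Cfsg.IsOfMonsterType z Q) (s : G) (hsQ : ∃ hsc : s ∈ Subgroup.centralizer ({z} : Set G), (⟨s, hsc⟩ : Subgroup.centralizer ({z} : Set G)) ∈ Q) (hs : IsConj z s) (hs1 : s ≠ z) (B : Subgroup G) (hB : B ≤ Subgroup.centralizer ({z, s} : Set G)) (hBp : Nat.card B = 7 ^ (Nat.card ↥(Subgroup.centralizer ({z, s} : Set G))).factorization 7) [hn : (B.subgroupOf (Subgroup.centralizer (B : Set G))).Normal] : Cfsg.IsOfHeldType (↥(Subgroup.centralizer (B : Set G)) ⧸ B.subgroupOf (Subgroup.centralizer (B : Set G))) := by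
  classical
  haveI : Fact (Nat.Prime 7) := ⟨by norm_num⟩
  obtain ⟨hS, e, ψ, hψ⟩ := hM
  have hc : CfsgLib.Leech.Ctx z Q e ψ := ⟨hS, hψ⟩
  obtain ⟨hsc, hsQ'⟩ := hsQ
  let sq : Q := ⟨⟨s, hsc⟩, hsQ'⟩
  obtain ⟨v, hv⟩ := hc.exists_class sq
  obtain ⟨t, ht⟩ := (hc.conj_iff_frame hv).1 ⟨hs, hs1⟩
  obtain ⟨e₁, ψ₁, hc₁, -, hψ₁⟩ := CfsgLib.MonsterSeven97.ctx_twist hc t⁻¹
  have hsq₁ : ψ₁ (CfsgLib.Leech.axisVec none) = QuotientGroup.mk sq := by
    rw [hψ₁, ← hv]
    exact (CfsgLib.Leech.psi_eq_iff hψ _ _).2 (by simpa using (ht.smul t⁻¹).symm)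
  have hB7 : Nat.card B = 7 := by
    rw [hBp, CfsgLib.MonsterSeven97.factorization_centralizer hc₁ (sq := sq) hsq₁, pow_one]
  obtain ⟨b, f, hf, hb, hm, hBb, hcs⟩ :=
    CfsgLib.MonsterSeven97.exists_generator hc₁ (sq := sq) hsq₁ B hB hB7
  obtain ⟨e₂, ψ₂, hc₂, hm₂, -⟩ := CfsgLib.MonsterSeven97.ctx_twist hc₁ f⁻¹
  have hm' : CfsgLib.Leech.Match e₂ b CfsgLib.Co0Seven.sigma := by
    rw [hm₂, inv_inv]; exact hm
  obtain ⟨g, hp⟩ := CfsgLib.Leech.exists_conjPair_of_isConj (x := sq) hs hs1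
  obtain ⟨zb, R, hR, χ, hzb, hgf, hRE, hRcard, hχs, hχk, ⟨ρ, hρi, hρr, hρc⟩, x, hx⟩ :=
    CfsgLib.MonsterSeven97.quot_image_setting hc₂ (p := 7) (by norm_num) hb
      CfsgLib.Co0Seven.sigma_pow_seven hm' hp hcs B hBb CfsgLib.MonsterSeven97.faithful
      CfsgLib.MonsterSeven97.no_core
  refine ⟨zb, R, hR, ⟨hzb, hgf, hRE, ?_, x, hx⟩, ?_, ?_⟩
  · rw [hRcard, CfsgLib.MonsterSeven97.card_fixQ_seven hc₂ hb hm']
  · exact ⟨(QuotientGroup.quotientMulEquivOfEq hχk.symm).trans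
      ((QuotientGroup.quotientKerEquivOfSurjective χ hχs).trans CfsgLib.MonsterSeven97.quotEquiv)⟩
  · rw [← Nat.card_coe_set_eq, ← CfsgLib.MonsterSeven97.card_conj_seven hc₂ hb hm']
    refine (Nat.card_congr (Equiv.ofBijective
      (fun q => ⟨ρ q.1, ⟨hρr ▸ ⟨q.1, rfl⟩, (hρc q.1).2 q.2⟩⟩) ⟨?_, ?_⟩)).symm
    · intro a c hac
      exact Subtype.ext (hρi (congrArg Subtype.val hac))
    · rintro ⟨y, hy, hyc⟩
      obtain ⟨q, rfl⟩ := (hρr.symm ▸ hy : y ∈ ρ.range)
      exact ⟨⟨q, (hρc q).1 hyc⟩, rfl⟩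

end Cfsg.Agent.S5416
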