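import Cfsg.Statements.S5420
import Cfsg.Agent.LargeExtraspecial.Basic

set_option autoImplicit false
open Cfsg CfsgLib

namespace Cfsg.Agent.S5420

/-- Let Q be an extraspecial 2-subgroup of the finite group G whose centralizer in G is its centre Z and which is normal in the centralizer of Z. If Z lies in the largest normal 2-subgroup of G, then Q is a large extraspecial 2-subgroup of G: it normalizes no non-trivial subgroup of G of odd order. -/
theorem result {G : Type*} [Group G] [Finite G] (Q : Subgroup G) (hL1 : Cfsg.IsExtraspecial 2 ↥Q) (hL2 : Subgroup.centralizer (Q : Set G) = ((Subgroup.center ↥Q).map Q.subtype)) (hL3 : Subgroup.centralizer (((Subgroup.center ↥Q).map Q.subtype) : Set G) ≤ Subgroup.normalizer (Q : Set G)) (hZ : ((Subgroup.center ↥Q).map Q.subtype) ≤ Cfsg.pCore 2 G) : Cfsg.IsLargeExtraspecial Q := by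
  haveI : Fact (Nat.Prime 2) := ⟨Nat.prime_two⟩
  refine ⟨hL1, hL2, hL3, fun K hK hQK => ?_⟩
  refine LargeExtraspecial.eq_bot_of_le_centralizer_zOf hL1.1.1 hL2 hL3 hK hQK ?_
  intro k hk
  refine Subgroup.mem_centralizer_iff.2 fun z hz => ?_
  have hzQ : z ∈ Q := LargeExtraspecial.zOf_le Q hz
  exact (LargeExtraspecial.commute_of_odd_of_two_group hK (LargeExtraspecial.isPGroup_pCore 2)
    hk (hZ hz) (Subgroup.le_normalizer_iff.1 hQK z hzQ _ (K.inv_mem hk))
    ((Cfsg.pCore_normal 2 G).conj_mem z (hZ hz) k)).symm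

end Cfsg.Agent.S5420
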