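import Cfsg.Statements.S5422
import Cfsg.Agent.LargeExtraspecial.Pair

set_option autoImplicit false
open Cfsg CfsgLib.LargeExtraspecial

namespace Cfsg.Agent.S5422

/-- Let Q be an extraspecial 2-subgroup of the finite group G whose centralizer in G is its centre Z and which is normal in the centralizer of Z; suppose Q has width at least 2 (order 2^(2w+1) with w ≥ 2) and g is an element of G not normalizing Z with g Z g⁻¹ inside Q. Then Z lies inside g Q g⁻¹; writing V for the subgroup generated by Z and g Z g⁻¹ (a four-group), the normalizer of V induces on V its full automorphism group, that is, the centralizer of V has index 6 in the normalizer of V; and Q is a large extraspecial 2-subgroup of G. -/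
theorem result {G : Type*} [Group G] [Finite G] (Q : Subgroup G) (hL1 : Cfsg.IsExtraspecial 2 ↥Q) (hL2 : Subgroup.centralizer (Q : Set G) = ((Subgroup.center ↥Q).map Q.subtype)) (hL3 : Subgroup.centralizer (((Subgroup.center ↥Q).map Q.subtype) : Set G) ≤ Subgroup.normalizer (Q : Set G)) (w : ℕ) (hw : 2 ≤ w) (hcard : Nat.card ↥Q = 2 ^ (2 * w + 1)) (g : G) (hg : g ∉ Subgroup.normalizer (((Subgroup.center ↥Q).map Q.subtype) : Set G)) (hZg : (((Subgroup.center ↥Q).map Q.subtype)).map (MulAut.conj g).toMonoidHom ≤ Q) : ((Subgroup.center ↥Q).map Q.subtype) ≤ (Q).map (MulAut.conj g).toMonoidHom ∧ (Subgroup.centralizer ((((Subgroup.center ↥Q).map Q.subtype) ⊔ (((Subgroup.center ↥Q).map Q.subtype)).map (MulAut.conj g).toMonoidHom : Subgroup G) : Set G)).relIndex (Subgroup.normalizer ((((Subgroup.center ↥Q).map Q.subtype) ⊔ (((Subgroup.center ↥Q).map Q.subtype)).map (MulAut.conj g).toMonoidHom : Subgroup G) : Set G)) = 6 ∧ Cfsg.IsLargeExtraspecial Q := by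
  classical
  obtain ⟨z, hz2, hzQ, hz⟩ := exists_gen hL1
  have hzmem : z ∈ zOf Q := (hz z).2 (Or.inr rfl)
  have h : Setting Q z := ⟨hL1, hz, hz2, hL2, fun c hc => by
    refine fun q => Subgroup.mem_normalizer_iff.1 (hL3 (Subgroup.mem_centralizer_iff.2 fun x hx => ?_)) q
    rcases (hz x).1 hx with rfl | rfl
    · simp
    · exact hc.symm⟩
  have h32 : 32 ≤ Nat.card ↥Q := by
    rw [hcard]
    calc 32 = 2 ^ (2 * 2 + 1) := by norm_num
      _ ≤ 2 ^ (2 * w + 1) := Nat.pow_le_pow_right (by norm_num) (by omega)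
  set s := g * z * g⁻¹ with hs
  have hsQ : s ∈ Q := hZg ⟨z, hzmem, rfl⟩
  have hsz : s ≠ z := by
    intro e
    apply hg
    rw [Subgroup.mem_normalizer_iff]
    intro x
    have hzc : g * z = z * g := mul_inv_eq_iff_eq_mul.1 e
    rw [hz, hz]
    constructor
    · rintro (rfl | rfl)
      · left; group
      · right; exact e
    · rintro (e' | e')
      · left; exact conj_eq_one_iff.1 e'
      · right
        rw [mul_inv_eq_iff_eq_mul, ← hzc] at e'
        exact mul_left_cancel e'
  have hU : Setting (Q.map (MulAut.conj g).toMonoidHom) s := h.conj g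
  have hzU : z ∈ Q.map (MulAut.conj g).toMonoidHom := mem_conj_of_conj_mem h h32 g hsQ hsz
  clear_value s
  have hzz := h.z_mul_z
  have hss := hU.z_mul_z
  have hzs : z * s = s * z := (h.comm hsQ).symm
  refine ⟨fun x hx => ?_, ?_, isLarge_of_conj_mem h h32 g (hs ▸ hsQ) (hs ▸ hsz)⟩
  · rcases (hz x).1 hx with rfl | rfl
    · exact Subgroup.one_mem _
    · exact hzU
  obtain ⟨q, hq, hqs⟩ := exists_conj_eq_mul hL1 hz hsQ (h.not_mem_zOf hU.z_ne_one hsz)
  obtain ⟨u, hu, huz⟩ := exists_conj_eq_mul hU.extraspecial hU.mem_iff hzU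
    (hU.not_mem_zOf h.z_ne_one (Ne.symm hsz))
  set V : Subgroup G := zOf Q ⊔ (zOf Q).map (MulAut.conj g).toMonoidHom with hV
  let K : Subgroup G :=
    { carrier := {x | x = 1 ∨ x = z ∨ x = s ∨ x = z * s}
      one_mem' := Or.inl rfl
      mul_mem' := by
        have e1 : z * (z * s) = s := by rw [← mul_assoc, hzz, one_mul]
        have e2 : s * (z * s) = z := by rw [hzs, ← mul_assoc, hss, one_mul]
        have e3 : z * s * z = s := by rw [mul_assoc, ← hzs, e1]
        have e4 : z * s * s = z := by rw [mul_assoc, hss, mul_one]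
        have e5 : z * s * (z * s) = 1 := by rw [← mul_assoc, e3, hss]
        rintro a b (rfl | rfl | rfl | rfl) (rfl | rfl | rfl | rfl) <;>
          simp [e1, e2, e3, e4, e5, hzz, hss, ← hzs]
      inv_mem' := by
        rintro a (rfl | rfl | rfl | rfl)
        · simp
        · simp [inv_eq_of_mul_eq_one_right hzz]
        · simp [inv_eq_of_mul_eq_one_right hss]
        · right; right; right
          rw [mul_inv_rev, inv_eq_of_mul_eq_one_right hzz, inv_eq_of_mul_eq_one_right hss, ← hzs] }
  have hzV : z ∈ V := (le_sup_left : zOf Q ≤ V) hzmem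
  have hsV : s ∈ V := (le_sup_right : (zOf Q).map (MulAut.conj g).toMonoidHom ≤ V) ⟨z, hzmem, hs.symm⟩
  have hVmem : ∀ x, x ∈ V ↔ (x = 1 ∨ x = z ∨ x = s ∨ x = z * s) := by
    intro x
    refine ⟨fun hx => ?_, ?_⟩
    · have : V ≤ K := by
        refine sup_le (fun y hy => ?_) ?_
        · rcases (hz y).1 hy with rfl | rfl
          · exact K.one_mem
          · exact Or.inr (Or.inl rfl)
        · rintro _ ⟨y, hy, rfl⟩
          rcases (hz y).1 hy with rfl | rfl
          · simp
          · exact Or.inr (Or.inr (Or.inl (by rw [hs]; rfl)))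
      exact this hx
    · rintro (rfl | rfl | rfl | rfl)
      exacts [V.one_mem, hzV, hsV, V.mul_mem hzV hsV]
  -- the permutations induced on the three involutions
  let T : Set G := {z, s, z * s}
  have hne1 : z * s ≠ z := fun e => hU.z_ne_one (mul_eq_left.1 e)
  have hne2 : z * s ≠ s := fun e => h.z_ne_one (mul_eq_right.1 e)
  have hT : Nat.card ↥T = 3 := by
    rw [Nat.card_coe_set_eq, Set.ncard_insert_of_notMem, Set.ncard_pair (Ne.symm hne2)]
    simp [Ne.symm hsz, Ne.symm hne1]
  have hT1 : ∀ x, x ∈ T ↔ x ∈ V ∧ x ≠ 1 := by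
    intro x
    rw [hVmem]
    constructor
    · rintro (rfl | rfl | rfl)
      · exact ⟨Or.inr (Or.inl rfl), h.z_ne_one⟩
      · exact ⟨Or.inr (Or.inr (Or.inl rfl)), hU.z_ne_one⟩
      · refine ⟨Or.inr (Or.inr (Or.inr rfl)), fun e => hsz ?_⟩
        calc s = z * (z * s) := by rw [← mul_assoc, hzz, one_mul]
          _ = z := by rw [e, mul_one]
    · rintro ⟨rfl | rfl | rfl | rfl, hx⟩
      · exact absurd rfl hx
      · exact Or.inl rfl
      · exact Or.inr (Or.inl rfl)
      · exact Or.inr (Or.inr rfl)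
  have hNT : ∀ n ∈ Subgroup.normalizer (V : Set G), ∀ x ∈ T, n * x * n⁻¹ ∈ T := by
    intro n hn x hx
    rw [hT1] at hx ⊢
    exact ⟨(Subgroup.mem_normalizer_iff.1 hn x).1 hx.1, fun e => hx.2 (conj_eq_one_iff.1 e)⟩
  let f : ↥(Subgroup.normalizer (V : Set G)) →* Equiv.Perm ↥T :=
    { toFun := fun n =>
        { toFun := fun x => ⟨(n : G) * x * (n : G)⁻¹, hNT n n.2 x x.2⟩
          invFun := fun x => ⟨(n : G)⁻¹ * x * (n : G), by
            simpa using hNT _ (Subgroup.inv_mem _ n.2) x x.2⟩
          left_inv := fun x => Subtype.ext (by simp [mul_assoc])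
          right_inv := fun x => Subtype.ext (by simp [mul_assoc]) }
      map_one' := Equiv.ext fun x => Subtype.ext (by simp)
      map_mul' := fun a b => Equiv.ext fun x => Subtype.ext (by simp [mul_assoc]) }
  have hker : f.ker = (Subgroup.centralizer (V : Set G)).subgroupOf (Subgroup.normalizer (V : Set G)) := by
    ext n
    rw [MonoidHom.mem_ker, Subgroup.mem_subgroupOf, Subgroup.mem_centralizer_iff]
    constructor
    · intro e x hx
      by_cases hx1 : x = 1
      · subst hx1; simp
      · have := congrArg Subtype.val (Equiv.congr_fun e ⟨x, (hT1 x).2 ⟨hx, hx1⟩⟩)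
        exact (mul_inv_eq_iff_eq_mul.1 this).symm
    · intro e
      refine Equiv.ext fun x => Subtype.ext ?_
      show (n : G) * x * (n : G)⁻¹ = x
      rw [← e x ((hT1 x).1 x.2).1, mul_inv_cancel_right]
  have mkN : ∀ n : G, (∀ x ∈ T, n * x * n⁻¹ ∈ V) → n ∈ Subgroup.normalizer (V : Set G) := by
    intro n hn
    have hle : V.map (MulAut.conj n).toMonoidHom ≤ V := by
      rintro _ ⟨x, hx, rfl⟩
      by_cases hx1 : x = 1
      · subst hx1; simp
      · exact hn x ((hT1 x).2 ⟨hx, hx1⟩)
    have heq : V.map (MulAut.conj n).toMonoidHom = V := Subgroup.eq_of_le_of_card_ge hle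
      (Nat.card_congr (V.equivMapOfInjective _ (MulAut.conj n).injective).toEquiv).le
    rw [Subgroup.mem_normalizer_iff]
    intro x
    refine ⟨fun hx => heq ▸ ⟨x, hx, rfl⟩, fun hx => ?_⟩
    rw [← heq] at hx
    obtain ⟨y, hy, hyx⟩ := hx
    exact (MulAut.conj n).injective hyx ▸ hy
  have hqz : q * z * q⁻¹ = z := by rw [h.comm hq, mul_inv_cancel_right]
  have hus : u * s * u⁻¹ = s := by rw [hU.comm hu, mul_inv_cancel_right]
  have hqV : q ∈ Subgroup.normalizer (V : Set G) := by
    refine mkN q ?_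
    rintro x (rfl | rfl | rfl)
    · rw [hqz]; exact hzV
    · rw [hqs]; exact V.mul_mem hzV hsV
    · rw [← conj_mul, hqz, hqs, ← mul_assoc, hzz, one_mul]; exact hsV
  have huV : u ∈ Subgroup.normalizer (V : Set G) := by
    refine mkN u ?_
    rintro x (rfl | rfl | rfl)
    · rw [huz]; exact V.mul_mem hsV hzV
    · rw [hus]; exact hsV
    · rw [← conj_mul, hus, huz]; exact V.mul_mem (V.mul_mem hsV hzV) hsV
  set a := f ⟨q, hqV⟩
  set b := f ⟨u, huV⟩
  have hTz : z ∈ T := Or.inl rfl
  have hTs : s ∈ T := Or.inr (Or.inl rfl)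
  have ha : (a ⟨z, hTz⟩ : G) = z ∧ (a ⟨s, hTs⟩ : G) = z * s := ⟨hqz, hqs⟩
  have hb : (b ⟨z, hTz⟩ : G) = z * s ∧ (b ⟨s, hTs⟩ : G) = s := ⟨huz.trans hzs.symm, hus⟩
  have hcardT : Nat.card (Equiv.Perm ↥T) = 6 := by
    rw [Nat.card_perm, hT]; rfl
  have hr : Nat.card ↥f.range = 6 := by
    have hd := Subgroup.card_subgroup_dvd_card f.range
    rw [hcardT] at hd
    have h4 : 4 ≤ Nat.card ↥f.range := by
      have ha' : a ∈ f.range := ⟨_, rfl⟩
      have hb' : b ∈ f.range := ⟨_, rfl⟩
      have hsub : ({1, a, b, a * b} : Set (Equiv.Perm ↥T)) ⊆ (f.range : Set (Equiv.Perm ↥T)) := by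
        rintro x (rfl | rfl | rfl | rfl)
        exacts [f.range.one_mem, ha', hb', f.range.mul_mem ha' hb']
      have hab : (↑((a * b) ⟨s, hTs⟩) : G) = z * s := by
        rw [Equiv.Perm.mul_apply, show b ⟨s, hTs⟩ = ⟨s, hTs⟩ from Subtype.ext hb.2, ha.2]
      have hab' : (↑((a * b) ⟨z, hTz⟩) : G) = s := by
        rw [Equiv.Perm.mul_apply]
        show q * (b ⟨z, hTz⟩ : G) * q⁻¹ = s
        rw [hb.1, ← conj_mul, hqz, hqs, ← mul_assoc, hzz, one_mul]
      have n1 : (1 : Equiv.Perm ↥T) ≠ a := fun e => hne2 (by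
        have := ha.2; rw [← e] at this; exact this.symm)
      have n2 : (1 : Equiv.Perm ↥T) ≠ b := fun e => hne1 (by
        have := hb.1; rw [← e] at this; exact this.symm)
      have n3 : (1 : Equiv.Perm ↥T) ≠ a * b := fun e => hne2 (by
        rw [← e] at hab; exact hab.symm)
      have n4 : a ≠ b := fun e => hne1 (by
        have := ha.1; rw [e, hb.1] at this; exact this)
      have n5 : a ≠ a * b := fun e => hsz (by
        rw [← e, ha.1] at hab'; exact hab'.symm)
      have n6 : b ≠ a * b := fun e => hne2 (by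
        rw [← e, hb.2] at hab; exact hab.symm)
      have := Set.ncard_le_ncard hsub (Set.toFinite _)
      rw [Set.ncard_insert_of_notMem, Set.ncard_insert_of_notMem, Set.ncard_pair n6] at this
      · exact this
      · simp [n4, n5]
      · simp [n1, n2, n3]
    have := Nat.le_of_dvd (by norm_num) hd
    interval_cases (Nat.card ↥f.range) <;> omega
  show (Subgroup.centralizer (V : Set G)).relIndex (Subgroup.normalizer (V : Set G)) = 6
  rw [Subgroup.relIndex, ← hker, Subgroup.index_ker, hr]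

end Cfsg.Agent.S5422
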