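import Cfsg.Statements.S5423
import Cfsg.Agent.LargeExtraspecial.Affine
import Cfsg.Agent.LargeExtraspecial.Criterion
import Cfsg.Agent.Eq.Def_Transfer
import Cfsg.Agent.Eq.Def_MonsterType

set_option autoImplicit false
open Cfsg CfsgLib.LargeExtraspecial

namespace Cfsg.Agent.S5423

/-- Let G be a finite group that is the split extension of an elementary abelian normal subgroup U of order 2^(n+1), n ≥ 1, by its full automorphism group: U has a complement M in G whose conjugation action on U is faithful and realizes every automorphism of U. Let Z be a subgroup of U of order 2 and Q the largest normal 2-subgroup of the centralizer C of Z. Then Q is extraspecial of order 2^(2n+1) with an elementary abelian subgroup of order 2^(n+1) (plus type), Q is a large extraspecial 2-subgroup of G, and C is the split extension of Q by the general linear group of degree n over the field with two elements. -/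
theorem result {G : Type*} [Group G] [Finite G] (n : ℕ) (hn : 1 ≤ n) (U M : Subgroup G) [U.Normal] (hU : Cfsg.IsElementaryAbelian 2 U) (hUcard : Nat.card ↥U = 2 ^ (n + 1)) (hUM : U ⊓ M = ⊥) (hUM' : U ⊔ M = ⊤) (hfaith : ∀ m ∈ M, (∀ u ∈ U, m * u * m⁻¹ = u) → m = 1) (hfull : ∀ φ : ↥U ≃* ↥U, ∃ m ∈ M, ∀ u : ↥U, ((φ u : ↥U) : G) = m * u * m⁻¹) (Z : Subgroup G) (hZU : Z ≤ U) (hZ : Nat.card ↥Z = 2) (Q : Subgroup G) (hQ : Q = (Cfsg.pCore 2 ↥(Subgroup.centralizer (Z : Set G))).map (Subgroup.centralizer (Z : Set G)).subtype) : Cfsg.IsExtraspecial 2 ↥Q ∧ Nat.card ↥Q = 2 ^ (2 * n + 1) ∧ (∃ E : Subgroup G, E ≤ Q ∧ Cfsg.IsElementaryAbelian 2 E ∧ Nat.card ↥E = 2 ^ (n + 1)) ∧ Cfsg.IsLargeExtraspecial Q ∧ ∃ K : Subgroup G, K ≤ Subgroup.centralizer (Z : Set G) ∧ Q ⊓ K = ⊥ ∧ Q ⊔ K = Subgroup.centralizer (Z : Set G) ∧ Nonempty (↥K ≃* Matrix.GeneralLinearGroup (Fin n) (ZMod 2)) := by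
  haveI : Fact (Nat.Prime 2) := ⟨Nat.prime_two⟩
  obtain ⟨z, hzZ, hz1⟩ : ∃ z ∈ Z, z ≠ 1 := (Z.ne_bot_iff_exists_ne_one.1 (fun h => by
    rw [h, Subgroup.card_bot] at hZ; omega)).elim fun x hx => ⟨x, x.2, fun e => hx (Subtype.ext e)⟩
  have hZel : ∀ x ∈ Z, x = 1 ∨ x = z := by
    intro x hx
    by_contra h
    push Not at h
    have : ({1, z, x} : Set G).ncard ≤ (Z : Set G).ncard :=
      Set.ncard_le_ncard (by rintro y (rfl | rfl | rfl); exacts [Z.one_mem, hzZ, hx])
    rw [← Nat.card_coe_set_eq (Z : Set G), Set.ncard_insert_of_notMem (by simp [hz1.symm, h.1.symm]),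
      Set.ncard_pair h.2.symm] at this
    exact absurd (this.trans_eq hZ) (by norm_num)
  obtain ⟨e, he, hez⟩ := Affine.exists_coords U hU hUcard (z := ⟨z, hZU hzZ⟩)
    (fun h => hz1 (congrArg Subtype.val h))
  let D : Affine.Data G n := ⟨U, M, e, inferInstance, he, hUM', hfaith, hfull⟩
  have hab : ∀ a b : ↥D.U, a * b = b * a := fun a b => hU.1.is_comm.comm a b
  have hesym : (D.e.symm (1, 0) : G) = z := by
    show ((e.symm (1, 0) : ↥U) : G) = z
    rw [← hez, Equiv.symm_apply_apply]
  have hC : ∀ g, g ∈ Subgroup.centralizer (Z : Set G) ↔ D.α g (1, 0) = (1, 0) := by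
    intro g
    rw [Subgroup.mem_centralizer_iff]
    constructor
    · intro h
      have hg : g * z * g⁻¹ = z := by rw [← h z hzZ, mul_inv_cancel_right]
      apply D.e.symm.injective
      apply Subtype.ext
      rw [D.coe_conj, hesym, hg]
    · intro h x hx
      rcases hZel x hx with rfl | rfl
      · simp
      · have := D.coe_conj g (1, 0)
        rw [h, hesym] at this
        exact (eq_mul_inv_iff_mul_eq.1 this)
  have hcoreC : D.core ≤ Subgroup.centralizer (Z : Set G) := fun g hg => (hC g).2 (D.mem_core.1 hg).1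
  have hUcore : U ≤ D.core := fun g hg =>
    ⟨D.α_of_mem hab hg _, fun w => by rw [D.α_of_mem hab hg]⟩
  have hcard := D.card_core hab hUM hUcard
  have hp : IsPGroup 2 ↥D.core := IsPGroup.of_card hcard
  have hconj : ∀ c ∈ Subgroup.centralizer (Z : Set G), ∀ a ∈ D.core, c * a * c⁻¹ ∈ D.core := by
    intro c hc a ha
    have hc' := (hC c).1 hc
    have hci := (hC _).1 ((Subgroup.centralizer (Z : Set G)).inv_mem hc)
    refine ⟨by rw [D.α_mul, D.α_mul, hci, (D.mem_core.1 ha).1, hc'], fun w => ?_⟩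
    rw [D.α_mul, D.α_mul, D.snd_congr hc' (w := D.α c⁻¹ w) ((D.mem_core.1 ha).2 _), D.α_cancel_inv]
  have hK : D.kHom.range ≤ Subgroup.centralizer (Z : Set G) := by
    rintro _ ⟨A, rfl⟩
    rw [hC, D.α_kHom]
    simp
  have hQcore : Q = D.core := by
    rw [hQ]
    refine le_antisymm ?_ (le_map_pCore hcoreC hconj hp)
    set C := Subgroup.centralizer (Z : Set G)
    set P := (pCore 2 ↥C).map C.subtype with hPdef
    have hPC : P ≤ C := Subgroup.map_subtype_le _
    have hPp : IsPGroup 2 ↥P := (isPGroup_pCore 2).map _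
    have hPn : ∀ c ∈ C, ∀ a ∈ P, c⁻¹ * a * c ∈ P := by
      rintro c hc _ ⟨y, hy, rfl⟩
      exact ⟨⟨c, hc⟩⁻¹ * y * ⟨c, hc⟩, (pCore_normal 2 _).conj_mem' y hy _, rfl⟩
    have h := acts_trivially (W := Fin n → ZMod 2)
      (by rw [Nat.card_fun, Nat.card_zmod, Nat.card_fin]; exact dvd_pow_self 2 (by omega))
      hPC hPp hPn (fun g x => (D.α g (0, x)).2) (fun w => by simp [D.α_one])
      (fun a ha b _ w => by
        show (D.α (a * b) (0, w)).2 = (D.α a (0, (D.α b (0, w)).2)).2
        rw [D.α_mul]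
        exact D.snd_congr ((hC a).1 ha) rfl)
      (fun a _ => by
        show (D.α a (0, 0)).2 = 0
        rw [Prod.mk_zero_zero, D.α_zero]; rfl)
      (fun x y hx hy => by
        obtain ⟨A, hA⟩ := exists_gl_mulVec_eq hx hy
        exact ⟨D.kHom A, hK ⟨A, rfl⟩, by rw [D.α_kHom]; exact hA⟩)
    intro a ha
    refine ⟨(hC a).1 (hPC ha), fun w => ?_⟩
    rw [← h a ha w.2]
    exact D.snd_congr ((hC a).1 (hPC ha)) rfl
  rw [hQcore]
  set b : ↥U := e.symm (0, Pi.single ⟨0, hn⟩ 1) with hb
  have heb : D.e b = (0, Pi.single ⟨0, hn⟩ 1) := e.apply_symm_apply _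
  -- the centre
  have hcent : ∀ x, (∀ q ∈ D.core, q * x = x * q) → x = 1 ∨ x = z := by
    intro x hx
    have hxU : x ∈ D.U := D.mem_U_of_α hab fun w => by
      apply D.e.symm.injective
      apply Subtype.ext
      rw [D.coe_conj, ← hx _ (hUcore (D.e.symm w).2), mul_inv_cancel_right]
    have hfix : ∀ c, c ⬝ᵥ (D.e ⟨x, hxU⟩).2 = 0 := by
      intro c
      have h := hx (D.tau c) (by
        refine ⟨by rw [D.α_tau]; simp, fun w => by rw [D.α_tau]⟩)
      have h' : D.α (D.tau c) (D.e ⟨x, hxU⟩) = D.e ⟨x, hxU⟩ := by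
        apply D.e.symm.injective
        apply Subtype.ext
        rw [D.coe_conj, Equiv.symm_apply_apply]
        show D.tau c * x * (D.tau c)⁻¹ = x
        rw [h, mul_inv_cancel_right]
      rw [D.α_tau] at h'
      simpa using congrArg Prod.fst h'
    have h2 : (D.e ⟨x, hxU⟩).2 = 0 := funext fun i => by simpa using hfix (Pi.single i 1)
    rcases Affine.two_cases (D.e ⟨x, hxU⟩).1 with h1 | h1
    · left
      have : D.e ⟨x, hxU⟩ = D.e 1 := by rw [D.e_one]; exact Prod.ext h1 h2
      exact congrArg Subtype.val (D.e.injective this)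
    · right
      have : D.e ⟨x, hxU⟩ = (1, 0) := Prod.ext h1 h2
      rw [← hesym, ← this, Equiv.symm_apply_apply]
  have hzcore : z ∈ D.core := hUcore (hZU hzZ)
  have hzc : ∀ q ∈ D.core, q * z = z * q := fun q hq =>
    (Subgroup.mem_centralizer_iff.1 (hcoreC hq) z hzZ).symm
  have hzOf : ∀ x, x ∈ zOf D.core ↔ x = 1 ∨ x = z := by
    intro x
    refine ⟨fun h => hcent x (mem_zOf.1 h).2, ?_⟩
    rintro (rfl | rfl)
    · exact (zOf D.core).one_mem
    · exact mem_zOf.2 ⟨hzcore, hzc⟩
  have hsq : ∀ a ∈ D.core, a * a ∈ zOf D.core := by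
    intro a ha
    obtain ⟨c, hc⟩ := D.exists_shear ha
    have h2 : a * a ∈ D.U := D.mem_U_of_α hab fun w => by
      rw [D.α_mul, hc, hc]
      refine Prod.ext ?_ rfl
      show w.1 + c ⬝ᵥ w.2 + c ⬝ᵥ w.2 = w.1
      rw [add_assoc, CharTwo.add_self_eq_zero, add_zero]
    obtain ⟨u, hu, m, hm, rfl⟩ := D.exists_decomp a
    have hmm : m * m = 1 := D.eq_of_α (D.M.mul_mem hm hm) D.M.one_mem fun w => by
      rw [D.α_mul, ← D.α_eq_of_mul hab hu, ← D.α_eq_of_mul hab hu (m := m) w, hc, hc, D.α_one]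
      refine Prod.ext ?_ rfl
      show w.1 + c ⬝ᵥ w.2 + c ⬝ᵥ w.2 = w.1
      rw [add_assoc, CharTwo.add_self_eq_zero, add_zero]
    have hval : D.e ⟨u * m * (u * m), h2⟩ = D.e ⟨u, hu⟩ + D.α m (D.e ⟨u, hu⟩) := by
      rw [Affine.Data.α, ← D.e_mul]
      refine congrArg D.e (Subtype.ext ?_)
      simp only [Equiv.symm_apply_apply]
      show u * m * (u * m) = u * (m * u * m⁻¹)
      rw [inv_eq_of_mul_eq_one_right hmm]
      simp only [mul_assoc]
    rw [← D.α_eq_of_mul hab hu, hc] at hval
    rw [hzOf]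
    rcases Affine.two_cases (D.e ⟨u * m * (u * m), h2⟩).1 with h1 | h1
    · left
      have : D.e ⟨u * m * (u * m), h2⟩ = D.e 1 := by
        rw [D.e_one]
        refine Prod.ext h1 ?_
        rw [hval]
        exact funext fun i => CharTwo.add_self_eq_zero _
      exact congrArg Subtype.val (D.e.injective this)
    · right
      have : D.e ⟨u * m * (u * m), h2⟩ = (1, 0) := Prod.ext h1 (by
        rw [hval]
        exact funext fun i => CharTwo.add_self_eq_zero _)
      rw [← hesym, ← this, Equiv.symm_apply_apply]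
  have hna : ∃ a ∈ D.core, ∃ c ∈ D.core, a * c ≠ c * a := by
    refine ⟨D.tau (Pi.single ⟨0, hn⟩ 1), ⟨by rw [D.α_tau]; simp, fun w => by rw [D.α_tau]⟩,
      b, hUcore b.2, fun h => ?_⟩
    have h' : D.α (D.tau (Pi.single ⟨0, hn⟩ 1)) (D.e b) = D.e b := by
      apply D.e.symm.injective
      apply Subtype.ext
      rw [D.coe_conj, Equiv.symm_apply_apply]
      rw [h, mul_inv_cancel_right]
    rw [D.α_tau, heb] at h'
    simpa using congrArg Prod.fst h'
  have hE : IsExtraspecial 2 ↥D.core := isExtraspecial_two_of hp hz1 hzOf hsq hna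
  refine ⟨hE, hcard, ⟨U, hUcore, hU, hUcard⟩, ?_, ?_⟩
  · have hb1 : (b : G) ≠ 1 := by
      intro h
      have : D.e b = D.e 1 := congrArg D.e (Subtype.ext h)
      rw [heb, D.e_one] at this
      simpa using congrFun (congrArg Prod.snd this) ⟨0, hn⟩
    have hbz : (b : G) ∉ zOf D.core := by
      rw [hzOf]
      rintro (h | h)
      · exact hb1 h
      · have : D.e b = (1, 0) := by
          rw [← D.e.apply_symm_apply (1, 0)]
          exact congrArg D.e (Subtype.ext (h.trans hesym.symm))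
        rw [heb] at this
        simpa using congrArg Prod.fst this
    refine isLarge_of_involution D.core hE ?_ ?_ b (hUcore b.2) hbz
      (orderOf_eq_prime (hU.2 _ b.2) hb1) ?_
    · refine le_antisymm (fun x hx => ?_) (zOf_le_centralizer _)
      exact (hzOf x).2 (hcent x fun q hq => Subgroup.mem_centralizer_iff.1 hx q hq)
    · intro g hg
      have hgC : g ∈ Subgroup.centralizer (Z : Set G) := by
        rw [Subgroup.mem_centralizer_iff]
        intro x hx
        rcases hZel x hx with rfl | rfl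
        · simp
        · exact Subgroup.mem_centralizer_iff.1 hg x ((hzOf x).2 (Or.inr rfl))
      rw [Subgroup.mem_normalizer_iff]
      refine fun a => ⟨hconj g hgC a, fun ha => ?_⟩
      have := hconj g⁻¹ ((Subgroup.centralizer _).inv_mem hgC) _ ha
      simpa [mul_assoc] using this
    · have hUb : U ≤ Subgroup.centralizer ({(b : G)} : Set G) := fun u hu =>
        Subgroup.mem_centralizer_singleton_iff.2 (congrArg Subtype.val (hab ⟨u, hu⟩ b))
      have hle := le_map_pCore hUb (fun c _ u hu => (inferInstance : U.Normal).conj_mem u hu c)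
        (hp.to_le hUcore)
      intro x hx
      refine hle ?_
      rcases (hzOf x).1 hx with rfl | rfl
      exacts [U.one_mem, hZU hzZ]
  · refine ⟨D.kHom.range, hK, ?_, ?_, ⟨(MonoidHom.ofInjective D.kHom_injective).symm⟩⟩
    · rw [Subgroup.eq_bot_iff_forall]
      rintro _ ⟨hA, A, rfl⟩
      have : A = 1 := by
        refine Units.ext (Matrix.toLin'.injective (LinearMap.ext fun x => ?_))
        have := (D.mem_core.1 hA).2 (0, x)
        rw [D.α_kHom] at this
        simpa using this
      rw [this, map_one]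
    · refine le_antisymm (sup_le hcoreC hK) fun g hg => ?_
      have hg' := (hC g).1 hg
      obtain ⟨A, hA⟩ := D.exists_linear hg'
      have hmem : g * (D.kHom A)⁻¹ ∈ D.core := by
        rw [← map_inv]
        refine ⟨by rw [D.α_mul, D.α_kHom]; simpa using hg', fun w => ?_⟩
        rw [D.α_mul, hA, D.α_kHom, Matrix.mulVec_mulVec, ← Units.val_mul, mul_inv_cancel,
          Units.val_one, Matrix.one_mulVec]
      have := Subgroup.mul_mem (D.core ⊔ D.kHom.range) (Subgroup.mem_sup_left hmem)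
        (Subgroup.mem_sup_right (⟨A, rfl⟩ : D.kHom A ∈ D.kHom.range))
      rwa [inv_mul_cancel_right] at this

end Cfsg.Agent.S5423
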