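import Cfsg.Statements.S5425
import Cfsg.Agent.Mathieu.OctadInvolution
-- import your own Cfsg.Agent.* helpers here

set_option autoImplicit false
open Cfsg CfsgLib.Mathieu CfsgLib.Golay
open scoped Pointwise

namespace Cfsg.Agent.S5425

/-- In the Mathieu group of degree 24 (the automorphism group of the length-24 binary Golay code, acting on the 24 coordinates), let z be an involution whose fixed points form an octad (the support of a code word of weight 8), and let Q be the largest normal 2-subgroup of the centralizer C of z. Then Q is extraspecial of order 2^7 with an elementary abelian subgroup of order 16 (plus type), Q is a large extraspecial 2-subgroup, and C is the split extension of Q by the special linear group of degree 3 over the field with two elements. -/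
theorem result (z : ↥Cfsg.M24) (hz : orderOf z = 2) (hfix : (Finset.univ.filter fun p : Cfsg.GolayPt => (z : Equiv.Perm Cfsg.GolayPt) p = p) ∈ Cfsg.octads) (Q : Subgroup ↥Cfsg.M24) (hQ : Q = (Cfsg.pCore 2 ↥(Subgroup.centralizer ({z} : Set ↥Cfsg.M24))).map (Subgroup.centralizer ({z} : Set ↥Cfsg.M24)).subtype) : Cfsg.IsExtraspecial 2 ↥Q ∧ Nat.card ↥Q = 2 ^ 7 ∧ (∃ E : Subgroup ↥Cfsg.M24, E ≤ Q ∧ Cfsg.IsElementaryAbelian 2 E ∧ Nat.card ↥E = 2 ^ 4) ∧ Cfsg.IsLargeExtraspecial Q ∧ ∃ K : Subgroup ↥Cfsg.M24, K ≤ Subgroup.centralizer ({z} : Set ↥Cfsg.M24) ∧ Q ⊓ K = ⊥ ∧ Q ⊔ K = Subgroup.centralizer ({z} : Set ↥Cfsg.M24) ∧ Nonempty (↥K ≃* Matrix.SpecialLinearGroup (Fin 3) (ZMod 2)) := by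
  let s : SL52 := ⟨Matrix.transvection 0 1 1, Matrix.det_transvection_of_ne _ _ (by decide) _⟩
  have hzp : orderOf (z : Equiv.Perm GolayPt) = 2 := by rwa [Subgroup.orderOf_coe]
  change fixedPts (z : Equiv.Perm GolayPt) ∈ octads at hfix
  obtain ⟨e, he⟩ := exists_centralizer_equiv_of_fix hz hfix s rfl
  set o := fixedPts (z : Equiv.Perm GolayPt) with ho
  obtain ⟨hcard, hsq⟩ := octPointFix_spec hfix
  have hzo : (z : Equiv.Perm GolayPt) ∈ octPointFix o :=
    Subgroup.mem_inf.2 ⟨z.2, (mem_fixingSubgroup_iff _).2 fun p hp =>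
      mem_fixedPts.1 (Finset.mem_coe.1 hp)⟩
  have hcomm : ∀ a ∈ octPointFix o, ∀ b ∈ octPointFix o, a * b = b * a := fun a ha b hb => by
    have h := hsq _ (Subgroup.mul_mem _ ha hb)
    rw [mul_eq_one_iff_eq_inv, mul_inv_rev, inv_eq_of_mul_eq_one_right (hsq b hb),
      inv_eq_of_mul_eq_one_right (hsq a ha)] at h
    exact h
  set N := (octPointFix o).subgroupOf Cfsg.M24
  have hN : N ≤ Subgroup.centralizer ({z} : Set ↥Cfsg.M24) := fun n hn =>
    Subgroup.mem_centralizer_singleton_iff.2 (Subtype.ext (hcomm _ hn _ hzo))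
  have hNn : ∀ c ∈ Subgroup.centralizer ({z} : Set ↥Cfsg.M24), ∀ n ∈ N, c * n * c⁻¹ ∈ N := by
    intro c hc n hn
    have hco : (c : Equiv.Perm GolayPt) • o = o := by
      have e := congrArg Subtype.val (Subgroup.mem_centralizer_singleton_iff.1 hc)
      rw [ho, ← fixedPts_conj]
      congr 1
      rw [mul_inv_eq_iff_eq_mul]
      exact e
    have := (conj_mem_octPointFix c.2).1 hn
    rw [hco] at this
    exact this
  have hNp : IsPGroup 2 ↥N := fun x => ⟨1, by
    rw [pow_one, pow_two]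
    exact Subtype.ext (Subtype.ext (hsq _ x.2))⟩
  obtain ⟨y, hy, hy1, hyz⟩ : ∃ y ∈ octPointFix o, y ≠ 1 ∧ y ≠ (z : Equiv.Perm GolayPt) := by
    by_contra! h
    have hsub : ((octPointFix o : Subgroup _) : Set (Equiv.Perm GolayPt)) ⊆ {1, (z : Equiv.Perm GolayPt)} := fun y hy => by
      by_cases e : y = 1
      · exact Or.inl e
      · exact Or.inr (h y hy e)
    have := Set.ncard_le_ncard hsub
    rw [← Nat.card_coe_set_eq] at this
    have h2 := Set.ncard_insert_le (1 : Equiv.Perm GolayPt) {(z : Equiv.Perm GolayPt)}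
    rw [Set.ncard_singleton] at h2
    simp only [SetLike.coe_sort_coe] at this
    omega
  have hy2 : orderOf y = 2 := orderOf_eq_prime (by rw [pow_two]; exact hsq y hy) hy1
  have hyfix : (fixedPts y).card ≠ 0 := by
    have hsub : o ⊆ fixedPts y := fun p hp =>
      mem_fixedPts.2 ((mem_fixingSubgroup_iff _).1 hy.2 p (Finset.mem_coe.2 hp))
    have := Finset.card_le_card hsub
    rw [hfix.2] at this
    omega
  obtain ⟨g, hg, hgy⟩ := isConj_of_involution z.2 hy.1 hzp hy2 (by
    rw [(fixedPts_mem_octads hy.1 hy2 hyfix).2]; exact hfix.2)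
  refine large_extraspecial_of_equiv hz s rfl e he hN hNn hNp ⟨g, hg⟩ ?_ ?_ Q hQ
  · show g * (z : Equiv.Perm GolayPt) * g⁻¹ ∈ octPointFix o
    rw [hgy]; exact hy
  · intro h
    exact hyz (hgy.symm.trans (congrArg Subtype.val h))

end Cfsg.Agent.S5425
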