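import Cfsg.Statements.S5427
import Cfsg.Agent.LargeExtraspecial.Simple

set_option autoImplicit false
open Cfsg CfsgLib CfsgLib.LargeExtraspecial

namespace Cfsg.Agent.S5427

/-- Let z be an involution of the finite group G whose centralizer C has generalized Fitting subgroup Q, an extraspecial 2-group of width at least 2 (order 2^(2w+1), w ≥ 2). Let K be a subgroup of G such that the subgroup U generated by the K-conjugates of z is abelian and C is generated by the C-conjugates of U. Suppose that either some K-conjugate of z other than z lies in Q, or some element u of U ∩ Q outside the subgroup generated by z has z in the largest normal 2-subgroup of its centralizer. Then G is simple and Q is a large extraspecial 2-subgroup of G. -/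
theorem result {G : Type*} [Group G] [Finite G] (z : G) (hz : orderOf z = 2) (Q : Subgroup G) (hQC : Q ≤ Subgroup.centralizer ({z} : Set G)) (hF : (Cfsg.generalizedFittingSubgroup ↥(Subgroup.centralizer ({z} : Set G))).map (Subgroup.centralizer ({z} : Set G)).subtype = Q) (hQ : Cfsg.IsExtraspecial 2 ↥Q) (w : ℕ) (hw : 2 ≤ w) (hcard : Nat.card ↥Q = 2 ^ (2 * w + 1)) (K U : Subgroup G) (hU : U = Subgroup.closure {x : G | ∃ k ∈ K, x = k * z * k⁻¹}) (hUab : IsMulCommutative ↥U) (hgen : Subgroup.closure {x : G | ∃ c ∈ Subgroup.centralizer ({z} : Set G), ∃ u ∈ U, x = c * u * c⁻¹} = Subgroup.centralizer ({z} : Set G)) (h3 : (∃ k ∈ K, k * z * k⁻¹ ∈ Q ∧ k * z * k⁻¹ ≠ z) ∨ ∃ u ∈ U ⊓ Q, u ∉ Subgroup.zpowers z ∧ (∃ hz' : z ∈ Subgroup.centralizer ({u} : Set G), (⟨z, hz'⟩ : ↥(Subgroup.centralizer ({u} : Set G))) ∈ Cfsg.pCore 2 ↥(Subgroup.centralizer ({u} : Set G)))) : IsSimpleGroup G ∧ Cfsg.IsLargeExtraspecial Q := by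
  classical
  have h : Setting Q z := setting_of_generalizedFitting hz hQC hF hQ
  have h32 : 32 ≤ Nat.card ↥Q := by
    rw [hcard]
    calc 32 = 2 ^ (2 * 2 + 1) := by norm_num
      _ ≤ 2 ^ (2 * w + 1) := Nat.pow_le_pow_right (by norm_num) (by omega)
  have hgensU : ∀ x ∈ U, x * x = 1 ∧ x ∈ Subgroup.normalClosure ({z} : Set G) := by
    intro x hx
    have hmem : ∀ a b : G, a ∈ U → b ∈ U → a * b = b * a := fun a b ha hb =>
      congrArg Subtype.val (hUab.is_comm.comm (⟨a, ha⟩ : ↥U) ⟨b, hb⟩)
    rw [hU] at hx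
    induction hx using Subgroup.closure_induction with
    | mem y hy =>
      obtain ⟨k, hk, rfl⟩ := hy
      refine ⟨?_, Subgroup.normalClosure_normal.conj_mem z (Subgroup.subset_normalClosure (Set.mem_singleton z)) k⟩
      calc k * z * k⁻¹ * (k * z * k⁻¹) = k * (z * z) * k⁻¹ := by group
        _ = 1 := by rw [h.z_mul_z]; group
    | one => exact ⟨one_mul 1, Subgroup.one_mem _⟩
    | mul a b ha hb iha ihb =>
      refine ⟨?_, Subgroup.mul_mem _ iha.2 ihb.2⟩
      have e := hmem a b (hU ▸ ha) (hU ▸ hb)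
      calc a * b * (a * b) = a * (b * a) * b := by group
        _ = (a * a) * (b * b) := by rw [← e]; group
        _ = 1 := by rw [iha.1, ihb.1, one_mul]
    | inv a _ iha =>
      refine ⟨?_, Subgroup.inv_mem _ iha.2⟩
      rw [← mul_inv_rev, iha.1, inv_one]
  have hlarge : Cfsg.IsLargeExtraspecial Q := by
    rcases h3 with ⟨k, -, hkQ, hkz⟩ | ⟨u, hu, huz, hz', hzu⟩
    · exact isLarge_of_conj_mem h h32 k hkQ hkz
    · have hu1 : u ≠ 1 := fun e => huz (e ▸ Subgroup.one_mem _)
      have huo : orderOf u = 2 := orderOf_eq_prime (by rw [pow_two, (hgensU u hu.1).1]) hu1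
      refine isLarge_of_involution Q hQ h.centralizer_eq ?_ u hu.2
        (h.not_mem_zOf hu1 fun e => huz (e ▸ Subgroup.mem_zpowers z)) huo ?_
      · intro c hc
        rw [Subgroup.mem_normalizer_iff]
        exact h.normalized c (Subgroup.mem_centralizer_iff.1 hc z h.z_mem_zOf).symm
      · intro x hx
        rcases (h.mem_iff x).1 hx with rfl | rfl
        · exact Subgroup.one_mem _
        · exact ⟨_, hzu, rfl⟩
  refine ⟨isSimpleGroup_of_centralizer_le hlarge h ?_ ?_, hlarge⟩
  · rw [← hgen, Subgroup.closure_le]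
    rintro _ ⟨c, -, u, hu, rfl⟩
    exact Subgroup.normalClosure_normal.conj_mem u (hgensU u hu).2 c
  · by_contra hne
    push Not at hne
    rcases h3 with ⟨k, -, -, hkz⟩ | ⟨u, hu, huz, -⟩
    · exact hkz (hne k)
    · apply huz
      have : U ≤ Subgroup.zpowers z := by
        rw [hU, Subgroup.closure_le]
        rintro _ ⟨k, -, rfl⟩
        rw [hne k]
        exact Subgroup.mem_zpowers z
      exact this hu.1

end Cfsg.Agent.S5427
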