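import Cfsg.Statements.S5434
import Cfsg.Agent.LargeExtraspecial.Extraspecial
import Cfsg.Agent.Coprime.Stabilizer

set_option autoImplicit false
open Cfsg
open scoped commutatorElement

namespace Cfsg.Agent.S5434

/-- Let Q be a large extraspecial 2-subgroup of the finite group G (extraspecial; centralizer equal to its centre; normal in the centralizer of its centre; normalizing no non-trivial subgroup of odd order), and A a non-trivial subgroup of odd order of the normalizer of Q. Then Q is the central product of the centralizer of A in Q and the commutator subgroup [Q, A] (they generate Q and commute elementwise), [Q, A] is extraspecial, and the centralizer of A in Q is either the centre of Q or extraspecial. -/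
theorem result {G : Type*} [Group G] [Finite G] (Q : Subgroup G) (hQ : Cfsg.IsLargeExtraspecial Q) (A : Subgroup G) (hA : A ≤ Subgroup.normalizer (Q : Set G)) (hAodd : Odd (Nat.card ↥A)) (hA1 : A ≠ ⊥) : (Q ⊓ Subgroup.centralizer (A : Set G)) ⊔ ⁅Q, A⁆ = Q ∧ (∀ x ∈ Q ⊓ Subgroup.centralizer (A : Set G), ∀ y ∈ ⁅Q, A⁆, x * y = y * x) ∧ Cfsg.IsExtraspecial 2 ↥⁅Q, A⁆ ∧ (Q ⊓ Subgroup.centralizer (A : Set G) = ((Subgroup.center ↥Q).map Q.subtype) ∨ Cfsg.IsExtraspecial 2 ↥(Q ⊓ Subgroup.centralizer (A : Set G))) := by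
  classical
  haveI : Fact (Nat.Prime 2) := ⟨Nat.prime_two⟩
  obtain ⟨hE, hC, -, hK⟩ := hQ
  obtain ⟨z, hz2, hzQ, hz⟩ := CfsgLib.LargeExtraspecial.exists_gen hE
  have hzZ : z ∈ CfsgLib.LargeExtraspecial.zOf Q := (hz z).2 (Or.inr rfl)
  set C := Q ⊓ Subgroup.centralizer (A : Set G) with hCdef
  set D := ⁅Q, A⁆ with hDdef
  have hAn := Subgroup.le_normalizer_iff.1 hA
  have hconjA : ∀ a ∈ A, ∀ q : G, a * q * a⁻¹ ∈ Q ↔ q ∈ Q := fun a ha q =>
    (Subgroup.mem_normalizer_iff.1 (hA ha) q).symm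
  have hDQ : D ≤ Q := by
    rw [hDdef, Subgroup.commutator_le]
    intro q hq a ha
    rw [commutatorElement_def, mul_assoc q a, mul_assoc q]
    exact Q.mul_mem hq ((hconjA a ha q⁻¹).2 (Q.inv_mem hq))
  -- `A` fixes `z`
  have hzA : ∀ a ∈ A, a * z * a⁻¹ = z := by
    intro a ha
    have hmem : a * z * a⁻¹ ∈ CfsgLib.LargeExtraspecial.zOf Q := by
      refine CfsgLib.LargeExtraspecial.mem_zOf.2 ⟨hAn a ha z hzQ, fun q hq => ?_⟩
      have hq' := (CfsgLib.LargeExtraspecial.mem_zOf.1 hzZ).2 (a⁻¹ * q * a)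
        ((hconjA a ha _).1 (by simpa [mul_assoc] using hq))
      calc q * (a * z * a⁻¹) = a * ((a⁻¹ * q * a) * z) * a⁻¹ := by group
        _ = a * z * a⁻¹ * q := by rw [hq']; group
    rcases (hz _).1 hmem with e | e
    · rw [mul_inv_eq_one, mul_eq_left] at e
      rw [e, orderOf_one] at hz2; omega
    · exact e
  have hzcomm : ∀ a ∈ A, a * z = z * a := fun a ha => mul_inv_eq_iff_eq_mul.1 (hzA a ha)
  have hzC : ∀ x ∈ CfsgLib.LargeExtraspecial.zOf Q, x ∈ C := by
    intro x hx
    rcases (hz x).1 hx with rfl | rfl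
    · exact Subgroup.one_mem _
    · exact ⟨hzQ, Subgroup.mem_centralizer_iff.2 fun a ha => hzcomm a ha⟩
  have hcopA : ∀ a ∈ A, (orderOf a).Coprime 2 := fun a ha =>
    (Nat.coprime_two_right.2 hAodd).coprime_dvd_left (A.orderOf_dvd_natCard ha)
  -- fixed modulo the centre means fixed
  have hfix : ∀ a ∈ A, ∀ q : G, a * q * a⁻¹ * q⁻¹ ∈ CfsgLib.LargeExtraspecial.zOf Q → a * q = q * a := by
    intro a ha q h
    apply CfsgLib.Coprime.commute_of_commute_commutator_mem (H := CfsgLib.LargeExtraspecial.zOf Q) ?_ h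
    · rw [CfsgLib.LargeExtraspecial.card_zOf hE]; exact hcopA a ha
    · rcases (hz _).1 h with e | e <;> rw [e]
      · simp
      · exact hzcomm a ha
  -- `C` commutes with `D`
  have hcomm : ∀ x ∈ C, ∀ y ∈ D, x * y = y * x := by
    intro c hc
    have hca : ∀ a ∈ A, a * c = c * a := fun a ha => Subgroup.mem_centralizer_iff.1 hc.2 a ha
    suffices D ≤ Subgroup.centralizer ({c} : Set G) from fun y hy =>
      ((Subgroup.mem_centralizer_singleton_iff.1 (this hy))).symm
    rw [hDdef, Subgroup.commutator_le]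
    intro q hq a ha
    rw [Subgroup.mem_centralizer_singleton_iff, commutatorElement_def]
    set k := q * c * q⁻¹ * c⁻¹ with hk
    have hkz : a * k = k * a := by
      rcases (hz _).1 (CfsgLib.LargeExtraspecial.comm_mem hE hq hc.1) with e | e <;> rw [hk, e]
      · simp
      · exact hzcomm a ha
    have hkzq : ∀ x ∈ Q, x * k = k * x :=
      (CfsgLib.LargeExtraspecial.mem_zOf.1 (CfsgLib.LargeExtraspecial.comm_mem hE hq hc.1)).2
    have e1 : q⁻¹ * c = k⁻¹ * (c * q⁻¹) := by
      have : c * q⁻¹ = k * (q⁻¹ * c) := by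
        calc c * q⁻¹ = q⁻¹ * (q * c * q⁻¹ * c⁻¹) * c := by group
          _ = k * (q⁻¹ * c) := by rw [← hk, hkzq _ (Q.inv_mem hq), mul_assoc]
      rw [this, inv_mul_cancel_left]
    have hai : a⁻¹ * c = c * a⁻¹ := by
      rw [inv_mul_eq_iff_eq_mul, ← mul_assoc, hca a ha, mul_inv_cancel_right]
    have hki : a⁻¹ * k⁻¹ = k⁻¹ * a⁻¹ := by rw [← mul_inv_rev, ← mul_inv_rev, hkz]
    calc q * a * q⁻¹ * a⁻¹ * c = q * a * q⁻¹ * c * a⁻¹ := by rw [mul_assoc _ a⁻¹ c, hai, ← mul_assoc]
      _ = q * a * (q⁻¹ * c) * a⁻¹ := by group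
      _ = q * (a * k⁻¹) * c * q⁻¹ * a⁻¹ := by rw [e1]; group
      _ = q * k⁻¹ * (a * c) * q⁻¹ * a⁻¹ := by
          have : a * k⁻¹ = k⁻¹ * a := by
            rw [← inv_inv a, ← mul_inv_rev, ← mul_inv_rev]
            rw [show k * a⁻¹ = a⁻¹ * k by rw [eq_inv_mul_iff_mul_eq, ← mul_assoc, hkz, mul_inv_cancel_right]]
          rw [this]; group
      _ = q * (k⁻¹ * c) * a * q⁻¹ * a⁻¹ := by rw [hca a ha]; group
      _ = c * (q * a * q⁻¹ * a⁻¹) := by
          have h2 : q * (k⁻¹ * c) = c * q := by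
            have h3 : k * q = q * k := (hkzq q hq).symm
            calc q * (k⁻¹ * c) = k⁻¹ * (q * c) := by
                  rw [← mul_assoc, show q * k⁻¹ = k⁻¹ * q by
                    rw [eq_inv_mul_iff_mul_eq, ← mul_assoc, h3, mul_inv_cancel_right], mul_assoc]
              _ = c * q := by rw [hk]; group
          rw [h2]; group
  -- generation
  have hgen : C ⊔ D = Q := by
    refine le_antisymm (sup_le inf_le_left hDQ) ?_
    intro q hq
    letI := Fintype.ofFinite ↥A
    set S : Subgroup G := D ⊔ CfsgLib.LargeExtraspecial.zOf Q with hS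
    have hzeq : ∀ a ∈ A, a * q * a⁻¹ * q⁻¹ ∈ D := by
      intro a ha
      have := Subgroup.commutator_mem_commutator hq ha
      have := D.inv_mem this
      rwa [commutatorElement_inv, commutatorElement_def] at this
    -- average in the abelian group `Q / Z(Q)`
    letI : CommGroup (↥Q ⧸ Subgroup.center ↥Q) :=
      { (inferInstance : Group (↥Q ⧸ Subgroup.center ↥Q)) with
        mul_comm := by
          intro x y
          induction x using QuotientGroup.induction_on with
          | _ x =>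
          induction y using QuotientGroup.induction_on with
          | _ y =>
          rw [← QuotientGroup.mk_mul, ← QuotientGroup.mk_mul, QuotientGroup.eq, ← hE.1.2.2]
          have := Subgroup.commutator_mem_commutator (Subgroup.mem_top y⁻¹) (Subgroup.mem_top x⁻¹)
          rw [commutatorElement_def] at this
          rw [commutator_def]
          simpa [mul_assoc] using this }
    let f : ↥A → ↥Q ⧸ Subgroup.center ↥Q := fun a =>
      QuotientGroup.mk ⟨(a : G) * q * (a : G)⁻¹, hAn a a.2 q hq⟩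
    obtain ⟨c, hc⟩ := QuotientGroup.mk_surjective (∏ a : ↥A, f a)
    have hcA : ∀ b ∈ A, b * (c : G) = (c : G) * b := by
      intro b hb
      apply hfix b hb
      let θ : ↥Q →* ↥Q :=
        { toFun := fun x => ⟨b * x * b⁻¹, hAn b hb x x.2⟩
          map_one' := Subtype.ext (by simp)
          map_mul' := fun x y => Subtype.ext (by simp [mul_assoc]) }
      have hθ : Subgroup.center ↥Q ≤ (Subgroup.center ↥Q).comap θ := by
        intro x hx
        have hx' : (x : G) ∈ CfsgLib.LargeExtraspecial.zOf Q := ⟨x, hx, rfl⟩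
        have : θ x = x := Subtype.ext (by
          show b * (x : G) * b⁻¹ = x
          rcases (hz _).1 hx' with e | e <;> rw [e]
          · simp
          · exact hzA b hb)
        rw [Subgroup.mem_comap, this]; exact hx
      have hperm : QuotientGroup.map _ _ θ hθ (∏ a : ↥A, f a) = ∏ a : ↥A, f a := by
        rw [map_prod]
        refine Fintype.prod_equiv (Equiv.mulLeft (⟨b, hb⟩ : ↥A)) _ _ fun a => ?_
        simp only [f, QuotientGroup.map_mk, Equiv.coe_mulLeft]
        congr 1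
        exact Subtype.ext (by simp [θ, mul_assoc])
      rw [← hc, QuotientGroup.map_mk, QuotientGroup.eq] at hperm
      have := Subgroup.mem_map_of_mem Q.subtype ((Subgroup.center ↥Q).inv_mem hperm)
      have h2 := (CfsgLib.LargeExtraspecial.mem_zOf.1 this).2 (c : G) c.2
      have e : Q.subtype ((θ c)⁻¹ * c)⁻¹ = (c : G)⁻¹ * (b * c * b⁻¹) := by simp [θ]
      rw [e] at this h2
      rw [show b * (c : G) * b⁻¹ * (c : G)⁻¹ = (c : G)⁻¹ * (b * c * b⁻¹) by
        rw [← mul_inv_eq_iff_eq_mul.2 h2]; group]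
      exact this
    have hcC : (c : G) ∈ C := ⟨c.2, Subgroup.mem_centralizer_iff.2 fun b hb => hcA b hb⟩
    set q₀ : ↥Q := ⟨q, hq⟩
    let DQ : Subgroup (↥Q ⧸ Subgroup.center ↥Q) := (D.subgroupOf Q).map (QuotientGroup.mk' _)
    have hprod : (∏ a : ↥A, f a) * ((QuotientGroup.mk q₀ : ↥Q ⧸ Subgroup.center ↥Q) ^ Nat.card ↥A)⁻¹ ∈ DQ := by
      rw [Nat.card_eq_fintype_card, ← Finset.card_univ, ← Finset.prod_const, ← Finset.prod_inv_distrib,
        ← Finset.prod_mul_distrib]
      refine DQ.prod_mem fun a _ => ?_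
      exact ⟨⟨(a : G) * q * (a : G)⁻¹ * q⁻¹, hDQ (hzeq a a.2)⟩, hzeq a a.2, rfl⟩
    have hodd' : (QuotientGroup.mk q₀ : ↥Q ⧸ Subgroup.center ↥Q) ^ Nat.card ↥A = QuotientGroup.mk q₀ := by
      obtain ⟨m, hm⟩ := hAodd
      rw [hm, pow_succ, pow_mul]
      have : (QuotientGroup.mk q₀ : ↥Q ⧸ Subgroup.center ↥Q) ^ 2 = 1 := by
        rw [pow_two, ← QuotientGroup.mk_mul, QuotientGroup.eq_one_iff]
        obtain ⟨y, hy, hye⟩ := CfsgLib.LargeExtraspecial.sq_mem hE hq
        exact (Subtype.ext hye : y = q₀ * q₀) ▸ hy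
      rw [this, one_pow, one_mul]
    rw [hodd', ← hc] at hprod
    obtain ⟨d, hd, hde⟩ := hprod
    rw [QuotientGroup.mk'_apply, ← QuotientGroup.mk_inv, ← QuotientGroup.mk_mul, QuotientGroup.eq] at hde
    have hw := Subgroup.mem_map_of_mem Q.subtype hde
    set w := Q.subtype (d⁻¹ * (c * q₀⁻¹)) with hwdef
    have hq' : q = (w : G)⁻¹ * (d : G)⁻¹ * c := by
      have : (w : G) = (d : G)⁻¹ * (c * q⁻¹) := by simp [hwdef, q₀]
      rw [← mul_inv_rev, this]; group
    rw [hq']
    exact Subgroup.mul_mem _ (Subgroup.mul_mem _ (Subgroup.inv_mem _ ((le_sup_left : C ≤ C ⊔ D) (hzC _ hw)))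
      (Subgroup.inv_mem _ ((le_sup_right : D ≤ C ⊔ D) hd))) ((le_sup_left : C ≤ C ⊔ D) hcC)
  -- centres
  have hcentre : ∀ X Y : Subgroup G, X ⊔ Y = Q → (∀ x ∈ X, ∀ y ∈ Y, x * y = y * x) →
      CfsgLib.LargeExtraspecial.zOf X ≤ CfsgLib.LargeExtraspecial.zOf Q := by
    intro X Y hXY hxy x hx
    obtain ⟨hxX, hxc⟩ := CfsgLib.LargeExtraspecial.mem_zOf.1 hx
    refine CfsgLib.LargeExtraspecial.mem_zOf.2 ⟨hXY ▸ (le_sup_left : X ≤ X ⊔ Y) hxX, ?_⟩
    have : Q ≤ Subgroup.centralizer ({x} : Set G) := by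
      rw [← hXY]
      exact sup_le (fun u hu => Subgroup.mem_centralizer_singleton_iff.2 (hxc u hu))
        (fun u hu => Subgroup.mem_centralizer_singleton_iff.2 (hxy x hxX u hu).symm)
    exact fun u hu => Subgroup.mem_centralizer_singleton_iff.1 (this hu)
  refine ⟨hgen, hcomm, ?_, ?_⟩
  · refine (CfsgLib.LargeExtraspecial.isExtraspecial_of_le hE hDQ ?_ ?_).1
    · by_contra hab
      push Not at hab
      have hDz : D ≤ CfsgLib.LargeExtraspecial.zOf Q := fun x hx =>
        hcentre D C (sup_comm D C ▸ hgen) (fun u hu v hv => (hcomm v hv u hu).symm)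
          (CfsgLib.LargeExtraspecial.mem_zOf.2 ⟨hx, fun y hy => hab y hy x hx⟩)
      apply hA1
      rw [eq_bot_iff]
      intro a ha
      have : a ∈ Subgroup.centralizer (Q : Set G) := by
        refine Subgroup.mem_centralizer_iff.2 fun q hq => (hfix a ha q ?_).symm
        have := Subgroup.inv_mem _ (hDz (Subgroup.commutator_mem_commutator hq ha))
        rwa [commutatorElement_inv, commutatorElement_def] at this
      rw [hC] at this
      have h2 : a ∈ A ⊓ Q := ⟨ha, CfsgLib.LargeExtraspecial.zOf_le Q this⟩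
      rwa [CfsgLib.LargeExtraspecial.inf_eq_bot_of_odd_of_isPGroup_two hAodd hE.1.1] at h2
    · exact hcentre D C (sup_comm D C ▸ hgen) (fun u hu v hv => (hcomm v hv u hu).symm)
  · by_cases hna : ∃ a ∈ C, ∃ b ∈ C, a * b ≠ b * a
    · exact Or.inr (CfsgLib.LargeExtraspecial.isExtraspecial_of_le hE inf_le_left hna
        (hcentre C D hgen hcomm)).1
    · left
      push Not at hna
      refine le_antisymm (fun x hx => hcentre C D hgen hcomm
        (CfsgLib.LargeExtraspecial.mem_zOf.2 ⟨hx, fun y hy => hna y hy x hx⟩)) hzC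

end Cfsg.Agent.S5434
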