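import Cfsg.Statements.S5428
import Cfsg.Agent.LargeExtraspecial.Section
import Cfsg.Agent.LargeExtraspecial.Simple
import Cfsg.Agent.S5434
-- import your own Cfsg.Agent.* helpers here

set_option autoImplicit false
open Cfsg CfsgLib.LargeExtraspecial

namespace Cfsg.Agent.S5428

/-- Let z be an involution of the finite group G whose centralizer C has generalized Fitting subgroup Q extraspecial (as a 2-group), let A be a subgroup of C of odd order, and let R be the centralizer of A in Q; suppose R has order at least 32, the largest normal subgroup of odd order of the centralizer of the subgroup generated by A and R lies in A, the order of that centralizer is not divisible by 4, and g is an element of G with g z g⁻¹ in R but outside the centre Z of Q. Let M be the subgroup generated by A and the centralizer of A (A is normal in it). Then: the centralizer in M of the subgroup generated by R and A, joined with A, equals the subgroup generated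 by A and Z; the image of R in M/A is a large extraspecial 2-subgroup of M/A; and g z g⁻¹ is conjugate to z inside the subgroup generated by R and the centralizer of A in g Q g⁻¹. -/
theorem result {G : Type*} [Group G] [Finite G] (z : G) (hz : orderOf z = 2) (Q : Subgroup G) (hQC : Q ≤ Subgroup.centralizer ({z} : Set G)) (hF : (Cfsg.generalizedFittingSubgroup ↥(Subgroup.centralizer ({z} : Set G))).map (Subgroup.centralizer ({z} : Set G)).subtype = Q) (hQ : Cfsg.IsExtraspecial 2 ↥Q) (A : Subgroup G) (hA : A ≤ Subgroup.centralizer ({z} : Set G)) (hAodd : Odd (Nat.card ↥A)) (R : Subgroup G) (hR : R = Q ⊓ Subgroup.centralizer (A : Set G)) (hR32 : 32 ≤ Nat.card ↥R) (hO : (Cfsg.oddCore ↥(Subgroup.centralizer ((A ⊔ R : Subgroup G) : Set G))).map (Subgroup.centralizer ((A ⊔ R : Subgroup G) : Set G)).subtype ≤ A) (h4 : ¬ 4 ∣ Nat.card ↥(Subgroup.centralizer ((A ⊔ R : Subgroup G) : Set G))) (g : G) (hgR : g * z * g⁻¹ ∈ R) (hgZ : g * z * g⁻¹ ∉ ((Subgroup.center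 ↥Q).map Q.subtype)) (M : Subgroup G) (hM : M = Subgroup.centralizer (A : Set G) ⊔ A) [hn : (A.subgroupOf M).Normal] : (M ⊓ Subgroup.centralizer ((R ⊔ A : Subgroup G) : Set G)) ⊔ A = A ⊔ ((Subgroup.center ↥Q).map Q.subtype) ∧ Cfsg.IsLargeExtraspecial ((R.subgroupOf M).map (QuotientGroup.mk' (A.subgroupOf M))) ∧ ∃ x ∈ R ⊔ ((Q).map (MulAut.conj g).toMonoidHom ⊓ Subgroup.centralizer (A : Set G)), x * (g * z * g⁻¹) * x⁻¹ = z := by
  classical
  haveI : Fact (Nat.Prime 2) := ⟨Nat.prime_two⟩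
  have h : Setting Q z := setting_of_generalizedFitting hz hQC hF hQ
  set CA := Subgroup.centralizer (A : Set G) with hCA
  have hRQ : R ≤ Q := hR ▸ inf_le_left
  have hRA : R ≤ CA := hR ▸ inf_le_right
  have h32 : 32 ≤ Nat.card ↥Q := hR32.trans (Subgroup.card_le_of_le hRQ)
  have hgz : g * z * g⁻¹ ≠ z := fun e => hgZ (e.symm ▸ h.z_mem_zOf)
  have hlQ := isLarge_of_conj_mem h h32 g (hRQ hgR) hgz
  have hzU := mem_conj_of_conj_mem h h32 g (hRQ hgR) hgz
  have hU := h.conj g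
  set U := Q.map (MulAut.conj g).toMonoidHom with hUdef
  set s := g * z * g⁻¹ with hs
  have hU32 : 32 ≤ Nat.card ↥U := by
    rw [hUdef, Subgroup.card_map_of_injective (MulAut.conj g).injective]; exact h32
  have hlU : IsLargeExtraspecial U := by
    have e1 : g⁻¹ * s * (g⁻¹)⁻¹ = z := by rw [hs]; group
    refine isLarge_of_conj_mem hU hU32 g⁻¹ ?_ ?_ <;> rw [e1]
    exacts [hzU, hgz.symm]
  have hzA : z ∈ CA := Subgroup.mem_centralizer_iff.2 fun a ha =>
    Subgroup.mem_centralizer_singleton_iff.1 (hA ha)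
  have hsA : s ∈ CA := hRA hgR
  have hAQ : A ≤ Subgroup.normalizer (Q : Set G) := fun a ha =>
    Subgroup.mem_normalizer_iff.2 (h.normalized a (Subgroup.mem_centralizer_singleton_iff.1 (hA ha)))
  have hAU : A ≤ Subgroup.normalizer (U : Set G) := fun a ha =>
    Subgroup.mem_normalizer_iff.2 (hU.normalized a (Subgroup.mem_centralizer_iff.1 hsA a ha))
  -- an element of `C_Q(A)` central there is central
  have decomp : ∀ Q' : Subgroup G, IsLargeExtraspecial Q' → A ≤ Subgroup.normalizer (Q' : Set G) →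
      ∀ x ∈ Q' ⊓ CA, (∀ r ∈ Q' ⊓ CA, r * x = x * r) → x ∈ zOf Q' := by
    intro Q' hl hn x hx hall
    refine mem_zOf.2 ⟨hx.1, ?_⟩
    by_cases hA1 : A = ⊥
    · intro q hq
      refine hall q ⟨hq, Subgroup.mem_centralizer_iff.2 fun a ha => ?_⟩
      rw [Subgroup.mem_bot.1 (hA1 ▸ ha : a ∈ (⊥ : Subgroup G)), one_mul, mul_one]
    · obtain ⟨hgen, hcomm, -⟩ := Cfsg.Agent.S5434.result Q' hl A hn hAodd hA1
      have hle : Q' ≤ Subgroup.centralizer ({x} : Set G) := by
        conv_lhs => rw [← hgen]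
        exact sup_le (fun r hr => Subgroup.mem_centralizer_singleton_iff.2 (hall r hr))
          (fun d hd => Subgroup.mem_centralizer_singleton_iff.2 (hcomm x hx d hd).symm)
      exact fun q hq => Subgroup.mem_centralizer_singleton_iff.1 (hle hq)
  have hzR : z ∈ R := hR ▸ ⟨h.z_mem, hzA⟩
  have hZR : ∀ x ∈ R, (∀ r ∈ R, r * x = x * r) → x ∈ zOf Q := by
    rw [hR]; exact decomp Q hlQ hAQ
  have hnaR : ∃ a ∈ R, ∃ b ∈ R, a * b ≠ b * a := by
    by_contra hne
    push Not at hne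
    have hle : R ≤ zOf Q := fun x hx => hZR x hx fun r hr => hne r hr x hx
    have := Subgroup.card_le_of_le hle
    rw [card_zOf hQ] at this
    omega
  have hAQ1 : ∀ x ∈ A, x ∈ Q → x = 1 := by
    intro x h1 h2
    have : x ∈ A ⊓ Q := ⟨h1, h2⟩
    rwa [inf_eq_bot_of_odd_of_isPGroup_two hAodd hQ.1.1, Subgroup.mem_bot] at this
  -- the centralizer of `A R`
  set D := Subgroup.centralizer ((A ⊔ R : Subgroup G) : Set G) with hD
  have hDA : D ≤ CA := Subgroup.centralizer_le (SetLike.coe_subset_coe.2 le_sup_left)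
  have memD : ∀ {c}, c ∈ CA → (∀ r ∈ R, r * c = c * r) → c ∈ D := by
    intro c hc hr
    refine Subgroup.mem_centralizer_iff.2 fun x hx => ?_
    have : A ⊔ R ≤ Subgroup.centralizer ({c} : Set G) :=
      sup_le (fun a ha => Subgroup.mem_centralizer_singleton_iff.2 (Subgroup.mem_centralizer_iff.1 hc a ha))
        (fun r hr' => Subgroup.mem_centralizer_singleton_iff.2 (hr r hr'))
    exact Subgroup.mem_centralizer_singleton_iff.1 (this hx)
  have hzD : z ∈ D := memD hzA fun r hr => h.comm (hRQ hr)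
  have hDle : D ≤ A ⊔ zOf Q := by
    have hzc : ∀ d : ↥D, d * ⟨z, hzD⟩ = ⟨z, hzD⟩ * d := fun d => Subtype.ext
      (Subgroup.mem_centralizer_iff.1 d.2 z ((le_sup_right : R ≤ A ⊔ R) hzR)).symm
    set K := Subgroup.zpowers (⟨z, hzD⟩ : ↥D) with hK
    have hKc : ∀ k ∈ K, ∀ d : ↥D, d * k = k * d := by
      intro k hk d
      obtain ⟨m, rfl⟩ := Subgroup.mem_zpowers_iff.1 hk
      exact (Commute.zpow_right (hzc d) m).eq
    haveI hKn : K.Normal := ⟨fun k hk d => by rw [hKc k hk d, mul_inv_cancel_right]; exact hk⟩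
    have hK2 : Nat.card ↥K = 2 := by
      rw [Nat.card_zpowers, ← Subgroup.orderOf_coe]; exact h.order
    have hindex : Odd K.index := by
      rcases Nat.even_or_odd K.index with e | e
      · exfalso
        obtain ⟨m, hm⟩ := e
        refine h4 ⟨m, ?_⟩
        rw [← K.card_mul_index, hK2, hm]; ring
      · exact e
    obtain ⟨K', hK'⟩ := Subgroup.exists_right_complement'_of_coprime (N := K)
      (by rw [hK2]; exact Nat.coprime_two_left.2 hindex)
    have hcop : (Nat.card ↥K').Coprime 2 := by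
      rw [hK'.symm.index_eq_card.symm]; exact Nat.coprime_two_right.2 hindex
    haveI hK'n : K'.Normal := by
      refine Subgroup.normalizer_eq_top_iff.1 (eq_top_iff.2 ?_)
      rw [← hK'.sup_eq_top]
      refine sup_le (Subgroup.le_normalizer_iff.2 fun k hk n hn => ?_) Subgroup.le_normalizer
      rw [← hKc k hk n, mul_inv_cancel_right]; exact hn
    have hle : K' ≤ oddCore ↥D := le_sSup ⟨hK'n, hcop⟩
    intro x hx
    have hxm : (⟨x, hx⟩ : ↥D) ∈ ((A ⊔ zOf Q).subgroupOf D : Subgroup ↥D) := by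
      have : K ⊔ K' ≤ (A ⊔ zOf Q).subgroupOf D := by
        refine sup_le (Subgroup.zpowers_le.2 ?_) (fun k hk => ?_)
        · exact (le_sup_right : zOf Q ≤ A ⊔ zOf Q) h.z_mem_zOf
        · exact (le_sup_left : A ≤ A ⊔ zOf Q) (hO ⟨k, hle hk, rfl⟩)
      rw [hK'.sup_eq_top] at this
      exact this (Subgroup.mem_top _)
    exact hxm
  have hCAM : CA ≤ M := hM ▸ le_sup_left
  have hAM : A ≤ M := hM ▸ le_sup_right
  refine ⟨?_, ?_⟩
  · rw [sup_comm R A, ← hD, inf_eq_right.2 (hDA.trans hCAM)]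
    refine le_antisymm (sup_le hDle le_sup_left) (sup_le le_sup_right (fun x hx => ?_))
    refine (le_sup_left : D ≤ D ⊔ A) ?_
    rcases (h.mem_iff x).1 hx with rfl | rfl
    · exact Subgroup.one_mem _
    · exact hzD
  -- the quotient
  let mk : ↥M →* ↥M ⧸ A.subgroupOf M := QuotientGroup.mk' _
  have mk_one : ∀ x : ↥M, mk x = 1 ↔ (x : G) ∈ A := fun x => by
    rw [← Subgroup.mem_subgroupOf]
    exact QuotientGroup.eq_one_iff x
  have hrep : ∀ x, ∃ c : ↥M, (c : G) ∈ CA ∧ mk c = x := by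
    intro x
    obtain ⟨m, rfl⟩ := QuotientGroup.mk'_surjective _ x
    have hn' : CA ≤ Subgroup.normalizer (A : Set G) := Subgroup.centralizer_le_normalizer _
    have hm : (m : G) ∈ CA ⊔ A := hM ▸ m.2
    rw [← SetLike.mem_coe, Subgroup.coe_mul_of_left_le_normalizer_right _ _ hn'] at hm
    obtain ⟨c, hc, a, ha, hca⟩ := hm
    refine ⟨⟨c, hCAM hc⟩, hc, ?_⟩
    have : m = ⟨c, hCAM hc⟩ * ⟨a, hAM ha⟩ := Subtype.ext hca.symm
    show mk _ = mk m
    rw [this, map_mul, (mk_one ⟨a, hAM ha⟩).2 ha, mul_one]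
  have hpow4 : ∀ {r}, r ∈ Q → r ^ 4 = 1 := by
    intro r hr
    rw [show 4 = 2 * 2 from rfl, pow_mul, pow_two r]
    rcases (h.mem_iff _).1 (sq_mem hQ hr) with e | e <;> rw [e]
    · rw [one_pow]
    · rw [pow_two, h.z_mul_z]
  have hkill : ∀ c r : ↥M, (c : G) ∈ CA → (r : G) ∈ CA → (r : G) ^ 4 = 1 →
      mk c * mk r = mk r * mk c → (c : G) * r = r * c := by
    intro c r hc hr h4r e
    have hmk : mk (c * r * c⁻¹ * r⁻¹) = 1 := by
      rw [map_mul, map_mul, map_mul, map_inv, map_inv, e]; group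
    have hk : (c : G) * r * (c : G)⁻¹ * (r : G)⁻¹ ∈ A := (mk_one _).1 hmk
    set k := (c : G) * r * (c : G)⁻¹ * (r : G)⁻¹ with hkd
    have hkr : Commute k (r : G) := Subgroup.mem_centralizer_iff.1 hr k hk
    have h1 : k * (r : G) = (c : G) * r * (c : G)⁻¹ := by rw [hkd]; group
    have h2 : k ^ 4 = 1 := by
      have := congrArg (fun x => x ^ 4) h1
      simp only [hkr.mul_pow, h4r, mul_one, conj_pow, mul_one, mul_inv_cancel] at this
      exact this
    have h3 : k ^ Nat.card ↥A = 1 := by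
      have := congrArg Subtype.val (pow_card_eq_one' (x := (⟨k, hk⟩ : ↥A)))
      rwa [SubmonoidClass.coe_pow] at this
    have h5 : k ^ Nat.gcd 4 (Nat.card ↥A) = 1 := pow_gcd_eq_one.2 ⟨h2, h3⟩
    have h6 : Nat.gcd 4 (Nat.card ↥A) = 1 := by
      rw [show 4 = 2 ^ 2 from rfl]
      exact Nat.Coprime.pow_left 2 (Nat.coprime_two_left.2 hAodd)
    rw [h6, pow_one, hkd, mul_inv_eq_one] at h5
    exact mul_inv_eq_iff_eq_mul.1 h5
  set Rb := (R.subgroupOf M).map mk with hRb
  have hRM : R ≤ M := hRA.trans hCAM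
  set zb := mk ⟨z, hRM hzR⟩ with hzb
  set sb := mk ⟨s, hRM hgR⟩ with hsb
  have memRb : ∀ {x : G} (hx : x ∈ R), mk ⟨x, hRM hx⟩ ∈ Rb := fun hx => ⟨_, hx, rfl⟩
  have hzbne : zb ≠ 1 := fun e => h.z_ne_one (hAQ1 z ((mk_one _).1 e) h.z_mem)
  have hcen : ∀ x, x ∈ zOf Rb ↔ x = 1 ∨ x = zb := by
    intro x
    constructor
    · intro hx
      obtain ⟨hxP, hxc⟩ := mem_zOf.1 hx
      obtain ⟨a, ha, rfl⟩ := hxP
      have := hZR a ha fun r hr =>
        hkill ⟨r, hRM hr⟩ a (hRA hr) (hRA ha) (hpow4 (hRQ ha)) (hxc _ (memRb hr))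
      rcases (h.mem_iff _).1 this with e | e
      · left; exact (mk_one a).2 (e ▸ A.one_mem)
      · right; exact congrArg mk (Subtype.ext e)
    · rintro (rfl | rfl)
      · exact Subgroup.one_mem _
      · refine mem_zOf.2 ⟨memRb hzR, ?_⟩
        rintro _ ⟨a, ha, rfl⟩
        rw [hzb, ← map_mul, ← map_mul]
        exact congrArg mk (Subtype.ext (h.comm (hRQ ha)))
  have hzOf : ∀ {a : G} (ha : a ∈ M), a ∈ zOf Q → mk ⟨a, ha⟩ ∈ zOf Rb := by
    intro a ha haZ
    rcases (h.mem_iff a).1 haZ with rfl | rfl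
    · exact (hcen _).2 (Or.inl ((mk_one _).2 A.one_mem))
    · exact (hcen _).2 (Or.inr rfl)
  have hsq : ∀ x ∈ Rb, x * x ∈ zOf Rb := by
    rintro _ ⟨a, ha, rfl⟩
    rw [← map_mul]
    exact hzOf (M.mul_mem a.2 a.2) (sq_mem hQ (hRQ ha))
  have hna : ∃ a ∈ Rb, ∃ b ∈ Rb, a * b ≠ b * a := by
    obtain ⟨a, ha, b, hb, hab⟩ := hnaR
    exact ⟨_, memRb ha, _, memRb hb, fun e => hab (hkill _ _ (hRA ha) (hRA hb) (hpow4 (hRQ hb)) e)⟩
  have hRp : IsPGroup 2 ↥Rb := ((hQ.1.1).to_le hRQ).comap_subtype.map mk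
  have hext := isExtraspecial_two_of hRp hzbne hcen hsq hna
  have hCRb : Subgroup.centralizer (Rb : Set (↥M ⧸ A.subgroupOf M)) = zOf Rb := by
    refine le_antisymm ?_ (zOf_le_centralizer _)
    intro x hx
    obtain ⟨c, hc, rfl⟩ := hrep x
    have hcD : (c : G) ∈ D := memD hc fun r hr =>
      (hkill c ⟨r, hRM hr⟩ hc (hRA hr) (hpow4 (hRQ hr))
        (Subgroup.mem_centralizer_iff.1 hx _ (memRb hr)).symm).symm
    have hle : A ⊔ zOf Q ≤ ((zOf Rb).comap mk).map M.subtype := by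
      refine sup_le (fun a ha => ⟨⟨a, hAM ha⟩, ?_, rfl⟩) (fun a ha => ?_)
      · rw [SetLike.mem_coe, Subgroup.mem_comap, (mk_one ⟨a, hAM ha⟩).2 ha]
        exact Subgroup.one_mem _
      · have haM : a ∈ M := by
          rcases (h.mem_iff a).1 ha with rfl | rfl
          exacts [M.one_mem, hRM hzR]
        exact ⟨⟨a, haM⟩, hzOf haM ha, rfl⟩
    obtain ⟨c', hc', hcc⟩ := hle (hDle hcD)
    exact (Subtype.ext hcc : c' = c) ▸ hc'
  have hNRb : Subgroup.centralizer (zOf Rb : Set (↥M ⧸ A.subgroupOf M)) ≤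
      Subgroup.normalizer (Rb : Set (↥M ⧸ A.subgroupOf M)) := by
    refine Subgroup.le_normalizer_iff.2 ?_
    rintro x hx _ ⟨p, hp, rfl⟩
    obtain ⟨c, hc, rfl⟩ := hrep x
    have hczc := hkill c ⟨z, hRM hzR⟩ hc hzA (hpow4 h.z_mem)
      (Subgroup.mem_centralizer_iff.1 hx zb ((hcen _).2 (Or.inr rfl))).symm
    refine ⟨c * p * c⁻¹, ?_, by rw [map_mul, map_mul, map_inv]⟩
    show (c : G) * p * (c : G)⁻¹ ∈ R
    rw [hR]
    exact ⟨(h.normalized c hczc p).1 (hRQ hp), CA.mul_mem (CA.mul_mem hc (hRA hp)) (CA.inv_mem hc)⟩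
  have hsne : ∀ {x}, x ∈ zOf Rb → x ≠ sb := by
    intro x hx e
    subst e
    rcases (hcen _).1 hx with e | e
    · exact hU.z_ne_one (hAQ1 s ((mk_one _).1 e) (hRQ hgR))
    · have e' : mk (⟨z, hRM hzR⟩⁻¹ * ⟨s, hRM hgR⟩) = 1 := by
        rw [map_mul, map_inv, ← hsb, e, hzb, inv_mul_cancel]
      exact hgz (inv_mul_eq_one.1 (hAQ1 (z⁻¹ * s) ((mk_one _).1 e')
        (Q.mul_mem (Q.inv_mem h.z_mem) (hRQ hgR)))).symm
  have hsb2 : orderOf sb = 2 := by
    refine orderOf_eq_prime ?_ (fun e => hsne (Subgroup.one_mem _) e.symm)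
    rw [pow_two, hsb, ← map_mul]
    refine (mk_one _).2 ?_
    show s * s ∈ A
    rw [hU.z_mul_z]; exact A.one_mem
  refine ⟨?_, ?_⟩
  · refine isLarge_of_involution Rb hext hCRb hNRb sb (memRb hgR) (fun hx => hsne hx rfl) hsb2 ?_
    set N := ((U ⊓ CA).subgroupOf M).map mk with hN
    have hNsub : N ≤ Subgroup.centralizer ({sb} : Set (↥M ⧸ A.subgroupOf M)) := by
      rintro _ ⟨u, hu, rfl⟩
      rw [Subgroup.mem_centralizer_singleton_iff, hsb, ← map_mul, ← map_mul]
      exact congrArg mk (Subtype.ext (hU.comm hu.1))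
    refine le_trans ?_ (le_map_pCore hNsub ?_ ((hU.extraspecial.1.1).to_le inf_le_left |>.comap_subtype.map mk))
    · intro x hx
      rcases (hcen x).1 hx with rfl | rfl
      · exact Subgroup.one_mem _
      · exact ⟨⟨z, hRM hzR⟩, ⟨hzU, hzA⟩, rfl⟩
    · rintro x hx _ ⟨u, hu, rfl⟩
      obtain ⟨c, hc, rfl⟩ := hrep x
      have hcsc := hkill c ⟨s, hRM hgR⟩ hc hsA (hpow4 (hRQ hgR))
        (Subgroup.mem_centralizer_singleton_iff.1 hx)
      exact ⟨c * u * c⁻¹, ⟨(hU.normalized c hcsc u).1 hu.1,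
        CA.mul_mem (CA.mul_mem hc hu.2) (CA.inv_mem hc)⟩, by rw [map_mul, map_mul, map_inv]⟩
  -- the conjugation
  obtain ⟨q, hq, hqs⟩ : ∃ q ∈ R, q * s * q⁻¹ = z * s := by
    by_contra hne
    push Not at hne
    refine hgZ (hZR s hgR fun p hp => ?_)
    rcases conj_mem_two hQ h.mem_iff (hRQ hp) (hRQ hgR) with e | e
    · exact mul_inv_eq_iff_eq_mul.1 e
    · exact absurd e (hne p hp)
  obtain ⟨u, hu, huz⟩ : ∃ u ∈ U ⊓ CA, u * z * u⁻¹ = s * z := by
    by_contra hne
    push Not at hne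
    have := decomp U hlU hAU z ⟨hzU, hzA⟩ fun p hp => by
      rcases conj_mem_two hU.extraspecial hU.mem_iff hp.1 hzU with e | e
      · exact mul_inv_eq_iff_eq_mul.1 e
      · exact absurd e (hne p hp)
    exact hU.not_mem_zOf h.z_ne_one hgz.symm this
  refine ⟨u * q * u, ?_, swap_conj hU.z_mul_z (h.comm (hRQ hgR)).symm hqs ?_ huz⟩
  · have hu' : u ∈ R ⊔ (U ⊓ CA) := (le_sup_right : U ⊓ CA ≤ R ⊔ (U ⊓ CA)) hu
    exact Subgroup.mul_mem _ (Subgroup.mul_mem _ hu' ((le_sup_left : R ≤ R ⊔ (U ⊓ CA)) hq)) hu'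
  · rw [hU.comm hu.1, mul_inv_cancel_right]

end Cfsg.Agent.S5428
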