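import Cfsg.Statements.S5430
import Cfsg.Agent.LargeExtraspecial.PairGroup

set_option autoImplicit false
open Cfsg CfsgLib.LargeExtraspecial
open scoped commutatorElement

namespace Cfsg.Agent.S5430

/-- Let Q be a large extraspecial 2-subgroup of the finite group G (extraspecial; centralizer equal to its centre; normal in the centralizer of its centre; normalizing no non-trivial subgroup of odd order) with centre generated by z, an involution, of width w ≥ 2 (order 2^(2w+1)); let g be an element outside the centralizer H of z with g z g⁻¹ in Q; write V for the subgroup generated by z and g z g⁻¹, X for the subgroup generated by Q and g Q g⁻¹, R for the subgroup generated by the centralizer of z in g Q g⁻¹ and the centralizer of g z g⁻¹ in Q, and E for the intersection of Q and g Q g⁻¹. Then R is the centralizer of V in X and is the largest normal 2-subgroup of X, and X/R is isomorphic to the symmetric group of degree 3; moreover the normalizer of V is the product of X and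 the centralizer of V in H, X is normal in it, and modulo R it is the direct product of X/R and of the centralizer of V in H modulo R. -/
theorem result {G : Type*} [Group G] [Finite G] (Q : Subgroup G) (hQ : Cfsg.IsLargeExtraspecial Q) (z : G) (hz : ((Subgroup.center ↥Q).map Q.subtype) = Subgroup.zpowers z) (hz2 : orderOf z = 2) (w : ℕ) (hw : 2 ≤ w) (hcard : Nat.card ↥Q = 2 ^ (2 * w + 1)) (g : G) (hgH : g ∉ Subgroup.centralizer ({z} : Set G)) (hgQ : g * z * g⁻¹ ∈ Q) (V X R E : Subgroup G) (hV : V = Subgroup.closure ({z, g * z * g⁻¹} : Set G)) (hX : X = Q ⊔ (Q).map (MulAut.conj g).toMonoidHom) (hR : R = ((Q).map (MulAut.conj g).toMonoidHom ⊓ Subgroup.centralizer ({z} : Set G)) ⊔ (Q ⊓ Subgroup.centralizer ({g * z * g⁻¹} : Set G))) (hE : E = Q ⊓ (Q).map (MulAut.conj g).toMonoidHom) : R = X ⊓ Subgroup.centralizer (V : Set G) ∧ R = (Cfsg.pCore 2 ↥X).map X.subtype ∧ (∃ h : (R.subgroupOf X).Normal, Nonempty (↥X ⧸ R.subgroupOf X ≃* Equiv.Perm (Fin 3))) ∧ Subgroup.normalizer (V :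 Set G) = X ⊔ (Subgroup.centralizer ({z} : Set G) ⊓ Subgroup.centralizer (V : Set G)) ∧ (∀ y ∈ Subgroup.normalizer (V : Set G), ∀ x ∈ X, y * x * y⁻¹ ∈ X) ∧ R ≤ Subgroup.centralizer ({z} : Set G) ⊓ Subgroup.centralizer (V : Set G) ∧ (∀ x ∈ X, ∀ c ∈ Subgroup.centralizer ({z} : Set G) ⊓ Subgroup.centralizer (V : Set G), x * c * x⁻¹ * c⁻¹ ∈ R) ∧ X ⊓ (Subgroup.centralizer ({z} : Set G) ⊓ Subgroup.centralizer (V : Set G)) = R := by
  classical
  haveI : Fact (Nat.Prime 2) := ⟨Nat.prime_two⟩
  have P := linked_of_large hQ hz hw hcard hgH hgQ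
  set U := Q.map (MulAut.conj g).toMonoidHom with hUdef
  set s := g * z * g⁻¹ with hs
  clear_value s U
  rw [sup_comm] at hR
  have hzz := P.left.z_mul_z
  have hss := P.right.z_mul_z
  obtain ⟨hne1, hne2, hne3⟩ := P.zs_ne
  obtain ⟨q, hq, hqs⟩ := exists_conj_eq_mul P.left.extraspecial P.left.mem_iff P.s_mem P.s_not_mem_zOf
  obtain ⟨u, hu, huz⟩ := exists_conj_eq_mul P.right.extraspecial P.right.mem_iff P.z_mem P.symm.s_not_mem_zOf
  have hqns : q * s ≠ s * q := fun e => hne2 (by rw [← hqs, e, mul_inv_cancel_right])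
  have hunz : u * z ≠ z * u := fun e => hne1 (by rw [P.zs, ← huz, e, mul_inv_cancel_right])
  have hqz : q * z * q⁻¹ = z := by rw [P.left.comm hq, mul_inv_cancel_right]
  have hus : u * s * u⁻¹ = s := by rw [P.right.comm hu, mul_inv_cancel_right]
  have hqzs : q * (z * s) * q⁻¹ = s := by rw [← conj_mul, hqz, hqs, ← mul_assoc, hzz, one_mul]
  have huzs : u * (z * s) * u⁻¹ = z := by
    rw [← conj_mul, huz, hus, ← P.zs, mul_assoc, hss, mul_one]
  have hcore : ∀ r ∈ R, r * z = z * r ∧ r * s = s * r := fun r hr => P.core_le_centralizer (hR ▸ hr)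
  have hQR : ∀ x ∈ Q, ∀ r ∈ R, x * r * x⁻¹ ∈ R := fun x hx r hr => by
    rw [hR] at hr ⊢; exact P.q_normalizes hx hr
  have hUR : ∀ x ∈ U, ∀ r ∈ R, x * r * x⁻¹ ∈ R := fun x hx r hr => by
    rw [hR] at hr ⊢; exact P.u_normalizes hx hr
  have hqq : q * q ∈ R := hR ▸ Linked.mem_core_left (Q.mul_mem hq hq) (by
    rcases (P.left.mem_iff _).1 (sq_mem P.left.extraspecial hq) with e | e <;> rw [e]
    · simp
    · exact P.zs)
  have huu : u * u ∈ R := hR ▸ Linked.mem_core_right (U.mul_mem hu hu) (by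
    rcases (P.right.mem_iff _).1 (sq_mem P.right.extraspecial hu) with e | e <;> rw [e]
    · simp
    · exact P.zs.symm)
  have hUelem : ∀ v ∈ U, v ∈ R ∨ u⁻¹ * v ∈ R := by
    intro v hv
    rcases P.symm.q_coset hu hunz hv with e | e
    · exact Or.inl (hR ▸ Linked.mem_core_right hv e)
    · exact Or.inr (hR ▸ Linked.mem_core_right (U.mul_mem (U.inv_mem hu) hv) e)
  have hQelem : ∀ v ∈ Q, v ∈ R ∨ q⁻¹ * v ∈ R := by
    intro v hv
    rcases P.q_coset hq hqns hv with e | e
    · exact Or.inl (hR ▸ Linked.mem_core_left hv e)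
    · exact Or.inr (hR ▸ Linked.mem_core_left (Q.mul_mem (Q.inv_mem hq) hv) e)
  have hQX : Q ≤ X := hX ▸ le_sup_left
  have hUX : U ≤ X := hX ▸ le_sup_right
  have hRX : R ≤ X := by
    rw [hR, hX]
    exact sup_le (inf_le_left.trans le_sup_left) (inf_le_left.trans le_sup_right)
  haveI hRn : (R.subgroupOf X).Normal := by
    refine ⟨fun n hn x => ?_⟩
    have hle : X ≤ Subgroup.normalizer (R : Set G) := by
      rw [hX]
      exact sup_le (Subgroup.le_normalizer_iff.2 hQR) (Subgroup.le_normalizer_iff.2 hUR)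
    exact (Subgroup.mem_normalizer_iff.1 (hle x.2) _).1 hn
  let mk : ↥X → ↥X ⧸ R.subgroupOf X := QuotientGroup.mk
  have mk_eq_one : ∀ x : ↥X, mk x = 1 ↔ (x : G) ∈ R := fun x => QuotientGroup.eq_one_iff x
  set a : ↥X ⧸ R.subgroupOf X := mk ⟨q, hQX hq⟩ with ha
  set b : ↥X ⧸ R.subgroupOf X := mk ⟨u, hUX hu⟩ with hb
  have haa : a * a = 1 := (mk_eq_one ⟨q * q, _⟩).2 hqq
  have hbb : b * b = 1 := (mk_eq_one ⟨u * u, _⟩).2 huu
  have hai : a⁻¹ = a := inv_eq_of_mul_eq_one_right haa
  have hbi : b⁻¹ = b := inv_eq_of_mul_eq_one_right hbb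
  set t := u * q * u with ht
  have htz : t * z * t⁻¹ = s := by
    calc t * z * t⁻¹ = u * (q * (u * z * u⁻¹) * q⁻¹) * u⁻¹ := by rw [ht]; group
      _ = u * s * u⁻¹ := by rw [huz, ← P.zs, hqzs]
      _ = s := hus
  have htQ : t * q * t⁻¹ ∈ U := by
    have hc : (g⁻¹ * t) * z = z * (g⁻¹ * t) := by
      calc g⁻¹ * t * z = g⁻¹ * (t * z * t⁻¹) * t := by group
        _ = z * (g⁻¹ * t) := by rw [htz, hs]; group
    rw [hUdef, mem_conj_iff]
    have := (P.left.normalized _ hc q).1 hq
    rwa [show g⁻¹ * t * q * (g⁻¹ * t)⁻¹ = g⁻¹ * (t * q * t⁻¹) * g by group] at this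
  have htnz : (t * q * t⁻¹) * z ≠ z * (t * q * t⁻¹) := by
    intro e
    apply hqns
    have hts : t⁻¹ * z * t = s := by
      calc t⁻¹ * z * t = u⁻¹ * (q⁻¹ * (u⁻¹ * z * u) * q) * u := by rw [ht]; group
        _ = u⁻¹ * (q⁻¹ * (z * s) * q) * u := by
            rw [show u⁻¹ * z * u = z * s by nth_rw 1 [← huzs]; group]
        _ = u⁻¹ * (q⁻¹ * (q * s * q⁻¹) * q) * u := by rw [hqs]
        _ = u⁻¹ * (u * s * u⁻¹) * u := by rw [hus]; group
        _ = s := by group
    rw [← hts]
    calc q * (t⁻¹ * z * t) = t⁻¹ * ((t * q * t⁻¹) * z) * t := by group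
      _ = t⁻¹ * z * t * q := by rw [e]; group
  have hrel : b * a * b * a * b * a = 1 := by
    have hmem : u⁻¹ * (t * q * t⁻¹) ∈ R := by
      rcases hUelem _ htQ with e | e
      · exact absurd (hcore _ e).1 htnz
      · exact e
    have : b⁻¹ * (b * a * b * a * (b * a * b)⁻¹) = 1 :=
      (mk_eq_one ⟨u⁻¹ * (u * q * u * q * (u * q * u)⁻¹), X.mul_mem (X.inv_mem (hUX hu))
        (X.mul_mem (X.mul_mem (X.mul_mem (X.mul_mem (hUX hu) (hQX hq)) (hUX hu)) (hQX hq))
          (X.inv_mem (X.mul_mem (X.mul_mem (hUX hu) (hQX hq)) (hUX hu))))⟩).2 hmem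
    rw [mul_inv_rev, mul_inv_rev, hai, hbi] at this
    simp only [← mul_assoc, hbb, one_mul] at this
    calc b * a * b * a * b * a = b * (a * b * a * b * a * b) * b := by
          simp only [mul_assoc, hbb, mul_one]
      _ = 1 := by rw [this, mul_one, hbb]
  -- the six classes
  let S : Set (↥X ⧸ R.subgroupOf X) := {1, a, b, a * b, b * a, a * b * a}
  have hbab : b * a * b = a * b * a := by
    calc b * a * b = (b * a * b * a * b * a) * (a * b * a) := by
          simp [mul_assoc, haa, hbb, ← mul_assoc a a, ← mul_assoc b b]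
      _ = a * b * a := by rw [hrel, one_mul]
  have hSa : ∀ x ∈ S, a * x ∈ S := by
    rintro x (rfl | rfl | rfl | rfl | rfl | rfl) <;>
      simp [S, ← mul_assoc, haa]
  have hSb : ∀ x ∈ S, b * x ∈ S := by
    rintro x (rfl | rfl | rfl | rfl | rfl | rfl)
    · simp [S]
    · simp [S]
    · simp [S, hbb]
    · simp [S, ← mul_assoc, hbab]
    · simp [S, ← mul_assoc, hbb]
    · right; right; right; left
      calc b * (a * b * a) = b * (b * a * b) := by rw [hbab]
        _ = a * b := by rw [← mul_assoc, ← mul_assoc, hbb, one_mul]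
  have hall : ∀ x : ↥X, mk x ∈ S := by
    have key : ∀ x, ∀ hx : x ∈ X, mk ⟨x, hx⟩ ∈ S := by
      have hXc : X = Subgroup.closure ((Q : Set G) ∪ U) := by
        rw [hX, Subgroup.closure_union, Subgroup.closure_eq, Subgroup.closure_eq]
      intro x hx
      have hx' := hXc ▸ hx
      have gen : ∀ v ∈ (Q : Set G) ∪ U, ∀ hv : v ∈ X, mk ⟨v, hv⟩ = 1 ∨ mk ⟨v, hv⟩ = a ∨ mk ⟨v, hv⟩ = b := by
        rintro v (hvQ | hvU) hv
        · rcases hQelem v hvQ with e | e
          · exact Or.inl ((mk_eq_one _).2 e)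
          · refine Or.inr (Or.inl ?_)
            have : a⁻¹ * mk ⟨v, hv⟩ = 1 :=
              (mk_eq_one ⟨q⁻¹ * v, X.mul_mem (X.inv_mem (hQX hq)) hv⟩).2 e
            exact (inv_mul_eq_one.1 this).symm
        · rcases hUelem v hvU with e | e
          · exact Or.inl ((mk_eq_one _).2 e)
          · refine Or.inr (Or.inr ?_)
            have : b⁻¹ * mk ⟨v, hv⟩ = 1 :=
              (mk_eq_one ⟨u⁻¹ * v, X.mul_mem (X.inv_mem (hUX hu)) hv⟩).2 e
            exact (inv_mul_eq_one.1 this).symm
      have hmem : ∀ v ∈ (Q : Set G) ∪ U, v ∈ X := by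
        rintro v (hv | hv)
        exacts [hQX hv, hUX hv]
      suffices ∀ y ∈ Subgroup.closure ((Q : Set G) ∪ U), ∀ hy : y ∈ X, mk ⟨y, hy⟩ ∈ S from this x hx' hx
      intro y hy
      induction hy using Subgroup.closure_induction_left with
      | one => intro _; exact Or.inl rfl
      | mul_left v hv y hy ih =>
        intro hvy
        have hyX : y ∈ X := hXc.symm ▸ hy
        show mk ⟨v, hmem v hv⟩ * mk ⟨y, hyX⟩ ∈ S
        rcases gen v hv (hmem v hv) with e | e | e <;> rw [e]
        · rw [one_mul]; exact ih hyX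
        · exact hSa _ (ih hyX)
        · exact hSb _ (ih hyX)
      | inv_mul_cancel v hv y hy ih =>
        intro hvy
        have hyX : y ∈ X := hXc.symm ▸ hy
        show (mk ⟨v, hmem v hv⟩)⁻¹ * mk ⟨y, hyX⟩ ∈ S
        rcases gen v hv (hmem v hv) with e | e | e <;> rw [e]
        · rw [inv_one, one_mul]; exact ih hyX
        · rw [hai]; exact hSa _ (ih hyX)
        · rw [hbi]; exact hSb _ (ih hyX)
    exact fun x => key x x.2
  have hVmem : ∀ c : G, c ∈ Subgroup.centralizer (V : Set G) ↔ c * z = z * c ∧ c * s = s * c := by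
    intro c
    rw [hV, Subgroup.centralizer_closure, Subgroup.mem_centralizer_iff]
    constructor
    · exact fun h => ⟨(h z (Or.inl rfl)).symm, (h s (Or.inr rfl)).symm⟩
    · rintro ⟨h1, h2⟩ y hy
      rcases hy with hy | hy
      · rw [hy]; exact h1.symm
      · rw [Set.mem_singleton_iff.1 hy]; exact h2.symm
  -- the six classes move `z` and `s` differently
  have hXR : ∀ x, x ∈ X → x * z = z * x → x * s = s * x → x ∈ R := by
    intro x hx hxz hxs
    have hfix : ∀ (y : ↥X), mk y = mk ⟨x, hx⟩ → (y : G) * z * (y : G)⁻¹ = z ∧ (y : G) * s * (y : G)⁻¹ = s := by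
      intro y hy
      have hr : (y : G)⁻¹ * x ∈ R :=
        Subgroup.mem_subgroupOf.1 (QuotientGroup.eq.1
          (show (QuotientGroup.mk y : ↥X ⧸ R.subgroupOf X) = QuotientGroup.mk ⟨x, hx⟩ from hy))
      obtain ⟨h1, h2⟩ := hcore _ hr
      constructor
      · calc (y : G) * z * (y : G)⁻¹ = y * (z * ((y : G)⁻¹ * x)) * x⁻¹ := by group
          _ = (x * z) * x⁻¹ := by rw [← h1]; group
          _ = z := by rw [hxz]; group
      · calc (y : G) * s * (y : G)⁻¹ = y * (s * ((y : G)⁻¹ * x)) * x⁻¹ := by group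
          _ = (x * s) * x⁻¹ := by rw [← h2]; group
          _ = s := by rw [hxs]; group
    rcases hall ⟨x, hx⟩ with e | e | e | e | e | e
    · exact (mk_eq_one _).1 e
    · exact absurd ((hfix ⟨q, hQX hq⟩ e.symm).2) (by rw [hqs]; exact hne2)
    · exact absurd ((hfix ⟨u, hUX hu⟩ e.symm).1) (by rw [huz, ← P.zs]; exact hne1)
    · exfalso
      have := (hfix ⟨q * u, X.mul_mem (hQX hq) (hUX hu)⟩ e.symm).2
      rw [show q * u * s * (q * u)⁻¹ = q * (u * s * u⁻¹) * q⁻¹ by group, hus, hqs] at this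
      exact hne2 this
    · exfalso
      have := (hfix ⟨u * q, X.mul_mem (hUX hu) (hQX hq)⟩ e.symm).1
      rw [show u * q * z * (u * q)⁻¹ = u * (q * z * q⁻¹) * u⁻¹ by group, hqz, huz, ← P.zs] at this
      exact hne1 this
    · exfalso
      have := (hfix ⟨q * u * q, X.mul_mem (X.mul_mem (hQX hq) (hUX hu)) (hQX hq)⟩ e.symm).1
      rw [show q * u * q * z * (q * u * q)⁻¹ = q * (u * (q * z * q⁻¹) * u⁻¹) * q⁻¹ by group, hqz, huz,
        ← P.zs, hqzs] at this
      exact P.ne this.symm
  have hReq : R = X ⊓ Subgroup.centralizer (V : Set G) :=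
    le_antisymm (fun r hr => ⟨hRX hr, (hVmem r).2 (hcore r hr)⟩)
      (fun x hx => hXR x hx.1 ((hVmem x).1 hx.2).1 ((hVmem x).1 hx.2).2)
  -- the permutation representation
  let T : Set G := {z, s, z * s}
  have hT : Nat.card ↥T = 3 := by
    rw [Nat.card_coe_set_eq, Set.ncard_insert_of_notMem, Set.ncard_pair hne2.symm]
    simp [P.ne, hne1.symm]
  have hT1 : ∀ x, x ∈ T → x ∈ V := by
    intro x hx
    rw [hV]
    rcases hx with rfl | rfl | rfl
    · exact Subgroup.subset_closure (Or.inl rfl)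
    · exact Subgroup.subset_closure (Or.inr rfl)
    · exact Subgroup.mul_mem _ (Subgroup.subset_closure (Or.inl rfl)) (Subgroup.subset_closure (Or.inr rfl))
  have hVT : ∀ x ∈ V, x = 1 ∨ x ∈ T := by
    intro x hx
    rw [hV] at hx
    have e1 : z * (z * s) = s := by rw [← mul_assoc, hzz, one_mul]
    have e2 : s * (z * s) = z := by rw [P.zs, ← mul_assoc, hss, one_mul]
    have e3 : z * s * z = s := by rw [mul_assoc, ← P.zs, e1]
    have e4 : z * s * s = z := by rw [mul_assoc, hss, mul_one]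
    have e5 : z * s * (z * s) = 1 := by rw [← mul_assoc, e3, hss]
    induction hx using Subgroup.closure_induction with
    | mem y hy => rcases hy with rfl | rfl <;> simp [T]
    | one => exact Or.inl rfl
    | mul y y' _ _ hy hy' =>
      rcases hy with rfl | rfl | rfl | rfl <;> rcases hy' with rfl | rfl | rfl | rfl <;>
        simp [T, e1, e2, e3, e4, e5, hzz, hss, ← P.zs]
    | inv y _ hy =>
      rcases hy with rfl | rfl | rfl | rfl
      · simp
      · simp [T, inv_eq_of_mul_eq_one_right hzz]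
      · simp [T, inv_eq_of_mul_eq_one_right hss]
      · simp [T, inv_eq_of_mul_eq_one_right hzz, inv_eq_of_mul_eq_one_right hss, ← P.zs]
  set N := Subgroup.normalizer (V : Set G) with hN
  have hNT : ∀ n ∈ N, ∀ x ∈ T, n * x * n⁻¹ ∈ T := by
    intro n hn x hx
    rcases hVT _ ((Subgroup.mem_normalizer_iff.1 hn x).1 (hT1 x hx)) with e | e
    · rw [conj_eq_one_iff] at e
      rcases hx with rfl | rfl | rfl
      exacts [absurd e P.left.z_ne_one, absurd e P.right.z_ne_one, absurd e hne3]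
    · exact e
  have hXN : X ≤ N := by
    rw [hX, hN, hV]
    refine sup_le ?_ ?_ <;> intro v hv <;>
      refine Subgroup.mem_normalizer_iff.2 fun y => ?_
    all_goals
      have key : ∀ w, (w ∈ Q ∨ w ∈ U) → ∀ y ∈ Subgroup.closure ({z, s} : Set G),
          w * y * w⁻¹ ∈ Subgroup.closure ({z, s} : Set G) := by
        intro w hw y hy
        have hzc : z ∈ Subgroup.closure ({z, s} : Set G) := Subgroup.subset_closure (Or.inl rfl)
        have hsc : s ∈ Subgroup.closure ({z, s} : Set G) := Subgroup.subset_closure (Or.inr rfl)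
        have : Subgroup.closure ({z, s} : Set G) ≤
            (Subgroup.closure ({z, s} : Set G)).comap (MulAut.conj w).toMonoidHom := by
          rw [Subgroup.closure_le]
          intro y hy
          rcases hy with hy | hy
          · change w * y * w⁻¹ ∈ Subgroup.closure ({z, s} : Set G)
            rw [hy]
            rcases hw with hw | hw
            · rw [P.left.comm hw, mul_inv_cancel_right]; exact hzc
            · rcases conj_mem_two P.right.extraspecial P.right.mem_iff hw P.z_mem with e | e <;> rw [e]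
              exacts [hzc, Subgroup.mul_mem _ hsc hzc]
          · change w * y * w⁻¹ ∈ Subgroup.closure ({z, s} : Set G)
            rw [Set.mem_singleton_iff.1 hy]
            rcases hw with hw | hw
            · rcases conj_mem_two P.left.extraspecial P.left.mem_iff hw P.s_mem with e | e <;> rw [e]
              exacts [hsc, Subgroup.mul_mem _ hzc hsc]
            · rw [P.right.comm hw, mul_inv_cancel_right]; exact hsc
        exact this hy
    · exact ⟨key v (Or.inl hv) y, fun h => by simpa [mul_assoc] using key v⁻¹ (Or.inl (Q.inv_mem hv)) _ h⟩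
    · exact ⟨key v (Or.inr hv) y, fun h => by simpa [mul_assoc] using key v⁻¹ (Or.inr (U.inv_mem hv)) _ h⟩
  let f : ↥N →* Equiv.Perm ↥T :=
    { toFun := fun n =>
        { toFun := fun x => ⟨(n : G) * x * (n : G)⁻¹, hNT n n.2 x x.2⟩
          invFun := fun x => ⟨(n : G)⁻¹ * x * (n : G), by
            simpa using hNT _ (Subgroup.inv_mem _ n.2) x x.2⟩
          left_inv := fun x => Subtype.ext (by simp [mul_assoc])
          right_inv := fun x => Subtype.ext (by simp [mul_assoc]) }
      map_one' := Equiv.ext fun x => Subtype.ext (by simp)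
      map_mul' := fun a b => Equiv.ext fun x => Subtype.ext (by simp [mul_assoc]) }
  have hTz : z ∈ T := Or.inl rfl
  have hTs : s ∈ T := Or.inr (Or.inl rfl)
  have hfker : ∀ n : ↥N, f n = 1 ↔ (n : G) ∈ Subgroup.centralizer (V : Set G) := by
    intro n
    rw [hVmem]
    constructor
    · intro e
      exact ⟨mul_inv_eq_iff_eq_mul.1 (congrArg Subtype.val (Equiv.congr_fun e ⟨z, hTz⟩)),
        mul_inv_eq_iff_eq_mul.1 (congrArg Subtype.val (Equiv.congr_fun e ⟨s, hTs⟩))⟩
    · rintro ⟨h1, h2⟩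
      refine Equiv.ext fun x => Subtype.ext ?_
      show (n : G) * x * (n : G)⁻¹ = x
      obtain ⟨x, rfl | rfl | rfl⟩ := x
      · rw [h1, mul_inv_cancel_right]
      · rw [h2, mul_inv_cancel_right]
      · rw [mul_inv_eq_iff_eq_mul]; exact (Commute.mul_right h1 h2)
  let f' : ↥X →* Equiv.Perm ↥T := f.comp (Subgroup.inclusion hXN)
  have hf'ker : f'.ker = R.subgroupOf X := by
    ext x
    rw [MonoidHom.mem_ker, Subgroup.mem_subgroupOf]
    show f ⟨x, hXN x.2⟩ = 1 ↔ _
    rw [hfker, hReq]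
    exact ⟨fun e => ⟨x.2, e⟩, fun e => e.2⟩
  set α := f' ⟨q, hQX hq⟩ with hα
  set β := f' ⟨u, hUX hu⟩ with hβ
  have hαv : (α ⟨z, hTz⟩ : G) = z ∧ (α ⟨s, hTs⟩ : G) = z * s := ⟨hqz, hqs⟩
  have hβv : (β ⟨z, hTz⟩ : G) = z * s ∧ (β ⟨s, hTs⟩ : G) = s := ⟨huz.trans P.zs.symm, hus⟩
  have n1 : (1 : Equiv.Perm ↥T) ≠ α := fun e => hne2 (by
    have := hαv.2; rw [← e] at this; exact this.symm)
  have n2 : (1 : Equiv.Perm ↥T) ≠ β := fun e => hne1 (by
    have := hβv.1; rw [← e] at this; exact this.symm)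
  have n4 : α ≠ β := fun e => hne1 (by
    have := hαv.1; rw [e, hβv.1] at this; exact this)
  have hcardT : Nat.card (Equiv.Perm ↥T) = 6 := by rw [Nat.card_perm, hT]; rfl
  have hsurj : Function.Surjective f' := by
    rw [← MonoidHom.range_eq_top]
    refine Subgroup.eq_top_of_card_eq _ ?_
    have hd := Subgroup.card_subgroup_dvd_card f'.range
    rw [hcardT] at hd ⊢
    have hα' : α ∈ f'.range := ⟨_, rfl⟩
    have hβ' : β ∈ f'.range := ⟨_, rfl⟩
    have hsub : ({1, α, β, α * β} : Set (Equiv.Perm ↥T)) ⊆ (f'.range : Set (Equiv.Perm ↥T)) := by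
      rintro x (rfl | rfl | rfl | rfl)
      exacts [f'.range.one_mem, hα', hβ', f'.range.mul_mem hα' hβ']
    have n3 : (1 : Equiv.Perm ↥T) ≠ α * β := fun e => hne2 (by
      have h1 : ((α * β) ⟨s, hTs⟩ : G) = z * s := by
        rw [Equiv.Perm.mul_apply, show β ⟨s, hTs⟩ = ⟨s, hTs⟩ from Subtype.ext hβv.2, hαv.2]
      rw [← e] at h1; exact h1.symm)
    have n5 : α ≠ α * β := fun e => n2 (mul_eq_left.1 e.symm).symm
    have n6 : β ≠ α * β := fun e => n1 (mul_eq_right.1 e.symm).symm
    have := Set.ncard_le_ncard hsub (Set.toFinite _)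
    rw [Set.ncard_insert_of_notMem, Set.ncard_insert_of_notMem, Set.ncard_pair n6] at this
    · have h4 : 3 + 1 ≤ Nat.card ↥f'.range := this
      have := Nat.le_of_dvd (by norm_num) hd
      interval_cases (Nat.card ↥f'.range) <;> omega
    · simp [n4, n5]
    · simp [n1, n2, n3]
  have hRker : ∀ x : ↥X, f' x = 1 ↔ (x : G) ∈ R := fun x => by
    rw [← MonoidHom.mem_ker, hf'ker, Subgroup.mem_subgroupOf]
  -- `R` is the 2-core
  have hRp : IsPGroup 2 ↥R := by
    have hA : IsPGroup 2 ↥(Q ⊓ Subgroup.centralizer ({s} : Set G)) :=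
      (isPGroup_of_isExtraspecial P.left.extraspecial).to_le inf_le_left
    have hB : IsPGroup 2 ↥(U ⊓ Subgroup.centralizer ({z} : Set G)) :=
      (isPGroup_of_isExtraspecial P.right.extraspecial).to_le inf_le_left
    rw [hR]
    refine hA.to_sup_of_normal_right' hB (Subgroup.le_normalizer_iff.2 fun x hx y hy => ?_)
    obtain ⟨h1, h2⟩ := P.A_normalizes hx.1 (Subgroup.mem_centralizer_singleton_iff.1 hx.2) hy.1
      (Subgroup.mem_centralizer_singleton_iff.1 hy.2)
    exact ⟨h1, Subgroup.mem_centralizer_singleton_iff.2 h2⟩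
  have hcoreX : (Cfsg.pCore 2 ↥X).map X.subtype = R := by
    refine le_antisymm ?_ ?_
    · rintro _ ⟨x, hx, rfl⟩
      apply (hRker x).1
      have hsmall : ∀ (W : Subgroup G) (hW : W ≤ X), IsPGroup 2 ↥W → ∀ w ∈ W, ∀ hw : w ∈ X,
          f' ⟨w, hw⟩ ≠ 1 → f' x = 1 ∨ f' x = f' ⟨w, hw⟩ := by
        intro W hWX hWp w hwW hw hne
        by_contra hcon
        push Not at hcon
        have hp : IsPGroup 2 ↥(W.subgroupOf X ⊔ Cfsg.pCore 2 ↥X) :=
          (hWp.comap_subtype).to_sup_of_normal_right (isPGroup_pCore 2)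
        have him := hp.map f'
        obtain ⟨n, hn⟩ := IsPGroup.iff_card.1 him
        have hd := Subgroup.card_subgroup_dvd_card ((W.subgroupOf X ⊔ Cfsg.pCore 2 ↥X).map f')
        rw [hcardT, hn] at hd
        have hsub : ({1, f' ⟨w, hw⟩, f' x} : Set (Equiv.Perm ↥T)) ⊆
            (((W.subgroupOf X ⊔ Cfsg.pCore 2 ↥X).map f' : Subgroup (Equiv.Perm ↥T)) : Set (Equiv.Perm ↥T)) := by
          rintro y (rfl | rfl | rfl)
          · exact Subgroup.one_mem _
          · exact ⟨_, (le_sup_left : W.subgroupOf X ≤ _) hwW, rfl⟩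
          · exact ⟨_, (le_sup_right : Cfsg.pCore 2 ↥X ≤ _) hx, rfl⟩
        have := Set.ncard_le_ncard hsub (Set.toFinite _)
        rw [Set.ncard_insert_of_notMem (by simp [Ne.symm hne, Ne.symm hcon.1]),
          Set.ncard_pair (Ne.symm hcon.2)] at this
        have h3 : 2 + 1 ≤ 2 ^ n := hn ▸ this
        have h6 := Nat.le_of_dvd (by norm_num) hd
        have : n = 2 := by
          rcases n with _ | _ | _ | n
          · simp at h3
          · simp at h3
          · rfl
          · have : 8 ≤ 2 ^ (n + 1 + 1 + 1) := by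
              calc 8 = 2 ^ 3 := by norm_num
                _ ≤ _ := Nat.pow_le_pow_right (by norm_num) (by omega)
            omega
        subst this
        norm_num at hd
      have hUp : IsPGroup 2 ↥U := isPGroup_of_isExtraspecial P.right.extraspecial
      rcases hsmall Q hQX (isPGroup_of_isExtraspecial P.left.extraspecial) q hq (hQX hq) (Ne.symm n1) with e | e
      · exact e
      · rcases hsmall U hUX hUp u hu (hUX hu) (Ne.symm n2) with e' | e'
        · exact e'
        · exact absurd (e.symm.trans e') n4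
    · intro r hr
      have hmem : R.subgroupOf X ∈ {N : Subgroup ↥X | N.Normal ∧ IsPGroup 2 ↥N} := ⟨hRn, hRp.comap_subtype⟩
      exact ⟨⟨r, hRX hr⟩, le_sSup hmem hr, rfl⟩
  have hzV : ∀ c, c ∈ Subgroup.centralizer (V : Set G) →
      c ∈ Subgroup.centralizer ({z} : Set G) := fun c hc =>
    Subgroup.mem_centralizer_singleton_iff.2 ((hVmem c).1 hc).1
  have hCeq : Subgroup.centralizer ({z} : Set G) ⊓ Subgroup.centralizer (V : Set G) =
      Subgroup.centralizer (V : Set G) := inf_eq_right.2 hzV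
  have hCX : ∀ c ∈ Subgroup.centralizer (V : Set G), ∀ x ∈ X, c * x * c⁻¹ ∈ X := by
    intro c hc x hx
    obtain ⟨h1, h2⟩ := (hVmem c).1 hc
    have : X ≤ X.comap (MulAut.conj c).toMonoidHom := by
      nth_rw 1 [hX]
      exact sup_le (fun v hv => hQX ((P.left.normalized c h1 v).1 hv))
        (fun v hv => hUX ((P.right.normalized c h2 v).1 hv))
    exact this hx
  have hnormEq : N = X ⊔ Subgroup.centralizer (V : Set G) := by
    refine le_antisymm (fun n hn => ?_) (sup_le hXN (Subgroup.centralizer_le_normalizer _))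
    obtain ⟨x, hx⟩ := hsurj (f ⟨n, hn⟩)
    have hxn : f (⟨x, hXN x.2⟩⁻¹ * ⟨n, hn⟩) = 1 := by
      rw [map_mul, map_inv]
      show (f' x)⁻¹ * _ = 1
      rw [hx, inv_mul_cancel]
    have hc : (x : G)⁻¹ * n ∈ Subgroup.centralizer (V : Set G) := (hfker _).1 hxn
    have hxmem : (x : G) ∈ X ⊔ Subgroup.centralizer (V : Set G) :=
      (le_sup_left : X ≤ X ⊔ Subgroup.centralizer (V : Set G)) x.2
    have := Subgroup.mul_mem _ hxmem ((le_sup_right :
      Subgroup.centralizer (V : Set G) ≤ X ⊔ Subgroup.centralizer (V : Set G)) hc)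
    simpa using this
  refine ⟨hReq, hcoreX.symm, ⟨hRn, ?_⟩, by rw [hCeq]; exact hnormEq, ?_, ?_, ?_, by rw [hCeq]; exact hReq.symm⟩
  · haveI : Fintype ↥T := Fintype.ofFinite _
    let eT : ↥T ≃ Fin 3 := (Finite.equivFinOfCardEq hT)
    exact ⟨((QuotientGroup.quotientMulEquivOfEq hf'ker.symm).trans
      (QuotientGroup.quotientKerEquivOfSurjective f' hsurj)).trans eT.permCongrHom⟩
  · intro y hy x hx
    rw [hnormEq] at hy
    have : X ⊔ Subgroup.centralizer (V : Set G) ≤ Subgroup.normalizer (X : Set G) :=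
      sup_le Subgroup.le_normalizer (Subgroup.le_normalizer_iff.2 hCX)
    exact (Subgroup.mem_normalizer_iff.1 (this hy) x).1 hx
  · rw [hCeq, hReq]; exact inf_le_right
  · intro x hx c hc
    rw [hCeq] at hc
    rw [hReq]
    refine ⟨?_, ?_⟩
    · rw [show x * c * x⁻¹ * c⁻¹ = x * (c * x⁻¹ * c⁻¹) by group]
      exact X.mul_mem hx (hCX c hc _ (X.inv_mem hx))
    · have hxn : x * c * x⁻¹ ∈ Subgroup.centralizer (V : Set G) := by
        have hmem : f (⟨x, hXN hx⟩ * ⟨c, Subgroup.centralizer_le_normalizer _ hc⟩ * ⟨x, hXN hx⟩⁻¹) = 1 := by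
          rw [map_mul, map_mul, map_inv, (hfker ⟨c, _⟩).2 hc, mul_one, mul_inv_cancel]
        exact (hfker _).1 hmem
      exact Subgroup.mul_mem _ hxn (Subgroup.inv_mem _ hc)

end Cfsg.Agent.S5430
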