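import Cfsg.Statements.S5431
import Cfsg.Agent.LargeExtraspecial.PairGroup

set_option autoImplicit false
open Cfsg CfsgLib.LargeExtraspecial
open scoped commutatorElement

namespace Cfsg.Agent.S5431

/-- Let Q be a large extraspecial 2-subgroup of the finite group G (extraspecial; centralizer equal to its centre; normal in the centralizer of its centre; normalizing no non-trivial subgroup of odd order) with centre generated by z, an involution, of width w ≥ 2 (order 2^(2w+1)); let g be an element outside the centralizer H of z with g z g⁻¹ in Q; write V for the subgroup generated by z and g z g⁻¹, X for the subgroup generated by Q and g Q g⁻¹, R for the subgroup generated by the centralizer of z in g Q g⁻¹ and the centralizer of g z g⁻¹ in Q, and E for the intersection of Q and g Q g⁻¹. Then V is the centre of R, E lies in the second centre of R, R is nilpotent of class at most 3, E and R/E are elementary abelian, R/E is the direct product of the images of the centralizer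 of g z g⁻¹ in Q and of the centralizer of z in g Q g⁻¹ (R is their product and they meet in E), and the commutator subgroup of X and E lies in V. -/
theorem result {G : Type*} [Group G] [Finite G] (Q : Subgroup G) (hQ : Cfsg.IsLargeExtraspecial Q) (z : G) (hz : ((Subgroup.center ↥Q).map Q.subtype) = Subgroup.zpowers z) (hz2 : orderOf z = 2) (w : ℕ) (hw : 2 ≤ w) (hcard : Nat.card ↥Q = 2 ^ (2 * w + 1)) (g : G) (hgH : g ∉ Subgroup.centralizer ({z} : Set G)) (hgQ : g * z * g⁻¹ ∈ Q) (V X R E : Subgroup G) (hV : V = Subgroup.closure ({z, g * z * g⁻¹} : Set G)) (hX : X = Q ⊔ (Q).map (MulAut.conj g).toMonoidHom) (hR : R = ((Q).map (MulAut.conj g).toMonoidHom ⊓ Subgroup.centralizer ({z} : Set G)) ⊔ (Q ⊓ Subgroup.centralizer ({g * z * g⁻¹} : Set G))) (hE : E = Q ⊓ (Q).map (MulAut.conj g).toMonoidHom) : (Subgroup.center ↥R).map R.subtype = V ∧ E ≤ (Subgroup.upperCentralSeries ↥R 2).map R.subtype ∧ Subgroup.upperCentralSeries ↥R 3 = ⊤ ∧ Cfsg.IsElementaryAbelian 2 E ∧ (∀ x ∈ R, ∀ y ∈ R,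 x * y * x⁻¹ * y⁻¹ ∈ E ∧ x ^ 2 ∈ E) ∧ ((Q).map (MulAut.conj g).toMonoidHom ⊓ Subgroup.centralizer ({z} : Set G)) ⊓ (Q ⊓ Subgroup.centralizer ({g * z * g⁻¹} : Set G)) = E ∧ ⁅X, E⁆ ≤ V := by
  classical
  haveI : Fact (Nat.Prime 2) := ⟨Nat.prime_two⟩
  have P := linked_of_large hQ hz hw hcard hgH hgQ
  set U := Q.map (MulAut.conj g).toMonoidHom with hUdef
  set s := g * z * g⁻¹ with hs
  clear_value s U
  rw [sup_comm] at hR
  have hzz := P.left.z_mul_z
  have hss := P.right.z_mul_z
  obtain ⟨hne1, hne2, hne3⟩ := P.zs_ne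
  obtain ⟨q, hq, hqs⟩ := exists_conj_eq_mul P.left.extraspecial P.left.mem_iff P.s_mem P.s_not_mem_zOf
  obtain ⟨u, hu, huz⟩ := exists_conj_eq_mul P.right.extraspecial P.right.mem_iff P.z_mem P.symm.s_not_mem_zOf
  have hqns : q * s ≠ s * q := fun e => hne2 (by rw [← hqs, e, mul_inv_cancel_right])
  have hunz : u * z ≠ z * u := fun e => hne1 (by rw [P.zs, ← huz, e, mul_inv_cancel_right])
  have hqz : q * z * q⁻¹ = z := by rw [P.left.comm hq, mul_inv_cancel_right]
  have hus : u * s * u⁻¹ = s := by rw [P.right.comm hu, mul_inv_cancel_right]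
  have hqzs : q * (z * s) * q⁻¹ = s := by rw [← conj_mul, hqz, hqs, ← mul_assoc, hzz, one_mul]
  have huzs : u * (z * s) * u⁻¹ = z := by
    rw [← conj_mul, huz, hus, ← P.zs, mul_assoc, hss, mul_one]
  have hcore : ∀ r ∈ R, r * z = z * r ∧ r * s = s * r := fun r hr => P.core_le_centralizer (hR ▸ hr)
  have hQR : ∀ x ∈ Q, ∀ r ∈ R, x * r * x⁻¹ ∈ R := fun x hx r hr => by
    rw [hR] at hr ⊢; exact P.q_normalizes hx hr
  have hUR : ∀ x ∈ U, ∀ r ∈ R, x * r * x⁻¹ ∈ R := fun x hx r hr => by
    rw [hR] at hr ⊢; exact P.u_normalizes hx hr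
  have hzE : ∀ x, x ∈ E ↔ x ∈ Q ∧ x ∈ U := fun x => by rw [hE]; exact Iff.rfl
  have hEA : ∀ e ∈ E, e * s = s * e ∧ e * z = z * e := fun e he =>
    ⟨P.right.comm ((hzE e).1 he).2, P.left.comm ((hzE e).1 he).1⟩
  have hER : E ≤ R := fun e he => hR ▸ Linked.mem_core_left ((hzE e).1 he).1 (hEA e he).1
  have hVle : ∀ x ∈ V, x ∈ E := by
    intro x hx
    have : V ≤ E := by
      rw [hV, Subgroup.closure_le]
      rintro y (rfl | rfl)
      · exact (hzE y).2 ⟨P.left.z_mem, P.z_mem⟩
      · exact (hzE y).2 ⟨P.s_mem, P.right.z_mem⟩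
    exact this hx
  have hzV : z ∈ V := hV ▸ Subgroup.subset_closure (Or.inl rfl)
  have hsV : s ∈ V := hV ▸ Subgroup.subset_closure (Or.inr rfl)
  have hzQV : ∀ x ∈ zOf Q, x ∈ V := fun x hx => by
    rcases (P.left.mem_iff x).1 hx with rfl | rfl
    exacts [V.one_mem, hzV]
  have hsUV : ∀ x ∈ zOf U, x ∈ V := fun x hx => by
    rcases (P.right.mem_iff x).1 hx with rfl | rfl
    exacts [V.one_mem, hsV]
  have hboth : ∀ x, x ∈ zOf Q → x ∈ zOf U → x = 1 := by
    intro x h1 h2
    rcases (P.left.mem_iff x).1 h1 with e | e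
    · exact e
    · rcases (P.right.mem_iff x).1 h2 with e' | e'
      · exact e'
      · exact absurd (e.symm.trans e') P.ne
  have hVc : ∀ r ∈ R, ∀ x ∈ V, r * x = x * r := by
    intro r hr x hx
    have : V ≤ Subgroup.centralizer ({r} : Set G) := by
      rw [hV, Subgroup.closure_le]
      rintro y (rfl | rfl) <;> refine Subgroup.mem_centralizer_singleton_iff.2 ?_
      exacts [(hcore r hr).1.symm, (hcore r hr).2.symm]
    exact (Subgroup.mem_centralizer_singleton_iff.1 (this hx)).symm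
  -- commutators with `E`
  have hXV : ∀ x ∈ Q ⊔ U, ∀ v ∈ V, x * v * x⁻¹ ∈ V := by
    intro x hx v hv
    have hle : Q ⊔ U ≤ Subgroup.normalizer (V : Set G) := by
      rw [sup_le_iff]
      constructor <;> rw [Subgroup.le_normalizer_iff] <;> intro w hw y hy
      all_goals
        have key : V ≤ V.comap (MulAut.conj w).toMonoidHom := by
          nth_rw 1 [hV]
          rw [Subgroup.closure_le]
          rintro c (rfl | rfl)
          all_goals show w * c * w⁻¹ ∈ V
          all_goals first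
            | (rw [P.left.comm hw, mul_inv_cancel_right]; assumption)
            | (rw [P.right.comm hw, mul_inv_cancel_right]; assumption)
            | (rcases conj_mem_two P.left.extraspecial P.left.mem_iff hw P.s_mem with e | e <;> rw [e]
               exacts [hsV, V.mul_mem hzV hsV])
            | (rcases conj_mem_two P.right.extraspecial P.right.mem_iff hw P.z_mem with e | e <;> rw [e]
               exacts [hzV, V.mul_mem hsV hzV])
        exact key hy
    exact (Subgroup.mem_normalizer_iff.1 (hle hx) v).1 hv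
  have hXE : ∀ x ∈ Q ⊔ U, ∀ e ∈ E, x * e * x⁻¹ * e⁻¹ ∈ V := by
    intro x hx
    rw [Subgroup.sup_eq_closure] at hx
    induction hx using Subgroup.closure_induction with
    | mem y hy =>
      intro e he
      rcases hy with hy | hy
      · exact hzQV _ (comm_mem P.left.extraspecial hy ((hzE e).1 he).1)
      · exact hsUV _ (comm_mem P.right.extraspecial hy ((hzE e).1 he).2)
    | one => intro e _; simp
    | mul a b ha _ iha ihb =>
      intro e he
      have h1 := hXV a (Subgroup.sup_eq_closure Q U ▸ ha) _ (ihb e he)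
      have := V.mul_mem h1 (iha e he)
      convert this using 1
      group
    | inv a ha iha =>
      intro e he
      have h1 := hXV a⁻¹ (Subgroup.inv_mem _ (Subgroup.sup_eq_closure Q U ▸ ha)) _ (V.inv_mem (iha e he))
      convert h1 using 1
      group
  have hXEle : ⁅X, E⁆ ≤ V := by
    rw [hX, Subgroup.commutator_le]
    intro x hx e he
    rw [commutatorElement_def]
    exact hXE x hx e he
  have hRX : R ≤ Q ⊔ U := by
    rw [hR]; exact sup_le (inf_le_left.trans le_sup_left) (inf_le_left.trans le_sup_right)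
  have hEn : ∀ r ∈ R, ∀ e ∈ E, r * e * r⁻¹ ∈ E := by
    intro r hr e he
    obtain ⟨h1, h2⟩ := hcore r hr
    exact (hzE _).2 ⟨(P.left.normalized r h1 e).1 ((hzE e).1 he).1,
      (P.right.normalized r h2 e).1 ((hzE e).1 he).2⟩
  haveI : (E.subgroupOf R).Normal := ⟨fun n hn r => hEn r r.2 n hn⟩
  -- generators modulo `E`
  let mk : ↥R → ↥R ⧸ E.subgroupOf R := QuotientGroup.mk
  have hAA : ∀ a a' : ↥R, (a : G) ∈ Q → (a' : G) ∈ Q → Commute (mk a) (mk a') ∧ mk a * mk a = 1 := by
    intro a a' ha ha'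
    refine ⟨?_, ?_⟩
    · show mk (a * a') = mk (a' * a)
      rw [QuotientGroup.eq]
      have := hVle _ (hzQV _ (comm_mem P.left.extraspecial (Q.inv_mem ha') (Q.inv_mem ha)))
      rw [Subgroup.mem_subgroupOf]
      simpa [mul_assoc] using this
    · exact (QuotientGroup.eq_one_iff (a * a)).2 (hVle _ (hzQV _ (sq_mem P.left.extraspecial ha)))
  have hBB : ∀ b b' : ↥R, (b : G) ∈ U → (b' : G) ∈ U → Commute (mk b) (mk b') ∧ mk b * mk b = 1 := by
    intro b b' hb hb'
    refine ⟨?_, ?_⟩
    · show mk (b * b') = mk (b' * b)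
      rw [QuotientGroup.eq]
      have := hVle _ (hsUV _ (comm_mem P.right.extraspecial (U.inv_mem hb') (U.inv_mem hb)))
      rw [Subgroup.mem_subgroupOf]
      simpa [mul_assoc] using this
    · exact (QuotientGroup.eq_one_iff (b * b)).2 (hVle _ (hsUV _ (sq_mem P.right.extraspecial hb)))
  have hAB : ∀ a b : ↥R, (a : G) ∈ Q → (b : G) ∈ U → Commute (mk a) (mk b) := by
    intro a b ha hb
    show mk (a * b) = mk (b * a)
    rw [QuotientGroup.eq, Subgroup.mem_subgroupOf]
    have hb1 := (hcore b b.2).1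
    have ha1 := (hcore a a.2).2
    have : (b : G)⁻¹ * (a : G)⁻¹ * b * a ∈ E := (hzE _).2 ⟨?_, ?_⟩
    · simpa [mul_assoc] using this
    · rw [show (b : G)⁻¹ * (a : G)⁻¹ * b * a = ((b : G)⁻¹ * (a : G)⁻¹ * (b : G)⁻¹⁻¹) * a by group]
      refine Q.mul_mem ?_ ha
      exact (P.left.normalized _ (Commute.inv_left hb1) _).1 (Q.inv_mem ha)
    · rw [show (b : G)⁻¹ * (a : G)⁻¹ * b * a = (b : G)⁻¹ * ((a : G)⁻¹ * b * (a : G)⁻¹⁻¹) by group]
      refine U.mul_mem (U.inv_mem hb) ?_
      exact (P.right.normalized _ (Commute.inv_left ha1) _).1 hb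
  have hsplit : ∀ r : ↥R, ∃ a b : ↥R, (a : G) ∈ Q ∧ (b : G) ∈ U ∧ r = a * b := by
    intro r
    obtain ⟨a, b, ha, has, hb, hbz, hab⟩ := P.mem_core (show (r : G) ∈ _ by rw [← hR]; exact r.2)
    exact ⟨⟨a, hR ▸ Linked.mem_core_left ha has⟩, ⟨b, hR ▸ Linked.mem_core_right hb hbz⟩, ha, hb,
      Subtype.ext hab⟩
  have hcm : ∀ x y : ↥R, Commute (mk x) (mk y) ∧ mk x * mk x = 1 := by
    intro x y
    obtain ⟨a, b, ha, hb, rfl⟩ := hsplit x
    obtain ⟨a', b', ha', hb', rfl⟩ := hsplit y
    refine ⟨?_, ?_⟩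
    · show Commute (mk a * mk b) (mk a' * mk b')
      exact ((hAA a a' ha ha').1.mul_right (hAB a b' ha hb')).mul_left
        ((hAB a' b ha' hb).symm.mul_right (hBB b b' hb hb').1)
    · show (mk a * mk b) * (mk a * mk b) = 1
      rw [(hAB a b ha hb).symm.mul_mul_mul_comm, (hAA a a ha ha).2, (hBB b b hb hb).2, one_mul]
  have hcomE : ∀ x ∈ R, ∀ y ∈ R, x * y * x⁻¹ * y⁻¹ ∈ E ∧ x ^ 2 ∈ E := by
    intro x hx y hy
    obtain ⟨h1, h2⟩ := hcm ⟨x, hx⟩ ⟨y, hy⟩
    refine ⟨?_, ?_⟩
    · have e : mk (⟨x, hx⟩ * ⟨y, hy⟩ * ⟨x, hx⟩⁻¹ * ⟨y, hy⟩⁻¹) = 1 := by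
        show mk ⟨x, hx⟩ * mk ⟨y, hy⟩ * (mk ⟨x, hx⟩)⁻¹ * (mk ⟨y, hy⟩)⁻¹ = 1
        rw [h1.eq]; group
      exact Subgroup.mem_subgroupOf.1 ((QuotientGroup.eq_one_iff (N := E.subgroupOf R)
        (⟨x, hx⟩ * ⟨y, hy⟩ * ⟨x, hx⟩⁻¹ * ⟨y, hy⟩⁻¹ : ↥R)).1 e)
    · rw [pow_two]
      exact Subgroup.mem_subgroupOf.1 ((QuotientGroup.eq_one_iff (N := E.subgroupOf R)
        (⟨x, hx⟩ * ⟨x, hx⟩ : ↥R)).1 (show mk (⟨x, hx⟩ * ⟨x, hx⟩) = 1 from h2))
  -- the centre
  have hcenter : (Subgroup.center ↥R).map R.subtype = V := by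
    refine le_antisymm ?_ (fun x hx => ⟨⟨x, hER (hVle x hx)⟩,
      Subgroup.mem_center_iff.2 fun r => Subtype.ext (hVc r r.2 x hx), rfl⟩)
    intro c hc
    obtain ⟨hcR, hcc⟩ := mem_zOf.1 (show c ∈ zOf R from hc)
    obtain ⟨hcz, hcs⟩ := hcore c hcR
    have hA : ∀ p ∈ Q, p * s = s * p → c * p * c⁻¹ = p := fun p hp hps => by
      rw [← hcc p (hR ▸ Linked.mem_core_left hp hps), mul_inv_cancel_right]
    set d := q⁻¹ * (c * q * c⁻¹) with hd
    have hdQ : d ∈ Q := Q.mul_mem (Q.inv_mem hq) ((P.left.normalized c hcz q).1 hq)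
    have hdA : ∀ p ∈ Q, p * s = s * p → p * d = d * p := by
      intro p hp hps
      have hp' : (q * p * q⁻¹) * s = s * (q * p * q⁻¹) := by
        have h1 : Commute p (q⁻¹ * s * q⁻¹⁻¹) := by
          rcases conj_mem_two P.left.extraspecial P.left.mem_iff (Q.inv_mem hq) P.s_mem with e | e <;>
            rw [e]
          · exact hps
          · exact Commute.mul_right (P.left.comm hp) hps
        have := h1.map (MulAut.conj q)
        simpa [mul_assoc] using this.eq
      have e1 := hA _ (Q.mul_mem (Q.mul_mem hq hp) (Q.inv_mem hq)) hp'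
      have e2 := hA p hp hps
      have e3 : (c * q * c⁻¹) * p * (c * q * c⁻¹)⁻¹ = q * p * q⁻¹ := by
        calc (c * q * c⁻¹) * p * (c * q * c⁻¹)⁻¹ = c * (q * (c⁻¹ * p * c) * q⁻¹) * c⁻¹ := by group
          _ = c * (q * p * q⁻¹) * c⁻¹ := by
              rw [show c⁻¹ * p * c = p by nth_rw 1 [← e2]; group]
          _ = q * p * q⁻¹ := e1
      have e4 : d * p * d⁻¹ = p := by
        calc d * p * d⁻¹ = q⁻¹ * ((c * q * c⁻¹) * p * (c * q * c⁻¹)⁻¹) * q := by rw [hd]; group
          _ = p := by rw [e3]; group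
      exact (mul_inv_eq_iff_eq_mul.1 e4).symm
    have hds : d * s = s * d := (hdA s P.s_mem rfl).symm
    have hcq : c * q * c⁻¹ = q * d := by rw [hd]; group
    have hQeq : ∀ c', (∀ p ∈ Q, p * s = s * p → c' * p * c'⁻¹ = p) → c' * q * c'⁻¹ = q → c' ∈ zOf Q := by
      intro c' h1 h2
      rw [← P.left.centralizer_eq]
      refine Subgroup.mem_centralizer_iff.2 fun p hp => ?_
      rcases P.q_coset hq hqns hp with e | e
      · exact (mul_inv_eq_iff_eq_mul.1 (h1 p hp e)).symm
      · have e2 := h1 _ (Q.mul_mem (Q.inv_mem hq) hp) e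
        calc p * c' = q * ((q⁻¹ * p) * c') := by group
          _ = q * (c' * (q⁻¹ * p)) := by rw [← mul_inv_eq_iff_eq_mul.1 e2]
          _ = (c' * q) * (q⁻¹ * p) := by rw [← mul_assoc, mul_inv_eq_iff_eq_mul.1 h2]
          _ = c' * p := by group
    have hsconj : ∀ p ∈ Q, p * s = s * p → (c * s) * p * (c * s)⁻¹ = p := fun p hp hps => by
      calc (c * s) * p * (c * s)⁻¹ = c * (s * p * s⁻¹) * c⁻¹ := by group
        _ = p := by rw [← hps, mul_inv_cancel_right, hA p hp hps]
    rcases P.left.eq_of_comm_centralizer P.s_mem P.s_not_mem_zOf hdQ hds hdA with hd' | hd' <;>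
      rcases (P.left.mem_iff _).1 hd' with e | e
    · exact hzQV _ (hQeq c hA (by rw [hcq, e, mul_one]))
    · have hcs' : c * s ∈ zOf Q := hQeq _ hsconj (by
        have hsq' : s * q * s⁻¹ = z * q := by
          rcases conj_mem_two P.left.extraspecial P.left.mem_iff P.s_mem hq with e' | e'
          · exact absurd (mul_inv_eq_iff_eq_mul.1 e').symm hqns
          · exact e'
        calc c * s * q * (c * s)⁻¹ = c * (s * q * s⁻¹) * c⁻¹ := by group
          _ = (c * z) * q * c⁻¹ := by rw [hsq']; group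
          _ = z * (c * q * c⁻¹) := by rw [hcz]; group
          _ = q := by rw [hcq, e, P.left.comm hq, ← mul_assoc, hzz, one_mul])
      have := V.mul_mem (hzQV _ hcs') hsV
      rwa [mul_assoc, hss, mul_one] at this
    all_goals
      exfalso
      have hdd : d = s ∨ d = z * s := by
        first
          | exact Or.inl (mul_inv_eq_one.1 e)
          | exact Or.inr (mul_inv_eq_iff_eq_mul.1 e)
      have hfix : c * (q * q) * c⁻¹ = q * q := by
        rcases (P.left.mem_iff _).1 (sq_mem P.left.extraspecial hq) with e' | e' <;> rw [e']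
        · group
        · rw [hcz, mul_inv_cancel_right]
      have h2 : q * d * (q * d) = q * q := by
        rw [← hcq, ← hfix]; group
      have h3 : d * q * d = q := mul_left_cancel (a := q) (by rw [← h2]; group)
      apply hqns
      rcases hdd with rfl' | rfl'
      all_goals rw [rfl'] at h3
      · calc q * s = s * q * s * s := by rw [h3]
          _ = s * q := by rw [mul_assoc (s * q), hss, mul_one]
      · have hzq : z * q = q * z := (P.left.comm hq).symm
        have h4 : s * q * s = q := by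
          calc s * q * s = s * q * s * (z * z) := by rw [hzz, mul_one]
            _ = (z * s) * q * (z * s) := by
                have c1 : Commute z (s * q * s) := ((show Commute z s from P.zs).mul_right hzq).mul_right P.zs
                rw [← mul_assoc (s * q * s), ← c1.eq]
                calc z * (s * q * s) * z = z * s * q * (s * z) := by group
                  _ = z * s * q * (z * s) := by rw [P.zs]
            _ = q := h3
        calc q * s = s * q * s * s := by rw [h4]
          _ = s * q := by rw [mul_assoc (s * q), hss, mul_one]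
  have hE2 : E ≤ (Subgroup.upperCentralSeries ↥R 2).map R.subtype := by
    intro e he
    refine ⟨⟨e, hER he⟩, ?_, rfl⟩
    rw [SetLike.mem_coe, Subgroup.mem_upperCentralSeries_succ_iff]
    intro y
    rw [Subgroup.upperCentralSeries_one]
    have := hXE y (hRX y.2) e he
    have h1 : e * (y : G) * e⁻¹ * (y : G)⁻¹ ∈ V := by
      convert V.inv_mem this using 1
      group
    rw [← hcenter] at h1
    obtain ⟨v, hv, hve⟩ := h1
    have : ⁅(⟨e, hER he⟩ : ↥R), y⁆ = v := Subtype.ext (by
      rw [commutatorElement_def]; simpa using hve.symm)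
    rw [this]; exact hv
  refine ⟨hcenter, hE2, ?_, ⟨⟨⟨fun a b => Subtype.ext ?_⟩⟩, fun a ha => ?_⟩, hcomE, ?_, hXEle⟩
  · rw [eq_top_iff]
    intro x _
    rw [Subgroup.mem_upperCentralSeries_succ_iff]
    intro y
    have := hE2 ((hcomE x x.2 y y.2).1)
    obtain ⟨v, hv, hve⟩ := this
    have : ⁅x, y⁆ = v := Subtype.ext (by
      rw [commutatorElement_def]; simpa using hve.symm)
    rw [this]; exact hv
  · show (a : G) * b = b * a
    have h1 := (hzE _).1 a.2
    have h2 := (hzE _).1 b.2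
    exact mul_inv_eq_iff_eq_mul.1 (mul_inv_eq_one.1 (hboth _ (comm_mem P.left.extraspecial h1.1 h2.1)
      (comm_mem P.right.extraspecial h1.2 h2.2)))
  · rw [pow_two]
    exact hboth _ (sq_mem P.left.extraspecial ((hzE a).1 ha).1) (sq_mem P.right.extraspecial ((hzE a).1 ha).2)
  · refine le_antisymm (fun x hx => (hzE x).2 ⟨hx.2.1, hx.1.1⟩) (fun x hx => ?_)
    exact ⟨⟨((hzE x).1 hx).2, Subgroup.mem_centralizer_singleton_iff.2 (hEA x hx).2⟩,
      ⟨((hzE x).1 hx).1, Subgroup.mem_centralizer_singleton_iff.2 (hEA x hx).1⟩⟩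

end Cfsg.Agent.S5431
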