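import Cfsg.Statements.S5432
import Cfsg.Agent.Eq.Def_Transfer
import Cfsg.Agent.Eq.Def_Classical
import Cfsg.Agent.Eq.Def_KGroupFacts
import Cfsg.Agent.ExtraspecialTwo.Rank
import Cfsg.Agent.ExtraspecialTwo.Aut
-- import your own Cfsg.Agent.* helpers here

set_option autoImplicit false
open Cfsg CfsgLib.ExtraspecialTwo CfsgLib.F2Forms

namespace Cfsg.Agent.S5432

/-- Let E be an extraspecial 2-group of order 2^(2n+1), n ≥ 1. If E contains an elementary abelian subgroup of order 2^(n+1) (plus type), then its outer automorphism group is isomorphic to the full isometry group of the hyperbolic quadratic form in dimension 2n over the field with two elements; otherwise (minus type) it is isomorphic to the full isometry group of the elliptic quadratic form in dimension 2n over that field. -/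
theorem result {E : Type*} [Group E] [Finite E] (hE : Cfsg.IsExtraspecial 2 E) (n : ℕ) (hn : 1 ≤ n) (hcard : Nat.card E = 2 ^ (2 * n + 1)) : ((∃ A : Subgroup E, Cfsg.IsElementaryAbelian 2 A ∧ Nat.card ↥A = 2 ^ (n + 1)) → Nonempty (Cfsg.Out E ≃* Cfsg.isometryGroup (ZMod 2) (Cfsg.quadFormPlus n (ZMod 2)))) ∧ ((¬ ∃ A : Subgroup E, Cfsg.IsElementaryAbelian 2 A ∧ Nat.card ↥A = 2 ^ (n + 1)) → Nonempty (Cfsg.Out E ≃* Cfsg.isometryGroup (ZMod 2) (Cfsg.quadFormMinus (n - 1) (ZMod 2) 1 1))) := by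
  obtain ⟨m, w, π, c, hm, e⟩ := exists_coord hE
  obtain rfl : n = m := by
    have := Nat.pow_right_injective (le_refl 2) (hcard.symm.trans e); omega
  obtain ⟨φ⟩ := c.nonempty_out_equiv hE
  refine ⟨fun ⟨A, hA, hAc⟩ => ?_, fun hno => ?_⟩
  · have hw := (c.card_le A fun a ha => by rw [← pow_two]; exact hA.2 a ha).2 hAc
    obtain ⟨g, hg⟩ := (form_plus_iff n w).2 hw
    obtain ⟨ψ⟩ := nonempty_isometryGroup_equiv g hg
    exact ⟨φ.trans ψ⟩
  · have hw : quadFormPlus n (ZMod 2) w = 1 :=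
      (ne_zero_iff _).1 fun hw => hno ((c.exists_max_elementary hm).1 hw)
    obtain ⟨k, rfl⟩ : ∃ k, n = k + 1 := ⟨n - 1, by omega⟩
    obtain ⟨g, hg⟩ := (form_minus_iff k w).2 hw
    obtain ⟨ψ⟩ := nonempty_isometryGroup_equiv g hg
    exact ⟨φ.trans ψ⟩

end Cfsg.Agent.S5432
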