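import Cfsg.Statements.S5435
import Cfsg.Agent.LargeExtraspecial.Extraspecial
import Cfsg.Agent.Eq.Def_TwoFusion
import Cfsg.Agent.Involutions.Isolated
import Cfsg.Agent.Transfer.ThompsonTransfer

set_option autoImplicit false
open Cfsg
open scoped Pointwise

namespace Cfsg.Agent.S5435

/-- Squares and commutators of `R` in the subgroup `⟨z⟩`. -/
theorem frattini_facts {L : Type*} [Group L] [Finite L] (z : L) (hz : z * z = 1) (R : Subgroup L)
    (hR : IsPGroup 2 ↥R) (hΦ : (frattini ↥R).map R.subtype = Subgroup.zpowers z) :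
    ∀ a ∈ R, (a * a = 1 ∨ a * a = z) ∧ ∀ b ∈ R, a * b * a⁻¹ = b ∨ a * b * a⁻¹ = z * b := by
  have hzp : ∀ x ∈ Subgroup.zpowers z, x = 1 ∨ x = z := by
    intro x hx
    obtain ⟨k, rfl⟩ := Subgroup.mem_zpowers_iff.1 hx
    rcases Int.even_or_odd k with ⟨m, rfl⟩ | ⟨m, rfl⟩
    · left; rw [← two_mul, zpow_mul, zpow_two, hz, one_zpow]
    · right; rw [zpow_add, zpow_mul, zpow_two, hz, one_zpow, one_mul, zpow_one]
  have hsq : ∀ a : ↥R, ((a * a : ↥R) : L) ∈ Subgroup.zpowers z := fun a =>
    hΦ ▸ Subgroup.mem_map_of_mem R.subtype (CfsgLib.LargeExtraspecial.sq_mem_frattini hR a)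
  intro a ha
  refine ⟨hzp _ (hsq ⟨a, ha⟩), fun b hb => ?_⟩
  have hmem : a * b * a⁻¹ * b⁻¹ ∈ Subgroup.zpowers z := by
    have h := Subgroup.mul_mem _ (Subgroup.mul_mem _ (hsq ⟨a, ha⟩)
      (hsq (⟨a, ha⟩⁻¹ * ⟨b, hb⟩))) (hsq ⟨b, hb⟩⁻¹)
    simpa [mul_assoc] using h
  rcases hzp _ hmem with e | e
  · left; exact mul_inv_eq_one.1 e
  · right; exact mul_inv_eq_iff_eq_mul.1 e

/-- An index two subgroup avoiding a given element and containing all squares. -/
theorem exists_avoiding {L : Type*} [Group L] [Finite L] (R B : Subgroup L) (hBR : B ≤ R)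
    (hsq : ∀ a ∈ R, a * a ∈ B) (u : L) (hu : u ∈ R) (huB : u ∉ B) :
    ∃ Q : Subgroup L, Q ≤ R ∧ Q.relIndex R = 2 ∧ B ≤ Q ∧ u ∉ Q := by
  classical
  obtain ⟨K, hK⟩ := Set.Finite.exists_maximal
    (Set.toFinite {K : Subgroup L | B ≤ K ∧ K ≤ R ∧ u ∉ K}) ⟨B, le_rfl, hBR, huB⟩
  obtain ⟨⟨hBK, hKR, huK⟩, hmax⟩ := hK
  have hcomm : ∀ a ∈ R, ∀ b ∈ R, a * b * a⁻¹ * b⁻¹ ∈ K := by
    intro a ha b hb
    have h := K.mul_mem (K.mul_mem (hBK (hsq a ha))
      (hBK (hsq (a⁻¹ * b) (R.mul_mem (R.inv_mem ha) hb)))) (hBK (hsq b⁻¹ (R.inv_mem hb)))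
    simpa [mul_assoc] using h
  have hnorm : ∀ a ∈ R, ∀ k ∈ K, a * k * a⁻¹ ∈ K := by
    intro a ha k hk
    simpa using K.mul_mem (hcomm a ha k (hKR hk)) hk
  refine ⟨K, hKR, ?_, hBK, huK⟩
  have key : ∀ y ∈ R, y ∉ K → u * y ∈ K := by
    intro y hy hyK
    let S : Subgroup L :=
      { carrier := {x | x ∈ K ∨ (x ∈ R ∧ y * x ∈ K)}
        one_mem' := Or.inl K.one_mem
        mul_mem' := by
          rintro a b (ha | ⟨ha, ha'⟩) (hb | ⟨hb, hb'⟩)
          · exact Or.inl (K.mul_mem ha hb)
          · refine Or.inr ⟨R.mul_mem (hKR ha) hb, ?_⟩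
            have := K.mul_mem (hnorm y hy a ha) hb'
            simpa [mul_assoc] using this
          · refine Or.inr ⟨R.mul_mem ha (hKR hb), ?_⟩
            simpa [mul_assoc] using K.mul_mem ha' hb
          · left
            have h1 := K.mul_mem (K.mul_mem (hnorm y⁻¹ (R.inv_mem hy) _ ha')
              (hBK (hsq y⁻¹ (R.inv_mem hy)))) hb'
            simpa [mul_assoc] using h1
        inv_mem' := by
          rintro a (ha | ⟨ha, ha'⟩)
          · exact Or.inl (K.inv_mem ha)
          · refine Or.inr ⟨R.inv_mem ha, ?_⟩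
            have h1 := K.mul_mem (hnorm y hy _ (K.inv_mem ha')) (hBK (hsq y hy))
            simpa [mul_assoc] using h1 }
    have hyS : y ∈ S := Or.inr ⟨hy, hBK (hsq y hy)⟩
    have hKS : K ≤ S := fun x hx => Or.inl hx
    have huS : u ∈ S := by
      by_contra hn
      have hSR : S ≤ R := by rintro x (hx | hx); exacts [hKR hx, hx.1]
      exact hyK (hmax ⟨hBK.trans hKS, hSR, hn⟩ hKS hyS)
    rcases huS with h | ⟨-, h⟩
    · exact absurd h huK
    · simpa [mul_assoc] using K.mul_mem (hcomm u hu y hy) h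
  refine Subgroup.relIndex_eq_two_iff.2 ⟨u, hu, fun b hb => ?_⟩
  by_cases hbK : b ∈ K
  · refine Or.inr ⟨hbK, fun h => huK ?_⟩
    simpa [← mul_assoc] using K.mul_mem (K.inv_mem hbK) h
  · refine Or.inl ⟨?_, hbK⟩
    simpa [mul_assoc] using hnorm b hb _ (key b hb hbK)

theorem two_facts : (∀ y : Multiplicative (ZMod 2), y ^ 2 = 1) ∧
    (Multiplicative.ofAdd (1 : ZMod 2) ≠ 1) ∧
    (1 : Multiplicative (ZMod 2)) = Multiplicative.ofAdd 1 * Multiplicative.ofAdd 1 := by decide

/-- A simple nonabelian group has no isolated involution with a 2-group as centralizer that is not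
elementary: there is a conjugate of `z` commuting with `z` and different from it. -/
theorem exists_conjugate {L : Type*} [Group L] [Finite L] [IsSimpleGroup L]
    (hL : ¬ IsMulCommutative L) (z : L) (hz : orderOf z = 2) (R : Sylow 2 L)
    (hR : (R : Subgroup L) = Subgroup.centralizer ({z} : Set L))
    (hF : ∀ a ∈ (R : Subgroup L), (a * a = 1 ∨ a * a = z)) :
    ∃ g : L, g * z * g⁻¹ ∈ (R : Subgroup L) ∧ g * z * g⁻¹ ≠ z := by
  classical
  by_contra hne
  push Not at hne
  haveI : Fact (Nat.Prime 2) := ⟨Nat.prime_two⟩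
  have hiso : Cfsg.IsIsolatedInvolution z := by
    refine ⟨hz, fun g hc => hne g ?_⟩
    rw [hR, Subgroup.mem_centralizer_singleton_iff]
    exact hc.eq.symm
  have hz1 : z ≠ 1 := by
    intro h; rw [h, orderOf_one] at hz; omega
  have hzR : z ∈ (R : Subgroup L) := by
    rw [hR, Subgroup.mem_centralizer_singleton_iff]
  -- `R` controls fusion in `R`
  have hctrl : ∀ x ∈ (R : Subgroup L), ∀ g : L, g * x * g⁻¹ ∈ (R : Subgroup L) →
      ∃ r ∈ (R : Subgroup L), r * x * r⁻¹ = g * x * g⁻¹ := by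
    intro x hx g hgx
    rw [hR, Subgroup.mem_centralizer_singleton_iff] at hx hgx
    obtain ⟨j, -, -, hcz⟩ := CfsgLib.Isolated.exists_midpoint hiso g
    set c := ((g * z * g⁻¹) * z) ^ j
    have hcy : Commute c (g * x * g⁻¹) := by
      refine Commute.pow_left (Commute.mul_left ?_ hgx.symm) j
      exact (show Commute z x from hx.symm).map (MulAut.conj g)
    refine ⟨c⁻¹ * g, ?_, ?_⟩
    · rw [hR, Subgroup.mem_centralizer_singleton_iff]
      calc c⁻¹ * g * z = c⁻¹ * (g * z * g⁻¹) * g := by group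
        _ = c⁻¹ * (c * z * c⁻¹) * g := by rw [hcz]
        _ = z * (c⁻¹ * g) := by group
    · calc c⁻¹ * g * x * (c⁻¹ * g)⁻¹ = c⁻¹ * ((g * x * g⁻¹) * c) := by group
        _ = g * x * g⁻¹ := by rw [← hcy.eq, inv_mul_cancel_left]
  by_cases huniq : ∀ a ∈ (R : Subgroup L), a ∈ Subgroup.zpowers z
  · -- `R = ⟨z⟩` is cyclic
    have hcyc : IsCyclic ↥(R : Subgroup L) := by
      have : (R : Subgroup L) = Subgroup.zpowers z := le_antisymm huniq (Subgroup.zpowers_le.2 hzR)
      rw [this]; infer_instance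
    have hmin : (Nat.card L).minFac = 2 := by
      rw [Nat.minFac_eq_two_iff, ← hz]
      exact orderOf_dvd_natCard z
    have hc := IsCyclic.isComplement' (P := R) hmin hcyc
    rcases (MonoidHom.transferSylow R (IsCyclic.normalizer_le_centralizer hmin hcyc)).normal_ker.eq_bot_or_eq_top with e | e
    · rw [e] at hc
      have := Subgroup.isComplement'_bot_left.1 hc
      apply hL
      refine ⟨⟨fun a b => ?_⟩⟩
      have ha : a ∈ (R : Subgroup L) := this ▸ Subgroup.mem_top a
      have hb : b ∈ (R : Subgroup L) := this ▸ Subgroup.mem_top b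
      obtain ⟨m, rfl⟩ := Subgroup.mem_zpowers_iff.1 (huniq a ha)
      obtain ⟨n, rfl⟩ := Subgroup.mem_zpowers_iff.1 (huniq b hb)
      exact (Commute.zpow_zpow (Commute.refl z) m n).eq
    · rw [e] at hc
      have := Subgroup.isComplement'_top_left.1 hc
      rw [this, Subgroup.mem_bot] at hzR
      exact hz1 hzR
  push Not at huniq
  obtain ⟨u, huR, huz⟩ := huniq
  obtain ⟨Q, hQR, hQ2, hzQ, huQ⟩ := exists_avoiding (R : Subgroup L) (Subgroup.zpowers z)
    (Subgroup.zpowers_le.2 hzR) (fun a ha => by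
      rcases hF a ha with e | e <;> rw [e]
      · exact Subgroup.one_mem _
      · exact Subgroup.mem_zpowers z) u huR huz
  set Q' := Q.subgroupOf (R : Subgroup L) with hQ'
  have hidx : Q'.index = 2 := hQ2
  let φ : (R : Subgroup L) →* Multiplicative (ZMod 2) :=
    { toFun := fun x => if x ∈ Q' then 1 else Multiplicative.ofAdd 1
      map_one' := by simp
      map_mul' := fun a b => by
        have h := Subgroup.mul_mem_iff_of_index_two hidx (a := a) (b := b)
        by_cases ha : a ∈ Q' <;> by_cases hb : b ∈ Q' <;> simp [ha, hb, h]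
        exact two_facts.2.2 }
  have hV : φ.transfer u = φ ⟨u, huR⟩ := by
    letI : Fintype (Quotient (MulAction.orbitRel (Subgroup.zpowers u) (L ⧸ (R : Subgroup L)))) :=
      Fintype.ofFinite _
    rw [MonoidHom.transfer_eq_prod_quotient_orbitRel_zpowers_quot]
    have hterm : ∀ (g₀ : L) (m : ℕ) (hm : g₀⁻¹ * u ^ m * g₀ ∈ (R : Subgroup L)),
        φ ⟨_, hm⟩ = φ ⟨u, huR⟩ ^ m := by
      intro g₀ m hm
      obtain ⟨r, hr, hrx⟩ := hctrl (u ^ m) ((R : Subgroup L).pow_mem huR m) g₀⁻¹ (by simpa using hm)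
      have : (⟨_, hm⟩ : (R : Subgroup L)) = ⟨r, hr⟩ * ⟨u, huR⟩ ^ m * ⟨r, hr⟩⁻¹ :=
        Subtype.ext (by simp [hrx])
      rw [this, map_mul, map_mul, map_pow, map_inv, mul_comm (φ ⟨r, hr⟩), mul_inv_cancel_right]
    rw [Finset.prod_congr rfl (fun q _ => hterm q.out.out _ _), Finset.prod_pow_eq_pow_sum]
    have hsum := (R : Subgroup L).index_eq_sum_minimalPeriod u
    rw [← hsum]
    have hodd : Odd (R : Subgroup L).index := by
      rw [← Nat.not_even_iff_odd, even_iff_two_dvd]
      exact R.not_dvd_index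
    obtain ⟨k, hk⟩ := hodd
    have h2 := two_facts.1
    rw [hk, pow_succ, pow_mul, h2, one_pow, one_mul]
  have hφu : φ ⟨u, huR⟩ = Multiplicative.ofAdd 1 := if_neg huQ
  rcases φ.transfer.normal_ker.eq_bot_or_eq_top with e | e
  · apply hL
    exact ⟨⟨fun a b => (MonoidHom.ker_eq_bot_iff _).1 e (by rw [map_mul, map_mul, mul_comm])⟩⟩
  · have : φ.transfer u = 1 := MonoidHom.mem_ker.1 (e ▸ Subgroup.mem_top u)
    rw [hV, hφu] at this
    exact two_facts.2.1 this

/-- Facts about `R = C(z)` with a fused pair `z`, `s = g z g⁻¹`. -/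
structure PairFacts {L : Type*} [Group L] (R : Subgroup L) (z s : L) : Prop where
  notcentral : ∃ r ∈ R, r * s * r⁻¹ = z * s
  decomp : ∀ p ∈ R, p * s = s * p →
    p * p = 1 ∧ ((∀ r ∈ R, r * p = p * r) ∨ ∀ r ∈ R, r * (s * p) = (s * p) * r)
  central : ∀ p : L, (∀ r ∈ R, r * p = p * r) → p ∈ R → p * s = s * p
  fuse : ∀ Q : Subgroup L, z ∈ Q → ∀ c ∈ R, c ∈ Q → (∀ r ∈ R, r * c = c * r) →
    ∃ x c', c' ∈ R ∧ c' ∈ Q ∧ (∀ r ∈ R, r * c' = c' * r) ∧ x * (s * c) * x⁻¹ = c'

theorem pairFacts {L : Type*} [Group L] [Finite L] (z : L) (hz : orderOf z = 2) (R : Subgroup L)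
    (hR : R = Subgroup.centralizer ({z} : Set L))
    (hF : ∀ a ∈ R, (a * a = 1 ∨ a * a = z) ∧ ∀ b ∈ R, a * b * a⁻¹ = b ∨ a * b * a⁻¹ = z * b)
    (hnorm : ∀ g : L, (∀ x : L, x ∈ R ↔ g * x * g⁻¹ ∈ R) → g ∈ R)
    (g : L) (hgR : g * z * g⁻¹ ∈ R) (hgz : g * z * g⁻¹ ≠ z) : PairFacts R z (g * z * g⁻¹) := by
  set s := g * z * g⁻¹ with hs
  have hzz : z * z = 1 := by rw [← pow_two, ← hz, pow_orderOf_eq_one]
  have hss : s * s = 1 := by
    have := congrArg (MulAut.conj g) hzz
    simpa [hs] using this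
  have memR : ∀ x, x ∈ R ↔ x * z = z * x := fun x => by
    rw [hR, Subgroup.mem_centralizer_singleton_iff]
  have memR' : ∀ x, g⁻¹ * x * g ∈ R ↔ x * s = s * x := by
    intro x
    rw [memR]
    constructor
    · intro h
      calc x * s = g * ((g⁻¹ * x * g) * z) * g⁻¹ := by rw [hs]; group
        _ = s * x := by rw [h, hs]; group
    · intro h
      calc g⁻¹ * x * g * z = g⁻¹ * (x * s) * g := by rw [hs]; group
        _ = z * (g⁻¹ * x * g) := by rw [h, hs]; group
  have hzR : z ∈ R := (memR z).2 rfl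
  have hzs : z * s = s * z := ((memR s).1 hgR).symm
  -- `s` is not central in `R`
  obtain ⟨r₀, hr₀, hr₀s⟩ : ∃ r ∈ R, r * s * r⁻¹ = z * s := by
    by_contra hn
    push Not at hn
    have hall : ∀ r ∈ R, g⁻¹ * r * g ∈ R := fun r hr => (memR' r).2 (by
      rcases (hF r hr).2 s hgR with e | e
      · exact mul_inv_eq_iff_eq_mul.1 e
      · exact absurd e (hn r hr))
    have heq : R.map (MulAut.conj g⁻¹).toMonoidHom = R := by
      refine Subgroup.eq_of_le_of_card_ge ?_ ?_
      · rintro _ ⟨r, hr, rfl⟩; simpa using hall r hr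
      · exact (Nat.card_congr (R.equivMapOfInjective _ (MulAut.conj g⁻¹).injective).toEquiv).le
    have : g⁻¹ ∈ R := hnorm g⁻¹ fun x => by
      refine ⟨fun hx => by simpa using hall x hx, fun hx => ?_⟩
      rw [← heq] at hx
      obtain ⟨r, hr, hrx⟩ := hx
      have : r = x := (MulAut.conj g⁻¹).injective hrx
      exact this ▸ hr
    apply hgz
    have := (memR g).1 (by simpa using R.inv_mem this)
    rw [hs, this]; group
  have hdec : ∀ p ∈ R, p * s = s * p →
      p * p = 1 ∧ ((∀ r ∈ R, r * p = p * r) ∨ ∀ r ∈ R, r * (s * p) = (s * p) * r) := by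
    intro p hp hps
    have hp' := (memR' p).2 hps
    have hz1 : z ≠ 1 := by intro h; rw [h, orderOf_one] at hz; omega
    have habel : ∀ q ∈ R, q * s = s * q → q * p = p * q := by
      intro q hq hqs
      rcases (hF q hq).2 p hp with e | e
      · exact mul_inv_eq_iff_eq_mul.1 e
      · exfalso
        rcases (hF _ ((memR' q).2 hqs)).2 _ hp' with e' | e'
        · have : g⁻¹ * (q * p * q⁻¹) * g = g⁻¹ * p * g := by rw [← e']; group
          rw [e] at this
          exact hz1 (mul_eq_right.1 (mul_left_cancel (mul_right_cancel this)))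
        · have h2 : q * p * q⁻¹ = s * p := by
            calc q * p * q⁻¹ = g * ((g⁻¹ * q * g) * (g⁻¹ * p * g) * (g⁻¹ * q * g)⁻¹) * g⁻¹ := by group
              _ = s * p := by rw [e', hs]; group
          rw [e] at h2
          exact hgz (mul_right_cancel h2).symm
    refine ⟨?_, ?_⟩
    · rcases (hF p hp).1 with e | e
      · exact e
      · exfalso
        have h2 : g⁻¹ * z * g = (g⁻¹ * p * g) * (g⁻¹ * p * g) := by rw [← e]; group
        rcases (hF _ hp').1 with e' | e'
        · rw [e'] at h2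
          exact hz1 (by
            calc z = g * (g⁻¹ * z * g) * g⁻¹ := by group
              _ = 1 := by rw [h2]; group)
        · rw [e'] at h2
          exact hgz (by rw [hs]; nth_rw 1 [← h2]; group)
    · -- test against `r₀`
      have hsplit : ∀ r ∈ R, ∃ q ∈ R, q * s = s * q ∧ (r = q ∨ r = r₀ * q) := by
        intro r hr
        rcases (hF r hr).2 s hgR with e | e
        · exact ⟨r, hr, mul_inv_eq_iff_eq_mul.1 e, Or.inl rfl⟩
        · refine ⟨r₀⁻¹ * r, R.mul_mem (R.inv_mem hr₀) hr, ?_, Or.inr (by group)⟩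
          calc r₀⁻¹ * r * s = r₀⁻¹ * (r * s * r⁻¹) * r := by group
            _ = r₀⁻¹ * (r₀ * s * r₀⁻¹) * r := by rw [e, hr₀s]
            _ = s * (r₀⁻¹ * r) := by group
      have mk : ∀ p' : L, (∀ q ∈ R, q * s = s * q → q * p' = p' * q) → r₀ * p' = p' * r₀ →
          ∀ r ∈ R, r * p' = p' * r := by
        intro p' hq' h0 r hr
        obtain ⟨q, hq, hqs, rfl | rfl⟩ := hsplit r hr
        · exact hq' r hq hqs
        · exact (Commute.mul_left h0 (hq' q hq hqs) : Commute (r₀ * q) p')
      rcases (hF r₀ hr₀).2 p hp with e | e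
      · exact Or.inl (mk p habel (mul_inv_eq_iff_eq_mul.1 e))
      · refine Or.inr (mk (s * p) (fun q hq hqs => (Commute.mul_right hqs (habel q hq hqs))) ?_)
        have : r₀ * (s * p) * r₀⁻¹ = s * p := by
          calc r₀ * (s * p) * r₀⁻¹ = (r₀ * s * r₀⁻¹) * (r₀ * p * r₀⁻¹) := by group
            _ = (s * z) * (z * p) := by rw [hr₀s, e, hzs]
            _ = s * p := by rw [mul_assoc, ← mul_assoc z z, hzz, one_mul]
        exact mul_inv_eq_iff_eq_mul.1 this
  refine ⟨⟨r₀, hr₀, hr₀s⟩, hdec, fun p hp hpR => (hp s hgR).symm, ?_⟩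
  intro Q hzQ c hcR hcQ hc
  have hcs : c * s = s * c := (hc s hgR).symm
  -- `z` is not central in the second centralizer
  obtain ⟨y, hys, hyz⟩ : ∃ y, y * s = s * y ∧ y * z * y⁻¹ = s * z := by
    have hz' : g⁻¹ * z * g ∈ R := (memR' z).2 hzs
    have hne : g⁻¹ * z * g ≠ z := by
      intro h
      apply hgz
      rw [hs]; nth_rw 1 [← h]; group
    have hall : ∃ r ∈ R, r * (g⁻¹ * z * g) * r⁻¹ ≠ g⁻¹ * z * g := by
      by_contra hn
      push Not at hn
      have hle : ∀ r ∈ R, g * r * g⁻¹ ∈ R := fun r hr => by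
        rw [memR]
        calc g * r * g⁻¹ * z = g * (r * (g⁻¹ * z * g) * r⁻¹) * r * g⁻¹ := by group
          _ = z * (g * r * g⁻¹) := by rw [hn r hr]; group
      have heq : R.map (MulAut.conj g).toMonoidHom = R := by
        refine Subgroup.eq_of_le_of_card_ge ?_ ?_
        · rintro _ ⟨r, hr, rfl⟩; simpa using hle r hr
        · exact (Nat.card_congr (R.equivMapOfInjective _ (MulAut.conj g).injective).toEquiv).le
      have : g ∈ R := hnorm g fun x => by
        refine ⟨fun hx => hle x hx, fun hx => ?_⟩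
        rw [← heq] at hx
        obtain ⟨r, hr, hrx⟩ := hx
        have : r = x := (MulAut.conj g).injective hrx
        exact this ▸ hr
      apply hgz
      rw [hs, (memR g).1 this]; group
    obtain ⟨r, hr, hrne⟩ := hall
    rcases (hF r hr).2 _ hz' with e | e
    · exact absurd e hrne
    · refine ⟨g * r * g⁻¹, ?_, ?_⟩
      · calc g * r * g⁻¹ * s = g * (r * z) * g⁻¹ := by rw [hs]; group
          _ = s * (g * r * g⁻¹) := by rw [(memR r).1 hr, hs]; group
      · calc g * r * g⁻¹ * z * (g * r * g⁻¹)⁻¹ = g * (r * (g⁻¹ * z * g) * r⁻¹) * g⁻¹ := by group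
          _ = s * z := by rw [e, hs]; group
  have hcc := (hdec c hcR hcs).1
  -- replace `c` by `c'` fixed by `y`
  have hy2 : y * c * y⁻¹ = c ∨ y * c * y⁻¹ = s * c := by
    have hy' := (memR' y).2 hys
    have hc' := (memR' c).2 hcs
    rcases (hF _ hy').2 _ hc' with e | e
    · left
      calc y * c * y⁻¹ = g * ((g⁻¹ * y * g) * (g⁻¹ * c * g) * (g⁻¹ * y * g)⁻¹) * g⁻¹ := by group
        _ = c := by rw [e]; group
    · right
      calc y * c * y⁻¹ = g * ((g⁻¹ * y * g) * (g⁻¹ * c * g) * (g⁻¹ * y * g)⁻¹) * g⁻¹ := by group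
        _ = s * c := by rw [e, hs]; group
  rcases hy2 with e | e
  · -- `y c y⁻¹ = c`: `y (z c) y⁻¹ = s z c`
    refine ⟨y⁻¹ * r₀, z * c, R.mul_mem hzR hcR, Q.mul_mem hzQ hcQ,
      fun r hr => (Commute.mul_right ((memR r).1 hr) (hc r hr)), ?_⟩
    calc y⁻¹ * r₀ * (s * c) * (y⁻¹ * r₀)⁻¹ = y⁻¹ * ((r₀ * s * r₀⁻¹) * (r₀ * c * r₀⁻¹)) * y := by group
      _ = y⁻¹ * ((y * z * y⁻¹) * (y * c * y⁻¹)) * y := by
          rw [hr₀s, e, hyz, hzs, show r₀ * c * r₀⁻¹ = c by rw [hc r₀ hr₀, mul_inv_cancel_right]]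
      _ = z * c := by group
  · exact ⟨y⁻¹, c, hcR, hcQ, hc, by rw [← e]; group⟩


/-- Let L be a finite non-abelian simple group with an involution z whose centralizer R is a Sylow 2-subgroup of L whose Frattini subgroup is the subgroup generated by z. Then R is dihedral of order 8. -/
theorem result {L : Type*} [Group L] [Finite L] [IsSimpleGroup L] (hL : ¬ IsMulCommutative L) (z : L) (hz : orderOf z = 2) (R : Sylow 2 L) (hR : (R : Subgroup L) = Subgroup.centralizer ({z} : Set L)) (hΦ : (frattini ↥(R : Subgroup L)).map (R : Subgroup L).subtype = Subgroup.zpowers z) : Nonempty (↥(R : Subgroup L) ≃* DihedralGroup 4) := by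
  classical
  haveI : Fact (Nat.Prime 2) := ⟨Nat.prime_two⟩
  have hzz : z * z = 1 := by rw [← pow_two, ← hz, pow_orderOf_eq_one]
  have hz1 : z ≠ 1 := by intro h; rw [h, orderOf_one] at hz; omega
  have hF := frattini_facts z hzz (R : Subgroup L) R.isPGroup' hΦ
  have memR : ∀ x, x ∈ (R : Subgroup L) ↔ x * z = z * x := fun x => by
    rw [hR, Subgroup.mem_centralizer_singleton_iff]
  have hzR : z ∈ (R : Subgroup L) := (memR z).2 rfl
  have hzC : ∀ r ∈ (R : Subgroup L), r * z = z * r := fun r hr => (memR r).1 hr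
  -- `R` is self-normalizing
  have hnorm : ∀ g : L, (∀ x : L, x ∈ (R : Subgroup L) ↔ g * x * g⁻¹ ∈ (R : Subgroup L)) →
      g ∈ (R : Subgroup L) := by
    intro g hg
    have hmem : z ∈ (frattini ↥(R : Subgroup L)).map (R : Subgroup L).subtype :=
      hΦ ▸ Subgroup.mem_zpowers z
    obtain ⟨x, hx, hxz⟩ := hmem
    let e : ↥(R : Subgroup L) ≃* ↥(R : Subgroup L) :=
      { toFun := fun y => ⟨g * y * g⁻¹, (hg y).1 y.2⟩
        invFun := fun y => ⟨g⁻¹ * y * g, (hg _).2 (by simp [mul_assoc])⟩
        left_inv := fun y => Subtype.ext (by simp [mul_assoc])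
        right_inv := fun y => Subtype.ext (by simp [mul_assoc])
        map_mul' := fun a b => Subtype.ext (by simp [mul_assoc]) }
    have hex : e x ∈ frattini ↥(R : Subgroup L) := by
      have := Subgroup.characteristic_iff_comap_eq.1 (frattini_characteristic (G := ↥(R : Subgroup L))) e
      rw [← this] at hx
      exact hx
    have h2 : (e x : L) ∈ Subgroup.zpowers z := hΦ ▸ ⟨e x, hex, rfl⟩
    have h3 : (e x : L) = g * z * g⁻¹ := by rw [← hxz]; rfl
    obtain ⟨k, hk⟩ := Subgroup.mem_zpowers_iff.1 h2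
    rw [memR]
    rcases Int.even_or_odd k with ⟨m, rfl⟩ | ⟨m, rfl⟩
    · rw [← two_mul, zpow_mul, zpow_two, hzz, one_zpow] at hk
      exfalso
      exact hz1 (by
        calc z = g⁻¹ * (g * z * g⁻¹) * g := by group
          _ = 1 := by rw [← h3, ← hk]; group)
    · rw [zpow_add, zpow_mul, zpow_two, hzz, one_zpow, one_mul, zpow_one, h3] at hk
      nth_rw 2 [hk]; group
  -- central elements of `R` are not fused
  have hburn : ∀ c ∈ (R : Subgroup L), (∀ r ∈ (R : Subgroup L), r * c = c * r) → ∀ x : L,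
      x * c * x⁻¹ ∈ (R : Subgroup L) → (∀ r ∈ (R : Subgroup L), r * (x * c * x⁻¹) = (x * c * x⁻¹) * r) →
      x * c * x⁻¹ = c := by
    intro c _ hc x _ hc'
    set c' := x * c * x⁻¹ with hc'd
    set C := Subgroup.centralizer ({c'} : Set L)
    have hRC : (R : Subgroup L) ≤ C := fun r hr => Subgroup.mem_centralizer_singleton_iff.2 (hc' r hr)
    have hxC : ((x • R : Sylow 2 L) : Subgroup L) ≤ C := by
      change MulAut.conj x • (R : Subgroup L) ≤ C
      intro y hy
      rw [Subgroup.mem_smul_pointwise_iff_exists] at hy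
      obtain ⟨r, hr, rfl⟩ := hy
      rw [Subgroup.mem_centralizer_singleton_iff]
      exact ((hc r hr) ▸ rfl : (MulAut.conj x) (r * c) = (MulAut.conj x) (c * r)) |> fun h => by
        simpa [hc'd, map_mul] using h
    obtain ⟨k, hk⟩ := MulAction.exists_smul_eq ↥C ((x • R).subtype hxC) (R.subtype hRC)
    have hkR : ((k : L) * x) • R = R := by
      apply Sylow.subtype_injective (hP := ?_) (hQ := hRC)
      · rw [← hk, Sylow.smul_subtype]
        congr 1
        exact mul_smul _ _ _
      · rw [mul_smul]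
        exact Sylow.smul_le hxC k
    have hkx : (k : L) * x ∈ (R : Subgroup L) := by
      refine hnorm _ fun y => ?_
      have hn := Subgroup.mem_normalizer_iff.1 (Sylow.smul_eq_iff_mem_normalizer.1 hkR) y
      exact hn
    have hkc : (k : L) * c' = c' * (k : L) := Subgroup.mem_centralizer_singleton_iff.1 k.2
    calc c' = (k : L) * c' * (k : L)⁻¹ := by rw [hkc, mul_inv_cancel_right]
      _ = ((k : L) * x) * c * ((k : L) * x)⁻¹ := by rw [hc'd]; group
      _ = c := by rw [hc _ hkx, mul_inv_cancel_right]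
  obtain ⟨g, hgR, hgz⟩ := exists_conjugate hL z hz R hR (fun a ha => (hF a ha).1)
  obtain ⟨⟨r₀, hr₀, hr₀s⟩, hdec, -, hfuse⟩ := pairFacts z hz _ hR hF hnorm g hgR hgz
  set s := g * z * g⁻¹ with hs
  clear_value s
  have hss : s * s = 1 := (hdec s hgR rfl).1
  have hzs : z * s = s * z := (hzC s hgR).symm
  have hr₀ns : r₀ * s ≠ s * r₀ := by
    intro h
    rw [h, mul_inv_cancel_right] at hr₀s
    exact hz1 (mul_eq_right.1 hr₀s.symm)
  -- an involution outside `C_R(s)`
  obtain ⟨w, hw, hww, hws⟩ : ∃ w ∈ (R : Subgroup L), w * w = 1 ∧ w * s ≠ s * w := by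
    rcases (hF r₀ hr₀).1 with e | e
    · exact ⟨r₀, hr₀, e, hr₀ns⟩
    · refine ⟨s * r₀, (R : Subgroup L).mul_mem hgR hr₀, ?_, fun h => hr₀ns ?_⟩
      · calc s * r₀ * (s * r₀) = s * (r₀ * s * r₀⁻¹) * (r₀ * r₀) := by group
          _ = s * (s * z) * z := by rw [hr₀s, hzs, e]
          _ = 1 := by rw [← mul_assoc, hss, one_mul, hzz]
      · rw [mul_assoc] at h
        exact mul_left_cancel h
  let P : Subgroup L := (R : Subgroup L) ⊓ Subgroup.centralizer ({s} : Set L)
  have hP2 : P.relIndex (R : Subgroup L) = 2 := by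
    refine Subgroup.relIndex_eq_two_iff.2 ⟨w, hw, fun b hb => ?_⟩
    have e : ∀ v ∈ (R : Subgroup L), v ∈ P ↔ v * s * v⁻¹ = s := fun v hv => by
      constructor
      · intro h
        rw [Subgroup.mem_centralizer_singleton_iff.1 h.2, mul_inv_cancel_right]
      · intro h
        exact ⟨hv, Subgroup.mem_centralizer_singleton_iff.2 (mul_inv_eq_iff_eq_mul.1 h)⟩
    have hwz : w * s * w⁻¹ = z * s := by
      rcases (hF w hw).2 s hgR with h | h
      · exact absurd (mul_inv_eq_iff_eq_mul.1 h) hws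
      · exact h
    have hne : z * s ≠ s := fun h => hz1 (mul_eq_right.1 h)
    have hwz2 : w * z * w⁻¹ = z := by rw [hzC w hw, mul_inv_cancel_right]
    rw [e b hb, e _ ((R : Subgroup L).mul_mem hb hw)]
    have hbw : b * w * s * (b * w)⁻¹ = z * (b * s * b⁻¹) := by
      calc b * w * s * (b * w)⁻¹ = b * (w * s * w⁻¹) * b⁻¹ := by group
        _ = (b * z) * s * b⁻¹ := by rw [hwz]; group
        _ = z * (b * s * b⁻¹) := by rw [hzC b hb]; group
    rcases (hF b hb).2 s hgR with h | h
    · exact Or.inr ⟨h, by rw [hbw, h]; exact hne⟩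
    · refine Or.inl ⟨by rw [hbw, h, ← mul_assoc, hzz, one_mul], by rw [h]; exact hne⟩
  have hwo : orderOf w = 2 := orderOf_eq_prime (by rw [pow_two, hww]) fun h => hws (by rw [h, one_mul, mul_one])
  have no_index_two : ¬ ∃ M : Subgroup L, M.Normal ∧ M.index = 2 ∧ ∃ v, v ∉ M := by
    rintro ⟨M, hM, hM2, v, hv⟩
    rcases hM.eq_bot_or_eq_top with e | e
    · rw [e, Subgroup.index_bot] at hM2
      exact hL ⟨⟨fun a b => by
        haveI : Fact (Nat.card L).Prime := ⟨hM2 ▸ Nat.prime_two⟩
        haveI := isCyclic_of_prime_card (α := L) rfl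
        exact IsCyclic.commGroup.mul_comm a b⟩⟩
    · exact hv (e ▸ Subgroup.mem_top v)
  -- every involution of `P` is conjugate to a central element of `R`
  obtain ⟨k, c, hcR, hc, hkc⟩ : ∃ k c, c ∈ (R : Subgroup L) ∧
      (∀ r ∈ (R : Subgroup L), r * c = c * r) ∧ k * c * k⁻¹ = w := by
    rcases CfsgLib.Transfer.thompsonTransferLemma R P inf_le_left hP2 w hwo hw
        (fun h => hws (Subgroup.mem_centralizer_singleton_iff.1 h.2)) with ⟨M, h1, h2, h3⟩ | ⟨x, hxR, hxs⟩
    · exact absurd ⟨M, h1, h2, w, h3⟩ no_index_two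
    · obtain ⟨-, hcen | hcen⟩ := hdec _ hxR (Subgroup.mem_centralizer_singleton_iff.1 hxs)
      · exact ⟨x⁻¹, x * w * x⁻¹, hxR, hcen, by group⟩
      · obtain ⟨y, c, hcR, -, hc, hyc⟩ := hfuse (R : Subgroup L) hzR _
          ((R : Subgroup L).mul_mem hgR hxR) ((R : Subgroup L).mul_mem hgR hxR) hcen
        rw [← mul_assoc s s, hss, one_mul] at hyc
        refine ⟨(y * x)⁻¹, c, hcR, hc, ?_⟩
        rw [← hyc]; group
  -- a second fused pair
  obtain ⟨g', hg'R, hg'z, hg's⟩ : ∃ g', g' * z * g'⁻¹ ∈ (R : Subgroup L) ∧ g' * z * g'⁻¹ ≠ z ∧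
      (g' * z * g'⁻¹) * s ≠ s * (g' * z * g'⁻¹) := by
    set C := Subgroup.centralizer ({w} : Set L)
    have hkC : ((k • R : Sylow 2 L) : Subgroup L) ≤ C := by
      change MulAut.conj k • (R : Subgroup L) ≤ C
      intro y hy
      rw [Subgroup.mem_smul_pointwise_iff_exists] at hy
      obtain ⟨r, hr, rfl⟩ := hy
      rw [Subgroup.mem_centralizer_singleton_iff, ← hkc]
      simp only [MulAut.smul_def, MulAut.conj_apply]
      calc k * r * k⁻¹ * (k * c * k⁻¹) = k * (r * c) * k⁻¹ := by group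
        _ = k * c * k⁻¹ * (k * r * k⁻¹) := by rw [hc r hr]; group
    have hzmem : z ∈ C := Subgroup.mem_centralizer_singleton_iff.2 (hzC w hw).symm
    have hzp : IsPGroup 2 ↥(Subgroup.zpowers (⟨z, hzmem⟩ : ↥C)) := by
      rw [IsPGroup.iff_card]
      exact ⟨1, by rw [Nat.card_zpowers, ← Subgroup.orderOf_coe, pow_one]; exact hz⟩
    obtain ⟨T, hT⟩ := hzp.exists_le_sylow
    obtain ⟨j, hj⟩ := MulAction.exists_smul_eq ↥C ((k • R).subtype hkC) T
    have hzT := hT (Subgroup.mem_zpowers _)
    rw [← hj] at hzT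
    change (⟨z, hzmem⟩ : ↥C) ∈ MulAut.conj j • (((k • R).subtype hkC : Sylow 2 ↥C) : Subgroup ↥C) at hzT
    rw [Subgroup.mem_smul_pointwise_iff_exists] at hzT
    obtain ⟨p, hp, hpz⟩ := hzT
    have hp' : (p : L) ∈ MulAut.conj k • (R : Subgroup L) := hp
    rw [Subgroup.mem_smul_pointwise_iff_exists] at hp'
    obtain ⟨r, hr, hrp⟩ := hp'
    have hz' : (j : L) * (k * r * k⁻¹) * (j : L)⁻¹ = z := by
      have := congrArg Subtype.val hpz
      simp only [MulAut.smul_def, MulAut.conj_apply] at this hrp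
      rw [Subgroup.coe_mul, Subgroup.coe_mul, Subgroup.coe_inv] at this
      rw [hrp]
      exact this
    have hjw : (j : L) * w * (j : L)⁻¹ = w := by
      rw [Subgroup.mem_centralizer_singleton_iff.1 j.2, mul_inv_cancel_right]
    set g' := (j : L) * k with hg'
    have hgc : g' * c * g'⁻¹ = w := by
      rw [hg', ← hjw, ← hkc]; group
    have hcomm : g' * z * g'⁻¹ * z = z * (g' * z * g'⁻¹) := by
      calc g' * z * g'⁻¹ * z = g' * z * g'⁻¹ * ((j : L) * (k * r * k⁻¹) * (j : L)⁻¹) := by rw [hz']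
        _ = g' * (z * r) * g'⁻¹ := by rw [hg']; group
        _ = g' * (r * z) * g'⁻¹ := by rw [hzC r hr]
        _ = ((j : L) * (k * r * k⁻¹) * (j : L)⁻¹) * (g' * z * g'⁻¹) := by rw [hg']; group
        _ = z * (g' * z * g'⁻¹) := by rw [hz']
    have hs'R : g' * z * g'⁻¹ ∈ (R : Subgroup L) := (memR _).2 hcomm
    have hs'w : g' * z * g'⁻¹ * w = w * (g' * z * g'⁻¹) := by
      rw [← hgc]
      calc _ = g' * (z * c) * g'⁻¹ := by group
        _ = _ := by rw [hc z hzR]; group
    have hne : g' * z * g'⁻¹ ≠ z := by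
      intro h
      have hgR' : g' ∈ (R : Subgroup L) := (memR _).2 (mul_inv_eq_iff_eq_mul.1 h)
      have : w = c := by rw [← hgc, hc g' hgR', mul_inv_cancel_right]
      exact hws (this ▸ (hc s hgR).symm)
    refine ⟨g', hs'R, hne, fun h => ?_⟩
    obtain ⟨⟨r, hr, hrs⟩, -, -, -⟩ := pairFacts z hz _ hR hF hnorm g' hs'R hne
    obtain ⟨-, hcen | hcen⟩ := hdec _ hs'R h
    · rw [hcen r hr, mul_inv_cancel_right] at hrs
      exact hz1 (mul_eq_right.1 hrs.symm)
    · apply hws
      have h1 : Commute w (s * (g' * z * g'⁻¹)) := hcen w hw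
      have h2 : Commute w (g' * z * g'⁻¹)⁻¹ := (Commute.inv_right hs'w.symm)
      have h3 := h1.mul_right h2
      rwa [mul_inv_cancel_right] at h3
  obtain ⟨-, hdec', -, hfuse'⟩ := pairFacts z hz _ hR hF hnorm g' hg'R hg'z
  set t := g' * z * g'⁻¹ with ht
  clear_value t
  have htt : t * t = 1 := (hdec' t hg'R rfl).1
  have hst : s * t * s⁻¹ = z * t := by
    rcases (hF s hgR).2 t hg'R with e | e
    · exact absurd (mul_inv_eq_iff_eq_mul.1 e).symm hg's
    · exact e
  have hts : t * s * t⁻¹ = z * s := by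
    rcases (hF t hg'R).2 s hgR with e | e
    · exact absurd (mul_inv_eq_iff_eq_mul.1 e) hg's
    · exact e
  -- every element is `s^a t^b` times a central element
  have hnf : ∀ x ∈ (R : Subgroup L), ∃ a b : Bool, ∃ d ∈ (R : Subgroup L),
      (∀ r ∈ (R : Subgroup L), r * d = d * r) ∧ x = (if a then s else 1) * (if b then t else 1) * d := by
    intro x hx
    obtain ⟨b, y, hy, hys, hxy⟩ : ∃ b : Bool, ∃ y ∈ (R : Subgroup L), y * s = s * y ∧
        x = (if b then t else 1) * y := by
      rcases (hF x hx).2 s hgR with e | e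
      · exact ⟨false, x, hx, mul_inv_eq_iff_eq_mul.1 e, by simp⟩
      · refine ⟨true, t⁻¹ * x, (R : Subgroup L).mul_mem ((R : Subgroup L).inv_mem hg'R) hx, ?_, by simp⟩
        calc t⁻¹ * x * s = t⁻¹ * (x * s * x⁻¹) * x := by group
          _ = t⁻¹ * (t * s * t⁻¹) * x := by rw [e, hts]
          _ = s * (t⁻¹ * x) := by group
    obtain ⟨-, hcen | hcen⟩ := hdec y hy hys
    · exact ⟨false, b, y, hy, hcen, by simpa using hxy⟩
    · cases b
      · refine ⟨true, false, s * y, (R : Subgroup L).mul_mem hgR hy, hcen, ?_⟩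
        rw [hxy]; simp [← mul_assoc, hss]
      · refine ⟨true, true, z * (s * y), (R : Subgroup L).mul_mem hzR ((R : Subgroup L).mul_mem hgR hy),
          fun r hr => (Commute.mul_right (hzC r hr) (hcen r hr)), ?_⟩
        rw [hxy]
        simp only [if_true]
        calc t * y = t * (s * s) * y := by rw [hss, mul_one]
          _ = (t * s * t⁻¹) * t * (s * y) := by group
          _ = s * (z * t) * (s * y) := by rw [hts, hzs]; group
          _ = s * t * (z * (s * y)) := by rw [← hzC t hg'R]; group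
  have hbool : ∀ a b : Bool, ∀ d, (∀ r ∈ (R : Subgroup L), r * d = d * r) →
      (∀ r ∈ (R : Subgroup L), r * ((if a then s else 1) * (if b then t else 1) * d) =
        ((if a then s else 1) * (if b then t else 1) * d) * r) → a = false ∧ b = false := by
    intro a b d hd h
    have key : ∀ r ∈ (R : Subgroup L), Commute r ((if a then s else 1) * (if b then t else 1)) := by
      intro r hr
      have h1 : Commute r d⁻¹ := Commute.inv_right (hd r hr)
      have := (show Commute r _ from h r hr).mul_right h1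
      rwa [mul_inv_cancel_right] at this
    cases a <;> cases b
    · exact ⟨rfl, rfl⟩
    · exact absurd (key s hgR) (by simpa using fun e : Commute s t => hg's e.eq.symm)
    · exact absurd (key t hg'R) (by simpa using fun e : Commute t s => hg's e.eq)
    · exfalso
      have := key t hg'R
      simp only [if_true] at this
      apply hg's
      exact mul_right_cancel (b := t) (by simpa [mul_assoc] using this.eq)
  -- the centre of `R` is `⟨z⟩`
  have hcentre : ∀ d ∈ (R : Subgroup L), (∀ r ∈ (R : Subgroup L), r * d = d * r) → d = 1 ∨ d = z := by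
    intro u huR hu
    by_contra hne
    push Not at hne
    let B : Subgroup L := Subgroup.closure {s, t}
    have hBR : B ≤ (R : Subgroup L) := by
      rw [Subgroup.closure_le]; rintro x (rfl | rfl); exacts [hgR, hg'R]
    have hsB : s ∈ B := Subgroup.subset_closure (Or.inl rfl)
    have htB : t ∈ B := Subgroup.subset_closure (Or.inr rfl)
    have hzB : z ∈ B := by
      have := B.mul_mem (B.mul_mem (B.mul_mem hsB htB) (B.inv_mem hsB)) (B.inv_mem htB)
      rwa [hst, mul_inv_cancel_right] at this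
    have huB : u ∉ B := by
      intro h
      have key : ∀ x ∈ B, ∃ a b : Bool, ∃ d, (d = 1 ∨ d = z) ∧
          x = (if a then s else 1) * (if b then t else 1) * d := by
        intro x hx
        have hts' : t * s = s * t * z := by
          calc t * s = (t * s * t⁻¹) * t := by group
            _ = s * (z * t) := by rw [hts, hzs]; group
            _ = s * t * z := by rw [← hzC t hg'R, mul_assoc]
        induction hx using Subgroup.closure_induction_left with
        | one => exact ⟨false, false, 1, Or.inl rfl, by simp⟩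
        | mul_left p hp q _ ih =>
          obtain ⟨a, b, d, hd, rfl⟩ := ih
          rcases hp with hp | hp <;> rw [hp]
          · exact ⟨!a, b, d, hd, by cases a <;> simp [← mul_assoc, hss]⟩
          · cases a
            · exact ⟨false, !b, d, hd, by cases b <;> simp [← mul_assoc, htt]⟩
            · refine ⟨true, !b, z * d, by rcases hd with rfl | rfl <;> simp [hzz], ?_⟩
              cases b
              · simp only [if_true, Bool.not_false, Bool.false_eq_true, if_false, mul_one]
                rw [← mul_assoc, hts']; group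
              · simp only [if_true, Bool.not_true, Bool.false_eq_true, if_false, mul_one]
                calc t * (s * t * d) = (t * s) * t * d := by group
                  _ = s * t * (z * t) * d := by rw [hts']; group
                  _ = s * (t * t) * z * d := by rw [← hzC t hg'R]; group
                  _ = s * (z * d) := by rw [htt]; group
        | inv_mul_cancel p hp q _ ih =>
          obtain ⟨a, b, d, hd, rfl⟩ := ih
          rcases hp with hp | hp <;> rw [hp]
          · exact ⟨!a, b, d, hd, by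
              rw [inv_eq_of_mul_eq_one_right hss]; cases a <;> simp [← mul_assoc, hss]⟩
          · rw [inv_eq_of_mul_eq_one_right htt]
            cases a
            · exact ⟨false, !b, d, hd, by cases b <;> simp [← mul_assoc, htt]⟩
            · refine ⟨true, !b, z * d, by rcases hd with rfl | rfl <;> simp [hzz], ?_⟩
              cases b
              · simp only [if_true, Bool.not_false, Bool.false_eq_true, if_false, mul_one]
                rw [← mul_assoc, hts']; group
              · simp only [if_true, Bool.not_true, Bool.false_eq_true, if_false, mul_one]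
                calc t * (s * t * d) = (t * s) * t * d := by group
                  _ = s * t * (z * t) * d := by rw [hts']; group
                  _ = s * (t * t) * z * d := by rw [← hzC t hg'R]; group
                  _ = s * (z * d) := by rw [htt]; group
      obtain ⟨a, b, d, hd, hud⟩ := key u h
      have hdc : ∀ r ∈ (R : Subgroup L), r * d = d * r := by
        rcases hd with rfl | rfl
        · simp
        · exact hzC
      obtain ⟨rfl, rfl⟩ := hbool a b d hdc (hud ▸ hu)
      simp only [Bool.false_eq_true, if_false, one_mul] at hud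
      rcases hd with rfl | rfl
      exacts [hne.1 hud, hne.2 hud]
    obtain ⟨Q, hQR, hQ2, hBQ, huQ⟩ := exists_avoiding (R : Subgroup L) B hBR (fun a ha => by
      rcases (hF a ha).1 with e | e <;> rw [e]
      exacts [B.one_mem, hzB]) u huR huB
    have huu : u * u = 1 := (hdec u huR (hu s hgR).symm).1
    have huo : orderOf u = 2 := orderOf_eq_prime (by rw [pow_two, huu]) hne.1
    rcases CfsgLib.Transfer.thompsonTransferLemma R Q hQR hQ2 u huo huR huQ with ⟨M, h1, h2, h3⟩ | ⟨x, hx⟩
    · exact no_index_two ⟨M, h1, h2, u, h3⟩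
    · have hxR := hQR hx
      obtain ⟨a, b, d, hdR, hd, hxd⟩ := hnf _ hxR
      have hdQ : d ∈ Q := by
        have hab : (if a then s else 1) * (if b then t else 1) ∈ Q := by
          refine Q.mul_mem ?_ ?_
          · cases a <;> simp [hBQ hsB]
          · cases b <;> simp [hBQ htB]
        have := Q.mul_mem (Q.inv_mem hab) hx
        rwa [hxd, inv_mul_cancel_left] at this
      have hsq : (x * u * x⁻¹) * (x * u * x⁻¹) = 1 := by
        calc _ = x * (u * u) * x⁻¹ := by group
          _ = 1 := by rw [huu]; group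
      cases a <;> cases b
      · simp only [Bool.false_eq_true, if_false, one_mul] at hxd
        have := hburn u huR hu x hxR (hxd ▸ hd)
        exact huQ (this ▸ hx)
      · simp only [Bool.false_eq_true, if_false, if_true, one_mul] at hxd
        obtain ⟨y, e, heR, heQ, he, hye⟩ := hfuse' Q (hBQ hzB) d hdR hdQ hd
        rw [← hxd] at hye
        have e2 : y * x * u * (y * x)⁻¹ = e := by rw [← hye]; group
        have := hburn u huR hu (y * x) (e2 ▸ heR) (e2 ▸ he)
        exact huQ (this ▸ e2 ▸ heQ)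
      · simp only [Bool.false_eq_true, if_false, if_true, mul_one] at hxd
        obtain ⟨y, e, heR, heQ, he, hye⟩ := hfuse Q (hBQ hzB) d hdR hdQ hd
        rw [← hxd] at hye
        have e2 : y * x * u * (y * x)⁻¹ = e := by rw [← hye]; group
        have := hburn u huR hu (y * x) (e2 ▸ heR) (e2 ▸ he)
        exact huQ (this ▸ e2 ▸ heQ)
      · simp only [if_true] at hxd
        rw [hxd] at hsq
        have hdd : d * d = 1 := (hdec d hdR (hd s hgR).symm).1
        apply hz1
        calc z = (s * t * s⁻¹) * t⁻¹ := by rw [hst]; group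
          _ = s * t * (s * t) := by rw [inv_eq_of_mul_eq_one_right hss, inv_eq_of_mul_eq_one_right htt]; group
          _ = s * t * (s * t) * (d * d) := by rw [hdd, mul_one]
          _ = s * t * ((s * t) * d) * d := by group
          _ = s * t * (d * (s * t)) * d := by
              rw [hd (s * t) ((R : Subgroup L).mul_mem hgR hg'R)]
          _ = s * t * d * (s * t * d) := by group
          _ = 1 := hsq
  -- the isomorphism
  set ρ := s * t with hρ
  clear_value ρ
  have hρR : ρ ∈ (R : Subgroup L) := by rw [hρ]; exact (R : Subgroup L).mul_mem hgR hg'R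
  have hρ2 : ρ * ρ = z := by
    calc ρ * ρ = (s * t * s⁻¹) * t⁻¹ := by
          rw [hρ, inv_eq_of_mul_eq_one_right hss, inv_eq_of_mul_eq_one_right htt]; group
      _ = z := by rw [← hρ, hst]; group
  have hρ4 : orderOf ρ = 4 := by
    haveI := Fact.mk Nat.prime_two
    exact orderOf_eq_prime_pow (p := 2) (n := 1) (by rw [pow_one, pow_two, hρ2]; exact hz1)
      (by rw [show (2 : ℕ) ^ (1 + 1) = 2 * 2 by norm_num, pow_mul, pow_two ρ, hρ2, pow_two, hzz])
  have hsρ : s * ρ * s⁻¹ = ρ⁻¹ := by
    rw [hρ, mul_inv_rev, inv_eq_of_mul_eq_one_right hss, inv_eq_of_mul_eq_one_right htt,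
      ← mul_assoc, hss, one_mul]
  let S : ↥(R : Subgroup L) := ⟨s, hgR⟩
  let P4 : ↥(R : Subgroup L) := ⟨ρ, hρR⟩
  have hP4 : P4 ^ 4 = 1 := Subtype.ext (by simp [P4, ← hρ4, pow_orderOf_eq_one])
  have hpm : ∀ i j : ZMod 4, P4 ^ (i + j).val = P4 ^ i.val * P4 ^ j.val := fun i j => by
    rw [← pow_add, ZMod.val_add, ← pow_eq_pow_mod _ hP4]
  have hneg : ∀ i : ZMod 4, P4 ^ (-i).val = (P4 ^ i.val)⁻¹ := fun i => by
    apply eq_inv_of_mul_eq_one_left
    rw [← hpm, neg_add_cancel, ZMod.val_zero, pow_zero]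
  have hsw : ∀ i : ZMod 4, P4 ^ i.val * S = S * P4 ^ (-i).val := fun i => by
    have h1 : S * P4 * S⁻¹ = P4⁻¹ := Subtype.ext (by simpa [S, P4] using hsρ)
    rw [hneg, ← inv_pow, ← h1, conj_pow]
    have hS : S⁻¹ = S := inv_eq_of_mul_eq_one_right (Subtype.ext hss)
    rw [hS, ← mul_assoc, ← mul_assoc, show S * S = 1 from Subtype.ext hss, one_mul]
  let f : DihedralGroup 4 →* ↥(R : Subgroup L) :=
    { toFun := fun d => match d with
        | .r i => P4 ^ i.val
        | .sr i => S * P4 ^ i.val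
      map_one' := by show P4 ^ (0 : ZMod 4).val = 1; rw [ZMod.val_zero, pow_zero]
      map_mul' := by
        rintro (i | i) (j | j)
        · simp [DihedralGroup.r_mul_r, hpm]
        · show S * P4 ^ (j - i).val = P4 ^ i.val * (S * P4 ^ j.val)
          rw [← mul_assoc, hsw, mul_assoc, ← hpm, neg_add_eq_sub]
        · show S * P4 ^ (i + j).val = S * P4 ^ i.val * P4 ^ j.val
          rw [hpm, mul_assoc]
        · show P4 ^ (j - i).val = S * P4 ^ i.val * (S * P4 ^ j.val)
          rw [mul_assoc, ← mul_assoc (P4 ^ i.val), hsw, ← mul_assoc, ← mul_assoc,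
            show S * S = 1 from Subtype.ext hss, one_mul, ← hpm, neg_add_eq_sub] }
  have hinj : Function.Injective f := by
    rw [injective_iff_map_eq_one]
    rintro (i | i) h
    · have h' : ρ ^ i.val = 1 := by simpa [f, P4] using congrArg Subtype.val h
      have hd := orderOf_dvd_of_pow_eq_one h'
      rw [hρ4] at hd
      have hlt := ZMod.val_lt i
      have : i.val = 0 := by omega
      rw [ZMod.val_eq_zero] at this
      rw [this]; rfl
    · exfalso
      have h' : s * ρ ^ i.val = 1 := by simpa [f, S, P4] using congrArg Subtype.val h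
      have hc : s * ρ = ρ * s := by
        have : s = (ρ ^ i.val)⁻¹ := eq_inv_of_mul_eq_one_left h'
        rw [this]
        exact ((Commute.self_pow ρ i.val).inv_right).symm.eq
      rw [hc, mul_inv_cancel_right] at hsρ
      have : ρ * ρ = 1 := by nth_rw 2 [hsρ]; exact mul_inv_cancel ρ
      exact hz1 (hρ2.symm.trans this)
  have hsurj : Function.Surjective f := by
    intro x
    obtain ⟨a, b, d, hdR, hd, hxd⟩ := hnf x x.2
    have hS : S = f (.sr 0) := by simp [f]
    have hT : (⟨t, hg'R⟩ : ↥(R : Subgroup L)) = f (.sr 1) :=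
      Subtype.ext (by simp [f, S, P4, hρ, ← mul_assoc, hss, show (1 : ZMod 4).val = 1 from rfl])
    have hZ : (⟨z, hzR⟩ : ↥(R : Subgroup L)) = f (.r 2) :=
      Subtype.ext (by simp [f, P4, ← hρ2, show (2 : ZMod 4).val = 2 from rfl, pow_two])
    have hd' : (⟨d, hdR⟩ : ↥(R : Subgroup L)) ∈ f.range := by
      rcases hcentre d hdR hd with rfl | rfl
      · exact Subgroup.one_mem f.range
      · exact ⟨_, hZ.symm⟩
    have : x = (if a then S else 1) * (if b then ⟨t, hg'R⟩ else 1) * ⟨d, hdR⟩ := by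
      apply Subtype.ext; cases a <;> cases b <;> simpa [S] using hxd
    rw [this]
    refine f.range.mul_mem (f.range.mul_mem ?_ ?_) hd'
    · cases a
      · exact f.range.one_mem
      · exact ⟨_, hS.symm⟩
    · cases b
      · exact f.range.one_mem
      · exact ⟨_, hT.symm⟩
  exact ⟨(MulEquiv.ofBijective f ⟨hinj, hsurj⟩).symm⟩

end Cfsg.Agent.S5435
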