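import Cfsg.Statements.S5437
import Cfsg.Agent.Eq.Def_SporadicB

set_option autoImplicit false
open Cfsg

namespace Cfsg.Agent.S5437

theorem smul_mk_eq_iff {G : Type*} [Group G] (H : Subgroup G) (x g : G) :
    x • (QuotientGroup.mk g : G ⧸ H) = QuotientGroup.mk g ↔ g⁻¹ * x * g ∈ H := by
  rw [MulAction.Quotient.smul_mk, smul_eq_mul, eq_comm, QuotientGroup.eq, ← mul_assoc]


/-- Let I be a set of involutions of the finite group G closed under conjugation, and H a subgroup of G. The following are equivalent: (1) for every member x of I lying in H, the conjugates of x lying in H form a single H-class and the centralizer of x lies in H; (2) for every g outside H, no member of I lies in both H and g H g⁻¹; (3) every member of I lying in H fixes exactly one coset in the action of G on the cosets of H. -/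
theorem result {G : Type*} [Group G] [Finite G] (I : Set G) (hI : ∀ x ∈ I, orderOf x = 2) (hIc : ∀ g : G, ∀ x ∈ I, g * x * g⁻¹ ∈ I) (H : Subgroup G) : ((∀ x ∈ I, x ∈ H → (∀ g : G, g * x * g⁻¹ ∈ H → ∃ h ∈ H, h * x * h⁻¹ = g * x * g⁻¹) ∧ Subgroup.centralizer ({x} : Set G) ≤ H) ↔ (∀ g : G, g ∉ H → ∀ x ∈ I, ¬ (x ∈ H ∧ x ∈ (H : Subgroup G).map (MulAut.conj g).toMonoidHom))) ∧ ((∀ g : G, g ∉ H → ∀ x ∈ I, ¬ (x ∈ H ∧ x ∈ (H : Subgroup G).map (MulAut.conj g).toMonoidHom)) ↔ ∀ x ∈ I, x ∈ H → ∃! c : G ⧸ H, x • c = c) := by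
  have mem_conj : ∀ g x : G, x ∈ (H : Subgroup G).map (MulAut.conj g).toMonoidHom ↔ g⁻¹ * x * g ∈ H := by
    intro g x
    constructor
    · rintro ⟨y, hy, rfl⟩
      simpa [mul_assoc] using hy
    · intro hy
      exact ⟨g⁻¹ * x * g, hy, by simp [mul_assoc]⟩
  refine ⟨⟨fun h g hg x hxI hx => ?_, fun h x hxI hxH => ⟨fun g hgx => ?_, fun c hc => ?_⟩⟩,
    ⟨fun h x hxI hxH => ?_, fun h g hg x hxI hx => ?_⟩⟩
  · obtain ⟨hxH, hxg⟩ := hx
    rw [mem_conj] at hxg
    obtain ⟨k, hk, hkx⟩ := (h x hxI hxH).1 g⁻¹ (by simpa using hxg)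
    have hc : g * k ∈ Subgroup.centralizer ({x} : Set G) := by
      rw [Subgroup.mem_centralizer_singleton_iff]
      calc g * k * x = g * (k * x * k⁻¹) * k := by group
        _ = g * (g⁻¹ * x * g⁻¹⁻¹) * k := by rw [hkx]
        _ = x * (g * k) := by group
    have := H.mul_mem ((h x hxI hxH).2 hc) (H.inv_mem hk)
    exact hg (by simpa [mul_assoc] using this)
  · have hg : g ∈ H := by
      by_contra hg
      have hg' : g⁻¹ ∉ H := fun h' => hg (by simpa using H.inv_mem h')
      exact h g⁻¹ hg' x hxI ⟨hxH, (mem_conj _ _).2 (by simpa using hgx)⟩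
    exact ⟨g, hg, rfl⟩
  · by_contra hcH
    refine h c hcH x hxI ⟨hxH, (mem_conj _ _).2 ?_⟩
    rw [Subgroup.mem_centralizer_singleton_iff] at hc
    have : c⁻¹ * x * c = x := by rw [mul_assoc, ← hc, inv_mul_cancel_left]
    rwa [this]
  · refine ⟨QuotientGroup.mk 1, (smul_mk_eq_iff H x 1).2 (by simpa using hxH), fun c hc => ?_⟩
    induction c using QuotientGroup.induction_on with
    | _ g =>
      rw [smul_mk_eq_iff] at hc
      rw [QuotientGroup.eq]
      by_contra hg
      exact h g (fun h' => hg (by simpa using H.inv_mem h')) x hxI ⟨hxH, (mem_conj _ _).2 hc⟩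
  · obtain ⟨hxH, hxg⟩ := hx
    obtain ⟨c, -, hu⟩ := h x hxI hxH
    have h1 := hu (QuotientGroup.mk 1) ((smul_mk_eq_iff H x 1).2 (by simpa using hxH))
    have h2 := hu (QuotientGroup.mk g) ((smul_mk_eq_iff H x g).2 ((mem_conj _ _).1 hxg))
    have h3 := QuotientGroup.eq.1 (h1.trans h2.symm)
    exact hg (by simpa using h3)

end Cfsg.Agent.S5437
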