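import Cfsg.Statements.S5438
import Cfsg.Agent.Eq.Def_SporadicB

set_option autoImplicit false
open Cfsg
open scoped Pointwise

namespace Cfsg.Agent.S5438

theorem smul_mk_eq_iff {G : Type*} [Group G] (H : Subgroup G) (x g : G) :
    x • (QuotientGroup.mk g : G ⧸ H) = QuotientGroup.mk g ↔ g⁻¹ * x * g ∈ H := by
  rw [MulAction.Quotient.smul_mk, smul_eq_mul, eq_comm, QuotientGroup.eq, ← mul_assoc]

/-- A 2-group containing an element fixing only one coset fixes exactly that coset, if the index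
is odd. -/
theorem pgroup_fixed {G : Type*} [Group G] [Finite G] (H S : Subgroup G) (hodd : Odd H.index)
    (hS : IsPGroup 2 ↥S) {y : G} (hy : y ∈ S) (c₀ : G ⧸ H)
    (huniq : ∀ c : G ⧸ H, y • c = c → c = c₀) : ∀ s ∈ S, s • c₀ = c₀ := by
  haveI : Fact (Nat.Prime 2) := ⟨Nat.prime_two⟩
  have hmod := hS.card_modEq_card_fixedPoints (G ⧸ H)
  have hne : (MulAction.fixedPoints ↥S (G ⧸ H)).Nonempty := by
    rw [← Set.nonempty_coe_sort]
    by_contra hemp
    rw [not_nonempty_iff] at hemp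
    rw [Nat.card_of_isEmpty (α := ↥(MulAction.fixedPoints ↥S (G ⧸ H))), ← Subgroup.index] at hmod
    obtain ⟨k, hk⟩ := hodd
    unfold Nat.ModEq at hmod
    omega
  obtain ⟨c, hc⟩ := hne
  have hcc : c = c₀ := huniq c (hc ⟨y, hy⟩)
  intro s hs
  have := hc ⟨s, hs⟩
  rw [hcc] at this
  exact this


/-- Let z be a 2-central involution of the finite group G (an involution central in some Sylow 2-subgroup) and H a subgroup containing z such that the coset H is the only coset of H fixed by z (in the action of G on the cosets of H). Then H has odd index in G, and for every 2-element x of H the conjugates of x lying in H form a single H-class. -/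
theorem result {G : Type*} [Group G] [Finite G] (z : G) (hz : Cfsg.IsTwoCentralInvolution z) (H : Subgroup G) (hzH : z ∈ H) (hfix : ∀ g : G, g⁻¹ * z * g ∈ H → g ∈ H) : Odd H.index ∧ ∀ x ∈ H, (∃ k : ℕ, orderOf x = 2 ^ k) → ∀ g : G, g * x * g⁻¹ ∈ H → ∃ h ∈ H, h * x * h⁻¹ = g * x * g⁻¹ := by
  haveI : Fact (Nat.Prime 2) := ⟨Nat.prime_two⟩
  obtain ⟨hz2, P, hzP, hPc⟩ := hz
  have huz : ∀ c : G ⧸ H, z • c = c → c = QuotientGroup.mk 1 := by
    intro c
    induction c using QuotientGroup.induction_on with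
    | _ g =>
      intro hc
      have := hfix g ((smul_mk_eq_iff H z g).1 hc)
      exact QuotientGroup.eq.2 (by simpa using this)
  have hPH : (P : Subgroup G) ≤ H := by
    intro p hp
    refine hfix p ?_
    have : p⁻¹ * z * p = z := by rw [mul_assoc, ← hPc p hp, inv_mul_cancel_left]
    rwa [this]
  have hodd : Odd H.index := by
    rw [← Nat.not_even_iff_odd, even_iff_two_dvd]
    exact fun h => P.not_dvd_index (h.trans (Subgroup.index_dvd_of_le hPH))
  refine ⟨hodd, ?_⟩
  intro x hxH ⟨k, hk⟩ g hgx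
  -- every 2-element of `H` is centralized by an `H`-conjugate of `z`
  have key : ∀ y ∈ H, (∃ k, orderOf y = 2 ^ k) → ∃ h ∈ H, Commute (h * z * h⁻¹) y := by
    intro y hy ⟨j, hj⟩
    let y' : ↥H := ⟨y, hy⟩
    have hp : IsPGroup 2 ↥(Subgroup.zpowers y') := by
      rw [IsPGroup.iff_card]
      refine ⟨j, ?_⟩
      rw [Nat.card_zpowers, ← Subgroup.orderOf_coe y']
      exact hj
    obtain ⟨S, hS⟩ := hp.exists_le_sylow
    let PH : Sylow 2 ↥H := P.subtype hPH
    obtain ⟨h, hh⟩ := MulAction.exists_smul_eq ↥H PH S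
    have : y' ∈ ((h • PH : Sylow 2 ↥H) : Subgroup ↥H) := by
      rw [hh]; exact hS (Subgroup.mem_zpowers y')
    change y' ∈ MulAut.conj h • (PH : Subgroup ↥H) at this
    rw [Subgroup.mem_smul_pointwise_iff_exists] at this
    obtain ⟨p, hp, hpy⟩ := this
    refine ⟨(h : G), h.2, ?_⟩
    have hpy' : (h : G) * p * (h : G)⁻¹ = y := congrArg Subtype.val hpy
    have hpz : Commute z (p : G) := (hPc p hp).symm
    rw [← hpy']
    exact hpz.map (MulAut.conj (h : G))
  obtain ⟨a, ha, hax⟩ := key x hxH ⟨k, hk⟩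
  have hxo : orderOf (g * x * g⁻¹) = orderOf x := MulEquiv.orderOf_eq (MulAut.conj g) x
  obtain ⟨b, hb, hby⟩ := key (g * x * g⁻¹) hgx ⟨k, hxo.trans hk⟩
  set y := g * x * g⁻¹ with hy
  set z1 := b * z * b⁻¹ with hz1
  set z2 := (g * a) * z * (g * a)⁻¹ with hz2'
  have h2y : Commute z2 y := by
    have := hax.map (MulAut.conj g)
    simpa [hz2', hy, mul_assoc] using this
  -- unique fixed cosets
  have hu : ∀ (v : G) (c : G ⧸ H), (v * z * v⁻¹) • c = c → c = QuotientGroup.mk v := by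
    intro v c hc
    have h' : z • (v⁻¹ • c) = v⁻¹ • c := by
      calc z • v⁻¹ • c = v⁻¹ • (v * z * v⁻¹) • c := by
            simp only [smul_smul]; congr 1; group
        _ = v⁻¹ • c := by rw [hc]
    have := congrArg (v • ·) (huz _ h')
    simpa [smul_smul] using this
  let C := Subgroup.centralizer ({y} : Set G)
  have hzC : ∀ w : G, Commute w y → w ∈ C := fun w hw => Subgroup.mem_centralizer_singleton_iff.2 hw
  have hord : ∀ v : G, ∀ hv : v * z * v⁻¹ ∈ C, IsPGroup 2 ↥(Subgroup.zpowers (⟨_, hv⟩ : ↥C)) := by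
    intro v hv
    rw [IsPGroup.iff_card]
    refine ⟨1, ?_⟩
    rw [Nat.card_zpowers, ← Subgroup.orderOf_coe, pow_one]
    exact (MulEquiv.orderOf_eq (MulAut.conj v) z).trans hz2
  obtain ⟨S1, hS1⟩ := (hord b (hzC _ hby)).exists_le_sylow
  obtain ⟨S2, hS2⟩ := (hord (g * a) (hzC _ h2y)).exists_le_sylow
  obtain ⟨c, hc⟩ := MulAction.exists_smul_eq ↥C S1 S2
  have hf1 := pgroup_fixed H ((S1 : Subgroup ↥C).map C.subtype) hodd (S1.isPGroup'.map _)
    (Subgroup.mem_map_of_mem _ (hS1 (Subgroup.mem_zpowers _))) _ (hu b)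
  have hfix2 : z2 • (((c : G) • QuotientGroup.mk b : G ⧸ H)) = (c : G) • QuotientGroup.mk b := by
    have : (⟨z2, hzC _ h2y⟩ : ↥C) ∈ ((c • S1 : Sylow 2 ↥C) : Subgroup ↥C) := by
      rw [hc]; exact hS2 (Subgroup.mem_zpowers _)
    change (⟨z2, hzC _ h2y⟩ : ↥C) ∈ MulAut.conj c • (S1 : Subgroup ↥C) at this
    rw [Subgroup.mem_smul_pointwise_iff_exists] at this
    obtain ⟨p, hp, hpz⟩ := this
    have hpz' : (c : G) * p * (c : G)⁻¹ = z2 := congrArg Subtype.val hpz
    have := hf1 (p : G) (Subgroup.mem_map_of_mem _ hp)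
    rw [← hpz', smul_smul, inv_mul_cancel_right, ← smul_smul]
    exact congrArg ((c : G) • ·) this
  have hcb := hu (g * a) _ hfix2
  rw [MulAction.Quotient.smul_mk, smul_eq_mul, QuotientGroup.eq] at hcb
  refine ⟨(c : G)⁻¹ * g, ?_, ?_⟩
  · have := H.mul_mem (H.mul_mem hb hcb) (H.inv_mem ha)
    simpa [mul_assoc] using this
  · have hcy : (c : G) * y = y * (c : G) := Subgroup.mem_centralizer_singleton_iff.1 c.2
    calc (c : G)⁻¹ * g * x * ((c : G)⁻¹ * g)⁻¹ = (c : G)⁻¹ * (g * x * g⁻¹) * c := by group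
      _ = g * x * g⁻¹ := by rw [← hy, mul_assoc, ← hcy, inv_mul_cancel_left]

end Cfsg.Agent.S5438
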