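import Cfsg.Statements.S5439
import Cfsg.Agent.Eq.Def_SporadicB

set_option autoImplicit false
open Cfsg

namespace Cfsg.Agent.S5439

theorem conj_pow_of_inverts {G : Type*} [Group G] {a b : G} (ha : a * a = 1) (hb : b * b = 1)
    (n : ℕ) : a * (a * b) ^ n * a = ((a * b) ^ n)⁻¹ ∧ b * (a * b) ^ n * b = ((a * b) ^ n)⁻¹ := by
  have ha' : a⁻¹ = a := inv_eq_of_mul_eq_one_right ha
  have hb' : b⁻¹ = b := inv_eq_of_mul_eq_one_right hb
  have h1 : a * (a * b) * a⁻¹ = (a * b)⁻¹ := by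
    rw [mul_inv_rev, ha', hb', ← mul_assoc a a b, ha, one_mul]
  have h2 : b * (a * b) * b⁻¹ = (a * b)⁻¹ := by
    rw [mul_inv_rev, ha', hb', mul_assoc b, mul_assoc a, hb, mul_one]
  refine ⟨?_, ?_⟩
  · calc a * (a * b) ^ n * a = (a * (a * b) * a⁻¹) ^ n := by rw [conj_pow, ha']
      _ = ((a * b) ^ n)⁻¹ := by rw [h1, inv_pow]
  · calc b * (a * b) ^ n * b = (b * (a * b) * b⁻¹) ^ n := by rw [conj_pow, hb']
      _ = ((a * b) ^ n)⁻¹ := by rw [h2, inv_pow]

theorem conj_inv_eq {G : Type*} [Group G] {a r : G} (ha : a * a = 1) (h : a * r * a = r⁻¹) :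
    r⁻¹ * a * r⁻¹⁻¹ = a * (r * r) := by
  rw [inv_inv, ← h, mul_assoc (a * r) a a, ha, mul_one, mul_assoc]

/-- Two non-conjugate involutions `a`, `b` commute with an involution `w` in `⟨a, b⟩` such that
`a * w` is conjugate to `a` or to `b`. -/
theorem dihedral_central {G : Type*} [Group G] [Finite G] {a b : G} (ha : orderOf a = 2)
    (hb : orderOf b = 2) (hab : ¬ IsConj a b) :
    ∃ w : G, w ≠ 1 ∧ Commute a w ∧ Commute b w ∧ (IsConj a (a * w) ∨ IsConj b (a * w)) := by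
  have ha1 : a * a = 1 := by rw [← pow_two, ← ha, pow_orderOf_eq_one]
  have hb1 : b * b = 1 := by rw [← pow_two, ← hb, pow_orderOf_eq_one]
  have ha' : a⁻¹ = a := inv_eq_of_mul_eq_one_right ha1
  have hb' : b⁻¹ = b := inv_eq_of_mul_eq_one_right hb1
  rcases Nat.even_or_odd (orderOf (a * b)) with ⟨n, hn⟩ | ⟨n, hn⟩
  · have hn0 : 0 < n := by have := orderOf_pos (a * b); omega
    have hw : (a * b) ^ n * (a * b) ^ n = 1 := by rw [← pow_add, ← hn, pow_orderOf_eq_one]
    have hwi : ((a * b) ^ n)⁻¹ = (a * b) ^ n := inv_eq_of_mul_eq_one_right hw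
    obtain ⟨h1, h2⟩ := conj_pow_of_inverts ha1 hb1 n
    rw [hwi] at h1 h2
    refine ⟨(a * b) ^ n, fun h => ?_, ?_, ?_, ?_⟩
    · have := orderOf_dvd_of_pow_eq_one h
      have := Nat.le_of_dvd hn0 this
      omega
    · calc a * (a * b) ^ n = a * (a * b) ^ n * a * a := by rw [mul_assoc _ a a, ha1, mul_one]
        _ = (a * b) ^ n * a := by rw [h1]
    · calc b * (a * b) ^ n = b * (a * b) ^ n * b * b := by rw [mul_assoc _ b b, hb1, mul_one]
        _ = (a * b) ^ n * b := by rw [h2]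
    · rcases Nat.even_or_odd n with ⟨m, hm⟩ | ⟨m, hm⟩
      · left
        refine isConj_iff.2 ⟨((a * b) ^ m)⁻¹, ?_⟩
        rw [conj_inv_eq ha1 (conj_pow_of_inverts ha1 hb1 m).1, ← pow_add, ← hm]
      · right
        refine isConj_iff.2 ⟨((a * b) ^ m)⁻¹, ?_⟩
        have hba : a * (a * b) = b := by rw [← mul_assoc, ha1, one_mul]
        rw [conj_inv_eq hb1 (conj_pow_of_inverts ha1 hb1 m).2, ← pow_add]
        calc b * (a * b) ^ (m + m) = a * (a * b) * (a * b) ^ (m + m) := by rw [hba]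
          _ = a * (a * b) ^ n := by rw [mul_assoc, ← pow_succ', hm, two_mul]
  · exfalso
    apply hab
    refine isConj_iff.2 ⟨((a * b) ^ (n + 1))⁻¹, ?_⟩
    rw [conj_inv_eq ha1 (conj_pow_of_inverts ha1 hb1 (n + 1)).1, ← pow_add,
      show n + 1 + (n + 1) = orderOf (a * b) + 1 by omega, pow_succ', pow_orderOf_eq_one, mul_one,
      ← mul_assoc, ha1, one_mul]

/-- Let I and J be two different conjugacy classes of involutions of the finite group G and H a subgroup such that every member of I ∪ J fixes exactly one coset in the action on the cosets of H, and such that for every a in I ∩ H and every b in (I ∪ J) ∩ H different from a and commuting with it, the centralizer of a b lies in H. Then H = G. -/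
theorem result {G : Type*} [Group G] [Finite G] (I J : Set G) (a₀ b₀ : G) (ha₀ : orderOf a₀ = 2) (hb₀ : orderOf b₀ = 2) (hI : I = {x | IsConj a₀ x}) (hJ : J = {x | IsConj b₀ x}) (hIJ : I ≠ J) (H : Subgroup G) (hfix : ∀ x ∈ I ∪ J, ∃! c : G ⧸ H, x • c = c) (hcent : ∀ a ∈ I, a ∈ H → ∀ b ∈ I ∪ J, b ∈ H → a ≠ b → a * b = b * a → Subgroup.centralizer ({a * b} : Set G) ≤ H) : H = ⊤ := by
  classical
  have eqcoset : ∀ x ∈ I ∪ J, ∀ c d : G ⧸ H, x • c = c → x • d = d → c = d := fun x hx c d hc hd =>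
    (hfix x hx).unique hc hd
  have hmem : ∀ x : G, x ∈ H ↔ x • (QuotientGroup.mk 1 : G ⧸ H) = QuotientGroup.mk 1 := by
    intro x
    rw [MulAction.Quotient.smul_mk, smul_eq_mul, mul_one, eq_comm, QuotientGroup.eq, inv_one,
      one_mul]
  -- conjugate of a member fixing the base coset
  obtain ⟨c, hc, -⟩ := hfix a₀ (Or.inl (hI ▸ IsConj.refl a₀))
  obtain ⟨g, rfl⟩ := QuotientGroup.mk_surjective c
  have ha : g⁻¹ * a₀ * g ∈ I := hI ▸ isConj_iff.2 ⟨g⁻¹, by rw [inv_inv]⟩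
  have haH : g⁻¹ * a₀ * g ∈ H := by
    rw [MulAction.Quotient.smul_mk, smul_eq_mul, eq_comm, QuotientGroup.eq, ← mul_assoc] at hc
    exact hc
  generalize g⁻¹ * a₀ * g = a at ha haH
  have haI : IsConj a₀ a := by rw [hI] at ha; exact ha
  have hconj_ord : ∀ x y : G, IsConj x y → orderOf x = 2 → orderOf y = 2 := by
    intro x y h hx
    obtain ⟨k, rfl⟩ := isConj_iff.1 h
    exact (MulEquiv.orderOf_eq (MulAut.conj k) x).trans hx
  have hJH : ∀ b ∈ J, b ∈ H := by
    intro b hb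
    have hbJ : IsConj b₀ b := by rw [hJ] at hb; exact hb
    have hab : ¬ IsConj a b := by
      intro h
      apply hIJ
      rw [hI, hJ]
      have h' : IsConj a₀ b₀ := (haI.trans h).trans hbJ.symm
      ext x
      exact ⟨fun hx => h'.symm.trans hx, fun hx => h'.trans hx⟩
    obtain ⟨w, hw1, haw, hbw, hcl⟩ := dihedral_central (hconj_ord _ _ haI ha₀) (hconj_ord _ _ hbJ hb₀) hab
    have hwH : w ∈ H := by
      rw [hmem]
      refine eqcoset a (Or.inl ha) _ _ ?_ ((hmem a).1 haH)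
      rw [smul_smul, haw.eq, ← smul_smul, (hmem a).1 haH]
    have hawIJ : a * w ∈ I ∪ J := by
      rcases hcl with h | h
      · left; rw [hI]; exact haI.trans h
      · right; rw [hJ]; exact hbJ.trans h
    have hne : a ≠ a * w := fun h => hw1 (by simpa using h.symm)
    have ha1 : a * a = 1 := by
      rw [← pow_two, ← hconj_ord _ _ haI ha₀, pow_orderOf_eq_one]
    have := hcent a ha haH (a * w) hawIJ (H.mul_mem haH hwH) hne
      (by rw [mul_assoc a w a, ← haw.eq])
    rw [← mul_assoc, ha1, one_mul] at this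
    exact this (Subgroup.mem_centralizer_singleton_iff.2 hbw.eq)
  rw [eq_top_iff]
  intro k _
  have hb0J : b₀ ∈ J := hJ ▸ IsConj.refl b₀
  have h1 : k⁻¹ * b₀ * k ∈ H := hJH _ (hJ ▸ isConj_iff.2 ⟨k⁻¹, by rw [inv_inv]⟩)
  have h2 := eqcoset b₀ (Or.inr hb0J) (QuotientGroup.mk k) (QuotientGroup.mk 1)
    (by rw [MulAction.Quotient.smul_mk, smul_eq_mul, eq_comm, QuotientGroup.eq, ← mul_assoc]; exact h1)
    ((hmem b₀).1 (hJH b₀ hb0J))
  have := QuotientGroup.eq.1 h2
  simpa using this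

end Cfsg.Agent.S5439
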