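import Cfsg.Statements.S5440
import Cfsg.Agent.LargeFischer85.TwoOrbits

set_option autoImplicit false
open Cfsg

namespace Cfsg.Agent.S5440

/-- Let G be a finite group of large Fischer type at the involution z: the generalized Fitting subgroup Q of H = C_G(z) is extraspecial of order 2^13, H has normal subgroups Q ≤ H₁ ≤ H₂ with H₁/Q of order 3, H₂/H₁ the projective special unitary group of dimension 4 over the field with nine elements and H₂ of index 2 in H, and some conjugate of z other than z lies in Q. Then H has exactly two orbits, under conjugation, on the involutions of Q other than z. -/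
theorem result {G : Type*} [Group G] [Finite G] (z : G) (Q : Subgroup (Subgroup.centralizer ({z} : Set G))) [Q.Normal] (hF : Cfsg.IsOfLargeFischerTypeAt z Q) : ∃ s t : Subgroup.centralizer ({z} : Set G), s ∈ Q ∧ t ∈ Q ∧ orderOf s = 2 ∧ orderOf t = 2 ∧ (s : G) ≠ z ∧ (t : G) ≠ z ∧ (¬ ∃ h : Subgroup.centralizer ({z} : Set G), h * s * h⁻¹ = t) ∧ ∀ x : Subgroup.centralizer ({z} : Set G), x ∈ Q → orderOf x = 2 → (x : G) ≠ z → (∃ h : Subgroup.centralizer ({z} : Set G), h * s * h⁻¹ = x) ∨ ∃ h : Subgroup.centralizer ({z} : Set G), h * t * h⁻¹ = x := by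
  classical
  obtain ⟨q, pr, act, hA⟩ := CfsgLib.LargeFischer85.exists_action hF
  obtain ⟨Mb, Cb, φ, hf⟩ := CfsgLib.LargeFischer85.exists_frame hF hA
  obtain ⟨e, he⟩ := CfsgLib.LargeFischer85.exists_orbit_class hf.group
  let va : Fin 4096 := CfsgLib.LargeFischer85.mkN ![1, 1, 0, 0, 0, 0]
  let vb : Fin 4096 := CfsgLib.LargeFischer85.mkN ![1, 1, 1, 1, 0, 0]
  have ha1 : CfsgLib.LargeFischer85.inOne e va := Or.inl (by decide +kernel)
  have hb1 : CfsgLib.LargeFischer85.inTwo e vb :=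
    ⟨by decide +kernel, (by decide +kernel : CfsgLib.LargeFischer85.wt vb % 2 = 0), fun h => by
      have hw : CfsgLib.LargeFischer85.wt vb = 4 := by decide +kernel
      rcases h with h | ⟨h, -⟩ <;> omega⟩
  obtain ⟨s, hs⟩ := hA.pr_surj (φ va)
  obtain ⟨t, ht⟩ := hA.pr_surj (φ vb)
  have hs' : φ.symm (pr s) = va := by rw [hs, Equiv.symm_apply_apply]
  have ht' : φ.symm (pr t) = vb := by rw [ht, Equiv.symm_apply_apply]
  have hs0 : pr s ≠ 0 := fun h0 => by
    rw [hs, ← hf.map_zero, EmbeddingLike.apply_eq_iff_eq] at h0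
    exact absurd h0 (by decide +kernel)
  have ht0 : pr t ≠ 0 := fun h0 => by
    rw [ht, ← hf.map_zero, EmbeddingLike.apply_eq_iff_eq] at h0
    exact absurd h0 (by decide +kernel)
  have hsq : q (pr s) = 0 := by
    rw [hs, ← hf.sing_iff]
    exact (by decide +kernel : CfsgLib.LargeFischer85.wt va % 2 = 0)
  have htq : q (pr t) = 0 := by
    rw [ht, ← hf.sing_iff]
    exact hb1.2.1
  obtain ⟨hs2, hsz⟩ := (CfsgLib.LargeFischer85.involution_iff hA s).2 ⟨hs0, hsq⟩
  obtain ⟨ht2, htz⟩ := (CfsgLib.LargeFischer85.involution_iff hA t).2 ⟨ht0, htq⟩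
  refine ⟨s, t, s.2, t.2, hs2, ht2, hsz, htz, ?_, ?_⟩
  · rintro ⟨h, hh⟩
    have h1 := (CfsgLib.LargeFischer85.inOne_conj hA hf he hh).2 (hs' ▸ ha1)
    rw [ht'] at h1
    exact hb1.2.2 h1
  · intro x hx hx2 hxz
    have hx0 := ((CfsgLib.LargeFischer85.involution_iff hA ⟨x, hx⟩).1 ⟨hx2, hxz⟩).1
    rcases CfsgLib.LargeFischer85.inOne_or_inTwo hA hf e (x := ⟨x, hx⟩) hx2 hxz with h | h
    · obtain ⟨_, ⟨k, -, rfl⟩, hk⟩ := he.one_trans va _ ha1 h
      exact Or.inl (CfsgLib.LargeFischer85.exists_conj_of_frame hF hA (a := s) (b := ⟨x, hx⟩) hx0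
        (hs'.symm ▸ hk))
    · obtain ⟨_, ⟨k, -, rfl⟩, hk⟩ := he.two_trans vb _ hb1 h
      exact Or.inr (CfsgLib.LargeFischer85.exists_conj_of_frame hF hA (a := t) (b := ⟨x, hx⟩) hx0
        (ht'.symm ▸ hk))

end Cfsg.Agent.S5440
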