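import Cfsg.Statements.S5449
import Cfsg.Agent.LargeFischer58.Exists
import Cfsg.Agent.LargeFischer58.Main
import Cfsg.Agent.LargeFischer58.Four

set_option autoImplicit false
open Cfsg

namespace Cfsg.Agent.S5449

/-- Let G be a finite group of large Fischer type at the involution z: the generalized Fitting subgroup Q of H = C_G(z) is extraspecial of order 2^13, H has normal subgroups Q ≤ H₁ ≤ H₂ with H₁/Q of order 3, H₂/H₁ the projective special unitary group of dimension 4 over the field with nine elements and H₂ of index 2 in H, and some conjugate of z other than z lies in Q. Then Q contains a four-group E, not containing z and containing an involution not conjugate to z in G, whose centralizer in G is quasisimple with quotient by E isomorphic to the projective special unitary group of dimension 6 over the field with four elements. -/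
theorem result {G : Type*} [Group G] [Finite G] (z : G) (Q : Subgroup (Subgroup.centralizer ({z} : Set G))) [Q.Normal] (hF : Cfsg.IsOfLargeFischerTypeAt z Q) : ∃ E : Subgroup G, E ≤ (Q.map (Subgroup.centralizer ({z} : Set G)).subtype) ∧ Cfsg.IsElementaryAbelian 2 E ∧ Nat.card E = 4 ∧ z ∉ E ∧ (∃ t ∈ E, orderOf t = 2 ∧ ¬ IsConj z t) ∧ Cfsg.IsQuasisimple ↥(Subgroup.centralizer (E : Set G)) ∧ ∃ (_ : (E.subgroupOf (Subgroup.centralizer (E : Set G))).Normal) (K : Type) (_ : Field K) (_ : Fintype K), Fintype.card K = 4 ∧ Nonempty (↥(Subgroup.centralizer (E : Set G)) ⧸ E.subgroupOf (Subgroup.centralizer (E : Set G)) ≃* Cfsg.PSU 6 K 2) := by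
  obtain ⟨C⟩ := CfsgLib.LargeFischer58.exists_cfg hF
  obtain ⟨hq, K, hK1, hK2, hK3, hiso⟩ := C.main
  exact ⟨C.E, C.E_le_QG, C.E_elementary, C.E_card, C.z_not_mem_E, C.exists_noncentral, hq,
    CfsgLib.LargeFischer58.Cfg.normal_E C, K, hK1, hK2, hK3, hiso⟩

end Cfsg.Agent.S5449
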