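import Cfsg.Statements.S5452
import Cfsg.Agent.ThreeTransp.ExtLift58
-- import your own Cfsg.Agent.* helpers here

set_option autoImplicit false
open Cfsg

namespace Cfsg.Agent.S5452

/-- Let G be a finite group with an involution d whose centralizer C is quasisimple with C modulo the subgroup generated by d isomorphic to the projective special unitary group of dimension 6 over the field with four elements, and suppose some conjugate of d other than d commutes with d. Then every involution of C modulo the subgroup generated by d is the image of an involution of C, and d is not a square in G. -/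
theorem result {G : Type*} [Group G] [Finite G] (d : G) (hd : orderOf d = 2) (hq : Cfsg.IsQuasisimple ↥(Subgroup.centralizer ({d} : Set G))) [hzn : ((Subgroup.zpowers d).subgroupOf (Subgroup.centralizer ({d} : Set G))).Normal] (K : Type) [Field K] [Fintype K] (hK : Fintype.card K = 4) (e : ↥(Subgroup.centralizer ({d} : Set G)) ⧸ (Subgroup.zpowers d).subgroupOf (Subgroup.centralizer ({d} : Set G)) ≃* Cfsg.PSU 6 K 2) (hnwc : ∃ g : G, g * d * g⁻¹ ∈ Subgroup.centralizer ({d} : Set G) ∧ g * d * g⁻¹ ≠ d) : (∀ x : ↥(Subgroup.centralizer ({d} : Set G)) ⧸ (Subgroup.zpowers d).subgroupOf (Subgroup.centralizer ({d} : Set G)), orderOf x = 2 → ∃ y : ↥(Subgroup.centralizer ({d} : Set G)), orderOf y = 2 ∧ (QuotientGroup.mk y : ↥(Subgroup.centralizer ({d} : Set G)) ⧸ (Subgroup.zpowers d).subgroupOf (Subgroup.centralizer ({d} : Set G))) = x) ∧ ¬ ∃ g : G, g ^ 2 = d := by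
  have hdd : d * d = 1 := by rw [← pow_two, ← hd, pow_orderOf_eq_one]
  have hd1 : d ≠ 1 := fun h => by rw [h, orderOf_one] at hd; norm_num at hd
  obtain ⟨f, hf⟩ : ∃ f : ↥(Subgroup.centralizer ({d} : Set G)) →* Cfsg.PSU 6 K 2,
      f = e.toMonoidHom.comp (QuotientGroup.mk' _) := ⟨_, rfl⟩
  have hfk : ∀ k, f k = 1 ↔ (k : G) ∈ Subgroup.zpowers d := fun k => by
    simp [hf, Subgroup.mem_subgroupOf]
  have hz : ∀ k : G, k ∈ Subgroup.zpowers d → k = 1 ∨ k = d := by
    intro k hk
    obtain ⟨n, rfl⟩ := Subgroup.mem_zpowers_iff.1 hk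
    rcases Int.even_or_odd n with ⟨m, hm⟩ | ⟨m, hm⟩ <;> subst hm
    · left; rw [← two_mul, zpow_mul, zpow_two, hdd, one_zpow]
    · right; rw [zpow_add_one, zpow_mul, zpow_two, hdd, one_zpow, one_mul]
  have hker : ∀ k, f k = 1 → k ∈ Subgroup.center ↥(Subgroup.centralizer ({d} : Set G)) ∧ k * k = 1 := by
    intro k hk
    rcases hz _ ((hfk k).1 hk) with h | h
    · rw [show k = 1 from Subtype.ext h]
      exact ⟨one_mem _, one_mul _⟩
    · refine ⟨Subgroup.mem_center_iff.2 fun m => Subtype.ext ?_, Subtype.ext ?_⟩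
      · rw [Subgroup.coe_mul, Subgroup.coe_mul, h]
        exact (Subgroup.mem_centralizer_singleton_iff.1 m.2)
      · rw [Subgroup.coe_mul, h]; exact hdd
  have hsurj : Function.Surjective f := by
    rw [hf]; exact e.surjective.comp (QuotientGroup.mk'_surjective _)
  have hlift : ∀ z : ↥(Subgroup.centralizer ({d} : Set G)), f z * f z = 1 → z * z = 1 := by
    intro z hz'
    obtain ⟨y, hy, hy2⟩ := CfsgLib.ThreeTransp.ExtLift58.exists_lift hK f hsurj hker hz'
    rw [CfsgLib.ThreeTransp.ExtLift58.sq_eq f hker hy.symm, hy2]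
  refine ⟨fun x hx => ?_, ?_⟩
  · obtain ⟨z, rfl⟩ := QuotientGroup.mk_surjective x
    refine ⟨z, orderOf_eq_prime ?_ ?_, rfl⟩
    · rw [pow_two]
      refine hlift z ?_
      rw [← map_mul, hfk, ← Subgroup.mem_subgroupOf, ← QuotientGroup.eq_one_iff, QuotientGroup.mk_mul,
        ← pow_two, ← hx, pow_orderOf_eq_one]
    · rintro rfl
      rw [QuotientGroup.mk_one, orderOf_one] at hx
      norm_num at hx
  · rintro ⟨g, hg⟩
    have hgc : g ∈ Subgroup.centralizer ({d} : Set G) := by
      rw [Subgroup.mem_centralizer_singleton_iff, ← hg]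
      exact ((Commute.refl g).pow_right 2).eq
    have h := hlift ⟨g, hgc⟩ (by
      rw [← map_mul, hfk, Subgroup.coe_mul, ← pow_two, hg]
      exact Subgroup.mem_zpowers d)
    exact hd1 (by rw [← hg, pow_two]; exact congrArg Subtype.val h)

end Cfsg.Agent.S5452
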