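import Cfsg.Statements.S5453
import Cfsg.Agent.ThreeTransp.CoverLift58
-- import your own Cfsg.Agent.* helpers here

set_option autoImplicit false
open Cfsg

namespace Cfsg.Agent.S5453

/-- Let G be a finite group with an involution d whose centralizer C is quasisimple, such that C modulo the subgroup generated by d is of type M(22) with respect to some conjugacy class of 3-transpositions generating it and also has an involution whose own centralizer is quasisimple with quotient by it isomorphic to the projective special unitary group of dimension 6 over the field with four elements and which is not weakly closed in that centralizer; and suppose some conjugate of d other than d commutes with d. Then every involution of C modulo the subgroup generated by d is the image of an involution of C, and d is not a square in G. -/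
theorem result {G : Type*} [Group G] [Finite G] (d : G) (hd : orderOf d = 2) (hq : Cfsg.IsQuasisimple ↥(Subgroup.centralizer ({d} : Set G))) [hzn : ((Subgroup.zpowers d).subgroupOf (Subgroup.centralizer ({d} : Set G))).Normal] (htype : ∃ E : Set (↥(Subgroup.centralizer ({d} : Set G)) ⧸ (Subgroup.zpowers d).subgroupOf (Subgroup.centralizer ({d} : Set G))), Cfsg.IsThreeTranspositionClass E ∧ Cfsg.IsOfTypeM22 _ E) (hinvol : ∃ d' : ↥(Subgroup.centralizer ({d} : Set G)) ⧸ (Subgroup.zpowers d).subgroupOf (Subgroup.centralizer ({d} : Set G)), orderOf d' = 2 ∧ Cfsg.IsQuasisimple ↥(Subgroup.centralizer ({d'} : Set _)) ∧ (∃ (K : Type) (_ : Field K) (_ : Fintype K), Fintype.card K = 4 ∧ ∃ _ : ((Subgroup.zpowers d').subgroupOf (Subgroup.centralizer ({d'} : Set _))).Normal, Nonempty (↥(Subgroup.centralizer ({d'} : Set _)) ⧸ (Subgroup.zpowers d').subgroupOf (Subgroup.centralizer ({d'} : Set _)) ≃* Cfsg.PSU 6 K 2)) ∧ ∃ g, g * d' * g⁻¹ ∈ Subgroup.centralizer ({d'} : Set _) ∧ g * d' * g⁻¹ ≠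 d') (hnwc : ∃ g : G, g * d * g⁻¹ ∈ Subgroup.centralizer ({d} : Set G) ∧ g * d * g⁻¹ ≠ d) : (∀ x : ↥(Subgroup.centralizer ({d} : Set G)) ⧸ (Subgroup.zpowers d).subgroupOf (Subgroup.centralizer ({d} : Set G)), orderOf x = 2 → ∃ y : ↥(Subgroup.centralizer ({d} : Set G)), orderOf y = 2 ∧ (QuotientGroup.mk y : ↥(Subgroup.centralizer ({d} : Set G)) ⧸ (Subgroup.zpowers d).subgroupOf (Subgroup.centralizer ({d} : Set G))) = x) ∧ ¬ ∃ g : G, g ^ 2 = d := by
  obtain ⟨D, hcls, h22⟩ := htype
  obtain ⟨hts, ⟨e₀, he₀, hDe⟩, hgen⟩ := hcls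
  have hG : Cfsg.IsThreeTranspositionGroup D := by
    refine ⟨hts, fun g y hy => ?_, hgen⟩
    rw [hDe] at hy ⊢
    obtain ⟨k, rfl⟩ := isConj_iff.1 hy
    exact isConj_iff.2 ⟨g * k, by simp [mul_assoc]⟩
  have hp := CfsgLib.ThreeTransp.m22_primitive hG h22
  have hdd : d * d = 1 := by rw [← pow_two, ← hd, pow_orderOf_eq_one]
  have hd1 : d ≠ 1 := fun h => by rw [h, orderOf_one] at hd; norm_num at hd
  obtain ⟨f, hf⟩ : ∃ f : ↥(Subgroup.centralizer ({d} : Set G)) →*
      ↥(Subgroup.centralizer ({d} : Set G)) ⧸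
        (Subgroup.zpowers d).subgroupOf (Subgroup.centralizer ({d} : Set G)),
      f = QuotientGroup.mk' _ := ⟨_, rfl⟩
  have hfk : ∀ k, f k = 1 ↔ (k : G) ∈ Subgroup.zpowers d := fun k => by
    simp [hf, Subgroup.mem_subgroupOf]
  have hz : ∀ k : G, k ∈ Subgroup.zpowers d → k = 1 ∨ k = d := by
    intro k hk
    obtain ⟨n, rfl⟩ := Subgroup.mem_zpowers_iff.1 hk
    rcases Int.even_or_odd n with ⟨m, hm⟩ | ⟨m, hm⟩ <;> subst hm
    · left; rw [← two_mul, zpow_mul, zpow_two, hdd, one_zpow]
    · right; rw [zpow_add_one, zpow_mul, zpow_two, hdd, one_zpow, one_mul]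
  have hker : ∀ k, f k = 1 → k ∈ Subgroup.center ↥(Subgroup.centralizer ({d} : Set G)) ∧ k * k = 1 := by
    intro k hk
    rcases hz _ ((hfk k).1 hk) with h | h
    · rw [show k = 1 from Subtype.ext h]
      exact ⟨one_mem _, one_mul _⟩
    · refine ⟨Subgroup.mem_center_iff.2 fun m => Subtype.ext ?_, Subtype.ext ?_⟩
      · rw [Subgroup.coe_mul, Subgroup.coe_mul, h]
        exact (Subgroup.mem_centralizer_singleton_iff.1 m.2)
      · rw [Subgroup.coe_mul, h]; exact hdd
  have hsurj : Function.Surjective f := by rw [hf]; exact QuotientGroup.mk'_surjective _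
  obtain ⟨cl, hcl⟩ := hsurj e₀
  have h1 : cl * cl = 1 := by
    by_contra hne
    obtain ⟨g, hgC, hgd⟩ := hnwc
    have memC : ∀ y : G, y ∈ Subgroup.centralizer ({d} : Set G) ↔ Commute y d := fun y =>
      Subgroup.mem_centralizer_singleton_iff
    have hcd : (cl * cl : ↥(Subgroup.centralizer ({d} : Set G))).1 = d := by
      refine (hz _ ((hfk _).1 ?_)).resolve_left fun h => hne (Subtype.ext h)
      rw [map_mul, hcl, CfsgLib.ThreeTransp.tt_mul_self hG.1 he₀]
    have outside : ∀ x : ↥(Subgroup.centralizer ({d} : Set G)), (x : G) ≠ d → (x : G) ≠ 1 → f x ≠ 1 :=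
      fun x h1 h2 h => (hz _ ((hfk x).1 h)).elim h2 h1
    have hy1 : g * d * g⁻¹ ≠ 1 := fun h => hd1 (by simpa using h)
    have hgC' : g⁻¹ * d * g ∈ Subgroup.centralizer ({d} : Set G) := by
      rw [memC] at hgC ⊢
      have h := hgC.map (MulAut.conj g⁻¹).toMonoidHom
      simp [mul_assoc] at h
      rw [mul_assoc]
      exact h.symm
    have hgd' : g⁻¹ * d * g ≠ d := fun h => hgd (by
      conv_lhs => rw [← h]
      simp [mul_assoc])
    have hy1' : g⁻¹ * d * g ≠ 1 := fun h => hd1 (by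
      have := congrArg (fun z => g * z * g⁻¹) h
      simpa [mul_assoc] using this)
    obtain ⟨-, hnone⟩ := CfsgLib.ThreeTransp.cover_distinguish58 hG hp h22 f hsurj hker he₀ hcl hne
      (x := ⟨g * d * g⁻¹, hgC⟩) (Subtype.ext (by
        show g * d * g⁻¹ * (g * d * g⁻¹) = 1
        rw [show g * d * g⁻¹ * (g * d * g⁻¹) = g * (d * d) * g⁻¹ by simp [mul_assoc], hdd]; simp))
      (outside _ hgd hy1)
    obtain ⟨⟨k, hk1, hk2, hk3⟩, -⟩ := CfsgLib.ThreeTransp.cover_distinguish58 hG hp h22 f hsurj hker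
      he₀ hcl hne
      (x := ⟨g⁻¹ * d * g, hgC'⟩) (Subtype.ext (by
        show g⁻¹ * d * g * (g⁻¹ * d * g) = 1
        rw [show g⁻¹ * d * g * (g⁻¹ * d * g) = g⁻¹ * (d * d) * g by simp [mul_assoc], hdd]; simp))
      (outside _ hgd' hy1')
    have hkd : Commute (g * (k : G) * g⁻¹) (g * d * g⁻¹) :=
      CfsgLib.ThreeTransp.commute_conj_iff'.2 ((memC _).1 k.2)
    have hkx : Commute (g * (k : G) * g⁻¹) d := by
      have h := (CfsgLib.ThreeTransp.commute_conj_iff' (g := g)).2 (congrArg Subtype.val hk1.eq :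
        Commute (k : G) (g⁻¹ * d * g))
      rwa [show g * (g⁻¹ * d * g) * g⁻¹ = d by simp [mul_assoc]] at h
    refine hnone ⟨⟨g * (k : G) * g⁻¹, (memC _).2 hkx⟩, Subtype.ext hkd.eq, fun h hh => ?_,
      Subtype.ext ?_⟩
    · have hh' : Commute (h : G) (g * d * g⁻¹) := congrArg Subtype.val hh.eq
      have h1 : Commute (g⁻¹ * (h : G) * g) d := by
        have := hh'.map (MulAut.conj g⁻¹).toMonoidHom
        simpa [mul_assoc] using this
      have h2 : Commute (g⁻¹ * (h : G) * g) (g⁻¹ * d * g) := by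
        have := ((memC _).1 h.2).map (MulAut.conj g⁻¹).toMonoidHom
        simpa [mul_assoc] using this
      have h3 : Commute (k : G) (g⁻¹ * (h : G) * g * (g⁻¹ * (h : G) * g)) :=
        congrArg Subtype.val (hk2 ⟨_, (memC _).2 h1⟩ (Subtype.ext h2.eq)).eq
      refine Subtype.ext ?_
      have h4 := (h3.map (MulAut.conj g).toMonoidHom).eq
      simpa [mul_assoc] using h4
    · show g * (k : G) * g⁻¹ * (g * (k : G) * g⁻¹) = g * d * g⁻¹
      rw [show g * (k : G) * g⁻¹ * (g * (k : G) * g⁻¹) = g * ((k : G) * k) * g⁻¹ by simp [mul_assoc],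
        show (k : G) * k = d from (congrArg Subtype.val hk3).trans hcd]
  have hlift : ∀ z, f z * f z = 1 → z * z = 1 := fun z hz' =>
    CfsgLib.ThreeTransp.cover_lift58 hG hp h22 f hsurj hker he₀ hcl h1 hz' z rfl
  refine ⟨fun x hx => ?_, ?_⟩
  · obtain ⟨z, rfl⟩ := QuotientGroup.mk_surjective x
    refine ⟨z, orderOf_eq_prime ?_ ?_, rfl⟩
    · rw [pow_two]
      refine hlift z ?_
      rw [← map_mul, hfk, ← Subgroup.mem_subgroupOf, ← QuotientGroup.eq_one_iff, QuotientGroup.mk_mul,
        ← pow_two, ← hx, pow_orderOf_eq_one]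
    · rintro rfl
      rw [QuotientGroup.mk_one, orderOf_one] at hx
      norm_num at hx
  · rintro ⟨g, hg⟩
    have hgc : g ∈ Subgroup.centralizer ({d} : Set G) := by
      rw [Subgroup.mem_centralizer_singleton_iff, ← hg]
      exact ((Commute.refl g).pow_right 2).eq
    have h := hlift ⟨g, hgc⟩ (by
      rw [← map_mul, hfk, Subgroup.coe_mul, ← pow_two, hg]
      exact Subgroup.mem_zpowers d)
    exact hd1 (by rw [← hg, pow_two]; exact congrArg Subtype.val h)

end Cfsg.Agent.S5453
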