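import Cfsg.Statements.S5454
import Cfsg.Agent.S5452
import Cfsg.Agent.ThreeTransp.U6CoverCount94

set_option autoImplicit false
open Cfsg

namespace Cfsg.Agent.S5454

/-- Let G be a finite group with an involution d whose centralizer C is quasisimple with C modulo the subgroup generated by d isomorphic to the projective special unitary group of dimension 6 over the field with four elements, and suppose some conjugate of d other than d commutes with d. Let S be a Sylow 2-subgroup of C and A the Thompson subgroup of S (generated by the elementary abelian subgroups of S of largest order), regarded as a subgroup of G. Then A is elementary abelian of order 2^10, exactly 22 conjugates of d lie in A, and the normalizer of A permutes them transitively. -/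
theorem result {G : Type*} [Group G] [Finite G] (d : G) (hd : orderOf d = 2) (hq : Cfsg.IsQuasisimple ↥(Subgroup.centralizer ({d} : Set G))) [hzn : ((Subgroup.zpowers d).subgroupOf (Subgroup.centralizer ({d} : Set G))).Normal] (K : Type) [Field K] [Fintype K] (hK : Fintype.card K = 4) (e : ↥(Subgroup.centralizer ({d} : Set G)) ⧸ (Subgroup.zpowers d).subgroupOf (Subgroup.centralizer ({d} : Set G)) ≃* Cfsg.PSU 6 K 2) (hnwc : ∃ g : G, g * d * g⁻¹ ∈ Subgroup.centralizer ({d} : Set G) ∧ g * d * g⁻¹ ≠ d) (S : Sylow 2 ↥(Subgroup.centralizer ({d} : Set G))) (A : Subgroup G) (hA : A = (Cfsg.thompsonSubgroupOf 2 (S : Subgroup ↥(Subgroup.centralizer ({d} : Set G)))).map (Subgroup.centralizer ({d} : Set G)).subtype) : Cfsg.IsElementaryAbelian 2 A ∧ Nat.card A = 2 ^ 10 ∧ Set.ncard {x : G | x ∈ A ∧ IsConj d x} = 22 ∧ ∀ x ∈ A, ∀ y ∈ A, IsConj d x → IsConj d y → ∃ n ∈ Subgroup.normalizer (A : Set G), n * x * n⁻¹ = y := by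
  have hdd : d * d = 1 := by rw [← pow_two, ← hd, pow_orderOf_eq_one]
  have hd1 : d ≠ 1 := fun h => by rw [h, orderOf_one] at hd; norm_num at hd
  obtain ⟨hinvlift, hnsq⟩ := Cfsg.Agent.S5452.result d hd hq K hK e hnwc
  obtain ⟨f, hf⟩ : ∃ f : ↥(Subgroup.centralizer ({d} : Set G)) →* Cfsg.PSU 6 K 2,
      f = e.toMonoidHom.comp (QuotientGroup.mk' _) := ⟨_, rfl⟩
  have hfk : ∀ k, f k = 1 ↔ (k : G) ∈ Subgroup.zpowers d := fun k => by
    simp [hf, Subgroup.mem_subgroupOf]
  have hz : ∀ k : G, k ∈ Subgroup.zpowers d → k = 1 ∨ k = d := by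
    intro k hk
    obtain ⟨n, rfl⟩ := Subgroup.mem_zpowers_iff.1 hk
    rcases Int.even_or_odd n with ⟨m, hm⟩ | ⟨m, hm⟩ <;> subst hm
    · left; rw [← two_mul, zpow_mul, zpow_two, hdd, one_zpow]
    · right; rw [zpow_add_one, zpow_mul, zpow_two, hdd, one_zpow, one_mul]
  have hker : ∀ k, f k = 1 ↔ (k : G) = 1 ∨ (k : G) = d := fun k => by
    refine ⟨fun h => hz _ ((hfk k).1 h), fun h => (hfk k).2 ?_⟩
    rcases h with h | h <;> rw [h]
    · exact one_mem _
    · exact Subgroup.mem_zpowers d
  have hcomm : ∀ y : ↥(Subgroup.centralizer ({d} : Set G)), Commute (y : G) d := fun y =>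
    Subgroup.mem_centralizer_singleton_iff.1 y.2
  have hlift : ∀ z, f z * f z = 1 → z * z = 1 := by
    intro z hz'
    refine Subtype.ext ?_
    show (z : G) * (z : G) = 1
    by_cases h1 : f z = 1
    · rcases (hker z).1 h1 with h | h <;> rw [h]
      · exact one_mul 1
      · exact hdd
    · obtain ⟨y, hy, hye⟩ := hinvlift (e.symm (f z))
        (orderOf_eq_prime (p := 2) (by rw [pow_two, ← map_mul, hz', map_one])
          fun h => h1 (by simpa using congrArg e h))
      have hyy : (y : G) * y = 1 := by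
        have := congrArg Subtype.val (pow_orderOf_eq_one y)
        rw [hy, pow_two] at this
        exact this
      have hyf : f y = f z := by
        have := congrArg e hye
        rw [MulEquiv.apply_symm_apply] at this
        rw [← this, hf]; rfl
      rcases (hker (y⁻¹ * z)).1 (by rw [map_mul, map_inv, hyf, inv_mul_cancel]) with h | h
      · rw [← show (y : G) = z from inv_mul_eq_one.1 h]; exact hyy
      · rw [show (z : G) = y * d from inv_mul_eq_iff_eq_mul.1 h, (hcomm y).symm.mul_mul_mul_comm,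
          hyy, hdd, one_mul]
  have hc : CfsgLib.ThreeTransp.CoverData94 d f :=
    { surj := by rw [hf]; exact e.surjective.comp (QuotientGroup.mk'_surjective _)
      sq := hdd
      ne := hd1
      ker := hker
      lift := hlift
      nosq := fun g hg => hnsq ⟨g, by rw [pow_two]; exact hg⟩
      perf := hq.1.commutator_eq_top
      nwc := hnwc }
  obtain ⟨a, b, c, hfr, hle, hmax⟩ := CfsgLib.ThreeTransp.U6Cover94.cover_sylow hc hK S
  have hAB : A = CfsgLib.ThreeTransp.U6Cover94.planeA hK f a b c := by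
    rw [hA]
    obtain ⟨C, hC⟩ : ∃ C, Subgroup.centralizer ({d} : Set G) = C := ⟨_, rfl⟩
    obtain ⟨X, hX⟩ : ∃ X, (CfsgLib.ThreeTransp.U6Plane94.planeGroup hK a b c).comap f = X := ⟨_, rfl⟩
    have hAX : CfsgLib.ThreeTransp.U6Cover94.planeA hK f a b c =
        X.map (Subgroup.centralizer ({d} : Set G)).subtype := by rw [← hX]; rfl
    rw [hAX] at hle hmax ⊢
    have hXS : X ≤ (S : Subgroup _) := (Subgroup.map_le_map_iff_of_injective Subtype.val_injective).1 hle
    have hXsq : ∀ x ∈ X, x * x = 1 := fun x hx => Subtype.ext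
      (CfsgLib.ThreeTransp.U6Cover94.planeA_sq hc hK hfr _ (hAX ▸ Subgroup.mem_map_of_mem _ hx))
    have hcX : Nat.card ↥(X.subgroupOf (S : Subgroup _)) = 2 ^ 10 := by
      rw [Nat.card_congr (Subgroup.subgroupOfEquivOfLe hXS).toEquiv,
        Nat.card_congr (X.equivMapOfInjective _ (Subgroup.subtype_injective
          (Subgroup.centralizer ({d} : Set G)))).toEquiv, ← hAX]
      exact CfsgLib.ThreeTransp.U6Cover94.planeA_card hc hK hfr
    have hXab : Cfsg.IsElementaryAbelian 2 (X.subgroupOf (S : Subgroup _)) := by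
      refine ⟨⟨⟨fun a b => Subtype.ext (Subtype.ext ?_)⟩⟩, fun a ha => Subtype.ext ?_⟩
      · exact (CfsgLib.ThreeTransp.sq_one_comm94 (hXsq _ a.2) (hXsq _ b.2)
          (hXsq _ (mul_mem (Subgroup.mem_subgroupOf.1 a.2) (Subgroup.mem_subgroupOf.1 b.2)))).eq
      · rw [pow_two]; exact hXsq _ ha
    have htoG : ∀ Y : Subgroup ↥(S : Subgroup ↥(Subgroup.centralizer ({d} : Set G))),
        Cfsg.IsElementaryAbelian 2 Y →
        Nat.card Y ≤ 2 ^ 10 ∧ (2 ^ 10 ≤ Nat.card Y → Y = X.subgroupOf (S : Subgroup _)) := by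
      intro Y hY
      have h := hmax ((Y.map (S : Subgroup _).subtype).map (Subgroup.centralizer ({d} : Set G)).subtype)
        (Subgroup.map_mono (Subgroup.map_subtype_le Y)) ?_
      · rw [← Nat.card_congr ((Y.map (S : Subgroup ↥(Subgroup.centralizer ({d} : Set G))).subtype).equivMapOfInjective
            _ (Subgroup.subtype_injective (Subgroup.centralizer ({d} : Set G)))).toEquiv,
          ← Nat.card_congr (Y.equivMapOfInjective _ (Subgroup.subtype_injective _)).toEquiv] at h
        refine ⟨h.1, fun hc' => ?_⟩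
        rw [← Subgroup.map_injective (Subgroup.subtype_injective _) (h.2 hc')]
        exact (Subgroup.comap_map_eq_self_of_injective (Subgroup.subtype_injective _) Y).symm
      · rintro _ ⟨_, ⟨a, ha, rfl⟩, rfl⟩
        rw [← map_mul, ← map_mul, ← pow_two, hY.2 a ha, map_one, map_one]
    have hJ : Cfsg.maxElementaryAbelianSubgroups 2 ↥(S : Subgroup ↥(Subgroup.centralizer ({d} : Set G))) =
        {X.subgroupOf (S : Subgroup _)} := by
      ext Y
      constructor
      · exact fun h => (htoG Y h.1).2 (hcX ▸ h.2 _ hXab)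
      · rintro rfl
        exact ⟨hXab, fun Y hY => hcX.symm ▸ (htoG Y hY).1⟩
    rw [Cfsg.thompsonSubgroupOf, Cfsg.thompsonSubgroup, hJ, sSup_singleton,
      Subgroup.subgroupOf_map_subtype, inf_eq_left.2 hXS]
  subst hAB
  have hsq := CfsgLib.ThreeTransp.U6Cover94.planeA_sq hc hK hfr
  refine ⟨⟨⟨⟨fun a b => Subtype.ext ?_⟩⟩, fun a ha => by rw [pow_two]; exact hsq a ha⟩,
    CfsgLib.ThreeTransp.U6Cover94.planeA_card hc hK hfr,
    CfsgLib.ThreeTransp.U6Cover94.cover_count hc hK hfr, fun x hx y hy hdx hdy => ?_⟩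
  · exact (CfsgLib.ThreeTransp.sq_one_comm94 (hsq _ a.2) (hsq _ b.2) (hsq _ (mul_mem a.2 b.2))).eq
  · exact CfsgLib.ThreeTransp.U6Cover94.cover_transitive hc hK hfr hx hy hdx hdy



end Cfsg.Agent.S5454
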