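import Cfsg.Statements.S5455
import Cfsg.Agent.S5453
import Cfsg.Agent.ThreeTransp.M22CoverCount94

set_option autoImplicit false
open Cfsg

namespace Cfsg.Agent.S5455

/-- Let G be a finite group with an involution d whose centralizer C is quasisimple, such that C modulo the subgroup generated by d is of type M(22) with respect to some conjugacy class of 3-transpositions generating it and also has an involution whose own centralizer is quasisimple with quotient by it isomorphic to the projective special unitary group of dimension 6 over the field with four elements and which is not weakly closed in that centralizer; and suppose some conjugate of d other than d commutes with d. Let S be a Sylow 2-subgroup of C and A the Thompson subgroup of S, regarded as a subgroup of G. Then A is elementary abelian of order 2^11, exactly 23 conjugates of d lie in A, and the normalizer of A permutes them transitively. -/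
theorem result {G : Type*} [Group G] [Finite G] (d : G) (hd : orderOf d = 2) (hq : Cfsg.IsQuasisimple ↥(Subgroup.centralizer ({d} : Set G))) [hzn : ((Subgroup.zpowers d).subgroupOf (Subgroup.centralizer ({d} : Set G))).Normal] (htype : ∃ E : Set (↥(Subgroup.centralizer ({d} : Set G)) ⧸ (Subgroup.zpowers d).subgroupOf (Subgroup.centralizer ({d} : Set G))), Cfsg.IsThreeTranspositionClass E ∧ Cfsg.IsOfTypeM22 _ E) (hinvol : ∃ d' : ↥(Subgroup.centralizer ({d} : Set G)) ⧸ (Subgroup.zpowers d).subgroupOf (Subgroup.centralizer ({d} : Set G)), orderOf d' = 2 ∧ Cfsg.IsQuasisimple ↥(Subgroup.centralizer ({d'} : Set _)) ∧ (∃ (K : Type) (_ : Field K) (_ : Fintype K), Fintype.card K = 4 ∧ ∃ _ : ((Subgroup.zpowers d').subgroupOf (Subgroup.centralizer ({d'} : Set _))).Normal, Nonempty (↥(Subgroup.centralizer ({d'} : Set _)) ⧸ (Subgroup.zpowers d').subgroupOf (Subgroup.centralizer ({d'} : Set _)) ≃* Cfsg.PSU 6 K 2)) ∧ ∃ g, g * d' * g⁻¹ ∈ Subgroup.centralizer ({d'} : Set _) ∧ g * d' * g⁻¹ ≠ d') (hnwc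 : ∃ g : G, g * d * g⁻¹ ∈ Subgroup.centralizer ({d} : Set G) ∧ g * d * g⁻¹ ≠ d) (S : Sylow 2 ↥(Subgroup.centralizer ({d} : Set G))) (A : Subgroup G) (hA : A = (Cfsg.thompsonSubgroupOf 2 (S : Subgroup ↥(Subgroup.centralizer ({d} : Set G)))).map (Subgroup.centralizer ({d} : Set G)).subtype) : Cfsg.IsElementaryAbelian 2 A ∧ Nat.card A = 2 ^ 11 ∧ Set.ncard {x : G | x ∈ A ∧ IsConj d x} = 23 ∧ ∀ x ∈ A, ∀ y ∈ A, IsConj d x → IsConj d y → ∃ n ∈ Subgroup.normalizer (A : Set G), n * x * n⁻¹ = y := by
  obtain ⟨D, hcls, h22⟩ := id htype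
  obtain ⟨hts, ⟨e₀, he₀, hDe⟩, hgen⟩ := hcls
  have hG : Cfsg.IsThreeTranspositionGroup D := by
    refine ⟨hts, fun g y hy => ?_, hgen⟩
    rw [hDe] at hy ⊢
    obtain ⟨k, rfl⟩ := isConj_iff.1 hy
    exact isConj_iff.2 ⟨g * k, by simp [mul_assoc]⟩
  have hp := CfsgLib.ThreeTransp.m22_primitive hG h22
  have hdd : d * d = 1 := by rw [← pow_two, ← hd, pow_orderOf_eq_one]
  have hd1 : d ≠ 1 := fun h => by rw [h, orderOf_one] at hd; norm_num at hd
  obtain ⟨hinvlift, hnsq⟩ := Cfsg.Agent.S5453.result d hd hq htype hinvol hnwc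
  obtain ⟨f, hf⟩ : ∃ f : ↥(Subgroup.centralizer ({d} : Set G)) →*
      ↥(Subgroup.centralizer ({d} : Set G)) ⧸
        (Subgroup.zpowers d).subgroupOf (Subgroup.centralizer ({d} : Set G)),
      f = QuotientGroup.mk' _ := ⟨_, rfl⟩
  have hfk : ∀ k, f k = 1 ↔ (k : G) ∈ Subgroup.zpowers d := fun k => by
    simp [hf, Subgroup.mem_subgroupOf]
  have hz : ∀ k : G, k ∈ Subgroup.zpowers d → k = 1 ∨ k = d := by
    intro k hk
    obtain ⟨n, rfl⟩ := Subgroup.mem_zpowers_iff.1 hk
    rcases Int.even_or_odd n with ⟨m, hm⟩ | ⟨m, hm⟩ <;> subst hm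
    · left; rw [← two_mul, zpow_mul, zpow_two, hdd, one_zpow]
    · right; rw [zpow_add_one, zpow_mul, zpow_two, hdd, one_zpow, one_mul]
  have hker : ∀ k, f k = 1 ↔ (k : G) = 1 ∨ (k : G) = d := fun k => by
    refine ⟨fun h => hz _ ((hfk k).1 h), fun h => (hfk k).2 ?_⟩
    rcases h with h | h <;> rw [h]
    · exact one_mem _
    · exact Subgroup.mem_zpowers d
  have hcomm : ∀ y : ↥(Subgroup.centralizer ({d} : Set G)), Commute (y : G) d := fun y =>
    Subgroup.mem_centralizer_singleton_iff.1 y.2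
  have hlift : ∀ z, f z * f z = 1 → z * z = 1 := by
    intro z hz'
    refine Subtype.ext ?_
    show (z : G) * (z : G) = 1
    by_cases h1 : f z = 1
    · rcases (hker z).1 h1 with h | h <;> rw [h]
      · exact one_mul 1
      · exact hdd
    · obtain ⟨y, hy, hye⟩ := hinvlift (f z)
        (orderOf_eq_prime (p := 2) (by rw [pow_two]; exact hz') h1)
      have hyy : (y : G) * y = 1 := by
        have := congrArg Subtype.val (pow_orderOf_eq_one y)
        rw [hy, pow_two] at this
        exact this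
      have hyf : f y = f z := by rw [← hye, hf]; rfl
      rcases (hker (y⁻¹ * z)).1 (by rw [map_mul, map_inv, hyf, inv_mul_cancel]) with h | h
      · rw [← show (y : G) = z from inv_mul_eq_one.1 h]; exact hyy
      · rw [show (z : G) = y * d from inv_mul_eq_iff_eq_mul.1 h, (hcomm y).symm.mul_mul_mul_comm,
          hyy, hdd, one_mul]
  have hc : CfsgLib.ThreeTransp.CoverData94 d f :=
    { surj := by rw [hf]; exact QuotientGroup.mk'_surjective _
      sq := hdd
      ne := hd1
      ker := hker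
      lift := hlift
      nosq := fun g hg => hnsq ⟨g, by rw [pow_two]; exact hg⟩
      perf := hq.1.commutator_eq_top
      nwc := hnwc }
  obtain ⟨B, hB, hne, hle, hmax⟩ := CfsgLib.ThreeTransp.cover_sylow94 hc hG hp h22 S
  have hAB : A = CfsgLib.ThreeTransp.coverA94 f B := by
    rw [hA]
    obtain ⟨C, hC⟩ : ∃ C, Subgroup.centralizer ({d} : Set G) = C := ⟨_, rfl⟩
    obtain ⟨X, hX⟩ : ∃ X, (Subgroup.closure B).comap f = X := ⟨_, rfl⟩
    have hAX : CfsgLib.ThreeTransp.coverA94 f B =
        X.map (Subgroup.centralizer ({d} : Set G)).subtype := by rw [← hX]; rfl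
    rw [hAX] at hle hmax ⊢
    have hXS : X ≤ (S : Subgroup _) := (Subgroup.map_le_map_iff_of_injective Subtype.val_injective).1 hle
    have hXsq : ∀ x ∈ X, x * x = 1 := fun x hx => Subtype.ext
      (CfsgLib.ThreeTransp.coverA94_sq hc hG hp h22 hB _ (hAX ▸ Subgroup.mem_map_of_mem _ hx))
    have hcX : Nat.card ↥(X.subgroupOf (S : Subgroup _)) = 2 ^ 11 := by
      rw [Nat.card_congr (Subgroup.subgroupOfEquivOfLe hXS).toEquiv,
        Nat.card_congr (X.equivMapOfInjective _ (Subgroup.subtype_injective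
          (Subgroup.centralizer ({d} : Set G)))).toEquiv, ← hAX]
      exact CfsgLib.ThreeTransp.coverA94_card hc hG hp h22 hB hne
    have hXab : Cfsg.IsElementaryAbelian 2 (X.subgroupOf (S : Subgroup _)) := by
      refine ⟨⟨⟨fun a b => Subtype.ext (Subtype.ext ?_)⟩⟩, fun a ha => Subtype.ext ?_⟩
      · exact (CfsgLib.ThreeTransp.sq_one_comm94 (hXsq _ a.2) (hXsq _ b.2)
          (hXsq _ (mul_mem (Subgroup.mem_subgroupOf.1 a.2) (Subgroup.mem_subgroupOf.1 b.2)))).eq
      · rw [pow_two]; exact hXsq _ ha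
    have htoG : ∀ Y : Subgroup ↥(S : Subgroup ↥(Subgroup.centralizer ({d} : Set G))),
        Cfsg.IsElementaryAbelian 2 Y →
        Nat.card Y ≤ 2 ^ 11 ∧ (2 ^ 11 ≤ Nat.card Y → Y = X.subgroupOf (S : Subgroup _)) := by
      intro Y hY
      have h := hmax ((Y.map (S : Subgroup _).subtype).map (Subgroup.centralizer ({d} : Set G)).subtype)
        (Subgroup.map_mono (Subgroup.map_subtype_le Y)) ?_
      · rw [← Nat.card_congr ((Y.map (S : Subgroup ↥(Subgroup.centralizer ({d} : Set G))).subtype).equivMapOfInjective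
            _ (Subgroup.subtype_injective (Subgroup.centralizer ({d} : Set G)))).toEquiv,
          ← Nat.card_congr (Y.equivMapOfInjective _ (Subgroup.subtype_injective _)).toEquiv] at h
        refine ⟨h.1, fun hc' => ?_⟩
        rw [← Subgroup.map_injective (Subgroup.subtype_injective _) (h.2 hc')]
        exact (Subgroup.comap_map_eq_self_of_injective (Subgroup.subtype_injective _) Y).symm
      · rintro _ ⟨_, ⟨a, ha, rfl⟩, rfl⟩
        rw [← map_mul, ← map_mul, ← pow_two, hY.2 a ha, map_one, map_one]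
    have hJ : Cfsg.maxElementaryAbelianSubgroups 2 ↥(S : Subgroup ↥(Subgroup.centralizer ({d} : Set G))) =
        {X.subgroupOf (S : Subgroup _)} := by
      ext Y
      constructor
      · exact fun h => (htoG Y h.1).2 (hcX ▸ h.2 _ hXab)
      · rintro rfl
        exact ⟨hXab, fun Y hY => hcX.symm ▸ (htoG Y hY).1⟩
    rw [Cfsg.thompsonSubgroupOf, Cfsg.thompsonSubgroup, hJ, sSup_singleton,
      Subgroup.subgroupOf_map_subtype, inf_eq_left.2 hXS]
  subst hAB
  have hsq := CfsgLib.ThreeTransp.coverA94_sq hc hG hp h22 hB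
  refine ⟨⟨⟨⟨fun a b => Subtype.ext ?_⟩⟩, fun a ha => by rw [pow_two]; exact hsq a ha⟩,
    CfsgLib.ThreeTransp.coverA94_card hc hG hp h22 hB hne,
    CfsgLib.ThreeTransp.cover_count94 hc hG hp h22 hB hne, fun x hx y hy hdx hdy => ?_⟩
  · exact (CfsgLib.ThreeTransp.sq_one_comm94 (hsq _ a.2) (hsq _ b.2) (hsq _ (mul_mem a.2 b.2))).eq
  · obtain ⟨n, hn, e⟩ := CfsgLib.ThreeTransp.cover_transitive94 hc hG hp h22 hB hne hx hdx
    obtain ⟨m, hm, e'⟩ := CfsgLib.ThreeTransp.cover_transitive94 hc hG hp h22 hB hne hy hdy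
    exact ⟨m * n⁻¹, mul_mem hm (inv_mem hn), by rw [← e, ← e']; simp [mul_assoc]⟩


end Cfsg.Agent.S5455
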