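import Cfsg.Statements.S5459
import Cfsg.Agent.Eq.Def_FischerSpaces
import Cfsg.Agent.Eq.Def_CaseTheorems

set_option autoImplicit false
open Cfsg

namespace Cfsg.Agent.S5459

/-- Let G be a finite group with a quasisimple normal subgroup L and an involution d such that G is generated by L and d, the centre of L has odd order, and d inverts every element of the centre of L. If the commuting graph on the conjugacy class of the image of d in G modulo the centre of L is connected, then the commuting graph on the conjugacy class of d is connected. -/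
theorem result {G : Type*} [Group G] [Finite G] (L : Subgroup G) [L.Normal] (hL : Cfsg.IsQuasisimple ↥L) (d : G) (hd : orderOf d = 2) (hgen : L ⊔ Subgroup.zpowers d = ⊤) (hodd : Odd (Nat.card ↥(Subgroup.center ↥L))) (hinv : ∀ c ∈ (Subgroup.center ↥L).map L.subtype, d * c * d⁻¹ = c⁻¹) [hn : ((Subgroup.center ↥L).map L.subtype).Normal] (hconn : (Cfsg.commutingGraph (conjugatesOf (QuotientGroup.mk d : G ⧸ (Subgroup.center ↥L).map L.subtype))).Connected) : (Cfsg.commutingGraph (conjugatesOf d)).Connected := by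
  classical
  set Z : Subgroup G := (Subgroup.center ↥L).map L.subtype with hZdef
  have hZcard : Odd (Nat.card ↥Z) := by
    rw [hZdef, ← Nat.card_congr (Subgroup.equivMapOfInjective _ L.subtype L.subtype_injective).toEquiv]
    exact hodd
  have hdd : d * d = 1 := by rw [← pow_two, ← hd, pow_orderOf_eq_one]
  have hZL : Z ≤ L := Subgroup.map_subtype_le _
  have hZc : ∀ c ∈ Z, ∀ l ∈ L, l * c = c * l := by
    rintro _ ⟨c, hc, rfl⟩ l hl
    exact congrArg Subtype.val (Subgroup.mem_center_iff.1 hc ⟨l, hl⟩)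
  have hZcomm : ∀ c ∈ Z, ∀ c' ∈ Z, c * c' = c' * c := fun c hc c' hc' => hZc c' hc' c (hZL hc)
  -- every conjugate of `d` inverts `Z`
  have hinvc : ∀ x : G, IsConj d x → x * x = 1 ∧ ∀ c ∈ Z, x * c = c⁻¹ * x := by
    intro x hx
    obtain ⟨g, rfl⟩ := isConj_iff.1 hx
    refine ⟨by simp [mul_assoc, ← mul_assoc d d, hdd], fun c hc => ?_⟩
    have h1 := hinv _ (hn.conj_mem c hc g⁻¹)
    calc g * d * g⁻¹ * c = g * (d * (g⁻¹ * c * g⁻¹⁻¹) * d⁻¹) * (d * g⁻¹) := by group
      _ = g * (g⁻¹ * c * g⁻¹⁻¹)⁻¹ * (d * g⁻¹) := by rw [h1]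
      _ = c⁻¹ * (g * d * g⁻¹) := by group
  have hsqrt : ∀ c ∈ Z, ∃ r ∈ Z, r * r = c := by
    intro c hc
    obtain ⟨k, hk⟩ := hZcard
    refine ⟨c ^ (k + 1), Z.pow_mem hc _, ?_⟩
    have h1 : c ^ Nat.card ↥Z = 1 := by
      have := congrArg Subtype.val (pow_card_eq_one' (x := (⟨c, hc⟩ : ↥Z)))
      rwa [SubmonoidClass.coe_pow] at this
    rw [← pow_add, show k + 1 + (k + 1) = Nat.card ↥Z + 1 by omega, pow_succ, h1, one_mul]
  -- edges lift
  have lift : ∀ x y : G, IsConj d x → IsConj d y →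
      (QuotientGroup.mk' Z (x * y) = QuotientGroup.mk' Z (y * x)) →
      ∃ y', IsConj d y' ∧ QuotientGroup.mk' Z y' = QuotientGroup.mk' Z y ∧ Commute x y' := by
    intro x y hx hy hxy
    obtain ⟨hx1, hxi⟩ := hinvc x hx
    obtain ⟨hy1, hyi⟩ := hinvc y hy
    have hcZ : (x * y) * (x * y) ∈ Z := by
      rw [← QuotientGroup.eq_one_iff, ← QuotientGroup.mk'_apply, map_mul]
      nth_rw 2 [hxy]
      rw [← map_mul, mul_assoc, ← mul_assoc y y, hy1, one_mul, hx1, map_one]
    obtain ⟨r, hr, hrr⟩ := hsqrt _ hcZ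
    obtain ⟨s, hs, hss⟩ := hsqrt _ (Z.inv_mem hr)
    have hy' : y * r⁻¹ = s⁻¹ * y * s⁻¹⁻¹ := by
      rw [← hyi s hs, inv_inv, mul_assoc, hss]
    refine ⟨y * r⁻¹, hy.trans (isConj_iff.2 ⟨s⁻¹, hy'.symm⟩), ?_, ?_⟩
    · rw [map_mul]
      have : QuotientGroup.mk' Z r⁻¹ = 1 := (QuotientGroup.eq_one_iff _).2 (Z.inv_mem hr)
      rw [this, mul_one]
    · have hrxy : (x * y) * r = r * (x * y) := by
        rw [mul_assoc, hyi r hr, ← mul_assoc, hxi _ (Z.inv_mem hr), inv_inv, mul_assoc]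
      have h2 : (x * (y * r⁻¹)) * (x * (y * r⁻¹)) = 1 := by
        calc (x * (y * r⁻¹)) * (x * (y * r⁻¹)) = (x * y) * (r⁻¹ * (x * y)) * r⁻¹ := by
              simp only [mul_assoc]
          _ = (x * y) * ((x * y) * r⁻¹) * r⁻¹ := by
              rw [show r⁻¹ * (x * y) = (x * y) * r⁻¹ by
                rw [inv_mul_eq_iff_eq_mul, ← mul_assoc, ← hrxy, mul_inv_cancel_right]]
          _ = r * r * (r⁻¹ * r⁻¹) := by rw [hrr]; simp only [mul_assoc]
          _ = 1 := by simp [mul_assoc]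
      have h3 : (y * r⁻¹) * (y * r⁻¹) = 1 := by
        rw [← mul_assoc, mul_assoc y r⁻¹ y, ← inv_inv r, inv_inv r⁻¹]
        have := hyi r hr
        rw [← this, ← mul_assoc, hy1, one_mul, mul_inv_cancel]
      have h4 : x * (y * r⁻¹) = (x * (y * r⁻¹))⁻¹ := eq_inv_of_mul_eq_one_left h2
      show x * (y * r⁻¹) = (y * r⁻¹) * x
      rw [h4, mul_inv_rev, inv_eq_of_mul_eq_one_right h3, inv_eq_of_mul_eq_one_right hx1]
  set Γ := Cfsg.commutingGraph (conjugatesOf d) with hΓ
  let d₀ : ↥(conjugatesOf d) := ⟨d, IsConj.refl d⟩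
  have step : ∀ u v : ↥(conjugatesOf d), Commute (u : G) (v : G) → Γ.Reachable u v := by
    intro u v huv
    by_cases h : u = v
    · exact h ▸ SimpleGraph.Reachable.refl u
    · exact SimpleGraph.Adj.reachable ((SimpleGraph.fromRel_adj _ u v).2 ⟨h, Or.inl huv⟩)
  -- conjugation preserves reachability
  let cj : G → ↥(conjugatesOf d) → ↥(conjugatesOf d) := fun g u =>
    ⟨g * (u : G) * g⁻¹, (show IsConj d (u : G) from u.2).trans (isConj_iff.2 ⟨g, rfl⟩)⟩
  have cjR : ∀ g u v, Γ.Reachable u v → Γ.Reachable (cj g u) (cj g v) := by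
    intro g u v ⟨w⟩
    induction w with
    | nil => exact SimpleGraph.Reachable.refl _
    | @cons a b c hab _ ih =>
      refine (step _ _ ?_).trans ih
      obtain ⟨-, h | h⟩ := (SimpleGraph.fromRel_adj _ a b).1 hab
      · exact h.map (MulAut.conj g)
      · exact (h.map (MulAut.conj g)).symm
  let H : Subgroup G :=
    { carrier := {g | Γ.Reachable d₀ (cj g d₀)}
      one_mem' := by
        show Γ.Reachable d₀ (cj 1 d₀)
        rw [show cj 1 d₀ = d₀ from Subtype.ext (by simp [cj, d₀])]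
      mul_mem' := fun {a b} ha hb => by
        show Γ.Reachable d₀ (cj (a * b) d₀)
        rw [show cj (a * b) d₀ = cj a (cj b d₀) from Subtype.ext (by simp [cj, d₀, mul_assoc])]
        exact SimpleGraph.Reachable.trans ha (cjR a _ _ hb)
      inv_mem' := fun {a} ha => by
        show Γ.Reachable d₀ (cj a⁻¹ d₀)
        have := (cjR a⁻¹ _ _ ha).symm
        rwa [show cj a⁻¹ (cj a d₀) = d₀ from Subtype.ext (by simp [cj, d₀, mul_assoc])] at this }
  have hHd : d ∈ H := by
    show Γ.Reachable d₀ (cj d d₀)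
    rw [show cj d d₀ = d₀ from Subtype.ext (by simp [cj, d₀])]
  -- all cosets are reached
  have reach : ∀ X : ↥(conjugatesOf (QuotientGroup.mk d : G ⧸ Z)),
      ∃ u : ↥(conjugatesOf d), Γ.Reachable d₀ u ∧ QuotientGroup.mk' Z (u : G) = (X : G ⧸ Z) := by
    intro X
    let X₀ : ↥(conjugatesOf (QuotientGroup.mk d : G ⧸ Z)) := ⟨QuotientGroup.mk d, IsConj.refl _⟩
    obtain ⟨w⟩ := hconn.preconnected X₀ X
    suffices ∀ (A B : ↥(conjugatesOf (QuotientGroup.mk d : G ⧸ Z))),
        (Cfsg.commutingGraph (conjugatesOf (QuotientGroup.mk d : G ⧸ Z))).Walk A B →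
        (∃ u : ↥(conjugatesOf d), Γ.Reachable d₀ u ∧ QuotientGroup.mk' Z (u : G) = (A : G ⧸ Z)) →
        ∃ u : ↥(conjugatesOf d), Γ.Reachable d₀ u ∧ QuotientGroup.mk' Z (u : G) = (B : G ⧸ Z) from
      this X₀ X w ⟨d₀, SimpleGraph.Reachable.refl _, rfl⟩
    intro A B w
    induction w with
    | nil => exact id
    | @cons a b c hab _ ih =>
      rintro ⟨u, hu, hua⟩
      apply ih
      have hcomm : Commute (a : G ⧸ Z) (b : G ⧸ Z) := by
        obtain ⟨-, h | h⟩ := (SimpleGraph.fromRel_adj _ a b).1 hab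
        · exact h
        · exact h.symm
      obtain ⟨g, hg⟩ := isConj_iff.1 (show IsConj (QuotientGroup.mk d : G ⧸ Z) (b : G ⧸ Z) from b.2)
      obtain ⟨g, rfl⟩ := QuotientGroup.mk_surjective g
      obtain ⟨y', hy', hyb, hcy⟩ := lift u (g * d * g⁻¹) u.2 (isConj_iff.2 ⟨g, rfl⟩) (by
        have e : QuotientGroup.mk' Z (g * d * g⁻¹) = (b : G ⧸ Z) := by simpa using hg
        rw [map_mul (QuotientGroup.mk' Z) (u : G), map_mul (QuotientGroup.mk' Z) (g * d * g⁻¹), hua, e]
        exact hcomm.eq)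
      exact ⟨⟨y', hy'⟩, hu.trans (step u ⟨y', hy'⟩ hcy), hyb.trans (by simpa using hg)⟩
  have hHZ : ∀ g : G, ∃ h ∈ H, ∃ c ∈ Z, g = c * h := by
    intro g
    obtain ⟨u, hu, hug⟩ := reach ⟨QuotientGroup.mk (g * d * g⁻¹), isConj_iff.2 ⟨QuotientGroup.mk g, by simp⟩⟩
    rw [QuotientGroup.mk'_apply, QuotientGroup.eq] at hug
    obtain ⟨r, hr, hrr⟩ := hsqrt _ hug
    set v := (u : G)
    have hvi := (hinvc v u.2).2
    have hgv : g * d * g⁻¹ = r⁻¹ * v * r := by
      rw [← hvi r hr, mul_assoc v r r, hrr, mul_inv_cancel_left]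
    refine ⟨r * g, ?_, r⁻¹, Z.inv_mem hr, by rw [inv_mul_cancel_left]⟩
    show Γ.Reachable d₀ (cj (r * g) d₀)
    rw [show cj (r * g) d₀ = u from Subtype.ext (by
      show r * g * d * (r * g)⁻¹ = v
      calc r * g * d * (r * g)⁻¹ = r * (g * d * g⁻¹) * r⁻¹ := by group
        _ = v := by rw [hgv]; group)]
    exact hu
  have hLH : L ≤ H := by
    have hperf := (Group.isPerfect_def (G := ↥L)).1 hL.1
    have : commutator ↥L ≤ H.subgroupOf L := by
      rw [commutator_def, Subgroup.commutator_le]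
      intro a _ b _
      obtain ⟨a', ha', c, hc, hac⟩ := hHZ (a : G)
      obtain ⟨b', hb', e, he, hbe⟩ := hHZ (b : G)
      have ha'L : a' ∈ L := by
        have := L.mul_mem (L.inv_mem (hZL hc)) a.2
        rwa [hac, inv_mul_cancel_left] at this
      have hb'L : b' ∈ L := by
        have := L.mul_mem (L.inv_mem (hZL he)) b.2
        rwa [hbe, inv_mul_cancel_left] at this
      rw [Subgroup.mem_subgroupOf]
      have hae := hZc e he a' ha'L
      have hcb := hZc c hc b' hb'L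
      have hce := hZcomm c hc e he
      show (a : G) * b * (a : G)⁻¹ * (b : G)⁻¹ ∈ H
      have : (a : G) * b * (a : G)⁻¹ * (b : G)⁻¹ = a' * b' * a'⁻¹ * b'⁻¹ := by
        rw [hac, hbe]
        calc c * a' * (e * b') * (c * a')⁻¹ * (e * b')⁻¹
            = c * (a' * e) * b' * a'⁻¹ * c⁻¹ * b'⁻¹ * e⁻¹ := by group
          _ = (c * e) * (a' * b' * a'⁻¹ * (b' * c)⁻¹) * e⁻¹ := by rw [hae]; group
          _ = e * (c * (a' * b' * a'⁻¹ * b'⁻¹) * c⁻¹) * e⁻¹ := by
              rw [hce]; rw [show (b' * c)⁻¹ = (c * b')⁻¹ by rw [hcb]]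
              rw [show (c * b')⁻¹ = b'⁻¹ * c⁻¹ by group]; group
          _ = a' * b' * a'⁻¹ * b'⁻¹ := by
              have hl : a' * b' * a'⁻¹ * b'⁻¹ ∈ L :=
                L.mul_mem (L.mul_mem (L.mul_mem ha'L hb'L) (L.inv_mem ha'L)) (L.inv_mem hb'L)
              rw [← hZc c hc _ hl, mul_inv_cancel_right, ← hZc e he _ hl, mul_inv_cancel_right]
      rw [this]
      exact H.mul_mem (H.mul_mem (H.mul_mem ha' hb') (H.inv_mem ha')) (H.inv_mem hb')
    rw [hperf] at this
    intro x hx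
    exact this (Subgroup.mem_top (⟨x, hx⟩ : ↥L))
  have hHtop : H = ⊤ := by
    rw [eq_top_iff, ← hgen]
    exact sup_le hLH (Subgroup.zpowers_le.2 hHd)
  have all : ∀ u, Γ.Reachable d₀ u := by
    intro u
    obtain ⟨g, hg⟩ := isConj_iff.1 (show IsConj d (u : G) from u.2)
    have : g ∈ H := hHtop ▸ Subgroup.mem_top g
    rw [show u = cj g d₀ from Subtype.ext hg.symm]
    exact this
  haveI : Nonempty ↥(conjugatesOf d) := ⟨d₀⟩
  exact ⟨fun u v => (all u).symm.trans (all v)⟩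

end Cfsg.Agent.S5459
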