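import Cfsg.Statements.S5469
import Cfsg.Agent.ThreeTransp.M22PairMain25

set_option autoImplicit false
open Cfsg

namespace Cfsg.Agent.S5469

/-- Let G be a finite group with trivial centre generated by a conjugation-invariant set D of 3-transpositions on which it acts primitively, such that for some d in D the subgroup generated by the members of D other than d commuting with d has central largest normal 2- and 3-subgroups, and suppose G with D is of type M(22). Let d₁, d₂ be distinct commuting members of D, j = d₁ d₂, K the joint centralizer of d₁ and d₂, C the centralizer of j and V the subgroup generated by d₁ and d₂. Then K has index 2 in C, V is the centre of K, and C has a normal subgroup E containing V with E/V elementary abelian of order 2^8 and C/E isomorphic to the full automorphism group of the projective special unitary group of dimension 4 over the field with four elements. -/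
theorem result {G : Type*} [Group G] [Finite G] {D : Set G} (hD : Cfsg.IsThreeTranspositionGroup D) (hprim : Cfsg.IsPrimitiveUnderConj D) (d₀ : G) (hd₀ : d₀ ∈ D) (h3 : Cfsg.pCore 3 ↥(Subgroup.closure {y : G | y ∈ D ∧ y ≠ d₀ ∧ Commute d₀ y}) ≤ Subgroup.center ↥(Subgroup.closure {y : G | y ∈ D ∧ y ≠ d₀ ∧ Commute d₀ y})) (h2 : Cfsg.pCore 2 ↥(Subgroup.closure {y : G | y ∈ D ∧ y ≠ d₀ ∧ Commute d₀ y}) ≤ Subgroup.center ↥(Subgroup.closure {y : G | y ∈ D ∧ y ≠ d₀ ∧ Commute d₀ y})) (h22 : Cfsg.IsOfTypeM22 G D) (d₁ d₂ : G) (h₁ : d₁ ∈ D) (h₂ : d₂ ∈ D) (hne : d₁ ≠ d₂) (hc : Commute d₁ d₂) (K C V : Subgroup G) (hK : K = Subgroup.centralizer ({d₁, d₂} : Set G)) (hC : C = Subgroup.centralizer ({d₁ * d₂} : Set G)) (hV : V = Subgroup.closure ({d₁, d₂} : Set G)) : K ≤ C ∧ (K.subgroupOf C).index = 2 ∧ (Subgroup.center ↥K).map K.subtype = V ∧ ∃ E : Subgroup G, V ≤ E ∧ E ≤ C ∧ (∀ c ∈ C, ∀ x ∈ E, c * x * c⁻¹ ∈ E) ∧ Nat.card E = 2 ^ 10 ∧ (∀ x ∈ E, ∀ y ∈ E, x * y *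 x⁻¹ * y⁻¹ ∈ V ∧ x ^ 2 ∈ V) ∧ ∃ (_ : (E.subgroupOf C).Normal) (F : Type) (_ : Field F) (_ : Fintype F), Fintype.card F = 4 ∧ Nonempty (↥C ⧸ E.subgroupOf C ≃* MulAut (Cfsg.PSU 4 F 2)) := by
  obtain ⟨E, hE⟩ := CfsgLib.ThreeTransp.Pair25.m22_pair_struct hD hprim h22 h₁
    (b := d₂) ⟨h₂, hne.symm, hc⟩ K C hK hC
  have hab : d₁ * d₂ ∈ V := hV ▸ mul_mem (Subgroup.subset_closure (by simp))
    (Subgroup.subset_closure (by simp))
  obtain ⟨F, _, _, hF, Φ, hΦs, hΦk, -⟩ := hE.quot
  haveI := hE.normal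
  refine ⟨hE.le, hE.index, hV ▸ hE.center, E, hV ▸ hE.hV, hE.hEK.trans hE.le, fun c hc' x hx => ?_,
    hE.card, fun x hx y hy => ⟨?_, ?_⟩, hE.normal, F, inferInstance, inferInstance, hF,
    ⟨(QuotientGroup.quotientMulEquivOfEq hΦk.symm).trans
      (QuotientGroup.quotientKerEquivOfSurjective Φ hΦs)⟩⟩
  · exact hE.normal.conj_mem ⟨x, hE.le (hE.hEK hx)⟩ hx ⟨c, hc'⟩
  · rcases hE.comm x hx y hy with e | e <;> rw [e]
    exacts [one_mem _, hab]
  · rcases hE.sq x hx with e | e <;> rw [e]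
    exacts [one_mem _, hab]

end Cfsg.Agent.S5469
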