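import Cfsg.Statements.S5471
import Cfsg.Agent.Eq.Def_FischerSpaces
import Cfsg.Agent.ThreeTransp.Primitive

set_option autoImplicit false
open Cfsg

namespace Cfsg.Agent.S5471

open CfsgLib.ThreeTransp in
theorem swap_exists {G : Type*} [Group G] [Finite G] {D : Set G}
    (hD : Cfsg.IsThreeTranspositionGroup D) (hp : Cfsg.IsPrimitiveUnderConj D) {d₀ : G}
    (hd₀ : d₀ ∈ D)
    (h2 : Cfsg.pCore 2 ↥(Subgroup.closure (nbr D d₀)) ≤
      Subgroup.center ↥(Subgroup.closure (nbr D d₀)))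
    (h : Cfsg.IsOfTypeM23 G D) {a b c : G} (ha : a ∈ D) (hb : b ∈ D) (hc : c ∈ D)
    (hab : a ≠ b) (hac : a ≠ c) (hbc : b ≠ c) (cab : Commute a b) (cac : Commute a c)
    (cbc : Commute b c) :
    ∃ g : G, g * a * g⁻¹ = b ∧ g * b * g⁻¹ = a ∧ g * c * g⁻¹ = c := by
  obtain ⟨hZ, d, hd, c', hc', hdc, h22, -⟩ := h
  have hn := primitive_noTwins hD hp hd hc' hdc
  have hnc := noTwins_noncentral hD hn hZ hd
  have hT := nbrBar_ttg hD hnc
  have hs := m22_singleClass hT h22
  obtain ⟨g, hg⟩ := hp.1 c hc d hd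
  have hA : ∀ x ∈ D, x ≠ c → Commute x c → g * x * g⁻¹ ∈ nbr D d := fun x hx hne hcx =>
    hg ▸ nbr_conj hD g ⟨hx, hne, hcx.symm⟩
  have ha' := hA a ha hac cac
  have hb' := hA b hb hbc cbc
  obtain ⟨ā, hā⟩ : ∃ x : ↥(Subgroup.closure (nbr D d)),
      x = ⟨g * a * g⁻¹, Subgroup.subset_closure ha'⟩ := ⟨_, rfl⟩
  obtain ⟨b', hb''⟩ : ∃ x : ↥(Subgroup.closure (nbr D d)),
      x = ⟨g * b * g⁻¹, Subgroup.subset_closure hb'⟩ := ⟨_, rfl⟩
  have hai : ā ∈ nbrIn D d := by rw [hā]; exact ha'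
  have hbi : b' ∈ nbrIn D d := by rw [hb'']; exact hb'
  have hne : (QuotientGroup.mk ā : ↥(Subgroup.closure (nbr D d)) ⧸
      Subgroup.center ↥(Subgroup.closure (nbr D d))) ≠ QuotientGroup.mk b' := by
    intro e
    have := congrArg Subtype.val (nbr_mk_injOn hD hnc hai hbi e)
    rw [hā, hb''] at this
    exact hab (mul_left_cancel (mul_right_cancel this))
  obtain ⟨_, ⟨e, he, rfl⟩, hea, heb⟩ := exists_common_noncommute hT hs
    ⟨ā, hai, rfl⟩ ⟨b', hbi, rfl⟩ hne
    ((nbr_mk_commute_iff hD hnc hai hbi).2 (by rw [hā, hb'']; exact commute_conj_iff'.2 cab))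
  rw [nbr_mk_commute_iff hD hnc he hai, hā] at hea
  rw [nbr_mk_commute_iff hD hnc he hbi, hb''] at heb
  have hback : (e : G) = g * (g⁻¹ * e * g) * g⁻¹ := by
    simp only [mul_assoc, mul_inv_cancel_left, mul_inv_cancel, mul_one]
  have hec : Commute (e : G) (g * c * g⁻¹) := hg ▸ he.2.2.symm
  rw [hback, commute_conj_iff'] at hea heb hec
  have heD : g⁻¹ * (e : G) * g ∈ D := by simpa using hD.2.1 g⁻¹ e he.1
  obtain ⟨k, hka, hkb, hkc⟩ := exists_swap hD ha hb heD cab hea heb
  refine ⟨k, hka, hkb, ?_⟩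
  rw [← (hkc c cac.symm cbc.symm hec.symm).eq, mul_inv_cancel_right]

/-- Let G be a finite group with trivial centre generated by a conjugation-invariant set D of 3-transpositions on which it acts primitively, such that for some d in D the subgroup generated by the members of D other than d commuting with d has central largest normal 2- and 3-subgroups, and suppose G with D is of type M(23). Let d₁, d₂, d₃ be distinct pairwise commuting members of D and j their product. Then the joint centralizer of d₁, d₂, d₃ is normal in the centralizer of j with quotient isomorphic to the symmetric group of degree 3. -/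
theorem result {G : Type*} [Group G] [Finite G] {D : Set G} (hD : Cfsg.IsThreeTranspositionGroup D) (hprim : Cfsg.IsPrimitiveUnderConj D) (d₀ : G) (hd₀ : d₀ ∈ D) (h3 : Cfsg.pCore 3 ↥(Subgroup.closure {y : G | y ∈ D ∧ y ≠ d₀ ∧ Commute d₀ y}) ≤ Subgroup.center ↥(Subgroup.closure {y : G | y ∈ D ∧ y ≠ d₀ ∧ Commute d₀ y})) (h2 : Cfsg.pCore 2 ↥(Subgroup.closure {y : G | y ∈ D ∧ y ≠ d₀ ∧ Commute d₀ y}) ≤ Subgroup.center ↥(Subgroup.closure {y : G | y ∈ D ∧ y ≠ d₀ ∧ Commute d₀ y})) (h23 : Cfsg.IsOfTypeM23 G D) (d₁ d₂ d₃ : G) (h₁ : d₁ ∈ D) (h₂ : d₂ ∈ D) (h₃ : d₃ ∈ D) (h12 : d₁ ≠ d₂) (h13 : d₁ ≠ d₃) (h23 : d₂ ≠ d₃) (c12 : Commute d₁ d₂) (c13 : Commute d₁ d₃) (c23 : Commute d₂ d₃) (K C : Subgroup G) (hK : K = Subgroup.centralizer ({d₁, d₂, d₃} : Set G)) (hC : C = Subgroup.centralizer ({d₁ * d₂ * d₃} : Set G)) : K ≤ C ∧ ∃ _ : (K.subgroupOf C).Normal, Nonempty (↥C ⧸ K.subgroupOf C ≃* Equiv.Perm (Fin 3)) := by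
  have hM := ‹Cfsg.IsOfTypeM23 G D›
  have h6 := CfsgLib.ThreeTransp.m23_noRel_six hD hprim hd₀ h2 hM
  have hn : CfsgLib.ThreeTransp.NoTwins D := by
    obtain ⟨-, d, hd, c, hc, hdc, -⟩ := hM
    exact CfsgLib.ThreeTransp.primitive_noTwins hD hprim hd hc hdc
  let v : Fin 3 → G := ![d₁, d₂, d₃]
  have hv : Function.Injective v := by
    intro i j e
    fin_cases i <;> fin_cases j <;> simp [v] at e ⊢ <;>
      first
        | exact (h12 e).elim | exact (h12 e.symm).elim | exact (h13 e).elim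
        | exact (h13 e.symm).elim | exact (h23 e).elim | exact (h23 e.symm).elim
  have hKC : K ≤ C := by
    rw [hK, hC]
    intro g hg
    rw [Subgroup.mem_centralizer_iff] at hg ⊢
    rintro x rfl
    have e1 : Commute g d₁ := (hg d₁ (by simp)).symm
    have e2 : Commute g d₂ := (hg d₂ (by simp)).symm
    have e3 : Commute g d₃ := (hg d₃ (by simp)).symm
    exact ((e1.mul_right e2).mul_right e3).eq.symm
  refine ⟨hKC, ?_⟩
  have hperm : ∀ g ∈ C, ∀ i : Fin 3, ∃ j : Fin 3, v j = g * v i * g⁻¹ := by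
    intro g hg i
    have hj : Commute g (d₁ * d₂ * d₃) := by
      rw [hC, Subgroup.mem_centralizer_iff] at hg
      exact (hg _ rfl).symm
    let c : G →* G := (MulAut.conj g).toMonoidHom
    have hnd : [d₁, d₂, d₃].Nodup := by simp [h12, h13, h23]
    have hmem : ∀ a ∈ [d₁, d₂, d₃], a ∈ D := by simp [h₁, h₂, h₃]
    have hcom : ∀ a ∈ [d₁, d₂, d₃], ∀ b ∈ [d₁, d₂, d₃], Commute a b := by
      simp [c12, c13, c23, c12.symm, c13.symm, c23.symm]
    have key := CfsgLib.ThreeTransp.factor_unique hD.1 hn h6 3 le_rfl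
      ([d₁, d₂, d₃].map c) [d₁, d₂, d₃] (hnd.map (MulAut.conj g).injective) rfl
      (by
        intro a ha
        obtain ⟨b, hb, rfl⟩ := List.mem_map.1 ha
        exact hD.2.1 g b (hmem b hb))
      (by
        intro a ha b hb
        obtain ⟨a', ha', rfl⟩ := List.mem_map.1 ha
        obtain ⟨b', hb', rfl⟩ := List.mem_map.1 hb
        exact (hcom a' ha' b' hb').map c)
      hnd rfl hmem hcom (by
        rw [← map_list_prod c, List.prod_cons, List.prod_cons, List.prod_cons, List.prod_nil,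
          mul_one, ← mul_assoc]
        show g * (d₁ * d₂ * d₃) * g⁻¹ = d₁ * d₂ * d₃
        rw [hj.eq, mul_inv_cancel_right])
    have hi : v i ∈ [d₁, d₂, d₃] := by fin_cases i <;> simp [v]
    have := (key (g * v i * g⁻¹)).1 (List.mem_map.2 ⟨v i, hi, rfl⟩)
    simp only [List.mem_cons, List.not_mem_nil, or_false] at this
    rcases this with e | e | e
    · exact ⟨0, e.symm⟩
    · exact ⟨1, e.symm⟩
    · exact ⟨2, e.symm⟩
  choose σ hσ using hperm
  letI act : MulAction ↥C (Fin 3) :=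
    { smul := fun g i => σ g g.2 i
      one_smul := fun i => hv (by
        show v (σ ((1 : ↥C) : G) _ i) = v i
        rw [hσ]; simp)
      mul_smul := fun g h i => hv (by
        show v (σ ((g * h : ↥C) : G) _ i) = v (σ (g : G) _ (σ (h : G) _ i))
        rw [hσ, hσ, hσ, Subgroup.coe_mul]
        simp only [mul_inv_rev, mul_assoc]) }
  let f : ↥C →* Equiv.Perm (Fin 3) := MulAction.toPermHom ↥C (Fin 3)
  have hfv : ∀ (g : ↥C) (i : Fin 3), v (f g i) = (g : G) * v i * (g : G)⁻¹ := fun g i => hσ g g.2 i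
  have hker : f.ker = K.subgroupOf C := by
    ext g
    rw [MonoidHom.mem_ker, Subgroup.mem_subgroupOf, hK, Subgroup.mem_centralizer_iff]
    constructor
    · intro hg x hx
      have hx' : ∃ i, v i = x := by
        simp only [Set.mem_insert_iff, Set.mem_singleton_iff] at hx
        rcases hx with rfl | rfl | rfl
        · exact ⟨0, rfl⟩
        · exact ⟨1, rfl⟩
        · exact ⟨2, rfl⟩
      obtain ⟨i, rfl⟩ := hx'
      have := hfv g i
      rw [hg, Equiv.Perm.one_apply] at this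
      conv_lhs => rw [this]
      rw [inv_mul_cancel_right]
    · intro hg
      refine Equiv.ext fun i => hv ?_
      rw [hfv, Equiv.Perm.one_apply, ← hg (v i) (by fin_cases i <;> simp [v]), mul_inv_cancel_right]
  have hsurj : Function.Surjective f := by
    rw [← MonoidHom.range_eq_top, ← top_le_iff, ← Equiv.Perm.closure_isSwap,
      Subgroup.closure_le]
    rintro p ⟨x, y, hxy, rfl⟩
    obtain ⟨z, hzx, hzy⟩ : ∃ z : Fin 3, z ≠ x ∧ z ≠ y := by
      have : ∀ x y : Fin 3, ∃ z : Fin 3, z ≠ x ∧ z ≠ y := by decide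
      exact this x y
    have hvD : ∀ i, v i ∈ D := fun i => by fin_cases i <;> assumption
    have hvc : ∀ i k, Commute (v i) (v k) := fun i k => by
      fin_cases i <;> fin_cases k <;>
        first | exact Commute.refl _ | assumption | exact c12.symm | exact c13.symm | exact c23.symm
    obtain ⟨g, gx, gy, gz⟩ := swap_exists hD hprim hd₀ h2 hM (hvD x) (hvD y) (hvD z)
      (hv.ne hxy) (hv.ne hzx.symm) (hv.ne hzy.symm) (hvc x y) (hvc x z) (hvc y z)
    have hperm3 : ∀ i, i = x ∨ i = y ∨ i = z := by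
      have : ∀ x y z i : Fin 3, x ≠ y → z ≠ x → z ≠ y → i = x ∨ i = y ∨ i = z := by decide
      exact fun i => this x y z i hxy hzx hzy
    have hgv : ∀ i, g * v i * g⁻¹ = v (Equiv.swap x y i) := by
      intro i
      rcases hperm3 i with rfl | rfl | rfl
      · rw [Equiv.swap_apply_left, gx]
      · rw [Equiv.swap_apply_right, gy]
      · rw [Equiv.swap_apply_of_ne_of_ne hzx hzy, gz]
    have hg : g ∈ C := by
      rw [hC, Subgroup.mem_centralizer_iff]
      rintro _ rfl
      have e : g * (d₁ * d₂ * d₃) * g⁻¹ = d₁ * d₂ * d₃ := by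
        rw [show g * (d₁ * d₂ * d₃) * g⁻¹
          = (g * v 0 * g⁻¹) * (g * v 1 * g⁻¹) * (g * v 2 * g⁻¹) by simp [v, mul_assoc],
          hgv, hgv, hgv]
        have hall : ∀ a b c : Fin 3, a ≠ b → a ≠ c → b ≠ c → v a * v b * v c = d₁ * d₂ * d₃ := by
          intro a b c hab hac hbc
          fin_cases a <;> fin_cases b <;> fin_cases c <;> simp at hab hac hbc <;>
            simp [v, mul_assoc, c12.symm.eq, c13.symm.eq, c23.symm.eq, c12.symm.left_comm,
              c13.symm.left_comm, c23.symm.left_comm]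
        exact hall _ _ _ ((Equiv.swap x y).injective.ne (by decide))
          ((Equiv.swap x y).injective.ne (by decide)) ((Equiv.swap x y).injective.ne (by decide))
      conv_lhs => rw [← e]
      rw [inv_mul_cancel_right]
    refine ⟨⟨g, hg⟩, Equiv.ext fun i => hv ?_⟩
    rw [hfv]
    exact hgv i
  rw [← hker]
  exact ⟨inferInstance, ⟨QuotientGroup.quotientKerEquivOfSurjective f hsurj⟩⟩

end Cfsg.Agent.S5471
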