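import Cfsg.Statements.S5474
import Cfsg.Agent.ThreeTransp.M24Inv58
-- import your own Cfsg.Agent.* helpers here

set_option autoImplicit false
open Cfsg

namespace Cfsg.Agent.S5474

/-- Let G be a finite group with trivial centre generated by a conjugation-invariant set D of 3-transpositions on which it acts primitively, such that for some d in D the subgroup generated by the members of D other than d commuting with d has central largest normal 2- and 3-subgroups, and suppose G with D is of type M(24). Then D is the only conjugacy class of 3-transpositions generating G. -/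
theorem result {G : Type*} [Group G] [Finite G] {D : Set G} (hD : Cfsg.IsThreeTranspositionGroup D) (hprim : Cfsg.IsPrimitiveUnderConj D) (d₀ : G) (hd₀ : d₀ ∈ D) (h3 : Cfsg.pCore 3 ↥(Subgroup.closure {y : G | y ∈ D ∧ y ≠ d₀ ∧ Commute d₀ y}) ≤ Subgroup.center ↥(Subgroup.closure {y : G | y ∈ D ∧ y ≠ d₀ ∧ Commute d₀ y})) (h2 : Cfsg.pCore 2 ↥(Subgroup.closure {y : G | y ∈ D ∧ y ≠ d₀ ∧ Commute d₀ y}) ≤ Subgroup.center ↥(Subgroup.closure {y : G | y ∈ D ∧ y ≠ d₀ ∧ Commute d₀ y})) (h24 : Cfsg.IsOfTypeM24 G D) (D' : Set G) (hD' : Cfsg.IsThreeTranspositionClass D') : D' = D := by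
  obtain ⟨hS, ⟨d', hd', hD'⟩, -⟩ := hD'
  have hmem : d' ∈ D := by
    refine CfsgLib.ThreeTransp.m24_mem_of_small_products58 hD hprim h24 (hS.1 d' hd') fun g => ?_
    refine hS.2 d' hd' _ ?_
    rw [hD']
    exact isConj_iff.2 ⟨g, rfl⟩
  rw [hD']
  ext y
  constructor
  · intro hy
    obtain ⟨g, rfl⟩ := isConj_iff.1 hy
    exact hD.2.1 g d' hmem
  · intro hy
    exact isConj_iff.2 (hprim.1 d' hmem y hy)

end Cfsg.Agent.S5474
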