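import Cfsg.Statements.S5516
import Cfsg.Agent.O8Three88.Orbits

set_option autoImplicit false
open Cfsg

namespace Cfsg.Agent.S5516

/-- PΩ⁺(8, 3) (the commutator subgroup of the isometry group of the hyperbolic quadratic form in dimension 8 over the field with three elements, modulo its centre) has exactly 13 conjugacy classes of subgroups of order 3; and a finite group G whose generalized Fitting subgroup L is isomorphic to PΩ⁺(8, 3) with G/L the symmetric group of degree 3 has exactly 7 orbits, under conjugation, on the subgroups of L of order 3. -/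
theorem result {G : Type*} [Group G] [Finite G] (L : Subgroup G) (hL : L = Cfsg.generalizedFittingSubgroup G) (hF : Nonempty (↥L ≃* Cfsg.POmega (ZMod 3) (Cfsg.quadFormPlus 4 (ZMod 3)))) [hn : L.Normal] (hq : Nonempty (G ⧸ L ≃* Equiv.Perm (Fin 3))) : (∃ Y : Fin 13 → Subgroup (Cfsg.POmega (ZMod 3) (Cfsg.quadFormPlus 4 (ZMod 3))), (∀ i, Nat.card (Y i) = 3) ∧ (∀ i j, (∃ g : Cfsg.POmega (ZMod 3) (Cfsg.quadFormPlus 4 (ZMod 3)), (Y i).map (MulAut.conj g).toMonoidHom = Y j) → i = j) ∧ (∀ X : Subgroup (Cfsg.POmega (ZMod 3) (Cfsg.quadFormPlus 4 (ZMod 3))), Nat.card X = 3 → ∃ i, ∃ g : Cfsg.POmega (ZMod 3) (Cfsg.quadFormPlus 4 (ZMod 3)), X.map (MulAut.conj g).toMonoidHom = Y i)) ∧ ∃ Y : Fin 7 → Subgroup G, (∀ i, Y i ≤ L ∧ Nat.card (Y i) = 3) ∧ (∀ i j, (∃ g : G, (Y i).map (MulAut.conj g).toMonoidHom = Y j) → i = j) ∧ ∀ X : Subgroup G, X ≤ L → Nat.card X = 3 → ∃ i, ∃ g : G, X.map (MulAut.conj g).toMonoidHom = Y i := by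
  obtain ⟨e0⟩ := hF
  obtain ⟨q⟩ := hq
  have h6 : Nat.card (G ⧸ L) = 6 := by
    rw [Nat.card_congr q.toEquiv, Nat.card_perm, Nat.card_fin]; rfl
  obtain ⟨e, hr⟩ := CfsgLib.O8Three88.exists_iso_range L e0 hL h6
  exact ⟨⟨CfsgLib.O8Three88.Ysub, CfsgLib.O8Three88.card_Ysub,
      fun i j ⟨g, hg⟩ => CfsgLib.O8Three88.Ysub_inj hg, CfsgLib.O8Three88.exists_Ysub⟩,
    CfsgLib.O8Three88.orbSub L e, fun i => ⟨CfsgLib.O8Three88.orbSub_le L e i, CfsgLib.O8Three88.card_orbSub L e i⟩,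
    fun i j ⟨g, hg⟩ => CfsgLib.O8Three88.orbSub_inj L e hr hg,
    fun X hle hX => CfsgLib.O8Three88.exists_orbSub L e hr X hle hX⟩

end Cfsg.Agent.S5516
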