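import Cfsg.Statements.S5520
import Cfsg.Agent.ThreeTransp.U43.Orbit

set_option autoImplicit false
open Cfsg

namespace Cfsg.Agent.S5520

/-- In the special unitary group of dimension 6 over the field with four elements (determinant-one matrices preserving the standard Hermitian form), the subgroups K whose centre has order 3 with K modulo its centre isomorphic to the projective special unitary group of dimension 4 over the field with nine elements fall into exactly three conjugacy classes. -/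
theorem result (F : Type) [Field F] [Fintype F] (hF : Fintype.card F = 4) (F9 : Type) [Field F9] [Fintype F9] (hF9 : Fintype.card F9 = 9) : ∃ K₁ K₂ K₃ : Subgroup ↥(Cfsg.SU 6 F 2), (∀ K ∈ [K₁, K₂, K₃], Nat.card ↥(Subgroup.center ↥K) = 3 ∧ Nonempty (↥K ⧸ Subgroup.center ↥K ≃* Cfsg.PSU 4 F9 3)) ∧ (¬ ∃ g : ↥(Cfsg.SU 6 F 2), K₁.map (MulAut.conj g).toMonoidHom = K₂) ∧ (¬ ∃ g : ↥(Cfsg.SU 6 F 2), K₁.map (MulAut.conj g).toMonoidHom = K₃) ∧ (¬ ∃ g : ↥(Cfsg.SU 6 F 2), K₂.map (MulAut.conj g).toMonoidHom = K₃) ∧ ∀ K : Subgroup ↥(Cfsg.SU 6 F 2), Nat.card ↥(Subgroup.center ↥K) = 3 → Nonempty (↥K ⧸ Subgroup.center ↥K ≃* Cfsg.PSU 4 F9 3) → ∃ g : ↥(Cfsg.SU 6 F 2), K.map (MulAut.conj g).toMonoidHom = K₁ ∨ K.map (MulAut.conj g).toMonoidHom = K₂ ∨ K.map (MulAut.conj g).toMonoidHom = K₃ := by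
  have h1 : (1 : ℕ) ∈ [1, 2, 3] := by decide
  have h2 : (2 : ℕ) ∈ [1, 2, 3] := by decide
  have h3 : (3 : ℕ) ∈ [1, 2, 3] := by decide
  refine ⟨CfsgLib.U43.K3 hF h1, CfsgLib.U43.K3 hF h2, CfsgLib.U43.K3 hF h3, ?_,
    CfsgLib.U43.not_conjugate hF h1 h2 (by decide), CfsgLib.U43.not_conjugate hF h1 h3 (by decide),
    CfsgLib.U43.not_conjugate hF h2 h3 (by decide), fun K hZ hiso => ?_⟩
  · intro K hK
    simp only [List.mem_cons, List.not_mem_nil, or_false] at hK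
    rcases hK with rfl | rfl | rfl
    · exact ⟨(CfsgLib.U43.K3_spec hF h1).1, (CfsgLib.U43.K3_spec hF h1).2 F9 hF9⟩
    · exact ⟨(CfsgLib.U43.K3_spec hF h2).1, (CfsgLib.U43.K3_spec hF h2).2 F9 hF9⟩
    · exact ⟨(CfsgLib.U43.K3_spec hF h3).1, (CfsgLib.U43.K3_spec hF h3).2 F9 hF9⟩
  obtain ⟨e⟩ := hiso
  obtain ⟨e1⟩ := (CfsgLib.U43.K3_spec hF h1).2 F9 hF9
  obtain ⟨c, hc, g, hg⟩ := CfsgLib.U43.classify_quotient hF hZ h1 (e.trans e1.symm)
  simp only [List.mem_cons, List.not_mem_nil, or_false] at hc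
  rcases hc with rfl | rfl | rfl
  · exact ⟨g, Or.inl hg⟩
  · exact ⟨g, Or.inr (Or.inl hg)⟩
  · exact ⟨g, Or.inr (Or.inr hg)⟩

end Cfsg.Agent.S5520
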