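import Cfsg.Statements.S5541
-- import your own Cfsg.Agent.* helpers here

set_option autoImplicit false
open Cfsg

namespace Cfsg.Agent.S5541

/-- Let ρ be a representation of a group H on a finite-dimensional real vector space U whose only ρ-invariant subspaces are the zero subspace and U, and suppose U carries a non-zero ρ-invariant symmetric bilinear form. Then the following are equivalent: (1) there is a non-zero ρ-equivariant commutative bilinear product on U of which every ρ-equivariant bilinear product is a scalar multiple; (2) there is a non-zero ρ-invariant trilinear form on U that is symmetric under all permutations of its arguments and of which every ρ-invariant trilinear form is a scalar multiple. -/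
theorem result {H : Type*} [Group H] {U : Type*} [AddCommGroup U] [Module ℝ U] [FiniteDimensional ℝ U] (ρ : Representation ℝ H U) (hirr : ∀ W : Submodule ℝ U, (∀ g : H, W.map (ρ g) ≤ W) → W = ⊥ ∨ W = ⊤) (B : LinearMap.BilinForm ℝ U) (hB0 : B ≠ 0) (hBs : ∀ u v, B u v = B v u) (hBi : ∀ (g : H) (u v : U), B (ρ g u) (ρ g v) = B u v) : (∃ m : U →ₗ[ℝ] U →ₗ[ℝ] U, m ≠ 0 ∧ (∀ u v, m u v = m v u) ∧ (∀ (g : H) (u v : U), m (ρ g u) (ρ g v) = ρ g (m u v)) ∧ ∀ m' : U →ₗ[ℝ] U →ₗ[ℝ] U, (∀ (g : H) (u v : U), m' (ρ g u) (ρ g v) = ρ g (m' u v)) → ∃ c : ℝ, m' = c • m) ↔ (∃ t : U →ₗ[ℝ] U →ₗ[ℝ] U →ₗ[ℝ] ℝ, t ≠ 0 ∧ (∀ u v w, t u v w = t v u w ∧ t u v w = t u w v) ∧ (∀ (g : H) (u v w : U), t (ρ g u) (ρ g v) (ρ g w) = t u v w) ∧ ∀ t' : U →ₗ[ℝ] U →ₗ[ℝ] U →ₗ[ℝ] ℝ, (∀ (g : H) (u v w : U), t' (ρ g u) (ρ g v) (ρ g w) = t' u v w) → ∃ c : ℝ, t' = c • t) := by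
  have hker : LinearMap.ker B = ⊥ := by
    rcases hirr (LinearMap.ker B) (by
      rintro g _ ⟨w, hw, rfl⟩
      simp only [SetLike.mem_coe, LinearMap.mem_ker] at hw ⊢
      refine LinearMap.ext fun v => ?_
      have h := hBi g w (ρ g⁻¹ v)
      rw [Representation.self_inv_apply, hw] at h
      simpa using h) with h | h
    · exact h
    · exact absurd (LinearMap.ker_eq_top.mp h) hB0
  have hBinj : Function.Injective B := LinearMap.ker_eq_bot.mp hker
  let e : U ≃ₗ[ℝ] (U →ₗ[ℝ] ℝ) := LinearMap.linearEquivOfInjective B hBinj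
    (Subspace.dual_finrank_eq (K := ℝ) (V := U)).symm
  have he : ∀ u, e u = B u := fun u => LinearMap.linearEquivOfInjective_apply (x := u) ..
  have sep : ∀ u v : U, (∀ w, B u w = B v w) → u = v := fun u v h =>
    hBinj (LinearMap.ext h)
  let T : (U →ₗ[ℝ] U →ₗ[ℝ] U) → (U →ₗ[ℝ] U →ₗ[ℝ] U →ₗ[ℝ] ℝ) := fun m => m.compr₂ B
  have hT : ∀ m u v w, T m u v w = B (m u v) w := fun m u v w => rfl
  let S : (U →ₗ[ℝ] U →ₗ[ℝ] U →ₗ[ℝ] ℝ) → (U →ₗ[ℝ] U →ₗ[ℝ] U) := fun t =>
    t.compr₂ e.symm.toLinearMap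
  have hS : ∀ t u v w, B (S t u v) w = t u v w := by
    intro t u v w
    rw [← he]; simp [S]
  have invTS : ∀ m : U →ₗ[ℝ] U →ₗ[ℝ] U,
      (∀ (g : H) (u v : U), m (ρ g u) (ρ g v) = ρ g (m u v)) →
      ∀ (g : H) (u v w : U), T m (ρ g u) (ρ g v) (ρ g w) = T m u v w := by
    intro m hm g u v w
    rw [hT, hT, hm, hBi]
  have invST : ∀ t : U →ₗ[ℝ] U →ₗ[ℝ] U →ₗ[ℝ] ℝ,
      (∀ (g : H) (u v w : U), t (ρ g u) (ρ g v) (ρ g w) = t u v w) →
      ∀ (g : H) (u v : U), S t (ρ g u) (ρ g v) = ρ g (S t u v) := by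
    intro t ht g u v
    apply sep
    intro w
    have h1 := hBi g (S t u v) (ρ g⁻¹ w)
    have h2 := ht g u v (ρ g⁻¹ w)
    rw [Representation.self_inv_apply] at h1 h2
    rw [hS, h2, h1, hS]
  constructor
  · rintro ⟨m, hm0, hms, hmi, hmu⟩
    have ht0 : T m ≠ 0 := by
      intro h
      apply hm0
      ext u v
      apply sep
      intro w
      rw [← hT, h]; simp
    have huniq : ∀ t' : U →ₗ[ℝ] U →ₗ[ℝ] U →ₗ[ℝ] ℝ,
        (∀ (g : H) (u v w : U), t' (ρ g u) (ρ g v) (ρ g w) = t' u v w) →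
        ∃ c : ℝ, t' = c • T m := by
      intro t' ht'
      obtain ⟨c, hc⟩ := hmu (S t') (invST t' ht')
      refine ⟨c, ?_⟩
      ext u v w
      rw [← hS t' u v w, hc]; simp [hT]
    have s12 : ∀ u v w, T m u v w = T m v u w := fun u v w => by rw [hT, hT, hms]
    let t' : U →ₗ[ℝ] U →ₗ[ℝ] U →ₗ[ℝ] ℝ := LinearMap.lflip.toLinearMap.comp (T m)
    have ht' : ∀ u v w, t' u v w = T m u w v := fun u v w => rfl
    obtain ⟨c, hc⟩ := huniq t' (fun g u v w => by rw [ht', ht', invTS m hmi])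
    have s23 : ∀ u v w, T m u w v = c * T m u v w := fun u v w => by
      rw [← ht', hc]; simp
    obtain ⟨u, v, w, huvw⟩ : ∃ u v w, T m u v w ≠ 0 := by
      by_contra h
      push Not at h
      exact ht0 (LinearMap.ext fun u => LinearMap.ext fun v => LinearMap.ext fun w => h u v w)
    have k1 : T m w v u = c * T m u v w := by
      rw [s12 w v u, s23 v u w, ← s12 u v w]
    have k2 : T m w v u = c * c * T m u v w := by
      rw [s23 w u v, s12 w u v, s23 u v w, mul_assoc]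
    have hc1 : c = 1 := by
      have hc0 : c ≠ 0 := by
        intro h0
        have := s23 u w v
        rw [h0, zero_mul] at this
        exact huvw this
      have := mul_right_cancel₀ huvw (k2.symm.trans k1)
      exact mul_left_cancel₀ hc0 (by rw [this, mul_one])
    exact ⟨T m, ht0, fun u v w => ⟨s12 u v w, by rw [s23 u v w, hc1, one_mul]⟩,
      invTS m hmi, huniq⟩
  · rintro ⟨t, ht0, hts, hti, htu⟩
    refine ⟨S t, ?_, ?_, invST t hti, ?_⟩
    · intro h
      apply ht0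
      ext u v w
      rw [← hS t u v w, h]; simp
    · intro u v
      apply sep
      intro w
      rw [hS, hS, (hts u v w).1]
    · intro m' hm'
      obtain ⟨c, hc⟩ := htu (T m') (invTS m' hm')
      refine ⟨c, ?_⟩
      ext u v
      apply sep
      intro w
      rw [← hT, hc]; simp [hS]

end Cfsg.Agent.S5541
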