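import Cfsg.Statements.S5543
import Cfsg.Agent.Majorana.Basic

set_option autoImplicit false
open Cfsg

namespace Cfsg.Agent.S5543

open Cfsg.Axial CfsgLib.Majorana

/-- Let V be a finite-dimensional real vector space with a commutative bilinear product and a positive-definite symmetric bilinear form that associates with the product and satisfies the Norton inequality (the Majorana setting of the definitions). Let X be a group of linear automorphisms of V in which every element squares to the identity, and suppose every non-identity element x of X is a Majorana involution with an axial vector a(x) of squared length 1, such that for any two distinct non-identity x, y the product a(x) ∘ a(y) equals (1/8)(a(x) + a(y) − a(xy)) (the dihedral subalgebra of type 2A whose third axis belongs to the involution xy). Then X has order at most 4. -/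
theorem result {V : Type*} [AddCommGroup V] [Module ℝ V] [FiniteDimensional ℝ V] (mul : V →ₗ[ℝ] V →ₗ[ℝ] V) (B : LinearMap.BilinForm ℝ V) (hV : Cfsg.Axial.IsMajoranaAmbient mul B) (X : Subgroup (V ≃ₗ[ℝ] V)) (hX : ∀ x ∈ X, x * x = 1) (ax : (V ≃ₗ[ℝ] V) → V) (hax : ∀ x ∈ X, x ≠ 1 → Cfsg.Axial.IsMajoranaPair mul B x (ax x)) (h1 : ∀ x ∈ X, x ≠ 1 → B (ax x) (ax x) = 1) (h2A : ∀ x ∈ X, ∀ y ∈ X, x ≠ 1 → y ≠ 1 → x ≠ y → mul (ax x) (ax y) = (1 / 8 : ℝ) • (ax x + ax y - ax (x * y))) : Nat.card ↥X ≤ 4 := by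
  by_contra hcard
  push Not at hcard
  have hfin : Finite X := Nat.finite_of_card_ne_zero (by omega)
  haveI : Fintype X := Fintype.ofFinite X
  classical
  have pick : ∀ s : Finset X, s.card ≤ 4 → ∃ z, z ∉ s := by
    intro s hs
    by_contra h
    push Not at h
    have : s = Finset.univ := Finset.eq_univ_iff_forall.mpr h
    rw [this, Finset.card_univ, ← Nat.card_eq_fintype_card] at hs
    omega
  have sq : ∀ g : X, g * g = 1 := fun g => Subtype.ext (hX g g.2)
  have inv' : ∀ g : X, g⁻¹ = g := fun g => inv_eq_of_mul_eq_one_right (sq g)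
  have comm : ∀ g h : X, g * h = h * g := fun g h => by
    rw [← inv' (g * h), mul_inv_rev, inv', inv']
  have cancel : ∀ g h : X, g * (g * h) = h := fun g h => by rw [← mul_assoc, sq, one_mul]
  obtain ⟨x, hx⟩ := pick {1} (by simp)
  obtain ⟨y, hy⟩ := pick {1, x} (le_trans Finset.card_le_two (by norm_num))
  obtain ⟨z, hz⟩ := pick {1, x, y, x * y} Finset.card_le_four
  simp only [Finset.mem_insert, Finset.mem_singleton, not_or] at hx hy hz
  obtain ⟨hy1, hyx⟩ := hy
  obtain ⟨hz1, hzx, hzy, hzxy⟩ := hz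
  let a : X → V := fun g => ax (g : V ≃ₗ[ℝ] V)
  have ne1 : ∀ g : X, g ≠ 1 → (g : V ≃ₗ[ℝ] V) ≠ 1 := fun g hg h => hg (Subtype.ext h)
  have prod : ∀ g h : X, g ≠ 1 → h ≠ 1 → g ≠ h →
      mul (a g) (a h) = (1 / 8 : ℝ) • (a g + a h - a (g * h)) := fun g h hg hh hgh =>
    h2A g g.2 h h.2 (ne1 g hg) (ne1 h hh) (fun e => hgh (Subtype.ext e))
  have axg : ∀ g : X, g ≠ 1 → IsMajoranaPair mul B g (a g) := fun g hg => hax g g.2 (ne1 g hg)
  have ne_mul : ∀ g h : X, g ≠ h → g * h ≠ 1 := fun g h hgh e => hgh (by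
    rw [← mul_one g, ← e, cancel])
  have ne_self : ∀ g h : X, g ≠ 1 → g * h ≠ h := fun g h hg e => hg (mul_eq_right.mp e)
  have quarter : ∀ g : X, g ≠ 1 → g ≠ x →
      a g - a (x * g) ∈ eigen mul (a x) (1 / 4) := by
    intro g hg hgx
    rw [mem_eigen, map_sub, prod x g hx hg (Ne.symm hgx),
      prod x (x * g) hx (ne_mul x g (Ne.symm hgx))
        (fun e => hg (mul_eq_left.mp e.symm)), cancel]
    module
  have hxy : x * y ≠ 1 := ne_mul x y (Ne.symm hyx)
  have hxz : x * z ≠ 1 := ne_mul x z (Ne.symm hzx)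
  have hyz : y * z ≠ 1 := ne_mul y z (Ne.symm hzy)
  have hyzx : y * z ≠ x := fun e => hzxy (by rw [comm x y, ← e, cancel])
  have hxyz : x * (y * z) ≠ 1 := ne_mul x _ (Ne.symm hyzx)
  have hne : y * z ≠ x * (y * z) := Ne.symm (ne_self _ _ hx)
  have hp := quarter y hy1 hyx
  have hq := quarter z hz1 hzx
  have hr := quarter (y * z) hyz hyzx
  have e1 : y * (x * z) = x * (y * z) := by rw [← mul_assoc, comm y x, mul_assoc]
  have e2 : x * y * z = x * (y * z) := mul_assoc x y z
  have e3 : x * y * (x * z) = y * z := by rw [mul_assoc, e1, cancel]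
  have n1 : y ≠ x * z := fun e => hzxy (by rw [e, cancel])
  have n2 : x * y ≠ z := Ne.symm hzxy
  have n3 : x * y ≠ x * z := fun e => hzy (mul_left_cancel e).symm
  have hpq : mul (a y - a (x * y)) (a z - a (x * z))
      = (-1 / 4 : ℝ) • (a (y * z) - a (x * (y * z))) := by
    simp only [map_sub, LinearMap.sub_apply, prod y z hy1 hz1 (Ne.symm hzy),
      prod (x * y) z hxy hz1 n2, prod y (x * z) hy1 hxz n1,
      prod (x * y) (x * z) hxy hxz n3, e1, e2, e3]
    module
  have hzero : (-1 / 4 : ℝ) • (a (y * z) - a (x * (y * z))) = 0 :=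
    eq_zero_of_quarter (Submodule.smul_mem _ _ hr)
      (hpq ▸ fusion_quarter_quarter (axg x hx).2.2.1 hp hq)
  have heq : a (x * (y * z)) = a (y * z) :=
    (sub_eq_zero.mp ((smul_eq_zero.mp hzero).resolve_left (by norm_num))).symm
  have hid := (axg _ hyz).2.2.1.1.2.1
  have h3 := prod (y * z) (x * (y * z)) hyz hxyz hne
  rw [heq, hid] at h3
  have hcol : (y * z) * (x * (y * z)) = x := by rw [comm x, cancel]
  rw [hcol] at h3
  have h4 : a x = (-6 : ℝ) • a (y * z) := by
    linear_combination (norm := module) (8 : ℝ) • h3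
  have h5 : B (a x) (a x) = 1 := h1 x x.2 (ne1 x hx)
  have h6 : B (a (y * z)) (a (y * z)) = 1 := h1 _ (y * z).2 (ne1 _ hyz)
  rw [h4] at h5
  simp [h6] at h5
  norm_num at h5

end Cfsg.Agent.S5543
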