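import Cfsg.Statements.S5545
import Cfsg.Agent.Majorana.Basic

set_option autoImplicit false
open Cfsg

namespace Cfsg.Agent.S5545

open Cfsg.Axial CfsgLib.Majorana

private theorem core {V : Type*} [AddCommGroup V] [Module ℝ V] {mul : V →ₗ[ℝ] V →ₗ[ℝ] V}
    {B : LinearMap.BilinForm ℝ V} (hV : IsMajoranaAmbient mul B) {μ₁ : V ≃ₗ[ℝ] V} {a b : V}
    (h₁ : IsMajoranaPair mul B μ₁ b) (hn : B b b = 1) (hfix : μ₁ a = a) (hid : mul a a = a)
    (hap : mul a (mul a b) = (3 * B a b / 4) • a + (1 / 4 : ℝ) • mul a b) :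
    (B a b = 1 / 8 → mul (mul a b) (mul a b) = (3 / 128 : ℝ) • a + (3 / 128 : ℝ) • b
      - (1 / 32 : ℝ) • mul a b) ∧ (B a b ≠ 1 / 8 → mul a b = B a b • b) := by
  obtain ⟨u0, h0, u4, h4, hd⟩ := decomp_fixed hV h₁ hn hfix
  rw [hV.2.1 b a] at hd
  set γ := B a b
  have hb := h₁.2.2.1
  have e0 : mul b u0 = 0 := by simpa using mem_eigen.mp h0
  have e4 := mem_eigen.mp h4
  have e0' : mul u0 b = 0 := by rw [hV.1, e0]
  have e4' : mul u4 b = (1 / 4 : ℝ) • u4 := by rw [hV.1, e4]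
  have ebb := hb.1.2.1
  have b1 : b ∈ eigenSum mul b {1, 0} :=
    eigen_le_eigenSum (by simp : (1 : ℝ) ∈ ({1, 0} : Set ℝ)) (mem_eigen.mpr (by rw [one_smul]; exact ebb))
  have hu0 : u0 ∈ eigenSum mul b {1, 0} := eigen_le_eigenSum (by simp) h0
  have hu00 : mul u0 u0 ∈ eigenSum mul b {1, 0} :=
    eigen_le_eigenSum (by simp) (fusion_zero_zero hb h0 h0)
  have hu44 := fusion_quarter_quarter hb h4 h4
  have hu04 := fusion_zero_quarter hb h0 h4
  have hp : mul a b = γ • b + (1 / 4 : ℝ) • u4 := by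
    rw [hV.1, hd]; simp [e0, e4, ebb]
  have hw : (γ / 2 - 1) • u4 + (2 : ℝ) • mul u0 u4 = 0 := by
    apply eq_zero_of_quarter (mul := mul) (a := b)
    · exact Submodule.add_mem _ (Submodule.smul_mem _ _ h4) (Submodule.smul_mem _ _ hu04)
    · have : (γ / 2 - 1) • u4 + (2 : ℝ) • mul u0 u4
          = (γ - γ * γ) • b + u0 - mul u0 u0 - mul u4 u4 := by
        have hid' := hid
        rw [hd] at hid'
        simp only [map_add, map_smul, LinearMap.add_apply, LinearMap.smul_apply, e0, e0', e4, e4',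
          ebb, hV.1 u4 u0] at hid'
        linear_combination (norm := module) hid'
      rw [this]
      exact Submodule.sub_mem _ (Submodule.sub_mem _ (Submodule.add_mem _
        (Submodule.smul_mem _ _ b1) hu0) hu00) hu44
  have hau : mul a u4 = (1 / 2 : ℝ) • u4 + mul u4 u4 := by
    rw [hd]
    simp only [map_add, map_smul, LinearMap.add_apply, LinearMap.smul_apply, e4]
    linear_combination (norm := module) (1 / 2 : ℝ) • hw
  have hkey : γ • mul a b + (1 / 4 : ℝ) • ((1 / 2 : ℝ) • u4 + mul u4 u4)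
      = (3 * γ / 4) • a + (1 / 4 : ℝ) • mul a b := by
    rw [← hap]
    conv_rhs => rw [hp, map_add, map_smul, map_smul, hau]
  constructor
  · intro hg
    rw [hp]
    simp only [map_add, map_smul, LinearMap.add_apply, LinearMap.smul_apply, e4, e4', ebb]
    rw [hp] at hkey
    rw [hg] at hkey ⊢
    linear_combination (norm := module) (1 / 4 : ℝ) • hkey
  · intro hg
    have hz : (1 / 16 - γ / 2) • u4 = 0 := by
      apply eq_zero_of_quarter (mul := mul) (a := b)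
      · exact Submodule.smul_mem _ _ h4
      · have : (1 / 16 - γ / 2) • u4
            = (3 * γ / 4 * γ + γ / 4 - γ * γ) • b + (3 * γ / 4) • u0
              - (1 / 4 : ℝ) • mul u4 u4 := by
          have hk := hkey
          rw [hp, hd] at hk
          linear_combination (norm := module) hk
        rw [this]
        exact Submodule.sub_mem _ (Submodule.add_mem _
          (Submodule.smul_mem _ _ b1) (Submodule.smul_mem _ _ hu0)) (Submodule.smul_mem _ _ hu44)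
    have : u4 = 0 := (smul_eq_zero.mp hz).resolve_left (fun h => hg (by linarith))
    rw [hp, this, smul_zero, add_zero]


/-- Let V be a finite-dimensional real vector space with a commutative bilinear product and a positive-definite symmetric bilinear form that associates with the product and satisfies the Norton inequality (the Majorana setting of the definitions). Let μ₀, μ₁ be commuting Majorana involutions with distinct axial vectors a₀ ≠ a₁ of squared length 1, each involution having no other axial vector. Then either a₀ and a₁ are orthogonal with a₀ ∘ a₁ = 0 (type 2B), or their inner product is 1/8 and, with a₂ = a₀ + a₁ − 8 a₀ ∘ a₁, the vector a₂ is an idempotent and a₀ ∘ a₂ = (1/8)(a₀ + a₂ − a₁), a₁ ∘ a₂ = (1/8)(a₁ + a₂ − a₀) (type 2A: the three idempotents span a subalgebra with aᵢ ∘ aⱼ = (1/8)(aᵢ + aⱼ − aₖ)). -/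
theorem result {V : Type*} [AddCommGroup V] [Module ℝ V] [FiniteDimensional ℝ V] (mul : V →ₗ[ℝ] V →ₗ[ℝ] V) (B : LinearMap.BilinForm ℝ V) (hV : Cfsg.Axial.IsMajoranaAmbient mul B) (μ₀ μ₁ : V ≃ₗ[ℝ] V) (a₀ a₁ : V) (h₀ : Cfsg.Axial.IsMajoranaPair mul B μ₀ a₀) (h₁ : Cfsg.Axial.IsMajoranaPair mul B μ₁ a₁) (hu₀ : ∀ a : V, Cfsg.Axial.IsMajoranaPair mul B μ₀ a → a = a₀) (hu₁ : ∀ a : V, Cfsg.Axial.IsMajoranaPair mul B μ₁ a → a = a₁) (hn₀ : B a₀ a₀ = 1) (hn₁ : B a₁ a₁ = 1) (hc : μ₀ * μ₁ = μ₁ * μ₀) (hne : a₀ ≠ a₁) : (B a₀ a₁ = 0 ∧ mul a₀ a₁ = 0) ∨ (B a₀ a₁ = 1 / 8 ∧ mul (a₀ + a₁ - (8 : ℝ) • mul a₀ a₁) (a₀ + a₁ - (8 : ℝ) • mul a₀ a₁) = a₀ + a₁ - (8 : ℝ) • mul a₀ a₁ ∧ mul a₀ (a₀ + a₁ - (8 : ℝ) • mul a₀ a₁) = (1 / 8 : ℝ) • (a₀ + (a₀ + a₁ - (8 : ℝ) • mul a₀ a₁) - a₁) ∧ mul a₁ (a₀ + a₁ - (8 : ℝ) • mul a₀ a₁) = (1 / 8 : ℝ) • (a₁ + (a₀ + a₁ - (8 : ℝ) • mul a₀ a₁) - a₀)) := by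
  have f0 : μ₁ a₀ = a₀ :=
    hu₀ _ (pair_map h₀ h₁.1 (fun v => by
      simpa using LinearEquiv.congr_fun hc v))
  have f1 : μ₀ a₁ = a₁ :=
    hu₁ _ (pair_map h₁ h₀.1 (fun v => by
      simpa using (LinearEquiv.congr_fun hc v).symm))
  obtain ⟨v0, k0, v4, k4, hd⟩ := decomp_fixed hV h₀ hn₀ f1
  set γ := B a₀ a₁
  set p := mul a₀ a₁ with hpdef
  have e0 : mul a₀ v0 = 0 := by simpa using mem_eigen.mp k0
  have e4 := mem_eigen.mp k4
  have i0 := h₀.2.2.1.1.2.1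
  have i1 := h₁.2.2.1.1.2.1
  have hp : p = γ • a₀ + (1 / 4 : ℝ) • v4 := by
    rw [hpdef, hd]; simp [e0, e4, i0]
  have hap : mul a₀ p = (3 * γ / 4) • a₀ + (1 / 4 : ℝ) • p := by
    rw [hp]; simp only [map_add, map_smul, e4, i0]; module
  obtain ⟨w0, l0, w4, l4, hd'⟩ := decomp_fixed hV h₁ hn₁ f0
  rw [hV.2.1 a₁ a₀] at hd'
  have d0 : mul a₁ w0 = 0 := by simpa using mem_eigen.mp l0
  have d4 := mem_eigen.mp l4
  have hp' : p = γ • a₁ + (1 / 4 : ℝ) • w4 := by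
    rw [hpdef, hV.1, hd']; simp [d0, d4, i1, γ]
  have hbp : mul a₁ p = (3 * γ / 4) • a₁ + (1 / 4 : ℝ) • p := by
    rw [hp']; simp only [map_add, map_smul, d4, i1]; module
  obtain ⟨hA, hB1⟩ := core hV h₁ hn₁ f0 i0 hap
  obtain ⟨-, hB2⟩ := core hV h₀ hn₀ f1 i1 (by
    rw [hV.1 a₁ a₀, hV.2.1 a₁ a₀]; exact hbp)
  rw [hV.1 a₁ a₀, hV.2.1 a₁ a₀] at hB2
  by_cases hg : γ = 1 / 8
  · right
    rw [hg] at hap hbp
    have hpp : mul p p = (3 / 128 : ℝ) • a₀ + (3 / 128 : ℝ) • a₁ - (1 / 32 : ℝ) • p := hA hg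
    refine ⟨hg, ?_, ?_, ?_⟩
    · simp only [map_add, map_sub, map_smul, LinearMap.add_apply, LinearMap.sub_apply,
        LinearMap.smul_apply, hV.1 p a₀, hV.1 p a₁, hV.1 a₁ a₀, i0, i1, hap, hbp, ← hpdef,
        hpp]
      module
    · simp only [map_add, map_sub, map_smul, i0, hap, ← hpdef]
      module
    · simp only [map_add, map_sub, map_smul, i1, hbp, hV.1 a₁ a₀, ← hpdef]
      module
  · left
    have h : γ • (a₁ - a₀) = 0 := by
      rw [smul_sub, ← hB1 hg, ← hB2 hg, sub_self]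
    have hg0 : γ = 0 := (smul_eq_zero.mp h).resolve_right (sub_ne_zero.mpr (Ne.symm hne))
    exact ⟨hg0, (hB1 hg).trans (show γ • a₁ = 0 by rw [hg0, zero_smul])⟩

end Cfsg.Agent.S5545
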