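import Cfsg.Statements.S5546
import Cfsg.Agent.Eq.Def_Spor_Conway
import Cfsg.Agent.Eq.Def_Sporadic_a

set_option autoImplicit false
open Cfsg

namespace Cfsg.Agent.S5546

noncomputable section

private abbrev L : Type := ↥Cfsg.leechLattice
private abbrev K : Type := ZMod 13
private abbrev V : Type := Cfsg.GolayPt → K

private instance fact13 : Fact (Nat.Prime 13) := ⟨by norm_num⟩

private def red : L →+ V where
  toFun v := fun i => ((v : Cfsg.GolayPt → ℤ) i : K)
  map_zero' := by funext i; simp
  map_add' v w := by funext i; simp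

private theorem single_eight_mem (i : Cfsg.GolayPt) :
    (Pi.single i 8 : Cfsg.GolayPt → ℤ) ∈ Cfsg.leechSet := by
  refine Spor.mem_leechSet_of_const_mod_four _ 0 0 rfl (fun j => ?_) ?_
  · by_cases h : j = i
    · subst h; simp [Int.ModEq]
    · simp [Pi.single_eq_of_ne h]
  · simp [Int.ModEq]

private def e8 (i : Cfsg.GolayPt) : L :=
  ⟨Pi.single i 8, AddSubgroup.subset_closure (single_eight_mem i)⟩

private theorem eight_smul (v : L) :
    (8 : ℤ) • v = ∑ i, (v : Cfsg.GolayPt → ℤ) i • e8 i := by
  apply Subtype.ext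
  funext j
  simp [e8, Finset.sum_apply, Pi.single_apply, mul_comm, -Fintype.sum_option]

private theorem sq_e8 (i : Cfsg.GolayPt) : Cfsg.sqNorm ((e8 i : L) : Cfsg.GolayPt → ℤ) = 64 := by
  simp [e8, Cfsg.sqNorm, Pi.single_apply, ite_pow]

private theorem parity {x : Cfsg.GolayPt → ℤ} (hx : x ∈ Cfsg.leechLattice) :
    ∀ i j, x i ≡ x j [ZMOD 2] := by
  induction hx using AddSubgroup.closure_induction with
  | mem y hy =>
    obtain ⟨m, hm, -⟩ := hy
    exact fun i j => (hm i).trans (hm j).symm
  | zero => exact fun i j => rfl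
  | add a b _ _ ha hb => exact fun i j => (ha i j).add (hb i j)
  | neg a _ ha => exact fun i j => (ha i j).neg

private def act (g : ↥Spor.Co2) : L →+ L :=
  AddMonoidHom.mk' (fun v => (g : Equiv.Perm L) v) g.2.1.1

private theorem act_one (v : L) : act 1 v = v := rfl

private theorem act_mul (g h : ↥Spor.Co2) (v : L) : act (g * h) v = act g (act h v) := rfl

private theorem act_norm (g : ↥Spor.Co2) (v : L) :
    Cfsg.sqNorm ((act g v : L) : Cfsg.GolayPt → ℤ) = Cfsg.sqNorm (v : Cfsg.GolayPt → ℤ) :=
  g.2.1.2 v

private theorem act_u (g : ↥Spor.Co2) : act g Spor.leechU = Spor.leechU := g.2.2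

private theorem act_dot (g : ↥Spor.Co2) (v w : L) :
    Cfsg.dotInt ((act g v : L) : Cfsg.GolayPt → ℤ) (act g w : L)
      = Cfsg.dotInt (v : Cfsg.GolayPt → ℤ) w := by
  have pol : ∀ x y : Cfsg.GolayPt → ℤ,
      Cfsg.sqNorm (x + y) = Cfsg.sqNorm x + 2 * Cfsg.dotInt x y + Cfsg.sqNorm y := by
    intro x y
    simp only [Cfsg.sqNorm, Cfsg.dotInt, Pi.add_apply, Finset.mul_sum, ← Finset.sum_add_distrib]
    exact Finset.sum_congr rfl fun i _ => by ring
  have h := act_norm g (v + w)
  rw [map_add, AddSubgroup.coe_add, AddSubgroup.coe_add, pol, pol, act_norm, act_norm] at h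
  linarith

private theorem eight_ne : (8 : K) ≠ 0 := by decide

private def mat (g : ↥Spor.Co2) : V →ₗ[K] V :=
  (Pi.basisFun K Cfsg.GolayPt).constr K fun i => (8 : K)⁻¹ • red (act g (e8 i))

private theorem red_e8 (i : Cfsg.GolayPt) : red (e8 i) = Pi.single i (8 : K) := by
  funext j
  simp [red, e8, Pi.single_apply, apply_ite (Int.cast : ℤ → K)]

private theorem single_eq (i : Cfsg.GolayPt) :
    (Pi.basisFun K Cfsg.GolayPt) i = (8 : K)⁻¹ • red (e8 i) := by
  rw [red_e8]
  funext j
  simp [Pi.single_apply, inv_mul_cancel₀ eight_ne]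

private theorem ext_red {M : Type*} [AddCommGroup M] [Module K M] {f f' : V →ₗ[K] M}
    (h : ∀ v : L, f (red v) = f' (red v)) : f = f' := by
  apply (Pi.basisFun K Cfsg.GolayPt).ext
  intro i
  rw [single_eq, map_smul, map_smul, h]

private theorem red_zsmul (c : ℤ) (v : L) : red (c • v) = (c : K) • red v := by
  rw [map_zsmul]
  funext j
  simp

private theorem mat_red (g : ↥Spor.Co2) (v : L) : mat g (red v) = red (act g v) := by
  have h0 : ∀ i, mat g (red (e8 i)) = red (act g (e8 i)) := by
    intro i
    have : red (e8 i) = (8 : K) • (Pi.basisFun K Cfsg.GolayPt) i := by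
      rw [single_eq, smul_inv_smul₀ eight_ne]
    rw [this, map_smul, mat, Module.Basis.constr_basis, smul_inv_smul₀ eight_ne]
  have h := congrArg red (congrArg (act g) (eight_smul v))
  rw [map_zsmul, map_sum, red_zsmul, map_sum] at h
  have h' := congrArg (mat g) (congrArg red (eight_smul v))
  rw [red_zsmul, map_sum, map_smul, map_sum] at h'
  simp only [map_zsmul, h0] at h'
  simp only [map_zsmul] at h
  rw [← h] at h'
  exact smul_right_injective V (by simpa using eight_ne) h'

private def phi : V →ₗ[K] K where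
  toFun x := ∑ i, x i * red Spor.leechU i
  map_add' x y := by simp [add_mul, Finset.sum_add_distrib]
  map_smul' c x := by simp [Finset.mul_sum, mul_assoc, -Fintype.sum_option]

private theorem phi_red (v : L) :
    phi (red v) = (Cfsg.dotInt (v : Cfsg.GolayPt → ℤ) Spor.leechU : K) := by
  simp [phi, red, Cfsg.dotInt]

private theorem phi_mat (g : ↥Spor.Co2) (x : V) : phi (mat g x) = phi x := by
  suffices phi.comp (mat g) = phi from LinearMap.congr_fun this x
  apply ext_red
  intro v
  have h := act_dot g v Spor.leechU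
  rw [act_u] at h
  rw [LinearMap.comp_apply, mat_red, phi_red, phi_red, h]

private theorem phi_u : phi (red Spor.leechU) = 6 := by
  rw [phi_red]
  decide

private theorem finrank_W : Module.finrank K (LinearMap.ker phi) = 23 := by
  have h := phi.finrank_range_add_finrank_ker
  have hs : LinearMap.range phi = ⊤ := by
    rw [LinearMap.range_eq_top]
    intro c
    exact ⟨(c / 6) • red Spor.leechU, by
      rw [map_smul, phi_u, smul_eq_mul, div_mul_cancel₀ c (by decide)]⟩
  rw [hs, finrank_top, Module.finrank_self, Module.finrank_fintype_fun_eq_card] at h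
  simp only [Fintype.card_option, ZMod.card] at h
  omega

private def repW : ↥Spor.Co2 →* (LinearMap.ker phi →ₗ[K] LinearMap.ker phi) where
  toFun g := (mat g).restrict fun x (hx : x ∈ LinearMap.ker phi) =>
    show mat g x ∈ LinearMap.ker phi by rw [LinearMap.mem_ker, phi_mat]; exact hx
  map_one' := by
    have : mat 1 = LinearMap.id := ext_red fun v => by rw [mat_red, act_one, LinearMap.id_apply]
    apply LinearMap.ext
    intro x
    apply Subtype.ext
    simp [LinearMap.restrict_apply, this]
  map_mul' g h := by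
    have : mat (g * h) = (mat g).comp (mat h) := ext_red fun v => by
      rw [mat_red, act_mul, LinearMap.comp_apply, mat_red, mat_red]
    apply LinearMap.ext
    intro x
    apply Subtype.ext
    simp [LinearMap.restrict_apply, this]

private theorem mat_fixed (g : ↥Spor.Co2) (h : repW g = 1) (x : V) : mat g x = x := by
  set w := x - (phi x / 6) • red Spor.leechU with hw
  have hwm : w ∈ LinearMap.ker phi := by
    rw [LinearMap.mem_ker, hw, map_sub, map_smul, phi_u, smul_eq_mul,
      div_mul_cancel₀ _ (by decide), sub_self]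
  have h1 : mat g w = w := congrArg Subtype.val (LinearMap.congr_fun h ⟨w, hwm⟩)
  have h2 : mat g (red Spor.leechU) = red Spor.leechU := by rw [mat_red, act_u]
  calc mat g x = mat g (w + (phi x / 6) • red Spor.leechU) := by rw [hw, sub_add_cancel]
    _ = x := by rw [map_add, map_smul, h1, h2, hw, sub_add_cancel]

private theorem act_fixed (g : ↥Spor.Co2) (h : repW g = 1) (v : L) : act g v = v := by
  have hbase : ∀ i, act g (e8 i) = e8 i := by
    intro i
    have hm : red (act g (e8 i) - e8 i) = 0 := by
      rw [map_sub, ← mat_red, mat_fixed g h, sub_self]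
    set d := act g (e8 i) - e8 i with hd
    have hdiv : ∀ j, (13 : ℤ) ∣ (d : Cfsg.GolayPt → ℤ) j := fun j =>
      (ZMod.intCast_zmod_eq_zero_iff_dvd _ 13).mp (congrFun hm j)
    have hbound : ∀ j, (d : Cfsg.GolayPt → ℤ) j ^ 2 ≤
        2 * ((act g (e8 i) : L) : Cfsg.GolayPt → ℤ) j ^ 2
          + 2 * ((e8 i : L) : Cfsg.GolayPt → ℤ) j ^ 2 := by
      intro j
      rw [hd, AddSubgroup.coe_sub, Pi.sub_apply]
      nlinarith [sq_nonneg (((act g (e8 i) : L) : Cfsg.GolayPt → ℤ) j
        + ((e8 i : L) : Cfsg.GolayPt → ℤ) j)]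
    have htot : ∑ j, (d : Cfsg.GolayPt → ℤ) j ^ 2 ≤ 256 := by
      refine (Finset.sum_le_sum fun j _ => hbound j).trans (le_of_eq ?_)
      rw [Finset.sum_add_distrib, ← Finset.mul_sum, ← Finset.mul_sum]
      have e1 := act_norm g (e8 i)
      have e2 := sq_e8 i
      unfold Cfsg.sqNorm at e1 e2
      rw [e1, e2]; norm_num
    have big : ∀ j, (d : Cfsg.GolayPt → ℤ) j ≠ 0 → 169 ≤ (d : Cfsg.GolayPt → ℤ) j ^ 2 := by
      intro j hj
      obtain ⟨k, hk⟩ := hdiv j
      rw [hk] at hj ⊢
      have : k ≠ 0 := fun h0 => hj (by rw [h0, mul_zero])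
      have : 1 ≤ k ^ 2 := Int.add_one_le_iff.mpr (sq_pos_iff.mpr this)
      nlinarith
    have hzero : ∃ j, (d : Cfsg.GolayPt → ℤ) j = 0 := by
      by_contra hne
      push Not at hne
      have := Finset.sum_le_sum (s := Finset.univ) fun j _ => big j (hne j)
      simp only [Finset.sum_const, Finset.card_univ, Fintype.card_option, ZMod.card,
        nsmul_eq_mul] at this
      push_cast at this
      linarith
    obtain ⟨j0, hj0⟩ := hzero
    have hdz : d = 0 := by
      apply Subtype.ext
      funext j
      show (d : Cfsg.GolayPt → ℤ) j = 0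
      by_contra hj
      obtain ⟨k, hk⟩ := hdiv j
      have hle : (d : Cfsg.GolayPt → ℤ) j ^ 2 ≤ 256 :=
        (Finset.single_le_sum (f := fun j => (d : Cfsg.GolayPt → ℤ) j ^ 2)
          (fun _ _ => sq_nonneg _) (Finset.mem_univ j)).trans htot
      have hp := parity d.2 j j0
      rw [hj0, hk] at hp
      rw [hk] at hle hj
      have hk1 : -1 ≤ k := by nlinarith
      have hk2 : k ≤ 1 := by nlinarith
      unfold Int.ModEq at hp
      omega
    exact sub_eq_zero.mp hdz
  have : (8 : ℤ) • act g v = (8 : ℤ) • v := by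
    rw [← map_zsmul, eight_smul, map_sum]
    simp [hbase]
  apply Subtype.ext
  funext j
  have := congrFun (congrArg Subtype.val this) j
  simpa using this

end

/-- The second Conway group (the stabilizer in the Leech lattice automorphism group of the short vector fixed in the definitions) is isomorphic to a subgroup of the general linear group of degree 23 over the field with 13 elements: there is an injective homomorphism into it. -/
theorem result : ∃ f : ↥Cfsg.Spor.Co2 →* GL (Fin 23) (ZMod 13), Function.Injective f := by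
  let b := Module.finBasisOfFinrankEq K (LinearMap.ker phi) finrank_W
  refine ⟨(((LinearMap.toMatrixAlgEquiv b).toMonoidHom).comp repW).toHomUnits, ?_⟩
  rw [injective_iff_map_eq_one]
  intro g hg
  have h1 : repW g = 1 := by
    apply (LinearMap.toMatrixAlgEquiv b).injective
    have h := congrArg Units.val hg
    rw [Units.val_one] at h
    rw [map_one]
    exact h
  apply Subtype.ext
  apply Equiv.ext
  intro v
  exact act_fixed g h1 v

end Cfsg.Agent.S5546
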