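import Cfsg.Statements.S5549
import Cfsg.Agent.Eq.Def_Sporadic_a
import Cfsg.Agent.M24Module.Rigidity

set_option autoImplicit false
open Cfsg

namespace Cfsg.Agent.S5549

open scoped symmDiff Pointwise

/-- Let X be a group of linear automorphisms of the length-24 binary Golay code of the definitions that fix the all-ones word, containing the coordinate-permutation action of every element of the code's automorphism group (the Mathieu group of degree 24), and such that every element of X sends each codeword into its orbit under that Mathieu group up to adding the all-ones word (X has the same orbits as the Mathieu group on the code modulo the all-ones word). Then every element of X agrees, modulo the all-ones word, with the action of a single element of the Mathieu group: X induces exactly the Mathieu group on the code modulo the all-ones word. -/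
theorem result (X : Subgroup (↥Cfsg.golayCode ≃ₗ[ZMod 2] ↥Cfsg.golayCode)) (h1 : ∀ x ∈ X, ∀ e : ↥Cfsg.golayCode, (e : (Cfsg.GolayPt → ZMod 2)) = (fun _ => (1 : ZMod 2)) → x e = e) (hM : ∀ σ ∈ Cfsg.M24, ∃ x ∈ X, ∀ c : ↥Cfsg.golayCode, ((x c : ↥Cfsg.golayCode) : (Cfsg.GolayPt → ZMod 2)) = fun p => (c : (Cfsg.GolayPt → ZMod 2)) (σ.symm p)) (horb : ∀ x ∈ X, ∀ c : ↥Cfsg.golayCode, ∃ σ ∈ Cfsg.M24, ((x c : ↥Cfsg.golayCode) : (Cfsg.GolayPt → ZMod 2)) = (fun p => (c : (Cfsg.GolayPt → ZMod 2)) (σ.symm p)) ∨ ((x c : ↥Cfsg.golayCode) : (Cfsg.GolayPt → ZMod 2)) = (fun p => (c : (Cfsg.GolayPt → ZMod 2)) (σ.symm p)) + fun _ => (1 : ZMod 2)) (x : ↥Cfsg.golayCode ≃ₗ[ZMod 2] ↥Cfsg.golayCode) (hx : x ∈ X) : ∃ σ ∈ Cfsg.M24, ∀ c : ↥Cfsg.golayCode, ((x c : ↥Cfsg.golayCode) : (Cfsg.GolayPt → ZMod 2)) = (fun p => (c : (Cfsg.GolayPt → ZMod 2)) (σ.symm p)) ∨ ((x c : ↥Cfsg.golayCode) : (Cfsg.GolayPt → ZMod 2)) = (fun p => (c : (Cfsg.GolayPt → ZMod 2)) (σ.symm p)) + fun _ => (1 : ZMod 2) := by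
  refine CfsgLib.M24Module.exists_M24 (fun c => ?_) (h1 x hx)
  obtain ⟨σ, -, h | h⟩ := horb x hx c
  · have e : (support₂ ((x c : ↥Cfsg.golayCode) : GolayPt → ZMod 2)).card =
        (support₂ (c : GolayPt → ZMod 2)).card := by
      rw [h]
      exact (congrArg Finset.card (CfsgLib.M24Module.support₂_act σ _)).trans
        (Finset.card_smul_finset _ _)
    rw [e]
  · have e : (support₂ ((x c : ↥Cfsg.golayCode) : GolayPt → ZMod 2)).card =
        24 - (support₂ (c : GolayPt → ZMod 2)).card := by
      rw [h, CfsgLib.Golay.support₂_add, show (fun _ => (1 : ZMod 2)) = (1 : GolayPt → ZMod 2) from rfl,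
        CfsgLib.Golay.support₂_one, ← Finset.top_eq_univ, symmDiff_top, hnot_eq_compl, Finset.card_compl]
      exact congrArg (24 - ·) ((congrArg Finset.card (CfsgLib.M24Module.support₂_act σ _)).trans
        (Finset.card_smul_finset _ _))
    have := Finset.card_le_univ (support₂ (c : GolayPt → ZMod 2))
    have h24 : Fintype.card GolayPt = 24 := rfl
    rw [e]
    omega

end Cfsg.Agent.S5549
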