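import Cfsg.Agent.S5563
import Cfsg.Agent.S5564
import Cfsg.Agent.S5567
import Cfsg.Agent.S5568
import Cfsg.Agent.J4Type13.Main
import Cfsg.Agent.J4Type5.Loc

set_option autoImplicit false
open Cfsg

namespace Cfsg.Agent.S5569

theorem result {G : Type*} [Group G] [Finite G] [IsSimpleGroup G] (hG : ¬ IsMulCommutative G) (z : G) (hJ : Cfsg.IsOfJankoFourTypeAt z) (t : G) (ht : orderOf t = 2) (hnc : ¬ IsConj z t) :
    ∃ V K : Subgroup G, V ≤ Subgroup.centralizer ({t} : Set G) ∧ K ≤ Subgroup.centralizer ({t} : Set G) ∧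
    Subgroup.centralizer ({t} : Set G) ≤ Subgroup.normalizer (V : Set G) ∧ Cfsg.IsElementaryAbelian 2 V ∧ Nat.card ↥V = 2 ^ 11 ∧
    K ⊓ V = ⊥ ∧ K ⊔ V = Subgroup.centralizer ({t} : Set G) ∧ Nonempty (↥K ≃* MulAut ↥Cfsg.Spor.M22) := by
  obtain ⟨P, hP⟩ := hJ
  have hJ' : Cfsg.IsOfJankoFourType G := ⟨z, P, hP⟩
  obtain ⟨c, hcz, -⟩ := CfsgLib.Jf18.exists_ctx hP
  refine CfsgLib.J4Type13.Facts.centralizer (P := P) ?_ ht hnc
  exact {
    hJ := hP
    normP := (Cfsg.Agent.S5563.result hG z P hP).2.2.2.2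
    oneClass := Cfsg.Agent.S5564.result hG hJ'
    normV := fun V hV hc => Cfsg.Agent.S5567.result hG hJ' V hV hc
    orbits := fun V hV hc => Cfsg.Agent.S5568.result hG z ⟨P, hP⟩ V hV hc
    loc := fun V hV hc v hv hzv =>
      c.exists_local (CfsgLib.Jf18.Ctx.sq_of_elementary_amb hV) hc hv (hcz ▸ hzv) }

end Cfsg.Agent.S5569
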