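import Cfsg.Statements.S5573
import Cfsg.Agent.J4Seven39.Glue
import Cfsg.Agent.S5563
import Cfsg.Agent.S5564
import Cfsg.Agent.S5568
import Cfsg.Agent.S5569

set_option autoImplicit false
open Cfsg

namespace Cfsg.Agent.S5573

/-- Let G be a finite non-abelian simple group of Janko-four type (an involution z whose centralizer H has an extraspecial largest normal 2-subgroup E of order 2^13 containing its centralizer in H, a normal subgroup N ≥ E of H with N/E of order 3 and H/N the automorphism group of M₂₂, and a subgroup P ≤ N of order 3 with C_E(P) = ⟨z⟩, N_H(P) ≠ C_H(P) and P ≤ C_H(P)′). Let S ≤ H have order 7. Then S is a Sylow 7-subgroup of G, its centralizer is S × I with I isomorphic to the symmetric group of degree 5, and its normalizer has order three times that of its centralizer, namely 2^3·3^2·5·7. -/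
theorem result {G : Type*} [Group G] [Finite G] [IsSimpleGroup G] (hG : ¬ IsMulCommutative G) (z : G) (hJ : Cfsg.IsOfJankoFourTypeAt z) (S : Subgroup G) (hS : Nat.card ↥S = 7) (hSz : S ≤ Subgroup.centralizer ({z} : Set G)) :
    ¬ (49 ∣ Nat.card G) ∧
    (∃ I : Subgroup G, Cfsg.IsInternalDirectProduct S I (Subgroup.centralizer (S : Set G)) ∧ Nonempty (↥I ≃* Equiv.Perm (Fin 5))) ∧
    Nat.card ↥(Subgroup.normalizer (S : Set G)) = 3 * Nat.card ↥(Subgroup.centralizer (S : Set G)) ∧
    Nat.card ↥(Subgroup.normalizer (S : Set G)) = 2 ^ 3 * 3 ^ 2 * 5 * 7 := by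
  refine CfsgLib.J4Seven39.order_seven_structure hJ hS hSz (fun P hP => ?_) ?_ (fun V hV hc => ?_)
    (fun t ht htn => Cfsg.Agent.S5569.result hG z hJ t ht htn)
  · exact (Cfsg.Agent.S5563.result hG z P hP).2.2.2.2
  · exact Cfsg.Agent.S5564.result hG ⟨z, hJ⟩
  · obtain ⟨-, t, -, htV, ht1, -, htn, -⟩ := Cfsg.Agent.S5568.result hG z hJ V hV hc
    exact ⟨t, htV, ht1, htn⟩

end Cfsg.Agent.S5573
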