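import Cfsg.Statements.S5594
import Cfsg.Agent.Leech.Co2
import Cfsg.Agent.Leech.Order

set_option autoImplicit false
open Cfsg

namespace Cfsg.Agent.S5594

/-- The automorphism group of the Leech lattice contains the negation map, and the subgroup of order 2 it generates has no complement: the automorphism group is a non-split extension of its quotient by that subgroup (it is not the direct product of a group of order 2 with the first Conway group). -/
theorem result :
    ∃ n : ↥Cfsg.Co0, (∀ v : ↥Cfsg.leechLattice, ((n • v : ↥Cfsg.leechLattice) : Cfsg.GolayPt → ℤ) = -(v : Cfsg.GolayPt → ℤ)) ∧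
    ∀ K : Subgroup ↥Cfsg.Co0, ¬ (Subgroup.zpowers n).IsComplement' K := by
  refine ⟨CfsgLib.Leech.negOne, fun v => ?_, fun K hK => ?_⟩
  · rw [CfsgLib.Leech.negOne_smul]; rfl
  · have hsq : CfsgLib.Leech.negOne * CfsgLib.Leech.negOne = 1 := by
      rw [CfsgLib.Leech.negOne, CfsgLib.Leech.signs_mul]
      exact CfsgLib.Leech.co0_ext fun i => Subtype.ext (funext fun k => by
        simp [CfsgLib.Leech.signs_apply, CharTwo.add_self_eq_zero])
    have hne : CfsgLib.Leech.negOne ≠ 1 := fun h =>
      CfsgLib.Leech.negOne_leechU (by rw [h, one_smul])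
    have hw : Cfsg.qrWord 0 + (fun i => Cfsg.qrWord 0 (Cfsg.projInv.symm i)) = 1 := by
      decide +kernel
    haveI : Fact (Nat.Prime 2) := ⟨Nat.prime_two⟩
    have hidx : K.index = 2 := by
      rw [hK.index_eq_card, Nat.card_zpowers]
      exact orderOf_eq_prime (by rw [pow_two, hsq]) hne
    let p : Cfsg.Co0 := CfsgLib.Leech.permHom ⟨Cfsg.projInv, CfsgLib.Leech.projInv_mem_M24⟩
    let s : Cfsg.Co0 := CfsgLib.Leech.signs (Cfsg.qrWord 0) (CfsgLib.Leech.qrWord_mem_code 0)
    have hp : p⁻¹ = p := by
      show (CfsgLib.Leech.permHom ⟨Cfsg.projInv, CfsgLib.Leech.projInv_mem_M24⟩)⁻¹ = _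
      rw [← map_inv]
      exact congrArg CfsgLib.Leech.permHom (Subtype.ext (Equiv.ext fun _ => rfl))
    have ht : (s * p) * (s * p) = CfsgLib.Leech.negOne := by
      calc (s * p) * (s * p) = s * (p * s * p⁻¹) * (p * p) := by group
        _ = s * (p * s * p⁻¹) := by rw [show p * p = 1 from (congrArg (· * p) hp.symm).trans (inv_mul_cancel p), mul_one]
        _ = _ := by
          show CfsgLib.Leech.signs _ _ * (CfsgLib.Leech.permHom _ * CfsgLib.Leech.signs _ _ *
            (CfsgLib.Leech.permHom _)⁻¹) = _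
          rw [CfsgLib.Leech.perm_conj_signs, CfsgLib.Leech.signs_mul]
          exact CfsgLib.Leech.co0_ext fun i => Subtype.ext (funext fun k => by
            simp only [CfsgLib.Leech.negOne, CfsgLib.Leech.signs_apply]
            rw [show (Cfsg.qrWord 0 + (fun i => Cfsg.qrWord 0 (Cfsg.projInv.symm i))) k = 1 from
              congrFun hw k]
            rfl)
    have hmem : CfsgLib.Leech.negOne ∈ K := ht ▸ Subgroup.mul_self_mem_of_index_two hidx _
    exact hne (Subgroup.mem_bot.1 (hK.disjoint.le_bot ⟨Subgroup.mem_zpowers _, hmem⟩))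

end Cfsg.Agent.S5594
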