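import Cfsg.Statements.S5599
import Cfsg.Agent.Golay.SmallPerms

set_option autoImplicit false
open scoped Pointwise
open Cfsg CfsgLib CfsgLib.Golay CfsgLib.GolaySmallPerms
open scoped Pointwise

namespace Cfsg.Agent.S5599

/-- In the automorphism group of the length-24 code, the two-point Mathieu group (permutations of the code's group fixing the extra point and the residue 0) has index 2 in the setwise stabiliser of that pair of points, and an element of the code's group interchanging the two points normalises the two-point group and induces on it, by conjugation, an automorphism that is not inner. -/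
theorem result (g : Equiv.Perm Cfsg.GolayPt) (hg : g ∈ Cfsg.M24) (h₁ : g none = some 0) (h₂ : g (some 0) = none) : Cfsg.Spor.M22.relIndex (Cfsg.M24 ⊓ MulAction.stabilizer (Equiv.Perm Cfsg.GolayPt) ({none, some 0} : Finset Cfsg.GolayPt)) = 2 ∧ (∀ x ∈ Cfsg.Spor.M22, g * x * g⁻¹ ∈ Cfsg.Spor.M22) ∧ ¬ ∃ h ∈ Cfsg.Spor.M22, ∀ x ∈ Cfsg.Spor.M22, g * x * g⁻¹ = h * x * h⁻¹ := by
  classical
  have hM22 : ∀ {x : Equiv.Perm GolayPt},
      x ∈ Spor.M22 ↔ x ∈ M24 ∧ x none = none ∧ x (some 0) = some 0 := by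
    intro x
    simp only [Spor.M22, Spor.M23, Subgroup.mem_inf, MulAction.mem_stabilizer_iff,
      Equiv.Perm.smul_def, and_assoc]
  set P := M24 ⊓ MulAction.stabilizer (Equiv.Perm GolayPt) ({none, some 0} : Finset GolayPt) with hP
  have hcases : ∀ x ∈ P, (x none = none ∧ x (some 0) = some 0) ∨
      (x none = some 0 ∧ x (some 0) = none) := by
    intro x hx
    have hs := MulAction.mem_stabilizer_iff.1 hx.2
    have a := Finset.smul_mem_smul_finset (a := x)
      (show (none : GolayPt) ∈ ({none, some 0} : Finset GolayPt) by simp)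
    have b := Finset.smul_mem_smul_finset (a := x)
      (show (some 0 : GolayPt) ∈ ({none, some 0} : Finset GolayPt) by simp)
    rw [hs] at a b
    simp only [Finset.mem_insert, Finset.mem_singleton, Equiv.Perm.smul_def] at a b
    have hne : x none ≠ x (some 0) := fun h => by simpa using x.injective h
    rcases a with a | a <;> rcases b with b | b
    · exact absurd (a.trans b.symm) hne
    · exact Or.inl ⟨a, b⟩
    · exact Or.inr ⟨a, b⟩
    · exact absurd (a.trans b.symm) hne
  have hle : Spor.M22 ≤ P := by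
    intro x hx
    obtain ⟨h, a, b⟩ := hM22.1 hx
    refine ⟨h, MulAction.mem_stabilizer_iff.2 ?_⟩
    rw [Finset.smul_finset_insert, Finset.smul_finset_singleton, Equiv.Perm.smul_def,
      Equiv.Perm.smul_def, a, b]
  have hgP : g ∈ P := by
    refine ⟨hg, MulAction.mem_stabilizer_iff.2 ?_⟩
    rw [Finset.smul_finset_insert, Finset.smul_finset_singleton, Equiv.Perm.smul_def,
      Equiv.Perm.smul_def, h₁, h₂, Finset.pair_comm]
  have hg' : g⁻¹ none = some 0 ∧ g⁻¹ (some 0) = none := by
    constructor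
    · rw [Equiv.Perm.inv_eq_iff_eq, h₂]
    · rw [Equiv.Perm.inv_eq_iff_eq, h₁]
  have hnorm : ∀ x ∈ Spor.M22, g * x * g⁻¹ ∈ Spor.M22 := by
    intro x hx
    obtain ⟨h, a, b⟩ := hM22.1 hx
    refine hM22.2 ⟨M24.mul_mem (M24.mul_mem hg h) (M24.inv_mem hg), ?_, ?_⟩
    · simp only [Equiv.Perm.mul_apply, hg'.1, b, h₂]
    · simp only [Equiv.Perm.mul_apply, hg'.2, a, h₁]
  refine ⟨?_, hnorm, ?_⟩
  · refine Subgroup.index_eq_two_iff.2 ⟨⟨g, hgP⟩, fun x => ?_⟩
    simp only [Subgroup.mem_subgroupOf, Subgroup.coe_mul]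
    have hxM : (x : Equiv.Perm GolayPt) ∈ M24 := x.2.1
    rcases hcases x x.2 with ⟨a, b⟩ | ⟨a, b⟩
    · refine Or.inr ⟨hM22.2 ⟨hxM, a, b⟩, fun h => ?_⟩
      have h3 := (hM22.1 h).2.1
      rw [Equiv.Perm.mul_apply, h₁, b] at h3
      simp at h3
    · refine Or.inl ⟨hM22.2 ⟨M24.mul_mem hxM hg, ?_, ?_⟩, fun h => ?_⟩
      · rw [Equiv.Perm.mul_apply, h₁, b]
      · rw [Equiv.Perm.mul_apply, h₂, a]
      · have h3 := (hM22.1 h).2.1
        rw [a] at h3
        simp at h3
  rintro ⟨h, hh, heq⟩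
  obtain ⟨hhM, ha, hb⟩ := hM22.1 hh
  set c := h⁻¹ * g with hc
  have hcM : c ∈ M24 := M24.mul_mem (M24.inv_mem hhM) hg
  have hc1 : c none = some 0 := by
    rw [hc, Equiv.Perm.mul_apply, h₁, Equiv.Perm.inv_eq_iff_eq, hb]
  have hc2 : c (some 0) = none := by
    rw [hc, Equiv.Perm.mul_apply, h₂, Equiv.Perm.inv_eq_iff_eq, ha]
  have hcomm : ∀ x ∈ Spor.M22, ∀ p, c (x p) = x (c p) := by
    intro x hx p
    have e : c * x = x * c := by
      calc c * x = h⁻¹ * (g * x * g⁻¹) * g := by rw [hc]; group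
        _ = h⁻¹ * (h * x * h⁻¹) * g := by rw [heq x hx]
        _ = x * c := by rw [hc]; group
    exact congrArg (fun σ : Equiv.Perm GolayPt => σ p) e
  have hA : twoA ∈ Spor.M22 := hM22.2 ⟨twoA_mem, by decide +kernel, by decide +kernel⟩
  have hB : twoB ∈ Spor.M22 := hM22.2 ⟨twoB_mem, by decide +kernel, by decide +kernel⟩
  have hD : dbl ∈ Spor.M22 := hM22.2 ⟨dbl_mem, by decide +kernel, by decide +kernel⟩
  have hU : twoU ∈ Spor.M22 := hM22.2 ⟨twoU_mem, by decide +kernel, by decide +kernel⟩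
  have fixes : ∀ p : GolayPt, twoA p = p → twoB p = p → p = none ∨ p = some 0 ∨ p = some 1 := by
    decide +kernel
  have hone : c (some 1) = some 1 := by
    have e1 := hcomm twoA hA (some 1)
    have e2 := hcomm twoB hB (some 1)
    rw [show twoA (some 1) = some 1 by decide +kernel] at e1
    rw [show twoB (some 1) = some 1 by decide +kernel] at e2
    rcases fixes _ e1.symm e2.symm with e | e | e
    · rw [← hc2] at e; exact absurd (c.injective e) (by decide +kernel)
    · rw [← hc1] at e; exact absurd (c.injective e) (by decide +kernel)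
    · exact e
  have hpow : ∀ (n : ℕ) (q : GolayPt), c q = q → c ((dbl ^ n) q) = (dbl ^ n) q := by
    intro n q hq
    rw [hcomm _ (Spor.M22.pow_mem hD n), hq]
  have hu1 : c (twoU (some 1)) = twoU (some 1) := by rw [hcomm _ hU, hone]
  have cover : ∀ p : GolayPt, p = none ∨ p = some 0 ∨
      (∃ n : Fin 11, p = (dbl ^ (n : ℕ)) (some 1)) ∨
      ∃ n : Fin 11, p = (dbl ^ (n : ℕ)) (twoU (some 1)) := by decide +kernel
  have hc_eq : c = Equiv.swap none (some 0) := by
    refine Equiv.ext fun p => ?_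
    have htwo : ∀ q : GolayPt, q ≠ none → q ≠ some 0 → c q = q := by
      intro q h1 h2
      rcases cover q with e | e | ⟨n, rfl⟩ | ⟨n, rfl⟩
      · exact absurd e h1
      · exact absurd e h2
      · exact hpow _ _ hone
      · exact hpow _ _ hu1
    by_cases h1 : p = none
    · subst h1; rw [hc1, Equiv.swap_apply_left]
    by_cases h2 : p = some 0
    · subst h2; rw [hc2, Equiv.swap_apply_right]
    rw [htwo p h1 h2, Equiv.swap_apply_of_ne_of_ne h1 h2]
  have : (Equiv.swap none (some 0) : Equiv.Perm GolayPt) ∉ M24 := by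
    rw [mem_M24_iff]; decide +kernel
  exact this (hc_eq ▸ hcM)

end Cfsg.Agent.S5599
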