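import Cfsg.Statements.S5601
import Cfsg.Agent.Mathieu.Classes

set_option autoImplicit false
open scoped Pointwise
open Cfsg

namespace Cfsg.Agent.S5601

/-- The group of the length-24 code has exactly two conjugacy classes of subgroups of order 3: a subgroup of order 3 fixes either exactly 6 of the 24 points or none of them, both cases occur, and two subgroups of order 3 with the same number of fixed points are conjugate. -/
theorem result : (∀ X : Subgroup ↥Cfsg.M24, Nat.card X = 3 → {p : Cfsg.GolayPt | ∀ x ∈ X, ((x : ↥Cfsg.M24) : Equiv.Perm Cfsg.GolayPt) p = p}.ncard = 6 ∨ {p : Cfsg.GolayPt | ∀ x ∈ X, ((x : ↥Cfsg.M24) : Equiv.Perm Cfsg.GolayPt) p = p}.ncard = 0) ∧ (∃ X : Subgroup ↥Cfsg.M24, Nat.card X = 3 ∧ {p : Cfsg.GolayPt | ∀ x ∈ X, ((x : ↥Cfsg.M24) : Equiv.Perm Cfsg.GolayPt) p = p}.ncard = 6) ∧ (∃ X : Subgroup ↥Cfsg.M24, Nat.card X = 3 ∧ {p : Cfsg.GolayPt | ∀ x ∈ X,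 ((x : ↥Cfsg.M24) : Equiv.Perm Cfsg.GolayPt) p = p}.ncard = 0) ∧ ∀ X Y : Subgroup ↥Cfsg.M24, Nat.card X = 3 → Nat.card Y = 3 → {p : Cfsg.GolayPt | ∀ x ∈ X, ((x : ↥Cfsg.M24) : Equiv.Perm Cfsg.GolayPt) p = p}.ncard = {p : Cfsg.GolayPt | ∀ x ∈ Y, ((x : ↥Cfsg.M24) : Equiv.Perm Cfsg.GolayPt) p = p}.ncard → ∃ k : ↥Cfsg.M24, MulAut.conj k • X = Y := by
  have key : ∀ X : Subgroup ↥Cfsg.M24, Nat.card X = 3 → ∃ x : ↥Cfsg.M24,
      X = Subgroup.zpowers x ∧ orderOf (x : Equiv.Perm Cfsg.GolayPt) = 3 ∧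
      {p : Cfsg.GolayPt | ∀ y ∈ X, ((y : ↥Cfsg.M24) : Equiv.Perm Cfsg.GolayPt) p = p}.ncard =
        (CfsgLib.Mathieu.fixedPts (x : Equiv.Perm Cfsg.GolayPt)).card := by
    intro X hX
    haveI : Fact (Nat.Prime 3) := ⟨by norm_num⟩
    obtain ⟨x, hx⟩ := exists_prime_orderOf_dvd_card' (G := X) 3 (by rw [hX])
    have hord : orderOf ((x : ↥Cfsg.M24) : Equiv.Perm Cfsg.GolayPt) = 3 := by
      rw [Subgroup.orderOf_coe, Subgroup.orderOf_coe, hx]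
    have heq : X = Subgroup.zpowers (x : ↥Cfsg.M24) := by
      refine (Subgroup.eq_of_le_of_card_ge (Subgroup.zpowers_le.2 x.2) ?_).symm
      rw [Nat.card_zpowers, Subgroup.orderOf_coe, hx, hX]
    refine ⟨x, heq, hord, ?_⟩
    rw [← Set.ncard_coe_finset]
    congr 1
    ext p
    simp only [Set.mem_setOf_eq, Finset.mem_coe, CfsgLib.Mathieu.mem_fixedPts]
    refine ⟨fun h => h _ x.2, fun h y hy => ?_⟩
    rw [heq, Subgroup.mem_zpowers_iff] at hy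
    obtain ⟨k, rfl⟩ := hy
    rw [Subgroup.coe_zpow]
    exact Equiv.Perm.zpow_apply_eq_self_of_apply_eq_self h k
  have mk : ∀ (t : List ℕ) (f : ℕ), CfsgLib.Mathieu.tabInM24 t = true →
      9 ≤ CfsgLib.Mathieu.cntFix (CfsgLib.Mathieu.pk t) 3 → t ≠ CfsgLib.Mathieu.idTab →
      CfsgLib.Mathieu.cntFix (CfsgLib.Mathieu.pk t) 1 = f →
      ∃ X : Subgroup ↥Cfsg.M24, Nat.card X = 3 ∧
        {p : Cfsg.GolayPt | ∀ y ∈ X, ((y : ↥Cfsg.M24) : Equiv.Perm Cfsg.GolayPt) p = p}.ncard = f := by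
    intro t f h1 h2 h3 h4
    obtain ⟨g, hg, hord, hc⟩ := CfsgLib.Mathieu.exists_prime_tab 3 (by norm_num) h1 h2 h3
    have hc3 : Nat.card (Subgroup.zpowers (⟨g, hg⟩ : ↥Cfsg.M24)) = 3 := by
      rw [Nat.card_zpowers, ← Subgroup.orderOf_coe]
      exact hord
    refine ⟨_, hc3, ?_⟩
    rw [← h4, ← hc, ← Set.ncard_coe_finset]
    congr 1
    ext p
    simp only [Set.mem_setOf_eq, Finset.mem_coe, CfsgLib.Mathieu.mem_fixedPts]
    refine ⟨fun h => h _ (Subgroup.mem_zpowers _), fun h y hy => ?_⟩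
    obtain ⟨k, rfl⟩ := Subgroup.mem_zpowers_iff.1 hy
    rw [Subgroup.coe_zpow]
    exact Equiv.Perm.zpow_apply_eq_self_of_apply_eq_self h k
  have hdata := CfsgLib.Mathieu.data_rep
  refine ⟨fun X hX => ?_, ?_, ?_, fun X Y hX hY hXY => ?_⟩
  · obtain ⟨x, -, hord, hc⟩ := key X hX
    rw [hc]
    rcases CfsgLib.Mathieu.exists_conj_three x.2 hord with ⟨h, -⟩ | ⟨h, -⟩
    · exact Or.inr h
    · exact Or.inl h
  · exact mk _ 6 hdata.2.2.2.2.2.2.2 (by decide +kernel) (by decide +kernel) (by decide +kernel)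
  · exact mk _ 0 hdata.2.2.2.2.2.2.1 (by decide +kernel) (by decide +kernel) (by decide +kernel)
  · obtain ⟨x, rfl, hx3, hxc⟩ := key X hX
    obtain ⟨y, rfl, hy3, hyc⟩ := key Y hY
    obtain ⟨k, hk, e⟩ := CfsgLib.Mathieu.isConj_of_three x.2 y.2 hx3 hy3
      (hxc.symm.trans (hXY.trans hyc))
    refine ⟨⟨k, hk⟩, ?_⟩
    have hy : MulAut.conj (⟨k, hk⟩ : ↥Cfsg.M24) x = y := Subtype.ext e
    rw [← hy]
    exact (MonoidHom.map_zpowers (MulAut.conj (⟨k, hk⟩ : ↥Cfsg.M24)).toMonoidHom x)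

end Cfsg.Agent.S5601
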