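import Cfsg.Statements.S5602
import Cfsg.Agent.Eq.Def_SporadicCombinatorics
import Cfsg.Agent.M24Orbits.ClassFix

set_option autoImplicit false
open scoped Pointwise
open Cfsg

open CfsgLib.Golay CfsgLib.Mathieu CfsgLib.M24Orbits CfsgLib.M24Orbits.Data

namespace Cfsg.Agent.S5602

/-- An element of order 3 of the group of the length-24 code having exactly 6 fixed points maps to themselves exactly 21 octads, exactly 15 trios, exactly 16 sextets and exactly 20 dodecads. -/
theorem result (g : Equiv.Perm Cfsg.GolayPt) (hg : g ∈ Cfsg.M24) (h₃ : orderOf g = 3) (h₆ : (Finset.univ.filter fun p => g p = p).card = 6) : {o : Finset Cfsg.GolayPt | o ∈ Cfsg.octads ∧ g • o = o}.ncard = 21 ∧ {T : Finset (Finset Cfsg.GolayPt) | T ∈ Cfsg.trios ∧ g • T = T}.ncard = 15 ∧ {S : Finset (Finset Cfsg.GolayPt) | S ∈ Cfsg.sextets ∧ g • S = S}.ncard = 16 ∧ {d : Finset Cfsg.GolayPt | d ∈ Cfsg.dodecads ∧ g • d = d}.ncard = 20 := by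
  have hn : g ^ 3 = 1 := h₃ ▸ pow_orderOf_eq_one g
  have hne : g ≠ 1 := fun e => by rw [e, orderOf_one] at h₃; norm_num at h₃
  obtain ⟨ρ, hρ, hr, c, hc, rfl⟩ := classify_fixing (by norm_num) fix3_ok hg hn hne h₆
  refine ⟨?_, ?_, ?_, ?_⟩
  · rw [ncard_fixed_conj (octads_translate hc) ρ, ncard_fixed octOct_setup encM_injective ρ, hr]
    decide +kernel
  · rw [ncard_fixed_conj (trios_translate hc) ρ, ncard_fixed octTrio_setup encF_injective ρ, hr]
    decide +kernel
  · rw [ncard_fixed_conj (sextets_translate hc) ρ, ncard_fixed octSext_setup encF_injective ρ, hr]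
    decide +kernel
  · rw [ncard_fixed_conj (dodecads_translate hc) ρ, ncard_fixed dodDod_setup encM_injective ρ, hr]
    decide +kernel

end Cfsg.Agent.S5602
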