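import Cfsg.Statements.S5605
import Cfsg.Agent.Eq.Def_SporadicCombinatorics
import Cfsg.Agent.M24Orbits.ClassFix

set_option autoImplicit false
open scoped Pointwise
open Cfsg

open CfsgLib.Golay CfsgLib.Mathieu CfsgLib.M24Orbits CfsgLib.M24Orbits.Data

namespace Cfsg.Agent.S5605

/-- An involution of the group of the length-24 code with exactly 8 fixed points maps to themselves exactly 71 octads, exactly 99 trios and exactly 91 sextets. -/
theorem result (g : Equiv.Perm Cfsg.GolayPt) (hg : g ∈ Cfsg.M24) (h₂ : orderOf g = 2) (h₈ : (Finset.univ.filter fun p => g p = p).card = 8) : {o : Finset Cfsg.GolayPt | o ∈ Cfsg.octads ∧ g • o = o}.ncard = 71 ∧ {T : Finset (Finset Cfsg.GolayPt) | T ∈ Cfsg.trios ∧ g • T = T}.ncard = 99 ∧ {S : Finset (Finset Cfsg.GolayPt) | S ∈ Cfsg.sextets ∧ g • S = S}.ncard = 91 := by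
  have hn : g ^ 2 = 1 := h₂ ▸ pow_orderOf_eq_one g
  have hne : g ≠ 1 := fun e => by rw [e, orderOf_one] at h₂; norm_num at h₂
  obtain ⟨ρ, hρ, hr, c, hc, rfl⟩ := classify_fixing (by norm_num) fix2_ok hg hn hne h₈
  refine ⟨?_, ?_, ?_⟩
  · rw [ncard_fixed_conj (octads_translate hc) ρ, ncard_fixed octOct_setup encM_injective ρ, hr]
    decide +kernel
  · rw [ncard_fixed_conj (trios_translate hc) ρ, ncard_fixed octTrio_setup encF_injective ρ, hr]
    decide +kernel
  · rw [ncard_fixed_conj (sextets_translate hc) ρ, ncard_fixed octSext_setup encF_injective ρ, hr]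
    decide +kernel

end Cfsg.Agent.S5605
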