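import Cfsg.Statements.S5606
import Cfsg.Agent.Eq.Def_SporadicCombinatorics
import Cfsg.Agent.M24Orbits.ClassFix

set_option autoImplicit false
open scoped Pointwise
open Cfsg

open CfsgLib.Golay CfsgLib.Mathieu CfsgLib.M24Orbits CfsgLib.M24Orbits.Data

namespace Cfsg.Agent.S5606

/-- A fixed-point-free involution of the group of the length-24 code maps to themselves exactly 15 octads, exactly 75 trios and exactly 51 sextets. -/
theorem result (g : Equiv.Perm Cfsg.GolayPt) (hg : g ∈ Cfsg.M24) (h₂ : orderOf g = 2) (h₀ : ∀ p, g p ≠ p) : {o : Finset Cfsg.GolayPt | o ∈ Cfsg.octads ∧ g • o = o}.ncard = 15 ∧ {T : Finset (Finset Cfsg.GolayPt) | T ∈ Cfsg.trios ∧ g • T = T}.ncard = 75 ∧ {S : Finset (Finset Cfsg.GolayPt) | S ∈ Cfsg.sextets ∧ g • S = S}.ncard = 51 := by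
  obtain ⟨ρ, hρ, hr, c, hc, rfl⟩ := classify_free2 hg h₂ h₀
  refine ⟨?_, ?_, ?_⟩
  · rw [ncard_fixed_conj (octads_translate hc) ρ, ncard_fixed octOct_setup encM_injective ρ, hr]
    decide +kernel
  · rw [ncard_fixed_conj (trios_translate hc) ρ, ncard_fixed octTrio_setup encF_injective ρ, hr]
    decide +kernel
  · rw [ncard_fixed_conj (sextets_translate hc) ρ, ncard_fixed octSext_setup encF_injective ρ, hr]
    decide +kernel

end Cfsg.Agent.S5606
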