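import Cfsg.Statements.S5607
import Cfsg.Agent.Mathieu.Classes

set_option autoImplicit false
open scoped Pointwise
open Cfsg

namespace Cfsg.Agent.S5607

/-- For a fixed-point-free involution t of the group of the length-24 code: its centraliser in that group has order 7680, is transitive on the 24 points, and is contained, together with t, in the stabiliser of some sextet. -/
theorem result (t : Equiv.Perm Cfsg.GolayPt) (ht : t ∈ Cfsg.M24) (h₂ : orderOf t = 2) (h₀ : ∀ p, t p ≠ p) : Nat.card {c : Equiv.Perm Cfsg.GolayPt // c ∈ Cfsg.M24 ∧ c * t = t * c} = 7680 ∧ (∀ p q : Cfsg.GolayPt, ∃ c ∈ Cfsg.M24, c * t = t * c ∧ c p = q) ∧ ∃ S ∈ Cfsg.sextets, t • S = S ∧ ∀ c ∈ Cfsg.M24, c * t = t * c → c • S = S := by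
  obtain ⟨h1, h2, h3⟩ := CfsgLib.Mathieu.centFree ht h₂ h₀
  refine ⟨?_, fun p q => ?_, ?_⟩
  · rw [← h1]
    exact Nat.card_congr (Equiv.subtypeEquivRight fun c => CfsgLib.Mathieu.mem_centM24.symm)
  · obtain ⟨c, hc, e⟩ := h2 p q
    obtain ⟨hc1, hc2⟩ := CfsgLib.Mathieu.mem_centM24.1 hc
    exact ⟨c, hc1, hc2, e⟩
  · obtain ⟨S, hS, hS1, hS2⟩ := h3
    exact ⟨S, hS, hS1, fun c hc hct => hS2 c (CfsgLib.Mathieu.mem_centM24.2 ⟨hc, hct⟩)⟩

end Cfsg.Agent.S5607
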