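import Cfsg.Statements.S5609
import Cfsg.Agent.Eq.Def_SporadicCombinatorics
import Cfsg.Agent.M24Orbits.ClassFix

set_option autoImplicit false
open scoped Pointwise
open Cfsg

open CfsgLib.Golay CfsgLib.Mathieu CfsgLib.M24Orbits CfsgLib.M24Orbits.Data

namespace Cfsg.Agent.S5609

theorem reduce {o o' : Finset GolayPt} (ho : o ∈ octads) (ho' : o' ∈ octads) {m : ℕ}
    (hm : ofMask m ∈ octads) (h : (o ∩ o').card = (O₀ ∩ ofMask m).card) :
    ∃ k ∈ M24, k • O₀ = o ∧ k • ofMask m = o' := by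
  obtain ⟨k, hk, e⟩ := exists_map_octad' ho
  obtain ⟨g, hg, hgo⟩ := transitive_of_eq (fun s : Finset GolayPt => (O₀ ∩ s).card) octOct_setup
    (fun g hg x _ => inter_invariant (smul_eq_self hg) x) octOct_sep hm
    (smul_mem_octads (M24.inv_mem hk) ho') (by rw [inter_inv_translate e]; exact h.symm)
  exact ⟨k * g, M24.mul_mem hk hg.1, by rw [mul_smul, smul_eq_self hg, e],
    by rw [mul_smul, hgo, smul_inv_smul]⟩

theorem exists_between {o o' : Finset GolayPt} (ho : o ∈ octads) (ho' : o' ∈ octads)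
    (h : (o ∩ o').card = 4) : ∃ z ∈ octads, Disjoint o z ∧ Disjoint z o' := by
  obtain ⟨k, hk, rfl, rfl⟩ := reduce ho ho' (m := 10558)
    (ofMask_mem_octads (by decide +kernel) (by decide +kernel))
    (by rw [h, card_inter_ofMask]; decide +kernel)
  refine ⟨k • ofMask 8077824, smul_mem_octads hk
    (ofMask_mem_octads (by decide +kernel) (by decide +kernel)), ?_, ?_⟩ <;>
  · rw [Finset.disjoint_iff_inter_eq_empty, ← Finset.smul_finset_inter,
      Finset.smul_finset_eq_empty, ← Finset.card_eq_zero, card_inter_ofMask]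
    decide +kernel

theorem step_two {o o' : Finset GolayPt} (ho : o ∈ octads) (ho' : o' ∈ octads)
    (h : (o ∩ o').card = 2) : ∃ z ∈ octads, Disjoint o z ∧ (z ∩ o').card = 4 := by
  obtain ⟨k, hk, rfl, rfl⟩ := reduce ho ho' (m := 31554)
    (ofMask_mem_octads (by decide +kernel) (by decide +kernel))
    (by rw [h, card_inter_ofMask]; decide +kernel)
  refine ⟨k • ofMask 1009728, smul_mem_octads hk
    (ofMask_mem_octads (by decide +kernel) (by decide +kernel)), ?_, ?_⟩
  · rw [Finset.disjoint_iff_inter_eq_empty, ← Finset.smul_finset_inter,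
      Finset.smul_finset_eq_empty, ← Finset.card_eq_zero, card_inter_ofMask]
    decide +kernel
  · rw [smul_inter', card_inter_ofMask]; decide +kernel

theorem no_between {o o' : Finset GolayPt} (ho : o ∈ octads) (ho' : o' ∈ octads)
    (h : (o ∩ o').card = 2) : ¬ ∃ z ∈ octads, Disjoint o z ∧ Disjoint z o' := by
  obtain ⟨k, hk, rfl, rfl⟩ := reduce ho ho' (m := 31554)
    (ofMask_mem_octads (by decide +kernel) (by decide +kernel))
    (by rw [h, card_inter_ofMask]; decide +kernel)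
  rintro ⟨z, hz, h1, h2⟩
  have h0 : {x | x ∈ octads ∧ ((O₀ ∩ x).card = 0 ∧ (ofMask 31554 ∩ x).card = 0)}.ncard = 0 := by
    rw [ncard_enc octOct_setup encM_injective _
      (fun e => pop (5279 &&& e.headI) == 0 && pop (31554 &&& e.headI) == 0) fun x _ => by
        rw [Bool.and_eq_true, beq_iff_eq, beq_iff_eq, encM, List.headI_cons,
          ← card_inter_ofMask, ← card_inter_ofMask, ofMask_toMask]]
    decide +kernel
  rw [Set.ncard_eq_zero (Set.toFinite _), Set.eq_empty_iff_forall_notMem] at h0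
  refine h0 (k⁻¹ • z) ⟨smul_mem_octads (M24.inv_mem hk) hz, ?_, ?_⟩
  · rw [← smul_inter' k O₀, smul_inv_smul, Finset.card_eq_zero,
      ← Finset.disjoint_iff_inter_eq_empty]
    exact h1
  · rw [← smul_inter' k (ofMask 31554), smul_inv_smul, Finset.card_eq_zero,
      ← Finset.disjoint_iff_inter_eq_empty]
    exact h2.symm

theorem adj_iff {b c : ↥(octads : Set (Finset GolayPt))} :
    (blockGraph octads).Adj b c ↔ b ≠ c ∧ ((b : Finset GolayPt) ∩ c).card = 0 := by
  rw [blockGraph, SimpleGraph.fromRel_adj, Finset.card_eq_zero,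
    ← Finset.disjoint_iff_inter_eq_empty]
  exact and_congr_right fun _ => ⟨fun h => h.elim id fun h' => h'.symm, Or.inl⟩

theorem adj_of_disjoint {a b : Finset GolayPt} (ha : a ∈ octads) (hb : b ∈ octads)
    (h : Disjoint a b) : (blockGraph octads).Adj ⟨a, ha⟩ ⟨b, hb⟩ := by
  refine adj_iff.2 ⟨fun e => ?_, by
    rw [Finset.card_eq_zero, ← Finset.disjoint_iff_inter_eq_empty]; exact h⟩
  have hab : a = b := congrArg Subtype.val e
  subst hab
  rw [disjoint_self] at h
  have := ha.2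
  rw [h] at this
  simp at this

theorem walk_bound {a b : Finset GolayPt} (ha : a ∈ octads) (hb : b ∈ octads) :
    ∃ w : (blockGraph octads).Walk ⟨a, ha⟩ ⟨b, hb⟩,
      ((a ∩ b).card = 0 → w.length = 1) ∧ ((a ∩ b).card = 4 → w.length = 2) ∧
      ((a ∩ b).card = 2 → w.length = 3) := by
  by_cases hne : a = b
  · subst hne
    refine ⟨SimpleGraph.Walk.nil, ?_, ?_, ?_⟩ <;>
    · intro h; rw [Finset.inter_self, ha.2] at h; omega
  rcases octad_inter ha hb hne with h | h | h
  · refine ⟨(adj_of_disjoint ha hb (by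
      rw [Finset.disjoint_iff_inter_eq_empty, ← Finset.card_eq_zero]; exact h)).toWalk,
      fun _ => rfl, fun h' => ?_, fun h' => ?_⟩ <;> omega
  · obtain ⟨z, hz, hd, h4⟩ := step_two ha hb h
    obtain ⟨y, hy, hd1, hd2⟩ := exists_between hz hb h4
    refine ⟨SimpleGraph.Walk.cons (adj_of_disjoint ha hz hd)
      (SimpleGraph.Walk.cons (adj_of_disjoint hz hy hd1) (adj_of_disjoint hy hb hd2).toWalk),
      fun h' => ?_, fun h' => ?_, fun _ => rfl⟩ <;> omega
  · obtain ⟨z, hz, hd1, hd2⟩ := exists_between ha hb h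
    refine ⟨SimpleGraph.Walk.cons (adj_of_disjoint ha hz hd1) (adj_of_disjoint hz hb hd2).toWalk,
      fun h' => ?_, fun _ => rfl, fun h' => ?_⟩ <;> omega


/-- In the graph on the 759 octads of the length-24 code in which two octads are adjacent when they are disjoint, the graph is connected (of diameter 3) and two distinct octads are at distance 1, 2 or 3 exactly when they meet in 0, 4 or 2 points respectively. -/
theorem result (o o' : Finset Cfsg.GolayPt) (ho : o ∈ Cfsg.octads) (ho' : o' ∈ Cfsg.octads) (hne : o ≠ o') : (Cfsg.blockGraph Cfsg.octads).Connected ∧ ((Cfsg.blockGraph Cfsg.octads).dist ⟨o, ho⟩ ⟨o', ho'⟩ = 1 ↔ (o ∩ o').card = 0) ∧ ((Cfsg.blockGraph Cfsg.octads).dist ⟨o, ho⟩ ⟨o', ho'⟩ = 2 ↔ (o ∩ o').card = 4) ∧ ((Cfsg.blockGraph Cfsg.octads).dist ⟨o, ho⟩ ⟨o', ho'⟩ = 3 ↔ (o ∩ o').card = 2) := by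
  have hconn : (blockGraph octads).Connected := by
    haveI : Nonempty ↥(octads : Set (Finset GolayPt)) := ⟨⟨o, ho⟩⟩
    exact ⟨fun a b => (walk_bound a.2 b.2).choose.reachable⟩
  obtain ⟨w, w0, w4, w2⟩ := walk_bound ho ho'
  have hle := SimpleGraph.dist_le w
  have hne' : (⟨o, ho⟩ : ↥(octads : Set (Finset GolayPt))) ≠ ⟨o', ho'⟩ :=
    fun e => hne (congrArg Subtype.val e)
  have hpos := hconn.pos_dist_of_ne hne'
  have hnot1 : (blockGraph octads).dist ⟨o, ho⟩ ⟨o', ho'⟩ = 1 → (o ∩ o').card = 0 :=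
    fun h => (adj_iff.1 (SimpleGraph.dist_eq_one_iff_adj.1 h)).2
  have hnot2 : (blockGraph octads).dist ⟨o, ho⟩ ⟨o', ho'⟩ = 2 → (o ∩ o').card ≠ 2 := by
    intro h h'
    obtain ⟨p, hp⟩ := hconn.exists_walk_length_eq_dist ⟨o, ho⟩ ⟨o', ho'⟩
    rw [h] at hp
    match p, hp with
    | SimpleGraph.Walk.cons (v := z) h1 (SimpleGraph.Walk.cons h2 SimpleGraph.Walk.nil), _ =>
      refine no_between ho ho' h' ⟨z.1, z.2, ?_, ?_⟩
      · rw [Finset.disjoint_iff_inter_eq_empty, ← Finset.card_eq_zero]; exact (adj_iff.1 h1).2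
      · rw [Finset.disjoint_iff_inter_eq_empty, ← Finset.card_eq_zero]; exact (adj_iff.1 h2).2
  refine ⟨hconn, ?_⟩
  rcases octad_inter ho ho' hne with h | h | h
  · have := w0 h
    refine ⟨⟨fun _ => h, fun _ => by omega⟩, ⟨fun h' => by omega, fun h' => by omega⟩,
      ⟨fun h' => by omega, fun h' => by omega⟩⟩
  · have := w2 h
    have e1 : (blockGraph octads).dist ⟨o, ho⟩ ⟨o', ho'⟩ ≠ 1 := fun h' => by
      have := hnot1 h'; omega
    have e2 : (blockGraph octads).dist ⟨o, ho⟩ ⟨o', ho'⟩ ≠ 2 := fun h' => hnot2 h' h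
    refine ⟨⟨fun h' => by omega, fun h' => by omega⟩, ⟨fun h' => by omega, fun h' => by omega⟩,
      ⟨fun _ => h, fun _ => by omega⟩⟩
  · have := w4 h
    have e1 : (blockGraph octads).dist ⟨o, ho⟩ ⟨o', ho'⟩ ≠ 1 := fun h' => by
      have := hnot1 h'; omega
    refine ⟨⟨fun h' => by omega, fun h' => by omega⟩, ⟨fun _ => h, fun _ => by omega⟩,
      ⟨fun h' => by omega, fun h' => by omega⟩⟩

end Cfsg.Agent.S5609
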