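import Cfsg.Statements.S5613
import Cfsg.Agent.Eq.Def_SporadicCombinatorics
import Cfsg.Agent.M24Orbits.OrbitSplit

set_option autoImplicit false
open scoped Pointwise
open Cfsg

open CfsgLib.Golay CfsgLib.Mathieu CfsgLib.M24Orbits CfsgLib.M24Orbits.Data

namespace Cfsg.Agent.S5613

theorem card_stab_octad (o : Finset GolayPt) (ho : o ∈ octads) :
    Nat.card (MulAction.stabilizer M24 o) = 322560 := by
  have e : MulAction.orbit M24 o = octads := by
    ext y
    exact ⟨fun ⟨g, e⟩ => e ▸ smul_mem_octads g.2 ho,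
      fun hy => let ⟨g, hg, e⟩ := exists_map_octad ho hy; ⟨⟨g, hg⟩, e⟩⟩
  have h := (MulAction.stabilizer M24 o).card_mul_index
  rw [MulAction.index_stabilizer, e, ncard_octads, card_M24] at h
  omega

theorem orbit_mul (o o' : Finset GolayPt) :
    (MulAction.orbit ↥(MulAction.stabilizer M24 o) o').ncard *
        Nat.card ↥(MulAction.stabilizer M24 o ⊓ MulAction.stabilizer M24 o') =
      Nat.card (MulAction.stabilizer M24 o) := by
  have e : Nat.card (MulAction.stabilizer (↥(MulAction.stabilizer M24 o)) o') =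
      Nat.card ↥(MulAction.stabilizer M24 o ⊓ MulAction.stabilizer M24 o') :=
    Nat.card_congr
      { toFun := fun g => ⟨g.1.1, g.1.2, g.2⟩
        invFun := fun g => ⟨⟨g.1, g.2.1⟩, g.2.2⟩
        left_inv := fun _ => rfl
        right_inv := fun _ => rfl }
  rw [← MulAction.index_stabilizer, ← e, mul_comm, Subgroup.card_mul_index]

theorem sizes_arith (i : ℕ) (hi : i < 4) (n : ℕ) (h : [1, 30, 280, 448].getD i 0 * n = 322560) :
    ([8, 0, 4, 2].getD i 0 = 0 → n = 10752) ∧ ([8, 0, 4, 2].getD i 0 = 4 → n = 1152) ∧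
      ([8, 0, 4, 2].getD i 0 = 2 → n = 720) := by
  interval_cases i <;> simp at h ⊢ <;> omega


/-- In the group of the length-24 code, the joint stabiliser of two octads has order 10752, 1152 or 720 according as the octads meet in 0, 4 or 2 points. -/
theorem result (o o' : Finset Cfsg.GolayPt) (ho : o ∈ Cfsg.octads) (ho' : o' ∈ Cfsg.octads) : ((o ∩ o').card = 0 → Nat.card ↥(MulAction.stabilizer Cfsg.M24 o ⊓ MulAction.stabilizer Cfsg.M24 o') = 10752) ∧ ((o ∩ o').card = 4 → Nat.card ↥(MulAction.stabilizer Cfsg.M24 o ⊓ MulAction.stabilizer Cfsg.M24 o') = 1152) ∧ ((o ∩ o').card = 2 → Nat.card ↥(MulAction.stabilizer Cfsg.M24 o ⊓ MulAction.stabilizer Cfsg.M24 o') = 720) := by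
  obtain ⟨k, hk, rfl⟩ := exists_map_octad' ho
  have hv : ∀ g ∈ stabM O₀, ∀ x ∈ octads, (O₀ ∩ g • x).card = (O₀ ∩ x).card :=
    fun g hg x _ => inter_invariant (smul_eq_self hg) x
  obtain ⟨hd, hcov⟩ := orbit_data _ octOct_setup hv octOct_sep
    (fun _ hg _ hx => smul_mem_octads hg hx) hk
  obtain ⟨i, hi, hm⟩ := hcov o' ho'
  have hmul := orbit_mul (k • O₀) o'
  rw [card_stab_octad _ ho, MulAction.orbit_eq_iff.2 hm, (hd i hi).2.2] at hmul
  rw [orbit_stabilizer_eq] at hm
  obtain ⟨g, hg, rfl⟩ := hm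
  have hi' : i < 4 := lt_of_lt_of_eq hi (by decide +kernel)
  have hcard : (k • O₀ ∩ g • k • (octOctReps.map mOf)[i]).card = [8, 0, 4, 2].getD i 0 := by
    rw [inter_invariant (smul_eq_self hg), smul_inter']
    interval_cases i
    · show (O₀ ∩ ofMask 5279).card = 8
      rw [card_inter_ofMask]; decide +kernel
    · show (O₀ ∩ ofMask 1009728).card = 0
      rw [card_inter_ofMask]; decide +kernel
    · show (O₀ ∩ ofMask 10558).card = 4
      rw [card_inter_ofMask]; decide +kernel
    · show (O₀ ∩ ofMask 31554).card = 2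
      rw [card_inter_ofMask]; decide +kernel
  rw [certCount_of_map octOct_count hi'] at hmul
  obtain ⟨f1, f2, f3⟩ := sizes_arith i hi' _ hmul
  exact ⟨fun h => f1 (hcard.symm.trans h), fun h => f2 (hcard.symm.trans h),
    fun h => f3 (hcard.symm.trans h)⟩

end Cfsg.Agent.S5613
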