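import Cfsg.Statements.S5614
import Cfsg.Agent.Eq.Def_SporadicCombinatorics
import Cfsg.Agent.M24Orbits.ClassFix
import Cfsg.Agent.S5613

set_option autoImplicit false
open scoped Pointwise
open Cfsg

open CfsgLib.Golay CfsgLib.Mathieu CfsgLib.M24Orbits CfsgLib.M24Orbits.Data

namespace Cfsg.Agent.S5614

/-- The action on the points of the first set outside the second. -/
def onDiff (o o' : Finset GolayPt) :
    ↥(MulAction.stabilizer M24 o ⊓ MulAction.stabilizer M24 o') →*
      Equiv.Perm ↥(o \ o') where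
  toFun g := (g.1.1 : Equiv.Perm GolayPt).subtypePerm fun p => by
    have h1 : (g.1.1 : Equiv.Perm GolayPt) • o = o := g.2.1
    have h2 : (g.1.1 : Equiv.Perm GolayPt) • o' = o' := g.2.2
    have e' : (g.1.1 : Equiv.Perm GolayPt) • (o \ o') = o \ o' := by
      rw [Finset.smul_finset_sdiff, h1, h2]
    conv_lhs => rw [← e', ← Equiv.Perm.smul_def, Finset.smul_mem_smul_finset_iff]
  map_one' := rfl
  map_mul' _ _ := rfl

theorem onDiff_injective_base :
    Function.Injective (onDiff O₀ (ofMask 337856)) := by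
  rw [injective_iff_map_eq_one]
  intro g hg
  set σ := (g.1.1 : Equiv.Perm GolayPt) with hσ
  have hfix : ∀ i ∈ [0, 1, 2, 3, 4, 12], σ (i2p i) = i2p i := by
    intro i hi
    have hm : i2p i ∈ O₀ \ ofMask 337856 := by
      revert i; decide +kernel
    have h := congrArg (fun e : Equiv.Perm ↥(O₀ \ ofMask 337856) =>
      ((e ⟨i2p i, hm⟩ : ↥(O₀ \ ofMask 337856)) : GolayPt)) hg
    exact h
  have h16 : toTab σ ∈ octFix16 := toTab_mem_octFix16 (mem_base7Fix.2 ⟨g.1.2, hfix⟩)
  have hall : ∀ t ∈ octFix16, actMask t 337856 = 337856 → t = idTab := by decide +kernel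
  have hone : σ = 1 := by
    refine toTab_injective ((hall _ h16 ?_).trans toTab_one.symm)
    have h2 : σ • ofMask 337856 = ofMask 337856 := g.2.2
    have := congrArg toMask h2
    rwa [toMask_smul, toMask_ofMask (by norm_num)] at this
  exact Subtype.ext (Subtype.ext hone)


/-- In the group of the length-24 code, the joint stabiliser of two octads meeting in exactly two points is isomorphic to the symmetric group of degree 6. -/
theorem result (o o' : Finset Cfsg.GolayPt) (ho : o ∈ Cfsg.octads) (ho' : o' ∈ Cfsg.octads) (h₂ : (o ∩ o').card = 2) : Nonempty (↥(MulAction.stabilizer Cfsg.M24 o ⊓ MulAction.stabilizer Cfsg.M24 o') ≃* Equiv.Perm (Fin 6)) := by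
  obtain ⟨k, hk, e⟩ := exists_map_octad' ho
  obtain ⟨g, hg, hgo⟩ := transitive_of_eq (fun s : Finset GolayPt => (O₀ ∩ s).card) octOct_setup
    (fun g hg x _ => inter_invariant (smul_eq_self hg) x) octOct_sep
    (x := ofMask 337856) (ofMask_mem_octads (by decide +kernel) (by decide +kernel))
    (smul_mem_octads (M24.inv_mem hk) ho')
    (by rw [inter_inv_translate e, h₂, card_inter_ofMask]; decide +kernel)
  have hkg : k * g ∈ M24 := M24.mul_mem hk hg.1
  have eo : (k * g) • O₀ = o := by rw [mul_smul, smul_eq_self hg, e]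
  have eo' : (k * g) • ofMask 337856 = o' := by rw [mul_smul, hgo, smul_inv_smul]
  subst eo eo'
  have hinj : Function.Injective (onDiff ((k * g) • O₀) ((k * g) • ofMask 337856)) := by
    rw [injective_iff_map_eq_one]
    intro x hx
    have hmem : (⟨k * g, hkg⟩ : M24)⁻¹ * x.1 * ⟨k * g, hkg⟩ ∈
        MulAction.stabilizer M24 O₀ ⊓ MulAction.stabilizer M24 (ofMask 337856) := by
      refine ⟨MulAction.mem_stabilizer_iff.2 ?_, MulAction.mem_stabilizer_iff.2 ?_⟩
      · rw [mul_smul, mul_smul, inv_smul_eq_iff]; exact x.2.1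
      · rw [mul_smul, mul_smul, inv_smul_eq_iff]; exact x.2.2
    have h0 := @onDiff_injective_base ⟨_, hmem⟩ 1 (by
      rw [map_one]
      ext p : 2
      have hp : (k * g) (p : GolayPt) ∈ (k * g) • O₀ \ (k * g) • ofMask 337856 := by
        rw [← Finset.smul_finset_sdiff, ← Equiv.Perm.smul_def, Finset.smul_mem_smul_finset_iff]
        exact p.2
      have h := congrArg (fun f : Equiv.Perm ↥((k * g) • O₀ \ (k * g) • ofMask 337856) =>
        ((f ⟨_, hp⟩ : ↥((k * g) • O₀ \ (k * g) • ofMask 337856)) : GolayPt)) hx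
      show (k * g)⁻¹ ((x.1 : Equiv.Perm GolayPt) ((k * g) p)) = p
      rw [show (x.1 : Equiv.Perm GolayPt) ((k * g) p) = (k * g) p from h,
        ← Equiv.Perm.mul_apply, inv_mul_cancel, Equiv.Perm.one_apply])
    have h1 : (⟨k * g, hkg⟩ : M24)⁻¹ * x.1 * ⟨k * g, hkg⟩ = 1 := congrArg Subtype.val h0
    apply Subtype.ext
    calc x.1 = (⟨k * g, hkg⟩ : M24) * ((⟨k * g, hkg⟩ : M24)⁻¹ * x.1 * ⟨k * g, hkg⟩) *
          (⟨k * g, hkg⟩ : M24)⁻¹ := by group
      _ = 1 := by rw [h1]; group
  have hcard : Fintype.card ↥((k * g) • O₀ \ (k * g) • ofMask 337856) = 6 := by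
    rw [Fintype.card_coe, ← Finset.smul_finset_sdiff, Finset.card_smul_finset]
    decide +kernel
  have hbij : Function.Bijective (onDiff ((k * g) • O₀) ((k * g) • ofMask 337856)) := by
    rw [Nat.bijective_iff_injective_and_card]
    refine ⟨hinj, ?_⟩
    rw [(Cfsg.Agent.S5613.result _ _ ho ho').2.2 h₂, Nat.card_perm, Nat.card_eq_fintype_card,
      hcard]
    rfl
  exact ⟨(MulEquiv.ofBijective _ hbij).trans (Fintype.equivFinOfCardEq hcard).permCongrHom⟩

end Cfsg.Agent.S5614
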