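import Cfsg.Statements.S5615
import Cfsg.Agent.Eq.Def_SporadicCombinatorics
import Cfsg.Agent.M24Orbits.OrbitSplit

set_option autoImplicit false
open scoped Pointwise
open Cfsg

open CfsgLib.Golay CfsgLib.Mathieu CfsgLib.M24Orbits CfsgLib.M24Orbits.Data

namespace Cfsg.Agent.S5615

/-- The points outside the standard octad. -/
def outPts : List ℕ := [5, 6, 8, 9, 11, 13, 14, 15, 16, 17, 18, 19, 20, 21, 22, 23]

/-- The trios through the standard octad. -/
def thru : List (List ℕ) :=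
  [[5279, 1256224, 15515712], [5279, 1852256, 14919680], [5279, 2220640, 14551296],
   [5279, 3050016, 13721920], [5279, 5621792, 11150144], [5279, 5939296, 10832640],
   [5279, 6750560, 10021376], [5279, 6842656, 9929280], [5279, 8077824, 8694112],
   [5279, 7612992, 9158944], [5279, 4819776, 11952160], [5279, 4645632, 12126304],
   [5279, 4038912, 12733024], [5279, 3328320, 13443616], [5279, 1009728, 15762208]]

/-- The members containing the point `5`. -/
def thruPart : List ℕ := thru.map fun ms => (ms.filter fun m => m.testBit 5).headI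

theorem rep_through : ∀ j : Fin octTrioReps.length, 5279 ∈ octTrioReps[j.1] → j.1 = 0 := by
  decide +kernel

theorem exists_stab_trio {T : Finset (Finset GolayPt)} (hT : T ∈ trios) (ho : O₀ ∈ T) :
    ∃ g ∈ stabM O₀, g • T₀ = T := by
  have hmem : ∀ (i : ℕ) (hi : i < (octTrioReps.map famOf).length),
      O₀ ∈ (octTrioReps.map famOf)[i] → i = 0 := by
    intro i hi h
    have hi' : i < octTrioReps.length := by simpa using hi
    rw [List.getElem_map, mem_famOf_O₀ (List.all_eq_true.1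
      (show octTrioReps.all masksOK = true by decide +kernel) _ (List.getElem_mem hi'))] at h
    exact rep_through ⟨i, hi'⟩ h
  have key : ∀ U ∈ trios, O₀ ∈ U → ∃ g ∈ stabM O₀,
      g • (octTrioReps.map famOf)[0]'(by decide +kernel) = U := by
    intro U hU hoU
    obtain ⟨i, hi, g, hg, e⟩ := exists_rep octTrio_setup hU
    have h0 := hmem i hi (by
      rw [← e, ← smul_eq_self hg, Finset.smul_mem_smul_finset_iff] at hoU
      exact hoU)
    subst h0
    exact ⟨g, hg, e⟩
  obtain ⟨a, ha, ea⟩ := key T₀ T₀_mem (by simp [famOf])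
  obtain ⟨b, hb, eb⟩ := key T hT ho
  exact ⟨b * a⁻¹, (stabM O₀).mul_mem hb ((stabM O₀).inv_mem ha),
    by rw [← ea, mul_smul, inv_smul_smul, eb]⟩

theorem exists_stab_two {T : Finset (Finset GolayPt)} (hT : T ∈ trios) (ho : O₀ ∈ T) (hne : T ≠ T₀)
    {U : Finset (Finset GolayPt)} (hU : U ∈ trios) (hoU : O₀ ∈ U) (hneU : U ≠ T₀) :
    ∃ g ∈ stabM O₀ ⊓ MulAction.stabilizer _ T₀, g • T = U := by
  have key : ∀ V ∈ trios, O₀ ∈ V → V ≠ T₀ →
      ∃ g ∈ stabM O₀ ⊓ MulAction.stabilizer _ T₀,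
        g • (octTrioInReps.map famOf)[1]'(by decide +kernel) = V := by
    intro V hV hoV hneV
    obtain ⟨i, hi, g, hg, e⟩ := exists_rep octTrioIn_setup (y := V) ⟨hV, hoV⟩
    have hi' : i < 2 := lt_of_lt_of_eq hi (by decide +kernel)
    interval_cases i
    · exact absurd (e.symm.trans hg.2) hneV
    · exact ⟨g, hg, e⟩
  obtain ⟨a, ha, ea⟩ := key T hT ho hne
  obtain ⟨b, hb, eb⟩ := key U hU hoU hneU
  exact ⟨b * a⁻¹, Subgroup.mul_mem _ hb (Subgroup.inv_mem _ ha),
    by rw [← ea, mul_smul, inv_smul_smul, eb]⟩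

theorem fix_six {g : Equiv.Perm GolayPt} (hg : g ∈ M24) (h : ∀ p ∈ O₀, g p = p) :
    toTab g ∈ octFix16 := by
  refine toTab_mem_octFix16 (mem_base7Fix.2 ⟨hg, fun b hb => h _ ?_⟩)
  have hall : ∀ b ∈ base7.take 6, b < 24 ∧ (5279 : ℕ).testBit b = true := by decide +kernel
  rw [mem_ofMask_iff, p2i_i2p b (hall b hb).1]
  exact (hall b hb).2

theorem trans_fix_rep {g : Equiv.Perm GolayPt} (hg : g ∈ M24) (h : ∀ p ∈ O₀, g p = p)
    (ms : List ℕ) (hms : ms ∈ octTrioInReps) : g • famOf ms = famOf ms := by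
  have hm : ∀ ms ∈ octTrioInReps, masksOK ms = true := by decide +kernel
  have hall : ∀ t ∈ octFix16, ∀ ms ∈ octTrioInReps, actF t ms = ms := by decide +kernel
  apply encF_injective
  rw [encF_smul, encF_famOf (hm ms hms)]
  exact hall _ (fix_six hg h) ms hms

theorem kernel_base {g : Equiv.Perm GolayPt} (hg : g ∈ M24) (hfix : g • O₀ = O₀) :
    (∀ T ∈ trios, O₀ ∈ T → g • T = T) ↔ ∀ p ∈ O₀, g p = p := by
  constructor
  · intro h
    have hout : (p2i (g (i2p 5))) ∈ outPts := by
      have hnot : ¬ g (i2p 5) ∈ O₀ := by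
        rw [← Equiv.Perm.smul_def, ← hfix, Finset.smul_mem_smul_finset_iff]
        decide +kernel
      have hall : ∀ i < 24, (5279 : ℕ).testBit i = true ∨ i ∈ outPts := by decide +kernel
      refine (hall _ (p2i_lt _)).resolve_left fun e => hnot ?_
      rwa [mem_ofMask_iff]
    have hcov : ∀ y ∈ outPts, ∃ t ∈ octFix16, app t 5 = y := by decide +kernel
    obtain ⟨t, ht, hty⟩ := hcov _ hout
    obtain ⟨τ, hτ, hτt⟩ := rep_octFix16 ht
    subst hτt
    obtain ⟨hτM, hτF⟩ := mem_base7Fix.1 hτ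
    have hτO : ∀ p ∈ O₀, τ p = p := by
      have hall : ∀ t ∈ octFix16, ∀ i < 24, (5279 : ℕ).testBit i = true → app t i = i := by
        decide +kernel
      intro p hp
      have e := hall _ ht (p2i p) (p2i_lt p) (mem_ofMask_iff.1 hp)
      rw [app_toTab' τ p] at e
      exact p2i_injective e
    have hτfix : τ • O₀ = O₀ := by
      refine Finset.eq_of_subset_of_card_le (fun p hp => ?_) (by rw [Finset.card_smul_finset])
      obtain ⟨q, hq, rfl⟩ := Finset.mem_smul_finset.1 hp
      rw [Equiv.Perm.smul_def, hτO q hq]; exact hq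
    have hyM : τ⁻¹ * g ∈ M24 := M24.mul_mem (M24.inv_mem hτM) hg
    have h5 : (τ⁻¹ * g) (i2p 5) = i2p 5 := by
      rw [app_toTab τ 5 (by norm_num)] at hty
      rw [Equiv.Perm.mul_apply, ← p2i_injective hty, ← Equiv.Perm.mul_apply, inv_mul_cancel, Equiv.Perm.one_apply]
    have hh : ∀ T ∈ trios, O₀ ∈ T → (τ⁻¹ * g) • T = T := by
      intro T hT hoT
      obtain ⟨i, hi, u, hu, e⟩ := exists_rep octTrioIn_setup (y := T) ⟨hT, hoT⟩
      have hi' : i < octTrioInReps.length := by simpa using hi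
      have hc : ∀ p ∈ O₀, (u⁻¹ * τ * u) p = p := by
        intro p hp
        have hup : u p ∈ O₀ := by
          rw [← Equiv.Perm.smul_def, ← smul_eq_self hu.1, Finset.smul_mem_smul_finset_iff]
          exact hp
        rw [Equiv.Perm.mul_apply, Equiv.Perm.mul_apply, hτO _ hup, ← Equiv.Perm.mul_apply, inv_mul_cancel, Equiv.Perm.one_apply]
      have hr := trans_fix_rep (M24.mul_mem (M24.mul_mem (M24.inv_mem hu.1.1) hτM) hu.1.1) hc
        _ (List.getElem_mem hi')
      have hτT : τ • T = T := by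
        rw [← e, List.getElem_map]
        rw [mul_smul, mul_smul, inv_smul_eq_iff] at hr
        exact hr
      rw [mul_smul, h T hT hoT, inv_smul_eq_iff, hτT]
    -- each part through the point 5 is fixed
    have hpart : ∀ m ∈ thruPart, (τ⁻¹ * g) • ofMask m = ofMask m := by
      intro m hm
      obtain ⟨ms, hms, rfl⟩ := List.mem_map.1 hm
      have hok : ∀ ms ∈ thru, trioOK ms = true ∧ 5279 ∈ ms ∧
          (ms.filter fun m => m.testBit 5).headI ∈ ms ∧
          (ms.filter fun m => m.testBit 5).headI.testBit 5 = true ∧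
          ∀ x ∈ ms, x.testBit 5 = true → x = (ms.filter fun m => m.testBit 5).headI := by
        decide +kernel
      obtain ⟨k1, k2, k3, k4, k5⟩ := hok ms hms
      have hmk : masksOK ms = true := by
        simp only [trioOK, Bool.and_eq_true] at k1
        exact k1.1.1.1
      have hT := hh _ (famOf_mem_trios k1) ((mem_famOf_O₀ hmk).2 k2)
      set m := (ms.filter fun m => m.testBit 5).headI
      have hm' : (τ⁻¹ * g) • ofMask m ∈ famOf ms := by
        rw [← hT]
        exact Finset.smul_mem_smul_finset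
          (by simp only [famOf, List.mem_toFinset, List.mem_map]; exact ⟨m, k3, rfl⟩)
      simp only [famOf, List.mem_toFinset, List.mem_map] at hm'
      obtain ⟨x, hx, ex⟩ := hm'
      have h5x : x.testBit 5 = true := by
        have : i2p 5 ∈ ofMask x := by
          have h4 := Finset.smul_mem_smul_finset (a := τ⁻¹ * g)
            (show i2p 5 ∈ ofMask m by rw [mem_ofMask_iff, p2i_i2p 5 (by norm_num)]; exact k4)
          rw [Equiv.Perm.smul_def, h5] at h4
          rwa [ex]
        rwa [mem_ofMask_iff, p2i_i2p 5 (by norm_num)] at this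
      rw [← ex, k5 x hx h5x]
    have hO : (τ⁻¹ * g) • ofMask 5279 = ofMask 5279 := by
      rw [mul_smul, hfix, inv_smul_eq_iff, hτfix]
    have h16 : ∀ q ∈ outPts, (τ⁻¹ * g) (i2p q) = i2p q :=
      fixes_of_sep (F := [5]) (S := 5279 :: thruPart)
        (fun i hi => by rw [List.mem_singleton] at hi; subst hi; exact h5)
        (fun m hm => (List.mem_cons.1 hm).elim (fun e => e ▸ hO) (hpart m))
        (by decide +kernel)
    have h8 : ∀ q ∈ [0, 1, 2, 3, 4, 7, 10, 12], (τ⁻¹ * g) (i2p q) = i2p q :=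
      fixes_of_sep (F := outPts) (S := [31554, 52005, 84464, 157028, 168928]) h16
        (fun m hm => smul_octad_of_fixes hyM h16 (List.all_eq_true.1
          (by decide +kernel : [31554, 52005, 84464, 157028, 168928].all (octOK outPts) = true)
            m hm))
        (by decide +kernel)
    have hone : τ⁻¹ * g = 1 :=
      eq_one_of_fixes_all (F := outPts ++ [0, 1, 2, 3, 4, 7, 10, 12])
        (fun i hi => (List.mem_append.1 hi).elim (h16 i) (h8 i)) (by decide +kernel)
    rw [inv_mul_eq_one] at hone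
    exact hone ▸ hτO
  · intro h T hT hoT
    obtain ⟨i, hi, u, hu, e⟩ := exists_rep octTrioIn_setup (y := T) ⟨hT, hoT⟩
    have hi' : i < octTrioInReps.length := by simpa using hi
    have hc : ∀ p ∈ O₀, (u⁻¹ * g * u) p = p := by
      intro p hp
      have hup : u p ∈ O₀ := by
        rw [← Equiv.Perm.smul_def, ← smul_eq_self hu.1, Finset.smul_mem_smul_finset_iff]
        exact hp
      rw [Equiv.Perm.mul_apply, Equiv.Perm.mul_apply, h _ hup, ← Equiv.Perm.mul_apply, inv_mul_cancel, Equiv.Perm.one_apply]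
    have hr := trans_fix_rep (M24.mul_mem (M24.mul_mem (M24.inv_mem hu.1.1) hg) hu.1.1) hc
      _ (List.getElem_mem hi')
    rw [← e, List.getElem_map]
    rw [mul_smul, mul_smul, inv_smul_eq_iff] at hr
    exact hr


/-- An octad of the length-24 code lies in exactly 15 trios; the stabiliser of the octad in the code's group acts doubly transitively on these 15 trios, and the kernel of this action is the pointwise stabiliser of the octad. -/
theorem result (o : Finset Cfsg.GolayPt) (ho : o ∈ Cfsg.octads) : {T : Finset (Finset Cfsg.GolayPt) | T ∈ Cfsg.trios ∧ o ∈ T}.ncard = 15 ∧ (∀ T₁ T₂ T₁' T₂' : Finset (Finset Cfsg.GolayPt), T₁ ∈ Cfsg.trios → T₂ ∈ Cfsg.trios → T₁' ∈ Cfsg.trios → T₂' ∈ Cfsg.trios → o ∈ T₁ → o ∈ T₂ → o ∈ T₁' → o ∈ T₂' → T₁ ≠ T₂ → T₁' ≠ T₂' → ∃ g ∈ Cfsg.M24, g • o = o ∧ g • T₁ = T₁' ∧ g • T₂ = T₂') ∧ ∀ g ∈ Cfsg.M24, g • o = o → ((∀ T ∈ Cfsg.trios, o ∈ T → g • T = T) ↔ ∀ p ∈ o, g p = p) := by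
  obtain ⟨k, hk, rfl⟩ := exists_map_octad' ho
  have htr : ∀ T, k⁻¹ • T ∈ trios ↔ T ∈ trios := fun T =>
    ⟨fun h => by simpa using smul_mem_trios hk h, smul_mem_trios (M24.inv_mem hk)⟩
  have hmem : ∀ T : Finset (Finset GolayPt), O₀ ∈ k⁻¹ • T ↔ k • O₀ ∈ T := fun T =>
    Finset.mem_inv_smul_finset_iff
  refine ⟨?_, fun T₁ T₂ T₁' T₂' h1 h2 h1' h2' o1 o2 o1' o2' hne hne' => ?_, fun g hg hgo => ?_⟩
  · rw [ncard_translate k (Q := fun T => T ∈ trios ∧ O₀ ∈ T) (fun T => by
      rw [Finset.smul_mem_smul_finset_iff, ← htr (k • T), inv_smul_smul])]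
    exact ncard_trios_through_O₀
  · obtain ⟨a, ha, ea⟩ := exists_stab_trio ((htr _).2 h1) ((hmem _).2 o1)
    obtain ⟨b, hb, eb⟩ := exists_stab_trio ((htr _).2 h1') ((hmem _).2 o1')
    have mema : ∀ T, T ∈ trios → k • O₀ ∈ T → a⁻¹ • k⁻¹ • T ∈ trios ∧ O₀ ∈ a⁻¹ • k⁻¹ • T :=
      fun T hT hoT => ⟨smul_mem_trios (M24.inv_mem ha.1) ((htr _).2 hT), by
        rw [Finset.mem_inv_smul_finset_iff, smul_eq_self ha]; exact (hmem _).2 hoT⟩
    have memb : ∀ T, T ∈ trios → k • O₀ ∈ T → b⁻¹ • k⁻¹ • T ∈ trios ∧ O₀ ∈ b⁻¹ • k⁻¹ • T :=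
      fun T hT hoT => ⟨smul_mem_trios (M24.inv_mem hb.1) ((htr _).2 hT), by
        rw [Finset.mem_inv_smul_finset_iff, smul_eq_self hb]; exact (hmem _).2 hoT⟩
    obtain ⟨c, hc, ec⟩ := exists_stab_two (mema T₂ h2 o2).1 (mema T₂ h2 o2).2
      (fun e => hne (by
        rw [inv_smul_eq_iff, ea] at e
        exact (MulAction.injective k⁻¹ e).symm))
      (memb T₂' h2' o2').1 (memb T₂' h2' o2').2
      (fun e => hne' (by
        rw [inv_smul_eq_iff, eb] at e
        exact (MulAction.injective k⁻¹ e).symm))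
    refine ⟨k * (b * c * a⁻¹) * k⁻¹, conj_mem hk (M24.mul_mem (M24.mul_mem hb.1 hc.1.1)
      (M24.inv_mem ha.1)), conj_fixes ?_, ?_, ?_⟩
    · rw [mul_smul, mul_smul, inv_smul_eq_iff.2 (smul_eq_self ha).symm, smul_eq_self hc.1,
        smul_eq_self hb]
    · simp only [mul_smul]
      rw [inv_smul_eq_iff.2 ea.symm, show c • T₀ = T₀ from hc.2, eb, smul_inv_smul]
    · simp only [mul_smul]
      rw [ec, smul_inv_smul, smul_inv_smul]
  · have hg' : k⁻¹ * g * k ∈ M24 := M24.mul_mem (M24.mul_mem (M24.inv_mem hk) hg) hk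
    have hfix : (k⁻¹ * g * k) • O₀ = O₀ := by rw [mul_smul, mul_smul, hgo, inv_smul_smul]
    refine ⟨fun h p hp => ?_, fun h T hT hoT => ?_⟩
    · have h' := (kernel_base hg' hfix).1 (fun T hT hoT => by
        rw [mul_smul, mul_smul, h _ (smul_mem_trios hk hT) (Finset.smul_mem_smul_finset hoT),
          inv_smul_smul]) (k⁻¹ • p) (Finset.inv_smul_mem_iff.2 hp)
      rw [← Equiv.Perm.smul_def, mul_smul, mul_smul, smul_inv_smul,
        smul_left_cancel_iff] at h'
      exact h'
    · have h' := (kernel_base hg' hfix).2 (fun p hp => by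
        rw [← Equiv.Perm.smul_def, mul_smul, mul_smul, Equiv.Perm.smul_def g,
          h _ (Finset.smul_mem_smul_finset hp), inv_smul_smul]) _ ((htr _).2 hT) ((hmem _).2 hoT)
      rw [mul_smul, mul_smul, smul_inv_smul, smul_left_cancel_iff] at h'
      exact h'

end Cfsg.Agent.S5615
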