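import Cfsg.Statements.S5616
import Cfsg.Agent.Eq.Def_SporadicCombinatorics
import Cfsg.Agent.M24Orbits.Transitive

set_option autoImplicit false
open scoped Pointwise
open Cfsg

open CfsgLib.Golay CfsgLib.Mathieu CfsgLib.M24Orbits CfsgLib.M24Orbits.Data

namespace Cfsg.Agent.S5616

theorem triSext_meet (i : ℕ) (hi : i < (triSextReps.map famOf).length) :
    meetCount (ofMask 7) (triSextReps.map famOf)[i] =
      (triSextReps.getD i []).countP (fun m => pop (m &&& 7) != 0) := by
  have hi' : i < triSextReps.length := by simpa using hi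
  rw [List.getElem_map, List.getD_eq_getElem?_getD, List.getElem?_eq_getElem hi', Option.getD_some]
  exact meetCount_famOf (List.all_eq_true.1
    (show triSextReps.all masksOK = true by decide +kernel) _ (List.getElem_mem hi'))


/-- Let Y be a set of 3 of the 24 points. The sextets of the length-24 code whose tetrads meeting Y number 1, 2 or 3 are respectively 21, 630 and 1120 in number, and two sextets with the same number of tetrads meeting Y are conjugate under the setwise stabiliser of Y in the code's group. -/
theorem result (Y : Finset Cfsg.GolayPt) (hY : Y.card = 3) : {S : Finset (Finset Cfsg.GolayPt) | S ∈ Cfsg.sextets ∧ (S.filter fun t => (t ∩ Y).Nonempty).card = 1}.ncard = 21 ∧ {S : Finset (Finset Cfsg.GolayPt) | S ∈ Cfsg.sextets ∧ (S.filter fun t => (t ∩ Y).Nonempty).card = 2}.ncard = 630 ∧ {S : Finset (Finset Cfsg.GolayPt) | S ∈ Cfsg.sextets ∧ (S.filter fun t => (t ∩ Y).Nonempty).card = 3}.ncard = 1120 ∧ ∀ S S' : Finset (Finset Cfsg.GolayPt), S ∈ Cfsg.sextets → S' ∈ Cfsg.sextets → (S.filter fun t => (t ∩ Y).Nonempty).card = (S'.filter fun t =>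 (t ∩ Y).Nonempty).card → ∃ g ∈ Cfsg.M24, g • Y = Y ∧ g • S = S' := by
  obtain ⟨k, hk, e⟩ := exists_map_triple hY
  have hinv : ∀ g ∈ stabM (ofMask 7), ∀ S ∈ sextets,
      meetCount (ofMask 7) (g • S) = meetCount (ofMask 7) S := by
    intro g hg S _
    conv_lhs => rw [← smul_eq_self hg, meetCount_smul]
  have hsext : ∀ S, k • S ∈ sextets ↔ S ∈ sextets := fun S =>
    ⟨fun h => by simpa using smul_mem_sextets (M24.inv_mem hk) h, smul_mem_sextets hk⟩
  have hcount : ∀ j, {S : Finset (Finset GolayPt) | S ∈ sextets ∧
      (S.filter fun t => (t ∩ Y).Nonempty).card = j}.ncard =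
      triSextCert.flatten.countP
        (fun c => (triSextReps.getD (eRep c) []).countP (fun m => pop (m &&& 7) != 0) == j) := by
    intro j
    rw [ncard_translate k (Q := fun S => S ∈ sextets ∧ meetCount (ofMask 7) S = j)
      (fun S => by
        rw [hsext S, ← e, ← meetCount_smul (g := k) (ofMask 7) S]
        exact Iff.rfl)]
    exact ncard_of_invariant triSext_setup (fun S => meetCount (ofMask 7) S = j)
      (fun g hg S hS => by rw [hinv g hg S hS])
      (fun i => (triSextReps.getD i []).countP (fun m => pop (m &&& 7) != 0) == j)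
      (fun i hi => by rw [beq_iff_eq, triSext_meet i hi])
  refine ⟨(hcount 1).trans (by decide +kernel), (hcount 2).trans (by decide +kernel),
    (hcount 3).trans (by decide +kernel), fun S S' hS hS' h => ?_⟩
  obtain ⟨g, hg, hgo⟩ := exists_map_level (meetCount (ofMask 7)) triSext_setup hinv
    (by
      have hval : (triSextReps.map famOf).map (meetCount (ofMask 7)) =
          triSextReps.map (fun e => e.countP (fun m => pop (m &&& 7) != 0)) := by
        refine List.ext_getElem (by simp) fun i h1 h2 => ?_
        have hi : i < (triSextReps.map famOf).length := by simpa using h1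
        have hi' : i < triSextReps.length := by simpa using hi
        rw [List.getElem_map, triSext_meet i hi, List.getD_eq_getElem?_getD,
          List.getElem?_eq_getElem hi', Option.getD_some, List.getElem_map]
      rw [hval]; decide +kernel) k
    (x := S) (y := S') ((hsext _).1 (by rw [smul_inv_smul]; exact hS))
    ((hsext _).1 (by rw [smul_inv_smul]; exact hS'))
    (by
      rw [← meetCount_smul (g := k) (ofMask 7) (k⁻¹ • S),
        ← meetCount_smul (g := k) (ofMask 7) (k⁻¹ • S'), smul_inv_smul, smul_inv_smul, e]
      exact h)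
  exact ⟨k * g * k⁻¹, conj_mem hk hg.1, e ▸ conj_fixes (smul_eq_self hg), hgo⟩

end Cfsg.Agent.S5616
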