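import Cfsg.Statements.S5620
import Cfsg.Agent.Golay.SmallPerms

set_option autoImplicit false
open scoped Pointwise
open Cfsg CfsgLib CfsgLib.Golay CfsgLib.GolaySmallPerms
open scoped Pointwise

namespace Cfsg.Agent.S5620

/-- Inside the stabiliser of the dodecad of squares (a Mathieu group of degree 12), the stabiliser of the residue 0 (a point of the dodecad) and the stabiliser of the extra point (a point outside the dodecad) are isomorphic but not conjugate; conjugation by a suitable element of the code's group that maps the dodecad of squares onto its complement carries the first onto the second. -/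
theorem result : Nonempty (↥(Cfsg.Spor.M12 ⊓ MulAction.stabilizer (Equiv.Perm Cfsg.GolayPt) (none : Cfsg.GolayPt)) ≃* ↥Cfsg.Spor.M11) ∧ (¬ ∃ k ∈ Cfsg.Spor.M12, MulAut.conj k • Cfsg.Spor.M11 = Cfsg.Spor.M12 ⊓ MulAction.stabilizer (Equiv.Perm Cfsg.GolayPt) (none : Cfsg.GolayPt)) ∧ ∃ g ∈ Cfsg.M24, g • Cfsg.Spor.squareDodecad = Finset.univ \ Cfsg.Spor.squareDodecad ∧ MulAut.conj g • Cfsg.Spor.M11 = Cfsg.Spor.M12 ⊓ MulAction.stabilizer (Equiv.Perm Cfsg.GolayPt) (none : Cfsg.GolayPt) := by
  classical
  have hswap : projInv • Spor.squareDodecad = Finset.univ \ Spor.squareDodecad := by decide +kernel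
  have hinv : projInv * projInv = 1 := Equiv.ext (by decide +kernel)
  have hinv' : projInv⁻¹ = projInv := inv_eq_of_mul_eq_one_left hinv
  have hz : projInv (some 0) = (none : GolayPt) := by decide +kernel
  have hback : projInv • (Finset.univ \ Spor.squareDodecad) = Spor.squareDodecad := by
    rw [← hswap, smul_smul, hinv, one_smul]
  have hstab : ∀ {g : Equiv.Perm GolayPt}, g • (Finset.univ \ Spor.squareDodecad) =
      Finset.univ \ (g • Spor.squareDodecad) := by
    intro g; rw [Finset.smul_finset_sdiff, Finset.smul_finset_univ]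
  have hconj : MulAut.conj projInv • Spor.M11 =
      Spor.M12 ⊓ MulAction.stabilizer (Equiv.Perm GolayPt) (none : GolayPt) := by
    ext g
    rw [Subgroup.mem_pointwise_smul_iff_inv_smul_mem]
    have e : (MulAut.conj projInv)⁻¹ • g = projInv * g * projInv := by
      rw [← map_inv]
      simp [MulAut.smul_def, hinv']
    have h1 : projInv * g * projInv ∈ M24 ↔ g ∈ M24 := by
      rw [Subgroup.mul_mem_cancel_right _ projInv_mem, Subgroup.mul_mem_cancel_left _ projInv_mem]
    have h2 : (projInv * g * projInv) • Spor.squareDodecad = Spor.squareDodecad ↔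
        g • Spor.squareDodecad = Spor.squareDodecad := by
      rw [mul_smul, mul_smul, hswap, hstab]
      constructor
      · intro h
        have h' := congrArg (fun s => Finset.univ \ (projInv • s)) h
        simp only [smul_smul, hinv, one_smul, hswap] at h'
        rwa [sdiff_sdiff_eq_self (Finset.subset_univ _), sdiff_sdiff_eq_self (Finset.subset_univ _)] at h'
      · intro h; rw [h, hback]
    have h3 : (projInv * g * projInv) • (some 0 : GolayPt) = some 0 ↔ g • (none : GolayPt) = none := by
      simp only [Equiv.Perm.smul_def, Equiv.Perm.mul_apply, hz]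
      rw [← projInv.injective.eq_iff (a := g none) (b := none)]
      have hn : projInv none = (some 0 : GolayPt) := by decide +kernel
      rw [hn]
    rw [e]
    exact and_congr (and_congr h1 h2) h3
  refine ⟨⟨?_⟩, ?_, projInv, projInv_mem, hswap, hconj⟩
  · exact ((Subgroup.equivSMul (MulAut.conj projInv) Spor.M11).trans (MulEquiv.subgroupCongr hconj)).symm
  rintro ⟨k, hk, hk'⟩
  have hfix : ∀ h ∈ Spor.M12, h (none : GolayPt) = none → h (k (some 0)) = k (some 0) := by
    intro h hh hn
    have hmem : h ∈ MulAut.conj k • Spor.M11 := hk' ▸ ⟨hh, hn⟩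
    rw [Subgroup.mem_pointwise_smul_iff_inv_smul_mem, ← map_inv] at hmem
    have h2 : k⁻¹ (h (k (some 0))) = some 0 := by
      simpa [MulAut.smul_def] using hmem.2
    calc h (k (some 0)) = k (k⁻¹ (h (k (some 0)))) := by simp
      _ = k (some 0) := by rw [h2]
  have hd : k (some 0) ∈ Spor.squareDodecad := by
    have h0 : (some 0 : GolayPt) ∈ Spor.squareDodecad := by decide +kernel
    have h1 := Finset.smul_mem_smul_finset (a := k) h0
    rwa [show k • Spor.squareDodecad = Spor.squareDodecad from hk.2] at h1
  have h1 := hfix dbl ⟨dbl_mem, MulAction.mem_stabilizer_iff.2 (by decide +kernel)⟩ (by decide +kernel)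
  have h2 := hfix twelveElt ⟨twelveElt_mem, MulAction.mem_stabilizer_iff.2 (by decide +kernel)⟩
    (by decide +kernel)
  have key : ∀ p ∈ Spor.squareDodecad, dbl p = p → twelveElt p = p → False := by decide +kernel
  exact key _ hd h1 h2

end Cfsg.Agent.S5620
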