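import Cfsg.Statements.S5621
import Cfsg.Agent.Designs.SelfDual24

set_option autoImplicit false
open Cfsg CfsgLib CfsgLib.SelfDual24
open scoped symmDiff

namespace Cfsg.Agent.S5621

/-- Let C be a self-dual binary code of length 24 with minimum weight at least 8 (a 12-dimensional subspace of the 24-dimensional space over the field with two elements, any two of whose words have dot product zero, with no non-zero word of weight below 8 — an abstract extended binary Golay code). Then C is doubly even: every word of C has weight divisible by 4. -/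
theorem result (C : Submodule (ZMod 2) (Fin 24 → ZMod 2)) (hdim : Module.finrank (ZMod 2) C = 12) (horth : ∀ v ∈ C, ∀ w ∈ C, ∑ i, v i * w i = 0) (hmin : ∀ w ∈ C, w ≠ 0 → 8 ≤ hammingNorm w) : ∀ w ∈ C, 4 ∣ hammingNorm w := by
  have h : Hyp C := ⟨hdim, horth, hmin⟩
  intro w hw
  rw [← h.span_eq] at hw
  have hle : Submodule.span (ZMod 2) {w : Fin 24 → ZMod 2 | w ∈ C ∧ hammingNorm w = 8} ≤ C :=
    Submodule.span_le.2 fun w hw => hw.1
  induction hw using Submodule.span_induction with
  | mem x hx => rw [hx.2]; decide
  | zero => simp
  | add x y hx hy ihx ihy =>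
    have h1 := card_symmDiff_add (supp x) (supp y)
    rw [← supp_add] at h1
    obtain ⟨k, hk⟩ := h.even_inter (supp_mem_sets.2 (hle hx)) (supp_mem_sets.2 (hle hy))
    simp only [hammingNorm_eq] at ihx ihy ⊢
    omega
  | smul a x hx ih =>
    rcases zmod_two a with rfl | rfl
    · simp
    · simpa using ih

end Cfsg.Agent.S5621
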