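import Cfsg.Statements.S5622
import Cfsg.Agent.Eq.Def_Sporadic_a
import Cfsg.Agent.Golay.Perfect

set_option autoImplicit false
open Cfsg

namespace Cfsg.Agent.S5622

/-- Let C be a self-dual binary code of length 24 with minimum weight at least 8 (a 12-dimensional subspace of the 24-dimensional space over the field with two elements, any two of whose words have dot product zero, with no non-zero word of weight below 8 — an abstract extended binary Golay code). Then the minimum weight of C is exactly 8, and the supports of the words of weight 8 (the octads) form a Steiner system S(5, 8, 24) on the 24 coordinates: every 5 coordinates lie in the support of exactly one word of weight 8. -/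
theorem result (C : Submodule (ZMod 2) (Fin 24 → ZMod 2)) (hdim : Module.finrank (ZMod 2) C = 12) (horth : ∀ v ∈ C, ∀ w ∈ C, ∑ i, v i * w i = 0) (hmin : ∀ w ∈ C, w ≠ 0 → 8 ≤ hammingNorm w) : (∃ w ∈ C, hammingNorm w = 8) ∧ Cfsg.IsSteinerSystem 5 8 (Cfsg.wordsOfWeight (C : Set (Fin 24 → ZMod 2)) 8) := by
  have hα : Fintype.card (Fin 24) = 24 := rfl
  have hC : Nat.card C = 4096 := by
    rw [Module.natCard_eq_pow_finrank (K := ZMod 2), hdim, Nat.card_zmod]; norm_num
  refine ⟨?_, ⟨fun b hb => hb.2, fun s hs => ?_⟩⟩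
  · obtain ⟨s, -, hs⟩ := Finset.exists_subset_card_eq
      (show 5 ≤ (Finset.univ : Finset (Fin 24)).card by rw [Finset.card_univ, hα]; norm_num)
    obtain ⟨c, hc, h8, -⟩ := CfsgLib.Golay.exists_word_eight hα hC hmin hs
    exact ⟨c, hc, h8⟩
  · obtain ⟨c, hc, h8, hsc⟩ := CfsgLib.Golay.exists_word_eight hα hC hmin hs
    refine ⟨CfsgLib.Golay.supp c, ⟨⟨⟨c, hc, rfl⟩, h8⟩, hsc⟩, ?_⟩
    rintro _ ⟨⟨⟨c', hc', rfl⟩, h8'⟩, hsc'⟩
    exact congrArg CfsgLib.Golay.supp
      (CfsgLib.Golay.word_eight_unique hmin hs.ge hc' hc h8' h8 hsc' hsc)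

end Cfsg.Agent.S5622
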