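import Cfsg.Statements.S5623
import Cfsg.Agent.Designs.SelfDual24

set_option autoImplicit false
open Cfsg CfsgLib CfsgLib.SelfDual24
open scoped symmDiff

namespace Cfsg.Agent.S5623

/-- Let C be a self-dual binary code of length 24 with minimum weight at least 8 (a 12-dimensional subspace of the 24-dimensional space over the field with two elements, any two of whose words have dot product zero, with no non-zero word of weight below 8 — an abstract extended binary Golay code). Then every coset w + C of C in the ambient space contains either exactly one word of weight at most 4, which then has weight at most 3, or exactly six words of weight at most 4, all of weight exactly 4 and with pairwise disjoint supports (a sextet). -/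
theorem result (C : Submodule (ZMod 2) (Fin 24 → ZMod 2)) (hdim : Module.finrank (ZMod 2) C = 12) (horth : ∀ v ∈ C, ∀ w ∈ C, ∑ i, v i * w i = 0) (hmin : ∀ w ∈ C, w ≠ 0 → 8 ≤ hammingNorm w) (w : Fin 24 → ZMod 2) : (∃ u : Fin 24 → ZMod 2, {u : Fin 24 → ZMod 2 | u - w ∈ C ∧ hammingNorm u ≤ 4} = {u} ∧ hammingNorm u ≤ 3) ∨ ({u : Fin 24 → ZMod 2 | u - w ∈ C ∧ hammingNorm u ≤ 4}.ncard = 6 ∧ ∀ u ∈ {u : Fin 24 → ZMod 2 | u - w ∈ C ∧ hammingNorm u ≤ 4}, hammingNorm u = 4 ∧ ∀ u' ∈ {u : Fin 24 → ZMod 2 | u - w ∈ C ∧ hammingNorm u ≤ 4}, u ≠ u' → Disjoint (Finset.univ.filter fun i => u i ≠ 0) (Finset.univ.filter fun i => u' i ≠ 0)) := by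
  classical
  have h : Hyp C := ⟨hdim, horth, hmin⟩
  set L := {u : Fin 24 → ZMod 2 | u - w ∈ C ∧ hammingNorm u ≤ 4} with hL
  have hdiff : ∀ u ∈ L, ∀ u' ∈ L, u ≠ u' → 8 ≤ (supp u ∆ supp u').card := by
    intro u hu u' hu' hne
    have h1 : u - u' ∈ C := by
      have := C.sub_mem hu.1 hu'.1
      rwa [sub_sub_sub_cancel_right] at this
    have := h.minWeight _ h1 (sub_ne_zero.2 hne)
    rwa [hammingNorm_eq, supp_sub] at this
  have hlead : ∀ i, ∃ u ∈ L, hammingNorm u = 4 → i ∈ supp u := by
    intro i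
    obtain ⟨c, hc, hle, hi⟩ := h.leader i (supp w)
    refine ⟨word (supp w ∆ c), ⟨?_, by rwa [hammingNorm_eq, supp_word]⟩, fun h4 => ?_⟩
    · rw [← supp_mem_sets, supp_sub, supp_word, symmDiff_comm, symmDiff_symmDiff_cancel_left]
      exact hc
    · rw [hammingNorm_eq, supp_word] at h4
      rw [supp_word]; exact hi h4
  by_cases hsmall : ∃ u ∈ L, hammingNorm u ≤ 3
  · left
    obtain ⟨u, hu, hu3⟩ := hsmall
    refine ⟨u, Set.eq_singleton_iff_unique_mem.2 ⟨hu, fun u' hu' => ?_⟩, hu3⟩
    by_contra hne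
    have h1 := hdiff u' hu' u hu hne
    have h2 := card_symmDiff_add (supp u') (supp u)
    have h3 := hu'.2
    rw [hammingNorm_eq] at h3 hu3
    omega
  right
  push Not at hsmall
  have h4 : ∀ u ∈ L, hammingNorm u = 4 := fun u hu => by
    have := hsmall u hu; have := hu.2; omega
  have hdisj : ∀ u ∈ L, ∀ u' ∈ L, u ≠ u' → Disjoint (supp u) (supp u') := by
    intro u hu u' hu' hne
    have h1 := hdiff u hu u' hu' hne
    have h2 := card_symmDiff_add (supp u) (supp u')
    have h5 := h4 u hu
    have h6 := h4 u' hu'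
    rw [hammingNorm_eq] at h5 h6
    rw [Finset.disjoint_iff_inter_eq_empty, ← Finset.card_eq_zero]
    omega
  refine ⟨?_, fun u hu => ⟨h4 u hu, fun u' hu' hne => hdisj u hu u' hu' hne⟩⟩
  have hfin := L.toFinite
  have hunion : hfin.toFinset.biUnion supp = Finset.univ := Finset.eq_univ_iff_forall.2 fun i => by
    obtain ⟨u, hu, hi⟩ := hlead i
    exact Finset.mem_biUnion.2 ⟨u, hfin.mem_toFinset.2 hu, hi (h4 u hu)⟩
  have hcard := congrArg Finset.card hunion
  rw [Finset.card_biUnion (fun u hu u' hu' hne => hdisj u (hfin.mem_toFinset.1 hu) u'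
    (hfin.mem_toFinset.1 hu') hne), Finset.card_univ, Fintype.card_fin,
    Finset.sum_congr rfl (f := fun u => (supp u).card) (g := fun _ => 4) (fun u hu => h4 u (hfin.mem_toFinset.1 hu))] at hcard
  rw [Set.ncard_eq_toFinset_card L hfin]
  rw [Finset.sum_const, smul_eq_mul] at hcard
  omega

end Cfsg.Agent.S5623
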