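import Cfsg.Statements.S5624
import Cfsg.Agent.Eq.Def_Sporadic_a
import Cfsg.Agent.Golay.Perfect

set_option autoImplicit false
open Cfsg

namespace Cfsg.Agent.S5624

/-- Let C be a self-dual binary code of length 24 with minimum weight at least 8 (a 12-dimensional subspace of the 24-dimensional space over the field with two elements, any two of whose words have dot product zero, with no non-zero word of weight below 8 — an abstract extended binary Golay code). Then C is spanned, as a vector space over the field with two elements, by its words of weight 8. -/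
theorem result (C : Submodule (ZMod 2) (Fin 24 → ZMod 2)) (hdim : Module.finrank (ZMod 2) C = 12) (horth : ∀ v ∈ C, ∀ w ∈ C, ∑ i, v i * w i = 0) (hmin : ∀ w ∈ C, w ≠ 0 → 8 ≤ hammingNorm w) : Submodule.span (ZMod 2) {w : Fin 24 → ZMod 2 | w ∈ C ∧ hammingNorm w = 8} = C := by
  have hα : Fintype.card (Fin 24) = 24 := rfl
  have hC : Nat.card C = 4096 := by
    rw [Module.natCard_eq_pow_finrank (K := ZMod 2), hdim, Nat.card_zmod]; norm_num
  set D := Submodule.span (ZMod 2) {w : Fin 24 → ZMod 2 | w ∈ C ∧ hammingNorm w = 8} with hD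
  have hle : D ≤ C := Submodule.span_le.mpr fun w hw => hw.1
  refine Submodule.eq_of_le_of_finrank_le hle ?_
  let φ : (Fin 24 → ZMod 2) →ₗ[ZMod 2] Module.Dual (ZMod 2) D :=
    { toFun := fun v =>
        { toFun := fun d => v ⬝ᵥ (d : Fin 24 → ZMod 2)
          map_add' := fun a b => by simp [dotProduct_add]
          map_smul' := fun r a => by simp [dotProduct_smul] }
      map_add' := fun a b => by ext d; simp [add_dotProduct]
      map_smul' := fun r a => by ext d; simp [smul_dotProduct] }
  have hker : LinearMap.ker φ ≤ C := by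
    intro v hv
    obtain ⟨u, hu, hu4⟩ := CfsgLib.Golay.exists_leader hα hC hmin v
    by_cases hu0 : u = 0
    · subst hu0; rwa [sub_zero] at hu
    exfalso
    obtain ⟨c, hc, hc8, hodd⟩ := CfsgLib.Golay.exists_word_odd hα hC hmin
      (Finset.nonempty_iff_ne_empty.mpr fun e => hu0 (CfsgLib.Golay.supp_eq_empty.mp e))
      (by rwa [← CfsgLib.Golay.hammingNorm_eq_card_supp])
    have h1 : v ⬝ᵥ c = 0 :=
      LinearMap.congr_fun (LinearMap.mem_ker.mp hv) ⟨c, Submodule.subset_span ⟨hc, hc8⟩⟩
    have h2 : (v - u) ⬝ᵥ c = 0 := horth _ hu c hc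
    rw [sub_dotProduct, h1, zero_sub, neg_eq_zero] at h2
    have h3 : ∀ i, u i * c i =
        if i ∈ CfsgLib.Golay.supp c ∩ CfsgLib.Golay.supp u then (1 : ZMod 2) else 0 := by
      intro i
      have h : ∀ a b : ZMod 2, a * b = if b ≠ 0 ∧ a ≠ 0 then 1 else 0 := by decide
      rw [h]; simp [CfsgLib.Golay.mem_supp]
    obtain ⟨k, hk⟩ := hodd
    rw [dotProduct, Finset.sum_congr rfl fun i _ => h3 i, Finset.sum_boole, Finset.filter_univ_mem,
      hk] at h2
    push_cast at h2
    rw [show (2 : ZMod 2) = 0 from rfl, zero_mul, zero_add] at h2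
    exact one_ne_zero h2
  have h1 := LinearMap.finrank_range_add_finrank_ker φ
  have h2 := Submodule.finrank_mono hker
  have h3 := Submodule.finrank_le (LinearMap.range φ)
  rw [Subspace.dual_finrank_eq] at h3
  rw [Module.finrank_fin_fun] at h1
  omega

end Cfsg.Agent.S5624
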