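import Cfsg.Statements.S5625
import Cfsg.Agent.Designs.SteinerCount

set_option autoImplicit false
open Cfsg CfsgLib

namespace Cfsg.Agent.S5625

/-- In any Steiner system S(5, 8, 24) and for any set Y of three points, the blocks meeting Y in exactly 3, 2, 1 and 0 points number 21, 168, 360 and 210 respectively (so there are 759 blocks in all). -/
theorem result (α : Type*) [Fintype α] [DecidableEq α] (hα : Fintype.card α = 24) (B : Set (Finset α)) (hB : Cfsg.IsSteinerSystem 5 8 B) (Y : Finset α) (hY : Y.card = 3) : {b : Finset α | b ∈ B ∧ (b ∩ Y).card = 3}.ncard = 21 ∧ {b : Finset α | b ∈ B ∧ (b ∩ Y).card = 2}.ncard = 168 ∧ {b : Finset α | b ∈ B ∧ (b ∩ Y).card = 1}.ncard = 360 ∧ {b : Finset α | b ∈ B ∧ (b ∩ Y).card = 0}.ncard = 210 := by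
  classical
  set Bf := B.toFinite.toFinset with hBf
  have hmem : ∀ b, b ∈ Bf ↔ b ∈ B := fun b => Set.Finite.mem_toFinset _
  have hk : ∀ b ∈ Bf, b.card = 8 := fun b hb => hB.1 b ((hmem b).1 hb)
  have hu : ∀ s : Finset α, s.card = 5 → ∃! b, b ∈ Bf ∧ s ⊆ b := fun s hs => by
    simpa only [hmem] using hB.2 s hs
  have hlam : ∀ (j c : ℕ), j ≤ 3 → c * (8 - j).choose (5 - j) = (24 - j).choose (5 - j) →
      ∀ S ∈ Y.powersetCard j, (Bf.filter (S ⊆ ·)).card = c := by
    intro j c hj hc S hS
    have hS' := (Finset.mem_powersetCard.1 hS).2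
    have h := SteinerCount.card_through hk hu S (by omega)
    rw [hS', hα, ← hc] at h
    exact Nat.eq_of_mul_eq_mul_right (Nat.choose_pos (by omega)) h
  have s3 := SteinerCount.sum_choose Bf Y 3 21 (hlam 3 21 le_rfl (by decide))
  have s2 := SteinerCount.sum_choose Bf Y 2 77 (hlam 2 77 (by omega) (by decide))
  have s1 := SteinerCount.sum_choose Bf Y 1 253 (hlam 1 253 (by omega) (by decide))
  have s0 := SteinerCount.sum_choose Bf Y 0 759 (hlam 0 759 (by omega) (by decide))
  have hle : ∀ b ∈ Bf, (b ∩ Y).card ∈ Finset.range 4 := fun b _ => by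
    have := Finset.card_le_card (Finset.inter_subset_right : b ∩ Y ⊆ Y)
    simp; omega
  have hsplit : ∀ j, ∑ b ∈ Bf, ((b ∩ Y).card).choose j =
      ∑ i ∈ Finset.range 4, (Bf.filter fun b => (b ∩ Y).card = i).card * i.choose j := by
    intro j
    rw [← Finset.sum_fiberwise_of_maps_to hle]
    refine Finset.sum_congr rfl fun i _ => ?_
    rw [Finset.sum_congr rfl (g := fun _ => i.choose j)]
    · simp
    · intro b hb
      rw [(Finset.mem_filter.1 hb).2]
  have hset : ∀ i, {b : Finset α | b ∈ B ∧ (b ∩ Y).card = i}.ncard =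
      (Bf.filter fun b => (b ∩ Y).card = i).card := by
    intro i
    rw [← Set.ncard_coe_finset]
    congr 1
    ext b
    simp [hmem]
  rw [hsplit, hY] at s0 s1 s2 s3
  simp [Finset.sum_range_succ, Nat.choose, -Finset.card_eq_zero] at s0 s1 s2 s3
  rw [hset, hset, hset, hset]
  refine ⟨?_, ?_, ?_, ?_⟩ <;> omega

end Cfsg.Agent.S5625
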