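import Cfsg.Statements.S5628
import Cfsg.Agent.Designs.PlaneFour

set_option autoImplicit false
open Cfsg CfsgLib CfsgLib.PlaneFour
open scoped Pointwise

namespace Cfsg.Agent.S5628

/-- In a projective plane of order 4 (a Steiner system S(2, 5, 21)), every permutation of the six points of a hyperoval (a 6-set met by no line in more than two points) is the restriction of exactly one automorphism of the plane. In particular the stabiliser of a hyperoval in the automorphism group is isomorphic to the symmetric group of degree 6 acting faithfully on the hyperoval. -/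
theorem result {α : Type*} [Fintype α] [DecidableEq α] (hα : Fintype.card α = 21) (L : Set (Finset α)) (hL : Cfsg.IsSteinerSystem 2 5 L) (H : Finset α) (hH : (H.card = 6 ∧ ∀ l ∈ L, (l ∩ H).card ≤ 2)) (σ : Equiv.Perm ↥H) : ∃! g : Equiv.Perm α, g ∈ Cfsg.setSystemAut L ∧ ∀ p : ↥H, g p = σ p := by
  classical
  have hP : Plane α L := ⟨hα, hL⟩
  have hO : Oval L H := hH
  obtain ⟨e, he, hfix⟩ := hP.extend hP hO hO σ
  have hmem : ∀ g : Equiv.Perm α, g ∈ setSystemAut L ↔ (fun b => b.image g) '' L = L := by
    intro g
    rw [MulAction.mem_stabilizer_iff]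
    have hsm : g • L = (fun b => b.image g) '' L := by
      rw [← Set.image_smul]
      refine Set.image_congr fun b _ => ?_
      rw [← Finset.image_smul]
      exact Finset.image_congr fun x _ => Equiv.Perm.smul_def g x
    rw [hsm]
  refine ⟨e, ⟨(hmem e).2 he, hfix⟩, fun g ⟨hg, hgfix⟩ => ?_⟩
  have hg' := (hmem g).1 hg
  refine Equiv.ext fun x => ?_
  have key : ∀ y, (e.symm (g y)) = y := by
    refine hP.eq_id_of_fix hO (e := fun y => e.symm (g y)) ?_ (e.symm.injective.comp g.injective) ?_
    · intro l hl
      have h1 : l.image g ∈ (fun b => b.image e) '' L := by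
        rw [he, ← hg']; exact ⟨l, hl, rfl⟩
      obtain ⟨m, hm, hme⟩ := h1
      have : l.image (fun y => e.symm (g y)) = m := by
        rw [show l.image (fun y => e.symm (g y)) = (l.image g).image e.symm by
          rw [Finset.image_image]; rfl]
        rw [← hme, Finset.image_image]
        simp
      rwa [this]
    · intro h hh
      have h1 := hgfix ⟨h, hh⟩
      have h2 := hfix ⟨h, hh⟩
      rw [Equiv.symm_apply_eq]
      exact h1.trans h2.symm
  exact (Equiv.symm_apply_eq e).1 (key x)

end Cfsg.Agent.S5628
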