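import Cfsg.Statements.S5630
import Cfsg.Agent.Eq.Def_GeometricClasses
import Cfsg.Agent.Aschbacher.LinearCases
import Cfsg.Agent.Aschbacher.SymplecticType
import Cfsg.Agent.Aschbacher.TensorInduced

set_option autoImplicit false
open Cfsg

namespace Cfsg.Agent.S5630

open Matrix CfsgLib.Aschbacher

section
variable {F : Type*} [Field F] [Fintype F] {n : ℕ}

private lemma subfield_class {M : Subgroup (Matrix.GeneralLinearGroup (Fin n) F)} {F₀ : Subfield F} {r : ℕ}
    {P : Matrix.GeneralLinearGroup (Fin n) F} (hr : r.Prime) (hc : Fintype.card F = Nat.card F₀ ^ r)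
    (hM : M = Cfsg.Geo.subfieldSubgroup F₀ P) : Cfsg.Geo.InLinearClass n F M := by
  unfold Cfsg.Geo.InLinearClass
  exact .inr <| .inr <| .inr <| .inr <| .inr <| .inr <| .inl ⟨F₀, r, P, hr, hc, hM⟩

private lemma quad_class (hn : 3 ≤ n) {Q : (Fin n → F) → F} (hQ : Cfsg.Geo.IsNondegenerateQuadraticForm Q)
    (ho : Odd (Fintype.card F)) : Cfsg.Geo.InLinearClass n F (Cfsg.Geo.quadSimilarityGroup Q) := by
  unfold Cfsg.Geo.InLinearClass
  exact .inr <| .inr <| .inr <| .inr <| .inr <| .inr <| .inr <| .inr <| .inr <| .inr <| .inr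
    ⟨Q, hQ, ho, hn, rfl⟩

private lemma symplectic_class (hn : 3 ≤ n) {f : (Fin n → F) → (Fin n → F) → F}
    (hf : Cfsg.Geo.IsSymplecticForm f) : Cfsg.Geo.InLinearClass n F (Cfsg.Geo.similarityGroup f) := by
  have hev : Even n := by
    rcases Nat.even_or_odd n with h | h
    · exact h
    · exact absurd hf (not_isSymplecticForm (by simpa using h) f)
  unfold Cfsg.Geo.InLinearClass
  refine .inr <| .inr <| .inr <| .inr <| .inr <| .inr <| .inr <| .inr <| .inr <| .inl
    ⟨f, hf, hev, ?_, rfl⟩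
  obtain ⟨k, rfl⟩ := hev
  omega

private lemma unitary_class (hn : 3 ≤ n) {σ : F ≃+* F} {f : (Fin n → F) → (Fin n → F) → F}
    (hf : Cfsg.Geo.IsUnitaryForm σ f) : Cfsg.Geo.InLinearClass n F (Cfsg.Geo.similarityGroup f) := by
  unfold Cfsg.Geo.InLinearClass
  exact .inr <| .inr <| .inr <| .inr <| .inr <| .inr <| .inr <| .inr <| .inr <| .inr <| .inl
    ⟨σ, f, hf, hn, rfl⟩

private lemma wreath_class (hn : 3 ≤ n) {m t : ℕ} (hm : 2 ≤ m) (ht : 2 ≤ t)
    (e : Fin n ≃ (Fin t → Fin m)) (P : Matrix.GeneralLinearGroup (Fin n) F) :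
    ∃ M, Cfsg.Geo.InLinearClass n F M ∧ Cfsg.Geo.tensorWreathSubgroup m t e P ≤ M := by
  rcases hm.eq_or_lt with rfl | hm3
  · rcases tensorWreath_two_le_similarity (by omega) e P with ⟨ho, Q, hQ, h⟩ | ⟨f, hf, h⟩
    · exact ⟨_, quad_class hn hQ ho, h⟩
    · exact ⟨_, symplectic_class hn hf, h⟩
  · refine ⟨_, ?_, le_rfl⟩
    unfold Cfsg.Geo.InLinearClass
    exact .inr <| .inr <| .inr <| .inr <| .inr <| .inr <| .inr <| .inr <| .inl
      ⟨m, t, e, P, hm3, ht, rfl⟩

private lemma tensor_le_wreath {d : ℕ} (e : Fin n ≃ Fin d × Fin d) (P : Matrix.GeneralLinearGroup (Fin n) F) :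
    ∃ e' : Fin n ≃ (Fin 2 → Fin d),
      Cfsg.Geo.tensorProductSubgroup d d e P ≤ Cfsg.Geo.tensorWreathSubgroup d 2 e' P := by
  let ε : Fin d × Fin d ≃ (Fin 2 → Fin d) :=
    { toFun := fun p => ![p.1, p.2]
      invFun := fun f => (f 0, f 1)
      left_inv := fun p => by simp
      right_inv := fun f => by ext i; fin_cases i <;> simp }
  refine ⟨e.trans ε, fun g hg => ?_⟩
  obtain ⟨a, b, hab⟩ := (mem_tensorProductSubgroup_iff e P g).1 hg
  refine ⟨_, ⟨kroneckerPowGL ![a, b], Subgroup.subset_closure (Or.inl ⟨_, fun x y => rfl⟩), rfl⟩, ?_⟩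
  apply Units.ext
  rw [hab]
  show tconj (e.trans ε) P (kroneckerPow _) = _
  rw [tconj_apply, tconj_apply]
  congr 2
  ext i j
  simp [kroneckerPow, Fin.prod_univ_two, Matrix.kroneckerMap_apply, ε]

end

/-- Subgroup structure of the finite linear groups in dimension at least 3. Let F be a finite field, n ≥ 3, and let H be a subgroup of SL_n(F) (the kernel of the determinant inside GL_n(F)) whose product with the scalar matrices of determinant one is not all of SL_n(F), i.e. H does not cover PSL_n(F). Then either H is contained in a member of one of the eight geometric classes of subgroups of GL_n(F) (reducible, imprimitive, extension field, tensor product, subfield, symplectic-type normaliser, tensor wreath, similarity group of a form, with the conditions built into InLinearClass), or H is in the residual class: modulo scalars it is almost simple, and the perfect preimage of its socle acts absolutely irreducibly, is realisable over no proper subfield,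 and fixes no non-degenerate quadratic, symplectic or unitary form. (Dimension 2, where the linear and symplectic groups coincide, is left to the classical list of subgroups of PSL_2.) -/
theorem result {F : Type*} [Field F] [Fintype F] (n : ℕ) (hn : 3 ≤ n) (H : Subgroup (Matrix.GeneralLinearGroup (Fin n) F)) (hH : H ≤ Cfsg.Geo.specialLinear (Fin n) F) (hproper : H ⊔ (Cfsg.Geo.scalars (Fin n) F ⊓ Cfsg.Geo.specialLinear (Fin n) F) ≠ Cfsg.Geo.specialLinear (Fin n) F) : (∃ M : Subgroup (Matrix.GeneralLinearGroup (Fin n) F), Cfsg.Geo.InLinearClass n F M ∧ H ≤ M) ∨ Cfsg.Geo.InLinearResidualClass H := by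
  haveI : Nonempty (Fin n) := ⟨⟨0, by omega⟩⟩
  by_cases hirr : Cfsg.Geo.ActsIrreducibly (Cfsg.Geo.matrixSet H)
  swap
  · simp only [Cfsg.Geo.ActsIrreducibly, not_forall, not_or] at hirr
    obtain ⟨W, hW, h0, h1⟩ := hirr
    refine Or.inl ⟨Cfsg.Geo.subspaceStabilizer W, ?_,
      fun g hg => mem_subspaceStabilizer_of_mapsTo fun v hv => hW _ ⟨g, hg, rfl⟩ ⟨v, hv, rfl⟩⟩
    unfold Cfsg.Geo.InLinearClass
    exact .inl ⟨W, h0, h1, rfl⟩
  have hforms : InFormOrSubfield H → ∃ M, Cfsg.Geo.InLinearClass n F M ∧ H ≤ M := by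
    rintro (⟨F₀, r, P, hr, hc, -, h⟩ | ⟨ho, Q, hQ, h⟩ | ⟨f, hf, h⟩ | ⟨σ, f, hf, h⟩)
    · exact ⟨_, subfield_class hr hc rfl, h⟩
    · exact ⟨_, quad_class hn hQ ho, h⟩
    · exact ⟨_, symplectic_class hn hf, h⟩
    · exact ⟨_, unitary_class hn hf, h⟩
  rcases geometric_cases hirr with ⟨t, m, D, hD, -, h⟩ | ⟨r, K, hr, -, hK, h⟩ |
    ⟨d, k, e, P, hd, hdk, -, h⟩ | hall
  · refine Or.inl ⟨Cfsg.Geo.decompositionStabilizer D, ?_, h⟩
    unfold Cfsg.Geo.InLinearClass
    exact .inr <| .inr <| .inr <| .inl ⟨t, m, D, hD, rfl⟩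
  · refine Or.inl ⟨Cfsg.Geo.subalgebraNormalizer K, ?_, h⟩
    unfold Cfsg.Geo.InLinearClass
    exact .inr <| .inr <| .inr <| .inr <| .inl ⟨r, K, hr, hK, rfl⟩
  · rcases hdk.eq_or_lt with rfl | hlt
    · obtain ⟨e', he'⟩ := tensor_le_wreath e P
      obtain ⟨M, hM, hle⟩ := wreath_class hn hd le_rfl e' P
      exact Or.inl ⟨M, hM, (h.trans he').trans hle⟩
    · refine Or.inl ⟨Cfsg.Geo.tensorProductSubgroup d k e P, ?_, h⟩
      unfold Cfsg.Geo.InLinearClass
      exact .inr <| .inr <| .inr <| .inr <| .inr <| .inl ⟨d, k, e, P, hd, hlt, rfl⟩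
  rcases normal_structure hall (not_le_scalars_of_irreducible hirr (by simp; omega)) with
    ⟨N, r, hA⟩ | ⟨d, S, hC⟩ | ⟨P, hP⟩
  · rcases symplecticType_cases (by simpa using hn) hA with ⟨R, hR, h⟩ | h
    · refine Or.inl ⟨Cfsg.Geo.subgroupNormalizer R, ?_, h⟩
      unfold Cfsg.Geo.InLinearClass
      exact .inr <| .inr <| .inr <| .inr <| .inr <| .inr <| .inr <| .inl ⟨r, R, hR, rfl⟩
    · exact Or.inl (hforms h)
  · obtain ⟨e, P, hle⟩ := hC.exists_le_tensorWreath
    obtain ⟨M, hM, hM'⟩ := wreath_class hn hC.two_le hC.two_le_card e P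
    exact Or.inl ⟨M, hM, hle.trans hM'⟩
  · rcases core_cases hP with ⟨F₀, r, B, hr, hc, hne, h⟩ | ⟨Q, ho, hQ, h⟩ | ⟨f, hf, h⟩ | ⟨σ, f, hf, h⟩ | hres
    · exact Or.inl ⟨_, subfield_class hr hc rfl, h⟩
    · exact Or.inl ⟨_, quad_class hn hQ ho, h⟩
    · exact Or.inl ⟨_, symplectic_class hn hf, h⟩
    · exact Or.inl ⟨_, unitary_class hn hf, h⟩
    · exact Or.inr hres

end Cfsg.Agent.S5630
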