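import Cfsg.Statements.S5631
import Cfsg.Agent.Classical.TransvAlg
import Cfsg.Agent.Eq.Def_GeometricClasses

set_option autoImplicit false
open Cfsg

namespace Cfsg.Agent.S5631

section

open Matrix CfsgLib.TransvGL

variable {F : Type*} [Field F] {n : ℕ}

theorem exists_dual_sep {W : Submodule F (Fin n → F)} {u : Fin n → F} (hu : u ∉ W) :
    ∃ θ : Module.Dual F (Fin n → F), θ u = 1 ∧ ∀ x ∈ W, θ x = 0 := by
  obtain ⟨φ, hφu, hφ⟩ := Submodule.exists_dual_map_eq_bot_of_notMem hu inferInstance
  refine ⟨(φ u)⁻¹ • φ, by simp [hφu], fun x hx => ?_⟩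
  have : φ x ∈ Submodule.map φ W := Submodule.mem_map_of_mem hx
  rw [hφ] at this
  simp [(Submodule.mem_bot F).1 this]

/-- All transvections with centre `u` are in `M`. -/
def Full (M : Subgroup (GL (Fin n) F)) (u : Fin n → F) : Prop :=
  ∀ (χ : Module.Dual F (Fin n → F)) (h : χ u = 0), transv h ∈ M

theorem full_smul {M : Subgroup (GL (Fin n) F)} {u : Fin n → F} (hu : Full M u) {k : F} (hk : k ≠ 0) :
    Full M (k • u) := by
  intro χ h
  have h0 : χ u = 0 := by simpa [hk] using h
  have h' : (k • χ) u = 0 := by simp [h0]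
  convert hu _ h' using 1
  exact transv_congr _ _ fun x => by simp [smul_smul, mul_comm]

theorem full_conj {M : Subgroup (GL (Fin n) F)} {u : Fin n → F} (hu : Full M u) {g : GL (Fin n) F}
    (hg : g ∈ M) : Full M ((g : Matrix (Fin n) (Fin n) F) *ᵥ u) := by
  intro χ h
  have h0 : (χ.comp (Matrix.mulVecLin (g : Matrix (Fin n) (Fin n) F))) u = 0 := h
  rw [← conj_transv g h0 h rfl (fun x => rfl)]
  exact M.mul_mem (M.mul_mem hg (hu _ h0)) (M.inv_mem hg)

end

open Matrix CfsgLib.TransvGL

/-- For a finite field F and n ≥ 13, the stabiliser in SL_n(F) of any proper non-zero subspace W of F^n is a maximal subgroup of SL_n(F). Here SL_n(F) is the kernel of the determinant inside GL_n(F) and the stabiliser is the set of elements of determinant one mapping W onto itself. -/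
theorem result {F : Type*} [Field F] [Fintype F] (n : ℕ) (hn : 13 ≤ n) (W : Submodule F (Fin n → F)) (hW0 : W ≠ ⊥) (hW1 : W ≠ ⊤) : Cfsg.Geo.IsMaximalIn (Cfsg.Geo.specialLinear (Fin n) F) (Cfsg.Geo.subspaceStabilizer W ⊓ Cfsg.Geo.specialLinear (Fin n) F) := by
  classical
  set H := Geo.subspaceStabilizer W ⊓ Geo.specialLinear (Fin n) F with hH
  obtain ⟨w0, hw0, hw0ne⟩ := W.ne_bot_iff.1 hW0
  obtain ⟨v0, hv0⟩ : ∃ v, v ∉ W := by
    by_contra h
    push Not at h
    exact hW1 (Submodule.eq_top_iff'.2 h)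
  refine ⟨lt_of_le_not_ge inf_le_right fun hle => ?_, fun M hM1 hM2 => ?_⟩
  · have hwv : w0 ∉ Submodule.span F {v0} := fun h => by
      obtain ⟨a, ha⟩ := Submodule.mem_span_singleton.1 h
      by_cases ha0 : a = 0
      · exact hw0ne (by simp [← ha, ha0])
      · exact hv0 ((W.smul_mem_iff ha0).1 (ha ▸ hw0))
    obtain ⟨θ, hθw, hθv⟩ := exists_dual_sep hwv
    have h0 : θ v0 = 0 := hθv v0 (Submodule.mem_span_singleton_self v0)
    exact transv_not_mem_subspaceStabilizer h0 hv0 hw0 (by rw [hθw]; exact one_ne_zero)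
      (hle (transv_mem_specialLinear h0)).1
  by_cases heq : M = H
  · exact Or.inl heq
  refine Or.inr (le_antisymm hM2 ?_)
  obtain ⟨g, hgM, hg⟩ := SetLike.not_le_iff_exists.1 fun h => heq (le_antisymm h hM1)
  have inH : ∀ {φ : Module.Dual F (Fin n → F)} {v : Fin n → F} (h : φ v = 0),
      (v ∈ W ∨ ∀ x ∈ W, φ x = 0) → transv h ∈ M :=
    fun h hc => hM1 ⟨transv_mem_subspaceStabilizer h hc, transv_mem_specialLinear h⟩
  -- a vector moved out of W
  have hnle : ¬ W.map (Matrix.mulVecLin (g : Matrix (Fin n) (Fin n) F)) ≤ W := by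
    intro hle
    apply hg
    refine ⟨mem_subspaceStabilizer.2 fun x => ?_, hM2 hgM⟩
    have hinj : Function.Injective (Matrix.mulVecLin (g : Matrix (Fin n) (Fin n) F)) := fun a b h => by
      have := congrArg (((g⁻¹ : GL (Fin n) F) : Matrix (Fin n) (Fin n) F) *ᵥ ·) h
      simpa [inv_mulVec_mulVec] using this
    have heq' : W.map (Matrix.mulVecLin (g : Matrix (Fin n) (Fin n) F)) = W :=
      Submodule.eq_of_le_of_finrank_le hle
        (LinearEquiv.finrank_eq (Submodule.equivMapOfInjective _ hinj W)).le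
    constructor
    · exact fun hx => hle (Submodule.mem_map_of_mem hx)
    · intro hx
      rw [← heq'] at hx
      obtain ⟨y, hy, hyx⟩ := Submodule.mem_map.1 hx
      exact hinj hyx ▸ hy
  obtain ⟨_, ⟨v, hv, rfl⟩, hu⟩ := SetLike.not_le_iff_exists.1 hnle
  rw [Matrix.mulVecLin_apply] at hu
  set u := (g : Matrix (Fin n) (Fin n) F) *ᵥ v with hudef
  -- a functional with centre u nonzero on W
  obtain ⟨y, hy, hyv⟩ : ∃ y ∈ W, ((g⁻¹ : GL (Fin n) F) : Matrix (Fin n) (Fin n) F) *ᵥ y ∉
      Submodule.span F {v} := by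
    by_contra hno
    push Not at hno
    apply hu
    obtain ⟨a, ha⟩ := Submodule.mem_span_singleton.1 (hno w0 hw0)
    have ha0 : a ≠ 0 := fun h0 => hw0ne (by
      rw [← mulVec_inv_mulVec g w0, ← ha, h0, zero_smul, mulVec_zero])
    have : a • u ∈ W := by
      rw [hudef, ← mulVec_smul, ha, mulVec_inv_mulVec]; exact hw0
    exact (W.smul_mem_iff ha0).1 this
  obtain ⟨φ, hφy, hφv⟩ := exists_dual_sep hyv
  have hφv0 : φ v = 0 := hφv v (Submodule.mem_span_singleton_self v)
  set ψ := φ.comp (Matrix.mulVecLin ((g⁻¹ : GL (Fin n) F) : Matrix (Fin n) (Fin n) F)) with hψdef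
  have hψu : ψ u = 0 := by
    show φ (((g⁻¹ : GL (Fin n) F) : Matrix (Fin n) (Fin n) F) *ᵥ ((g : Matrix (Fin n) (Fin n) F) *ᵥ v)) = 0
    rw [inv_mulVec_mulVec, hφv0]
  have hψy : ψ y = 1 := hφy
  have hψ : ∀ t : F, transv (φ := t • ψ) (v := u) (by simp [hψu]) ∈ M := by
    intro t
    rw [← conj_transv g (φ := t • φ) (by simp [hφv0]) (ψ := t • ψ) (w := u)
      (by rw [LinearMap.smul_apply, hψu, smul_zero]) rfl (fun x => by
        show t * φ (((g⁻¹ : GL (Fin n) F) : Matrix (Fin n) (Fin n) F) *ᵥ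
          ((g : Matrix (Fin n) (Fin n) F) *ᵥ x)) = t * φ x
        rw [inv_mulVec_mulVec])]
    exact M.mul_mem (M.mul_mem hgM (inH _ (Or.inl hv))) (M.inv_mem hgM)
  -- all transvections with centre u
  have key : ∀ (χ : Module.Dual F (Fin n → F)) (h : χ u = 0), χ y = 0 → transv h ∈ M := by
    intro χ h hχy
    have hA := hψ 1
    have h0 : χ (y + u) = 0 := by simp [hχy, h]
    have h1 := conj_transv (transv (φ := (1 : F) • ψ) (v := u) (by simp [hψu])) hχy h0
      (by rw [transv_mulVec, one_smul, hψy, one_smul])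
      (fun x => by rw [transv_mulVec, map_add, map_smul, h, smul_zero, add_zero])
    have h2 : transv h0 = transv hχy * transv h := by
      apply ext_mulVec
      intro x
      simp only [Units.val_mul, ← mulVec_mulVec, transv_mulVec, map_add, map_smul, h, smul_zero,
        add_zero]
      module
    have h3 : transv h0 ∈ M := h1 ▸ M.mul_mem (M.mul_mem hA (inH hχy (Or.inl hy))) (M.inv_mem hA)
    rw [h2] at h3
    exact (M.mul_mem_cancel_left (inH hχy (Or.inl hy))).1 h3
  have hfull : Full M u := by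
    intro χ h
    have h0 : (χ - χ y • ψ) u = 0 := by simp [h, hψu]
    have h1 := M.mul_mem (key _ h0 (by simp [hψy])) (hψ (χ y))
    convert h1 using 1
    rw [transv_mul_left]
    exact transv_congr _ _ fun x => by simp
  -- move the centre
  have hstep : ∀ (a d : Fin n → F), Full M a → a ∉ W →
      (d ∈ W ∨ d ∉ W ⊔ Submodule.span F {a}) → Full M (a + d) := by
    intro a d ha haW hd
    have haWd : a ∉ W ⊔ Submodule.span F {d} := by
      intro hmem
      obtain ⟨w, hw, _, hd', e⟩ := Submodule.mem_sup.1 hmem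
      obtain ⟨s, rfl⟩ := Submodule.mem_span_singleton.1 hd'
      by_cases hs : s = 0
      · exact haW (by simpa [← e, hs] using hw)
      rcases hd with hd | hd
      · exact haW (e ▸ W.add_mem hw (W.smul_mem s hd))
      · apply hd
        have h1 : s • d = -w + a := by rw [← e]; abel
        rw [← Submodule.smul_mem_iff _ hs, h1]
        exact Submodule.add_mem_sup (W.neg_mem hw) (Submodule.mem_span_singleton_self a)
    obtain ⟨θ, hθa, hθ⟩ := exists_dual_sep haWd
    have hθd : θ d = 0 := hθ d (Submodule.mem_sup_right (Submodule.mem_span_singleton_self d))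
    have h1 := full_conj ha (inH hθd (Or.inr fun x hx => hθ x (Submodule.mem_sup_left hx)))
    rwa [transv_mulVec, hθa, one_smul] at h1
  refine specialLinear_le_of_transv_mem M fun χ z hz => ?_
  by_cases hzW : z ∈ W
  · exact inH hz (Or.inl hzW)
  suffices Full M z from this χ hz
  by_cases hmem : z ∈ W ⊔ Submodule.span F {u}
  · obtain ⟨w, hw, _, hk', e⟩ := Submodule.mem_sup.1 hmem
    obtain ⟨k, rfl⟩ := Submodule.mem_span_singleton.1 hk'
    have hk : k ≠ 0 := fun h0 => hzW (by rw [← e, h0, zero_smul, add_zero]; exact hw)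
    have h1 := hstep (k • u) w (full_smul hfull hk) (fun h => hu ((W.smul_mem_iff hk).1 h)) (Or.inl hw)
    rwa [add_comm, e] at h1
  · have hd : z - u ∉ W ⊔ Submodule.span F {u} := fun h => hmem (by
      simpa using Submodule.add_mem _ h (Submodule.mem_sup_right (Submodule.mem_span_singleton_self u)))
    simpa using hstep u (z - u) hfull hu (Or.inr hd)

end Cfsg.Agent.S5631
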