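import Cfsg.Statements.S5632
import Cfsg.Agent.Classical.TransvGL

set_option autoImplicit false
open Cfsg CfsgLib

namespace Cfsg.Agent.S5632

/-- For a finite field F and subspaces 0 < W < U of F^n with dim W + dim U = n, the elements of SL_n(F) stabilising both W and U form a subgroup that is not maximal in SL_n(F): some subgroup lies strictly between it and SL_n(F). -/
theorem result {F : Type*} [Field F] [Fintype F] (n : ℕ) (W U : Submodule F (Fin n → F)) (hW0 : W ≠ ⊥) (hWU : W < U) (hdim : Module.finrank F W + Module.finrank F U = n) : ∃ K : Subgroup (Matrix.GeneralLinearGroup (Fin n) F), Cfsg.Geo.subspaceStabilizer W ⊓ Cfsg.Geo.subspaceStabilizer U ⊓ Cfsg.Geo.specialLinear (Fin n) F < K ∧ K < Cfsg.Geo.specialLinear (Fin n) F := by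
  have hUtop : U ≠ ⊤ := by
    intro h
    rw [h, finrank_top, Module.finrank_fin_fun] at hdim
    exact hW0 (Submodule.finrank_eq_zero.1 (by omega))
  obtain ⟨u, huU, huW⟩ := SetLike.exists_of_lt hWU
  obtain ⟨v, hv⟩ : ∃ v, v ∉ U := by
    by_contra h
    push_neg at h
    exact hUtop (Submodule.eq_top_iff'.2 h)
  -- functional killing W and v but not u
  have hu : u ∉ W ⊔ Submodule.span F {v} := by
    intro h
    obtain ⟨w, hw, y, hy, hwy⟩ := Submodule.mem_sup.1 h
    obtain ⟨a, rfl⟩ := Submodule.mem_span_singleton.1 hy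
    by_cases ha : a = 0
    · apply huW; simpa [← hwy, ha] using hw
    · apply hv
      have : a • v ∈ U := by
        have h2 : a • v = u - w := by rw [← hwy]; abel
        rw [h2]; exact U.sub_mem huU (hWU.le hw)
      exact (U.smul_mem_iff ha).1 this
  obtain ⟨φ, hφu, hφ⟩ := Submodule.exists_dual_map_eq_bot_of_notMem hu inferInstance
  have hφ0 : ∀ x ∈ W ⊔ Submodule.span F {v}, φ x = 0 := fun x hx => by
    have : φ x ∈ Submodule.map φ (W ⊔ Submodule.span F {v}) := Submodule.mem_map_of_mem hx
    rw [hφ] at this; exact (Submodule.mem_bot F).1 this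
  have hφv : φ v = 0 := hφ0 v (Submodule.mem_sup_right (Submodule.mem_span_singleton_self v))
  -- functional killing v' but moving W
  obtain ⟨w, hw, hw0⟩ := W.ne_bot_iff.1 hW0
  have hwv : w ∉ Submodule.span F {v} := by
    intro h
    obtain ⟨a, ha⟩ := Submodule.mem_span_singleton.1 h
    by_cases ha0 : a = 0
    · exact hw0 (by simp [← ha, ha0])
    · exact hv ((U.smul_mem_iff ha0).1 (ha ▸ hWU.le hw))
  obtain ⟨ψ, hψw, hψ⟩ := Submodule.exists_dual_map_eq_bot_of_notMem hwv inferInstance
  have hψv : ψ v = 0 := by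
    have : ψ v ∈ Submodule.map ψ (Submodule.span F {v}) :=
      Submodule.mem_map_of_mem (Submodule.mem_span_singleton_self v)
    rw [hψ] at this; exact (Submodule.mem_bot F).1 this
  have hvW : v ∉ W := fun h => hv (hWU.le h)
  refine ⟨Geo.subspaceStabilizer W ⊓ Geo.specialLinear (Fin n) F,
    lt_of_le_not_ge (inf_le_inf_right _ inf_le_left) ?_, lt_of_le_not_ge inf_le_right ?_⟩
  · intro h
    exact TransvGL.transv_not_mem_subspaceStabilizer hφv hv huU hφu
      (h ⟨TransvGL.transv_mem_subspaceStabilizer hφv (Or.inr fun x hx => hφ0 x (Submodule.mem_sup_left hx)),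
        TransvGL.transv_mem_specialLinear hφv⟩).1.2
  · intro h
    exact TransvGL.transv_not_mem_subspaceStabilizer hψv hvW hw hψw
      (h (TransvGL.transv_mem_specialLinear hψv)).1

end Cfsg.Agent.S5632
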