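import Cfsg.Statements.S5633
import Cfsg.Agent.Classical.TransvGL

set_option autoImplicit false
open Cfsg CfsgLib

namespace Cfsg.Agent.S5633

/-- For a finite field F and complementary non-zero subspaces W ⊕ U = F^n with dim W < dim U, the elements of SL_n(F) stabilising both W and U form a subgroup that is not maximal in SL_n(F): some subgroup lies strictly between it and SL_n(F). -/
theorem result {F : Type*} [Field F] [Fintype F] (n : ℕ) (W U : Submodule F (Fin n → F)) (hW0 : W ≠ ⊥) (hWU : W ⊓ U = ⊥) (hWU' : W ⊔ U = ⊤) (hdim : Module.finrank F W < Module.finrank F U) : ∃ K : Subgroup (Matrix.GeneralLinearGroup (Fin n) F), Cfsg.Geo.subspaceStabilizer W ⊓ Cfsg.Geo.subspaceStabilizer U ⊓ Cfsg.Geo.specialLinear (Fin n) F < K ∧ K < Cfsg.Geo.specialLinear (Fin n) F := by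
  obtain ⟨w, hw, hw0⟩ := W.ne_bot_iff.1 hW0
  have hdis : ∀ x ∈ W, x ∈ U → x = 0 := fun x h1 h2 => (Submodule.mem_bot F).1 (hWU ▸ ⟨h1, h2⟩)
  obtain ⟨u, hu, hu0⟩ := U.ne_bot_iff.1 (by
    intro h
    rw [h, finrank_bot] at hdim
    omega : U ≠ ⊥)
  have hwU : w ∉ U := fun h => hw0 (hdis w hw h)
  have huW : u ∉ W := fun h => hu0 (hdis u h hu)
  -- functional killing W but not u, and functional killing u but not w
  obtain ⟨φ, hφu, hφ⟩ := Submodule.exists_dual_map_eq_bot_of_notMem huW inferInstance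
  have hφ0 : ∀ x ∈ W, φ x = 0 := fun x hx => by
    have : φ x ∈ Submodule.map φ W := Submodule.mem_map_of_mem hx
    rw [hφ] at this; exact (Submodule.mem_bot F).1 this
  have hwu : w ∉ Submodule.span F {u} := fun h =>
    hwU ((Submodule.span_singleton_le_iff_mem u U).2 hu h)
  obtain ⟨ψ, hψw, hψ⟩ := Submodule.exists_dual_map_eq_bot_of_notMem hwu inferInstance
  have hψu : ψ u = 0 := by
    have : ψ u ∈ Submodule.map ψ (Submodule.span F {u}) :=
      Submodule.mem_map_of_mem (Submodule.mem_span_singleton_self u)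
    rw [hψ] at this; exact (Submodule.mem_bot F).1 this
  refine ⟨Geo.subspaceStabilizer W ⊓ Geo.specialLinear (Fin n) F,
    lt_of_le_not_ge (inf_le_inf_right _ inf_le_left) ?_, lt_of_le_not_ge inf_le_right ?_⟩
  · intro h
    exact TransvGL.transv_not_mem_subspaceStabilizer (hφ0 w hw) hwU hu hφu
      (h ⟨TransvGL.transv_mem_subspaceStabilizer (hφ0 w hw) (Or.inl hw),
        TransvGL.transv_mem_specialLinear (hφ0 w hw)⟩).1.2
  · intro h
    exact TransvGL.transv_not_mem_subspaceStabilizer hψu huW hw hψw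
      (h (TransvGL.transv_mem_specialLinear hψu)).1

end Cfsg.Agent.S5633
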