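import Cfsg.Statements.S5634
import Cfsg.Agent.Eq.Def_GeometricClasses
import Cfsg.Agent.Classical.BlockOvergroup
import Cfsg.Agent.Classical.MonoOvergroup

set_option autoImplicit false
open Cfsg

namespace Cfsg.Agent.S5634

/-- For a finite field F with q elements and n ≥ 13, let D be a decomposition of F^n into t ≥ 2 independent subspaces of equal dimension m ≥ 1 spanning F^n. Unless m = 1 and q ≤ 4, or m = 2 and q = 2, the elements of SL_n(F) permuting the members of D form a maximal subgroup of SL_n(F). -/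
theorem result {F : Type*} [Field F] [Fintype F] (n : ℕ) (hn : 13 ≤ n) {t : ℕ} (m : ℕ) (D : Fin t → Submodule F (Fin n → F)) (hD : Cfsg.Geo.IsMDecomposition m D) (h1 : ¬ (m = 1 ∧ Fintype.card F ≤ 4)) (h2 : ¬ (m = 2 ∧ Fintype.card F = 2)) : Cfsg.Geo.IsMaximalIn (Cfsg.Geo.specialLinear (Fin n) F) (Cfsg.Geo.decompositionStabilizer D ⊓ Cfsg.Geo.specialLinear (Fin n) F) := by
  classical
  open Matrix CfsgLib.DecompProj CfsgLib.TransvGL CfsgLib.MonoBasics in
  exact (by
    have htm := mul_eq_card hD
    rw [Fintype.card_fin] at htm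
    have h2t := hD.two_le
    refine ⟨lt_of_le_of_ne inf_le_right ?_, fun M hHM hMK => ?_⟩
    · intro e
      obtain ⟨x, hx, hx0⟩ := exists_ne_zero hD ⟨0, by omega⟩
      obtain ⟨y, hy, hy0⟩ := exists_ne_zero hD ⟨1, by omega⟩
      have h01 : (⟨0, by omega⟩ : Fin t) ≠ ⟨1, by omega⟩ := by simp
      obtain ⟨ψ, hψ⟩ : ∃ ψ : Module.Dual F (Fin n → F), ψ x = 1 := by
        obtain ⟨i, hi⟩ := Function.ne_iff.1 hx0
        exact ⟨(x i)⁻¹ • LinearMap.proj i, by simpa using inv_mul_cancel₀ hi⟩
      have hφ : (ψ ∘ₗ proj hD ⟨0, by omega⟩) y = 0 := by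
        rw [LinearMap.comp_apply, proj_of_mem hD hy, if_neg h01, map_zero]
      have hT := transv_mem_specialLinear hφ
      rw [← e] at hT
      obtain ⟨j, hj⟩ := image_mem_of_stabilizer hT.1 hx
      refine not_mem_of_two hD h01 ?_ ?_ j hj
      all_goals rw [transv_mulVec, LinearMap.comp_apply, proj_of_mem hD hx, if_pos rfl, hψ, one_smul,
        map_add, proj_of_mem hD hx, proj_of_mem hD hy]
      · rw [if_pos rfl, if_neg h01, add_zero]; exact hx0
      · rw [if_pos rfl, if_neg h01.symm, zero_add]; exact hy0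
    by_cases hle : M ≤ Cfsg.Geo.decompositionStabilizer D
    · exact Or.inl (le_antisymm (le_inf hle hMK) hHM)
    obtain ⟨g, hgM, hgS⟩ := SetLike.not_le_iff_exists.1 hle
    refine Or.inr (le_antisymm hMK ?_)
    by_cases hm : 2 ≤ m
    · refine CfsgLib.BlockOvergroup.specialLinear_le hD hHM hm (fun hm2 => ⟨?_, ?_⟩) hgM hgS
      · subst hm2; omega
      · have hF : 2 < Fintype.card F := by
          have := Fintype.one_lt_card (α := F)
          have : Fintype.card F ≠ 2 := fun h => h2 ⟨hm2, h⟩
          omega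
        obtain ⟨l, hl⟩ := Finset.exists_mem_notMem_of_card_lt_card (s := ({0, 1} : Finset F))
          (t := Finset.univ) (by rw [Finset.card_univ]; exact Finset.card_le_two.trans_lt hF)
        simp only [Finset.mem_univ, Finset.mem_insert, Finset.mem_singleton, not_or, true_and] at hl
        exact ⟨l, hl⟩
    obtain rfl : m = 1 := by have := hD.pos; omega
    rw [mul_one] at htm
    subst htm
    have hq : 5 ≤ Fintype.card F := by
      by_contra hc
      exact h1 ⟨rfl, by omega⟩
    choose v hv hv0 using exists_ne_zero hD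
    have hspan : ∀ i, D i = Submodule.span F {v i} := fun i => by
      refine (Submodule.eq_of_le_of_finrank_eq ?_ ?_).symm
      · rw [Submodule.span_le, Set.singleton_subset_iff]; exact hv i
      · rw [finrank_span_singleton (hv0 i), hD.finrank_eq]
    let L : (Fin t → F) →ₗ[F] (Fin t → F) := Fintype.linearCombination F v
    have hinj : Function.Injective L := by
      rw [injective_iff_map_eq_zero]
      intro x hx
      funext j
      have h := proj_eq_of_sum hD (y := fun i => x i • v i)
        (fun i => Submodule.smul_mem _ _ (hv i)) j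
      rw [show ∑ i, x i • v i = 0 from hx, map_zero] at h
      exact (smul_eq_zero.1 h.symm).resolve_right (hv0 j)
    set P : GL (Fin t) F := ofEquiv (LinearEquiv.ofInjectiveEndo L hinj) with hPdef
    have hP : ∀ i, (P : Matrix (Fin t) (Fin t) F) *ᵥ Pi.single i 1 = v i := fun i => by
      rw [hPdef, ofEquiv_mulVec, LinearEquiv.coe_ofInjectiveEndo]
      simp [L]
    have key : ∀ x : GL (Fin t) F, IsMono x →
        P * x * P⁻¹ ∈ Cfsg.Geo.decompositionStabilizer D := by
      intro x hx
      choose π hπ using hx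
      refine mem_decompositionStabilizer_of_maps hD
        (Equiv.ofBijective π (Finite.injective_iff_bijective.1 (mono_index_injective hπ)))
        fun i y hy => ?_
      rw [hspan] at hy
      obtain ⟨c, rfl⟩ := Submodule.mem_span_singleton.1 hy
      obtain ⟨d, hd⟩ := Submodule.mem_span_singleton.1 (hπ i)
      rw [mulVec_smul, ← hP i, Units.val_mul, Units.val_mul, ← mulVec_mulVec, ← mulVec_mulVec,
        inv_mulVec_mulVec, ← hd, mulVec_smul, hP, Equiv.ofBijective_apply, hspan]
      exact Submodule.smul_mem _ _ (Submodule.smul_mem _ _ (Submodule.mem_span_singleton_self _))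
    have hdet : ∀ x : GL (Fin t) F,
        P * x * P⁻¹ ∈ Cfsg.Geo.specialLinear (Fin t) F ↔ x ∈ Cfsg.Geo.specialLinear (Fin t) F := by
      intro x
      show Matrix.GeneralLinearGroup.det _ = 1 ↔ Matrix.GeneralLinearGroup.det x = 1
      rw [map_mul, map_mul, map_inv, mul_inv_cancel_comm]
    set M' := M.comap (MulAut.conj P).toMonoidHom with hM'
    have hmem : ∀ x, x ∈ M' ↔ P * x * P⁻¹ ∈ M := fun x => Iff.rfl
    have hconj : ∀ x : GL (Fin t) F, P * (P⁻¹ * x * P) * P⁻¹ = x := fun x => by group
    have hall := CfsgLib.MonoOvergroup.specialLinear_le (M := M') hq (by rw [Fintype.card_fin]; exact hn)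
      (fun x hx hmo => (hmem x).2 (hHM (Subgroup.mem_inf.2 ⟨key x hmo, (hdet x).2 hx⟩)))
      (fun x hx => (hdet x).1 (hMK ((hmem x).1 hx)))
      (g := P⁻¹ * g * P) ((hmem _).2 ((hconj g).symm ▸ hgM))
      (fun h => hgS (hconj g ▸ key _ h))
    intro s hs
    have := (hmem _).1 (hall ((hdet (P⁻¹ * s * P)).1 ((hconj s).symm ▸ hs)))
    rwa [hconj] at this)

end Cfsg.Agent.S5634
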