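import Cfsg.Statements.S5635
import Cfsg.Agent.Classical.TransvAlg
import Cfsg.Agent.Classical.DecompProj
import Cfsg.Agent.Classical.SmallFieldFacts
import Cfsg.Agent.Eq.Def_GeometricClasses
import Cfsg.Agent.Eq.Def_Classical

set_option autoImplicit false
open Cfsg

namespace Cfsg.Agent.S5635

section

open Matrix CfsgLib CfsgLib.TransvGL

variable {F : Type*} [Field F] [Fintype F] {n t : ℕ}

/-- Preserving a two-variable function, as a subgroup of GL. -/
abbrev keeps (B : (Fin n → F) → (Fin n → F) → F) : Subgroup (GL (Fin n) F) :=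
  Cfsg.preserving (Cfsg.glToMat (Fin n) F) B

theorem mem_keeps {B : (Fin n → F) → (Fin n → F) → F} {g : GL (Fin n) F} :
    g ∈ keeps B ↔ ∀ x y, B ((g : Matrix (Fin n) (Fin n) F) *ᵥ x) ((g : Matrix (Fin n) (Fin n) F) *ᵥ y) = B x y :=
  Iff.rfl

/-- The case of lines over a field of at most 4 elements. -/
theorem case_one (D : Fin t → Submodule F (Fin n → F)) (hD : Cfsg.Geo.IsMDecomposition 1 D)
    (hn : 13 ≤ n) (h : Fintype.card F ≤ 4) :
    ∃ K : Subgroup (GL (Fin n) F), Cfsg.Geo.decompositionStabilizer D ⊓ Cfsg.Geo.specialLinear (Fin n) F < K ∧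
      K < Cfsg.Geo.specialLinear (Fin n) F := by
  classical
  have ht : 13 ≤ t := by
    have := DecompProj.mul_eq_card hD
    simp at this
    omega
  choose e he he0 using fun i => DecompProj.exists_ne_zero hD i
  set P := DecompProj.proj hD with hP
  have hline : ∀ i, ∀ y ∈ D i, ∃ c : F, y = c • e i := by
    intro i y hy
    have : Submodule.span F {e i} = D i := Submodule.eq_of_le_of_finrank_le
      ((Submodule.span_singleton_le_iff_mem _ _).2 (he i))
      (by rw [finrank_span_singleton (he0 i), hD.finrank_eq])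
    rw [← this] at hy
    obtain ⟨c, rfl⟩ := Submodule.mem_span_singleton.1 hy
    exact ⟨c, rfl⟩
  choose co hco using fun i x => hline i _ (DecompProj.proj_mem hD i x)
  have co_inj : ∀ i (a b : F), a • e i = b • e i → a = b := fun i a b hab => smul_left_injective F (he0 i) hab
  have co_add : ∀ i x y, co i (x + y) = co i x + co i y := fun i x y => co_inj i _ _ (by
    rw [add_smul, ← hco, ← hco, ← hco, map_add])
  have co_smul : ∀ i (c : F) x, co i (c • x) = c * co i x := fun i c x => co_inj i _ _ (by
    rw [mul_smul, ← hco, ← hco, map_smul])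
  have co_e : ∀ i j, co i (e j) = if i = j then 1 else 0 := by
    intro i j
    apply co_inj i
    rw [← hco, DecompProj.proj_of_mem hD (he j)]
    split_ifs with hh
    · subst hh; simp
    · simp
  obtain ⟨ex, hcases⟩ : ∃ ex : ℕ, (Fintype.card F = ex + 2 ∧ ex ≤ 2) := by
    have := Fintype.one_lt_card (α := F)
    exact ⟨Fintype.card F - 2, by omega⟩
  obtain ⟨hex, hex2⟩ := hcases
  have hunit : ∀ c : F, c ≠ 0 → c * c ^ ex = 1 := by
    intro c hc
    have := SmallField.pow_pred_eq_one hc
    rw [hex] at this
    rw [← pow_succ']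
    exact this
  set B : (Fin n → F) → (Fin n → F) → F := fun x y => ∑ i, co i x * (co i y) ^ ex with hB
  let i0 : Fin t := ⟨0, by omega⟩
  let i1 : Fin t := ⟨1, by omega⟩
  refine ⟨keeps B ⊓ Cfsg.Geo.specialLinear (Fin n) F, lt_of_le_not_ge ?_ ?_,
    lt_of_le_not_ge inf_le_right ?_⟩
  · -- monomial maps keep B
    rintro g ⟨⟨σ, hσ⟩, hg⟩
    refine ⟨mem_keeps.2 fun x y => ?_, hg⟩
    simp only [hB]
    rw [← Equiv.sum_comp σ]
    refine Finset.sum_congr rfl fun i _ => ?_
    have hge : (g : Matrix (Fin n) (Fin n) F) *ᵥ e i ∈ D (σ i) := hσ i ▸ ⟨e i, he i, Matrix.toLin'_apply _ _⟩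
    obtain ⟨c, hc⟩ := hline _ _ hge
    have hc0 : c ≠ 0 := fun h0 => by
      rw [h0, zero_smul] at hc
      have := congrArg (((g⁻¹ : GL (Fin n) F) : Matrix (Fin n) (Fin n) F) *ᵥ ·) hc
      simp only [inv_mulVec_mulVec, Matrix.mulVec_zero] at this
      exact he0 i this
    have key : ∀ z, co (σ i) ((g : Matrix (Fin n) (Fin n) F) *ᵥ z) = co i z * c := fun z => co_inj (σ i) _ _ (by
      rw [← hco, DecompProj.proj_mulVec hD hσ, hco, Matrix.mulVec_smul, hc, smul_smul])
    rw [key, key, mul_pow]
    linear_combination (co i x * co i y ^ ex) * hunit c hc0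
  · intro hle
    -- two commuting dilatransvections
    let i2 : Fin t := ⟨2, by omega⟩
    let i3 : Fin t := ⟨3, by omega⟩
    let S : Finset (Fin t) := {i0, i1, i2, i3}
    have hS : S.card = 4 := by
      simp [S, i0, i1, i2, i3, Fin.ext_iff]
    let S' : Finset (Fin t) := (Finset.univ.filter fun i : Fin t => 4 ≤ i.val ∧ i.val < 8)
    have hS' : S'.card = 4 := by
      have : S' = ({⟨4, by omega⟩, ⟨5, by omega⟩, ⟨6, by omega⟩, ⟨7, by omega⟩} : Finset (Fin t)) := by
        ext i
        simp only [S', Finset.mem_filter, Finset.mem_univ, true_and, Finset.mem_insert, Finset.mem_singleton,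
          Fin.ext_iff]
        omega
      rw [this]
      simp [Fin.ext_iff]
    have hdis : ∀ i, i ∈ S → i ∉ S' := by
      intro i hi
      simp only [S, Finset.mem_insert, Finset.mem_singleton] at hi
      simp only [S', Finset.mem_filter, Finset.mem_univ, true_and, not_and]
      rcases hi with rfl | rfl | rfl | rfl <;> simp [i0, i1, i2, i3]
    let φ : Finset (Fin t) → Module.Dual F (Fin n → F) := fun T =>
      { toFun := fun x => ∑ i ∈ T, co i x
        map_add' := fun x y => by simp [co_add, Finset.sum_add_distrib]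
        map_smul' := fun c x => by simp [co_smul, Finset.mul_sum] }
    let v : Finset (Fin t) → (Fin n → F) := fun T => ∑ i ∈ T, e i
    have cov : ∀ T i, co i (v T) = if i ∈ T then 1 else 0 := by
      intro T i
      apply co_inj i
      rw [← hco]
      simp only [v, map_sum, DecompProj.proj_of_mem hD (he _)]
      rw [Finset.sum_ite_eq T i e]
      split_ifs <;> simp
    have hphi : ∀ T, φ T (v T) = (T.card : F) := fun T => by
      show ∑ i ∈ T, co i (v T) = _
      simp [cov]
    -- the identity making 4 disappear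
    have h24 : ((1 : F) + 4) * ((1 : F) + 4) = 1 := by
      have hq := SmallField.natCast_card (F := F)
      rw [hex] at hq
      interval_cases ex <;> norm_num at hq ⊢
      · linear_combination (12 : F) * hq
      · linear_combination (8 : F) * hq
      · linear_combination (6 : F) * hq
    have h15 : IsUnit ((1 : F) + 4) := IsUnit.of_mul_eq_one _ h24
    have hu : ∀ T : Finset (Fin t), T.card = 4 → IsUnit (1 + φ T (v T)) := fun T hT => by
      rw [hphi, hT]; exact_mod_cast h15
    let g : GL (Fin n) F := ofEquiv ((LinearEquiv.dilatransvection (hu S hS)).trans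
      (LinearEquiv.dilatransvection (hu S' hS')))
    have hphi' : φ S' (v S) = 0 := by
      show ∑ i ∈ S', co i (v S) = 0
      refine Finset.sum_eq_zero fun i hi => ?_
      rw [cov, if_neg fun h => hdis i h hi]
    have hg : ∀ x, (g : Matrix (Fin n) (Fin n) F) *ᵥ x = x + φ S x • v S + φ S' x • v S' := by
      intro x
      rw [ofEquiv_mulVec, LinearEquiv.trans_apply, LinearEquiv.dilatransvection.apply,
        LinearEquiv.dilatransvection.apply, map_add, map_smul, hphi', smul_zero, add_zero]
    have hgSL : g ∈ Cfsg.Geo.specialLinear (Fin n) F := by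
      rw [Cfsg.Geo.specialLinear, MonoidHom.mem_ker, Units.ext_iff]
      show (g : Matrix (Fin n) (Fin n) F).det = 1
      rw [det_ofEquiv, LinearEquiv.coe_trans, LinearMap.det_comp, LinearEquiv.dilatransvection.coe_toLinearMap,
        LinearEquiv.dilatransvection.coe_toLinearMap, LinearMap.transvection.det,
        LinearMap.transvection.det, hphi, hphi, hS, hS']
      exact_mod_cast h24
    have hkeep : g ∈ keeps B := by
      refine mem_keeps.2 fun x y => ?_
      simp only [hB, hg, co_add, co_smul, cov]
      generalize hcx : (fun i => co i x) = X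
      generalize hcy : (fun i => co i y) = Y
      have eX : ∀ i, co i x = X i := fun i => by rw [← hcx]
      have eY : ∀ i, co i y = Y i := fun i => by rw [← hcy]
      have ha : φ S x = ∑ i ∈ S, X i := by
        show ∑ i ∈ S, co i x = _
        exact Finset.sum_congr rfl fun i _ => eX i
      have ha' : φ S' x = ∑ i ∈ S', X i := by
        show ∑ i ∈ S', co i x = _
        exact Finset.sum_congr rfl fun i _ => eX i
      have hb : φ S y = ∑ i ∈ S, Y i := by
        show ∑ i ∈ S, co i y = _
        exact Finset.sum_congr rfl fun i _ => eY i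
      have hb' : φ S' y = ∑ i ∈ S', Y i := by
        show ∑ i ∈ S', co i y = _
        exact Finset.sum_congr rfl fun i _ => eY i
      simp only [eX, eY, ha, ha', hb, hb']
      generalize hA : ∑ i ∈ S, X i = a
      generalize hA' : ∑ i ∈ S', X i = a'
      generalize hBB : ∑ i ∈ S, Y i = b
      generalize hBB' : ∑ i ∈ S', Y i = b'
      -- a single block
      have block : ∀ (T : Finset (Fin t)) (p r : F), T.card = 4 → ∑ i ∈ T, X i = p → ∑ i ∈ T, Y i = r →
          ∑ i ∈ T, (X i + p) * (Y i + r) ^ ex = ∑ i ∈ T, X i * Y i ^ ex := by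
        intro T p r hT hp hr
        have hq := SmallField.natCast_card (F := F)
        rw [hex] at hq
        interval_cases ex
        · simp only [pow_zero, mul_one, Finset.sum_add_distrib, Finset.sum_const, hT, hp, nsmul_eq_mul]
          norm_num at hq
          push_cast
          linear_combination (2 * p) * hq
        · simp only [pow_one, add_mul, mul_add, Finset.sum_add_distrib, ← Finset.sum_mul, ← Finset.mul_sum,
            Finset.sum_const, hT, hp, hr, nsmul_eq_mul]
          norm_num at hq
          push_cast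
          linear_combination (2 * (p * r)) * hq
        · have h2 : (2 : F) = 0 := SmallField.two_eq_zero_of_card_four hex
          have sq : ∀ i, (Y i + r) ^ 2 = Y i ^ 2 + r ^ 2 := fun i => by linear_combination Y i * r * h2
          have sqs : ∑ i ∈ T, Y i ^ 2 = r ^ 2 := by
            let s : F →+ F := { toFun := fun a => a ^ 2, map_zero' := by simp,
                                map_add' := fun a c => by linear_combination a * c * h2 }
            rw [← hr]
            exact (map_sum s Y T).symm
          simp only [sq, add_mul, mul_add, Finset.sum_add_distrib, ← Finset.sum_mul, ← Finset.mul_sum,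
            Finset.sum_const, hT, hp, sqs, nsmul_eq_mul]
          push_cast
          linear_combination (3 * (p * r ^ 2)) * h2
      have bS := block S a b hS hA hBB
      have bS' := block S' a' b' hS' hA' hBB'
      rw [← Finset.sum_add_sum_compl S, ← Finset.sum_add_sum_compl S (fun i => X i * Y i ^ ex)]
      congr 1
      · rw [← bS]
        exact Finset.sum_congr rfl fun i hi => by simp [hi, hdis i hi]
      · have hsub : S' ⊆ Sᶜ := fun i hi => Finset.mem_compl.2 fun h => hdis i h hi
        rw [← Finset.sum_sdiff hsub, ← Finset.sum_sdiff hsub (f := fun i => X i * Y i ^ ex)]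
        congr 1
        · refine Finset.sum_congr rfl fun i hi => ?_
          simp only [Finset.mem_sdiff, Finset.mem_compl] at hi
          simp [hi.1, hi.2]
        · rw [← bS']
          refine Finset.sum_congr rfl fun i hi => ?_
          simp [hi, show i ∉ S from fun h => hdis i h hi]
    obtain ⟨j, hj⟩ := DecompProj.image_mem_of_stabilizer (hle ⟨hkeep, hgSL⟩).1 (he i0)
    have h0S : i0 ∈ S := by simp [S]
    have hval : φ S (e i0) = 1 := by
      show ∑ i ∈ S, co i (e i0) = 1
      simp [co_e, h0S]
    have hval' : φ S' (e i0) = 0 := by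
      show ∑ i ∈ S', co i (e i0) = 0
      refine Finset.sum_eq_zero fun i hi => ?_
      rw [co_e, if_neg]
      rintro rfl; exact hdis _ h0S hi
    rw [hg, hval, hval', one_smul, zero_smul, add_zero] at hj
    have other : ∀ i ∈ S, i ≠ i0 → DecompProj.proj hD i (e i0 + v S) ≠ 0 := by
      intro i hi hi0
      rw [hco]
      refine smul_ne_zero ?_ (he0 i)
      rw [co_add, co_e, cov, if_pos hi, if_neg hi0, zero_add]
      exact one_ne_zero
    exact DecompProj.not_mem_of_two hD (show i1 ≠ i2 by simp [i1, i2])
      (other i1 (by simp [S]) (by simp [i0, i1])) (other i2 (by simp [S]) (by simp [i0, i2])) j hj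
  · intro hle
    have h01 : i0 ≠ i1 := by simp [i0, i1]
    let φ : Module.Dual F (Fin n → F) :=
      { toFun := fun x => co i1 x
        map_add' := co_add i1
        map_smul' := co_smul i1 }
    have hφ : φ (e i0) = 0 := by show co i1 (e i0) = 0; rw [co_e, if_neg h01.symm]
    have h3 := mem_keeps.1 (hle (transv_mem_specialLinear hφ)).1 (e i1) (e i1)
    have h1' : φ (e i1) = 1 := by show co i1 (e i1) = 1; rw [co_e, if_pos rfl]
    rw [transv_mulVec, h1', one_smul] at h3
    simp only [hB, co_add, co_e] at h3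
    have hR : ∑ i : Fin t, (if i = i1 then (1 : F) else 0) * (if i = i1 then (1 : F) else 0) ^ ex = 1 := by
      rw [Finset.sum_eq_single i1] <;> simp +contextual
    have hL : ∑ i : Fin t, ((if i = i1 then (1 : F) else 0) + if i = i0 then 1 else 0) *
        ((if i = i1 then (1 : F) else 0) + if i = i0 then 1 else 0) ^ ex = 1 + 1 := by
      rw [Finset.sum_eq_add i0 i1 h01] <;> simp +contextual [h01, h01.symm]
    rw [hR, hL] at h3
    simp at h3

/-- The case of planes over two elements. -/
theorem case_two (D : Fin t → Submodule F (Fin n → F)) (hD : Cfsg.Geo.IsMDecomposition 2 D)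
    (hn : 13 ≤ n) (hq : Fintype.card F = 2) :
    ∃ K : Subgroup (GL (Fin n) F), Cfsg.Geo.decompositionStabilizer D ⊓ Cfsg.Geo.specialLinear (Fin n) F < K ∧
      K < Cfsg.Geo.specialLinear (Fin n) F := by
  classical
  have h2 := SmallField.two_eq_zero_of_card_two hq
  have h01 := SmallField.eq_zero_or_one hq
  have ht : 3 ≤ t := by
    have := DecompProj.mul_eq_card hD
    simp at this
    omega
  have self2 : ∀ x : Fin n → F, x + x = 0 := fun x => by rw [← two_smul F x, h2, zero_smul]
  -- a basis of each member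
  have hbas : ∀ i, ∃ α β : Module.Dual F (Fin n → F), ∃ a ∈ D i, ∃ b ∈ D i,
      α a = 1 ∧ α b = 0 ∧ β a = 0 ∧ β b = 1 ∧ (∀ x ∈ D i, x = α x • a + β x • b) ∧
      (∀ x, α x = α (DecompProj.proj hD i x)) ∧ (∀ x, β x = β (DecompProj.proj hD i x)) := by
    intro i
    let bb : Module.Basis (Fin 2) F (D i) := Module.finBasisOfFinrankEq F (D i) (hD.finrank_eq i)
    let pr : (Fin n → F) →ₗ[F] D i := (DecompProj.proj hD i).codRestrict (D i) (DecompProj.proj_mem hD i)
    have hpr : ∀ y : D i, pr y = y := fun y => Subtype.ext (by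
      show DecompProj.proj hD i (y : Fin n → F) = y
      rw [DecompProj.proj_of_mem hD y.2, if_pos rfl])
    refine ⟨bb.coord 0 ∘ₗ pr, bb.coord 1 ∘ₗ pr, bb 0, (bb 0).2, bb 1, (bb 1).2, ?_, ?_, ?_, ?_, ?_, ?_, ?_⟩
    · simp [hpr]
    · simp [hpr]
    · simp [hpr]
    · simp [hpr]
    · intro x hx
      have h := congrArg Subtype.val (bb.sum_repr ⟨x, hx⟩)
      rw [Fin.sum_univ_two] at h
      simp only [Submodule.coe_add, Submodule.coe_smul] at h
      simp only [LinearMap.comp_apply, hpr ⟨x, hx⟩, Module.Basis.coord_apply]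
      exact h.symm
    · intro x; simp only [LinearMap.comp_apply]; rw [← hpr (pr x)]; rfl
    · intro x; simp only [LinearMap.comp_apply]; rw [← hpr (pr x)]; rfl
  choose α β a ha b hb αa αb βa βb hexp hαP hβP using hbas
  set B : (Fin n → F) → (Fin n → F) → F := fun x y => ∑ i, (α i x * β i y + β i x * α i y) with hB
  have off : ∀ i j, i ≠ j → ∀ x ∈ D j, α i x = 0 ∧ β i x = 0 := fun i j hij x hx => by
    rw [hαP, hβP, DecompProj.proj_of_mem hD hx, if_neg hij, map_zero, map_zero]; exact ⟨rfl, rfl⟩
  have indic : ∀ i, ∀ u ∈ D i, ∀ w ∈ D i,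
      α i u * β i w + β i u * α i w = if u = 0 ∨ w = 0 ∨ u = w then 0 else 1 := by
    intro i u hu w hw
    have eu := hexp i u hu
    have ew := hexp i w hw
    have a0 : a i ≠ 0 := fun h => by simpa [h] using αa i
    have b0 : b i ≠ 0 := fun h => by simpa [h] using βb i
    have ab : a i ≠ b i := fun h => by have := αa i; rw [h, αb] at this; exact zero_ne_one this
    have ab0 : a i + b i ≠ 0 := fun h => by
      have := congrArg (α i) h
      rw [map_add, αa, αb, add_zero, map_zero] at this; exact one_ne_zero this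
    have a_ab : a i ≠ a i + b i := fun h => b0 (left_eq_add.1 h)
    have b_ab : b i ≠ a i + b i := fun h => a0 (right_eq_add.1 h)
    have h11 : (1 : F) + 1 = 0 := by rw [one_add_one_eq_two]; exact h2
    rcases h01 (α i u) with p | p <;> rcases h01 (β i u) with q | q <;>
      rcases h01 (α i w) with r | r <;> rcases h01 (β i w) with s | s <;>
      rw [p, q] at eu ⊢ <;> rw [r, s] at ew ⊢ <;> simp only [zero_smul, one_smul, add_zero, zero_add] at eu ew <;>
      subst eu ew <;>
      simp [a0, b0, ab, ab.symm, ab0, a_ab, a_ab.symm, b_ab, b_ab.symm, h11]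
  have hBP : ∀ x y, B x y = ∑ i, if DecompProj.proj hD i x = 0 ∨ DecompProj.proj hD i y = 0 ∨
      DecompProj.proj hD i x = DecompProj.proj hD i y then 0 else 1 := fun x y =>
    Finset.sum_congr rfl fun i _ => by
      rw [hαP i x, hβP i y, hβP i x, hαP i y, indic i _ (DecompProj.proj_mem hD i x) _ (DecompProj.proj_mem hD i y)]
  let i0 : Fin t := ⟨0, by omega⟩
  let i1 : Fin t := ⟨1, by omega⟩
  let i2 : Fin t := ⟨2, by omega⟩
  have e01 : i0 ≠ i1 := by simp [i0, i1]
  have e02 : i0 ≠ i2 := by simp [i0, i2]
  have e12 : i1 ≠ i2 := by simp [i1, i2]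
  refine ⟨keeps B ⊓ Cfsg.Geo.specialLinear (Fin n) F, lt_of_le_not_ge ?_ ?_,
    lt_of_le_not_ge inf_le_right ?_⟩
  · rintro g ⟨⟨σ, hσ⟩, hg⟩
    refine ⟨mem_keeps.2 fun x y => ?_, hg⟩
    rw [hBP, hBP, ← Equiv.sum_comp σ]
    refine Finset.sum_congr rfl fun i _ => ?_
    have hinj : Function.Injective fun z => (g : Matrix (Fin n) (Fin n) F) *ᵥ z := fun u w h => by
      have := congrArg (((g⁻¹ : GL (Fin n) F) : Matrix (Fin n) (Fin n) F) *ᵥ ·) h
      simpa only [inv_mulVec_mulVec] using this
    have z : ∀ u, (g : Matrix (Fin n) (Fin n) F) *ᵥ u = 0 ↔ u = 0 := fun u =>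
      ⟨fun h => hinj (h.trans (Matrix.mulVec_zero _).symm), fun h => by rw [h, Matrix.mulVec_zero]⟩
    rw [DecompProj.proj_mulVec hD hσ, DecompProj.proj_mulVec hD hσ]
    by_cases hc : DecompProj.proj hD i x = 0 ∨ DecompProj.proj hD i y = 0 ∨
        DecompProj.proj hD i x = DecompProj.proj hD i y
    · rw [if_pos hc, if_pos]
      exact hc.imp (z _).2 (Or.imp (z _).2 fun h => by rw [h])
    · rw [if_neg hc, if_neg]
      exact fun h => hc (h.imp (z _).1 (Or.imp (z _).1 fun h => hinj h))
  · intro hle
    obtain ⟨v, hv⟩ : ∃ v, v = a i0 + a i1 + a i2 := ⟨_, rfl⟩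
    have hBlin : ∀ x y z, B (x + y) z = B x z + B y z := fun x y z => by
      simp only [hB, map_add, ← Finset.sum_add_distrib]
      exact Finset.sum_congr rfl fun i _ => by ring
    have hBs : ∀ (c : F) x z, B (c • x) z = c * B x z := fun c x z => by
      simp only [hB, map_smul, smul_eq_mul, Finset.mul_sum]
      exact Finset.sum_congr rfl fun i _ => by ring
    have hBc : ∀ x y, B x y = B y x := fun x y => Finset.sum_congr rfl fun i _ => by ring
    have hBaa : ∀ x, B x x = 0 := fun x => Finset.sum_eq_zero fun i _ => by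
      linear_combination (α i x * β i x) * h2
    let φ : Module.Dual F (Fin n → F) :=
      { toFun := fun x => B x v, map_add' := fun x y => hBlin x y v, map_smul' := fun c x => hBs c x v }
    have hφ : φ v = 0 := hBaa v
    have hT : ∀ x, (transv hφ : Matrix (Fin n) (Fin n) F) *ᵥ x = x + B x v • v := fun x => transv_mulVec hφ x
    have hBr : ∀ x y z, B x (y + z) = B x y + B x z := fun x y z => by
      rw [hBc, hBlin, hBc y, hBc z]
    have hBrs : ∀ (c : F) x y, B x (c • y) = c * B x y := fun c x y => by
      rw [hBc, hBs, hBc y]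
    have hkeep : transv hφ ∈ keeps B := mem_keeps.2 fun x y => by
      rw [hT, hT, hBlin, hBs, hBr, hBrs, hBr, hBrs, hBaa v, hBc v y]
      linear_combination (B x v * B y v) * h2
    obtain ⟨j, hj⟩ := DecompProj.image_mem_of_stabilizer (hle ⟨hkeep, transv_mem_specialLinear hφ⟩).1 (hb i0)
    have hbv : B (b i0) v = 1 := by
      simp only [hB]
      rw [Finset.sum_eq_single i0]
      · rw [αb, βb, zero_mul, zero_add, one_mul, hv, map_add, map_add, αa, (off i0 i1 e01 _ (ha i1)).1,
          (off i0 i2 e02 _ (ha i2)).1]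
        ring
      · intro i _ hi
        rw [(off i i0 hi _ (hb i0)).1, (off i i0 hi _ (hb i0)).2]; ring
      · simp
    rw [hT, hbv, one_smul] at hj
    have a0 : ∀ i, a i ≠ 0 := fun i h => by simpa [h] using αa i
    refine DecompProj.not_mem_of_two hD e12 ?_ ?_ j hj <;>
    simp [hv, DecompProj.proj_of_mem hD (hb _), DecompProj.proj_of_mem hD (ha _), e01.symm, e02.symm, e12,
      e12.symm, a0]
  · intro hle
    have hφ : α i1 (a i0) = 0 := (off i1 i0 e01.symm _ (ha i0)).1
    have h3 := mem_keeps.1 (hle (transv_mem_specialLinear hφ)).1 (b i0) (a i1)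
    rw [transv_mulVec, transv_mulVec, (off i1 i0 e01.symm _ (hb i0)).1, αa, zero_smul, add_zero, one_smul] at h3
    simp only [hB] at h3
    have hL : ∑ i, (α i (b i0) * β i (a i1 + a i0) + β i (b i0) * α i (a i1 + a i0)) = (1 : F) := by
      rw [Finset.sum_eq_single i0]
      · rw [αb, βb, map_add, map_add, (off i0 i1 e01 _ (ha i1)).1, (off i0 i1 e01 _ (ha i1)).2, αa, βa]
        ring
      · intro i _ hi; rw [(off i i0 hi _ (hb i0)).1, (off i i0 hi _ (hb i0)).2]; ring
      · simp
    have hR : ∑ i, (α i (b i0) * β i (a i1) + β i (b i0) * α i (a i1)) = (0 : F) := by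
      refine Finset.sum_eq_zero fun i _ => ?_
      by_cases hi : i = i0
      · rw [hi, αb, (off i0 i1 e01 _ (ha i1)).1]; ring
      · rw [(off i i0 hi _ (hb i0)).1, (off i i0 hi _ (hb i0)).2]; ring
    rw [hL, hR] at h3
    exact one_ne_zero h3

end

/-- For a finite field F with q elements and n ≥ 13, let D be a decomposition of F^n into t ≥ 2 independent subspaces of equal dimension m spanning F^n, where m = 1 and q ≤ 4, or m = 2 and q = 2. Then the elements of SL_n(F) permuting the members of D form a subgroup that is not maximal: some subgroup lies strictly between it and SL_n(F). -/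
theorem result {F : Type*} [Field F] [Fintype F] (n : ℕ) (hn : 13 ≤ n) {t : ℕ} (m : ℕ) (D : Fin t → Submodule F (Fin n → F)) (hD : Cfsg.Geo.IsMDecomposition m D) (h : (m = 1 ∧ Fintype.card F ≤ 4) ∨ (m = 2 ∧ Fintype.card F = 2)) : ∃ K : Subgroup (Matrix.GeneralLinearGroup (Fin n) F), Cfsg.Geo.decompositionStabilizer D ⊓ Cfsg.Geo.specialLinear (Fin n) F < K ∧ K < Cfsg.Geo.specialLinear (Fin n) F := by
  rcases h with ⟨rfl, hq⟩ | ⟨rfl, hq⟩
  · exact case_one D hD hn hq
  · exact case_two D hD hn hq

end Cfsg.Agent.S5635
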