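import Cfsg.Statements.S5638
import Cfsg.Agent.Classical.SmallFieldFacts
import Cfsg.Agent.Eq.Def_GeometricClasses

set_option autoImplicit false
open Cfsg

namespace Cfsg.Agent.S5638

section

open Matrix Kronecker CfsgLib

variable {F : Type*} [Field F] [Fintype F]

/-- `ω` as a matrix. -/
def om (F : Type*) [Field F] : Matrix (Fin 2) (Fin 2) F := !![0, 1; 1, 1]

theorem om_sq (h2 : (2 : F) = 0) : om F * om F = om F + 1 := by
  ext i j
  fin_cases i <;> fin_cases j <;> simp [om, Matrix.mul_apply, Fin.sum_univ_two] <;>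
    linear_combination (0 : F) * h2

theorem twist (hq : Fintype.card F = 2) (a : GL (Fin 2) F) :
    (a : Matrix (Fin 2) (Fin 2) F) * om F = om F * (a : Matrix (Fin 2) (Fin 2) F) ∨
      (a : Matrix (Fin 2) (Fin 2) F) * om F = (om F + 1) * (a : Matrix (Fin 2) (Fin 2) F) := by
  have h2 := SmallField.two_eq_zero_of_card_two hq
  have h11 : (1 : F) + 1 = 0 := by rw [one_add_one_eq_two]; exact h2
  have hdet : (a : Matrix (Fin 2) (Fin 2) F).det ≠ 0 := by
    intro h
    exact ((Matrix.isUnit_iff_isUnit_det _).1 a.isUnit).ne_zero h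
  rw [Matrix.det_fin_two] at hdet
  simp only [← Matrix.ext_iff, Fin.forall_fin_two, om, Matrix.mul_apply, Fin.sum_univ_two,
    Matrix.add_apply]
  rcases SmallField.eq_zero_or_one hq ((a : Matrix (Fin 2) (Fin 2) F) 0 0) with e1 | e1 <;>
  rcases SmallField.eq_zero_or_one hq ((a : Matrix (Fin 2) (Fin 2) F) 0 1) with e2 | e2 <;>
  rcases SmallField.eq_zero_or_one hq ((a : Matrix (Fin 2) (Fin 2) F) 1 0) with e3 | e3 <;>
  rcases SmallField.eq_zero_or_one hq ((a : Matrix (Fin 2) (Fin 2) F) 1 1) with e4 | e4 <;>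
  rw [e1, e2, e3, e4] at hdet ⊢ <;>
  first
    | (left; simp [h11]; done)
    | (right; simp [h11]; done)
    | (exfalso; apply hdet; norm_num; done)

end

open Matrix Kronecker CfsgLib

/-- Over the field with 2 elements, for n = 2 n₂ ≥ 13, the stabiliser in SL_n of a tensor decomposition with factors of dimensions 2 and n₂ (the conjugate by any P of the Kronecker-product subgroup transported along any bijection Fin n ≃ Fin 2 × Fin n₂, intersected with SL_n) is not a maximal subgroup: some subgroup lies strictly between it and SL_n. -/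
theorem result {F : Type*} [Field F] [Fintype F] (n : ℕ) (hn : 13 ≤ n) (hq : Fintype.card F = 2) (n₂ : ℕ) (e : Fin n ≃ Fin 2 × Fin n₂) (P : Matrix.GeneralLinearGroup (Fin n) F) : ∃ K : Subgroup (Matrix.GeneralLinearGroup (Fin n) F), Cfsg.Geo.tensorProductSubgroup 2 n₂ e P ⊓ Cfsg.Geo.specialLinear (Fin n) F < K ∧ K < Cfsg.Geo.specialLinear (Fin n) F := by
  classical
  obtain ⟨hn2⟩ : Nonempty (n = 2 * n₂) := ⟨by simpa using Fintype.card_congr e⟩
  have h2 := SmallField.two_eq_zero_of_card_two hq
  have h11 : (1 : F) + 1 = 0 := by rw [one_add_one_eq_two]; exact h2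
  let k0 : Fin n₂ := ⟨0, by omega⟩
  let k1 : Fin n₂ := ⟨1, by omega⟩
  have hk : k0 ≠ k1 := by simp [k0, k1]
  set A : Matrix (Fin 2 × Fin n₂) (Fin 2 × Fin n₂) F := om F ⊗ₖ (1 : Matrix (Fin n₂) (Fin n₂) F) with hA
  have hAA : A * A = A + 1 := by
    rw [hA, ← Matrix.mul_kronecker_mul, om_sq h2, Matrix.mul_one, Matrix.add_kronecker,
      Matrix.one_kronecker_one]
  have hA3 : A * (A + 1) = 1 := by
    rw [Matrix.mul_add, hAA, Matrix.mul_one, add_right_comm, ← two_smul F A, h2, zero_smul, zero_add]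
  have hA3' : (A + 1) * A = 1 := by
    rw [Matrix.add_mul, hAA, Matrix.one_mul, add_right_comm, ← two_smul F A, h2, zero_smul, zero_add]
  let W : GL (Fin 2 × Fin n₂) F := ⟨A, A + 1, hA3, hA3'⟩
  have hW3 : W ^ 3 = 1 := by
    apply Units.ext
    rw [Units.val_pow_eq_pow_val]
    show A ^ 3 = 1
    rw [pow_succ', pow_two, hAA, hA3]
  let K0 : Subgroup (GL (Fin 2 × Fin n₂) F) := Subgroup.normalizer (Subgroup.zpowers W : Set _)
  -- commutation with W is enough
  have hK0 : ∀ g : GL (Fin 2 × Fin n₂) F, (g * W = W * g ∨ g * W = W * W * g) → g ∈ K0 := by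
    intro g hg
    rcases hg with hg | hg <;>
    · show g ∈ Subgroup.normalizer (Subgroup.zpowers W : Set _)
      have hle : (Subgroup.zpowers W).map (MulAut.conj g).toMonoidHom ≤ Subgroup.zpowers W := by
        rw [MonoidHom.map_zpowers, Subgroup.zpowers_le]
        show g * W * g⁻¹ ∈ Subgroup.zpowers W
        rw [hg, mul_inv_cancel_right]
        first
          | exact Subgroup.mem_zpowers W
          | exact mul_mem (Subgroup.mem_zpowers W) (Subgroup.mem_zpowers W)
      have heq := Subgroup.eq_of_le_of_card_ge hle (le_of_eq (Nat.card_congr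
        (Subgroup.equivMapOfInjective _ _ (MulAut.conj g).injective).toEquiv))
      rw [Subgroup.mem_normalizer_iff]
      intro y
      constructor
      · intro hy; exact hle ⟨y, hy, rfl⟩
      · intro hy
        rw [← heq] at hy
        obtain ⟨z, hz, hzy⟩ := hy
        exact (MulAut.conj g).injective hzy ▸ hz
  -- the transport
  let Φ : GL (Fin 2 × Fin n₂) F ≃* GL (Fin n) F := (Geo.glReindex e.symm).trans (MulAut.conj P)
  have hmap : Geo.tensorProductSubgroup 2 n₂ e P = (Geo.kroneckerSubgroup 2 n₂ F).map Φ.toMonoidHom := by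
    rw [Geo.tensorProductSubgroup, Subgroup.map_map]
    rfl
  have hSL : Geo.specialLinear (Fin n) F = ⊤ := by
    rw [eq_top_iff]
    intro g _
    rw [Geo.specialLinear, MonoidHom.mem_ker]
    exact Units.ext ((SmallField.eq_zero_or_one hq _).resolve_left (Units.ne_zero _))
  refine ⟨K0.map Φ.toMonoidHom, ?_, ?_⟩
  · rw [hSL, inf_top_eq, hmap]
    refine (Subgroup.map_lt_map_iff_of_injective Φ.injective).2 (lt_of_le_not_ge ?_ ?_)
    · rintro g ⟨a, b, hg⟩
      refine hK0 g ?_
      rcases twist hq a with h | h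
      · left; apply Units.ext
        show (g : Matrix _ _ F) * A = A * (g : Matrix _ _ F)
        rw [hg, hA, ← Matrix.mul_kronecker_mul, ← Matrix.mul_kronecker_mul, h, Matrix.mul_one, Matrix.one_mul]
      · right; apply Units.ext
        show (g : Matrix _ _ F) * A = A * A * (g : Matrix _ _ F)
        rw [hAA, hg, hA, ← Matrix.one_kronecker_one (α := F) (m := Fin 2) (n := Fin n₂),
          ← Matrix.add_kronecker, ← Matrix.mul_kronecker_mul, ← Matrix.mul_kronecker_mul, h,
          Matrix.mul_one, Matrix.one_mul]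
    · intro hle
      set E : Matrix (Fin n₂) (Fin n₂) F := Matrix.single k0 k0 1 with hE
      set R : Matrix (Fin n₂) (Fin n₂) F := 1 - E with hR
      have hEE : E * E = E := by rw [hE, Matrix.single_mul_single_same, one_mul]
      have hRR : R * R = R := by
        rw [hR, Matrix.sub_mul, Matrix.mul_sub, Matrix.mul_sub, Matrix.one_mul, Matrix.mul_one,
          Matrix.one_mul, hEE]; abel
      have hRE : R * E = 0 := by rw [hR, Matrix.sub_mul, Matrix.one_mul, hEE, sub_self]
      have hER : E * R = 0 := by rw [hR, Matrix.mul_sub, Matrix.mul_one, hEE, sub_self]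
      have hRE' : R + E = 1 := by rw [hR, sub_add_cancel]
      have hom : om F * (om F + 1) = 1 := by
        rw [Matrix.mul_add, om_sq h2, Matrix.mul_one, add_right_comm, ← two_smul F (om F), h2,
          zero_smul, zero_add]
      have hom' : (om F + 1) * om F = 1 := by
        rw [Matrix.add_mul, om_sq h2, Matrix.one_mul, add_right_comm, ← two_smul F (om F), h2,
          zero_smul, zero_add]
      have hinv : ∀ X Y : Matrix (Fin 2) (Fin 2) F, X * Y = 1 →
          ((1 : Matrix (Fin 2) (Fin 2) F) ⊗ₖ R + X ⊗ₖ E) *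
            ((1 : Matrix (Fin 2) (Fin 2) F) ⊗ₖ R + Y ⊗ₖ E) = 1 := by
        intro X Y hXY
        simp only [Matrix.mul_add, Matrix.add_mul, ← Matrix.mul_kronecker_mul, Matrix.one_mul,
          Matrix.mul_one, hRR, hEE, hRE, hER, hXY, Matrix.kronecker_zero, add_zero, zero_add]
        rw [← Matrix.kronecker_add, hRE', Matrix.one_kronecker_one]
      let g : GL (Fin 2 × Fin n₂) F :=
        ⟨(1 : Matrix (Fin 2) (Fin 2) F) ⊗ₖ R + om F ⊗ₖ E,
          (1 : Matrix (Fin 2) (Fin 2) F) ⊗ₖ R + (om F + 1) ⊗ₖ E, hinv _ _ hom, hinv _ _ hom'⟩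
      have hg : g ∈ K0 := hK0 g (Or.inl (Units.ext (by
        show ((1 : Matrix (Fin 2) (Fin 2) F) ⊗ₖ R + om F ⊗ₖ E) * A =
          A * ((1 : Matrix (Fin 2) (Fin 2) F) ⊗ₖ R + om F ⊗ₖ E)
        simp only [hA, Matrix.mul_add, Matrix.add_mul, ← Matrix.mul_kronecker_mul, Matrix.one_mul,
          Matrix.mul_one])))
      obtain ⟨a, b, hab⟩ := hle hg
      have hab' : ∀ i k j l, (1 : Matrix (Fin 2) (Fin 2) F) i j * R k l + om F i j * E k l =
          (a : Matrix (Fin 2) (Fin 2) F) i j * (b : Matrix (Fin n₂) (Fin n₂) F) k l := by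
        intro i k j l
        have h := congrFun (congrFun hab (i, k)) (j, l)
        simpa [g] using h
      have x00 := hab' 0 k0 0 k0
      have y01 := hab' 0 k1 1 k1
      have x01 := hab' 0 k0 1 k0
      have y00 := hab' 0 k1 0 k1
      simp [hR, hE, om, hk, hk.symm, Matrix.single_apply] at x00 y01 x01 y00
      rcases x00 with h | h
      · rw [h, zero_mul] at y00; exact one_ne_zero y00
      · rw [h, mul_zero] at x01; exact one_ne_zero x01
  · rw [hSL, lt_top_iff_ne_top]
    intro htop
    have hK : K0 = ⊤ := Subgroup.map_injective (f := Φ.toMonoidHom) Φ.injective (by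
      rw [htop, Subgroup.map_top_of_surjective _ Φ.surjective])
    set S : Matrix (Fin 2 × Fin n₂) (Fin 2 × Fin n₂) F := Matrix.single ((0 : Fin 2), k0) ((0 : Fin 2), k1) 1 with hS
    have hSS : S * S = 0 := by
      rw [hS, Matrix.single_mul_single_of_ne]
      simp [hk.symm]
    let g : GL (Fin 2 × Fin n₂) F := ⟨1 + S, 1 - S, by
      rw [Matrix.add_mul, Matrix.one_mul, Matrix.mul_sub, Matrix.mul_one, hSS]; abel, by
      rw [Matrix.sub_mul, Matrix.one_mul, Matrix.mul_add, Matrix.mul_one, hSS]; abel⟩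
    have hmem : g * W * g⁻¹ ∈ Subgroup.zpowers W :=
      (Subgroup.mem_normalizer_iff.1 (show g ∈ Subgroup.normalizer (Subgroup.zpowers W : Set _) from
        (hK ▸ Subgroup.mem_top g : g ∈ K0)) W).1 (Subgroup.mem_zpowers W)
    obtain ⟨z, hz⟩ := Subgroup.mem_zpowers_iff.1 hmem
    have hW3z : W ^ (3 : ℤ) = 1 := by exact_mod_cast hW3
    have hz' : W ^ (z % 3) = g * W * g⁻¹ := by rw [← hz, zpow_eq_zpow_emod z hW3z]
    have hrange : z % 3 = 0 ∨ z % 3 = 1 ∨ z % 3 = 2 := by omega
    -- compare one entry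
    have hval : ∀ X : GL (Fin 2 × Fin n₂) F, X = g * W * g⁻¹ →
        (X : Matrix _ _ F) * (1 + S) = (1 + S) * A := by
      intro X hX
      have : X * g = g * W := by rw [hX, inv_mul_cancel_right]
      exact congrArg Units.val this
    have entry : ((1 + S) * A) ((0 : Fin 2), k0) ((1 : Fin 2), k1) = 1 := by
      rw [Matrix.add_mul, Matrix.one_mul, Matrix.add_apply, hS, Matrix.single_mul_apply_same, hA]
      simp [om, hk]
    rcases hrange with h | h | h <;> rw [h] at hz'
    · have h1 := congrFun (congrFun (hval _ hz') ((0 : Fin 2), k0)) ((1 : Fin 2), k1)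
      rw [entry, zpow_zero, Units.val_one, Matrix.one_mul] at h1
      simp [hS, hk] at h1
    · have h1 := congrFun (congrFun (hval _ hz') ((0 : Fin 2), k0)) ((1 : Fin 2), k1)
      rw [entry, zpow_one, show (W : Matrix _ _ F) = A from rfl, Matrix.mul_add, Matrix.mul_one,
        Matrix.add_apply, hS, Matrix.mul_single_apply_of_ne _ _ _ _ _ (by simp)] at h1
      simp [hA, hk] at h1
    · have h1 := congrFun (congrFun (hval _ hz') ((0 : Fin 2), k0)) ((1 : Fin 2), k1)
      rw [entry, zpow_two, show ((W * W : GL (Fin 2 × Fin n₂) F) : Matrix _ _ F) = A * A from rfl,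
        hAA, Matrix.mul_add, Matrix.mul_one, Matrix.add_apply, hS,
        Matrix.mul_single_apply_of_ne _ _ _ _ _ (by simp)] at h1
      simp [hA, hk] at h1

end Cfsg.Agent.S5638
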