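import Cfsg.Statements.S5642
import Cfsg.Agent.Classical.AltFormTransv
import Cfsg.Agent.Eq.Def_GeometricClasses

set_option autoImplicit false
open Cfsg

namespace Cfsg.Agent.S5642

section

open Matrix CfsgLib.TransvGL CfsgLib.AltFormTransv

variable {F : Type*} [Field F] {n : ℕ} {f : (Fin n → F) → (Fin n → F) → F}

theorem mem_of_nonorth (hf : Cfsg.Geo.IsSymplecticForm f) {M : Subgroup (GL (Fin n) F)}
    (hM : ∀ v c, sympT hf v c ∈ M) {a b c : Fin n → F} (h : Mem hf M a b) (hc : f a c = 0)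
    (hbc : f b c ≠ 0) (t : F) : Mem hf M a (t • c) := by
  have key : Mem hf M a (b + t • c) := by
    obtain ⟨h1, h2⟩ := h
    set l : F := t / f b c with hl
    have hfix : (sympT hf c l : Matrix (Fin n) (Fin n) F) *ᵥ a = a := by
      rw [sympT_mulVec, hc, mul_zero, zero_smul, add_zero]
    have hbt : (sympT hf c l : Matrix (Fin n) (Fin n) F) *ᵥ b = b + t • c := by
      rw [sympT_mulVec, hl, div_mul_cancel₀ _ hbc]
    have h1' : pair hf (b + t • c) a = 0 := by
      rw [pair_add, LinearMap.add_apply, h1, pair_smul, LinearMap.smul_apply, pair_apply hf c, hc]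
      simp
    refine ⟨h1', ?_⟩
    rw [← conj_transv (sympT hf c l) h1 h1' hfix (fun x => by
      rw [← hbt, pair_apply, pair_apply, sympT_preserves hf])]
    exact M.mul_mem (M.mul_mem (hM c l) h2) (M.inv_mem (hM c l))
  have := key.sub h
  rwa [add_sub_cancel_left] at this

/-- All transvections with centre `a` lie in `M`. -/
def Full (hf : Cfsg.Geo.IsSymplecticForm f) (M : Subgroup (GL (Fin n) F)) (a : Fin n → F) : Prop :=
  ∀ c, f a c = 0 → Mem hf M a c

theorem full_of_mem (hf : Cfsg.Geo.IsSymplecticForm f) {M : Subgroup (GL (Fin n) F)}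
    (hM : ∀ v c, sympT hf v c ∈ M) {a b : Fin n → F} (h : Mem hf M a b)
    (hb : b ∉ Submodule.span F {a}) : Full hf M a := by
  intro c hc
  obtain ⟨d, hda, hdb⟩ := exists_sep hf hb
  have hd : f a d = 0 := orth_comm hf hda
  have hbd : f b d ≠ 0 := by
    rw [hf.skew b d, hdb]; simp
  by_cases hbc : f b c = 0
  · have h1 : Mem hf M a ((1 : F) • (c + d)) := mem_of_nonorth hf hM h
      (by rw [hf.bilinear.add_right, hc, hd, add_zero])
      (by rw [hf.bilinear.add_right, hbc, zero_add]; exact hbd) 1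
    have h2 := h1.sub (mem_of_nonorth hf hM h hd hbd 1)
    rwa [one_smul, one_smul, add_sub_cancel_right] at h2
  · simpa using mem_of_nonorth hf hM h hc hbc 1

theorem mem_swap (hf : Cfsg.Geo.IsSymplecticForm f) {M : Subgroup (GL (Fin n) F)}
    (hM : ∀ v c, sympT hf v c ∈ M) {a c : Fin n → F} (h : Mem hf M a c) :
    Mem hf M c a := by
  obtain ⟨h1, h2⟩ := h
  have hac : f a c = 0 := h1
  have hca : f c a = 0 := orth_comm hf hac
  have hca' : pair hf a c = 0 := hca
  refine ⟨hca', ?_⟩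
  have heq : transv hca' =
      (sympT hf a 1)⁻¹ * (sympT hf c 1)⁻¹ * (transv h1)⁻¹ * sympT hf (a + c) 1 := by
    rw [mul_assoc, mul_assoc, eq_inv_mul_iff_mul_eq, eq_inv_mul_iff_mul_eq, eq_inv_mul_iff_mul_eq]
    apply ext_mulVec
    intro x
    simp only [Units.val_mul, ← mulVec_mulVec, sympT_mulVec, transv_mulVec, pair_apply,
      hf.bilinear.add_left, hf.bilinear.add_right, hf.bilinear.smul_left, hac, hca, hf.alternating,
      mul_zero, add_zero, one_mul]
    module
  rw [heq]
  exact M.mul_mem (M.mul_mem (M.mul_mem (M.inv_mem (hM a 1)) (M.inv_mem (hM c 1))) (M.inv_mem h2))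
    (hM _ 1)

theorem full_step (hf : Cfsg.Geo.IsSymplecticForm f) {M : Subgroup (GL (Fin n) F)}
    (hM : ∀ v c, sympT hf v c ∈ M) {a c : Fin n → F} (ha : Full hf M a) (ha0 : a ≠ 0)
    (hac : f a c = 0) (hc : c ∉ Submodule.span F {a}) : Full hf M c := by
  refine full_of_mem hf hM (mem_swap hf hM (ha c hac)) fun h => ?_
  obtain ⟨s, hs⟩ := Submodule.mem_span_singleton.1 h
  have hs0 : s ≠ 0 := fun h0 => ha0 (by simp [← hs, h0])
  exact hc (Submodule.mem_span_singleton.2 ⟨s⁻¹, by rw [← hs, smul_smul, inv_mul_cancel₀ hs0, one_smul]⟩)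

theorem exists_orth_indep (hf : Cfsg.Geo.IsSymplecticForm f) (hn : 5 ≤ n) (a y : Fin n → F) :
    ∃ c, f a c = 0 ∧ f c y = 0 ∧ c ∉ Submodule.span F {a} ∧ c ∉ Submodule.span F {y} := by
  set L := LinearMap.prod (pair hf a) (pair hf y)
  have h1 := LinearMap.finrank_range_add_finrank_ker L
  have h2 : Module.finrank F (LinearMap.range L) ≤ 2 :=
    (Submodule.finrank_le _).trans (by simp)
  have h3 : Module.finrank F (Fin n → F) = n := Module.finrank_fin_fun F
  have h4 : ¬ (LinearMap.ker L ≤ Submodule.span F {a, y}) := fun hle => by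
    classical
    have h5 := Submodule.finrank_mono hle
    have h6 : Module.finrank F (Submodule.span F ({a, y} : Set (Fin n → F))) ≤ 2 := by
      have e := (finrank_span_finset_le_card (R := F) ({a, y} : Finset (Fin n → F))).trans
        (Finset.card_le_two)
      rw [Finset.coe_pair] at e
      exact e
    omega
  obtain ⟨c, hcL, hc⟩ := SetLike.not_le_iff_exists.1 h4
  rw [LinearMap.mem_ker] at hcL
  simp [L, LinearMap.prod_apply, Function.prod, Prod.ext_iff] at hcL
  exact ⟨c, orth_comm hf hcL.1, hcL.2,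
    fun h => hc (Submodule.span_mono (by simp) h),
    fun h => hc (Submodule.span_mono (by simp) h)⟩

theorem all_transv (hf : Cfsg.Geo.IsSymplecticForm f) (hn : 5 ≤ n) {M : Subgroup (GL (Fin n) F)}
    (hM : ∀ v c, sympT hf v c ∈ M) {a b : Fin n → F} (h : Mem hf M a b)
    (hb : b ∉ Submodule.span F {a}) (ha0 : a ≠ 0)
    (φ : Module.Dual F (Fin n → F)) (v : Fin n → F) (hv : φ v = 0) : transv hv ∈ M := by
  have hfa := full_of_mem hf hM h hb
  by_cases hv0 : v = 0
  · have : transv hv = 1 := ext_mulVec fun x => by simp [transv_mulVec, hv0]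
    rw [this]; exact one_mem M
  obtain ⟨c, hac, hcv, hca, hcv'⟩ := exists_orth_indep hf hn a v
  have hc0 : c ≠ 0 := fun h0 => hca (by simp [h0])
  have hfc := full_step hf hM hfa ha0 hac hca
  have hvc : v ∉ Submodule.span F {c} := by
    intro h'
    obtain ⟨s, hs⟩ := Submodule.mem_span_singleton.1 h'
    have hs0 : s ≠ 0 := fun h0 => hv0 (by simp [← hs, h0])
    exact hcv' (Submodule.mem_span_singleton.2
      ⟨s⁻¹, by rw [← hs, smul_smul, inv_mul_cancel₀ hs0, one_smul]⟩)
  have hfv := full_step hf hM hfc hc0 hcv hvc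
  obtain ⟨d, hd⟩ := exists_pair_eq hf φ
  subst hd
  exact (hfv d hv).2

theorem transv_not_similarity (hf : Cfsg.Geo.IsSymplecticForm f) {a b : Fin n → F}
    (ha0 : a ≠ 0) (h : pair hf b a = 0) (hb : b ∉ Submodule.span F {a}) :
    transv h ∉ Cfsg.Geo.similarityGroup f := by
  rintro ⟨c, hc⟩
  obtain ⟨y, hya, hyb⟩ := exists_sep hf hb
  obtain ⟨x, hxa⟩ := (hf.nondegenerate a ha0).1
  have e1 := hc x a
  rw [pair_apply] at h
  simp only [transv_mulVec, pair_apply, hf.bilinear.add_left, hf.bilinear.add_right,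
    hf.bilinear.smul_left, hf.bilinear.smul_right, hf.alternating, h] at e1
  have hc1 : (c : F) = 1 := mul_right_cancel₀ hxa (by linear_combination -e1)
  have e2 := hc x y
  simp only [transv_mulVec, pair_apply, hf.bilinear.add_left, hf.bilinear.add_right,
    hf.bilinear.smul_left, hf.bilinear.smul_right, hf.alternating, hc1, hyb,
    orth_comm hf hya] at e2
  exact hxa (by linear_combination e2)

/-- If all conjugates of symplectic transvections are symplectic, we have a similitude. -/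
theorem mem_similarity_of (hf : Cfsg.Geo.IsSymplecticForm f) {g : GL (Fin n) F}
    (h : ∀ v : Fin n → F, ∃ s : F, ∀ x, f ((g : Matrix (Fin n) (Fin n) F) *ᵥ x)
      ((g : Matrix (Fin n) (Fin n) F) *ᵥ v) = s * f x v) :
    g ∈ Cfsg.Geo.similarityGroup f := by
  choose s hs using h
  have hskew : ∀ v w, f v w ≠ 0 → s v = s w := by
    intro v w hvw
    have h1 := hs w v
    have h2 := hs v w
    rw [hf.skew, h2, hf.skew w v] at h1
    exact mul_right_cancel₀ hvw (by linear_combination h1)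
  have hconst : ∀ v w, v ≠ 0 → w ≠ 0 → s v = s w := fun v w hv hw => by
    obtain ⟨z, h1, h2⟩ := exists_common_nonorth hf hv hw
    exact (hskew v z h1).trans (hskew w z h2).symm
  by_cases hex : ∀ v : Fin n → F, v = 0
  · exact ⟨1, fun u v => by rw [hex u, hex v]; simp [zero_left hf]⟩
  push Not at hex
  obtain ⟨v0, hv0⟩ := hex
  have hs0 : s v0 ≠ 0 := by
    intro h0
    have hgv : (g : Matrix (Fin n) (Fin n) F) *ᵥ v0 ≠ 0 := fun h => hv0 (by
      simpa [inv_mulVec_mulVec] using congrArg (((g⁻¹ : GL (Fin n) F) : Matrix (Fin n) (Fin n) F) *ᵥ ·) h)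
    obtain ⟨z, hz⟩ := (hf.nondegenerate _ hgv).1
    apply hz
    rw [← mulVec_inv_mulVec g z, hs, h0, zero_mul]
  refine ⟨Units.mk0 _ hs0, fun u v => ?_⟩
  by_cases hv : v = 0
  · simp [hv, zero_right hf]
  · rw [hs, hconst v v0 hv hv0]; rfl

end

open Matrix CfsgLib.TransvGL CfsgLib.AltFormTransv

/-- For a finite field F and n ≥ 13, let f be a non-degenerate symplectic form on F^n (so n is even). Then the elements of SL_n(F) that are similarities of f (f(gu, gv) = c f(u, v) for a non-zero scalar c depending on g) form a maximal subgroup of SL_n(F). -/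
theorem result {F : Type*} [Field F] [Fintype F] (n : ℕ) (hn : 13 ≤ n) (f : (Fin n → F) → (Fin n → F) → F) (hf : Cfsg.Geo.IsSymplecticForm f) : Cfsg.Geo.IsMaximalIn (Cfsg.Geo.specialLinear (Fin n) F) (Cfsg.Geo.similarityGroup f ⊓ Cfsg.Geo.specialLinear (Fin n) F) := by
  classical
  have hn5 : 5 ≤ n := by omega
  refine ⟨lt_of_le_not_ge inf_le_right fun hle => ?_, fun M hM1 hM2 => ?_⟩
  · have ha0 : (Pi.single (⟨0, by omega⟩ : Fin n) 1 : Fin n → F) ≠ 0 := by simp
    obtain ⟨b, hab, -, hb, -⟩ := exists_orth_indep hf hn5 (Pi.single (⟨0, by omega⟩ : Fin n) 1)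
      (Pi.single (⟨0, by omega⟩ : Fin n) 1)
    exact transv_not_similarity hf ha0 (h := hab) hb (hle (transv_mem_specialLinear hab)).1
  by_cases heq : M = Geo.similarityGroup f ⊓ Geo.specialLinear (Fin n) F
  · exact Or.inl heq
  refine Or.inr (le_antisymm hM2 ?_)
  obtain ⟨g, hgM, hg⟩ := SetLike.not_le_iff_exists.1 fun h => heq (le_antisymm h hM1)
  have hsympT : ∀ v c, sympT hf v c ∈ M := fun v c =>
    hM1 ⟨sympT_mem_similarity hf v c, sympT_mem_specialLinear hf v c⟩
  suffices hex : ∃ a b, Mem hf M a b ∧ b ∉ Submodule.span F {a} ∧ a ≠ 0 by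
    obtain ⟨a, b, h, hb, ha⟩ := hex
    exact specialLinear_le_of_transv_mem M (all_transv hf hn5 hsympT h hb ha)
  by_contra hno
  push Not at hno
  apply hg
  refine ⟨mem_similarity_of hf fun v => ?_, hM2 hgM⟩
  by_cases hv : v = 0
  · exact ⟨0, fun x => by simp [hv, zero_right hf]⟩
  have hgv : (g : Matrix (Fin n) (Fin n) F) *ᵥ v ≠ 0 := fun h => hv (by
    simpa [inv_mulVec_mulVec] using congrArg (((g⁻¹ : GL (Fin n) F) : Matrix (Fin n) (Fin n) F) *ᵥ ·) h)
  -- the functional of the conjugate of the transvection at v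
  obtain ⟨b, hb⟩ := exists_pair_eq hf
    ((pair hf v).comp (Matrix.mulVecLin ((g⁻¹ : GL (Fin n) F) : Matrix (Fin n) (Fin n) F)))
  have hbx : ∀ x, f ((g : Matrix (Fin n) (Fin n) F) *ᵥ x) b = f x v := fun x => by
    simpa [inv_mulVec_mulVec] using LinearMap.congr_fun hb ((g : Matrix (Fin n) (Fin n) F) *ᵥ x)
  have hbv : pair hf b ((g : Matrix (Fin n) (Fin n) F) *ᵥ v) = 0 := by
    rw [pair_apply, hbx, hf.alternating]
  have hmem : Mem hf M ((g : Matrix (Fin n) (Fin n) F) *ᵥ v) b := by
    refine ⟨hbv, ?_⟩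
    rw [← conj_transv g (φ := pair hf ((1 : F) • v)) (by rw [one_smul, pair_apply, hf.alternating])
      hbv rfl (fun x => by rw [one_smul, pair_apply, pair_apply, hbx])]
    exact M.mul_mem (M.mul_mem hgM (hsympT v 1)) (M.inv_mem hgM)
  have hspan : b ∈ Submodule.span F {(g : Matrix (Fin n) (Fin n) F) *ᵥ v} := by
    by_contra hns
    exact hgv (hno _ _ hmem hns)
  obtain ⟨t, rfl⟩ := Submodule.mem_span_singleton.1 hspan
  have ht : t ≠ 0 := fun h0 => by
    obtain ⟨x, hx⟩ := (hf.nondegenerate v hv).1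
    exact hx (by rw [← hbx x, h0, zero_smul, zero_right hf])
  exact ⟨t⁻¹, fun x => by rw [← hbx x, hf.bilinear.smul_right, ← mul_assoc, inv_mul_cancel₀ ht, one_mul]⟩

end Cfsg.Agent.S5642
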