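import Cfsg.Statements.S5645
import Cfsg.Agent.Classical.SympCentres
import Cfsg.Agent.Eq.Def_GeometricClasses
-- import your own Cfsg.Agent.* helpers here

set_option autoImplicit false
open Cfsg

namespace Cfsg.Agent.S5645

section

open Matrix CfsgLib.TransvGL CfsgLib.AltFormTransv CfsgLib.SympCentres

variable {ι : Type} [Fintype ι] [DecidableEq ι] {F : Type*} [Field F]
variable {f : (ι → F) → (ι → F) → F}

/-- The element `x ↦ x + f x a • b + f x b • a` for orthogonal `a`, `b`. -/
noncomputable def move (hf : Cfsg.Geo.IsSymplecticForm f) (a b : ι → F) : GL ι F :=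
  sympT hf (a + b) 1 * sympT hf a (-1) * sympT hf b (-1)

theorem move_mulVec (hf : Cfsg.Geo.IsSymplecticForm f) {a b : ι → F} (h : f b a = 0) (x : ι → F) :
    (move hf a b : Matrix ι ι F) *ᵥ x = x + f x a • b + f x b • a := by
  have h' := orth_comm hf h
  simp only [move, Units.val_mul, ← mulVec_mulVec, sympT_mulVec, hf.bilinear.add_left,
    hf.bilinear.smul_left, hf.bilinear.add_right, hf.alternating, h, h']
  module

theorem move_preserves (hf : Cfsg.Geo.IsSymplecticForm f) (a b : ι → F) (x y : ι → F) :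
    f ((move hf a b : Matrix ι ι F) *ᵥ x) ((move hf a b : Matrix ι ι F) *ᵥ y) = f x y := by
  simp only [move, Units.val_mul, ← mulVec_mulVec, sympT_preserves hf]

theorem move_mem_stab (hf : Cfsg.Geo.IsSymplecticForm f) {W : Submodule F (ι → F)}
    (hW : Cfsg.Geo.IsTotallySingularFor f W) {a b : ι → F} (ha : a ∈ W) (_ : b ≠ 0)
    (hab : f b a = 0) : move hf a b ∈ Cfsg.Geo.subspaceStabilizer W := by
  refine mem_subspaceStabilizer_of_maps fun x hx => ?_
  rw [move_mulVec hf hab, hW x hx a ha, zero_smul, add_zero]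
  exact W.add_mem hx (W.smul_mem _ ha)

theorem centre_all (hf : Cfsg.Geo.IsSymplecticForm f) {M : Subgroup (GL ι F)}
    {W : Submodule F (ι → F)} (hP : ∀ v, (∀ x ∈ W, f x v = 0) → Centre hf M v)
    (hW : Cfsg.Geo.IsTotallySingularFor f W) {g : GL ι F} (hgM : g ∈ M)
    (hg : ∀ x y, f ((g : Matrix ι ι F) *ᵥ x) ((g : Matrix ι ι F) *ᵥ y) = f x y)
    (hgW : g ∉ Cfsg.Geo.subspaceStabilizer W)
    (hmove : ∀ a b, a ∈ W → b ≠ 0 → f b a = 0 → move hf a b ∈ M) :
    ∀ y, Centre hf M y := by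
  -- a centre outside the perp
  obtain ⟨v, hv, hvW⟩ : ∃ v, Centre hf M v ∧ ∃ a ∈ W, f v a ≠ 0 := by
    obtain ⟨w, hw, hgw⟩ : ∃ w ∈ W, (g : Matrix ι ι F) *ᵥ w ∉ W := by
      by_contra h
      push Not at h
      exact hgW (mem_subspaceStabilizer_of_maps h)
    obtain ⟨d, hdW, hd⟩ := exists_orth_sep hf hgw
    have hginv : ∀ x y, f (((g⁻¹ : GL ι F) : Matrix ι ι F) *ᵥ x)
        (((g⁻¹ : GL ι F) : Matrix ι ι F) *ᵥ y) = f x y := fun x y => by
      rw [← hg, mulVec_inv_mulVec, mulVec_inv_mulVec]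
    refine ⟨_, (hP d hdW).image (M.inv_mem hgM) hginv, w, hw, fun h => hd (orth_comm hf ?_)⟩
    rwa [← hg, mulVec_inv_mulVec] at h
  -- adding anything in the perp
  have step : ∀ u w, Centre hf M u → (∃ a ∈ W, f u a ≠ 0) → (∀ x ∈ W, f x w = 0) →
      Centre hf M (u + w) := by
    intro u w hu hua hw
    by_cases h : f u w = 0
    · obtain ⟨a, ha, hua⟩ := hua
      have haP : ∀ x ∈ W, f x a = 0 := fun x hx => hW x hx a ha
      have h1 : Centre hf M (u + (w + a)) := hu.add
        (hP _ fun x hx => by rw [hf.bilinear.add_right, hw x hx, haP x hx, add_zero])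
        (by rw [hf.bilinear.add_right, h, zero_add]; exact hua)
      have h2 : f (u + (w + a)) a ≠ 0 := by
        rw [hf.bilinear.add_left, hf.bilinear.add_left, hf.alternating,
          orth_comm hf (hw a ha), add_zero, add_zero]
        exact hua
      have h3 := h1.add_smul (hP a haP) h2 (-1)
      have h4 : u + (w + a) + (-1 : F) • a = u + w := by module
      rwa [h4] at h3
    · exact hu.add (hP w hw) h
  intro y
  by_cases hy : ∀ x ∈ W, f x y = 0
  · exact hP y hy
  push Not at hy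
  obtain ⟨a0, ha0, hya0⟩ := hy
  obtain ⟨a, ha, hva, hya⟩ := exists_common_in hf hvW
    ⟨a0, ha0, fun h => hya0 (orth_comm hf h)⟩
  set s : F := f y a / f v a with hs
  have hs0 : s ≠ 0 := div_ne_zero hya hva
  have hsa : f (s • v) a = f y a := by
    rw [hf.bilinear.smul_left, hs, div_mul_cancel₀ _ hva]
  set b := (f y a)⁻¹ • (y - s • v) with hb
  have hba : f b a = 0 := by
    rw [hb, hf.bilinear.smul_left]
    have : f (y - s • v) a = 0 := by
      rw [sub_eq_add_neg, hf.bilinear.add_left, ← neg_one_smul F (s • v), hf.bilinear.smul_left,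
        hsa]; ring
    rw [this, mul_zero]
  by_cases hb0 : b = 0
  · have hys : y = s • v := by
      rw [hb, smul_eq_zero] at hb0
      exact sub_eq_zero.1 (hb0.resolve_left (inv_ne_zero hya))
    exact hys ▸ hv.smul s
  have hmv : (move hf a b : Matrix ι ι F) *ᵥ (s • v) = y + f (s • v) b • a := by
    rw [move_mulVec hf hba, hsa, hb, smul_smul, mul_inv_cancel₀ hya, one_smul,
      add_sub_cancel]
  have hc := (hv.smul s).image (hmove a b ha hb0 hba) (move_preserves hf a b)
  rw [hmv] at hc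
  have h5 := step _ (-(f (s • v) b) • a) hc ⟨a, ha, by
    rw [hf.bilinear.add_left, hf.bilinear.smul_left, hf.alternating, mul_zero, add_zero]; exact hya⟩
    (fun x hx => by rw [hf.bilinear.smul_right, hW x hx a ha, mul_zero])
  have h6 : y + f (s • v) b • a + -(f (s • v) b) • a = y := by module
  rwa [h6] at h5

end

theorem move_mem_sp {F : Type*} [Field F] {m : ℕ}
    (hf : Cfsg.Geo.IsSymplecticForm (Cfsg.sympForm m F)) (a b : Fin m ⊕ Fin m → F) :
    move hf a b ∈ Cfsg.spGL m F :=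
  move_preserves hf a b

/-- For a finite field F and m ≥ 7, in the symplectic group Sp_2m(F) of the standard alternating form on F^(2m) (as a subgroup of GL_2m(F)), the stabiliser of any non-zero subspace on which the form vanishes identically is a maximal subgroup. -/
theorem result {F : Type*} [Field F] [Fintype F] (m : ℕ) (hm : 7 ≤ m) (W : Submodule F (Fin m ⊕ Fin m → F)) (hW0 : W ≠ ⊥) (hW : Cfsg.Geo.IsTotallySingularFor (Cfsg.sympForm m F) W) : Cfsg.Geo.IsMaximalIn (Cfsg.spGL m F) (Cfsg.Geo.subspaceStabilizer W ⊓ Cfsg.spGL m F) := by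
  have hf := CfsgLib.SympFormStd.isSymplecticForm m F
  obtain ⟨w₁, hw₁, hw₁0⟩ := W.ne_bot_iff.1 hW0
  obtain ⟨z, hz⟩ := (hf.nondegenerate w₁ hw₁0).2
  have hzW : z ∉ W := fun h => hz (hW _ hw₁ _ h)
  refine ⟨lt_of_le_not_ge inf_le_right fun h => ?_, fun M hHM hMK => ?_⟩
  · exact CfsgLib.SympCentres.sympT_not_mem_subspaceStabilizer hf hzW hw₁ hz
      (h (CfsgLib.SympFormStd.sympT_mem_spGL z 1)).1
  · by_cases hle : M ≤ Geo.subspaceStabilizer W ⊓ spGL m F
    · exact Or.inl (le_antisymm hle hHM)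
    obtain ⟨g, hgM, hgH⟩ := SetLike.not_le_iff_exists.1 hle
    refine Or.inr (le_antisymm hMK (CfsgLib.SympFormStd.spGL_le_of_sympT_mem M ?_))
    exact centre_all hf (fun v hv c => hHM ⟨CfsgLib.SympCentres.sympT_mem_subspaceStabilizer hf
      (Or.inr hv) c, CfsgLib.SympFormStd.sympT_mem_spGL v c⟩) hW hgM (hMK hgM)
      (fun hs => hgH ⟨hs, hMK hgM⟩) (fun a b ha hb hab =>
        hHM ⟨move_mem_stab hf hW ha hb hab, move_mem_sp hf a b⟩)

end Cfsg.Agent.S5645
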