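import Cfsg.Statements.S5646
import Cfsg.Agent.Classical.SympCentres
import Cfsg.Agent.Eq.Def_GeometricClasses
-- import your own Cfsg.Agent.* helpers here

set_option autoImplicit false
open Cfsg

namespace Cfsg.Agent.S5646

section

open Matrix CfsgLib.TransvGL CfsgLib.AltFormTransv CfsgLib.SympCentres

variable {ι : Type} [Fintype ι] [DecidableEq ι] {F : Type*} [Field F]
variable {f : (ι → F) → (ι → F) → F}

/-- The orthogonal complement. -/
def perp (hf : Cfsg.Geo.IsSymplecticForm f) (W : Submodule F (ι → F)) : Submodule F (ι → F) where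
  carrier := {x | ∀ w ∈ W, f x w = 0}
  add_mem' ha hb w hw := by rw [hf.bilinear.add_left, ha w hw, hb w hw, add_zero]
  zero_mem' w _ := zero_left hf w
  smul_mem' c x hx w hw := by rw [hf.bilinear.smul_left, hx w hw, mul_zero]

variable {W : Submodule F (ι → F)}

theorem exists_split (hf : Cfsg.Geo.IsSymplecticForm f) (hW : Cfsg.Geo.IsNondegenerateOn f W)
    (x : ι → F) : ∃ a ∈ W, x - a ∈ perp hf W := by
  let L : W →ₗ[F] Module.Dual F W :=
    { toFun := fun a => (pair hf (a : ι → F)).comp W.subtype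
      map_add' := fun a b => by ext y; simp [pair_add]
      map_smul' := fun c a => by ext y; simp [pair_smul] }
  have hinj : Function.Injective L := by
    rw [← LinearMap.ker_eq_bot, Submodule.eq_bot_iff]
    intro a ha
    by_contra h0
    obtain ⟨y, hy, hy'⟩ := (hW a a.2 fun h => h0 (Subtype.ext h)).1
    exact hy' (LinearMap.congr_fun (LinearMap.mem_ker.1 ha) ⟨y, hy⟩)
  obtain ⟨a, ha⟩ := (LinearMap.injective_iff_surjective_of_finrank_eq_finrank
    (Subspace.dual_finrank_eq).symm).1 hinj ((pair hf x).comp W.subtype)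
  refine ⟨a, a.2, fun w hw => ?_⟩
  have h2 : f w a = f w x := LinearMap.congr_fun ha ⟨w, hw⟩
  refine orth_comm hf ?_
  rw [sub_right hf, h2, sub_self]

theorem eq_zero_of_mem_both (hf : Cfsg.Geo.IsSymplecticForm f)
    (hW : Cfsg.Geo.IsNondegenerateOn f W) {x : ι → F} (h1 : x ∈ W) (h2 : x ∈ perp hf W) :
    x = 0 := by
  by_contra h0
  obtain ⟨y, hy, hy'⟩ := (hW x h1 h0).2
  exact hy' (h2 y hy)

theorem perp_nondeg (hf : Cfsg.Geo.IsSymplecticForm f) (hW : Cfsg.Geo.IsNondegenerateOn f W) :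
    Cfsg.Geo.IsNondegenerateOn f (perp hf W) := by
  intro u hu h0
  obtain ⟨z, hz⟩ := (hf.nondegenerate u h0).2
  obtain ⟨a, ha, hza⟩ := exists_split hf hW z
  have h1 : f u (z - a) ≠ 0 := by rwa [sub_right hf, hu a ha, sub_zero]
  exact ⟨⟨z - a, hza, fun e => h1 (orth_comm hf e)⟩, ⟨z - a, hza, h1⟩⟩

theorem finrank_perp_ge (hf : Cfsg.Geo.IsSymplecticForm f)
    (hW : Cfsg.Geo.IsNondegenerateOn f W) :
    Fintype.card ι ≤ Module.finrank F W + Module.finrank F (perp hf W) := by
  have h : W ⊔ perp hf W = ⊤ := Submodule.eq_top_iff'.2 fun x => by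
    obtain ⟨a, ha, hxa⟩ := exists_split hf hW x
    exact Submodule.mem_sup.2 ⟨a, ha, x - a, hxa, add_sub_cancel a x⟩
  have h2 := Submodule.finrank_add_le_finrank_add_finrank W (perp hf W)
  rw [h, finrank_top, Module.finrank_fintype_fun_eq_card] at h2
  exact h2

theorem union_sub {P A B : Submodule F (ι → F)} (h : ∀ x ∈ P, x ∈ A ∨ x ∈ B) : P ≤ A ∨ P ≤ B := by
  by_contra hc
  rw [not_or, SetLike.not_le_iff_exists, SetLike.not_le_iff_exists] at hc
  obtain ⟨⟨x, hx, hxA⟩, y, hy, hyB⟩ := hc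
  have hxB := (h x hx).resolve_left hxA
  have hyA := (h y hy).resolve_right hyB
  rcases h (x + y) (P.add_mem hx hy) with h1 | h1
  · exact hxA ((A.add_mem_iff_left hyA).1 h1)
  · exact hyB ((B.add_mem_iff_right hxB).1 h1)

theorem exists_mixed (hf : Cfsg.Geo.IsSymplecticForm f) (hW : Cfsg.Geo.IsNondegenerateOn f W)
    (hdim : 2 * Module.finrank F W < Fintype.card ι) {g : GL ι F}
    (hgW : g ∉ Cfsg.Geo.subspaceStabilizer W) :
    ∃ x, (x ∈ W ∨ x ∈ perp hf W) ∧ (g : Matrix ι ι F) *ᵥ x ∉ W ∧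
      (g : Matrix ι ι F) *ᵥ x ∉ perp hf W := by
  by_contra hc
  push Not at hc
  let L := Matrix.toLin' (g : Matrix ι ι F)
  have hinj : Function.Injective L := fun a b hab => by
    simp only [L, Matrix.toLin'_apply] at hab
    rw [← inv_mulVec_mulVec g a, hab, inv_mulVec_mulVec]
  have img : ∀ P : Submodule F (ι → F), (∀ x ∈ P, x ∈ W ∨ x ∈ perp hf W) →
      P.map L ≤ W ∨ P.map L ≤ perp hf W := by
    refine fun P hP => union_sub fun y hy => ?_
    obtain ⟨x, hx, rfl⟩ := Submodule.mem_map.1 hy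
    rw [Matrix.toLin'_apply]
    exact or_iff_not_imp_left.2 fun h => hc x (hP x hx) h
  have hWU : W.map L ≤ perp hf W := (img W fun x hx => Or.inl hx).resolve_left fun h =>
    hgW (mem_subspaceStabilizer_of_maps fun x hx =>
      h ⟨x, hx, Matrix.toLin'_apply _ _⟩)
  have hr : ∀ P : Submodule F (ι → F), Module.finrank F (P.map L) = Module.finrank F P :=
    fun P => (Submodule.equivMapOfInjective L hinj P).finrank_eq.symm
  rcases img (perp hf W) fun x hx => Or.inr hx with h | h
  · have h1 := Submodule.finrank_mono h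
    rw [hr] at h1
    have := finrank_perp_ge hf hW
    omega
  · have heq : (perp hf W).map L = perp hf W := Submodule.eq_of_le_of_finrank_eq h (hr _)
    refine hgW (mem_subspaceStabilizer_of_maps fun x hx => ?_)
    have hx' : L x ∈ (perp hf W).map L := by rw [heq]; exact hWU ⟨x, hx, rfl⟩
    obtain ⟨y, hy, hxy⟩ := hx'
    have h0 := eq_zero_of_mem_both hf hW hx (hinj hxy ▸ hy)
    rw [h0, mulVec_zero]; exact W.zero_mem

end

/-- For a finite field F and m ≥ 7, in the symplectic group Sp_2m(F) of the standard alternating form on F^(2m), the stabiliser of any non-zero subspace W on which the form is non-degenerate and with dim W < m is a maximal subgroup. -/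
theorem result {F : Type*} [Field F] [Fintype F] (m : ℕ) (hm : 7 ≤ m) (W : Submodule F (Fin m ⊕ Fin m → F)) (hW0 : W ≠ ⊥) (hW : Cfsg.Geo.IsNondegenerateOn (Cfsg.sympForm m F) W) (hdim : Module.finrank F W < m) : Cfsg.Geo.IsMaximalIn (Cfsg.spGL m F) (Cfsg.Geo.subspaceStabilizer W ⊓ Cfsg.spGL m F) := by
  refine ⟨lt_of_le_not_ge inf_le_right fun h => ?_, fun M hHM hMK => ?_⟩
  · have hf := CfsgLib.SympFormStd.isSymplecticForm m F
    obtain ⟨w, hw, hw0⟩ := W.ne_bot_iff.1 hW0
    obtain ⟨z, hz⟩ := (hf.nondegenerate w hw0).2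
    obtain ⟨u, hu, hu0⟩ := (perp hf W).ne_bot_iff.1 (by
      intro hbot
      have h1 := finrank_perp_ge hf hW
      rw [hbot, finrank_bot, Fintype.card_sum, Fintype.card_fin] at h1
      omega)
    obtain ⟨a, ha, ha'⟩ := (hW w hw hw0).2
    have hz2 : sympForm m F w (a + u) ≠ 0 := by
      rw [hf.bilinear.add_right, CfsgLib.AltFormTransv.orth_comm hf (hu w hw), add_zero]; exact ha'
    exact CfsgLib.SympCentres.sympT_not_mem_subspaceStabilizer hf
      (fun hm' => hu0 (eq_zero_of_mem_both hf hW ((W.add_mem_iff_right ha).1 hm') hu)) hw hz2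
      (h (CfsgLib.SympFormStd.sympT_mem_spGL (a + u) 1)).1
  · by_cases hle : M ≤ Geo.subspaceStabilizer W ⊓ spGL m F
    · exact Or.inl (le_antisymm hle hHM)
    obtain ⟨g, hgM, hgH⟩ := SetLike.not_le_iff_exists.1 hle
    refine Or.inr (le_antisymm hMK (CfsgLib.SympFormStd.spGL_le_of_sympT_mem M ?_))
    have hf := CfsgLib.SympFormStd.isSymplecticForm m F
    have hPW : ∀ c ∈ W, CfsgLib.SympCentres.Centre hf M c := fun v hv c =>
      hHM ⟨CfsgLib.SympCentres.sympT_mem_subspaceStabilizer hf (Or.inl hv) c,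
        CfsgLib.SympFormStd.sympT_mem_spGL v c⟩
    have hPU : ∀ c ∈ perp hf W, CfsgLib.SympCentres.Centre hf M c := fun v hv c =>
      hHM ⟨CfsgLib.SympCentres.sympT_mem_subspaceStabilizer hf
        (Or.inr fun x hx => CfsgLib.AltFormTransv.orth_comm hf (hv x hx)) c,
        CfsgLib.SympFormStd.sympT_mem_spGL v c⟩
    obtain ⟨x, hx, hgx1, hgx2⟩ := exists_mixed hf hW
      (by rw [Fintype.card_sum, Fintype.card_fin]; omega) fun hs => hgH ⟨hs, hMK hgM⟩
    have hc : CfsgLib.SympCentres.Centre hf M _ :=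
      (hx.elim (hPW x) (hPU x)).image hgM (hMK hgM)
    obtain ⟨a, ha, hga⟩ := exists_split hf hW ((g : Matrix _ _ F).mulVec x)
    intro y
    obtain ⟨a', ha', hya⟩ := exists_split hf hW y
    by_cases h1 : a' = 0
    · exact hPU y (by simpa [h1] using hya)
    by_cases h2 : y - a' = 0
    · exact hPW y (by rw [sub_eq_zero.1 h2]; exact ha')
    rw [← add_sub_cancel a ((g : Matrix _ _ F).mulVec x)] at hc
    have hb0 : (g : Matrix _ _ F).mulVec x - a ≠ 0 := fun e =>
      hgx1 (by rw [sub_eq_zero.1 e]; exact ha)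
    have ha0 : a ≠ 0 := fun e => hgx2 (by simpa [e] using hga)
    have hc1 := hc.move_in hPW hW ha ha0 ha' h1 hga
    rw [add_comm a' _] at hc1
    have hc2 := hc1.move_in hPU (perp_nondeg hf hW) hga hb0 hya h2
      fun c hc' => CfsgLib.AltFormTransv.orth_comm hf (hc' a' ha')
    rw [sub_add_cancel] at hc2
    exact hc2

end Cfsg.Agent.S5646
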