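import Cfsg.Statements.S5647
import Cfsg.Agent.Classical.SympCentres
import Cfsg.Agent.Classical.DecompProj
import Cfsg.Agent.LinAlg.Witt.Bases
import Cfsg.Agent.LinAlg.Witt.Mat
import Cfsg.Agent.Eq.Def_GeometricClasses
-- import your own Cfsg.Agent.* helpers here

set_option autoImplicit false
open Cfsg

namespace Cfsg.Agent.S5647

section

open Matrix CfsgLib.TransvGL CfsgLib.AltFormTransv CfsgLib.SympCentres CfsgLib.DecompProj

variable {ι : Type} [Fintype ι] [DecidableEq ι] {F : Type*} [Field F]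
variable {f : (ι → F) → (ι → F) → F} {t k : ℕ} {D : Fin t → Submodule F (ι → F)}
variable (hD : Cfsg.Geo.IsNondegenerateMDecomposition f k D)

include hD

local notation "P" => proj (Cfsg.Geo.IsNondegenerateMDecomposition.decomp hD)

theorem f_proj_right (hf : Cfsg.Geo.IsSymplecticForm f) {i : Fin t} {c : ι → F} (hc : c ∈ D i)
    (v : ι → F) : f v c = f (P i v) c := by
  conv_lhs => rw [← sum_proj hD.decomp v, ← pair_apply hf c, map_sum]
  rw [Finset.sum_eq_single i]
  · rfl
  · exact fun j _ hj => hD.orthogonal j i hj _ (proj_mem hD.decomp j v) _ hc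
  · simp

theorem f_sum (hf : Cfsg.Geo.IsSymplecticForm f) (x y : ι → F) :
    f x y = ∑ i, f (P i x) (P i y) := by
  conv_lhs => rw [← sum_proj hD.decomp x, ← pair_apply hf y, map_sum]
  refine Finset.sum_congr rfl fun i _ => ?_
  rw [pair_apply, hf.skew, f_proj_right hD hf (proj_mem hD.decomp i x), ← hf.skew]

theorem sympT_mem_stab (hf : Cfsg.Geo.IsSymplecticForm f) {i : Fin t} {v : ι → F} (hv : v ∈ D i)
    (c : F) : sympT hf v c ∈ Cfsg.Geo.decompositionStabilizer D := by
  refine mem_decompositionStabilizer_of_maps hD.decomp 1 fun j x hx => ?_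
  show _ ∈ D j
  rw [sympT_mulVec]
  by_cases hji : j = i
  · exact (D j).add_mem hx ((D j).smul_mem _ (hji ▸ hv))
  · rw [hD.orthogonal j i hji x hx v hv, mul_zero, zero_smul, add_zero]; exact hx

variable {hf : Cfsg.Geo.IsSymplecticForm f} {M : Subgroup (GL ι F)}
variable (hC : ∀ i, ∀ v ∈ D i, Centre hf M v)
include hC

theorem centre_change {v a' : ι → F} {i : Fin t} (hi : P i v ≠ 0) (ha' : a' ∈ D i) (ha'0 : a' ≠ 0)
    (h : Centre hf M v) : Centre hf M (v + (a' - P i v)) := by
  have hb : ∀ c ∈ D i, f (v - P i v) c = 0 := fun c hc => by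
    rw [f_proj_right hD hf hc, map_sub, proj_of_mem hD.decomp (proj_mem hD.decomp i v), if_pos rfl,
      sub_self, zero_left hf]
  rw [← add_sub_cancel (P i v) v] at h
  have := h.move_in (hC i) (hD.nondegenerate i) (proj_mem hD.decomp i v) hi ha' ha'0 hb
  convert this using 1
  abel

omit hC in
theorem exists_other {i : Fin t} (hq : (∃ l : F, l ≠ 0 ∧ l ≠ 1) ∨ (∀ l : F, l = 0 ∨ l = 1) ∧ 3 ≤ k)
    {a : ι → F} (ha : a ∈ D i) (ha0 : a ≠ 0) (hf' : Cfsg.Geo.IsSymplecticForm f) :
    ∃ a' ∈ D i, a' ≠ 0 ∧ a' ≠ a ∧ f a a' = 0 := by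
  rcases hq with ⟨l, hl0, hl1⟩ | ⟨hl, hk⟩
  · refine ⟨l • a, (D i).smul_mem l ha, smul_ne_zero hl0 ha0, fun h => hl1 ?_,
      by rw [hf'.bilinear.smul_right, hf'.alternating, mul_zero]⟩
    exact smul_left_injective F ha0 (h.trans (one_smul F a).symm)
  · let L : D i →ₗ[F] F := (pair hf' a).comp (D i).subtype
    have h1 := LinearMap.finrank_range_add_finrank_ker L
    have h2 : Module.finrank F (LinearMap.range L) ≤ 1 :=
      (Submodule.finrank_le _).trans (Module.finrank_self F).le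
    have h3 : ¬ (LinearMap.ker L).map (D i).subtype ≤ Submodule.span F {a} := fun hle => by
      have h4 := Submodule.finrank_mono hle
      rw [finrank_span_singleton ha0, Submodule.finrank_map_subtype_eq] at h4
      rw [hD.decomp.finrank_eq] at h1
      omega
    obtain ⟨_, ⟨y, hy, rfl⟩, hya⟩ := SetLike.not_le_iff_exists.1 h3
    refine ⟨y, y.2, fun h => hya ?_, fun h => hya ?_, orth_comm hf' (LinearMap.mem_ker.1 hy)⟩
    · show (y : ι → F) ∈ _; rw [h]; exact Submodule.zero_mem _
    · show (y : ι → F) ∈ _; rw [h]; exact Submodule.mem_span_singleton_self a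

/-- From any mixed centre, one with exactly two components. -/
theorem exists_two (hq : (∃ l : F, l ≠ 0 ∧ l ≠ 1) ∨ (∀ l : F, l = 0 ∨ l = 1) ∧ 3 ≤ k) {v : ι → F}
    (hv : Centre hf M v) {i j : Fin t} (hij : i ≠ j) (hi : P i v ≠ 0) (hj : P j v ≠ 0) :
    ∃ a ∈ D i, ∃ b ∈ D j, a ≠ 0 ∧ b ≠ 0 ∧ Centre hf M (a + b) := by
  have hmi := proj_mem hD.decomp i v
  have hmj := proj_mem hD.decomp j v
  obtain ⟨b', hb', hb'0, hb'ne, hbb⟩ := exists_other hD hq hmj hj hf
  obtain ⟨z, hz, hz'⟩ := (hD.nondegenerate i _ hmi hi).2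
  set a' := (f (P i v) z)⁻¹ • z with ha'
  have hfa : f (P i v) a' = 1 := by rw [ha', hf.bilinear.smul_right, inv_mul_cancel₀ hz']
  have ha'm : a' ∈ D i := (D i).smul_mem _ hz
  have ha'0 : a' ≠ 0 := fun h => by rw [h, zero_right hf] at hfa; exact zero_ne_one hfa
  have ha'ne : a' ≠ P i v := fun h => by rw [h, hf.alternating] at hfa; exact zero_ne_one hfa
  have h1 := centre_change hD hC hi ha'm ha'0 hv
  have hpj : P j (v + (a' - P i v)) = P j v := by
    rw [map_add, map_sub, proj_of_mem hD.decomp ha'm, proj_of_mem hD.decomp hmi,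
      if_neg (Ne.symm hij)]
    simp [Ne.symm hij]
  have h2 := centre_change hD hC (i := j) (by rw [hpj]; exact hj) hb' hb'0 h1
  rw [hpj] at h2
  have hne : f v (v + (a' - P i v) + (b' - P j v)) ≠ 0 := by
    rw [hf.bilinear.add_right, hf.bilinear.add_right, hf.alternating, zero_add,
      f_proj_right hD hf ((D i).sub_mem ha'm hmi), f_proj_right hD hf ((D j).sub_mem hb' hmj),
      sub_right hf, sub_right hf, hfa, hbb, hf.alternating, hf.alternating]
    simp
  have h3 := hv.add_smul h2 hne (-1)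
  refine ⟨P i v - a', (D i).sub_mem hmi ha'm, P j v - b', (D j).sub_mem hmj hb',
    sub_ne_zero.2 (Ne.symm ha'ne), sub_ne_zero.2 (Ne.symm hb'ne), ?_⟩
  convert h3 using 1
  module

/-- One mixed centre on a pair gives all vectors on the pair. -/
theorem pair_all {i j : Fin t} (hij : i ≠ j) {a b : ι → F} (ha : a ∈ D i) (hb : b ∈ D j)
    (ha0 : a ≠ 0) (hb0 : b ≠ 0) (h : Centre hf M (a + b)) {a' b' : ι → F} (ha' : a' ∈ D i)
    (hb' : b' ∈ D j) : Centre hf M (a' + b') := by
  by_cases ha'0 : a' = 0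
  · rw [ha'0, zero_add]; exact hC j _ hb'
  by_cases hb'0 : b' = 0
  · rw [hb'0, add_zero]; exact hC i _ ha'
  have h1 := h.move_in (hC i) (hD.nondegenerate i) ha ha0 ha' ha'0
    fun c hc => hD.orthogonal j i (Ne.symm hij) b hb c hc
  rw [add_comm] at h1 ⊢
  exact h1.move_in (hC j) (hD.nondegenerate j) hb hb0 hb' hb'0
    fun c hc => hD.orthogonal i j hij a' ha' c hc

theorem centre_all
    (hpair : ∀ i j, i ≠ j → ∀ a ∈ D i, ∀ b ∈ D j, Centre hf M (a + b)) :
    ∀ y, Centre hf M y := by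
  classical
  suffices ∀ (n : ℕ) (y : ι → F), (Finset.univ.filter fun i => P i y ≠ 0).card ≤ n →
      Centre hf M y from fun y => this _ y le_rfl
  intro n
  induction n with
  | zero =>
    intro y hy
    have : y = 0 := by
      rw [← sum_proj hD.decomp y]
      refine Finset.sum_eq_zero fun i _ => ?_
      by_contra h
      have : 0 < (Finset.univ.filter fun i => P i y ≠ 0).card :=
        Finset.card_pos.2 ⟨i, Finset.mem_filter.2 ⟨Finset.mem_univ _, h⟩⟩
      omega
    exact this ▸ centre_zero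
  | succ n ih =>
    intro y hy
    by_cases htwo : ∃ i j, i ≠ j ∧ P i y ≠ 0 ∧ P j y ≠ 0
    · obtain ⟨i, j, hij, hi, hj⟩ := htwo
      obtain ⟨x, hx, hx'⟩ := (hD.nondegenerate j _ (proj_mem hD.decomp j y) hj).2
      have hmi := proj_mem hD.decomp i y
      have hu := hpair i j hij _ hmi x hx
      have hw : Centre hf M (y - (P i y + x)) := by
        refine ih _ ?_
        refine Nat.le_of_lt_succ (lt_of_lt_of_le (Finset.card_lt_card ?_) hy)
        rw [Finset.ssubset_iff_of_subset]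
        · refine ⟨i, Finset.mem_filter.2 ⟨Finset.mem_univ _, hi⟩, fun h => ?_⟩
          rw [Finset.mem_filter] at h
          apply h.2
          rw [map_sub, map_add, proj_of_mem hD.decomp hmi, if_pos rfl, proj_of_mem hD.decomp hx,
            if_neg hij, add_zero, sub_self]
        · intro l hl
          rw [Finset.mem_filter] at hl ⊢
          refine ⟨hl.1, fun h => hl.2 ?_⟩
          by_cases hlj : l = j
          · exact absurd (hlj ▸ h) hj
          rw [map_sub, map_add, proj_of_mem hD.decomp hmi, proj_of_mem hD.decomp hx, if_neg hlj, h]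
          split_ifs with h'
          · subst h'; exact absurd h hi
          · simp
      have hne : f (y - (P i y + x)) (P i y + x) ≠ 0 := by
        rw [hf.bilinear.add_right, f_proj_right hD hf hmi, f_proj_right hD hf hx, map_sub, map_add,
          map_sub, map_add, proj_of_mem hD.decomp hmi, if_pos rfl, proj_of_mem hD.decomp hx,
          if_neg hij, proj_of_mem hD.decomp hmi, if_neg (Ne.symm hij),
          proj_of_mem hD.decomp hx, if_pos rfl, add_zero, sub_self, zero_left hf, zero_add,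
          zero_add, ← pair_apply hf x, map_sub, pair_apply, pair_apply, hf.alternating, sub_zero]
        exact hx'
      have := hw.add hu hne
      rwa [sub_add_cancel] at this
    · push Not at htwo
      by_cases hall : ∃ i, P i y ≠ 0
      · obtain ⟨i, hi⟩ := hall
        have hyi : y = P i y := by
          conv_lhs => rw [← sum_proj hD.decomp y]
          exact Finset.sum_eq_single i (fun j _ hj => htwo i j (Ne.symm hj) hi) (by simp)
        rw [hyi]; exact hC i _ (proj_mem hD.decomp i y)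
      · push Not at hall
        have : y = 0 := by
          rw [← sum_proj hD.decomp y]; exact Finset.sum_eq_zero fun i _ => hall i
        exact this ▸ centre_zero

omit hC in
theorem exists_basis (hf : Cfsg.Geo.IsSymplecticForm f) (a : Fin t) :
    ∃ (n : ℕ) (b : Module.Basis (Fin n ⊕ Fin n) F (D a)), k = 2 * n ∧
      (∀ i j, f (b (Sum.inl i)) (b (Sum.inr j)) = if i = j then 1 else 0) ∧
      (∀ i j, f (b (Sum.inl i)) (b (Sum.inl j)) = 0) ∧
      (∀ i j, f (b (Sum.inr i)) (b (Sum.inr j)) = 0) := by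
  let B : LinearMap.BilinForm F (D a) :=
    (CfsgLib.LinAlg.Witt.bilinOfFun f hf.bilinear).compl₁₂ (D a).subtype (D a).subtype
  have hker : LinearMap.ker B = ⊥ := by
    rw [LinearMap.ker_eq_bot']
    intro v hv
    by_contra h0
    obtain ⟨x, hx, hx'⟩ := (hD.nondegenerate a v v.2 fun e => h0 (Subtype.ext e)).2
    exact hx' (LinearMap.congr_fun hv ⟨x, hx⟩)
  obtain ⟨n, b, hn, h1, h2, h3⟩ :=
    CfsgLib.LinAlg.Witt.exists_symplectic_basis B (fun v => hf.alternating _) hker
  exact ⟨n, b, by rw [← hn, hD.decomp.finrank_eq], h1, h2, h3⟩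

omit hC in
theorem exists_swap (hf : Cfsg.Geo.IsSymplecticForm f) {a b : Fin t} (hab : a ≠ b) :
    ∃ g : GL ι F, (∀ x y, f ((g : Matrix ι ι F) *ᵥ x) ((g : Matrix ι ι F) *ᵥ y) = f x y) ∧
      ∀ i, ∀ x ∈ D i, (g : Matrix ι ι F) *ᵥ x ∈ D (Equiv.swap a b i) := by
  obtain ⟨n, ea, hn, a1, a2, a3⟩ := exists_basis hD hf a
  obtain ⟨n', eb, hn', b1, b2, b3⟩ := exists_basis hD hf b
  obtain rfl : n' = n := by omega
  set θ : D a ≃ₗ[F] D b := ea.equiv eb (Equiv.refl _) with hθ
  have hBeq : ((CfsgLib.LinAlg.Witt.bilinOfFun f hf.bilinear).compl₁₂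
      ((D b).subtype ∘ₗ θ.toLinearMap) ((D b).subtype ∘ₗ θ.toLinearMap)) =
      (CfsgLib.LinAlg.Witt.bilinOfFun f hf.bilinear).compl₁₂ (D a).subtype (D a).subtype := by
    refine LinearMap.ext_basis ea ea fun i j => ?_
    simp only [LinearMap.compl₁₂_apply, LinearMap.comp_apply, Submodule.subtype_apply,
      CfsgLib.LinAlg.Witt.bilinOfFun_apply, LinearEquiv.coe_coe, hθ, Module.Basis.equiv_apply,
      Equiv.refl_apply]
    rcases i with i | i <;> rcases j with j | j
    · rw [b2, a2]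
    · rw [b1, a1]
    · rw [hf.skew, b1, hf.skew (ea (Sum.inr i) : ι → F), a1]
    · rw [b3, a3]
  have hiso : ∀ x y : D a, f (θ x : ι → F) (θ y : ι → F) = f (x : ι → F) (y : ι → F) := fun x y =>
    LinearMap.congr_fun (LinearMap.congr_fun hBeq x) y
  have hiso' : ∀ x y : D b, f (θ.symm x : ι → F) (θ.symm y : ι → F) = f (x : ι → F) (y : ι → F) :=
    fun x y => by simpa using (hiso (θ.symm x) (θ.symm y)).symm
  let pa : (ι → F) →ₗ[F] D a := (P a).codRestrict (D a) (proj_mem hD.decomp a)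
  let pb : (ι → F) →ₗ[F] D b := (P b).codRestrict (D b) (proj_mem hD.decomp b)
  let L : (ι → F) →ₗ[F] (ι → F) := LinearMap.id - P a - P b +
    (D b).subtype ∘ₗ θ.toLinearMap ∘ₗ pa + (D a).subtype ∘ₗ θ.symm.toLinearMap ∘ₗ pb
  have hL : ∀ x, L x = x - P a x - P b x + (θ (pa x) : ι → F) + (θ.symm (pb x) : ι → F) := fun _ => rfl
  have hPa : ∀ x, P a (L x) = (θ.symm (pb x) : ι → F) := fun x => by
    rw [hL, map_add, map_add, map_sub, map_sub, proj_of_mem hD.decomp (proj_mem hD.decomp a x),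
      if_pos rfl, proj_of_mem hD.decomp (proj_mem hD.decomp b x), if_neg hab,
      proj_of_mem hD.decomp (θ (pa x)).2, if_neg hab,
      proj_of_mem hD.decomp (θ.symm (pb x)).2, if_pos rfl]
    abel
  have hPb : ∀ x, P b (L x) = (θ (pa x) : ι → F) := fun x => by
    rw [hL, map_add, map_add, map_sub, map_sub, proj_of_mem hD.decomp (proj_mem hD.decomp a x),
      if_neg (Ne.symm hab), proj_of_mem hD.decomp (proj_mem hD.decomp b x), if_pos rfl,
      proj_of_mem hD.decomp (θ (pa x)).2, if_pos rfl,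
      proj_of_mem hD.decomp (θ.symm (pb x)).2, if_neg (Ne.symm hab)]
    abel
  have hPo : ∀ x i, i ≠ a → i ≠ b → P i (L x) = P i x := fun x i hia hib => by
    rw [hL, map_add, map_add, map_sub, map_sub, proj_of_mem hD.decomp (proj_mem hD.decomp a x),
      if_neg hia, proj_of_mem hD.decomp (proj_mem hD.decomp b x), if_neg hib,
      proj_of_mem hD.decomp (θ (pa x)).2, if_neg hib,
      proj_of_mem hD.decomp (θ.symm (pb x)).2, if_neg hia]
    abel
  have hLL : ∀ x, L (L x) = x := fun x => by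
    have e1 : pa (L x) = θ.symm (pb x) := Subtype.ext (hPa x)
    have e2 : pb (L x) = θ (pa x) := Subtype.ext (hPb x)
    rw [hL (L x), hPa, hPb, e1, e2, θ.apply_symm_apply, θ.symm_apply_apply, hL]
    show _ = x
    simp only [pa, pb, LinearMap.codRestrict_apply]
    abel
  refine ⟨ofEquiv (LinearEquiv.ofInvolutive L hLL), fun x y => ?_, fun i x hx => ?_⟩
  · rw [ofEquiv_mulVec, ofEquiv_mulVec]
    show f (L x) (L y) = f x y
    rw [f_sum hD hf, f_sum hD hf x y]
    refine Fintype.sum_equiv (Equiv.swap a b) _ _ fun i => ?_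
    rcases eq_or_ne i a with rfl | hia
    · rw [Equiv.swap_apply_left, hPa, hPa, hiso']; rfl
    rcases eq_or_ne i b with rfl | hib
    · rw [Equiv.swap_apply_right, hPb, hPb, hiso]; rfl
    · rw [Equiv.swap_apply_of_ne_of_ne hia hib, hPo x i hia hib, hPo y i hia hib]
  · rw [ofEquiv_mulVec]
    show L x ∈ _
    rw [hL, proj_of_mem hD.decomp hx, proj_of_mem hD.decomp hx]
    have za : a ≠ i → pa x = 0 := fun h => Subtype.ext (by
      show P a x = 0
      rw [proj_of_mem hD.decomp hx, if_neg h])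
    have zb : b ≠ i → pb x = 0 := fun h => Subtype.ext (by
      show P b x = 0
      rw [proj_of_mem hD.decomp hx, if_neg h])
    rcases eq_or_ne i a with rfl | hia
    · rw [Equiv.swap_apply_left, if_pos rfl, if_neg (Ne.symm hab), zb (Ne.symm hab)]
      simp
    rcases eq_or_ne i b with rfl | hib
    · rw [Equiv.swap_apply_right, if_pos rfl, if_neg hab, za hab]
      simp
    · rw [Equiv.swap_apply_of_ne_of_ne hia hib, za (Ne.symm hia), zb (Ne.symm hib),
        if_neg (Ne.symm hia), if_neg (Ne.symm hib)]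
      simpa using hx

end

/-- For a finite field F with q elements and m ≥ 7, let D be a decomposition of F^(2m) into t ≥ 2 pairwise orthogonal subspaces of equal dimension k on each of which the standard alternating form is non-degenerate, spanning F^(2m). Unless k = 2 and q = 2, the elements of Sp_2m(F) permuting the members of D form a maximal subgroup of Sp_2m(F). -/
theorem result {F : Type*} [Field F] [Fintype F] (m : ℕ) (hm : 7 ≤ m) {t : ℕ} (k : ℕ) (D : Fin t → Submodule F (Fin m ⊕ Fin m → F)) (hD : Cfsg.Geo.IsNondegenerateMDecomposition (Cfsg.sympForm m F) k D) (hex : ¬ (k = 2 ∧ Fintype.card F = 2)) : Cfsg.Geo.IsMaximalIn (Cfsg.spGL m F) (Cfsg.Geo.decompositionStabilizer D ⊓ Cfsg.spGL m F) := by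
  have hf := CfsgLib.SympFormStd.isSymplecticForm m F
  have hd := hD.decomp
  refine ⟨lt_of_le_not_ge inf_le_right fun h => ?_, fun M hHM hMK => ?_⟩
  · have hlt : 0 < t ∧ 1 < t := by have := hd.two_le; omega
    let i0 : Fin t := ⟨0, hlt.1⟩
    let i1 : Fin t := ⟨1, hlt.2⟩
    have h01 : i0 ≠ i1 := by simp [i0, i1, Fin.ext_iff]
    obtain ⟨w, hw, hw0⟩ := CfsgLib.DecompProj.exists_ne_zero hd i0
    obtain ⟨b, hb, hb0⟩ := CfsgLib.DecompProj.exists_ne_zero hd i1
    obtain ⟨a, ha, hwa⟩ := (hD.nondegenerate i0 w hw hw0).2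
    obtain ⟨j, hj⟩ := CfsgLib.DecompProj.image_mem_of_stabilizer
      (h (CfsgLib.SympFormStd.sympT_mem_spGL (a + b) 1)).1 hw
    rw [CfsgLib.AltFormTransv.sympT_mulVec hf, one_mul, hf.bilinear.add_right,
      hD.orthogonal i0 i1 h01 w hw b hb, add_zero] at hj
    refine CfsgLib.DecompProj.not_mem_of_two hd h01 ?_ ?_ j hj
    · rw [map_add, map_smul, map_add, CfsgLib.DecompProj.proj_of_mem hd hw, if_pos rfl,
        CfsgLib.DecompProj.proj_of_mem hd ha, if_pos rfl, CfsgLib.DecompProj.proj_of_mem hd hb,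
        if_neg h01, add_zero]
      intro e
      have e2 := congrArg (CfsgLib.AltFormTransv.pair hf a) e
      rw [map_add, map_smul, map_zero, CfsgLib.AltFormTransv.pair_apply,
        CfsgLib.AltFormTransv.pair_apply, hf.alternating, smul_zero, add_zero] at e2
      exact hwa e2
    · rw [map_add, map_smul, map_add, CfsgLib.DecompProj.proj_of_mem hd hw, if_neg (Ne.symm h01),
        CfsgLib.DecompProj.proj_of_mem hd ha, if_neg (Ne.symm h01),
        CfsgLib.DecompProj.proj_of_mem hd hb, if_pos rfl, zero_add, zero_add]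
      exact smul_ne_zero hwa hb0
  · by_cases hle : M ≤ Geo.decompositionStabilizer D ⊓ spGL m F
    · exact Or.inl (le_antisymm hle hHM)
    obtain ⟨g, hgM, hgH⟩ := SetLike.not_le_iff_exists.1 hle
    refine Or.inr (le_antisymm hMK (CfsgLib.SympFormStd.spGL_le_of_sympT_mem M ?_))
    have hC : ∀ i, ∀ v ∈ D i, CfsgLib.SympCentres.Centre hf M v := fun i v hv c =>
      hHM ⟨sympT_mem_stab hD hf hv c, CfsgLib.SympFormStd.sympT_mem_spGL v c⟩
    have hq : (∃ l : F, l ≠ 0 ∧ l ≠ 1) ∨ (∀ l : F, l = 0 ∨ l = 1) ∧ 3 ≤ k := by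
      by_cases hex' : ∃ l : F, l ≠ 0 ∧ l ≠ 1
      · exact Or.inl hex'
      push Not at hex'
      have hl : ∀ l : F, l = 0 ∨ l = 1 := fun l => or_iff_not_imp_left.2 (hex' l)
      refine Or.inr ⟨hl, ?_⟩
      have hcard : Fintype.card F = 2 := by
        classical
        rw [← Finset.card_univ, show (Finset.univ : Finset F) = {0, 1} from
          (Finset.eq_univ_of_forall fun l => by simpa using hl l).symm,
          Finset.card_pair zero_ne_one]
      obtain ⟨n, -, hn, -⟩ := exists_basis hD hf ⟨0, by have := hd.two_le; omega⟩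
      have hk2 : k ≠ 2 := fun e => hex ⟨e, hcard⟩
      have := hd.pos
      omega
    obtain ⟨i, x, hx, hgx⟩ := CfsgLib.DecompProj.exists_not_mem_of_not_stabilizer hd
      fun hs => hgH ⟨hs, hMK hgM⟩
    have hc : CfsgLib.SympCentres.Centre hf M _ := (hC i x hx).image hgM (hMK hgM)
    obtain ⟨i, j, hij, hi, hj⟩ : ∃ i j, i ≠ j ∧
        CfsgLib.DecompProj.proj hd i ((g : Matrix _ _ F).mulVec x) ≠ 0 ∧
        CfsgLib.DecompProj.proj hd j ((g : Matrix _ _ F).mulVec x) ≠ 0 := by
      by_contra hno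
      push Not at hno
      have hex2 : ∃ l, CfsgLib.DecompProj.proj hd l ((g : Matrix _ _ F).mulVec x) ≠ 0 := by
        by_contra h0
        push Not at h0
        refine hgx i ?_
        rw [← CfsgLib.DecompProj.sum_proj hd ((g : Matrix _ _ F).mulVec x),
          Finset.sum_eq_zero fun l _ => h0 l]
        exact (D i).zero_mem
      obtain ⟨l, hl⟩ := hex2
      refine hgx l ?_
      rw [← CfsgLib.DecompProj.sum_proj hd ((g : Matrix _ _ F).mulVec x),
        Finset.sum_eq_single l (fun p _ hp => hno l p (Ne.symm hp) hl) (by simp)]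
      exact CfsgLib.DecompProj.proj_mem hd l _
    obtain ⟨a, ha, b, hb, ha0, hb0, hab⟩ := exists_two hD hC hq hc hij hi hj
    refine centre_all hD hC fun p r hpr a' ha' b' hb' => ?_
    -- move the pair (i, j) to (p, r)
    have step : ∀ i j, i ≠ j → ∀ a ∈ D i, ∀ b ∈ D j, a ≠ 0 → b ≠ 0 →
        CfsgLib.SympCentres.Centre hf M (a + b) → ∀ p q : Fin t, p ≠ q →
        ∃ a' ∈ D (Equiv.swap p q i), ∃ b' ∈ D (Equiv.swap p q j), a' ≠ 0 ∧ b' ≠ 0 ∧
          CfsgLib.SympCentres.Centre hf M (a' + b') := by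
      intro i j _ a ha b hb ha0 hb0 h p q hpq
      obtain ⟨s, hs, hsD⟩ := exists_swap hD hf hpq
      have hsH : s ∈ M := hHM ⟨CfsgLib.DecompProj.mem_decompositionStabilizer_of_maps hd _ hsD, hs⟩
      have h' := h.image hsH hs
      rw [Matrix.mulVec_add] at h'
      have hne : ∀ v : Fin m ⊕ Fin m → F, v ≠ 0 →
          (s : Matrix (Fin m ⊕ Fin m) (Fin m ⊕ Fin m) F).mulVec v ≠ 0 := fun v hv e => hv (by
        rw [← CfsgLib.TransvGL.inv_mulVec_mulVec s v, e, Matrix.mulVec_zero])
      exact ⟨_, hsD i a ha, _, hsD j b hb, hne a ha0, hne b hb0, h'⟩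
    obtain ⟨j', a1, ha1, b1, hb1, ha10, hb10, hab1, hj'⟩ : ∃ j', ∃ a1 ∈ D p, ∃ b1 ∈ D j',
        a1 ≠ 0 ∧ b1 ≠ 0 ∧ CfsgLib.SympCentres.Centre hf M (a1 + b1) ∧ p ≠ j' := by
      by_cases hip : i = p
      · subst hip; exact ⟨j, a, ha, b, hb, ha0, hb0, hab, hij⟩
      · obtain ⟨a1, ha1, b1, hb1, h1, h2, h3⟩ := step i j hij a ha b hb ha0 hb0 hab i p hip
        rw [Equiv.swap_apply_left] at ha1
        exact ⟨_, a1, ha1, b1, hb1, h1, h2, h3, fun e => hij ((Equiv.swap i p).injective
          (by rw [Equiv.swap_apply_left]; exact e))⟩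
    obtain ⟨a2, ha2, b2, hb2, ha20, hb20, hab2⟩ : ∃ a2 ∈ D p, ∃ b2 ∈ D r,
        a2 ≠ 0 ∧ b2 ≠ 0 ∧ CfsgLib.SympCentres.Centre hf M (a2 + b2) := by
      by_cases hjr : j' = r
      · subst hjr; exact ⟨a1, ha1, b1, hb1, ha10, hb10, hab1⟩
      · obtain ⟨a2, ha2, b2, hb2, h1, h2, h3⟩ := step p j' hj' a1 ha1 b1 hb1 ha10 hb10 hab1 j' r hjr
        rw [Equiv.swap_apply_left] at hb2
        rw [Equiv.swap_apply_of_ne_of_ne hj' hpr] at ha2
        exact ⟨a2, ha2, b2, hb2, h1, h2, h3⟩
    exact pair_all hD hC hpr ha2 hb2 ha20 hb20 hab2 ha' hb'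


end Cfsg.Agent.S5647
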