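import Cfsg.Statements.S5648
import Cfsg.Agent.Classical.SympFormStd
import Cfsg.Agent.Classical.DecompProj
import Cfsg.Agent.Classical.SmallFieldFacts
import Cfsg.Agent.Eq.Def_GeometricClasses

set_option autoImplicit false
open Cfsg CfsgLib Matrix

namespace Cfsg.Agent.S5648

/-- Over the field with 2 elements and for m ≥ 7, let D be a decomposition of F^(2m) into t pairwise orthogonal non-degenerate 2-dimensional subspaces for the standard alternating form (t = m ≥ 2). Then the elements of Sp_2m(2) permuting the members of D form a subgroup that is not maximal: some subgroup lies strictly between it and Sp_2m(2). -/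
theorem result {F : Type*} [Field F] [Fintype F] (m : ℕ) (hm : 7 ≤ m) (hq : Fintype.card F = 2) {t : ℕ} (D : Fin t → Submodule F (Fin m ⊕ Fin m → F)) (hD : Cfsg.Geo.IsNondegenerateMDecomposition (Cfsg.sympForm m F) 2 D) : ∃ K : Subgroup (Matrix.GeneralLinearGroup (Fin m ⊕ Fin m) F), Cfsg.Geo.decompositionStabilizer D ⊓ Cfsg.spGL m F < K ∧ K < Cfsg.spGL m F := by
  classical
  have hs := SympFormStd.isSymplecticForm m F
  have h2 : (2 : F) = 0 := SmallField.two_eq_zero_of_card_two hq
  have h01 := SmallField.eq_zero_or_one hq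
  have hd := hD.decomp
  have ht : 7 ≤ t := by
    have := DecompProj.mul_eq_card hd
    simp at this
    omega
  set f := sympForm m F with hf
  set P := DecompProj.proj hd with hP
  -- the value of the form on one member
  have pair : ∀ i, ∀ u ∈ D i, ∀ v ∈ D i, u ≠ 0 → v ≠ 0 → u ≠ v → f u v = 1 := by
    intro i u hu v hv hu0 hv0 huv
    refine (h01 _).resolve_left fun h0 => ?_
    have hind : LinearIndependent F ![u, v] := by
      rw [LinearIndependent.pair_iff]
      intro a b hab
      rcases h01 a with rfl | rfl <;> rcases h01 b with rfl | rfl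
      · exact ⟨rfl, rfl⟩
      · exact absurd (by simpa using hab) hv0
      · exact absurd (by simpa using hab) hu0
      · exfalso; apply huv
        have h3 : u + v = 0 := by simpa using hab
        have h4 : v + v = 0 := by rw [← two_smul F v, h2, zero_smul]
        calc u = u + (v + v) := by rw [h4, add_zero]
          _ = v := by rw [← add_assoc, h3, zero_add]
    have hspan : Submodule.span F (Set.range ![u, v]) = D i := by
      refine Submodule.eq_of_le_of_finrank_le (Submodule.span_le.2 ?_) ?_
      · rintro _ ⟨k, rfl⟩; fin_cases k <;> assumption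
      · rw [finrank_span_eq_card hind, hd.finrank_eq]; simp
    obtain ⟨x, hx, hxu⟩ := (hD.nondegenerate i u hu hu0).2
    rw [← hspan] at hx
    apply hxu
    clear hxu
    induction hx using Submodule.span_induction with
    | mem y hy =>
      obtain ⟨k, rfl⟩ := hy
      fin_cases k
      · exact hs.alternating u
      · exact h0
    | zero => exact AltFormTransv.zero_right hs u
    | add a b _ _ ha hb => rw [hs.bilinear.add_right, ha, hb, add_zero]
    | smul c a _ ha => rw [hs.bilinear.smul_right, ha, mul_zero]
  -- the quadratic form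
  set c : (Fin m ⊕ Fin m → F) → F := fun x => if x = 0 then 0 else 1 with hc
  set Q : (Fin m ⊕ Fin m → F) → F := fun x => ∑ i, c (P i x) with hQ
  have hcpol : ∀ i, ∀ u ∈ D i, ∀ v ∈ D i, c (u + v) = c u + c v + f u v := by
    intro i u hu v hv
    by_cases hu0 : u = 0
    · simp [hc, hu0, AltFormTransv.zero_left hs]
    by_cases hv0 : v = 0
    · simp [hc, hv0, AltFormTransv.zero_right hs]
    by_cases huv : u = v
    · subst huv
      have h3 : u + u = 0 := by rw [← two_smul F u, h2, zero_smul]
      simp only [hc, h3, if_pos, if_neg hu0]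
      rw [hs.alternating]; linear_combination -h2
    · have h3 : u + v ≠ 0 := fun h => huv (by
        have h4 : v + v = 0 := by rw [← two_smul F v, h2, zero_smul]
        calc u = u + (v + v) := by rw [h4, add_zero]
          _ = v := by rw [← add_assoc, h, zero_add])
      simp only [hc, if_neg hu0, if_neg hv0, if_neg h3, pair i u hu v hv hu0 hv0 huv]
      linear_combination -h2
  have hfsum : ∀ x y, f x y = ∑ i, f (P i x) (P i y) := by
    intro x y
    have hl : ∀ (z : Fin m ⊕ Fin m → F), f x z = ∑ i, f (P i x) z := fun z => by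
      have := map_sum (AltFormTransv.pair hs z) (fun i => P i x) Finset.univ
      rw [DecompProj.sum_proj hd x] at this
      exact this
    rw [hl]
    refine Finset.sum_congr rfl fun i _ => ?_
    have := map_sum ((AltFormTransv.pairHom hs)) (fun j => P j y) Finset.univ
    rw [DecompProj.sum_proj hd y] at this
    have h3 : f (P i x) y = ∑ j, f (P i x) (P j y) := by
      have := LinearMap.congr_fun this (P i x)
      rw [LinearMap.sum_apply] at this
      exact this
    rw [h3, Finset.sum_eq_single i (fun j _ hji => hD.orthogonal i j hji.symm _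
      (DecompProj.proj_mem hd i x) _ (DecompProj.proj_mem hd j y)) (by simp)]
  have hQadd : ∀ x y, Q (x + y) = Q x + Q y + f x y := by
    intro x y
    rw [hfsum]
    simp only [hQ, map_add]
    rw [← Finset.sum_add_distrib, ← Finset.sum_add_distrib]
    exact Finset.sum_congr rfl fun i _ =>
      hcpol i _ (DecompProj.proj_mem hd i x) _ (DecompProj.proj_mem hd i y)
  have hQsmul : ∀ (r : F) x, Q (r • x) = r * Q x := by
    intro r x
    rcases h01 r with rfl | rfl
    · simp [hQ, hc]
    · simp
  have hQT : ∀ v x, Q ((AltFormTransv.sympT hs v 1 : Matrix _ _ F) *ᵥ x) =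
      Q x + f x v * (Q v + 1) := by
    intro v x
    rw [AltFormTransv.sympT_mulVec, one_mul, hQadd, hQsmul, hs.bilinear.smul_right]
    rcases h01 (f x v) with h | h <;> rw [h] <;> ring
  -- vectors
  choose a ha ha0 using fun i => DecompProj.exists_ne_zero hd i
  let i0 : Fin t := ⟨0, by omega⟩
  let i1 : Fin t := ⟨1, by omega⟩
  let i2 : Fin t := ⟨2, by omega⟩
  have e01 : i0 ≠ i1 := by simp [i0, i1]
  have e02 : i0 ≠ i2 := by simp [i0, i2]
  have e12 : i1 ≠ i2 := by simp [i1, i2]
  have hPa : ∀ i j, P i (a j) = if i = j then a j else 0 := fun i j =>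
    DecompProj.proj_of_mem hd (ha j) i
  have hQa : ∀ i, Q (a i) = 1 := by
    intro i
    simp only [hQ]
    rw [Finset.sum_eq_single i]
    · simp [hc, hPa, ha0]
    · intro j _ hj; simp [hc, hPa, hj]
    · simp
  have orth : ∀ i j, i ≠ j → f (a i) (a j) = 0 := fun i j h => hD.orthogonal i j h _ (ha i) _ (ha j)
  refine ⟨Geo.quadSimilarityGroup Q ⊓ spGL m F, lt_of_le_not_ge ?_ ?_, lt_of_le_not_ge inf_le_right ?_⟩
  · rintro g ⟨⟨σ, hσ⟩, hg⟩
    refine ⟨⟨1, fun x => ?_⟩, hg⟩
    rw [Units.val_one, one_mul]
    simp only [hQ]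
    rw [← Equiv.sum_comp σ]
    refine Finset.sum_congr rfl fun i _ => ?_
    rw [hP, DecompProj.proj_mulVec hd hσ]
    simp only [hc]
    have hiff : (g : Matrix (Fin m ⊕ Fin m) (Fin m ⊕ Fin m) F) *ᵥ DecompProj.proj hd i x = 0 ↔ DecompProj.proj hd i x = 0 :=
      ⟨fun h => by
        have h3 := TransvGL.inv_mulVec_mulVec g (DecompProj.proj hd i x)
        rw [h, Matrix.mulVec_zero] at h3
        exact h3.symm, fun h => by rw [h, Matrix.mulVec_zero]⟩
    by_cases hz : DecompProj.proj hd i x = 0
    · rw [if_pos (hiff.2 hz), if_pos hz]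
    · rw [if_neg (fun h => hz (hiff.1 h)), if_neg hz]
  · intro hle
    set v := a i0 + a i1 + a i2 with hv
    have hQv : Q v = 1 := by
      rw [hv, hQadd, hQadd, hQa, hQa, hQa, hs.bilinear.add_left, orth _ _ e01, orth _ _ e02,
        orth _ _ e12]
      linear_combination h2
    have hmem : AltFormTransv.sympT hs v 1 ∈ Geo.quadSimilarityGroup Q ⊓ spGL m F :=
      ⟨⟨1, fun x => by rw [hQT, hQv, Units.val_one]; linear_combination (f x v) * h2⟩,
        SympFormStd.sympT_mem_spGL v 1⟩
    obtain ⟨y, hy, hy1⟩ := (hD.nondegenerate i0 _ (ha i0) (ha0 i0)).1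
    obtain ⟨j, hj⟩ := DecompProj.image_mem_of_stabilizer (hle hmem).1 hy
    have hfy : f y v = 1 := by
      rw [hv, hs.bilinear.add_right, hs.bilinear.add_right,
        hD.orthogonal i0 i1 e01 _ hy _ (ha i1), hD.orthogonal i0 i2 e02 _ hy _ (ha i2),
        (h01 _).resolve_left hy1]
      ring
    rw [AltFormTransv.sympT_mulVec, one_mul] at hj
    rw [hfy, one_smul] at hj
    have hPy : ∀ i, P i y = if i = i0 then y else 0 := DecompProj.proj_of_mem hd hy
    refine DecompProj.not_mem_of_two hd e12 ?_ ?_ j hj
    · show P i1 (y + v) ≠ 0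
      simp [hv, hPy, hPa, e01, e01.symm, e12, ha0]
    · show P i2 (y + v) ≠ 0
      simp [hv, hPy, hPa, e02, e02.symm, e12, e12.symm, ha0]
  · intro hle
    set v := a i0 + a i1 with hv
    have hQv : Q v = 0 := by
      rw [hv, hQadd, hQa, hQa, orth _ _ e01]; linear_combination h2
    have hv0 : v ≠ 0 := fun h => by
      have := congrArg (P i0) h
      simp [hv, hPa, e01, e01.symm, ha0] at this
    obtain ⟨x, hx⟩ := (hs.nondegenerate v hv0).1
    obtain ⟨u, hu⟩ := (hle (SympFormStd.sympT_mem_spGL v 1)).1
    have hu1 : (u : F) = 1 := (h01 _).resolve_left u.ne_zero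
    have h3 := hu x
    rw [hQT, hQv, hu1] at h3
    exact hx (by linear_combination h3)

end Cfsg.Agent.S5648
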