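import Cfsg.Statements.S5652
import Cfsg.Agent.Classical.SympFormStd
import Cfsg.Agent.Eq.Def_GeometricClasses

set_option autoImplicit false
open Cfsg

namespace Cfsg.Agent.S5652

section

open Matrix CfsgLib.TransvGL CfsgLib.AltFormTransv CfsgLib.SympFormStd

variable {F : Type*} [Field F] {m : ℕ}


theorem two_eq_zero [Fintype F] (h : ¬ Odd (Fintype.card F)) : (2 : F) = 0 := by
  obtain ⟨p, hp⟩ := CharP.exists F
  obtain ⟨k, hpp, hk⟩ := FiniteField.card F p
  have : p = 2 := by
    rcases hpp.eq_two_or_odd' with h2 | h2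
    · exact h2
    · exact absurd (hk ▸ h2.pow) h
  subst this
  exact_mod_cast CharP.cast_eq_zero F 2

theorem exists_sq [Fintype F] (h : ¬ Odd (Fintype.card F)) (a : F) : ∃ s : F, s ^ 2 = a := by
  have h2 := two_eq_zero h
  have hinj : Function.Injective fun s : F => s ^ 2 := by
    intro x y hxy
    have hxy' : x ^ 2 = y ^ 2 := hxy
    have : (x - y) ^ 2 = 0 := by linear_combination hxy' + (y ^ 2 - x * y) * h2
    exact sub_eq_zero.1 (pow_eq_zero_iff two_ne_zero |>.1 this)
  exact Finite.surjective_of_injective hinj a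

variable {Q : (Fin m ⊕ Fin m → F) → F} (hQs : ∀ (c : F) (v : (Fin m ⊕ Fin m → F)), Q (c • v) = c ^ 2 * Q v)
  (hpol : ∀ u v, QuadraticMap.polar Q u v = Cfsg.sympForm m F u v)

include hpol in
theorem Q_add (x y : (Fin m ⊕ Fin m → F)) : Q (x + y) = Q x + Q y + Cfsg.sympForm m F x y := by
  rw [← hpol, QuadraticMap.polar]; ring

include hQs hpol in
theorem Q_transv (v x : (Fin m ⊕ Fin m → F)) :
    Q ((sympT (isSymplecticForm m F) v 1 : Matrix _ _ F) *ᵥ x) =
      Q x + (Q v + 1) * (Cfsg.sympForm m F x v) ^ 2 := by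
  rw [sympT_mulVec, Q_add hpol, hQs, (isSymplecticForm m F).bilinear.smul_right]
  ring

include hQs hpol in
theorem exists_orth_value (hsq : ∀ a : F, ∃ s : F, s ^ 2 = a) (hm : 5 ≤ m) (S : Finset (Fin m ⊕ Fin m → F))
    (hS : S.card ≤ 3) (r : F) : ∃ l, (∀ w ∈ S, Cfsg.sympForm m F l w = 0) ∧ Q l = r := by
  obtain ⟨z, hzS, hz⟩ := exists_orth_not_mem (isSymplecticForm m F) S (by simp; omega)
  obtain ⟨d, hdU, hd⟩ := exists_orth_sep (isSymplecticForm m F) hz
  have hdS : ∀ w ∈ S, Cfsg.sympForm m F d w = 0 := fun w hw =>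
    orth_comm (isSymplecticForm m F) (hdU w (Submodule.subset_span hw))
  obtain ⟨l, hlS, hl⟩ : ∃ l, (∀ w ∈ S, Cfsg.sympForm m F l w = 0) ∧ Q l ≠ 0 := by
    by_contra hno
    push Not at hno
    have h3 := Q_add hpol z d
    rw [hno z hzS, hno d hdS, hno (z + d) fun w hw => by
      rw [(isSymplecticForm m F).bilinear.add_left, hzS w hw, hdS w hw, add_zero]] at h3
    exact hd (by linear_combination -h3)
  obtain ⟨s, hs'⟩ := hsq (r / Q l)
  refine ⟨s • l, fun w hw => by rw [(isSymplecticForm m F).bilinear.smul_left, hlS w hw, mul_zero], ?_⟩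
  rw [hQs, hs', div_mul_cancel₀ r hl]

include hQs hpol in
theorem mem_quadSim (g : GL (Fin m ⊕ Fin m) F) (hg : g ∈ Cfsg.spGL m F)
    (hsq : ∀ a : F, ∃ s : F, s ^ 2 = a) (hm : 5 ≤ m) (h2 : (2 : F) = 0)
    (h : ∀ v : (Fin m ⊕ Fin m → F), Q v = 1 → Q ((g : Matrix _ _ F) *ᵥ v) = 1) :
    g ∈ Cfsg.Geo.quadSimilarityGroup Q := by
  classical
  have hns : ∀ v : (Fin m ⊕ Fin m → F), Q v ≠ 0 → Q ((g : Matrix _ _ F) *ᵥ v) = Q v := by
    intro v hv
    obtain ⟨s, hs'⟩ := hsq (Q v)⁻¹
    have h1 : Q (s • v) = 1 := by rw [hQs, hs', inv_mul_cancel₀ hv]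
    have h3 := h _ h1
    rw [mulVec_smul, hQs, hs'] at h3
    field_simp at h3
    exact h3
  refine ⟨1, fun v => ?_⟩
  rw [Units.val_one, one_mul]
  by_cases hv : Q v = 0
  · obtain ⟨z, hz, hz1⟩ := exists_orth_value hQs hpol hsq hm {v} (by simp) 1
    have hzv : Cfsg.sympForm m F v z = 0 := orth_comm (isSymplecticForm m F) (hz v (by simp))
    have hvz : Q (v + z) = 1 := by rw [Q_add hpol, hv, hz1, hzv]; ring
    have h1 := h _ hvz
    rw [mulVec_add, Q_add hpol, h z hz1, (mem_spGL.1 hg), hzv] at h1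
    rw [hv]; linear_combination h1
  · exact hns v hv

include hQs hpol in
theorem all_sympT (hsq : ∀ a : F, ∃ s : F, s ^ 2 = a) (hm : 5 ≤ m) (h2 : (2 : F) = 0)
    {M : Subgroup (GL (Fin m ⊕ Fin m) F)} (hMle : M ≤ Cfsg.spGL m F)
    (hO : ∀ v, Q v = 1 → sympT (isSymplecticForm m F) v 1 ∈ M) {u : (Fin m ⊕ Fin m → F)} (hu : sympT (isSymplecticForm m F) u 1 ∈ M) (hu1 : Q u ≠ 1)
    (hu0 : u ≠ 0) (y : (Fin m ⊕ Fin m → F)) : sympT (isSymplecticForm m F) y 1 ∈ M := by
  classical
  have hs2 : ∀ x : F, -x = x := fun x => by linear_combination (-x) * h2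
  have hsym : ∀ x y : (Fin m ⊕ Fin m → F), Cfsg.sympForm m F x y = Cfsg.sympForm m F y x := fun x y => by
    rw [(isSymplecticForm m F).skew, hs2]
  -- conjugation
  have hconj : ∀ g ∈ M, ∀ v, sympT (isSymplecticForm m F) ((g : Matrix _ _ F) *ᵥ v) 1 ∈ M ↔ sympT (isSymplecticForm m F) v 1 ∈ M := by
    intro g hg v
    have he : g * sympT (isSymplecticForm m F) v 1 * g⁻¹ = sympT (isSymplecticForm m F) ((g : Matrix _ _ F) *ᵥ v) 1 :=
      conj_transv g _ _ rfl fun x => by
        simp only [one_smul, pair_apply, (mem_spGL.1 (hMle hg))]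
    rw [← he]
    exact ⟨fun h => by simpa [mul_assoc] using M.mul_mem (M.mul_mem (M.inv_mem hg) h) hg,
      fun h => M.mul_mem (M.mul_mem hg h) (M.inv_mem hg)⟩
  have hTw : ∀ (w x : (Fin m ⊕ Fin m → F)), ((sympT (isSymplecticForm m F) w 1 : GL (Fin m ⊕ Fin m) F) : Matrix _ _ F) *ᵥ x =
      x + Cfsg.sympForm m F x w • w := fun w x => by rw [sympT_mulVec, one_mul]
  obtain ⟨c0, hc0'⟩ := hsq ((1 + Q y) / (Q u + 1))
  have hu1' : Q u + 1 ≠ 0 := fun h => hu1 (by linear_combination h - h2)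
  have hc0 : (Q u + 1) * c0 ^ 2 = 1 + Q y := by rw [hc0', mul_div_cancel₀ _ hu1']
  -- any point with the right product lies in S
  have good : ∀ z, Q z = Q y → Cfsg.sympForm m F z u = c0 → sympT (isSymplecticForm m F) z 1 ∈ M := by
    intro z hzQ hzu
    rw [← hconj _ hu z]
    apply hO
    rw [Q_transv hQs hpol, hzQ, hzu, hc0]
    linear_combination Q y * h2
  have hOQ : ∀ w x : (Fin m ⊕ Fin m → F), Q w = 1 → Q ((sympT (isSymplecticForm m F) w 1 : Matrix _ _ F) *ᵥ x) = Q x := fun w x hw => by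
    rw [Q_transv hQs hpol, hw]; linear_combination (Cfsg.sympForm m F x w) ^ 2 * h2
  -- points independent of u
  have indep : ∀ z, Q z = Q y → z ∉ Submodule.span F {u} → z ≠ 0 → sympT (isSymplecticForm m F) z 1 ∈ M := by
    intro z hzQ hzsp hz0
    have husp : u ∉ Submodule.span F {z} := fun h => by
      obtain ⟨s, hs'⟩ := Submodule.mem_span_singleton.1 h
      have hs0 : s ≠ 0 := fun h0 => hu0 (by simp [← hs', h0])
      exact hzsp (Submodule.mem_span_singleton.2 ⟨s⁻¹, by rw [← hs', smul_smul,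
        inv_mul_cancel₀ hs0, one_smul]⟩)
    obtain ⟨c1, hc1u, hc1z⟩ := exists_sep (isSymplecticForm m F) hzsp
    obtain ⟨c2, hc2z, hc2u⟩ := exists_sep (isSymplecticForm m F) husp
    set d := c0 - Cfsg.sympForm m F z u with hd
    set w0 := c1 + d • c2 with hw0
    obtain ⟨l, hl, hlQ⟩ := exists_orth_value hQs hpol hsq hm {z, u, w0} (Finset.card_le_three)
      (1 + Q w0)
    have hwQ : Q (w0 + l) = 1 := by
      rw [Q_add hpol, hlQ, orth_comm (isSymplecticForm m F) (hl w0 (by simp))]; linear_combination Q w0 * h2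
    have hwz : Cfsg.sympForm m F z (w0 + l) = 1 := by
      rw [(isSymplecticForm m F).bilinear.add_right, orth_comm (isSymplecticForm m F) (hl z (by simp)), hw0, (isSymplecticForm m F).bilinear.add_right,
        (isSymplecticForm m F).bilinear.smul_right, hsym z c1, hc1z, hsym z c2, hc2z]; ring
    have hwu : Cfsg.sympForm m F (w0 + l) u = d := by
      rw [(isSymplecticForm m F).bilinear.add_left, hl u (by simp), hw0, (isSymplecticForm m F).bilinear.add_left,
        (isSymplecticForm m F).bilinear.smul_left, hc1u, hc2u]; ring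
    rw [← hconj _ (hO _ hwQ) z]
    refine good _ ((hOQ _ z hwQ).trans hzQ) ?_
    rw [hTw, hwz, one_smul, (isSymplecticForm m F).bilinear.add_left, hwu, hd]; ring
  by_cases hy0 : y = 0
  · have : sympT (isSymplecticForm m F) y 1 = 1 := ext_mulVec fun x => by simp [sympT_mulVec, hy0]
    rw [this]; exact one_mem M
  by_cases hyu : y ∈ Submodule.span F {u}
  · obtain ⟨t, ht⟩ := Submodule.mem_span_singleton.1 hyu
    have ht0 : t ≠ 0 := fun h0 => hy0 (by simp [← ht, h0])
    obtain ⟨w1, hw1⟩ := (isSymplecticForm m F).nondegenerate u hu0 |>.2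
    obtain ⟨l, hl, hlQ⟩ := exists_orth_value hQs hpol hsq hm {u, w1}
      (Finset.card_le_two.trans (by norm_num)) (1 + Q w1)
    have hwQ : Q (w1 + l) = 1 := by
      rw [Q_add hpol, hlQ, orth_comm (isSymplecticForm m F) (hl w1 (by simp))]; linear_combination Q w1 * h2
    have huw : Cfsg.sympForm m F u (w1 + l) ≠ 0 := by
      rwa [(isSymplecticForm m F).bilinear.add_right, orth_comm (isSymplecticForm m F) (hl u (by simp)), add_zero]
    have hyw : Cfsg.sympForm m F y (w1 + l) ≠ 0 := by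
      rw [← ht, (isSymplecticForm m F).bilinear.smul_left]; exact mul_ne_zero ht0 huw
    rw [← hconj _ (hO _ hwQ) y]
    have hnot : (sympT (isSymplecticForm m F) (w1 + l) 1 : Matrix _ _ F) *ᵥ y ∉ Submodule.span F {u} := by
      rw [hTw, Submodule.add_mem_iff_right _ hyu, Submodule.smul_mem_iff _ hyw]
      intro h
      obtain ⟨s, hs'⟩ := Submodule.mem_span_singleton.1 h
      exact huw (by rw [← hs', (isSymplecticForm m F).bilinear.smul_right, (isSymplecticForm m F).alternating, mul_zero])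
    exact indep _ (hOQ _ y hwQ) hnot fun h0 => hnot (h0 ▸ zero_mem _)
  · exact indep y rfl hyu hy0

end

open Matrix CfsgLib.TransvGL CfsgLib.AltFormTransv CfsgLib.SympFormStd

/-- For a finite field F of characteristic two and m ≥ 7, let Q be a non-degenerate quadratic form on F^(2m) whose polar form is the standard alternating form. Then the elements of Sp_2m(F) that are similarities of Q (they are exactly the isometries of Q) form a maximal subgroup of Sp_2m(F). -/
theorem result {F : Type*} [Field F] [Fintype F] (m : ℕ) (hm : 7 ≤ m) (heven : ¬ Odd (Fintype.card F)) (Q : (Fin m ⊕ Fin m → F) → F) (hQ : Cfsg.Geo.IsNondegenerateQuadraticForm Q) (hpol : ∀ u v, QuadraticMap.polar Q u v = Cfsg.sympForm m F u v) : Cfsg.Geo.IsMaximalIn (Cfsg.spGL m F) (Cfsg.Geo.quadSimilarityGroup Q ⊓ Cfsg.spGL m F) := by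
  classical
  have h2 := two_eq_zero heven
  have hsq := exists_sq heven
  have hm5 : 5 ≤ m := by omega
  have hQs := hQ.smul
  refine ⟨lt_of_le_not_ge inf_le_right fun hle => ?_, fun M hM1 hM2 => ?_⟩
  · -- a singular transvection is not a similitude
    obtain ⟨l1, -, hl1⟩ := exists_orth_value hQs hpol hsq hm5 ∅ (by simp) 1
    obtain ⟨d, hd⟩ := (isSymplecticForm m F).nondegenerate l1 (fun h0 => by
      have h3 := hQs 0 0
      rw [zero_smul] at h3
      rw [h0, h3] at hl1
      simp at hl1) |>.2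
    obtain ⟨l2, hl2, hl2Q⟩ := exists_orth_value hQs hpol hsq hm5 {l1, d}
      (Finset.card_le_two.trans (by norm_num)) 1
    have hy : Q (l1 + l2) = 0 := by
      rw [Q_add hpol, hl1, hl2Q, orth_comm (isSymplecticForm m F) (hl2 l1 (by simp))]
      linear_combination h2
    have hy0 : l1 + l2 ≠ 0 := fun h0 => by
      apply hd
      have h3 : sympForm m F (l1 + l2) d = 0 := by rw [h0]; exact zero_left (isSymplecticForm m F) d
      rwa [(isSymplecticForm m F).bilinear.add_left, hl2 d (by simp), add_zero] at h3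
    obtain ⟨c, hc⟩ := (hle (sympT_mem_spGL (l1 + l2) 1)).1
    obtain ⟨x, hx⟩ := ((isSymplecticForm m F).nondegenerate _ hy0).1
    have hpr := sympT_preserves (isSymplecticForm m F) (l1 + l2) 1 x (l1 + l2)
    have e : sympForm m F x (l1 + l2) = (c : F) * sympForm m F x (l1 + l2) := by
      conv_lhs => rw [← hpr]
      rw [← hpol, ← hpol, QuadraticMap.polar, QuadraticMap.polar, ← mulVec_add, hc, hc, hc]
      ring
    have hc1 : (c : F) = 1 := mul_right_cancel₀ hx (by linear_combination -e)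
    have h3 := hc x
    rw [Q_transv hQs hpol, hy, hc1] at h3
    exact hx (pow_eq_zero_iff two_ne_zero |>.1 (by linear_combination h3))
  by_cases heq : M = Geo.quadSimilarityGroup Q ⊓ spGL m F
  · exact Or.inl heq
  refine Or.inr (le_antisymm hM2 ?_)
  obtain ⟨g, hgM, hg⟩ := SetLike.not_le_iff_exists.1 fun h => heq (le_antisymm h hM1)
  have hO : ∀ v, Q v = 1 → sympT (isSymplecticForm m F) v 1 ∈ M := fun v hv =>
    hM1 ⟨⟨1, fun x => by
      rw [Q_transv hQs hpol, hv, Units.val_one]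
      linear_combination (sympForm m F x v) ^ 2 * h2⟩, sympT_mem_spGL v 1⟩
  obtain ⟨v, hv1, hgv⟩ : ∃ v, Q v = 1 ∧ Q ((g : Matrix _ _ F) *ᵥ v) ≠ 1 := by
    by_contra hno
    push Not at hno
    exact hg ⟨mem_quadSim hQs hpol g (hM2 hgM) hsq hm5 h2 hno, hM2 hgM⟩
  have hu : sympT (isSymplecticForm m F) ((g : Matrix _ _ F) *ᵥ v) 1 ∈ M := by
    rw [show sympT (isSymplecticForm m F) ((g : Matrix _ _ F) *ᵥ v) 1 =
      g * sympT (isSymplecticForm m F) v 1 * g⁻¹ from (conj_transv g _ _ rfl fun x => by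
        simp only [one_smul, pair_apply, (mem_spGL.1 (hM2 hgM))]).symm]
    exact M.mul_mem (M.mul_mem hgM (hO v hv1)) (M.inv_mem hgM)
  have hu0 : (g : Matrix (Fin m ⊕ Fin m) (Fin m ⊕ Fin m) F) *ᵥ v ≠ 0 := fun h => by
    have hv0 : v = 0 := by
      have h4 := inv_mulVec_mulVec g v
      rw [h, mulVec_zero] at h4
      exact h4.symm
    have h3 := hQs 0 0
    rw [zero_smul] at h3
    rw [hv0, h3] at hv1
    simp at hv1
  refine spGL_le_of_sympT_mem M fun y c => ?_
  obtain ⟨s, hs⟩ := hsq c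
  have : sympT (isSymplecticForm m F) y c = sympT (isSymplecticForm m F) (s • y) 1 :=
    ext_mulVec fun x => by
      rw [sympT_mulVec, sympT_mulVec, (isSymplecticForm m F).bilinear.smul_right, smul_smul, ← hs]
      congr 2; ring
  rw [this]
  exact all_sympT hQs hpol hsq hm5 h2 hM2 hO hu hgv hu0 _

end Cfsg.Agent.S5652
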