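import Cfsg.Statements.S5653
import Cfsg.Agent.Classical.UnitCentresStd
import Cfsg.Agent.Eq.Def_GeometricClasses
-- import your own Cfsg.Agent.* helpers here

set_option autoImplicit false
open Cfsg

namespace Cfsg.Agent.S5653

section

open Matrix CfsgLib.TransvGL CfsgLib.UnitCentres

variable {ι : Type} [Fintype ι] [DecidableEq ι] {F : Type*} [Field F]
variable {σ : F ≃+* F} {f : (ι → F) → (ι → F) → F}

/-- The Siegel transformation `x ↦ x + f x a • b + (r * f x a - f x b) • a`. -/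
noncomputable def siegel (hf : Cfsg.Geo.IsUnitaryForm σ f) {a b : ι → F} (ha : f a a = 0)
    (hab : f b a = 0) (r : F) : GL ι F :=
  transv (φ := upair hf a) (v := b) (by simpa using hab) *
    transv (φ := r • upair hf a - upair hf b) (v := a) (by simp [ha, orth_comm hf hab])

theorem siegel_mulVec (hf : Cfsg.Geo.IsUnitaryForm σ f) {a b : ι → F} (ha : f a a = 0)
    (hab : f b a = 0) (r : F) (x : ι → F) :
    (siegel hf ha hab r : Matrix ι ι F) *ᵥ x = x + f x a • b + (r * f x a - f x b) • a := by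
  simp only [siegel, Units.val_mul, ← mulVec_mulVec, transv_mulVec, upair_apply,
    LinearMap.sub_apply, LinearMap.smul_apply, smul_eq_mul, hf.add_left, hf.smul_left, ha]
  module

theorem siegel_iso (hf : Cfsg.Geo.IsUnitaryForm σ f) {a b : ι → F} (ha : f a a = 0)
    (hab : f b a = 0) {r : F} (hr : r + σ r + f b b = 0) : Iso f (siegel hf ha hab r) := by
  intro x y
  simp only [siegel_mulVec, hf.add_left, add_right hf, hf.smul_left, smul_right hf, ha, hab,
    orth_comm hf hab, map_sub, map_mul, ← hf.herm a y, ← hf.herm b y]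
  linear_combination (f x a * f a y) * hr

theorem centre_all [Finite F] (hf : Cfsg.Geo.IsUnitaryForm σ f) {M : Subgroup (GL ι F)}
    {W : Submodule F (ι → F)} (hP : ∀ v, f v v = 0 → (∀ x ∈ W, f x v = 0) → Centre hf M v)
    (hW : Cfsg.Geo.IsTotallySingularFor f W) {g : GL ι F} (hgM : g ∈ M) (hg : Iso f g)
    (hgW : g ∉ Cfsg.Geo.subspaceStabilizer W)
    (hmove : ∀ h, Iso f h → h ∈ Cfsg.Geo.specialLinear ι F →
      h ∈ Cfsg.Geo.subspaceStabilizer W → h ∈ M) :
    ∀ y, f y y = 0 → Centre hf M y := by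
  have hWc : ∀ w ∈ W, Centre hf M w := fun w hw => hP w (hW w hw w hw) fun x hx => hW x hx w hw
  obtain ⟨v, hv, a0, ha0, hva0⟩ : ∃ v, Centre hf M v ∧ ∃ a ∈ W, f v a ≠ 0 := by
    obtain ⟨w, hw, hgw⟩ : ∃ w ∈ W, (g : Matrix ι ι F) *ᵥ w ∉ W := by
      by_contra h
      push Not at h
      exact hgW (mem_subspaceStabilizer_of_maps h)
    have hc := (hWc w hw).image hgM hg
    by_cases hout : ∃ a ∈ W, f ((g : Matrix ι ι F) *ᵥ w) a ≠ 0
    · exact ⟨_, hc, hout⟩
    push Not at hout
    obtain ⟨d, hdW, hd⟩ := exists_orth_sep hf hgw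
    obtain ⟨t, ht⟩ := exists_isotropic_shift hf hc.iso hd
    have hdc : Centre hf M (d + t • (g : Matrix ι ι F) *ᵥ w) := hP _ ht fun x hx => by
      rw [add_right hf, smul_right hf, hdW x hx, orth_comm hf (hout x hx), mul_zero, add_zero]
    refine ⟨_, hdc.image (M.inv_mem hgM) hg.inv, w, hw, fun h => hd (orth_comm hf ?_)⟩
    rw [← hg, mulVec_inv_mulVec, hf.add_left, hf.smul_left, hc.iso, mul_zero, add_zero] at h
    exact h
  intro y hy
  by_cases hyP : ∀ x ∈ W, f x y = 0
  · exact hP y hy hyP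
  push Not at hyP
  obtain ⟨a1, ha1, hya1'⟩ := hyP
  have hya1 : f y a1 ≠ 0 := fun e => hya1' (orth_comm hf e)
  obtain ⟨a, ha, hva, hya⟩ : ∃ a ∈ W, f v a ≠ 0 ∧ f y a ≠ 0 := by
    by_cases h1 : f y a0 = 0
    · by_cases h2 : f v a1 = 0
      · exact ⟨a0 + a1, W.add_mem ha0 ha1, by rw [add_right hf, h2, add_zero]; exact hva0,
          by rw [add_right hf, h1, zero_add]; exact hya1⟩
      · exact ⟨a1, ha1, h2, hya1⟩
    · exact ⟨a0, ha0, hva0, h1⟩
  have hu : f ((f y a / f v a) • v) a = f y a := by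
    rw [hf.smul_left, div_mul_cancel₀ _ hva]
  set u := (f y a / f v a) • v with hudef
  set b := (f y a)⁻¹ • (y - u) with hb
  have hba : f b a = 0 := by rw [hb, hf.smul_left, sub_left hf, hu, sub_self, mul_zero]
  obtain ⟨r, hr⟩ := exists_trace hf (r := -f b b) (by rw [map_neg, norm_fixed hf])
  have haa : f a a = 0 := hW a ha a ha
  have hr' : r + σ r + f b b = 0 := by linear_combination hr
  have hstab : siegel hf haa hba r ∈ Cfsg.Geo.subspaceStabilizer W :=
    mem_subspaceStabilizer_of_maps fun x hx => by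
      rw [siegel_mulVec, hW x hx a ha, zero_smul, add_zero]
      exact W.add_mem hx (W.smul_mem _ ha)
  have hc := (hv.smul (f y a / f v a)).image (hmove _ (siegel_iso hf haa hba hr')
    (mul_mem (transv_mem_specialLinear _) (transv_mem_specialLinear _)) hstab)
    (siegel_iso hf haa hba hr')
  rw [← hudef] at hc
  set s := r * f u a - f u b with hs
  have himg : (siegel hf haa hba r : Matrix ι ι F) *ᵥ u = y + s • a := by
    rw [siegel_mulVec, ← hs, hu, hb, smul_smul, mul_inv_cancel₀ hya, one_smul, add_sub_cancel]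
  rw [himg] at hc
  have hne : f (y + s • a) a ≠ 0 := by rw [hf.add_left, hf.smul_left, haa, mul_zero, add_zero]; exact hya
  have heq : (1 : F) • (y + s • a) + (-s) • a = y := by module
  exact heq ▸ hc.line (hWc a ha) hne (by rw [heq]; exact hy)

end

/-- Let F be the field with q² elements and n ≥ 13, and let SU_n(q) be the group of matrices of determinant one preserving the standard unitary form Σ u_i v_i^q on F^n (the intersection of the unitary group GU_n with the kernel of the determinant). The elements of SU_n(q) stabilising a non-zero subspace on which the form vanishes identically form a maximal subgroup of SU_n(q). -/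
theorem result {F : Type*} [Field F] [Fintype F] (n q : ℕ) (hF : Fintype.card F = q ^ 2) (hn : 13 ≤ n) (W : Submodule F (Fin n → F)) (hW0 : W ≠ ⊥) (hW : Cfsg.Geo.IsTotallySingularFor (Cfsg.hermForm n F q) W) : Cfsg.Geo.IsMaximalIn (Cfsg.GU n F q ⊓ Cfsg.Geo.specialLinear (Fin n) F) (Cfsg.Geo.subspaceStabilizer W ⊓ (Cfsg.GU n F q ⊓ Cfsg.Geo.specialLinear (Fin n) F)) := by
  obtain ⟨σ, hσ, hf⟩ := CfsgLib.LinAlg.Witt.exists_isUnitaryForm_hermForm (n := n) hF
  obtain ⟨w, hw, hw0⟩ := W.ne_bot_iff.1 hW0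
  obtain ⟨d, hd⟩ := (hf.nondegenerate w hw0).2
  obtain ⟨c, hc0, hc⟩ := CfsgLib.UnitCentres.exists_traceZero hf
  obtain ⟨t, ht⟩ := CfsgLib.UnitCentres.exists_isotropic_shift hf (hW w hw w hw) hd
  have hwz : hermForm n F q w (d + t • w) ≠ 0 := by
    rw [CfsgLib.UnitCentres.add_right hf, CfsgLib.UnitCentres.smul_right hf, hW w hw w hw, mul_zero,
      add_zero]
    exact hd
  have hzW : d + t • w ∉ W := fun h => hwz (hW w hw _ h)
  refine ⟨lt_of_le_not_ge inf_le_right fun h => ?_, fun M hHM hMK => ?_⟩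
  · have h1 := CfsgLib.TransvGL.mem_subspaceStabilizer.1 (h (CfsgLib.UnitCentres.mem_special.2
      ⟨CfsgLib.UnitCentres.uT_iso hf ht hc, CfsgLib.UnitCentres.uT_mem_specialLinear hf ht c⟩)).1 w
    have h2 := h1.1 hw
    rw [CfsgLib.UnitCentres.uT_mulVec, W.add_mem_iff_right hw,
      W.smul_mem_iff (mul_ne_zero hc0 hwz)] at h2
    exact hzW h2
  · by_cases hle : M ≤ Geo.subspaceStabilizer W ⊓ (GU n F q ⊓ Geo.specialLinear (Fin n) F)
    · exact Or.inl (le_antisymm hle hHM)
    obtain ⟨g, hgM, hgH⟩ := SetLike.not_le_iff_exists.1 hle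
    refine Or.inr (le_antisymm hMK (CfsgLib.UnitCentres.gu_le_of_centres hF (by omega) hσ hf ?_))
    refine centre_all hf (fun v hv hvW => ⟨hv, fun c hc => hHM ⟨?_, ?_⟩⟩) hW hgM
      (CfsgLib.UnitCentres.mem_special.1 (hMK hgM)).1 (fun hs => hgH ⟨hs, hMK hgM⟩)
      fun h hiso hsl hst => hHM ⟨hst, CfsgLib.UnitCentres.mem_special.2 ⟨hiso, hsl⟩⟩
    · exact CfsgLib.UnitCentres.uT_mem_subspaceStabilizer hf hv (Or.inr hvW) c
    · exact CfsgLib.UnitCentres.mem_special.2
        ⟨CfsgLib.UnitCentres.uT_iso hf hv hc, CfsgLib.UnitCentres.uT_mem_specialLinear hf hv c⟩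

end Cfsg.Agent.S5653
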