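import Cfsg.Statements.S5654
import Cfsg.Agent.Classical.UnitCentresStd
import Cfsg.Agent.Eq.Def_GeometricClasses
-- import your own Cfsg.Agent.* helpers here

set_option autoImplicit false
open Cfsg

namespace Cfsg.Agent.S5654

section

open Matrix CfsgLib.TransvGL CfsgLib.UnitCentres

variable {ι : Type} [Fintype ι] [DecidableEq ι] {F : Type*} [Field F]
variable {σ : F ≃+* F} {f : (ι → F) → (ι → F) → F} {W : Submodule F (ι → F)}

local notation "U" hf:max => perp hf (W : Set (ι → F))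

theorem eq_zero_of_mem_both (hf : Cfsg.Geo.IsUnitaryForm σ f)
    (hW : Cfsg.Geo.IsNondegenerateOn f W) {x : ι → F} (h1 : x ∈ W) (h2 : x ∈ U hf) : x = 0 := by
  by_contra h0
  obtain ⟨y, hy, hy'⟩ := (hW x h1 h0).2
  exact hy' (h2 y hy)

theorem finrank_perp_ge (hf : Cfsg.Geo.IsUnitaryForm σ f) :
    Fintype.card ι ≤ Module.finrank F W + Module.finrank F (U hf) := by
  let b := Module.finBasis F W
  let L : (ι → F) →ₗ[F] (Fin (Module.finrank F W) → F) :=
    LinearMap.pi fun i => upair hf (b i : ι → F)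
  have hker : LinearMap.ker L ≤ U hf := by
    intro x hx w hw
    have hx' : ∀ i, f x (b i : ι → F) = 0 := fun i => congrFun (LinearMap.mem_ker.1 hx) i
    let R : W →+ F :=
      { toFun := fun z => f x z, map_zero' := zero_right hf x, map_add' := fun y z => add_right hf x y z }
    show R ⟨w, hw⟩ = 0
    rw [← b.sum_repr ⟨w, hw⟩, map_sum]
    refine Finset.sum_eq_zero fun i _ => ?_
    show f x ((b.repr ⟨w, hw⟩ i) • (b i : ι → F)) = 0
    rw [smul_right hf, hx' i, mul_zero]
  have h1 := LinearMap.finrank_range_add_finrank_ker L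
  have h2 : Module.finrank F (LinearMap.range L) ≤ Module.finrank F W :=
    (Submodule.finrank_le _).trans (by simp)
  have h3 : Module.finrank F (ι → F) = Fintype.card ι := Module.finrank_fintype_fun_eq_card F
  have h4 := Submodule.finrank_mono hker
  omega

theorem exists_split (hf : Cfsg.Geo.IsUnitaryForm σ f) (hW : Cfsg.Geo.IsNondegenerateOn f W)
    (x : ι → F) : ∃ a ∈ W, x - a ∈ U hf := by
  have hinf : W ⊓ U hf = ⊥ :=
    (Submodule.eq_bot_iff _).2 fun y hy => eq_zero_of_mem_both hf hW hy.1 hy.2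
  have h1 := Submodule.finrank_sup_add_finrank_inf_eq W (U hf)
  rw [hinf, finrank_bot, add_zero] at h1
  have h2 : W ⊔ U hf = ⊤ := Submodule.eq_top_of_finrank_eq (le_antisymm (Submodule.finrank_le _) (by
    rw [Module.finrank_fintype_fun_eq_card, h1]; exact finrank_perp_ge hf))
  obtain ⟨a, ha, u, hu, rfl⟩ := Submodule.mem_sup.1 (h2 ▸ Submodule.mem_top (x := x))
  exact ⟨a, ha, by rw [add_sub_cancel_left]; exact hu⟩

theorem mem_of_orth_perp (hf : Cfsg.Geo.IsUnitaryForm σ f) (hW : Cfsg.Geo.IsNondegenerateOn f W)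
    {x : ι → F} (hx : ∀ u ∈ U hf, f x u = 0) : x ∈ W := by
  obtain ⟨a, ha, hu⟩ := exists_split hf hW x
  by_cases h0 : x - a = 0
  · rw [sub_eq_zero.1 h0]; exact ha
  exfalso
  obtain ⟨⟨y, hy⟩, -⟩ := hf.nondegenerate (x - a) h0
  obtain ⟨a', ha', hu'⟩ := exists_split hf hW y
  apply hy
  have h1 : f (y - a') (x - a) = 0 := by
    rw [sub_right hf, orth_comm hf (hx _ hu'), hu' a ha, sub_zero]
  rw [sub_left hf, orth_comm hf (hu a' ha'), sub_zero] at h1
  exact h1

theorem perp_nondeg (hf : Cfsg.Geo.IsUnitaryForm σ f) (hW : Cfsg.Geo.IsNondegenerateOn f W)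
    {u : ι → F} (hu : u ∈ U hf) (h0 : u ≠ 0) : ∃ p ∈ U hf, f p u = 1 := by
  obtain ⟨⟨y, hy⟩, -⟩ := hf.nondegenerate u h0
  obtain ⟨a, ha, hu'⟩ := exists_split hf hW y
  have h1 : f (y - a) u ≠ 0 := by rw [sub_left hf, orth_comm hf (hu a ha), sub_zero]; exact hy
  refine ⟨(f (y - a) u)⁻¹ • (y - a), Submodule.smul_mem _ _ hu', ?_⟩
  rw [hf.smul_left, inv_mul_cancel₀ h1]

theorem exists_unit_in [Finite F] (hf : Cfsg.Geo.IsUnitaryForm σ f)
    (hW : Cfsg.Geo.IsNondegenerateOn f W) (S : Finset (ι → F))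
    (h : 2 * S.card + Module.finrank F W < Fintype.card ι) :
    ∃ u ∈ U hf, (∀ w ∈ S, f u w = 0) ∧ f u u = 1 := by
  obtain ⟨u, hu, hu0⟩ : ∃ u ∈ U hf ⊓ perp hf (S : Set (ι → F)), f u u ≠ 0 := by
    by_contra hno
    push Not at hno
    set P := U hf ⊓ perp hf (S : Set (ι → F)) with hP
    have hle : P ≤ Submodule.span F (S : Set (ι → F)) ⊔ W := by
      intro x hx
      by_contra hxS
      obtain ⟨d, hd, hxd⟩ := exists_orth_sep hf hxS
      refine hxd (orth_of_isotropic hf hno hx ⟨fun w hw => orth_comm hf (hd w (Submodule.mem_sup_right hw)),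
        fun w hw => orth_comm hf (hd w (Submodule.mem_sup_left (Submodule.subset_span hw)))⟩)
    have hPW : P ⊓ W = ⊥ :=
      (Submodule.eq_bot_iff _).2 fun y hy => eq_zero_of_mem_both hf hW hy.2 hy.1.1
    have h1 := Submodule.finrank_sup_add_finrank_inf_eq P W
    rw [hPW, finrank_bot, add_zero] at h1
    have h2 := Submodule.finrank_mono (sup_le hle le_sup_right)
    have h3 := Submodule.finrank_add_le_finrank_add_finrank (Submodule.span F (S : Set (ι → F))) W
    have h4 := finrank_span_finset_le_card (R := F) S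
    rw [Set.finrank] at h4
    let L : U hf →ₗ[F] (S → F) := LinearMap.pi fun w => (upair hf (w : ι → F)).comp (U hf).subtype
    have h5 := LinearMap.finrank_range_add_finrank_ker L
    have h6 : Module.finrank F (LinearMap.range L) ≤ S.card :=
      (Submodule.finrank_le _).trans (by simp)
    have h7 : (LinearMap.ker L).map (U hf).subtype ≤ P := by
      rintro _ ⟨y, hy, rfl⟩
      exact ⟨y.2, fun w hw => congrFun (LinearMap.mem_ker.1 hy) ⟨w, hw⟩⟩
    have h8 := Submodule.finrank_mono h7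
    rw [Submodule.finrank_map_subtype_eq] at h8
    have h9 := finrank_perp_ge (W := W) hf
    omega
  obtain ⟨a, ha⟩ := exists_norm hf (r := (f u u)⁻¹) (by rw [map_inv₀, norm_fixed hf])
  refine ⟨a • u, Submodule.smul_mem _ _ hu.1, fun w hw => by rw [hf.smul_left, hu.2 w hw, mul_zero], ?_⟩
  rw [hf.smul_left, smul_right hf, ← mul_assoc, ha, inv_mul_cancel₀ hu0]

/-- Non-zero vectors of any norm in the complement, orthogonal to a small set. -/
theorem exists_norm_in [Finite F] (hf : Cfsg.Geo.IsUnitaryForm σ f)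
    (hW : Cfsg.Geo.IsNondegenerateOn f W) (S : Finset (ι → F))
    (h : 2 * S.card + 2 + Module.finrank F W < Fintype.card ι) {ν : F} (hν : σ ν = ν) :
    ∃ u ∈ U hf, u ≠ 0 ∧ (∀ w ∈ S, f u w = 0) ∧ f u u = ν := by
  classical
  obtain ⟨u1, hu1, hu1S, hu11⟩ := exists_unit_in hf hW S (by omega)
  obtain ⟨u2, hu2, hu2S, hu22⟩ := exists_unit_in hf hW (insert u1 S)
    (by have := Finset.card_insert_le u1 S; omega)
  have h21 : f u2 u1 = 0 := hu2S u1 (Finset.mem_insert_self _ _)
  obtain ⟨a, ha⟩ := exists_norm hf (r := ν - 1) (by rw [map_sub, hν, map_one])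
  refine ⟨u1 + a • u2, Submodule.add_mem _ hu1 (Submodule.smul_mem _ _ hu2), fun e => ?_, fun w hw => ?_, ?_⟩
  · have h1 := congrArg (fun z => f z u1) e
    simp only [hf.add_left, hf.smul_left, hu11, h21, zero_left hf, mul_zero, add_zero] at h1
    exact one_ne_zero h1
  · rw [hf.add_left, hf.smul_left, hu1S w hw, hu2S w (Finset.mem_insert_of_mem hw), mul_zero, add_zero]
  · rw [norm_add_smul hf, hu11, hu22, h21, orth_comm hf h21]
    linear_combination ha

/-- Prescribed product and norm. -/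
theorem exists_pairing_in [Finite F] (hf : Cfsg.Geo.IsUnitaryForm σ f)
    (hW : Cfsg.Geo.IsNondegenerateOn f W) (hn : 6 + Module.finrank F W < Fintype.card ι) {b : ι → F}
    (hb : b ∈ U hf) (hb0 : b ≠ 0) (s : F) {ν : F} (hν : σ ν = ν) :
    ∃ x ∈ U hf, f x b = s ∧ f x x = ν := by
  classical
  obtain ⟨p, hp, hpb⟩ := perp_nondeg hf hW hb hb0
  obtain ⟨u, hu, -, huS, huu⟩ := exists_norm_in hf hW {p, b}
    (by have := Finset.card_le_two (a := p) (b := b); omega)
    (ν := ν - f (s • p) (s • p)) (by rw [map_sub, hν, norm_fixed hf])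
  refine ⟨s • p + u, Submodule.add_mem _ (Submodule.smul_mem _ _ hp) hu, ?_, ?_⟩
  · rw [hf.add_left, hf.smul_left, hpb, huS b (by simp), mul_one, add_zero]
  · have hsu : f (s • p) u = 0 := by
      rw [hf.smul_left, orth_comm hf (huS p (by simp)), mul_zero]
    rw [hf.add_left, add_right hf, add_right hf, huu, hsu, orth_comm hf hsu]
    ring

theorem exists_move [Finite F] (hf : Cfsg.Geo.IsUnitaryForm σ f)
    (hW : Cfsg.Geo.IsNondegenerateOn f W) (hn : 6 + Module.finrank F W < Fintype.card ι)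
    {a a' b b' : ι → F} (ha : a ∈ W) (ha' : a' ∈ W) (hb : b ∈ U hf) (hb' : b' ∈ U hf)
    (ha0 : a ≠ 0) (ha'0 : a' ≠ 0) (hb0 : b ≠ 0) (hb'0 : b' ≠ 0) (hN : f a a = f a' a')
    (hN' : f b b = f b' b') :
    ∃ g : GL ι F, Iso f g ∧ g ∈ Cfsg.Geo.specialLinear ι F ∧
      g ∈ Cfsg.Geo.subspaceStabilizer W ∧ (g : Matrix ι ι F) *ᵥ (a + b) = a' + b' := by
  -- an isometry fixing the complement and moving `a`
  obtain ⟨p, hp, hap⟩ : ∃ p ∈ W, f a p = 1 := by
    obtain ⟨y, hy, hy'⟩ := (hW a ha ha0).2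
    refine ⟨σ (f a y)⁻¹ • y, W.smul_mem _ hy, ?_⟩
    rw [smul_right hf, hf.involutive, inv_mul_cancel₀ hy']
  obtain ⟨g1, hg1, hg1U, hg1a⟩ : ∃ g : GL ι F, Iso f g ∧
      (∀ u ∈ U hf, (g : Matrix ι ι F) *ᵥ u = u) ∧ (g : Matrix ι ι F) *ᵥ a = a' := by
    let X := U hf ⊔ Submodule.span F {a}
    let L : (ι → F) →ₗ[F] (ι → F) := LinearMap.id + (upair hf p).smulRight (a' - a)
    have key : ∀ x ∈ X, ∃ u ∈ U hf, ∃ k : F, x = u + k • a ∧ L x = u + k • a' := by
      intro x hx
      obtain ⟨u, hu, z, hz, rfl⟩ := Submodule.mem_sup.1 hx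
      obtain ⟨k, rfl⟩ := Submodule.mem_span_singleton.1 hz
      refine ⟨u, hu, k, rfl, ?_⟩
      show (u + k • a) + f (u + k • a) p • (a' - a) = _
      rw [hf.add_left, hf.smul_left, hu p hp, hap, mul_one, zero_add]
      module
    have hinj : Function.Injective (L.comp X.subtype) := by
      rw [← LinearMap.ker_eq_bot, Submodule.eq_bot_iff]
      rintro ⟨x, hx⟩ hx0
      obtain ⟨u, hu, k, rfl, hL⟩ := key x hx
      have h0 : u + k • a' = 0 := hL ▸ LinearMap.mem_ker.1 hx0
      have hk : k • a' = 0 := eq_zero_of_mem_both hf hW (W.smul_mem k ha')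
        (by rw [eq_neg_of_add_eq_zero_right h0]; exact Submodule.neg_mem _ hu)
      rw [hk, add_zero] at h0
      have hk0 := (smul_eq_zero.1 hk).resolve_right ha'0
      apply Subtype.ext
      show u + k • a = 0
      rw [h0, hk0, zero_smul, add_zero]
    obtain ⟨g, hg, hgx⟩ := CfsgLib.LinAlg.Witt.witt_unitaryFun hf X (L.comp X.subtype) hinj (by
      rintro ⟨x, hx⟩ ⟨y, hy⟩
      obtain ⟨u, hu, k, rfl, hL⟩ := key x hx
      obtain ⟨v, hv, l, rfl, hL'⟩ := key y hy
      show f (L (u + k • a)) (L (v + l • a)) = f (u + k • a) (v + l • a)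
      rw [hL, hL', hf.add_left, hf.add_left, add_right hf, add_right hf, add_right hf, add_right hf,
        hf.smul_left, hf.smul_left, hf.smul_left, hf.smul_left, smul_right hf, smul_right hf,
        smul_right hf, smul_right hf, hu a ha, hu a' ha', orth_comm hf (hv a ha),
        orth_comm hf (hv a' ha'), hN])
    have hLa : L a = a' := by
      obtain ⟨u, hu, k, hx, hL⟩ := key a (Submodule.mem_sup_right (Submodule.mem_span_singleton_self a))
      show a + f a p • (a' - a) = a'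
      rw [hap, one_smul, add_sub_cancel]
    refine ⟨g, hg, fun u hu => ?_, ?_⟩
    · refine (hgx ⟨u, Submodule.mem_sup_left hu⟩).trans ?_
      show u + f u p • (a' - a) = u
      rw [hu p hp, zero_smul, add_zero]
    · exact (hgx ⟨a, Submodule.mem_sup_right (Submodule.mem_span_singleton_self a)⟩).trans hLa
  have hg1W : ∀ w ∈ W, (g1 : Matrix ι ι F) *ᵥ w ∈ W := fun w hw => mem_of_orth_perp hf hW fun u hu => by
    rw [← hg1U u hu, hg1]; exact orth_comm hf (hu w hw)
  -- now adjust on the complement, with determinant one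
  obtain ⟨u, hu, huS, huu⟩ := exists_unit_in hf hW {b'} (by simp; omega)
  obtain ⟨p', hp', hbp'⟩ := perp_nondeg hf hW hb hb0
  let X := W ⊔ Submodule.span F {b}
  let G := Matrix.toLin' (g1 : Matrix ι ι F)
  let L : (ι → F) →ₗ[F] (ι → F) := G + (upair hf p').smulRight (b' - (g1 : Matrix ι ι F) *ᵥ b)
  have hbp : f b p' = 1 := by rw [hf.herm, hbp', map_one]
  have key : ∀ x ∈ X, ∃ w ∈ W, ∃ k : F, x = w + k • b ∧ L x = (g1 : Matrix ι ι F) *ᵥ w + k • b' := by
    intro x hx
    obtain ⟨w, hw, z, hz, rfl⟩ := Submodule.mem_sup.1 hx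
    obtain ⟨k, rfl⟩ := Submodule.mem_span_singleton.1 hz
    refine ⟨w, hw, k, rfl, ?_⟩
    show G (w + k • b) + f (w + k • b) p' • (b' - (g1 : Matrix ι ι F) *ᵥ b) = _
    rw [map_add, map_smul, Matrix.toLin'_apply, Matrix.toLin'_apply, hf.add_left, hf.smul_left,
      orth_comm hf (hp' w hw), hbp, mul_one, zero_add]
    module
  have hinj : Function.Injective (L.comp X.subtype) := by
    rw [← LinearMap.ker_eq_bot, Submodule.eq_bot_iff]
    rintro ⟨x, hx⟩ hx0
    obtain ⟨w, hw, k, rfl, hL⟩ := key x hx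
    have h0 : (g1 : Matrix ι ι F) *ᵥ w + k • b' = 0 := hL ▸ LinearMap.mem_ker.1 hx0
    have hk : (g1 : Matrix ι ι F) *ᵥ w = 0 := eq_zero_of_mem_both hf hW (hg1W w hw)
      (by rw [eq_neg_of_add_eq_zero_left h0]; exact Submodule.neg_mem _ (Submodule.smul_mem _ _ hb'))
    rw [hk, zero_add] at h0
    have hw0 : w = 0 := by rw [← inv_mulVec_mulVec g1 w, hk, mulVec_zero]
    apply Subtype.ext
    show w + k • b = 0
    rw [hw0, (smul_eq_zero.1 h0).resolve_right hb'0, zero_smul, add_zero]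
  obtain ⟨g, hg, hgsl, hgx⟩ := exists_iso_special hf X (L.comp X.subtype) hinj (by
    rintro ⟨x, hx⟩ ⟨y, hy⟩
    obtain ⟨w, hw, k, rfl, hL⟩ := key x hx
    obtain ⟨z, hz, l, rfl, hL'⟩ := key y hy
    show f (L (w + k • b)) (L (z + l • b)) = f (w + k • b) (z + l • b)
    rw [hL, hL', hf.add_left, hf.add_left, add_right hf, add_right hf, add_right hf, add_right hf,
      hf.smul_left, hf.smul_left, hf.smul_left, hf.smul_left, smul_right hf, smul_right hf,
      smul_right hf, smul_right hf, hg1, hb z hz, hb' _ (hg1W z hz), orth_comm hf (hb w hw),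
      orth_comm hf (hb' _ (hg1W w hw)), hN']) huu (by
    rintro ⟨x, hx⟩
    obtain ⟨w, hw, k, rfl, hL⟩ := key x hx
    show f (L (w + k • b)) u = 0
    rw [hL, hf.add_left, hf.smul_left, orth_comm hf (hu _ (hg1W w hw)),
      orth_comm hf (huS b' (by simp)), mul_zero, add_zero])
  refine ⟨g, hg, hgsl, mem_subspaceStabilizer_of_maps fun w hw => ?_, ?_⟩
  · rw [hgx ⟨w, Submodule.mem_sup_left hw⟩]
    show G w + f w p' • _ ∈ W
    rw [orth_comm hf (hp' w hw), zero_smul, add_zero, Matrix.toLin'_apply]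
    exact hg1W w hw
  · rw [hgx ⟨a + b, Submodule.add_mem _ (Submodule.mem_sup_left ha)
      (Submodule.mem_sup_right (Submodule.mem_span_singleton_self b))⟩]
    show G (a + b) + f (a + b) p' • (b' - (g1 : Matrix ι ι F) *ᵥ b) = _
    rw [map_add, Matrix.toLin'_apply, Matrix.toLin'_apply, hg1a, hf.add_left,
      orth_comm hf (hp' a ha), hbp, zero_add, one_smul]
    abel

theorem exists_mixed [Finite F] (hf : Cfsg.Geo.IsUnitaryForm σ f)
    (hW : Cfsg.Geo.IsNondegenerateOn f W) (hn : 6 + Module.finrank F W < Fintype.card ι)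
    (hdim : 2 * Module.finrank F W < Fintype.card ι) {g : GL ι F} (hg : Iso f g)
    (hgW : g ∉ Cfsg.Geo.subspaceStabilizer W) :
    ∃ x ∈ U hf, f x x = 0 ∧ (g : Matrix ι ι F) *ᵥ x ∉ W ∧ (g : Matrix ι ι F) *ᵥ x ∉ U hf := by
  classical
  by_contra hc
  push Not at hc
  let G := Matrix.toLin' (g : Matrix ι ι F)
  have hinj : Function.Injective G := fun a b hab => by
    simp only [G, Matrix.toLin'_apply] at hab
    rw [← inv_mulVec_mulVec g a, hab, inv_mulVec_mulVec]
  have side : ∀ x ∈ U hf, f x x = 0 →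
      (g : Matrix ι ι F) *ᵥ x ∈ W ∨ (g : Matrix ι ι F) *ᵥ x ∈ U hf :=
    fun x hx hxx => or_iff_not_imp_left.2 (hc x hx hxx)
  -- an isotropic partner for any non-zero vector of the complement
  have partner : ∀ x ∈ U hf, x ≠ 0 → ∃ e ∈ U hf, f e e = 0 ∧ f e x ≠ 0 := fun x hx hx0 => by
    obtain ⟨e, he, hex, hee⟩ := exists_pairing_in hf hW hn hx hx0 1 (ν := 0) (map_zero σ)
    exact ⟨e, he, hee, by rw [hex]; exact one_ne_zero⟩
  obtain ⟨x0, hx0, hx00, -, hx0i⟩ := exists_norm_in hf hW ∅ (by simp; omega) (ν := 0) (map_zero σ)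
  have same : ∀ P : Submodule F (ι → F), (P = W ∨ P = U hf) → (g : Matrix ι ι F) *ᵥ x0 ∈ P →
      (U hf).map G ≤ P := by
    intro P hP hx0P
    have hne : ∀ x ∈ U hf, f x x = 0 → ∀ y ∈ U hf, f y y = 0 → f x y ≠ 0 →
        (g : Matrix ι ι F) *ᵥ x ∈ P → (g : Matrix ι ι F) *ᵥ y ∈ P := by
      intro x hx hxx y hy hyy hxy hxP
      have h0 : f ((g : Matrix ι ι F) *ᵥ x) ((g : Matrix ι ι F) *ᵥ y) ≠ 0 := by rw [hg]; exact hxy
      rcases hP with rfl | rfl <;> rcases side y hy hyy with h | h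
      · exact h
      · exact absurd (orth_comm hf (h _ hxP)) h0
      · exact absurd (hxP _ h) h0
      · exact h
    have hiso : ∀ y ∈ U hf, f y y = 0 → (g : Matrix ι ι F) *ᵥ y ∈ P := by
      intro y hy hyy
      by_cases hy0 : y = 0
      · rw [hy0, mulVec_zero]; exact P.zero_mem
      obtain ⟨p1, hp1, -, hp1x⟩ := partner x0 hx0 hx00
      obtain ⟨p2, hp2, -, hp2y⟩ := partner y hy hy0
      obtain ⟨p, hp, hpx, hpy⟩ : ∃ p ∈ U hf, f p x0 ≠ 0 ∧ f p y ≠ 0 := by
        by_cases h1 : f p1 y = 0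
        · by_cases h2 : f p2 x0 = 0
          · exact ⟨p1 + p2, Submodule.add_mem _ hp1 hp2,
              by rw [hf.add_left, h2, add_zero]; exact hp1x,
              by rw [hf.add_left, h1, zero_add]; exact hp2y⟩
          · exact ⟨p2, hp2, h2, hp2y⟩
        · exact ⟨p1, hp1, hp1x, h1⟩
      obtain ⟨z0, hz0, -, hz0S, hz0n⟩ : ∃ z ∈ U hf, True ∧ (∀ w ∈ ({x0, y} : Finset (ι → F)), f z w = 0) ∧
          f z z + f z p + f p z = -f p p := by
        by_cases hpp : f p p = 0
        · exact ⟨0, Submodule.zero_mem _, trivial, fun w _ => zero_left hf w,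
            by rw [zero_left hf, zero_left hf, zero_right hf, hpp]; ring⟩
        obtain ⟨u', hu', hu'S, hu'u⟩ := exists_unit_in hf hW {x0, y, p}
          (by have := Finset.card_le_three (a := x0) (b := y) (c := p); omega)
        obtain ⟨l, hl⟩ := exists_norm hf (r := -f p p) (by rw [map_neg, norm_fixed hf])
        refine ⟨l • u', Submodule.smul_mem _ _ hu', trivial,
          fun w hw => by rw [hf.smul_left, hu'S w (by simp at hw ⊢; tauto), mul_zero], ?_⟩
        rw [hf.smul_left, hf.smul_left, smul_right hf, smul_right hf, hu'u, hu'S p (by simp),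
          orth_comm hf (hu'S p (by simp))]
        linear_combination hl
      have hz : p + z0 ∈ U hf := Submodule.add_mem _ hp hz0
      have hzz : f (p + z0) (p + z0) = 0 := by
        rw [hf.add_left, add_right hf, add_right hf]; linear_combination hz0n
      have hzx : f x0 (p + z0) ≠ 0 := fun e => hpx (by
        have h1 := orth_comm hf e
        rwa [hf.add_left, hz0S x0 (by simp), add_zero] at h1)
      have hzy : f (p + z0) y ≠ 0 := by
        rw [hf.add_left, hz0S y (by simp), add_zero]; exact hpy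
      exact hne _ hz hzz y hy hyy hzy (hne x0 hx0 hx0i _ hz hzz hzx hx0P)
    rintro _ ⟨y, hy, rfl⟩
    rw [Matrix.toLin'_apply]
    by_cases hy0 : y = 0
    · rw [hy0, mulVec_zero]; exact P.zero_mem
    obtain ⟨e, he, hee, hey⟩ := partner y hy hy0
    obtain ⟨t, ht⟩ := exists_isotropic_shift hf hee hey
    have hsplit : y = (y + t • e) - t • e := by rw [add_sub_cancel_right]
    rw [hsplit, mulVec_sub, mulVec_smul]
    exact P.sub_mem (hiso _ (Submodule.add_mem _ hy (Submodule.smul_mem _ _ he)) ht)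
      (P.smul_mem _ (hiso e he hee))
  rcases side x0 hx0 hx0i with h | h
  · have h1 := Submodule.finrank_mono (same W (Or.inl rfl) h)
    rw [← (Submodule.equivMapOfInjective G hinj (U hf)).finrank_eq] at h1
    have h2 := finrank_perp_ge (W := W) hf
    omega
  · have heq : (U hf).map G = U hf := Submodule.eq_of_le_of_finrank_eq (same _ (Or.inr rfl) h)
      (Submodule.equivMapOfInjective G hinj (U hf)).finrank_eq.symm
    refine hgW (mem_subspaceStabilizer_of_maps fun w hw => mem_of_orth_perp hf hW fun u hu => ?_)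
    obtain ⟨z, hz, rfl⟩ : u ∈ (U hf).map G := heq.symm ▸ hu
    rw [Matrix.toLin'_apply, hg]
    exact orth_comm hf (hz w hw)

theorem centre_all [Finite F] (hf : Cfsg.Geo.IsUnitaryForm σ f) {M : Subgroup (GL ι F)}
    (hW : Cfsg.Geo.IsNondegenerateOn f W) (hn : 6 + Module.finrank F W < Fintype.card ι)
    (hPW : ∀ v ∈ W, f v v = 0 → Centre hf M v) (hPU : ∀ v ∈ U hf, f v v = 0 → Centre hf M v)
    (hmove : ∀ h, Iso f h → h ∈ Cfsg.Geo.specialLinear ι F →
      h ∈ Cfsg.Geo.subspaceStabilizer W → h ∈ M)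
    {v : ι → F} (hv : Centre hf M v) (hvW : v ∉ W) (hvU : v ∉ U hf) :
    ∀ y, f y y = 0 → Centre hf M y := by
  -- norms of the two components of an isotropic vector
  have hsum : ∀ a ∈ W, ∀ b ∈ U hf, f (a + b) (a + b) = f a a + f b b := fun a ha b hb => by
    rw [hf.add_left, add_right hf, add_right hf, hb a ha, orth_comm hf (hb a ha)]; ring
  have move : ∀ a ∈ W, ∀ b ∈ U hf, a ≠ 0 → b ≠ 0 → Centre hf M (a + b) →
      ∀ a' ∈ W, ∀ b' ∈ U hf, a' ≠ 0 → b' ≠ 0 → f (a' + b') (a' + b') = 0 →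
        (f a a = f a' a' ∨ (f a a ≠ 0 ∧ f a' a' ≠ 0)) → Centre hf M (a' + b') := by
    intro a ha b hb ha0 hb0 hc a' ha' b' hb' ha'0 hb'0 hiso hcase
    obtain ⟨l, hl0, hl⟩ : ∃ l : F, l ≠ 0 ∧ f (l • a) (l • a) = f a' a' := by
      rcases hcase with h | ⟨h1, h2⟩
      · exact ⟨1, one_ne_zero, by rw [one_smul, h]⟩
      obtain ⟨l, hl⟩ := exists_norm hf (r := f a' a' / f a a)
        (by rw [map_div₀, norm_fixed hf, norm_fixed hf])
      refine ⟨l, fun e => ?_, by rw [hf.smul_left, smul_right hf, ← mul_assoc, hl, div_mul_cancel₀ _ h1]⟩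
      rw [e, zero_mul, eq_comm, div_eq_zero_iff] at hl
      exact hl.elim h2 h1
    have hbb : f (l • b) (l • b) = f b' b' := by
      have h1 := (hc.smul l).iso
      rw [smul_add, hsum _ (W.smul_mem l ha) _ (Submodule.smul_mem _ l hb), hl] at h1
      have h2 := hsum _ ha' _ hb'
      rw [hiso] at h2
      linear_combination h1 + h2
    obtain ⟨g, hg, hgsl, hgst, hgv⟩ := exists_move hf hW hn (W.smul_mem l ha) ha'
      (Submodule.smul_mem _ l hb) hb' (smul_ne_zero hl0 ha0) ha'0 (smul_ne_zero hl0 hb0) hb'0 hl hbb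
    have h3 := (hc.smul l).image (hmove g hg hgsl hgst) hg
    rw [smul_add, hgv] at h3
    exact h3
  obtain ⟨a, ha, hb⟩ := exists_split hf hW v
  set b := v - a with hbdef
  have hab : Centre hf M (a + b) := by rw [hbdef, add_sub_cancel]; exact hv
  have ha0 : a ≠ 0 := fun e => hvU (by simpa [hbdef, e] using hb)
  have hb0 : b ≠ 0 := fun e => hvW (by rw [sub_eq_zero.1 e]; exact ha)
  obtain ⟨μ, hμ⟩ := exists_trace_one hf
  obtain ⟨c, hc0, hc⟩ := exists_traceZero hf
  -- a centre of the anisotropic class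
  obtain ⟨a1, ha1, b1, hb1, ha10, hb10, hc1, hN1⟩ : ∃ a1 ∈ W, ∃ b1 ∈ U hf, a1 ≠ 0 ∧ b1 ≠ 0 ∧
      Centre hf M (a1 + b1) ∧ f a1 a1 ≠ 0 := by
    by_cases haa : f a a = 0
    · obtain ⟨y, hy, hy'⟩ := (hW a ha ha0).2
      obtain ⟨t, ht⟩ := exists_isotropic_shift hf haa hy'
      set z := y + t • a with hz
      have hzW : z ∈ W := W.add_mem hy (W.smul_mem t ha)
      have hza : f a z ≠ 0 := by
        rw [hz, add_right hf, smul_right hf, haa, mul_zero, add_zero]; exact hy'
      set a' := σ (f a z)⁻¹ • z with ha'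
      have ha'W : a' ∈ W := W.smul_mem _ hzW
      have hfaa' : f a a' = 1 := by rw [ha', smul_right hf, hf.involutive, inv_mul_cancel₀ hza]
      have ha'i : f a' a' = 0 := by rw [ha', hf.smul_left, smul_right hf, ht, mul_zero, mul_zero]
      have hbb : f b b = 0 := by
        have h1 := hab.iso
        rw [hsum a ha b hb, haa, zero_add] at h1; exact h1
      set β := μ / c with hβ
      obtain ⟨b', hb', hb'b, hb'i⟩ := exists_pairing_in hf hW hn hb hb0 (σ β) (ν := 0) (map_zero σ)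
      have hbb' : f b b' = β := by rw [hf.herm, hb'b, hf.involutive]
      have hcβ : c * β + σ (c * β) = 1 := by rw [hβ, mul_div_cancel₀ _ hc0]; exact hμ
      have hm : (1 : F) + β ≠ 0 := fun e => by
        have : β = -1 := by linear_combination e
        rw [this, mul_neg_one, map_neg] at hcβ
        exact one_ne_zero (by linear_combination -hcβ - hc : (1 : F) = 0)
      have hv' : Centre hf M (a' + b') := by
        refine move a ha b hb ha0 hb0 hab a' ha'W b' hb' (fun e => ?_) (fun e => ?_) ?_ (Or.inl ?_)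
        · rw [e, zero_right hf] at hfaa'; exact zero_ne_one hfaa'
        · rw [e, zero_right hf] at hbb'
          rw [← hbb', mul_zero, map_zero, add_zero] at hcβ
          exact zero_ne_one hcβ
        · rw [hsum a' ha'W b' hb', ha'i, hb'i, add_zero]
        · rw [haa, ha'i]
      have hvv' : f (a + b) (a' + b') = 1 + β := by
        rw [hf.add_left, add_right hf, add_right hf, hfaa', hbb', orth_comm hf (hb' a ha), hb a' ha'W]
        ring
      set tt := c * (1 + β) with htt
      have hN : f (a + tt • a') (a + tt • a') ≠ 0 := by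
        rw [norm_add_smul hf, haa, ha'i, hfaa', hf.herm a' a, hfaa', map_one, htt, map_mul, map_add,
          map_one]
        intro e
        rw [map_mul] at hcβ
        exact one_ne_zero (by linear_combination e - hc - hcβ : (1 : F) = 0)
      have heq : (1 : F) • (a + b) + tt • (a' + b') = (a + tt • a') + (b + tt • b') := by module
      have hline := hab.line hv' (by rw [hvv']; exact hm) (a := 1) (b := tt) (by
        rw [one_smul, norm_add_smul hf, hab.iso, hv'.iso, hvv', hf.herm (a' + b'), hvv', htt, map_mul]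
        linear_combination ((1 + β) * σ (1 + β)) * hc)
      rw [heq] at hline
      refine ⟨_, W.add_mem ha (W.smul_mem _ ha'W), _, Submodule.add_mem _ hb (Submodule.smul_mem _ _ hb'),
        fun e => hN (by rw [e, zero_left hf]), fun e => hN ?_, hline, hN⟩
      have h1 := hline.iso
      rwa [e, add_zero] at h1
    · exact ⟨a, ha, b, hb, ha0, hb0, hab, haa⟩
  intro y hy
  obtain ⟨a2, ha2, hb2⟩ := exists_split hf hW y
  obtain ⟨b2, hb2def⟩ : ∃ b2, b2 = y - a2 := ⟨_, rfl⟩
  rw [← hb2def] at hb2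
  have hyeq : y = a2 + b2 := by rw [hb2def, add_sub_cancel]
  by_cases ha20 : a2 = 0
  · exact hPU y (by simpa [hb2def, ha20] using hb2) hy
  by_cases hb20 : b2 = 0
  · exact hPW y (by rw [hb2def] at hb20; rw [sub_eq_zero.1 hb20]; exact ha2) hy
  rw [hyeq] at hy ⊢
  by_cases hN2 : f a2 a2 = 0
  · -- the singular class through a line
    obtain ⟨p, hp, hp1⟩ : ∃ p ∈ W, f p a2 = 1 := by
      obtain ⟨x, hx, hx'⟩ := (hW a2 ha2 ha20).1
      exact ⟨(f x a2)⁻¹ • x, W.smul_mem _ hx, by rw [hf.smul_left, inv_mul_cancel₀ hx']⟩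
    have hp1' : f a2 p = 1 := by rw [hf.herm, hp1, map_one]
    obtain ⟨t, ht⟩ := exists_trace hf (r := 1 - f p p) (by rw [map_sub, map_one, norm_fixed hf])
    set a3 := p + t • a2 with ha3
    have ha3W : a3 ∈ W := W.add_mem hp (W.smul_mem t ha2)
    have h32 : f a3 a2 = 1 := by rw [ha3, hf.add_left, hf.smul_left, hN2, mul_zero, add_zero, hp1]
    have h33 : f a3 a3 = 1 := by
      rw [ha3, norm_add_smul hf, hp1, hp1', hN2]; linear_combination ht
    obtain ⟨b3, hb3, hb32, hb33⟩ := exists_pairing_in hf hW hn hb2 hb20 (c - 1) (ν := -1)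
      (by rw [map_neg, map_one])
    have hb2n : f b2 b2 = 0 := by
      have h1 := hsum a2 ha2 b2 hb2
      rw [hy, hN2, zero_add] at h1; exact h1.symm
    have hu : Centre hf M (a3 + b3) := by
      refine move a1 ha1 b1 hb1 ha10 hb10 hc1 a3 ha3W b3 hb3 (fun e => ?_) (fun e => ?_) ?_
        (Or.inr ⟨hN1, by rw [h33]; exact one_ne_zero⟩)
      · rw [e, zero_left hf] at h33; exact zero_ne_one h33
      · rw [e, zero_left hf] at hb33; exact one_ne_zero (neg_eq_zero.1 hb33.symm)
      · rw [hsum a3 ha3W b3 hb3, h33, hb33, add_neg_cancel]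
    have hd : Centre hf M ((a2 - a3) + (b2 - b3)) := by
      have hNa : f (a2 - a3) (a2 - a3) = -1 := by
        rw [sub_left hf, sub_right hf, sub_right hf, hN2, h33, h32, hf.herm a2 a3, h32, map_one]; ring
      have hNb : f (b2 - b3) (b2 - b3) = 1 := by
        rw [sub_left hf, sub_right hf, sub_right hf, hb2n, hb33, hb32, hf.herm b2 b3, hb32, map_sub,
          map_one]
        linear_combination -hc
      refine move a1 ha1 b1 hb1 ha10 hb10 hc1 _ (W.sub_mem ha2 ha3W) _
        (Submodule.sub_mem _ hb2 hb3) (fun e => ?_) (fun e => ?_) ?_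
        (Or.inr ⟨hN1, by rw [hNa]; exact neg_ne_zero.2 one_ne_zero⟩)
      · rw [e, zero_left hf] at hNa; exact one_ne_zero (neg_eq_zero.1 hNa.symm)
      · rw [e, zero_left hf] at hNb; exact zero_ne_one hNb
      · rw [hsum _ (W.sub_mem ha2 ha3W) _ (Submodule.sub_mem _ hb2 hb3), hNa, hNb, neg_add_cancel]
    refine hu.of_move ?_ ?_ hy
    · have : a2 + b2 - (a3 + b3) = (a2 - a3) + (b2 - b3) := by abel
      rw [this]; exact hd
    · rw [hf.add_left, add_right hf, add_right hf, h32, hb32, orth_comm hf (hb2 a3 ha3W),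
        hb3 a2 ha2]
      simpa using hc0
  · exact move a1 ha1 b1 hb1 ha10 hb10 hc1 a2 ha2 b2 hb2 ha20 hb20 hy (Or.inr ⟨hN1, hN2⟩)

end

/-- Let F be the field with q² elements and n ≥ 13. In SU_n(q) (determinant-one isometries of the standard unitary form on F^n) the stabiliser of a non-zero subspace W on which the form is non-degenerate and with 2 dim W < n is a maximal subgroup. -/
theorem result {F : Type*} [Field F] [Fintype F] (n q : ℕ) (hF : Fintype.card F = q ^ 2) (hn : 13 ≤ n) (W : Submodule F (Fin n → F)) (hW0 : W ≠ ⊥) (hW : Cfsg.Geo.IsNondegenerateOn (Cfsg.hermForm n F q) W) (hdim : 2 * Module.finrank F W < n) : Cfsg.Geo.IsMaximalIn (Cfsg.GU n F q ⊓ Cfsg.Geo.specialLinear (Fin n) F) (Cfsg.Geo.subspaceStabilizer W ⊓ (Cfsg.GU n F q ⊓ Cfsg.Geo.specialLinear (Fin n) F)) := by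
  obtain ⟨σ, hσ, hf⟩ := CfsgLib.LinAlg.Witt.exists_isUnitaryForm_hermForm (n := n) hF
  have hcard : 6 + Module.finrank F W < Fintype.card (Fin n) := by rw [Fintype.card_fin]; omega
  refine ⟨lt_of_le_not_ge inf_le_right fun h => ?_, fun M hHM hMK => ?_⟩
  · obtain ⟨w, hw, hw0⟩ := W.ne_bot_iff.1 hW0
    obtain ⟨a, ha, hwa⟩ := (hW w hw hw0).2
    obtain ⟨u, hu, hu0, -, huu⟩ := exists_norm_in hf hW ∅ (by simp; omega) (ν := -hermForm n F q a a)
      (by rw [map_neg, CfsgLib.UnitCentres.norm_fixed hf])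
    obtain ⟨c, hc0, hc⟩ := CfsgLib.UnitCentres.exists_traceZero hf
    have hzz : hermForm n F q (a + u) (a + u) = 0 := by
      rw [hf.add_left, CfsgLib.UnitCentres.add_right hf, CfsgLib.UnitCentres.add_right hf, hu a ha,
        CfsgLib.UnitCentres.orth_comm hf (hu a ha), huu]
      ring
    have h1 := CfsgLib.TransvGL.mem_subspaceStabilizer.1 (h (CfsgLib.UnitCentres.mem_special.2
      ⟨CfsgLib.UnitCentres.uT_iso hf hzz hc, CfsgLib.UnitCentres.uT_mem_specialLinear hf hzz c⟩)).1 w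
    have h2 := h1.1 hw
    rw [CfsgLib.UnitCentres.uT_mulVec, CfsgLib.UnitCentres.add_right hf,
      CfsgLib.UnitCentres.orth_comm hf (hu w hw), add_zero, W.add_mem_iff_right hw,
      W.smul_mem_iff (mul_ne_zero hc0 hwa), W.add_mem_iff_right ha] at h2
    exact hu0 (eq_zero_of_mem_both hf hW h2 hu)
  · by_cases hle : M ≤ Geo.subspaceStabilizer W ⊓ (GU n F q ⊓ Geo.specialLinear (Fin n) F)
    · exact Or.inl (le_antisymm hle hHM)
    obtain ⟨g, hgM, hgH⟩ := SetLike.not_le_iff_exists.1 hle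
    refine Or.inr (le_antisymm hMK (CfsgLib.UnitCentres.gu_le_of_centres hF (by omega) hσ hf ?_))
    have hgi := (CfsgLib.UnitCentres.mem_special.1 (hMK hgM)).1
    obtain ⟨x, hx, hxx, hgx1, hgx2⟩ := exists_mixed hf hW hcard
      (by rw [Fintype.card_fin]; omega) hgi (fun hs => hgH ⟨hs, hMK hgM⟩)
    have hG : ∀ v (hv : hermForm n F q v v = 0) c, c + σ c = 0 →
        CfsgLib.UnitCentres.uT hf hv c ∈ GU n F q ⊓ Geo.specialLinear (Fin n) F := fun v hv c hc =>
      CfsgLib.UnitCentres.mem_special.2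
        ⟨CfsgLib.UnitCentres.uT_iso hf hv hc, CfsgLib.UnitCentres.uT_mem_specialLinear hf hv c⟩
    have hPU : ∀ v ∈ CfsgLib.UnitCentres.perp hf (W : Set (Fin n → F)), hermForm n F q v v = 0 →
        CfsgLib.UnitCentres.Centre hf M v := fun v hv hvv => ⟨hvv, fun c hc => hHM
      ⟨CfsgLib.UnitCentres.uT_mem_subspaceStabilizer hf hvv
        (Or.inr fun x hx => CfsgLib.UnitCentres.orth_comm hf (hv x hx)) c, hG v hvv c hc⟩⟩
    exact centre_all hf hW hcard
      (fun v hv hvv => ⟨hvv, fun c hc => hHM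
        ⟨CfsgLib.UnitCentres.uT_mem_subspaceStabilizer hf hvv (Or.inl hv) c, hG v hvv c hc⟩⟩)
      hPU (fun k hk hks hkst => hHM ⟨hkst, CfsgLib.UnitCentres.mem_special.2 ⟨hk, hks⟩⟩)
      ((hPU x hx hxx).image hgM hgi) hgx1 hgx2

end Cfsg.Agent.S5654
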