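import Cfsg.Statements.S5655
import Cfsg.Agent.Eq.Def_GeometricClasses
import Cfsg.Agent.Eq.Def_LieClassical
import Cfsg.Agent.Classical.DecompProj
import Cfsg.Agent.Classical.UnitCentresStd
import Cfsg.Agent.Classical.Unitary.Herm
import Cfsg.Agent.Classical.UnitBlock
import Cfsg.Agent.Classical.UnitMono.Main

set_option autoImplicit false
open Cfsg

namespace Cfsg.Agent.S5655

section

open Matrix CfsgLib.TransvGL CfsgLib.UnitCentres CfsgLib.UnitMono CfsgLib.UnitBlock CfsgLib.CircleSums
  CfsgLib.MonoBasics CfsgLib.DecompProj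

variable {ι : Type} [Fintype ι] [DecidableEq ι] {F : Type*} [Field F] {n : ℕ}

/-- Transport of matrices along a change of coordinates. -/
noncomputable def transport (L : (ι → F) ≃ₗ[F] (Fin n → F)) : GL ι F →* GL (Fin n) F where
  toFun g :=
    { val := LinearMap.toMatrix' L.toLinearMap * (g : Matrix ι ι F) * LinearMap.toMatrix' L.symm.toLinearMap
      inv := LinearMap.toMatrix' L.toLinearMap * ((g⁻¹ : GL ι F) : Matrix ι ι F) *
        LinearMap.toMatrix' L.symm.toLinearMap
      val_inv := by
        have h : LinearMap.toMatrix' L.symm.toLinearMap * LinearMap.toMatrix' L.toLinearMap = 1 := by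
          rw [← LinearMap.toMatrix'_comp]; simp
        have h' : LinearMap.toMatrix' L.toLinearMap * LinearMap.toMatrix' L.symm.toLinearMap = 1 := by
          rw [← LinearMap.toMatrix'_comp]; simp
        simp only [Matrix.mul_assoc]
        rw [← Matrix.mul_assoc (LinearMap.toMatrix' L.symm.toLinearMap), h, Matrix.one_mul,
          ← Matrix.mul_assoc (g : Matrix ι ι F), Units.mul_inv, Matrix.one_mul, h']
      inv_val := by
        have h : LinearMap.toMatrix' L.symm.toLinearMap * LinearMap.toMatrix' L.toLinearMap = 1 := by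
          rw [← LinearMap.toMatrix'_comp]; simp
        have h' : LinearMap.toMatrix' L.toLinearMap * LinearMap.toMatrix' L.symm.toLinearMap = 1 := by
          rw [← LinearMap.toMatrix'_comp]; simp
        simp only [Matrix.mul_assoc]
        rw [← Matrix.mul_assoc (LinearMap.toMatrix' L.symm.toLinearMap), h, Matrix.one_mul,
          ← Matrix.mul_assoc ((g⁻¹ : GL ι F) : Matrix ι ι F), Units.inv_mul, Matrix.one_mul, h'] }
  map_one' := Units.ext (by
    show LinearMap.toMatrix' L.toLinearMap * (1 : Matrix ι ι F) * _ = 1
    rw [Matrix.mul_one, ← LinearMap.toMatrix'_comp]; simp)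
  map_mul' g h := Units.ext (by
    show _ * ((g : Matrix ι ι F) * h) * _ = (_ * (g : Matrix ι ι F) * _) * (_ * (h : Matrix ι ι F) * _)
    have e : LinearMap.toMatrix' L.symm.toLinearMap * LinearMap.toMatrix' L.toLinearMap = 1 := by
      rw [← LinearMap.toMatrix'_comp]; simp
    simp only [Matrix.mul_assoc]
    rw [← Matrix.mul_assoc (LinearMap.toMatrix' L.symm.toLinearMap) (LinearMap.toMatrix' L.toLinearMap), e,
      Matrix.one_mul])

theorem transport_mulVec (L : (ι → F) ≃ₗ[F] (Fin n → F)) (g : GL ι F) (x : ι → F) :
    (transport L g : Matrix (Fin n) (Fin n) F) *ᵥ L x = L ((g : Matrix ι ι F) *ᵥ x) := by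
  show (LinearMap.toMatrix' L.toLinearMap * (g : Matrix ι ι F) *
    LinearMap.toMatrix' L.symm.toLinearMap) *ᵥ L x = _
  rw [← mulVec_mulVec, ← mulVec_mulVec, LinearMap.toMatrix'_mulVec, LinearMap.toMatrix'_mulVec]
  simp

theorem det_transport (L : (ι → F) ≃ₗ[F] (Fin n → F)) (g : GL ι F) :
    (transport L g : Matrix (Fin n) (Fin n) F).det = (g : Matrix ι ι F).det := by
  show (LinearMap.toMatrix' L.toLinearMap * (g : Matrix ι ι F) *
    LinearMap.toMatrix' L.symm.toLinearMap).det = _
  exact Matrix.det_conj_of_mul_eq_one (by rw [← LinearMap.toMatrix'_comp]; simp)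
    (by rw [← LinearMap.toMatrix'_comp]; simp)

theorem transport_surjective (L : (ι → F) ≃ₗ[F] (Fin n → F)) (g : GL (Fin n) F) :
    ∃ g' : GL ι F, transport L g' = g := by
  let e : (ι → F) ≃ₗ[F] (ι → F) :=
    L.trans ((Matrix.GeneralLinearGroup.toLin g).toLinearEquiv.trans L.symm)
  refine ⟨ofEquiv e, ext_mulVec fun y => ?_⟩
  obtain ⟨x, rfl⟩ := L.surjective y
  rw [transport_mulVec, ofEquiv_mulVec]
  simp [e]

end

/-- Let F be the field with q² elements and n ≥ 13. Let D be a decomposition of F^n into t ≥ 2 pairwise orthogonal subspaces of equal dimension k, each non-degenerate for the standard unitary form, spanning F^n. Unless k = 2 and q = 2, the elements of SU_n(q) permuting the members of D form a maximal subgroup of SU_n(q). -/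
theorem result {F : Type*} [Field F] [Fintype F] (n q : ℕ) (hF : Fintype.card F = q ^ 2) (hn : 13 ≤ n) {t : ℕ} (k : ℕ) (D : Fin t → Submodule F (Fin n → F)) (hD : Cfsg.Geo.IsNondegenerateMDecomposition (Cfsg.hermForm n F q) k D) (hex : ¬ (k = 2 ∧ q = 2)) : Cfsg.Geo.IsMaximalIn (Cfsg.GU n F q ⊓ Cfsg.Geo.specialLinear (Fin n) F) (Cfsg.Geo.decompositionStabilizer D ⊓ (Cfsg.GU n F q ⊓ Cfsg.Geo.specialLinear (Fin n) F)) := by
  classical
  open Matrix CfsgLib.TransvGL CfsgLib.UnitCentres CfsgLib.UnitMono CfsgLib.UnitBlock CfsgLib.CircleSums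
    CfsgLib.MonoBasics CfsgLib.DecompProj in
  exact (by
    have hkt := mul_eq_card hD.decomp
    rw [Fintype.card_fin] at hkt
    have hk0 := hD.decomp.pos
    have ht2 := hD.decomp.two_le
    obtain ⟨σ, hσ, hσne, -⟩ := CfsgLib.LinAlg.Witt.exists_conjAut hF
    have hS : Std q σ := ⟨hF, hσ⟩
    have hsf : (sf σ : (Fin n → F) → (Fin n → F) → F) = Cfsg.hermForm n F q := by
      funext x y; simp [sf, Cfsg.hermForm, hσ]
    have hfn : Cfsg.Geo.IsUnitaryForm σ (Cfsg.hermForm n F q) := hsf ▸ hS.isUnitary
    have hnd : ∀ i, CfsgLib.Unitary.IsNondeg q (D i) := fun i u hu h => by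
      by_contra hne
      obtain ⟨-, x, hx, hxu⟩ := hD.nondegenerate i u hu hne
      exact hxu (h x hx)
    choose b hb hbD hbspan using fun i =>
      CfsgLib.Unitary.exists_orthonorm_basis hF (hnd i) (hD.decomp.finrank_eq i)
    let G : Fin k × Fin t → (Fin n → F) := fun p => b p.2 p.1
    have hG : ∀ p p', Cfsg.hermForm n F q (G p) (G p') = if p = p' then 1 else 0 := by
      rintro ⟨j, i⟩ ⟨j', i'⟩
      by_cases h : i = i'
      · subst h
        rw [show Cfsg.hermForm n F q (G (j, i)) (G (j', i)) = _ from hb i j j']
        simp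
      · rw [hD.orthogonal i i' h _ (hbD i j) _ (hbD i' j'), if_neg (by simp [h])]
    let L0 : (Fin k × Fin t → F) →ₗ[F] (Fin n → F) := Fintype.linearCombination F G
    have hL0 : ∀ x, L0 x = ∑ p, x p • G p := fun x => rfl
    have hcoord : ∀ x p, Cfsg.hermForm n F q (L0 x) (G p) = x p := fun x p => by
      rw [hL0, CfsgLib.Unitary.herm_sum_left, Finset.sum_eq_single p]
      · rw [CfsgLib.Unitary.herm_smul_left, hG, if_pos rfl, mul_one]
      · intro p' _ hp'
        rw [CfsgLib.Unitary.herm_smul_left, hG, if_neg hp', mul_zero]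
      · simp
    have hinj : Function.Injective L0 := fun x y h => funext fun p => by
      rw [← hcoord x p, h, hcoord]
    let L : (Fin k × Fin t → F) ≃ₗ[F] (Fin n → F) :=
      LinearMap.linearEquivOfInjective L0 hinj (by
        rw [Module.finrank_fintype_fun_eq_card, Module.finrank_fintype_fun_eq_card, Fintype.card_prod,
          Fintype.card_fin, Fintype.card_fin, Fintype.card_fin, ← hkt, mul_comm])
    have hL : ∀ x, L x = L0 x := fun x => rfl
    have hLf : ∀ x y, Cfsg.hermForm n F q (L x) (L y) = sf σ x y := fun x y => by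
      rw [hL, hL, hL0 y, CfsgLib.Unitary.herm_sum_right hF, sf]
      refine Finset.sum_congr rfl fun p _ => ?_
      rw [CfsgLib.Unitary.herm_smul_right, hcoord, hσ, mul_comm]
    have hLsupp : ∀ i y, L (emb i y) ∈ D i := fun i y => by
      rw [hL, hL0]
      refine Submodule.sum_mem _ fun p _ => ?_
      obtain ⟨j, i'⟩ := p
      by_cases h : i' = i
      · subst h; exact Submodule.smul_mem _ _ (hbD i' j)
      · simp [emb, h]
    have hLsurj : ∀ i, ∀ v ∈ D i, ∃ y, L (emb i y) = v := fun i v hv => by
      rw [← hbspan i, Submodule.mem_span_range_iff_exists_fun] at hv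
      obtain ⟨c, rfl⟩ := hv
      refine ⟨c, ?_⟩
      rw [hL, hL0, Fintype.sum_prod_type]
      refine Finset.sum_congr rfl fun j _ => ?_
      rw [Finset.sum_eq_single i (fun i' _ h => by simp [emb, h]) (by simp)]
      simp [emb, G]
    set Φ := transport L with hΦ
    have hΦiso : ∀ g, g ∈ (Cfsg.GU n F q ⊓ Cfsg.Geo.specialLinear (Fin n) F).comap Φ ↔
        Iso (sf σ) g ∧ g ∈ Cfsg.Geo.specialLinear (Fin k × Fin t) F := fun g => by
      rw [Subgroup.mem_comap, mem_special, CfsgLib.PseudoRefl.mem_specialLinear_iff,
        CfsgLib.PseudoRefl.mem_specialLinear_iff, det_transport]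
      refine and_congr_left' ⟨fun h x y => ?_, fun h u v => ?_⟩
      · rw [← hLf, ← hLf, ← transport_mulVec, ← transport_mulVec, h]
      · obtain ⟨x, rfl⟩ := L.surjective u
        obtain ⟨y, rfl⟩ := L.surjective v
        rw [transport_mulVec, transport_mulVec, hLf, hLf, h]
    have hstab : ∀ g, StabBlocks g → Φ g ∈ Cfsg.Geo.decompositionStabilizer D := by
      rintro g ⟨π, hπ⟩
      refine mem_decompositionStabilizer_of_maps hD.decomp π fun i v hv => ?_
      obtain ⟨y, rfl⟩ := hLsurj i v hv
      obtain ⟨y', hy'⟩ := hπ i y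
      rw [transport_mulVec, hy']
      exact hLsupp _ _
    have hk2 : k = 2 → 3 ≤ q := fun h => by
      have := hS.two_le
      by_contra hc
      exact hex ⟨h, by omega⟩
    refine ⟨lt_of_le_of_ne inf_le_right ?_, fun M hHM hMK => ?_⟩
    · -- a transvection mixing members
      intro e
      obtain ⟨j0⟩ : Nonempty (Fin k) := ⟨⟨0, hk0⟩⟩
      set i0 : Fin t := ⟨0, by omega⟩
      set i1 : Fin t := ⟨1, by omega⟩
      have hi01 : i0 ≠ i1 := by simp [i0, i1]
      have hout : ∀ (z : Fin k × Fin t → F) (c : F) (y : Fin k → F), sf σ z z = 0 → c + σ c = 0 →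
          ∀ (hz : sf σ z z = 0), ∀ p p', p ≠ p' →
          blk (emb i0 y + (c * sf σ (emb i0 y) z) • z) p ≠ 0 →
          blk (emb i0 y + (c * sf σ (emb i0 y) z) • z) p' ≠ 0 → False := by
        intro z c y _ hc hz p p' hpp hp hp'
        have hmem : uT (hS.isUnitary) hz c ∈ (Cfsg.GU n F q ⊓ Cfsg.Geo.specialLinear (Fin n) F).comap Φ :=
          (hΦiso _).2 ⟨uT_iso _ hz hc, uT_mem_specialLinear _ hz c⟩
        rw [Subgroup.mem_comap, ← e] at hmem
        obtain ⟨i, hi⟩ := image_mem_of_stabilizer (Subgroup.mem_inf.1 hmem).1 (hLsupp i0 y)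
        obtain ⟨y', hy'⟩ := hLsurj i _ hi
        rw [transport_mulVec, uT_mulVec] at hy'
        rw [← L.injective hy', blk_emb] at hp hp'
        have h1 : p = i := by by_contra h; exact hp (if_neg h)
        have h2 : p' = i := by by_contra h; exact hp' (if_neg h)
        exact hpp (h1.trans h2.symm)
      by_cases hq : q = 2
      · have hone : ∀ z : F, z ≠ 0 → z * σ z = 1 := fun z hz => by
          have := FiniteField.pow_card_sub_one_eq_one z hz
          rw [hF, hq] at this
          rw [hσ, hq]; linear_combination this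
        have h20 : (2 : F) = 0 := by
          have h5 := Nat.cast_card_eq_zero F
          rw [hF, hq] at h5
          push_cast at h5
          exact pow_eq_zero_iff (show 2 ≠ 0 by norm_num) |>.1 (by linear_combination h5)
        by_cases hk1 : k = 1
        · subst hk1
          set i2 : Fin t := ⟨2, by omega⟩
          set i3 : Fin t := ⟨3, by omega⟩
          set z : Fin 1 × Fin t → F := fun p => if p.2.val < 4 then 1 else 0 with hzdef
          have hz : sf σ z z = 0 := by
            rw [sf_blk, ← Finset.sum_subset (Finset.subset_univ ({i0, i1, i2, i3} : Finset (Fin t)))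
              fun i _ hi => by
                simp only [i0, i1, i2, i3, Finset.mem_insert, Finset.mem_singleton, Fin.ext_iff, not_or] at hi
                simp [sf, blk, hzdef, show ¬ (i.val < 4) by omega]]
            simp [sf, blk, hzdef, i0, i1, i2, i3]
            linear_combination 2 * h20
          have e1 : sf σ (emb i0 (fun _ : Fin 1 => (1 : F))) z = 1 := by
            rw [sf_emb_left]; simp [sf, blk, hzdef, i0]
          refine hout z 1 (fun _ => 1) hz (by rw [map_one]; linear_combination h20) hz i2 i3
            (by simp [i2, i3]) ?_ ?_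
          all_goals
            intro h
            have := congrFun h 0
            rw [e1, mul_one, one_smul] at this
            simp [blk, emb, hzdef, i0, i2, i3] at this
        · obtain ⟨j1, hj1⟩ := Fintype.exists_ne_of_one_lt_card (by rw [Fintype.card_fin]; omega) j0
          set z : Fin k × Fin t → F := emb i0 (Pi.single j0 1) + emb i1 (Pi.single j0 1) with hzdef
          have hz : sf σ z z = 0 := by
            rw [sf_two hS hi01 (fun p h1 h2 => by rw [hzdef, blk_add, blk_emb, blk_emb, if_neg h1, if_neg h2, add_zero]),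
              hzdef, blk_add, blk_add, blk_emb, blk_emb, blk_emb, blk_emb, if_pos rfl, if_neg hi01,
              if_neg hi01.symm, if_pos rfl, add_zero, zero_add, sf_ax_self]
            linear_combination h20
          have e2 : sf σ (emb i0 (Pi.single j0 1 + Pi.single j1 1)) z = 1 := by
            rw [sf_emb_left, hzdef, blk_add, blk_emb, blk_emb, if_pos rfl, if_neg hi01, add_zero,
              sf_ax_right]
            simp [hj1.symm]
          refine hout z 1 (Pi.single j0 1 + Pi.single j1 1) hz (by rw [map_one]; linear_combination h20) hz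
            i0 i1 hi01 ?_ ?_
          · intro h
            have := congrFun h j1
            rw [e2, mul_one, one_smul] at this
            simp [blk, emb, hzdef, hi01, hi01.symm, hj1, hj1.symm] at this
          · intro h
            have := congrFun h j0
            rw [e2, mul_one, one_smul] at this
            simp [blk, emb, hzdef, hi01, hi01.symm, hj1, hj1.symm] at this
      · obtain ⟨c, hc0, hc, hc1⟩ : ∃ c : F, c ≠ 0 ∧ c + σ c = 0 ∧ c + 1 ≠ 0 := by
          obtain ⟨c, hc0, hc⟩ := exists_traceZero (hS.isUnitary (ι := Fin k))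
          by_cases h1 : c + 1 = 0
          · obtain ⟨r, hr, hr'⟩ := Finset.exists_mem_notMem_of_card_lt_card (s := ({0, 1} : Finset F))
              (t := Finset.univ.filter fun z : F => σ z = z)
              (by rw [card_fixed hF hσ]; have := hS.two_le; exact Finset.card_le_two.trans_lt (by omega))
            simp only [Finset.mem_insert, Finset.mem_singleton, not_or] at hr'
            refine ⟨r * c, mul_ne_zero hr'.1 hc0, ?_, fun e => hr'.2 (by linear_combination r * h1 - e)⟩
            rw [map_mul, (Finset.mem_filter.1 hr).2]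
            linear_combination r * hc
          · exact ⟨c, hc0, hc, h1⟩
        obtain ⟨ξ, hξ⟩ := exists_norm hF hσ (r := (-1 : F)) (by simp)
        have hξ0 : ξ ≠ 0 := fun e => by simp [e] at hξ
        set z : Fin k × Fin t → F := emb i0 (Pi.single j0 1) + emb i1 (Pi.single j0 ξ) with hzdef
        have hz : sf σ z z = 0 := by
          rw [sf_two hS hi01 (fun p h1 h2 => by rw [hzdef, blk_add, blk_emb, blk_emb, if_neg h1, if_neg h2, add_zero]),
            hzdef, blk_add, blk_add, blk_emb, blk_emb, blk_emb, blk_emb, if_pos rfl, if_neg hi01,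
            if_neg hi01.symm, if_pos rfl, add_zero, zero_add, sf_ax_self]
          simp [sf, Pi.single_apply, apply_ite σ]
          linear_combination hξ
        refine hout z c (Pi.single j0 1) hz hc hz i0 i1 hi01 ?_ ?_
        · intro h
          have := congrFun h j0
          simp [blk, emb, hzdef, sf_emb_left, sf_ax_left, hi01, hi01.symm] at this
          exact hc1 (by linear_combination this)
        · intro h
          have := congrFun h j0
          simp [blk, emb, hzdef, sf_emb_left, sf_ax_left, hi01, hi01.symm] at this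
          rcases this with h' | h'
          · exact hc0 h'
          · exact hξ0 h'
    by_cases hle : M ≤ Cfsg.Geo.decompositionStabilizer D
    · exact Or.inl (le_antisymm (le_inf hle hMK) hHM)
    obtain ⟨g₀, hg₀M, hg₀⟩ := SetLike.not_le_iff_exists.1 hle
    obtain ⟨g, rfl⟩ := transport_surjective L g₀
    refine Or.inr (le_antisymm hMK ?_)
    set M' := M.comap Φ with hM'
    have hmem : ∀ x, Iso (sf σ) x → x ∈ Cfsg.Geo.specialLinear (Fin k × Fin t) F → StabBlocks x → x ∈ M' :=
      fun x h1 h2 h3 => hHM (Subgroup.mem_inf.2 ⟨hstab x h3, (hΦiso x).2 ⟨h1, h2⟩⟩)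
    have hiso' : ∀ x ∈ M', Iso (sf σ) x ∧ x ∈ Cfsg.Geo.specialLinear (Fin k × Fin t) F :=
      fun x hx => (hΦiso x).1 (hMK hx)
    have hcent : ∀ y, sf σ y y = 0 → Centre hS.isUnitary M' y := by
      by_cases hk1 : k = 1
      · have hmono : ∀ x : GL (Fin k × Fin t) F, IsMono x → StabBlocks x := fun x hx => by
          subst hk1
          choose π hπ using hx
          have hπi := mono_index_injective hπ
          refine ⟨Equiv.ofBijective (fun i => (π (0, i)).2) (Finite.injective_iff_bijective.1 fun a a' h => ?_),
            fun i y => ⟨blk ((x : Matrix _ _ F) *ᵥ emb i y) ((π (0, i)).2), emb_eq_of_blk fun l hl => ?_⟩⟩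
          · have : π (0, a) = π (0, a') := Prod.ext (Subsingleton.elim _ _) h
            exact congrArg Prod.snd (hπi this)
          · have e : emb i y = y 0 • (Pi.single ((0 : Fin 1), i) 1 : Fin 1 × Fin t → F) := funext fun p => by
              obtain ⟨j, i'⟩ := p
              obtain rfl : j = 0 := Subsingleton.elim _ _
              by_cases h : i' = i
              · subst h; simp [emb]
              · simp [emb, h]
            obtain ⟨c, hc⟩ := Submodule.mem_span_singleton.1 (hπ (0, i))
            rw [e, mulVec_smul, ← hc]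
            funext j
            have : (j, l) ≠ π (0, i) := fun h => hl (by simpa using congrArg Prod.snd h)
            simp [blk, this]
        have hO : Over q σ M' :=
          ⟨hS, fun x h1 h2 h3 => hmem x h1 h2 (hmono x h3), fun x hx => (hiso' x hx).1,
            fun x hx => (hiso' x hx).2⟩
        exact CfsgLib.UnitMono.all_centres hO (by rw [Fintype.card_prod, Fintype.card_fin, Fintype.card_fin, hk1]; nlinarith)
          (g₀ := g) hg₀M (fun h => hg₀ (hstab g (hmono g h)))
      · have hO : BOver q σ M' :=
          { std := hS, stab_mem := hmem, iso := fun x hx => (hiso' x hx).1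
            two_le := by rw [Fintype.card_fin]; omega
            small := fun h => by
              rw [Fintype.card_fin] at h
              refine ⟨?_, hk2 h⟩
              rw [Fintype.card_fin]
              subst h
              omega }
        exact CfsgLib.UnitBlock.all_centres hO (g := g) hg₀M (fun h => hg₀ (hstab g h))
    refine gu_le_of_centres hF (by omega) hσ hfn fun v hv => ?_
    obtain ⟨y, rfl⟩ := L.surjective v
    rw [hLf] at hv
    obtain ⟨hv', hc⟩ := hcent y hv
    refine ⟨by rw [hLf]; exact hv, fun c hc0 => ?_⟩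
    convert Subgroup.mem_comap.1 (hc c hc0) using 1
    refine ext_mulVec fun u => ?_
    obtain ⟨x, rfl⟩ := L.surjective u
    rw [transport_mulVec, uT_mulVec, uT_mulVec, hLf, map_add, map_smul])

end Cfsg.Agent.S5655
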