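import Cfsg.Statements.S5656
import Cfsg.Agent.Classical.TransvAlg
import Cfsg.Agent.Classical.DecompProj
import Cfsg.Agent.Classical.SmallFieldFacts
import Cfsg.Agent.Eq.Def_GeometricClasses

set_option autoImplicit false
open Cfsg

namespace Cfsg.Agent.S5656

section

open Matrix CfsgLib

variable {F : Type*} [Field F] [Fintype F] {n : ℕ}

theorem sq_add (h2 : (2 : F) = 0) (a b : F) : (a + b) ^ 2 = a ^ 2 + b ^ 2 := by
  linear_combination a * b * h2

theorem h_add_left (x y v : Fin n → F) :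
    Cfsg.hermForm n F 2 (x + y) v = Cfsg.hermForm n F 2 x v + Cfsg.hermForm n F 2 y v := by
  simp [Cfsg.hermForm, add_mul, Finset.sum_add_distrib]

theorem h_smul_left (c : F) (x v : Fin n → F) :
    Cfsg.hermForm n F 2 (c • x) v = c * Cfsg.hermForm n F 2 x v := by
  simp [Cfsg.hermForm, Finset.mul_sum, mul_assoc]

theorem h_add_right (h2 : (2 : F) = 0) (v x y : Fin n → F) :
    Cfsg.hermForm n F 2 v (x + y) = Cfsg.hermForm n F 2 v x + Cfsg.hermForm n F 2 v y := by
  simp [Cfsg.hermForm, sq_add h2, mul_add, Finset.sum_add_distrib]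

theorem h_smul_right (c : F) (v x : Fin n → F) :
    Cfsg.hermForm n F 2 v (c • x) = c ^ 2 * Cfsg.hermForm n F 2 v x := by
  simp [Cfsg.hermForm, Finset.mul_sum, mul_pow]
  exact Finset.sum_congr rfl fun i _ => by ring

theorem h_comm (hF : Fintype.card F = 4) (x y : Fin n → F) :
    Cfsg.hermForm n F 2 y x = (Cfsg.hermForm n F 2 x y) ^ 2 := by
  have h2 := SmallField.two_eq_zero_of_card_four hF
  have h4 : ∀ a : F, a ^ 4 = a := fun a => by
    have := FiniteField.pow_card a
    rwa [hF] at this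
  let s : F →+ F := { toFun := fun a => a ^ 2, map_zero' := by simp, map_add' := sq_add h2 }
  show Cfsg.hermForm n F 2 y x = s (Cfsg.hermForm n F 2 x y)
  rw [Cfsg.hermForm, Cfsg.hermForm, map_sum]
  refine Finset.sum_congr rfl fun i _ => ?_
  show _ = (x i * y i ^ 2) ^ 2
  rw [mul_pow, ← pow_mul, h4]
  ring

theorem h_zero_left (x : Fin n → F) : Cfsg.hermForm n F 2 0 x = 0 := by simp [Cfsg.hermForm]

theorem h_zero_right (x : Fin n → F) : Cfsg.hermForm n F 2 x 0 = 0 := by simp [Cfsg.hermForm]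

/-- The functional `x ↦ h(x, v)`. -/
noncomputable def hpair (v : Fin n → F) : Module.Dual F (Fin n → F) where
  toFun x := Cfsg.hermForm n F 2 x v
  map_add' x y := h_add_left x y v
  map_smul' c x := h_smul_left c x v

theorem transv_preserves (hF : Fintype.card F = 4) {v : Fin n → F} (hv : hpair v v = 0) (x y : Fin n → F) :
    Cfsg.hermForm n F 2 ((TransvGL.transv hv : Matrix (Fin n) (Fin n) F) *ᵥ x)
      ((TransvGL.transv hv : Matrix (Fin n) (Fin n) F) *ᵥ y) = Cfsg.hermForm n F 2 x y := by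
  have h2 := SmallField.two_eq_zero_of_card_four hF
  have hv' : Cfsg.hermForm n F 2 v v = 0 := hv
  rw [TransvGL.transv_mulVec, TransvGL.transv_mulVec]
  show Cfsg.hermForm n F 2 (x + Cfsg.hermForm n F 2 x v • v) (y + Cfsg.hermForm n F 2 y v • v) = _
  simp only [h_add_left, h_add_right h2, h_smul_left, h_smul_right, hv', ← h_comm hF y v, mul_zero,
    add_zero]
  linear_combination (Cfsg.hermForm n F 2 x v * Cfsg.hermForm n F 2 v y) * h2

/-- An orthogonal pair of norm one in each member. -/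
theorem exists_pair (hF : Fintype.card F = 4) {W : Submodule F (Fin n → F)}
    (hW : Module.finrank F W = 2) (hnd : Cfsg.Geo.IsNondegenerateOn (Cfsg.hermForm n F 2) W) :
    ∃ a ∈ W, ∃ b ∈ W, Cfsg.hermForm n F 2 a a = 1 ∧ Cfsg.hermForm n F 2 b b = 1 ∧
      Cfsg.hermForm n F 2 a b = 0 ∧ Cfsg.hermForm n F 2 b a = 0 ∧
      ∀ x ∈ W, ∃ r s : F, x = r • a + s • b := by
  have h2 := SmallField.two_eq_zero_of_card_four hF
  have h01 : ∀ v : Fin n → F, Cfsg.hermForm n F 2 v v ≠ 0 → Cfsg.hermForm n F 2 v v = 1 := by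
    intro v hv
    have := h_comm hF v v
    apply mul_left_cancel₀ hv
    rw [mul_one, ← pow_two]; exact this.symm
  obtain ⟨a, ha, haa⟩ : ∃ a ∈ W, Cfsg.hermForm n F 2 a a ≠ 0 := by
    by_contra hno
    push Not at hno
    obtain ⟨w, hw, hw0⟩ := W.ne_bot_iff.1 (fun h => by rw [h, finrank_bot] at hW; omega)
    obtain ⟨x, hx, hxw⟩ := (hnd w hw hw0).1
    obtain ⟨o, ho0, ho1, ho⟩ := SmallField.exists_omega hF
    have key : ∀ z ∈ W, Cfsg.hermForm n F 2 z w = 0 ∨ Cfsg.hermForm n F 2 z w = 1 := by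
      intro z hz
      have e := hno (z + w) (W.add_mem hz hw)
      rw [h_add_left, h_add_right h2, h_add_right h2, hno z hz, hno w hw, h_comm hF z w] at e
      have e2 : Cfsg.hermForm n F 2 z w * (1 + Cfsg.hermForm n F 2 z w) = 0 := by linear_combination e
      rcases mul_eq_zero.1 e2 with h | h
      · exact Or.inl h
      · exact Or.inr (by linear_combination h - h2)
    have hx1 : Cfsg.hermForm n F 2 x w = 1 := (key x hx).resolve_left hxw
    rcases key (o • x) (W.smul_mem o hx) with h | h <;> rw [h_smul_left, hx1, mul_one] at h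
    · exact ho0 h
    · exact ho1 h
  have ha1 := h01 a haa
  obtain ⟨w, hw, hwa⟩ : ∃ w ∈ W, w ∉ Submodule.span F {a} := by
    by_contra hno
    push Not at hno
    have h1 := Submodule.finrank_mono (show W ≤ Submodule.span F {a} from hno)
    have h3 := (finrank_span_le_card (R := F) ({a} : Set (Fin n → F)))
    simp at h3
    omega
  set b := w + Cfsg.hermForm n F 2 w a • a with hb
  have hbW : b ∈ W := W.add_mem hw (W.smul_mem _ ha)
  have hba : Cfsg.hermForm n F 2 b a = 0 := by
    rw [hb, h_add_left, h_smul_left, ha1]; linear_combination Cfsg.hermForm n F 2 w a * h2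
  have hab : Cfsg.hermForm n F 2 a b = 0 := by rw [h_comm hF b a, hba]; ring
  have hbn : b ∉ Submodule.span F {a} := fun h => hwa (by
    have := Submodule.sub_mem _ h (Submodule.smul_mem _ (Cfsg.hermForm n F 2 w a)
      (Submodule.mem_span_singleton_self a))
    simpa [hb] using this)
  have hspan : Submodule.span F {a} ⊔ Submodule.span F {b} = W := by
    refine Submodule.eq_of_le_of_finrank_le (sup_le ((Submodule.span_singleton_le_iff_mem _ _).2 ha)
      ((Submodule.span_singleton_le_iff_mem _ _).2 hbW)) ?_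
    have hlt : Submodule.span F {a} < Submodule.span F {a} ⊔ Submodule.span F {b} :=
      lt_of_le_not_ge le_sup_left fun h => hbn (h (Submodule.mem_sup_right (Submodule.mem_span_singleton_self b)))
    have h1 := Submodule.finrank_lt_finrank_of_lt hlt
    rw [finrank_span_singleton (fun h => haa (by rw [h, h_zero_left]))] at h1
    omega
  have hexp : ∀ x ∈ W, ∃ r s : F, x = r • a + s • b := by
    intro x hx
    rw [← hspan] at hx
    obtain ⟨y, hy, z, hz, rfl⟩ := Submodule.mem_sup.1 hx
    obtain ⟨r, rfl⟩ := Submodule.mem_span_singleton.1 hy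
    obtain ⟨s, rfl⟩ := Submodule.mem_span_singleton.1 hz
    exact ⟨r, s, rfl⟩
  have hbb : Cfsg.hermForm n F 2 b b ≠ 0 := by
    intro h0
    have hb0 : b ≠ 0 := fun h => hbn (by rw [h]; exact zero_mem _)
    obtain ⟨x, hx, hxb⟩ := (hnd b hbW hb0).1
    obtain ⟨r, s, rfl⟩ := hexp x hx
    apply hxb
    rw [h_add_left, h_smul_left, h_smul_left, hab, h0]; ring
  exact ⟨a, ha, b, hbW, ha1, h01 b hbb, hab, hba, hexp⟩

end

open Matrix CfsgLib

/-- Let F be the field with 4 elements (q = 2) and n ≥ 13. Let D be a decomposition of F^n into t pairwise orthogonal 2-dimensional subspaces, each non-degenerate for the standard unitary form Σ u_i v_i². Then the elements of SU_n(2) permuting the members of D form a subgroup that is not maximal: some subgroup lies strictly between it and SU_n(2). -/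
theorem result {F : Type*} [Field F] [Fintype F] (n : ℕ) (hF : Fintype.card F = 4) (hn : 13 ≤ n) {t : ℕ} (D : Fin t → Submodule F (Fin n → F)) (hD : Cfsg.Geo.IsNondegenerateMDecomposition (Cfsg.hermForm n F 2) 2 D) : ∃ K : Subgroup (Matrix.GeneralLinearGroup (Fin n) F), Cfsg.Geo.decompositionStabilizer D ⊓ (Cfsg.GU n F 2 ⊓ Cfsg.Geo.specialLinear (Fin n) F) < K ∧ K < (Cfsg.GU n F 2 ⊓ Cfsg.Geo.specialLinear (Fin n) F) := by
  classical
  have hd := hD.decomp
  have h2 := SmallField.two_eq_zero_of_card_four hF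
  have ht : 7 ≤ t := by
    have := DecompProj.mul_eq_card hd
    simp at this
    omega
  set G0 := GU n F 2 ⊓ Geo.specialLinear (Fin n) F with hG0
  set S : Set (Fin n → F) := {v | ∃ i, v ∈ D i ∧ hermForm n F 2 v v ≠ 0} with hS
  have hpres : ∀ {g : GL (Fin n) F}, g ∈ G0 → ∀ x y, hermForm n F 2 ((g : Matrix (Fin n) (Fin n) F) *ᵥ x)
      ((g : Matrix (Fin n) (Fin n) F) *ᵥ y) = hermForm n F 2 x y := fun hg x y => hg.1 x y
  have hmemS : ∀ {g : GL (Fin n) F}, g ∈ stabilizing (glToMat (Fin n) F) S ↔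
      ∀ v, v ∈ S ↔ (g : Matrix (Fin n) (Fin n) F) *ᵥ v ∈ S := Iff.rfl
  have hfix : ∀ {g : GL (Fin n) F}, (∀ v ∈ S, (g : Matrix (Fin n) (Fin n) F) *ᵥ v ∈ S) →
      g ∈ stabilizing (glToMat (Fin n) F) S := by
    intro g hg
    refine hmemS.2 fun v => ⟨hg v, fun h => ?_⟩
    have hinj : Set.InjOn (fun w => (g : Matrix (Fin n) (Fin n) F) *ᵥ w) S := fun a _ b _ hab => by
      have := congrArg (((g⁻¹ : GL (Fin n) F) : Matrix (Fin n) (Fin n) F) *ᵥ ·) hab
      simpa only [TransvGL.inv_mulVec_mulVec] using this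
    have heq : (fun w => (g : Matrix (Fin n) (Fin n) F) *ᵥ w) '' S = S := by
      refine Set.eq_of_subset_of_ncard_le ?_ ?_ (Set.toFinite S)
      · rintro _ ⟨w, hw, rfl⟩; exact hg w hw
      · rw [Set.ncard_image_of_injOn hinj]
    rw [← heq] at h
    obtain ⟨w, hw, hwv⟩ := h
    have := congrArg (((g⁻¹ : GL (Fin n) F) : Matrix (Fin n) (Fin n) F) *ᵥ ·) hwv
    simp only [TransvGL.inv_mulVec_mulVec] at this
    exact this ▸ hw
  choose a ha b hb haa hbb hab hba hexp using fun i => exists_pair hF (hd.finrank_eq i) (hD.nondegenerate i)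
  have ha0 : ∀ i, a i ≠ 0 := fun i h => by
    have := haa i; rw [h, h_zero_left] at this; exact zero_ne_one this
  have hb0 : ∀ i, b i ≠ 0 := fun i h => by
    have := hbb i; rw [h, h_zero_left] at this; exact zero_ne_one this
  let i0 : Fin t := ⟨0, by omega⟩
  let i1 : Fin t := ⟨1, by omega⟩
  have e01 : i0 ≠ i1 := by simp [i0, i1]
  have orth : ∀ i j, i ≠ j → ∀ u ∈ D i, ∀ v ∈ D j, hermForm n F 2 u v = 0 :=
    fun i j h u hu v hv => hD.orthogonal i j h u hu v hv
  have norm : ∀ i, ∀ r s : F, hermForm n F 2 (r • a i + s • b i) (r • a i + s • b i) = r ^ 3 + s ^ 3 := by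
    intro i r s
    simp only [h_add_left, h_add_right h2, h_smul_left, h_smul_right, haa, hbb, hab, hba]
    ring
  have memS : ∀ v, v ∈ S → ∃ i, ∃ r : F, r ≠ 0 ∧ (v = r • a i ∨ v = r • b i) := by
    rintro v ⟨i, hv, hn'⟩
    obtain ⟨r, s, rfl⟩ := hexp i v hv
    rw [norm] at hn'
    refine ⟨i, ?_⟩
    by_cases hr : r = 0
    · by_cases hs : s = 0
      · simp [hr, hs] at hn'
      · exact ⟨s, hs, Or.inr (by simp [hr])⟩
    · by_cases hs : s = 0
      · exact ⟨r, hr, Or.inl (by simp [hs])⟩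
      · exfalso; apply hn'
        rw [SmallField.cube_eq_one hF hr, SmallField.cube_eq_one hF hs]; linear_combination h2
  have smulS : ∀ i, ∀ r : F, r ≠ 0 → r • a i ∈ S ∧ r • b i ∈ S := by
    intro i r hr
    refine ⟨⟨i, (D i).smul_mem r (ha i), ?_⟩, ⟨i, (D i).smul_mem r (hb i), ?_⟩⟩ <;>
      rw [h_smul_left, h_smul_right] <;> simp [haa, hbb, hr]
  refine ⟨stabilizing (glToMat (Fin n) F) S ⊓ G0, lt_of_le_not_ge ?_ ?_,
    lt_of_le_not_ge inf_le_right ?_⟩
  · rintro g ⟨hgD, hg⟩
    refine ⟨hfix ?_, hg⟩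
    rintro v ⟨i, hv, hn'⟩
    obtain ⟨j, hj⟩ := DecompProj.image_mem_of_stabilizer hgD hv
    exact ⟨j, hj, by rw [hpres hg]; exact hn'⟩
  · intro hle
    set v := a i0 + a i1 with hv
    have hvv : hpair v v = 0 := by
      show hermForm n F 2 v v = 0
      rw [hv, h_add_left, h_add_right h2, h_add_right h2, haa, haa, orth _ _ e01 _ (ha _) _ (ha _),
        orth _ _ e01.symm _ (ha _) _ (ha _)]
      linear_combination h2
    have hT : ∀ x, (TransvGL.transv hvv : Matrix (Fin n) (Fin n) F) *ᵥ x =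
        x + hermForm n F 2 x v • v := fun x => TransvGL.transv_mulVec hvv x
    have self2 : ∀ x : Fin n → F, x + x = 0 := fun x => by rw [← two_smul F x, h2, zero_smul]
    have ga : (TransvGL.transv hvv : Matrix (Fin n) (Fin n) F) *ᵥ a i0 = a i1 := by
      rw [hT, hv, h_add_right h2, haa, orth _ _ e01 _ (ha _) _ (ha _), add_zero, one_smul, ← add_assoc,
        self2, zero_add]
    have gb : (TransvGL.transv hvv : Matrix (Fin n) (Fin n) F) *ᵥ b i0 = b i0 := by
      rw [hT, hv, h_add_right h2, hba, orth _ _ e01 _ (hb _) _ (ha _), add_zero, zero_smul, add_zero]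
    have ga' : (TransvGL.transv hvv : Matrix (Fin n) (Fin n) F) *ᵥ a i1 = a i0 := by
      rw [hT, hv, h_add_right h2, haa, orth _ _ e01.symm _ (ha _) _ (ha _), zero_add, one_smul,
        add_comm (a i0), ← add_assoc, self2, zero_add]
    have hmem : TransvGL.transv hvv ∈ stabilizing (glToMat (Fin n) F) S ⊓ G0 := by
      refine ⟨hfix ?_, fun x y => transv_preserves hF hvv x y, TransvGL.transv_mem_specialLinear hvv⟩
      intro w hw
      obtain ⟨i, r, hr, hw'⟩ := memS w hw
      by_cases h0 : i = i0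
      · subst h0
        rcases hw' with rfl | rfl <;> rw [Matrix.mulVec_smul]
        · rw [ga]; exact (smulS _ r hr).1
        · rw [gb]; exact (smulS _ r hr).2
      by_cases h1 : i = i1
      · subst h1
        rcases hw' with rfl | rfl <;> rw [Matrix.mulVec_smul]
        · rw [ga']; exact (smulS _ r hr).1
        · rw [hT, hv, h_add_right h2, hba, orth _ _ e01.symm _ (hb _) _ (ha _), add_zero, zero_smul,
            add_zero]
          exact (smulS _ r hr).2
      rcases hw' with rfl | rfl <;> rw [Matrix.mulVec_smul, hT, hv, h_add_right h2]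
      · rw [orth _ _ h0 _ (ha _) _ (ha _), orth _ _ h1 _ (ha _) _ (ha _), add_zero, zero_smul, add_zero]
        exact (smulS _ r hr).1
      · rw [orth _ _ h0 _ (hb _) _ (ha _), orth _ _ h1 _ (hb _) _ (ha _), add_zero, zero_smul, add_zero]
        exact (smulS _ r hr).2
    obtain ⟨σ, hσ⟩ := (hle hmem).1
    have e1 : a i1 ∈ D (σ i0) := hσ i0 ▸ ⟨a i0, ha i0, by rw [Matrix.toLin'_apply, ga]⟩
    have e2 : b i0 ∈ D (σ i0) := hσ i0 ▸ ⟨b i0, hb i0, by rw [Matrix.toLin'_apply, gb]⟩
    have p1 := DecompProj.proj_of_mem hd e1 i1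
    rw [DecompProj.proj_of_mem hd (ha i1), if_pos rfl] at p1
    have p2 := DecompProj.proj_of_mem hd e2 i0
    rw [DecompProj.proj_of_mem hd (hb i0), if_pos rfl] at p2
    split_ifs at p1 with c1
    · split_ifs at p2 with c2
      · exact e01 (c2.trans c1.symm)
      · exact hb0 i0 p2
    · exact ha0 i1 p1
  · intro hle
    set v := (a i0 + b i0) + (a i1 + b i1) with hv
    have hvv : hpair v v = 0 := by
      show hermForm n F 2 v v = 0
      simp only [hv, h_add_left, h_add_right h2, haa, hbb, hab, hba, orth _ _ e01 _ (ha _) _ (ha _),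
        orth _ _ e01 _ (ha _) _ (hb _), orth _ _ e01 _ (hb _) _ (ha _), orth _ _ e01 _ (hb _) _ (hb _),
        orth _ _ e01.symm _ (ha _) _ (ha _), orth _ _ e01.symm _ (ha _) _ (hb _),
        orth _ _ e01.symm _ (hb _) _ (ha _), orth _ _ e01.symm _ (hb _) _ (hb _)]
      linear_combination (2 : F) * h2
    have hT : ∀ x, (TransvGL.transv hvv : Matrix (Fin n) (Fin n) F) *ᵥ x =
        x + hermForm n F 2 x v • v := fun x => TransvGL.transv_mulVec hvv x
    have hSmem := hmemS.1 (hle (show TransvGL.transv hvv ∈ G0 from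
      ⟨fun x y => transv_preserves hF hvv x y, TransvGL.transv_mem_specialLinear hvv⟩)).1
    have hav : hermForm n F 2 (a i0) v = 1 := by
      rw [hv, h_add_right h2, h_add_right h2, h_add_right h2, haa, hab,
        orth _ _ e01 _ (ha _) _ (ha _), orth _ _ e01 _ (ha _) _ (hb _)]
      ring
    obtain ⟨j, hj, -⟩ := (hSmem (a i0)).1 (by simpa using (smulS i0 1 one_ne_zero).1)
    rw [hT, hav, one_smul] at hj
    refine DecompProj.not_mem_of_two hd e01 ?_ ?_ j hj
    · have self2 : a i0 + (a i0 + b i0) = b i0 := by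
        rw [← add_assoc, ← two_smul F (a i0), h2, zero_smul, zero_add]
      simp [hv, DecompProj.proj_of_mem hd (ha _), DecompProj.proj_of_mem hd (hb _), e01, self2, hb0]
    · have hne : a i1 + b i1 ≠ 0 := fun h => by
        have := congrArg (fun x => hermForm n F 2 x (a i1)) h
        simp [h_add_left, haa, hba, h_zero_left] at this
      simp [hv, DecompProj.proj_of_mem hd (ha _), DecompProj.proj_of_mem hd (hb _), e01.symm, hne]

end Cfsg.Agent.S5656
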