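import Cfsg.Statements.S5657
import Cfsg.Agent.Eq.Def_ClassicalGeometry
import Cfsg.Agent.UnitGeo.IsotropicPair
-- import your own Cfsg.Agent.* helpers here

set_option autoImplicit false
open Cfsg

namespace Cfsg.Agent.S5657

/-- Let F be the field with q² elements and n = 2k ≥ 13. Let D be a decomposition of F^n into two complementary subspaces of dimension k on each of which the standard unitary form vanishes identically. Then the elements of SU_n(q) preserving or interchanging the two subspaces form a maximal subgroup of SU_n(q). -/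
theorem result {F : Type*} [Field F] [Fintype F] (n q : ℕ) (hF : Fintype.card F = q ^ 2) (hn : 13 ≤ n) (k : ℕ) (hk : 2 * k = n) (D : Fin 2 → Submodule F (Fin n → F)) (hD : Cfsg.Geo.IsMDecomposition k D) (hts : ∀ i, Cfsg.Geo.IsTotallySingularFor (Cfsg.hermForm n F q) (D i)) : Cfsg.Geo.IsMaximalIn (Cfsg.GU n F q ⊓ Cfsg.Geo.specialLinear (Fin n) F) (Cfsg.Geo.decompositionStabilizer D ⊓ (Cfsg.GU n F q ⊓ Cfsg.Geo.specialLinear (Fin n) F)) := by
  have hd := hD.finrank_eq
  have htop : D 0 ⊔ D 1 = ⊤ :=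
    eq_top_iff.2 (hD.iSup_eq_top ▸ iSup_le (Fin.forall_fin_two.2 ⟨le_sup_left, le_sup_right⟩))
  have hinf : ∀ x ∈ D 0, x ∈ D 1 → x = 0 :=
    Submodule.disjoint_def.1 (hD.indep.pairwiseDisjoint (show (0 : Fin 2) ≠ 1 by decide))
  have hmap : ∀ (g : Matrix.GeneralLinearGroup (Fin n) F) (i j : Fin 2),
      (D i).map (Matrix.toLin' (g : Matrix (Fin n) (Fin n) F)) = D j ↔
        ∀ x ∈ D i, (g : Matrix (Fin n) (Fin n) F).mulVec x ∈ D j := by
    refine fun g i j => ⟨fun h x hx => h ▸ ⟨x, hx, Matrix.toLin'_apply _ x⟩, fun h => ?_⟩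
    refine Submodule.eq_of_le_of_finrank_le ?_ (by
      rw [(Submodule.equivMapOfInjective _ (fun a b hab => by
        have := congrArg (((g⁻¹ : Matrix.GeneralLinearGroup (Fin n) F) :
          Matrix (Fin n) (Fin n) F).mulVec) hab
        simpa [Matrix.toLin'_apply, Matrix.mulVec_mulVec] using this) _).finrank_eq.symm, hd, hd])
    rintro _ ⟨x, hx, rfl⟩
    rw [Matrix.toLin'_apply]
    exact h x hx
  refine CfsgLib.UnitGeo.isoPair_isMaximal hF (fun h => by omega)
    ⟨hts 0, hts 1, htop, hinf, by rw [hd, hd], by rw [hd]; omega⟩ _ fun g => ?_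
  constructor
  · rintro ⟨⟨σ, hσ⟩, hg⟩
    refine ⟨hg, ?_⟩
    by_cases h : σ 0 = 0
    · have h1 : σ 1 = 1 := by
        have := σ.injective.ne (show (1 : Fin 2) ≠ 0 by decide)
        omega
      exact Or.inl ⟨(hmap g 0 0).1 ((hσ 0).trans (by rw [h])), (hmap g 1 1).1 ((hσ 1).trans (by rw [h1]))⟩
    · have h0 : σ 0 = 1 := by omega
      have h1 : σ 1 = 0 := by
        have := σ.injective.ne (show (1 : Fin 2) ≠ 0 by decide)
        omega
      exact Or.inr ⟨(hmap g 0 1).1 ((hσ 0).trans (by rw [h0])), (hmap g 1 0).1 ((hσ 1).trans (by rw [h1]))⟩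
  · rintro ⟨hg, ⟨h0, h1⟩ | ⟨h0, h1⟩⟩
    · exact ⟨⟨1, Fin.forall_fin_two.2 ⟨(hmap g 0 0).2 h0, (hmap g 1 1).2 h1⟩⟩, hg⟩
    · exact ⟨⟨Equiv.swap 0 1, Fin.forall_fin_two.2
        ⟨by rw [Equiv.swap_apply_left]; exact (hmap g 0 1).2 h0,
         by rw [Equiv.swap_apply_right]; exact (hmap g 1 0).2 h1⟩⟩, hg⟩

end Cfsg.Agent.S5657
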