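import Cfsg.Statements.S5659
import Cfsg.Agent.Eq.Def_GeometricClasses
import Cfsg.Agent.UnitGeo.OrthSubfield
-- import your own Cfsg.Agent.* helpers here

set_option autoImplicit false
open Cfsg

namespace Cfsg.Agent.S5659

/-- Let F be the field with q² elements, q odd, n ≥ 13, and F₀ the subfield with q elements. Let P be an invertible matrix such that the standard unitary form takes values in F₀ on the F₀-span of the columns of P (so it restricts to a non-degenerate symmetric bilinear form there). Then the elements of SU_n(q) lying in the subfield group of P form a maximal subgroup of SU_n(q). -/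
theorem result {F : Type*} [Field F] [Fintype F] (n q : ℕ) (hF : Fintype.card F = q ^ 2) (hn : 13 ≤ n) (hodd : Odd q) (F₀ : Subfield F) (hcard : Fintype.card F = Nat.card F₀ ^ 2) (P : Matrix.GeneralLinearGroup (Fin n) F) (hP : Cfsg.Geo.IsFormRationalStructure (Cfsg.hermForm n F q) F₀ 1 P) : Cfsg.Geo.IsMaximalIn (Cfsg.GU n F q ⊓ Cfsg.Geo.specialLinear (Fin n) F) (Cfsg.Geo.subfieldSubgroup F₀ P ⊓ (Cfsg.GU n F q ⊓ Cfsg.Geo.specialLinear (Fin n) F)) := by
  have h2 : (2 : F) ≠ 0 := by
    intro h
    have h1 : ringChar F = 2 := CharP.ringChar_of_prime_eq_zero Nat.prime_two (by exact_mod_cast h)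
    have h2 := FiniteField.even_card_of_char_two h1
    obtain ⟨j, rfl⟩ := hodd
    rw [hF, Nat.pow_mod] at h2
    simp [Nat.add_mod, Nat.mul_mod] at h2
  exact CfsgLib.UnitGeo.orthSubfield_isMaximal hF
    ⟨CfsgLib.UnitGeo.fix_of_card hF hcard, hP, one_ne_zero, Or.inl (one_pow q)⟩ h2 (by omega)

end Cfsg.Agent.S5659
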