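import Cfsg.Statements.S5665
import Cfsg.Agent.Eq.Def_ClassicalGeometry
import Cfsg.Agent.Classical.SympFormStd
import Cfsg.Agent.SympGeo.UnitaryOverfield
-- import your own Cfsg.Agent.* helpers here

set_option autoImplicit false
open Cfsg
open scoped Matrix

namespace Cfsg.Agent.S5665

/-- For a finite field F of odd order and m ≥ 7, let K be a subfield of the algebra of 2m × 2m matrices over F containing the scalars, of degree 2 over F, that is closed under adjoints for the standard alternating form on F^(2m) but whose elements are not all self-adjoint (so the adjoint map induces the automorphism of order two of K). Then the elements of Sp_2m(F) normalising K form a maximal subgroup of Sp_2m(F). -/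
theorem result {F : Type*} [Field F] [Fintype F] (m : ℕ) (hm : 7 ≤ m) (hodd : Odd (Fintype.card F)) (K : Subalgebra F (Matrix (Fin m ⊕ Fin m) (Fin m ⊕ Fin m) F)) (hK : Cfsg.Geo.IsFieldSubalgebra 2 K) (hac : Cfsg.Geo.IsAdjointClosedFor (Cfsg.sympForm m F) K) (hnsa : ¬ Cfsg.Geo.IsSelfAdjointFor (Cfsg.sympForm m F) K) : Cfsg.Geo.IsMaximalIn (Cfsg.spGL m F) (Cfsg.Geo.subalgebraNormalizer K ⊓ Cfsg.spGL m F) := by
  have hι : 14 ≤ Fintype.card (Fin m ⊕ Fin m) := by rw [Fintype.card_sum, Fintype.card_fin]; omega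
  have hf := CfsgLib.SympFormStd.isSymplecticForm m F
  have h2F : (2 : F) ≠ 0 := by
    intro h
    have h1 : ringChar F = 2 := CharP.ringChar_of_prime_eq_zero Nat.prime_two (by exact_mod_cast h)
    have h2 := FiniteField.even_card_of_char_two h1
    obtain ⟨j, hj⟩ := hodd
    omega
  have hne : (1 : Matrix ((Fin m ⊕ Fin m)) ((Fin m ⊕ Fin m)) F) ≠ 0 := by
    intro h
    have := congrFun (congrFun h (Sum.inl ⟨0, by omega⟩)) (Sum.inl ⟨0, by omega⟩)
    simp at this
  obtain ⟨J, hJK, hJns⟩ : ∃ J ∈ K, ∀ t : F, J ≠ t • (1 : Matrix ((Fin m ⊕ Fin m)) ((Fin m ⊕ Fin m)) F) := by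
    by_contra h
    push Not at h
    have hle : (Subalgebra.toSubmodule K) ≤ Submodule.span F {(1 : Matrix ((Fin m ⊕ Fin m)) ((Fin m ⊕ Fin m)) F)} := fun k hk => by
      obtain ⟨t, rfl⟩ := h k hk
      exact Submodule.smul_mem _ t (Submodule.mem_span_singleton_self 1)
    have h1 := Submodule.finrank_mono hle
    rw [finrank_span_singleton hne, show Module.finrank F (Subalgebra.toSubmodule K) = 2 from hK.finrank_eq] at h1
    omega
  have hli : LinearIndependent F ![(⟨1, K.one_mem⟩ : K), ⟨J, hJK⟩] := by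
    refine LinearIndependent.pair_iff.2 fun r t h => ?_
    have h' : r • (1 : Matrix ((Fin m ⊕ Fin m)) ((Fin m ⊕ Fin m)) F) + t • J = 0 := congrArg Subtype.val h
    by_cases ht : t = 0
    · rw [ht, zero_smul, add_zero, smul_eq_zero] at h'
      exact ⟨h'.resolve_right hne, ht⟩
    · refine absurd ?_ (hJns (-(t⁻¹ * r)))
      rw [neg_smul, ← smul_smul, eq_neg_of_add_eq_zero_left h', smul_neg, neg_neg, inv_smul_smul₀ ht]
  have hgen : ∀ k ∈ K, ∃ r t : F, k = r • (1 : Matrix ((Fin m ⊕ Fin m)) ((Fin m ⊕ Fin m)) F) + t • J := by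
    intro k hk
    have hspan := hli.span_eq_top_of_card_eq_finrank (by simp [hK.finrank_eq])
    obtain ⟨c, hc⟩ := (Submodule.mem_span_range_iff_exists_fun F).1
      (hspan ▸ Submodule.mem_top : (⟨k, hk⟩ : K) ∈ Submodule.span F (Set.range ![(⟨1, K.one_mem⟩ : K), ⟨J, hJK⟩]))
    refine ⟨c 0, c 1, ?_⟩
    have := congrArg Subtype.val hc
    simpa [Fin.sum_univ_two] using this.symm
  have hcoef : ∀ r t : F, r • (1 : Matrix ((Fin m ⊕ Fin m)) ((Fin m ⊕ Fin m)) F) + t • J = 0 → r = 0 ∧ t = 0 := by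
    intro r t h
    exact LinearIndependent.pair_iff.1 hli r t (Subtype.ext h)
  obtain ⟨β, α, hsq⟩ := hgen (J * J) (K.mul_mem hJK hJK)
  have hsqv : ∀ v, J *ᵥ (J *ᵥ v) = α • (J *ᵥ v) + β • v := fun v => by
    rw [Matrix.mulVec_mulVec, hsq, Matrix.add_mulVec, Matrix.smul_mulVec, Matrix.smul_mulVec, Matrix.one_mulVec,
      add_comm]
  have hirr : ∀ t : F, t * t ≠ α * t + β := by
    intro t ht
    have hmem : J - t • (1 : Matrix ((Fin m ⊕ Fin m)) ((Fin m ⊕ Fin m)) F) ∈ K := K.sub_mem hJK (K.smul_mem K.one_mem t)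
    have hne' : J - t • (1 : Matrix ((Fin m ⊕ Fin m)) ((Fin m ⊕ Fin m)) F) ≠ 0 := sub_ne_zero.2 (hJns t)
    obtain ⟨y, hy, hxy⟩ := hK.inv _ hmem hne'
    have hprod : (J - t • (1 : Matrix ((Fin m ⊕ Fin m)) ((Fin m ⊕ Fin m)) F)) * (J - (α - t) • (1 : Matrix ((Fin m ⊕ Fin m)) ((Fin m ⊕ Fin m)) F)) = 0 := by
      rw [sub_mul, mul_sub, mul_sub, hsq, mul_smul_comm, mul_one, smul_mul_assoc, one_mul, smul_mul_assoc, one_mul,
        smul_smul, show t * (α - t) = -β by linear_combination -ht]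
      module
    apply hJns (α - t)
    have h2 := congrArg (fun M => y * M) hprod
    simp only [mul_zero, ← mul_assoc, hK.comm y hy _ hmem, hxy, one_mul] at h2
    exact sub_eq_zero.1 h2
  have hB : ∀ x y, CfsgLib.SympGeo.sform hf x y = Cfsg.sympForm m F x y := fun x y => rfl
  have hsep : ∀ r t : F, (∀ x y, r * CfsgLib.SympGeo.sform hf x y + t * CfsgLib.SympGeo.sform hf x (J *ᵥ y) = 0) →
      r = 0 ∧ t = 0 := by
    intro r t h
    refine hcoef r t (Matrix.ext_of_mulVec_single fun i => ?_)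
    rw [Matrix.zero_mulVec, Matrix.add_mulVec, Matrix.smul_mulVec, Matrix.smul_mulVec, Matrix.one_mulVec]
    refine (CfsgLib.SympGeo.sform_nondeg hf).2 _ fun x => ?_
    rw [map_add, map_smul, map_smul, smul_eq_mul, smul_eq_mul]
    exact h x _
  obtain ⟨J', hJ'K, hJ'⟩ := hac J hJK
  obtain ⟨a, b, rfl⟩ := hgen J' hJ'K
  have hadj0 : ∀ x y, CfsgLib.SympGeo.sform hf (J *ᵥ x) y =
      a * CfsgLib.SympGeo.sform hf x y + b * CfsgLib.SympGeo.sform hf x (J *ᵥ y) := by
    intro x y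
    rw [hB (J *ᵥ x) y, hJ' x y, ← hB, Matrix.add_mulVec, Matrix.smul_mulVec, Matrix.smul_mulVec, Matrix.one_mulVec,
      map_add, map_smul, map_smul, smul_eq_mul, smul_eq_mul]
  obtain ⟨hab1, hb2⟩ := hsep (a * (1 + b)) (b * b - 1) fun x y => by
    have h1 := hadj0 y x
    rw [CfsgLib.SympGeo.sform_skew hf (J *ᵥ y) x, CfsgLib.SympGeo.sform_skew hf y (J *ᵥ x), hadj0 x y,
      CfsgLib.SympGeo.sform_skew hf y x] at h1
    linear_combination h1
  obtain ⟨ha2, hab2⟩ := hsep (a * a - α * a) (2 * a * b + α - α * b) fun x y => by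
    have h1 := hadj0 (J *ᵥ x) y
    rw [hsqv, map_add, map_smul, map_smul, LinearMap.add_apply, LinearMap.smul_apply, LinearMap.smul_apply,
      hadj0, hadj0 x (J *ᵥ y), hsqv, map_add, map_smul, map_smul] at h1
    simp only [smul_eq_mul] at h1
    linear_combination -h1 - (α * CfsgLib.SympGeo.sform hf x (J *ᵥ y) + β * CfsgLib.SympGeo.sform hf x y) * hb2
  obtain ⟨rfl, rfl⟩ : a = α ∧ b = -1 := by
    rcases mul_self_eq_one_iff.1 (sub_eq_zero.1 hb2) with rfl | rfl
    · exfalso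
      have ha : a = 0 := (mul_eq_zero.1 (show (2 : F) * a = 0 by linear_combination hab2)).resolve_left h2F
      apply hnsa
      intro k hk u v
      obtain ⟨r, t, rfl⟩ := hgen k hk
      rw [← hB, ← hB]
      simp only [Matrix.add_mulVec, Matrix.smul_mulVec, Matrix.one_mulVec, map_add, map_smul, LinearMap.add_apply,
        LinearMap.smul_apply, smul_eq_mul, hadj0, ha]
      ring
    · exact ⟨mul_left_cancel₀ h2F (by linear_combination -hab2), rfl⟩
  -- the trace-zero generator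
  set J₀ : Matrix (Fin m ⊕ Fin m) (Fin m ⊕ Fin m) F := J - (a / 2) • 1 with hJ₀
  have hJ₀v : ∀ v, J₀ *ᵥ v = J *ᵥ v - (a / 2) • v := fun v => by
    rw [hJ₀, Matrix.sub_mulVec, Matrix.smul_mulVec, Matrix.one_mulVec]
  have hS : CfsgLib.SympGeo.KSymp hf J₀ (β + a * a / 4) := by
    have h4 : (4 : F) ≠ 0 := by rw [show (4 : F) = 2 * 2 by norm_num]; exact mul_ne_zero h2F h2F
    refine ⟨fun v => ?_, fun t ht => hirr (t + a / 2) ?_, fun x y => ?_, h2F⟩
    · rw [hJ₀v, hJ₀v, Matrix.mulVec_sub, Matrix.mulVec_smul, hsqv]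
      match_scalars <;> field_simp <;> ring
    · field_simp at ht ⊢
      linear_combination ht
    · simp only [hJ₀v, map_sub, map_smul, LinearMap.sub_apply, LinearMap.smul_apply, smul_eq_mul, hadj0]
      field_simp
      ring
  have hshift : ∀ g : Matrix.GeneralLinearGroup (Fin m ⊕ Fin m) F,
      (∃ r s : F, s ≠ 0 ∧ ((g⁻¹ : Matrix.GeneralLinearGroup (Fin m ⊕ Fin m) F) : Matrix (Fin m ⊕ Fin m) (Fin m ⊕ Fin m) F) *
        J₀ * (g : Matrix (Fin m ⊕ Fin m) (Fin m ⊕ Fin m) F) = r • 1 + s • J₀) ↔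
      ∃ r s : F, s ≠ 0 ∧ ((g⁻¹ : Matrix.GeneralLinearGroup (Fin m ⊕ Fin m) F) : Matrix (Fin m ⊕ Fin m) (Fin m ⊕ Fin m) F) *
        J * (g : Matrix (Fin m ⊕ Fin m) (Fin m ⊕ Fin m) F) = r • 1 + s • J := by
    intro g
    constructor <;> rintro ⟨r, s, hs, e⟩
    · refine ⟨r - s * (a / 2) + a / 2, s, hs, ?_⟩
      rw [hJ₀, mul_sub, sub_mul, mul_smul_comm, mul_one, smul_mul_assoc, Units.inv_mul, sub_eq_iff_eq_add] at e
      rw [e, smul_sub, smul_smul]
      module
    · refine ⟨r + s * (a / 2) - a / 2, s, hs, ?_⟩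
      rw [hJ₀, mul_sub, sub_mul, mul_smul_comm, mul_one, smul_mul_assoc, Units.inv_mul, e, smul_sub, smul_smul]
      module
  refine CfsgLib.SympGeo.unitaryOverfield_isMaximal hS (by omega) (Cfsg.spGL m F) _
    (fun g => CfsgLib.SympFormStd.mem_spGL) fun g => ?_
  refine Iff.trans ?_ (and_congr_right fun _ => (hshift g).symm)
  constructor
  · rintro ⟨hg, hgΩ⟩
    refine ⟨hgΩ, ?_⟩
    have hmem : ((g⁻¹ : Matrix.GeneralLinearGroup ((Fin m ⊕ Fin m)) F) : Matrix ((Fin m ⊕ Fin m)) ((Fin m ⊕ Fin m)) F) * J *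
        (g : Matrix ((Fin m ⊕ Fin m)) ((Fin m ⊕ Fin m)) F) ∈ K := by
      refine (hg _).2 ?_
      simpa [← mul_assoc, mul_assoc _ (g : Matrix ((Fin m ⊕ Fin m)) ((Fin m ⊕ Fin m)) F)] using hJK
    obtain ⟨r, t, e⟩ := hgen _ hmem
    refine ⟨r, t, fun ht => hJns r ?_, e⟩
    rw [ht, zero_smul, add_zero] at e
    have h1 := congrArg (fun M => (g : Matrix ((Fin m ⊕ Fin m)) ((Fin m ⊕ Fin m)) F) * M *
      ((g⁻¹ : Matrix.GeneralLinearGroup ((Fin m ⊕ Fin m)) F) : Matrix ((Fin m ⊕ Fin m)) ((Fin m ⊕ Fin m)) F)) e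
    simp only [← mul_assoc, Units.mul_inv, one_mul, mul_smul_comm, mul_one, smul_mul_assoc] at h1
    simpa [mul_assoc] using h1
  · rintro ⟨hgΩ, r, t, ht, e⟩
    refine ⟨?_, hgΩ⟩
    set G := (g : Matrix ((Fin m ⊕ Fin m)) ((Fin m ⊕ Fin m)) F) with hG
    set Gi := ((g⁻¹ : Matrix.GeneralLinearGroup ((Fin m ⊕ Fin m)) F) : Matrix ((Fin m ⊕ Fin m)) ((Fin m ⊕ Fin m)) F) with hGi
    have h1 : G * Gi = 1 := Units.mul_inv g
    have h2 : Gi * G = 1 := Units.inv_mul g
    have e' : G * J * Gi = t⁻¹ • J + (-(t⁻¹ * r)) • (1 : Matrix ((Fin m ⊕ Fin m)) ((Fin m ⊕ Fin m)) F) := by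
      have h3 : J = r • (1 : Matrix ((Fin m ⊕ Fin m)) ((Fin m ⊕ Fin m)) F) + t • (G * J * Gi) := by
        calc J = G * (Gi * J * G) * Gi := by simp [← mul_assoc, h1, mul_assoc _ G]
          _ = _ := by rw [e]; simp [mul_add, add_mul, h1]
      conv_rhs => arg 1; rw [h3]
      rw [smul_add, smul_smul, smul_smul, inv_mul_cancel₀ ht, one_smul]
      module
    intro k
    constructor
    · intro hk
      obtain ⟨p, p', rfl⟩ := hgen k hk
      show G * _ * Gi ∈ K
      rw [mul_add, add_mul, mul_smul_comm, mul_smul_comm, smul_mul_assoc, smul_mul_assoc, mul_one, h1, e']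
      exact K.add_mem (K.smul_mem K.one_mem _) (K.smul_mem (K.add_mem (K.smul_mem hJK _) (K.smul_mem K.one_mem _)) _)
    · intro hk
      change G * k * Gi ∈ K at hk
      obtain ⟨p, p', hk'⟩ := hgen _ hk
      have : k = Gi * (G * k * Gi) * G := by simp [← mul_assoc, h2, mul_assoc _ Gi]
      rw [this, hk', mul_add, add_mul, mul_smul_comm, mul_smul_comm, smul_mul_assoc, smul_mul_assoc, mul_one, h2, e]
      exact K.add_mem (K.smul_mem K.one_mem _) (K.smul_mem (K.add_mem (K.smul_mem K.one_mem _) (K.smul_mem hJK _)) _)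

end Cfsg.Agent.S5665
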