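import Cfsg.Statements.S5675
import Cfsg.Agent.OrthGeo.NondegAny
import Cfsg.Agent.OrthGeo.QuadOdd
import Cfsg.Agent.Eq.Def_Classical
-- import your own Cfsg.Agent.* helpers here

set_option autoImplicit false
open Cfsg

namespace Cfsg.Agent.S5675

/-- Let F be a finite field of odd order q, m ≥ 6, Q the standard quadratic form on F^(2m+1) and Ω the commutator subgroup of its isometry group. Let W be a non-zero subspace of even dimension on which the polar form of Q is non-degenerate; exclude the case q = 3, dim W = 2 with Q vanishing on some line of W (a plus-type plane). Then the elements of Ω stabilising W (equivalently, stabilising its orthogonal complement, of odd dimension) form a maximal subgroup of Ω. -/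
theorem result {F : Type*} [Field F] [Fintype F] (hodd : Odd (Fintype.card F)) (m : ℕ) (hm : 6 ≤ m) (W : Submodule F (Unit ⊕ (Fin m ⊕ Fin m) → F)) (hW0 : W ≠ ⊥) (hev : Even (Module.finrank F W)) (hW : Cfsg.Geo.IsNondegenerateOn (QuadraticMap.polar (Cfsg.quadFormOdd m F)) W) (hex : ¬ (Fintype.card F = 3 ∧ Module.finrank F W = 2 ∧ Cfsg.Geo.IsPlusTypeOn (Cfsg.quadFormOdd m F) W)) : Cfsg.Geo.IsMaximalIn (Cfsg.Geo.omegaGL (Cfsg.quadFormOdd m F)) (Cfsg.Geo.subspaceStabilizer W ⊓ Cfsg.Geo.omegaGL (Cfsg.quadFormOdd m F)) := by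
  have h2 : (2 : F) ≠ 0 := by
    intro h
    have h' : ringChar F = 2 := (CharP.ringChar_of_prime_eq_zero Nat.prime_two (by exact_mod_cast h))
    have := FiniteField.even_card_iff_char_two.1 h'
    rw [Nat.odd_iff] at hodd
    omega
  have hQ := CfsgLib.OrthGeo.isNondegenerateQuadraticForm_quadFormOdd (F := F) m h2
  have hW' := CfsgLib.OrthGeo.radical_free_of_nondegenerateOn hQ hW
  have hsum := CfsgLib.OrthGeo.finrank_perp_add hQ W
  have hcard : Fintype.card (Unit ⊕ (Fin m ⊕ Fin m)) = 1 + (m + m) := by simp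
  obtain ⟨j, hj⟩ := hev
  refine CfsgLib.OrthGeo.nondeg_isMaximal hQ hW' hW0 ?_ (by omega) (fun hd => ?_) (fun hd => by omega)
    (fun hd => by omega)
  · intro h
    rw [h, finrank_top, Module.finrank_fintype_fun_eq_card] at hj
    omega
  · refine (CfsgLib.OrthGeo.plane_aniso_or_plusType hQ hd).imp_right fun hp => ?_
    rw [Nat.card_eq_fintype_card]
    have h1 := Fintype.one_lt_card (α := F)
    obtain ⟨i, hi⟩ := hodd
    by_contra hq
    exact hex ⟨by omega, hd, hp⟩

end Cfsg.Agent.S5675
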