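import Cfsg.Statements.S5677
import Cfsg.Agent.OrthGeo.DecompOvergroup
import Cfsg.Agent.OrthGeo.QuadOdd
import Cfsg.Agent.Eq.Def_Classical
-- import your own Cfsg.Agent.* helpers here

set_option autoImplicit false
open Cfsg

namespace Cfsg.Agent.S5677

/-- Let F be a finite field of odd order q, m ≥ 6, Q the standard quadratic form on F^(2m+1) and Ω the commutator subgroup of its isometry group. Let D be a decomposition of F^(2m+1) into t ≥ 2 pairwise orthogonal, pairwise Q-isometric subspaces of equal dimension k > 1 on which the polar form is non-degenerate. Unless q = 3 and k = 3, the elements of Ω permuting the members of D form a maximal subgroup of Ω. -/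
theorem result {F : Type*} [Field F] [Fintype F] (hodd : Odd (Fintype.card F)) (m : ℕ) (hm : 6 ≤ m) {t : ℕ} (k : ℕ) (hk : 1 < k) (D : Fin t → Submodule F (Unit ⊕ (Fin m ⊕ Fin m) → F)) (hD : Cfsg.Geo.IsOrthogonalMDecomposition (Cfsg.quadFormOdd m F) k D) (hex : ¬ (Fintype.card F = 3 ∧ k = 3)) : Cfsg.Geo.IsMaximalIn (Cfsg.Geo.omegaGL (Cfsg.quadFormOdd m F)) (Cfsg.Geo.decompositionStabilizer D ⊓ Cfsg.Geo.omegaGL (Cfsg.quadFormOdd m F)) := by
  have h2 : (2 : F) ≠ 0 := by
    intro h
    have h' : ringChar F = 2 := (CharP.ringChar_of_prime_eq_zero Nat.prime_two (by exact_mod_cast h))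
    have := FiniteField.even_card_iff_char_two.1 h'
    rw [Nat.odd_iff] at hodd
    omega
  have htk := CfsgLib.DecompProj.mul_eq_card hD.decomp.decomp
  have hcard : Fintype.card (Unit ⊕ (Fin m ⊕ Fin m)) = 1 + (m + m) := by simp
  rw [hcard] at htk
  obtain ⟨hto, hko⟩ : Odd t ∧ Odd k := Nat.odd_mul.1 (htk ▸ ⟨m, by omega⟩)
  have ht2 := hD.decomp.decomp.two_le
  obtain ⟨a, ha⟩ := hto
  obtain ⟨b, hb⟩ := hko
  obtain ⟨c, hc⟩ := hodd
  have h1 := Fintype.one_lt_card (α := F)
  refine CfsgLib.OrthGeo.decomp_isMaximal (CfsgLib.OrthGeo.isNondegenerateQuadraticForm_quadFormOdd m h2) hD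
    (by omega) h2 (by omega) ?_ ?_
  · by_cases h : 5 ≤ Fintype.card F
    · exact Or.inl h
    · refine Or.inr ?_
      have : k ≠ 3 := fun e => hex ⟨by omega, e⟩
      omega
  · by_cases h : k = 3
    · exact Or.inl (by subst h; omega)
    · exact Or.inr ⟨by omega, by omega⟩

end Cfsg.Agent.S5677
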