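import Cfsg.Statements.S5681
import Cfsg.Agent.OTensor96.MatrixForm

set_option autoImplicit false
open Cfsg

namespace Cfsg.Agent.S5681

/-- Let F be a finite field of odd order q, m ≥ 6, Q the standard quadratic form on F^(2m+1) and Ω the commutator subgroup of its isometry group. Suppose the polar form of Q is similar, through a change of basis P and a bijection of index sets e, to the tensor product of non-degenerate symmetric bilinear forms f₁ on F^(n₁) and f₂ on F^(n₂) with 3 ≤ n₁ < n₂. Unless q = 3 and n₁ = 3, the elements of Ω in the stabiliser of this tensor decomposition form a maximal subgroup of Ω. -/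
theorem result {F : Type*} [Field F] [Fintype F] (hodd : Odd (Fintype.card F)) (m : ℕ) (hm : 6 ≤ m) (n₁ n₂ : ℕ) (h1 : 3 ≤ n₁) (h12 : n₁ < n₂) (hex : ¬ (Fintype.card F = 3 ∧ n₁ = 3)) (e : (Unit ⊕ (Fin m ⊕ Fin m)) ≃ Fin n₁ × Fin n₂) (P : Matrix.GeneralLinearGroup (Unit ⊕ (Fin m ⊕ Fin m)) F) (f₁ : (Fin n₁ → F) → (Fin n₁ → F) → F) (f₂ : (Fin n₂ → F) → (Fin n₂ → F) → F) (hf₁ : Cfsg.Geo.IsSymmetricForm f₁) (hf₂ : Cfsg.Geo.IsSymmetricForm f₂) (hT : Cfsg.Geo.IsTensorFormStructure id (QuadraticMap.polar (Cfsg.quadFormOdd m F)) f₁ f₂ e P) : Cfsg.Geo.IsMaximalIn (Cfsg.Geo.omegaGL (Cfsg.quadFormOdd m F)) (Cfsg.Geo.tensorProductSubgroup n₁ n₂ e P ⊓ Cfsg.Geo.omegaGL (Cfsg.quadFormOdd m F)) := by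
  have h2 := CfsgLib.OTensor96.two_ne_of_odd hodd
  have hcard : 2 * m + 1 = n₁ * n₂ := by
    have := Fintype.card_congr e
    simp at this
    omega
  have ho : Odd n₁ ∧ Odd n₂ := Nat.odd_mul.1 ⟨m, hcard.symm⟩
  obtain ⟨⟨a, ha⟩, b, hb⟩ := ho
  refine CfsgLib.OTensor96.tensor_isMaximal (CfsgLib.OrthGeo.isNondegenerateQuadraticForm_quadFormOdd m h2) h2
    (by simp; omega) h1 (by omega) ?_ (by omega)
    (fun h => by have := Nat.le_of_dvd (by omega) h; omega) e P hf₁ hf₂ hT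
  by_cases h4 : 4 ≤ n₁
  · exact Or.inl h4
  · exact Or.inr (CfsgLib.OTensor96.exists_sq_ne_one hodd fun h => hex ⟨h, by omega⟩)

end Cfsg.Agent.S5681
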