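import Cfsg.Statements.S5686
import Cfsg.Agent.Eq.Def_ClassicalGeometry
import Cfsg.Agent.OrthGeo.Parity
import Cfsg.Agent.OrthGeo.PlusPlane

set_option autoImplicit false
open Cfsg

namespace Cfsg.Agent.S5686

/-- Let F be a finite field with q elements, n ≥ 13 even, Q a non-degenerate quadratic form on F^n of plus type (some subspace of dimension n/2 is totally singular), and Ω the commutator subgroup of the isometry group of Q, viewed inside GL_n(F). The elements of Ω stabilising a subspace of dimension n/2 − 1 on which Q vanishes form a subgroup that is not maximal: some subgroup lies strictly between it and Ω. -/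
theorem result {F : Type*} [Field F] [Fintype F] {n : ℕ} (hn : 13 ≤ n) (heven : Even n) (Q : (Fin n → F) → F) (hQ : Cfsg.Geo.IsNondegenerateQuadraticForm Q) (hplus : Cfsg.Geo.IsPlusTypeOn Q ⊤) (W : Submodule F (Fin n → F)) (hW : Cfsg.Geo.IsTotallySingularQuad Q W) (hdim : 2 * (Module.finrank F W + 1) = n) : ∃ K : Subgroup (Matrix.GeneralLinearGroup (Fin n) F), Cfsg.Geo.subspaceStabilizer W ⊓ Cfsg.Geo.omegaGL Q < K ∧ K < Cfsg.Geo.omegaGL Q := by
  have hn' : 5 ≤ Fintype.card (Fin n) := by rw [Fintype.card_fin]; omega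
  set d := Module.finrank F W with hdW
  -- a maximal totally singular subspace containing `W`
  obtain ⟨U₀, -, hU₀s, hU₀d⟩ := hplus
  rw [finrank_top, Module.finrank_fintype_fun_eq_card, Fintype.card_fin] at hU₀d
  have hU₀ : CfsgLib.OrthGeo.IsMaxTS Q U₀ := ⟨hU₀s, by rw [Fintype.card_fin, hU₀d]⟩
  set X := U₀ ⊓ CfsgLib.OrthGeo.perp hQ W with hX
  set U := W ⊔ X with hUdef
  have hU : CfsgLib.OrthGeo.IsMaxTS Q U := by
    constructor
    · intro v hv
      obtain ⟨a, ha, b, hb, rfl⟩ := Submodule.mem_sup.1 hv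
      rw [CfsgLib.OrthGeo.q_add hQ, hW a ha, hU₀s b hb.1, hb.2 a ha]
      ring
    · have e1 := Submodule.finrank_sup_add_finrank_inf_eq W X
      have e2 := Submodule.finrank_sup_add_finrank_inf_eq W U₀
      have e3 : CfsgLib.OrthGeo.perp hQ (W ⊔ U₀) = X := by
        rw [CfsgLib.OrthGeo.perp_sup hQ, hU₀.perp_eq hQ, inf_comm]
      have e4 := CfsgLib.OrthGeo.finrank_perp_add hQ (W ⊔ U₀)
      rw [e3, Fintype.card_fin] at e4
      have e5 : W ⊓ X = W ⊓ U₀ := by
        rw [hX, ← inf_assoc, inf_eq_left.2]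
        exact inf_le_left.trans (CfsgLib.OrthGeo.le_perp_self hQ hW)
      rw [e5] at e1
      rw [Fintype.card_fin]
      have eU : Module.finrank F ↥(W ⊔ X) = Module.finrank F U := by rw [hUdef]
      simp only [← hdW] at e1 e2 ⊢
      omega
  have hUd : Module.finrank F U = d + 1 := by have := hU.two_mul; rw [Fintype.card_fin] at this; omega
  have hWU : W ≤ U := le_sup_left
  refine ⟨Cfsg.Geo.subspaceStabilizer U ⊓ Cfsg.Geo.omegaGL Q, lt_of_le_not_ge ?_ ?_,
    lt_of_le_not_ge inf_le_right ?_⟩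
  · rintro g ⟨hgW, hg⟩
    refine ⟨?_, hg⟩
    have hle : W ≤ U ⊓ CfsgLib.OrthGeo.imgSub g U := by
      refine le_inf hWU fun v hv => ?_
      refine CfsgLib.OrthGeo.mem_imgSub.2 ⟨_, hWU ?_, CfsgLib.OrthGeo.mulVec_inv_cancel g v⟩
      exact ((inv_mem hgW : g⁻¹ ∈ Cfsg.Geo.subspaceStabilizer W) v).1 hv
    have h1 := Submodule.finrank_mono hle
    have h2 := Submodule.finrank_mono (inf_le_left : U ⊓ CfsgLib.OrthGeo.imgSub g U ≤ U)
    have h3 := CfsgLib.OrthGeo.omega_preserves_class hQ hU hg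
    rw [Nat.even_iff] at h3
    have h4 : U ⊓ CfsgLib.OrthGeo.imgSub g U = U := Submodule.eq_of_le_of_finrank_le inf_le_left (by omega)
    have h5 : CfsgLib.OrthGeo.imgSub g U = U :=
      (Submodule.eq_of_le_of_finrank_le (inf_eq_left.1 h4) (by rw [CfsgLib.OrthGeo.finrank_imgSub])).symm
    exact CfsgLib.OrthGeo.mem_subspaceStabilizer_of_le fun v hv =>
      h5 ▸ CfsgLib.OrthGeo.mem_imgSub.2 ⟨v, hv, rfl⟩
  · intro hle
    obtain ⟨u, huU, huW⟩ : ∃ u ∈ U, u ∉ W := by
      by_contra h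
      push Not at h
      have := Submodule.finrank_mono (show U ≤ W from h)
      omega
    obtain ⟨w, hwW, hw0⟩ := Submodule.exists_mem_ne_zero_of_ne_bot (p := W) (by
      intro h; rw [h, finrank_bot] at hdW; omega)
    obtain ⟨x, hux, hwx⟩ := CfsgLib.OrthGeo.exists_b_one_zero hQ (v := w) (v' := u) (by
      intro h
      obtain ⟨c, rfl⟩ := Submodule.mem_span_singleton.1 h
      have hc : c ≠ 0 := by rintro rfl; exact hw0 (zero_smul _ _)
      exact huW ((Submodule.smul_mem_iff _ hc).1 hwW))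
    have hE : CfsgLib.OrthGeo.eichler hQ (hU.singular u huU) hux ∈
        Cfsg.Geo.subspaceStabilizer U ⊓ Cfsg.Geo.omegaGL Q := by
      refine ⟨CfsgLib.OrthGeo.mem_subspaceStabilizer_of_le fun v hv => ?_,
        CfsgLib.OrthGeo.eichler_mem_omega hQ hn' _ hux⟩
      rw [CfsgLib.OrthGeo.eichler_mulVec hQ, hU.b_eq_zero hQ huU hv, zero_smul, sub_zero, mul_zero, zero_smul,
        sub_zero]
      exact U.add_mem hv (U.smul_mem _ huU)
    have hmem := ((hle hE).1 w).1 hwW
    show False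
    simp only [Cfsg.glToMat, Units.coeHom_apply] at hmem
    rw [CfsgLib.OrthGeo.eichler_mulVec hQ, hU.b_eq_zero hQ huU (hWU hwW), CfsgLib.OrthGeo.b_symm hQ x w, hwx,
      one_smul, zero_smul, sub_zero, mul_zero, zero_smul, sub_zero] at hmem
    exact huW ((Submodule.add_mem_iff_right _ hwW).1 hmem)
  · intro hle
    obtain ⟨y, hyU, hy0⟩ := Submodule.exists_mem_ne_zero_of_ne_bot (p := U) (by
      intro h; rw [h, finrank_bot] at hUd; omega)
    obtain ⟨v, hv, hyv⟩ := CfsgLib.OrthGeo.exists_partner hQ (hU.singular y hyU) hy0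
    have hvU : v ∉ U := fun h => one_ne_zero (hyv.symm.trans (hU.b_eq_zero hQ hyU h))
    obtain ⟨y', ⟨hy'U, hy'v⟩, hy'0⟩ := Submodule.exists_mem_ne_zero_of_ne_bot
      (p := U ⊓ CfsgLib.OrthGeo.perp hQ (Submodule.span F {v})) (by
      intro h
      have h1 := Submodule.finrank_sup_add_finrank_inf_eq U (CfsgLib.OrthGeo.perp hQ (Submodule.span F {v}))
      have h2 := CfsgLib.OrthGeo.finrank_perp_add hQ (Submodule.span F {v})
      have h3 : Module.finrank F (Submodule.span F ({v} : Set (Fin n → F))) ≤ 1 :=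
        (finrank_span_le_card _).trans (by simp)
      have h4 := Submodule.finrank_le (U ⊔ CfsgLib.OrthGeo.perp hQ (Submodule.span F {v}))
      rw [Module.finrank_fintype_fun_eq_card, Fintype.card_fin] at h4
      rw [h, finrank_bot] at h1
      rw [Fintype.card_fin] at h2
      omega)
    obtain ⟨x, hvx, hy'x⟩ := CfsgLib.OrthGeo.exists_b_one_zero hQ (v := y') (v' := v) (by
      intro h
      obtain ⟨c, rfl⟩ := Submodule.mem_span_singleton.1 h
      have hc : c ≠ 0 := by rintro rfl; exact hy'0 (zero_smul _ _)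
      exact hvU ((Submodule.smul_mem_iff _ hc).1 hy'U))
    have hmem := ((hle (CfsgLib.OrthGeo.eichler_mem_omega hQ hn' hv hvx)).1 y').1 hy'U
    have hvy' : CfsgLib.OrthGeo.bform hQ v y' = 0 := (CfsgLib.OrthGeo.mem_perp_span_singleton hQ).1 hy'v
    simp only [Cfsg.glToMat, Units.coeHom_apply] at hmem
    rw [CfsgLib.OrthGeo.eichler_mulVec hQ, hvy', CfsgLib.OrthGeo.b_symm hQ x y', hy'x,
      one_smul, zero_smul, sub_zero, mul_zero, zero_smul, sub_zero] at hmem
    exact hvU ((Submodule.add_mem_iff_right _ hy'U).1 hmem)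

end Cfsg.Agent.S5686
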