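import Cfsg.Statements.S5687
import Cfsg.Agent.Eq.Def_GeometricClasses
import Cfsg.Agent.OrthGeo.Parabolic

set_option autoImplicit false
open Cfsg

namespace Cfsg.Agent.S5687

/-- Let F be a finite field with q elements, n ≥ 13 even, Q a non-degenerate quadratic form on F^n of minus type (no subspace of dimension n/2 is totally singular), and Ω the commutator subgroup of the isometry group of Q, viewed inside GL_n(F). The elements of Ω stabilising a non-zero subspace on which Q vanishes form a maximal subgroup of Ω. -/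
theorem result {F : Type*} [Field F] [Fintype F] {n : ℕ} (hn : 13 ≤ n) (heven : Even n) (Q : (Fin n → F) → F) (hQ : Cfsg.Geo.IsNondegenerateQuadraticForm Q) (hminus : ¬ Cfsg.Geo.IsPlusTypeOn Q ⊤) (W : Submodule F (Fin n → F)) (hW0 : W ≠ ⊥) (hW : Cfsg.Geo.IsTotallySingularQuad Q W) : Cfsg.Geo.IsMaximalIn (Cfsg.Geo.omegaGL Q) (Cfsg.Geo.subspaceStabilizer W ⊓ Cfsg.Geo.omegaGL Q) := by
  refine CfsgLib.OrthGeo.parabolic_isMaximal hQ (by rw [Fintype.card_fin]; omega) W hW0 hW
    (fun u huP hu huW h => hminus ?_)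
  refine ⟨W ⊔ Submodule.span F {u}, le_top, fun z hz => ?_, ?_⟩
  · obtain ⟨a, ha, b, hb, rfl⟩ := Submodule.mem_sup.1 hz
    obtain ⟨c, rfl⟩ := Submodule.mem_span_singleton.1 hb
    rw [CfsgLib.OrthGeo.q_add hQ, CfsgLib.OrthGeo.q_smul hQ, hW a ha, hu, map_smul, smul_eq_mul, huP a ha]
    ring
  · have hu0 : u ≠ 0 := fun h => huW (h ▸ W.zero_mem)
    have h1 := Submodule.finrank_sup_add_finrank_inf_eq W (Submodule.span F {u})
    have h2 : W ⊓ Submodule.span F {u} = ⊥ := by
      rw [eq_bot_iff]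
      rintro z ⟨hz, hzu⟩
      obtain ⟨c, rfl⟩ := Submodule.mem_span_singleton.1 hzu
      by_cases hc : c = 0
      · simp [hc]
      · exact absurd ((Submodule.smul_mem_iff _ hc).1 hz) huW
    rw [h2, finrank_bot, finrank_span_singleton hu0] at h1
    rw [finrank_top, Module.finrank_fintype_fun_eq_card]
    omega

end Cfsg.Agent.S5687
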