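import Cfsg.Statements.S5697
import Cfsg.Agent.Eq.Def_ClassicalGeometry
import Cfsg.Agent.OrthGeo.SingularHalves
-- import your own Cfsg.Agent.* helpers here

set_option autoImplicit false
open Cfsg

namespace Cfsg.Agent.S5697

/-- Let F be a finite field with q elements, n ≥ 13 even, Q a non-degenerate quadratic form on F^n of plus type (some subspace of dimension n/2 is totally singular), and Ω the commutator subgroup of the isometry group of Q, viewed inside GL_n(F). Suppose n/2 is even and let D be a decomposition of F^n into two complementary subspaces of dimension n/2 on each of which Q vanishes. Then the elements of Ω preserving or interchanging the two subspaces form a maximal subgroup of Ω. -/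
theorem result {F : Type*} [Field F] [Fintype F] {n : ℕ} (hn : 13 ≤ n) (heven : Even n) (Q : (Fin n → F) → F) (hQ : Cfsg.Geo.IsNondegenerateQuadraticForm Q) (hplus : Cfsg.Geo.IsPlusTypeOn Q ⊤) (k : ℕ) (hk : 2 * k = n) (hke : Even k) (D : Fin 2 → Submodule F (Fin n → F)) (hD : Cfsg.Geo.IsMDecomposition k D) (hts : ∀ i, Cfsg.Geo.IsTotallySingularQuad Q (D i)) : Cfsg.Geo.IsMaximalIn (Cfsg.Geo.omegaGL Q) (Cfsg.Geo.decompositionStabilizer D ⊓ Cfsg.Geo.omegaGL Q) := by
  have hd := hD.finrank_eq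
  have hU : ∀ i, CfsgLib.OrthGeo.IsMaxTS Q (D i) := fun i => ⟨hts i, by rw [hd, Fintype.card_fin, hk]⟩
  have hmap : ∀ (g : Matrix.GeneralLinearGroup (Fin n) F) (i j : Fin 2),
      (D i).map (Matrix.toLin' (g : Matrix (Fin n) (Fin n) F)) = D j ↔
        ∀ x ∈ D i, (g : Matrix (Fin n) (Fin n) F).mulVec x ∈ D j := by
    refine fun g i j => ⟨fun h x hx => h ▸ ⟨x, hx, Matrix.toLin'_apply _ x⟩, fun h => ?_⟩
    refine Submodule.eq_of_le_of_finrank_le ?_ (by
      rw [(Submodule.equivMapOfInjective _ (CfsgLib.OrthGeo.toLin'_injective g) _).finrank_eq.symm, hd, hd])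
    rintro _ ⟨x, hx, rfl⟩
    rw [Matrix.toLin'_apply]
    exact h x hx
  refine CfsgLib.OrthGeo.singularHalves_isMaximal hQ (hU 0) (hU 1) ?_ (by rw [hd]; omega) (by rw [hd]; exact hke) _
    fun g => ?_
  · refine eq_top_iff.2 (hD.iSup_eq_top ▸ iSup_le (Fin.forall_fin_two.2 ⟨le_sup_left, le_sup_right⟩))
  constructor
  · rintro ⟨⟨σ, hσ⟩, hg⟩
    refine ⟨hg, ?_⟩
    by_cases h : σ 0 = 0
    · have h1 : σ 1 = 1 := by
        have := σ.injective.ne (show (1 : Fin 2) ≠ 0 by decide)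
        omega
      exact Or.inl ⟨(hmap g 0 0).1 ((hσ 0).trans (by rw [h])), (hmap g 1 1).1 ((hσ 1).trans (by rw [h1]))⟩
    · have h0 : σ 0 = 1 := by omega
      have h1 : σ 1 = 0 := by
        have := σ.injective.ne (show (1 : Fin 2) ≠ 0 by decide)
        omega
      exact Or.inr ⟨(hmap g 0 1).1 ((hσ 0).trans (by rw [h0])), (hmap g 1 0).1 ((hσ 1).trans (by rw [h1]))⟩
  · rintro ⟨hg, ⟨h0, h1⟩ | ⟨h0, h1⟩⟩
    · exact ⟨⟨1, Fin.forall_fin_two.2 ⟨(hmap g 0 0).2 h0, (hmap g 1 1).2 h1⟩⟩, hg⟩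
    · exact ⟨⟨Equiv.swap 0 1, Fin.forall_fin_two.2
        ⟨by rw [Equiv.swap_apply_left]; exact (hmap g 0 1).2 h0,
         by rw [Equiv.swap_apply_right]; exact (hmap g 1 0).2 h1⟩⟩, hg⟩

end Cfsg.Agent.S5697
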