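import Cfsg.Statements.S5698
import Cfsg.Agent.Eq.Def_ClassicalGeometry
import Cfsg.Agent.OrthGeo.Parity
import Cfsg.Agent.OrthGeo.PlusPlane

set_option autoImplicit false
open Cfsg

namespace Cfsg.Agent.S5698

/-- Let F be a finite field with q elements, n ≥ 13 even, Q a non-degenerate quadratic form on F^n of plus type (some subspace of dimension n/2 is totally singular), and Ω the commutator subgroup of the isometry group of Q, viewed inside GL_n(F). Suppose n/2 is odd and let D be a decomposition of F^n into two complementary subspaces of dimension n/2 on each of which Q vanishes. Then the elements of Ω preserving or interchanging the two subspaces form a subgroup that is not maximal: some subgroup lies strictly between it and Ω. -/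
theorem result {F : Type*} [Field F] [Fintype F] {n : ℕ} (hn : 13 ≤ n) (heven : Even n) (Q : (Fin n → F) → F) (hQ : Cfsg.Geo.IsNondegenerateQuadraticForm Q) (hplus : Cfsg.Geo.IsPlusTypeOn Q ⊤) (k : ℕ) (hk : 2 * k = n) (hko : Odd k) (D : Fin 2 → Submodule F (Fin n → F)) (hD : Cfsg.Geo.IsMDecomposition k D) (hts : ∀ i, Cfsg.Geo.IsTotallySingularQuad Q (D i)) : ∃ K : Subgroup (Matrix.GeneralLinearGroup (Fin n) F), Cfsg.Geo.decompositionStabilizer D ⊓ Cfsg.Geo.omegaGL Q < K ∧ K < Cfsg.Geo.omegaGL Q := by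
  have hd := hD.finrank_eq
  have hn' : 5 ≤ Fintype.card (Fin n) := by rw [Fintype.card_fin]; omega
  have hU : ∀ i, CfsgLib.OrthGeo.IsMaxTS Q (D i) := fun i => ⟨hts i, by rw [hd, Fintype.card_fin, hk]⟩
  have hinf : D 0 ⊓ D 1 = ⊥ := disjoint_iff.1 (hD.indep.pairwiseDisjoint (show (0 : Fin 2) ≠ 1 by decide))
  have hne : D 1 ≠ D 0 := by
    intro h
    rw [h, inf_idem] at hinf
    have := hd 0
    rw [hinf, finrank_bot] at this
    omega
  -- Eichler elements of two independent vectors of one member fix it and move the other member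
  have hmove : ∀ i j : Fin 2, i ≠ j → ∃ g ∈ Cfsg.Geo.omegaGL Q,
      CfsgLib.OrthGeo.imgSub g (D i) = D i ∧ CfsgLib.OrthGeo.imgSub g (D j) ≠ D j := by
    intro i j hij
    have hbot : D i ⊓ D j = ⊥ := disjoint_iff.1 (hD.indep.pairwiseDisjoint hij)
    obtain ⟨u, huD, hu0⟩ := Submodule.exists_mem_ne_zero_of_ne_bot (p := D i) (by
      intro h; have := hd i; rw [h, finrank_bot] at this; omega)
    obtain ⟨x, hxD, hxu⟩ : ∃ x ∈ D i, x ∉ Submodule.span F {u} := by
      by_contra h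
      push Not at h
      have := Submodule.finrank_mono (show D i ≤ Submodule.span F {u} from h)
      rw [hd, finrank_span_singleton hu0] at this
      omega
    have hux : CfsgLib.OrthGeo.bform hQ u x = 0 := (hU i).b_eq_zero hQ huD hxD
    obtain ⟨z, hzD, hz⟩ : ∃ z ∈ D j, CfsgLib.OrthGeo.bform hQ z u ≠ 0 := by
      refine CfsgLib.OrthGeo.exists_mem_b_ne_zero hQ fun h => hu0 ?_
      rw [(hU j).perp_eq hQ] at h
      exact (Submodule.mem_bot F).1 (hbot ▸ ⟨huD, h⟩)
    refine ⟨_, CfsgLib.OrthGeo.eichler_mem_omega hQ hn' (hts i u huD) hux, ?_, fun h => ?_⟩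
    · refine Submodule.eq_of_le_of_finrank_le ?_ (by rw [CfsgLib.OrthGeo.finrank_imgSub])
      rintro _ ⟨y, hy, rfl⟩
      rw [Matrix.toLin'_apply, CfsgLib.OrthGeo.eichler_fix hQ _ _ ((hU i).b_eq_zero hQ huD hy)
        ((hU i).b_eq_zero hQ hxD hy)]
      exact hy
    · have hmem : (CfsgLib.OrthGeo.eichler hQ (hts i u huD) hux : Matrix (Fin n) (Fin n) F).mulVec z ∈ D j :=
        h ▸ CfsgLib.OrthGeo.mem_imgSub.2 ⟨z, hzD, rfl⟩
      set c := CfsgLib.OrthGeo.bform hQ x z - Q x * CfsgLib.OrthGeo.bform hQ u z with hc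
      have hw : c • u - CfsgLib.OrthGeo.bform hQ u z • x ∈ D i ⊓ D j := by
        refine ⟨(D i).sub_mem ((D i).smul_mem _ huD) ((D i).smul_mem _ hxD), ?_⟩
        have := (D j).sub_mem hmem hzD
        rw [CfsgLib.OrthGeo.eichler_mulVec hQ] at this
        rw [show c • u - CfsgLib.OrthGeo.bform hQ u z • x = z + CfsgLib.OrthGeo.bform hQ x z • u -
          CfsgLib.OrthGeo.bform hQ u z • x - (Q x * CfsgLib.OrthGeo.bform hQ u z) • u - z by rw [hc]; module]
        exact this
      rw [hbot, Submodule.mem_bot, sub_eq_zero] at hw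
      refine hxu (Submodule.mem_span_singleton.2 ⟨(CfsgLib.OrthGeo.bform hQ u z)⁻¹ * c, ?_⟩)
      rw [CfsgLib.OrthGeo.b_symm hQ] at hz
      rw [mul_smul, hw, inv_smul_smul₀ hz]
  refine ⟨Cfsg.Geo.subspaceStabilizer (D 0) ⊓ Cfsg.Geo.omegaGL Q, lt_of_le_not_ge ?_ ?_,
    lt_of_le_not_ge inf_le_right ?_⟩
  · rintro g ⟨⟨σ, hσ⟩, hg⟩
    refine ⟨?_, hg⟩
    have hσ0 : σ 0 = 0 := by
      by_contra h
      have h1 : σ 0 = 1 := by omega
      have h2 : CfsgLib.OrthGeo.imgSub g (D 0) = D 1 := h1 ▸ hσ 0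
      have h3 := CfsgLib.OrthGeo.omega_preserves_class hQ (hU 0) hg
      rw [h2, hinf, finrank_bot, add_zero, hd] at h3
      exact Nat.not_even_iff_odd.2 hko h3
    refine CfsgLib.OrthGeo.mem_subspaceStabilizer_of_le fun v hv => ?_
    have h2 : CfsgLib.OrthGeo.imgSub g (D 0) = D 0 := by
      have := hσ 0
      rwa [hσ0] at this
    exact h2 ▸ CfsgLib.OrthGeo.mem_imgSub.2 ⟨v, hv, rfl⟩
  · intro hle
    obtain ⟨g, hg, h0, h1⟩ := hmove 0 1 (by decide)
    have hmem : g ∈ Cfsg.Geo.subspaceStabilizer (D 0) ⊓ Cfsg.Geo.omegaGL Q :=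
      ⟨CfsgLib.OrthGeo.mem_subspaceStabilizer_of_le fun v hv => h0 ▸ CfsgLib.OrthGeo.mem_imgSub.2 ⟨v, hv, rfl⟩, hg⟩
    obtain ⟨σ, hσ⟩ := (hle hmem).1
    have hσ1 : σ 1 = 1 := by
      by_contra h
      have h2 : σ 1 = 0 := by omega
      have h3 : σ 0 ≠ σ 1 := σ.injective.ne (by decide)
      have h4 : σ 0 = 1 := by omega
      have h5 : CfsgLib.OrthGeo.imgSub g (D 0) = D 1 := h4 ▸ hσ 0
      exact hne (h5.symm.trans h0)
    refine h1 ?_
    have := hσ 1
    rwa [hσ1] at this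
  · intro hle
    obtain ⟨g, hg, -, h0⟩ := hmove 1 0 (by decide)
    refine h0 (Submodule.eq_of_le_of_finrank_le ?_ (by rw [CfsgLib.OrthGeo.finrank_imgSub]))
    rintro _ ⟨v, hv, rfl⟩
    rw [Matrix.toLin'_apply]
    exact ((hle hg).1 v).1 hv

end Cfsg.Agent.S5698
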