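import Cfsg.Statements.S5699
import Cfsg.Agent.Eq.Def_ClassicalGeometry
import Cfsg.Agent.OrthGeo.NondegHalves
import Cfsg.Agent.OrthGeo.Parity
-- import your own Cfsg.Agent.* helpers here

set_option autoImplicit false
open Cfsg

namespace Cfsg.Agent.S5699

/-- Let F be a finite field with q elements, n ≥ 13 even, Q a non-degenerate quadratic form on F^n (of either type), and Ω the commutator subgroup of the isometry group of Q, viewed inside GL_n(F). Let D be a decomposition of F^n into two orthogonal subspaces of odd dimension n/2 on which the polar form is non-degenerate and which are not Q-isometric to each other. Then the elements of Ω permuting (necessarily fixing) the two subspaces form a maximal subgroup of Ω. -/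
theorem result {F : Type*} [Field F] [Fintype F] {n : ℕ} (hn : 13 ≤ n) (heven : Even n) (Q : (Fin n → F) → F) (hQ : Cfsg.Geo.IsNondegenerateQuadraticForm Q) (k : ℕ) (hk : 2 * k = n) (hko : Odd k) (D : Fin 2 → Submodule F (Fin n → F)) (hD : Cfsg.Geo.IsNondegenerateMDecomposition (QuadraticMap.polar Q) k D) (hni : ¬ Cfsg.Geo.AreIsometricFor Q (D 0) (D 1)) : Cfsg.Geo.IsMaximalIn (Cfsg.Geo.omegaGL Q) (Cfsg.Geo.decompositionStabilizer D ⊓ Cfsg.Geo.omegaGL Q) := by
  have hd := hD.decomp.finrank_eq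
  have hcard : Fintype.card (Fin n) = n := Fintype.card_fin n
  have hperp : CfsgLib.OrthGeo.perp hQ (D 0) = D 1 := by
    refine (Submodule.eq_of_le_of_finrank_le (show D 1 ≤ CfsgLib.OrthGeo.perp hQ (D 0) from fun y hy x hx => hD.orthogonal 0 1 (by decide) x hx y hy) ?_).symm
    have := CfsgLib.OrthGeo.finrank_perp_add hQ (D 0)
    rw [hd] at this ⊢
    omega
  have hW : ∀ x ∈ D 0, x ∈ CfsgLib.OrthGeo.perp hQ (D 0) → x = 0 := fun x hx hx' => by
    by_contra h0
    obtain ⟨⟨y, hy, hyx⟩, -⟩ := hD.nondegenerate 0 x hx h0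
    exact hyx (hx' y hy)
  have hmap : ∀ (g : Matrix.GeneralLinearGroup (Fin n) F) (i j : Fin 2),
      (∀ x ∈ D i, (g : Matrix (Fin n) (Fin n) F).mulVec x ∈ D j) →
        (D i).map (Matrix.toLin' (g : Matrix (Fin n) (Fin n) F)) = D j := by
    refine fun g i j h => Submodule.eq_of_le_of_finrank_le ?_ (by
      rw [(Submodule.equivMapOfInjective _ (CfsgLib.OrthGeo.toLin'_injective g) _).finrank_eq.symm, hd, hd])
    rintro _ ⟨x, hx, rfl⟩
    rw [Matrix.toLin'_apply]
    exact h x hx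
  have hswap : ∀ g ∈ Cfsg.Geo.omegaGL Q, ∃ x ∈ D 0,
      (g : Matrix (Fin n) (Fin n) F).mulVec x ∉ CfsgLib.OrthGeo.perp hQ (D 0) := by
    intro g hg
    by_contra h
    push Not at h
    rw [hperp] at h
    refine hni ⟨(Submodule.equivMapOfInjective _ (CfsgLib.OrthGeo.toLin'_injective g) (D 0)).trans
      (LinearEquiv.ofEq _ _ (hmap g 0 1 h)), fun w => ?_⟩
    rw [LinearEquiv.trans_apply, LinearEquiv.coe_ofEq_apply, Submodule.coe_equivMapOfInjective_apply,
      Matrix.toLin'_apply]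
    exact CfsgLib.OrthGeo.mem_isometryGroup.1 (CfsgLib.OrthGeo.omegaGL_le hg) w
  have key : Cfsg.Geo.decompositionStabilizer D ⊓ Cfsg.Geo.omegaGL Q =
      Cfsg.Geo.subspaceStabilizer (D 0) ⊓ Cfsg.Geo.omegaGL Q := by
    refine le_antisymm ?_ ?_
    · rintro g ⟨⟨σ, hσ⟩, hg⟩
      refine ⟨?_, hg⟩
      obtain ⟨x, hx, hxn⟩ := hswap g hg
      have hσ0 : σ 0 = 0 := by
        by_contra h
        have h1 : σ 0 = 1 := by omega
        refine hxn ?_
        rw [hperp, ← h1, ← hσ 0]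
        exact ⟨x, hx, Matrix.toLin'_apply _ x⟩
      refine CfsgLib.OrthGeo.mem_subspaceStabilizer_of_le fun v hv => ?_
      conv => arg 1; rw [← hσ0, ← hσ 0]
      exact ⟨v, hv, Matrix.toLin'_apply _ v⟩
    · rintro g ⟨hg0, hg⟩
      refine ⟨⟨1, Fin.forall_fin_two.2 ⟨hmap g 0 0 fun x hx => (CfsgLib.OrthGeo.mem_subspaceStabilizer.1 hg0 x).1 hx,
        hmap g 1 1 fun x hx => ?_⟩⟩, hg⟩
      rw [← hperp] at hx ⊢
      intro y hy
      obtain ⟨z, rfl⟩ : ∃ z, y = (g : Matrix (Fin n) (Fin n) F).mulVec z :=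
        ⟨_, (CfsgLib.OrthGeo.mulVec_inv_cancel g y).symm⟩
      rw [CfsgLib.OrthGeo.isometry_b hQ (CfsgLib.OrthGeo.omegaGL_le hg)]
      exact hx z ((CfsgLib.OrthGeo.mem_subspaceStabilizer.1 hg0 z).2 hy)
  rw [key]
  exact CfsgLib.OrthGeo.nondeg_stabilizer_isMaximal hQ hW (by rw [hd]; omega) (by rw [hperp, hd]; omega) hswap

end Cfsg.Agent.S5699
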