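import Cfsg.Statements.S5700
import Cfsg.Agent.Eq.Def_ClassicalGeometry
import Cfsg.Agent.OrthGeo.UnitaryOverfield
-- import your own Cfsg.Agent.* helpers here

set_option autoImplicit false
open Cfsg
open scoped Matrix

namespace Cfsg.Agent.S5700

/-- Let F be a finite field with q elements, n ≥ 13 even, Q a non-degenerate quadratic form on F^n (of either type), and Ω the commutator subgroup of the isometry group of Q, viewed inside GL_n(F). Let K be a subfield of the algebra of n × n matrices over F containing the scalars, of degree 2 over F, closed under adjoints for the polar form of Q but not consisting of self-adjoint elements, and such that every k in K rescales Q (Q(k v) = c Q(v) for a constant c depending on k). Then the elements of Ω normalising K form a maximal subgroup of Ω. -/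
theorem result {F : Type*} [Field F] [Fintype F] {n : ℕ} (hn : 13 ≤ n) (heven : Even n) (Q : (Fin n → F) → F) (hQ : Cfsg.Geo.IsNondegenerateQuadraticForm Q) (K : Subalgebra F (Matrix (Fin n) (Fin n) F)) (hK : Cfsg.Geo.IsFieldSubalgebra 2 K) (hac : Cfsg.Geo.IsAdjointClosedFor (QuadraticMap.polar Q) K) (hnsa : ¬ Cfsg.Geo.IsSelfAdjointFor (QuadraticMap.polar Q) K) (hsc : ∀ k ∈ K, ∃ c : F, ∀ v : (Fin n → F), Q (Matrix.mulVec k v) = c * Q v) : Cfsg.Geo.IsMaximalIn (Cfsg.Geo.omegaGL Q) (Cfsg.Geo.subalgebraNormalizer K ⊓ Cfsg.Geo.omegaGL Q) := by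
  have hcard : Fintype.card (Fin n) = n := Fintype.card_fin n
  have hne : (1 : Matrix (Fin n) (Fin n) F) ≠ 0 := by
    intro h
    have := congrFun (congrFun h ⟨0, by omega⟩) ⟨0, by omega⟩
    simp at this
  obtain ⟨J, hJK, hJns⟩ : ∃ J ∈ K, ∀ t : F, J ≠ t • (1 : Matrix (Fin n) (Fin n) F) := by
    by_contra h
    push Not at h
    have hle : (Subalgebra.toSubmodule K) ≤ Submodule.span F {(1 : Matrix (Fin n) (Fin n) F)} := fun k hk => by
      obtain ⟨t, rfl⟩ := h k hk
      exact Submodule.smul_mem _ t (Submodule.mem_span_singleton_self 1)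
    have h1 := Submodule.finrank_mono hle
    rw [finrank_span_singleton hne, show Module.finrank F (Subalgebra.toSubmodule K) = 2 from hK.finrank_eq] at h1
    omega
  have hli : LinearIndependent F ![(⟨1, K.one_mem⟩ : K), ⟨J, hJK⟩] := by
    refine LinearIndependent.pair_iff.2 fun r t h => ?_
    have h' : r • (1 : Matrix (Fin n) (Fin n) F) + t • J = 0 := congrArg Subtype.val h
    by_cases ht : t = 0
    · rw [ht, zero_smul, add_zero, smul_eq_zero] at h'
      exact ⟨h'.resolve_right hne, ht⟩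
    · refine absurd ?_ (hJns (-(t⁻¹ * r)))
      rw [neg_smul, ← smul_smul, eq_neg_of_add_eq_zero_left h', smul_neg, neg_neg, inv_smul_smul₀ ht]
  have hgen : ∀ k ∈ K, ∃ r t : F, k = r • (1 : Matrix (Fin n) (Fin n) F) + t • J := by
    intro k hk
    have hspan := hli.span_eq_top_of_card_eq_finrank (by simp [hK.finrank_eq])
    obtain ⟨c, hc⟩ := (Submodule.mem_span_range_iff_exists_fun F).1
      (hspan ▸ Submodule.mem_top : (⟨k, hk⟩ : K) ∈ Submodule.span F (Set.range ![(⟨1, K.one_mem⟩ : K), ⟨J, hJK⟩]))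
    refine ⟨c 0, c 1, ?_⟩
    have := congrArg Subtype.val hc
    simpa [Fin.sum_univ_two] using this.symm
  have hcoef : ∀ r t : F, r • (1 : Matrix (Fin n) (Fin n) F) + t • J = 0 → r = 0 ∧ t = 0 := by
    intro r t h
    exact LinearIndependent.pair_iff.1 hli r t (Subtype.ext h)
  obtain ⟨β, α, hsq⟩ := hgen (J * J) (K.mul_mem hJK hJK)
  have hsqv : ∀ v, J *ᵥ (J *ᵥ v) = α • (J *ᵥ v) + β • v := fun v => by
    rw [Matrix.mulVec_mulVec, hsq, Matrix.add_mulVec, Matrix.smul_mulVec, Matrix.smul_mulVec, Matrix.one_mulVec,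
      add_comm]
  have hirr : ∀ t : F, t * t ≠ α * t + β := by
    intro t ht
    have hmem : J - t • (1 : Matrix (Fin n) (Fin n) F) ∈ K := K.sub_mem hJK (K.smul_mem K.one_mem t)
    have hne' : J - t • (1 : Matrix (Fin n) (Fin n) F) ≠ 0 := sub_ne_zero.2 (hJns t)
    obtain ⟨y, hy, hxy⟩ := hK.inv _ hmem hne'
    have hprod : (J - t • (1 : Matrix (Fin n) (Fin n) F)) * (J - (α - t) • (1 : Matrix (Fin n) (Fin n) F)) = 0 := by
      rw [sub_mul, mul_sub, mul_sub, hsq, mul_smul_comm, mul_one, smul_mul_assoc, one_mul, smul_mul_assoc, one_mul,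
        smul_smul, show t * (α - t) = -β by linear_combination -ht]
      module
    apply hJns (α - t)
    have h2 := congrArg (fun M => y * M) hprod
    simp only [mul_zero, ← mul_assoc, hK.comm y hy _ hmem, hxy, one_mul] at h2
    exact sub_eq_zero.1 h2
  have hB : ∀ x y : Fin n → F, CfsgLib.OrthGeo.bform hQ x y = QuadraticMap.polar Q x y := fun x y => rfl
  -- a pairing
  obtain ⟨x0, hx0⟩ : ∃ x : Fin n → F, x ≠ 0 := ⟨Pi.single ⟨0, by omega⟩ 1, by simp⟩
  obtain ⟨-, y0, hxy0⟩ := hQ.nondegenerate x0 hx0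
  have hsep : ∀ r t : F, (∀ x y, r * CfsgLib.OrthGeo.bform hQ x y + t * CfsgLib.OrthGeo.bform hQ x (J *ᵥ y) = 0) →
      r = 0 ∧ t = 0 := by
    intro r t h
    refine hcoef r t (Matrix.ext_of_mulVec_single fun i => ?_)
    rw [Matrix.zero_mulVec, Matrix.add_mulVec, Matrix.smul_mulVec, Matrix.smul_mulVec, Matrix.one_mulVec]
    refine (CfsgLib.OrthGeo.b_nondeg hQ).2 _ fun x => ?_
    rw [map_add, map_smul, map_smul, smul_eq_mul, smul_eq_mul]
    exact h x _
  obtain ⟨J', hJ'K, hJ'⟩ := hac J hJK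
  obtain ⟨a, b, rfl⟩ := hgen J' hJ'K
  have hadj0 : ∀ x y, CfsgLib.OrthGeo.bform hQ (J *ᵥ x) y =
      a * CfsgLib.OrthGeo.bform hQ x y + b * CfsgLib.OrthGeo.bform hQ x (J *ᵥ y) := by
    intro x y
    rw [hB (J *ᵥ x) y, hJ' x y, ← hB, Matrix.add_mulVec, Matrix.smul_mulVec, Matrix.smul_mulVec, Matrix.one_mulVec,
      map_add, map_smul, map_smul, smul_eq_mul, smul_eq_mul]
  obtain ⟨hab1, hb2⟩ := hsep (a * (1 + b)) (b * b - 1) fun x y => by
    have h1 := hadj0 y x
    rw [CfsgLib.OrthGeo.b_symm hQ (J *ᵥ y) x, CfsgLib.OrthGeo.b_symm hQ y (J *ᵥ x), hadj0 x y,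
      CfsgLib.OrthGeo.b_symm hQ y x] at h1
    linear_combination -h1
  obtain ⟨ha2, hab2⟩ := hsep (a * a - α * a) (2 * a * b + α - α * b) fun x y => by
    have h1 := hadj0 (J *ᵥ x) y
    rw [hsqv, map_add, map_smul, map_smul, LinearMap.add_apply, LinearMap.smul_apply, LinearMap.smul_apply,
      hadj0, hadj0 x (J *ᵥ y), hsqv, map_add, map_smul, map_smul] at h1
    simp only [smul_eq_mul] at h1
    linear_combination -h1 - (α * CfsgLib.OrthGeo.bform hQ x (J *ᵥ y) + β * CfsgLib.OrthGeo.bform hQ x y) * hb2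
  obtain ⟨rfl, rfl⟩ : a = α ∧ b = -1 := by
    rcases mul_self_eq_one_iff.1 (sub_eq_zero.1 hb2) with rfl | rfl
    · have ha : a ≠ 0 := by
        intro ha
        apply hnsa
        intro k hk u v
        obtain ⟨r, t, rfl⟩ := hgen k hk
        rw [← hB, ← hB]
        simp only [Matrix.add_mulVec, Matrix.smul_mulVec, Matrix.one_mulVec, map_add, map_smul, LinearMap.add_apply,
          LinearMap.smul_apply, smul_eq_mul, hadj0, ha]
        ring
      have h2 : (2 : F) = 0 := (mul_eq_zero.1 (show (2 : F) * a = 0 by linear_combination hab2)).resolve_right ha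
      exact ⟨mul_left_cancel₀ ha (by linear_combination ha2), by linear_combination h2⟩
    · refine ⟨?_, rfl⟩
      by_cases h2 : (2 : F) = 0
      · have h1 : (1 : F) = -1 := by linear_combination h2
        have ha : a ≠ 0 := by
          intro ha
          apply hnsa
          intro k hk u v
          obtain ⟨r, t, rfl⟩ := hgen k hk
          rw [← hB, ← hB]
          simp only [Matrix.add_mulVec, Matrix.smul_mulVec, Matrix.one_mulVec, map_add, map_smul, LinearMap.add_apply,
            LinearMap.smul_apply, smul_eq_mul, hadj0, ha, ← h1]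
          ring
        exact mul_left_cancel₀ ha (by linear_combination ha2)
      · exact mul_left_cancel₀ h2 (by linear_combination -hab2)
  have hadj : ∀ x y, CfsgLib.OrthGeo.bform hQ (J *ᵥ x) y =
      a * CfsgLib.OrthGeo.bform hQ x y - CfsgLib.OrthGeo.bform hQ x (J *ᵥ y) := fun x y => by
    rw [hadj0]; ring
  obtain ⟨c, hc⟩ := hsc J hJK
  have hcB : ∀ x y, CfsgLib.OrthGeo.bform hQ (J *ᵥ x) (J *ᵥ y) = c * CfsgLib.OrthGeo.bform hQ x y := fun x y => by
    rw [hB, hB]
    simp only [QuadraticMap.polar, ← Matrix.mulVec_add, hc]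
    ring
  have hcβ : c = -β := by
    have := (hsep (c + β) 0 fun x y => by
      have h1 := hcB x y
      rw [hadj, hsqv, map_add, map_smul, map_smul, smul_eq_mul, smul_eq_mul] at h1
      linear_combination -h1).1
    linear_combination this
  subst hcβ
  obtain ⟨c', hc'⟩ := hsc (1 + J) (K.add_mem K.one_mem hJK)
  have hbJ0 : ∀ x, CfsgLib.OrthGeo.bform hQ x (J *ᵥ x) = (c' - 1 + β) * Q x := fun x => by
    have h1 := hc' x
    rw [Matrix.add_mulVec, Matrix.one_mulVec, CfsgLib.OrthGeo.q_add hQ, hc] at h1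
    linear_combination h1
  have hγ : c' - 1 + β = a := by
    have := (hsep (c' - 1 + β - a) 0 fun x y => by
      have h1 := hbJ0 (x + y)
      rw [Matrix.mulVec_add, map_add, map_add, LinearMap.add_apply, LinearMap.add_apply, hbJ0, hbJ0,
        CfsgLib.OrthGeo.q_add hQ, CfsgLib.OrthGeo.b_symm hQ y (J *ᵥ x), hadj] at h1
      linear_combination -h1).1
    linear_combination this
  have hS : CfsgLib.OrthGeo.KStr hQ J a β := ⟨hsqv, hirr, hadj, hc, fun x => by rw [hbJ0, hγ]⟩
  refine CfsgLib.OrthGeo.unitaryOverfield_isMaximal hS (by rw [hcard]; omega) _ fun g => ?_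
  constructor
  · rintro ⟨hg, hgΩ⟩
    refine ⟨hgΩ, ?_⟩
    have hmem : ((g⁻¹ : Matrix.GeneralLinearGroup (Fin n) F) : Matrix (Fin n) (Fin n) F) * J *
        (g : Matrix (Fin n) (Fin n) F) ∈ K := by
      refine (hg _).2 ?_
      simpa [← mul_assoc, mul_assoc _ (g : Matrix (Fin n) (Fin n) F)] using hJK
    obtain ⟨r, t, e⟩ := hgen _ hmem
    refine ⟨r, t, fun ht => hJns r ?_, e⟩
    rw [ht, zero_smul, add_zero] at e
    have h1 := congrArg (fun M => (g : Matrix (Fin n) (Fin n) F) * M *
      ((g⁻¹ : Matrix.GeneralLinearGroup (Fin n) F) : Matrix (Fin n) (Fin n) F)) e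
    simp only [← mul_assoc, Units.mul_inv, one_mul, mul_smul_comm, mul_one, smul_mul_assoc] at h1
    simpa [mul_assoc] using h1
  · rintro ⟨hgΩ, r, t, ht, e⟩
    refine ⟨?_, hgΩ⟩
    set G := (g : Matrix (Fin n) (Fin n) F) with hG
    set Gi := ((g⁻¹ : Matrix.GeneralLinearGroup (Fin n) F) : Matrix (Fin n) (Fin n) F) with hGi
    have h1 : G * Gi = 1 := Units.mul_inv g
    have h2 : Gi * G = 1 := Units.inv_mul g
    have e' : G * J * Gi = t⁻¹ • J + (-(t⁻¹ * r)) • (1 : Matrix (Fin n) (Fin n) F) := by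
      have h3 : J = r • (1 : Matrix (Fin n) (Fin n) F) + t • (G * J * Gi) := by
        calc J = G * (Gi * J * G) * Gi := by simp [← mul_assoc, h1, mul_assoc _ G]
          _ = _ := by rw [e]; simp [mul_add, add_mul, h1]
      conv_rhs => arg 1; rw [h3]
      rw [smul_add, smul_smul, smul_smul, inv_mul_cancel₀ ht, one_smul]
      module
    intro k
    constructor
    · intro hk
      obtain ⟨p, p', rfl⟩ := hgen k hk
      show G * _ * Gi ∈ K
      rw [mul_add, add_mul, mul_smul_comm, mul_smul_comm, smul_mul_assoc, smul_mul_assoc, mul_one, h1, e']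
      exact K.add_mem (K.smul_mem K.one_mem _) (K.smul_mem (K.add_mem (K.smul_mem hJK _) (K.smul_mem K.one_mem _)) _)
    · intro hk
      change G * k * Gi ∈ K at hk
      obtain ⟨p, p', hk'⟩ := hgen _ hk
      have : k = Gi * (G * k * Gi) * G := by simp [← mul_assoc, h2, mul_assoc _ Gi]
      rw [this, hk', mul_add, add_mul, mul_smul_comm, mul_smul_comm, smul_mul_assoc, smul_mul_assoc, mul_one, h2, e]
      exact K.add_mem (K.smul_mem K.one_mem _) (K.smul_mem (K.add_mem (K.smul_mem K.one_mem _) (K.smul_mem hJK _)) _)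

end Cfsg.Agent.S5700
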