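import Cfsg.Statements.S5775
import Cfsg.Agent.AschLinear.PrimeCases
import Cfsg.Agent.AschLinear.SmallField

set_option autoImplicit false
open Cfsg

namespace Cfsg.Agent.S5775

/-- Every maximal subgroup of SL_3(q) is of one of the listed geometric types or lies in the residual class. Let F be a finite field with q elements and H a maximal subgroup of SL_3(F) (viewed inside GL_3(F)). Then H is the intersection with SL_3(F) of one of: the stabiliser of a proper non-zero subspace; for q ≥ 5, the stabiliser of a decomposition of F^3 into three independent lines; for q ≠ 4, the normaliser of a degree-3 subfield of the matrix algebra; a subfield group for a subfield F₀ with |F| = |F₀|^r, r prime; for q = p ≡ 1 mod 3 prime, the normaliser of an absolutely irreducible 3-subgroup R of exponent 3 with centre of order 3, all of whose characteristic abelian subgroups are cyclic, of order 3^(1+2m) for some m ≥ 1, with F the smallest field of characteristic p containing the cube roots of unity (so R is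 extraspecial of order 27); for q odd, the similarity group of a non-degenerate quadratic form; the similarity group of a non-degenerate unitary form — or else H lies in the residual class of the linear case (modulo scalars H is almost simple, with absolutely irreducible perfect socle preimage realisable over no proper subfield and fixing no non-degenerate quadratic, symplectic or unitary form). -/
theorem result {F : Type*} [Field F] [Fintype F] (H : Subgroup (Matrix.GeneralLinearGroup (Fin 3) F)) (hH : Cfsg.Geo.IsMaximalIn (Cfsg.Geo.specialLinear (Fin 3) F) H) :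
    (∃ W : Submodule F (Fin 3 → F), W ≠ ⊥ ∧ W ≠ ⊤ ∧ H = Cfsg.Geo.subspaceStabilizer W ⊓ Cfsg.Geo.specialLinear (Fin 3) F) ∨
    (5 ≤ Fintype.card F ∧ ∃ D : Fin 3 → Submodule F (Fin 3 → F), Cfsg.Geo.IsMDecomposition 1 D ∧ H = Cfsg.Geo.decompositionStabilizer D ⊓ Cfsg.Geo.specialLinear (Fin 3) F) ∨
    (Fintype.card F ≠ 4 ∧ ∃ K : Subalgebra F (Matrix (Fin 3) (Fin 3) F), Cfsg.Geo.IsFieldSubalgebra 3 K ∧ H = Cfsg.Geo.subalgebraNormalizer K ⊓ Cfsg.Geo.specialLinear (Fin 3) F) ∨
    (∃ (F₀ : Subfield F) (r : ℕ) (P : Matrix.GeneralLinearGroup (Fin 3) F), r.Prime ∧ Fintype.card F = Nat.card F₀ ^ r ∧ H = Cfsg.Geo.subfieldSubgroup F₀ P ⊓ Cfsg.Geo.specialLinear (Fin 3) F) ∨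
    (∃ (p : ℕ) (R : Subgroup (Matrix.GeneralLinearGroup (Fin 3) F)), p.Prime ∧ Fintype.card F = p ∧ p % 3 = 1 ∧ Cfsg.Geo.IsLinearSymplecticTypeData 3 R ∧ H = Cfsg.Geo.subgroupNormalizer R ⊓ Cfsg.Geo.specialLinear (Fin 3) F) ∨
    (Odd (Fintype.card F) ∧ ∃ Q : (Fin 3 → F) → F, Cfsg.Geo.IsNondegenerateQuadraticForm Q ∧ H = Cfsg.Geo.quadSimilarityGroup Q ⊓ Cfsg.Geo.specialLinear (Fin 3) F) ∨
    (∃ (σ : F ≃+* F) (f : (Fin 3 → F) → (Fin 3 → F) → F), Cfsg.Geo.IsUnitaryForm σ f ∧ H = Cfsg.Geo.similarityGroup f ⊓ Cfsg.Geo.specialLinear (Fin 3) F) ∨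
    Cfsg.Geo.InLinearResidualClass H := by
  rcases CfsgLib.AschLinear.prime_cases (by norm_num) (by decide) hH with
      h | h | ⟨K, hK, h⟩ | h | ⟨p, e, R, he, hmin, hR, h⟩ | h | h | h
  · exact Or.inl h
  · exact Or.inr <| Or.inl h
  · by_cases h4 : Fintype.card F = 4
    · obtain ⟨F₀, r, P, hr, hc, hne, hle⟩ :=
        CfsgLib.AschLinear.exists_subfieldSubgroup_of_normalizes h4 hK (h.le.trans inf_le_left)
          (h.le.trans inf_le_right)
      exact Or.inr <| Or.inr <| Or.inr <| Or.inl ⟨F₀, r, P, hr, hc,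
        CfsgLib.Aschbacher.maximalIn_eq_inf hH hle
          (CfsgLib.Aschbacher.not_le_subfieldSubgroup (by simp) hne P)⟩
    · exact Or.inr <| Or.inr <| Or.inl ⟨h4, K, hK, h⟩
  · exact Or.inr <| Or.inr <| Or.inr <| Or.inl h
  · have hp3 : 3 ≠ p := by
      rintro rfl
      have hdvd := hmin.2.2.2.1
      have h1 : 1 ≤ 3 ^ e := Nat.one_le_pow _ _ (by norm_num)
      have he0 : 3 ∣ 3 ^ e := dvd_pow_self 3 (by rintro rfl; exact absurd he (by decide))
      omega
    obtain ⟨he0, he3, hres, -⟩ := CfsgLib.AschLinear.residue_of_minimalField (by norm_num) hp3 hmin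
    obtain rfl : e = 1 := by obtain ⟨k, rfl⟩ := he; omega
    obtain ⟨hp, -, hcard, -, -⟩ := hmin
    refine Or.inr <| Or.inr <| Or.inr <| Or.inr <| Or.inl ⟨p, R, hp, by rwa [pow_one] at hcard, ?_, hR, h⟩
    rw [pow_one] at hres
    omega
  · exact Or.inr <| Or.inr <| Or.inr <| Or.inr <| Or.inr <| Or.inl h
  · exact Or.inr <| Or.inr <| Or.inr <| Or.inr <| Or.inr <| Or.inr <| Or.inl h
  · exact Or.inr <| Or.inr <| Or.inr <| Or.inr <| Or.inr <| Or.inr <| Or.inr h

end Cfsg.Agent.S5775
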