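import Cfsg.Statements.S5778
import Cfsg.Agent.AschPrime.UnitaryPrime
import Cfsg.Agent.AschPrime.ThreeFrame
import Cfsg.Agent.AschPrime.ThreeOrth
import Cfsg.Agent.AschPrime.ThreeSix
import Cfsg.Agent.AschPrime.ThreeFieldCert

set_option autoImplicit false
open Cfsg

namespace Cfsg.Agent.S5778

lemma odd_small {q : ℕ} (hodd : Odd q) (hq : 3 ≤ q) (h7 : q < 7) : q = 3 ∨ q = 5 := by
  obtain ⟨m, rfl⟩ := hodd
  omega

lemma six_arith {p k : ℕ} (hp : p.Prime) (hk : 0 < k) (hq : 3 ≤ p ^ k) (hmod : p ^ k % 3 = 3 - 1)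
    (hmin : ∀ e, 0 < e → e < 2 * k → p ^ e % 3 ≠ 1) : k = 1 ∧ p % 3 = 2 ∧ (p = 5 ∨ 11 ≤ p) := by
  have hr := Nat.mod_lt p (show 0 < 3 by norm_num)
  rw [Nat.pow_mod] at hmod
  obtain rfl : k = 1 := by
    by_contra hne
    have h2 := hmin 2 (by norm_num) (by omega)
    rw [Nat.pow_mod] at h2
    interval_cases hpr : p % 3
    · rw [zero_pow hk.ne'] at hmod; simp at hmod
    all_goals norm_num at h2
  rw [pow_one] at hq hmod
  refine ⟨rfl, by simpa using hmod, ?_⟩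
  by_contra h
  push Not at h
  obtain ⟨h5, h11⟩ := h
  interval_cases p <;> simp_all (config := { decide := true })

/-- Every maximal subgroup of SU_3(q), q ≥ 3, is of one of the listed geometric types or lies in the residual class. Let F be the field with q² elements, f the standard unitary form Σ u_i v_i^q on F^3, and H a maximal subgroup of SU_3(q) (the determinant-one isometries of f, inside GL_3(F)). Then H is the intersection with SU_3(q) of one of: the stabiliser of a non-zero subspace on which f vanishes; the stabiliser of a non-degenerate 1-space; for q ≠ 5, the stabiliser of a decomposition into three mutually orthogonal non-degenerate 1-spaces; for q ≠ 3, 5, the normaliser of an adjoint-closed degree-3 subfield of the matrix algebra; a subfield group of odd prime index whose F₀-structure carries f; for q odd, q ≥ 7, a subfield group of index 2 whose F₀-structure carries f; for q = p ≡ 2 mod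 3 prime with p ≥ 11, the normaliser of an absolutely irreducible subgroup of order 27 with centre of order 3, exponent 3 and all characteristic abelian subgroups cyclic, contained in the similarity group of f — or else H lies in the residual class of the unitary case. -/
theorem result {F : Type*} [Field F] [Fintype F] (q : ℕ) (hF : Fintype.card F = q ^ 2) (hq : 3 ≤ q) (H : Subgroup (Matrix.GeneralLinearGroup (Fin 3) F)) (hH : Cfsg.Geo.IsMaximalIn (Cfsg.GU 3 F q ⊓ Cfsg.Geo.specialLinear (Fin 3) F) H) :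
    (∃ W : Submodule F (Fin 3 → F), W ≠ ⊥ ∧ Cfsg.Geo.IsTotallySingularFor (Cfsg.hermForm 3 F q) W ∧ H = Cfsg.Geo.subspaceStabilizer W ⊓ (Cfsg.GU 3 F q ⊓ Cfsg.Geo.specialLinear (Fin 3) F)) ∨
    (∃ W : Submodule F (Fin 3 → F), W ≠ ⊥ ∧ Cfsg.Geo.IsNondegenerateOn (Cfsg.hermForm 3 F q) W ∧ 2 * Module.finrank F W < 3 ∧ H = Cfsg.Geo.subspaceStabilizer W ⊓ (Cfsg.GU 3 F q ⊓ Cfsg.Geo.specialLinear (Fin 3) F)) ∨
    (q ≠ 5 ∧ ∃ D : Fin 3 → Submodule F (Fin 3 → F), Cfsg.Geo.IsNondegenerateMDecomposition (Cfsg.hermForm 3 F q) 1 D ∧ H = Cfsg.Geo.decompositionStabilizer D ⊓ (Cfsg.GU 3 F q ⊓ Cfsg.Geo.specialLinear (Fin 3) F)) ∨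
    (q ≠ 3 ∧ q ≠ 5 ∧ ∃ K : Subalgebra F (Matrix (Fin 3) (Fin 3) F), Cfsg.Geo.IsFieldSubalgebra 3 K ∧ Cfsg.Geo.IsAdjointClosedFor (Cfsg.hermForm 3 F q) K ∧ H = Cfsg.Geo.subalgebraNormalizer K ⊓ (Cfsg.GU 3 F q ⊓ Cfsg.Geo.specialLinear (Fin 3) F)) ∨
    (∃ (F₀ : Subfield F) (r : ℕ) (P : Matrix.GeneralLinearGroup (Fin 3) F), r.Prime ∧ Odd r ∧ Fintype.card F = Nat.card F₀ ^ r ∧ Cfsg.Geo.IsFormRationalStructure (Cfsg.hermForm 3 F q) F₀ 1 P ∧ H = Cfsg.Geo.subfieldSubgroup F₀ P ⊓ (Cfsg.GU 3 F q ⊓ Cfsg.Geo.specialLinear (Fin 3) F)) ∨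
    (Odd q ∧ 7 ≤ q ∧ ∃ (F₀ : Subfield F) (P : Matrix.GeneralLinearGroup (Fin 3) F), Fintype.card F = Nat.card F₀ ^ 2 ∧ Cfsg.Geo.IsFormRationalStructure (Cfsg.hermForm 3 F q) F₀ 1 P ∧ H = Cfsg.Geo.subfieldSubgroup F₀ P ⊓ (Cfsg.GU 3 F q ⊓ Cfsg.Geo.specialLinear (Fin 3) F)) ∨
    (∃ (p : ℕ) (R : Subgroup (Matrix.GeneralLinearGroup (Fin 3) F)), p.Prime ∧ q = p ∧ p % 3 = 2 ∧ 11 ≤ p ∧ Cfsg.Geo.IsSymplecticTypeGroup 3 R ∧ Cfsg.Geo.ActsAbsolutelyIrreducibly (Cfsg.Geo.matrixSet R) ∧ R ≤ Cfsg.Geo.similarityGroup (Cfsg.hermForm 3 F q) ∧ Nat.card R = 27 ∧ Nat.card (Subgroup.center R) = 3 ∧ H = Cfsg.Geo.subgroupNormalizer R ⊓ (Cfsg.GU 3 F q ⊓ Cfsg.Geo.specialLinear (Fin 3) F)) ∨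
    Cfsg.Geo.InUnitaryResidualClass H := by
  rcases CfsgLib.AschPrime.prime_cases hF (n := 3) Nat.prime_three (by decide) le_rfl (Or.inl hq) hH with
    h | h | ⟨D, hD, hHD⟩ | ⟨K, hK, hadj, hHK⟩ | h | ⟨hodd, F₀, P, hc, hrat, hHP⟩ |
      ⟨p, k, R, hp, hchar, rfl, hk, hmod, hmin, h1, h2, h3, h4, h5, h6, hHN, h7⟩ | h
  · exact Or.inl h
  · exact Or.inr (Or.inl h)
  · refine Or.inr (Or.inr (Or.inl ⟨?_, D, hD, hHD⟩))
    rintro rfl
    exact CfsgLib.AschPrime.Three.frame_not_maximal hF hH hD hHD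
  · refine Or.inr (Or.inr (Or.inr (Or.inl ⟨?_, ?_, K, hK, hadj, hHK⟩)))
    · rintro rfl
      obtain ⟨R⟩ := CfsgLib.AschPrime.Three.exists_rep9 hF
      exact CfsgLib.AschPrime.Three.field_not_maximal CfsgLib.AschPrime.Three.cert9_valid R hH hK hadj hHK
    · rintro rfl
      obtain ⟨R⟩ := CfsgLib.AschPrime.Three.exists_rep25 hF
      exact CfsgLib.AschPrime.Three.field_not_maximal CfsgLib.AschPrime.Three.cert25_valid R hH hK hadj hHK
  · exact Or.inr (Or.inr (Or.inr (Or.inr (Or.inl h))))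
  · rcases Nat.lt_or_ge q 7 with h7 | h7
    · rcases odd_small hodd hq h7 with rfl | rfl
      · exact Or.inr (Or.inr (Or.inl ⟨by norm_num, CfsgLib.AschPrime.Three.subfield_le_frame hF hc hrat hH hHP⟩))
      · exact (CfsgLib.AschPrime.Three.subfield_not_maximal hF hc hrat hH hHP).elim
    · exact Or.inr (Or.inr (Or.inr (Or.inr (Or.inr (Or.inl ⟨hodd, h7, F₀, P, hc, hrat, hHP⟩)))))
  · obtain ⟨rfl, hp3, rfl | hp11⟩ := six_arith hp hk hq hmod hmin
    · exact (CfsgLib.AschPrime.Three.six_not_maximal (hF.trans (by norm_num)) (by rwa [pow_one] at hH) h1 h2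
        (by rwa [pow_one] at h3) h5 h6 hHN).elim
    · exact Or.inr (Or.inr (Or.inr (Or.inr (Or.inr (Or.inr (Or.inl
        ⟨p, R, hp, pow_one p, hp3, hp11, h1, h2, h4, h5, h6, h7 (Or.inr (by omega))⟩))))))
  · exact Or.inr (Or.inr (Or.inr (Or.inr (Or.inr (Or.inr (Or.inr h))))))

end Cfsg.Agent.S5778
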