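import Cfsg.Statements.S5781
import Cfsg.Agent.AschLinear.Dim4Cases

set_option autoImplicit false
open Cfsg

namespace Cfsg.Agent.S5781

/-- Every maximal subgroup of SL_4(q) is of one of the listed geometric types or lies in the residual class. Let F be a finite field with q elements and H a maximal subgroup of SL_4(F) (inside GL_4(F)). Then H is the intersection with SL_4(F) of one of: the stabiliser of a proper non-zero subspace; for q ≥ 7, the stabiliser of a decomposition into four independent lines; for q ≥ 4, the stabiliser of a decomposition into two independent planes; the normaliser of a degree-2 subfield of the matrix algebra; a subfield group for a subfield F₀ with |F| = |F₀|^r, r prime; for q = p ≡ 1 mod 4 prime, the normaliser of an absolutely irreducible 2-subgroup R of exponent 4 with centre of order 4, all of whose characteristic abelian subgroups are cyclic, of order 2^(2+2m) for some m (here |R| = 64), with 4 dividing p − 1; for q odd, the similarity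 group of a non-degenerate quadratic form; the similarity group of a non-degenerate symplectic form; the similarity group of a non-degenerate unitary form — or else H lies in the residual class of the linear case. -/
theorem result {F : Type*} [Field F] [Fintype F] (H : Subgroup (Matrix.GeneralLinearGroup (Fin 4) F)) (hH : Cfsg.Geo.IsMaximalIn (Cfsg.Geo.specialLinear (Fin 4) F) H) :
    (∃ W : Submodule F (Fin 4 → F), W ≠ ⊥ ∧ W ≠ ⊤ ∧ H = Cfsg.Geo.subspaceStabilizer W ⊓ Cfsg.Geo.specialLinear (Fin 4) F) ∨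
    (7 ≤ Fintype.card F ∧ ∃ D : Fin 4 → Submodule F (Fin 4 → F), Cfsg.Geo.IsMDecomposition 1 D ∧ H = Cfsg.Geo.decompositionStabilizer D ⊓ Cfsg.Geo.specialLinear (Fin 4) F) ∨
    (4 ≤ Fintype.card F ∧ ∃ D : Fin 2 → Submodule F (Fin 4 → F), Cfsg.Geo.IsMDecomposition 2 D ∧ H = Cfsg.Geo.decompositionStabilizer D ⊓ Cfsg.Geo.specialLinear (Fin 4) F) ∨
    (∃ K : Subalgebra F (Matrix (Fin 4) (Fin 4) F), Cfsg.Geo.IsFieldSubalgebra 2 K ∧ H = Cfsg.Geo.subalgebraNormalizer K ⊓ Cfsg.Geo.specialLinear (Fin 4) F) ∨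
    (∃ (F₀ : Subfield F) (r : ℕ) (P : Matrix.GeneralLinearGroup (Fin 4) F), r.Prime ∧ Fintype.card F = Nat.card F₀ ^ r ∧ H = Cfsg.Geo.subfieldSubgroup F₀ P ⊓ Cfsg.Geo.specialLinear (Fin 4) F) ∨
    (∃ (p : ℕ) (R : Subgroup (Matrix.GeneralLinearGroup (Fin 4) F)), p.Prime ∧ Fintype.card F = p ∧ p % 4 = 1 ∧ Cfsg.Geo.IsLinearSymplecticTypeData 2 R ∧ H = Cfsg.Geo.subgroupNormalizer R ⊓ Cfsg.Geo.specialLinear (Fin 4) F) ∨
    (Odd (Fintype.card F) ∧ ∃ Q : (Fin 4 → F) → F, Cfsg.Geo.IsNondegenerateQuadraticForm Q ∧ H = Cfsg.Geo.quadSimilarityGroup Q ⊓ Cfsg.Geo.specialLinear (Fin 4) F) ∨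
    (∃ f : (Fin 4 → F) → (Fin 4 → F) → F, Cfsg.Geo.IsSymplecticForm f ∧ H = Cfsg.Geo.similarityGroup f ⊓ Cfsg.Geo.specialLinear (Fin 4) F) ∨
    (∃ (σ : F ≃+* F) (f : (Fin 4 → F) → (Fin 4 → F) → F), Cfsg.Geo.IsUnitaryForm σ f ∧ H = Cfsg.Geo.similarityGroup f ⊓ Cfsg.Geo.specialLinear (Fin 4) F) ∨
    Cfsg.Geo.InLinearResidualClass H := by
  have hn : Fintype.card (Fin 4) = 4 := Fintype.card_fin 4
  have h3 : 3 ≤ Fintype.card (Fin 4) := by rw [hn]; norm_num
  have hHSL : H ≤ Cfsg.Geo.specialLinear (Fin 4) F := hH.1.le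
  have hT : CfsgLib.AschLinear.TwoTarget H → _ := CfsgLib.AschLinear.eq_of_twoTarget h3 hH
  suffices key : CfsgLib.AschLinear.TwoTarget H ∨ _ by
    rcases key with ht | key
    · rcases hT ht with h | h | h | h | h
      · exact Or.inr <| Or.inr <| Or.inr <| Or.inr <| Or.inl h
      · exact Or.inr <| Or.inr <| Or.inr <| Or.inr <| Or.inr <| Or.inl h
      · exact Or.inr <| Or.inr <| Or.inr <| Or.inr <| Or.inr <| Or.inr <| Or.inl h
      · exact Or.inr <| Or.inr <| Or.inr <| Or.inr <| Or.inr <| Or.inr <| Or.inr <| Or.inl h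
      · exact Or.inr <| Or.inr <| Or.inr <| Or.inr <| Or.inr <| Or.inr <| Or.inr <| Or.inr <| Or.inl h
    · exact key
  rcases CfsgLib.Aschbacher.linear_maximal_cases h3 hH with
      h | ⟨t, m, D, hD, htm, h1, h2, h⟩ | ⟨r, K, hr, hrd, hK, h⟩ |
      ⟨d, k, e, P, hd, hdk, hcard, -, hle, -⟩ | h | h | h | h | h | ⟨N, r, hN⟩ | ⟨d, S, hS⟩
  · exact Or.inr (Or.inl h)
  · have hstab : H ≤ Cfsg.Geo.decompositionStabilizer D := h.le.trans inf_le_left
    have ht := hD.two_le
    rw [hn] at htm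
    have hm := hD.pos
    have ht4 : t ≤ 4 := by nlinarith
    have hm2 : m ≤ 2 := by nlinarith
    interval_cases m
    · obtain rfl : t = 4 := by omega
      have hq5 := h1 rfl
      by_cases h7 : 7 ≤ Fintype.card F
      · exact Or.inr <| Or.inr <| Or.inl ⟨h7, D, hD, h⟩
      · obtain ⟨p, hpc⟩ := CharP.exists F
        obtain ⟨n, hp, hcardF⟩ := FiniteField.card F p
        have h5 : Fintype.card F = 5 := by
          by_contra hne
          have h6 : Fintype.card F = 6 := by omega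
          rw [h6] at hcardF
          have h2d : 2 ∣ p ^ (n : ℕ) := hcardF ▸ (by norm_num)
          have h3d : 3 ∣ p ^ (n : ℕ) := hcardF ▸ (by norm_num)
          have e2 := (Nat.prime_dvd_prime_iff_eq Nat.prime_two hp).1 (Nat.prime_two.dvd_of_dvd_pow h2d)
          have e3 := (Nat.prime_dvd_prime_iff_eq Nat.prime_three hp).1
            (Nat.prime_three.dvd_of_dvd_pow h3d)
          omega
        obtain ⟨b, hb⟩ := CfsgLib.AschLinear.exists_monomial_of_decomposition hn hD hstab
        exact Or.inl (CfsgLib.AschLinear.twoTarget_of_monomial_five h5 hn hb hHSL)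
    · obtain rfl : t = 2 := by omega
      by_cases h4 : 4 ≤ Fintype.card F
      · exact Or.inr <| Or.inr <| Or.inr <| Or.inl ⟨h4, D, hD, h⟩
      · obtain ⟨f, hf, hle⟩ :=
          CfsgLib.AschLinear.planes_small (show Fintype.card F ≤ 3 by omega) hn hD hstab hHSL
        exact Or.inl <| Or.inr <| Or.inr <| Or.inr <| Or.inl ⟨f, hf, hle⟩
  · have h4 : r ∣ 2 ^ 2 := by simpa using hrd
    obtain rfl := (Nat.prime_dvd_prime_iff_eq hr Nat.prime_two).1 (hr.dvd_of_dvd_pow h4)
    exact Or.inr <| Or.inr <| Or.inr <| Or.inr <| Or.inl ⟨K, hK, h⟩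
  · rw [hn] at hcard
    obtain rfl : d = 2 := by nlinarith
    obtain rfl : k = 2 := by omega
    exact Or.inl (CfsgLib.AschLinear.twoTarget_of_quad
      (CfsgLib.AschLinear.isNondegenerateQuadraticForm_detForm e P)
      (hle.trans (CfsgLib.AschLinear.tensor_le_quadSimilarityGroup e P)))
  · exact Or.inr <| Or.inr <| Or.inr <| Or.inr <| Or.inr <| Or.inl h
  · exact Or.inr <| Or.inr <| Or.inr <| Or.inr <| Or.inr <| Or.inr <| Or.inr <| Or.inl h
  · exact Or.inr <| Or.inr <| Or.inr <| Or.inr <| Or.inr <| Or.inr <| Or.inr <| Or.inr <| Or.inl h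
  · exact Or.inr <| Or.inr <| Or.inr <| Or.inr <| Or.inr <| Or.inr <| Or.inr <| Or.inr <| Or.inr <| Or.inl h
  · exact Or.inr <| Or.inr <| Or.inr <| Or.inr <| Or.inr <| Or.inr <| Or.inr <| Or.inr <| Or.inr <| Or.inr h
  · exact Or.inl (CfsgLib.AschLinear.twoTarget_of_abelianData hn hHSL hN)
  · obtain ⟨Q, hQ, hle⟩ := CfsgLib.AschLinear.le_quadSimilarity_of_commutingData hn hS
    exact Or.inl (CfsgLib.AschLinear.twoTarget_of_quad hQ hle)

end Cfsg.Agent.S5781
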