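import Cfsg.Statements.S5783
import Cfsg.Agent.UnitGeoSmall91.Types
import Cfsg.Agent.SUFour96.Point
import Cfsg.Agent.SUFour96.MonoMain
import Cfsg.Agent.SUFour96.PlanesMain
import Cfsg.Agent.SUFour96.IsoPlanes
import Cfsg.Agent.SUFour96.SubfieldOdd
import Cfsg.Agent.SUFour96.SympSub
import Cfsg.Agent.SUFour96.OrthTwist
import Cfsg.Agent.SUFour90.Extraspecial

set_option autoImplicit false
open Cfsg

namespace Cfsg.Agent.S5783

/-- Maximal subgroups of SU_4(q) of geometric type (any prime power q). Let F be the field with q² elements, f the standard unitary form Σ u_i v_i^q on F^4 and SU_4(q) its determinant-one isometry group inside GL_4(F). Each of the following, intersected with SU_4(q), is a maximal subgroup of SU_4(q): (1) the stabiliser of any non-zero subspace on which f vanishes identically (totally isotropic 1-spaces and 2-spaces); (2) the stabiliser of any non-degenerate 1-space; (3) for q ≠ 3,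 the stabiliser of any decomposition of F^4 into four mutually orthogonal non-degenerate 1-spaces; (4) for q ≥ 3, the stabiliser of any decomposition into two mutually orthogonal non-degenerate 2-spaces; (5) for q ≥ 4, the stabiliser of any decomposition into two totally isotropic 2-spaces; (6) every subfield group for a subfield F₀ of odd prime index in F whose F₀-structure carries f; (7) every subfield group for the subfield F₀ of index 2 whose F₀-structure carries ζ f for a non-zero ζ with ζ + ζ^q = 0, vanishing on pairs (u, u) (the symplectic type); (8) for q odd with q ≥ 5, every subfield group for the subfield F₀ of index 2 whose F₀-structure carries f (the orthogonal types, either sign); (9) for q = p prime with p ≡ 3 mod 4, the normaliser of any absolutely irreducible 2-group R of symplectic type and exponent 4 with |R| = 64 and centre of order 4, consisting of isometries of f. -/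
theorem result {F : Type*} [Field F] [Fintype F] (q : ℕ) (hF : Fintype.card F = q ^ 2) :
    (∀ W : Submodule F (Fin 4 → F), W ≠ ⊥ → Cfsg.Geo.IsTotallySingularFor (Cfsg.hermForm 4 F q) W → Cfsg.Geo.IsMaximalIn (Cfsg.GU 4 F q ⊓ Cfsg.Geo.specialLinear (Fin 4) F) (Cfsg.Geo.subspaceStabilizer W ⊓ (Cfsg.GU 4 F q ⊓ Cfsg.Geo.specialLinear (Fin 4) F))) ∧
    (∀ W : Submodule F (Fin 4 → F), W ≠ ⊥ → Cfsg.Geo.IsNondegenerateOn (Cfsg.hermForm 4 F q) W → 2 * Module.finrank F W < 4 → Cfsg.Geo.IsMaximalIn (Cfsg.GU 4 F q ⊓ Cfsg.Geo.specialLinear (Fin 4) F) (Cfsg.Geo.subspaceStabilizer W ⊓ (Cfsg.GU 4 F q ⊓ Cfsg.Geo.specialLinear (Fin 4) F))) ∧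
    (q ≠ 3 → ∀ D : Fin 4 → Submodule F (Fin 4 → F), Cfsg.Geo.IsNondegenerateMDecomposition (Cfsg.hermForm 4 F q) 1 D → Cfsg.Geo.IsMaximalIn (Cfsg.GU 4 F q ⊓ Cfsg.Geo.specialLinear (Fin 4) F) (Cfsg.Geo.decompositionStabilizer D ⊓ (Cfsg.GU 4 F q ⊓ Cfsg.Geo.specialLinear (Fin 4) F))) ∧
    (3 ≤ q → ∀ D : Fin 2 → Submodule F (Fin 4 → F), Cfsg.Geo.IsNondegenerateMDecomposition (Cfsg.hermForm 4 F q) 2 D → Cfsg.Geo.IsMaximalIn (Cfsg.GU 4 F q ⊓ Cfsg.Geo.specialLinear (Fin 4) F) (Cfsg.Geo.decompositionStabilizer D ⊓ (Cfsg.GU 4 F q ⊓ Cfsg.Geo.specialLinear (Fin 4) F))) ∧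
    (4 ≤ q → ∀ D : Fin 2 → Submodule F (Fin 4 → F), Cfsg.Geo.IsMDecomposition 2 D → (∀ i, Cfsg.Geo.IsTotallySingularFor (Cfsg.hermForm 4 F q) (D i)) → Cfsg.Geo.IsMaximalIn (Cfsg.GU 4 F q ⊓ Cfsg.Geo.specialLinear (Fin 4) F) (Cfsg.Geo.decompositionStabilizer D ⊓ (Cfsg.GU 4 F q ⊓ Cfsg.Geo.specialLinear (Fin 4) F))) ∧
    (∀ (F₀ : Subfield F) (r : ℕ) (P : Matrix.GeneralLinearGroup (Fin 4) F), r.Prime → Odd r → Fintype.card F = Nat.card F₀ ^ r → Cfsg.Geo.IsFormRationalStructure (Cfsg.hermForm 4 F q) F₀ 1 P → Cfsg.Geo.IsMaximalIn (Cfsg.GU 4 F q ⊓ Cfsg.Geo.specialLinear (Fin 4) F) (Cfsg.Geo.subfieldSubgroup F₀ P ⊓ (Cfsg.GU 4 F q ⊓ Cfsg.Geo.specialLinear (Fin 4) F))) ∧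
    (∀ (F₀ : Subfield F) (P : Matrix.GeneralLinearGroup (Fin 4) F) (ζ : F), Fintype.card F = Nat.card F₀ ^ 2 → ζ ≠ 0 → ζ + ζ ^ q = 0 → Cfsg.Geo.IsFormRationalStructure (Cfsg.hermForm 4 F q) F₀ ζ P → (∀ u : Fin 4 → F, (∀ i, u i ∈ F₀) → (Cfsg.hermForm 4 F q) (Matrix.mulVec (P : Matrix (Fin 4) (Fin 4) F) u) (Matrix.mulVec (P : Matrix (Fin 4) (Fin 4) F) u) = 0) → Cfsg.Geo.IsMaximalIn (Cfsg.GU 4 F q ⊓ Cfsg.Geo.specialLinear (Fin 4) F) (Cfsg.Geo.subfieldSubgroup F₀ P ⊓ (Cfsg.GU 4 F q ⊓ Cfsg.Geo.specialLinear (Fin 4) F))) ∧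
    (Odd q → 5 ≤ q → ∀ (F₀ : Subfield F) (P : Matrix.GeneralLinearGroup (Fin 4) F), Fintype.card F = Nat.card F₀ ^ 2 → Cfsg.Geo.IsFormRationalStructure (Cfsg.hermForm 4 F q) F₀ 1 P → Cfsg.Geo.IsMaximalIn (Cfsg.GU 4 F q ⊓ Cfsg.Geo.specialLinear (Fin 4) F) (Cfsg.Geo.subfieldSubgroup F₀ P ⊓ (Cfsg.GU 4 F q ⊓ Cfsg.Geo.specialLinear (Fin 4) F))) ∧
    (∀ (p : ℕ) (R : Subgroup (Matrix.GeneralLinearGroup (Fin 4) F)), p.Prime → q = p → p % 4 = 3 → Cfsg.Geo.IsSymplecticTypeGroup 2 R → Cfsg.Geo.ActsAbsolutelyIrreducibly (Cfsg.Geo.matrixSet R) → R ≤ Cfsg.GU 4 F q → Nat.card R = 64 → Nat.card (Subgroup.center R) = 4 → Cfsg.Geo.IsMaximalIn (Cfsg.GU 4 F q ⊓ Cfsg.Geo.specialLinear (Fin 4) F) (Cfsg.Geo.subgroupNormalizer R ⊓ (Cfsg.GU 4 F q ⊓ Cfsg.Geo.specialLinear (Fin 4) F))) := by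
  refine ⟨fun W hW0 hW => CfsgLib.UnitGeoSmall91.ts_maximal 4 q hF (by norm_num) W hW0 hW,
    fun W hW0 hW hd => CfsgLib.SUFour96.Point.point_maximal 4 q hF (by norm_num) W ?_ hW0 hW,
    fun h3 D hD => CfsgLib.SUFour96.Mono.monomial_maximal 4 q hF rfl h3 1 rfl D hD,
    fun h3 D hD => CfsgLib.SUFour96.Planes.planes_maximal 4 q hF rfl h3 2 rfl D hD,
    fun h4 D hD hts => CfsgLib.SUFour96.IsoPlanes.pair_maximal 4 q hF (by norm_num) h4 D hD hts,
    fun F₀ r P hr hro hcard hP => CfsgLib.Subfield54.SU.subfield_maximal_su_four hF (by norm_num) F₀ hr hro hcard P hP,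
    fun F₀ P ζ hcard hζ0 hζ hP halt => ?_, fun hodd h5 F₀ P hcard hP => ?_,
    fun p R hp hq h4 a b c d e => CfsgLib.SUFour90.c6_maximal q hF p R hp hq h4 a b c d e⟩
  · have := Submodule.one_le_finrank_iff.2 hW0
    omega
  · refine CfsgLib.SUFour96.SympSub.sympSubfield_isMaximal4 hF
      ⟨CfsgLib.UnitGeo.fix_of_card hF hcard, hP, hζ0, Or.inr (by linear_combination hζ)⟩ hζ (fun w hw => ?_) (by norm_num)
    have h := halt _ hw
    rwa [CfsgLib.UnitGeo.mulVec_P_inv] at h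
  · have h2 : (2 : F) ≠ 0 := by
      intro h
      have h1 : ringChar F = 2 := CharP.ringChar_of_prime_eq_zero Nat.prime_two (by exact_mod_cast h)
      have h2 := FiniteField.even_card_of_char_two h1
      obtain ⟨j, rfl⟩ := hodd
      rw [hF, Nat.pow_mod] at h2
      simp [Nat.add_mod, Nat.mul_mod] at h2
    exact CfsgLib.SUFour96.OrthSub.orthSubfield_isMaximal4 hF
      ⟨CfsgLib.UnitGeo.fix_of_card hF hcard, hP, one_ne_zero, Or.inl (one_pow q)⟩ h2 h5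

end Cfsg.Agent.S5783
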