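import Cfsg.Statements.S5787
import Cfsg.Agent.AschFour.SympFour
import Cfsg.Agent.AschFour.SympThree
import Cfsg.Agent.Classical.SympFormStd

set_option autoImplicit false
open Cfsg

namespace Cfsg.Agent.S5787

/-- Every maximal subgroup of Sp_4(q), q odd, is of one of the listed geometric types or lies in the residual class. Let F be a finite field of odd order q, f the standard alternating form on F^4 (coordinates Fin 2 ⊕ Fin 2), and H a maximal subgroup of the isometry group Sp_4(F) (inside GL_4(F)). Then H is the intersection with Sp_4(F) of one of: the stabiliser of a non-zero totally isotropic subspace; the stabiliser of a decomposition into two orthogonal non-degenerate 2-spaces; for q ≥ 5, of a decomposition into two totally isotropic 2-spaces; the normaliser of a degree-2 subfield K of the matrix algebra, self-adjoint with f(k v, v) = 0; for q ≥ 5, the normaliser of a degree-2 subfield closed under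 adjoints but not self-adjoint; a subfield group whose F₀-structure carries a non-zero multiple of f, |F| = |F₀|^r with r prime; for q = p prime, the normaliser of an absolutely irreducible symplectic-type 2-group of exponent 4, order 32, centre of order 2 and minus type inside the similarity group of f — or else H lies in the residual class of the symplectic case. -/
theorem result {F : Type*} [Field F] [Fintype F] (hodd : Odd (Fintype.card F)) (H : Subgroup (Matrix.GeneralLinearGroup (Fin 2 ⊕ Fin 2) F)) (hH : Cfsg.Geo.IsMaximalIn (Cfsg.spGL 2 F) H) :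
    (∃ W : Submodule F (Fin 2 ⊕ Fin 2 → F), W ≠ ⊥ ∧ Cfsg.Geo.IsTotallySingularFor (Cfsg.sympForm 2 F) W ∧ H = Cfsg.Geo.subspaceStabilizer W ⊓ Cfsg.spGL 2 F) ∨
    (∃ D : Fin 2 → Submodule F (Fin 2 ⊕ Fin 2 → F), Cfsg.Geo.IsNondegenerateMDecomposition (Cfsg.sympForm 2 F) 2 D ∧ H = Cfsg.Geo.decompositionStabilizer D ⊓ Cfsg.spGL 2 F) ∨
    (5 ≤ Fintype.card F ∧ ∃ D : Fin 2 → Submodule F (Fin 2 ⊕ Fin 2 → F), Cfsg.Geo.IsMDecomposition 2 D ∧ (∀ i, Cfsg.Geo.IsTotallySingularFor (Cfsg.sympForm 2 F) (D i)) ∧ H = Cfsg.Geo.decompositionStabilizer D ⊓ Cfsg.spGL 2 F) ∨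
    (∃ K : Subalgebra F (Matrix (Fin 2 ⊕ Fin 2) (Fin 2 ⊕ Fin 2) F), Cfsg.Geo.IsFieldSubalgebra 2 K ∧ Cfsg.Geo.IsSelfAdjointFor (Cfsg.sympForm 2 F) K ∧ (∀ k ∈ K, ∀ v : (Fin 2 ⊕ Fin 2 → F), (Cfsg.sympForm 2 F) (Matrix.mulVec k v) v = 0) ∧ H = Cfsg.Geo.subalgebraNormalizer K ⊓ Cfsg.spGL 2 F) ∨
    (5 ≤ Fintype.card F ∧ ∃ K : Subalgebra F (Matrix (Fin 2 ⊕ Fin 2) (Fin 2 ⊕ Fin 2) F), Cfsg.Geo.IsFieldSubalgebra 2 K ∧ Cfsg.Geo.IsAdjointClosedFor (Cfsg.sympForm 2 F) K ∧ ¬ Cfsg.Geo.IsSelfAdjointFor (Cfsg.sympForm 2 F) K ∧ H = Cfsg.Geo.subalgebraNormalizer K ⊓ Cfsg.spGL 2 F) ∨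
    (∃ (F₀ : Subfield F) (r : ℕ) (P : Matrix.GeneralLinearGroup (Fin 2 ⊕ Fin 2) F) (ζ : F), r.Prime ∧ Fintype.card F = Nat.card F₀ ^ r ∧ ζ ≠ 0 ∧ Cfsg.Geo.IsFormRationalStructure (Cfsg.sympForm 2 F) F₀ ζ P ∧ H = Cfsg.Geo.subfieldSubgroup F₀ P ⊓ Cfsg.spGL 2 F) ∨
    (∃ (p : ℕ) (R : Subgroup (Matrix.GeneralLinearGroup (Fin 2 ⊕ Fin 2) F)), p.Prime ∧ Fintype.card F = p ∧ Cfsg.Geo.IsSymplecticTypeGroup 2 R ∧ Cfsg.Geo.ActsAbsolutelyIrreducibly (Cfsg.Geo.matrixSet R) ∧ R ≤ Cfsg.Geo.similarityGroup (Cfsg.sympForm 2 F) ∧ Nat.card R = 32 ∧ Nat.card (Subgroup.center R) = 2 ∧ Cfsg.Geo.IsOfMinusType 2 R ∧ H = Cfsg.Geo.subgroupNormalizer R ⊓ Cfsg.spGL 2 F) ∨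
    Cfsg.Geo.InSymplecticResidualClass H := by
  have hf := CfsgLib.SympFormStd.isSymplecticForm 2 F
  have h2 : (2 : F) ≠ 0 := CfsgLib.Aschbacher.two_ne_zero_of_odd_card hodd
  have hlow : ¬ 5 ≤ Fintype.card F → Fintype.card F = 3 := fun h => by
    have := Fintype.one_lt_card (α := F)
    obtain ⟨k, hk⟩ := hodd
    omega
  have hI : ∀ g : Matrix.GeneralLinearGroup (Fin 2 ⊕ Fin 2) F, g ∈ Cfsg.spGL 2 F ↔
      ∀ u v, Cfsg.sympForm 2 F (Matrix.mulVec g.val u) (Matrix.mulVec g.val v) = Cfsg.sympForm 2 F u v :=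
    fun g => CfsgLib.SympFormStd.mem_spGL
  rcases CfsgLib.AschFour.symp_four_cases hf (fun g hg => (hI g).1 hg)
      CfsgLib.SympFormStd.sympT_mem_spGL (by simp) hH with
    h | h | ⟨ho, D, hD, hts, heq⟩ | h | ⟨ho, K, hK, hKc, hns, heq⟩ | h | ⟨ho, h⟩ | ⟨ho, -⟩ | h
  · exact Or.inl h
  · exact Or.inr (Or.inl h)
  · by_cases h5 : 5 ≤ Fintype.card F
    · exact Or.inr (Or.inr (Or.inl ⟨h5, D, hD, hts, heq⟩))
    · have hq := hlow h5
      have hpm : ∀ c : F, c ≠ 0 → c = 1 ∨ c = -1 := fun c hc => by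
        have h := FiniteField.pow_card_sub_one_eq_one c hc
        rw [hq] at h
        exact sq_eq_one_iff.1 h
      obtain ⟨D', hD', hle⟩ := CfsgLib.AschFour.pair_to_planes hf (by simp) h2 hpm hD hts
      refine Or.inr (Or.inl ⟨D', hD', CfsgLib.Aschbacher.eq_inf_of_le hH (fun g hg => ?_)
        (CfsgLib.Aschbacher.Symp.not_le_decompositionStabilizer hf
          CfsgLib.SympFormStd.sympT_mem_spGL hD'.decomp)⟩)
      rw [heq] at hg
      exact hle g hg.1 ((hI g).1 hg.2)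
  · exact Or.inr (Or.inr (Or.inr (Or.inl h)))
  · by_cases h5 : 5 ≤ Fintype.card F
    · exact Or.inr (Or.inr (Or.inr (Or.inr (Or.inl ⟨h5, K, hK, hKc, hns, heq⟩))))
    · exact absurd (heq ▸ hH) (CfsgLib.AschFour.not_maximal_field_three hf (by simp) (hlow h5) hI
        hK hKc hns)
  · exact Or.inr (Or.inr (Or.inr (Or.inr (Or.inr (Or.inl h)))))
  · exact Or.inr (Or.inr (Or.inr (Or.inr (Or.inr (Or.inr (Or.inl h))))))
  · exact absurd hodd ho
  · exact Or.inr (Or.inr (Or.inr (Or.inr (Or.inr (Or.inr (Or.inr h))))))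

end Cfsg.Agent.S5787
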