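import Cfsg.Statements.S5802
import Cfsg.Agent.Aschbacher.UnitaryMaximal
import Cfsg.Agent.Aschbacher.UnitarySmall
import Cfsg.Agent.Aschbacher.UnitarySixMonomial
import Cfsg.Agent.Aschbacher.UnitarySixField
import Cfsg.Agent.Aschbacher.Reduction
import Cfsg.Agent.Aschbacher.LinearCases

set_option autoImplicit false
open Cfsg

namespace Cfsg.Agent.S5802

/-- Every maximal subgroup of SU_6(q) is of one of the listed geometric types or lies in the residual class. Let F be the field with q² elements, f the standard unitary form Σ u_i v_i^q on F^6, and H a maximal subgroup of SU_6(q) (inside GL_6(F)). Then H is the intersection with SU_6(q) of one of: the stabiliser of a non-zero totally isotropic subspace; the stabiliser of a non-degenerate 1- or 2-space; for q ≥ 3, the stabiliser of a decomposition into six mutually orthogonal non-degenerate 1-spaces; for q ≥ 3, of a decomposition into three mutually orthogonal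 non-degenerate 2-spaces; of a decomposition into two orthogonal non-degenerate 3-spaces; of a decomposition into two totally isotropic 3-spaces; for q ≥ 3, the normaliser of an adjoint-closed degree-3 subfield of the matrix algebra; for q ≥ 3, the stabiliser of a tensor decomposition of f into unitary forms on F^2 and F^3; a subfield group of odd prime index whose F₀-structure carries f; a subfield group of index 2 and symplectic type; for q odd, a subfield group of index 2 and orthogonal type — or else H lies in the residual class of the unitary case. -/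
theorem result {F : Type*} [Field F] [Fintype F] (q : ℕ) (hF : Fintype.card F = q ^ 2) (H : Subgroup (Matrix.GeneralLinearGroup (Fin 6) F)) (hH : Cfsg.Geo.IsMaximalIn (Cfsg.GU 6 F q ⊓ Cfsg.Geo.specialLinear (Fin 6) F) H) :
    (∃ W : Submodule F (Fin 6 → F), W ≠ ⊥ ∧ Cfsg.Geo.IsTotallySingularFor (Cfsg.hermForm 6 F q) W ∧ H = Cfsg.Geo.subspaceStabilizer W ⊓ (Cfsg.GU 6 F q ⊓ Cfsg.Geo.specialLinear (Fin 6) F)) ∨
    (∃ W : Submodule F (Fin 6 → F), W ≠ ⊥ ∧ Cfsg.Geo.IsNondegenerateOn (Cfsg.hermForm 6 F q) W ∧ 2 * Module.finrank F W < 6 ∧ H = Cfsg.Geo.subspaceStabilizer W ⊓ (Cfsg.GU 6 F q ⊓ Cfsg.Geo.specialLinear (Fin 6) F)) ∨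
    (3 ≤ q ∧ ∃ D : Fin 6 → Submodule F (Fin 6 → F), Cfsg.Geo.IsNondegenerateMDecomposition (Cfsg.hermForm 6 F q) 1 D ∧ H = Cfsg.Geo.decompositionStabilizer D ⊓ (Cfsg.GU 6 F q ⊓ Cfsg.Geo.specialLinear (Fin 6) F)) ∨
    (3 ≤ q ∧ ∃ D : Fin 3 → Submodule F (Fin 6 → F), Cfsg.Geo.IsNondegenerateMDecomposition (Cfsg.hermForm 6 F q) 2 D ∧ H = Cfsg.Geo.decompositionStabilizer D ⊓ (Cfsg.GU 6 F q ⊓ Cfsg.Geo.specialLinear (Fin 6) F)) ∨
    (∃ D : Fin 2 → Submodule F (Fin 6 → F), Cfsg.Geo.IsNondegenerateMDecomposition (Cfsg.hermForm 6 F q) 3 D ∧ H = Cfsg.Geo.decompositionStabilizer D ⊓ (Cfsg.GU 6 F q ⊓ Cfsg.Geo.specialLinear (Fin 6) F)) ∨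
    (∃ D : Fin 2 → Submodule F (Fin 6 → F), Cfsg.Geo.IsMDecomposition 3 D ∧ (∀ i, Cfsg.Geo.IsTotallySingularFor (Cfsg.hermForm 6 F q) (D i)) ∧ H = Cfsg.Geo.decompositionStabilizer D ⊓ (Cfsg.GU 6 F q ⊓ Cfsg.Geo.specialLinear (Fin 6) F)) ∨
    (3 ≤ q ∧ ∃ K : Subalgebra F (Matrix (Fin 6) (Fin 6) F), Cfsg.Geo.IsFieldSubalgebra 3 K ∧ Cfsg.Geo.IsAdjointClosedFor (Cfsg.hermForm 6 F q) K ∧ H = Cfsg.Geo.subalgebraNormalizer K ⊓ (Cfsg.GU 6 F q ⊓ Cfsg.Geo.specialLinear (Fin 6) F)) ∨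
    (3 ≤ q ∧ ∃ (e : Fin 6 ≃ Fin 2 × Fin 3) (P : Matrix.GeneralLinearGroup (Fin 6) F) (f₁ : (Fin 2 → F) → (Fin 2 → F) → F) (f₂ : (Fin 3 → F) → (Fin 3 → F) → F), Cfsg.Geo.IsUnitaryFormPow q f₁ ∧ Cfsg.Geo.IsUnitaryFormPow q f₂ ∧ Cfsg.Geo.IsTensorFormStructure (fun x : F => x ^ q) (Cfsg.hermForm 6 F q) f₁ f₂ e P ∧ H = Cfsg.Geo.tensorProductSubgroup 2 3 e P ⊓ (Cfsg.GU 6 F q ⊓ Cfsg.Geo.specialLinear (Fin 6) F)) ∨
    (∃ (F₀ : Subfield F) (r : ℕ) (P : Matrix.GeneralLinearGroup (Fin 6) F), r.Prime ∧ Odd r ∧ Fintype.card F = Nat.card F₀ ^ r ∧ Cfsg.Geo.IsFormRationalStructure (Cfsg.hermForm 6 F q) F₀ 1 P ∧ H = Cfsg.Geo.subfieldSubgroup F₀ P ⊓ (Cfsg.GU 6 F q ⊓ Cfsg.Geo.specialLinear (Fin 6) F)) ∨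
    (∃ (F₀ : Subfield F) (P : Matrix.GeneralLinearGroup (Fin 6) F) (ζ : F), Fintype.card F = Nat.card F₀ ^ 2 ∧ ζ ≠ 0 ∧ ζ + ζ ^ q = 0 ∧ Cfsg.Geo.IsFormRationalStructure (Cfsg.hermForm 6 F q) F₀ ζ P ∧ (∀ u : Fin 6 → F, (∀ i, u i ∈ F₀) → (Cfsg.hermForm 6 F q) (Matrix.mulVec (P : Matrix (Fin 6) (Fin 6) F) u) (Matrix.mulVec (P : Matrix (Fin 6) (Fin 6) F) u) = 0) ∧ H = Cfsg.Geo.subfieldSubgroup F₀ P ⊓ (Cfsg.GU 6 F q ⊓ Cfsg.Geo.specialLinear (Fin 6) F)) ∨
    (Odd q ∧ ∃ (F₀ : Subfield F) (P : Matrix.GeneralLinearGroup (Fin 6) F), Fintype.card F = Nat.card F₀ ^ 2 ∧ Cfsg.Geo.IsFormRationalStructure (Cfsg.hermForm 6 F q) F₀ 1 P ∧ H = Cfsg.Geo.subfieldSubgroup F₀ P ⊓ (Cfsg.GU 6 F q ⊓ Cfsg.Geo.specialLinear (Fin 6) F)) ∨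
    Cfsg.Geo.InUnitaryResidualClass H := by
  have hq2 := CfsgLib.AschPrime.one_lt_q hF
  rcases CfsgLib.Aschbacher.Unitary.unitary_maximal_cases hF (by norm_num) hH with
    h | h | ⟨t, m, D, hD, htm, heq⟩ | ⟨m, D, hD, hm, hts, heq⟩ | ⟨r, K, hr, hro, hrd, hK, hc, heq⟩ |
    ⟨d, k, e, P, f₁, f₂, hd, hdk, hdn, h1, h2, hT, heq⟩ | h | h | h | h | ⟨N, r, hN⟩ | ⟨d, S, hS⟩
  · exact Or.inl h
  · exact Or.inr (Or.inl h)
  · have hm0 := hD.decomp.pos
    have ht2 := hD.decomp.two_le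
    have hle : m ≤ 3 := by have := Nat.mul_le_mul_right m ht2; omega
    interval_cases m
    · obtain rfl : t = 6 := by omega
      by_cases hq : 3 ≤ q
      · exact Or.inr (Or.inr (Or.inl ⟨hq, D, hD, heq⟩))
      · exact (CfsgLib.Aschbacher.UnitarySix.monomial_not_maximal hF (by omega) hH hD
          (heq ▸ inf_le_left)).elim
    · obtain rfl : t = 3 := by omega
      by_cases hq : 3 ≤ q
      · exact Or.inr (Or.inr (Or.inr (Or.inl ⟨hq, D, hD, heq⟩)))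
      · obtain ⟨D2, hD2, hle2⟩ :=
          CfsgLib.Aschbacher.UnitarySmall.planes_lines hF (by omega) (by norm_num) hD
        refine (CfsgLib.Aschbacher.UnitarySix.monomial_not_maximal hF (by omega) hH hD2 fun g hg => ?_).elim
        rw [heq] at hg
        exact hle2 g hg.1 hg.2.1
    · obtain rfl : t = 2 := by omega
      exact Or.inr (Or.inr (Or.inr (Or.inr (Or.inl ⟨D, hD, heq⟩))))
  · obtain rfl : m = 3 := by omega
    exact Or.inr (Or.inr (Or.inr (Or.inr (Or.inr (Or.inl ⟨D, hD, hts, heq⟩)))))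
  · obtain rfl : r = 3 := by
      have hle := Nat.le_of_dvd (by norm_num) hrd
      interval_cases r <;> revert hr hro hrd <;> decide
    by_cases hq : 3 ≤ q
    · exact Or.inr (Or.inr (Or.inr (Or.inr (Or.inr (Or.inr (Or.inl ⟨hq, K, hK, hc, heq⟩))))))
    · obtain ⟨P, hP, hPz, hPle⟩ := CfsgLib.Aschbacher.UnitarySix.field_subfield hF (by omega) hH.1.le hK hc
        (heq ▸ inf_le_left)
      refine Or.inr (Or.inr (Or.inr (Or.inr (Or.inr (Or.inr (Or.inr (Or.inr (Or.inr (Or.inl ⟨CfsgLib.AschPrime.fixedField hF, P, 1, ?_, one_ne_zero, ?_, hP, hPz, ?_⟩)))))))))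
      · rw [CfsgLib.AschPrime.card_fixedField hF, hF]
      · obtain rfl : q = 2 := by omega
        have h2 : (2 : F) * 2 = 0 := by
          have h := Nat.cast_card_eq_zero F
          rw [hF] at h
          rw [show (2 : F) * 2 = ((2 ^ 2 : ℕ) : F) by norm_num]; exact h
        rw [one_pow, one_add_one_eq_two, mul_self_eq_zero.1 h2]
      · exact CfsgLib.AschPrime.eq_inf_of_isMaximalIn hH hPle
          (CfsgLib.AschPrime.not_le_subfieldSubgroup hF (by norm_num) (CfsgLib.AschPrime.fixedField_ne_top hF) _)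
  · have hle : d ≤ 2 := by nlinarith
    obtain rfl : d = 2 := by omega
    obtain rfl : k = 3 := by omega
    by_cases hq : 3 ≤ q
    · exact Or.inr (Or.inr (Or.inr (Or.inr (Or.inr (Or.inr (Or.inr (Or.inl ⟨hq, e, P, f₁, f₂, h1, h2, hT, heq⟩)))))))
    · obtain ⟨D2, hD2, hle2⟩ :=
        CfsgLib.Aschbacher.UnitarySmall.tensor_halves hF (by omega) (by norm_num) h1 h2 hT
      refine Or.inr (Or.inr (Or.inr (Or.inr (Or.inl ⟨D2, hD2, CfsgLib.AschPrime.eq_inf_of_isMaximalIn hH (fun g hg => ?_) (CfsgLib.Aschbacher.Unitary.not_le_decomposition hF hD2 (by norm_num))⟩))))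
      rw [heq] at hg
      exact hle2 g hg.1 hg.2.1
  · exact Or.inr (Or.inr (Or.inr (Or.inr (Or.inr (Or.inr (Or.inr (Or.inr (Or.inl h))))))))
  · exact Or.inr (Or.inr (Or.inr (Or.inr (Or.inr (Or.inr (Or.inr (Or.inr (Or.inr (Or.inr (Or.inl h))))))))))
  · exact Or.inr (Or.inr (Or.inr (Or.inr (Or.inr (Or.inr (Or.inr (Or.inr (Or.inr (Or.inl h)))))))))
  · exact Or.inr (Or.inr (Or.inr (Or.inr (Or.inr (Or.inr (Or.inr (Or.inr (Or.inr (Or.inr (Or.inr (h)))))))))))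
  · obtain ⟨j, -, hj⟩ := CfsgLib.Aschbacher.abelianData_isPrimePow (by simp) hN
    exact absurd ((Fintype.card_fin 6).symm.trans hj)
      ((CfsgLib.Aschbacher.Reduction.six_twelve (Or.inl rfl)).1 r j hN.prime)
  · exact absurd ((Fintype.card_fin 6).symm.trans hS.card_eq)
      ((CfsgLib.Aschbacher.Reduction.six_twelve (Or.inl rfl)).2 d S.card hS.two_le_card)

end Cfsg.Agent.S5802
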