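import Cfsg.Statements.S5817
import Cfsg.Agent.Aschbacher.LinearClassSix
import Cfsg.Agent.Aschbacher.TensorInduced
import Cfsg.Agent.Aschbacher.TensorPower

set_option autoImplicit false
open Cfsg

namespace Cfsg.Agent.S5817

/-- Every maximal subgroup of SL_8(q) is of one of the listed geometric types or lies in the residual class. Let F be a finite field with q elements (p its characteristic) and H a maximal subgroup of SL_8(F) (inside GL_8(F)). Then H is the intersection with SL_8(F) of one of: the stabiliser of a proper non-zero subspace; for q ≥ 5, the stabiliser of a decomposition into 8 independent 1-spaces; for q ≥ 3, the stabiliser of a decomposition into 4 independent 2-spaces; the stabiliser of a decomposition into 2 independent 4-spaces; the normaliser of a degree-2 subfield of the matrix algebra; for q ≥ 3, the stabiliser of a tensor decomposition F^2 ⊗ F^4; a subfield group for a subfield F₀ with |F| = |F₀|^r, r prime; for q = p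 prime with p ≡ 1 mod 4, the normaliser of an absolutely irreducible 2-subgroup R of exponent 4 and order 2^(2+2m) with centre of order 4, all of whose characteristic abelian subgroups are cyclic, 4 dividing p − 1 (here |R| = 2^8); for q odd, the similarity group of a non-degenerate quadratic form; the similarity group of a non-degenerate symplectic form; the similarity group of a non-degenerate unitary form — or else H lies in the residual class of the linear case (modulo scalars H is almost simple, with absolutely irreducible perfect socle preimage realisable over no proper subfield and fixing no non-degenerate quadratic, symplectic or unitary form). -/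
theorem result {F : Type*} [Field F] [Fintype F] (H : Subgroup (Matrix.GeneralLinearGroup (Fin 8) F)) (hH : Cfsg.Geo.IsMaximalIn (Cfsg.Geo.specialLinear (Fin 8) F) H) :
    (∃ W : Submodule F (Fin 8 → F), W ≠ ⊥ ∧ W ≠ ⊤ ∧ H = Cfsg.Geo.subspaceStabilizer W ⊓ Cfsg.Geo.specialLinear (Fin 8) F) ∨
    (5 ≤ Fintype.card F ∧ ∃ D : Fin 8 → Submodule F (Fin 8 → F), Cfsg.Geo.IsMDecomposition 1 D ∧ H = Cfsg.Geo.decompositionStabilizer D ⊓ Cfsg.Geo.specialLinear (Fin 8) F) ∨
    (3 ≤ Fintype.card F ∧ ∃ D : Fin 4 → Submodule F (Fin 8 → F), Cfsg.Geo.IsMDecomposition 2 D ∧ H = Cfsg.Geo.decompositionStabilizer D ⊓ Cfsg.Geo.specialLinear (Fin 8) F) ∨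
    (∃ D : Fin 2 → Submodule F (Fin 8 → F), Cfsg.Geo.IsMDecomposition 4 D ∧ H = Cfsg.Geo.decompositionStabilizer D ⊓ Cfsg.Geo.specialLinear (Fin 8) F) ∨
    (∃ K : Subalgebra F (Matrix (Fin 8) (Fin 8) F), Cfsg.Geo.IsFieldSubalgebra 2 K ∧ H = Cfsg.Geo.subalgebraNormalizer K ⊓ Cfsg.Geo.specialLinear (Fin 8) F) ∨
    (3 ≤ Fintype.card F ∧ ∃ (e : Fin 8 ≃ Fin 2 × Fin 4) (P : Matrix.GeneralLinearGroup (Fin 8) F), H = Cfsg.Geo.tensorProductSubgroup 2 4 e P ⊓ Cfsg.Geo.specialLinear (Fin 8) F) ∨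
    (∃ (F₀ : Subfield F) (r : ℕ) (P : Matrix.GeneralLinearGroup (Fin 8) F), r.Prime ∧ Fintype.card F = Nat.card F₀ ^ r ∧ H = Cfsg.Geo.subfieldSubgroup F₀ P ⊓ Cfsg.Geo.specialLinear (Fin 8) F) ∨
    ((∃ p : ℕ, p.Prime ∧ Fintype.card F = p ∧ (p % 4 = 1)) ∧ ∃ R : Subgroup (Matrix.GeneralLinearGroup (Fin 8) F), Cfsg.Geo.IsLinearSymplecticTypeData 2 R ∧ H = Cfsg.Geo.subgroupNormalizer R ⊓ Cfsg.Geo.specialLinear (Fin 8) F) ∨
    (Odd (Fintype.card F) ∧ ∃ Q : (Fin 8 → F) → F, Cfsg.Geo.IsNondegenerateQuadraticForm Q ∧ H = Cfsg.Geo.quadSimilarityGroup Q ⊓ Cfsg.Geo.specialLinear (Fin 8) F) ∨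
    (∃ f : (Fin 8 → F) → (Fin 8 → F) → F, Cfsg.Geo.IsSymplecticForm f ∧ H = Cfsg.Geo.similarityGroup f ⊓ Cfsg.Geo.specialLinear (Fin 8) F) ∨
    (∃ (σ : F ≃+* F) (f : (Fin 8 → F) → (Fin 8 → F) → F), Cfsg.Geo.IsUnitaryForm σ f ∧ H = Cfsg.Geo.similarityGroup f ⊓ Cfsg.Geo.specialLinear (Fin 8) F) ∨
    Cfsg.Geo.InLinearResidualClass H := by
  classical
  rcases CfsgLib.Aschbacher.linear_maximal_cases (by simp) hH with
      ⟨W, hW⟩ | ⟨t, m, D, hD, htm, h1, h2, h⟩ | ⟨r, K, hr, hrd, hK, h⟩ |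
      ⟨d, k, e, P, hd, hdk, hcard, hq, -, h⟩ | ⟨F₀, r, P, h⟩ | h | h | h | h | ⟨N, r, hA⟩ | ⟨d, S, hS⟩
  · exact Or.inl ⟨W, hW⟩
  · have ht := hD.two_le
    simp only [Fintype.card_fin] at htm
    have : t ≤ 8 := Nat.le_of_dvd (by norm_num) ⟨m, htm.symm⟩
    interval_cases t <;> first | omega | skip
    · obtain rfl : m = 4 := by omega
      exact Or.inr <| Or.inr <| Or.inr <| Or.inl ⟨D, hD, h⟩
    · obtain rfl : m = 2 := by omega
      exact Or.inr <| Or.inr <| Or.inl ⟨h2 rfl, D, hD, h⟩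
    · obtain rfl : m = 1 := by omega
      exact Or.inr <| Or.inl ⟨h1 rfl, D, hD, h⟩
  · obtain rfl : r = 2 := (Nat.prime_dvd_prime_iff_eq hr Nat.prime_two).1
      (hr.dvd_of_dvd_pow (show r ∣ 2 ^ 3 by simpa using hrd))
    exact Or.inr <| Or.inr <| Or.inr <| Or.inr <| Or.inl ⟨K, hK, h⟩
  · simp only [Fintype.card_fin] at hcard
    have hd3 : d ≤ 2 := by nlinarith
    obtain rfl : d = 2 := by omega
    obtain rfl : k = 4 := by omega
    exact Or.inr <| Or.inr <| Or.inr <| Or.inr <| Or.inr <| Or.inl ⟨hq rfl, e, P, h⟩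
  · exact Or.inr <| Or.inr <| Or.inr <| Or.inr <| Or.inr <| Or.inr <| Or.inl ⟨F₀, r, P, h⟩
  · exact Or.inr <| Or.inr <| Or.inr <| Or.inr <| Or.inr <| Or.inr <| Or.inr <| Or.inr <| Or.inl h
  · exact Or.inr <| Or.inr <| Or.inr <| Or.inr <| Or.inr <| Or.inr <| Or.inr <| Or.inr <| Or.inr <| Or.inl h
  · exact Or.inr <| Or.inr <| Or.inr <| Or.inr <| Or.inr <| Or.inr <| Or.inr <| Or.inr <| Or.inr <| Or.inr <| Or.inl h
  · exact Or.inr <| Or.inr <| Or.inr <| Or.inr <| Or.inr <| Or.inr <| Or.inr <| Or.inr <| Or.inr <| Or.inr <| Or.inr h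
  · rcases CfsgLib.Aschbacher.linear_abelian_maximal (by simp) hH hA with
      ⟨R, hR, h⟩ | h | h | h | h
    · obtain ⟨j, hj, hrj⟩ := CfsgLib.Aschbacher.abelianData_isPrimePow (by simp) hA
      rw [Fintype.card_fin] at hrj
      obtain rfl : r = 2 := ((Nat.prime_dvd_prime_iff_eq Nat.prime_two hA.prime).1
        (Nat.prime_two.dvd_of_dvd_pow (hrj ▸ (by norm_num : 2 ∣ 8)))).symm
      obtain ⟨p, e, hp, hcard, hp2, hnum⟩ := CfsgLib.Aschbacher.symplecticTypeData_numbers (by simp) hR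
      rcases hnum with ⟨hodd, -⟩ | ⟨-, rfl, h4⟩
      · exact absurd hodd (by decide)
      have := hp.two_le
      exact Or.inr <| Or.inr <| Or.inr <| Or.inr <| Or.inr <| Or.inr <| Or.inr <| Or.inl ⟨⟨p, hp, by rw [hcard, pow_one], by omega⟩, R, hR, h⟩
    · exact Or.inr <| Or.inr <| Or.inr <| Or.inr <| Or.inr <| Or.inr <| Or.inl h
    · exact Or.inr <| Or.inr <| Or.inr <| Or.inr <| Or.inr <| Or.inr <| Or.inr <| Or.inr <| Or.inl h
    · exact Or.inr <| Or.inr <| Or.inr <| Or.inr <| Or.inr <| Or.inr <| Or.inr <| Or.inr <| Or.inr <| Or.inl h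
    · exact Or.inr <| Or.inr <| Or.inr <| Or.inr <| Or.inr <| Or.inr <| Or.inr <| Or.inr <| Or.inr <| Or.inr <| Or.inl h
  · have h1 := hS.two_le
    have h2 := hS.two_le_card
    have h8 := hS.card_eq
    rw [Fintype.card_fin] at h8
    obtain ⟨e, P, hle⟩ := hS.exists_le_tensorWreath
    generalize hs : S.card = s at *
    have hd8 : d ≤ 8 := h8 ▸ Nat.le_self_pow (by omega) d
    have hs3 : s ≤ 3 := by
      by_contra! hlt
      have h16 : 2 ^ 4 ≤ d ^ s := (Nat.pow_le_pow_left h1 4).trans (Nat.pow_le_pow_right (by omega) hlt)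
      omega
    interval_cases s <;> interval_cases d <;> first | omega | skip
    rcases CfsgLib.Aschbacher.tensorWreath_two_le_similarity (by norm_num) e P with
      ⟨hodd, Q, hQ, hW⟩ | ⟨f, hf, hW⟩
    · exact Or.inr <| Or.inr <| Or.inr <| Or.inr <| Or.inr <| Or.inr <| Or.inr <| Or.inr <| Or.inl ⟨hodd, Q, hQ, CfsgLib.Aschbacher.eq_inf_of_le hH (hle.trans hW)
        (CfsgLib.Aschbacher.not_le_quadSimilarityGroup (by simp) hQ)⟩
    · exact Or.inr <| Or.inr <| Or.inr <| Or.inr <| Or.inr <| Or.inr <| Or.inr <| Or.inr <| Or.inr <| Or.inl ⟨f, hf, CfsgLib.Aschbacher.eq_inf_of_le hH (hle.trans hW)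
        (CfsgLib.Aschbacher.not_specialLinear_le_similarityGroup (by simp) hf.bilinear.add_right
          (CfsgLib.Aschbacher.IsNondegenerateForm.exists_ne (by simp) hf.nondegenerate))⟩

end Cfsg.Agent.S5817
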