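import Cfsg.Statements.S5820
import Cfsg.Agent.Aschbacher.UnitaryMaximal
import Cfsg.Agent.Aschbacher.UnitaryAbelian
import Cfsg.Agent.Aschbacher.UnitaryInduced
import Cfsg.Agent.Aschbacher.UnitarySmall

set_option autoImplicit false
open Cfsg

namespace Cfsg.Agent.S5820

/-- Every maximal subgroup of SU_8(q) is of one of the listed geometric types or lies in the residual class. Let F be the field with q² elements, f the standard unitary form Σ u_i v_i^q on F^8, and H a maximal subgroup of SU_8(q) (inside GL_8(F)). Then H is the intersection with SU_8(q) of one of: the stabiliser of a non-zero totally isotropic subspace; the stabiliser of a non-degenerate 1-, 2- or 3-space; the stabiliser of a decomposition into eight mutually orthogonal non-degenerate 1-spaces; for q ≥ 3, of a decomposition into four mutually orthogonal non-degenerate 2-spaces; of a decomposition into two orthogonal non-degenerate 4-spaces;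 of a decomposition into two totally isotropic 4-spaces; for q ≥ 3, the stabiliser of a tensor decomposition of f into unitary forms on F^2 and F^4; a subfield group of odd prime index whose F₀-structure carries f; a subfield group of index 2 and symplectic type; for q odd, a subfield group of index 2 and orthogonal type; for q = p ≡ 3 mod 4 prime, the normaliser of an absolutely irreducible symplectic-type 2-group of order 2^8 with centre of order 4 inside the similarity group of f — or else H lies in the residual class of the unitary case. -/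
theorem result {F : Type*} [Field F] [Fintype F] (q : ℕ) (hF : Fintype.card F = q ^ 2) (H : Subgroup (Matrix.GeneralLinearGroup (Fin 8) F)) (hH : Cfsg.Geo.IsMaximalIn (Cfsg.GU 8 F q ⊓ Cfsg.Geo.specialLinear (Fin 8) F) H) :
    (∃ W : Submodule F (Fin 8 → F), W ≠ ⊥ ∧ Cfsg.Geo.IsTotallySingularFor (Cfsg.hermForm 8 F q) W ∧ H = Cfsg.Geo.subspaceStabilizer W ⊓ (Cfsg.GU 8 F q ⊓ Cfsg.Geo.specialLinear (Fin 8) F)) ∨
    (∃ W : Submodule F (Fin 8 → F), W ≠ ⊥ ∧ Cfsg.Geo.IsNondegenerateOn (Cfsg.hermForm 8 F q) W ∧ 2 * Module.finrank F W < 8 ∧ H = Cfsg.Geo.subspaceStabilizer W ⊓ (Cfsg.GU 8 F q ⊓ Cfsg.Geo.specialLinear (Fin 8) F)) ∨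
    (∃ D : Fin 8 → Submodule F (Fin 8 → F), Cfsg.Geo.IsNondegenerateMDecomposition (Cfsg.hermForm 8 F q) 1 D ∧ H = Cfsg.Geo.decompositionStabilizer D ⊓ (Cfsg.GU 8 F q ⊓ Cfsg.Geo.specialLinear (Fin 8) F)) ∨
    (3 ≤ q ∧ ∃ D : Fin 4 → Submodule F (Fin 8 → F), Cfsg.Geo.IsNondegenerateMDecomposition (Cfsg.hermForm 8 F q) 2 D ∧ H = Cfsg.Geo.decompositionStabilizer D ⊓ (Cfsg.GU 8 F q ⊓ Cfsg.Geo.specialLinear (Fin 8) F)) ∨
    (∃ D : Fin 2 → Submodule F (Fin 8 → F), Cfsg.Geo.IsNondegenerateMDecomposition (Cfsg.hermForm 8 F q) 4 D ∧ H = Cfsg.Geo.decompositionStabilizer D ⊓ (Cfsg.GU 8 F q ⊓ Cfsg.Geo.specialLinear (Fin 8) F)) ∨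
    (∃ D : Fin 2 → Submodule F (Fin 8 → F), Cfsg.Geo.IsMDecomposition 4 D ∧ (∀ i, Cfsg.Geo.IsTotallySingularFor (Cfsg.hermForm 8 F q) (D i)) ∧ H = Cfsg.Geo.decompositionStabilizer D ⊓ (Cfsg.GU 8 F q ⊓ Cfsg.Geo.specialLinear (Fin 8) F)) ∨
    (3 ≤ q ∧ ∃ (e : Fin 8 ≃ Fin 2 × Fin 4) (P : Matrix.GeneralLinearGroup (Fin 8) F) (f₁ : (Fin 2 → F) → (Fin 2 → F) → F) (f₂ : (Fin 4 → F) → (Fin 4 → F) → F), Cfsg.Geo.IsUnitaryFormPow q f₁ ∧ Cfsg.Geo.IsUnitaryFormPow q f₂ ∧ Cfsg.Geo.IsTensorFormStructure (fun x : F => x ^ q) (Cfsg.hermForm 8 F q) f₁ f₂ e P ∧ H = Cfsg.Geo.tensorProductSubgroup 2 4 e P ⊓ (Cfsg.GU 8 F q ⊓ Cfsg.Geo.specialLinear (Fin 8) F)) ∨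
    (∃ (F₀ : Subfield F) (r : ℕ) (P : Matrix.GeneralLinearGroup (Fin 8) F), r.Prime ∧ Odd r ∧ Fintype.card F = Nat.card F₀ ^ r ∧ Cfsg.Geo.IsFormRationalStructure (Cfsg.hermForm 8 F q) F₀ 1 P ∧ H = Cfsg.Geo.subfieldSubgroup F₀ P ⊓ (Cfsg.GU 8 F q ⊓ Cfsg.Geo.specialLinear (Fin 8) F)) ∨
    (∃ (F₀ : Subfield F) (P : Matrix.GeneralLinearGroup (Fin 8) F) (ζ : F), Fintype.card F = Nat.card F₀ ^ 2 ∧ ζ ≠ 0 ∧ ζ + ζ ^ q = 0 ∧ Cfsg.Geo.IsFormRationalStructure (Cfsg.hermForm 8 F q) F₀ ζ P ∧ (∀ u : Fin 8 → F, (∀ i, u i ∈ F₀) → (Cfsg.hermForm 8 F q) (Matrix.mulVec (P : Matrix (Fin 8) (Fin 8) F) u) (Matrix.mulVec (P : Matrix (Fin 8) (Fin 8) F) u) = 0) ∧ H = Cfsg.Geo.subfieldSubgroup F₀ P ⊓ (Cfsg.GU 8 F q ⊓ Cfsg.Geo.specialLinear (Fin 8) F)) ∨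
    (Odd q ∧ ∃ (F₀ : Subfield F) (P : Matrix.GeneralLinearGroup (Fin 8) F), Fintype.card F = Nat.card F₀ ^ 2 ∧ Cfsg.Geo.IsFormRationalStructure (Cfsg.hermForm 8 F q) F₀ 1 P ∧ H = Cfsg.Geo.subfieldSubgroup F₀ P ⊓ (Cfsg.GU 8 F q ⊓ Cfsg.Geo.specialLinear (Fin 8) F)) ∨
    (∃ (p : ℕ) (R : Subgroup (Matrix.GeneralLinearGroup (Fin 8) F)), p.Prime ∧ q = p ∧ p % 4 = 3 ∧ Cfsg.Geo.IsSymplecticTypeGroup 2 R ∧ Cfsg.Geo.ActsAbsolutelyIrreducibly (Cfsg.Geo.matrixSet R) ∧ R ≤ Cfsg.Geo.similarityGroup (Cfsg.hermForm 8 F q) ∧ Nat.card R = 256 ∧ Nat.card (Subgroup.center R) = 4 ∧ H = Cfsg.Geo.subgroupNormalizer R ⊓ (Cfsg.GU 8 F q ⊓ Cfsg.Geo.specialLinear (Fin 8) F)) ∨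
    Cfsg.Geo.InUnitaryResidualClass H := by
  classical
  have hq2 := CfsgLib.AschPrime.one_lt_q hF
  rcases CfsgLib.Aschbacher.Unitary.unitary_maximal_cases hF (by norm_num) hH with
    h | h | ⟨t, m, D, hD, htm, heq⟩ | ⟨m, D, hD, hm, hts, heq⟩ | ⟨r, K, hr, hro, hrd, -, -, -⟩ |
    ⟨d, k, e, P, f₁, f₂, hd, hdk, hdn, h1, h2, hT, heq⟩ | h | h | h | h | ⟨N, r, hN⟩ | ⟨d, S, hS⟩
  · exact Or.inl h
  · exact Or.inr <| Or.inl h
  · have ht := hD.decomp.two_le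
    have : t ≤ 8 := Nat.le_of_dvd (by norm_num) ⟨m, htm.symm⟩
    interval_cases t <;> first | omega | skip
    · obtain rfl : m = 4 := by omega
      exact Or.inr <| Or.inr <| Or.inr <| Or.inr <| Or.inl ⟨D, hD, heq⟩
    · obtain rfl : m = 2 := by omega
      by_cases hq : 3 ≤ q
      · exact Or.inr <| Or.inr <| Or.inr <| Or.inl ⟨hq, D, hD, heq⟩
      · obtain ⟨D2, hD2, hle2⟩ :=
          CfsgLib.Aschbacher.UnitarySmall.planes_lines hF (by omega) (by norm_num) hD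
        exact Or.inr <| Or.inr <| Or.inl ⟨D2, hD2, CfsgLib.AschPrime.eq_inf_of_isMaximalIn hH
          (fun g hg => hle2 g (heq.le hg).1 (heq.le hg).2.1)
          (CfsgLib.AschPrime.not_le_decompositionStabilizer hF hD2 (by norm_num) (Or.inr (by norm_num)))⟩
    · obtain rfl : m = 1 := by omega
      exact Or.inr <| Or.inr <| Or.inl ⟨D, hD, heq⟩
  · obtain rfl : m = 4 := by omega
    exact Or.inr <| Or.inr <| Or.inr <| Or.inr <| Or.inr <| Or.inl ⟨D, hD, hts, heq⟩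
  · exfalso
    obtain rfl : r = 2 := (Nat.prime_dvd_prime_iff_eq hr Nat.prime_two).1
      (hr.dvd_of_dvd_pow (show r ∣ 2 ^ 3 from hrd))
    exact absurd hro (by decide)
  · have : d ≤ 2 := by nlinarith
    obtain rfl : d = 2 := by omega
    obtain rfl : k = 4 := by omega
    by_cases hq : 3 ≤ q
    · exact Or.inr <| Or.inr <| Or.inr <| Or.inr <| Or.inr <| Or.inr <| Or.inl ⟨hq, e, P, f₁, f₂, h1, h2, hT, heq⟩
    · obtain ⟨D2, hD2, hle2⟩ :=
        CfsgLib.Aschbacher.UnitarySmall.tensor_halves hF (by omega) (by norm_num) h1 h2 hT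
      exact Or.inr <| Or.inr <| Or.inr <| Or.inr <| Or.inl ⟨D2, hD2, CfsgLib.AschPrime.eq_inf_of_isMaximalIn hH
        (fun g hg => hle2 g (heq.le hg).1 (heq.le hg).2.1)
        (CfsgLib.Aschbacher.Unitary.not_le_decomposition hF hD2 (by norm_num))⟩
  · exact Or.inr <| Or.inr <| Or.inr <| Or.inr <| Or.inr <| Or.inr <| Or.inr <| Or.inl h
  · exact Or.inr <| Or.inr <| Or.inr <| Or.inr <| Or.inr <| Or.inr <| Or.inr <| Or.inr <| Or.inr <| Or.inl h
  · exact Or.inr <| Or.inr <| Or.inr <| Or.inr <| Or.inr <| Or.inr <| Or.inr <| Or.inr <| Or.inl h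
  · exact Or.inr <| Or.inr <| Or.inr <| Or.inr <| Or.inr <| Or.inr <| Or.inr <| Or.inr <| Or.inr <| Or.inr <| Or.inr h
  · rcases CfsgLib.Aschbacher.Unitary.unitary_abelian_cases hF (by norm_num) hH hN with
      (h | h | h) | ⟨R, r', j, hsymp, hirr, hsim, hn, hr', hcz, hcR, hmin, hHR⟩
    · exact Or.inr <| Or.inr <| Or.inr <| Or.inr <| Or.inr <| Or.inr <| Or.inr <| Or.inl h
    · exact Or.inr <| Or.inr <| Or.inr <| Or.inr <| Or.inr <| Or.inr <| Or.inr <| Or.inr <| Or.inr <| Or.inl h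
    · exact Or.inr <| Or.inr <| Or.inr <| Or.inr <| Or.inr <| Or.inr <| Or.inr <| Or.inr <| Or.inl h
    have hj : j ≠ 0 := fun h0 => by rw [h0, pow_zero] at hn; omega
    obtain rfl : r = 2 := (Nat.prime_dvd_prime_iff_eq hN.prime Nat.prime_two).1
      (hN.prime.dvd_of_dvd_pow (n := 3) ((dvd_pow_self r hj).trans hn.symm.dvd))
    obtain rfl : r' = 4 := by rw [hr']; decide
    obtain rfl : j = 3 := Nat.pow_right_injective (le_refl 2) (show 2 ^ j = 2 ^ 3 from hn.symm)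
    obtain ⟨p, k, hp, -, hqk⟩ := CfsgLib.AschPrime.exists_char_pow hF
    obtain ⟨hp2, hd⟩ := hmin p k hp hqk
    have hodd := hp.odd_of_ne_two (Ne.symm hp2)
    have h2p := hp.two_le
    have h4 : 4 ∣ p ^ 2 - 1 := by
      obtain ⟨u, rfl⟩ := hodd
      exact ⟨u ^ 2 + u, Nat.sub_eq_of_eq_add (by ring)⟩
    obtain rfl : k = 1 := by
      have hk0 : k ≠ 0 := fun h0 => by rw [hqk, h0, pow_zero] at hq2; omega
      by_contra h1
      exact hd 2 two_pos (by omega) h4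
    have hp43 : p % 4 = 3 := by
      have h1 := hd 1 one_pos (by norm_num)
      rw [pow_one] at h1
      rw [Nat.odd_iff] at hodd
      omega
    exact Or.inr <| Or.inr <| Or.inr <| Or.inr <| Or.inr <| Or.inr <| Or.inr <| Or.inr <| Or.inr <| Or.inr <| Or.inl ⟨p, R, hp, by rw [hqk, pow_one], hp43, hsymp, hirr, hsim, hcR.trans (by norm_num), hcz, hHR⟩
  · have h1 := hS.two_le
    have h2 := hS.two_le_card
    have h8 := hS.card_eq
    rw [Fintype.card_fin] at h8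
    have hd2 : d = 2 := by
      by_contra hne
      have : 3 ^ 2 ≤ d ^ S.card :=
        (Nat.pow_le_pow_left (by omega) 2).trans (Nat.pow_le_pow_right (by omega) h2)
      omega
    subst hd2
    rcases CfsgLib.Aschbacher.Unitary.binary_tensor_induced hF (by norm_num) hH hS with h | h | h
    · exact Or.inr <| Or.inr <| Or.inr <| Or.inr <| Or.inr <| Or.inr <| Or.inr <| Or.inl h
    · exact Or.inr <| Or.inr <| Or.inr <| Or.inr <| Or.inr <| Or.inr <| Or.inr <| Or.inr <| Or.inr <| Or.inl h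
    · exact Or.inr <| Or.inr <| Or.inr <| Or.inr <| Or.inr <| Or.inr <| Or.inr <| Or.inr <| Or.inl h

end Cfsg.Agent.S5820
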