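import Cfsg.Statements.S5826
import Cfsg.Agent.Aschbacher.OrthEightMinus
import Cfsg.Agent.OrthGeo.PlusPlane

set_option autoImplicit false
open Cfsg
open CfsgLib.Aschbacher CfsgLib.Aschbacher.Forms

namespace Cfsg.Agent.S5826

/-- Every maximal subgroup of Ω_8^-(q) is of one of the listed geometric types or lies in the residual class. Let F be a finite field with q elements, Q a non-degenerate quadratic form on F^8 of minus type (no totally singular 4-space), Ω the commutator subgroup of its isometry group, and H a maximal subgroup of Ω (inside GL_8(F)). Then H is the intersection with Ω of one of: the stabiliser of a non-zero totally singular subspace; for q odd, the stabiliser of a non-degenerate subspace of odd dimension; the stabiliser of a non-degenerate 2-space of minus type; for q ≥ 4, the stabiliser of a non-degenerate 2-space of plus type; the stabiliser of a non-degenerate 4-space; for q even, the stabiliser of the span of a non-singular vector;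 the normaliser of a degree-2 subfield of the matrix algebra; a subfield group of odd prime index whose F₀-structure carries a non-zero multiple of Q — or else H lies in the residual class of the orthogonal case (modulo scalars H is almost simple, with absolutely irreducible perfect socle preimage realisable over no proper subfield and fixing no non-degenerate unitary form). -/
theorem result {F : Type*} [Field F] [Fintype F] (Q : (Fin 8 → F) → F) (hQ : Cfsg.Geo.IsNondegenerateQuadraticForm Q) (hminus : ¬ Cfsg.Geo.IsPlusTypeOn Q ⊤) (H : Subgroup (Matrix.GeneralLinearGroup (Fin 8) F)) (hH : Cfsg.Geo.IsMaximalIn (Cfsg.Geo.omegaGL Q) H) :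
    (∃ W : Submodule F (Fin 8 → F), W ≠ ⊥ ∧ Cfsg.Geo.IsTotallySingularQuad Q W ∧ H = Cfsg.Geo.subspaceStabilizer W ⊓ Cfsg.Geo.omegaGL Q) ∨
    (Odd (Fintype.card F) ∧ ∃ W : Submodule F (Fin 8 → F), W ≠ ⊥ ∧ W ≠ ⊤ ∧ Odd (Module.finrank F W) ∧ Cfsg.Geo.IsNondegenerateOn (QuadraticMap.polar Q) W ∧ H = Cfsg.Geo.subspaceStabilizer W ⊓ Cfsg.Geo.omegaGL Q) ∨
    (∃ W : Submodule F (Fin 8 → F), Module.finrank F W = 2 ∧ Cfsg.Geo.IsNondegenerateOn (QuadraticMap.polar Q) W ∧ ¬ Cfsg.Geo.IsPlusTypeOn Q W ∧ H = Cfsg.Geo.subspaceStabilizer W ⊓ Cfsg.Geo.omegaGL Q) ∨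
    (4 ≤ Fintype.card F ∧ ∃ W : Submodule F (Fin 8 → F), Module.finrank F W = 2 ∧ Cfsg.Geo.IsNondegenerateOn (QuadraticMap.polar Q) W ∧ Cfsg.Geo.IsPlusTypeOn Q W ∧ H = Cfsg.Geo.subspaceStabilizer W ⊓ Cfsg.Geo.omegaGL Q) ∨
    (∃ W : Submodule F (Fin 8 → F), Module.finrank F W = 4 ∧ Cfsg.Geo.IsNondegenerateOn (QuadraticMap.polar Q) W ∧ H = Cfsg.Geo.subspaceStabilizer W ⊓ Cfsg.Geo.omegaGL Q) ∨
    (¬ Odd (Fintype.card F) ∧ ∃ v : (Fin 8 → F), Q v ≠ 0 ∧ H = Cfsg.Geo.subspaceStabilizer (Submodule.span F {v}) ⊓ Cfsg.Geo.omegaGL Q) ∨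
    (∃ K : Subalgebra F (Matrix (Fin 8) (Fin 8) F), Cfsg.Geo.IsFieldSubalgebra 2 K ∧ H = Cfsg.Geo.subalgebraNormalizer K ⊓ Cfsg.Geo.omegaGL Q) ∨
    (∃ (F₀ : Subfield F) (r : ℕ) (P : Matrix.GeneralLinearGroup (Fin 8) F) (ζ : F), r.Prime ∧ Odd r ∧ Fintype.card F = Nat.card F₀ ^ r ∧ ζ ≠ 0 ∧ Cfsg.Geo.IsQuadFormRationalStructure (fun v : Fin 8 → F => ζ * Q v) F₀ P ∧ H = Cfsg.Geo.subfieldSubgroup F₀ P ⊓ Cfsg.Geo.omegaGL Q) ∨
    Cfsg.Geo.InOrthogonalResidualClass H := by
  classical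
  have h8 : Fintype.card (Fin 8) = 8 := Fintype.card_fin 8
  have hI : H ≤ Cfsg.isometryGroup F Q := hH.1.le.trans CfsgLib.OrthGeo.omegaGL_le
  rcases OrthEven.orth_even_maximal hQ (by omega) hH with
    (⟨W, h⟩ | ⟨W, h0, h1, hW, hd, ho, h⟩ | h | ⟨t, k, D, htk, ht, hk, hD, h⟩ |
      ⟨k, D, hD, hk, hts, -⟩ | ⟨r, K, hr, hrd, hK, -, h⟩ | ⟨K, hK, -, -, -, h⟩ |
      ⟨a, b, e, P, f₁, f₂, ha, hb, -, -, hab, -, -, -, hpure, -⟩ |
      ⟨-, a, b, e, P, f₁, f₂, ha, hb, hab, -⟩ |
      ⟨F₀, r, P, ζ, hr, hcard, hζ, hP, h⟩ | h) | ⟨N, r, hN⟩ | ⟨d, S, hS⟩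
  · exact Or.inl ⟨W, h⟩
  · rw [h8] at hd
    have hpos : 0 < Module.finrank F W := by
      rw [Nat.pos_iff_ne_zero, ne_eq, Submodule.finrank_eq_zero]; exact h0
    rcases (show Module.finrank F W = 1 ∨ Module.finrank F W = 2 ∨ Module.finrank F W = 3 ∨
      Module.finrank F W = 4 by omega) with hw | hw | hw | hw
    · have hodd : Odd (Module.finrank F W) := by rw [hw]; decide
      exact Or.inr <| Or.inl ⟨ho hodd, W, h0, h1, hodd, hW, h⟩
    · by_cases hp : Cfsg.Geo.IsPlusTypeOn Q W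
      · by_cases h4 : 4 ≤ Fintype.card F
        · exact Or.inr <| Or.inr <| Or.inr <| Or.inl ⟨h4, W, hw, hW, hp, h⟩
        exfalso
        obtain ⟨L, hL1, hL2⟩ := CfsgLib.OrthGeo.plus_plane_not_maximal hQ (by omega) (by omega) W hw hW hp
        rw [← h] at hL1
        rcases hH.2 L hL1.le hL2.le with hh | hh
        · exact hL1.ne' hh
        · exact hL2.ne hh
      · exact Or.inr <| Or.inr <| Or.inl ⟨W, hw, hW, hp, h⟩
    · have hodd : Odd (Module.finrank F W) := by rw [hw]; decide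
      exact Or.inr <| Or.inl ⟨ho hodd, W, h0, h1, hodd, hW, h⟩
    · exact Or.inr <| Or.inr <| Or.inr <| Or.inr <| Or.inl ⟨W, hw, hW, h⟩
  · exact Or.inr <| Or.inr <| Or.inr <| Or.inr <| Or.inr <| Or.inl h
  · exfalso
    rw [h8] at htk
    have : t ≤ 8 := Nat.le_of_dvd (by norm_num) ⟨k, htk.symm⟩
    interval_cases t <;> first | omega | skip
    · obtain rfl : k = 4 := by omega
      exact hminus (OrthEight.plus_of_two hQ (by decide) (by simp) hD)
    · obtain rfl : k = 2 := by omega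
      exact hminus (OrthEight.plus_of_four hQ h8 hD)
    · obtain rfl : k = 1 := by omega
      exact hminus (OrthEight.plus_of_eight hQ (two_ne_zero_of_odd_card (hk odd_one)) h8 hD)
  · exact absurd (OrthEight.plus_of_singular hQ (hts 0) (by rw [hD.finrank_eq]; exact hk)) hminus
  · rw [h8] at hrd
    obtain rfl : r = 2 := (Nat.prime_dvd_prime_iff_eq hr Nat.prime_two).1
      (hr.dvd_of_dvd_pow (show r ∣ 2 ^ 3 by simpa using hrd))
    exact Or.inr <| Or.inr <| Or.inr <| Or.inr <| Or.inr <| Or.inr <| Or.inl ⟨K, hK, h⟩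
  · exact Or.inr <| Or.inr <| Or.inr <| Or.inr <| Or.inr <| Or.inr <| Or.inl ⟨K, hK, h⟩
  · refine absurd (OrthEight.plus_of_pure hQ ha hb hab ?_ e P hpure) hminus
    rw [h8] at hab
    by_contra! hne
    have : 3 * 3 ≤ a * b := Nat.mul_le_mul (by omega) (by omega)
    omega
  · exfalso
    rw [h8] at hab
    have : 3 * 3 ≤ a * b := Nat.mul_le_mul ha hb
    omega
  · rcases hr.eq_two_or_odd' with rfl | hr'
    · exact absurd (OrthEight.plus_of_index_two hQ hcard hζ (by simp [h8]; decide) hP) hminus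
    · exact Or.inr <| Or.inr <| Or.inr <| Or.inr <| Or.inr <| Or.inr <| Or.inr <| Or.inl ⟨F₀, r, P, ζ, hr, hr', hcard, hζ, hP, h⟩
  · exact Or.inr <| Or.inr <| Or.inr <| Or.inr <| Or.inr <| Or.inr <| Or.inr <| Or.inr <| h
  · exact absurd (OrthEight.plus_of_scalar_commutators hQ (by simp) (by simp) (hN.le.trans hI) hN.absIrred hN.comm)
      hminus
  · exfalso
    have h1 := hS.two_le
    have h2S := hS.two_le_card
    have hd8 := hS.card_eq
    rw [h8] at hd8
    have hd9 : d ≤ 8 := hd8 ▸ Nat.le_self_pow (by omega) d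
    have hs3 : S.card ≤ 3 := by
      by_contra! hlt
      have h16 : 2 ^ 4 ≤ d ^ S.card := (Nat.pow_le_pow_left h1 4).trans (Nat.pow_le_pow_right (by omega) hlt)
      omega
    obtain ⟨e, P, hle⟩ := hS.exists_le_tensorWreath
    generalize hs : S.card = s at *
    interval_cases s <;> interval_cases d <;> first | omega | skip
    have hD : Cfsg.Geo.ActsAbsolutelyIrreducibly (Cfsg.Geo.matrixSet (⁅H, H⁆ : Subgroup _)) := by
      refine absIrred_of_adjoin_eq_top (eq_top_iff.2 ?_)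
      rw [← hS.sup_eq_top]
      refine iSup₂_le fun A hA => ?_
      obtain ⟨E, hE, hEA⟩ := hS.generated A hA
      rw [← hEA]
      exact Algebra.adjoin_mono (Set.image_mono hE)
    have hle' : (⁅H, H⁆ : Subgroup _) ≤ H := Subgroup.commutator_le.2 fun a ha b hb => by
      rw [commutatorElement_def]
      exact mul_mem (mul_mem (mul_mem ha hb) (inv_mem ha)) (inv_mem hb)
    exact hminus (OrthEight.plus_of_cube hQ hI (fun W hW => hD.1 W fun s hs => hW s
      (Set.image_mono hle' hs)) hD hle)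

end Cfsg.Agent.S5826
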