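import Cfsg.Statements.S5829
import Cfsg.Agent.Aschbacher.LinearClassSix
import Cfsg.Agent.Aschbacher.TensorSquareProper
import Cfsg.Agent.Aschbacher.TensorInduced

set_option autoImplicit false
open Cfsg

namespace Cfsg.Agent.S5829

/-- There is no symplectic form in odd dimension. -/
theorem no_symplectic {F : Type*} [Field F] {f : (Fin 9 → F) → (Fin 9 → F) → F} (hf : Cfsg.Geo.IsSymplecticForm f) :
    False := by
  have hs := CfsgLib.Aschbacher.IsSesquiForm.of_bilinear hf.bilinear
  exact CfsgLib.Aschbacher.det_gramMatrix_ne_zero hs hf.nondegenerate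
    (CfsgLib.Aschbacher.det_eq_zero_of_alternating (by decide) (fun a b => hf.skew _ _) fun a => hf.alternating _)

/-- Every maximal subgroup of SL_9(q) is of one of the listed geometric types or lies in the residual class. Let F be a finite field with q elements (p its characteristic) and H a maximal subgroup of SL_9(F) (inside GL_9(F)). Then H is the intersection with SL_9(F) of one of: the stabiliser of a proper non-zero subspace; for q ≥ 5, the stabiliser of a decomposition into 9 independent 1-spaces; the stabiliser of a decomposition into 3 independent 3-spaces; the normaliser of a degree-3 subfield of the matrix algebra; a subfield group for a subfield F₀ with |F| = |F₀|^r, r prime; for q = p prime with p ≡ 1 mod 3, the normaliser of an absolutely irreducible 3-subgroup R of exponent 3 and order 3^(1+2m) with centre of order 3, all of whose characteristic abelian subgroups are cyclic, F being the smallest field of characteristic p containing the cube roots of unity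 (here R is extraspecial of order 3^5); the stabiliser of a tensor decomposition into 2 factors of dimension 3; for q odd, the similarity group of a non-degenerate quadratic form; the similarity group of a non-degenerate unitary form — or else H lies in the residual class of the linear case (modulo scalars H is almost simple, with absolutely irreducible perfect socle preimage realisable over no proper subfield and fixing no non-degenerate quadratic, symplectic or unitary form). -/
theorem result {F : Type*} [Field F] [Fintype F] (H : Subgroup (Matrix.GeneralLinearGroup (Fin 9) F)) (hH : Cfsg.Geo.IsMaximalIn (Cfsg.Geo.specialLinear (Fin 9) F) H) :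
    (∃ W : Submodule F (Fin 9 → F), W ≠ ⊥ ∧ W ≠ ⊤ ∧ H = Cfsg.Geo.subspaceStabilizer W ⊓ Cfsg.Geo.specialLinear (Fin 9) F) ∨
    (5 ≤ Fintype.card F ∧ ∃ D : Fin 9 → Submodule F (Fin 9 → F), Cfsg.Geo.IsMDecomposition 1 D ∧ H = Cfsg.Geo.decompositionStabilizer D ⊓ Cfsg.Geo.specialLinear (Fin 9) F) ∨
    (∃ D : Fin 3 → Submodule F (Fin 9 → F), Cfsg.Geo.IsMDecomposition 3 D ∧ H = Cfsg.Geo.decompositionStabilizer D ⊓ Cfsg.Geo.specialLinear (Fin 9) F) ∨
    (∃ K : Subalgebra F (Matrix (Fin 9) (Fin 9) F), Cfsg.Geo.IsFieldSubalgebra 3 K ∧ H = Cfsg.Geo.subalgebraNormalizer K ⊓ Cfsg.Geo.specialLinear (Fin 9) F) ∨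
    (∃ (F₀ : Subfield F) (r : ℕ) (P : Matrix.GeneralLinearGroup (Fin 9) F), r.Prime ∧ Fintype.card F = Nat.card F₀ ^ r ∧ H = Cfsg.Geo.subfieldSubgroup F₀ P ⊓ Cfsg.Geo.specialLinear (Fin 9) F) ∨
    ((∃ p : ℕ, p.Prime ∧ Fintype.card F = p ∧ (p % 3 = 1)) ∧ ∃ R : Subgroup (Matrix.GeneralLinearGroup (Fin 9) F), Cfsg.Geo.IsLinearSymplecticTypeData 3 R ∧ H = Cfsg.Geo.subgroupNormalizer R ⊓ Cfsg.Geo.specialLinear (Fin 9) F) ∨
    (∃ (e : Fin 9 ≃ (Fin 2 → Fin 3)) (P : Matrix.GeneralLinearGroup (Fin 9) F), H = Cfsg.Geo.tensorWreathSubgroup 3 2 e P ⊓ Cfsg.Geo.specialLinear (Fin 9) F) ∨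
    (Odd (Fintype.card F) ∧ ∃ Q : (Fin 9 → F) → F, Cfsg.Geo.IsNondegenerateQuadraticForm Q ∧ H = Cfsg.Geo.quadSimilarityGroup Q ⊓ Cfsg.Geo.specialLinear (Fin 9) F) ∨
    (∃ (σ : F ≃+* F) (f : (Fin 9 → F) → (Fin 9 → F) → F), Cfsg.Geo.IsUnitaryForm σ f ∧ H = Cfsg.Geo.similarityGroup f ⊓ Cfsg.Geo.specialLinear (Fin 9) F) ∨
    Cfsg.Geo.InLinearResidualClass H := by
  classical
  rcases CfsgLib.Aschbacher.linear_maximal_cases (by simp) hH with
      ⟨W, hW⟩ | ⟨t, m, D, hD, htm, h1, -, h⟩ | ⟨r, K, hr, hrd, hK, h⟩ |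
      ⟨d, k, e, P, hd, hdk, hcard, -, hle, -⟩ | ⟨F₀, r, P, h⟩ | h | ⟨f, hf, -⟩ | h | h | ⟨N, r, hA⟩ | ⟨d, S, hS⟩
  · exact Or.inl ⟨W, hW⟩
  · have ht := hD.two_le
    simp only [Fintype.card_fin] at htm
    have : t ≤ 9 := Nat.le_of_dvd (by norm_num) ⟨m, htm.symm⟩
    interval_cases t <;> first | omega | skip
    · obtain rfl : m = 3 := by omega
      exact Or.inr <| Or.inr <| Or.inl ⟨D, hD, h⟩
    · obtain rfl : m = 1 := by omega
      exact Or.inr <| Or.inl ⟨h1 rfl, D, hD, h⟩
  · obtain rfl : r = 3 := (Nat.prime_dvd_prime_iff_eq hr Nat.prime_three).1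
      (hr.dvd_of_dvd_pow (show r ∣ 3 ^ 2 by simpa using hrd))
    exact Or.inr <| Or.inr <| Or.inr <| Or.inl ⟨K, hK, h⟩
  · simp only [Fintype.card_fin] at hcard
    have hd3 : d ≤ 3 := by nlinarith
    interval_cases d
    · omega
    · obtain rfl : k = 3 := by omega
      exact Or.inr <| Or.inr <| Or.inr <| Or.inr <| Or.inr <| Or.inr <| Or.inl ⟨_, P, CfsgLib.Aschbacher.eq_inf_of_le hH
        (hle.trans (CfsgLib.Aschbacher.TensorSquare.tensor_le_wreath e P))
        (CfsgLib.Aschbacher.TensorSquare.not_le_wreath le_rfl _ P)⟩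
  · exact Or.inr <| Or.inr <| Or.inr <| Or.inr <| Or.inl ⟨F₀, r, P, h⟩
  · exact Or.inr <| Or.inr <| Or.inr <| Or.inr <| Or.inr <| Or.inr <| Or.inr <| Or.inl h
  · exact (no_symplectic hf).elim
  · exact Or.inr <| Or.inr <| Or.inr <| Or.inr <| Or.inr <| Or.inr <| Or.inr <| Or.inr <| Or.inl h
  · exact Or.inr <| Or.inr <| Or.inr <| Or.inr <| Or.inr <| Or.inr <| Or.inr <| Or.inr <| Or.inr h
  · rcases CfsgLib.Aschbacher.linear_abelian_maximal (by simp) hH hA with
      ⟨R, hR, h⟩ | h | h | ⟨f, hf, -⟩ | h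
    · obtain ⟨j, hj, hrj⟩ := CfsgLib.Aschbacher.abelianData_isPrimePow (by simp) hA
      rw [Fintype.card_fin] at hrj
      obtain rfl : r = 3 := ((Nat.prime_dvd_prime_iff_eq Nat.prime_three hA.prime).1
        (Nat.prime_three.dvd_of_dvd_pow (hrj ▸ (by norm_num : 3 ∣ 9)))).symm
      obtain ⟨p, e, hp, hcard, hp3, hnum⟩ := CfsgLib.Aschbacher.symplecticTypeData_numbers (by simp) hR
      rcases hnum with ⟨-, he, hdvd, hmin⟩ | ⟨h3, -⟩
      swap
      · omega
      have hp1 : p % 3 ≠ 0 := fun h0 => hp3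
        ((Nat.prime_dvd_prime_iff_eq Nat.prime_three hp).1 (Nat.dvd_of_mod_eq_zero h0))
      have h2 : 3 ∣ p ^ 2 - 1 := by
        have hmod : p ^ 2 % 3 = 1 := by
          rw [Nat.pow_mod]
          rcases (show p % 3 = 1 ∨ p % 3 = 2 by omega) with h | h <;> rw [h]
        have : 1 ≤ p ^ 2 := Nat.one_le_pow _ _ hp.pos
        omega
      obtain rfl : e = 1 := by
        obtain ⟨u, rfl⟩ := he
        by_contra hne
        exact hmin 2 two_pos (by omega) h2
      rw [pow_one] at hdvd
      have := hp.two_le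
      exact Or.inr <| Or.inr <| Or.inr <| Or.inr <| Or.inr <| Or.inl ⟨⟨p, hp, by rw [hcard, pow_one], by omega⟩, R, hR, h⟩
    · exact Or.inr <| Or.inr <| Or.inr <| Or.inr <| Or.inl h
    · exact Or.inr <| Or.inr <| Or.inr <| Or.inr <| Or.inr <| Or.inr <| Or.inr <| Or.inl h
    · exact (no_symplectic hf).elim
    · exact Or.inr <| Or.inr <| Or.inr <| Or.inr <| Or.inr <| Or.inr <| Or.inr <| Or.inr <| Or.inl h
  · have h1 := hS.two_le
    have h2 := hS.two_le_card
    have h9 := hS.card_eq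
    rw [Fintype.card_fin] at h9
    obtain ⟨e, P, hle⟩ := hS.exists_le_tensorWreath
    generalize hs : S.card = s at *
    have hd9 : d ≤ 9 := h9 ▸ Nat.le_self_pow (by omega) d
    have hs3 : s ≤ 3 := by
      by_contra! hlt
      have h16 : 2 ^ 4 ≤ d ^ s := (Nat.pow_le_pow_left h1 4).trans (Nat.pow_le_pow_right (by omega) hlt)
      omega
    interval_cases s <;> interval_cases d <;> first | omega | skip
    exact Or.inr <| Or.inr <| Or.inr <| Or.inr <| Or.inr <| Or.inr <| Or.inl ⟨e, P, CfsgLib.Aschbacher.eq_inf_of_le hH hle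
      (CfsgLib.Aschbacher.TensorSquare.not_le_wreath le_rfl _ P)⟩

end Cfsg.Agent.S5829
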