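import Cfsg.Statements.S5832
import Cfsg.Agent.Aschbacher.UnitaryMaximal
import Cfsg.Agent.Aschbacher.UnitaryAbelian
import Cfsg.Agent.Aschbacher.UnitarySquare
import Cfsg.Agent.Aschbacher.SquareTwo

set_option autoImplicit false
open Cfsg

namespace Cfsg.Agent.S5832

open Matrix CfsgLib.Aschbacher
open scoped Kronecker

variable {F : Type*} [Field F] [Fintype F] {q : ℕ}

/-- A subfield structure of symplectic type needs even dimension. -/
theorem no_symplectic_structure (hF : Fintype.card F = q ^ 2) {n : ℕ} (hn : Odd n)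
    {F₀ : Subfield F} {P : Matrix.GeneralLinearGroup (Fin n) F}
    (hz : ∀ u : Fin n → F, (∀ i, u i ∈ F₀) → hermForm n F q ((P : Matrix (Fin n) (Fin n) F) *ᵥ u)
      ((P : Matrix (Fin n) (Fin n) F) *ᵥ u) = 0) : False := by
  classical
  set f₁ : (Fin n → F) → (Fin n → F) → F := fun u v =>
    hermForm n F q ((P : Matrix (Fin n) (Fin n) F) *ᵥ u) ((P : Matrix (Fin n) (Fin n) F) *ᵥ v) with hf₁
  have hs : IsSesquiForm (CfsgLib.AschPrime.qFrob hF : F ≃+* F).toRingHom f₁ :=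
    ⟨fun x y v => by simp [f₁, mulVec_add, CfsgLib.AschPrime.herm_add_left],
     fun c x v => by simp [f₁, mulVec_smul, CfsgLib.AschPrime.herm_smul_left],
     fun v x y => by simp [f₁, mulVec_add, CfsgLib.AschPrime.herm_add_right hF],
     fun c v x => by simp [f₁, mulVec_smul, CfsgLib.AschPrime.herm_smul_right hF]⟩
  have hinj : ∀ v : Fin n → F, v ≠ 0 → (P : Matrix (Fin n) (Fin n) F) *ᵥ v ≠ 0 := fun v hv h =>
    hv ((Matrix.mulVec_injective_iff_isUnit.2 P.isUnit) (h.trans (Matrix.mulVec_zero _).symm))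
  have hnd : Geo.IsNondegenerateForm f₁ := fun v hv => by
    obtain ⟨⟨x, hx⟩, ⟨y, hy⟩⟩ := CfsgLib.AschPrime.herm_isNondegenerateForm hF _ (hinj v hv)
    refine ⟨⟨((P⁻¹ : Matrix.GeneralLinearGroup (Fin n) F) : Matrix (Fin n) (Fin n) F) *ᵥ x, ?_⟩,
      ⟨((P⁻¹ : Matrix.GeneralLinearGroup (Fin n) F) : Matrix (Fin n) (Fin n) F) *ᵥ y, ?_⟩⟩ <;>
      simpa [f₁, Matrix.mulVec_mulVec]
  refine det_gramMatrix_ne_zero hs hnd ?_
  have hs1 : ∀ a k : Fin n, (Pi.single a (1 : F) : Fin n → F) k ∈ F₀ := fun a k => by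
    rcases eq_or_ne k a with rfl | h <;> simp [*, F₀.one_mem, F₀.zero_mem]
  have hd : ∀ a, f₁ (Pi.single a 1) (Pi.single a 1) = 0 := fun a => hz _ (hs1 a)
  refine det_eq_zero_of_alternating (by simpa using hn) (fun a b => ?_) hd
  have h := hz (Pi.single a 1 + Pi.single b 1) fun k => F₀.add_mem (hs1 a k) (hs1 b k)
  change f₁ (Pi.single a 1 + Pi.single b 1) (Pi.single a 1 + Pi.single b 1) = 0 at h
  rw [hs.add_left, hs.add_right, hs.add_right, hd, hd, zero_add, add_zero] at h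
  exact eq_neg_of_add_eq_zero_left h

/-- For `q = 2` the tensor square stabiliser normalises an extraspecial group. -/
theorem square_two (hF : Fintype.card F = q ^ 2) (hq : q = 2)
    {H : Subgroup (Matrix.GeneralLinearGroup (Fin 9) F)}
    (hH : Geo.IsMaximalIn (GU 9 F q ⊓ Geo.specialLinear (Fin 9) F) H)
    (e : Fin 9 ≃ Fin 3 × Fin 3) (P : Matrix.GeneralLinearGroup (Fin 9) F)
    (hform : ∀ x y : Fin 3 × Fin 3 → F, hermForm 9 F q (Forms.emb e P x) (Forms.emb e P y) =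
        ∑ p, x p * y p ^ q)
    (hle : H ≤ Geo.tensorWreathSubgroup 3 2 (TensorSquare.sqEquiv e) P) :
    ∃ R : Subgroup (Matrix.GeneralLinearGroup (Fin 9) F), Geo.IsSymplecticTypeGroup 3 R ∧
      Geo.ActsAbsolutelyIrreducibly (Geo.matrixSet R) ∧ R ≤ Geo.similarityGroup (hermForm 9 F q) ∧
      Nat.card R = 243 ∧ Nat.card (Subgroup.center R) = 3 ∧
      H = Geo.subgroupNormalizer R ⊓ (GU 9 F q ⊓ Geo.specialLinear (Fin 9) F) := by
  classical
  subst hq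
  have : Nonempty (Fin 9) := ⟨0⟩
  obtain ⟨ω, hω⟩ := SquareTwo.exists_isCube (F := F) (by rw [hF]; norm_num)
  obtain ⟨R, hmem, hsymp, hirr, hcR, hcZ, hscal⟩ := SquareTwo.exists_group hω e P
  have hsurj := Forms.emb_surjective (e := e) (P := P)
  have hRGU : R ≤ GU 9 F 2 := fun r hr => by
    rw [CfsgLib.AschPrime.mem_GU]
    intro u v
    obtain ⟨z, hz⟩ := (hmem r).1 hr
    obtain ⟨x, rfl⟩ := hsurj u
    obtain ⟨y, rfl⟩ := hsurj v
    rw [hz, Forms.tconj_mulVec_emb, Forms.tconj_mulVec_emb, hform, hform]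
    exact SquareTwo.isometry_W hω z x y
  have hnorm : H ≤ Geo.subgroupNormalizer R := le_normalizer_of_forall_conj fun g hg r hr =>
    SquareTwo.conj_mem hω e P hmem (hle hg) (fun Z hZ x y => by
      have h := CfsgLib.AschPrime.mem_GU.1 (hH.1.le hg).1 (Forms.emb e P x) (Forms.emb e P y)
      rw [hZ, Forms.tconj_mulVec_emb, Forms.tconj_mulVec_emb, hform, hform] at h
      exact h) r hr
  have : Finite R := Nat.finite_of_card_ne_zero (by omega)
  refine ⟨R, hsymp, hirr, fun r hr => ⟨1, fun u v => by rw [Units.val_one, one_mul]; exact CfsgLib.AschPrime.mem_GU.1 (hRGU hr) u v⟩,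
    hcR, hcZ, CfsgLib.AschPrime.eq_inf_of_isMaximalIn hH hnorm ?_⟩
  exact CfsgLib.AschPrime.not_le_subgroupNormalizer hF (by norm_num) hirr hscal (Or.inl (by norm_num))

theorem result {F : Type*} [Field F] [Fintype F] (q : ℕ) (hF : Fintype.card F = q ^ 2) (H : Subgroup (Matrix.GeneralLinearGroup (Fin 9) F)) (hH : Cfsg.Geo.IsMaximalIn (Cfsg.GU 9 F q ⊓ Cfsg.Geo.specialLinear (Fin 9) F) H) :
    (∃ W : Submodule F (Fin 9 → F), W ≠ ⊥ ∧ Cfsg.Geo.IsTotallySingularFor (Cfsg.hermForm 9 F q) W ∧ H = Cfsg.Geo.subspaceStabilizer W ⊓ (Cfsg.GU 9 F q ⊓ Cfsg.Geo.specialLinear (Fin 9) F)) ∨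
    (∃ W : Submodule F (Fin 9 → F), W ≠ ⊥ ∧ Cfsg.Geo.IsNondegenerateOn (Cfsg.hermForm 9 F q) W ∧ 2 * Module.finrank F W < 9 ∧ H = Cfsg.Geo.subspaceStabilizer W ⊓ (Cfsg.GU 9 F q ⊓ Cfsg.Geo.specialLinear (Fin 9) F)) ∨
    (∃ D : Fin 9 → Submodule F (Fin 9 → F), Cfsg.Geo.IsNondegenerateMDecomposition (Cfsg.hermForm 9 F q) 1 D ∧ H = Cfsg.Geo.decompositionStabilizer D ⊓ (Cfsg.GU 9 F q ⊓ Cfsg.Geo.specialLinear (Fin 9) F)) ∨
    (∃ D : Fin 3 → Submodule F (Fin 9 → F), Cfsg.Geo.IsNondegenerateMDecomposition (Cfsg.hermForm 9 F q) 3 D ∧ H = Cfsg.Geo.decompositionStabilizer D ⊓ (Cfsg.GU 9 F q ⊓ Cfsg.Geo.specialLinear (Fin 9) F)) ∨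
    (∃ K : Subalgebra F (Matrix (Fin 9) (Fin 9) F), Cfsg.Geo.IsFieldSubalgebra 3 K ∧ Cfsg.Geo.IsAdjointClosedFor (Cfsg.hermForm 9 F q) K ∧ H = Cfsg.Geo.subalgebraNormalizer K ⊓ (Cfsg.GU 9 F q ⊓ Cfsg.Geo.specialLinear (Fin 9) F)) ∨
    (∃ (F₀ : Subfield F) (r : ℕ) (P : Matrix.GeneralLinearGroup (Fin 9) F), r.Prime ∧ Odd r ∧ Fintype.card F = Nat.card F₀ ^ r ∧ Cfsg.Geo.IsFormRationalStructure (Cfsg.hermForm 9 F q) F₀ 1 P ∧ H = Cfsg.Geo.subfieldSubgroup F₀ P ⊓ (Cfsg.GU 9 F q ⊓ Cfsg.Geo.specialLinear (Fin 9) F)) ∨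
    (Odd q ∧ ∃ (F₀ : Subfield F) (P : Matrix.GeneralLinearGroup (Fin 9) F), Fintype.card F = Nat.card F₀ ^ 2 ∧ Cfsg.Geo.IsFormRationalStructure (Cfsg.hermForm 9 F q) F₀ 1 P ∧ H = Cfsg.Geo.subfieldSubgroup F₀ P ⊓ (Cfsg.GU 9 F q ⊓ Cfsg.Geo.specialLinear (Fin 9) F)) ∨
    (∃ (p : ℕ) (R : Subgroup (Matrix.GeneralLinearGroup (Fin 9) F)), p.Prime ∧ q = p ∧ p % 3 = 2 ∧ Cfsg.Geo.IsSymplecticTypeGroup 3 R ∧ Cfsg.Geo.ActsAbsolutelyIrreducibly (Cfsg.Geo.matrixSet R) ∧ R ≤ Cfsg.Geo.similarityGroup (Cfsg.hermForm 9 F q) ∧ Nat.card R = 243 ∧ Nat.card (Subgroup.center R) = 3 ∧ H = Cfsg.Geo.subgroupNormalizer R ⊓ (Cfsg.GU 9 F q ⊓ Cfsg.Geo.specialLinear (Fin 9) F)) ∨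
    (3 ≤ q ∧ ∃ (e : Fin 9 ≃ (Fin 2 → Fin 3)) (P : Matrix.GeneralLinearGroup (Fin 9) F) (f₁ : (Fin 3 → F) → (Fin 3 → F) → F), Cfsg.Geo.IsUnitaryFormPow q f₁ ∧ Cfsg.Geo.IsTensorPowerFormStructure (fun x : F => x ^ q) (Cfsg.hermForm 9 F q) f₁ e P ∧ H = Cfsg.Geo.tensorWreathSubgroup 3 2 e P ⊓ (Cfsg.GU 9 F q ⊓ Cfsg.Geo.specialLinear (Fin 9) F)) ∨
    Cfsg.Geo.InUnitaryResidualClass H := by
  classical
  have : Nonempty (Fin 9) := ⟨0⟩
  have hq2 := CfsgLib.AschPrime.one_lt_q hF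
  have hf := Unitary.herm_rform (n := 9) hF
  -- the tensor square alternatives
  have hsquare : ∀ (e : Fin 9 ≃ Fin 3 × Fin 3) (P : Matrix.GeneralLinearGroup (Fin 9) F)
      (X C : Matrix (Fin 3) (Fin 3) F), IsUnit X → IsUnit C →
      Forms.pullGram (hermForm 9 F q) e P = X ⊗ₖ C →
      (∀ P' : Matrix.GeneralLinearGroup (Fin 9) F, RankArgument.factorAlg e P' = RankArgument.factorAlg e P →
        H ≤ Geo.tensorWreathSubgroup 3 2 (TensorSquare.sqEquiv e) P') →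
      (∃ (p : ℕ) (R : Subgroup (Matrix.GeneralLinearGroup (Fin 9) F)), p.Prime ∧ q = p ∧ p % 3 = 2 ∧
        Geo.IsSymplecticTypeGroup 3 R ∧ Geo.ActsAbsolutelyIrreducibly (Geo.matrixSet R) ∧
        R ≤ Geo.similarityGroup (hermForm 9 F q) ∧ Nat.card R = 243 ∧ Nat.card (Subgroup.center R) = 3 ∧
        H = Geo.subgroupNormalizer R ⊓ (GU 9 F q ⊓ Geo.specialLinear (Fin 9) F)) ∨
      (3 ≤ q ∧ ∃ (e : Fin 9 ≃ (Fin 2 → Fin 3)) (P : Matrix.GeneralLinearGroup (Fin 9) F)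
        (f₁ : (Fin 3 → F) → (Fin 3 → F) → F), Geo.IsUnitaryFormPow q f₁ ∧
        Geo.IsTensorPowerFormStructure (fun x : F => x ^ q) (hermForm 9 F q) f₁ e P ∧
        H = Geo.tensorWreathSubgroup 3 2 e P ⊓ (GU 9 F q ⊓ Geo.specialLinear (Fin 9) F)) := by
    intro e P X C hX hC hpull hle
    obtain ⟨P', hform, hu, hst, heq⟩ := Unitary.square_structure hF hH (by norm_num) e P hX hC hpull hle
    by_cases hq3 : 3 ≤ q
    · exact Or.inr ⟨hq3, _, P', _, hu, hst, heq⟩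
    · obtain ⟨R, h⟩ := square_two hF (by omega) hH e P' hform (heq.le.trans inf_le_left)
      exact Or.inl ⟨2, R, Nat.prime_two, by omega, rfl, h⟩
  rcases Unitary.unitary_maximal_cases hF (by norm_num) hH with h | h | ⟨t, m, D, hD, htm, hHD⟩ |
    ⟨m, D, -, hm, -⟩ | ⟨r, K, hr, hodd, hr9, hK, hadj, hHK⟩ |
    ⟨d, k, e, P, f₁, f₂, hd, hdk, hcard, hf₁, hf₂, hst, hHT⟩ | h | h |
    ⟨F₀, P, ζ, -, -, -, -, hz, -⟩ | h | ⟨N, r, hA⟩ | ⟨d, S, hS⟩
  · exact Or.inl h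
  · exact Or.inr (Or.inl h)
  · have ht := hD.decomp.two_le
    have hm := hD.decomp.pos
    have ht9 : t ∣ 9 := ⟨m, htm.symm⟩
    have : t ≤ 9 := Nat.le_of_dvd (by norm_num) ht9
    interval_cases t <;> first | omega | skip
    · obtain rfl : m = 3 := by omega
      exact Or.inr <| Or.inr <| Or.inr <| Or.inl ⟨D, hD, hHD⟩
    · obtain rfl : m = 1 := by omega
      exact Or.inr <| Or.inr <| Or.inl ⟨D, hD, hHD⟩
  · omega
  · have hr3 : r = 3 := by
      have : r ∣ 3 := hr.dvd_of_dvd_pow (show r ∣ 3 ^ 2 from hr9)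
      exact (Nat.prime_dvd_prime_iff_eq hr Nat.prime_three).1 this
    subst hr3
    exact Or.inr <| Or.inr <| Or.inr <| Or.inr <| Or.inl ⟨K, hK, hadj, hHK⟩
  · have hd3 : d = 3 ∧ k = 3 := by
      have h9 : d ≤ 9 := by nlinarith
      interval_cases d <;> omega
    obtain ⟨rfl, rfl⟩ := hd3
    have hsq := hf.sesq
    obtain ⟨c, hc, hc2⟩ := hst
    set σ := (CfsgLib.AschPrime.qFrob hF : F ≃+* F).toRingHom
    have hgm : ∀ {g : (Fin 3 → F) → (Fin 3 → F) → F}, Geo.IsUnitaryFormPow q g → IsUnit (Geo.gramMatrix g) := by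
      intro g hg
      refine (Matrix.isUnit_iff_isUnit_det _).2 (isUnit_iff_ne_zero.2 (det_gramMatrix_ne_zero (σ := σ) ?_ hg.nondegenerate))
      refine ⟨hg.add_left, hg.smul_left, fun v x y => ?_, fun a v x => ?_⟩
      · rw [hg.herm v, hg.add_left, CfsgLib.AschPrime.q_add_pow hF, ← hg.herm v x, ← hg.herm v y]
      · rw [hg.herm v, hg.smul_left, mul_pow, ← hg.herm v x]
        rfl
    have hpull : Forms.pullGram (hermForm 9 F q) e P = (c • Geo.gramMatrix f₁) ⊗ₖ Geo.gramMatrix f₂ := by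
      ext i j
      rw [Forms.pullGram, Forms.emb, Forms.emb, hc2, Matrix.smul_kronecker, Matrix.smul_apply, smul_eq_mul]
      exact congrArg (c * ·) (Forms.formOfGram_single σ _ i j)
    have hX : IsUnit (c • Geo.gramMatrix f₁) := by simpa using (hgm hf₁).smul (Units.mk0 c hc)
    rcases hsquare e P _ _ hX (hgm hf₂) hpull (fun P' hfac => by
      intro g hg
      have hgN := RankArgument.tensorProductSubgroup_le_normalizer e P ((hHT.le hg).1)
      rw [← hfac] at hgN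
      exact TensorSquare.tensor_le_wreath e P' (mem_tensorProductSubgroup_of_normalizes e P' fun X =>
        (RankArgument.mem_factorAlg e P').1 ((hgN _).1 ⟨X, rfl⟩))) with h | h
    · exact Or.inr <| Or.inr <| Or.inr <| Or.inr <| Or.inr <| Or.inr <| Or.inr <| Or.inl h
    · exact Or.inr <| Or.inr <| Or.inr <| Or.inr <| Or.inr <| Or.inr <| Or.inr <| Or.inr <| Or.inl h
  · exact Or.inr <| Or.inr <| Or.inr <| Or.inr <| Or.inr <| Or.inl h
  · exact Or.inr <| Or.inr <| Or.inr <| Or.inr <| Or.inr <| Or.inr <| Or.inl h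
  · exact (no_symplectic_structure hF (by decide) hz).elim
  · exact Or.inr <| Or.inr <| Or.inr <| Or.inr <| Or.inr <| Or.inr <| Or.inr <| Or.inr <| Or.inr h
  · rcases Unitary.unitary_abelian_cases hF (by norm_num) hH hA with
      (h | h | ⟨F₀, P, ζ, -, -, -, -, hz, -⟩) | ⟨R, r', j, hsymp, hirr, hsim, hn, hr', hcz, hcR, hmin, hHR⟩
    · exact Or.inr <| Or.inr <| Or.inr <| Or.inr <| Or.inr <| Or.inl h
    · exact Or.inr <| Or.inr <| Or.inr <| Or.inr <| Or.inr <| Or.inr <| Or.inl h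
    · exact (no_symplectic_structure hF (by decide) hz).elim
    have hr3 : r = 3 := by
      have hj : j ≠ 0 := fun h0 => by rw [h0, pow_zero] at hn; omega
      have h9 : r ∣ 3 ^ 2 := ⟨r ^ (j - 1), by
        rw [← pow_succ', Nat.sub_add_cancel (Nat.pos_of_ne_zero hj)]; exact hn⟩
      exact (Nat.prime_dvd_prime_iff_eq hA.prime Nat.prime_three).1 (hA.prime.dvd_of_dvd_pow h9)
    subst hr3
    obtain rfl : r' = 3 := by rw [hr']; decide
    obtain rfl : j = 2 := Nat.pow_right_injective (by norm_num) (show 3 ^ j = 3 ^ 2 from hn.symm)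
    obtain ⟨p, k, hp, -, hqk⟩ := CfsgLib.AschPrime.exists_char_pow hF
    obtain ⟨hp3, hd⟩ := hmin p k hp hqk
    have hpm : p % 3 ≠ 0 := fun h0 => hp3
      ((Nat.prime_dvd_prime_iff_eq Nat.prime_three hp).1 (Nat.dvd_of_mod_eq_zero h0))
    have hp2 := hp.two_le
    have h2 : 3 ∣ p ^ 2 - 1 := by
      have hmod : p ^ 2 % 3 = 1 := by
        rw [Nat.pow_mod]
        rcases (show p % 3 = 1 ∨ p % 3 = 2 by omega) with h | h <;> rw [h]
      have : 1 ≤ p ^ 2 := Nat.one_le_pow _ _ hp.pos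
      omega
    have hk1 : k = 1 := by
      have hk0 : k ≠ 0 := fun h0 => by rw [hqk, h0, pow_zero] at hq2; omega
      by_contra h1
      exact hd 2 two_pos (by omega) h2
    subst hk1
    have hp23 : p % 3 = 2 := by
      have h1 := hd 1 one_pos (by norm_num)
      rw [pow_one] at h1
      omega
    exact Or.inr <| Or.inr <| Or.inr <| Or.inr <| Or.inr <| Or.inr <| Or.inr <| Or.inl
      ⟨p, R, hp, by rw [hqk, pow_one], hp23, hsymp, hirr, hsim, hcR.trans (by norm_num), hcz, hHR⟩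
  · have hd3 : d = 3 ∧ S.card = 2 := by
      have h1 := hS.two_le
      have h2 := hS.two_le_card
      have h9 := hS.card_eq
      rw [Fintype.card_fin] at h9
      have hd9 : d ≤ 9 := h9 ▸ Nat.le_self_pow (by omega) d
      have hdvd : d ∣ 3 ^ 2 := ⟨d ^ (S.card - 1), by
        rw [← pow_succ', Nat.sub_add_cancel (by omega)]; exact h9⟩
      have h3 : 3 ∣ d := by
        obtain ⟨i, hi, rfl⟩ := (Nat.dvd_prime_pow Nat.prime_three).1 hdvd
        exact dvd_pow_self 3 fun h0 => by simp [h0] at h1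
      obtain ⟨i, hi, rfl⟩ := (Nat.dvd_prime_pow Nat.prime_three).1 hdvd
      rw [← pow_mul] at h9
      have h4 : i * S.card = 2 := Nat.pow_right_injective (by norm_num : 2 ≤ 3) h9.symm
      obtain rfl : i = 1 := by
        rcases (show i = 0 ∨ i = 1 ∨ i = 2 by omega) with h | h | h <;> subst h <;> omega
      exact ⟨by norm_num, by omega⟩
    obtain ⟨rfl, hc2⟩ := hd3
    obtain ⟨A, hA⟩ := Finset.card_pos.1 (show 0 < S.card by omega)
    obtain ⟨φ, hφ⟩ := hS.matrix A hA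
    obtain ⟨k, e, P, hP⟩ := exists_tensor φ
    obtain rfl : k = 3 := by
      have := Fintype.card_congr e
      simp at this
      omega
    have hAe : A = RankArgument.factorAlg e P := by
      ext Z
      rw [← hφ, AlgHom.mem_range, RankArgument.mem_factorAlg]
      exact exists_congr fun Y => by rw [hP, eq_comm]
    obtain ⟨D, hD, hDA⟩ := hS.generated A hA
    have hHH : ⁅H, H⁆ ≤ H := Subgroup.commutator_le.2 fun a ha b hb => by
      rw [commutatorElement_def]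
      exact H.mul_mem (H.mul_mem (H.mul_mem ha hb) (H.inv_mem ha)) (H.inv_mem hb)
    have hcl : ∀ M : Matrix (Fin 3) (Fin 3) F, ∃ M' : Matrix (Fin 3) (Fin 3) F,
        Forms.IsAdj (hermForm 9 F q) (tconj e P (M ⊗ₖ (1 : Matrix (Fin 3) (Fin 3) F)))
          (tconj e P (M' ⊗ₖ (1 : Matrix (Fin 3) (Fin 3) F))) := by
      intro M
      have hmem : tconj e P (M ⊗ₖ (1 : Matrix (Fin 3) (Fin 3) F)) ∈ Algebra.adjoin F (Geo.matrixSet D) := by
        rw [hDA, hAe]; exact ⟨M, rfl⟩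
      obtain ⟨Y, hY, hadj⟩ := Forms.closed_adjoin hf (fun g hg => (hH.1.le (hHH (hD hg))).1) _ hmem
      rw [hDA, hAe] at hY
      obtain ⟨M', rfl⟩ := (RankArgument.mem_factorAlg e P).1 hY
      exact ⟨M', hadj⟩
    obtain ⟨X, C, hX, hC, hpull⟩ := Forms.exists_pullGram_eq_kronecker hf hcl
    rcases hsquare e P X C hX hC hpull (fun P' hfac =>
      TensorSquare.le_wreath_of_commutingData e P' hS hc2 hA (hAe.trans hfac.symm)) with h | h
    · exact Or.inr <| Or.inr <| Or.inr <| Or.inr <| Or.inr <| Or.inr <| Or.inr <| Or.inl h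
    · exact Or.inr <| Or.inr <| Or.inr <| Or.inr <| Or.inr <| Or.inr <| Or.inr <| Or.inr <| Or.inl h

end Cfsg.Agent.S5832
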