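import Cfsg.Statements.S5835
import Cfsg.Agent.Aschbacher.OrthNine
import Cfsg.Agent.Aschbacher.LinearCases
import Cfsg.Agent.AschPrime.OrthPrime

set_option autoImplicit false
open Cfsg
open CfsgLib.Aschbacher CfsgLib.Aschbacher.Forms

namespace Cfsg.Agent.S5835

/-- Every maximal subgroup of Ω_9(q), q odd, is of one of the listed geometric types or lies in the residual class. Let F be a finite field of odd order q, Q the standard quadratic form x₀² + Σ x_i y_i on F^9 (coordinates Unit ⊕ (Fin 4 ⊕ Fin 4)), Ω the commutator subgroup of its isometry group, and H a maximal subgroup of Ω (inside GL_9(F)). Then H is the intersection with Ω of one of: the stabiliser of a non-zero totally singular subspace; the stabiliser of a non-zero non-degenerate subspace of even dimension (not a plus-type plane when q = 3); for q prime, the stabiliser of a decomposition into nine pairwise orthogonal, pairwise isometric non-degenerate 1-spaces; for q ≥ 5, the stabiliser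 of a decomposition into three pairwise orthogonal, pairwise isometric non-degenerate 3-spaces; the normaliser of a degree-3 subfield of the matrix algebra, self-adjoint for the polar form; a subfield group (|F| = |F₀|^r, r prime) whose F₀-structure carries Q; for q ≥ 5, the stabiliser of a tensor decomposition of the polar form as a tensor square of a symmetric form on F^3 — or else H lies in the residual class of the orthogonal case (modulo scalars H is almost simple, with absolutely irreducible perfect socle preimage realisable over no proper subfield and fixing no non-degenerate unitary form). -/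
theorem result {F : Type*} [Field F] [Fintype F] (hodd : Odd (Fintype.card F)) (H : Subgroup (Matrix.GeneralLinearGroup (Unit ⊕ (Fin 4 ⊕ Fin 4)) F)) (hH : Cfsg.Geo.IsMaximalIn (Cfsg.Geo.omegaGL (Cfsg.quadFormOdd 4 F)) H) :
    (∃ W : Submodule F (Unit ⊕ (Fin 4 ⊕ Fin 4) → F), W ≠ ⊥ ∧ Cfsg.Geo.IsTotallySingularQuad (Cfsg.quadFormOdd 4 F) W ∧ H = Cfsg.Geo.subspaceStabilizer W ⊓ Cfsg.Geo.omegaGL (Cfsg.quadFormOdd 4 F)) ∨
    (∃ W : Submodule F (Unit ⊕ (Fin 4 ⊕ Fin 4) → F), W ≠ ⊥ ∧ Even (Module.finrank F W) ∧ Cfsg.Geo.IsNondegenerateOn (QuadraticMap.polar (Cfsg.quadFormOdd 4 F)) W ∧ ¬ (Fintype.card F = 3 ∧ Module.finrank F W = 2 ∧ Cfsg.Geo.IsPlusTypeOn (Cfsg.quadFormOdd 4 F) W) ∧ H = Cfsg.Geo.subspaceStabilizer W ⊓ Cfsg.Geo.omegaGL (Cfsg.quadFormOdd 4 F)) ∨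
    ((Fintype.card F).Prime ∧ ∃ D : Fin 9 → Submodule F (Unit ⊕ (Fin 4 ⊕ Fin 4) → F), Cfsg.Geo.IsOrthogonalMDecomposition (Cfsg.quadFormOdd 4 F) 1 D ∧ H = Cfsg.Geo.decompositionStabilizer D ⊓ Cfsg.Geo.omegaGL (Cfsg.quadFormOdd 4 F)) ∨
    (5 ≤ Fintype.card F ∧ ∃ D : Fin 3 → Submodule F (Unit ⊕ (Fin 4 ⊕ Fin 4) → F), Cfsg.Geo.IsOrthogonalMDecomposition (Cfsg.quadFormOdd 4 F) 3 D ∧ H = Cfsg.Geo.decompositionStabilizer D ⊓ Cfsg.Geo.omegaGL (Cfsg.quadFormOdd 4 F)) ∨
    (∃ K : Subalgebra F (Matrix (Unit ⊕ (Fin 4 ⊕ Fin 4)) (Unit ⊕ (Fin 4 ⊕ Fin 4)) F), Cfsg.Geo.IsFieldSubalgebra 3 K ∧ Cfsg.Geo.IsSelfAdjointFor (QuadraticMap.polar (Cfsg.quadFormOdd 4 F)) K ∧ H = Cfsg.Geo.subalgebraNormalizer K ⊓ Cfsg.Geo.omegaGL (Cfsg.quadFormOdd 4 F)) ∨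
    (∃ (F₀ : Subfield F) (r : ℕ) (P : Matrix.GeneralLinearGroup (Unit ⊕ (Fin 4 ⊕ Fin 4)) F), r.Prime ∧ Fintype.card F = Nat.card F₀ ^ r ∧ Cfsg.Geo.IsQuadFormRationalStructure (Cfsg.quadFormOdd 4 F) F₀ P ∧ H = Cfsg.Geo.subfieldSubgroup F₀ P ⊓ Cfsg.Geo.omegaGL (Cfsg.quadFormOdd 4 F)) ∨
    (5 ≤ Fintype.card F ∧ ∃ (e : (Unit ⊕ (Fin 4 ⊕ Fin 4)) ≃ (Fin 2 → Fin 3)) (P : Matrix.GeneralLinearGroup (Unit ⊕ (Fin 4 ⊕ Fin 4)) F) (f₁ : (Fin 3 → F) → (Fin 3 → F) → F), Cfsg.Geo.IsSymmetricForm f₁ ∧ Cfsg.Geo.IsTensorPowerFormStructure id (QuadraticMap.polar (Cfsg.quadFormOdd 4 F)) f₁ e P ∧ H = Cfsg.Geo.tensorWreathSubgroup 3 2 e P ⊓ Cfsg.Geo.omegaGL (Cfsg.quadFormOdd 4 F)) ∨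
    Cfsg.Geo.InOrthogonalResidualClass H := by
  classical
  have h2 : (2 : F) ≠ 0 := CfsgLib.AschPrime.two_ne_zero_of_odd_card hodd
  have hQ := CfsgLib.OrthGeo.isNondegenerateQuadraticForm_quadFormOdd 4 h2
  have hdef := CfsgLib.AschPrime.quadFormOdd_gram_mem h2 4
  have hn : Odd (Fintype.card (Unit ⊕ (Fin 4 ⊕ Fin 4))) := by simp; decide
  have h9 : Fintype.card (Unit ⊕ (Fin 4 ⊕ Fin 4)) = 9 := by simp
  let num : (Unit ⊕ (Fin 4 ⊕ Fin 4)) ≃ Fin 9 := Fintype.equivFinOfCardEq h9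
  have hI : H ≤ Cfsg.isometryGroup F (Cfsg.quadFormOdd 4 F) := hH.1.le.trans CfsgLib.OrthGeo.omegaGL_le
  rcases CfsgLib.Aschbacher.OrthEven.orth_even_maximal hQ (by omega) hH with
    (⟨W, h⟩ | ⟨W, h0, h1, -, -, -, h⟩ | ⟨hev, -⟩ | ⟨t, k, D, htk, ht, -, hD, h⟩ |
      ⟨k, D, -, hk, -⟩ | ⟨r, K, hr, hrd, hK, hsa, h⟩ | ⟨K, hK, -⟩ |
      ⟨a, b, e, P, f₁, f₂, -, -, hae, hbe, hab, -⟩ |
      ⟨-, a, b, e, P, f₁, f₂, ha, hb, hab, hf₁, hf₂, ⟨c, hc, hs⟩, h⟩ |
      ⟨F₀, r, P, ζ, hr, hcard, hζ, hP, h⟩ | h) | ⟨N, r, hN⟩ | ⟨d, S, hS⟩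
  · exact Or.inl ⟨W, h⟩
  · rcases CfsgLib.AschPrime.orth_reducible hQ h2 hn (by omega) hH h0 h1 (h.le.trans inf_le_left) with h' | h'
    · exact Or.inl h'
    · exact Or.inr <| Or.inl h'
  · exact absurd hodd hev
  · rw [h9] at htk
    have : t ≤ 9 := Nat.le_of_dvd (by norm_num) ⟨k, htk.symm⟩
    interval_cases t <;> first | omega | skip
    · obtain rfl : k = 3 := by omega
      by_cases h5 : 5 ≤ Fintype.card F
      · exact Or.inr <| Or.inr <| Or.inr <| Or.inl ⟨h5, D, hD, h⟩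
      have hq : Fintype.card F = 3 := by
        have := Fintype.one_lt_card (α := F)
        obtain ⟨j, hj⟩ := hodd
        omega
      rcases OrthNine.three_blocks hQ h2 hn (by omega) hdef num hH hq h9 hD (h.le.trans inf_le_left) with h' | h'
      · exact Or.inr <| Or.inr <| Or.inl h'
      · exact Or.inr <| Or.inr <| Or.inr <| Or.inr <| Or.inr <| Or.inl h'
    · obtain rfl : k = 1 := by omega
      rcases OrthNine.line_blocks hQ h2 hn (by omega) hdef num hH h9.symm hD (h.le.trans inf_le_left) with h' | h'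
      · exact Or.inr <| Or.inr <| Or.inl h'
      · exact Or.inr <| Or.inr <| Or.inr <| Or.inr <| Or.inr <| Or.inl h'
  · omega
  · rw [h9] at hrd
    obtain rfl : r = 3 := (Nat.prime_dvd_prime_iff_eq hr Nat.prime_three).1
      (hr.dvd_of_dvd_pow (show r ∣ 3 ^ 2 by simpa using hrd))
    exact Or.inr <| Or.inr <| Or.inr <| Or.inr <| Or.inl ⟨K, hK, hsa, h⟩
  · have := finrank_dvd_card hK.inv
    rw [hK.finrank_eq, h9] at this
    omega
  · have he := hae.mul_right b
    rw [hab, h9] at he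
    exact absurd he (by decide)
  · rw [h9] at hab
    have : a ≤ 3 := by nlinarith
    obtain rfl : a = 3 := by omega
    obtain rfl : b = 3 := by omega
    have hu : ∀ {g : (Fin 3 → F) → (Fin 3 → F) → F}, Cfsg.Geo.IsSymmetricForm g →
        IsUnit (Cfsg.Geo.gramMatrix g) := fun hg => by
      rw [Matrix.isUnit_iff_isUnit_det, isUnit_iff_ne_zero]
      exact det_gramMatrix_ne_zero (.of_bilinear hg.bilinear) hg.nondegenerate
    have hΓ : powGram (QuadraticMap.polar (Cfsg.quadFormOdd 4 F)) (TensorSquare.sqEquiv e) P =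
        c • kroneckerPow ![Cfsg.Geo.gramMatrix f₁, Cfsg.Geo.gramMatrix f₂] := by
      ext p q
      show QuadraticMap.polar _ (powEmb _ _ _) (powEmb _ _ _) = _
      have hpe : ∀ p : Fin 2 → Fin 3, powEmb (TensorSquare.sqEquiv e) P (Pi.single p (1 : F)) =
          P.val.mulVec ((Pi.single (p 0, p 1) (1 : F) : Fin 3 × Fin 3 → F) ∘ e) := fun p => by
        rw [powEmb]
        congr 1
        funext i
        simp only [Function.comp_apply, Pi.single_apply]
        refine if_congr ⟨fun h => ?_, fun h => ?_⟩ rfl rfl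
        · rw [← TensorSquare.sqEquiv_apply e i, h]
        · have h' := (TensorSquare.sqEquiv_apply e i).trans h
          funext j
          fin_cases j
          · exact congrArg Prod.fst h'
          · exact congrArg Prod.snd h'
      rw [hpe, hpe, hs, Matrix.smul_apply, smul_eq_mul, kroneckerPow, Matrix.of_apply, Fin.prod_univ_two]
      congr 1
      exact formOfGram_single (RingHom.id F) _ _ _
    rcases OrthNine.square_cases hQ h2 hn (by omega) hdef num hH h9
      ((h.le.trans inf_le_left).trans (TensorSquare.tensor_le_wreath e P)) hc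
      (fun i => by fin_cases i; exacts [hu hf₁, hu hf₂])
      (fun i a b => by fin_cases i; exacts [hf₁.symm _ _, hf₂.symm _ _]) hΓ with h' | h' | h'
    · exact Or.inr <| Or.inr <| Or.inr <| Or.inr <| Or.inr <| Or.inr <| Or.inl h'
    · exact Or.inr <| Or.inr <| Or.inl h'
    · exact Or.inr <| Or.inr <| Or.inr <| Or.inr <| Or.inr <| Or.inl h'
  · obtain ⟨P', hP', heq⟩ := OrthNine.rational_unscale hQ h2 hn hdef hr hcard hζ hP
    exact Or.inr <| Or.inr <| Or.inr <| Or.inr <| Or.inr <| Or.inl ⟨F₀, r, P', hr, hcard, hP', heq ▸ h⟩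
  · exact Or.inr <| Or.inr <| Or.inr <| Or.inr <| Or.inr <| Or.inr <| Or.inr <| h
  · exfalso
    obtain ⟨j, hj0, hj⟩ := abelianData_isPrimePow (by omega) hN
    rw [h9] at hj
    obtain rfl : r = 3 := (Nat.prime_dvd_prime_iff_eq hN.prime Nat.prime_three).1
      (hN.prime.dvd_of_dvd_pow (show r ∣ 3 ^ 2 from (show (3:ℕ) ^ 2 = 9 by norm_num) ▸ hj ▸ dvd_pow_self r hj0.ne'))
    have : Nonempty (Unit ⊕ (Fin 4 ⊕ Fin 4)) := inferInstance
    obtain ⟨x, hx, y, hy, hxy⟩ := exists_not_commute (by omega) hN.absIrred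
    apply hxy
    have hz := hN.comm x hx y hy
    set z := x * y * x⁻¹ * y⁻¹ with hzdef
    have hzI : z ∈ Cfsg.isometryGroup F (Cfsg.quadFormOdd 4 F) :=
      hI (hN.le (mul_mem (mul_mem (mul_mem hx hy) (inv_mem hx)) (inv_mem hy)))
    obtain ⟨l, hl⟩ := (Cfsg.Geo.mem_scalars_iff z).1 hz
    have hxy' : x * y = z * (y * x) := by rw [hzdef]; group
    have hcomm : ∀ g, z * g = g * z := fun g => scalars_commute hz g
    have h3 : x ^ 3 * y = z ^ 3 * (y * x ^ 3) := by
      calc x ^ 3 * y = x * (x * (x * y)) := by simp only [pow_succ, pow_zero, one_mul, mul_assoc]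
        _ = z * (x * (x * (y * x))) := by
          rw [hxy', ← mul_assoc x z, ← hcomm, mul_assoc z, ← mul_assoc x z, ← hcomm, mul_assoc z]
        _ = z * (x * (z * (y * x)) * x) := by rw [← hxy']; simp only [mul_assoc]
        _ = z * (z * (x * y) * x * x) := by
          rw [← mul_assoc x z, ← hcomm]; simp only [mul_assoc]
        _ = z ^ 3 * (y * x ^ 3) := by rw [hxy']; simp only [pow_succ, pow_zero, one_mul, mul_assoc]
    have hz3 : z ^ 3 = 1 := by
      rw [scalars_commute (hN.pow_mem x hx) y] at h3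
      exact mul_right_cancel (b := y * x ^ 3) (by rw [one_mul]; exact h3.symm)
    have hz2 : z ^ 2 = 1 := by
      have hl2 : (l : F) * l = 1 := by
        obtain ⟨u, v, huv⟩ := IsNondegenerateForm.exists_ne (by omega) hQ.nondegenerate
        have hb := CfsgLib.OrthGeo.isometry_b hQ hzI u v
        simp only [hl, Matrix.smul_mulVec, Matrix.one_mulVec, map_smul, LinearMap.smul_apply, smul_eq_mul,
          CfsgLib.OrthGeo.bform_apply] at hb
        exact mul_right_cancel₀ huv (by linear_combination hb)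
      refine Units.ext ?_
      rw [Units.val_pow_eq_pow_val, hl, sq, Matrix.smul_mul, Matrix.one_mul, smul_smul, hl2, one_smul,
        Units.val_one]
    rw [hxy', show z = 1 by rw [← hz3, pow_succ, hz2, one_mul], one_mul]
  · have h1 := hS.two_le
    have h2S := hS.two_le_card
    have h8 := hS.card_eq
    rw [h9] at h8
    have hd9 : d ≤ 9 := h8 ▸ Nat.le_self_pow (by omega) d
    have hs3 : S.card ≤ 3 := by
      by_contra! hlt
      have h16 : 2 ^ 4 ≤ d ^ S.card := (Nat.pow_le_pow_left h1 4).trans (Nat.pow_le_pow_right (by omega) hlt)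
      omega
    have : Nonempty (Unit ⊕ (Fin 4 ⊕ Fin 4)) := inferInstance
    obtain ⟨e, P, hle, hfac⟩ := hS.exists_le_tensorWreath_factors
    generalize hs : S.card = s at *
    interval_cases s <;> interval_cases d <;> first | omega | skip
    have hr := OrthEven.rform_polar hQ
    have hcl : FactorClosed (QuadraticMap.polar (Cfsg.quadFormOdd 4 F)) e P := fun i M => by
      obtain ⟨A, hA, hAi⟩ := hfac i
      obtain ⟨D, hD, hDA⟩ := hS.generated A hA
      have hDI : ∀ g ∈ D, ∀ u v, QuadraticMap.polar (Cfsg.quadFormOdd 4 F) (g.val.mulVec u) (g.val.mulVec v) =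
          QuadraticMap.polar (Cfsg.quadFormOdd 4 F) u v := fun g hg u v =>
        CfsgLib.OrthGeo.isometry_b hQ (hI (Subgroup.commutator_le.2 (fun a ha b hb => by
          rw [commutatorElement_def]
          exact mul_mem (mul_mem (mul_mem ha hb) (inv_mem ha)) (inv_mem hb)) (hD hg))) u v
      obtain ⟨Y, hY, hadj⟩ := closed_adjoin hr hDI _ (hDA.symm ▸ (hAi _).2 ⟨M, rfl⟩)
      obtain ⟨M', rfl⟩ := (hAi _).1 (hDA ▸ hY)
      exact ⟨M', hadj⟩
    obtain ⟨c, X, hc, hX, hΓ⟩ := exists_powGram_eq_kroneckerPow hr hcl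
    have hsym : ∀ i a b, X i a b = X i b a := fun i a b => by
      obtain ⟨δ, hδ, hXi⟩ := powFactor_refl hr hc (fun j => (hX j).ne_zero) hΓ i
      simp only [RingHom.id_apply] at hδ hXi
      rcases mul_self_eq_one_iff.1 hδ with rfl | rfl
      · simpa using hXi a b
      · exact absurd (det_eq_zero_of_alternating (G := X i) (by simp; decide)
          (fun a b => by simpa using hXi a b) fun a => (mul_eq_zero.1
            (show (2 : F) * X i a a = 0 by linear_combination hXi a a)).resolve_left h2)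
          ((Matrix.isUnit_iff_isUnit_det _).1 (hX i)).ne_zero
    rcases OrthNine.square_cases hQ h2 hn (by omega) hdef num hH h9 hle hc hX hsym hΓ with h' | h' | h'
    · exact Or.inr <| Or.inr <| Or.inr <| Or.inr <| Or.inr <| Or.inr <| Or.inl h'
    · exact Or.inr <| Or.inr <| Or.inl h'
    · exact Or.inr <| Or.inr <| Or.inr <| Or.inr <| Or.inr <| Or.inl h'

end Cfsg.Agent.S5835
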