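import Cfsg.Statements.S5838
import Cfsg.Agent.Eq.Def_GeometricClasses
import Cfsg.Agent.Aschbacher.LinearCases

set_option autoImplicit false
open Cfsg

namespace Cfsg.Agent.S5838

/-- Every maximal subgroup of SL_10(q) is of one of the listed geometric types or lies in the residual class. Let F be a finite field with q elements (p its characteristic) and H a maximal subgroup of SL_10(F) (inside GL_10(F)). Then H is the intersection with SL_10(F) of one of: the stabiliser of a proper non-zero subspace; for q ≥ 5, the stabiliser of a decomposition into 10 independent 1-spaces; for q ≥ 3, the stabiliser of a decomposition into 5 independent 2-spaces; the stabiliser of a decomposition into 2 independent 5-spaces; the normaliser of a degree-5 subfield of the matrix algebra; the normaliser of a degree-2 subfield of the matrix algebra; for q ≥ 3, the stabiliser of a tensor decomposition F^2 ⊗ F^5; a subfield group for a subfield F₀ with |F| = |F₀|^r, r prime;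 for q odd, the similarity group of a non-degenerate quadratic form; the similarity group of a non-degenerate symplectic form; the similarity group of a non-degenerate unitary form — or else H lies in the residual class of the linear case (modulo scalars H is almost simple, with absolutely irreducible perfect socle preimage realisable over no proper subfield and fixing no non-degenerate quadratic, symplectic or unitary form). -/
theorem result {F : Type*} [Field F] [Fintype F] (H : Subgroup (Matrix.GeneralLinearGroup (Fin 10) F)) (hH : Cfsg.Geo.IsMaximalIn (Cfsg.Geo.specialLinear (Fin 10) F) H) :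
    (∃ W : Submodule F (Fin 10 → F), W ≠ ⊥ ∧ W ≠ ⊤ ∧ H = Cfsg.Geo.subspaceStabilizer W ⊓ Cfsg.Geo.specialLinear (Fin 10) F) ∨
    (5 ≤ Fintype.card F ∧ ∃ D : Fin 10 → Submodule F (Fin 10 → F), Cfsg.Geo.IsMDecomposition 1 D ∧ H = Cfsg.Geo.decompositionStabilizer D ⊓ Cfsg.Geo.specialLinear (Fin 10) F) ∨
    (3 ≤ Fintype.card F ∧ ∃ D : Fin 5 → Submodule F (Fin 10 → F), Cfsg.Geo.IsMDecomposition 2 D ∧ H = Cfsg.Geo.decompositionStabilizer D ⊓ Cfsg.Geo.specialLinear (Fin 10) F) ∨
    (∃ D : Fin 2 → Submodule F (Fin 10 → F), Cfsg.Geo.IsMDecomposition 5 D ∧ H = Cfsg.Geo.decompositionStabilizer D ⊓ Cfsg.Geo.specialLinear (Fin 10) F) ∨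
    (∃ K : Subalgebra F (Matrix (Fin 10) (Fin 10) F), Cfsg.Geo.IsFieldSubalgebra 5 K ∧ H = Cfsg.Geo.subalgebraNormalizer K ⊓ Cfsg.Geo.specialLinear (Fin 10) F) ∨
    (∃ K : Subalgebra F (Matrix (Fin 10) (Fin 10) F), Cfsg.Geo.IsFieldSubalgebra 2 K ∧ H = Cfsg.Geo.subalgebraNormalizer K ⊓ Cfsg.Geo.specialLinear (Fin 10) F) ∨
    (3 ≤ Fintype.card F ∧ ∃ (e : Fin 10 ≃ Fin 2 × Fin 5) (P : Matrix.GeneralLinearGroup (Fin 10) F), H = Cfsg.Geo.tensorProductSubgroup 2 5 e P ⊓ Cfsg.Geo.specialLinear (Fin 10) F) ∨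
    (∃ (F₀ : Subfield F) (r : ℕ) (P : Matrix.GeneralLinearGroup (Fin 10) F), r.Prime ∧ Fintype.card F = Nat.card F₀ ^ r ∧ H = Cfsg.Geo.subfieldSubgroup F₀ P ⊓ Cfsg.Geo.specialLinear (Fin 10) F) ∨
    (Odd (Fintype.card F) ∧ ∃ Q : (Fin 10 → F) → F, Cfsg.Geo.IsNondegenerateQuadraticForm Q ∧ H = Cfsg.Geo.quadSimilarityGroup Q ⊓ Cfsg.Geo.specialLinear (Fin 10) F) ∨
    (∃ f : (Fin 10 → F) → (Fin 10 → F) → F, Cfsg.Geo.IsSymplecticForm f ∧ H = Cfsg.Geo.similarityGroup f ⊓ Cfsg.Geo.specialLinear (Fin 10) F) ∨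
    (∃ (σ : F ≃+* F) (f : (Fin 10 → F) → (Fin 10 → F) → F), Cfsg.Geo.IsUnitaryForm σ f ∧ H = Cfsg.Geo.similarityGroup f ⊓ Cfsg.Geo.specialLinear (Fin 10) F) ∨
    Cfsg.Geo.InLinearResidualClass H := by
  rcases CfsgLib.Aschbacher.linear_maximal_cases (by simp) hH with
      ⟨W, hW⟩ | ⟨t, m, D, hD, htm, h1, h2, h⟩ | ⟨r, K, hr, hrd, hK, h⟩ |
      ⟨d, k, e, P, hd, hdk, hcard, hq, -, h⟩ | ⟨F₀, r, P, h⟩ | h | h | h | h | ⟨N, r, hN⟩ | ⟨d, S, hS⟩
  · exact Or.inl ⟨W, hW⟩
  · have ht := hD.two_le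
    have hm := hD.pos
    simp only [Fintype.card_fin] at htm
    have ht10 : t ≤ 10 := by nlinarith
    have hm5 : m ≤ 5 := by nlinarith
    interval_cases t <;> interval_cases m <;> first | omega | skip
    · exact Or.inr <| Or.inr <| Or.inr <| Or.inl ⟨D, hD, h⟩
    · exact Or.inr <| Or.inr <| Or.inl ⟨h2 rfl, D, hD, h⟩
    · exact Or.inr <| Or.inl ⟨h1 rfl, D, hD, h⟩
  · have h10 : r ∣ 2 * 5 := by simpa using hrd
    rcases (Nat.Prime.dvd_mul hr).1 h10 with h' | h'
    · obtain rfl := (Nat.prime_dvd_prime_iff_eq hr Nat.prime_two).1 h'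
      exact Or.inr <| Or.inr <| Or.inr <| Or.inr <| Or.inr <| Or.inl ⟨K, hK, h⟩
    · obtain rfl := (Nat.prime_dvd_prime_iff_eq hr (by norm_num)).1 h'
      exact Or.inr <| Or.inr <| Or.inr <| Or.inr <| Or.inl ⟨K, hK, h⟩
  · simp only [Fintype.card_fin] at hcard
    have hd3 : d ≤ 3 := by nlinarith
    interval_cases d
    · obtain rfl : k = 5 := by omega
      exact Or.inr <| Or.inr <| Or.inr <| Or.inr <| Or.inr <| Or.inr <| Or.inl ⟨hq rfl, e, P, h⟩
    · omega
  · exact Or.inr <| Or.inr <| Or.inr <| Or.inr <| Or.inr <| Or.inr <| Or.inr <| Or.inl ⟨F₀, r, P, h⟩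
  · exact Or.inr <| Or.inr <| Or.inr <| Or.inr <| Or.inr <| Or.inr <| Or.inr <| Or.inr <| Or.inl h
  · exact Or.inr <| Or.inr <| Or.inr <| Or.inr <| Or.inr <| Or.inr <| Or.inr <| Or.inr <| Or.inr <| Or.inl h
  · exact Or.inr <| Or.inr <| Or.inr <| Or.inr <| Or.inr <| Or.inr <| Or.inr <| Or.inr <| Or.inr <| Or.inr <| Or.inl h
  · exact Or.inr <| Or.inr <| Or.inr <| Or.inr <| Or.inr <| Or.inr <| Or.inr <| Or.inr <| Or.inr <| Or.inr <| Or.inr h
  · exfalso
    obtain ⟨j, hj, hrj⟩ := CfsgLib.Aschbacher.abelianData_isPrimePow (by simp) hN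
    rw [Fintype.card_fin] at hrj
    have h2r : 2 ∣ r ^ j := hrj ▸ (by norm_num)
    have h5r : 5 ∣ r ^ j := hrj ▸ (by norm_num)
    have e2 := (Nat.prime_dvd_prime_iff_eq Nat.prime_two hN.prime).1 (Nat.prime_two.dvd_of_dvd_pow h2r)
    have e5 := (Nat.prime_dvd_prime_iff_eq (by norm_num) hN.prime).1
      (Nat.Prime.dvd_of_dvd_pow (by norm_num) h5r)
    omega
  · exfalso
    have hd := hS.two_le
    have hc := hS.two_le_card
    have he := hS.card_eq
    rw [Fintype.card_fin] at he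
    obtain ⟨j, hj⟩ := Nat.exists_eq_add_of_le hc
    rw [hj, pow_add] at he
    have hd3 : d ≤ 3 := by nlinarith [Nat.one_le_pow j d (by omega)]
    interval_cases d
    · omega
    · omega
end Cfsg.Agent.S5838
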