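import Cfsg.Statements.S5841
import Cfsg.Agent.Aschbacher.UnitaryMaximal
import Cfsg.Agent.Aschbacher.UnitarySmall
import Cfsg.Agent.Aschbacher.LinearCases

set_option autoImplicit false
open Cfsg

namespace Cfsg.Agent.S5841

/-- Every maximal subgroup of SU_10(q) is of one of the listed geometric types or lies in the residual class. Let F be the field with q² elements (characteristic p), f the standard unitary form Σ u_i v_i^q on F^10, and H a maximal subgroup of SU_10(q) (inside GL_10(F)). Then H is the intersection with SU_10(q) of one of: the stabiliser of a non-zero totally isotropic subspace; the stabiliser of a non-zero non-degenerate subspace W with 2 dim W < 10; the stabiliser of a decomposition into 10 mutually orthogonal non-degenerate 1-spaces; for q ≥ 3, the stabiliser of a decomposition into 5 mutually orthogonal non-degenerate 2-spaces; the stabiliser of a decomposition into 2 mutually orthogonal non-degenerate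 5-spaces; of a decomposition into two totally isotropic 5-spaces; the normaliser of an adjoint-closed degree-5 subfield of the matrix algebra; for q ≥ 3, the stabiliser of a tensor decomposition of f into unitary forms on F^2 and F^5; a subfield group of odd prime index whose F₀-structure carries f; a subfield group of index 2 and symplectic type; for q odd, a subfield group of index 2 whose F₀-structure carries f — or else H lies in the residual class of the unitary case (modulo scalars H is almost simple, with absolutely irreducible perfect socle preimage realisable over no proper subfield and fixing no non-degenerate quadratic or symplectic form). -/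
theorem result {F : Type*} [Field F] [Fintype F] (q : ℕ) (hF : Fintype.card F = q ^ 2) (H : Subgroup (Matrix.GeneralLinearGroup (Fin 10) F)) (hH : Cfsg.Geo.IsMaximalIn (Cfsg.GU 10 F q ⊓ Cfsg.Geo.specialLinear (Fin 10) F) H) :
    (∃ W : Submodule F (Fin 10 → F), W ≠ ⊥ ∧ Cfsg.Geo.IsTotallySingularFor (Cfsg.hermForm 10 F q) W ∧ H = Cfsg.Geo.subspaceStabilizer W ⊓ (Cfsg.GU 10 F q ⊓ Cfsg.Geo.specialLinear (Fin 10) F)) ∨
    (∃ W : Submodule F (Fin 10 → F), W ≠ ⊥ ∧ Cfsg.Geo.IsNondegenerateOn (Cfsg.hermForm 10 F q) W ∧ 2 * Module.finrank F W < 10 ∧ H = Cfsg.Geo.subspaceStabilizer W ⊓ (Cfsg.GU 10 F q ⊓ Cfsg.Geo.specialLinear (Fin 10) F)) ∨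
    (∃ D : Fin 10 → Submodule F (Fin 10 → F), Cfsg.Geo.IsNondegenerateMDecomposition (Cfsg.hermForm 10 F q) 1 D ∧ H = Cfsg.Geo.decompositionStabilizer D ⊓ (Cfsg.GU 10 F q ⊓ Cfsg.Geo.specialLinear (Fin 10) F)) ∨
    (3 ≤ q ∧ ∃ D : Fin 5 → Submodule F (Fin 10 → F), Cfsg.Geo.IsNondegenerateMDecomposition (Cfsg.hermForm 10 F q) 2 D ∧ H = Cfsg.Geo.decompositionStabilizer D ⊓ (Cfsg.GU 10 F q ⊓ Cfsg.Geo.specialLinear (Fin 10) F)) ∨
    (∃ D : Fin 2 → Submodule F (Fin 10 → F), Cfsg.Geo.IsNondegenerateMDecomposition (Cfsg.hermForm 10 F q) 5 D ∧ H = Cfsg.Geo.decompositionStabilizer D ⊓ (Cfsg.GU 10 F q ⊓ Cfsg.Geo.specialLinear (Fin 10) F)) ∨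
    (∃ D : Fin 2 → Submodule F (Fin 10 → F), Cfsg.Geo.IsMDecomposition 5 D ∧ (∀ i, Cfsg.Geo.IsTotallySingularFor (Cfsg.hermForm 10 F q) (D i)) ∧ H = Cfsg.Geo.decompositionStabilizer D ⊓ (Cfsg.GU 10 F q ⊓ Cfsg.Geo.specialLinear (Fin 10) F)) ∨
    (∃ K : Subalgebra F (Matrix (Fin 10) (Fin 10) F), Cfsg.Geo.IsFieldSubalgebra 5 K ∧ Cfsg.Geo.IsAdjointClosedFor (Cfsg.hermForm 10 F q) K ∧ H = Cfsg.Geo.subalgebraNormalizer K ⊓ (Cfsg.GU 10 F q ⊓ Cfsg.Geo.specialLinear (Fin 10) F)) ∨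
    (3 ≤ q ∧ ∃ (e : Fin 10 ≃ Fin 2 × Fin 5) (P : Matrix.GeneralLinearGroup (Fin 10) F) (f₁ : (Fin 2 → F) → (Fin 2 → F) → F) (f₂ : (Fin 5 → F) → (Fin 5 → F) → F), Cfsg.Geo.IsUnitaryFormPow q f₁ ∧ Cfsg.Geo.IsUnitaryFormPow q f₂ ∧ Cfsg.Geo.IsTensorFormStructure (fun x : F => x ^ q) (Cfsg.hermForm 10 F q) f₁ f₂ e P ∧ H = Cfsg.Geo.tensorProductSubgroup 2 5 e P ⊓ (Cfsg.GU 10 F q ⊓ Cfsg.Geo.specialLinear (Fin 10) F)) ∨
    (∃ (F₀ : Subfield F) (r : ℕ) (P : Matrix.GeneralLinearGroup (Fin 10) F), r.Prime ∧ Odd r ∧ Fintype.card F = Nat.card F₀ ^ r ∧ Cfsg.Geo.IsFormRationalStructure (Cfsg.hermForm 10 F q) F₀ 1 P ∧ H = Cfsg.Geo.subfieldSubgroup F₀ P ⊓ (Cfsg.GU 10 F q ⊓ Cfsg.Geo.specialLinear (Fin 10) F)) ∨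
    (∃ (F₀ : Subfield F) (P : Matrix.GeneralLinearGroup (Fin 10) F) (ζ : F), Fintype.card F = Nat.card F₀ ^ 2 ∧ ζ ≠ 0 ∧ ζ + ζ ^ q = 0 ∧ Cfsg.Geo.IsFormRationalStructure (Cfsg.hermForm 10 F q) F₀ ζ P ∧ (∀ u : Fin 10 → F, (∀ i, u i ∈ F₀) → (Cfsg.hermForm 10 F q) (Matrix.mulVec (P : Matrix (Fin 10) (Fin 10) F) u) (Matrix.mulVec (P : Matrix (Fin 10) (Fin 10) F) u) = 0) ∧ H = Cfsg.Geo.subfieldSubgroup F₀ P ⊓ (Cfsg.GU 10 F q ⊓ Cfsg.Geo.specialLinear (Fin 10) F)) ∨
    (Odd q ∧ ∃ (F₀ : Subfield F) (P : Matrix.GeneralLinearGroup (Fin 10) F), Fintype.card F = Nat.card F₀ ^ 2 ∧ Cfsg.Geo.IsFormRationalStructure (Cfsg.hermForm 10 F q) F₀ 1 P ∧ H = Cfsg.Geo.subfieldSubgroup F₀ P ⊓ (Cfsg.GU 10 F q ⊓ Cfsg.Geo.specialLinear (Fin 10) F)) ∨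
    Cfsg.Geo.InUnitaryResidualClass H := by
  classical
  have hq2 := CfsgLib.AschPrime.one_lt_q hF
  rcases CfsgLib.Aschbacher.Unitary.unitary_maximal_cases hF (by norm_num) hH with
    h | h | ⟨t, m, D, hD, htm, heq⟩ | ⟨m, D, hD, hm, hts, heq⟩ | ⟨r, K, hr, hro, hrd, hK, hc, heq⟩ |
    ⟨d, k, e, P, f₁, f₂, hd, hdk, hdn, h1, h2, hT, heq⟩ | h | h | h | h | ⟨N, r, hN⟩ | ⟨d, S, hS⟩
  · exact Or.inl h
  · exact Or.inr <| Or.inl h
  · have ht := hD.decomp.two_le
    have : t ≤ 10 := Nat.le_of_dvd (by norm_num) ⟨m, htm.symm⟩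
    interval_cases t <;> first | omega | skip
    · obtain rfl : m = 5 := by omega
      exact Or.inr <| Or.inr <| Or.inr <| Or.inr <| Or.inl ⟨D, hD, heq⟩
    · obtain rfl : m = 2 := by omega
      by_cases hq : 3 ≤ q
      · exact Or.inr <| Or.inr <| Or.inr <| Or.inl ⟨hq, D, hD, heq⟩
      · obtain ⟨D2, hD2, hle2⟩ :=
          CfsgLib.Aschbacher.UnitarySmall.planes_lines hF (by omega) (by norm_num) hD
        exact Or.inr <| Or.inr <| Or.inl ⟨D2, hD2, CfsgLib.AschPrime.eq_inf_of_isMaximalIn hH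
          (fun g hg => hle2 g (heq.le hg).1 (heq.le hg).2.1)
          (CfsgLib.AschPrime.not_le_decompositionStabilizer hF hD2 (by norm_num) (Or.inr (by norm_num)))⟩
    · obtain rfl : m = 1 := by omega
      exact Or.inr <| Or.inr <| Or.inl ⟨D, hD, heq⟩
  · obtain rfl : m = 5 := by omega
    exact Or.inr <| Or.inr <| Or.inr <| Or.inr <| Or.inr <| Or.inl ⟨D, hD, hts, heq⟩
  · obtain rfl : r = 5 := by
      have hle := Nat.le_of_dvd (by norm_num) hrd
      interval_cases r <;> revert hr hro hrd <;> decide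
    exact Or.inr <| Or.inr <| Or.inr <| Or.inr <| Or.inr <| Or.inr <| Or.inl ⟨K, hK, hc, heq⟩
  · have hle : d ≤ 3 := by nlinarith
    interval_cases d
    · obtain rfl : k = 5 := by omega
      by_cases hq : 3 ≤ q
      · exact Or.inr <| Or.inr <| Or.inr <| Or.inr <| Or.inr <| Or.inr <| Or.inr <| Or.inl ⟨hq, e, P, f₁, f₂, h1, h2, hT, heq⟩
      · obtain ⟨D2, hD2, hle2⟩ :=
          CfsgLib.Aschbacher.UnitarySmall.tensor_halves hF (by omega) (by norm_num) h1 h2 hT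
        exact Or.inr <| Or.inr <| Or.inr <| Or.inr <| Or.inl ⟨D2, hD2, CfsgLib.AschPrime.eq_inf_of_isMaximalIn hH
          (fun g hg => hle2 g (heq.le hg).1 (heq.le hg).2.1)
          (CfsgLib.Aschbacher.Unitary.not_le_decomposition hF hD2 (by norm_num))⟩
    · omega
  · exact Or.inr <| Or.inr <| Or.inr <| Or.inr <| Or.inr <| Or.inr <| Or.inr <| Or.inr <| Or.inl h
  · exact Or.inr <| Or.inr <| Or.inr <| Or.inr <| Or.inr <| Or.inr <| Or.inr <| Or.inr <| Or.inr <| Or.inr <| Or.inl h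
  · exact Or.inr <| Or.inr <| Or.inr <| Or.inr <| Or.inr <| Or.inr <| Or.inr <| Or.inr <| Or.inr <| Or.inl h
  · exact Or.inr <| Or.inr <| Or.inr <| Or.inr <| Or.inr <| Or.inr <| Or.inr <| Or.inr <| Or.inr <| Or.inr <| Or.inr h
  · exfalso
    obtain ⟨j, hj, hrj⟩ := CfsgLib.Aschbacher.abelianData_isPrimePow (by simp) hN
    rw [Fintype.card_fin] at hrj
    have e2 := (Nat.prime_dvd_prime_iff_eq Nat.prime_two hN.prime).1
      (Nat.prime_two.dvd_of_dvd_pow (hrj ▸ (by norm_num : 2 ∣ 10)))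
    have e5 := (Nat.prime_dvd_prime_iff_eq (by norm_num) hN.prime).1
      (Nat.Prime.dvd_of_dvd_pow (by norm_num) (hrj ▸ (by norm_num : 5 ∣ 10)))
    omega
  · exfalso
    have hd := hS.two_le
    have hc := hS.two_le_card
    have he := hS.card_eq
    rw [Fintype.card_fin] at he
    obtain ⟨j, hj⟩ := Nat.exists_eq_add_of_le hc
    rw [hj, pow_add] at he
    have hd3 : d ≤ 3 := by nlinarith [Nat.one_le_pow j d (by omega)]
    interval_cases d
    · omega
    · omega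

end Cfsg.Agent.S5841
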