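import Cfsg.Statements.S5858
import Cfsg.Agent.OrthMono17.Final
import Cfsg.Agent.OrthGeo.QuadOdd
import Cfsg.Agent.OrthGeo.Parabolic
import Cfsg.Agent.OrthEight96.SmallFive
import Cfsg.Agent.OrthEight96.RatSpread
import Cfsg.Agent.OrthEight96.Halves
import Cfsg.Agent.OrthGeo.NondegAny

set_option autoImplicit false
open Cfsg

namespace Cfsg.Agent.S5858

/-- Maximal subgroups of Ω_11(q) of geometric type, q odd. Let F be a finite field of odd order q, Q the standard quadratic form x₀² + Σ x_i y_i on F^11 (coordinates Unit ⊕ (Fin 5 ⊕ Fin 5)), and Ω = Ω_11(q) the commutator subgroup of its isometry group, inside GL_11(F). Each of the following, intersected with Ω, is a maximal subgroup of Ω: (1) the stabiliser of any non-zero subspace on which Q vanishes identically (totally singular 1- to 5-spaces); (2) the stabiliser of any non-zero even-dimensional subspace W (dimension 2 to 10) on which the polar form of Q is non-degenerate (equivalently of its odd-dimensional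 orthogonal complement), except when q = 3 and W is a 2-space containing a non-zero singular vector (a plus-type plane); (3) for q = p prime, the stabiliser of any decomposition of F^11 into eleven pairwise orthogonal, pairwise Q-isometric non-degenerate 1-spaces; (4) every subfield group for a subfield F₀ with |F| = |F₀|^r, r prime, whose F₀-structure carries Q. -/
theorem result {F : Type*} [Field F] [Fintype F] (hodd : Odd (Fintype.card F)) :
    (∀ W : Submodule F (Unit ⊕ (Fin 5 ⊕ Fin 5) → F), W ≠ ⊥ → Cfsg.Geo.IsTotallySingularQuad (Cfsg.quadFormOdd 5 F) W → Cfsg.Geo.IsMaximalIn (Cfsg.Geo.omegaGL (Cfsg.quadFormOdd 5 F)) (Cfsg.Geo.subspaceStabilizer W ⊓ Cfsg.Geo.omegaGL (Cfsg.quadFormOdd 5 F))) ∧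
    (∀ W : Submodule F (Unit ⊕ (Fin 5 ⊕ Fin 5) → F), W ≠ ⊥ → Even (Module.finrank F W) → Cfsg.Geo.IsNondegenerateOn (QuadraticMap.polar (Cfsg.quadFormOdd 5 F)) W → ¬ (Fintype.card F = 3 ∧ Module.finrank F W = 2 ∧ Cfsg.Geo.IsPlusTypeOn (Cfsg.quadFormOdd 5 F) W) → Cfsg.Geo.IsMaximalIn (Cfsg.Geo.omegaGL (Cfsg.quadFormOdd 5 F)) (Cfsg.Geo.subspaceStabilizer W ⊓ Cfsg.Geo.omegaGL (Cfsg.quadFormOdd 5 F))) ∧
    ((Fintype.card F).Prime → ∀ D : Fin 11 → Submodule F (Unit ⊕ (Fin 5 ⊕ Fin 5) → F), Cfsg.Geo.IsOrthogonalMDecomposition (Cfsg.quadFormOdd 5 F) 1 D → Cfsg.Geo.IsMaximalIn (Cfsg.Geo.omegaGL (Cfsg.quadFormOdd 5 F)) (Cfsg.Geo.decompositionStabilizer D ⊓ Cfsg.Geo.omegaGL (Cfsg.quadFormOdd 5 F))) ∧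
    (∀ (F₀ : Subfield F) (r : ℕ) (P : Matrix.GeneralLinearGroup (Unit ⊕ (Fin 5 ⊕ Fin 5)) F), r.Prime → Fintype.card F = Nat.card F₀ ^ r → Cfsg.Geo.IsQuadFormRationalStructure (Cfsg.quadFormOdd 5 F) F₀ P → Cfsg.Geo.IsMaximalIn (Cfsg.Geo.omegaGL (Cfsg.quadFormOdd 5 F)) (Cfsg.Geo.subfieldSubgroup F₀ P ⊓ Cfsg.Geo.omegaGL (Cfsg.quadFormOdd 5 F))) := by
  classical
  have h2 : (2 : F) ≠ 0 := fun h => by
    haveI : CharP F 2 := (CharP.charP_iff_prime_eq_zero Nat.prime_two).2 (by exact_mod_cast h)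
    have h' := FiniteField.even_card_of_char_two (ringChar.eq F 2)
    have := Nat.odd_iff.1 hodd
    omega
  set Q := Cfsg.quadFormOdd 5 F with hQdef
  have hQ : Cfsg.Geo.IsNondegenerateQuadraticForm Q :=
    CfsgLib.OrthGeo.isNondegenerateQuadraticForm_quadFormOdd 5 h2
  have hcard : Fintype.card (Unit ⊕ (Fin 5 ⊕ Fin 5)) = 11 := by simp
  refine ⟨fun W hW0 hW => CfsgLib.OrthGeo.parabolic_isMaximal hQ (by omega) W hW0 hW (fun u _ _ _ => by omega),
    fun W hW0 hWe hWn hex => ?_, fun hp D hD => ?_, fun F₀ r P hr hc hP => ?_⟩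
  · have hrad : ∀ x ∈ W, x ∈ CfsgLib.OrthGeo.perp hQ W → x = 0 :=
      CfsgLib.OrthGeo.radical_free_of_nondegenerateOn hQ hWn
    have hsum := (CfsgLib.OrthGeo.finrank_perp_add hQ W).trans hcard
    obtain ⟨k, hk⟩ := hWe
    by_cases hk4 : Module.finrank F W ≤ 5
    · refine CfsgLib.OrthEight96.nondeg_small_five_isMaximal hQ hrad hW0 (by omega) (by omega) (fun h => ?_)
      by_cases hq : Fintype.card F = 3
      · exact Or.inl ((CfsgLib.OrthGeo.plane_aniso_or_plusType hQ h).resolve_right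
          fun hp => hex ⟨hq, h, hp⟩)
      · refine Or.inr ?_
        rw [Nat.card_eq_fintype_card]
        have := Fintype.one_lt_card (α := F)
        have := Nat.odd_iff.1 hodd
        omega
    · rw [← CfsgLib.OrthGeo.stab_perp_inf_omega hQ W]
      have hperp := CfsgLib.OrthGeo.finrank_perp_add hQ (CfsgLib.OrthGeo.perp hQ W)
      refine CfsgLib.OrthEight96.nondeg_small_five_isMaximal hQ
        (fun x hx hx' => hrad x (by rwa [CfsgLib.OrthGeo.perp_perp hQ] at hx') hx)
        (fun h => ?_) (by omega) (by omega) (fun h => by omega)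
      rw [h, finrank_bot] at hsum
      have := Submodule.finrank_le W
      rw [Module.finrank_fintype_fun_eq_card, hcard] at this
      omega
  · exact CfsgLib.OrthMono17.frame_isMaximal hQ hp h2 ⟨5, hcard⟩ (by omega) (fun h => by omega) hD
  · exact CfsgLib.OrthEight96.qSubfield_isMaximal (F₀ := F₀) (P := P) (Q := Q)
      ⟨hQ, fun v hv => by
        have h := hP _ hv
        rwa [CfsgLib.OrthGeo.mulVec_inv_cancel] at h⟩ (by omega) hr hc


end Cfsg.Agent.S5858
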