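import Cfsg.Statements.S5876
import Cfsg.Agent.Classical.PrimitiveLinear

set_option autoImplicit false
open Cfsg CfsgLib.Classical
open scoped commutatorElement

namespace Cfsg.Agent.S5876

/-- Fixed-point spaces in primitive soluble linear groups. Let F be a finite field and G a soluble subgroup of GL_n(F) that acts irreducibly on F^n and primitively (G preserves no decomposition of F^n into two or more independent subspaces of equal dimension). Then every non-identity element g of G has fixed-point space {v : g v = v} of dimension at most 3n/4. -/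
theorem result {F : Type*} [Field F] [Fintype F] {n : ℕ} (G : Subgroup (Matrix.GeneralLinearGroup (Fin n) F)) (hsol : IsSolvable G) (hirr : Cfsg.Geo.ActsIrreducibly (Cfsg.Geo.matrixSet G)) (hprim : ∀ (m t : ℕ) (D : Fin t → Submodule F (Fin n → F)), 2 ≤ t → Cfsg.Geo.IsMDecomposition m D → ¬ G ≤ Cfsg.Geo.decompositionStabilizer D) (g : Matrix.GeneralLinearGroup (Fin n) F) (hg : g ∈ G) (hg1 : g ≠ 1) :
    4 * Module.finrank F (Module.End.eigenspace (Matrix.toLin' (g : Matrix (Fin n) (Fin n) F)) 1) ≤ 3 * n := by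
  classical
  have : Group.IsSolvable G := hsol
  obtain ⟨C, hCn, hC2, hCc⟩ := exists_classTwo_normal_selfCentralizing G
  set Z := C ⊓ Subgroup.centralizer (C : Set G) with hZ
  have hZn : Z.Normal := by
    have : (Subgroup.centralizer (C : Set G)).Normal := inferInstance
    rw [hZ]; exact Subgroup.normal_inf_normal _ _
  have hfree : ∀ z : G, z ∈ Z → z ≠ 1 → fixSpace (z : Matrix.GeneralLinearGroup (Fin n) F) = ⊥ := by
    intro z hz hz1
    refine fixSpace_eq_bot_of_abelian G hirr hprim
      ((fun a : G => (a : Matrix.GeneralLinearGroup (Fin n) F)) '' (Z : Set G)) ?_ ?_ _ ⟨z, hz, rfl⟩ ?_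
    · rintro _ ⟨a, ha, rfl⟩ _ ⟨b, hb, rfl⟩
      have := Subgroup.mem_centralizer_iff.mp hb.2 a ha.1
      simpa only [Subgroup.coe_mul] using congrArg (Subtype.val : G → Matrix.GeneralLinearGroup (Fin n) F) this
    · rintro k hk _ ⟨a, ha, rfl⟩
      have hmem : (⟨k, hk⟩ : G) * a * (⟨k, hk⟩ : G)⁻¹ ∈ Z := hZn.conj_mem a ha _
      refine ⟨(⟨k, hk⟩ : G) * a * (⟨k, hk⟩ : G)⁻¹, hmem, ?_⟩
      simp only [Subgroup.coe_mul, Subgroup.coe_inv]
    · exact fun h => hz1 (Subtype.ext h)
  let g' : G := ⟨g, hg⟩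
  show 4 * Module.finrank F (fixSpace g) ≤ 3 * n
  by_cases hgc : g' ∈ Subgroup.centralizer (C : Set G)
  · rw [show fixSpace g = ⊥ from hfree g' ⟨hCc hgc, hgc⟩ (fun h => hg1 (congrArg Subtype.val h))]
    simp
  · obtain ⟨c, hc, hne⟩ : ∃ c ∈ C, c * g' ≠ g' * c := by
      simpa [Subgroup.mem_centralizer_iff] using hgc
    set y : G := ⁅g', c⁆ with hy
    have hyC : y ∈ C := by
      rw [hy, commutatorElement_def]
      exact C.mul_mem (hCn.conj_mem c hc g') (C.inv_mem hc)
    have hy1 : y ≠ 1 := fun h => hne (commutatorElement_eq_one_iff_mul_comm.mp h).symm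
    have h2g : 2 * Module.finrank F (fixSpace g) ≤
        n + Module.finrank F (fixSpace (y : Matrix.GeneralLinearGroup (Fin n) F)) :=
      two_mul_fix_le g (c : Matrix.GeneralLinearGroup (Fin n) F)
    by_cases hyc : y ∈ Subgroup.centralizer (C : Set G)
    · rw [hfree y ⟨hyC, hyc⟩ hy1, finrank_bot] at h2g
      omega
    · obtain ⟨d, hd, hne2⟩ : ∃ d ∈ C, d * y ≠ y * d := by
        simpa [Subgroup.mem_centralizer_iff] using hyc
      have hzZ : ⁅y, d⁆ ∈ Z := by
        refine ⟨?_, hC2 y hyC d hd⟩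
        rw [commutatorElement_def]
        exact C.mul_mem (hCn.conj_mem d hd y) (C.inv_mem hd)
      have hz1 : ⁅y, d⁆ ≠ 1 := fun h => hne2 (commutatorElement_eq_one_iff_mul_comm.mp h).symm
      have h2y : 2 * Module.finrank F (fixSpace (y : Matrix.GeneralLinearGroup (Fin n) F)) ≤
          n + Module.finrank F (fixSpace ((⁅y, d⁆ : G) : Matrix.GeneralLinearGroup (Fin n) F)) :=
        two_mul_fix_le (y : Matrix.GeneralLinearGroup (Fin n) F) (d : Matrix.GeneralLinearGroup (Fin n) F)
      rw [hfree _ hzZ hz1, finrank_bot] at h2y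
      omega

end Cfsg.Agent.S5876
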