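import Cfsg.Statements.S5877
import Cfsg.Agent.Aschbacher.SymplecticType
import Cfsg.Agent.Aschbacher.ExtraEigenBounds

set_option autoImplicit false
open Cfsg

namespace Cfsg.Agent.S5877

open Matrix Module CfsgLib.Aschbacher CfsgLib.Aschbacher.ExtraEigen

/-- Eigenspaces of elements normalising an absolutely irreducible extraspecial group. Let F be a finite field, r a prime, and R ≤ GL_n(F) an absolutely irreducible extraspecial r-group (an r-group whose centre equals its derived subgroup and has order r) of exponent r or 4. Let g ∈ GL_n(F) normalise the product of R with the scalar matrices, have prime order ϖ and not be scalar, and let W be the eigenspace of g for any c ∈ F (W may be the zero subspace). Then dim W ≤ 3n/4 if ϖ = 2, dim W ≤ 2n/3 if ϖ = 3, and dim W ≤ n/2 if ϖ > 3; moreover if ϖ = 3 and 3 does not divide n then dim W ≤ n/2. -/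
theorem result {F : Type*} [Field F] [Fintype F] {n r ϖ : ℕ} (R : Subgroup (Matrix.GeneralLinearGroup (Fin n) F)) (hr : r.Prime) (hR : IsPGroup r R) (hZ : Nat.card (Subgroup.center R) = r) (hext : commutator R = Subgroup.center R) (hexp : Monoid.exponent R = r ∨ Monoid.exponent R = 4) (hirr : Cfsg.Geo.ActsAbsolutelyIrreducibly (Cfsg.Geo.matrixSet R)) (g : Matrix.GeneralLinearGroup (Fin n) F) (hg : g ∈ Cfsg.Geo.subgroupNormalizer (R ⊔ Cfsg.Geo.scalars (Fin n) F)) (hϖ : ϖ.Prime) (hord : orderOf g = ϖ) (hns : g ∉ Cfsg.Geo.scalars (Fin n) F) (c : F) :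
    (ϖ = 2 → 4 * Module.finrank F (Module.End.eigenspace (Matrix.toLin' (g : Matrix (Fin n) (Fin n) F)) c) ≤ 3 * n) ∧
    (ϖ = 3 → 3 * Module.finrank F (Module.End.eigenspace (Matrix.toLin' (g : Matrix (Fin n) (Fin n) F)) c) ≤ 2 * n) ∧
    (3 < ϖ → 2 * Module.finrank F (Module.End.eigenspace (Matrix.toLin' (g : Matrix (Fin n) (Fin n) F)) c) ≤ n) ∧
    (ϖ = 3 → ¬ 3 ∣ n → 2 * Module.finrank F (Module.End.eigenspace (Matrix.toLin' (g : Matrix (Fin n) (Fin n) F)) c) ≤ n) := by
  classical
  set S := Geo.scalars (Fin n) F with hSdef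
  set W := Module.End.eigenspace (Matrix.toLin' (g : Matrix (Fin n) (Fin n) F)) c with hWdef
  by_cases hW : W = ⊥
  · rw [hW, finrank_bot]
    exact ⟨fun _ => by omega, fun _ => by omega, fun _ => by omega, fun _ _ => by omega⟩
  -- the dimension
  have hne : ∃ a b : R, a * b ≠ b * a := by
    by_contra! hc
    have h1 : commutator R = ⊥ := by
      rw [commutator_def, Subgroup.commutator_eq_bot_iff_le_centralizer]
      intro x _
      exact Subgroup.mem_centralizer_iff.2 fun y _ => hc y x
    rw [h1] at hext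
    rw [← hext, Subgroup.card_bot] at hZ
    exact hr.one_lt.ne hZ
  have hn2 : 2 ≤ n := by
    by_contra hn
    obtain ⟨a, b, hab⟩ := hne
    refine hab (Subtype.ext (Units.ext ?_))
    have : Subsingleton (Fin n) := Fin.subsingleton_iff_le_one.2 (by omega)
    ext i j
    simp only [Subgroup.coe_mul, Units.val_mul, Matrix.mul_apply]
    exact Finset.sum_congr rfl fun k _ => by
      rw [Subsingleton.elim k i, Subsingleton.elim j i, mul_comm]
  have : Nonempty (Fin n) := ⟨⟨0, by omega⟩⟩
  -- the centre is scalar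
  have hcen : ∀ z : R, z ∈ Subgroup.center R → (z : GL (Fin n) F) ∈ S := fun z hz =>
    mem_scalars_of_commute hirr fun x hx =>
      (congrArg Subtype.val (Subgroup.mem_center_iff.1 hz ⟨x, hx⟩)).symm
  have hcommR : ∀ a b : R, b * a * b⁻¹ * a⁻¹ ∈ Subgroup.center R := fun a b =>
    hext ▸ Subgroup.commutator_mem_commutator (Subgroup.mem_top b) (Subgroup.mem_top a)
  have hpowR : ∀ a : R, a ^ r ∈ Subgroup.center R := fun a => Subgroup.mem_center_iff.2 fun b => by
    have hz := hcommR a b
    have hzr : (b * a * b⁻¹ * a⁻¹) ^ r = 1 := by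
      have := pow_card_eq_one' (x := (⟨_, hz⟩ : Subgroup.center R))
      rw [hZ] at this
      exact congrArg Subtype.val this
    have e : (b * a * b⁻¹) ^ r = a ^ r := by
      calc (b * a * b⁻¹) ^ r = ((b * a * b⁻¹ * a⁻¹) * a) ^ r := by rw [inv_mul_cancel_right]
        _ = (b * a * b⁻¹ * a⁻¹) ^ r * a ^ r :=
          Commute.mul_pow (Subgroup.mem_center_iff.1 hz a).symm r
        _ = a ^ r := by rw [hzr, one_mul]
    rw [conj_pow] at e
    exact mul_inv_eq_iff_eq_mul.1 e
  set N := R ⊔ S with hNdef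
  have hNmem : ∀ x ∈ N, ∃ a : R, ∃ s ∈ S, x = (a : GL (Fin n) F) * s := by
    intro x hx
    rw [hNdef, ← SetLike.mem_coe, Subgroup.mul_normal, Set.mem_mul] at hx
    obtain ⟨a, ha, s, hs, rfl⟩ := hx
    exact ⟨⟨a, ha⟩, s, hs, rfl⟩
  -- rescale
  obtain ⟨v, hv, hv0⟩ := Submodule.exists_mem_ne_zero_of_ne_bot hW
  rw [hWdef, Module.End.mem_eigenspace_iff, Matrix.toLin'_apply] at hv
  have hc0 : c ≠ 0 := fun e => hv0 (by
    have := congrArg ((g⁻¹ : GL (Fin n) F).val *ᵥ ·) hv
    simp only [Matrix.mulVec_mulVec, ← Units.val_mul, inv_mul_cancel, Units.val_one, Matrix.one_mulVec,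
      e, zero_smul, Matrix.mulVec_zero] at this
    exact this)
  have hgpow : g ^ ϖ = 1 := hord ▸ pow_orderOf_eq_one g
  have hcpow : c ^ ϖ = 1 := by
    have key : ∀ k, (g ^ k : GL (Fin n) F).val *ᵥ v = c ^ k • v := by
      intro k
      induction k with
      | zero => simp
      | succ k ih => rw [pow_succ, Units.val_mul, ← Matrix.mulVec_mulVec, hv, Matrix.mulVec_smul, ih,
          smul_smul, ← pow_succ']
    have := key ϖ
    rw [hgpow, Units.val_one, Matrix.one_mulVec] at this
    exact (smul_left_injective F hv0 (this.symm.trans (one_smul F v).symm))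
  let s : GL (Fin n) F := scalarGL (Units.mk0 c hc0)⁻¹
  have hs : s ∈ S := scalarGL_mem _
  have hsp : s ^ ϖ = 1 := by
    rw [← scalarGL_pow, show (Units.mk0 c hc0)⁻¹ ^ ϖ = 1 from Units.ext (by
      simp [Units.val_pow_eq_pow_val, hcpow])]
    exact map_one _
  set g' := s * g with hg'
  have hnormN : ∀ x ∈ N, g' * x * g'⁻¹ ∈ N := by
    intro x hx
    have h1 : g * x * g⁻¹ ∈ N := (Subgroup.mem_normalizer_iff.1 hg x).1 hx
    have : g' * x * g'⁻¹ = g * x * g⁻¹ := by
      rw [hg', _root_.mul_inv_rev]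
      calc s * g * x * (g⁻¹ * s⁻¹) = s * (g * x * g⁻¹) * s⁻¹ := by group
        _ = _ := by rw [scalars_commute hs, mul_inv_cancel_right]
    rw [this]
    exact h1
  have hD : Data N g' r ϖ :=
    { pr := hr
      po := hϖ
      absIrred := ⟨fun U hU => hirr.1 U fun m hm => hU m (Set.image_mono
          (SetLike.coe_subset_coe.2 le_sup_left) hm),
        fun M hM => hirr.2 M fun m hm => hM m (Set.image_mono (SetLike.coe_subset_coe.2 le_sup_left) hm)⟩
      comm := fun x hx y hy => by
        obtain ⟨a, t, ht, rfl⟩ := hNmem x hx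
        obtain ⟨b, u, hu, rfl⟩ := hNmem y hy
        have e1 := scalars_commute hu ((a : GL (Fin n) F) * t)
        have e2 := scalars_commute ht ((b : GL (Fin n) F)⁻¹)
        have h := hcen _ (hcommR a b)
        simp only [Subgroup.coe_mul, Subgroup.coe_inv] at h
        convert h using 1
        calc (b : GL (Fin n) F) * u * (a * t) * (b * u)⁻¹ * (a * t)⁻¹
            = b * (u * (a * t)) * u⁻¹ * (b : GL (Fin n) F)⁻¹ * (a * t)⁻¹ := by group
          _ = b * a * (t * (b : GL (Fin n) F)⁻¹) * t⁻¹ * (a : GL (Fin n) F)⁻¹ := by rw [e1]; group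
          _ = _ := by rw [e2]; group
      scalars_le := le_sup_right
      norm := hnormN
      pow_scalar := fun x hx => by
        obtain ⟨a, t, ht, rfl⟩ := hNmem x hx
        rw [Commute.mul_pow (scalars_commute ht (a : GL (Fin n) F)).symm r, ← Subgroup.coe_pow]
        exact S.mul_mem (hcen _ (hpowR a)) (pow_mem ht r)
      g_pow := by rw [hg', Commute.mul_pow (scalars_commute hs g), hsp, hgpow, one_mul]
      g_nonscalar := fun e => hns (by
        have := S.mul_mem (S.inv_mem hs) e
        rwa [hg', inv_mul_cancel_left] at this)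
      two_le := by simpa using hn2 }
  have hroot : r = 5 → ∀ x : N, ∃ y : N,
      (QuotientGroup.mk y : Quot' N) = QuotientGroup.mk x ∧ (y : GL (Fin n) F) ^ 5 = 1 := by
    intro h5 x
    obtain ⟨a, t, ht, hx⟩ := hNmem x x.2
    refine ⟨⟨a, Subgroup.mem_sup_left a.2⟩, ?_, ?_⟩
    · rw [mk_eq_iff, hx, inv_mul_cancel_left]
      exact ht
    · have h1 : a ^ 5 = 1 := by
        rcases hexp with e | e
        · rw [← h5, ← e]; exact Monoid.pow_exponent_eq_one a
        · obtain ⟨k, hk⟩ := hR a
          have h4 : a ^ 4 = 1 := e ▸ Monoid.pow_exponent_eq_one a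
          have hd := Nat.dvd_gcd (orderOf_dvd_of_pow_eq_one h4) (orderOf_dvd_of_pow_eq_one hk)
          rw [h5, show Nat.gcd 4 (5 ^ k) = 1 from (Nat.Coprime.pow_right k (by decide))] at hd
          rw [orderOf_eq_one_iff.1 (Nat.dvd_one.1 hd), one_pow]
      exact congrArg Subtype.val h1
  obtain ⟨b2, b3, b5, b3'⟩ := hD.bounds hroot
  have hWeq : fixedSpace g' = W := by
    ext u
    rw [mem_fixedSpace, hWdef, Module.End.mem_eigenspace_iff, Matrix.toLin'_apply, endo_apply, hg',
      Units.val_mul, scalarGL_val, Matrix.smul_mul, Matrix.one_mul, Matrix.smul_mulVec,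
      Units.val_inv_eq_inv_val, Units.val_mk0, inv_smul_eq_iff₀ hc0]
  rw [hWeq, Fintype.card_fin] at b2 b3 b5 b3'
  refine ⟨b2, b3, b5, fun e h3 => b3' e fun er => h3 ?_⟩
  -- `n * n` is a power of `r`
  subst er
  have := Fact.mk hr
  have hp3 : IsPGroup 3 (Quot' N) := fun q => ⟨1, by rw [pow_one]; exact hD.quot_pow q⟩
  obtain ⟨k, hk⟩ := IsPGroup.iff_card.1 hp3
  rw [hD.card_quot, Fintype.card_fin] at hk
  have hk0 : k ≠ 0 := fun e0 => by rw [e0, pow_zero] at hk; nlinarith
  exact (Nat.prime_three.dvd_mul.1 (hk ▸ dvd_pow_self 3 hk0)).elim id id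

end Cfsg.Agent.S5877
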