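import Cfsg.Statements.S5938
import Cfsg.Agent.Dickson.MaxPoly

set_option autoImplicit false
open Cfsg
open CfsgLib.Dickson Matrix
open scoped MatrixGroups commutatorElement

namespace Cfsg.Agent.S5938

/-- Let p be a prime with p ≡ ±1 (mod 8) and F a field with p elements. Then PSL_2(F) has a maximal subgroup isomorphic to the symmetric group S_4. -/
theorem result {F : Type*} [Field F] [Fintype F] (p : ℕ) [Fact p.Prime] (hF : Fintype.card F = p) (hp : p % 8 = 1 ∨ p % 8 = 7) : ∃ H : Subgroup (Matrix.ProjectiveSpecialLinearGroup (Fin 2) F), IsCoatom H ∧ Nonempty (H ≃* Equiv.Perm (Fin 4)) := by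
  classical
  have hp : p.Prime := Fact.out
  have : CharP F p := charP_of_card_eq_prime hF
  have hp2 : p ≠ 2 := by omega
  have hodd : Odd (Fintype.card F) := (odd_card_iff p).mpr hp2
  have hm1 : ∀ Q m : ℕ, Q ^ m = Fintype.card F → m = 1 ∧ Q = p := by
    intro Q m h
    rw [hF] at h
    have hm0 : m ≠ 0 := fun h0 => by
      rw [h0, pow_zero] at h
      exact hp.one_lt.ne h
    have hQ : Q = p := by
      rcases (Nat.dvd_prime hp).mp (h ▸ dvd_pow_self Q hm0) with h1 | h1
      · rw [h1, one_pow] at h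
        exact absurd h hp.one_lt.ne
      · exact h1
    subst hQ
    exact ⟨(Nat.pow_right_injective hp.two_le (h.trans (pow_one Q).symm)), rfl⟩
  obtain ⟨H, ⟨i⟩⟩ := exists_psl_s4 (F := F) (CfsgLib.SL2.two_ne_zero_iff_odd.mpr hodd)
    (FiniteField.isSquare_two_iff.mpr (by omega))
  have hH : Nat.card H = 24 := by rw [Nat.card_congr i.toEquiv, card_perm_four]
  have h7 : 7 ≤ p := by have := hp.two_le; omega
  refine ⟨H, ⟨fun htop => ?_, fun M hlt => ?_⟩, ⟨i⟩⟩
  · have h := psl_card_mul_two hodd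
    rw [htop, Subgroup.card_top] at hH
    rw [hH, hF] at h
    have : 7 * 48 ≤ p * (p ^ 2 - 1) := Nat.mul_le_mul h7 (by
      have : 7 ^ 2 ≤ p ^ 2 := Nat.pow_le_pow_left h7 2
      omega)
    omega
  · obtain ⟨x, hx, y, hy, h1, h2, h3, h4⟩ := exists_poly_witness i
      (Equiv.swap 0 1 * Equiv.swap 1 2) (Equiv.swap 0 1 * Equiv.swap 1 3) (by decide +kernel)
    have hdvd : 24 ∣ Nat.card M := hH ▸ Subgroup.card_dvd_of_le hlt.le
    have hne : Nat.card M ≠ 24 := fun h =>
      hlt.ne (Subgroup.eq_of_le_of_card_ge hlt.le (by omega))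
    rcases poly_overgroup_cases p hp2 (hlt.le hx) (hlt.le hy) h1 h2 h3 h4 with
      ⟨-, h⟩ | ⟨-, h⟩ | ⟨-, h⟩ | ⟨Q, m, hQm, hQ⟩
    · omega
    · exact absurd h hne
    · omega
    · obtain ⟨rfl, rfl⟩ := hm1 Q m hQm
      rcases hQ with ⟨-, hev⟩ | ⟨-, hQ⟩
      · exact absurd (hev hp2) (by norm_num)
      · refine Subgroup.eq_top_of_card_eq _ ?_
        rw [← hF, ← psl_card_mul_two hodd] at hQ
        omega

end Cfsg.Agent.S5938
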