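import Cfsg.Statements.S5943
import Cfsg.Agent.Dickson.MaxPoly

set_option autoImplicit false
open Cfsg
open CfsgLib.Dickson Matrix
open scoped MatrixGroups commutatorElement

namespace Cfsg.Agent.S5943

/-- Let K and F be finite fields of characteristic 2 with #K = q > 2 and #F = q^r for a prime r. Then PSL_2(F) has a maximal subgroup isomorphic to PSL_2(K) (which equals PGL_2(K) in characteristic 2). -/
theorem result {F K : Type*} [Field F] [Fintype F] [Field K] [Fintype K] (q r : ℕ) (hK : Fintype.card K = q) (hF : Fintype.card F = q ^ r) (hq : Even q) (hq2 : q ≠ 2) (hr : r.Prime) : ∃ H : Subgroup (Matrix.ProjectiveSpecialLinearGroup (Fin 2) F), IsCoatom H ∧ Nonempty (H ≃* Matrix.ProjectiveSpecialLinearGroup (Fin 2) K) := by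
  classical
  obtain ⟨p, hpc⟩ := CharP.exists K
  have : Fact p.Prime := ⟨CharP.char_is_prime K p⟩
  obtain ⟨f⟩ := exists_ringHom_of_card_pow (F := F) (K := K) (m := r) (by rw [hK, hF])
  have : CharP F p := charP_of_injective_ringHom (f := f) f.injective p
  obtain ⟨e, -, he⟩ := FiniteField.card K p
  have hqp : q = p ^ (e : ℕ) := hK ▸ he
  have hp2 : p = 2 := not_not.mp fun h =>
    Nat.not_even_iff_odd.mpr ((odd_card_iff (F := K) p).mpr h) (hK ▸ hq)
  have heven : Even (Fintype.card F) := by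
    rw [← Nat.not_odd_iff_even, odd_card_iff p]
    exact not_not.mpr hp2
  obtain ⟨H, -, ⟨i⟩⟩ := exists_psl_subfield f
  obtain ⟨a, b, hap, hbp, hab⟩ := exists_psl_pair K p
  obtain ⟨g, hg, hgH⟩ : ∃ g : Matrix.ProjectiveSpecialLinearGroup (Fin 2) K →*
      Matrix.ProjectiveSpecialLinearGroup (Fin 2) F, Function.Injective g ∧ ∀ u, g u ∈ H :=
    ⟨H.subtype.comp i.symm.toMonoidHom, H.subtype_injective.comp i.symm.injective,
      fun u => (i.symm u).2⟩
  have hcardH : Nat.card H * 1 = q * (q ^ 2 - 1) := by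
    rw [mul_one, Nat.card_congr i.toEquiv, card_psl_two (F := K) (hK ▸ hq), hK]
  have hq1 : 1 < q := hK ▸ Fintype.one_lt_card
  refine ⟨H, ⟨fun htop => ?_, fun M hlt => ?_⟩, ⟨i⟩⟩
  · rw [htop, Subgroup.card_top] at hcardH
    have hlt' : q < Fintype.card F := by
      rw [hF]
      exact lt_self_pow₀ hq1 hr.one_lt
    have h2 : q * (q ^ 2 - 1) * 2 < Fintype.card F * (Fintype.card F ^ 2 - 1) := by
      have h3 : q ^ 2 ≤ Fintype.card F := by
        rw [hF]
        exact Nat.pow_le_pow_right (by omega) hr.two_le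
      have h4 : q ^ 2 - 1 ≤ Fintype.card F ^ 2 - 1 :=
        Nat.sub_le_sub_right (Nat.pow_le_pow_left hlt'.le 2) 1
      have h5 : q * 2 ≤ Fintype.card F := le_trans (by nlinarith) h3
      have h6 : 0 < q ^ 2 - 1 := by have : 2 ^ 2 ≤ q ^ 2 := Nat.pow_le_pow_left hq1 2; omega
      have h7 : q ^ 2 - 1 < Fintype.card F ^ 2 - 1 := by
        have : q ^ 2 < Fintype.card F ^ 2 := Nat.pow_lt_pow_left hlt' two_ne_zero
        omega
      calc q * (q ^ 2 - 1) * 2 = q * 2 * (q ^ 2 - 1) := by ring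
        _ < q * 2 * (Fintype.card F ^ 2 - 1) := Nat.mul_lt_mul_of_pos_left h7 (by omega)
        _ ≤ _ := Nat.mul_le_mul_right _ h5
    have h8 := card_psl_two heven
    omega
  · exact eq_top_of_subfield_lt p hqp hq2 hr hF (d := 1) (Or.inl rfl) hcardH (fun _ => rfl) (hgH a)
      (hgH b) (by rw [← map_pow, hap, map_one]) (by rw [← map_pow, hbp, map_one])
      (fun h => hab (hg (by rw [map_mul, map_mul, h]))) hlt

end Cfsg.Agent.S5943
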