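import Cfsg.Statements.S5944


set_option autoImplicit false
open Cfsg

namespace Cfsg.Agent.S5944

/-- For n ≠ 4, every proper subgroup of the symmetric group S_n other than the alternating group A_n has index at least n. -/
theorem result (n : ℕ) (hn : n ≠ 4) (H : Subgroup (Equiv.Perm (Fin n))) (hH : H ≠ ⊤) (hA : H ≠ alternatingGroup (Fin n)) : n ≤ H.index := by
  rcases Nat.lt_or_ge n 5 with h5 | h5
  · have h1 : H.index ≠ 1 := fun h => hH (Subgroup.index_eq_one.mp h)
    have h0 : H.index ≠ 0 := Subgroup.index_ne_zero_of_finite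
    have h2 : H.index ≠ 2 := fun h => hA (Equiv.Perm.eq_alternatingGroup_of_index_eq_two h)
    omega
  by_contra hlt
  rw [not_le] at hlt
  classical
  set f := MulAction.toPermHom (Equiv.Perm (Fin n)) (Equiv.Perm (Fin n) ⧸ H) with hf
  have hker : f.ker ≤ H := by
    intro g hg
    have h : g • ((1 : Equiv.Perm (Fin n)) : Equiv.Perm (Fin n) ⧸ H) =
        ((1 : Equiv.Perm (Fin n)) : Equiv.Perm (Fin n) ⧸ H) := by
      have := Equiv.congr_fun (MonoidHom.mem_ker.mp hg) (((1 : Equiv.Perm (Fin n)) : Equiv.Perm (Fin n) ⧸ H))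
      simpa [hf] using this
    rwa [MulAction.Quotient.smul_mk, smul_eq_mul, mul_one, QuotientGroup.eq, mul_one,
      Subgroup.inv_mem_iff] at h
  have hne : f.ker ≠ ⊥ := by
    intro hb
    have hinj := (MonoidHom.ker_eq_bot_iff f).mp hb
    have := Nat.card_le_card_of_injective f hinj
    rw [Nat.card_perm, Nat.card_perm, Nat.card_fin, ← Subgroup.index_eq_card] at this
    have h0 : H.index ≠ 0 := Subgroup.index_ne_zero_of_finite
    have := (Nat.factorial_lt (Nat.pos_of_ne_zero h0)).mpr hlt
    omega
  have hs : IsSimpleGroup (alternatingGroup (Fin n)) :=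
    alternatingGroup.isSimpleGroup (by simpa using h5)
  rcases hs.eq_bot_or_eq_top_of_normal (f.ker.subgroupOf (alternatingGroup (Fin n)))
      inferInstance with h | h
  · rw [Subgroup.subgroupOf_eq_bot] at h
    obtain ⟨⟨x, hx⟩, hx0⟩ := Subgroup.ne_bot_iff_exists_ne_one.mp hne
    have hx1 : x ≠ 1 := fun e => hx0 (Subtype.ext e)
    have hcen : x ∈ Subgroup.center (Equiv.Perm (Fin n)) := by
      rw [Subgroup.mem_center_iff]
      intro g
      have hy : g * x * g⁻¹ ∈ f.ker := f.normal_ker.conj_mem x hx g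
      have hd : g * x * g⁻¹ * x⁻¹ ∈ alternatingGroup (Fin n) := by
        rw [Equiv.Perm.mem_alternatingGroup, map_mul, map_mul, map_mul, map_inv, map_inv,
          mul_comm (Equiv.Perm.sign g), mul_inv_cancel_right, mul_inv_cancel]
      have := Subgroup.mem_bot.mp (h.le_bot (Subgroup.mem_inf.mpr ⟨mul_mem hy (inv_mem hx), hd⟩))
      have h2 := congrArg (fun z => z * x * g) this
      simpa [mul_assoc] using h2
    obtain ⟨a, ha⟩ : ∃ a, x a ≠ a := by
      by_contra! h'
      exact hx1 (Equiv.ext h')
    obtain ⟨c, hca, hcb⟩ : ∃ c, c ≠ a ∧ c ≠ x a := by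
      by_contra! h'
      have : (Finset.univ : Finset (Fin n)) ⊆ {a, x a} := fun c _ => by
        by_cases hc : c = a
        · simp [hc]
        · simp [h' c hc]
      have := (Finset.card_le_card this).trans Finset.card_le_two
      simp at this; omega
    have h' := Equiv.congr_fun (Subgroup.mem_center_iff.mp hcen (Equiv.swap (x a) c)) a
    simp [Equiv.swap_apply_of_ne_of_ne ha.symm hca.symm] at h'
    exact hcb h'
  · rw [Subgroup.subgroupOf_eq_top] at h
    have h2 := Subgroup.index_dvd_of_le (h.trans hker)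
    have h3 : (alternatingGroup (Fin n)).index = 2 := by
      have : Nontrivial (Fin n) := Fin.nontrivial_iff_two_le.mpr (by omega)
      exact alternatingGroup.index_eq_two
    rw [h3] at h2
    rcases (Nat.dvd_prime Nat.prime_two).mp h2 with h4 | h4
    · exact hH (Subgroup.index_eq_one.mp h4)
    · exact hA (Equiv.Perm.eq_alternatingGroup_of_index_eq_two h4)

end Cfsg.Agent.S5944
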