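import Cfsg.Statements.S5949
import Cfsg.Agent.Classical.Semisimple.LinearElusive
import Cfsg.Agent.Classical.Semisimple.SubspaceCount

set_option autoImplicit false
open scoped MatrixGroups
open Cfsg

namespace Cfsg.Agent.S5949

open CfsgLib.Classical.Semisimple in
/-- Elements of prime order of PSL_n(q) with no fixed `m`-space. Here `T = PSL_n(F)` for a field `F` with `q = p^f` elements (`n ≥ 2`, `(n, q) ≠ (2, 2), (2, 3)`); an element of `T` of prime order `r` is represented by a matrix `x` of determinant 1 with `x^r` scalar and `x` not scalar; `i` denotes the multiplicative order of `q` modulo `r` (when `r ≠ p`), and `(a)_r` the `r`-part of `a`. Let `1 ≤ m ≤ n/2` and let `r` be a prime dividing the number of `m`-dimensional subspaces of `F^n`. Then every element of `T` of order `r` fixes some `m`-dimensional subspace (the action on `m`-spaces is `r`-elusive) if and only if `r ≠ p` and either (i) `i = 1` and (`r ∣ m`, or `(q−1)_r ≥ (n)_r` where in addition `q ≡ 1 (mod 4)` is required when `r = 2` and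 `n` is even), or (ii) `2 ≤ i ≤ m` and `n mod i ≥ m mod i`. -/
theorem result {F : Type*} [Field F] [Fintype F] {p : ℕ} [Fact p.Prime] [CharP F p] {q : ℕ} (hq : Fintype.card F = q)
    (n m : ℕ) (hn : 2 ≤ n) (hT : (n, q) ≠ (2, 2) ∧ (n, q) ≠ (2, 3)) (hm : 1 ≤ m) (hmn : 2 * m ≤ n)
    (r : ℕ) [Fact r.Prime] (hrΩ : r ∣ Nat.card {W : Submodule F (Fin n → F) // Module.finrank F ↥W = m}) :
    (∀ x : Matrix.SpecialLinearGroup (Fin n) F,
      (∃ c : F, ((x ^ r : Matrix.SpecialLinearGroup (Fin n) F) : Matrix (Fin n) (Fin n) F) = c • (1 : Matrix (Fin n) (Fin n) F)) →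
      (∀ c : F, (x : Matrix (Fin n) (Fin n) F) ≠ c • (1 : Matrix (Fin n) (Fin n) F)) →
      ∃ W : Submodule F (Fin n → F), Module.finrank F ↥W = m ∧ W.map (Matrix.toLin' (x : Matrix (Fin n) (Fin n) F)) ≤ W) ↔
    (r ≠ p ∧
      ((orderOf (q : ZMod r) = 1 ∧ (r ∣ m ∨ (padicValNat r n ≤ padicValNat r (q - 1) ∧ (r = 2 → Even n → q % 4 = 1)))) ∨
       (2 ≤ orderOf (q : ZMod r) ∧ orderOf (q : ZMod r) ≤ m ∧ m % orderOf (q : ZMod r) ≤ n % orderOf (q : ZMod r)))) := by
  subst hq
  set q := Fintype.card F with hq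
  set i := orderOf (q : ZMod r) with hi
  have hr : r.Prime := Fact.out
  have : Nonempty (Fin n) := ⟨⟨0, by omega⟩⟩
  have hfr : Module.finrank F (Fin n → F) = n := Module.finrank_fin_fun F
  obtain ⟨a, ham, hra⟩ := exists_dvd_of_dvd_card_subspaces (F := F) (V := Fin n → F) hr
    (m := m) (by rw [hfr]; omega) hrΩ
  rw [hfr] at hra
  have hrp : r ≠ p := by
    rintro rfl
    obtain ⟨f, -, hf⟩ := FiniteField.card F r
    exact not_dvd_pow_sub_one_of_eq hr hf f.pos (by omega) hra
  have hrF : (r : F) ≠ 0 := fun h =>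
    hrp (((Nat.prime_dvd_prime_iff_eq (Fact.out : p.Prime) hr).mp
      ((CharP.cast_eq_zero_iff F p r).mp h)).symm)
  have hipos : 0 < i := orderOf_card_pos hrF
  have hia : i ∣ n - a := (dvd_pow_sub_one_iff_orderOf_dvd (F := F) (r := r) (n - a)).mp hra
  have hin : i ≤ n := (Nat.le_of_dvd (by omega) hia).trans (Nat.sub_le n a)
  have key : i ≠ 1 → ¬(m ≤ n % i ∧ m < i) := by
    rintro - ⟨h1, h2⟩
    obtain ⟨c, hc⟩ := hia
    have h3 : n % i = a := by
      have : n = a + i * c := by omega
      rw [this, Nat.add_mul_mod_self_left, Nat.mod_eq_of_lt (by omega)]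
    omega
  constructor
  · intro H
    refine ⟨hrp, ?_⟩
    by_cases hi1 : i = 1
    · refine Or.inl ⟨hi1, ?_⟩
      by_contra hcon
      push Not at hcon
      obtain ⟨-, x, z, hxz, hxns, hdims⟩ := exists_sl_dvd (F := F) (r := r) (n := n) hi1 (by omega) hrF
        (fun ⟨h1, h2⟩ => by
          obtain ⟨h3, h4, h5⟩ := hcon.2 h1
          exact h5 (h2 h3 h4))
      obtain ⟨W, hWd, hW⟩ := H x ⟨z, hxz⟩ hxns
      exact hcon.1 (hWd ▸ hdims W hW)
    · refine Or.inr ?_
      have hk := Nat.mod_lt n hipos
      have hL : 0 < n / i := Nat.div_pos hin hipos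
      obtain ⟨x, hxz, hxns, hpow, hker, -⟩ := exists_sl_orbit (F := F) (r := r) (n := n) hrF hi1 hL
        (Nat.div_mul_le_self n i)
      obtain ⟨W, hWd, hW⟩ := H x ⟨1, hxz⟩ hxns
      obtain ⟨j, l, hj, -, hjl⟩ :=
        (exists_invariant_le_iff_of_pow_eq_one (r := r) hrF hpow (U := ⊤) le_top m).mp
          ⟨W, le_top, hW, hWd⟩
      rw [top_inf_eq, hker] at hj
      have hdm := Nat.div_add_mod' n i
      have hj' : j ≤ n % i := by rw [← hi] at hj; omega
      rw [← hi] at hjl
      refine ⟨by omega, ?_, ?_⟩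
      · by_contra hlt
        refine key hi1 ⟨?_, by omega⟩
        rcases Nat.eq_zero_or_pos l with rfl | hl
        · simp at hjl; omega
        · have : i ≤ l * i := Nat.le_mul_of_pos_left i hl
          omega
      · rw [← hjl, Nat.add_mul_mod_self_right]
        exact (Nat.mod_le j i).trans hj'
  · rintro ⟨-, hcond⟩ x ⟨z, hz⟩ -
    obtain ⟨T, hT'⟩ : ∃ T : Module.End F (Fin n → F),
        T = Matrix.toLin' (x : Matrix (Fin n) (Fin n) F) := ⟨_, rfl⟩
    have hpowz : T ^ r = z • 1 := by rw [hT']; exact toLin'_pow_eq_smul hz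
    have hdet : LinearMap.det T = 1 := by rw [hT']; exact toLin'_det_one x
    suffices ∃ W : Submodule F (Fin n → F), Module.finrank F ↥W = m ∧ W.map T ≤ W by
      rw [hT'] at this; exact this
    rcases hcond with ⟨hi1, hc⟩ | ⟨h2, hm', hmod⟩
    · rcases twist_or_dvd (F := F) (r := r) (n := n) hi1 (by omega) hdet hpowz with
        ⟨w, hw, hpow⟩ | ⟨hrn, -, hnot⟩
      · obtain ⟨W, -, hW, hWd⟩ := exists_invariant_of_orderOf_eq_one (r := r) hrF hi1 hpow
          (U := ⊤) le_top (m := m) (by rw [finrank_top, hfr]; omega)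
        exact ⟨W, hWd, (map_smul_le_iff (inv_ne_zero hw) T W).mp hW⟩
      · rcases hc with hrm | hc
        · -- every dimension divisible by `r` occurs
          by_cases hp' : ∃ b : F, b ^ r = z
          · obtain ⟨b, hb⟩ := hp'
            have hz0 : z ≠ 0 := scalar_ne_zero hz
            have hb0 : b ≠ 0 := fun e => hz0 (by rw [← hb, e, zero_pow hr.ne_zero])
            obtain ⟨W, -, hW, hWd⟩ := exists_invariant_of_orderOf_eq_one (r := r) hrF hi1
              (smul_pow_eq_one hb hz0 hpowz) (U := ⊤) le_top (m := m) (by rw [finrank_top, hfr]; omega)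
            exact ⟨W, hWd, (map_smul_le_iff (inv_ne_zero hb0) T W).mp hW⟩
          · push Not at hp'
            have hP := irreducible_X_pow_sub_C_of_forall (F := F) (r := r) hp'
            have hdeg : (Polynomial.X ^ r - Polynomial.C z : Polynomial F).natDegree = r :=
              Polynomial.natDegree_X_pow_sub_C
            have hz0 : z ≠ 0 := scalar_ne_zero hz
            have hpieces : Pieces T (⊤ : Submodule F (Fin n → F)) r := by
              refine pieces_of_aeval_eq_zero hP.ne_zero (fun v _ => ?_) (fun P hP1 hd => ?_)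
              · simp [hpowz, Algebra.algebraMap_eq_smul_one]
              · rw [← hdeg]
                exact Polynomial.natDegree_eq_of_degree_eq
                  (Polynomial.degree_eq_degree_of_associated (hP1.associated_of_dvd hP hd))
            obtain ⟨W, -, hW, hWd⟩ := hpieces.exists_subspace (isSemisimple_of_pow_eq_smul hrF hz0 hpowz)
              le_top (m / r) (by rw [finrank_top, hfr, Nat.div_mul_cancel hrm]; omega)
            exact ⟨W, by rw [hWd, Nat.div_mul_cancel hrm], hW⟩
        · exact absurd hc hnot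
    · have hi1 : i ≠ 1 := by omega
      obtain ⟨w, hw, hpow, -⟩ := exists_twist_of_orderOf_ne_one (r := r) hi1 hdet hpowz
      set S := w⁻¹ • T with hS
      have hss := isSemisimple_of_pow_eq_one hrF hpow
      obtain ⟨L, hL⟩ := orderOf_dvd_finrank_range (r := r) hrF hpow
      rw [← hi] at hL
      have hsum := Submodule.finrank_add_eq_of_isCompl (isCompl_ker_range hss (1 : F))
      rw [hfr, hL] at hsum
      have hdm := Nat.div_add_mod' m i
      have hJ : n % i ≤ Module.finrank F ↥(LinearMap.ker (S - (1 : F) • 1)) := by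
        have h := congrArg (· % i) hsum
        simp only [Nat.add_mul_mod_self_left] at h
        rw [← h]; exact Nat.mod_le _ _
      have h' : ∃ j l : ℕ, j ≤ Module.finrank F ↥(LinearMap.ker (S - (1 : F) • 1)) ∧
          l * i ≤ Module.finrank F ↥(LinearMap.range (S - (1 : F) • 1)) ∧ j + l * i = m := by
        by_cases hl : m / i ≤ L
        · refine ⟨m % i, m / i, le_trans hmod hJ, ?_, by omega⟩
          rw [hL, mul_comm i L]; exact Nat.mul_le_mul_right i hl
        · have h3 : (L + 1) * i ≤ m / i * i := Nat.mul_le_mul_right i (by omega)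
          rw [Nat.succ_mul, mul_comm L i] at h3
          exact ⟨m - L * i, L, by rw [mul_comm L]; omega, by rw [hL, mul_comm], by rw [mul_comm L]; omega⟩
      obtain ⟨W, -, hW, hWd⟩ := (exists_invariant_le_iff_of_pow_eq_one (r := r) hrF hpow
        (U := ⊤) le_top m).mpr (by rw [top_inf_eq, top_inf_eq]; exact h')
      exact ⟨W, hWd, (map_smul_le_iff (inv_ne_zero hw) T W).mp hW⟩

end Cfsg.Agent.S5949
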