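import Cfsg.Statements.S5950
import Cfsg.Agent.Classical.Semisimple.Unipotent
import Cfsg.Agent.Classical.Semisimple.Bridge
import Cfsg.Agent.Classical.Semisimple.FlagCount
import Cfsg.Agent.S5949

set_option autoImplicit false
open scoped MatrixGroups
open Cfsg

namespace Cfsg.Agent.S5950

open CfsgLib.Classical.Semisimple in
/-- The case of elements of order `p`: partitions. -/
theorem unipotent_case {F : Type*} [Field F] [Fintype F] {p : ℕ} [Fact p.Prime] [CharP F p]
    (n m : ℕ) (hn : 0 < n) :
    (∀ x : Matrix.SpecialLinearGroup (Fin n) F,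
      (∃ c : F, ((x ^ p : Matrix.SpecialLinearGroup (Fin n) F) : Matrix (Fin n) (Fin n) F) =
        c • (1 : Matrix (Fin n) (Fin n) F)) →
      (∀ c : F, (x : Matrix (Fin n) (Fin n) F) ≠ c • (1 : Matrix (Fin n) (Fin n) F)) →
      ∃ U W : Submodule F (Fin n → F), IsCompl U W ∧ Module.finrank F ↥U = m ∧
        U.map (Matrix.toLin' (x : Matrix (Fin n) (Fin n) F)) ≤ U ∧
        W.map (Matrix.toLin' (x : Matrix (Fin n) (Fin n) F)) ≤ W) ↔
    ((∀ μ : Multiset ℕ, (∀ a ∈ μ, 0 < a ∧ a ≤ p) → μ.sum = n → (∃ a ∈ μ, 1 < a) →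
      ∃ ν : Multiset ℕ, ν ≤ μ ∧ ν.sum = m)) := by
  have hp : p.Prime := Fact.out
  have : Nonempty (Fin n) := ⟨⟨0, hn⟩⟩
  have : CharP (Module.End F (Fin n → F)) p :=
    charP_of_injective_algebraMap (FaithfulSMul.algebraMap_injective F _) p
  have hinv : ∀ (S : Module.End F (Fin n → F)) (U : Submodule F (Fin n → F)),
      U.map S ≤ U ↔ U.map (S - 1) ≤ U := by
    intro S U
    constructor <;> intro h <;> refine map_le_of_forall_mem fun x hx => ?_
    · exact U.sub_mem (mem_of_map_le h hx) hx
    · simpa using U.add_mem (mem_of_map_le h hx) hx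
  constructor
  · intro H μ hμ hsum hbig
    subst hsum
    obtain ⟨N, hN, hNp⟩ := exists_end_hasType (F := F) μ (fun a ha => (hμ a ha).1)
    have hNp' := hNp p (fun a ha => (hμ a ha).2)
    have hpow : (1 + N) ^ p = 1 := by
      rw [add_pow_char_of_commute p (Commute.one_left N), one_pow, hNp', add_zero]
    have hdet : LinearMap.det (1 + N) = 1 :=
      frobenius_inj F p (by rw [frobenius_def, frobenius_def, ← map_pow, hpow, map_one, one_pow])
    have hns : ∀ c : F, 1 + N ≠ c • 1 := by
      intro c hc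
      have hc1 : c ^ p = 1 := by
        rw [hc, _root_.smul_pow, one_pow] at hpow
        obtain ⟨j⟩ := ‹Nonempty (Fin μ.sum)›
        simpa using congrFun (LinearMap.congr_fun hpow (Pi.single j 1)) j
      have : c = 1 := frobenius_inj F p (by rw [frobenius_def, frobenius_def, hc1, one_pow])
      rw [this, one_smul, add_eq_left] at hc
      obtain ⟨a, ha, ha1⟩ := hbig
      have := parts_le_of_pow_eq_zero (p := 1) hN (by rw [hc, pow_one]) a ha
      omega
    obtain ⟨x, hx, hxz, hxns⟩ := exists_sl_of_end hdet (z := 1) (by rw [hpow, one_smul]) hns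
    obtain ⟨U, W, hUW, hUd, hU, hW⟩ := H x ⟨1, hxz⟩ hxns
    rw [hx] at hU hW
    rw [← hUd]
    have h1 := (hinv _ U).mp hU
    have h2 := (hinv _ W).mp hW
    rw [add_sub_cancel_left] at h1 h2
    exact hN.exists_le_of_isCompl ⟨p, hNp'⟩ hUW h1 h2
  · intro H x ⟨z, hz⟩ hxns
    obtain ⟨T, hT'⟩ : ∃ T : Module.End F (Fin n → F),
        T = Matrix.toLin' (x : Matrix (Fin n) (Fin n) F) := ⟨_, rfl⟩
    suffices ∃ U W : Submodule F (Fin n → F), IsCompl U W ∧ Module.finrank F ↥U = m ∧
        U.map T ≤ U ∧ W.map T ≤ W by rw [hT'] at this; exact this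
    have hpowz : T ^ p = z • 1 := by rw [hT']; exact toLin'_pow_eq_smul hz
    have hz0 : z ≠ 0 := scalar_ne_zero hz
    obtain ⟨f, hf0, hf⟩ := FiniteField.card F p
    have hb : (z ^ p ^ ((f : ℕ) - 1)) ^ p = z := by
      rw [← pow_mul, ← pow_succ, Nat.sub_add_cancel f.pos, ← hf, FiniteField.pow_card]
    obtain ⟨b, hbz⟩ : ∃ b : F, b ^ p = z := ⟨_, hb⟩
    have hb0 : b ≠ 0 := fun e => hz0 (by rw [← hbz, e, zero_pow hp.ne_zero])
    have hS := smul_pow_eq_one hbz hz0 hpowz
    set S := b⁻¹ • T with hSdef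
    have hnil : (S - 1) ^ p = 0 := by
      rw [sub_pow_char_of_commute p (Commute.one_right S), hS, one_pow, sub_self]
    obtain ⟨μ, hμ, hsub⟩ := exists_hasType (N := S - 1) ⟨p, hnil⟩
    have hbig : ∃ a ∈ μ, 1 < a := by
      by_contra! h
      have h1 := hμ.2 1
      rw [pow_one, Multiset.sum_eq_zero_iff.mpr (fun y hy => by
        obtain ⟨a, ha, rfl⟩ := Multiset.mem_map.mp hy
        have := h a ha; omega), Submodule.finrank_eq_zero, LinearMap.range_eq_bot, sub_eq_zero] at h1
      refine hxns b (Matrix.toLin'.injective ?_)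
      rw [toLin'_smul_one, ← hT', ← h1, hSdef, smul_smul, mul_inv_cancel₀ hb0, one_smul]
    obtain ⟨ν, hν, hνsum⟩ := H μ (fun a ha => ⟨hμ.1 a ha, parts_le_of_pow_eq_zero hμ hnil a ha⟩)
      (hμ.sum_eq.trans (Module.finrank_fin_fun F)) hbig
    obtain ⟨U, W, hUW, hU, hW, hUd⟩ := hsub ν hν
    exact ⟨U, W, hUW, hUd.trans hνsum,
      (map_smul_le_iff (inv_ne_zero hb0) T U).mp ((hinv S U).mpr hU),
      (map_smul_le_iff (inv_ne_zero hb0) T W).mp ((hinv S W).mpr hW)⟩

open CfsgLib.Classical.Semisimple in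
/-- Elements of prime order of PSL_n(q) fixing no decomposition `F^n = U ⊕ W` with `dim U = m`. Here `T = PSL_n(F)` for a field `F` with `q = p^f` elements (`n ≥ 2`, `(n, q) ≠ (2, 2), (2, 3)`); an element of `T` of prime order `r` is represented by a matrix `x` of determinant 1 with `x^r` scalar and `x` not scalar; `i` denotes the multiplicative order of `q` modulo `r` (when `r ≠ p`), and `(a)_r` the `r`-part of `a`. Let `n ≥ 3`, `1 ≤ m < n/2`, and let `r` be a prime dividing the number of such decompositions (unordered pairs `{U, W}` of complementary subspaces with `dim U = m`; since `m ≠ n − m` these are the ordered pairs with `dim U = m`). Then every element of `T` of order `r` fixes such a pair (fixes both `U` and `W` for some complementary `U, W` with `dim U = m`) if and only if one of: (i) `r = p > 2` and every partition of `n` into parts of size at most `p` contains, as a sub-multiset, a partition of `m`; (ii) `r = p = 2` and `n` is odd or `m` is even; (iii) `r ≠ p`, `i = 1`, and `r ∣ m`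 or `(q−1)_r ≥ (n)_r` (with `q ≡ 1 (mod 4)` required when `r = 2` and `n` is even); (iv) `r ≠ p`, `2 ≤ i ≤ m` and `n mod i ≥ m mod i`. -/
theorem result {F : Type*} [Field F] [Fintype F] {p : ℕ} [Fact p.Prime] [CharP F p] {q : ℕ} (hq : Fintype.card F = q)
    (n m : ℕ) (hn : 3 ≤ n) (hm : 1 ≤ m) (hmn : 2 * m < n)
    (r : ℕ) [Fact r.Prime]
    (hrΩ : r ∣ Nat.card {P : Submodule F (Fin n → F) × Submodule F (Fin n → F) // IsCompl P.1 P.2 ∧ Module.finrank F ↥P.1 = m}) :
    (∀ x : Matrix.SpecialLinearGroup (Fin n) F,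
      (∃ c : F, ((x ^ r : Matrix.SpecialLinearGroup (Fin n) F) : Matrix (Fin n) (Fin n) F) = c • (1 : Matrix (Fin n) (Fin n) F)) →
      (∀ c : F, (x : Matrix (Fin n) (Fin n) F) ≠ c • (1 : Matrix (Fin n) (Fin n) F)) →
      ∃ U W : Submodule F (Fin n → F), IsCompl U W ∧ Module.finrank F ↥U = m ∧
        U.map (Matrix.toLin' (x : Matrix (Fin n) (Fin n) F)) ≤ U ∧ W.map (Matrix.toLin' (x : Matrix (Fin n) (Fin n) F)) ≤ W) ↔
    ((r = p ∧ 2 < p ∧ (∀ μ : Multiset ℕ, (∀ a ∈ μ, 0 < a ∧ a ≤ p) → μ.sum = n → ∃ ν : Multiset ℕ, ν ≤ μ ∧ ν.sum = m)) ∨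
     (r = p ∧ p = 2 ∧ (Odd n ∨ Even m)) ∨
     (r ≠ p ∧
      ((orderOf (q : ZMod r) = 1 ∧ (r ∣ m ∨ (padicValNat r n ≤ padicValNat r (q - 1) ∧ (r = 2 → Even n → q % 4 = 1)))) ∨
       (2 ≤ orderOf (q : ZMod r) ∧ orderOf (q : ZMod r) ≤ m ∧ m % orderOf (q : ZMod r) ≤ n % orderOf (q : ZMod r))))) := by
  have hr : r.Prime := Fact.out
  have : Nonempty (Fin n) := ⟨⟨0, by omega⟩⟩
  by_cases hrp : r = p
  · subst hrp
    rw [unipotent_case n m (by omega)]
    constructor
    · intro H
      rcases hr.eq_two_or_odd' with rfl | hodd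
      · refine Or.inr (Or.inl ⟨rfl, rfl, ?_⟩)
        by_contra hcon
        rw [not_or, Nat.not_odd_iff_even, Nat.not_even_iff_odd] at hcon
        obtain ⟨k, hk⟩ := hcon.1
        obtain ⟨ν, hν, hνs⟩ := H (Multiset.replicate k 2)
          (fun a ha => by rw [Multiset.eq_of_mem_replicate ha]; omega)
          (by rw [Multiset.sum_replicate, smul_eq_mul]; omega)
          ⟨2, Multiset.mem_replicate.mpr ⟨by omega, rfl⟩, by omega⟩
        have h2 : 2 ∣ ν.sum := Multiset.dvd_sum fun a ha =>
          dvd_of_eq (Multiset.eq_of_mem_replicate (Multiset.mem_of_le hν ha)).symm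
        rw [hνs] at h2
        exact Nat.not_even_iff_odd.mpr hcon.2 (even_iff_two_dvd.mpr h2)
      · refine Or.inl ⟨rfl, lt_of_le_of_ne hr.two_le (fun e => by rw [← e] at hodd; exact absurd hodd (by decide)), ?_⟩
        intro μ hμ hsum
        by_cases hbig : ∃ a ∈ μ, 1 < a
        · exact H μ hμ hsum hbig
        · push Not at hbig
          have hone : μ = Multiset.replicate (Multiset.card μ) 1 :=
            Multiset.eq_replicate_card.mpr fun a ha => le_antisymm (hbig a ha) (hμ a ha).1
          have hcard : Multiset.card μ = n := by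
            rw [hone, Multiset.sum_replicate, smul_eq_mul, mul_one] at hsum; exact hsum
          refine ⟨Multiset.replicate m 1, ?_, by simp⟩
          rw [hone]; exact (Multiset.replicate_le_replicate 1).mpr (by omega)
    · rintro (⟨-, -, h⟩ | ⟨-, h2, h⟩ | ⟨h, -⟩)
      · exact fun μ hμ hsum _ => h μ hμ hsum
      · intro μ hμ hsum _
        subst h2
        have hdec : μ = Multiset.replicate (μ.count 1) 1 + Multiset.replicate (μ.count 2) 2 := by
          refine Multiset.ext.mpr fun a => ?_
          simp only [Multiset.count_add, Multiset.count_replicate]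
          by_cases h1 : a = 1
          · subst h1; simp
          · by_cases h2 : a = 2
            · subst h2; simp
            · rw [if_neg (Ne.symm h1), if_neg (Ne.symm h2), Multiset.count_eq_zero.mpr]
              intro ha
              have := hμ a ha
              omega
        have hs : μ.count 1 + μ.count 2 * 2 = n := by
          rw [← hsum]
          conv_rhs => rw [hdec, Multiset.sum_add, Multiset.sum_replicate, Multiset.sum_replicate,
            smul_eq_mul, smul_eq_mul, mul_one]
        refine ⟨Multiset.replicate (m - min (μ.count 2) (m / 2) * 2) 1 +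
          Multiset.replicate (min (μ.count 2) (m / 2)) 2, ?_, ?_⟩
        · conv_rhs => rw [hdec]
          refine add_le_add ((Multiset.replicate_le_replicate 1).mpr ?_)
            ((Multiset.replicate_le_replicate 2).mpr (min_le_left _ _))
          rcases h with ⟨t, ht⟩ | ⟨t, ht⟩ <;> omega
        · simp only [Multiset.sum_add, Multiset.sum_replicate, smul_eq_mul, mul_one]
          omega
      · exact absurd rfl h
  · simp only [hrp, false_and, false_or, not_false_eq_true, true_and, ne_eq]
    have hrF : (r : F) ≠ 0 := fun h =>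
      hrp (((Nat.prime_dvd_prime_iff_eq (Fact.out : p.Prime) hr).mp
        ((CharP.cast_eq_zero_iff F p r).mp h)).symm)
    have key := Cfsg.Agent.S5949.result (p := p) hq n m (by omega)
      ⟨fun e => by simp at e; omega, fun e => by simp at e; omega⟩ hm (by omega) r
      (dvd_card_complements (p := p) hr hrp m hrΩ)
    simp only [hrp, not_false_eq_true, true_and, ne_eq] at key
    rw [← key]
    refine forall_congr' fun x => forall_congr' fun hx => forall_congr' fun _ => ⟨?_, ?_⟩
    · rintro ⟨U, W, -, hUd, hU, -⟩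
      exact ⟨U, hUd, hU⟩
    · rintro ⟨U, hUd, hU⟩
      obtain ⟨z, hz⟩ := hx
      obtain ⟨T, hT'⟩ : ∃ T : Module.End F (Fin n → F),
          T = Matrix.toLin' (x : Matrix (Fin n) (Fin n) F) := ⟨_, rfl⟩
      have hpowz : T ^ r = z • 1 := by rw [hT']; exact toLin'_pow_eq_smul hz
      have hU' : U.map T ≤ U := by rw [hT']; exact hU
      obtain ⟨W, hW, hUW⟩ :=
        exists_invariant_compl (isSemisimple_of_pow_eq_smul hrF (scalar_ne_zero hz) hpowz) hU'
      rw [hT'] at hW
      exact ⟨U, W, hUW, hUd, hU, hW⟩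

end Cfsg.Agent.S5950
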