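import Cfsg.Statements.S5951
import Cfsg.Agent.Classical.Semisimple.LinearElusive
import Cfsg.Agent.Classical.Semisimple.FlagCount

set_option autoImplicit false
open scoped MatrixGroups
open Cfsg

namespace Cfsg.Agent.S5951

open CfsgLib.Classical.Semisimple in
/-- Nested invariant subspaces with prescribed splittings. -/
theorem exists_flag {F V : Type*} [Field F] [Fintype F] [AddCommGroup V] [Module F V]
    [FiniteDimensional F V] {r : ℕ} [Fact r.Prime] (hrF : (r : F) ≠ 0) {f : Module.End F V}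
    (h : f ^ r = 1) {j1 j2 l1 l2 : ℕ} (hj : j1 ≤ j2)
    (hj2 : j2 ≤ Module.finrank F ↥(LinearMap.ker (f - (1 : F) • 1))) (hl : l1 ≤ l2)
    (hl2 : l2 * orderOf (Fintype.card F : ZMod r) ≤
      Module.finrank F ↥(LinearMap.range (f - (1 : F) • 1))) :
    ∃ U W : Submodule F V, U ≤ W ∧
      Module.finrank F U = j1 + l1 * orderOf (Fintype.card F : ZMod r) ∧
      Module.finrank F W = j2 + l2 * orderOf (Fintype.card F : ZMod r) ∧
      U.map f ≤ U ∧ W.map f ≤ W := by
  set i := orderOf (Fintype.card F : ZMod r)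
  have hs := isSemisimple_of_pow_eq_one hrF h
  have hfix : ∀ X : Submodule F V, X ≤ LinearMap.ker (f - (1 : F) • 1) → X.map f ≤ X := by
    intro X hX
    refine map_le_of_forall_mem fun x hx => ?_
    have := hX hx
    simp only [LinearMap.mem_ker, LinearMap.sub_apply, Module.End.one_apply,
      one_smul, sub_eq_zero] at this
    rw [this]; exact hx
  obtain ⟨A2', hA2d⟩ := exists_submodule_finrank_eq (F := F)
    (M := ↥(LinearMap.ker (f - (1 : F) • 1))) j2 hj2
  obtain ⟨A1', hA1d⟩ := exists_submodule_finrank_eq (F := F) (M := ↥A2') j1 (hA2d.symm ▸ hj)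
  let A2 := A2'.map (Submodule.subtype _)
  let A1 := (A1'.map A2'.subtype).map (Submodule.subtype (LinearMap.ker (f - (1 : F) • 1)))
  have hA12 : A1 ≤ A2 := Submodule.map_mono (Submodule.map_subtype_le _ _)
  have hA2k : A2 ≤ LinearMap.ker (f - (1 : F) • 1) := Submodule.map_subtype_le _ _
  have hR : (LinearMap.range (f - (1 : F) • 1)).map f ≤ LinearMap.range (f - (1 : F) • 1) := by
    have := range_map_le f (Polynomial.X - 1 : Polynomial F)
    simpa using this
  obtain ⟨B2, hB2, hB2i, hB2d⟩ := (pieces_of_pow_eq_one hrF h).exists_subspace hs hR l2 hl2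
  obtain ⟨B1, hB1, hB1i, hB1d⟩ := ((pieces_of_pow_eq_one hrF h).mono hB2).exists_subspace hs hB2i l1
    (by rw [hB2d]; exact Nat.mul_le_mul_right i hl)
  have hdis := (isCompl_ker_range hs (1 : F)).disjoint.mono hA2k hB2
  refine ⟨A1 ⊔ B1, A2 ⊔ B2, sup_le_sup hA12 hB1, ?_, ?_,
    sup_map_le (hfix _ (hA12.trans hA2k)) hB1i, sup_map_le (hfix _ hA2k) hB2i⟩
  · rw [finrank_add_of_disjoint (hdis.mono hA12 hB1), hB1d, Submodule.finrank_map_subtype_eq,
      Submodule.finrank_map_subtype_eq, hA1d]
  · rw [finrank_add_of_disjoint hdis, hB2d, Submodule.finrank_map_subtype_eq, hA2d]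

open CfsgLib.Classical.Semisimple in
/-- Elements of prime order of PSL_n(q) fixing no pair of subspaces `U < W` with `dim U = m`, `dim W = n − m`. Here `T = PSL_n(F)` for a field `F` with `q = p^f` elements (`n ≥ 2`, `(n, q) ≠ (2, 2), (2, 3)`); an element of `T` of prime order `r` is represented by a matrix `x` of determinant 1 with `x^r` scalar and `x` not scalar; `i` denotes the multiplicative order of `q` modulo `r` (when `r ≠ p`), and `(a)_r` the `r`-part of `a`. Let `1 ≤ m < n/2` and let `r` be a prime dividing the number of such pairs. Then every element of `T` of order `r` fixes such a pair (both `U` and `W`) if and only if `r ≠ p` and either (i) `i = 1` and (`r ∣ m`, or `(q−1)_r ≥ (n)_r` with `q ≡ 1 (mod 4)` required when `r = 2` and `n` is even), or (ii) `2 ≤ i ≤ m` and `n mod i ≥ 2 (m mod i)`. -/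
theorem result {F : Type*} [Field F] [Fintype F] {p : ℕ} [Fact p.Prime] [CharP F p] {q : ℕ} (hq : Fintype.card F = q)
    (n m : ℕ) (hn : 2 ≤ n) (hT : (n, q) ≠ (2, 2) ∧ (n, q) ≠ (2, 3)) (hm : 1 ≤ m) (hmn : 2 * m < n)
    (r : ℕ) [Fact r.Prime]
    (hrΩ : r ∣ Nat.card {P : Submodule F (Fin n → F) × Submodule F (Fin n → F) //
        P.1 ≤ P.2 ∧ Module.finrank F ↥P.1 = m ∧ Module.finrank F ↥P.2 = n - m}) :
    (∀ x : Matrix.SpecialLinearGroup (Fin n) F,
      (∃ c : F, ((x ^ r : Matrix.SpecialLinearGroup (Fin n) F) : Matrix (Fin n) (Fin n) F) = c • (1 : Matrix (Fin n) (Fin n) F)) →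
      (∀ c : F, (x : Matrix (Fin n) (Fin n) F) ≠ c • (1 : Matrix (Fin n) (Fin n) F)) →
      ∃ U W : Submodule F (Fin n → F), U ≤ W ∧ Module.finrank F ↥U = m ∧ Module.finrank F ↥W = n - m ∧
        U.map (Matrix.toLin' (x : Matrix (Fin n) (Fin n) F)) ≤ U ∧ W.map (Matrix.toLin' (x : Matrix (Fin n) (Fin n) F)) ≤ W) ↔
    (r ≠ p ∧
      ((orderOf (q : ZMod r) = 1 ∧ (r ∣ m ∨ (padicValNat r n ≤ padicValNat r (q - 1) ∧ (r = 2 → Even n → q % 4 = 1)))) ∨
       (2 ≤ orderOf (q : ZMod r) ∧ orderOf (q : ZMod r) ≤ m ∧ 2 * (m % orderOf (q : ZMod r)) ≤ n % orderOf (q : ZMod r)))) := by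
  subst hq
  set q := Fintype.card F with hq
  set i := orderOf (q : ZMod r) with hi
  have hr : r.Prime := Fact.out
  have hfr : Module.finrank F (Fin n → F) = n := Module.finrank_fin_fun F
  obtain ⟨a, ham, hra⟩ := exists_dvd_of_dvd_card_flags (F := F) (V := Fin n → F) hr
    (m := m) (by rw [hfr]; omega) (by rw [hfr]; exact hrΩ)
  rw [hfr] at hra
  have hrp : r ≠ p := by
    rintro rfl
    obtain ⟨f, -, hf⟩ := FiniteField.card F r
    exact not_dvd_pow_sub_one_of_eq hr hf f.pos (by omega) hra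
  have hrF : (r : F) ≠ 0 := fun h =>
    hrp (((Nat.prime_dvd_prime_iff_eq (Fact.out : p.Prime) hr).mp
      ((CharP.cast_eq_zero_iff F p r).mp h)).symm)
  have hipos : 0 < i := orderOf_card_pos hrF
  have hia : i ∣ n - a := (dvd_pow_sub_one_iff_orderOf_dvd (F := F) (r := r) (n - a)).mp hra
  have hin : i ≤ n := (Nat.le_of_dvd (by omega) hia).trans (Nat.sub_le n a)
  have key : ¬ (2 * m ≤ n % i ∧ m < i) := by
    rintro ⟨h1, h2⟩
    obtain ⟨c, hc⟩ := hia
    have hlt := Nat.mod_lt n hipos
    have h3 : n % i = a := by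
      have h4 : n = a + i * c := by omega
      conv_lhs => rw [h4, Nat.add_mul_mod_self_left]
      exact Nat.mod_eq_of_lt (by omega)
    omega
  constructor
  · intro H
    refine ⟨hrp, ?_⟩
    by_cases hi1 : i = 1
    · refine Or.inl ⟨hi1, ?_⟩
      by_contra hcon
      push Not at hcon
      obtain ⟨-, x, z, hxz, hxns, hdims⟩ := exists_sl_dvd (F := F) (r := r) (n := n) hi1 (by omega) hrF
        (fun ⟨h1, h2⟩ => by
          obtain ⟨h3, h4, h5⟩ := hcon.2 h1
          exact h5 (h2 h3 h4))
      obtain ⟨U, W, -, hUd, -, hU, -⟩ := H x ⟨z, hxz⟩ hxns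
      exact hcon.1 (hUd ▸ hdims U hU)
    · refine Or.inr ?_
      have hk := Nat.mod_lt n hipos
      have hL : 0 < n / i := Nat.div_pos hin hipos
      obtain ⟨x, hxz, hxns, hpow, hker, -⟩ := exists_sl_orbit (F := F) (r := r) (n := n) hrF hi1 hL
        (Nat.div_mul_le_self n i)
      obtain ⟨U, W, hUW, hUd, hWd, hU, hW⟩ := H x ⟨1, hxz⟩ hxns
      obtain ⟨T, hT'⟩ : ∃ T : Module.End F (Fin n → F),
          T = Matrix.toLin' (x : Matrix (Fin n) (Fin n) F) := ⟨_, rfl⟩
      rw [← hT'] at hpow hker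
      have hU' : U.map T ≤ U := by rw [hT']; exact hU
      have hW' : W.map T ≤ W := by rw [hT']; exact hW
      have hR : (LinearMap.range (T - (1 : F) • 1)).map T ≤ LinearMap.range (T - (1 : F) • 1) := by
        have := range_map_le T (Polynomial.X - 1 : Polynomial F)
        simpa using this
      have hs := isSemisimple_of_pow_eq_one hrF hpow
      have hsplit : ∀ X : Submodule F (Fin n → F), X.map T ≤ X → ∃ l,
          Module.finrank F X = Module.finrank F ↥(X ⊓ LinearMap.ker (T - (1 : F) • 1)) + i * l := by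
        intro X hX
        obtain ⟨l, hl⟩ := ((pieces_of_pow_eq_one hrF hpow).mono
          (inf_le_right : X ⊓ _ ≤ _)).dvd_finrank hs hipos (inf_map_le hX hR)
        exact ⟨l, by rw [finrank_eq_inf_ker_add_inf_range hs 1 hX, hl]⟩
      obtain ⟨l1, hl1⟩ := hsplit U hU'
      obtain ⟨l2, hl2⟩ := hsplit W hW'
      have h12 := Submodule.finrank_mono (inf_le_inf_right (LinearMap.ker (T - (1 : F) • 1)) hUW)
      have h2k := Submodule.finrank_mono
        (inf_le_right : W ⊓ LinearMap.ker (T - (1 : F) • 1) ≤ _)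
      have hdm := Nat.div_add_mod' n i
      rw [hker, ← hi] at h2k
      have h2k' : Module.finrank F ↥(W ⊓ LinearMap.ker (T - (1 : F) • 1)) ≤ n % i := by omega
      obtain ⟨j1, hj1⟩ : ∃ j, Module.finrank F ↥(U ⊓ LinearMap.ker (T - (1 : F) • 1)) = j :=
        ⟨_, rfl⟩
      obtain ⟨j2, hj2⟩ : ∃ j, Module.finrank F ↥(W ⊓ LinearMap.ker (T - (1 : F) • 1)) = j :=
        ⟨_, rfl⟩
      rw [hj1] at hl1 h12
      rw [hj2] at hl2 h12 h2k'
      rw [hUd] at hl1
      rw [hWd] at hl2
      have hmod1 : m % i = j1 := by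
        rw [hl1, Nat.add_mul_mod_self_left, Nat.mod_eq_of_lt (by omega)]
      have h3 : n % i = (j1 + j2) % i := by
        have h4 : n = (j1 + j2) + i * (l1 + l2) := by rw [mul_add]; omega
        conv_lhs => rw [h4, Nat.add_mul_mod_self_left]
      have h5 : 2 * j1 ≤ n % i := by
        rcases Nat.lt_or_ge (j1 + j2) i with hlt | hge
        · rw [Nat.mod_eq_of_lt hlt] at h3; omega
        · exfalso
          rw [Nat.mod_eq_sub_mod hge, Nat.mod_eq_of_lt (show j1 + j2 - i < i by omega)] at h3
          omega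
      refine ⟨by omega, ?_, by rw [hmod1]; exact h5⟩
      by_contra hlt
      rw [Nat.mod_eq_of_lt (by omega)] at hmod1
      exact key ⟨by omega, by omega⟩
  · rintro ⟨-, hcond⟩ x ⟨z, hz⟩ -
    obtain ⟨T, hT'⟩ : ∃ T : Module.End F (Fin n → F),
        T = Matrix.toLin' (x : Matrix (Fin n) (Fin n) F) := ⟨_, rfl⟩
    have hpowz : T ^ r = z • 1 := by rw [hT']; exact toLin'_pow_eq_smul hz
    have hdet : LinearMap.det T = 1 := by rw [hT']; exact toLin'_det_one x
    have : Nonempty (Fin n) := ⟨⟨0, by omega⟩⟩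
    have hz0 : z ≠ 0 := scalar_ne_zero hz
    suffices ∃ U W : Submodule F (Fin n → F), U ≤ W ∧ Module.finrank F ↥U = m ∧
        Module.finrank F ↥W = n - m ∧ U.map T ≤ U ∧ W.map T ≤ W by
      rw [hT'] at this; exact this
    rcases hcond with ⟨hi1, hc⟩ | ⟨h2, hm', hmod⟩
    · by_cases hp' : ∃ b : F, b ^ r = z
      · obtain ⟨b, hb⟩ := hp'
        have hb0 : b ≠ 0 := fun e => hz0 (by rw [← hb, e, zero_pow hr.ne_zero])
        have hpow := smul_pow_eq_one hb hz0 hpowz
        obtain ⟨W, -, hW, hWd⟩ := exists_invariant_of_orderOf_eq_one (r := r) hrF hi1 hpow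
          (U := ⊤) le_top (m := n - m) (by rw [finrank_top, hfr]; omega)
        obtain ⟨U, hUW, hU, hUd⟩ := exists_invariant_of_orderOf_eq_one (r := r) hrF hi1 hpow
          (U := W) hW (m := m) (by omega)
        exact ⟨U, W, hUW, hUd, hWd, (map_smul_le_iff (inv_ne_zero hb0) T U).mp hU,
          (map_smul_le_iff (inv_ne_zero hb0) T W).mp hW⟩
      · rcases twist_or_dvd (F := F) (r := r) (n := n) hi1 (by omega) hdet hpowz with
          ⟨w, hw, hpow⟩ | ⟨hrn, -, hnot⟩
        · exfalso
          refine hp' ⟨w, ?_⟩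
          rw [_root_.smul_pow, hpowz, smul_smul, inv_pow] at hpow
          obtain ⟨j⟩ := ‹Nonempty (Fin n)›
          have := congrFun (LinearMap.congr_fun hpow (Pi.single j 1)) j
          simp at this
          exact (inv_mul_eq_one₀ (pow_ne_zero r hw)).mp this
        · rcases hc with hrm | hc
          · push Not at hp'
            have hP := irreducible_X_pow_sub_C_of_forall (F := F) (r := r) hp'
            have hdeg : (Polynomial.X ^ r - Polynomial.C z : Polynomial F).natDegree = r :=
              Polynomial.natDegree_X_pow_sub_C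
            have hss := isSemisimple_of_pow_eq_smul hrF hz0 hpowz
            have hpieces : Pieces T (⊤ : Submodule F (Fin n → F)) r := by
              refine pieces_of_aeval_eq_zero hP.ne_zero (fun v _ => ?_) (fun P hP1 hd => ?_)
              · simp [hpowz, Algebra.algebraMap_eq_smul_one]
              · rw [← hdeg]
                exact Polynomial.natDegree_eq_of_degree_eq
                  (Polynomial.degree_eq_degree_of_associated (hP1.associated_of_dvd hP hd))
            have hrnm : r ∣ n - m := Nat.dvd_sub hrn hrm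
            obtain ⟨W, -, hW, hWd⟩ := hpieces.exists_subspace hss le_top ((n - m) / r)
              (by rw [finrank_top, hfr, Nat.div_mul_cancel hrnm]; omega)
            rw [Nat.div_mul_cancel hrnm] at hWd
            obtain ⟨U, hUW, hU, hUd⟩ := (hpieces.mono le_top).exists_subspace hss (U := W) hW
              (m / r) (by rw [hWd, Nat.div_mul_cancel hrm]; omega)
            exact ⟨U, W, hUW, by rw [hUd, Nat.div_mul_cancel hrm], hWd, hU, hW⟩
          · exact absurd hc hnot
    · have hi1 : i ≠ 1 := by omega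
      obtain ⟨w, hw, hpow, -⟩ := exists_twist_of_orderOf_ne_one (r := r) hi1 hdet hpowz
      set S := w⁻¹ • T with hS
      have hss := isSemisimple_of_pow_eq_one hrF hpow
      obtain ⟨L, hL⟩ := orderOf_dvd_finrank_range (r := r) hrF hpow
      rw [← hi] at hL
      have hsum := Submodule.finrank_add_eq_of_isCompl (isCompl_ker_range hss (1 : F))
      rw [hfr, hL] at hsum
      have hdm := Nat.div_add_mod' m i
      have hJ : n % i ≤ Module.finrank F ↥(LinearMap.ker (S - (1 : F) • 1)) := by
        have h := congrArg (· % i) hsum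
        simp only [Nat.add_mul_mod_self_left] at h
        rw [← h]; exact Nat.mod_le _ _
      obtain ⟨J, hJdef⟩ : ∃ J, Module.finrank F ↥(LinearMap.ker (S - (1 : F) • 1)) = J := ⟨_, rfl⟩
      rw [hJdef] at hJ hsum
      obtain ⟨a1, a', l1, l', h1, h2', h3, h4⟩ : ∃ a1 a' l1 l' : ℕ, a1 + l1 * i = m ∧
          a' + l' * i = m ∧ a1 + a' ≤ J ∧ l1 + l' ≤ L := by
        by_cases hl : 2 * (m / i) ≤ L
        · exact ⟨m % i, m % i, m / i, m / i, by omega, by omega, by omega, by omega⟩
        · have h5 : (L / 2) * i ≤ m / i * i := Nat.mul_le_mul_right i (by omega)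
          have h6 : (L - L / 2) * i ≤ m / i * i := Nat.mul_le_mul_right i (by omega)
          have h7 : (L / 2) * i + (L - L / 2) * i = i * L := by
            rw [← Nat.add_mul, mul_comm]; congr 1; omega
          exact ⟨m - (L / 2) * i, m - (L - L / 2) * i, L / 2, L - L / 2,
            by omega, by omega, by omega, by omega⟩
      obtain ⟨U, W, hUW, hUd, hWd, hU, hW⟩ := exists_flag (r := r) hrF hpow (j1 := a1)
        (j2 := J - a') (l1 := l1) (l2 := L - l') (by omega) (by rw [hJdef]; omega) (by omega)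
        (by rw [hL, mul_comm i L]; exact Nat.mul_le_mul_right i (Nat.sub_le L l'))
      rw [← hi] at hUd hWd
      refine ⟨U, W, hUW, by omega, ?_, (map_smul_le_iff (inv_ne_zero hw) T U).mp hU,
        (map_smul_le_iff (inv_ne_zero hw) T W).mp hW⟩
      rw [hWd, Nat.sub_mul, mul_comm L i]
      have h8 : l' * i ≤ i * L := by rw [mul_comm i L]; exact Nat.mul_le_mul_right i (by omega)
      omega

end Cfsg.Agent.S5951
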