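import Cfsg.Statements.S5952
import Cfsg.Agent.Classical.Semisimple.Basic

set_option autoImplicit false
open Cfsg

namespace Cfsg.Agent.S5952

open CfsgLib.Classical.Semisimple in
/-- Which dimensions of invariant subspaces a semisimple linear map has. Let `V` be a finite-dimensional vector space over a field `F` and `f` an invertible semisimple linear map of `V`. Suppose `V` is the internal direct sum of the fixed space `C_V(f)` (the eigenspace for 1) and subspaces `U_1, …, U_s`, each `f`-invariant of dimension `a ≥ 1` on which `f` acts irreducibly (no `f`-invariant subspaces other than 0 and `U_j`). Let `0 < m < dim V` and `ℓ = m mod a`. Then `f` leaves some `m`-dimensional subspace invariant if and only if `dim C_V(f) ≥ m`, or `a ≤ m` and `dim C_V(f) ≥ ℓ`. -/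
theorem result {F V : Type*} [Field F] [AddCommGroup V] [Module F V]
    [FiniteDimensional F V] (f : V →ₗ[F] V) (hf : Function.Bijective f) (hss : Module.End.IsSemisimple f)
    {s a : ℕ} (ha : 1 ≤ a) (U : Fin s → Submodule F V)
    (hUinv : ∀ j, (U j).map f ≤ U j) (hUdim : ∀ j, Module.finrank F ↥(U j) = a)
    (hUirr : ∀ j, ∀ W : Submodule F V, W ≤ U j → W.map f ≤ W → W = ⊥ ∨ W = U j)
    (hdec : DirectSum.IsInternal (fun o : Option (Fin s) => o.elim (Module.End.eigenspace f 1) U))
    (m : ℕ) (hm : 0 < m) (hmV : m < Module.finrank F V) :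
    (∃ W : Submodule F V, Module.finrank F ↥W = m ∧ W.map f ≤ W) ↔
    (m ≤ Module.finrank F ↥(Module.End.eigenspace f 1) ∨
      (a ≤ m ∧ m % a ≤ Module.finrank F ↥(Module.End.eigenspace f 1))) := by
  classical
  have hfix : LinearMap.ker (f - (1 : F) • (1 : Module.End F V)) = Module.End.eigenspace f 1 := by
    rw [Module.End.eigenspace_def]
  set E := Module.End.eigenspace f 1 with hE
  set R := LinearMap.range (f - (1 : F) • (1 : Module.End F V)) with hR
  have hcompl : IsCompl E R := hfix ▸ isCompl_ker_range hss 1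
  have hind := hdec.submodule_iSupIndep
  have htop := hdec.submodule_iSup_eq_top
  have hUdisj : ∀ j, Disjoint (U j) E := fun j => by
    have := hind.pairwiseDisjoint (show (some j) ≠ none by simp)
    exact this
  have hRinv : R.map f ≤ R := by
    have h0 : Polynomial.aeval (R := F) f (Polynomial.X - Polynomial.C 1) =
        f - (1 : F) • (1 : Module.End F V) := by
      rw [map_sub, Polynomial.aeval_X, Polynomial.aeval_C, Algebra.algebraMap_eq_smul_one]
    have h1 := range_map_le f (Polynomial.X - Polynomial.C (1 : F))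
    rw [h0] at h1
    exact h1
  have hUR : ∀ j, U j ≤ R := by
    intro j
    have hle : (U j).map (f - (1 : F) • (1 : Module.End F V)) ≤ U j := by
      refine map_le_of_forall_mem fun x hx => ?_
      simpa using (U j).sub_mem (mem_of_map_le (hUinv j) hx) hx
    rcases hUirr j ((U j) ⊓ R) inf_le_left (inf_map_le (hUinv j)
      hRinv) with h | h
    · exfalso
      have hne : U j ≠ ⊥ := fun e => by
        have := hUdim j; rw [e, finrank_bot] at this; omega
      refine hne (le_bot_iff.mp fun x hx => ?_)
      obtain ⟨g, hg⟩ : ∃ g : V →ₗ[F] V, g = f - (1 : F) • (1 : Module.End F V) := ⟨_, rfl⟩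
      have h1a : g x ∈ U j := by
        have : (U j).map g ≤ U j := by rw [hg]; exact hle
        exact this (Submodule.mem_map_of_mem hx)
      have h1b : g x ∈ R := by rw [hR, ← hg]; exact LinearMap.mem_range_self g x
      have h1 : g x ∈ U j ⊓ R := Submodule.mem_inf.mpr ⟨h1a, h1b⟩
      rw [h, hg] at h1
      have h2 : x ∈ E := by rw [← hfix]; exact (Submodule.mem_bot F).mp h1
      exact (hUdisj j).le_bot ⟨hx, h2⟩
    · exact inf_eq_left.mp h
  have hsupR : (⨆ j, U j) = R := by
    refine le_antisymm (iSup_le hUR) ?_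
    rw [iSup_option] at htop
    intro x hx
    obtain ⟨e, he, u, hu, rfl⟩ := Submodule.mem_sup.mp
      (show x ∈ E ⊔ ⨆ j, U j by rw [show E ⊔ (⨆ j, U j) = ⊤ from htop]; exact Submodule.mem_top)
    have : e ∈ E ⊓ R := ⟨he, by simpa using R.sub_mem hx (iSup_le hUR hu)⟩
    rw [hcompl.inf_eq_bot] at this
    simpa [(Submodule.mem_bot F).mp this] using hu
  have key := exists_invariant_le_iff hss (1 : F) (U := ⊤) le_top (a := a) ha
    (by rw [top_inf_eq, ← hR, ← hsupR]; exact pieces_iSup U hUinv hUdim hUirr) m
  rw [top_inf_eq, top_inf_eq, hfix, ← hR] at key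
  have hdvd : a ∣ Module.finrank F R := by
    rw [← hsupR]
    exact (pieces_iSup U hUinv hUdim hUirr).dvd_finrank hss ha (by
      rw [Submodule.map_iSup]; exact iSup_mono hUinv)
  have hsum := Submodule.finrank_add_eq_of_isCompl hcompl
  constructor
  · rintro ⟨W, hWd, hW⟩
    obtain ⟨j, l, hj, hl, hjl⟩ := key.mp ⟨W, le_top, hW, hWd⟩
    rcases Nat.eq_zero_or_pos l with rfl | hlpos
    · left; omega
    · right
      refine ⟨?_, ?_⟩
      · have : a ≤ l * a := Nat.le_mul_of_pos_left a hlpos
        omega
      · rw [← hjl, Nat.add_mul_mod_self_right]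
        exact (Nat.mod_le j a).trans hj
  · intro h
    have h' : ∃ j l : ℕ, j ≤ Module.finrank F E ∧ l * a ≤ Module.finrank F R ∧ j + l * a = m := by
      rcases h with h | ⟨h1, h2⟩
      · exact ⟨m, 0, h, by simp, by simp⟩
      · obtain ⟨L, hL⟩ := hdvd
        have hm' := Nat.div_add_mod m a
        by_cases hl : m / a ≤ L
        · refine ⟨m % a, m / a, h2, ?_, ?_⟩
          · rw [hL, mul_comm a]; exact Nat.mul_le_mul_right a hl
          · rw [mul_comm (m / a)]; omega
        · have h3 : a * L ≤ a * (m / a) := Nat.mul_le_mul_left a (by omega)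
          refine ⟨m - L * a, L, ?_, ?_, ?_⟩
          · rw [mul_comm L]; omega
          · rw [hL, mul_comm a]
          · rw [mul_comm L]; omega
    obtain ⟨W, -, hW, hWd⟩ := key.mpr h'
    exact ⟨W, hWd, hW⟩

end Cfsg.Agent.S5952
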