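import Cfsg.Statements.S5953
import Cfsg.Agent.Eq.Def_Classical
import Cfsg.Agent.Classical.Semisimple.UnitTwo
import Cfsg.Agent.Classical.Semisimple.UnitIsoMain
-- import your own Cfsg.Agent.* helpers here

set_option autoImplicit false
open scoped MatrixGroups
open Cfsg

namespace Cfsg.Agent.S5953

open CfsgLib.Classical.Semisimple
open CfsgLib.Classical.Semisimple CfsgLib.Classical.Semisimple.UnitBasic in
/-- The odd prime case. -/
theorem odd_case {F : Type*} [Field F] [Fintype F] {q n m r : ℕ} [hr : Fact r.Prime] (hF : Fintype.card F = q ^ 2)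
    (hn : 0 < n) (hm : 1 ≤ m) (hmn : 2 * m ≤ n) (hr2 : r ≠ 2) (hrF : (r : F) ≠ 0)
    (hrΩ : r ∣ Nat.card {W : Submodule F (Fin n → F) // Module.finrank F ↥W = m ∧
      (∀ u ∈ W, ∀ v ∈ W, Cfsg.hermForm n F q u v = 0)})
    {i b c : ℕ} (hi : i = orderOf (q : ZMod r)) (hb : b = if Even i then i / 2 else i)
    (hc : c = if i % 4 = 0 then i else if i % 4 = 2 then i / 2 else 2 * i) :
    UnitBridge.AllHave q r m (Iso q (F := F) (n := n)) ↔
      (b ≤ m ∧ 2 * (m % b) ≤ n % c ∧
        (i % 4 ≠ 2 ∨ (i % 4 = 2 ∧ (r - 1) / b + 2 * (m / b) ≤ n / b ∧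
          (2 < i ∨ (i = 2 ∧ (r ∣ m ∨ padicValNat r n ≤ padicValNat r (q + 1))))))) := by
  have hrq := UnitExists.not_dvd_q hF hrF
  obtain ⟨hi0, hbo, hco, hcb, hcb2⟩ := UnitCounts.orders hr2 hrq hi hb hc
  have hQ : orderOf (Fintype.card F : ZMod r) = b := by rw [hF]; exact hbo
  have hyp : n % c < 2 * m := by
    by_contra h
    exact UnitCounts.not_dvd_iso hF hr.out hmn (by rw [hco]; omega) hrΩ
  by_cases h2i : i = 2
  · have hb1 : b = 1 := by rw [hb, h2i]; rfl
    have hc1 : c = 1 := by rw [hc, h2i]; rfl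
    have hrq1 : r ∣ q + 1 := by
      rw [← ZMod.natCast_eq_zero_iff]
      have h1 : (q : ZMod r) ^ 2 = 1 := by rw [← h2i, hi]; exact pow_orderOf_eq_one _
      rcases sq_eq_one_iff.1 h1 with h | h
      · rw [h, orderOf_one] at hi; omega
      · push_cast; rw [h, neg_add_cancel]
    subst hb1 hc1
    simp only [Nat.mod_one, Nat.div_one, mul_zero]
    constructor
    · intro hall
      have ht : r - 1 + 2 * m ≤ n := by
        by_contra h
        exact UnitIsoMain.not_allHave_diag hF hrF hr2 hrq1 hm (by omega) hall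
      refine ⟨hm, Nat.zero_le _, Or.inr ⟨by omega, ht, Or.inr ⟨h2i, ?_⟩⟩⟩
      by_contra h
      rw [not_or, not_le] at h
      obtain ⟨hrn, z, hz, hnp, hzn⟩ := UnitBridge.exists_nonpower hF hr2 hrq1 hn.ne' h.2
      exact UnitIsoMain.not_allHave_nonpower hF hr2 hz hnp hzn hrn h.1 _ hall
    · rintro ⟨-, -, h | ⟨-, ht, hlast⟩⟩
      · omega
      intro f z hiso hdet hpow
      by_cases hp : ∃ w : F, w ^ r = z
      · obtain ⟨w, hw⟩ := hp
        exact UnitIsoMain.exists_of_power hF hrF hr2 hrq1 hn hQ ht hiso hpow hw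
      · push Not at hp
        refine UnitIsoMain.exists_of_nonpower hF hrF hn hmn hiso hpow hp ?_
        rcases hlast with h | ⟨-, h | h⟩
        · omega
        · exact h
        · obtain ⟨hrn, hd, -⟩ := of_pow_eq_smul_nonpower hp hpow
          rw [Module.finrank_fin_fun] at hrn hd
          rw [hdet, (hr.out.odd_of_ne_two hr2).neg_one_pow, neg_one_mul, neg_neg] at hd
          obtain ⟨w, hw⟩ := UnitBridge.exists_power hF hrq1 hn.ne' hrn h (UnitBridge.scalar_norm hF hn hiso hpow)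
            hd.symm
          exact absurd hw (hp w)
  have hrq1 : ¬ r ∣ q + 1 := fun h => h2i (by
    have h1 : (q : ZMod r) = -1 := eq_neg_of_add_eq_zero_left (by
      have := (ZMod.natCast_eq_zero_iff _ _).2 h
      push_cast at this
      exact this)
    rw [hi, h1, orderOf_neg_one, ZMod.ringChar_zmod_n, if_neg hr2])
  by_cases h4 : i % 4 = 2
  · obtain rfl : c = b := hcb h4
    have hodd : Odd c := by rw [hb, if_pos (Nat.even_iff.2 (by omega))]; exact Nat.odd_iff.2 (by omega)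
    have ht : (r - 1) / c * c = r - 1 := Nat.div_mul_cancel (hbo ▸ ZMod.orderOf_dvd_card_sub_one (fun h => hrq
      (hr.out.dvd_of_dvd_pow ((ZMod.natCast_eq_zero_iff _ _).1 h))))
    constructor
    · intro hall
      have h1 : 2 * (m % c) ≤ n % c := by
        by_contra h
        exact UnitIsoMain.not_allHave_big hF hrF hrq1 hQ hco (by omega) hall
      have h2 : (r - 1) / c + 2 * (m / c) ≤ n / c := by
        by_contra h
        exact UnitIsoMain.not_allHave_singles hF hrF hrq1 hQ hco ht hyp (by omega) hall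
      refine ⟨?_, h1, Or.inr ⟨h4, h2, Or.inl (by omega)⟩⟩
      by_contra h
      rw [Nat.mod_eq_of_lt (by omega : m < c)] at h1
      omega
    · rintro ⟨-, hk, h | ⟨-, hts, -⟩⟩
      · exact absurd h4 h
      · exact UnitIsoMain.allHave_self hF hrF hrq1 hn hQ hco hodd ht hmn hk hts
  · have hcb' := hcb2 h4
    constructor
    · intro hall
      have h1 : 2 * (m % b) ≤ n % c := by
        by_contra h
        exact UnitIsoMain.not_allHave_big hF hrF hrq1 hQ hco (by omega) hall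
      refine ⟨?_, h1, Or.inl h4⟩
      by_contra h
      rw [Nat.mod_eq_of_lt (by omega : m < b)] at h1
      omega
    · rintro ⟨-, hk, -⟩
      exact UnitIsoMain.allHave_paired hF hrF hrq1 hn hQ hco hcb' hmn hk


/-- Elements of prime order of PSU_n(q) with no fixed totally isotropic `m`-space. Here `T = PSU_n(q)` (`n ≥ 3`, `(n, q) ≠ (3, 2)`), realised through the matrices of determinant 1 over the field `F` with `q²` elements preserving the Hermitian form `h(u, v) = Σ u_i v_i^q`; an element of `T` of prime order `r` is such a matrix `x` with `x^r` scalar and `x` not scalar. For `r ≠ p` let `i` be the multiplicative order of `q` modulo `r`, `b = i/2` for `i` even and `b = i` for `i` odd, `c = i, i/2, 2i` according as `i ≡ 0, 2 (mod 4)` or `i` odd, and write `k = n mod c`, `ℓ = m mod b`, `ℓ' = m mod c`, `n' = ⌊n/b⌋`, `m' = ⌊m/b⌋`, `s = (r−1)/b`; `(a)_r` is the `r`-part of `a`. Let `1 ≤ m ≤ n/2` and let `r` be a prime dividing the number of totally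 isotropic `m`-spaces. Then every element of `T` of order `r` fixes a totally isotropic `m`-space if and only if either (i) `r = 2`, `p ≠ 2`, and (`m < n/2` or `(q+1)_2 ≤ (n)_2`); or (ii) `r ≠ p`, `r > 2`, `b ≤ m`, `k ≥ 2ℓ`, and either `i ≢ 2 (mod 4)`, or `i ≡ 2 (mod 4)`, `n' − 2m' ≥ s` and (`i > 2`, or `i = 2` and (`r ∣ m` or `(q+1)_r ≥ (n)_r`)). -/
theorem result {F : Type*} [Field F] [Fintype F] {p : ℕ} [Fact p.Prime] [CharP F p] {q : ℕ} (hq : Fintype.card F = q ^ 2)
    (n m : ℕ) (hn : 3 ≤ n) (hT : (n, q) ≠ (3, 2)) (hm : 1 ≤ m) (hmn : 2 * m ≤ n)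
    (r : ℕ) [Fact r.Prime]
    (hrΩ : r ∣ Nat.card {W : Submodule F (Fin n → F) // Module.finrank F ↥W = m ∧ (∀ u ∈ W, ∀ v ∈ W, Cfsg.hermForm n F q u v = 0)})
    (i b c : ℕ) (hi : i = orderOf (q : ZMod r)) (hb : b = if Even i then i / 2 else i)
    (hc : c = if i % 4 = 0 then i else if i % 4 = 2 then i / 2 else 2 * i) :
    (∀ x : Matrix.SpecialLinearGroup (Fin n) F, x ∈ Cfsg.SU n F q →
      (∃ z : F, ((x ^ r : Matrix.SpecialLinearGroup (Fin n) F) : Matrix (Fin n) (Fin n) F) = z • (1 : Matrix (Fin n) (Fin n) F)) →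
      (∀ z : F, (x : Matrix (Fin n) (Fin n) F) ≠ z • (1 : Matrix (Fin n) (Fin n) F)) →
      ∃ W : Submodule F (Fin n → F), Module.finrank F ↥W = m ∧ (∀ u ∈ W, ∀ v ∈ W, Cfsg.hermForm n F q u v = 0) ∧
        W.map (Matrix.toLin' (x : Matrix (Fin n) (Fin n) F)) ≤ W) ↔
    ((r = 2 ∧ p ≠ 2 ∧ (2 * m < n ∨ padicValNat 2 (q + 1) ≤ padicValNat 2 n)) ∨
     (r ≠ p ∧ 2 < r ∧ b ≤ m ∧ 2 * (m % b) ≤ n % c ∧
       (i % 4 ≠ 2 ∨ (i % 4 = 2 ∧ (r - 1) / b + 2 * (m / b) ≤ n / b ∧
         (2 < i ∨ (i = 2 ∧ (r ∣ m ∨ padicValNat r n ≤ padicValNat r (q + 1)))))))) := by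
  haveI : Nonempty (Fin n) := ⟨⟨0, by omega⟩⟩
  have hn0 : 0 < n := by omega
  refine Iff.trans (CfsgLib.Classical.Semisimple.UnitBridge.forall_iff
    (R := fun W => ∀ u ∈ W, ∀ v ∈ W, Cfsg.hermForm n F q u v = 0)
    (CfsgLib.Classical.Semisimple.UnitBridge.exists_iso hq hmn)) ?_
  have hrp : r ≠ p := by
    rintro rfl
    obtain ⟨p', e, hp', hchar, he, hqe⟩ := CfsgLib.Unitary.exists_char hq
    obtain rfl : r = p' := CharP.eq F (by assumption) hchar
    exact CfsgLib.Classical.Semisimple.UnitCounts.prime_not_dvd_iso hq hp' (hqe ▸ dvd_pow_self r he.ne') hmn hrΩ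
  have hrF : (r : F) ≠ 0 := fun h => hrp ((Nat.prime_dvd_prime_iff_eq (Fact.out : p.Prime) (Fact.out : r.Prime)).1
    ((CharP.cast_eq_zero_iff F p r).1 h)).symm
  by_cases hr2 : r = 2
  · subst hr2
    have hp2 : p ≠ 2 := fun h => hrp h.symm
    rw [show (fun W : Submodule F (Fin n → F) => ∀ u ∈ W, ∀ v ∈ W, Cfsg.hermForm n F q u v = 0) =
      CfsgLib.Classical.Semisimple.UnitBasic.Iso q from rfl,
      CfsgLib.Classical.Semisimple.UnitTwo.iso_criterion hq (by exact_mod_cast hrF) hn0 hmn]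
    simp [hp2]
  · refine (odd_case hq hn0 hm hmn hr2 hrF hrΩ hi hb hc).trans ?_
    have h2 : 2 < r := lt_of_le_of_ne (Fact.out : r.Prime).two_le (Ne.symm hr2)
    simp [hr2, hrp, h2]

end Cfsg.Agent.S5953

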