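import Cfsg.Statements.S5954
import Cfsg.Agent.Eq.Def_Classical
import Cfsg.Agent.Classical.Semisimple.UnitTwo
import Cfsg.Agent.Classical.Semisimple.UnitNondegMain
import Cfsg.Agent.Classical.Semisimple.UnitUnipotent
-- import your own Cfsg.Agent.* helpers here

set_option autoImplicit false
open scoped MatrixGroups
open Cfsg

namespace Cfsg.Agent.S5954

open CfsgLib.Classical.Semisimple
open CfsgLib.Classical.Semisimple CfsgLib.Classical.Semisimple.UnitBasic CfsgLib.Unitary in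
/-- The odd prime case. -/
theorem odd_case {F : Type*} [Field F] [Fintype F] {q n m r : ℕ} [hr : Fact r.Prime] (hF : Fintype.card F = q ^ 2)
    (hn : 0 < n) (hmn : m ≤ n) (hr2 : r ≠ 2) (hrF : (r : F) ≠ 0)
    (hrΩ : r ∣ Nat.card {W : Submodule F (Fin n → F) // Module.finrank F ↥W = m ∧
      (∀ u ∈ W, u ≠ 0 → ∃ v ∈ W, Cfsg.hermForm n F q u v ≠ 0)})
    {i b c : ℕ} (hi : i = orderOf (q : ZMod r)) (hb : b = if Even i then i / 2 else i)
    (hc : c = if i % 4 = 0 then i else if i % 4 = 2 then i / 2 else 2 * i) :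
    UnitBridge.AllHave q r m (IsNondeg q (F := F) (n := n)) ↔
      ((i ≠ 2 ∧ c ≤ m ∧ m % c ≤ n % c) ∨ (i = 2 ∧ (r ∣ m ∨ padicValNat r n ≤ padicValNat r (q + 1)))) := by
  have hrq := UnitExists.not_dvd_q hF hrF
  obtain ⟨hi0, hbo, hco, hcb, hcb2⟩ := UnitCounts.orders hr2 hrq hi hb hc
  have hQ : orderOf (Fintype.card F : ZMod r) = b := by rw [hF]; exact hbo
  by_cases h2i : i = 2
  · have hrq1 : r ∣ q + 1 := by
      rw [← ZMod.natCast_eq_zero_iff]
      have h1 : (q : ZMod r) ^ 2 = 1 := by rw [← h2i, hi]; exact pow_orderOf_eq_one _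
      rcases sq_eq_one_iff.1 h1 with h | h
      · rw [h, orderOf_one] at hi; omega
      · push_cast; rw [h, neg_add_cancel]
    have hb1 : b = 1 := by rw [hb, h2i]; rfl
    constructor
    · intro hall
      refine Or.inr ⟨h2i, ?_⟩
      by_contra h
      rw [not_or, not_le] at h
      obtain ⟨hrn, z, hz, hnp, hzn⟩ := UnitBridge.exists_nonpower hF hr2 hrq1 hn.ne' h.2
      exact UnitIsoMain.not_allHave_nonpower hF hr2 hz hnp hzn hrn h.1 _ hall
    · rintro (⟨h, -⟩ | ⟨-, hlast⟩)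
      · exact absurd h2i h
      intro f z hiso hdet hpow
      by_cases hp : ∃ w : F, w ^ r = z
      · obtain ⟨w, hw⟩ := hp
        exact UnitNondegMain.exists_of_power hF hrF hr2 hrq1 hn (hb1 ▸ hQ) hmn hiso hpow hw
      · push Not at hp
        refine UnitNondegMain.exists_of_nonpower hF hrF hn hmn hiso hpow hp ?_
        rcases hlast with h | h
        · exact h
        · obtain ⟨hrn, hd, -⟩ := of_pow_eq_smul_nonpower hp hpow
          rw [Module.finrank_fin_fun] at hrn hd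
          rw [hdet, (hr.out.odd_of_ne_two hr2).neg_one_pow, neg_one_mul, neg_neg] at hd
          obtain ⟨w, hw⟩ := UnitBridge.exists_power hF hrq1 hn.ne' hrn h (UnitBridge.scalar_norm hF hn hiso hpow)
            hd.symm
          exact absurd hw (hp w)
  have hrq1 : ¬ r ∣ q + 1 := fun h => h2i (by
    have h1 : (q : ZMod r) = -1 := eq_neg_of_add_eq_zero_left (by
      have := (ZMod.natCast_eq_zero_iff _ _).2 h
      push_cast at this
      exact this)
    rw [hi, h1, orderOf_neg_one, ZMod.ringChar_zmod_n, if_neg hr2])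
  have hcase : c = 2 * b ∨ (c = b ∧ Odd b) := by
    by_cases h4 : i % 4 = 2
    · refine Or.inr ⟨hcb h4, ?_⟩
      rw [hb, if_pos (Nat.even_iff.2 (by omega))]; exact Nat.odd_iff.2 (by omega)
    · exact Or.inl (hcb2 h4)
  rw [UnitNondegMain.criterion hF hrF hrq1 hn hQ hco hcase hmn]
  constructor
  · intro h
    refine Or.inl ⟨h2i, ?_, h⟩
    by_contra hc'
    rw [Nat.mod_eq_of_lt (by omega : m < c)] at h
    exact UnitCounts.not_dvd_nondeg hF hr.out hrq hmn (by rw [hco]; exact h) hrΩ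
  · rintro (⟨-, -, h⟩ | ⟨h, -⟩)
    · exact h
    · exact absurd h h2i


/-- Elements of prime order of PSU_n(q) with no fixed nondegenerate `m`-space. Here `T = PSU_n(q)` (`n ≥ 3`, `(n, q) ≠ (3, 2)`), realised through the matrices of determinant 1 over the field `F` with `q²` elements preserving the Hermitian form `h(u, v) = Σ u_i v_i^q`; an element of `T` of prime order `r` is such a matrix `x` with `x^r` scalar and `x` not scalar. For `r ≠ p` let `i` be the multiplicative order of `q` modulo `r`, `b = i/2` for `i` even and `b = i` for `i` odd, `c = i, i/2, 2i` according as `i ≡ 0, 2 (mod 4)` or `i` odd, and write `k = n mod c`, `ℓ = m mod b`, `ℓ' = m mod c`, `n' = ⌊n/b⌋`, `m' = ⌊m/b⌋`, `s = (r−1)/b`; `(a)_r` is the `r`-part of `a`. Let `1 ≤ m < n/2` and let `r` be a prime dividing the number of nondegenerate `m`-spaces. Then every element of `T` of order `r` fixes a nondegenerate `m`-space if and only if one of: (i) `r = p > 2` and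 every partition of `n` into parts of size at most `p` contains (as a sub-multiset) a partition of `m`; (ii) `r = p = 2` and (`n` is odd or `m` is even); (iii) `r = 2 ≠ p` and (`n` is odd, or `m` is even, or `(q+1)_2 ≥ (n)_2` and `q ≡ 3 (mod 4)`); (iv) `r ≠ p`, `r > 2`, and either `i ≠ 2`, `c ≤ m` and `k ≥ ℓ'`, or `i = 2` and (`r ∣ m` or `(q+1)_r ≥ (n)_r`). -/
theorem result {F : Type*} [Field F] [Fintype F] {p : ℕ} [Fact p.Prime] [CharP F p] {q : ℕ} (hq : Fintype.card F = q ^ 2)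
    (n m : ℕ) (hn : 3 ≤ n) (hT : (n, q) ≠ (3, 2)) (hm : 1 ≤ m) (hmn : 2 * m < n)
    (r : ℕ) [Fact r.Prime]
    (hrΩ : r ∣ Nat.card {W : Submodule F (Fin n → F) // Module.finrank F ↥W = m ∧ (∀ u ∈ W, u ≠ 0 → ∃ v ∈ W, Cfsg.hermForm n F q u v ≠ 0)})
    (i b c : ℕ) (hi : i = orderOf (q : ZMod r)) (hb : b = if Even i then i / 2 else i)
    (hc : c = if i % 4 = 0 then i else if i % 4 = 2 then i / 2 else 2 * i) :
    (∀ x : Matrix.SpecialLinearGroup (Fin n) F, x ∈ Cfsg.SU n F q →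
      (∃ z : F, ((x ^ r : Matrix.SpecialLinearGroup (Fin n) F) : Matrix (Fin n) (Fin n) F) = z • (1 : Matrix (Fin n) (Fin n) F)) →
      (∀ z : F, (x : Matrix (Fin n) (Fin n) F) ≠ z • (1 : Matrix (Fin n) (Fin n) F)) →
      ∃ W : Submodule F (Fin n → F), Module.finrank F ↥W = m ∧ (∀ u ∈ W, u ≠ 0 → ∃ v ∈ W, Cfsg.hermForm n F q u v ≠ 0) ∧
        W.map (Matrix.toLin' (x : Matrix (Fin n) (Fin n) F)) ≤ W) ↔
    ((r = p ∧ 2 < p ∧ (∀ μ : Multiset ℕ, (∀ a ∈ μ, 0 < a ∧ a ≤ p) → μ.sum = n → ∃ ν : Multiset ℕ, ν ≤ μ ∧ ν.sum = m)) ∨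
     (r = p ∧ p = 2 ∧ (Odd n ∨ Even m)) ∨
     (r = 2 ∧ p ≠ 2 ∧ (Odd n ∨ Even m ∨ (padicValNat 2 n ≤ padicValNat 2 (q + 1) ∧ q % 4 = 3))) ∨
     (r ≠ p ∧ 2 < r ∧ ((i ≠ 2 ∧ c ≤ m ∧ m % c ≤ n % c) ∨ (i = 2 ∧ (r ∣ m ∨ padicValNat r n ≤ padicValNat r (q + 1)))))) := by
  haveI : Nonempty (Fin n) := ⟨⟨0, by omega⟩⟩
  have hn0 : 0 < n := by omega
  have hR : (fun W : Submodule F (Fin n → F) => ∀ u ∈ W, u ≠ 0 → ∃ v ∈ W, Cfsg.hermForm n F q u v ≠ 0) =
      CfsgLib.Unitary.IsNondeg q := funext fun W => propext (CfsgLib.Classical.Semisimple.UnitCounts.isNondeg_iff).symm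
  refine Iff.trans (CfsgLib.Classical.Semisimple.UnitBridge.forall_iff
    (R := fun W => ∀ u ∈ W, u ≠ 0 → ∃ v ∈ W, Cfsg.hermForm n F q u v ≠ 0)
    (by
      obtain ⟨W, h1, h2⟩ := CfsgLib.Classical.Semisimple.UnitBridge.exists_nondeg (n := n) (m := m) hq (by omega)
      exact ⟨W, h1, CfsgLib.Classical.Semisimple.UnitCounts.isNondeg_iff.1 h2⟩)) ?_
  rw [hR]
  have hmn' : m ≤ n := by omega
  have hr : r.Prime := Fact.out
  by_cases hrp : r = p
  · subst hrp
    rw [CfsgLib.Classical.Semisimple.UnitUnipotent.criterion (p := r) hq hn0]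
    by_cases hr2 : r = 2
    · subst hr2
      rw [CfsgLib.Classical.Semisimple.UnitUnipotent.two_iff hmn']
      simp
    · have h2 : 2 < r := lt_of_le_of_ne hr.two_le (Ne.symm hr2)
      simp [hr2, h2]
  have hrF : (r : F) ≠ 0 := fun h => hrp ((Nat.prime_dvd_prime_iff_eq (Fact.out : p.Prime) hr).1
    ((CharP.cast_eq_zero_iff F p r).1 h)).symm
  by_cases hr2 : r = 2
  · subst hr2
    have hp2 : p ≠ 2 := fun h => hrp h.symm
    rw [CfsgLib.Classical.Semisimple.UnitTwo.nondeg_criterion hq (by exact_mod_cast hrF) hn0 hmn']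
    simp [hp2, hrp]
  · refine (odd_case hq hn0 hmn' hr2 hrF hrΩ hi hb hc).trans ?_
    have h2 : 2 < r := lt_of_le_of_ne hr.two_le (Ne.symm hr2)
    simp [hr2, hrp, h2]

end Cfsg.Agent.S5954

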