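import Cfsg.Statements.S5955
import Cfsg.Agent.Eq.Def_ClassicalGeometry
import Cfsg.Agent.Classical.Semisimple.SympCounts
import Cfsg.Agent.Classical.Symp.Involutions
-- import your own Cfsg.Agent.* helpers here

set_option autoImplicit false
open scoped MatrixGroups
open Cfsg

namespace Cfsg.Agent.S5955

open Module Matrix CfsgLib.Classical.Symp CfsgLib.Classical.Semisimple CfsgLib.Classical.Semisimple.AltIsometry CfsgLib.Classical.Semisimple.SympModel

/-- An invariant totally isotropic subspace from a family, transported along conjugation. -/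
private theorem exists_of_family {F : Type*} [Field F] {d m : ℕ} {g x : ↥(Matrix.symplecticGroup (Fin d) F)}
    (hc : IsConj g x) (v : Fin m → (Fin d ⊕ Fin d → F)) (hli : LinearIndependent F v)
    (hiso : ∀ a b, Cfsg.sympForm d F (v a) (v b) = 0)
    (hinv : ∀ a, (g : Matrix (Fin d ⊕ Fin d) (Fin d ⊕ Fin d) F) *ᵥ v a ∈ Submodule.span F (Set.range v)) :
    ∃ W : Submodule F (Fin d ⊕ Fin d → F), finrank F ↥W = m ∧
      (∀ u ∈ W, ∀ w ∈ W, Cfsg.sympForm d F u w = 0) ∧
      W.map (Matrix.toLin' (x : Matrix (Fin d ⊕ Fin d) (Fin d ⊕ Fin d) F)) ≤ W := by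
  obtain ⟨c, rfl⟩ := isConj_iff.1 hc
  let v' := fun a => (c : Matrix (Fin d ⊕ Fin d) (Fin d ⊕ Fin d) F) *ᵥ v a
  have hli' : LinearIndependent F v' :=
    hli.map' (Matrix.mulVecLin _) (LinearMap.ker_eq_bot.2 (mulVec_injective c))
  refine ⟨Submodule.span F (Set.range v'), by rw [finrank_span_eq_card hli', Fintype.card_fin],
    fun u hu w hw => ?_, ?_⟩
  · obtain ⟨cu, rfl⟩ := (Submodule.mem_span_range_iff_exists_fun F).1 hu
    obtain ⟨cw, rfl⟩ := (Submodule.mem_span_range_iff_exists_fun F).1 hw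
    rw [form_sum_right]
    refine Finset.sum_eq_zero fun i _ => ?_
    rw [form_smul_right, form_swap, form_sum_right, Finset.sum_eq_zero fun j _ => ?_, neg_zero, mul_zero]
    rw [form_smul_right, form_mulVec, hiso, mul_zero]
  · rw [Submodule.map_span, Submodule.span_le]
    rintro _ ⟨_, ⟨a, rfl⟩, rfl⟩
    rw [Matrix.toLin'_apply]
    show _ ∈ Submodule.span F (Set.range v')
    rw [mul_mulVec, mul_mulVec, inv_mulVec_cancel]
    have := Submodule.mem_map_of_mem (f := Matrix.mulVecLin (c : Matrix (Fin d ⊕ Fin d) (Fin d ⊕ Fin d) F)) (hinv a)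
    rwa [Submodule.map_span, ← Set.range_comp] at this

/-- Involutions of `PSp` in odd characteristic on totally isotropic subspaces. -/
private theorem involution_case {F : Type*} [Field F] [Fintype F] (h2 : (2 : F) ≠ 0) {d m : ℕ}
    (hd : 0 < d) (hm : 1 ≤ m) (hmd : m ≤ d) :
    (∀ x : ↥(Matrix.symplecticGroup (Fin d) F),
      (∃ z : F, ((x ^ 2 : ↥(Matrix.symplecticGroup (Fin d) F)) : Matrix (Fin d ⊕ Fin d) (Fin d ⊕ Fin d) F) = z • (1 : Matrix (Fin d ⊕ Fin d) (Fin d ⊕ Fin d) F)) →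
      (∀ z : F, (x : Matrix (Fin d ⊕ Fin d) (Fin d ⊕ Fin d) F) ≠ z • (1 : Matrix (Fin d ⊕ Fin d) (Fin d ⊕ Fin d) F)) →
      ∃ W : Submodule F (Fin d ⊕ Fin d → F), finrank F ↥W = m ∧ (∀ u ∈ W, ∀ v ∈ W, Cfsg.sympForm d F u v = 0) ∧
        W.map (Matrix.toLin' (x : Matrix (Fin d ⊕ Fin d) (Fin d ⊕ Fin d) F)) ≤ W) ↔
    (Even m ∨ Fintype.card F % 4 = 1) := by
  classical
  have hodd : Fintype.card F % 2 = 1 := by
    refine (Nat.mod_two_eq_zero_or_one _).resolve_left fun h0 => h2 ?_
    have : ringChar F = 2 := FiniteField.even_card_iff_char_two.mpr h0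
    exact_mod_cast (ringChar.spec F 2).mpr (by rw [this])
  let g : ↥(Matrix.symplecticGroup (Fin d) F) := ⟨J (Fin d) F, SymplecticGroup.J_mem _ _⟩
  have hgE : ∀ j, (g : Matrix (Fin d ⊕ Fin d) (Fin d ⊕ Fin d) F) *ᵥ stdE j = -stdF j := fun j => by
    funext k
    show (J (Fin d) F *ᵥ Pi.single (Sum.inr j) 1) k = _
    rw [mulVec_single_one, Matrix.col_apply]
    rcases k with k | k <;> simp [J, stdF, one_apply, Pi.single_apply, eq_comm]
  have hgF : ∀ j, (g : Matrix (Fin d ⊕ Fin d) (Fin d ⊕ Fin d) F) *ᵥ stdF j = stdE j := fun j => by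
    funext k
    show (J (Fin d) F *ᵥ Pi.single (Sum.inl j) 1) k = _
    rw [mulVec_single_one, Matrix.col_apply]
    rcases k with k | k <;> simp [J, stdE, one_apply, Pi.single_apply, eq_comm]
  have hgg : ((g * g : ↥(Matrix.symplecticGroup (Fin d) F)) : Matrix (Fin d ⊕ Fin d) (Fin d ⊕ Fin d) F) = -1 :=
    J_squared _ _
  constructor
  · intro h
    by_contra hcon
    rw [not_or, Nat.not_even_iff_odd] at hcon
    have hns : ∀ z : F, (g : Matrix (Fin d ⊕ Fin d) (Fin d ⊕ Fin d) F) ≠ z • 1 := fun z hz => by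
      have h1 := congrFun (hgE ⟨0, hd⟩) (Sum.inl ⟨0, hd⟩)
      rw [hz, smul_mulVec, one_mulVec] at h1
      simp [stdE, stdF] at h1
    obtain ⟨W, hW, -, hinv⟩ := h g ⟨-1, by rw [sq, hgg, neg_one_smul]⟩ hns
    let f : W →ₗ[F] W := (Matrix.toLin' (g : Matrix (Fin d ⊕ Fin d) (Fin d ⊕ Fin d) F)).restrict
      fun w hw => hinv ⟨w, hw, rfl⟩
    have hff : f * f = (-1 : F) • (1 : Module.End F W) := LinearMap.ext fun w => Subtype.ext (by
      show Matrix.toLin' (g : Matrix (Fin d ⊕ Fin d) (Fin d ⊕ Fin d) F) (Matrix.toLin' (g : Matrix (Fin d ⊕ Fin d) (Fin d ⊕ Fin d) F) w) = _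
      rw [Matrix.toLin'_apply, Matrix.toLin'_apply, ← mul_mulVec, hgg, neg_mulVec, one_mulVec]
      simp)
    have hdet := congrArg LinearMap.det hff
    rw [map_mul, LinearMap.det_smul, map_one, mul_one, hW, hcon.1.neg_one_pow, ← sq] at hdet
    have hsq : IsSquare (-1 : F) := ⟨LinearMap.det f, by rw [← sq, hdet]⟩
    rw [FiniteField.isSquare_neg_one_iff] at hsq
    omega
  · intro hR x ⟨z, hz⟩ hns
    have hxx : ∀ v, (x : Matrix (Fin d ⊕ Fin d) (Fin d ⊕ Fin d) F) *ᵥ
        ((x : Matrix (Fin d ⊕ Fin d) (Fin d ⊕ Fin d) F) *ᵥ v) = z • v := by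
      intro v
      rw [mulVec_mulVec, ← Submonoid.coe_mul, ← sq, hz, smul_mulVec, one_mulVec]
    have hz1 : z = 1 ∨ z = -1 := by
      have h1 := form_mulVec (x * x) (stdE (⟨0, hd⟩ : Fin d)) (stdF ⟨0, hd⟩)
      rw [mul_mulVec, mul_mulVec, hxx, hxx, form_smul_left, form_smul_right, form_stdE_stdF, if_pos rfl] at h1
      exact mul_self_eq_one_iff.1 (by linear_combination h1)
    have hcast : ∀ a b : Fin m, Fin.castLE hmd a = Fin.castLE hmd b ↔ a = b := fun a b =>
      (Fin.castLE_injective hmd).eq_iff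
    rcases hz1 with hz1 | hz1
    · obtain ⟨h, s, hs⟩ := exists_signPattern h2 (g := x) (symp_ext fun v => by
        rw [mul_mulVec, hxx, hz1, one_smul, Submonoid.coe_one, one_mulVec])
      refine exists_of_family (isConj_iff.2 ⟨h⁻¹, by group⟩ : IsConj (h * x * h⁻¹) x)
        (fun a => stdE (Fin.castLE hmd a)) ?_ (fun a b => form_stdE_stdE _ _) fun a => ?_
      · rw [Fintype.linearIndependent_iff]
        intro c hc a
        have := congrFun hc (Sum.inr (Fin.castLE hmd a))
        simpa [Finset.sum_apply, stdE, Pi.single_apply, hcast] using this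
      · rw [(hs _).1]
        exact Submodule.smul_mem _ _ (Submodule.subset_span ⟨a, rfl⟩)
    · have hconj : IsConj g x := isConj_of_sq_eq_neg_one h2 hgg (by rw [← sq, hz, hz1, neg_one_smul])
      rcases hR with hev | hq4
      · obtain ⟨l, rfl⟩ := hev
        obtain ⟨α, β, hab⟩ : ∃ α β : F, α ^ 2 + β ^ 2 = -1 := by
          obtain ⟨a, b, hab⟩ := FiniteField.exists_root_sum_quadratic (f := (Polynomial.X : Polynomial F) ^ 2)
            (g := (Polynomial.X : Polynomial F) ^ 2 - Polynomial.C (-1 : F))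
            (Polynomial.degree_X_pow 2) (Polynomial.degree_X_pow_sub_C two_pos _) hodd
          exact ⟨a, b, by simp at hab; linear_combination hab⟩
        let A : Fin l → Fin d := fun u => ⟨2 * (u : ℕ), by omega⟩
        let C : Fin l → Fin d := fun u => ⟨2 * (u : ℕ) + 1, by omega⟩
        have hAC : ∀ u u', A u ≠ C u' := fun u u' h => by simp [A, C, Fin.ext_iff] at h; omega
        have hA : ∀ u u', A u = A u' ↔ u = u' := fun u u' => by simp [A, Fin.ext_iff]
        have hC : ∀ u u', C u = C u' ↔ u = u' := fun u u' => by simp [C, Fin.ext_iff]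
        let w : Fin l → (Fin d ⊕ Fin d → F) := fun u => stdE (A u) + α • stdE (C u) + β • stdF (C u)
        let w' : Fin l → (Fin d ⊕ Fin d → F) := fun u => -stdF (A u) - α • stdF (C u) + β • stdE (C u)
        have hw : ∀ u, (g : Matrix (Fin d ⊕ Fin d) (Fin d ⊕ Fin d) F) *ᵥ w u = w' u := fun u => by
          simp only [w, w', mulVec_add, mulVec_smul, hgE, hgF]; module
        have hw' : ∀ u, (g : Matrix (Fin d ⊕ Fin d) (Fin d ⊕ Fin d) F) *ᵥ w' u = -w u := fun u => by
          simp only [w, w', mulVec_add, mulVec_sub, mulVec_neg, mulVec_smul, hgE, hgF]; module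
        refine exists_of_family hconj (fun a => Sum.elim w w' (finSumFinEquiv.symm a)) ?_ (fun a b => ?_)
          fun a => ?_
        · have key : LinearIndependent F (Sum.elim w w') := by
            rw [Fintype.linearIndependent_iff]
            intro c hc
            rintro (u | u)
            · have := congrFun hc (Sum.inr (A u))
              simpa [w, w', Fintype.sum_sum_type, Finset.sum_apply, stdE, stdF, Pi.single_apply, hA, hAC] using this
            · have := congrFun hc (Sum.inl (A u))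
              simpa [w, w', Fintype.sum_sum_type, Finset.sum_apply, stdE, stdF, Pi.single_apply, hA, hAC] using this
          exact key.comp _ finSumFinEquiv.symm.injective
        · have hCA : ∀ u u', C u ≠ A u' := fun u u' h => hAC u' u h.symm
          rcases finSumFinEquiv.symm a with u | u <;> rcases finSumFinEquiv.symm b with u' | u' <;>
            simp only [Sum.elim_inl, Sum.elim_inr, w, w', form_add_left, form_add_right, form_sub_left,
              form_sub_right, form_neg_left, form_neg_right, form_smul_left, form_smul_right,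
              form_stdE_stdE, form_stdF_stdF, form_stdE_stdF, form_stdF_stdE, hA, hC, hAC, hCA, if_false] <;>
            split_ifs <;> first | ring1 | linear_combination hab | linear_combination -hab
        · show (g : Matrix (Fin d ⊕ Fin d) (Fin d ⊕ Fin d) F) *ᵥ Sum.elim w w' (finSumFinEquiv.symm a) ∈ _
          obtain ⟨u | u, rfl⟩ := finSumFinEquiv.surjective a <;>
            simp only [Equiv.symm_apply_apply, Sum.elim_inl, Sum.elim_inr, hw, hw']
          · exact Submodule.subset_span ⟨finSumFinEquiv (Sum.inr u), congrArg (Sum.elim w w') (Equiv.symm_apply_apply _ _)⟩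
          · exact neg_mem (Submodule.subset_span ⟨finSumFinEquiv (Sum.inl u), by simp⟩)
      · obtain ⟨ω, hω⟩ : IsSquare (-1 : F) := FiniteField.isSquare_neg_one_iff.2 (by omega)
        refine exists_of_family hconj (fun a => stdE (Fin.castLE hmd a) + ω • stdF (Fin.castLE hmd a)) ?_
          (fun a b => ?_) fun a => ?_
        · rw [Fintype.linearIndependent_iff]
          intro c hc a
          have := congrFun hc (Sum.inr (Fin.castLE hmd a))
          simpa [Finset.sum_apply, stdE, stdF, Pi.single_apply, hcast] using this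
        · simp only [form_add_left, form_add_right, form_smul_left, form_smul_right, form_stdE_stdE,
            form_stdF_stdF, form_stdE_stdF, form_stdF_stdE, hcast]
          split_ifs <;> first | ring1 | (subst_vars; simp_all)
        · have hgw : (g : Matrix (Fin d ⊕ Fin d) (Fin d ⊕ Fin d) F) *ᵥ
              (stdE (Fin.castLE hmd a) + ω • stdF (Fin.castLE hmd a)) =
              ω • (stdE (Fin.castLE hmd a) + ω • stdF (Fin.castLE hmd a)) := by
            rw [mulVec_add, mulVec_smul, hgE, hgF, smul_add, smul_smul, ← hω, neg_one_smul]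
            abel
          rw [hgw]
          exact Submodule.smul_mem _ _ (Submodule.subset_span ⟨a, rfl⟩)

/-- Odd primes: sufficiency. -/
private theorem odd_sufficient {F : Type*} [Field F] [Fintype F] {d m r : ℕ} [Fact r.Prime] (hd : 0 < d)
    (hmd : m ≤ d) (hr2 : r ≠ 2) (hrF : (r : F) ≠ 0) {c : ℕ}
    (hc : c = if Even (orderOf (Fintype.card F : ZMod r)) then orderOf (Fintype.card F : ZMod r)
      else 2 * orderOf (Fintype.card F : ZMod r))
    (hk : 2 * (m % orderOf (Fintype.card F : ZMod r)) ≤ (2 * d) % c)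
    (ht : Odd (orderOf (Fintype.card F : ZMod r)) ∨
      (r - 1) / orderOf (Fintype.card F : ZMod r) + 2 * (m / orderOf (Fintype.card F : ZMod r)) ≤
        (2 * d) / orderOf (Fintype.card F : ZMod r))
    (y : ↥(Matrix.symplecticGroup (Fin d) F)) (hy : y ^ r = 1) :
    ∃ W : Submodule F (Fin d ⊕ Fin d → F), finrank F ↥W = m ∧ (∀ u ∈ W, ∀ v ∈ W, Cfsg.sympForm d F u v = 0) ∧
      W.map (Matrix.toLin' (y : Matrix (Fin d ⊕ Fin d) (Fin d ⊕ Fin d) F)) ≤ W := by
  set f := Matrix.toLin' (y : Matrix (Fin d ⊕ Fin d) (Fin d ⊕ Fin d) F)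
  set i := orderOf (Fintype.card F : ZMod r) with hi
  have hs : Setting (formB d F) f r := setting hr2 hrF hy
  have hipos : 0 < i := hs.order_pos
  have hsum : finrank F (fixed f) + finrank F (moved f) = 2 * d := finrank_fixed_add_moved hs
  obtain ⟨L, hL⟩ := (hs.exists_nondeg_sub hs.nondeg_moved moved_map_le le_rfl hc).1
  have hcd : c * L ≤ 2 * d := by omega
  have hkk : (2 * d) % c + c * L ≤ 2 * d := by
    have hcpos : 0 < c := by rw [hc]; split_ifs <;> omega
    have h1 := Nat.div_add_mod (2 * d) c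
    have h2 : c * L ≤ c * (2 * d / c) :=
      Nat.mul_le_mul_left c ((Nat.le_div_iff_mul_le hcpos).2 (by rw [mul_comm]; exact hcd))
    omega
  have fin : ∀ l, l ≤ m / i → (∃ Y ≤ moved f, Isotropic (formB d F) Y ∧ Y.map f ≤ Y ∧ finrank F Y = i * l) →
      2 * (m - i * l) + c * L ≤ 2 * d →
      ∃ W : Submodule F (Fin d ⊕ Fin d → F), finrank F ↥W = m ∧
        (∀ u ∈ W, ∀ v ∈ W, Cfsg.sympForm d F u v = 0) ∧ W.map f ≤ W := by
    intro l hl ⟨Y, hY1, hY2, hY3, hY4⟩ hj
    obtain ⟨W, hW1, hW2, hW3⟩ := hs.exists_isotropic_of_moved (j := m - i * l) (by omega) hY1 hY2 hY3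
    refine ⟨W, ?_, hW1, hW2⟩
    have : i * l ≤ i * (m / i) := Nat.mul_le_mul_left i hl
    have := Nat.mul_div_le m i
    omega
  have hmdiv := Nat.div_add_mod m i
  by_cases hev : Even i
  · have hci : c = i := by rw [hc, if_pos hev]
    subst hci
    obtain ⟨t, htt⟩ : i ∣ r - 1 :=
      orderOf_dvd_of_pow_eq_one (ZMod.pow_card_sub_one_eq_one (card_ne_zero_mod hrF))
    have ht' : t + 2 * (m / i) ≤ (2 * d) / i := by
      have := ht.resolve_left (Nat.not_odd_iff_even.2 hev)
      rwa [htt, Nat.mul_div_cancel_left _ hipos] at this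
    have hexists : ∀ l, (l = 0 ∨ 2 * l + t ≤ L + 1) →
        ∃ Y ≤ moved f, Isotropic (formB d F) Y ∧ Y.map f ≤ Y ∧ finrank F Y = i * l := fun l hl =>
      hs.exists_isotropic_sub hev (t := t) (by rw [htt, mul_comm]) l L hs.nondeg_moved moved_map_le le_rfl hL hl
    by_cases hbig : 2 * (m / i) + t ≤ L + 1
    · exact fin _ le_rfl (hexists _ (Or.inr hbig)) (by omega)
    · refine fin ((L + 1 - t) / 2) (by omega) (hexists _ (by omega)) ?_
      have h1 : i * L ≤ i * (2 * ((L + 1 - t) / 2) + t) := Nat.mul_le_mul_left i (by omega)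
      have h2 : i * (t + 2 * (m / i)) ≤ i * (2 * d / i) := Nat.mul_le_mul_left i ht'
      have h3 := Nat.div_add_mod (2 * d) i
      have h4 : i * ((L + 1 - t) / 2) ≤ i * (m / i) := Nat.mul_le_mul_left i (by omega)
      have h5 : i * (2 * ((L + 1 - t) / 2) + t) = 2 * (i * ((L + 1 - t) / 2)) + i * t := by ring
      have h6 : i * (t + 2 * (m / i)) = i * t + 2 * (i * (m / i)) := by ring
      omega
  · have hci : c = 2 * i := by rw [hc, if_neg hev]
    have hget : ∀ l, l ≤ L → ∃ Y ≤ moved f, Isotropic (formB d F) Y ∧ Y.map f ≤ Y ∧ finrank F Y = i * l := by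
      intro l hl
      obtain ⟨W, hWle, -, -, -, hY⟩ := (hs.exists_nondeg_sub hs.nondeg_moved moved_map_le le_rfl hc).2 l
        (by rw [hL]; exact Nat.mul_le_mul_left c hl)
      obtain ⟨Y, hY1, hY2, hY3, hY4⟩ := hY (Nat.not_even_iff_odd.1 hev)
      exact ⟨Y, hY1.trans hWle, hY2, hY3, hY4⟩
    by_cases hbig : m / i ≤ L
    · exact fin _ le_rfl (hget _ hbig) (by omega)
    · refine fin L (by omega) (hget _ le_rfl) ?_
      have : i * L ≤ i * (m / i) := Nat.mul_le_mul_left i (by omega)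
      have e : c * L = 2 * (i * L) := by rw [hci]; ring
      omega

/-- Odd primes: elements fixing no totally isotropic `m`-space. -/
private theorem odd_necessary {F : Type*} [Field F] [Fintype F] {d m r : ℕ} [Fact r.Prime] (hd : 0 < d)
    (hm : 1 ≤ m) (hr2 : r ≠ 2) (hrF : (r : F) ≠ 0) {c : ℕ}
    (hc : c = if Even (orderOf (Fintype.card F : ZMod r)) then orderOf (Fintype.card F : ZMod r)
      else 2 * orderOf (Fintype.card F : ZMod r))
    {j₀ : ℕ} (hj0 : d - m < j₀) (hj0d : j₀ ≤ d) (hjr : r ∣ Fintype.card F ^ (2 * j₀) - 1)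
    (h : ∀ y : ↥(Matrix.symplecticGroup (Fin d) F), y ^ r = 1 → y ≠ 1 →
      ∃ W : Submodule F (Fin d ⊕ Fin d → F), finrank F ↥W = m ∧ Isotropic (formB d F) W ∧
        W.map (Matrix.toLin' (y : Matrix (Fin d ⊕ Fin d) (Fin d ⊕ Fin d) F)) ≤ W) :
    orderOf (Fintype.card F : ZMod r) ≤ m ∧ 2 * (m % orderOf (Fintype.card F : ZMod r)) ≤ (2 * d) % c ∧
      (Odd (orderOf (Fintype.card F : ZMod r)) ∨
        (r - 1) / orderOf (Fintype.card F : ZMod r) + 2 * (m / orderOf (Fintype.card F : ZMod r)) ≤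
          (2 * d) / orderOf (Fintype.card F : ZMod r)) := by
  classical
  set i := orderOf (Fintype.card F : ZMod r) with hi
  have hipos : 0 < i := orderOf_card_pos hrF
  have hij : i ∣ 2 * j₀ := (dvd_pow_sub_one_iff_orderOf_dvd _).1 hjr
  obtain ⟨h', hh'⟩ : ∃ h, c = 2 * h := by
    rw [hc]; split_ifs with he
    · obtain ⟨a, ha⟩ := he; exact ⟨a, by omega⟩
    · exact ⟨i, rfl⟩
  have hcj : c ∣ 2 * j₀ := by
    rw [hc]; split_ifs with he
    · exact hij
    · exact Nat.mul_dvd_mul_left 2 ((Nat.coprime_two_right.2 (Nat.not_even_iff_odd.1 he)).dvd_of_dvd_mul_left hij)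
  have hcpos : 0 < c := by rw [hc]; split_ifs <;> omega
  have hh'pos : 0 < h' := by omega
  have hdm := Nat.div_add_mod (2 * d) c
  have hL1 : 1 ≤ 2 * d / c :=
    (Nat.le_div_iff_mul_le hcpos).2 (by have := Nat.le_of_dvd (by omega) hcj; omega)
  have hk2m : (2 * d) % c < 2 * m := by
    obtain ⟨a, ha⟩ := hcj
    have ha' : c * a ≤ c * (2 * d / c) :=
      Nat.mul_le_mul_left c ((Nat.le_div_iff_mul_le hcpos).2 (by rw [mul_comm]; omega))
    omega
  have hmodel : ∀ L, 1 ≤ L → c * L ≤ 2 * d → ∀ (Y : Fin L → ↥(Matrix.symplecticGroup (Fin h') F)),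
      (∀ s, Y s ^ r = 1) →
      (∀ s a, (Y s : Matrix (Fin h' ⊕ Fin h') (Fin h' ⊕ Fin h') F) *ᵥ a = a → a = 0) →
      ∃ (x : ↥(Matrix.symplecticGroup (Fin d) F)) (ι : Fin L → (Fin h' ⊕ Fin h' → F) →ₗ[F] (Fin d ⊕ Fin d → F))
        (π : Fin L → (Fin d ⊕ Fin d → F) →ₗ[F] (Fin h' ⊕ Fin h' → F))
        (W : Submodule F (Fin d ⊕ Fin d → F)) (j l : ℕ),
        Setting (formB d F) (Matrix.toLin' (x : Matrix (Fin d ⊕ Fin d) (Fin d ⊕ Fin d) F)) r ∧
        (∀ s v, π s ((x : Matrix (Fin d ⊕ Fin d) (Fin d ⊕ Fin d) F) *ᵥ v) =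
          (Y s : Matrix (Fin h' ⊕ Fin h') (Fin h' ⊕ Fin h') F) *ᵥ π s v) ∧
        (∀ s a, (x : Matrix (Fin d ⊕ Fin d) (Fin d ⊕ Fin d) F) *ᵥ ι s a =
          ι s ((Y s : Matrix (Fin h' ⊕ Fin h') (Fin h' ⊕ Fin h') F) *ᵥ a)) ∧
        (∀ s s' a, π s (ι s' a) = if s = s' then a else 0) ∧
        (∀ s a v, Cfsg.sympForm d F (ι s a) v = Cfsg.sympForm h' F a (π s v)) ∧
        (∀ v, v ∈ fixed (Matrix.toLin' (x : Matrix (Fin d ⊕ Fin d) (Fin d ⊕ Fin d) F)) ↔ ∀ s, π s v = 0) ∧
        finrank F (fixed (Matrix.toLin' (x : Matrix (Fin d ⊕ Fin d) (Fin d ⊕ Fin d) F))) + c * L = 2 * d ∧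
        Isotropic (formB d F) W ∧
        W.map (Matrix.toLin' (x : Matrix (Fin d ⊕ Fin d) (Fin d ⊕ Fin d) F)) ≤ W ∧
        m = j + i * l ∧ 2 * j + c * L ≤ 2 * d ∧
        finrank F ↥(W ⊓ moved (Matrix.toLin' (x : Matrix (Fin d ⊕ Fin d) (Fin d ⊕ Fin d) F))) = i * l := by
    intro L hL hLd Y hY hfix
    have e : c * L = 2 * (L * h') := by rw [hh']; ring
    obtain ⟨x, ι, π, hx, hπx, hxι, hπι, hform, hfixed, hdim⟩ := exists_model (d := d) (by omega) Y hY hfix
    have hs := setting hr2 hrF hx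
    have hx1 : x ≠ 1 := fun h1 => by
      have hall : ∀ v, v ∈ fixed (Matrix.toLin' (x : Matrix (Fin d ⊕ Fin d) (Fin d ⊕ Fin d) F)) := fun v => by
        rw [mem_fixed, h1]; simp
      have h0 := Submodule.eq_top_iff'.2 hall
      rw [h0, finrank_top, finrank_space] at hdim
      have : 1 ≤ L * h' := Nat.mul_pos hL hh'pos
      omega
    obtain ⟨W, hW, hWi, hWf⟩ := h x hx hx1
    obtain ⟨j, l, hWd, hj, hl, -⟩ := hs.isotropic_profile hWi hWf
    exact ⟨x, ι, π, W, j, l, hs, hπx, hxι, hπι, hform, hfixed, by omega, hWi, hWf, hW ▸ hWd, by omega, hl⟩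
  obtain ⟨y0, hy0, -, hy0f⟩ := exists_fpf (h := h') hr2 hrF (hh' ▸ hc)
  obtain ⟨x, ι, π, W, j, l, -, -, -, -, -, -, -, -, -, hmjl, hj2, -⟩ := hmodel (2 * d / c) hL1
    (Nat.mul_div_le _ _) (fun _ => y0) (fun _ => hy0) (fun _ => hy0f)
  have him : i ≤ m := by
    by_contra hlt
    have : l = 0 := by
      by_contra hl0
      have : i * 1 ≤ i * l := Nat.mul_le_mul_left i (by omega)
      omega
    subst this
    omega
  have hkl : 2 * (m % i) ≤ (2 * d) % c := by
    have h1 : m % i ≤ j := by rw [hmjl, Nat.add_mul_mod_self_left]; exact Nat.mod_le _ _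
    omega
  refine ⟨him, hkl, (Nat.even_or_odd i).symm.imp id fun hev => ?_⟩
  obtain ⟨t, htt⟩ : i ∣ r - 1 :=
    orderOf_dvd_of_pow_eq_one (ZMod.pow_card_sub_one_eq_one (card_ne_zero_mod hrF))
  rw [htt, Nat.mul_div_cancel_left _ hipos]
  by_contra hn
  have hci : c = i := by rw [hc, if_pos hev]
  subst hci
  have hhi : 2 * h' = i := hh'.symm
  obtain ⟨Yc, P, hPinj, hYP⟩ := exists_orbit_exponents (F := F) (r := r) (h := h') (t := t) hr2 hrF hhi
    (by rw [htt, mul_comm])
  have htpos : 0 < t := by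
    rcases Nat.eq_zero_or_pos t with rfl | ht0
    · have := (Fact.out : r.Prime).two_le; omega
    · exact ht0
  set n' := 2 * d / i with hn'
  let L := if n' ≤ t then n' else if (n' - t) % 2 = 0 then n' else n' - 1
  have hLn : L ≤ n' ∧ n' ≤ L + 1 ∧ 1 ≤ L := by simp only [L]; split_ifs <;> omega
  let cls : Fin L → Fin t := fun s => ⟨min (s : ℕ) (t - 1), by omega⟩
  obtain ⟨x, ι, π, W, j, l, hs, hπx, hxι, hπι, hform, hfixed, hdimf, hWi, hWf, hmjl, hj2, hl⟩ := hmodel L hLn.2.2
    (le_trans (Nat.mul_le_mul_left i hLn.1) (Nat.mul_div_le _ _)) (fun s => Yc (cls s))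
    (fun s => (hYP _).1) (fun s => (hYP _).2.1)
  have hsingle : ∀ s : Fin L, ((s : ℕ) + 1 < t ∨ L ≤ t) → ∀ v ∈ W, π s v = 0 := by
    intro s hs'
    refine isotropic_avoids_single hh'pos hr2 hrF hhi (y := fun s => Yc (cls s)) (fun s => (hYP _).1)
      (fun s => (hYP _).2.1) (P := fun s => P (cls s)) (fun s => (hYP _).2.2) hxι hπx hπι hform hfixed
      (fun s₁ hne he => ?_) hWi hWf
    have h1 := congrArg Fin.val (hPinj he)
    simp only [cls] at h1
    have h2 := s₁.2
    have h3 := s.2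
    exact hne (Fin.ext (by omega))
  set f := Matrix.toLin' (x : Matrix (Fin d ⊕ Fin d) (Fin d ⊕ Fin d) F)
  have hdmi := Nat.div_add_mod (2 * d) i
  have hki := Nat.mod_lt (2 * d) hipos
  by_cases hLt : L ≤ t
  · have hWfix : W ⊓ moved f = ⊥ := by
      refine (Submodule.eq_bot_iff _).2 fun v hv => ?_
      exact Submodule.disjoint_def.1 hs.isCompl.disjoint v ((hfixed v).2 fun s => hsingle s (Or.inr hLt) v hv.1) hv.2
    rw [hWfix, finrank_bot] at hl
    have hl0 : l = 0 := (Nat.mul_eq_zero.1 hl.symm).resolve_left (by omega)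
    subst hl0
    have hnL : n' = L ∨ (L + 1 = n' ∧ t < n') := by simp only [L] at *; split_ifs at * <;> omega
    rcases hnL with hnL | ⟨hnL, hnt⟩
    · have : i * L = i * n' := by rw [hnL]
      omega
    · have : i * n' = i * L + i := by rw [← hnL, Nat.mul_succ]
      omega
  · let Rest : Submodule F (Fin d ⊕ Fin d → F) :=
      ⨅ s : {s : Fin L // (s : ℕ) + 1 < t}, LinearMap.ker (π s.1)
    have hRest : ∀ v, v ∈ Rest ↔ ∀ s : Fin L, (s : ℕ) + 1 < t → π s v = 0 := fun v => by
      simp [Rest, Submodule.mem_iInf]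
    have hRn : NondegIn (formB d F) Rest := by
      intro u hu hu0
      refine hs.nondeg u fun w => ?_
      have h1 := hu0 (w - ∑ s ∈ (Finset.univ : Finset (Fin L)).filter (fun (s : Fin L) => (s : ℕ) + 1 < t), ι s (π s w))
        ((hRest _).2 fun s' hs' => by
          rw [map_sub, map_sum, Finset.sum_eq_single s' (fun b _ hb => by rw [hπι, if_neg hb.symm])
            (fun hns => absurd (Finset.mem_filter.2 ⟨Finset.mem_univ s', hs'⟩) hns), hπι, if_pos rfl, sub_self])
      rw [map_sub, map_sum, Finset.sum_eq_zero (fun s hs' => ?_), sub_zero] at h1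
      · exact h1
      · rw [formB_apply, form_swap, hform, (hRest u).1 hu s (Finset.mem_filter.1 hs').2, form_zero_right, neg_zero]
    have hRinv : Rest.map f ≤ Rest := map_le_of_forall_mem fun v hv => (hRest _).2 fun s hs' => by
      rw [Matrix.toLin'_apply, hπx, (hRest v).1 hv s hs', Matrix.mulVec_zero]
    obtain ⟨hRM, -, hR3⟩ := hs.nondegIn_inter hRn hRinv
    have hfixR : Rest ⊓ fixed f = fixed f := inf_eq_right.2 fun v hv => (hRest v).2 fun s _ => (hfixed v).1 hv s
    have hRd : finrank F Rest + i * (t - 1) = 2 * d := by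
      let Φ : (Fin d ⊕ Fin d → F) →ₗ[F] ({s : Fin L // (s : ℕ) + 1 < t} → (Fin h' ⊕ Fin h' → F)) :=
        LinearMap.pi fun s => π s.1
      have hker : LinearMap.ker Φ = Rest := LinearMap.ker_pi _
      have hsurj : Function.Surjective Φ := fun a => ⟨∑ s, ι s.1 (a s), funext fun s => by
        show π s.1 (∑ s' : {s : Fin L // (s : ℕ) + 1 < t}, ι s'.1 (a s')) = a s
        rw [map_sum, Finset.sum_eq_single s (fun b _ hb => by
          rw [hπι, if_neg fun e => hb (Subtype.ext e.symm)]) (fun hns => absurd (Finset.mem_univ s) hns),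
          hπι, if_pos rfl]⟩
      have h1 := LinearMap.finrank_range_add_finrank_ker Φ
      rw [LinearMap.range_eq_top.2 hsurj, finrank_top, hker, finrank_space, Module.finrank_pi_fintype] at h1
      simp only [finrank_space, Finset.sum_const, Finset.card_univ, smul_eq_mul, hhi] at h1
      rw [Fintype.card_congr (show {s : Fin L // (s : ℕ) + 1 < t} ≃ Fin (t - 1) from
        { toFun := fun s => ⟨s.1, by have := s.2; omega⟩
          invFun := fun s => ⟨⟨s, by have := s.2; omega⟩, by have := s.2; simp only; omega⟩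
          left_inv := fun s => rfl
          right_inv := fun s => rfl }), Fintype.card_fin] at h1
      rw [mul_comm i]; omega
    rw [hfixR] at hR3
    have hle : W ⊓ moved f ≤ Rest ⊓ moved f :=
      le_inf (fun v hv => (hRest v).2 fun s hs' => hsingle s (Or.inl hs') v hv.1) inf_le_right
    have hhalf := two_mul_finrank_le hs.alt hRM (Y := W ⊓ moved f) (fun a ha b hb => hWi a ha.1 b hb.1) hle
    rw [hl] at hhalf
    have hLt2 : (L - t) % 2 = 0 ∧ L < t + 2 * (m / i) := by
      simp only [L] at *; split_ifs at * <;> omega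
    have hMeq : finrank F ↥(Rest ⊓ moved f) = i * (L - (t - 1)) := by
      have : i * (L - (t - 1)) + i * (t - 1) = i * L := by rw [← Nat.mul_add, Nat.sub_add_cancel (by omega)]
      omega
    rw [hMeq, ← mul_assoc, mul_comm 2 i, mul_assoc] at hhalf
    have hl2 : 2 * l ≤ L - (t - 1) := Nat.le_of_mul_le_mul_left hhalf hipos
    have hm' := Nat.div_add_mod m i
    have h7 : i * (l + 1) ≤ i * (m / i) := Nat.mul_le_mul_left i (by omega)
    have h8 : i * n' ≤ i * (L + 1) := Nat.mul_le_mul_left i hLn.2.1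
    rw [Nat.mul_succ] at h7 h8
    omega

/-- Elements of prime order of PSp_n(q) with no fixed totally isotropic `m`-space. Here `T = PSp_n(q)` with `n = 2d ≥ 4`, `(n, q) ≠ (4, 2)`, realised through the symplectic matrices over the field `F` with `q` elements (preserving the standard alternating form); an element of `T` of prime order `r` is such a matrix `x` with `x^r` scalar and `x` not scalar. For `r ≠ p` let `i` be the multiplicative order of `q` modulo `r`, `c = i` for `i` even and `c = 2i` for `i` odd, and write `k = n mod c`, `ℓ = m mod i`, `ℓ' = m mod c`, `n' = ⌊n/i⌋`, `m' = ⌊m/i⌋`, `t = (r−1)/i`. Let `1 ≤ m ≤ n/2` and let `r` be a prime dividing the number of totally isotropic `m`-spaces. Then every element of `T` of order `r` fixes a totally isotropic `m`-space if and only if either (i) `r = 2 ≠ p` and (`m` is even or `q ≡ 1 (mod 4)`); or (ii) `r ≠ p`, `r > 2`, `i ≤ m`, `k ≥ 2ℓ`, and (`i` is odd or `n' − 2m' ≥ t`). -/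
theorem result {F : Type*} [Field F] [Fintype F] {p : ℕ} [Fact p.Prime] [CharP F p] {q : ℕ} (hq : Fintype.card F = q)
    (d m : ℕ) (hd : 2 ≤ d) (hT : (d, q) ≠ (2, 2)) (hm : 1 ≤ m) (hmd : m ≤ d)
    (r : ℕ) [Fact r.Prime]
    (hrΩ : r ∣ Nat.card {W : Submodule F (Fin d ⊕ Fin d → F) // Module.finrank F ↥W = m ∧ (∀ u ∈ W, ∀ v ∈ W, Cfsg.sympForm d F u v = 0)})
    (i c : ℕ) (hi : i = orderOf (q : ZMod r)) (hc : c = if Even i then i else 2 * i) :
    (∀ x : ↥(Matrix.symplecticGroup (Fin d) F),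
      (∃ z : F, ((x ^ r : ↥(Matrix.symplecticGroup (Fin d) F)) : Matrix (Fin d ⊕ Fin d) (Fin d ⊕ Fin d) F) = z • (1 : Matrix (Fin d ⊕ Fin d) (Fin d ⊕ Fin d) F)) →
      (∀ z : F, (x : Matrix (Fin d ⊕ Fin d) (Fin d ⊕ Fin d) F) ≠ z • (1 : Matrix (Fin d ⊕ Fin d) (Fin d ⊕ Fin d) F)) →
      ∃ W : Submodule F (Fin d ⊕ Fin d → F), Module.finrank F ↥W = m ∧ (∀ u ∈ W, ∀ v ∈ W, Cfsg.sympForm d F u v = 0) ∧
        W.map (Matrix.toLin' (x : Matrix (Fin d ⊕ Fin d) (Fin d ⊕ Fin d) F)) ≤ W) ↔
    ((r = 2 ∧ p ≠ 2 ∧ (Even m ∨ q % 4 = 1)) ∨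
     (r ≠ p ∧ 2 < r ∧ i ≤ m ∧ 2 * (m % i) ≤ (2 * d) % c ∧ (Odd i ∨ (r - 1) / i + 2 * (m / i) ≤ (2 * d) / i))) := by
  classical
  subst hq hi
  have hrpr : r.Prime := Fact.out
  have hppr : p.Prime := Fact.out
  haveI : Nonempty (Fin d) := ⟨⟨0, by omega⟩⟩
  obtain ⟨j₀, hj0, hj0d, hjr⟩ := exists_dvd_of_dvd_card_isotropic hmd hrpr hrΩ
  have hrp : r ≠ p := by
    rintro rfl
    obtain ⟨k, -, hk⟩ := FiniteField.card F r
    have h1 : r ∣ Fintype.card F ^ (2 * j₀) := dvd_pow (hk ▸ dvd_pow_self r k.ne_zero) (by omega)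
    have h2 : 1 ≤ Fintype.card F ^ (2 * j₀) := Nat.one_le_pow _ _ Fintype.card_pos
    have h3 := Nat.dvd_sub h1 hjr
    rw [show Fintype.card F ^ (2 * j₀) - (Fintype.card F ^ (2 * j₀) - 1) = 1 by omega] at h3
    exact hrpr.ne_one (Nat.dvd_one.1 h3)
  have hrF : (r : F) ≠ 0 := fun h =>
    hrp ((Nat.prime_dvd_prime_iff_eq hppr hrpr).1 ((CharP.cast_eq_zero_iff F p r).1 h)).symm
  by_cases hr2 : r = 2
  · subst hr2
    rw [involution_case (by exact_mod_cast hrF) (by omega) hm hmd]
    constructor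
    · exact fun h => Or.inl ⟨rfl, fun h' => hrp h'.symm, h⟩
    · rintro (⟨-, -, h⟩ | ⟨-, h, -⟩)
      · exact h
      · omega
  have hrgt : 2 < r := by have := hrpr.two_le; omega
  constructor
  · intro h
    refine Or.inr ⟨hrp, hrgt, odd_necessary (by omega) hm hr2 hrF hc hj0 hj0d hjr fun y hy hy1 => ?_⟩
    refine h y ⟨1, by rw [hy, OneMemClass.coe_one, one_smul]⟩ fun z hz => ?_
    have hzr : z ^ r = 1 := by
      have h1 := congrArg Subtype.val hy
      rw [SubmonoidClass.coe_pow, hz, _root_.smul_pow, one_pow] at h1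
      simpa using congrFun (congrFun h1 (Sum.inl ⟨0, by omega⟩)) (Sum.inl ⟨0, by omega⟩)
    have hz2 : z * z = 1 := by
      have h1 := form_mulVec y (stdE (⟨0, by omega⟩ : Fin d)) (stdF ⟨0, by omega⟩)
      rw [hz, Matrix.smul_mulVec, Matrix.smul_mulVec, Matrix.one_mulVec, Matrix.one_mulVec,
        form_smul_left, form_smul_right, form_stdE_stdF, if_pos rfl] at h1
      linear_combination h1
    obtain ⟨k, hk⟩ := hrpr.odd_of_ne_two hr2
    rw [hk, pow_succ, pow_mul, sq, hz2, one_pow, one_mul] at hzr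
    exact hy1 (Subtype.ext (by rw [hz, hzr, one_smul]; rfl))
  · rintro (⟨h2, -, -⟩ | ⟨-, -, -, hk, ht⟩) x ⟨z, hz⟩ hns
    · exact absurd h2 hr2
    obtain ⟨y, hy, -, hmap⟩ := exists_normalise (hrpr.odd_of_ne_two hr2) x hz hns
    obtain ⟨W, hW1, hW2, hW3⟩ := odd_sufficient (by omega) hmd hr2 hrF hc hk ht y hy
    exact ⟨W, hW1, hW2, (hmap W).symm ▸ hW3⟩

end Cfsg.Agent.S5955

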