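import Cfsg.Statements.S5956
import Cfsg.Agent.Eq.Def_ClassicalGeometry
import Cfsg.Agent.Classical.Semisimple.SympCounts
import Cfsg.Agent.Classical.Semisimple.UnipotentPieces
import Cfsg.Agent.Classical.Symp.Involutions
import Cfsg.Agent.Jordan.IsometryTypes
-- import your own Cfsg.Agent.* helpers here

set_option autoImplicit false
open scoped MatrixGroups
open Cfsg

namespace Cfsg.Agent.S5956

open Module Matrix CfsgLib.Classical.Symp CfsgLib.Classical.Semisimple CfsgLib.Classical.Semisimple.AltIsometry CfsgLib.Classical.Semisimple.SympModel CfsgLib.Classical.Semisimple.UnipotentPieces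

/-- An invariant non-degenerate subspace from a symplectic family, transported along conjugation. -/
private theorem exists_of_pairs {F : Type*} [Field F] {d a : ℕ} (had : a ≤ d)
    {g x : ↥(Matrix.symplecticGroup (Fin d) F)} (hc : IsConj g x)
    (hinv : ∀ s : Fin a ⊕ Fin a, (g : Matrix (Fin d ⊕ Fin d) (Fin d ⊕ Fin d) F) *ᵥ
      Sum.elim (fun i => stdE (Fin.castLE had i)) (fun i => stdF (Fin.castLE had i)) s ∈
      Submodule.span F (Set.range (Sum.elim (fun i : Fin a => stdE (F := F) (Fin.castLE had i)) (fun i => stdF (Fin.castLE had i))))) :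
    ∃ W : Submodule F (Fin d ⊕ Fin d → F), finrank F ↥W = 2 * a ∧
      (∀ u ∈ W, u ≠ 0 → ∃ v ∈ W, Cfsg.sympForm d F u v ≠ 0) ∧
      W.map (Matrix.toLin' (x : Matrix (Fin d ⊕ Fin d) (Fin d ⊕ Fin d) F)) ≤ W := by
  obtain ⟨c, rfl⟩ := isConj_iff.1 hc
  set v := Sum.elim (fun i : Fin a => stdE (F := F) (Fin.castLE had i)) (fun i => stdF (Fin.castLE had i)) with hv
  have hcast : ∀ i k : Fin a, Fin.castLE had i = Fin.castLE had k ↔ i = k := fun i k =>
    (Fin.castLE_injective had).eq_iff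
  have hli : LinearIndependent F v := by
    rw [Fintype.linearIndependent_iff]
    intro cf hcf
    rintro (i | i)
    · have := congrFun hcf (Sum.inr (Fin.castLE had i))
      simpa [v, Fintype.sum_sum_type, Finset.sum_apply, stdE, stdF, Pi.single_apply, hcast] using this
    · have := congrFun hcf (Sum.inl (Fin.castLE had i))
      simpa [v, Fintype.sum_sum_type, Finset.sum_apply, stdE, stdF, Pi.single_apply, hcast] using this
  let W0 := Submodule.span F (Set.range v)
  have hW0 : ∀ u ∈ W0, u ≠ 0 → ∃ w ∈ W0, Cfsg.sympForm d F u w ≠ 0 := by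
    intro u hu hu0
    by_contra hcon
    push Not at hcon
    obtain ⟨cu, rfl⟩ := (Submodule.mem_span_range_iff_exists_fun F).1 hu
    refine hu0 (Finset.sum_eq_zero fun s _ => ?_)
    suffices cu s = 0 by rw [this, zero_smul]
    rcases s with i | i
    · have := hcon (v (Sum.inr i)) (Submodule.subset_span ⟨_, rfl⟩)
      rw [show v (Sum.inr i) = stdF (Fin.castLE had i) from rfl, form_stdF_right] at this
      simpa [v, Fintype.sum_sum_type, Finset.sum_apply, stdE, stdF, Pi.single_apply, hcast] using this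
    · have := hcon (v (Sum.inl i)) (Submodule.subset_span ⟨_, rfl⟩)
      rw [show v (Sum.inl i) = stdE (Fin.castLE had i) from rfl, form_stdE_right] at this
      simpa [v, Fintype.sum_sum_type, Finset.sum_apply, stdE, stdF, Pi.single_apply, hcast] using this
  let f := Matrix.toLin' (c : Matrix (Fin d ⊕ Fin d) (Fin d ⊕ Fin d) F)
  have hf : Function.Injective f := fun u w e => mulVec_injective c (by simpa [f, Matrix.toLin'_apply] using e)
  refine ⟨W0.map f, ?_, ?_, ?_⟩
  · rw [← (Submodule.equivMapOfInjective f hf W0).finrank_eq, finrank_span_eq_card hli, Fintype.card_sum,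
      Fintype.card_fin, two_mul]
  · rintro _ ⟨u, hu, rfl⟩ hu0
    obtain ⟨w, hw, hw0⟩ := hW0 u hu fun e => hu0 (by rw [e, map_zero])
    refine ⟨_, Submodule.mem_map_of_mem hw, ?_⟩
    rwa [Matrix.toLin'_apply, Matrix.toLin'_apply, form_mulVec]
  · rw [Submodule.map_span, Submodule.map_span, Submodule.span_le]
    rintro _ ⟨_, ⟨_, ⟨s, rfl⟩, rfl⟩, rfl⟩
    rw [Matrix.toLin'_apply, Matrix.toLin'_apply, mul_mulVec, mul_mulVec, inv_mulVec_cancel,
      ← Matrix.toLin'_apply (c : Matrix (Fin d ⊕ Fin d) (Fin d ⊕ Fin d) F), ← Submodule.map_span]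
    exact Submodule.mem_map_of_mem (hinv s)

/-- Involutions in odd characteristic. -/
private theorem involution_case {F : Type*} [Field F] [Fintype F] (h2 : (2 : F) ≠ 0) {d a : ℕ} (had : a ≤ d)
    (hd : 0 < d) (x : ↥(Matrix.symplecticGroup (Fin d) F))
    (hz : ∃ z : F, ((x ^ 2 : ↥(Matrix.symplecticGroup (Fin d) F)) : Matrix (Fin d ⊕ Fin d) (Fin d ⊕ Fin d) F) = z • (1 : Matrix (Fin d ⊕ Fin d) (Fin d ⊕ Fin d) F)) :
    ∃ W : Submodule F (Fin d ⊕ Fin d → F), finrank F ↥W = 2 * a ∧
      (∀ u ∈ W, u ≠ 0 → ∃ v ∈ W, Cfsg.sympForm d F u v ≠ 0) ∧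
      W.map (Matrix.toLin' (x : Matrix (Fin d ⊕ Fin d) (Fin d ⊕ Fin d) F)) ≤ W := by
  classical
  obtain ⟨z, hz⟩ := hz
  let g : ↥(Matrix.symplecticGroup (Fin d) F) := ⟨J (Fin d) F, SymplecticGroup.J_mem _ _⟩
  have hgE : ∀ j, (g : Matrix (Fin d ⊕ Fin d) (Fin d ⊕ Fin d) F) *ᵥ stdE j = -stdF j := fun j => by
    funext k
    show (J (Fin d) F *ᵥ Pi.single (Sum.inr j) 1) k = _
    rw [mulVec_single_one, Matrix.col_apply]
    rcases k with k | k <;> simp [J, stdF, one_apply, Pi.single_apply, eq_comm]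
  have hgF : ∀ j, (g : Matrix (Fin d ⊕ Fin d) (Fin d ⊕ Fin d) F) *ᵥ stdF j = stdE j := fun j => by
    funext k
    show (J (Fin d) F *ᵥ Pi.single (Sum.inl j) 1) k = _
    rw [mulVec_single_one, Matrix.col_apply]
    rcases k with k | k <;> simp [J, stdE, one_apply, Pi.single_apply, eq_comm]
  have hgg : ((g * g : ↥(Matrix.symplecticGroup (Fin d) F)) : Matrix (Fin d ⊕ Fin d) (Fin d ⊕ Fin d) F) = -1 :=
    J_squared _ _
  have hxx : ∀ v, (x : Matrix (Fin d ⊕ Fin d) (Fin d ⊕ Fin d) F) *ᵥ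
      ((x : Matrix (Fin d ⊕ Fin d) (Fin d ⊕ Fin d) F) *ᵥ v) = z • v := by
    intro v
    rw [mulVec_mulVec, ← Submonoid.coe_mul, ← sq, hz, smul_mulVec, one_mulVec]
  have hz1 : z = 1 ∨ z = -1 := by
    have h1 := form_mulVec (x * x) (stdE (⟨0, hd⟩ : Fin d)) (stdF ⟨0, hd⟩)
    rw [mul_mulVec, mul_mulVec, hxx, hxx, form_smul_left, form_smul_right, form_stdE_stdF, if_pos rfl] at h1
    exact mul_self_eq_one_iff.1 (by linear_combination h1)
  rcases hz1 with hz1 | hz1
  · obtain ⟨h, s, hs⟩ := exists_signPattern h2 (g := x) (symp_ext fun v => by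
      rw [mul_mulVec, hxx, hz1, one_smul, Submonoid.coe_one, one_mulVec])
    refine exists_of_pairs had (isConj_iff.2 ⟨h⁻¹, by group⟩ : IsConj (h * x * h⁻¹) x) ?_
    rintro (i | i)
    · rw [Sum.elim_inl, (hs _).1]
      exact Submodule.smul_mem _ _ (Submodule.subset_span ⟨Sum.inl i, rfl⟩)
    · rw [Sum.elim_inr, (hs _).2]
      exact Submodule.smul_mem _ _ (Submodule.subset_span ⟨Sum.inr i, rfl⟩)
  · refine exists_of_pairs had (isConj_of_sq_eq_neg_one h2 hgg (by rw [← sq, hz, hz1, neg_one_smul])) ?_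
    rintro (i | i)
    · rw [Sum.elim_inl, hgE]
      exact neg_mem (Submodule.subset_span ⟨Sum.inr i, rfl⟩)
    · rw [Sum.elim_inr, hgF]
      exact Submodule.subset_span ⟨Sum.inl i, rfl⟩

/-- A unipotent symplectic element as an isometry datum. -/
private theorem isoData {F : Type*} [Field F] {d : ℕ} (y : ↥(Matrix.symplecticGroup (Fin d) F)) :
    CfsgLib.Jordan.IsometryParity.IsoData (formB d F)
      (Matrix.toLin' (y : Matrix (Fin d ⊕ Fin d) (Fin d ⊕ Fin d) F))
      (Matrix.toLin' ((y⁻¹ : ↥(Matrix.symplecticGroup (Fin d) F)) : Matrix (Fin d ⊕ Fin d) (Fin d ⊕ Fin d) F)) where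
  nondeg := by
    have hr : LinearMap.IsRefl (formB d F) := LinearMap.IsAlt.isRefl fun u => form_self u
    exact hr.nondegenerate_iff_separatingLeft.2 fun u hu => eq_zero_of_form_eq_zero hu
  refl := LinearMap.IsAlt.isRefl fun u => form_self u
  iso u v := by simp only [Matrix.toLin'_apply, formB_apply, form_mulVec]
  mul_inv := LinearMap.ext fun u => by
    rw [Module.End.mul_apply, Matrix.toLin'_apply, Matrix.toLin'_apply, mulVec_inv_cancel]; rfl
  inv_mul := LinearMap.ext fun u => by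
    rw [Module.End.mul_apply, Matrix.toLin'_apply, Matrix.toLin'_apply, inv_mulVec_cancel]; rfl

private theorem sub_one_pow {F : Type*} [Field F] {p : ℕ} [Fact p.Prime] [CharP F p] {V : Type*}
    [AddCommGroup V] [Module F V] (f : Module.End F V) : (f - 1) ^ p = f ^ p - 1 := by
  have h : ((Polynomial.X : Polynomial F) - 1) ^ p = Polynomial.X ^ p - 1 := by
    rw [sub_pow_char, one_pow]
  simpa using congrArg (Polynomial.aeval f) h

private theorem map_sub_le {F V : Type*} [Field F] [AddCommGroup V] [Module F V] {f : Module.End F V}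
    {U : Submodule F V} (h : U.map f ≤ U) : U.map (f - 1) ≤ U := by
  rintro _ ⟨w, hw, rfl⟩
  exact U.sub_mem (h ⟨w, hw, rfl⟩) hw

private theorem map_of_sub_le {F V : Type*} [Field F] [AddCommGroup V] [Module F V] {f : Module.End F V}
    {U : Submodule F V} (h : U.map (f - 1) ≤ U) : U.map f ≤ U := by
  rintro _ ⟨w, hw, rfl⟩
  have : f w = (f - 1) w + w := by simp
  rw [this]
  exact U.add_mem (h ⟨w, hw, rfl⟩) hw

/-- Elements of prime order of PSp_n(q) with no fixed nondegenerate `m`-space. Here `T = PSp_n(q)` with `n = 2d ≥ 4`, `(n, q) ≠ (4, 2)`, realised through the symplectic matrices over the field `F` with `q` elements (preserving the standard alternating form); an element of `T` of prime order `r` is such a matrix `x` with `x^r` scalar and `x` not scalar. For `r ≠ p` let `i` be the multiplicative order of `q` modulo `r`, `c = i` for `i` even and `c = 2i` for `i` odd, and write `k = n mod c`, `ℓ = m mod i`, `ℓ' = m mod c`, `n' = ⌊n/i⌋`, `m' = ⌊m/i⌋`, `t = (r−1)/i`.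 Let `m` be even with `2 ≤ m < n/2` and let `r` be a prime dividing the number of nondegenerate `m`-spaces. Then every element of `T` of order `r` fixes a nondegenerate `m`-space if and only if one of: (i) `r = p > 2` and every partition of `n` into parts of size at most `p` in which every odd part has even multiplicity contains (as a sub-multiset) a partition of `m` in which every odd part has even multiplicity; (ii) `r = p = 2` and (`n ≡ 2 (mod 4)` or `m ≡ 0 (mod 4)`); (iii) `r = 2 ≠ p`; (iv) `r ≠ p`, `r > 2`, `c ≤ m` and `k ≥ ℓ'`. -/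
theorem result {F : Type*} [Field F] [Fintype F] {p : ℕ} [Fact p.Prime] [CharP F p] {q : ℕ} (hq : Fintype.card F = q)
    (d m : ℕ) (hd : 2 ≤ d) (hT : (d, q) ≠ (2, 2)) (hm : 2 ≤ m) (hme : Even m) (hmd : m < d)
    (r : ℕ) [Fact r.Prime]
    (hrΩ : r ∣ Nat.card {W : Submodule F (Fin d ⊕ Fin d → F) // Module.finrank F ↥W = m ∧ (∀ u ∈ W, u ≠ 0 → ∃ v ∈ W, Cfsg.sympForm d F u v ≠ 0)})
    (i c : ℕ) (hi : i = orderOf (q : ZMod r)) (hc : c = if Even i then i else 2 * i) :
    (∀ x : ↥(Matrix.symplecticGroup (Fin d) F),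
      (∃ z : F, ((x ^ r : ↥(Matrix.symplecticGroup (Fin d) F)) : Matrix (Fin d ⊕ Fin d) (Fin d ⊕ Fin d) F) = z • (1 : Matrix (Fin d ⊕ Fin d) (Fin d ⊕ Fin d) F)) →
      (∀ z : F, (x : Matrix (Fin d ⊕ Fin d) (Fin d ⊕ Fin d) F) ≠ z • (1 : Matrix (Fin d ⊕ Fin d) (Fin d ⊕ Fin d) F)) →
      ∃ W : Submodule F (Fin d ⊕ Fin d → F), Module.finrank F ↥W = m ∧ (∀ u ∈ W, u ≠ 0 → ∃ v ∈ W, Cfsg.sympForm d F u v ≠ 0) ∧
        W.map (Matrix.toLin' (x : Matrix (Fin d ⊕ Fin d) (Fin d ⊕ Fin d) F)) ≤ W) ↔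
    ((r = p ∧ 2 < p ∧ (∀ μ : Multiset ℕ, (∀ a ∈ μ, 0 < a ∧ a ≤ p) → (∀ a : ℕ, Odd a → Even (μ.count a)) → μ.sum = 2 * d →
        ∃ ν : Multiset ℕ, ν ≤ μ ∧ ν.sum = m ∧ ∀ a : ℕ, Odd a → Even (ν.count a))) ∨
     (r = p ∧ p = 2 ∧ ((2 * d) % 4 = 2 ∨ m % 4 = 0)) ∨
     (r = 2 ∧ p ≠ 2) ∨
     (r ≠ p ∧ 2 < r ∧ c ≤ m ∧ m % c ≤ (2 * d) % c)) := by
  classical
  subst hq hi
  have hrpr : r.Prime := Fact.out
  have hppr : p.Prime := Fact.out
  obtain ⟨a, rfl⟩ := hme
  rw [← two_mul] at hrΩ ⊢
  have hd0 : 0 < d := by omega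
  have : Nonempty (Fin d) := ⟨⟨0, hd0⟩⟩
  have halt : LinearMap.BilinForm.IsAlt (formB d F) := fun u => form_self u
  have htopn : NondegIn (formB d F) ⊤ := fun u _ h => eq_zero_of_form_eq_zero fun w => h w trivial
  by_cases hrp : r = p
  swap
  · -- semisimple elements
    have hrF : (r : F) ≠ 0 := fun h =>
      hrp ((Nat.prime_dvd_prime_iff_eq hppr hrpr).1 ((CharP.cast_eq_zero_iff F p r).1 h)).symm
    by_cases hr2 : r = 2
    · refine iff_of_true (fun x hx _ => ?_) (Or.inr (Or.inr (Or.inl ⟨hr2, fun e => hrp (hr2.trans e.symm)⟩)))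
      rw [hr2] at hx hrF
      exact involution_case (by exact_mod_cast hrF) (by omega) hd0 x hx
    have hr3 : 2 < r := by have := hrpr.two_le; omega
    have hiff : ((r = p ∧ 2 < p ∧ (∀ μ : Multiset ℕ, (∀ a ∈ μ, 0 < a ∧ a ≤ p) → (∀ a : ℕ, Odd a → Even (μ.count a)) → μ.sum = 2 * d →
        ∃ ν : Multiset ℕ, ν ≤ μ ∧ ν.sum = 2 * a ∧ ∀ a : ℕ, Odd a → Even (ν.count a))) ∨
      (r = p ∧ p = 2 ∧ ((2 * d) % 4 = 2 ∨ 2 * a % 4 = 0)) ∨
      (r = 2 ∧ p ≠ 2) ∨ (r ≠ p ∧ 2 < r ∧ c ≤ 2 * a ∧ (2 * a) % c ≤ (2 * d) % c)) ↔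
      (c ≤ 2 * a ∧ (2 * a) % c ≤ (2 * d) % c) := by
      simp [hrp, hr2, hr3]
    rw [hiff]
    set i := orderOf (Fintype.card F : ZMod r) with hi
    have hipos : 0 < i := orderOf_card_pos hrF
    obtain ⟨u, hu⟩ := hrpr.odd_of_ne_two hr2
    have hcpos : 0 < c := by rw [hc]; split_ifs <;> omega
    obtain ⟨h, hh⟩ : ∃ h, c = 2 * h := by
      rw [hc]; split_ifs with he
      · obtain ⟨b, hb⟩ := he; exact ⟨b, by omega⟩
      · exact ⟨i, rfl⟩
    have hdn := Nat.div_add_mod (2 * d) c
    have hmn := Nat.mod_lt (2 * d) hcpos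
    have hdm := Nat.div_add_mod (2 * a) c
    constructor
    · intro hall
      obtain ⟨j₀, hj0, hj0d, hj⟩ := exists_dvd_of_dvd_card_nondeg (a := a) (by omega) hrpr (fun h => by
        obtain ⟨k, -, hk⟩ := FiniteField.card F p
        rw [hk] at h
        exact hrp ((Nat.prime_dvd_prime_iff_eq hrpr hppr).1 (hrpr.dvd_of_dvd_pow h))) hrΩ
      have hij : i ∣ 2 * j₀ := (dvd_pow_sub_one_iff_orderOf_dvd _).1 hj
      obtain ⟨b, hb⟩ : c ∣ 2 * j₀ := by
        rw [hc]; split_ifs with he
        · exact hij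
        · exact Nat.mul_dvd_mul_left 2
            ((Nat.coprime_two_right.2 (Nat.not_even_iff_odd.1 he)).dvd_of_dvd_mul_left hij)
      have hbd : c * b ≤ c * (2 * d / c) :=
        Nat.mul_le_mul_left c ((Nat.le_div_iff_mul_le hcpos).2 (by rw [mul_comm]; omega))
      have hL : 1 ≤ 2 * d / c := by
        rcases Nat.eq_zero_or_pos (2 * d / c) with h0 | h0
        · rw [h0, Nat.mul_zero] at hbd; omega
        · exact h0
      obtain ⟨y0, hy0, -, hy0f⟩ := exists_fpf (h := h) hr2 hrF (hh ▸ hc)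
      have e : c * (2 * d / c) = 2 * (2 * d / c * h) := by
        conv_lhs => rw [hh]
        rw [hh]; ring
      obtain ⟨x, -, -, hx, -, -, -, -, -, hdim⟩ := exists_model (d := d) (L := 2 * d / c) (h := h) (by omega)
        (fun _ => y0) (fun _ => hy0) (fun _ => hy0f)
      have hs : Setting (formB d F) (Matrix.toLin' (x : Matrix (Fin d ⊕ Fin d) (Fin d ⊕ Fin d) F)) r :=
        setting hr2 hrF hx
      obtain ⟨W, hW, hWn, hWi⟩ := hall x ⟨1, by rw [hx, one_smul]; rfl⟩ fun z hz => by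
        let i0 : Fin d ⊕ Fin d := Sum.inl ⟨0, hd0⟩
        have h1 : (x : Matrix (Fin d ⊕ Fin d) (Fin d ⊕ Fin d) F) ^ r = 1 := by
          rw [← SubmonoidClass.coe_pow, hx, OneMemClass.coe_one]
        rw [hz, _root_.smul_pow, one_pow] at h1
        have hzr : z ^ r = 1 := by simpa using congrFun (congrFun h1 i0) i0
        have h2 := form_mulVec x (stdE (⟨0, hd0⟩ : Fin d)) (stdF ⟨0, hd0⟩)
        rw [hz, Matrix.smul_mulVec, Matrix.smul_mulVec, Matrix.one_mulVec, Matrix.one_mulVec, form_smul_left,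
          form_smul_right, form_stdE_stdF, if_pos rfl, mul_one] at h2
        have hz1 : z = 1 := by
          rw [hu, pow_succ, pow_mul, sq, h2, one_pow, one_mul] at hzr
          exact hzr
        have htop : fixed (Matrix.toLin' (x : Matrix (Fin d ⊕ Fin d) (Fin d ⊕ Fin d) F)) = ⊤ :=
          Submodule.eq_top_iff'.2 fun v => by
            rw [mem_fixed, Matrix.toLin'_apply, hz, hz1, one_smul, Matrix.one_mulVec]
        rw [htop, finrank_top, finrank_space] at hdim
        have : c * 1 ≤ c * (2 * d / c) := Nat.mul_le_mul_left c hL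
        omega
      obtain ⟨j, l, hjl, -, hjf, -⟩ := hs.nondeg_profile (nondegIn_iff.2 hWn) hWi hc
      rw [hW] at hjl
      refine ⟨?_, ?_⟩
      · by_contra hlt
        rcases Nat.eq_zero_or_pos l with rfl | hl0
        · omega
        · have : c * 1 ≤ c * l := Nat.mul_le_mul_left c hl0
          omega
      · rw [hjl, Nat.add_mul_mod_self_left]
        exact (Nat.mod_le _ _).trans (by omega)
    · rintro ⟨hcm, hk⟩ x ⟨z, hz⟩ hns
      obtain ⟨y, hy, -, hmap⟩ := exists_normalise ⟨u, hu⟩ x hz hns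
      have hs : Setting (formB d F) (Matrix.toLin' (y : Matrix (Fin d ⊕ Fin d) (Fin d ⊕ Fin d) F)) r :=
        setting hr2 hrF hy
      obtain ⟨L, hL⟩ := (hs.exists_nondeg_sub hs.nondeg_moved moved_map_le le_rfl hc).1
      have h5 := finrank_fixed_add_moved hs
      have h6 : c * L ≤ c * (2 * d / c) :=
        Nat.mul_le_mul_left c ((Nat.le_div_iff_mul_le hcpos).2 (by rw [mul_comm]; omega))
      have h7 : c * min L (2 * a / c) ≤ c * L := Nat.mul_le_mul_left c (min_le_left _ _)
      have h8 : c * min L (2 * a / c) ≤ c * (2 * a / c) := Nat.mul_le_mul_left c (min_le_right _ _)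
      obtain ⟨q', hq'⟩ : Even (2 * a - c * min L (2 * a / c)) := by
        rw [hh, mul_assoc, ← Nat.mul_sub]; exact even_two_mul _
      obtain ⟨W, hWn, hWi, hWd⟩ := hs.exists_nondeg_of_profile hc (j := q') (l := min L (2 * a / c))
        (by rcases min_choice L (2 * a / c) with e | e <;> rw [e] at hq' <;> omega) (by omega)
      exact ⟨W, by omega, nondegIn_iff.1 hWn, hmap W ▸ hWi⟩
  -- unipotent elements
  subst hrp
  have hpp : ∀ y : ↥(Matrix.symplecticGroup (Fin d) F), y ^ r = 1 →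
      ((Matrix.toLin' (y : Matrix (Fin d ⊕ Fin d) (Fin d ⊕ Fin d) F)) - 1 : Module.End F (Fin d ⊕ Fin d → F)) ^ r = 0 := by
    intro y hy
    rw [sub_one_pow, CfsgLib.Classical.Semisimple.toLin'_pow, ← SubmonoidClass.coe_pow, hy, OneMemClass.coe_one, Matrix.toLin'_one,
      Module.End.one_eq_id, sub_self]
  rcases hrpr.eq_two_or_odd' with h2 | hodd
  · subst h2
    have hF2 : (2 : F) = 0 := by exact_mod_cast CharP.cast_eq_zero F 2
    have hiff : ((2 = 2 ∧ 2 < 2 ∧ (∀ μ : Multiset ℕ, (∀ a ∈ μ, 0 < a ∧ a ≤ 2) → (∀ a : ℕ, Odd a → Even (μ.count a)) → μ.sum = 2 * d →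
        ∃ ν : Multiset ℕ, ν ≤ μ ∧ ν.sum = 2 * a ∧ ∀ a : ℕ, Odd a → Even (ν.count a))) ∨
      (2 = 2 ∧ 2 = 2 ∧ ((2 * d) % 4 = 2 ∨ 2 * a % 4 = 0)) ∨
      (2 = 2 ∧ 2 ≠ 2) ∨ (2 ≠ 2 ∧ 2 < 2 ∧ c ≤ 2 * a ∧ (2 * a) % c ≤ (2 * d) % c)) ↔
      ((2 * d) % 4 = 2 ∨ 2 * a % 4 = 0) := by simp
    rw [hiff]
    have hnil : ∀ y : ↥(Matrix.symplecticGroup (Fin d) F), y ^ 2 = 1 →
        IsNilpotent (Matrix.toLin' (y : Matrix (Fin d ⊕ Fin d) (Fin d ⊕ Fin d) F) - 1) := fun y hy =>
      ⟨2, hpp y hy⟩
    constructor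
    · intro hall
      by_contra hcon
      push Not at hcon
      obtain ⟨e, he⟩ : ∃ e, d = 2 * e := ⟨d / 2, by omega⟩
      let τ' : Fin d → Fin d := fun j =>
        if hje : (j : ℕ) < e then ⟨j + e, by omega⟩ else ⟨j - e, by omega⟩
      have hval : ∀ j, (τ' j : ℕ) = if (j : ℕ) < e then (j : ℕ) + e else (j : ℕ) - e := fun j => by
        simp only [τ']
        split_ifs <;> rfl
      have hττ : Function.Involutive τ' := fun j => by
        apply Fin.ext
        have hj := j.2
        rw [hval, hval]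
        split_ifs <;> omega
      let τ : Equiv.Perm (Fin d) := hττ.toPerm τ'
      let x := permSp (F := F) τ
      have hsymm : ∀ j, τ.symm j = τ' j := fun j => rfl
      have hsum : ∀ i, Sum.map τ.symm τ.symm (Sum.map τ.symm τ.symm i) = i := by
        rintro (j | j) <;> simp [hsymm, hττ j]
      have hxv : ∀ (v : Fin d ⊕ Fin d → F) i, ((x : Matrix (Fin d ⊕ Fin d) (Fin d ⊕ Fin d) F) *ᵥ v) i =
          v (Sum.map τ.symm τ.symm i) := fun v i => congrFun (permSp_mulVec τ v) i
      have hx : x ^ 2 = 1 := symp_ext fun v => funext fun i => by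
        rw [sq, mul_mulVec, hxv, hxv, hsum, Submonoid.coe_one, one_mulVec]
      have hns : ∀ z : F, (x : Matrix (Fin d ⊕ Fin d) (Fin d ⊕ Fin d) F) ≠ z • 1 := fun z hz => by
        have h1 := hxv (stdE ⟨0, hd0⟩) (Sum.inr (τ' ⟨0, hd0⟩))
        rw [hz, smul_mulVec, one_mulVec, Sum.map_inr, hsymm, hττ] at h1
        have hne : τ' ⟨0, hd0⟩ ≠ ⟨0, hd0⟩ := fun h => by
          have h2 := congrArg Fin.val h
          rw [hval] at h2
          simp only at h2
          split_ifs at h2 <;> omega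
        simp [stdE, hne] at h1
      obtain ⟨W, hW, hWn, hWi⟩ := hall x ⟨1, by rw [hx, one_smul]; rfl⟩ hns
      set f := Matrix.toLin' (x : Matrix (Fin d ⊕ Fin d) (Fin d ⊕ Fin d) F) with hf
      have hWN := map_sub_le hWi
      obtain ⟨ν, hν, hνm, hνp, -⟩ := exists_type (isoData x) halt (hnil x hx) (nondegIn_iff.2 hWn) hWN
      obtain ⟨hsup, hR, -⟩ := AltIsometry.split halt htopn (nondegIn_iff.2 hWn) le_top
      rw [top_inf_eq] at hsup hR
      obtain ⟨ν', hν', hν'm, -⟩ := exists_type (isoData x) halt (hnil x hx) hR (map_orth_le (isoData x) hWN)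
      have hμ := hasType_sup hWN (map_orth_le (isoData x) hWN) (isCompl_orth halt (nondegIn_iff.2 hWn)).disjoint hν hν'
      rw [hsup] at hμ
      have hN2 : (f - 1) ^ 2 = 0 := hpp x hx
      have hrank : 2 * finrank F ↥(LinearMap.range (f - 1)) = 2 * d := by
        have heq : LinearMap.range (f - 1) = LinearMap.ker (f - 1) := by
          refine le_antisymm ?_ fun v hv => ?_
          · rintro _ ⟨w, rfl⟩
            rw [LinearMap.mem_ker, ← Module.End.mul_apply, ← sq, hN2, LinearMap.zero_apply]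
          · have hv' : ∀ i, v (Sum.map τ.symm τ.symm i) = v i := fun i => by
              have h1 : f v = v := sub_eq_zero.1 hv
              rw [← hxv v i, ← Matrix.toLin'_apply]
              exact congrFun h1 i
            let half : Fin d ⊕ Fin d → Prop := fun i => (Sum.elim id id i : Fin d).1 < e
            refine ⟨fun i => if half i then v i else 0, funext fun i => ?_⟩
            show ((f _) i - _) = v i
            rw [hf, Matrix.toLin'_apply, hxv, Module.End.one_apply, CharTwo.sub_eq_add]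
            have hh : half (Sum.map τ.symm τ.symm i) ↔ ¬ half i := by
              rcases i with j | j <;> simp only [half, Sum.map_inl, Sum.map_inr, Sum.elim_inl, Sum.elim_inr,
                id, hsymm, hval] <;> split_ifs <;> omega
            by_cases hi' : half i
            · rw [if_pos hi', if_neg (by rw [hh]; exact not_not.2 hi'), zero_add]
            · rw [if_neg hi', if_pos (hh.2 hi'), add_zero, hv']
        have h1 := LinearMap.finrank_range_add_finrank_ker (f - 1)
        rw [← heq, finrank_space] at h1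
        omega
      haveI : CharP F 2 := inferInstance
      have e0 := second_difference (ν + ν') 0
      rw [← hμ, ← hμ, ← hμ] at e0
      have hone : (⊤ : Submodule F (Fin d ⊕ Fin d → F)).map (1 : Module.End F (Fin d ⊕ Fin d → F)) = ⊤ :=
        Submodule.map_id _
      rw [show (0 : ℕ) + 2 = 2 from rfl, show (0 : ℕ) + 1 = 1 from rfl, pow_zero, pow_one, hN2, Submodule.map_zero,
        finrank_bot, hone, Submodule.map_top, finrank_top, finrank_space] at e0
      have hc1 : ∀ b ∈ ν, b = 2 := fun b hb => by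
        have h1 := (hνm b hb).1
        have h2 : b ≤ 2 := by
          by_contra hlt
          refine (hνm b hb).2 ?_
          rw [show b - 1 = (b - 3) + 2 by omega, pow_add, hN2, mul_zero, Submodule.map_zero]
        have h3 : b ≠ 1 := fun h => by
          subst h
          have := Multiset.count_pos.2 hb
          rw [Multiset.count_add] at e0
          omega
        omega
      obtain ⟨s, hs⟩ := hνp 2 (Or.inr fun w _ => by
        rw [pow_one, LinearMap.sub_apply, map_sub, Module.End.one_apply, formB_apply, formB_apply, form_self,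
          sub_zero, Matrix.toLin'_apply, form_apply]
        simp only [hxv, Sum.map_inl, Sum.map_inr, Finset.sum_sub_distrib]
        rw [sub_eq_zero]
        refine Fintype.sum_bijective τ.symm τ.symm.bijective _ _ fun j => ?_
        rw [hsymm, hsymm, hττ]
        ring)
      have hνeq := Multiset.eq_replicate_card.2 hc1
      have h4 : ν.sum = 2 * a := by rw [← hν.finrank_eq, hW]
      rw [hνeq, Multiset.count_replicate_self] at hs
      rw [hνeq, Multiset.sum_replicate, smul_eq_mul] at h4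
      omega
    · intro hR x ⟨z, hz⟩ hns
      have hz1 : z = 1 := by
        have h1 := form_mulVec (x ^ 2) (stdE (⟨0, hd0⟩ : Fin d)) (stdF ⟨0, hd0⟩)
        rw [hz, smul_mulVec, smul_mulVec, one_mulVec, one_mulVec, form_smul_left, form_smul_right,
          form_stdE_stdF, if_pos rfl] at h1
        rcases mul_self_eq_one_iff.1 (by linear_combination h1 : z * z = 1) with h | h
        · exact h
        · haveI : CharP F 2 := inferInstance
          rw [h, CharTwo.neg_eq]
      have hx : x ^ 2 = 1 := Subtype.ext (by rw [hz, hz1, one_smul]; rfl)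
      obtain ⟨-, -, -, -, -, hex⟩ := exists_type (isoData x) halt (hnil x hx) htopn le_top
      obtain ⟨W, -, hWn, hWN, hWd⟩ := hex (hpp x hx) a (by rw [finrank_top, finrank_space]; omega)
        (by rw [finrank_top, finrank_space, Nat.even_iff]; omega)
      exact ⟨W, hWd, nondegIn_iff.1 hWn, map_of_sub_le hWN⟩
  · have hr2 : r ≠ 2 := fun h => by rw [h] at hodd; exact absurd hodd (by decide)
    have hr3 : 2 < r := by have := hrpr.two_le; omega
    have hF2 : (2 : F) ≠ 0 := fun h => hr2 ((Nat.prime_dvd_prime_iff_eq hppr Nat.prime_two).1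
      ((CharP.cast_eq_zero_iff F r 2).1 (by exact_mod_cast h)))
    have hiff : ((r = r ∧ 2 < r ∧ (∀ μ : Multiset ℕ, (∀ a ∈ μ, 0 < a ∧ a ≤ r) → (∀ a : ℕ, Odd a → Even (μ.count a)) → μ.sum = 2 * d →
        ∃ ν : Multiset ℕ, ν ≤ μ ∧ ν.sum = 2 * a ∧ ∀ a : ℕ, Odd a → Even (ν.count a))) ∨
      (r = r ∧ r = 2 ∧ ((2 * d) % 4 = 2 ∨ 2 * a % 4 = 0)) ∨
      (r = 2 ∧ r ≠ 2) ∨ (r ≠ r ∧ 2 < r ∧ c ≤ 2 * a ∧ (2 * a) % c ≤ (2 * d) % c)) ↔
      (∀ μ : Multiset ℕ, (∀ a ∈ μ, 0 < a ∧ a ≤ r) → (∀ a : ℕ, Odd a → Even (μ.count a)) → μ.sum = 2 * d →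
        ∃ ν : Multiset ℕ, ν ≤ μ ∧ ν.sum = 2 * a ∧ ∀ a : ℕ, Odd a → Even (ν.count a)) := by simp [hr2, hr3]
    rw [hiff]
    constructor
    · intro hall μ hμb hμp hμs
      obtain ⟨t, D, hD⟩ : ∃ (t : ℕ) (D : Fin t → ℕ), Finset.univ.val.map D = μ :=
        ⟨μ.toList.length, fun k => μ.toList.get k, by rw [Fin.univ_val_map, List.ofFn_get, Multiset.coe_toList]⟩
      have hDs : ∑ k, D k = 2 * d := by rw [← hμs, ← hD]; rfl
      obtain ⟨e, A, hA⟩ := CfsgLib.Jordan.IsometryTypes.exists_symplectic (F := F) (d := D) (m := d) hDs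
        (CfsgLib.Jordan.Pieces.spType_of_even _ (fun j hj => (hμb j (hD ▸ hj)).1) (fun j hj => by
          rw [hD]; exact hμp j hj))
      obtain ⟨b, hb⟩ := CfsgLib.Jordan.MatrixLink.exists_chainBasis_of_isConj e hA
      set f := Matrix.toLin' (A : Matrix (Fin d ⊕ Fin d) (Fin d ⊕ Fin d) F) with hf
      have hμtype : HasType (f - 1) ⊤ μ := fun i => by
        rw [Submodule.map_top, hb.rank_pow i, ← hD, Multiset.map_map]
        rfl
      have hfr : (f - 1) ^ r = 0 := by
        rw [← LinearMap.range_eq_bot, ← Submodule.finrank_eq_zero (R := F), hb.rank_pow]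
        exact Finset.sum_eq_zero fun k _ => Nat.sub_eq_zero_of_le (hμb _ (by
          rw [← hD]; exact Multiset.mem_map_of_mem D (Finset.mem_univ k))).2
      have hAr : A ^ r = 1 := by
        have h1 : f ^ r = 1 := sub_eq_zero.1 ((sub_one_pow f).symm.trans hfr)
        refine symp_ext fun v => ?_
        have h2 := LinearMap.congr_fun h1 v
        rw [hf, CfsgLib.Classical.Semisimple.toLin'_pow, ← SubmonoidClass.coe_pow, Matrix.toLin'_apply, Module.End.one_apply] at h2
        rw [h2, Submonoid.coe_one, one_mulVec]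
      by_cases hns : ∀ z : F, (A : Matrix (Fin d ⊕ Fin d) (Fin d ⊕ Fin d) F) ≠ z • 1
      · obtain ⟨W, hW, hWn, hWi⟩ := hall A ⟨1, by rw [hAr, one_smul]; rfl⟩ hns
        have hWN := map_sub_le hWi
        have hnil : IsNilpotent (f - 1) := ⟨r, hfr⟩
        obtain ⟨ν, hν, hνm, hνp, -⟩ := exists_type (isoData A) halt hnil (nondegIn_iff.2 hWn) hWN
        obtain ⟨hsup, hR, -⟩ := AltIsometry.split halt htopn (nondegIn_iff.2 hWn) le_top
        rw [top_inf_eq] at hsup hR
        obtain ⟨ν', hν', hν'm, -⟩ := exists_type (isoData A) halt hnil hR (map_orth_le (isoData A) hWN)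
        have hadd := hasType_sup hWN (map_orth_le (isoData A) hWN) (isCompl_orth halt (nondegIn_iff.2 hWn)).disjoint hν hν'
        rw [hsup] at hadd
        have heq := hadd.unique hμtype
          (fun b hb => (Multiset.mem_add.1 hb).elim (fun h => (hνm b h).1) fun h => (hν'm b h).1)
          (fun b hb => (hμb b hb).1)
        exact ⟨ν, heq ▸ Multiset.le_add_right _ _, by rw [← hν.finrank_eq, hW],
          fun b hb => hνp b (Or.inl hb)⟩
      · push Not at hns
        obtain ⟨z, hz⟩ := hns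
        have hfz : f = z • (1 : Module.End F (Fin d ⊕ Fin d → F)) := by rw [hf, hz]; exact toLin'_smul_one z
        have hz1 : z = 1 := by
          let i0 : Fin d ⊕ Fin d := Sum.inl ⟨0, hd0⟩
          have h1 : (A : Matrix (Fin d ⊕ Fin d) (Fin d ⊕ Fin d) F) ^ r = 1 := by
            rw [← SubmonoidClass.coe_pow, hAr, OneMemClass.coe_one]
          rw [hz, _root_.smul_pow, one_pow] at h1
          have hzr : z ^ r = 1 := by simpa using congrFun (congrFun h1 i0) i0
          refine sub_eq_zero.1 (pow_eq_zero_iff hrpr.ne_zero |>.1 ?_)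
          rw [sub_pow_char, hzr, one_pow, sub_self]
        have h0 : f - 1 = 0 := by rw [hfz, hz1, one_smul, sub_self]
        have hall1 : ∀ b ∈ μ, b = 1 := fun b hb' => by
          have h1 := hμtype 1
          rw [pow_one, h0, Submodule.map_zero, finrank_bot, eq_comm, Multiset.sum_eq_zero_iff] at h1
          have := h1 _ (Multiset.mem_map_of_mem _ hb')
          have := (hμb b hb').1
          omega
        have hμeq := Multiset.eq_replicate_card.2 hall1
        rw [hμeq, Multiset.sum_replicate, smul_eq_mul, mul_one] at hμs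
        refine ⟨Multiset.replicate (2 * a) 1, ?_, by simp, fun b _ => ?_⟩
        · rw [hμeq, Multiset.replicate_le_replicate]; omega
        · rw [Multiset.count_replicate]
          split_ifs
          · exact even_two_mul a
          · exact Even.zero
    · intro hμ x ⟨z, hz⟩ hns
      obtain ⟨y, hy, -, hmap⟩ := exists_normalise hodd x hz hns
      obtain ⟨μ, hμt, hμm, hμp, hex, -⟩ := exists_type (isoData y) halt ⟨r, hpp y hy⟩ htopn le_top
      obtain ⟨ν, hνle, hνs, hνp⟩ := hμ μ (fun b hb => ⟨(hμm b hb).1, by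
          by_contra hlt
          refine (hμm b hb).2 ?_
          rw [show b - 1 = (b - 1 - r) + r by omega, pow_add, hpp y hy, mul_zero, Submodule.map_zero]⟩)
        (fun b hb => hμp b (Or.inl hb)) (by rw [← hμt.finrank_eq, finrank_top, finrank_space])
      obtain ⟨W, -, hWn, hWN, hWd⟩ := hex hF2 ν hνle hνp
      exact ⟨W, hWd.trans hνs, nondegIn_iff.1 hWn, hmap W ▸ map_of_sub_le hWN⟩

end Cfsg.Agent.S5956

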