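import Cfsg.Statements.S5958
import Cfsg.Agent.Eq.Def_GeometricClasses
import Cfsg.Agent.Classical.Semisimple.DecompCount
import Cfsg.Agent.Classical.Semisimple.Permuting
import Cfsg.Agent.Classical.Semisimple.Exist
import Cfsg.Agent.Classical.Semisimple.Bridge

set_option autoImplicit false
open scoped MatrixGroups
open Cfsg

namespace Cfsg.Agent.S5958

open Module Polynomial CfsgLib.Classical.Semisimple

private theorem finrank_map_smul_eq {F V : Type*} [Field F] [AddCommGroup V] [Module F V]
    {t : ℕ} {f : Module.End F V} {D : Fin t → Submodule F V} {σ : Equiv.Perm (Fin t)} {w : F}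
    (hw : w ≠ 0) (h : ∀ j, (D j).map (w⁻¹ • f) = D (σ j)) (j : Fin t) : (D j).map f = D (σ j) := by
  rw [← h j, Submodule.map_smul _ _ _ (inv_ne_zero hw)]


/-- Elements of odd prime order of PSL_n(q) and imprimitive subgroups. Here `T = PSL_n(F)` for a field `F` with `q = p^f` elements (`n ≥ 2`, `(n, q) ≠ (2, 2), (2, 3)`), `n = a·t` with `t ≥ 2`, and Ω is the set of direct-sum decompositions of `F^n` into `t` subspaces of dimension `a` (unordered; their number is the number of ordered ones divided by `t!`), whose stabilizers are the imprimitive subgroups of type GL_a(q) ≀ S_t (maximal except in some small cases; maximality is not assumed); an element of `T` of prime order `r` (a matrix `x` of determinant 1 with `x^r` scalar, `x` not scalar) fixes a point of Ω when it permutes the summands of some such decomposition. Let `r ≠ p` be an odd prime dividing the number of such decompositions, let `c` be the multiplicative order of `q` modulo `r`, and write `k = n mod c`, `ℓ = a mod c`. Then every element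 of `T` of order `r` stabilizes such a decomposition if and only if either `a = 1`, `c = r − 1 > 1` and `n ≤ k·r`, or `c ≤ a` and `k = t·ℓ`. -/
theorem result {F : Type*} [Field F] [Fintype F] {p : ℕ} [Fact p.Prime] [CharP F p] {q : ℕ} (hq : Fintype.card F = q)
    (n a t : ℕ) (hn : 2 ≤ n) (hT : (n, q) ≠ (2, 2) ∧ (n, q) ≠ (2, 3)) (hat : n = a * t) (ha : 1 ≤ a) (ht : 2 ≤ t)
    (r : ℕ) [Fact r.Prime] (hr2 : r ≠ 2) (hrp : r ≠ p) (hΩ : r ∣ Nat.card {D : Fin t → Submodule F (Fin n → F) // Cfsg.Geo.IsMDecomposition a D} / Nat.factorial t)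
    (c : ℕ) (hc : c = orderOf (q : ZMod r)) :
    (∀ x : Matrix.SpecialLinearGroup (Fin n) F,
      (∃ z : F, ((x ^ r : Matrix.SpecialLinearGroup (Fin n) F) : Matrix (Fin n) (Fin n) F) = z • (1 : Matrix (Fin n) (Fin n) F)) →
      (∀ z : F, (x : Matrix (Fin n) (Fin n) F) ≠ z • (1 : Matrix (Fin n) (Fin n) F)) →
      ∃ D : Fin t → Submodule F (Fin n → F), Cfsg.Geo.IsMDecomposition a D ∧
        ∃ σ : Equiv.Perm (Fin t), ∀ j, (D j).map (Matrix.toLin' (x : Matrix (Fin n) (Fin n) F)) = D (σ j)) ↔
    ((a = 1 ∧ 1 < c ∧ c = r - 1 ∧ n ≤ (n % c) * r) ∨ (c ≤ a ∧ n % c = t * (a % c))) := by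
  subst hq
  have hrpr : r.Prime := Fact.out
  have hppr : p.Prime := Fact.out
  have hrF : (r : F) ≠ 0 := fun h =>
    hrp ((Nat.prime_dvd_prime_iff_eq hppr hrpr).1 ((CharP.cast_eq_zero_iff F p r).1 h)).symm
  have hrq : ¬ r ∣ Fintype.card F := fun h => by
    obtain ⟨k, -, hk⟩ := FiniteField.card F p
    rw [hk] at h
    exact hrp ((Nat.prime_dvd_prime_iff_eq hrpr hppr).1 (hrpr.dvd_of_dvd_pow h))
  subst hc
  set c := orderOf (Fintype.card F : ZMod r) with hc
  have hcpos : 0 < c := orderOf_card_pos hrF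
  have hcn : c ≤ n := by
    obtain ⟨j, hj0, hjn, hj⟩ := exists_dvd_of_dvd_card_decompositions hrpr hrq hat ha ht hΩ
    exact (Nat.le_of_dvd hj0 ((dvd_pow_sub_one_iff_orderOf_dvd j).1 hj)).trans hjn
  have : Nonempty (Fin n) := ⟨⟨0, by omega⟩⟩
  have hcle : c ≤ r - 1 := orderOf_card_le hrF
  have hdimV : finrank F (Fin n → F) = t * a := by
    rw [finrank_fintype_fun_eq_card, Fintype.card_fin, hat, mul_comm]
  constructor
  · intro h
    by_cases hc1 : c = 1
    · exact Or.inr ⟨by omega, by simp [hc1, Nat.mod_one]⟩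
    have key : ∀ l : ℕ, 0 < l → l * c ≤ n →
        ∃ (f : Module.End F (Fin n → F)) (D : Fin t → Submodule F (Fin n → F))
          (σ : Equiv.Perm (Fin t)), f ^ r = 1 ∧
          finrank F (LinearMap.ker (f - (1 : F) • 1)) = n - l * c ∧ σ ^ r = 1 ∧
          (∀ j, finrank F (D j) = a) ∧ iSupIndep D ∧ iSup D = ⊤ ∧
          (∀ j, (D j).map f = D (σ j)) ∧ (c + 1 < r → ∀ j, σ j = j) := by
      intro l hl0 hl
      obtain ⟨f, hf, hk, -, Q, hQ, hQd, hQf⟩ := exists_pow_eq_one_finrank_ker_aeval hrF hl
      have hdet : LinearMap.det f = 1 :=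
        eq_one_of_pow_eq_one (r := r) hc1 (by rw [← map_pow, hf, map_one])
      have hpos := Nat.mul_pos hl0 hcpos
      obtain ⟨x, hx, hxz, hxns⟩ := exists_sl_of_end hdet (z := 1) (by rw [hf, one_smul])
        (ne_smul_one_of_finrank_ker hf (by
          rw [hk, Fintype.card_fin]
          exact Nat.sub_lt (by omega) hpos)
          (fun b hb => eq_one_of_pow_eq_one hc1 hb))
      obtain ⟨D, hD, σ, hσ⟩ := h x ⟨1, hxz⟩ hxns
      rw [hx] at hσ
      have hinj := injective_of_iSupIndep hD.indep (by omega : 0 < a) hD.finrank_eq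
      have hσr : σ ^ r = 1 := perm_pow_eq_one hinj hσ one_ne_zero (by rw [hf, one_smul])
      refine ⟨f, D, σ, hf, hk, hσr, hD.finrank_eq, hD.indep, hD.iSup_eq_top, hσ, fun hcr j => ?_⟩
      refine fixes_of_aeval_eq_zero hD.indep (fun k hk => ?_) hσ hσr ?_ hQ (by omega) hQf j
      · have := hD.finrank_eq k
        rw [hk, finrank_bot] at this
        omega
      · refine Function.HasLeftInverse.injective ⟨(f ^ (r - 1) : Module.End F (Fin n → F)), fun v => ?_⟩
        rw [← Module.End.mul_apply, ← pow_succ, Nat.sub_add_cancel hrpr.pos, hf, Module.End.one_apply]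
    have hfixed : ∀ (f : Module.End F (Fin n → F)) (D : Fin t → Submodule F (Fin n → F))
          (σ : Equiv.Perm (Fin t)), f ^ r = 1 → (∀ j, finrank F (D j) = a) → iSupIndep D →
          (∀ j, (D j).map f = D (σ j)) → (∀ j, σ j = j) →
          t * (a % c) ≤ finrank F (LinearMap.ker (f - (1 : F) • 1)) := by
      intro f D σ hf hd hind hσ hfix
      set K := LinearMap.ker (f - (1 : F) • 1)
      have hs := isSemisimple_of_pow_eq_one hrF hf
      have hge : ∀ j, a % c ≤ finrank F ↥(D j ⊓ K) := by
        intro j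
        have hinv : (D j).map f ≤ D j := (hσ j).le.trans_eq (by rw [hfix j])
        have hRinv : (D j ⊓ LinearMap.range (f - (1 : F) • 1)).map f ≤
            D j ⊓ LinearMap.range (f - (1 : F) • 1) :=
          inf_map_le hinv (by
            have hX : f - (1 : F) • 1 = aeval f (X - 1 : F[X]) := by simp
            rw [hX]; exact range_map_le f _)
        obtain ⟨l, hl⟩ := ((pieces_of_pow_eq_one hrF hf).mono inf_le_right).dvd_finrank hs hcpos hRinv
        have h1 := finrank_eq_inf_ker_add_inf_range hs (1 : F) hinv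
        rw [hd, hl] at h1
        rw [h1, Nat.add_mul_mod_self_left]
        exact Nat.mod_le _ _
      have h2 := finrank_finset_sup_of_indep (hind.mono fun j => (inf_le_left : D j ⊓ K ≤ D j))
        Finset.univ
      have h3 := Finset.card_nsmul_le_sum Finset.univ (fun j => finrank F ↥(D j ⊓ K)) (a % c)
        fun j _ => hge j
      rw [Finset.card_univ, Fintype.card_fin, smul_eq_mul, ← h2] at h3
      exact h3.trans (Submodule.finrank_mono (Finset.sup_le fun j _ => inf_le_right))
    have hdm := Nat.div_add_mod n c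
    have hM : 0 < n / c := Nat.div_pos hcn hcpos
    rw [mul_comm] at hdm
    obtain ⟨f, D, σ, hf, hk, hσr, hd, hind, htop, hσ, hQ⟩ := key (n / c) hM (by omega)
    replace hk : finrank F (LinearMap.ker (f - (1 : F) • 1)) = n % c := by omega
    have hmod : n % c ≤ t * (a % c) := by
      rw [hat, Nat.mul_mod, mul_comm t]
      exact (Nat.mod_le _ _).trans (Nat.mul_le_mul_left _ (Nat.mod_le _ _))
    by_cases hfix : ∀ j, σ j = j
    · have h1 := hfixed f D σ hf hd hind hσ hfix
      rw [hk] at h1
      refine Or.inr ⟨?_, le_antisymm hmod h1⟩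
      by_contra hca
      rw [Nat.mod_eq_of_lt (not_le.1 hca), mul_comm, ← hat] at h1
      have := Nat.mod_lt n hcpos
      omega
    push Not at hfix
    obtain ⟨k0, hk0⟩ := hfix
    have hcr : c = r - 1 := by
      by_contra hne
      exact hk0 (hQ (by omega) k0)
    have hlt := Nat.mod_lt n hcpos
    have hak : a ≤ n % c := by
      rw [← hk, ← hd k0]
      refine (finrank_le_range_orbit_sum hind hσ hσr hk0).trans (Submodule.finrank_mono ?_)
      rintro _ ⟨v, rfl⟩
      have h1 := mul_geom_sum f r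
      rw [hf, sub_self, sub_mul, one_mul] at h1
      simpa using LinearMap.congr_fun h1 v
    rcases Nat.lt_or_ge a 2 with ha2 | ha2
    · obtain rfl : a = 1 := by omega
      refine Or.inl ⟨rfl, by omega, hcr, ?_⟩
      have h1 := card_orbitReps_le_finrank_ker hind hd hσ hσr hf hrF
        fun b hb => eq_one_of_pow_eq_one hc1 hb
      rw [hk] at h1
      have h2 := le_mul_card_orbitReps hrpr.pos hσr
      rw [one_mul] at hat
      rw [hat] at h1 ⊢
      rw [mul_comm (t % c) r]
      exact h2.trans (Nat.mul_le_mul_left r h1)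
    · exfalso
      obtain ⟨g, E, τ, hg, hgk, hτr, hE, hEind, hEtop, hτ, -⟩ := key 1 one_pos (by omega)
      rw [one_mul] at hgk
      by_cases hτfix : ∀ j, τ j = j
      · have h1 := hfixed g E τ hg hE hEind hτ hτfix
        rw [Nat.mod_eq_of_lt (show a < c by omega), mul_comm, ← hat, hgk] at h1
        omega
      push Not at hτfix
      obtain ⟨k1, hk1⟩ := hτfix
      have h1 := finrank_ker_le_orbitReps hEind hEtop hE hτ hrpr.pos hτr
      have h2 := add_orbitReps_card_le_of_moved hτr hk1
      have h3 := Nat.mul_le_mul_left a h2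
      rw [Nat.mul_add, ← hat, ← hcr] at h3
      have h4 := Nat.mul_le_mul_right c ha2
      omega
  · intro hRHS x ⟨z, hz⟩ hns
    have hz0 := scalar_ne_zero hz
    set f : Module.End F (Fin n → F) := Matrix.toLin' (x : Matrix (Fin n) (Fin n) F) with hfdef
    have hfr : f ^ r = z • 1 := toLin'_pow_eq_smul hz
    suffices h : ∃ (D : Fin t → Submodule F (Fin n → F)) (σ : Equiv.Perm (Fin t)),
        (∀ j, finrank F (D j) = a) ∧ iSupIndep D ∧ iSup D = ⊤ ∧ ∀ j, (D j).map f = D (σ j) by
      obtain ⟨D, σ, h1, h2, h3, h4⟩ := h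
      exact ⟨D, ⟨ht, by omega, h1, h2, h3⟩, σ, h4⟩
    by_cases hpow : ∃ w : F, w ^ r = z
    swap
    · push Not at hpow
      exact exists_decomposition_of_nonpower hpow hfr hdimV
    obtain ⟨w, hw⟩ := hpow
    have hw0 : w ≠ 0 := by
      rintro rfl
      exact hz0 (by rw [← hw, zero_pow hrpr.ne_zero])
    have hy := smul_pow_eq_one hw hz0 hfr
    set y := w⁻¹ • f with hydef
    suffices h : ∃ (D : Fin t → Submodule F (Fin n → F)) (σ : Equiv.Perm (Fin t)),
        (∀ j, finrank F (D j) = a) ∧ iSupIndep D ∧ iSup D = ⊤ ∧ ∀ j, (D j).map y = D (σ j) by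
      obtain ⟨D, σ, h1, h2, h3, h4⟩ := h
      exact ⟨D, σ, h1, h2, h3, finrank_map_smul_eq hw0 h4⟩
    have hs := isSemisimple_of_pow_eq_one hrF hy
    have hcompl := isCompl_ker_range hs (1 : F)
    have hsum := Submodule.finrank_add_eq_of_isCompl hcompl
    obtain ⟨m, hm⟩ := orderOf_dvd_finrank_range hrF hy
    rw [hm, ← hc, finrank_fintype_fun_eq_card, Fintype.card_fin] at hsum
    have hkmod : n % c ≤ finrank F (LinearMap.ker (y - (1 : F) • 1)) := by
      conv_lhs => rw [← hsum]
      rw [Nat.add_mul_mod_self_left]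
      exact Nat.mod_le _ _
    rcases hRHS with ⟨ha1, hc1, hcr, hnk⟩ | ⟨hca, hk⟩
    · subst ha1
      obtain ⟨D, σ, hD⟩ := exists_lines_of_orderOf_eq hrF hcr hy (by
        rw [finrank_fintype_fun_eq_card, Fintype.card_fin]
        exact hnk.trans (by rw [mul_comm (n % c)]; exact Nat.mul_le_mul_left r hkmod))
      obtain ⟨hD1, hD2, hD3, hD4⟩ := hD
      let e : Fin t ≃ Fin (finrank F (Fin n → F)) := finCongr (by rw [hdimV, mul_one])
      exact ⟨D ∘ e, (e.trans σ).trans e.symm, fun j => hD1 _, hD2.comp e.injective,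
        (e.iSup_comp (g := D)).trans hD3, fun j => by simp [hD4]⟩
    · obtain ⟨D, hd, hinv, hle⟩ := exists_invariant_decomposition hs hcpos
        (pieces_of_pow_eq_one hrF hy) (a := a) (T := t) _ _ le_rfl le_rfl
        (by
          have hX : y - (1 : F) • 1 = aeval y (X - 1 : F[X]) := by simp
          rw [hX]; exact range_map_le y _)
        (by rw [Submodule.finrank_add_eq_of_isCompl hcompl, hdimV]) (hk ▸ hkmod)
      rw [hcompl.sup_eq_top, top_le_iff] at hle
      refine ⟨D, 1, hd, iSupIndep_of_finrank_eq hd hle hdimV, hle, fun j => ?_⟩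
      refine Submodule.eq_of_le_of_finrank_eq (hinv j) ?_
      refine LinearEquiv.finrank_eq (Submodule.equivMapOfInjective _ ?_ _).symm
      refine Function.HasLeftInverse.injective ⟨(y ^ (r - 1) : Module.End F (Fin n → F)), fun v => ?_⟩
      rw [← Module.End.mul_apply, ← pow_succ, Nat.sub_add_cancel hrpr.pos, hy, Module.End.one_apply]

end Cfsg.Agent.S5958
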