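import Cfsg.Statements.S5959
import Cfsg.Agent.Eq.Def_GeometricClasses
import Cfsg.Agent.Classical.Semisimple.Unipotent
import Cfsg.Agent.Classical.Semisimple.Bridge
import Cfsg.Agent.Classical.Semisimple.Imprimitive

set_option autoImplicit false
open scoped MatrixGroups
open Cfsg

namespace Cfsg.Agent.S5959

open CfsgLib.Classical.Semisimple in
/-- Elements of order `p` of PSL_n(q) and imprimitive subgroups: a necessary condition. Here `T = PSL_n(F)` for a field `F` with `q = p^f` elements (`n ≥ 2`, `(n, q) ≠ (2, 2), (2, 3)`), `n = a·t` with `t ≥ 2`, and Ω is the set of direct-sum decompositions of `F^n` into `t` subspaces of dimension `a` (unordered; their number is the number of ordered ones divided by `t!`), whose stabilizers are the imprimitive subgroups of type GL_a(q) ≀ S_t (maximal except in some small cases; maximality is not assumed); an element of `T` of prime order `r` (a matrix `x` of determinant 1 with `x^r` scalar, `x` not scalar) fixes a point of Ω when it permutes the summands of some such decomposition. Suppose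 `p > 2` divides the number of such decompositions. If every element of `T` of order `p` stabilizes such a decomposition, then every partition of `n` into parts of size at most `p` in which the part `p` occurs fewer than `a` times contains (as a sub-multiset) a partition of `a`. -/
theorem result {F : Type*} [Field F] [Fintype F] {p : ℕ} [Fact p.Prime] [CharP F p] {q : ℕ} (hq : Fintype.card F = q)
    (n a t : ℕ) (hn : 2 ≤ n) (hT : (n, q) ≠ (2, 2) ∧ (n, q) ≠ (2, 3)) (hat : n = a * t) (ha : 1 ≤ a) (ht : 2 ≤ t)
    (hp : 2 < p) (hΩ : p ∣ Nat.card {D : Fin t → Submodule F (Fin n → F) // Cfsg.Geo.IsMDecomposition a D} / Nat.factorial t)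
    (h : ∀ x : Matrix.SpecialLinearGroup (Fin n) F,
      (∃ z : F, ((x ^ p : Matrix.SpecialLinearGroup (Fin n) F) : Matrix (Fin n) (Fin n) F) = z • (1 : Matrix (Fin n) (Fin n) F)) →
      (∀ z : F, (x : Matrix (Fin n) (Fin n) F) ≠ z • (1 : Matrix (Fin n) (Fin n) F)) →
      ∃ D : Fin t → Submodule F (Fin n → F), Cfsg.Geo.IsMDecomposition a D ∧
        ∃ σ : Equiv.Perm (Fin t), ∀ j, (D j).map (Matrix.toLin' (x : Matrix (Fin n) (Fin n) F)) = D (σ j)) :
    (∀ μ : Multiset ℕ, (∀ b ∈ μ, 0 < b ∧ b ≤ p) → μ.sum = n → μ.count p < a → ∃ ν : Multiset ℕ, ν ≤ μ ∧ ν.sum = a) := by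
  intro μ hμ hsum hcount
  have : Nonempty (Fin n) := ⟨⟨0, by omega⟩⟩
  have hpp : p.Prime := Fact.out
  by_cases hbig : ∀ b ∈ μ, b ≤ 1
  · have hone : μ = Multiset.replicate (Multiset.card μ) 1 :=
      Multiset.eq_replicate_card.mpr fun b hb => le_antisymm (hbig b hb) (hμ b hb).1
    have hcard : Multiset.card μ = n := by
      rw [hone, Multiset.sum_replicate, smul_eq_mul, mul_one] at hsum; exact hsum
    refine ⟨Multiset.replicate a 1, ?_, by simp⟩
    rw [hone]
    exact (Multiset.replicate_le_replicate 1).mpr (by rw [hcard, hat]; exact Nat.le_mul_of_pos_right a (by omega))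
  push Not at hbig
  have : CharP (Module.End F (Fin n → F)) p :=
    charP_of_injective_algebraMap (FaithfulSMul.algebraMap_injective F _) p
  obtain ⟨N, hN, hNp⟩ : ∃ N : Module.End F (Fin n → F), HasType N μ ∧ N ^ p = 0 := by
    subst hsum
    obtain ⟨N, hN, hNp⟩ := exists_end_hasType (F := F) μ (fun b hb => (hμ b hb).1)
    exact ⟨N, hN, hNp p fun b hb => (hμ b hb).2⟩
  have hpow : (1 + N) ^ p = 1 := by
    rw [add_pow_char_of_commute p (Commute.one_left N), one_pow, hNp, add_zero]
  have hdet : LinearMap.det (1 + N) = 1 :=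
    frobenius_inj F p (by rw [frobenius_def, frobenius_def, ← map_pow, hpow, map_one, one_pow])
  have hns : ∀ c : F, 1 + N ≠ c • 1 := by
    intro c hc
    have hc1 : c ^ p = 1 := by
      rw [hc, _root_.smul_pow, one_pow] at hpow
      obtain ⟨j⟩ := ‹Nonempty (Fin n)›
      simpa using congrFun (LinearMap.congr_fun hpow (Pi.single j 1)) j
    have h1 : c = 1 := frobenius_inj F p (by rw [frobenius_def, frobenius_def, hc1, one_pow])
    rw [h1, one_smul, add_eq_left] at hc
    obtain ⟨b, hb, hb1⟩ := hbig
    have := parts_le_of_pow_eq_zero (p := 1) hN (by rw [hc, pow_one]) b hb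
    omega
  obtain ⟨x, hx, hxz, hxns⟩ := exists_sl_of_end hdet (z := 1) (by rw [hpow, one_smul]) hns
  obtain ⟨D, hD, σ, hσ⟩ := h x ⟨1, hxz⟩ hxns
  rw [hx] at hσ
  have hinj := injective_of_iSupIndep hD.indep (by omega : 0 < a) hD.finrank_eq
  have hσp : σ ^ p = 1 := perm_pow_eq_one hinj hσ one_ne_zero (by rw [hpow, one_smul])
  by_cases hfix : ∃ j, σ j = j
  · obtain ⟨j, hj⟩ := hfix
    have h1 : (D j).map N ≤ D j := map_le_of_forall_mem fun v hv => by
      have := (D j).sub_mem (show (1 + N) v ∈ D j from
        (hσ j).trans (congrArg D hj) ▸ Submodule.mem_map_of_mem hv) hv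
      simpa using this
    have h2 : (⨆ (k) (_ : k ≠ j), D k).map N ≤ ⨆ (k) (_ : k ≠ j), D k :=
      map_le_of_forall_mem fun v hv => by
        have := Submodule.sub_mem _ (mem_of_map_le (map_iSup_ne_le hσ hj) hv) hv
        simpa using this
    obtain ⟨ν, hν, hνs⟩ := hN.exists_le_of_isCompl ⟨p, hNp⟩ (isCompl_fixed hD.indep hD.iSup_eq_top j) h1 h2
    exact ⟨ν, hν, hνs.trans (hD.finrank_eq j)⟩
  · exfalso
    push Not at hfix
    obtain ⟨j⟩ : Nonempty (Fin t) := ⟨⟨0, by omega⟩⟩
    have h1 := finrank_le_range_orbit_sum hD.indep hσ hσp (hfix j)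
    have hgeo : ∑ i ∈ Finset.range p, (1 + N) ^ i = N ^ (p - 1) := by
      have hpoly : ∑ i ∈ Finset.range p, (Polynomial.X : Polynomial F) ^ i =
          (Polynomial.X - 1) ^ (p - 1) := by
        have hne : (Polynomial.X - 1 : Polynomial F) ≠ 0 := by
          rw [← Polynomial.C_1]; exact Polynomial.X_sub_C_ne_zero 1
        refine mul_right_cancel₀ hne ?_
        rw [geom_sum_mul, ← pow_succ, Nat.sub_add_cancel hpp.pos, sub_pow_char, one_pow]
      have := congrArg (Polynomial.aeval (1 + N)) hpoly
      simpa using this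
    rw [hgeo, hN.2, hD.finrank_eq] at h1
    have h2 : (μ.map fun b => b - (p - 1)).sum = μ.count p := by
      clear h1 hcount hsum hbig hN
      induction μ using Multiset.induction_on with
      | empty => simp
      | cons b μ ih =>
        rw [Multiset.map_cons, Multiset.sum_cons, Multiset.count_cons,
          ih fun c hc => hμ c (Multiset.mem_cons_of_mem hc)]
        have := hμ b (Multiset.mem_cons_self _ _)
        split_ifs <;> omega
    omega

end Cfsg.Agent.S5959
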