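import Cfsg.Statements.S5960
import Cfsg.Agent.Eq.Def_ClassicalGeometry
import Cfsg.Agent.Eq.Def_GeometricClasses
import Cfsg.Agent.Classical.Semisimple.SympInvolutionDecomp
-- import your own Cfsg.Agent.* helpers here

set_option autoImplicit false
open scoped MatrixGroups
open Cfsg

namespace Cfsg.Agent.S5960

open Matrix CfsgLib.Classical.Symp CfsgLib.Classical.Semisimple.SympDecomp

/-- Involutions of PSp_n(q) and imprimitive subgroups. Here `T = PSp_n(q)`, `n = 2d ≥ 4`, `(n, q) ≠ (4, 2)`, realised through the symplectic matrices over the field `F` with `q` elements and the standard alternating form; `n = a·t` with `a` even and `t ≥ 2`, and Ω is the (nonempty) set of orthogonal decompositions of `F^n` into `t` nondegenerate subspaces of dimension `a` (unordered; counted as ordered ones divided by `t!`), whose stabilizers are the imprimitive subgroups of type Sp_a(q) ≀ S_t (maximality is not assumed); an element of `T` of prime order `r` (a symplectic matrix `x` with `x^r` scalar, `x` not scalar) fixes a point of Ω when it permutes the summands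 of some such decomposition. If the number of such decompositions is even, then every involution of `T` stabilizes one of them (the action is 2-elusive). -/
theorem result {F : Type*} [Field F] [Fintype F] {p : ℕ} [Fact p.Prime] [CharP F p] {q : ℕ} (hq : Fintype.card F = q)
    (d : ℕ) (hd : 2 ≤ d) (hT : (d, q) ≠ (2, 2))
    (a t : ℕ) (hat : 2 * d = a * t) (ha : 2 ≤ a) (hae : Even a) (ht : 2 ≤ t) (hΩ : 2 ∣ Nat.card {D : Fin t → Submodule F (Fin d ⊕ Fin d → F) // (Cfsg.Geo.IsMDecomposition a D ∧ (∀ j, ∀ u ∈ D j, u ≠ 0 → ∃ v ∈ D j, Cfsg.sympForm d F u v ≠ 0) ∧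
          (∀ j j', j ≠ j' → ∀ u ∈ D j, ∀ v ∈ D j', Cfsg.sympForm d F u v = 0))} / Nat.factorial t)
    (x : ↥(Matrix.symplecticGroup (Fin d) F))
    (hx1 : ∃ z : F, ((x ^ 2 : ↥(Matrix.symplecticGroup (Fin d) F)) : Matrix (Fin d ⊕ Fin d) (Fin d ⊕ Fin d) F) = z • (1 : Matrix (Fin d ⊕ Fin d) (Fin d ⊕ Fin d) F))
    (hx2 : ∀ z : F, (x : Matrix (Fin d ⊕ Fin d) (Fin d ⊕ Fin d) F) ≠ z • (1 : Matrix (Fin d ⊕ Fin d) (Fin d ⊕ Fin d) F)) :
    ∃ D : Fin t → Submodule F (Fin d ⊕ Fin d → F), (Cfsg.Geo.IsMDecomposition a D ∧ (∀ j, ∀ u ∈ D j, u ≠ 0 → ∃ v ∈ D j, Cfsg.sympForm d F u v ≠ 0) ∧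
          (∀ j j', j ≠ j' → ∀ u ∈ D j, ∀ v ∈ D j', Cfsg.sympForm d F u v = 0)) ∧
        ∃ σ : Equiv.Perm (Fin t), ∀ j, (D j).map (Matrix.toLin' (x : Matrix (Fin d ⊕ Fin d) (Fin d ⊕ Fin d) F)) = D (σ j) := by
  classical
  subst hq
  obtain ⟨z, hz⟩ := hx1
  obtain ⟨b, rfl⟩ := hae
  rw [← two_mul] at *
  have hdb : d = t * b := by
    have : 2 * d = 2 * (t * b) := by rw [hat]; ring
    omega
  have hb : 0 < b := by omega
  let e : Fin d ≃ Fin t × Fin b := (finCongr hdb).trans finProdFinEquiv.symm
  let f : Fin d → Fin t := fun j => (e j).1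
  have hf : ∀ u, Fintype.card {j // f j = u} = b := fun u => by
    rw [Fintype.card_congr ((e.subtypeEquiv (q := fun z : Fin t × Fin b => z.1 = u) fun j => Iff.rfl).trans
      { toFun := fun z => z.1.2, invFun := fun i => ⟨(u, i), rfl⟩,
        left_inv := fun ⟨⟨a, i⟩, (h : a = u)⟩ => by subst h; rfl, right_inv := fun i => rfl } : _ ≃ Fin b),
      Fintype.card_fin]
  have hxx : ∀ v, (x : Matrix (Fin d ⊕ Fin d) (Fin d ⊕ Fin d) F) *ᵥ
      ((x : Matrix (Fin d ⊕ Fin d) (Fin d ⊕ Fin d) F) *ᵥ v) = z • v := by
    intro v
    rw [mulVec_mulVec, ← Submonoid.coe_mul, ← sq, hz, smul_mulVec, one_mulVec]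
  have hz1 : z = 1 ∨ z = -1 := by
    have h1 := form_mulVec (x * x) (stdE (⟨0, by omega⟩ : Fin d)) (stdF ⟨0, by omega⟩)
    rw [mul_mulVec, mul_mulVec, hxx, hxx, form_smul_left, form_smul_right, form_stdE_stdF, if_pos rfl] at h1
    exact mul_self_eq_one_iff.1 (by linear_combination h1)
  have hx2' : z = 1 → x * x = 1 := fun h => symp_ext fun v => by
    rw [mul_mulVec, hxx, h, one_smul, Submonoid.coe_one, one_mulVec]
  by_cases h2 : (2 : F) = 0
  · have hzz : z = 1 := hz1.elim id fun h => by
      rw [h, neg_eq_iff_add_eq_zero, one_add_one_eq_two, h2]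
    have ha1 := hx2' hzz
    haveI : CharP F 2 := CharTwo.of_one_ne_zero_of_two_eq_zero one_ne_zero h2
    rcases CfsgLib.Classical.SympCharTwo.exists_normalFamily ha1 with ⟨-, k, -, v, hv⟩ | ⟨-, v, hv⟩
    · have hk : 2 * k ≤ t * b := by
        have := (hv.li ha1).fintype_card_le_finrank
        simp [Module.finrank_pi] at this
        omega
      obtain ⟨τ', ρ, hinv, hfst, hcard⟩ := swappable_fin b t k hk
      let τ : Equiv.Perm (Fin d) := e.symm.permCongr τ'
      have hττ : ∀ j, τ (τ j) = j := fun j => by simp [τ, Equiv.permCongr_apply, hinv]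
      have hmoved : Fintype.card {j // τ j ≠ j} = 2 * k := by
        rw [← hcard, Nat.card_eq_fintype_card]
        exact Fintype.card_congr (e.subtypeEquiv fun j => by
          simp [τ, Equiv.permCongr_apply, Equiv.symm_apply_eq])
      have hS : Fintype.card {j // j < τ j} = k := by
        have h1 : Fintype.card {j // τ j ≠ j} = Fintype.card {j // j < τ j} + Fintype.card {j // τ j < j} := by
          rw [← Fintype.card_sum]
          refine Fintype.card_congr ((Equiv.subtypeEquivRight fun j => ?_).trans
            (subtypeOrEquiv (fun j => j < τ j) (fun j => τ j < j) ?_))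
          · rw [ne_comm]; exact ne_iff_lt_or_gt
          · rw [Pi.disjoint_iff]
            intro j; simp only [Prop.disjoint_iff]; by_contra hc
            exact lt_asymm hc.1 hc.2
        have h3 : Fintype.card {j // τ j < j} = Fintype.card {j // j < τ j} :=
          Fintype.card_congr (τ.subtypeEquiv fun j => by rw [hττ])
        omega
      let r : Fin k ≃ {j // j < τ j} := (Fintype.equivFinOfCardEq hS).symm
      let g := permSp (F := F) τ
      have hg1 : g * g = 1 := symp_ext_std (fun j => by
          rw [mul_mulVec, permSp_stdE, permSp_stdE, hττ, Submonoid.coe_one, one_mulVec])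
        (fun j => by rw [mul_mulVec, permSp_stdF, permSp_stdF, hττ, Submonoid.coe_one, one_mulVec])
      have hrr : ∀ l l', (r l : Fin d) ≠ τ (r l') := fun l l' h => by
        have h1 := (r l).2
        have h2 := (r l').2
        rw [h, hττ] at h1
        exact lt_asymm h1 h2
      have hri : ∀ l l', ((r l : Fin d) = r l') ↔ l = l' := fun l l' =>
        ⟨fun h => r.injective (Subtype.ext h), fun h => h ▸ rfl⟩
      let w : Fin k ⊕ Fin k → (Fin d ⊕ Fin d → F) :=
        Sum.elim (fun l => stdE (r l : Fin d)) (fun l => stdF (τ (r l : Fin d)))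
      have hde : ∀ j, CfsgLib.Classical.SympCharTwo.disp g (stdE j) = stdE (τ j) + stdE j := fun j => by
        rw [CfsgLib.Classical.SympCharTwo.disp_apply, permSp_stdE]
      have hdf : ∀ j, CfsgLib.Classical.SympCharTwo.disp g (stdF j) = stdF (τ j) + stdF j := fun j => by
        rw [CfsgLib.Classical.SympCharTwo.disp_apply, permSp_stdF]
      have hne : ∀ l, (r l : Fin d) ≠ τ (r l) := fun l => hrr l l
      have hfam : CfsgLib.Classical.SympCharTwo.NormalFamily g (Equiv.sumComm (Fin k) (Fin k)) w := by
        refine ⟨?_, ?_, ?_⟩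
        · rintro (i | i) (j | j)
          · simp [w, form_stdE_stdE]
          · simp [w, form_stdE_stdF, hrr i j]
          · simp [w, form_stdF_stdE, (hrr j i).symm]
          · simp [w, form_stdF_stdF]
        · rintro (i | i) (j | j)
          · simp [w, hde, form_add_right, form_stdE_stdE]
          · simp [w, hdf, hττ, form_add_right, form_stdE_stdF, hrr i j, hri, eq_comm]
          · simp [w, hde, form_add_right, form_stdF_stdE, (hrr j i).symm, τ.injective.eq_iff, hri,
              CharTwo.neg_eq, eq_comm]
          · simp [w, hdf, form_add_right, form_stdF_stdF]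
        · rw [LinearMap.range_eq_map, ← (Pi.basisFun F (Fin d ⊕ Fin d)).span_eq, Submodule.map_span,
            Submodule.span_le]
          rintro _ ⟨_, ⟨i, rfl⟩, rfl⟩
          rw [Pi.basisFun_apply]
          have hmem : ∀ c, CfsgLib.Classical.SympCharTwo.disp g (w c) ∈
              Submodule.span F (Set.range fun c => CfsgLib.Classical.SympCharTwo.disp g (w c)) :=
            fun c => Submodule.subset_span ⟨c, rfl⟩
          rcases i with j | j
          · show CfsgLib.Classical.SympCharTwo.disp g (stdF j) ∈ _
            rcases lt_trichotomy j (τ j) with hlt | heq | hgt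
            · have h := hmem (Sum.inr (r.symm ⟨j, hlt⟩))
              simpa [w, hdf, hττ, add_comm] using h
            · rw [hdf, ← heq]
              have : stdF (F := F) j + stdF j = 0 := funext fun i => CharTwo.add_self_eq_zero _
              rw [this]; exact zero_mem _
            · have h := hmem (Sum.inr (r.symm ⟨τ j, by rw [hττ]; exact hgt⟩))
              simpa [w, hdf, hττ, add_comm] using h
          · show CfsgLib.Classical.SympCharTwo.disp g (stdE j) ∈ _
            rcases lt_trichotomy j (τ j) with hlt | heq | hgt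
            · have h := hmem (Sum.inl (r.symm ⟨j, hlt⟩))
              simpa [w, hde, hττ, add_comm] using h
            · rw [hde, ← heq]
              have : stdE (F := F) j + stdE j = 0 := funext fun i => CharTwo.add_self_eq_zero _
              rw [this]; exact zero_mem _
            · have h := hmem (Sum.inl (r.symm ⟨τ j, by rw [hττ]; exact hgt⟩))
              simpa [w, hde, hττ, add_comm] using h
      refine exists_of_conj ht hb hf
        (CfsgLib.Classical.SympCharTwo.isConj_of_normalFamily ha1 hg1 hv hfam).symm ρ fun i k hik => ?_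
      have hfτ : ∀ j, f (τ j) = ρ (f j) := fun j => by simp [f, τ, Equiv.permCongr_apply, hfst]
      have h := congrFun (permSp_mulVec (F := F) τ (Pi.single i 1)) k
      rw [mulVec_single_one, Matrix.col_apply] at h
      rw [h, Pi.single_apply, if_neg]
      rintro rfl
      refine hik ?_
      rcases k with k | k <;>
        simp only [Sum.map_inl, Sum.map_inr, Sum.elim_inl, Sum.elim_inr, ← hfτ, Equiv.apply_symm_apply]
    · set s := Module.finrank F (LinearMap.range (CfsgLib.Classical.SympCharTwo.disp x))
      have hs : s ≤ d := by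
        have := (hv.li ha1).fintype_card_le_finrank
        simp [Module.finrank_pi] at this
        omega
      let S : Matrix (Fin d) (Fin d) F := diagonal fun j => if (j : ℕ) < s then 1 else 0
      let g : ↥(Matrix.symplecticGroup (Fin d) F) := ⟨fromBlocks 1 S 0 1, by
        rw [SymplecticGroup.mem_iff, J, fromBlocks_transpose, fromBlocks_multiply, fromBlocks_multiply]
        simp [S]⟩
      have hgm : ∀ u, (g : Matrix (Fin d ⊕ Fin d) (Fin d ⊕ Fin d) F) *ᵥ u =
          fun i => Sum.elim (fun j => u (Sum.inl j) + (if (j : ℕ) < s then 1 else 0) * u (Sum.inr j))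
            (fun j => u (Sum.inr j)) i := by
        intro u; funext i
        show (fromBlocks 1 S 0 1 *ᵥ u) i = _
        rw [fromBlocks_mulVec]
        rcases i with j | j <;> simp [S, mulVec_diagonal]
      have hdg : ∀ u, CfsgLib.Classical.SympCharTwo.disp g u =
          ∑ j : Fin d, ((if (j : ℕ) < s then 1 else 0) * u (Sum.inr j)) • stdF j := by
        intro u
        rw [CfsgLib.Classical.SympCharTwo.disp_apply, hgm]
        funext i
        rcases i with j | j
        · rw [Finset.sum_apply, Finset.sum_eq_single j (fun c _ hc => ?_) (fun h => absurd (Finset.mem_univ j) h)]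
          · simp [stdF, add_right_comm, CharTwo.add_self_eq_zero]
          · simp [stdF, hc.symm]
        · rw [Finset.sum_apply, Finset.sum_eq_zero fun c _ => ?_]
          · simp [CharTwo.add_self_eq_zero]
          · simp [stdF]
      have hg1 : g * g = 1 := symp_ext fun u => by
        rw [mul_mulVec, hgm, hgm, Submonoid.coe_one, one_mulVec]
        funext i
        rcases i with j | j <;> simp [add_assoc, CharTwo.add_self_eq_zero]
      let w : Fin s → (Fin d ⊕ Fin d → F) := fun l => stdE (Fin.castLE hs l)
      have hdw : ∀ l, CfsgLib.Classical.SympCharTwo.disp g (w l) = stdF (Fin.castLE hs l) := fun l => by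
        rw [hdg, Finset.sum_eq_single (Fin.castLE hs l)]
        · simp [w, stdE]
        · intro j _ hj
          simp [w, stdE, hj]
        · exact fun h => absurd (Finset.mem_univ _) h
      have hfam : CfsgLib.Classical.SympCharTwo.NormalFamily g (Equiv.refl (Fin s)) w := by
        refine ⟨fun i j => ?_, fun i j => ?_, ?_⟩
        · simp [w, form_stdE_stdE]
        · rw [hdw]; simp [w, form_stdE_stdF, (Fin.castLE_injective hs).eq_iff, eq_comm]
        · rintro _ ⟨u, rfl⟩
          rw [hdg]
          refine Submodule.sum_mem _ fun j _ => ?_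
          by_cases hj : (j : ℕ) < s
          · exact Submodule.smul_mem _ _ (Submodule.subset_span ⟨⟨j, hj⟩, by simp [hdw]⟩)
          · simp [hj]
      refine exists_of_conj ht hb hf
        (CfsgLib.Classical.SympCharTwo.isConj_of_normalFamily ha1 hg1 hv hfam).symm 1 fun i k hik => ?_
      show fromBlocks 1 S 0 1 k i = 0
      rcases i with i | i <;> rcases k with k | k <;> simp_all [S, one_apply, diagonal_apply] <;>
        (rintro rfl; exact absurd rfl hik)
  · have hF : ∀ v : Fin d ⊕ Fin d → F, -v = (-1 : F) • v := fun v => (neg_one_smul F v).symm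
    rcases hz1 with hz1 | hz1
    · obtain ⟨h, s, hs⟩ := exists_signPattern h2 (hx2' hz1)
      refine exists_of_conj ht hb hf (g := h * x * h⁻¹) (isConj_iff.2 ⟨h⁻¹, by group⟩) 1 fun i k hik => ?_
      have hne : k ≠ i := by rintro rfl; exact hik rfl
      rcases i with j | j
      · have h' := congrFun (hs j).2 k
        rw [stdF, mulVec_single_one, Matrix.col_apply] at h'
        rw [h']; simp [hne]
      · have h' := congrFun (hs j).1 k
        rw [stdE, mulVec_single_one, Matrix.col_apply] at h'
        rw [h']; simp [hne]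
    · let g : ↥(Matrix.symplecticGroup (Fin d) F) := ⟨J (Fin d) F, SymplecticGroup.J_mem _ _⟩
      have hgg : ((g * g : ↥(Matrix.symplecticGroup (Fin d) F)) : Matrix (Fin d ⊕ Fin d) (Fin d ⊕ Fin d) F) = -1 :=
        J_squared _ _
      have hxm : ((x * x : ↥(Matrix.symplecticGroup (Fin d) F)) : Matrix (Fin d ⊕ Fin d) (Fin d ⊕ Fin d) F) = -1 := by
        rw [← sq, hz, hz1, neg_one_smul]
      refine exists_of_conj ht hb hf (isConj_of_sq_eq_neg_one h2 hgg hxm) 1 fun i k hik => ?_
      show J (Fin d) F k i = 0
      rcases i with i | i <;> rcases k with k | k <;> simp [J, one_apply] <;>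
        (rintro rfl; exact hik rfl)

end Cfsg.Agent.S5960

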