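import Cfsg.Statements.S5961
import Cfsg.Agent.Eq.Def_ClassicalGeometry
import Cfsg.Agent.Eq.Def_GeometricClasses
import Cfsg.Agent.Classical.Semisimple.AltDecomp
import Cfsg.Agent.Classical.Semisimple.SympCounts
-- import your own Cfsg.Agent.* helpers here

set_option autoImplicit false
open scoped MatrixGroups
open Cfsg

namespace Cfsg.Agent.S5961

open Module Matrix CfsgLib.Classical.Symp CfsgLib.Classical.Semisimple CfsgLib.Classical.Semisimple.AltIsometry CfsgLib.Classical.Semisimple.SympModel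


private def Good {F : Type*} [Field F] {d t : ℕ} (a : ℕ) (D : Fin t → Submodule F (Fin d ⊕ Fin d → F)) : Prop :=
  Cfsg.Geo.IsMDecomposition a D ∧ (∀ j, ∀ u ∈ D j, u ≠ 0 → ∃ v ∈ D j, Cfsg.sympForm d F u v ≠ 0) ∧
    (∀ j j', j ≠ j' → ∀ u ∈ D j, ∀ v ∈ D j', Cfsg.sympForm d F u v = 0)

private theorem good_of_orth {F : Type*} [Field F] {d a t : ℕ} (hat : 2 * d = a * t) (ha : 0 < a) (ht : 2 ≤ t)
    {D : Fin t → Submodule F (Fin d ⊕ Fin d → F)} (hn : ∀ j, NondegIn (formB d F) (D j))
    (hd : ∀ j, finrank F (D j) = a) (ho : ∀ j j', j ≠ j' → D j' ≤ (formB d F).orthogonal (D j))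
    (htop : ⊤ ≤ iSup D) : Good a D :=
  ⟨⟨ht, ha, hd, iSupIndep_of_finrank_eq hd (top_le_iff.1 htop) (by rw [finrank_space, hat, mul_comm]),
    top_le_iff.1 htop⟩, fun j => nondegIn_iff.1 (hn j), fun j j' h u hu v hv => ho j j' h hv u hu⟩

private theorem good_map {F : Type*} [Field F] {d a t : ℕ} (g : Matrix.symplecticGroup (Fin d) F)
    {D : Fin t → Submodule F (Fin d ⊕ Fin d → F)} (h : Good a D) :
    Good a fun j => (D j).map (Matrix.toLin' (g : Matrix (Fin d ⊕ Fin d) (Fin d ⊕ Fin d) F)) := by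
  have hinj : Function.Injective (Matrix.toLin' (g : Matrix (Fin d ⊕ Fin d) (Fin d ⊕ Fin d) F)) :=
    fun u v e => mulVec_injective g (by simpa [Matrix.toLin'_apply] using e)
  obtain ⟨h1, h2, h3⟩ := h
  refine ⟨⟨h1.two_le, h1.pos, fun j => ?_, LinearMap.iSupIndep_map _ hinj h1.indep, ?_⟩, fun j => ?_, ?_⟩
  · rw [← (Submodule.equivMapOfInjective _ hinj _).finrank_eq, h1.finrank_eq]
  · rw [← Submodule.map_iSup, h1.iSup_eq_top, Submodule.map_top]
    exact LinearMap.range_eq_top.2 (LinearMap.injective_iff_surjective.1 hinj)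
  · rintro _ ⟨u, hu, rfl⟩ h0
    obtain ⟨v, hv, hv0⟩ := h2 j u hu fun e => h0 (by rw [e, map_zero])
    refine ⟨_, Submodule.mem_map_of_mem hv, ?_⟩
    rwa [Matrix.toLin'_apply, Matrix.toLin'_apply, form_mulVec]
  · rintro j j' hne _ ⟨u, hu, rfl⟩ _ ⟨v, hv, rfl⟩
    rw [Matrix.toLin'_apply, Matrix.toLin'_apply, form_mulVec]
    exact h3 j j' hne u hu v hv

private theorem good_comp {F : Type*} [Field F] {d a t : ℕ} (σ : Equiv.Perm (Fin t))
    {D : Fin t → Submodule F (Fin d ⊕ Fin d → F)} (h : Good a D) : Good a (D ∘ σ) :=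
  ⟨{ two_le := h.1.two_le
     pos := h.1.pos
     finrank_eq := fun j => h.1.finrank_eq _
     indep := h.1.indep.comp σ.injective
     iSup_eq_top := (σ.iSup_comp (g := D)).trans h.1.iSup_eq_top },
    fun j => h.2.1 _, fun j j' hne => h.2.2 _ _ fun e => hne (σ.injective e)⟩

/-- A prime dividing the number of decompositions divides the order of the group. -/
private theorem dvd_card_of_dvd {F : Type*} [Field F] [Fintype F] {d a t r : ℕ}
    (D0 : Fin t → Submodule F (Fin d ⊕ Fin d → F)) (h0 : Good a D0)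
    (h : r ∣ Nat.card {D : Fin t → Submodule F (Fin d ⊕ Fin d → F) // Good a D} / Nat.factorial t) :
    r ∣ Nat.card (Matrix.symplecticGroup (Fin d) F) := by
  have hfac : Nat.factorial t ∣ Nat.card {D : Fin t → Submodule F (Fin d ⊕ Fin d → F) // Good a D} :=
    factorial_dvd_card_tuples _ (fun D hD => injective_of_iSupIndep hD.1.indep hD.1.pos hD.1.finrank_eq)
      fun σ D => good_comp σ
  have hdvd := card_tuples_dvd (Good a) (D0 := D0) (fun D => ⟨fun hD => ?_, ?_⟩) ⊥ ?_
  · obtain ⟨k, hk⟩ := hfac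
    rw [hk, Nat.mul_div_cancel_left _ (Nat.factorial_pos t)] at h
    exact h.trans ((Dvd.intro_left _ hk.symm).trans ((dvd_mul_right _ _).trans hdvd))
  · exact exists_map_family D0 D (fun j => nondegIn_iff.2 (h0.2.1 j)) (fun j => nondegIn_iff.2 (hD.2.1 j))
      h0.2.2 hD.2.2 fun j => by rw [h0.1.finrank_eq, hD.1.finrank_eq]
  · rintro ⟨g, hg⟩
    rw [← funext hg]
    exact good_map g h0
  · intro g hg j
    rw [Subgroup.mem_bot.1 hg, Submonoid.coe_one, Matrix.toLin'_one, Submodule.map_id]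

/-- Elements of odd prime order of PSp_n(q) and imprimitive subgroups. Here `T = PSp_n(q)`, `n = 2d ≥ 4`, `(n, q) ≠ (4, 2)`, realised through the symplectic matrices over the field `F` with `q` elements and the standard alternating form; `n = a·t` with `a` even and `t ≥ 2`, and Ω is the (nonempty) set of orthogonal decompositions of `F^n` into `t` nondegenerate subspaces of dimension `a` (unordered; counted as ordered ones divided by `t!`), whose stabilizers are the imprimitive subgroups of type Sp_a(q) ≀ S_t (maximality is not assumed); an element of `T` of prime order `r` (a symplectic matrix `x` with `x^r` scalar, `x` not scalar) fixes a point of Ω when it permutes the summands of some such decomposition. Let `r ≠ p` be an odd prime dividing the number of such decompositions, let `i` be the multiplicative order of `q` modulo `r`, `c = i` if `i` is even and `c = 2i` if `i` is odd, and write `k = n mod c`, `ℓ = a mod c`. Then every element of `T` of order `r` stabilizes such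 a decomposition if and only if `c ≤ a` and `k = t·ℓ`. -/
theorem result {F : Type*} [Field F] [Fintype F] {p : ℕ} [Fact p.Prime] [CharP F p] {q : ℕ} (hq : Fintype.card F = q)
    (d : ℕ) (hd : 2 ≤ d) (hT : (d, q) ≠ (2, 2))
    (a t : ℕ) (hat : 2 * d = a * t) (ha : 2 ≤ a) (hae : Even a) (ht : 2 ≤ t)
    (r : ℕ) [Fact r.Prime] (hr2 : r ≠ 2) (hrp : r ≠ p) (hΩ : r ∣ Nat.card {D : Fin t → Submodule F (Fin d ⊕ Fin d → F) // (Cfsg.Geo.IsMDecomposition a D ∧ (∀ j, ∀ u ∈ D j, u ≠ 0 → ∃ v ∈ D j, Cfsg.sympForm d F u v ≠ 0) ∧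
          (∀ j j', j ≠ j' → ∀ u ∈ D j, ∀ v ∈ D j', Cfsg.sympForm d F u v = 0))} / Nat.factorial t)
    (i c : ℕ) (hi : i = orderOf (q : ZMod r)) (hc : c = if Even i then i else 2 * i) :
    (∀ x : ↥(Matrix.symplecticGroup (Fin d) F),
      (∃ z : F, ((x ^ r : ↥(Matrix.symplecticGroup (Fin d) F)) : Matrix (Fin d ⊕ Fin d) (Fin d ⊕ Fin d) F) = z • (1 : Matrix (Fin d ⊕ Fin d) (Fin d ⊕ Fin d) F)) →
      (∀ z : F, (x : Matrix (Fin d ⊕ Fin d) (Fin d ⊕ Fin d) F) ≠ z • (1 : Matrix (Fin d ⊕ Fin d) (Fin d ⊕ Fin d) F)) →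
      ∃ D : Fin t → Submodule F (Fin d ⊕ Fin d → F), (Cfsg.Geo.IsMDecomposition a D ∧ (∀ j, ∀ u ∈ D j, u ≠ 0 → ∃ v ∈ D j, Cfsg.sympForm d F u v ≠ 0) ∧
          (∀ j j', j ≠ j' → ∀ u ∈ D j, ∀ v ∈ D j', Cfsg.sympForm d F u v = 0)) ∧
        ∃ σ : Equiv.Perm (Fin t), ∀ j, (D j).map (Matrix.toLin' (x : Matrix (Fin d ⊕ Fin d) (Fin d ⊕ Fin d) F)) = D (σ j)) ↔
    (c ≤ a ∧ (2 * d) % c = t * (a % c)) := by
  classical
  subst hq hi
  have hrpr : r.Prime := Fact.out
  have hppr : p.Prime := Fact.out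
  have hrF : (r : F) ≠ 0 := fun h =>
    hrp ((Nat.prime_dvd_prime_iff_eq hppr hrpr).1 ((CharP.cast_eq_zero_iff F p r).1 h)).symm
  have hrq : ¬ r ∣ Fintype.card F := fun h => by
    obtain ⟨k, -, hk⟩ := FiniteField.card F p
    rw [hk] at h
    exact hrp ((Nat.prime_dvd_prime_iff_eq hrpr hppr).1 (hrpr.dvd_of_dvd_pow h))
  set i := orderOf (Fintype.card F : ZMod r) with hi
  have hipos : 0 < i := orderOf_card_pos hrF
  have : Nonempty (Fin d) := ⟨⟨0, by omega⟩⟩
  obtain ⟨u, hu⟩ := hrpr.odd_of_ne_two hr2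
  have hcpos : 0 < c := by rw [hc]; split_ifs <;> omega
  obtain ⟨h, hh⟩ : ∃ h, c = 2 * h := by
    rw [hc]; split_ifs with he
    · obtain ⟨b, hb⟩ := he; exact ⟨b, by omega⟩
    · exact ⟨i, rfl⟩
  constructor
  · intro hall
    -- a decomposition exists
    obtain ⟨D0, hD0, hD0o, hD0top⟩ := (setting (d := d) hr2 hrF (one_pow r)).exists_orth_decomp hae hc t 0 ⊤
      (setting (d := d) hr2 hrF (one_pow r)).nondeg_top le_top
      (by rw [finrank_top, finrank_space, hat])
      (by rw [top_inf_eq, moved, Submonoid.coe_one, Matrix.toLin'_one, one_smul, ← Module.End.one_eq_id, sub_self, LinearMap.range_zero, finrank_bot, Nat.mul_zero])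
      (Nat.zero_le _)
    have hgood : Good a D0 := good_of_orth hat (by omega) ht (fun j => (hD0 j).2.1) (fun j => (hD0 j).2.2.1)
      hD0o hD0top
    have hrSp := dvd_card_of_dvd D0 hgood hΩ
    rw [card_symplecticGroup] at hrSp
    have hcd : c ≤ 2 * d := by
      rcases (Nat.Prime.dvd_mul hrpr).1 hrSp with h1 | h1
      · exact absurd (hrpr.dvd_of_dvd_pow h1) hrq
      obtain ⟨j, hj, hjd⟩ := (Nat.Prime.prime hrpr).exists_mem_finset_dvd h1
      rw [Finset.mem_range] at hj
      have hij : i ∣ 2 * (j + 1) := (dvd_pow_sub_one_iff_orderOf_dvd _).1 hjd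
      have hcj : c ∣ 2 * (j + 1) := by
        rw [hc]; split_ifs with he
        · exact hij
        · exact Nat.mul_dvd_mul_left 2
            ((Nat.coprime_two_right.2 (Nat.not_even_iff_odd.1 he)).dvd_of_dvd_mul_left hij)
      have := Nat.le_of_dvd (by omega) hcj
      omega
    have hcr : c ≤ r - 1 := by
      have hir : i ∣ r - 1 :=
        orderOf_dvd_of_pow_eq_one (ZMod.pow_card_sub_one_eq_one (card_ne_zero_mod hrF))
      refine Nat.le_of_dvd (by have := hrpr.two_le; omega) ?_
      rw [hc]; split_ifs with he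
      · exact hir
      · exact (Nat.coprime_two_left.2 (Nat.not_even_iff_odd.1 he)).mul_dvd_of_dvd_of_dvd ⟨u, by omega⟩ hir
    obtain ⟨L, hLdef⟩ : ∃ L, L = if c ≤ a then 2 * d / c else 1 := ⟨_, rfl⟩
    have hdiv := Nat.div_add_mod (2 * d) c
    have hmlt := Nat.mod_lt (2 * d) hcpos
    have hLd : c * L ≤ 2 * d := by
      rw [hLdef]; split_ifs
      · exact Nat.mul_div_le _ _
      · omega
    have hLpos : 1 ≤ L := by
      rw [hLdef]; split_ifs
      · exact (Nat.le_div_iff_mul_le hcpos).2 (by omega)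
      · exact le_rfl
    obtain ⟨y0, hy0, -, hy0f⟩ := exists_fpf (h := h) hr2 hrF (hh ▸ hc)
    have e : c * L = 2 * (L * h) := by rw [hh]; ring
    obtain ⟨x, -, -, hx, -, -, -, -, -, hdim⟩ := exists_model (d := d) (L := L) (h := h) (by omega)
      (fun _ => y0) (fun _ => hy0) (fun _ => hy0f)
    set f := Matrix.toLin' (x : Matrix (Fin d ⊕ Fin d) (Fin d ⊕ Fin d) F) with hf
    have hs : Setting (formB d F) f r := setting hr2 hrF hx
    have hns : ∀ z : F, (x : Matrix (Fin d ⊕ Fin d) (Fin d ⊕ Fin d) F) ≠ z • 1 := by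
      intro z hz
      let i0 : Fin d ⊕ Fin d := Sum.inl ⟨0, by omega⟩
      have h1 : (x : Matrix (Fin d ⊕ Fin d) (Fin d ⊕ Fin d) F) ^ r = 1 := by
        rw [← SubmonoidClass.coe_pow, hx, OneMemClass.coe_one]
      rw [hz, _root_.smul_pow, one_pow] at h1
      have hzr : z ^ r = 1 := by simpa using congrFun (congrFun h1 i0) i0
      have h2 := form_mulVec x (stdE (⟨0, by omega⟩ : Fin d)) (stdF ⟨0, by omega⟩)
      rw [hz, Matrix.smul_mulVec, Matrix.smul_mulVec, Matrix.one_mulVec, Matrix.one_mulVec, form_smul_left,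
        form_smul_right, form_stdE_stdF, if_pos rfl, mul_one] at h2
      have hz1 : z = 1 := by
        rw [hu, pow_succ, pow_mul, sq, h2, one_pow, one_mul] at hzr
        exact hzr
      have htop : fixed f = ⊤ := Submodule.eq_top_iff'.2 fun v => by
        rw [mem_fixed, hf, Matrix.toLin'_apply, hz, hz1, one_smul, Matrix.one_mulVec]
      rw [htop, finrank_top, finrank_space] at hdim
      have : c * 1 ≤ c * L := Nat.mul_le_mul_left c hLpos
      omega
    obtain ⟨D, hD, σ, hσ⟩ := hall x ⟨1, by rw [hx, one_smul]; rfl⟩ hns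
    have hinj := injective_of_iSupIndep hD.1.indep hD.1.pos hD.1.finrank_eq
    have hσr : σ ^ r = 1 := perm_pow_eq_one hinj hσ one_ne_zero (by rw [hs.pow, one_smul])
    by_cases hfix : ∀ j, σ j = j
    · have hDinv : ∀ j, (D j).map f ≤ D j := fun j => by rw [hσ, hfix]
      have hle : moved f ≤ Finset.univ.sup fun j => D j ⊓ moved f := by
        have h1 : moved f = Submodule.map (f - (1 : F) • 1) (iSup D) := by
          rw [hD.1.iSup_eq_top, Submodule.map_top]; rfl
        refine h1.le.trans ?_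
        rw [Submodule.map_iSup]
        refine iSup_le fun j => le_trans ?_ (Finset.le_sup (Finset.mem_univ j))
        rintro _ ⟨v, hv, rfl⟩
        refine ⟨?_, LinearMap.mem_range_self _ v⟩
        simpa using (D j).sub_mem (hDinv j ⟨v, hv, rfl⟩) hv
      have h2 := Submodule.finrank_mono hle
      rw [finrank_finset_sup_of_indep (hD.1.indep.mono fun j => inf_le_left)] at h2
      have h3 : ∀ j ∈ (Finset.univ : Finset (Fin t)), finrank F ↥(D j ⊓ moved f) ≤ c * (a / c) := by
        intro j _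
        obtain ⟨m, hm⟩ := (hs.exists_nondeg_sub (hs.nondegIn_inter (nondegIn_iff.2 (hD.2.1 j)) (hDinv j)).1
          (inf_map_le (hDinv j) moved_map_le) inf_le_right hc).1
        rw [hm]
        refine Nat.mul_le_mul_left c ((Nat.le_div_iff_mul_le hcpos).2 ?_)
        have := Submodule.finrank_mono (inf_le_left : D j ⊓ moved f ≤ D j)
        rw [hD.1.finrank_eq, hm] at this
        rwa [mul_comm]
      have h4 := h2.trans (Finset.sum_le_card_nsmul _ _ _ h3)
      rw [Finset.card_univ, Fintype.card_fin, smul_eq_mul] at h4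
      have h5 : finrank F (fixed f) + finrank F (moved f) = 2 * d := finrank_fixed_add_moved hs
      by_cases hca : c ≤ a
      · refine ⟨hca, ?_⟩
        rw [if_pos hca] at hLdef
        have h6 : L ≤ t * (a / c) := Nat.le_of_mul_le_mul_left
          (show c * L ≤ c * (t * (a / c)) by rw [mul_left_comm c t]; omega) hcpos
        have h7 : c * (2 * d / c) ≤ c * (t * (a / c)) := Nat.mul_le_mul_left c (hLdef ▸ h6)
        have h8 : 2 * d = c * (t * (a / c)) + t * (a % c) := by
          rw [hat]; conv_lhs => rw [← Nat.div_add_mod a c]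
          ring
        have h9 : (2 * d) % c ≤ t * (a % c) := by
          rw [h8, Nat.mul_add_mod]; exact Nat.mod_le _ _
        omega
      · rw [Nat.div_eq_of_lt (not_le.1 hca), Nat.mul_zero, Nat.mul_zero] at h4
        have : c * 1 ≤ c * L := Nat.mul_le_mul_left c hLpos
        omega
    exfalso
    push Not at hfix
    obtain ⟨j0, hj0⟩ := hfix
    by_cases hca : c ≤ a
    · rw [if_pos hca] at hLdef
      have h1 : a ≤ finrank F (fixed f) := by
        rw [← hD.1.finrank_eq j0]
        refine (finrank_le_range_orbit_sum hD.1.indep hσ hσr hj0).trans (Submodule.finrank_mono ?_)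
        rintro _ ⟨v, rfl⟩
        have h1 := mul_geom_sum f r
        rw [hs.pow, sub_self, sub_mul, one_mul] at h1
        simpa [fixed] using LinearMap.congr_fun h1 v
      rw [← hLdef] at hdiv
      omega
    · rw [if_neg hca] at hLdef
      have h1 : finrank F (fixed f) ≤ a * (orbitReps σ r).card :=
        finrank_ker_le_orbitReps hD.1.indep hD.1.iSup_eq_top hD.1.finrank_eq hσ hrpr.pos hσr
      have h2 := Nat.mul_le_mul_left a (add_orbitReps_card_le_of_moved hσr hj0)
      rw [Nat.mul_add, ← hat] at h2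
      have h3 : 2 * (r - 1) ≤ a * (r - 1) := Nat.mul_le_mul_right _ ha
      subst hLdef
      omega
  · rintro ⟨hca, hk⟩ x ⟨z, hz⟩ hns
    obtain ⟨y, hy, -, hmap⟩ := exists_normalise ⟨u, hu⟩ x hz hns
    set f := Matrix.toLin' (y : Matrix (Fin d ⊕ Fin d) (Fin d ⊕ Fin d) F) with hf
    have hs : Setting (formB d F) f r := setting hr2 hrF hy
    obtain ⟨L, hL⟩ := (hs.exists_nondeg_sub hs.nondeg_moved moved_map_le le_rfl hc).1
    have h5 : finrank F (fixed f) + finrank F (moved f) = 2 * d := finrank_fixed_add_moved hs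
    have h8 : 2 * d = c * (t * (a / c)) + t * (a % c) := by
      rw [hat]; conv_lhs => rw [← Nat.div_add_mod a c]
      ring
    have hdiv := Nat.div_add_mod (2 * d) c
    have hLt : L ≤ t * (a / c) := by
      have h6 : L ≤ 2 * d / c := (Nat.le_div_iff_mul_le hcpos).2 (by rw [mul_comm]; omega)
      exact Nat.le_of_mul_le_mul_left (by have := Nat.mul_le_mul_left c h6; omega) hcpos
    obtain ⟨D, hD, hDo, hDtop⟩ := hs.exists_orth_decomp hae hc t L ⊤ hs.nondeg_top le_top
      (by rw [finrank_top, finrank_space, hat]) (by rw [top_inf_eq, hL]) hLt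
    refine ⟨D, good_of_orth hat (by omega) ht (fun j => (hD j).2.1) (fun j => (hD j).2.2.1) hDo hDtop,
      1, fun j => ?_⟩
    rw [← hmap]
    exact Submodule.eq_of_le_of_finrank_eq (hD j).2.2.2
      (Submodule.equivMapOfInjective _ hs.injective _).finrank_eq.symm

end Cfsg.Agent.S5961

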