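import Cfsg.Statements.S5962
import Cfsg.Agent.Eq.Def_ClassicalGeometry
import Cfsg.Agent.Classical.Symp.Involutions
-- import your own Cfsg.Agent.* helpers here

set_option autoImplicit false
open scoped MatrixGroups
open Cfsg

namespace Cfsg.Agent.S5962

open Matrix CfsgLib.Classical.Symp

/-- Transport of a fixed pair of Lagrangian subspaces. -/
private theorem exists_pair_of_conj {F : Type*} [Field F] {d : ℕ} {x g : ↥(Matrix.symplecticGroup (Fin d) F)}
    (hc : IsConj g x) (sw : Bool)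
    (h : ∀ i k : Fin d ⊕ Fin d, k.isLeft ≠ xor sw i.isLeft →
      (g : Matrix (Fin d ⊕ Fin d) (Fin d ⊕ Fin d) F) k i = 0) :
    ∃ U W : Submodule F (Fin d ⊕ Fin d → F), IsCompl U W ∧ (∀ u ∈ U, ∀ v ∈ U, Cfsg.sympForm d F u v = 0) ∧
      (∀ u ∈ W, ∀ v ∈ W, Cfsg.sympForm d F u v = 0) ∧
        ((U.map (Matrix.toLin' (x : Matrix (Fin d ⊕ Fin d) (Fin d ⊕ Fin d) F)) = U ∧
          W.map (Matrix.toLin' (x : Matrix (Fin d ⊕ Fin d) (Fin d ⊕ Fin d) F)) = W) ∨
         (U.map (Matrix.toLin' (x : Matrix (Fin d ⊕ Fin d) (Fin d ⊕ Fin d) F)) = W ∧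
          W.map (Matrix.toLin' (x : Matrix (Fin d ⊕ Fin d) (Fin d ⊕ Fin d) F)) = U)) := by
  classical
  obtain ⟨c, hc⟩ := isConj_iff.1 hc
  subst hc
  let P : Bool → Submodule F (Fin d ⊕ Fin d → F) := fun b =>
    { carrier := {v | ∀ i : Fin d ⊕ Fin d, i.isLeft ≠ b → v i = 0}
      add_mem' := fun ha hb i hi => by simp [ha i hi, hb i hi]
      zero_mem' := fun _ _ => rfl
      smul_mem' := fun c _ ha i hi => by simp [ha i hi] }
  have hiso : ∀ b, ∀ u ∈ P b, ∀ v ∈ P b, Cfsg.sympForm d F u v = 0 := by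
    intro b u hu v hv
    rw [form_apply]
    refine Finset.sum_eq_zero fun j _ => ?_
    cases b
    · simp [hu (Sum.inl j) (by simp), hv (Sum.inl j) (by simp)]
    · simp [hu (Sum.inr j) (by simp), hv (Sum.inr j) (by simp)]
  have hcompl : IsCompl (P true) (P false) := by
    refine ⟨Submodule.disjoint_def.2 fun v h1 h2 => funext fun i => ?_, codisjoint_iff.2 (eq_top_iff.2 fun v _ => ?_)⟩
    · rcases i with i | i
      · exact h2 _ (by simp)
      · exact h1 _ (by simp)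
    · refine Submodule.mem_sup.2 ⟨fun i => if i.isLeft then v i else 0, fun i hi => if_neg (by simpa using hi),
        fun i => if i.isLeft then 0 else v i, fun i hi => if_pos (by simpa using hi), ?_⟩
      funext i; rcases i with i | i <;> simp
  have hle : ∀ b, ∀ v ∈ P b, (g : Matrix (Fin d ⊕ Fin d) (Fin d ⊕ Fin d) F) *ᵥ v ∈ P (xor sw b) := by
    intro b v hv k hk
    show ∑ i, (g : Matrix (Fin d ⊕ Fin d) (Fin d ⊕ Fin d) F) k i * v i = 0
    refine Finset.sum_eq_zero fun i _ => ?_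
    by_cases hi : i.isLeft = b
    · rw [h i k (hi.symm ▸ hk), zero_mul]
    · rw [hv i hi, mul_zero]
  have hg2 : ∀ b, ∀ v ∈ P (xor sw b), ∃ u ∈ P b, (g : Matrix (Fin d ⊕ Fin d) (Fin d ⊕ Fin d) F) *ᵥ u = v := by
    intro b v hv
    set u := ((g⁻¹ : ↥(Matrix.symplecticGroup (Fin d) F)) : Matrix (Fin d ⊕ Fin d) (Fin d ⊕ Fin d) F) *ᵥ v
    have hu : (g : Matrix (Fin d ⊕ Fin d) (Fin d ⊕ Fin d) F) *ᵥ u = v := mulVec_inv_cancel _ _
    obtain ⟨u1, h1, u2, h2, he⟩ : ∃ u1 ∈ P b, ∃ u2 ∈ P (!b), u1 + u2 = u := by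
      have hs : P b ⊔ P (!b) = ⊤ := by
        cases b
        · rw [sup_comm]; exact hcompl.sup_eq_top
        · exact hcompl.sup_eq_top
      exact Submodule.mem_sup.1 (hs ▸ Submodule.mem_top)
    have h3 := hle _ _ h2
    have h4 := (P (xor sw b)).sub_mem hv (hle _ _ h1)
    rw [← hu, ← he, mulVec_add, add_sub_cancel_left] at h4
    have h5 : (g : Matrix (Fin d ⊕ Fin d) (Fin d ⊕ Fin d) F) *ᵥ u2 = 0 := by
      funext i
      by_cases hi : i.isLeft = xor sw b
      · refine h3 i ?_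
        rw [hi]; cases sw <;> cases b <;> simp
      · exact h4 i hi
    refine ⟨u1, h1, ?_⟩
    rw [← hu, ← he, mulVec_add, h5, add_zero]
  let T : Submodule F (Fin d ⊕ Fin d → F) → Submodule F (Fin d ⊕ Fin d → F) :=
    Submodule.map (Matrix.toLin' (c : Matrix (Fin d ⊕ Fin d) (Fin d ⊕ Fin d) F))
  have hT : ∀ b, (T (P b)).map (Matrix.toLin'
      ((c * g * c⁻¹ : ↥(Matrix.symplecticGroup (Fin d) F)) : Matrix (Fin d ⊕ Fin d) (Fin d ⊕ Fin d) F)) =
      T (P (xor sw b)) := by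
    intro b
    ext v
    simp only [T, Submodule.mem_map, Matrix.toLin'_apply]
    constructor
    · rintro ⟨_, ⟨u, hu, rfl⟩, rfl⟩
      exact ⟨_, hle b u hu, by rw [mul_mulVec, mul_mulVec, inv_mulVec_cancel]⟩
    · rintro ⟨w, hw, rfl⟩
      obtain ⟨u, hu, rfl⟩ := hg2 b w hw
      exact ⟨_, ⟨u, hu, rfl⟩, by rw [mul_mulVec, mul_mulVec, inv_mulVec_cancel]⟩
  refine ⟨T (P true), T (P false), ?_, ?_, ?_, ?_⟩
  · let E : (Fin d ⊕ Fin d → F) ≃ₗ[F] (Fin d ⊕ Fin d → F) :=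
      LinearEquiv.ofBijective (Matrix.toLin' (c : Matrix (Fin d ⊕ Fin d) (Fin d ⊕ Fin d) F))
        ⟨fun v w e => mulVec_injective c (by simpa [Matrix.toLin'_apply] using e),
          fun v => ⟨_, (Matrix.toLin'_apply _ _).trans (mulVec_inv_cancel c v)⟩⟩
    exact hcompl.map (Submodule.orderIsoMapComap E)
  · rintro _ ⟨u, hu, rfl⟩ _ ⟨v, hv, rfl⟩
    rw [Matrix.toLin'_apply, Matrix.toLin'_apply, form_mulVec]
    exact hiso _ u hu v hv
  · rintro _ ⟨u, hu, rfl⟩ _ ⟨v, hv, rfl⟩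
    rw [Matrix.toLin'_apply, Matrix.toLin'_apply, form_mulVec]
    exact hiso _ u hu v hv
  · cases sw
    · exact Or.inl ⟨hT true, hT false⟩
    · exact Or.inr ⟨hT true, hT false⟩

/-- Involutions of PSp_n(q), q odd, and the subgroups GL_{n/2}(q).2. Here `T = PSp_n(q)`, `n = 2d ≥ 4`, `q` odd, realised through the symplectic matrices over the field `F` with `q` elements; Ω is the set of unordered pairs `{U, W}` of complementary totally isotropic `d`-spaces (`F^n = U ⊕ W`), whose stabilizers are the subgroups of type GL_d(q).2 (maximal except in some small cases; maximality is not assumed); an element of `T` of prime order `r` (a symplectic matrix `x` with `x^r` scalar, `x` not scalar) fixes such a pair when it fixes or interchanges `U` and `W`. If the number of such pairs is even, every involution of `T` fixes one of them (the action is 2-elusive). -/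
theorem result {F : Type*} [Field F] [Fintype F] {p : ℕ} [Fact p.Prime] [CharP F p] {q : ℕ} (hq : Fintype.card F = q)
    (d : ℕ) (hd : 2 ≤ d) (hT : (d, q) ≠ (2, 2)) (hodd : Odd q)
    (hΩ : 2 ∣ Nat.card {P : Submodule F (Fin d ⊕ Fin d → F) × Submodule F (Fin d ⊕ Fin d → F) // IsCompl P.1 P.2 ∧ (∀ u ∈ P.1, ∀ v ∈ P.1, Cfsg.sympForm d F u v = 0) ∧ (∀ u ∈ P.2, ∀ v ∈ P.2, Cfsg.sympForm d F u v = 0)} / 2)
    (x : ↥(Matrix.symplecticGroup (Fin d) F))
    (hx1 : ∃ z : F, ((x ^ 2 : ↥(Matrix.symplecticGroup (Fin d) F)) : Matrix (Fin d ⊕ Fin d) (Fin d ⊕ Fin d) F) = z • (1 : Matrix (Fin d ⊕ Fin d) (Fin d ⊕ Fin d) F))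
    (hx2 : ∀ z : F, (x : Matrix (Fin d ⊕ Fin d) (Fin d ⊕ Fin d) F) ≠ z • (1 : Matrix (Fin d ⊕ Fin d) (Fin d ⊕ Fin d) F)) :
    ∃ U W : Submodule F (Fin d ⊕ Fin d → F), IsCompl U W ∧ (∀ u ∈ U, ∀ v ∈ U, Cfsg.sympForm d F u v = 0) ∧ (∀ u ∈ W, ∀ v ∈ W, Cfsg.sympForm d F u v = 0) ∧
        ((U.map (Matrix.toLin' (x : Matrix (Fin d ⊕ Fin d) (Fin d ⊕ Fin d) F)) = U ∧ W.map (Matrix.toLin' (x : Matrix (Fin d ⊕ Fin d) (Fin d ⊕ Fin d) F)) = W) ∨
         (U.map (Matrix.toLin' (x : Matrix (Fin d ⊕ Fin d) (Fin d ⊕ Fin d) F)) = W ∧ W.map (Matrix.toLin' (x : Matrix (Fin d ⊕ Fin d) (Fin d ⊕ Fin d) F)) = U)) := by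
  classical
  subst hq
  obtain ⟨z, hz⟩ := hx1
  have h2 : (2 : F) ≠ 0 := by
    intro h
    have : ringChar F = 2 := CharP.ringChar_of_prime_eq_zero Nat.prime_two (by exact_mod_cast h)
    have := FiniteField.even_card_iff_char_two.1 this
    rw [Nat.odd_iff] at hodd
    omega
  have hxx : ∀ v, (x : Matrix (Fin d ⊕ Fin d) (Fin d ⊕ Fin d) F) *ᵥ
      ((x : Matrix (Fin d ⊕ Fin d) (Fin d ⊕ Fin d) F) *ᵥ v) = z • v := by
    intro v
    rw [mulVec_mulVec, ← Submonoid.coe_mul, ← sq, hz, smul_mulVec, one_mulVec]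
  have hz1 : z = 1 ∨ z = -1 := by
    have h1 := form_mulVec (x * x) (stdE (⟨0, by omega⟩ : Fin d)) (stdF ⟨0, by omega⟩)
    rw [mul_mulVec, mul_mulVec, hxx, hxx, form_smul_left, form_smul_right, form_stdE_stdF, if_pos rfl] at h1
    exact mul_self_eq_one_iff.1 (by linear_combination h1)
  rcases hz1 with hz1 | hz1
  · obtain ⟨h, s, hs⟩ := exists_signPattern h2 (g := x) (symp_ext fun v => by
      rw [mul_mulVec, hxx, hz1, one_smul, Submonoid.coe_one, one_mulVec])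
    refine exists_pair_of_conj (g := h * x * h⁻¹) (isConj_iff.2 ⟨h⁻¹, by group⟩) false fun i k hik => ?_
    have hne : k ≠ i := by rintro rfl; simp at hik
    rcases i with j | j
    · have h' := congrFun (hs j).2 k
      rw [stdF, mulVec_single_one, Matrix.col_apply] at h'
      rw [h']; simp [hne]
    · have h' := congrFun (hs j).1 k
      rw [stdE, mulVec_single_one, Matrix.col_apply] at h'
      rw [h']; simp [hne]
  · let g : ↥(Matrix.symplecticGroup (Fin d) F) := ⟨J (Fin d) F, SymplecticGroup.J_mem _ _⟩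
    have hgg : ((g * g : ↥(Matrix.symplecticGroup (Fin d) F)) : Matrix (Fin d ⊕ Fin d) (Fin d ⊕ Fin d) F) = -1 :=
      J_squared _ _
    have hxm : ((x * x : ↥(Matrix.symplecticGroup (Fin d) F)) : Matrix (Fin d ⊕ Fin d) (Fin d ⊕ Fin d) F) = -1 := by
      rw [← sq, hz, hz1, neg_one_smul]
    refine exists_pair_of_conj (isConj_of_sq_eq_neg_one h2 hgg hxm) true fun i k hik => ?_
    show J (Fin d) F k i = 0
    rcases i with i | i <;> rcases k with k | k <;> simp_all [J, one_apply]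

end Cfsg.Agent.S5962

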