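import Cfsg.Statements.S5963
import Cfsg.Agent.Classical.Semisimple.PolarPairs
import Cfsg.Agent.Classical.Semisimple.PrimeOrder
import Cfsg.Agent.Classical.Semisimple.Bridge

set_option autoImplicit false
open scoped MatrixGroups
open Cfsg

namespace Cfsg.Agent.S5963

open Module CfsgLib.Classical.Semisimple CfsgLib.Classical.Symp

private theorem dvd_finrank_map {F V : Type*} [Field F] [Fintype F] [AddCommGroup V] [Module F V]
    [FiniteDimensional F V] {r : ℕ} [Fact r.Prime] (hrF : (r : F) ≠ 0) {f : Module.End F V}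
    (hf : f ^ r = 1) {U : Submodule F V} (hU : U.map f = U) :
    orderOf (Fintype.card F : ZMod r) ∣ finrank F (U.map (f - 1)) := by
  have hm : ∀ u ∈ U, f u ∈ U := fun u hu => hU.le ⟨u, hu, rfl⟩
  have h1 : (f.restrict hm) ^ r = 1 := by
    refine LinearMap.ext fun u => Subtype.ext ?_
    rw [Module.End.pow_restrict r hm, LinearMap.restrict_apply]
    simp [hf]
  have h2 := orderOf_dvd_finrank_range hrF h1
  have h3 : U.map (f - 1) = (LinearMap.range (f.restrict hm - (1 : F) • 1)).map U.subtype := by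
    ext v
    constructor
    · rintro ⟨u, hu, rfl⟩
      exact ⟨_, ⟨⟨u, hu⟩, rfl⟩, by simp⟩
    · rintro ⟨_, ⟨⟨u, hu⟩, rfl⟩, rfl⟩
      exact ⟨u, hu, by simp⟩
  rw [h3, Submodule.finrank_map_subtype_eq]
  exact h2


/-- Derangements of odd prime order of PSp_n(q), q odd, on pairs of complementary totally isotropic subspaces. Here `T = PSp_n(q)`, `n = 2d ≥ 4`, `q` odd, realised through the symplectic matrices over the field `F` with `q` elements; Ω is the set of unordered pairs `{U, W}` of complementary totally isotropic `d`-spaces (`F^n = U ⊕ W`), whose stabilizers are the subgroups of type GL_d(q).2 (maximal except in some small cases; maximality is not assumed); an element of `T` of prime order `r` (a symplectic matrix `x` with `x^r` scalar, `x` not scalar) fixes such a pair when it fixes or interchanges `U` and `W`. For every odd prime `r ≠ p` dividing the number of such pairs, some element of `T` of order `r` fixes no such pair (the action is never `r`-elusive for odd `r ≠ p`).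 -/
theorem result {F : Type*} [Field F] [Fintype F] {p : ℕ} [Fact p.Prime] [CharP F p] {q : ℕ} (hq : Fintype.card F = q)
    (d : ℕ) (hd : 2 ≤ d) (hT : (d, q) ≠ (2, 2)) (hodd : Odd q)
    (r : ℕ) [Fact r.Prime] (hr2 : r ≠ 2) (hrp : r ≠ p) (hΩ : r ∣ Nat.card {P : Submodule F (Fin d ⊕ Fin d → F) × Submodule F (Fin d ⊕ Fin d → F) // IsCompl P.1 P.2 ∧ (∀ u ∈ P.1, ∀ v ∈ P.1, Cfsg.sympForm d F u v = 0) ∧ (∀ u ∈ P.2, ∀ v ∈ P.2, Cfsg.sympForm d F u v = 0)} / 2) :
    ∃ x : ↥(Matrix.symplecticGroup (Fin d) F),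
      (∃ z : F, ((x ^ r : ↥(Matrix.symplecticGroup (Fin d) F)) : Matrix (Fin d ⊕ Fin d) (Fin d ⊕ Fin d) F) = z • (1 : Matrix (Fin d ⊕ Fin d) (Fin d ⊕ Fin d) F)) ∧
      (∀ z : F, (x : Matrix (Fin d ⊕ Fin d) (Fin d ⊕ Fin d) F) ≠ z • (1 : Matrix (Fin d ⊕ Fin d) (Fin d ⊕ Fin d) F)) ∧
      ¬ (∃ U W : Submodule F (Fin d ⊕ Fin d → F), IsCompl U W ∧ (∀ u ∈ U, ∀ v ∈ U, Cfsg.sympForm d F u v = 0) ∧ (∀ u ∈ W, ∀ v ∈ W, Cfsg.sympForm d F u v = 0) ∧
        ((U.map (Matrix.toLin' (x : Matrix (Fin d ⊕ Fin d) (Fin d ⊕ Fin d) F)) = U ∧ W.map (Matrix.toLin' (x : Matrix (Fin d ⊕ Fin d) (Fin d ⊕ Fin d) F)) = W) ∨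
         (U.map (Matrix.toLin' (x : Matrix (Fin d ⊕ Fin d) (Fin d ⊕ Fin d) F)) = W ∧ W.map (Matrix.toLin' (x : Matrix (Fin d ⊕ Fin d) (Fin d ⊕ Fin d) F)) = U))) := by
  subst hq
  have hrpr : r.Prime := Fact.out
  have hppr : p.Prime := Fact.out
  have hrF : (r : F) ≠ 0 := fun h =>
    hrp ((Nat.prime_dvd_prime_iff_eq hppr hrpr).1 ((CharP.cast_eq_zero_iff F p r).1 h)).symm
  have hrq : ¬ r ∣ Fintype.card F := fun h => by
    obtain ⟨k, -, hk⟩ := FiniteField.card F p
    rw [hk] at h
    exact hrp ((Nat.prime_dvd_prime_iff_eq hrpr hppr).1 (hrpr.dvd_of_dvd_pow h))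
  have hN : r ∣ Nat.card (PolarPair d F) := by
    obtain ⟨k, hk⟩ := even_iff_two_dvd.1 (even_card_polarPair (F := F) (d := d) hodd (by omega))
    change r ∣ Nat.card (PolarPair d F) / 2 at hΩ
    rw [hk, Nat.mul_div_cancel_left k two_pos] at hΩ
    rw [hk]
    exact dvd_mul_of_dvd_right hΩ 2
  obtain ⟨j, hj1, hjd, hj⟩ := exists_dvd_of_dvd_card_polarPair hrpr hrq hN
  set i := orderOf (Fintype.card F : ZMod r) with hi
  have hipos : 0 < i := orderOf_card_pos hrF
  have hj' : (Fintype.card F : ZMod r) ^ j = -1 := by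
    have := (ZMod.natCast_eq_zero_iff _ _).2 hj
    push_cast at this
    exact eq_neg_of_add_eq_zero_left this
  have hdj : i ∣ 2 * j := orderOf_dvd_of_pow_eq_one (by rw [mul_comm, pow_mul, hj']; ring)
  have hndj : ¬ i ∣ j := fun h => by
    rw [hi, orderOf_dvd_iff_pow_eq_one, hj'] at h
    exact Ring.neg_one_ne_one_of_char_ne_two (by rw [ZMod.ringChar_zmod_n]; exact hr2) h
  obtain ⟨h, hh⟩ : 2 ∣ i := by
    by_contra hc
    exact hndj ((Nat.prime_two.coprime_iff_not_dvd.2 hc).symm.dvd_of_dvd_mul_left hdj)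
  have hhd : h ∣ j := by
    rw [hh] at hdj
    exact Nat.dvd_of_mul_dvd_mul_left two_pos hdj
  have hle : h ≤ d := (Nat.le_of_dvd (by omega) hhd).trans hjd
  obtain ⟨b, rfl⟩ := Nat.exists_eq_add_of_le hle
  have hcard : r ∣ Nat.card (Matrix.symplecticGroup (Fin h) F) := by
    rw [card_symplecticGroup]
    refine Dvd.dvd.mul_left (dvd_trans ?_ (Finset.dvd_prod_of_mem _
      (Finset.mem_range.2 (by omega : h - 1 < h)))) _
    rw [dvd_pow_sub_one_iff_orderOf_dvd, ← hi, hh, show h - 1 + 1 = h by omega]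
  obtain ⟨y, hy⟩ := exists_prime_orderOf_dvd_card' r hcard
  let x := Blocks.blockSp h b F (y, 1)
  have hx : orderOf x = r := by
    rw [orderOf_injective _ Blocks.blockSp_injective, Prod.orderOf_mk, hy, orderOf_one, Nat.lcm_one_right]
  have hxr : x ^ r = 1 := by rw [← hx]; exact pow_orderOf_eq_one x
  refine ⟨x, ⟨1, by rw [hxr]; simp⟩, ?_, ?_⟩
  · intro z hz
    have hzr : z ^ r = 1 := by
      have h1 := congrArg Subtype.val hxr
      rw [SubmonoidClass.coe_pow, hz, smul_pow, one_pow] at h1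
      have h2 := congrFun (congrFun h1 (Sum.inl ⟨0, by omega⟩)) (Sum.inl ⟨0, by omega⟩)
      simpa using h2
    have hz2 : z ^ 2 = 1 := by
      have h1 := form_mulVec x (stdE (⟨0, by omega⟩ : Fin (h + b))) (stdF ⟨0, by omega⟩)
      rw [hz, Matrix.smul_mulVec, Matrix.smul_mulVec, Matrix.one_mulVec, Matrix.one_mulVec,
        form_smul_left, form_smul_right, form_stdE_stdF, if_pos rfl, mul_one] at h1
      rw [sq]; exact h1
    have hz1 : z = 1 := by
      obtain ⟨k, hk⟩ := hrpr.odd_of_ne_two hr2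
      rw [hk, pow_succ, pow_mul, hz2, one_pow, one_mul] at hzr
      exact hzr
    have hx1 : x = 1 := Subtype.ext (by rw [hz, hz1]; simp)
    rw [hx1, orderOf_one] at hx
    exact hrpr.ne_one hx.symm
  · rintro ⟨U, W, hc, hU, hW, hcase⟩
    set f : Module.End F (Fin (h + b) ⊕ Fin (h + b) → F) := Matrix.toLin'
      (x : Matrix (Fin (h + b) ⊕ Fin (h + b)) (Fin (h + b) ⊕ Fin (h + b)) F) with hf
    have hfr : f ^ r = 1 := by
      rw [hf, toLin'_pow, ← SubmonoidClass.coe_pow, hxr, OneMemClass.coe_one, Matrix.toLin'_one]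
      rfl
    rcases hcase with ⟨hUU, hWW⟩ | ⟨hUW, hWU⟩
    · have hUd := dvd_finrank_map hrF hfr hUU
      have hWd := dvd_finrank_map hrF hfr hWW
      have hmem : ∀ S : Submodule F (Fin (h + b) ⊕ Fin (h + b) → F), S.map f = S →
          S.map (f - 1) ≤ S := fun S hS => Submodule.map_le_iff_le_comap.2 fun v hv =>
        show f v - v ∈ S from S.sub_mem (hS.le ⟨v, hv, rfl⟩) hv
      have hd' : Disjoint (U.map (f - 1)) (W.map (f - 1)) :=
        hc.disjoint.mono (hmem U hUU) (hmem W hWW)
      have hle2 : finrank F (U.map (f - 1)) + finrank F (W.map (f - 1)) ≤ i := by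
        rw [← finrank_add_of_disjoint hd']
        refine (Submodule.finrank_mono (sup_le LinearMap.map_le_range LinearMap.map_le_range)).trans ?_
        have := finrank_range_blockSp_le h b y
        rw [one_smul] at this
        rw [hh]
        exact this
      have hB : ∀ u v, Cfsg.sympForm (h + b) F (f u) (f v) = Cfsg.sympForm (h + b) F u v :=
        fun u v => form_mulVec x u v
      have main : ∀ U W : Submodule F (Fin (h + b) ⊕ Fin (h + b) → F), IsCompl U W →
          (∀ u ∈ U, ∀ v ∈ U, Cfsg.sympForm (h + b) F u v = 0) → U.map f = U → W.map (f - 1) = ⊥ →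
          f = 1 := by
        intro U W hc hU hUU hW0
        have hfix : ∀ w ∈ W, f w = w := fun w hw => sub_eq_zero.1 <|
          (Submodule.eq_bot_iff _).1 hW0 _ ⟨w, hw, rfl⟩
        refine LinearMap.ext fun v => ?_
        obtain ⟨u, hu, w, hw, rfl⟩ :=
          Submodule.mem_sup.1 (hc.sup_eq_top ▸ Submodule.mem_top : v ∈ U ⊔ W)
        rw [map_add, hfix w hw, Module.End.one_apply, add_left_inj, ← sub_eq_zero]
        refine eq_zero_of_form_eq_zero fun t => ?_
        obtain ⟨u', hu', w', hw', rfl⟩ :=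
          Submodule.mem_sup.1 (hc.sup_eq_top ▸ Submodule.mem_top : t ∈ U ⊔ W)
        rw [form_add_right, hU _ (U.sub_mem (hUU.le ⟨u, hu, rfl⟩) hu) _ hu', zero_add, form_sub_left,
          sub_eq_zero]
        conv_lhs => rw [← hfix w' hw']
        exact hB u w'
      have hf1 : f = 1 := by
        rcases Nat.eq_zero_or_pos (finrank F (W.map (f - 1))) with h0 | h0
        · exact main U W hc hU hUU (Submodule.finrank_eq_zero.1 h0)
        · rcases Nat.eq_zero_or_pos (finrank F (U.map (f - 1))) with h1 | h1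
          · exact main W U hc.symm hW hWW (Submodule.finrank_eq_zero.1 h1)
          · have := Nat.le_of_dvd h0 hWd
            have := Nat.le_of_dvd h1 hUd
            omega
      have hx1 : x = 1 := symp_ext fun v => by
        have := LinearMap.congr_fun hf1 v
        rw [hf, Matrix.toLin'_apply] at this
        simpa using this
      rw [hx1, orderOf_one] at hx
      exact hrpr.ne_one hx.symm
    · have h2 : ∀ n : ℕ, U.map (f ^ (2 * n + 1)) = W := by
        intro n
        induction n with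
        | zero => simpa using hUW
        | succ n ih =>
          rw [show 2 * (n + 1) + 1 = 2 + (2 * n + 1) by ring, pow_add, Module.End.mul_eq_comp,
            Submodule.map_comp, ih, sq, Module.End.mul_eq_comp, Submodule.map_comp, hWU, hUW]
      obtain ⟨k, hk⟩ := hrpr.odd_of_ne_two hr2
      have h3 := h2 k
      rw [← hk, hfr, Module.End.one_eq_id, Submodule.map_id] at h3
      subst h3
      have hbot : U = ⊥ := disjoint_self.1 hc.disjoint
      have h4 := (finrank_polar hc hU hW).1
      rw [hbot, finrank_bot] at h4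
      omega

end Cfsg.Agent.S5963
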