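import Cfsg.Statements.S5964
import Cfsg.Agent.Eq.Def_GeometricClasses
import Cfsg.Agent.Classical.Semisimple.ConjForm
import Cfsg.Agent.Classical.Semisimple.LinearElusive

set_option autoImplicit false
open scoped MatrixGroups
open Cfsg

namespace Cfsg.Agent.S5964

open Module Matrix CfsgLib.Classical.Semisimple

variable {F : Type*} [Field F] [Fintype F] {n : ℕ} (F₀ : Subfield F)

omit [Fintype F] in
/-- Scalar multiples of invertible matrices over the subfield form the subfield group. -/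
private theorem mem_iff [NeZero n] (y : Matrix.SpecialLinearGroup (Fin n) F) :
    y ∈ (Cfsg.Geo.subfieldSubgroup F₀ 1).comap
        (Matrix.SpecialLinearGroup.toGL : Matrix.SpecialLinearGroup (Fin n) F →* GL (Fin n) F) ↔
      ∃ (c : F) (A : Matrix (Fin n) (Fin n) F₀),
        (y : Matrix (Fin n) (Fin n) F) = c • A.map (F₀.subtype : F₀ →+* F) := by
  classical
  haveI : (Cfsg.Geo.scalars (Fin n) F).Normal := ⟨fun g hg h => by
    obtain ⟨c, hc⟩ := (Cfsg.Geo.mem_scalars_iff g).1 hg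
    rw [Cfsg.Geo.mem_scalars_iff]
    refine ⟨c, ?_⟩
    rw [Units.val_mul, Units.val_mul, hc, mul_smul_comm, mul_one, smul_mul_assoc, ← Units.val_mul,
      mul_inv_cancel, Units.val_one]⟩
  have h1 : Cfsg.Geo.subfieldSubgroup F₀ (1 : GL (Fin n) F) =
      (Matrix.GeneralLinearGroup.map (F₀.subtype : F₀ →+* F)).range ⊔ Cfsg.Geo.scalars (Fin n) F := by
    unfold Cfsg.Geo.subfieldSubgroup
    rw [map_one]
    exact Subgroup.map_id _
  rw [Subgroup.mem_comap, h1, Subgroup.mem_sup_of_normal_right]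
  constructor
  · rintro ⟨_, ⟨A, rfl⟩, s, hs, he⟩
    obtain ⟨c, hc⟩ := (Cfsg.Geo.mem_scalars_iff s).1 hs
    refine ⟨c, (A : Matrix (Fin n) (Fin n) F₀), ?_⟩
    have := congrArg Units.val he
    rw [Units.val_mul, hc, mul_smul_comm, mul_one] at this
    exact this.symm
  · rintro ⟨c, A, hA⟩
    have hdet : c ^ n * (A.map (F₀.subtype : F₀ →+* F)).det = 1 := by
      have := y.2
      rw [hA, Matrix.det_smul, Fintype.card_fin] at this
      exact this
    have hc : c ≠ 0 := by
      rintro rfl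
      simp [zero_pow (NeZero.ne n)] at hdet
    have hAdet : A.det ≠ 0 := fun h => by
      rw [← RingHom.mapMatrix_apply, ← RingHom.map_det, h, map_zero, mul_zero] at hdet
      exact zero_ne_one hdet
    refine ⟨_, ⟨Matrix.GeneralLinearGroup.mkOfDetNeZero A hAdet, rfl⟩,
      Units.map (Matrix.scalar (Fin n) : F →+* Matrix (Fin n) (Fin n) F).toMonoidHom (Units.mk0 c hc),
      ⟨Units.mk0 c hc, rfl⟩, Units.ext ?_⟩
    show A.map (F₀.subtype : F₀ →+* F) * Matrix.scalar (Fin n) c = (y : Matrix (Fin n) (Fin n) F)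
    rw [hA, Matrix.scalar_apply, ← Matrix.smul_one_eq_diagonal, mul_smul_comm, mul_one]

/-- An element of the shape `c` times a matrix over the subfield in some basis. -/
private theorem conj_mem [NeZero n] {κ : Type*} [Fintype κ] [DecidableEq κ]
    (x : Matrix.SpecialLinearGroup (Fin n) F) (b : Basis κ F (Fin n → F)) (c : F)
    (A : Matrix κ κ F₀)
    (hx : Matrix.toLin' (x : Matrix (Fin n) (Fin n) F) =
      Matrix.toLin b b (c • A.map (F₀.subtype : F₀ →+* F)))
    (hC : ∀ δ : F, δ ≠ 0 → ∃ C : Matrix κ κ F,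
      A.map (F₀.subtype : F₀ →+* F) * C = C * A.map (F₀.subtype : F₀ →+* F) ∧ C.det = δ) :
    ∃ P : Matrix.SpecialLinearGroup (Fin n) F, P⁻¹ * x * P ∈
      (Cfsg.Geo.subfieldSubgroup F₀ 1).comap
        (Matrix.SpecialLinearGroup.toGL : Matrix.SpecialLinearGroup (Fin n) F →* GL (Fin n) F) := by
  obtain ⟨e⟩ : Nonempty (κ ≃ Fin n) := ⟨Fintype.equivFinOfCardEq
    (by rw [← Module.finrank_eq_card_basis b, Module.finrank_fin_fun])⟩
  obtain ⟨P, hP⟩ := exists_conj_eq_of_toLin x b e _ hx fun δ hδ => by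
    obtain ⟨C, h1, h2⟩ := hC δ hδ
    exact ⟨C, by rw [smul_mul_assoc, mul_smul_comm, h1], h2⟩
  refine ⟨P, (mem_iff F₀ _).2 ⟨c, Matrix.reindex e e A, ?_⟩⟩
  rw [hP]
  ext i j
  simp

omit [Fintype F] in
private theorem odd_factor {X : ℕ} (hX : Odd X) (l : ℕ) :
    ∃ S, Odd S ∧ X ^ (2 * l + 1) - 1 = (X - 1) * S := by
  obtain ⟨Y, hY⟩ := hX
  subst hY
  suffices h : ∃ S, Odd S ∧ (2 * Y + 1) ^ (2 * l + 1) = 2 * Y * S + 1 by
    obtain ⟨S, h1, h2⟩ := h
    exact ⟨S, h1, by rw [h2, Nat.add_sub_cancel, Nat.add_sub_cancel]⟩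
  induction l with
  | zero => exact ⟨1, odd_one, by ring⟩
  | succ l ih =>
    obtain ⟨S, ⟨T, hT⟩, h2⟩ := ih
    refine ⟨(2 * Y + 1) ^ 2 * S + (2 * Y + 2), ⟨(2 * Y * Y + 2 * Y) * S + T + Y + 1, ?_⟩, ?_⟩
    · rw [hT]; ring
    · rw [show 2 * (l + 1) + 1 = 2 + (2 * l + 1) by ring, pow_add, h2]; ring

/-- For an odd degree extension of odd order the index is odd. -/
private theorem index_odd [NeZero n] {k q₀ : ℕ} (hk : Odd k) (hF₀ : Nat.card F₀ = q₀)
    (hqk : Fintype.card F = q₀ ^ k) (hodd : Odd (Fintype.card F)) :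
    ¬ 2 ∣ ((Cfsg.Geo.subfieldSubgroup F₀ 1).comap
      (Matrix.SpecialLinearGroup.toGL : Matrix.SpecialLinearGroup (Fin n) F →* GL (Fin n) F)).index := by
  classical
  intro hdvd
  set H := (Cfsg.Geo.subfieldSubgroup F₀ 1).comap
      (Matrix.SpecialLinearGroup.toGL : Matrix.SpecialLinearGroup (Fin n) F →* GL (Fin n) F)
  let φ : Matrix.SpecialLinearGroup (Fin n) F₀ →* Matrix.SpecialLinearGroup (Fin n) F :=
    Matrix.SpecialLinearGroup.map (F₀.subtype : F₀ →+* F)
  have hinj : Function.Injective φ := by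
    intro A B h
    refine Subtype.ext (Matrix.ext fun i j => ?_)
    exact Subtype.ext (congrFun (congrFun (congrArg Subtype.val h) i) j)
  have hle : φ.range ≤ H := by
    rintro _ ⟨A, rfl⟩
    exact (mem_iff F₀ _).2 ⟨1, A.1, (one_smul _ _).symm⟩
  have : Fintype F₀ := Fintype.ofFinite _
  have hq0 : Fintype.card F₀ = q₀ := by rw [← Nat.card_eq_fintype_card, hF₀]
  have h1 : 2 * Nat.card (Matrix.SpecialLinearGroup (Fin n) F₀) ∣
      Nat.card (Matrix.SpecialLinearGroup (Fin n) F) := by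
    rw [← H.index_mul_card, Nat.card_congr (MonoidHom.ofInjective hinj).toEquiv]
    exact mul_dvd_mul hdvd (Subgroup.card_dvd_of_le hle)
  have h2 := mul_dvd_mul h1 (dvd_refl ((Fintype.card F - 1) * (Fintype.card F₀ - 1)))
  rw [← mul_assoc (Nat.card (Matrix.SpecialLinearGroup (Fin n) F)), ← card_gl_eq_card_sl_mul,
    show 2 * Nat.card (Matrix.SpecialLinearGroup (Fin n) F₀) *
      ((Fintype.card F - 1) * (Fintype.card F₀ - 1)) =
      2 * (Nat.card (Matrix.SpecialLinearGroup (Fin n) F₀) * (Fintype.card F₀ - 1)) *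
        (Fintype.card F - 1) by ring, ← card_gl_eq_card_sl_mul, card_gl_eq, card_gl_eq, hq0, hqk] at h2
  rw [hqk] at hodd
  have hq0odd : Odd q₀ := Odd.of_dvd_nat hodd (dvd_pow_self _ hk.pos.ne')
  obtain ⟨l, rfl⟩ := hk
  choose S hS hSe using fun i => odd_factor (hq0odd.pow (n := i)) l
  have hp : ∀ i, (q₀ ^ (2 * l + 1)) ^ i - 1 = (q₀ ^ i - 1) * S i := fun i => by
    rw [← pow_mul, mul_comm, pow_mul, hSe]
  have hp1 : q₀ ^ (2 * l + 1) - 1 = (q₀ - 1) * S 1 := by simpa using hp 1
  simp only [hp] at h2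
  rw [hp1, Finset.prod_mul_distrib] at h2
  set E := ∏ i ∈ Finset.range n, (q₀ ^ (i + 1) - 1)
  have hq01 : 1 < q₀ := by rw [← hq0]; exact Fintype.one_lt_card
  have hE : 0 < E * (q₀ - 1) := Nat.mul_pos
    (Finset.prod_pos fun i _ => Nat.sub_pos_of_lt (Nat.one_lt_pow (by omega) hq01)) (by omega)
  have h3 : 2 * q₀ ^ (∑ i ∈ Finset.range n, i) * S 1 * (E * (q₀ - 1)) ∣
      (q₀ ^ (2 * l + 1)) ^ (∑ i ∈ Finset.range n, i) * (∏ i ∈ Finset.range n, S (i + 1)) *
        (E * (q₀ - 1)) :=
    (dvd_of_eq (by ring)).trans (h2.trans (dvd_of_eq (by ring)))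
  have h4 := (dvd_mul_right 2 (q₀ ^ (∑ i ∈ Finset.range n, i))).trans
    ((dvd_mul_right _ (S 1)).trans (Nat.dvd_of_mul_dvd_mul_right hE h3))
  rcases Nat.prime_two.dvd_mul.mp h4 with h5 | h5
  · exact absurd (Nat.prime_two.dvd_of_dvd_pow h5) (Nat.two_dvd_ne_zero.mpr (Nat.odd_iff.mp hodd))
  · obtain ⟨i, -, hi⟩ := (Prime.dvd_finsetProd_iff Nat.prime_two.prime _).mp h5
    exact absurd hi (Nat.two_dvd_ne_zero.mpr (Nat.odd_iff.mp (hS (i + 1))))


/-- Involutions of PSL_n(q) and subfield subgroups. Here `T = PSL_n(F)` for a field `F` with `q = p^f` elements (`n ≥ 2`, `(n, q) ≠ (2, 2), (2, 3)`), `F₀` is the subfield with `q₀` elements where `q = q₀^k` for a prime `k`, and `H` is the subgroup of matrices of determinant 1 lying in the subfield group of `F₀` (invertible matrices over `F₀` times scalars) — a maximal subgroup of type GL_n(q₀) (the case `n = 2`, `q₀ = 2` is excluded); Ω is the set of `T`-conjugates of `H` (cosets of `H`), so an element of `T` of prime order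 `r` (a matrix `x` of determinant 1 with `x^r` scalar, `x` not scalar) fixes a point of Ω when some conjugate of `x` by a matrix of determinant 1 lies in `H`. Suppose the index of `H` is even. Then every involution of `T` is conjugate in `T` into `H` if and only if either `q` is even, or `k = 2` and `(n)_2 ≤ (q − 1)_2`. (For `q` odd and `k` odd the index of `H` is odd, so that case does not arise.) -/
theorem result {F : Type*} [Field F] [Fintype F] {p : ℕ} [Fact p.Prime] [CharP F p] {q : ℕ} (hq : Fintype.card F = q)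
    (n : ℕ) (hn : 2 ≤ n) (hT : (n, q) ≠ (2, 2) ∧ (n, q) ≠ (2, 3))
    (F₀ : Subfield F) (k q₀ : ℕ) (hk : k.Prime) (hF₀ : Nat.card ↥F₀ = q₀) (hqk : q = q₀ ^ k) (hC5 : ¬ (n = 2 ∧ q₀ = 2)) (hΩ : 2 ∣ ((Cfsg.Geo.subfieldSubgroup F₀ 1).comap (Matrix.SpecialLinearGroup.toGL : Matrix.SpecialLinearGroup (Fin n) F →* GL (Fin n) F)).index) :
    (∀ x : Matrix.SpecialLinearGroup (Fin n) F,
      (∃ z : F, ((x ^ 2 : Matrix.SpecialLinearGroup (Fin n) F) : Matrix (Fin n) (Fin n) F) = z • (1 : Matrix (Fin n) (Fin n) F)) →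
      (∀ z : F, (x : Matrix (Fin n) (Fin n) F) ≠ z • (1 : Matrix (Fin n) (Fin n) F)) →
      ∃ P : Matrix.SpecialLinearGroup (Fin n) F, P⁻¹ * x * P ∈ ((Cfsg.Geo.subfieldSubgroup F₀ 1).comap (Matrix.SpecialLinearGroup.toGL : Matrix.SpecialLinearGroup (Fin n) F →* GL (Fin n) F))) ↔
    (Odd q → (k = 2 ∧ padicValNat 2 n ≤ padicValNat 2 (q - 1))) := by
  classical
  subst hq
  have hppr : p.Prime := Fact.out
  haveI : NeZero n := ⟨by omega⟩
  have : Nonempty (Fin n) := ⟨0⟩
  have hcard : Fintype.card F % 2 = 1 ↔ (2 : F) ≠ 0 := by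
    constructor
    · intro h h2
      have h3 : ((2 : ℕ) : F) = 0 := by simpa using h2
      have h4 := (CharP.cast_eq_zero_iff F p 2).1 h3
      have h5 : ringChar F = 2 :=
        (ringChar.eq F p).trans ((Nat.prime_dvd_prime_iff_eq hppr Nat.prime_two).mp h4)
      exact absurd (FiniteField.even_card_iff_char_two.mp h5) (by omega)
    · intro h2
      refine (Nat.mod_two_eq_zero_or_one _).resolve_left fun h0 => h2 ?_
      have : ringChar F = 2 := FiniteField.even_card_iff_char_two.mpr h0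
      exact_mod_cast (ringChar.spec F 2).mpr (by rw [this])
  constructor
  · intro h hodd
    have h2 : (2 : F) ≠ 0 := hcard.1 (Nat.odd_iff.1 hodd)
    have hk2 : k = 2 := hk.eq_two_or_odd'.resolve_right fun hko => index_odd F₀ hko hF₀ hqk hodd hΩ
    refine ⟨hk2, ?_⟩
    by_contra hlt
    rw [not_le] at hlt
    obtain ⟨m, rfl⟩ : 2 ∣ n := dvd_of_one_le_padicValNat (by omega)
    have hm0 : m ≠ 0 := by have := NeZero.ne (2 * m); omega
    rw [padicValNat.mul two_ne_zero hm0, padicValNat.self one_lt_two] at hlt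
    have hd : 2 ∣ Fintype.card F - 1 := by obtain ⟨j, hj⟩ := hodd; exact ⟨j, by omega⟩
    obtain ⟨z', hz', hzm⟩ := exists_nonpower_pow_eq_one (F := F) (r := 2) hd (s := m) (by omega)
    subst hk2
    have hq0 : q₀ % 2 = 1 := by
      rw [hqk] at hodd
      exact Nat.odd_iff.1 (Odd.of_dvd_nat hodd (dvd_pow_self _ two_ne_zero))
    have hsquare : ∀ t : F, t ∈ F₀ → ∃ b : F, b ^ 2 = t := by
      intro t ht
      rcases eq_or_ne t 0 with rfl | ht0
      · exact ⟨0, by simp⟩
      have : Fintype F₀ := Fintype.ofFinite _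
      have hq0' : Fintype.card F₀ = q₀ := by rw [← Nat.card_eq_fintype_card, hF₀]
      have h1 := congrArg Subtype.val (FiniteField.pow_card_sub_one_eq_one (⟨t, ht⟩ : F₀)
        (fun h => ht0 (congrArg Subtype.val h)))
      rw [hq0', SubmonoidClass.coe_pow, OneMemClass.coe_one] at h1
      refine (pow_div_eq_one_iff (r := 2) ht0 hd).1 ?_
      obtain ⟨j, hj⟩ : ∃ j, q₀ = 2 * j + 1 := ⟨q₀ / 2, by omega⟩
      have he : (Fintype.card F - 1) / 2 = (q₀ - 1) * (j + 1) := by
        rw [hqk, hj, show (2 * j + 1) ^ 2 = 2 * (2 * j * (j + 1)) + 1 by ring, Nat.add_sub_cancel,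
          Nat.mul_div_cancel_left _ two_pos, Nat.add_sub_cancel]
      rw [he, pow_mul]
      exact (congrArg (· ^ (j + 1)) h1).trans (one_pow _)
    have hm1 : Fintype.card F % 4 = 1 := by
      obtain ⟨j, hj⟩ : ∃ j, q₀ = 2 * j + 1 := ⟨q₀ / 2, by omega⟩
      rw [hqk, hj, show (2 * j + 1) ^ 2 = 4 * (j * j + j) + 1 by ring]
      omega
    obtain ⟨i, hi⟩ := neg_one_isSquare_of_mod_four hm1
    have hz : ∀ b : F, b ^ 2 ≠ -z' := fun b hb => hz' (i * b) (by rw [mul_pow, hi, hb]; ring)
    obtain ⟨f, hf⟩ := exists_pow_eq_smul (r := 2) (n := 2 * m) hz (dvd_mul_right 2 m)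
    obtain ⟨-, hdet, -⟩ := of_pow_eq_smul_nonpower hz hf
    rw [Module.finrank_fin_fun, Nat.mul_div_cancel_left _ two_pos, neg_one_sq, one_mul, neg_neg, hzm] at hdet
    have hns : ∀ c : F, f ≠ c • 1 := by
      rintro c rfl
      refine hz c ?_
      rw [_root_.smul_pow, one_pow] at hf
      simpa using congrFun (LinearMap.congr_fun hf (Pi.single 0 1)) 0
    obtain ⟨x, -, hxz, hxns⟩ := exists_sl_of_end hdet hf hns
    obtain ⟨P, hP⟩ := h x ⟨_, hxz⟩ hxns
    obtain ⟨c, A, hA⟩ := (mem_iff F₀ _).1 hP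
    have hsq : ((P⁻¹ * x * P : Matrix.SpecialLinearGroup (Fin (2 * m)) F) : Matrix (Fin (2 * m)) (Fin (2 * m)) F) ^ 2 =
        (-z') • 1 := by
      rw [← Matrix.SpecialLinearGroup.coe_pow,
        show (P⁻¹ * x * P) ^ 2 = P⁻¹ * x ^ 2 * P by simp [sq, mul_assoc],
        Matrix.SpecialLinearGroup.coe_mul, Matrix.SpecialLinearGroup.coe_mul, hxz, mul_smul_comm, mul_one,
        smul_mul_assoc, ← Matrix.SpecialLinearGroup.coe_mul, inv_mul_cancel, Matrix.SpecialLinearGroup.coe_one]
    rw [hA, smul_pow] at hsq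
    have h00 := congrFun (congrFun hsq 0) 0
    rw [Matrix.smul_apply, Matrix.smul_apply, Matrix.one_apply_eq, smul_eq_mul, smul_eq_mul, mul_one,
      ← RingHom.mapMatrix_apply, ← map_pow, RingHom.mapMatrix_apply, Matrix.map_apply] at h00
    obtain ⟨b, hb⟩ := hsquare _ ((A ^ 2) 0 0).2
    refine hz (c * b) ?_
    rw [mul_pow, hb, ← h00]
    rfl
  · intro hR x ⟨z, hz⟩ hns
    have hz0 := scalar_ne_zero hz
    set T : Module.End F (Fin n → F) := Matrix.toLin' (x : Matrix (Fin n) (Fin n) F) with hT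
    have hTz : T ^ 2 = z • 1 := toLin'_pow_eq_smul hz
    have hTT : ∀ u, T (T u) = z • u := fun u => by simpa [sq] using LinearMap.congr_fun hTz u
    by_cases h2 : (2 : F) = 0
    · have : p = 2 := by
        have h3 : ((2 : ℕ) : F) = 0 := by simpa using h2
        exact (Nat.prime_dvd_prime_iff_eq hppr Nat.prime_two).mp ((CharP.cast_eq_zero_iff F p 2).1 h3)
      subst this
      have hsqrt : ∀ δ : F, ∃ u : F, u ^ 2 = δ := fun δ => by
        obtain ⟨u, hu⟩ := (Finite.injective_iff_surjective.mp (frobenius_inj F 2)) δ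
        exact ⟨u, by rw [← hu, frobenius_def]⟩
      obtain ⟨w, hw⟩ := hsqrt z
      have hw0 : w ≠ 0 := by rintro rfl; exact hz0 (by rw [← hw]; simp)
      have hN : (w⁻¹ • T - 1) ^ 2 = 0 := by
        refine LinearMap.ext fun u => ?_
        simp only [sq, Module.End.mul_apply, LinearMap.sub_apply, LinearMap.smul_apply,
          Module.End.one_apply, map_sub, map_smul, hTT, smul_sub, smul_smul, LinearMap.zero_apply, ← hw]
        rw [show w⁻¹ * (w⁻¹ * (w * w)) = (w * w⁻¹) * (w * w⁻¹) by ring, mul_inv_cancel₀ hw0, mul_one, one_smul,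
          show u - w⁻¹ • T u - (w⁻¹ • T u - u) = (2 : F) • u - ((2 : F) * w⁻¹) • T u by module, h2]
        simp
      obtain ⟨s, r, b0, hb1, hb2, hb3⟩ := exists_basis_of_sq_zero hN
      rcases s with _ | s
      · exfalso
        refine hns w (Matrix.toLin'.injective ?_)
        rw [toLin'_smul_one, ← hT]
        refine b0.ext fun k => ?_
        rcases k with (i | i) | j
        · exact i.elim0
        · exact i.elim0
        · have h := hb3 j
          simp only [LinearMap.sub_apply, LinearMap.smul_apply, Module.End.one_apply, sub_eq_zero] at h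
          rw [LinearMap.smul_apply, Module.End.one_apply]
          conv_rhs => rw [← h, smul_inv_smul₀ hw0]
      let A : Matrix ((Fin (s + 1) ⊕ Fin (s + 1)) ⊕ Fin r) ((Fin (s + 1) ⊕ Fin (s + 1)) ⊕ Fin r) F₀ :=
        Matrix.fromBlocks (Matrix.fromBlocks 1 0 1 1) 0 0 1
      have hA : A.map (F₀.subtype : F₀ →+* F) = Matrix.fromBlocks (Matrix.fromBlocks 1 0 1 1) 0 0 1 := by
        simp [A, Matrix.fromBlocks_map]
      refine conj_mem F₀ x b0 w A ?_ fun δ _ => ?_
      · rw [← hT, map_smul]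
        refine b0.ext fun k => ?_
        have hTk : ∀ u, T u = w • (u + (w⁻¹ • T - 1) u) := fun u => by
          simp [smul_inv_smul₀ hw0]
        rw [LinearMap.smul_apply, Matrix.toLin_self, hA, hTk]
        congr 1
        rcases k with (i | i) | j
        · rw [hb1]; simp [Fintype.sum_sum_type, Matrix.one_apply, ite_smul]
        · rw [hb2]; simp [Fintype.sum_sum_type, Matrix.one_apply, ite_smul]
        · rw [hb3]; simp [Fintype.sum_sum_type, Matrix.one_apply, ite_smul]
      · obtain ⟨u, hu⟩ := hsqrt δ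
        let d : Fin (s + 1) → F := Function.update (fun _ => 1) 0 u
        refine ⟨Matrix.fromBlocks (Matrix.fromBlocks (diagonal d) 0 0 (diagonal d)) 0 0 1, ?_, ?_⟩
        · rw [hA]
          simp only [Matrix.fromBlocks_multiply, Matrix.mul_one, Matrix.one_mul, Matrix.mul_zero, Matrix.zero_mul,
            add_zero, zero_add]
        · rw [Matrix.det_fromBlocks_zero₁₂, Matrix.det_fromBlocks_zero₁₂, Matrix.det_one, mul_one,
            det_diagonal, ← hu, sq]
          simp [d, Finset.prod_update_of_mem]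
    · by_cases hsq : ∃ w : F, w ^ 2 = z
      · obtain ⟨w, hw⟩ := hsq
        have hw0 : w ≠ 0 := by rintro rfl; exact hz0 (by rw [← hw]; simp)
        obtain ⟨a, b, b0, hab, hTb⟩ := exists_eigen_basis_of_sq h2 hw0 (T := T)
          (fun u => by rw [hw]; exact hTT u)
        refine conj_mem F₀ x b0 w (diagonal (Sum.elim (fun _ => 1) fun _ => -1)) ?_ fun δ _ => ?_
        · rw [← hT, hTb, Matrix.diagonal_map (map_zero _), ← Matrix.diagonal_smul]
          congr 2
          funext i
          rcases i with i | i <;> simp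
        · obtain ⟨i⟩ : Nonempty (Fin a ⊕ Fin b) :=
            ⟨(finSumFinEquiv.trans (finCongr hab)).symm 0⟩
          refine ⟨diagonal (Function.update (fun _ => 1) i δ), ?_, ?_⟩
          · rw [Matrix.diagonal_map (map_zero _), diagonal_mul_diagonal, diagonal_mul_diagonal]
            exact congrArg diagonal (funext fun j => mul_comm _ _)
          · simp [Finset.prod_update_of_mem]
      · push Not at hsq
        have hqodd := hcard.2 h2
        obtain ⟨hk2, hle⟩ := hR (Nat.odd_iff.2 hqodd)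
        exfalso
        obtain ⟨⟨m, rfl⟩, hdet, -⟩ : 2 ∣ n ∧ _ := by
          have h := of_pow_eq_smul_nonpower hsq hTz
          rwa [Module.finrank_fin_fun] at h
        have hm0 : m ≠ 0 := by have := NeZero.ne (2 * m); omega
        have hd : 2 ∣ Fintype.card F - 1 := by omega
        subst hk2
        have hm1 : Fintype.card F % 4 = 1 := by
          obtain ⟨j, hj⟩ : ∃ j, q₀ = 2 * j + 1 := by
            rw [hqk] at hqodd
            have := Nat.odd_iff.1 (Odd.of_dvd_nat (Nat.odd_iff.2 hqodd) (dvd_pow_self q₀ two_ne_zero))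
            exact ⟨q₀ / 2, by omega⟩
          rw [hqk, hj, show (2 * j + 1) ^ 2 = 4 * (j * j + j) + 1 by ring]
          omega
        obtain ⟨i, hi⟩ := neg_one_isSquare_of_mod_four hm1
        have hz' : ∀ b : F, b ^ 2 ≠ -z := fun b hb => hsq (i * b) (by rw [mul_pow, hi, hb]; ring)
        rw [hT, toLin'_det_one, Nat.mul_div_cancel_left _ two_pos, neg_one_sq, one_mul] at hdet
        have h := padicValNat_le_of_nonpower hd hz' hdet.symm hm0
        rw [padicValNat.mul two_ne_zero hm0, padicValNat.self one_lt_two] at hle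
        omega

end Cfsg.Agent.S5964
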