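import Cfsg.Statements.S5965
import Cfsg.Agent.Eq.Def_GeometricClasses
import Cfsg.Agent.Classical.Semisimple.SubfieldConj
import Cfsg.Agent.Classical.Semisimple.LinearElusive
-- import your own Cfsg.Agent.* helpers here

set_option autoImplicit false
open scoped MatrixGroups
open Cfsg

namespace Cfsg.Agent.S5965

open Module Matrix Polynomial CfsgLib.Classical.Semisimple CfsgLib.Classical.Semisimple.SubfieldConj

private theorem five_sym : ∀ b c d : ZMod 5, ∃ a0 : ZMod 5, ∀ v : ZMod 5,
    Multiset.count (2 * a0 - v) ({0, b, c, d, -(b + c + d)} : Multiset (ZMod 5)) =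
    Multiset.count v ({0, b, c, d, -(b + c + d)} : Multiset (ZMod 5)) := by decide +kernel

private theorem three_sym : ∀ b : ZMod 3, ∃ a0 : ZMod 3, ∀ v : ZMod 3,
    Multiset.count (2 * a0 - v) ({0, b, -b} : Multiset (ZMod 3)) =
    Multiset.count v ({0, b, -b} : Multiset (ZMod 3)) := by decide +kernel

/-- Multisets of size 3 or 5 with sum zero modulo their size are symmetric. -/
private theorem exists_centre {r : ℕ} [Fact r.Prime] (h : r = 3 ∨ r = 5) (A : Multiset (ZMod r))
    (hA : A.card = r) (hs : A.sum = 0) : ∃ a0 : ZMod r, A.map (fun v => 2 * a0 - v) = A := by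
  classical
  obtain ⟨a, ha⟩ := Multiset.card_pos_iff_exists_mem.1 (by rw [hA]; exact (Fact.out : r.Prime).pos : 0 < A.card)
  suffices h' : ∃ a0 : ZMod r, ∀ v, (A.map (fun v => v - a)).count (2 * a0 - v) = (A.map (fun v => v - a)).count v by
    obtain ⟨a0, h0⟩ := h'
    refine ⟨a0 + a, Multiset.ext.2 fun v => ?_⟩
    have hinj : Function.Injective fun w : ZMod r => 2 * (a0 + a) - w := sub_right_injective
    have hinj' : Function.Injective fun w : ZMod r => w - a := sub_left_injective
    conv_lhs => rw [show v = (fun w : ZMod r => 2 * (a0 + a) - w) (2 * (a0 + a) - v) by ring]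
    rw [Multiset.count_map_eq_count' _ _ hinj, ← Multiset.count_map_eq_count' _ _ hinj',
      ← Multiset.count_map_eq_count' _ A hinj' v, ← h0 (v - a)]
    congr 1
    ring
  have hs' : (A.map (fun v => v - a)).sum = 0 := by
    rw [Multiset.sum_map_sub, Multiset.map_id', hs, Multiset.map_const', Multiset.sum_replicate, hA, nsmul_eq_mul,
      ZMod.natCast_self, zero_mul, sub_zero]
  have h0 : (0 : ZMod r) ∈ A.map (fun v => v - a) := Multiset.mem_map.2 ⟨a, ha, sub_self a⟩
  have hcard : (A.map (fun v => v - a)).card = r := by rw [Multiset.card_map, hA]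
  generalize A.map (fun v => v - a) = B at hs' h0 hcard ⊢
  obtain ⟨C, rfl⟩ := Multiset.exists_cons_of_mem h0
  rcases h with rfl | rfl
  · obtain ⟨b, c, rfl⟩ := Multiset.card_eq_two.1 (show C.card = 2 by simpa using hcard)
    obtain rfl : c = -b := by
      simp only [Multiset.insert_eq_cons, Multiset.sum_cons, Multiset.sum_singleton, zero_add] at hs'
      linear_combination hs'
    exact three_sym b
  · obtain ⟨b, C, hb, rfl, hC⟩ : ∃ b C', b ∈ C ∧ C = b ::ₘ C' ∧ C'.card = 3 := by
      obtain ⟨b, hb⟩ := Multiset.card_pos_iff_exists_mem.1 (show 0 < C.card by simp at hcard; omega)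
      obtain ⟨C', rfl⟩ := Multiset.exists_cons_of_mem hb
      exact ⟨b, C', hb, rfl, by simpa using hcard⟩
    obtain ⟨c, d, e, rfl⟩ := Multiset.card_eq_three.1 hC
    obtain rfl : e = -(b + c + d) := by
      simp only [Multiset.insert_eq_cons, Multiset.sum_cons, Multiset.sum_singleton, zero_add] at hs'
      linear_combination hs'
    exact five_sym b c d

/-- The quotient `(q₀^k)^j - 1` by `q₀^j - 1`. -/
private theorem geom_mul (X k : ℕ) (hX : 1 ≤ X) : (X - 1) * (∑ l ∈ Finset.range k, X ^ l) = X ^ k - 1 := by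
  induction k with
  | zero => simp
  | succ k ih =>
    have : 1 ≤ X ^ k := Nat.one_le_pow _ _ hX
    have : X ^ k ≤ X ^ (k + 1) := Nat.pow_le_pow_right hX (Nat.le_succ k)
    rw [Finset.sum_range_succ, Nat.mul_add, ih, Nat.sub_mul, one_mul, pow_succ']
    rw [pow_succ'] at this
    omega

/-- A prime dividing the index forces a jump of multiplicative orders. -/
private theorem exists_jump {F : Type*} [Field F] [Fintype F] {n : ℕ} [NeZero n] (F₀ : Subfield F) {k q₀ r : ℕ}
    [Fact r.Prime] (hk : k.Prime) (hF₀ : Nat.card F₀ = q₀) (hqk : Fintype.card F = q₀ ^ k) (hrk : r ≠ k)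
    (hrq : ¬ r ∣ q₀)
    (hdvd : r ∣ ((Cfsg.Geo.subfieldSubgroup F₀ 1).comap
      (Matrix.SpecialLinearGroup.toGL : Matrix.SpecialLinearGroup (Fin n) F →* GL (Fin n) F)).index) :
    ∃ j, 2 ≤ j ∧ j ≤ n ∧ (q₀ : ZMod r) ^ (k * j) = 1 ∧ (q₀ : ZMod r) ^ j ≠ 1 := by
  classical
  have hrpr : r.Prime := Fact.out
  set H := (Cfsg.Geo.subfieldSubgroup F₀ 1).comap
      (Matrix.SpecialLinearGroup.toGL : Matrix.SpecialLinearGroup (Fin n) F →* GL (Fin n) F)
  let φ : Matrix.SpecialLinearGroup (Fin n) F₀ →* Matrix.SpecialLinearGroup (Fin n) F :=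
    Matrix.SpecialLinearGroup.map (F₀.subtype : F₀ →+* F)
  have hinj : Function.Injective φ := by
    intro A B h
    refine Subtype.ext (Matrix.ext fun i j => ?_)
    exact Subtype.ext (congrFun (congrFun (congrArg Subtype.val h) i) j)
  have hle : φ.range ≤ H := by
    rintro _ ⟨A, rfl⟩
    exact (mem_iff F₀ _).2 ⟨1, A.1, (one_smul _ _).symm⟩
  have : Fintype F₀ := Fintype.ofFinite _
  have hq0 : Fintype.card F₀ = q₀ := by rw [← Nat.card_eq_fintype_card, hF₀]
  have hq01 : 1 < q₀ := by rw [← hq0]; exact Fintype.one_lt_card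
  have h1 : r * Nat.card (Matrix.SpecialLinearGroup (Fin n) F₀) ∣
      Nat.card (Matrix.SpecialLinearGroup (Fin n) F) := by
    rw [← H.index_mul_card, Nat.card_congr (MonoidHom.ofInjective hinj).toEquiv]
    exact mul_dvd_mul hdvd (Subgroup.card_dvd_of_le hle)
  have h2 := mul_dvd_mul h1 (dvd_refl ((Fintype.card F - 1) * (Fintype.card F₀ - 1)))
  rw [← mul_assoc (Nat.card (Matrix.SpecialLinearGroup (Fin n) F)), ← card_gl_eq_card_sl_mul,
    show r * Nat.card (Matrix.SpecialLinearGroup (Fin n) F₀) *
      ((Fintype.card F - 1) * (Fintype.card F₀ - 1)) =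
      r * (Nat.card (Matrix.SpecialLinearGroup (Fin n) F₀) * (Fintype.card F₀ - 1)) *
        (Fintype.card F - 1) by ring, ← card_gl_eq_card_sl_mul, card_gl_eq, card_gl_eq, hq0, hqk] at h2
  let S : ℕ → ℕ := fun j => ∑ l ∈ Finset.range k, (q₀ ^ j) ^ l
  have hp : ∀ j, (q₀ ^ k) ^ j - 1 = (q₀ ^ j - 1) * S j := fun j => by
    rw [geom_mul _ _ (Nat.one_le_pow _ _ (by omega)), ← pow_mul, mul_comm, pow_mul]
  have hp1 : q₀ ^ k - 1 = (q₀ - 1) * S 1 := by simpa using hp 1
  simp only [hp] at h2
  rw [hp1, Finset.prod_mul_distrib] at h2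
  set E := ∏ i ∈ Finset.range n, (q₀ ^ (i + 1) - 1)
  have hE : 0 < E * (q₀ - 1) := Nat.mul_pos
    (Finset.prod_pos fun i _ => Nat.sub_pos_of_lt (Nat.one_lt_pow (by omega) hq01)) (by omega)
  have h3 : r * q₀ ^ (∑ i ∈ Finset.range n, i) * S 1 * (E * (q₀ - 1)) ∣
      (q₀ ^ k) ^ (∑ i ∈ Finset.range n, i) * (∏ i ∈ Finset.range n, S (i + 1)) * (E * (q₀ - 1)) :=
    (dvd_of_eq (by ring)).trans (h2.trans (dvd_of_eq (by ring)))
  have h4 := Nat.dvd_of_mul_dvd_mul_right hE h3
  obtain ⟨m, rfl⟩ : ∃ m, n = m + 1 := ⟨n - 1, by have := NeZero.ne n; omega⟩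
  rw [Finset.prod_range_succ' (fun i => S (i + 1)), ← mul_assoc, zero_add] at h4
  have hS1 : 0 < S 1 := Finset.sum_pos (fun l _ => pow_pos (pow_pos (by omega) _) _) ⟨0, by simp [hk.pos]⟩
  have h5 := (dvd_mul_right r _).trans (Nat.dvd_of_mul_dvd_mul_right hS1 h4)
  rcases hrpr.dvd_mul.1 h5 with h6 | h6
  · exact absurd (hrpr.dvd_of_dvd_pow (hrpr.dvd_of_dvd_pow h6)) hrq
  obtain ⟨i, hi, hiS⟩ := (Prime.dvd_finsetProd_iff hrpr.prime _).mp h6
  rw [Finset.mem_range] at hi
  refine ⟨i + 1 + 1, by omega, by omega, ?_⟩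
  have hS0 : ((S (i + 1 + 1) : ℕ) : ZMod r) = 0 := (ZMod.natCast_eq_zero_iff _ _).2 hiS
  simp only [S, Nat.cast_sum, Nat.cast_pow] at hS0
  have hne : (q₀ : ZMod r) ^ (i + 1 + 1) ≠ 1 := by
    intro h
    simp only [h, one_pow, Finset.sum_const, Finset.card_range, nsmul_eq_mul, mul_one] at hS0
    exact hrk ((Nat.prime_dvd_prime_iff_eq hrpr hk).1 ((ZMod.natCast_eq_zero_iff _ _).1 hS0))
  refine ⟨?_, hne⟩
  have h7 := geom_sum_mul ((q₀ : ZMod r) ^ (i + 1 + 1)) k
  rw [hS0, zero_mul, eq_comm, sub_eq_zero, ← pow_mul, mul_comm] at h7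
  exact h7

/-- An `n`-th root of a root of unity, when `n` is not too divisible by `r`. -/
private theorem exists_root {F : Type*} [Field F] [Fintype F] {r n : ℕ} [Fact r.Prime] (hn : n ≠ 0)
    (hv : padicValNat r n < padicValNat r (Fintype.card F - 1)) {η : F} (hη : η ^ r = 1) :
    ∃ w : F, w ^ n = η := by
  have hrpr : r.Prime := Fact.out
  have hη0 : η ≠ 0 := by rintro rfl; simp [hrpr.ne_zero] at hη
  obtain ⟨g, hg⟩ := IsCyclic.exists_generator (α := Fˣ)
  have hg' : orderOf g = Fintype.card F - 1 := by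
    rw [orderOf_eq_card_of_forall_mem_zpowers hg, Nat.card_units, Nat.card_eq_fintype_card]
  obtain ⟨e, he⟩ := Subgroup.mem_zpowers_iff.1 (hg (Units.mk0 η hη0))
  set N := Fintype.card F - 1
  have hN0 : N ≠ 0 := fun h => by rw [h] at hv; simp at hv
  obtain ⟨M, hM⟩ := Nat.gcd_dvd_right n N
  have hG0 : Nat.gcd n N ≠ 0 := Nat.gcd_ne_zero_left hn
  obtain ⟨M', hM'⟩ : r ∣ M := by
    by_contra hrM
    have hM0 : M ≠ 0 := fun h => hN0 (by rw [hM, h, mul_zero])
    have h1 : padicValNat r (Nat.gcd n N) ≤ padicValNat r n :=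
      (padicValNat_dvd_iff_le hn).1 (pow_padicValNat_dvd.trans (Nat.gcd_dvd_left n N))
    have h2 := congrArg (padicValNat r) hM
    rw [padicValNat.mul hG0 hM0, padicValNat.eq_zero_of_not_dvd hrM, add_zero] at h2
    omega
  have hde : (N : ℤ) ∣ e * r := by
    rw [← hg', orderOf_dvd_iff_zpow_eq_one, _root_.zpow_mul, he, zpow_natCast]
    exact Units.ext (by simpa using hη)
  obtain ⟨l, hl⟩ := hde
  have he' : e = (Nat.gcd n N : ℤ) * (M' * l) := by
    have hr0 : (r : ℤ) ≠ 0 := by exact_mod_cast hrpr.ne_zero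
    refine mul_right_cancel₀ hr0 (hl.trans ?_)
    rw [show (N : ℤ) = (Nat.gcd n N : ℤ) * (r * M') by exact_mod_cast hM.trans (by rw [hM'])]
    ring
  rw [Nat.gcd_eq_gcd_ab, add_mul] at he'
  refine ⟨((g ^ (Nat.gcdA n N * (M' * l)) : Fˣ) : F), ?_⟩
  rw [← Units.val_pow_eq_pow_val]
  refine (congrArg (fun v : Fˣ => (v : F)) ?_).trans (Units.val_mk0 hη0)
  rw [← he, he', _root_.zpow_add, mul_assoc (N : ℤ), _root_.zpow_mul g (N : ℤ), zpow_natCast, ← hg', pow_orderOf_eq_one, _root_.one_zpow,
    mul_one, ← zpow_natCast, ← _root_.zpow_mul]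
  congr 1
  ring

/-- An element with one orbit of eigenvalues when the orbits are longer than one. -/
private theorem long_orbit {F : Type*} [Field F] [Fintype F] {p : ℕ} [Fact p.Prime] [CharP F p] {n : ℕ} [NeZero n]
    (F₀ : Subfield F) {k q₀ r : ℕ} [Fact r.Prime] (hk : k.Prime) (hF₀ : Nat.card F₀ = q₀)
    (hqk : Fintype.card F = q₀ ^ k) (hrF : (r : F) ≠ 0) (hi : orderOf (Fintype.card F : ZMod r) ≠ 1)
    (hin : orderOf (Fintype.card F : ZMod r) ≤ n) (hki : k ∣ orderOf (q₀ : ZMod r)) :
    ∃ x : Matrix.SpecialLinearGroup (Fin n) F,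
      ((x ^ r : Matrix.SpecialLinearGroup (Fin n) F) : Matrix (Fin n) (Fin n) F) = (1 : F) • 1 ∧
      (∀ c : F, (x : Matrix (Fin n) (Fin n) F) ≠ c • 1) ∧
      ∀ P : Matrix.SpecialLinearGroup (Fin n) F, P⁻¹ * x * P ∉ (Cfsg.Geo.subfieldSubgroup F₀ 1).comap
        (Matrix.SpecialLinearGroup.toGL : Matrix.SpecialLinearGroup (Fin n) F →* GL (Fin n) F) := by
  classical
  set i := orderOf (Fintype.card F : ZMod r) with hi'
  set u := (q₀ : ZMod r) with hu
  have hqu : (Fintype.card F : ZMod r) = u ^ k := by rw [hqk, Nat.cast_pow]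
  have hipos : 0 < i := orderOf_card_pos hrF
  obtain ⟨f, hf, hker, -, Q, hQ0, hQd, hQf⟩ := exists_pow_eq_one_finrank_ker_aeval hrF (l := 1) (n := n) (by omega)
  have hdet : LinearMap.det f = 1 := CfsgLib.Classical.Semisimple.eq_one_of_pow_eq_one (r := r) hi (by rw [← map_pow, hf, map_one])
  have hnn : n - 1 * i < n := by have := NeZero.ne n; omega
  obtain ⟨x, hxf, hxr, hxns⟩ := exists_sl_of_end hdet (z := 1) (by rw [hf, one_smul])
    (ne_smul_one_of_finrank_ker hf (by rw [hker, Fintype.card_fin]; exact hnn)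
      (fun c hc => CfsgLib.Classical.Semisimple.eq_one_of_pow_eq_one hi hc))
  refine ⟨x, hxr, hxns, fun P hP => ?_⟩
  obtain ⟨c, hc, hcoeff⟩ := exists_coeff_mem F₀ hP
  set χ := (x : Matrix (Fin n) (Fin n) F).charpoly
  set R := (χ.map (algebraMap F (AlgebraicClosure F))).roots with hR
  have hsplit : χ.map (algebraMap F (AlgebraicClosure F)) = (R.map fun ρ => X - C ρ).prod :=
    (IsAlgClosed.splits _).eq_prod_roots_of_monic ((Matrix.charpoly_monic _).map _)
  have hne0 : χ.map (algebraMap F (AlgebraicClosure F)) ≠ 0 := ((Matrix.charpoly_monic _).map _).ne_zero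
  have hrootQ : ∀ ρ ∈ R, (Q.map (algebraMap F (AlgebraicClosure F))).IsRoot ρ ∧ ρ ^ r = 1 := by
    intro ρ hρ
    have hroot := (Polynomial.mem_roots hne0).1 hρ
    refine ⟨eval_eq_zero_of_root (by rw [hxf]; exact hQf) hroot, ?_⟩
    have h1 := eval_eq_zero_of_root (Q := X ^ r - 1) (by rw [hxf]; simp [hf]) hroot
    simpa [sub_eq_zero] using h1
  obtain ⟨ρ, hρR, hρ1⟩ : ∃ ρ ∈ R, ρ ≠ 1 := by
    by_contra hc1
    push Not at hc1
    have hχ1 : χ = (X - C 1) ^ R.card := Polynomial.map_injective _ (algebraMap F (AlgebraicClosure F)).injective (by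
      rw [hsplit, Multiset.map_congr (g := fun _ => X - C 1) rfl (fun ρ hρ => by rw [hc1 ρ hρ]), Multiset.map_const', Multiset.prod_replicate]
      simp)
    have hN : (f - (1 : F) • 1) ^ R.card = 0 := by
      have h1 := Matrix.aeval_self_charpoly (x : Matrix (Fin n) (Fin n) F)
      have h2 := congrArg (Matrix.toLinAlgEquiv' (R := F)) h1
      rw [map_zero, ← Polynomial.aeval_algHom_apply, show Matrix.toLinAlgEquiv' (x : Matrix (Fin n) (Fin n) F) = f from hxf,
        show (x : Matrix (Fin n) (Fin n) F).charpoly = (X - C 1) ^ R.card from hχ1] at h2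
      simpa using h2
    have hcompl := isCompl_ker_range (isSemisimple_of_pow_eq_one hrF hf) (1 : F)
    have hzero : f - (1 : F) • 1 = 0 := by
      have key : ∀ m : ℕ, ∀ v, ((f - (1 : F) • 1) ^ m) v = 0 → (f - (1 : F) • 1) v = 0 := by
        intro m
        induction m with
        | zero => intro v hv; simp at hv; simp [hv]
        | succ m ih =>
          intro v hv
          rw [pow_succ, Module.End.mul_apply] at hv
          exact Submodule.disjoint_def.1 hcompl.disjoint _ (LinearMap.mem_ker.2 (ih _ hv)) ⟨v, rfl⟩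
      exact LinearMap.ext fun v => key _ v (by rw [hN]; rfl)
    rw [hzero, LinearMap.ker_zero, finrank_top, Module.finrank_fin_fun] at hker
    omega
  have hρr := (hrootQ ρ hρR).2
  have hord : orderOf ρ = r := orderOf_eq_prime hρr hρ1
  have hρ0 : ρ ≠ 0 := fun h => by simp [h, (Fact.out : r.Prime).ne_zero] at hρr
  -- stability under the subfield power
  have hR' := charpoly_smul_of_prod hc hsplit
  have hstab := stable_of_coeff_mem F₀ p hR' hcoeff
  rw [hF₀] at hstab
  obtain ⟨ρ1, hρ1R, hρ1e⟩ : ∃ ρ1 ∈ R, algebraMap F (AlgebraicClosure F) c * ρ1 =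
      (algebraMap F (AlgebraicClosure F) c * ρ) ^ q₀ := by
    have h1 : (algebraMap F (AlgebraicClosure F) c * ρ) ^ q₀ ∈ R.map fun ρ => algebraMap F (AlgebraicClosure F) c * ρ := by
      rw [← hstab]
      exact Multiset.mem_map_of_mem _ (Multiset.mem_map_of_mem _ hρR)
    exact Multiset.mem_map.1 h1
  have hρq : ρ ^ q₀ ∈ R := by
    obtain ⟨s, hs⟩ : ∃ s, q₀ = s + 1 := ⟨q₀ - 1, by
      have : q₀ ≠ 0 := by rintro rfl; rw [← hF₀] at hqk; simp [Nat.card_eq_zero] at hF₀
      omega⟩
    have hη : (c ^ s) ^ r = 1 := by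
      refine (algebraMap F (AlgebraicClosure F)).injective ?_
      rw [hs, mul_pow, pow_succ' (algebraMap F (AlgebraicClosure F) c), mul_assoc] at hρ1e
      have h2 := congrArg (fun z => z ^ r) (mul_left_cancel₀ ((_root_.map_ne_zero _).2 hc) hρ1e)
      simp only [mul_pow, (hrootQ ρ1 hρ1R).2, ← pow_mul ρ, mul_comm _ r, pow_mul, hρr, one_pow, mul_one] at h2
      rw [map_pow, map_pow, map_one]
      exact h2.symm
    have hc1 := CfsgLib.Classical.Semisimple.eq_one_of_pow_eq_one hi hη
    rw [mul_pow, ← map_pow, hs, pow_succ, hc1, one_mul] at hρ1e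
    rw [hs, ← mul_left_cancel₀ ((_root_.map_ne_zero _).2 hc) hρ1e]
    exact hρ1R
  -- two disjoint orbits of roots
  have hQK : Q.map (algebraMap F (AlgebraicClosure F)) ≠ 0 :=
    (Polynomial.map_ne_zero_iff (algebraMap F (AlgebraicClosure F)).injective).2 hQ0
  haveI : CharP (AlgebraicClosure F) p := charP_of_injective_algebraMap (algebraMap F (AlgebraicClosure F)).injective p
  obtain ⟨fq, -, hfq⟩ := FiniteField.card F p
  have hMq : R.map (fun ρ => ρ ^ Fintype.card F) = R := by
    rw [hfq]
    exact roots_pow_eq hsplit p fq fun j => by rw [← hfq]; exact FiniteField.pow_card _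
  have horb : ∀ j : ℕ, ∀ σ ∈ R, σ ^ Fintype.card F ^ j ∈ R := by
    intro j
    induction j with
    | zero => intro σ hσ; simpa using hσ
    | succ j ih =>
      intro σ hσ
      rw [pow_succ', pow_mul]
      exact ih _ (hMq ▸ Multiset.mem_map_of_mem (fun ρ => ρ ^ Fintype.card F) hσ)
  let T : Finset (AlgebraicClosure F) := (Finset.range i ×ˢ Finset.range 2).image fun s =>
    ρ ^ (q₀ ^ s.2 * Fintype.card F ^ s.1)
  have hT : T ⊆ (Q.map (algebraMap F (AlgebraicClosure F))).roots.toFinset := by
    intro σ hσ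
    obtain ⟨⟨a, b⟩, hab, rfl⟩ := Finset.mem_image.1 hσ
    rw [Finset.mem_product, Finset.mem_range, Finset.mem_range] at hab
    have hmem : ρ ^ (q₀ ^ b * Fintype.card F ^ a) ∈ R := by
      rw [pow_mul]
      refine horb _ _ ?_
      obtain rfl | rfl : b = 0 ∨ b = 1 := by omega
      · simpa using hρR
      · simpa using hρq
    rw [Multiset.mem_toFinset, Polynomial.mem_roots hQK]
    exact (hrootQ _ hmem).1
  have hTc : T.card = i * 2 := by
    rw [Finset.card_image_of_injOn ?_, Finset.card_product, Finset.card_range, Finset.card_range]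
    rintro ⟨a, b⟩ ha ⟨a', b'⟩ ha' he
    rw [Finset.mem_coe, Finset.mem_product, Finset.mem_range, Finset.mem_range] at ha ha'
    simp only at he
    have h1 : (u : ZMod r) ^ b * (u ^ k) ^ a = u ^ b' * (u ^ k) ^ a' := by
      have h := (IsOfFinOrder.pow_eq_pow_iff_modEq
        (isOfFinOrder_iff_pow_eq_one.2 ⟨r, (Fact.out : r.Prime).pos, hρr⟩)).1 he
      rw [hord] at h
      have h' := (ZMod.natCast_eq_natCast_iff _ _ r).2 h
      simpa [hu, hqu] using h'
    rw [← pow_mul, ← pow_mul, ← pow_add, ← pow_add] at h1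
    have hu0 : IsOfFinOrder u := isOfFinOrder_iff_pow_eq_one.2 ⟨k * i, Nat.mul_pos hk.pos hipos, by
      rw [pow_mul, ← hqu, hi', pow_orderOf_eq_one]⟩
    have h2 := (IsOfFinOrder.pow_eq_pow_iff_modEq hu0).1 h1
    have h3 : b ≡ b' [MOD k] := by
      have := h2.of_dvd hki
      simpa [Nat.ModEq] using this
    have hbb : b = b' := Nat.ModEq.eq_of_lt_of_lt h3 (ha.2.trans_le hk.two_le) (ha'.2.trans_le hk.two_le)
    subst hbb
    have h4 : (u ^ k) ^ a = (u ^ k) ^ a' := by
      rw [← pow_mul, ← pow_mul]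
      exact (IsOfFinOrder.pow_eq_pow_iff_modEq hu0).2 (Nat.ModEq.add_left_cancel' b h2)
    rw [← hqu] at h4
    exact Prod.ext (pow_injOn_Iio_orderOf (Set.mem_Iio.2 ha.1) (Set.mem_Iio.2 ha'.1) h4) rfl
  have hle := (Finset.card_le_card hT).trans ((Multiset.toFinset_card_le _).trans (Polynomial.card_roots' _))
  rw [hTc, Polynomial.natDegree_map_eq_of_injective (algebraMap F (AlgebraicClosure F)).injective, hQd] at hle
  omega

/-- Elements of odd prime order r ≠ p of PSL_n(q) and subfield subgroups. Here `T = PSL_n(F)` for a field `F` with `q = p^f` elements (`n ≥ 2`, `(n, q) ≠ (2, 2), (2, 3)`), `F₀` is the subfield with `q₀` elements where `q = q₀^k` for a prime `k`, and `H` is the subgroup of matrices of determinant 1 lying in the subfield group of `F₀` (invertible matrices over `F₀` times scalars) — a maximal subgroup of type GL_n(q₀) (the case `n = 2`, `q₀ = 2` is excluded); Ω is the set of `T`-conjugates of `H` (cosets of `H`), so an element of `T` of prime order `r` (a matrix `x` of determinant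 1 with `x^r` scalar, `x` not scalar) fixes a point of Ω when some conjugate of `x` by a matrix of determinant 1 lies in `H`. Let `r ≠ p` be an odd prime dividing the index of `H`, with `(n, r) ≠ (6, 3)` and, when `r = k` divides `q₀ − 1`, with `(n)_r ≤ (q − 1)_r`. Then every element of `T` of order `r` is conjugate in `T` into `H` if and only if `r = k`, or `k = 2`, `r = n ∈ {3, 5}` and `(q₀ + 1)_r = r`. The two excluded cases, `(n, r) = (6, 3)` and `r = k ∣ q₀ − 1` with `(n)_r > (q − 1)_r`, are ones where this criterion can fail, so they are left out. -/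
theorem result {F : Type*} [Field F] [Fintype F] {p : ℕ} [Fact p.Prime] [CharP F p] {q : ℕ} (hq : Fintype.card F = q)
    (n : ℕ) (hn : 2 ≤ n) (hT : (n, q) ≠ (2, 2) ∧ (n, q) ≠ (2, 3))
    (F₀ : Subfield F) (k q₀ : ℕ) (hk : k.Prime) (hF₀ : Nat.card ↥F₀ = q₀) (hqk : q = q₀ ^ k) (hC5 : ¬ (n = 2 ∧ q₀ = 2)) (r : ℕ) [Fact r.Prime] (hr2 : r ≠ 2) (hrp : r ≠ p) (hgap : ¬ (n = 6 ∧ r = 3)) (hgapk : r = k → r ∣ q₀ - 1 → padicValNat r n ≤ padicValNat r (q - 1)) (hΩ : r ∣ ((Cfsg.Geo.subfieldSubgroup F₀ 1).comap (Matrix.SpecialLinearGroup.toGL : Matrix.SpecialLinearGroup (Fin n) F →* GL (Fin n) F)).index) :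
    (∀ x : Matrix.SpecialLinearGroup (Fin n) F,
      (∃ z : F, ((x ^ r : Matrix.SpecialLinearGroup (Fin n) F) : Matrix (Fin n) (Fin n) F) = z • (1 : Matrix (Fin n) (Fin n) F)) →
      (∀ z : F, (x : Matrix (Fin n) (Fin n) F) ≠ z • (1 : Matrix (Fin n) (Fin n) F)) →
      ∃ P : Matrix.SpecialLinearGroup (Fin n) F, P⁻¹ * x * P ∈ ((Cfsg.Geo.subfieldSubgroup F₀ 1).comap (Matrix.SpecialLinearGroup.toGL : Matrix.SpecialLinearGroup (Fin n) F →* GL (Fin n) F))) ↔
    (r = k ∨ (k = 2 ∧ r = n ∧ (n = 3 ∨ n = 5) ∧ padicValNat r (q₀ + 1) = 1)) := by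
  classical
  subst hq
  have hrpr : r.Prime := Fact.out
  have hppr : p.Prime := Fact.out
  haveI : NeZero n := ⟨by omega⟩
  have : Nonempty (Fin n) := ⟨0⟩
  have hrF : (r : F) ≠ 0 := fun h =>
    hrp ((Nat.prime_dvd_prime_iff_eq hppr hrpr).1 ((CharP.cast_eq_zero_iff F p r).1 h)).symm
  have hrq : ¬ r ∣ q₀ := fun h => by
    obtain ⟨m, -, hm⟩ := FiniteField.card F p
    have h' : r ∣ Fintype.card F := hqk ▸ h.trans (dvd_pow_self _ hk.pos.ne')
    rw [hm] at h'
    exact hrp ((Nat.prime_dvd_prime_iff_eq hrpr hppr).1 (hrpr.dvd_of_dvd_pow h'))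
  have hq01 : 1 < q₀ := by
    haveI : Fintype F₀ := Fintype.ofFinite _
    rw [← hF₀, Nat.card_eq_fintype_card]; exact Fintype.one_lt_card
  set u := (q₀ : ZMod r) with hu
  have hqu : (Fintype.card F : ZMod r) = u ^ k := by rw [hqk, Nat.cast_pow]
  have hsub1 : ∀ m : ℕ, 1 ≤ m → (r ∣ m - 1 ↔ (m : ZMod r) = 1) := fun m hm => by
    rw [← ZMod.natCast_eq_zero_iff, Nat.cast_sub hm, Nat.cast_one, sub_eq_zero]
  obtain ⟨fq, -, hfq⟩ := FiniteField.card F p
  let K := AlgebraicClosure F
  haveI : CharP K p := charP_of_injective_algebraMap (algebraMap F K).injective p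
  have hsplit : ∀ M : Matrix (Fin n) (Fin n) F, M.charpoly.map (algebraMap F K) =
      ((M.charpoly.map (algebraMap F K)).roots.map fun ρ => X - C ρ).prod := fun M =>
    (IsAlgClosed.splits _).eq_prod_roots_of_monic ((Matrix.charpoly_monic _).map _)
  constructor
  · intro hall
    by_contra hR
    rw [not_or] at hR
    obtain ⟨hrk, hR2⟩ := hR
    obtain ⟨j, hj2, hjn, hj1, hj0⟩ := exists_jump F₀ hk hF₀ hqk hrk hrq hΩ
    have hkord : k ∣ orderOf u := by
      by_contra hnd
      refine hj0 (orderOf_dvd_iff_pow_eq_one.1 ?_)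
      exact ((hk.coprime_iff_not_dvd.2 hnd).symm).dvd_of_dvd_mul_left (orderOf_dvd_of_pow_eq_one hj1)
    by_cases hi : orderOf (Fintype.card F : ZMod r) = 1
    swap
    · have hin : orderOf (Fintype.card F : ZMod r) ≤ n :=
        (Nat.le_of_dvd (by omega) (orderOf_dvd_of_pow_eq_one (by rw [hqu, ← pow_mul, hj1]))).trans hjn
      obtain ⟨x, hxr, hxns, hbad⟩ := long_orbit (p := p) F₀ hk hF₀ hqk hrF hi hin hkord
      obtain ⟨P, hP⟩ := hall x ⟨1, hxr⟩ hxns
      exact hbad P hP
    rw [orderOf_eq_one_iff, hqu] at hi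
    have hu1 : u ≠ 1 := fun h => hj0 (by rw [← hu, h, one_pow])
    haveI : Fact k.Prime := ⟨hk⟩
    have hordu : orderOf u = k := orderOf_eq_prime hi hu1
    have hkr : k ∣ r - 1 := hordu ▸ orderOf_dvd_of_pow_eq_one (ZMod.pow_card_sub_one_eq_one
      (fun h0 : u = 0 => by rw [h0, zero_pow hk.pos.ne'] at hi; exact zero_ne_one hi))
    have hrq1 : r ∣ Fintype.card F - 1 := (hsub1 _ Fintype.card_pos).2 (hqu.trans hi)
    obtain ⟨ζ, hζ⟩ := exists_prime_orderOf_dvd_card' (G := Fˣ) r (by
      rw [Nat.card_units, Nat.card_eq_fintype_card]; exact hrq1)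
    let e : ZMod r → F := fun a => ((ζ ^ a.val : Fˣ) : F)
    have hemod : ∀ m m' : ℕ, (m : ZMod r) = m' → ζ ^ m = ζ ^ m' := fun m m' h => by
      rw [pow_eq_pow_iff_modEq, hζ]
      exact (ZMod.natCast_eq_natCast_iff _ _ r).1 h
    have heinj : Function.Injective e := fun a b h => ZMod.val_injective r
      (pow_injOn_Iio_orderOf (by rw [hζ]; exact Set.mem_Iio.2 (ZMod.val_lt a))
        (by rw [hζ]; exact Set.mem_Iio.2 (ZMod.val_lt b)) (Units.ext h))
    have headd : ∀ a b, e (a + b) = e a * e b := fun a b => by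
      simp only [e, ← Units.val_mul, ← pow_add]
      rw [hemod (a + b).val (a.val + b.val) (by simp)]
    have hepow : ∀ a, e a ^ q₀ = e (u * a) := fun a => by
      simp only [e, ← Units.val_pow_eq_pow_val, ← pow_mul]
      rw [hemod (a.val * q₀) (u * a).val (by simp [hu, mul_comm])]
    have he1 : ∀ a, e a ^ r = 1 := fun a => by
      simp only [e, ← Units.val_pow_eq_pow_val]
      rw [← pow_mul, mul_comm, pow_mul, show ζ ^ r = 1 from hζ ▸ pow_orderOf_eq_one ζ, one_pow, Units.val_one]
    have he0 : e 0 = 1 := by simp [e]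
    have hesum : ∀ A : Multiset (ZMod r), (A.map e).prod = e A.sum := by
      intro A
      induction A using Multiset.induction_on with
      | empty => simp [he0]
      | cons a A ih => simp [ih, headd]
    have hbad : ∀ A : Multiset (ZMod r), A.card = n → (∃ a ∈ A, ∃ b ∈ A, a ≠ b) →
        (∃ w : F, w ^ n * e A.sum = 1) → ∃ b, A.map (fun a => u * a + b) = A := by
      intro A hA ⟨a1, ha1, b1, hb1, hab⟩ ⟨w, hw⟩
      have hw0 : w ≠ 0 := by rintro rfl; simp [zero_pow (NeZero.ne n)] at hw
      obtain ⟨a, rfl⟩ : ∃ a : Fin n → ZMod r, Finset.univ.val.map a = A :=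
        ⟨fun s => A.toList.get (s.cast (by rw [Multiset.length_toList, hA])), by
          have hl : A.toList.length = n := by rw [Multiset.length_toList, hA]
          subst hl
          rw [Fin.univ_val_map]
          exact (congrArg _ (List.ofFn_get A.toList)).trans A.coe_toList⟩
      let D : Matrix (Fin n) (Fin n) F := Matrix.diagonal fun s => w * e (a s)
      have hDdet : D.det = 1 := by
        rw [Matrix.det_diagonal, Finset.prod_mul_distrib, Finset.prod_const, Finset.card_univ, Fintype.card_fin]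
        show w ^ n * (Finset.univ.val.map fun s => e (a s)).prod = 1
        rw [show (Multiset.map (fun s => e (a s)) Finset.univ.val) = (Finset.univ.val.map a).map e by
          rw [Multiset.map_map]; rfl, hesum, hw]
      let x : Matrix.SpecialLinearGroup (Fin n) F := ⟨D, hDdet⟩
      have hxr : ((x ^ r : Matrix.SpecialLinearGroup (Fin n) F) : Matrix (Fin n) (Fin n) F) = (w ^ r) • 1 := by
        rw [Matrix.SpecialLinearGroup.coe_pow]
        show D ^ r = _
        rw [Matrix.diagonal_pow, Matrix.smul_one_eq_diagonal]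
        refine congrArg Matrix.diagonal (funext fun s => ?_)
        rw [Pi.pow_apply, mul_pow, he1, mul_one]
      have hxns : ∀ c : F, (x : Matrix (Fin n) (Fin n) F) ≠ c • 1 := by
        intro c hc
        rw [Matrix.smul_one_eq_diagonal] at hc
        have h1 := fun s => congrFun (Matrix.diagonal_injective hc) s
        obtain ⟨s, -, rfl⟩ := Multiset.mem_map.1 ha1
        obtain ⟨t, -, rfl⟩ := Multiset.mem_map.1 hb1
        exact hab (heinj (mul_left_cancel₀ hw0 ((h1 s).trans (h1 t).symm)))
      obtain ⟨P, hP⟩ := hall x ⟨_, hxr⟩ hxns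
      obtain ⟨c, hc, hcoeff⟩ := exists_coeff_mem F₀ hP
      have hχ : (x : Matrix (Fin n) (Fin n) F).charpoly.map (algebraMap F F) =
          (((Finset.univ.val.map a).map fun v => w * e v).map fun ρ => X - C ρ).prod := by
        rw [Algebra.algebraMap_self, Polynomial.map_id, show (x : Matrix (Fin n) (Fin n) F) = D from rfl,
          Matrix.charpoly_diagonal, Multiset.map_map, Multiset.map_map]
        rfl
      have hstab := stable_of_coeff_mem F₀ p (charpoly_smul_of_prod hc hχ) hcoeff
      simp only [Algebra.algebraMap_self, RingHom.id_apply, Multiset.map_map, hF₀] at hstab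
      have hs' : (Finset.univ.val.map a).map (fun v => (c * (w * e v)) ^ q₀) =
          (Finset.univ.val.map a).map (fun v => c * (w * e v)) := by
        simpa [Multiset.map_map, Function.comp_def] using hstab
      obtain ⟨a2, -, ha2⟩ := Multiset.mem_map.1 (hs' ▸ Multiset.mem_map_of_mem _ ha1)
      refine ⟨a2 - u * a1, Multiset.map_injective (f := fun v => c * (w * e v)) (fun v v' h => heinj
        (mul_left_cancel₀ hw0 (mul_left_cancel₀ hc h))) ?_⟩
      refine Eq.trans ?_ hs'
      simp only [Multiset.map_map]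
      refine Multiset.map_congr rfl fun v _ => ?_
      have hne : e (u * a1) ≠ 0 := Units.ne_zero _
      have ha2' : c * (w * e a2) = (c * w) ^ q₀ * e (u * a1) := by
        rw [ha2, ← mul_assoc, mul_pow, hepow]
      have h2 : c * (w * e (a2 - u * a1)) = (c * w) ^ q₀ := by
        refine mul_right_cancel₀ hne ?_
        rw [← ha2', mul_assoc, mul_assoc, ← headd, sub_add_cancel]
      show c * (w * e (u * a v + (a2 - u * a1))) = (c * (w * e (a v))) ^ q₀
      rw [headd, ← mul_assoc c w (e (a v)), mul_pow (c * w), hepow, ← h2]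
      ring
    have hfree : padicValNat r n < padicValNat r (Fintype.card F - 1) →
        ∀ A : Multiset (ZMod r), ∃ w : F, w ^ n * e A.sum = 1 := fun hv A => by
      obtain ⟨w, hw⟩ := exists_root (NeZero.ne n) hv (η := e (-A.sum)) (he1 _)
      exact ⟨w, by rw [hw, ← headd, neg_add_cancel, he0]⟩
    have hzero : ∀ A : Multiset (ZMod r), A.sum = 0 → ∃ w : F, w ^ n * e A.sum = 1 := fun A hA =>
      ⟨1, by rw [hA, he0, one_pow, one_mul]⟩
    have hv1 : 1 ≤ padicValNat r (Fintype.card F - 1) := by
      have : Fintype.card F - 1 ≠ 0 := by have := Fintype.one_lt_card (α := F); omega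
      exact one_le_padicValNat_of_dvd this hrq1
    -- two moving points
    have hfix : ∀ A : Multiset (ZMod r), ∀ b, A.map (fun a => u * a + b) = A →
        ∀ v, A.count (u * v + b) = A.count v := fun A b h v => by
      conv_lhs => rw [← h]
      exact Multiset.count_map_eq_count' _ A (fun x y hxy => by
        have := add_right_cancel hxy
        exact mul_left_cancel₀ (fun h0 : u = 0 => by rw [h0, zero_pow hk.pos.ne'] at hi; exact zero_ne_one hi) this) v
    rcases (show n = 2 ∨ 3 ≤ n by omega) with rfl | hn3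
    · have hk2 : k ≠ 2 := by
        rintro rfl
        obtain rfl : j = 2 := by omega
        exact hj0 hi
      obtain ⟨b, hb⟩ := hbad {0, 1} (by simp) ⟨0, by simp, 1, by simp, zero_ne_one⟩ (hfree (by
        rw [padicValNat.eq_zero_of_not_dvd fun h => hr2 ((Nat.prime_dvd_prime_iff_eq hrpr Nat.prime_two).1 h)]
        omega) _)
      have h0 : b = 0 ∨ b = 1 := by
        have : b ∈ ({0, 1} : Multiset (ZMod r)) := hb ▸ Multiset.mem_map.2 ⟨0, by simp, by simp⟩
        simpa using this
      have h1 : u + b = 0 ∨ u + b = 1 := by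
        have : u + b ∈ ({0, 1} : Multiset (ZMod r)) := hb ▸ Multiset.mem_map.2 ⟨1, by simp, by simp⟩
        simpa using this
      have hu0 : u ≠ 0 := fun h0 : u = 0 => by rw [h0, zero_pow hk.pos.ne'] at hi; exact zero_ne_one hi
      rcases h0 with rfl | rfl
      · rw [add_zero] at h1
        exact h1.elim hu0 hu1
      · rcases h1 with h1 | h1
        · have : u ^ 2 = 1 := by rw [eq_neg_of_add_eq_zero_left h1]; ring
          have h2 := orderOf_dvd_of_pow_eq_one this
          rw [hordu] at h2
          exact hk2 ((Nat.prime_dvd_prime_iff_eq hk Nat.prime_two).1 h2)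
        · exact hu0 (by linear_combination h1)
    by_cases hv : padicValNat r n < padicValNat r (Fintype.card F - 1)
    · obtain ⟨b, hb⟩ := hbad (Multiset.replicate (n - 1) 0 + {1}) (by simp; omega)
        ⟨0, by simp [Multiset.mem_replicate]; omega, 1, by simp, zero_ne_one⟩ (hfree hv _)
      have h0 := hfix _ b hb 0
      simp only [mul_zero, zero_add, Multiset.count_add, Multiset.count_replicate, Multiset.count_singleton] at h0
      have hb0 : b = 0 := by
        by_contra hne
        rw [if_neg (Ne.symm hne)] at h0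
        split_ifs at h0 <;> omega
      have h1 := hfix _ b hb 1
      simp only [hb0, mul_one, add_zero, Multiset.count_add, Multiset.count_replicate, Multiset.count_singleton,
        if_neg hu1] at h1
      have hu0 : u ≠ 0 := fun h0 : u = 0 => by rw [h0, zero_pow hk.pos.ne'] at hi; exact zero_ne_one hi
      simp [Ne.symm hu0] at h1
    have hrn : r ∣ n := dvd_of_one_le_padicValNat (by omega)
    have hu0 : u ≠ 0 := fun h0 : u = 0 => by rw [h0, zero_pow hk.pos.ne'] at hi; exact zero_ne_one hi
    have hn0 : ((n : ℕ) : ZMod r) = 0 := (ZMod.natCast_eq_zero_iff _ _).2 hrn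
    have hnr : r ≤ n := Nat.le_of_dvd (by omega) hrn
    have hsmall : ∀ m : ℕ, 0 < m → m < r → (m : ZMod r) ≠ 0 := fun m h1 h2 h => by
      have := Nat.le_of_dvd h1 ((ZMod.natCast_eq_zero_iff _ _).1 h)
      omega
    have h20 : (2 : ZMod r) ≠ 0 := fun h => hsmall 2 two_pos (by have := hrpr.two_le; omega) (by exact_mod_cast h)
    by_cases hk2 : k = 2
    · subst hk2
      by_cases hr5 : 5 ≤ r
      · by_cases hn6 : 6 ≤ n
        · have hne : ∀ m : ℕ, 0 < m → m < r → (m : ZMod r) ≠ 0 := hsmall
          have h30 : (3 : ZMod r) ≠ 0 := fun h => hsmall 3 (by omega) (by omega) (by exact_mod_cast h)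
          obtain ⟨b, hb⟩ := hbad (Multiset.replicate (n - 3) 0 + (Multiset.replicate 2 1 + {-2}))
            (by simp; omega) ⟨0, by simp [Multiset.mem_replicate]; omega, 1, by simp, zero_ne_one⟩ (hzero _ (by simp; ring))
          have h0 := hfix _ b hb 0
          simp only [mul_zero, zero_add, Multiset.count_add, Multiset.count_replicate, Multiset.count_singleton,
            eq_comm (a := (0 : ZMod r)) (b := -2), neg_eq_zero, h20, if_false, one_ne_zero, if_true] at h0
          have e1 : (1 : ZMod r) ≠ -2 := fun h => h30 (by linear_combination h)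
          have hb0 : b = 0 := by
            by_contra hne
            rw [if_neg (Ne.symm hne)] at h0
            split_ifs at h0 with hA hB <;> first | omega | exact e1 (hA.trans hB)
          subst hb0
          have h1 := hfix _ 0 hb 1
          simp only [mul_one, add_zero, Multiset.count_add, Multiset.count_replicate, Multiset.count_singleton] at h1
          simp only [Ne.symm hu0, Ne.symm hu1, zero_ne_one, e1, if_false, if_true] at h1
          split_ifs at h1 <;> omega
        · obtain ⟨c, hc⟩ := hrn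
          have hn5 : n = 5 ∧ r = 5 := by
            rcases c with _ | _ | c
            · omega
            · omega
            · have : r * 2 ≤ n := hc ▸ Nat.mul_le_mul_left r (by omega)
              omega
          refine hR2 ⟨rfl, hn5.2.trans hn5.1.symm, Or.inr hn5.1, ?_⟩
          obtain ⟨rfl, rfl⟩ := hn5
          rw [padicValNat.self (by omega)] at hv
          have h1 : padicValNat 5 (Fintype.card F - 1) = padicValNat 5 (q₀ + 1) := by
            rw [hqk, show q₀ ^ 2 - 1 = (q₀ - 1) * (q₀ + 1) by rw [← Nat.pow_two_sub_pow_two q₀ 1 |>.trans (mul_comm _ _)],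
              padicValNat.mul (by omega) (by omega), padicValNat.eq_zero_of_not_dvd fun h => hu1 ((hsub1 _ (by omega)).1 h),
              zero_add]
          omega
      · have hr3 : r = 3 := by
          have := hrpr.two_le
          rcases (show r = 3 ∨ r = 4 by omega) with h | h
          · exact h
          · rw [h] at hrpr; exact absurd hrpr (by decide)
        subst hr3
        obtain ⟨c, hc⟩ := hrn
        rcases (show c = 1 ∨ c = 2 ∨ 3 ≤ c by omega) with rfl | rfl | hc3
        · refine hR2 ⟨rfl, hc.symm, Or.inl hc, ?_⟩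
          rw [hc, mul_one, padicValNat.self (by omega)] at hv
          have h1 : padicValNat 3 (Fintype.card F - 1) = padicValNat 3 (q₀ + 1) := by
            rw [hqk, show q₀ ^ 2 - 1 = (q₀ - 1) * (q₀ + 1) by rw [← Nat.pow_two_sub_pow_two q₀ 1 |>.trans (mul_comm _ _)],
              padicValNat.mul (by omega) (by omega), padicValNat.eq_zero_of_not_dvd fun h => hu1 ((hsub1 _ (by omega)).1 h),
              zero_add]
          omega
        · exact hgap ⟨hc, rfl⟩
        · obtain ⟨b, hb⟩ := hbad (Multiset.replicate (n - 3) 0 + Multiset.replicate 3 1)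
            (by simp; omega) ⟨0, by simp [Multiset.mem_replicate]; omega, 1, by simp, zero_ne_one⟩ (hzero _ (by
              simp; rfl))
          have h0 := hfix _ b hb 0
          simp only [mul_zero, zero_add, Multiset.count_add, Multiset.count_replicate] at h0
          have hb0 : b = 0 := by
            by_contra hne
            rw [if_neg (Ne.symm hne)] at h0
            simp at h0
            split_ifs at h0 <;> omega
          subst hb0
          have h1 := hfix _ 0 hb 1
          simp [mul_one, add_zero, Multiset.count_replicate, Multiset.count_cons, Multiset.count_singleton, Ne.symm hu0, hu1, Ne.symm hu1] at h1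
    · have hk3 : 3 ≤ k := by have := hk.two_le; omega
      have hn5 : 5 ≤ n := by
        have := Nat.le_of_dvd (by have := hrpr.two_le; omega) hkr
        have hr4 : r ≠ 4 := fun h => by rw [h] at hrpr; exact absurd hrpr (by decide)
        omega
      have e11 : (1 : ZMod r) ≠ -1 := fun h => h20 (by linear_combination h)
      obtain ⟨b, hb⟩ := hbad (Multiset.replicate (n - 2) 0 + ({1} + {-1}))
        (by simp; omega) ⟨0, by simp [Multiset.mem_replicate]; omega, 1, by simp, zero_ne_one⟩ (hzero _ (by simp))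
      have h0 := hfix _ b hb 0
      simp only [mul_zero, zero_add, Multiset.count_add, Multiset.count_replicate, Multiset.count_singleton] at h0
      have hb0 : b = 0 := by
        by_contra hne
        rw [if_neg (Ne.symm hne)] at h0
        simp at h0
        split_ifs at h0 <;> omega
      subst hb0
      have h1 := hfix _ 0 hb 1
      simp only [mul_one, add_zero, Multiset.count_add, Multiset.count_replicate, Multiset.count_singleton,
        Ne.symm hu0, zero_ne_one, hu1, e11, if_false, if_true] at h1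
      have h2 : u = -1 := by
        by_contra hne
        simp [hne] at h1
      have h3 : u ^ 2 = 1 := by rw [h2]; ring
      have h4 := orderOf_dvd_of_pow_eq_one h3
      rw [hordu] at h4
      exact hk2 ((Nat.prime_dvd_prime_iff_eq hk Nat.prime_two).1 h4)
  · intro hR x ⟨z, hz⟩ hns
    have hz0 := scalar_ne_zero hz
    have hTz : (Matrix.toLin' (x : Matrix (Fin n) (Fin n) F) : Module.End F (Fin n → F)) ^ r = z • 1 :=
      toLin'_pow_eq_smul hz
    by_cases hpow : ∃ w : F, w ^ r = z
    swap
    · exfalso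
      push Not at hpow
      have hrq1 : r ∣ Fintype.card F - 1 := by
        by_contra hnd
        have hcop : Nat.Coprime r (Fintype.card F - 1) := hrpr.coprime_iff_not_dvd.2 hnd
        obtain ⟨b, hb⟩ : ∃ b : Fˣ, b ^ r = Units.mk0 z hz0 :=
          (powCoprime (G := Fˣ) (by rw [Nat.card_units, Nat.card_eq_fintype_card]; exact hcop.symm)).surjective _
        exact hpow b (by rw [← Units.val_pow_eq_pow_val, hb, Units.val_mk0])
      obtain ⟨hrn, hdet, -⟩ := of_pow_eq_smul_nonpower hpow hTz
      rw [Module.finrank_fin_fun] at hrn hdet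
      rw [toLin'_det_one, (hrpr.odd_of_ne_two hr2).neg_one_pow, neg_one_mul, neg_neg] at hdet
      have hs0 : n / r ≠ 0 := (Nat.div_pos (Nat.le_of_dvd (by omega) hrn) hrpr.pos).ne'
      have hv := padicValNat_le_of_nonpower hrq1 hpow hdet.symm hs0
      have hvn : padicValNat r n = padicValNat r (n / r) + 1 := by
        conv_lhs => rw [← Nat.div_mul_cancel hrn]
        rw [padicValNat.mul hs0 hrpr.ne_zero, padicValNat.self hrpr.one_lt]
      have hv1 : 1 ≤ padicValNat r (Fintype.card F - 1) :=
        one_le_padicValNat_of_dvd (by have := Fintype.one_lt_card (α := F); omega) hrq1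
      rcases hR with hrk | ⟨-, hrn', -, -⟩
      · have hq : u = 1 := by
          have h1 := (hsub1 _ Fintype.card_pos).1 hrq1
          rw [hqu, ← hrk, ZMod.pow_card] at h1
          exact h1
        have := hgapk hrk ((hsub1 _ (by omega)).2 hq)
        omega
      · rw [← hrn', Nat.div_self hrpr.pos, padicValNat.one] at hv
        omega
    obtain ⟨w, hw⟩ := hpow
    have hw0 : w ≠ 0 := by rintro rfl; exact hz0 (by rw [← hw, zero_pow hrpr.ne_zero])
    rcases hR with hrk | ⟨hk2, hrn, hn35, hval⟩
    · refine exists_conj_mem F₀ p x hrF hz0 hz (inv_ne_zero hw0)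
        (coeff_mem_of_roots F₀ p (hsplit _) ?_)
      have hyr : ((w⁻¹ • (x : Matrix (Fin n) (Fin n) F)) ^ r) = 1 := by
        rw [_root_.smul_pow, ← Matrix.SpecialLinearGroup.coe_pow, hz, smul_smul, ← hw, inv_pow,
          inv_mul_cancel₀ (pow_ne_zero _ hw0), one_smul]
      have hQ : aeval (Matrix.toLin' (w⁻¹ • (x : Matrix (Fin n) (Fin n) F)) : Module.End F (Fin n → F))
          (X ^ r - 1 : F[X]) = 0 := by
        rw [map_sub, map_pow, aeval_X, map_one, CfsgLib.Classical.Semisimple.toLin'_pow, hyr, Matrix.toLin'_one]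
        exact sub_self _
      have hfix := roots_pow_eq (hsplit (w⁻¹ • (x : Matrix (Fin n) (Fin n) F))) p fq fun j => by
        rw [← hfq]; exact FiniteField.pow_card _
      conv_rhs => rw [← hfix]
      refine Multiset.map_congr rfl fun ρ hρ => ?_
      have hroot := (Polynomial.mem_roots ((Matrix.charpoly_monic _).map _).ne_zero).1 hρ
      have hρr : ρ ^ r = 1 := by simpa [sub_eq_zero] using eval_eq_zero_of_root hQ hroot
      rw [hF₀, pow_eq_pow_mod q₀ hρr, pow_eq_pow_mod (p ^ (fq : ℕ)) hρr]
      congr 1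
      rw [← hfq, ← ZMod.natCast_eq_natCast_iff', hqu, ← hrk, ZMod.pow_card]
    · subst hk2
      subst hrn
      have hu2 : u = -1 := by
        have h1 : r ∣ q₀ + 1 := dvd_of_one_le_padicValNat (by omega)
        have h2 := (ZMod.natCast_eq_zero_iff _ _).2 h1
        push_cast at h2
        linear_combination h2
      have hq1 : r ∣ Fintype.card F - 1 := (hsub1 _ Fintype.card_pos).2 (by rw [hqu, hu2]; ring)
      have hvq : padicValNat r (Fintype.card F - 1) = 1 := by
        rw [hqk, show q₀ ^ 2 - 1 = (q₀ - 1) * (q₀ + 1) by rw [← Nat.pow_two_sub_pow_two q₀ 1 |>.trans (mul_comm _ _)],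
          padicValNat.mul (by omega) (by omega), padicValNat.eq_zero_of_not_dvd ?_, zero_add, hval]
        intro h
        have h1 : (2 : ZMod r) = 0 := by linear_combination hu2 - ((hsub1 _ (by omega)).1 h)
        have h2 : r ∣ 2 := (ZMod.natCast_eq_zero_iff _ _).1 (by exact_mod_cast h1)
        exact hr2 ((Nat.prime_dvd_prime_iff_eq hrpr Nat.prime_two).1 h2)
      -- the scalar is one
      have hzr : z ^ r = 1 := by
        have h1 := congrArg Matrix.det hz
        rw [(x ^ r).2, Matrix.det_smul, Matrix.det_one, mul_one, Fintype.card_fin] at h1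
        exact h1.symm
      have hz1 : z = 1 := by
        have hwo : orderOf w ∣ r * r := orderOf_dvd_of_pow_eq_one (by rw [pow_mul, hw, hzr])
        have hwN : orderOf w ∣ Fintype.card F - 1 :=
          orderOf_dvd_of_pow_eq_one (FiniteField.pow_card_sub_one_eq_one w hw0)
        obtain ⟨m, hm, he⟩ := (Nat.dvd_prime_pow hrpr).1 (show orderOf w ∣ r ^ 2 by rwa [sq])
        rw [he] at hwN
        have := (padicValNat_dvd_iff_le (by have := Fintype.one_lt_card (α := F); omega)).1 hwN
        rw [← hw, ← orderOf_dvd_iff_pow_eq_one, he]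
        calc r ^ m ∣ r ^ 1 := pow_dvd_pow r (by omega)
          _ = r := pow_one r
      subst hz1
      have hxr : (x : Matrix (Fin r) (Fin r) F) ^ r = 1 := by
        rw [← Matrix.SpecialLinearGroup.coe_pow, hz, one_smul]
      obtain ⟨ζ, hζ⟩ := exists_prime_orderOf_dvd_card' (G := Fˣ) r (by
        rw [Nat.card_units, Nat.card_eq_fintype_card]; exact hq1)
      have hprim : IsPrimitiveRoot (algebraMap F K (ζ : F)) r := by
        have h1 : IsPrimitiveRoot ((ζ : Fˣ) : F) r :=
          (IsPrimitiveRoot.coe_units_iff).2 (hζ ▸ IsPrimitiveRoot.orderOf ζ)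
        exact h1.map_of_injective (algebraMap F K).injective
      let e : ZMod r → K := fun a => algebraMap F K (ζ : F) ^ a.val
      have hemod : ∀ m m' : ℕ, (m : ZMod r) = m' → algebraMap F K (ζ : F) ^ m = algebraMap F K (ζ : F) ^ m' := by
        intro m m' h
        rw [pow_eq_pow_mod m hprim.pow_eq_one, pow_eq_pow_mod m' hprim.pow_eq_one,
          (ZMod.natCast_eq_natCast_iff' _ _ r).1 h]
      have headd : ∀ a b, e (a + b) = e a * e b := fun a b => by
        simp only [e, ← pow_add]
        exact hemod _ _ (by simp)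
      have heinj : Function.Injective e := fun a b h => ZMod.val_injective r
        (hprim.pow_inj (ZMod.val_lt a) (ZMod.val_lt b) h)
      have hepow : ∀ a, e a ^ q₀ = e (-a) := fun a => by
        simp only [e, ← pow_mul]
        exact hemod _ _ (by simp [← hu, hu2])
      set R := ((x : Matrix (Fin r) (Fin r) F).charpoly.map (algebraMap F K)).roots with hRdef
      have hsur : ∀ ρ ∈ R, ∃ a, e a = ρ := fun ρ hρ => by
        have hroot := (Polynomial.mem_roots ((Matrix.charpoly_monic _).map _).ne_zero).1 hρ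
        have hQ : aeval (Matrix.toLin' (x : Matrix (Fin r) (Fin r) F) : Module.End F (Fin r → F))
            (X ^ r - 1 : F[X]) = 0 := by
          rw [map_sub, map_pow, aeval_X, map_one, CfsgLib.Classical.Semisimple.toLin'_pow, hxr, Matrix.toLin'_one]
          exact sub_self _
        have hρr : ρ ^ r = 1 := by simpa [sub_eq_zero] using eval_eq_zero_of_root hQ hroot
        obtain ⟨i, hi, rfl⟩ := hprim.eq_pow_of_pow_eq_one hρr
        exact ⟨(i : ZMod r), hemod _ _ (by simp)⟩
      obtain ⟨A, hA⟩ : ∃ A : Multiset (ZMod r), A.map e = R := by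
        refine ⟨R.map (Function.invFun e), ?_⟩
        rw [Multiset.map_map]
        exact (Multiset.map_congr rfl fun ρ hρ => Function.invFun_eq (hsur ρ hρ)).trans (Multiset.map_id' R)
      have hAc : A.card = r := by
        rw [← Multiset.card_map e, hA, hRdef, ← (IsAlgClosed.splits _).natDegree_eq_card_roots,
          (Matrix.charpoly_monic _).natDegree_map, Matrix.charpoly_natDegree_eq_dim, Fintype.card_fin]
      have hAs : A.sum = 0 := by
        refine heinj ?_
        have h1 : (A.map e).prod = 1 := by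
          rw [hA, hRdef, ← Matrix.charpoly_map, ← Matrix.det_eq_prod_roots_charpoly, ← RingHom.mapMatrix_apply,
            ← RingHom.map_det, x.2, map_one]
        have h2 : ∀ B : Multiset (ZMod r), (B.map e).prod = e B.sum := by
          intro B
          induction B using Multiset.induction_on with
          | empty => simp [e]
          | cons a B ih => simp [ih, headd]
        rw [← h2, h1]
        simp [e]
      obtain ⟨a0, ha0⟩ := exists_centre hn35 A hAc hAs
      let c : F := ((ζ ^ (-a0).val : Fˣ) : F)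
      refine exists_conj_mem F₀ p x hrF one_ne_zero hz (Units.ne_zero _ : c ≠ 0)
        (coeff_mem_of_roots F₀ p (charpoly_smul_of_prod (Units.ne_zero _ : c ≠ 0)
          (hsplit (x : Matrix (Fin r) (Fin r) F))) ?_)
      have hcK : algebraMap F K c = e (-a0) := by simp [c, e]
      rw [← hRdef, ← hA, hF₀, Multiset.map_map, Multiset.map_map]
      conv_rhs => rw [← ha0]
      rw [Multiset.map_map, Multiset.map_map]
      refine Multiset.map_congr rfl fun v _ => ?_
      simp only [Function.comp_apply, show algebraMap F K ((ζ ^ (-a0).val : Fˣ) : F) = e (-a0) from hcK, mul_pow, hepow,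
        ← headd]
      congr 1
      ring

end Cfsg.Agent.S5965

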