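import Cfsg.Statements.S5966
import Cfsg.Agent.Eq.Def_GeometricClasses
import Cfsg.Agent.Classical.Semisimple.Bridge
import Cfsg.Agent.Jordan.Nilpotent
-- import your own Cfsg.Agent.* helpers here

set_option autoImplicit false
open scoped MatrixGroups
open Cfsg

namespace Cfsg.Agent.S5966

open Module Matrix CfsgLib.Classical.Semisimple

variable {F : Type*} [Field F] {n : ℕ} (F₀ : Subfield F)

private theorem mem_iff [NeZero n] (y : Matrix.SpecialLinearGroup (Fin n) F) :
    y ∈ (Cfsg.Geo.subfieldSubgroup F₀ 1).comap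
        (Matrix.SpecialLinearGroup.toGL : Matrix.SpecialLinearGroup (Fin n) F →* GL (Fin n) F) ↔
      ∃ (c : F) (A : Matrix (Fin n) (Fin n) F₀),
        (y : Matrix (Fin n) (Fin n) F) = c • A.map (F₀.subtype : F₀ →+* F) := by
  classical
  haveI : (Cfsg.Geo.scalars (Fin n) F).Normal := ⟨fun g hg h => by
    obtain ⟨c, hc⟩ := (Cfsg.Geo.mem_scalars_iff g).1 hg
    rw [Cfsg.Geo.mem_scalars_iff]
    refine ⟨c, ?_⟩
    rw [Units.val_mul, Units.val_mul, hc, mul_smul_comm, mul_one, smul_mul_assoc, ← Units.val_mul,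
      mul_inv_cancel, Units.val_one]⟩
  have h1 : Cfsg.Geo.subfieldSubgroup F₀ (1 : GL (Fin n) F) =
      (Matrix.GeneralLinearGroup.map (F₀.subtype : F₀ →+* F)).range ⊔ Cfsg.Geo.scalars (Fin n) F := by
    unfold Cfsg.Geo.subfieldSubgroup
    rw [map_one]
    exact Subgroup.map_id _
  rw [Subgroup.mem_comap, h1, Subgroup.mem_sup_of_normal_right]
  constructor
  · rintro ⟨_, ⟨A, rfl⟩, s, hs, he⟩
    obtain ⟨c, hc⟩ := (Cfsg.Geo.mem_scalars_iff s).1 hs
    refine ⟨c, (A : Matrix (Fin n) (Fin n) F₀), ?_⟩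
    have := congrArg Units.val he
    rw [Units.val_mul, hc, mul_smul_comm, mul_one] at this
    exact this.symm
  · rintro ⟨c, A, hA⟩
    have hdet : c ^ n * (A.map (F₀.subtype : F₀ →+* F)).det = 1 := by
      have := y.2
      rw [hA, Matrix.det_smul, Fintype.card_fin] at this
      exact this
    have hc : c ≠ 0 := by
      rintro rfl
      simp [zero_pow (NeZero.ne n)] at hdet
    have hAdet : A.det ≠ 0 := fun h => by
      rw [← RingHom.mapMatrix_apply, ← RingHom.map_det, h, map_zero, mul_zero] at hdet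
      exact zero_ne_one hdet
    refine ⟨_, ⟨Matrix.GeneralLinearGroup.mkOfDetNeZero A hAdet, rfl⟩,
      Units.map (Matrix.scalar (Fin n) : F →+* Matrix (Fin n) (Fin n) F).toMonoidHom (Units.mk0 c hc),
      ⟨Units.mk0 c hc, rfl⟩, Units.ext ?_⟩
    show A.map (F₀.subtype : F₀ →+* F) * Matrix.scalar (Fin n) c = (y : Matrix (Fin n) (Fin n) F)
    rw [hA, Matrix.scalar_apply, ← Matrix.smul_one_eq_diagonal, mul_smul_comm, mul_one]

/-- An element given in some basis by `c` times a matrix over the subfield. -/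
private theorem conj_mem [NeZero n] {κ : Type*} [Fintype κ] [DecidableEq κ]
    (x : Matrix.SpecialLinearGroup (Fin n) F) (b : Basis κ F (Fin n → F)) (c : F) (A : Matrix κ κ F₀)
    (hx : Matrix.toLin' (x : Matrix (Fin n) (Fin n) F) =
      Matrix.toLin b b (c • A.map (F₀.subtype : F₀ →+* F)))
    (hC : ∀ δ : F, δ ≠ 0 → ∃ (C : Matrix κ κ F) (g : Matrix κ κ F₀),
      A.map (F₀.subtype : F₀ →+* F) * C = C * A.map (F₀.subtype : F₀ →+* F) ∧
        C.det * (g.det : F) = δ) :
    ∃ P : Matrix.SpecialLinearGroup (Fin n) F, P⁻¹ * x * P ∈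
      (Cfsg.Geo.subfieldSubgroup F₀ 1).comap
        (Matrix.SpecialLinearGroup.toGL : Matrix.SpecialLinearGroup (Fin n) F →* GL (Fin n) F) := by
  classical
  obtain ⟨e⟩ : Nonempty (κ ≃ Fin n) := ⟨Fintype.equivFinOfCardEq
    (by rw [← Module.finrank_eq_card_basis b, Module.finrank_fin_fun])⟩
  let ι' : F₀ →+* F := F₀.subtype
  let M : Matrix (Fin n) (Fin n) F := (Pi.basisFun F (Fin n)).toMatrix ⇑(b.reindex e)
  have hM : M.det ≠ 0 := fun h0 => by
    have h1 := congrArg Matrix.det ((Pi.basisFun F (Fin n)).toMatrix_mul_toMatrix_flip (b.reindex e))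
    rw [Matrix.det_mul, Matrix.det_one] at h1
    rw [show ((Pi.basisFun F (Fin n)).toMatrix ⇑(b.reindex e)).det = 0 from h0, zero_mul] at h1
    exact zero_ne_one h1
  obtain ⟨C, g, hAC, hdet⟩ := hC M.det⁻¹ (inv_ne_zero hM)
  have hg : IsUnit g.det := isUnit_iff_ne_zero.2 fun h0 => by
    simp [h0] at hdet
    exact hM (by simpa using hdet.symm)
  have hxM : (x : Matrix (Fin n) (Fin n) F) * M = M * Matrix.reindex e e (c • A.map ι') := by
    ext l s
    have h1 := congrFun (LinearMap.congr_fun hx (b (e.symm s))) l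
    rw [Matrix.toLin_self, Matrix.toLin'_apply, Finset.sum_apply] at h1
    simp only [M, Matrix.mul_apply, Basis.toMatrix_apply, Basis.reindex_apply, Pi.basisFun_repr,
      Matrix.reindex_apply, Matrix.submatrix_apply]
    refine h1.trans (Fintype.sum_equiv e _ _ fun j => ?_)
    simp [ι', mul_comm]
  let Cn := Matrix.reindex e e C
  let gn := Matrix.reindex e e (g.map ι')
  have hQ : (M * (Cn * gn)).det = 1 := by
    rw [Matrix.det_mul, Matrix.det_mul, Matrix.det_reindex_self, Matrix.det_reindex_self,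
      ← RingHom.mapMatrix_apply, ← RingHom.map_det]
    exact (congrArg (M.det * ·) hdet).trans (mul_inv_cancel₀ hM)
  let P : Matrix.SpecialLinearGroup (Fin n) F := ⟨_, hQ⟩
  refine ⟨P, (mem_iff F₀ _).2 ⟨c, Matrix.reindex e e (g⁻¹ * A * g), ?_⟩⟩
  have key : (x : Matrix (Fin n) (Fin n) F) * (P : Matrix (Fin n) (Fin n) F) =
      (P : Matrix (Fin n) (Fin n) F) * (c • (Matrix.reindex e e (g⁻¹ * A * g)).map ι') := by
    have h2 : (c • A.map ι') * (C * g.map ι') = (C * g.map ι') * (c • (g⁻¹ * A * g).map ι') := by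
      rw [Matrix.smul_mul, Matrix.mul_smul, Matrix.mul_assoc g⁻¹, Matrix.map_mul, Matrix.mul_assoc C,
        ← Matrix.mul_assoc (g.map ι'), ← Matrix.map_mul, Matrix.mul_nonsing_inv _ hg,
        Matrix.map_one ι' (map_zero _) (map_one _), Matrix.one_mul, Matrix.map_mul, ← Matrix.mul_assoc,
        ← Matrix.mul_assoc, show A.map ι' * C = C * A.map ι' from hAC]
    show (x : Matrix (Fin n) (Fin n) F) * (M * (Cn * gn)) = (M * (Cn * gn)) * _
    rw [← Matrix.mul_assoc, hxM, Matrix.mul_assoc M, Matrix.mul_assoc M]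
    congr 1
    simp only [Cn, gn, Matrix.reindex_apply, Matrix.submatrix_mul_equiv, h2]
    rw [← Matrix.submatrix_mul_equiv _ _ _ e.symm, ← Matrix.submatrix_mul_equiv _ _ _ e.symm]
    rfl
  rw [Matrix.SpecialLinearGroup.coe_mul, Matrix.SpecialLinearGroup.coe_mul, Matrix.mul_assoc, key,
    ← Matrix.mul_assoc, ← Matrix.SpecialLinearGroup.coe_mul, inv_mul_cancel, Matrix.SpecialLinearGroup.coe_one,
    Matrix.one_mul]

/-- Rank of a square-zero map whose kernel lies in its range. -/
private theorem two_mul_rank {K V : Type*} [Field K] [AddCommGroup V] [Module K V] [FiniteDimensional K V]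
    {N : Module.End K V} (h2 : N ^ 2 = 0) (hker : LinearMap.ker N ≤ LinearMap.range N) :
    2 * finrank K (LinearMap.range N) = finrank K V := by
  have heq : LinearMap.range N = LinearMap.ker N := by
    refine le_antisymm ?_ hker
    rintro _ ⟨w, rfl⟩
    rw [LinearMap.mem_ker, ← Module.End.mul_apply, ← sq, h2, LinearMap.zero_apply]
  have h1 := LinearMap.finrank_range_add_finrank_ker N
  rw [← heq] at h1
  omega

private theorem mulVec_zero_block {K : Type*} [CommRing K] {m : ℕ} (D : Matrix (Fin m) (Fin m) K)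
    (y : Fin m ⊕ Fin m → K) :
    Matrix.fromBlocks (0 : Matrix (Fin m) (Fin m) K) D (0 : Matrix (Fin m) (Fin m) K) (0 : Matrix (Fin m) (Fin m) K) *ᵥ y = Sum.elim (D *ᵥ fun j => y (Sum.inr j)) (0 : Fin m → K) := by
  rw [Matrix.fromBlocks_mulVec]
  funext i
  rcases i with i | i
  · simp [Function.comp_def]
  · simp

/-- Elements of order 3 of PSL_n(q) in characteristic 3 and subfield subgroups. Here `T = PSL_n(F)` for a field `F` with `q` elements, `q` a power of 3 (`n ≥ 2`, `(n, q) ≠ (2, 2), (2, 3)`), `F₀` is the subfield with `q₀` elements where `q = q₀^k` for a prime `k`, and `H` is the subgroup of matrices of determinant 1 lying in the subfield group of `F₀` (invertible matrices over `F₀` times scalars) — a maximal subgroup of type GL_n(q₀) (the case `n = 2`, `q₀ = 2` is excluded); Ω is the set of `T`-conjugates of `H` (cosets of `H`), so an element of `T` of prime order `r` (a matrix `x` of determinant 1 with `x^r` scalar, `x` not scalar) fixes a point of Ω when some conjugate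 of `x` by a matrix of determinant 1 lies in `H`. Suppose 3 divides the index of `H`. Then every element of `T` of order 3 is conjugate in `T` into `H` if and only if `n` is odd, or `n` is even and `k > 2`. -/
theorem result {F : Type*} [Field F] [Fintype F] [CharP F 3] {q : ℕ} (hq : Fintype.card F = q)
    (n : ℕ) (hn : 2 ≤ n) (hT : (n, q) ≠ (2, 3))
    (F₀ : Subfield F) (k q₀ : ℕ) (hk : k.Prime) (hF₀ : Nat.card ↥F₀ = q₀) (hqk : q = q₀ ^ k) (hC5 : ¬ (n = 2 ∧ q₀ = 2)) (hΩ : 3 ∣ ((Cfsg.Geo.subfieldSubgroup F₀ 1).comap (Matrix.SpecialLinearGroup.toGL : Matrix.SpecialLinearGroup (Fin n) F →* GL (Fin n) F)).index) :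
    (∀ x : Matrix.SpecialLinearGroup (Fin n) F,
      (∃ z : F, ((x ^ 3 : Matrix.SpecialLinearGroup (Fin n) F) : Matrix (Fin n) (Fin n) F) = z • (1 : Matrix (Fin n) (Fin n) F)) →
      (∀ z : F, (x : Matrix (Fin n) (Fin n) F) ≠ z • (1 : Matrix (Fin n) (Fin n) F)) →
      ∃ P : Matrix.SpecialLinearGroup (Fin n) F, P⁻¹ * x * P ∈ ((Cfsg.Geo.subfieldSubgroup F₀ 1).comap (Matrix.SpecialLinearGroup.toGL : Matrix.SpecialLinearGroup (Fin n) F →* GL (Fin n) F))) ↔
    (Odd n ∨ (Even n ∧ 2 < k)) := by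
  classical
  subst hq
  haveI : Fact (Nat.Prime 3) := ⟨Nat.prime_three⟩
  haveI : NeZero n := ⟨by omega⟩
  haveI : CharP F₀ 3 := RingHom.charP (F₀.subtype : F₀ →+* F) Subtype.val_injective 3
  have : Fintype F₀ := Fintype.ofFinite _
  have hq0' : Fintype.card F₀ = q₀ := by rw [← Nat.card_eq_fintype_card, hF₀]
  have h2F : (2 : F) ≠ 0 := fun h => by
    have := (CharP.cast_eq_zero_iff F 3 2).1 (by exact_mod_cast h)
    omega
  have hroot : ∀ δ : F, ∃ w : F, w ^ 3 = δ := fun δ => by
    obtain ⟨w, hw⟩ := (Finite.injective_iff_surjective.mp (frobenius_inj F 3)) δ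
    exact ⟨w, by rw [← hw, frobenius_def]⟩
  have hq0odd : Odd q₀ := by
    obtain ⟨j, -, hj⟩ := FiniteField.card F₀ 3
    rw [← hq0', hj]
    exact Odd.pow (by decide)
  constructor
  · intro hall
    rcases Nat.even_or_odd n with hev | hodd
    swap
    · exact Or.inl hodd
    refine Or.inr ⟨hev, ?_⟩
    by_contra hk2
    obtain rfl : k = 2 := by have := hk.two_le; omega
    obtain ⟨m, rfl⟩ := hev
    have hm : 0 < m := by omega
    have hsquare : ∀ t : F, t ∈ F₀ → IsSquare t := by
      intro t ht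
      rcases eq_or_ne t 0 with rfl | ht0
      · exact ⟨0, by simp⟩
      have h1 := congrArg Subtype.val (FiniteField.pow_card_sub_one_eq_one (⟨t, ht⟩ : F₀)
        (fun h => ht0 (congrArg Subtype.val h)))
      rw [hq0', SubmonoidClass.coe_pow, OneMemClass.coe_one] at h1
      refine (FiniteField.isSquare_iff (fun h => ?_) ht0).2 ?_
      · exact h2F (by exact_mod_cast (ringChar.spec F 2).mpr (by rw [h]))
      obtain ⟨j, hj⟩ := hq0odd
      have he : Fintype.card F / 2 = (q₀ - 1) * (j + 1) := by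
        rw [hqk, hj, show (2 * j + 1) ^ 2 = 2 * (2 * j * (j + 1)) + 1 by ring]
        rw [Nat.add_sub_cancel]
        omega
      rw [he, pow_mul]
      exact (congrArg (· ^ (j + 1)) h1).trans (one_pow _)
    obtain ⟨ε, hε⟩ := FiniteField.exists_nonsquare (F := F) (fun h => h2F (by
      exact_mod_cast (ringChar.spec F 2).mpr (by rw [h])))
    have hε0 : ε ≠ 0 := fun h => hε (h ▸ ⟨0, by simp⟩)
    let D : Matrix (Fin m) (Fin m) F := diagonal (Function.update (fun _ => 1) ⟨0, hm⟩ ε)
    have hDdet : D.det = ε := by simp [D, Finset.prod_update_of_mem]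
    let U : Matrix (Fin m ⊕ Fin m) (Fin m ⊕ Fin m) F := fromBlocks 1 D 0 1
    let e : Fin m ⊕ Fin m ≃ Fin (m + m) := finSumFinEquiv
    let x : Matrix.SpecialLinearGroup (Fin (m + m)) F := ⟨reindex e e U, by
      rw [det_reindex_self, det_fromBlocks_zero₂₁, det_one, one_mul]⟩
    have hU3 : U ^ 3 = 1 := by
      have h3 : D + D + D = 0 := by
        rw [show D + D + D = (3 : F) • D by module, show (3 : F) = 0 from by exact_mod_cast CharP.cast_eq_zero F 3,
          zero_smul]
      rw [pow_succ, sq]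
      simp [U, fromBlocks_multiply, add_assoc, h3, ← add_assoc, fromBlocks_one]
    have hx3 : x ^ 3 = 1 := Subtype.ext (by
      rw [Matrix.SpecialLinearGroup.coe_pow, Matrix.SpecialLinearGroup.coe_one]
      show (Matrix.reindexAlgEquiv F F e U) ^ 3 = 1
      rw [← map_pow, hU3, map_one])
    have hns : ∀ z : F, (x : Matrix (Fin (m + m)) (Fin (m + m)) F) ≠ z • 1 := fun z hz => by
      have h1 := congrFun (congrFun hz (e (Sum.inl ⟨0, hm⟩))) (e (Sum.inr ⟨0, hm⟩))
      rw [Matrix.smul_apply, Matrix.one_apply_ne (fun h => Sum.inl_ne_inr (e.injective h)), smul_zero] at h1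
      simp [x, U, D, hε0] at h1
    obtain ⟨P, hP⟩ := hall x ⟨1, by rw [hx3, one_smul]; rfl⟩ hns
    obtain ⟨c, A, hA⟩ := (mem_iff F₀ _).1 hP
    have hy3 : (c • A.map (F₀.subtype : F₀ →+* F)) ^ 3 = 1 := by
      rw [← hA, ← Matrix.SpecialLinearGroup.coe_pow, show (P⁻¹ * x * P) ^ 3 = P⁻¹ * x ^ 3 * P by
        simp [pow_succ, mul_assoc], hx3, mul_one, inv_mul_cancel, Matrix.SpecialLinearGroup.coe_one]
    obtain ⟨c', hc'⟩ : ∃ c' : F₀, (c' : F) = c := by
      have h1 := congrFun (congrFun hy3 0) 0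
      rw [_root_.smul_pow, Matrix.smul_apply, Matrix.one_apply_eq, smul_eq_mul, ← RingHom.mapMatrix_apply,
        ← map_pow, RingHom.mapMatrix_apply, Matrix.map_apply] at h1
      obtain ⟨s, hs⟩ := (Finite.injective_iff_surjective.mp (frobenius_inj F₀ 3)) ((A ^ 3) 0 0)⁻¹
      refine ⟨s, frobenius_inj F 3 ?_⟩
      have h2 := congrArg (fun z : F₀ => (z : F)) hs
      simp only [frobenius_def, SubmonoidClass.coe_pow, Subfield.coe_inv] at h2 ⊢
      rw [h2]
      exact (eq_inv_of_mul_eq_one_left h1).symm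
    let A2 : Matrix (Fin m ⊕ Fin m) (Fin m ⊕ Fin m) F₀ := reindex e.symm e.symm (c' • A)
    let ι' : F₀ →+* F := F₀.subtype
    let P2 : Matrix (Fin m ⊕ Fin m) (Fin m ⊕ Fin m) F :=
      reindex e.symm e.symm (P : Matrix (Fin (m + m)) (Fin (m + m)) F)
    have hP2 : P2.det = 1 := by rw [det_reindex_self]; exact P.2
    have hUP : U * P2 = P2 * A2.map ι' := by
      have h1 : (x : Matrix (Fin (m + m)) (Fin (m + m)) F) * (P : Matrix (Fin (m + m)) (Fin (m + m)) F) =
          (P : Matrix (Fin (m + m)) (Fin (m + m)) F) * (c • A.map ι') := by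
        have h0 := congrArg (fun z : Matrix.SpecialLinearGroup (Fin (m + m)) F => (z : Matrix (Fin (m + m)) (Fin (m + m)) F))
          (show x * P = P * (P⁻¹ * x * P) by rw [mul_assoc P⁻¹, mul_inv_cancel_left])
        simp only [Matrix.SpecialLinearGroup.coe_mul] at h0 hA
        rw [← hA]
        exact h0
      have h2 := congrArg (Matrix.reindexAlgEquiv F F e.symm) h1
      rw [map_mul, map_mul] at h2
      have e1 : Matrix.reindexAlgEquiv F F e.symm (x : Matrix (Fin (m + m)) (Fin (m + m)) F) = U := by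
        ext i j; simp [x]
      have e2 : Matrix.reindexAlgEquiv F F e.symm (c • A.map ι') = A2.map ι' := by
        ext i j; simp [A2, ι', hc']
      rw [e1, e2] at h2
      exact h2
    let Nd : Matrix (Fin m ⊕ Fin m) (Fin m ⊕ Fin m) F := fromBlocks 0 D 0 0
    have hNd : Nd = U - 1 := by
      rw [eq_sub_iff_add_eq]
      ext (i | i) (j | j) <;> simp [Nd, U, Matrix.one_apply]
    have hN : Nd * P2 = P2 * (A2 - 1).map ι' := by
      rw [hNd, Matrix.sub_mul, Matrix.one_mul, hUP, Matrix.map_sub ι' (map_sub _),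
        Matrix.map_one ι' (map_zero _) (map_one _), Matrix.mul_sub, Matrix.mul_one]
    have hP2u : IsUnit P2.det := by rw [hP2]; exact isUnit_one
    have hN' : (A2 - 1).map ι' = P2⁻¹ * Nd * P2 := by
      rw [Matrix.mul_assoc, hN, ← Matrix.mul_assoc, Matrix.nonsing_inv_mul _ hP2u, Matrix.one_mul]
    let N0 : Module.End F₀ (Fin m ⊕ Fin m → F₀) := Matrix.toLin' (A2 - 1)
    let N1 : Module.End F₀ (Fin m ⊕ Fin m → F₀) := Matrix.toLin' (fromBlocks 0 1 0 0)
    have h0sq : N0 ^ 2 = 0 := by
      have h1 : ((A2 - 1) * (A2 - 1)).map ι' = 0 := by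
        rw [Matrix.map_mul, hN', Matrix.mul_assoc P2⁻¹, Matrix.mul_assoc P2⁻¹, ← Matrix.mul_assoc _ P2⁻¹,
          Matrix.mul_assoc Nd P2, Matrix.mul_nonsing_inv _ hP2u, Matrix.mul_one, ← Matrix.mul_assoc Nd Nd,
          show Nd * Nd = 0 by simp [Nd, fromBlocks_multiply], Matrix.zero_mul, Matrix.mul_zero]
      have h2 : (A2 - 1) * (A2 - 1) = 0 :=
        Matrix.map_injective ι'.injective (h1.trans (Matrix.map_zero _ (map_zero _)).symm)
      rw [sq, Module.End.mul_eq_comp, ← Matrix.toLin'_mul, h2, map_zero]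
    have h0ker : LinearMap.ker N0 ≤ LinearMap.range N0 := by
      intro v hv
      rw [LinearMap.mem_ker, Matrix.toLin'_apply] at hv
      let v' : Fin m ⊕ Fin m → F := fun i => (v i : F)
      have hv' : ((A2 - 1).map ι') *ᵥ v' = 0 := by
        funext i
        have := congrArg (fun z : F₀ => (z : F)) (congrFun hv i)
        simpa [Matrix.mulVec, dotProduct, v', ι'] using this
      have hy : Nd *ᵥ (P2 *ᵥ v') = 0 := by
        rw [Matrix.mulVec_mulVec, hN, ← Matrix.mulVec_mulVec, hv', Matrix.mulVec_zero]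
      obtain ⟨y, hy'⟩ : ∃ y, Nd *ᵥ y = P2 *ᵥ v' := by
        rw [mulVec_zero_block] at hy
        have hDu : IsUnit D.det := isUnit_iff_ne_zero.2 (hDdet ▸ hε0)
        have hz : ∀ j, (P2 *ᵥ v') (Sum.inr j) = 0 := by
          have h4 : D *ᵥ (fun j => (P2 *ᵥ v') (Sum.inr j)) = 0 := funext fun i => congrFun hy (Sum.inl i)
          have h5 := congrArg (D⁻¹ *ᵥ ·) h4
          simp only [Matrix.mulVec_mulVec, Matrix.nonsing_inv_mul _ hDu, Matrix.one_mulVec,
            Matrix.mulVec_zero] at h5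
          exact fun j => congrFun h5 j
        refine ⟨Sum.elim 0 (D⁻¹ *ᵥ fun i => (P2 *ᵥ v') (Sum.inl i)), ?_⟩
        rw [mulVec_zero_block]
        funext i
        rcases i with i | i
        · rw [Sum.elim_inl]
          simp only [Sum.elim_inr]
          rw [Matrix.mulVec_mulVec, Matrix.mul_nonsing_inv _ hDu, Matrix.one_mulVec]
        · simp [hz]
      have hw : ((A2 - 1).map ι') *ᵥ (P2⁻¹ *ᵥ y) = v' := by
        rw [hN', Matrix.mulVec_mulVec, Matrix.mul_assoc _ P2, Matrix.mul_nonsing_inv _ hP2u, Matrix.mul_one,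
          ← Matrix.mulVec_mulVec, hy', Matrix.mulVec_mulVec, Matrix.nonsing_inv_mul _ hP2u, Matrix.one_mulVec]
      -- descend with a retraction onto the subfield
      obtain ⟨φ, hφ⟩ := LinearMap.exists_leftInverse_of_injective (Algebra.linearMap F₀ F)
        (LinearMap.ker_eq_bot.2 (algebraMap F₀ F).injective)
      have hφ' : ∀ z : F₀, φ (z : F) = z := fun z => LinearMap.congr_fun hφ z
      have hφm : ∀ (a : F₀) (z : F), φ ((a : F) * z) = a * φ z := fun a z => by
        rw [show (a : F) * z = a • z from rfl, map_smul, smul_eq_mul]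
      refine ⟨fun i => φ ((P2⁻¹ *ᵥ y) i), ?_⟩
      rw [Matrix.toLin'_apply]
      funext i
      have h6 := congrArg φ (congrFun hw i)
      simp only [Matrix.mulVec, dotProduct, map_sum, Matrix.map_apply, v', hφ'] at h6
      refine (Finset.sum_congr rfl fun j _ => ?_).trans h6
      exact (hφm _ _).symm
    have h1sq : N1 ^ 2 = 0 := by
      rw [sq, Module.End.mul_eq_comp, ← Matrix.toLin'_mul, fromBlocks_multiply]
      simp [fromBlocks_zero]
    have h1ker : LinearMap.ker N1 ≤ LinearMap.range N1 := by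
      intro v hv
      rw [LinearMap.mem_ker, Matrix.toLin'_apply, mulVec_zero_block, Matrix.one_mulVec] at hv
      refine ⟨Sum.elim 0 fun i => v (Sum.inl i), ?_⟩
      rw [Matrix.toLin'_apply, mulVec_zero_block, Matrix.one_mulVec]
      funext i
      rcases i with i | i
      · simp
      · simpa using (congrFun hv (Sum.inl i)).symm
    have hr : ∀ j, finrank F₀ (LinearMap.range (N0 ^ j)) = finrank F₀ (LinearMap.range (N1 ^ j)) := by
      intro j
      have e0 := two_mul_rank h0sq h0ker
      have e1 := two_mul_rank h1sq h1ker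
      rcases j with _ | _ | j
      · rw [pow_zero, pow_zero]
      · rw [pow_one, pow_one]; omega
      · rw [show j + 1 + 1 = j + 2 from rfl, pow_add, pow_add, h0sq, h1sq, mul_zero, mul_zero]
    obtain ⟨f, hf⟩ := CfsgLib.Jordan.exists_similar ⟨2, h0sq⟩ ⟨2, h1sq⟩ hr
    let G := LinearMap.toMatrix' (f.symm : (Fin m ⊕ Fin m → F₀) →ₗ[F₀] (Fin m ⊕ Fin m → F₀))
    have hG : G.det ≠ 0 := by
      rw [LinearMap.det_toMatrix']
      exact (LinearEquiv.isUnit_det' f.symm).ne_zero
    have hGc : (A2 - 1) * G = G * fromBlocks 0 1 0 0 := by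
      apply Matrix.toLin'.injective
      rw [Matrix.toLin'_mul, Matrix.toLin'_mul, Matrix.toLin'_toMatrix']
      refine LinearMap.ext fun v => f.injective ?_
      show f (N0 (f.symm v)) = f (f.symm (N1 v))
      rw [hf, f.apply_symm_apply, f.apply_symm_apply]
    have hT : Nd * (P2 * G.map ι') = (P2 * G.map ι') * fromBlocks 0 1 0 0 := by
      have h8 : (fromBlocks 0 1 0 0 : Matrix (Fin m ⊕ Fin m) (Fin m ⊕ Fin m) F₀).map ι' = fromBlocks 0 1 0 0 := by
        simp [fromBlocks_map]
      rw [← Matrix.mul_assoc, hN, Matrix.mul_assoc, ← Matrix.map_mul, hGc, Matrix.map_mul, h8, Matrix.mul_assoc]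
    set T := P2 * G.map ι' with hTdef
    have hTdet : T.det = ι' G.det := by
      rw [Matrix.det_mul, hP2, one_mul, ← RingHom.mapMatrix_apply, ← RingHom.map_det]
    rw [← Matrix.fromBlocks_toBlocks T, fromBlocks_multiply, fromBlocks_multiply] at hT
    simp only [Matrix.zero_mul, Matrix.mul_zero, Matrix.mul_one, add_zero, zero_add] at hT
    obtain ⟨h11, h12, h21, h22⟩ := Matrix.fromBlocks_inj.1 hT
    rw [← Matrix.fromBlocks_toBlocks T, ← h22, det_fromBlocks_zero₂₁, ← h12, Matrix.det_mul, hDdet, mul_assoc] at hTdet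
    have hd : T.toBlocks₂₂.det ≠ 0 := fun h0 => by
      rw [h0, mul_zero, mul_zero] at hTdet
      exact hG (ι'.injective (hTdet.symm.trans (map_zero _).symm))
    obtain ⟨s, hs⟩ := hsquare _ G.det.2
    refine hε ⟨s / T.toBlocks₂₂.det, ?_⟩
    rw [div_mul_div_comm, eq_div_iff (mul_ne_zero hd hd), ← hs]
    exact hTdet
  · intro hR x ⟨z, hz⟩ hns
    obtain ⟨w, hw⟩ := hroot z
    set T : Module.End F (Fin n → F) := Matrix.toLin' (x : Matrix (Fin n) (Fin n) F) with hT
    have hTz : T ^ 3 = z • 1 := toLin'_pow_eq_smul hz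
    have : Nonempty (Fin n) := ⟨0⟩
    have hw0 : w ≠ 0 := by rintro rfl; exact scalar_ne_zero hz (by rw [← hw]; simp)
    let N : Module.End F (Fin n → F) := w⁻¹ • T - 1
    have hN3 : N ^ 3 = 0 := by
      have h1 : ((Polynomial.C w⁻¹ * Polynomial.X - 1 : Polynomial F)) ^ 3 =
          Polynomial.C (w⁻¹ ^ 3) * Polynomial.X ^ 3 - 1 := by
        rw [sub_pow_char, mul_pow, one_pow, map_pow]
      have h2 := congrArg (Polynomial.aeval T) h1
      simp only [map_pow, map_sub, map_mul, map_one, Polynomial.aeval_C, Polynomial.aeval_X] at h2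
      rw [Algebra.algebraMap_eq_smul_one, smul_mul_assoc, one_mul] at h2
      show (w⁻¹ • T - 1) ^ 3 = 0
      rw [h2, hTz, _root_.smul_pow, one_pow, smul_mul_smul_comm, mul_one, ← hw, inv_pow,
        inv_mul_cancel₀ (pow_ne_zero _ hw0), one_smul, sub_self]
    obtain ⟨κ, hκ, d, b, hd1, hb⟩ := CfsgLib.Jordan.exists_chainBasis N ⟨3, hN3⟩
    have hd3 : ∀ k, d k ≤ 3 := fun k => by
      by_contra hlt
      have h1 := hb.pow_apply 3 k ⟨0, by omega⟩
      rw [hN3, LinearMap.zero_apply, dif_pos (show ((⟨0, by omega⟩ : Fin (d k)) : ℕ) + 3 < d k by simp; omega)] at h1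
      exact b.ne_zero _ h1.symm
    let A : Matrix ((k : κ) × Fin (d k)) ((k : κ) × Fin (d k)) F₀ := Matrix.of fun u v =>
      if u.1 = v.1 ∧ ((u.2 : ℕ) = v.2 ∨ (u.2 : ℕ) = v.2 + 1) then 1 else 0
    let ι' : F₀ →+* F := F₀.subtype
    have hAv : ∀ u v, (A.map ι') u v =
        if u.1 = v.1 ∧ ((u.2 : ℕ) = v.2 ∨ (u.2 : ℕ) = v.2 + 1) then 1 else 0 := fun u v => by
      simp only [A, Matrix.map_apply, Matrix.of_apply]; split_ifs <;> simp
    have hx : T = Matrix.toLin b b (w • A.map ι') := by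
      refine b.ext fun v => ?_
      obtain ⟨k, i⟩ := v
      rw [map_smul, LinearMap.smul_apply, Matrix.toLin_self,
        show T (b ⟨k, i⟩) = w • (b ⟨k, i⟩ + N (b ⟨k, i⟩)) by simp [N, smul_inv_smul₀ hw0]]
      congr 1
      simp only [hAv]
      rw [← Finset.add_sum_erase _ _ (Finset.mem_univ (⟨k, i⟩ : (k : κ) × Fin (d k))),
        if_pos ⟨rfl, Or.inl rfl⟩, one_smul]
      congr 1
      by_cases hi : (i : ℕ) + 1 < d k
      · rw [hb.step k i hi, Finset.sum_eq_single (⟨k, ⟨i + 1, hi⟩⟩ : (k : κ) × Fin (d k))]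
        · simp
        · rintro ⟨l, j⟩ hj hne
          rw [if_neg, zero_smul]
          rintro ⟨rfl, h | h⟩
          · exact Finset.ne_of_mem_erase hj (congrArg (Sigma.mk l) (Fin.ext h))
          · exact hne (congrArg (Sigma.mk l) (Fin.ext h))
        · intro h
          exact absurd (Finset.mem_erase.2 ⟨fun h' => by simp [Fin.ext_iff] at h',
            Finset.mem_univ _⟩) h
      · rw [hb.last k i (by omega), Finset.sum_eq_zero]
        rintro ⟨l, j⟩ hj
        rw [if_neg, zero_smul]
        rintro ⟨rfl, h | h⟩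
        · exact Finset.ne_of_mem_erase hj (congrArg (Sigma.mk l) (Fin.ext h))
        · have := j.2; omega
    refine conj_mem F₀ x b w A hx fun δ hδ => ?_
    -- a scalar on one chain
    have hcomm : ∀ c : κ → F, A.map ι' * diagonal (fun u => c u.1) = diagonal (fun u => c u.1) * A.map ι' := by
      intro c
      ext u v
      rw [mul_diagonal, diagonal_mul, hAv]
      split_ifs with h
      · rw [h.1, mul_comm]
      · simp
    have hdet : ∀ (k0 : κ) (s : F), (diagonal (fun u : (k : κ) × Fin (d k) =>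
        Function.update (fun _ => (1 : F)) k0 s u.1)).det = s ^ d k0 := by
      intro k0 s
      rw [det_diagonal, Fintype.prod_sigma, Finset.prod_eq_single k0]
      · simp
      · intro l _ hl; simp [Function.update_of_ne hl]
      · exact fun h => absurd (Finset.mem_univ _) h
    by_cases hodd : ∃ k0, Odd (d k0)
    · obtain ⟨k0, hk0⟩ := hodd
      obtain ⟨s, hs⟩ : ∃ s : F, s ^ d k0 = δ := by
        have := hd3 k0
        obtain ⟨j, hj⟩ := hk0
        rcases (show d k0 = 1 ∨ d k0 = 3 by omega) with h | h <;> rw [h]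
        · exact ⟨δ, pow_one δ⟩
        · exact hroot δ
      exact ⟨_, 1, hcomm (Function.update (fun _ => 1) k0 s), by rw [hdet, hs, det_one]; simp⟩
    · push Not at hodd
      have hd2 : ∀ k0, d k0 = 2 := fun k0 => by
        have := hd3 k0; have := hd1 k0
        obtain ⟨j, hj⟩ := Nat.not_odd_iff_even.1 (hodd k0)
        omega
      have hn2 : n = Fintype.card κ * 2 := by
        have := Module.finrank_eq_card_basis b
        simpa [hd2, Fintype.card_sigma] using this
      obtain ⟨-, hk3⟩ := hR.resolve_left (Nat.not_odd_iff_even.2 ⟨Fintype.card κ, by omega⟩)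
      obtain ⟨k0⟩ : Nonempty κ := Fintype.card_pos_iff.1 (by omega)
      by_cases hsq : IsSquare δ
      · obtain ⟨s, hs⟩ := hsq
        exact ⟨_, 1, hcomm (Function.update (fun _ => 1) k0 s), by rw [hdet, hd2, sq, ← hs, det_one]; simp⟩
      · have hF0 : ringChar F₀ ≠ 2 := by rw [ringChar.eq F₀ 3]; decide
        obtain ⟨ε, hε⟩ := FiniteField.exists_nonsquare hF0
        have hεF : ¬ IsSquare (ε : F) := by
          rintro ⟨s, hs⟩
          have hε0 : ε ≠ 0 := fun h => hε (h ▸ ⟨0, by simp⟩)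
          have hs0 : s ≠ 0 := fun h => hε0 (Subtype.ext (by rw [hs, h, mul_zero]; rfl))
          obtain ⟨j, hj⟩ := hk.odd_of_ne_two (by omega : k ≠ 2)
          have h : s ^ q₀ = -s := by
            have h0 := (FiniteField.pow_dichotomy hF0 hε0).resolve_left fun e =>
              hε ((FiniteField.isSquare_iff hF0 hε0).2 e)
            rw [hq0'] at h0
            have h1 := congrArg (fun z : F₀ => (z : F)) h0
            simp only [SubmonoidClass.coe_pow, NegMemClass.coe_neg, OneMemClass.coe_one, hs, ← sq, ← pow_mul] at h1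
            obtain ⟨i, hi⟩ := hq0odd
            rw [hi, pow_succ, show 2 * i = 2 * (q₀ / 2) by omega, h1, neg_one_mul]
          have h4 : ∀ i : ℕ, s ^ q₀ ^ (2 * i + 1) = -s := by
            intro i
            induction i with
            | zero => simpa using h
            | succ i ih =>
              rw [show 2 * (i + 1) + 1 = (2 * i + 1) + 1 + 1 by ring, pow_succ, pow_succ, pow_mul, pow_mul, ih,
                Odd.neg_pow hq0odd, h, neg_neg, h]
          have h5 := h4 j
          rw [← hj, ← hqk, FiniteField.pow_card] at h5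
          exact mul_ne_zero h2F hs0 (by linear_combination h5)
        obtain ⟨s, hs⟩ : IsSquare (δ * (ε : F)⁻¹) := by
          have hεF' : (ε : F) ≠ 0 := fun h => hεF (h ▸ ⟨0, by simp⟩)
          have hp := fun a (ha : a ≠ 0) => FiniteField.isSquare_iff (fun h => h2F (by
            exact_mod_cast (ringChar.spec F 2).mpr (by rw [h]))) (a := (a : F)) ha
          have hd' := fun a (ha : a ≠ 0) => FiniteField.pow_dichotomy (fun h => h2F (by
            exact_mod_cast (ringChar.spec F 2).mpr (by rw [h]))) (a := (a : F)) ha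
          rw [hp _ (mul_ne_zero hδ (inv_ne_zero hεF')), mul_pow, inv_pow]
          rw [hp _ hδ] at hsq
          rw [hp _ hεF'] at hεF
          rw [(hd' _ hδ).resolve_left hsq, (hd' _ hεF').resolve_left hεF]
          simp
        let u0 : (k : κ) × Fin (d k) := ⟨k0, ⟨0, hd1 k0⟩⟩
        refine ⟨_, diagonal (Function.update (fun _ => 1) u0 ε), hcomm (Function.update (fun _ => 1) k0 s), by
          rw [hdet k0 s, hd2, sq, ← hs, det_diagonal, Finset.prod_update_of_mem (Finset.mem_univ _)]
          rw [Finset.prod_eq_one (fun _ _ => rfl), mul_one, inv_mul_cancel_right₀]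
          exact fun h => hεF (h ▸ ⟨0, by simp⟩)⟩

end Cfsg.Agent.S5966

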