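import Cfsg.Statements.S5967
import Cfsg.Agent.Eq.Def_GeometricClasses
import Cfsg.Agent.Classical.Semisimple.InvolutionForms
import Cfsg.Agent.Classical.Semisimple.Bridge

set_option autoImplicit false
set_option maxHeartbeats 400000
open scoped MatrixGroups
open Cfsg

namespace Cfsg.Agent.S5967

open Module Matrix CfsgLib.Classical.Semisimple

/-- `-1` is an `n`-th power exactly when the two-part of `q - 1` exceeds that of `n`. -/
private theorem exists_pow_eq_neg_one_iff {F : Type*} [Field F] [Fintype F] (h2 : (2 : F) ≠ 0) {n : ℕ}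
    (hn : n ≠ 0) :
    (∃ w : F, w ^ n = -1) ↔ padicValNat 2 n < padicValNat 2 (Fintype.card F - 1) := by
  have hN : Fintype.card F - 1 ≠ 0 := by have := Fintype.one_lt_card (α := F); omega
  constructor
  · rintro ⟨w, hw⟩
    have hw0 : w ≠ 0 := by rintro rfl; simp [zero_pow hn] at hw
    by_contra hle
    rw [not_lt] at hle
    have h1 : orderOf w ∣ n * 2 := orderOf_dvd_of_pow_eq_one (by rw [pow_mul, hw, neg_one_sq])
    have h2' : orderOf w ∣ Fintype.card F - 1 :=
      orderOf_dvd_of_pow_eq_one (FiniteField.pow_card_sub_one_eq_one w hw0)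
    obtain ⟨e, he⟩ := h1
    rcases Nat.even_or_odd e with ⟨e', rfl⟩ | hodd
    · have : orderOf w ∣ n := ⟨e', by linarith⟩
      rw [orderOf_dvd_iff_pow_eq_one, hw] at this
      exact h2 (by linear_combination (-1 : F) * this)
    · have h3 : 2 ^ (padicValNat 2 n + 1) ∣ orderOf w * e := by
        rw [← he, pow_succ]; exact Nat.mul_dvd_mul_right pow_padicValNat_dvd 2
      have h4 : 2 ^ (padicValNat 2 n + 1) ∣ orderOf w :=
        (Nat.Coprime.pow_left _ ((Nat.prime_two.coprime_iff_not_dvd).mpr
          (Nat.two_dvd_ne_zero.mpr (Nat.odd_iff.mp hodd)))).dvd_of_dvd_mul_right h3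
      have h5 := (padicValNat_dvd_iff_le hN).mp (h4.trans h2')
      omega
  · intro hlt
    obtain ⟨g, hg⟩ := IsCyclic.exists_generator (α := Fˣ)
    have hg' : orderOf g = Fintype.card F - 1 := by
      rw [orderOf_eq_card_of_forall_mem_zpowers hg, Nat.card_units, Nat.card_eq_fintype_card]
    have hdvd : 2 ^ (padicValNat 2 n + 1) ∣ orderOf g := by
      rw [hg']; exact (padicValNat_dvd_iff_le hN).mpr hlt
    set u := g ^ (orderOf g / 2 ^ (padicValNat 2 n + 1))
    have hu : orderOf u = 2 ^ (padicValNat 2 n + 1) :=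
      orderOf_pow_orderOf_div (by rw [hg']; exact hN) hdvd
    refine ⟨(u : F), ?_⟩
    have h1 : ((u : F) ^ n) ^ 2 = 1 := by
      rw [← pow_mul, ← Units.val_pow_eq_pow_val, Units.val_eq_one, ← orderOf_dvd_iff_pow_eq_one, hu, pow_succ]
      exact Nat.mul_dvd_mul_right pow_padicValNat_dvd 2
    refine (sq_eq_one_iff.mp h1).resolve_left fun h => ?_
    rw [← Units.val_pow_eq_pow_val, Units.val_eq_one, ← orderOf_dvd_iff_pow_eq_one, hu,
      padicValNat_dvd_iff_le hn] at h
    omega



private theorem split_case {F : Type*} [Field F] {n : ℕ} (h2 : (2 : F) ≠ 0) {w : F} (hw0 : w ≠ 0)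
    {T : Module.End F (Fin n → F)} (hTT : ∀ u, T (T u) = w ^ 2 • u) :
    ∃ (a b : ℕ) (b0 : Basis (Fin a ⊕ Fin b) F (Fin n → F)), a + b = n ∧
      T = Matrix.toLin b0 b0 (diagonal (Sum.elim (fun _ => w) fun _ => -w)) := by
  set A := LinearMap.ker (T - w • (1 : Module.End F (Fin n → F)))
  set B := LinearMap.ker (T + w • (1 : Module.End F (Fin n → F)))
  have hA : ∀ u ∈ A, T u = w • u := fun u hu => by simpa [A, sub_eq_zero] using hu
  have hB : ∀ u ∈ B, T u = -(w • u) := fun u hu => by
    simpa [B, add_eq_zero_iff_eq_neg] using hu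
  have hcompl : IsCompl A B := by
    refine ⟨Submodule.disjoint_def.2 fun u ha hb => ?_,
      codisjoint_iff.2 (eq_top_iff.2 fun u _ => ?_)⟩
    · have h3 : ((2 : F) * w) • u = 0 := by
        rw [two_mul, add_smul]; exact eq_neg_iff_add_eq_zero.1 ((hA u ha).symm.trans (hB u hb))
      exact (smul_eq_zero.1 h3).resolve_left (mul_ne_zero h2 hw0)
    · have h1 : (2 * w)⁻¹ • (w • u + T u) ∈ A := A.smul_mem _ (by
        simp [A, hTT, sq, smul_smul, smul_add]; abel)
      have h3 : (2 * w)⁻¹ • (w • u - T u) ∈ B := B.smul_mem _ (by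
        simp [B, hTT, sq, smul_smul, smul_sub])
      refine Submodule.mem_sup.2 ⟨_, h1, _, h3, ?_⟩
      rw [← smul_add, show w • u + T u + (w • u - T u) = (2 * w) • u by module, smul_smul,
        inv_mul_cancel₀ (mul_ne_zero h2 hw0), one_smul]
  obtain ⟨a, ha⟩ : ∃ a, finrank F A = a := ⟨_, rfl⟩
  obtain ⟨b, hb⟩ : ∃ b, finrank F B = b := ⟨_, rfl⟩
  have hsum := Submodule.finrank_add_eq_of_isCompl hcompl
  rw [ha, hb, Module.finrank_fin_fun] at hsum
  let bA := Module.finBasisOfFinrankEq F A ha
  let bB := Module.finBasisOfFinrankEq F B hb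
  obtain ⟨b0, hb0⟩ : ∃ b0 : Basis (Fin a ⊕ Fin b) F (Fin n → F),
      b0 = (bA.prod bB).map (A.prodEquivOfIsCompl B hcompl) := ⟨_, rfl⟩
  refine ⟨a, b, b0, hsum, b0.ext fun k => ?_⟩
  rw [Matrix.toLin_self, Finset.sum_eq_single k (fun l _ hl => by simp [diagonal_apply_ne _ hl])
    (fun h => absurd (Finset.mem_univ k) h), diagonal_apply_eq]
  rcases k with i | i
  · simp [hb0, hA _ (bA i).2]
  · simp [hb0, hB _ (bB i).2]

private theorem diag_case {F : Type*} [Field F] [Fintype F] {n m : ℕ} [NeZero m]
    {f : (Fin n → F) → (Fin n → F) → F} (hf : Cfsg.Geo.IsSymplecticForm f)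
    (x : Matrix.SpecialLinearGroup (Fin n) F) (h2 : (2 : F) ≠ 0) (hm : n = m + m)
    (hle : padicValNat 2 (Fintype.card F - 1) ≤ padicValNat 2 n) {w : F} (hw0 : w ≠ 0)
    (hTT : ∀ u, Matrix.toLin' (x : Matrix (Fin n) (Fin n) F)
      (Matrix.toLin' (x : Matrix (Fin n) (Fin n) F) u) = w ^ 2 • u) :
    ∃ P : Matrix.SpecialLinearGroup (Fin n) F, P⁻¹ * x * P ∈ (Cfsg.Geo.similarityGroup f).comap
      (Matrix.SpecialLinearGroup.toGL : Matrix.SpecialLinearGroup (Fin n) F →* GL (Fin n) F) := by
  obtain ⟨a, b, b0, hab, hT⟩ := split_case h2 hw0 hTT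
  have hdet : w ^ a * (-w) ^ b = 1 := by
    have h := toLin'_det_one x
    rw [hT, LinearMap.det_toLin, det_diagonal, Fintype.prod_sum_type] at h
    simpa using h
  have hBeven : Even b := by
    by_contra hodd
    rw [Nat.not_even_iff_odd] at hodd
    rw [hodd.neg_pow, mul_neg, ← pow_add, hab] at hdet
    have hn0 : n ≠ 0 := by have := NeZero.ne m; omega
    exact absurd ((exists_pow_eq_neg_one_iff h2 hn0).mp ⟨w, by rw [← neg_neg (w ^ n), hdet]⟩)
      (not_lt.mpr hle)
  obtain ⟨β, hβ⟩ := hBeven
  obtain ⟨α, hα⟩ : ∃ α, a = 2 * α := ⟨m - β, by omega⟩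
  subst hα hβ
  let e : Fin (2 * α) ⊕ Fin (β + β) ≃ Fin 2 × Fin m :=
    (Equiv.sumCongr finProdFinEquiv.symm
      ((finCongr (two_mul β).symm).trans finProdFinEquiv.symm)).trans
      ((Equiv.prodSumDistrib _ _ _).symm.trans (Equiv.prodCongr (Equiv.refl _)
        (finSumFinEquiv.trans (finCongr (by omega : α + β = m)))))
  refine exists_conj_mem_of_diag hf x (b0.reindex e)
    (fun k => Sum.elim (fun _ => w) (fun _ => -w) (e.symm k)) (pow_ne_zero 2 hw0) (fun i => ?_)
    (fun k => ?_)
  · obtain ⟨i, rfl⟩ := (finSumFinEquiv.trans (finCongr (by omega : α + β = m))).surjective i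
    rcases i with i | i <;> simp [e, sq]
  · rw [Basis.reindex_apply, hT, Matrix.toLin_self,
      Finset.sum_eq_single (e.symm k) (fun l _ hl => by simp [diagonal_apply_ne _ hl])
        (fun h => absurd (Finset.mem_univ _) h), diagonal_apply_eq]

/-- Involutions of PSL_n(q) and the symplectic-type subgroups. Here `T = PSL_n(F)` for a field `F` with `q` elements, `n ≥ 4` even, `f` is a nondegenerate alternating form on `F^n`, and `H` is the subgroup of matrices of determinant 1 preserving `f` up to a scalar — a maximal subgroup of type Sp_n(q); Ω is the set of `T`-conjugates of `H` (cosets of `H`), so an element of `T` of prime order `r` (a matrix `x` of determinant 1 with `x^r` scalar, `x` not scalar) fixes a point of Ω when some conjugate of `x` by a matrix of determinant 1 preserves `f` up to a scalar. Suppose the index of `H` is even. Then every involution of `T` is conjugate in `T` into `H` if and only if `(q − 1)_2 ≤ (n)_2`. -/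
theorem result {F : Type*} [Field F] [Fintype F] {p : ℕ} [Fact p.Prime] [CharP F p] {q : ℕ} (hq : Fintype.card F = q)
    (n : ℕ) (hn : 4 ≤ n) (he : Even n) (f : (Fin n → F) → (Fin n → F) → F) (hf : Cfsg.Geo.IsSymplecticForm f)
    (hΩ : 2 ∣ ((Cfsg.Geo.similarityGroup f).comap (Matrix.SpecialLinearGroup.toGL : Matrix.SpecialLinearGroup (Fin n) F →* GL (Fin n) F)).index) :
    (∀ x : Matrix.SpecialLinearGroup (Fin n) F,
      (∃ z : F, ((x ^ 2 : Matrix.SpecialLinearGroup (Fin n) F) : Matrix (Fin n) (Fin n) F) = z • (1 : Matrix (Fin n) (Fin n) F)) →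
      (∀ z : F, (x : Matrix (Fin n) (Fin n) F) ≠ z • (1 : Matrix (Fin n) (Fin n) F)) →
      ∃ P : Matrix.SpecialLinearGroup (Fin n) F, P⁻¹ * x * P ∈ ((Cfsg.Geo.similarityGroup f).comap (Matrix.SpecialLinearGroup.toGL : Matrix.SpecialLinearGroup (Fin n) F →* GL (Fin n) F))) ↔
    padicValNat 2 (q - 1) ≤ padicValNat 2 n := by
  classical
  subst hq
  have hppr : p.Prime := Fact.out
  haveI : NeZero n := ⟨by omega⟩
  have : Nonempty (Fin n) := ⟨0⟩
  obtain ⟨m, hm⟩ := he
  haveI : NeZero m := ⟨by omega⟩
  constructor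
  · intro h
    by_contra hlt
    rw [not_le] at hlt
    have h2 : (2 : F) ≠ 0 := by
      intro h2
      have : p = 2 := by
        have h3 : ((2 : ℕ) : F) = 0 := by simpa using h2
        exact (Nat.prime_dvd_prime_iff_eq hppr Nat.prime_two).mp ((CharP.cast_eq_zero_iff F p 2).1 h3)
      subst this
      obtain ⟨k, -, hk⟩ := FiniteField.card F 2
      rw [padicValNat.eq_zero_of_not_dvd (n := Fintype.card F - 1) (by
        rw [hk]
        have h4 : 2 ∣ 2 ^ (k : ℕ) := dvd_pow_self 2 k.ne_zero
        have := Nat.one_le_two_pow (n := (k : ℕ))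
        omega)] at hlt
      omega
    obtain ⟨w, hw⟩ := (exists_pow_eq_neg_one_iff h2 (by omega : n ≠ 0)).mpr hlt
    have hw0 : w ≠ 0 := by rintro rfl; simp [zero_pow (by omega : n ≠ 0)] at hw
    set d : Fin n → F := fun i => if i = 0 then -w else w with hd
    have hne : (-w) ≠ w := fun h => mul_ne_zero h2 hw0 (by linear_combination -h)
    have hdet : (diagonal d).det = 1 := by
      rw [det_diagonal, ← Finset.mul_prod_erase _ _ (Finset.mem_univ (0 : Fin n))]
      rw [Finset.prod_congr rfl (fun i hi => show d i = w by simp [d, Finset.ne_of_mem_erase hi]),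
        Finset.prod_const, Finset.card_erase_of_mem (Finset.mem_univ _), Finset.card_univ, Fintype.card_fin]
      simp only [d, if_true]
      rw [neg_mul, ← pow_succ', show n - 1 + 1 = n by omega, hw, neg_neg]
    let x0 : Matrix.SpecialLinearGroup (Fin n) F := ⟨diagonal d, hdet⟩
    have hx1 : ((x0 ^ 2 : Matrix.SpecialLinearGroup (Fin n) F) : Matrix (Fin n) (Fin n) F) =
        (w ^ 2) • (1 : Matrix (Fin n) (Fin n) F) := by
      rw [Matrix.SpecialLinearGroup.coe_pow]
      show diagonal d ^ 2 = _
      rw [diagonal_pow, smul_one_eq_diagonal]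
      refine congrArg diagonal (funext fun i => ?_)
      simp only [d, Pi.pow_apply]
      split_ifs
      · exact neg_sq w
      · rfl
    have hx2 : ∀ c : F, diagonal d ≠ c • (1 : Matrix (Fin n) (Fin n) F) := by
      intro c hc
      have a0 := congrFun (congrFun hc 0) 0
      have a1 := congrFun (congrFun hc ⟨1, by omega⟩) ⟨1, by omega⟩
      have hne1 : (⟨1, by omega⟩ : Fin n) ≠ 0 := by simp [Fin.ext_iff]
      simp [d, hne1] at a0 a1
      exact hne (a0.trans a1.symm)
    obtain ⟨P, hP⟩ := h x0 ⟨w ^ 2, hx1⟩ hx2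
    obtain ⟨g, hg, μ, hμ⟩ := exists_similitude_of_conj_mem hf hP
    obtain ⟨j, -, hne0, hcard⟩ := exists_partner hg (d := d)
      (fun i => by simp only [d]; split_ifs <;> simp [hw0]) hμ (0 : Fin n)
    have e1 : (Finset.univ.filter fun k => d k = d 0) = {0} := by
      ext k
      simp only [d, Finset.mem_filter, Finset.mem_univ, true_and, Finset.mem_singleton, if_true]
      split_ifs with hk <;> simp [hk, Ne.symm hne]
    have e2 : (Finset.univ.filter fun k => d k = d j) = Finset.univ.erase 0 := by
      ext k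
      simp only [d, Finset.mem_filter, Finset.mem_univ, true_and, Finset.mem_erase, if_neg hne0.symm,
        and_true]
      split_ifs with hk <;> simp [hk, hne]
    rw [e1, e2, Finset.card_singleton, Finset.card_erase_of_mem (Finset.mem_univ _), Finset.card_univ,
      Fintype.card_fin] at hcard
    omega
  · intro hle x ⟨z, hz⟩ hns
    have hz0 := scalar_ne_zero hz
    set T : Module.End F (Fin n → F) := Matrix.toLin' (x : Matrix (Fin n) (Fin n) F) with hT
    have hTz : T ^ 2 = z • 1 := toLin'_pow_eq_smul hz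
    have hTT : ∀ u, T (T u) = z • u := fun u => by simpa [sq] using LinearMap.congr_fun hTz u
    have hdim : finrank F (Fin n → F) = n := Module.finrank_fin_fun (R := F)
    by_cases h2 : (2 : F) = 0
    · have : p = 2 := by
        have h3 : ((2 : ℕ) : F) = 0 := by simpa using h2
        exact (Nat.prime_dvd_prime_iff_eq hppr Nat.prime_two).mp ((CharP.cast_eq_zero_iff F p 2).1 h3)
      subst this
      have hsqrt : ∀ δ : F, ∃ u : F, u ^ 2 = δ := fun δ => by
        obtain ⟨u, hu⟩ := (Finite.injective_iff_surjective.mp (frobenius_inj F 2)) δ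
        exact ⟨u, by rw [← hu, frobenius_def]⟩
      obtain ⟨w, hw⟩ := hsqrt z
      have hw0 : w ≠ 0 := by rintro rfl; exact hz0 (by rw [← hw]; simp)
      have hN : (T - w • 1) ^ 2 = 0 := by
        refine LinearMap.ext fun u => ?_
        simp only [sq, Module.End.mul_apply, LinearMap.sub_apply, LinearMap.smul_apply,
          Module.End.one_apply, map_sub, map_smul, hTT, smul_sub, smul_smul, LinearMap.zero_apply, ← hw]
        rw [show (w * w) • u - w • T u - (w • T u - (w * w) • u) =
          ((2 : F) * (w * w)) • u - ((2 : F) * w) • T u by module, h2]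
        simp
      obtain ⟨s, r, b0, hb1, hb2, hb3⟩ := exists_basis_of_sq_zero hN
      have hcard := Module.finrank_eq_card_basis b0
      simp only [Fintype.card_sum, Fintype.card_fin, hdim] at hcard
      obtain ⟨ρ, rfl⟩ : ∃ ρ, r = 2 * ρ := ⟨r / 2, by omega⟩
      let e : (Fin s ⊕ Fin s) ⊕ Fin (2 * ρ) ≃ Fin 2 × Fin m :=
        { toFun := Sum.elim
            (Sum.elim (fun i => (0, finCongr (by omega : s + ρ = m) (Fin.castAdd ρ i)))
              fun i => (1, finCongr (by omega : s + ρ = m) (Fin.castAdd ρ i)))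
            fun j => ((finProdFinEquiv.symm j).1,
              finCongr (by omega : s + ρ = m) (Fin.natAdd s (finProdFinEquiv.symm j).2))
          invFun := fun q => Fin.addCases (fun i => Sum.inl (![Sum.inl i, Sum.inr i] q.1))
            (fun j => Sum.inr (finProdFinEquiv (q.1, j))) (finCongr (by omega : m = s + ρ) q.2)
          left_inv := by
            rintro ((i | i) | j) <;> simp
            exact finProdFinEquiv.apply_symm_apply j
          right_inv := by
            rintro ⟨a, i⟩
            obtain ⟨i, rfl⟩ := (finCongr (by omega : s + ρ = m)).surjective i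
            refine Fin.addCases (fun i => ?_) (fun j => ?_) i
            · fin_cases a <;> simp
            · simp
              exact Prod.ext_iff.mp (finProdFinEquiv.symm_apply_apply (a, j)) }
      have hTb : ∀ u, T u = w • u + (T - w • 1) u := fun u => by simp
      refine exists_conj_mem_of_jordan hf x (b0.reindex e)
        (fun i => Fin.addCases (fun _ => (1 : F)) (fun _ => (0 : F))
          (finCongr (by omega : m = s + ρ) i)) hw0 hsqrt (fun i => ?_) (fun i => ?_)
      all_goals
        obtain ⟨i, rfl⟩ := (finCongr (by omega : s + ρ = m)).surjective i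
        rw [← hT, hTb, Basis.reindex_apply]
        refine Fin.addCases (fun i => ?_) (fun j => ?_) i
      · simp [e, hb1]
      · simp [e, hb3]
      · simp [e, hb2]
      · simp [e, hb3]
    · have hqodd : Fintype.card F % 2 = 1 := by
        refine (Nat.mod_two_eq_zero_or_one _).resolve_left fun h0 => h2 ?_
        have : ringChar F = 2 := FiniteField.even_card_iff_char_two.mpr h0
        exact_mod_cast (ringChar.spec F 2).mpr (by rw [this])
      by_cases hsq : ∃ w : F, w ^ 2 = z
      · obtain ⟨w, hw⟩ := hsq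
        exact diag_case hf x h2 hm hle (w := w) (by rintro rfl; exact hz0 (by rw [← hw]; simp))
          (fun u => by rw [hw]; exact hTT u)
      · push Not at hsq
        obtain ⟨v, hv⟩ := exists_pairs_of_nonsquare hTz hsq m (by rw [hdim]; omega)
        let b0 := basisOfLinearIndependentOfCardEqFinrank hv (by
          rw [hdim, Fintype.card_sum, Fintype.card_fin]; omega)
        let e : Fin m ⊕ Fin m ≃ Fin 2 × Fin m :=
          { toFun := Sum.elim (fun i => (0, i)) fun i => (1, i)
            invFun := fun p => ![Sum.inl p.2, Sum.inr p.2] p.1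
            left_inv := fun p => by rcases p with i | i <;> rfl
            right_inv := fun p => by obtain ⟨a, i⟩ := p; fin_cases a <;> rfl }
        refine exists_conj_mem_of_nonsquare hf x hqodd (b0.reindex e) hz0 (fun i => ?_) (fun i => ?_)
        · simp only [b0, e, Basis.reindex_apply, coe_basisOfLinearIndependentOfCardEqFinrank]
          rfl
        · simp only [b0, e, Basis.reindex_apply, coe_basisOfLinearIndependentOfCardEqFinrank]
          exact hTT _

end Cfsg.Agent.S5967
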