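import Cfsg.Statements.S5968
import Cfsg.Agent.Eq.Def_GeometricClasses
import Cfsg.Agent.Classical.Semisimple.Similitude
import Cfsg.Agent.Classical.Semisimple.LinearElusive
import Cfsg.Agent.Classical.Semisimple.Exist

set_option autoImplicit false
open scoped MatrixGroups
open Cfsg

namespace Cfsg.Agent.S5968

open Module Matrix CfsgLib.Classical.Semisimple

private theorem card_lt {n s : ℕ} (hs : s ≤ n) :
    (Finset.univ.filter fun i : Fin n => i.val < s).card = s := by
  have : (Finset.univ.filter fun i : Fin n => i.val < s) =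
      (Finset.univ : Finset (Fin s)).image (Fin.castLE hs) := by
    ext i
    simp only [Finset.mem_filter, Finset.mem_univ, true_and, Finset.mem_image]
    exact ⟨fun h => ⟨⟨i.val, h⟩, Fin.ext rfl⟩, fun ⟨a, ha⟩ => ha ▸ a.2⟩
  rw [this, Finset.card_image_of_injective _ (Fin.castLE_injective hs), Finset.card_fin]

private theorem card_ge {n s : ℕ} (hs : s ≤ n) :
    (Finset.univ.filter fun i : Fin n => ¬ i.val < s).card = n - s := by
  have := Finset.card_filter_add_card_filter_not (s := (Finset.univ : Finset (Fin n)))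
    (fun i => i.val < s)
  rw [card_lt hs, Finset.card_fin] at this
  omega

/-- A diagonal matrix of order `r` and determinant one with unequal multiplicities. -/
private theorem exists_diag {F : Type*} [Field F] [DecidableEq F] {n r : ℕ} [hr : Fact r.Prime]
    (hn : 4 ≤ n) (he : Even n) (hr2 : r ≠ 2) (hgap : ¬ (n = 6 ∧ r = 3)) {ζ : F}
    (hζ : orderOf ζ = r) :
    ∃ d : Fin n → F, (∀ i, d i ^ r = 1) ∧ ∏ i, d i = 1 ∧
      (∀ i j, (Finset.univ.filter fun k => d k = d i).card =
        (Finset.univ.filter fun k => d k = d j).card → d i = d j) ∧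
      ∃ i j, d i ≠ d j := by
  have hζr : ζ ^ r = 1 := hζ ▸ pow_orderOf_eq_one ζ
  have hζ0 : ζ ≠ 0 := by
    rintro rfl
    simp [hr.out.ne_zero] at hζr
  have two : ∀ (A C : F) (s : ℕ), A ≠ C → 0 < s → s < n → s ≠ n - s →
      A ^ r = 1 → C ^ r = 1 → A ^ s * C ^ (n - s) = 1 →
      ∃ d : Fin n → F, (∀ i, d i ^ r = 1) ∧ ∏ i, d i = 1 ∧
        (∀ i j, (Finset.univ.filter fun k => d k = d i).card =
          (Finset.univ.filter fun k => d k = d j).card → d i = d j) ∧ ∃ i j, d i ≠ d j := by
    intro A C s hAC hs0 hsn hne hA hC hprod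
    set d : Fin n → F := fun i => if i.val < s then A else C with hd
    have cA : (Finset.univ.filter fun k => d k = A).card = s := by
      refine (congrArg Finset.card (Finset.filter_congr fun k _ => ?_)).trans (card_lt hsn.le)
      simp only [d]; split_ifs with h <;> simp [h, Ne.symm hAC]
    have cC : (Finset.univ.filter fun k => d k = C).card = n - s := by
      refine (congrArg Finset.card (Finset.filter_congr fun k _ => ?_)).trans (card_ge hsn.le)
      simp only [d]; split_ifs with h <;> simp [h, hAC]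
    have hval : ∀ i, d i = A ∨ d i = C := fun i => by
      simp only [d]; split_ifs <;> simp
    refine ⟨d, fun i => ?_, ?_, fun i j h => ?_, ⟨0, by omega⟩, ⟨s, hsn⟩, ?_⟩
    · rcases hval i with h | h <;> rw [h] <;> assumption
    · simp only [d]
      rw [Finset.prod_ite, Finset.prod_const, Finset.prod_const, card_lt hsn.le, card_ge hsn.le, hprod]
    · rcases hval i with h1 | h1 <;> rcases hval j with h2 | h2 <;> rw [h1, h2] at h ⊢ <;>
        rw [cA, cC] at * <;> omega
    · simp [d, hs0, hAC]
  by_cases hrn : r ∣ n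
  swap
  · refine two (ζ ^ (n - 1))⁻¹ ζ 1 ?_ one_pos (by omega) (by omega) ?_ hζr ?_
    · intro h
      refine hrn ?_
      rw [← hζ, orderOf_dvd_iff_pow_eq_one]
      conv_lhs => rw [show n = n - 1 + 1 by omega, pow_succ]
      nth_rewrite 2 [← h]
      exact mul_inv_cancel₀ (pow_ne_zero _ hζ0)
    · rw [inv_pow, ← pow_mul, mul_comm, pow_mul, hζr, one_pow, inv_one]
    · rw [pow_one, inv_mul_cancel₀ (pow_ne_zero _ hζ0)]
  by_cases hr3 : r = 3
  · subst hr3
    obtain ⟨k, hk⟩ := hrn
    have hζ1 : ζ ≠ 1 := by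
      rintro rfl
      simp at hζ
    refine two ζ 1 3 hζ1 (by omega) (by omega) (by omega) hζr (one_pow _) ?_
    rw [hζr, one_pow, one_mul]
  · have hr5 : 5 ≤ r := by
      have := hr.out.two_le
      rcases hr.out.odd_of_ne_two hr2 with ⟨k, hk⟩
      omega
    have h10 : 10 ≤ n := by
      obtain ⟨k, hk⟩ := hrn
      rcases Nat.lt_or_ge k 2 with h | h
      · exfalso
        interval_cases k
        · omega
        · rw [mul_one] at hk
          obtain ⟨j, hj⟩ := he
          rcases hr.out.odd_of_ne_two hr2 with ⟨i, hi⟩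
          omega
      · have := Nat.mul_le_mul hr5 h
        omega
    have hord : ∀ k, 0 < k → k < r → ζ ^ k ≠ 1 := fun k h1 h2 =>
      pow_ne_one_of_lt_orderOf (by omega) (hζ ▸ h2)
    obtain ⟨A, hA⟩ : ∃ A : F, A = (ζ ^ 2)⁻¹ := ⟨_, rfl⟩
    have hA1 : A ≠ 1 := fun h => hord 2 (by omega) (by omega) (inv_eq_one.mp (hA.symm.trans h))
    have hζ1 : ζ ≠ 1 := fun h => hord 1 one_pos (by omega) (by rw [h, pow_one])
    have hAζ : A ≠ ζ := fun h => hord 3 (by omega) (by omega) (by
      rw [pow_succ]
      nth_rewrite 2 [← h]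
      rw [hA]
      exact mul_inv_cancel₀ (pow_ne_zero _ hζ0))
    set d : Fin n → F := fun i => if i.val < 1 then A else if i.val < 3 then ζ else 1 with hd
    have cA : (Finset.univ.filter fun k => d k = A).card = 1 := by
      refine (congrArg Finset.card (Finset.filter_congr fun k _ => ?_)).trans (card_lt (by omega : 1 ≤ n))
      simp only [d]; split_ifs with h1 h2 <;> simp [h1, Ne.symm hAζ, Ne.symm hA1]
    have cC : (Finset.univ.filter fun k => d k = (1 : F)).card = n - 3 := by
      refine (congrArg Finset.card (Finset.filter_congr fun k _ => ?_)).trans (card_ge (by omega : 3 ≤ n))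
      simp only [d]; split_ifs <;> simp_all <;> omega
    have cB : (Finset.univ.filter fun k => d k = ζ).card = 2 := by
      have h := Finset.card_filter_add_card_filter_not
        (s := (Finset.univ.filter fun i : Fin n => i.val < 3)) (fun i => i.val < 1)
      rw [Finset.filter_filter, Finset.filter_filter, card_lt (by omega : 3 ≤ n),
        Finset.filter_congr (q := fun i : Fin n => i.val < 1) (fun i _ =>
          ⟨fun h => h.2, fun h => ⟨by omega, h⟩⟩), card_lt (by omega : 1 ≤ n)] at h
      have e : (Finset.univ.filter fun k => d k = ζ) =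
          Finset.univ.filter fun a : Fin n => a.val < 3 ∧ ¬ a.val < 1 := by
        refine Finset.filter_congr fun k _ => ?_
        simp only [d]; split_ifs <;> simp_all [Ne.symm hζ1] <;> omega
      rw [e]
      omega
    have hval : ∀ i, d i = A ∨ d i = ζ ∨ d i = 1 := fun i => by
      simp only [d]; split_ifs <;> simp
    refine ⟨d, fun i => ?_, ?_, fun i j h => ?_, ⟨0, by omega⟩, ⟨3, by omega⟩, ?_⟩
    · rcases hval i with h | h | h <;> rw [h]
      · rw [hA, inv_pow, ← pow_mul, mul_comm, pow_mul, hζr, one_pow, inv_one]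
      · exact hζr
      · exact one_pow r
    · simp only [d]
      obtain ⟨n', rfl⟩ : ∃ n', n = n' + 3 := ⟨n - 3, by omega⟩
      rw [Fin.prod_univ_succ, Fin.prod_univ_succ, Fin.prod_univ_succ]
      simp only [Fin.val_succ, Fin.val_zero]
      simp [hA]
      try field_simp
      exact Finset.prod_eq_one fun x _ => if_neg (by omega)
    · rcases hval i with h1 | h1 | h1 <;> rcases hval j with h2 | h2 | h2 <;> rw [h1, h2] at h ⊢ <;>
        simp only [cA, cB, cC] at h <;> omega
    · simp [d, hA1]


/-- Derangements of odd prime order of PSL_n(q) on the cosets of a symplectic-type subgroup. Here `T = PSL_n(F)` for a field `F` with `q` elements, `n ≥ 4` even, `f` is a nondegenerate alternating form on `F^n`, and `H` is the subgroup of matrices of determinant 1 preserving `f` up to a scalar — a maximal subgroup of type Sp_n(q); Ω is the set of `T`-conjugates of `H` (cosets of `H`), so an element of `T` of prime order `r` (a matrix `x` of determinant 1 with `x^r` scalar, `x` not scalar) fixes a point of Ω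 when some conjugate of `x` by a matrix of determinant 1 preserves `f` up to a scalar. For every odd prime `r` dividing the index of `H`, with `(n, r) ≠ (6, 3)`, there is an element of `T` of order `r` with no conjugate in `H`. (For `n = 6`, `r = 3` this can fail: when `(q − 1)_3 = 3` every element of order 3 is conjugate into `H`.) -/
theorem result {F : Type*} [Field F] [Fintype F] {p : ℕ} [Fact p.Prime] [CharP F p] {q : ℕ} (hq : Fintype.card F = q)
    (n : ℕ) (hn : 4 ≤ n) (he : Even n) (f : (Fin n → F) → (Fin n → F) → F) (hf : Cfsg.Geo.IsSymplecticForm f)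
    (r : ℕ) [Fact r.Prime] (hr2 : r ≠ 2) (hgap : ¬ (n = 6 ∧ r = 3)) (hΩ : r ∣ ((Cfsg.Geo.similarityGroup f).comap (Matrix.SpecialLinearGroup.toGL : Matrix.SpecialLinearGroup (Fin n) F →* GL (Fin n) F)).index) :
    ∃ x : Matrix.SpecialLinearGroup (Fin n) F,
      (∃ z : F, ((x ^ r : Matrix.SpecialLinearGroup (Fin n) F) : Matrix (Fin n) (Fin n) F) = z • (1 : Matrix (Fin n) (Fin n) F)) ∧
      (∀ z : F, (x : Matrix (Fin n) (Fin n) F) ≠ z • (1 : Matrix (Fin n) (Fin n) F)) ∧
      ∀ P : Matrix.SpecialLinearGroup (Fin n) F, P⁻¹ * x * P ∉ ((Cfsg.Geo.similarityGroup f).comap (Matrix.SpecialLinearGroup.toGL : Matrix.SpecialLinearGroup (Fin n) F →* GL (Fin n) F)) := by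
  classical
  subst hq
  have hrpr : r.Prime := Fact.out
  have hppr : p.Prime := Fact.out
  haveI : NeZero n := ⟨by omega⟩
  have : Nonempty (Fin n) := ⟨0⟩
  have hodd : Odd r := hrpr.odd_of_ne_two hr2
  suffices h : ∃ x : Matrix.SpecialLinearGroup (Fin n) F,
      (x : Matrix (Fin n) (Fin n) F) ^ r = 1 ∧
      (∀ z : F, (x : Matrix (Fin n) (Fin n) F) ≠ z • (1 : Matrix (Fin n) (Fin n) F)) ∧
      ∀ g, Cfsg.Geo.IsSymplecticForm g → ∀ μ : F, ¬ ∀ u v,
        g ((x : Matrix (Fin n) (Fin n) F) *ᵥ u) ((x : Matrix (Fin n) (Fin n) F) *ᵥ v) = μ * g u v by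
    obtain ⟨x, h1, h2, h3⟩ := h
    refine ⟨x, ⟨1, by rw [Matrix.SpecialLinearGroup.coe_pow, h1, one_smul]⟩, h2, fun P hP => ?_⟩
    obtain ⟨g, hg, μ, hμ⟩ := exists_similitude_of_conj_mem hf hP
    exact h3 g hg μ hμ
  have hroot1 : ∀ {x : Matrix (Fin n) (Fin n) F} {g : (Fin n → F) → (Fin n → F) → F},
      Cfsg.Geo.IsSymplecticForm g → x ^ r = 1 → ∀ {μ : F}, (∀ c : F, c ^ r = 1 → c = 1) →
      (∀ u v, g (x *ᵥ u) (x *ᵥ v) = μ * g u v) → ∀ u v, g (x *ᵥ u) (x *ᵥ v) = g u v := by
    intro x g hg hx μ hone hμ u v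
    rw [hμ, hone μ (factor_pow_eq_one hg hμ hx), one_mul]
  by_cases hrp : r = p
  · -- a Jordan block of size three
    subst hrp
    obtain ⟨a, b, c, hab, hac, hbc⟩ : ∃ a b c : Fin n, a ≠ b ∧ a ≠ c ∧ b ≠ c :=
      ⟨⟨0, by omega⟩, ⟨1, by omega⟩, ⟨2, by omega⟩, by simp [Fin.ext_iff], by simp [Fin.ext_iff],
        by simp [Fin.ext_iff]⟩
    set N : Matrix (Fin n) (Fin n) F := Matrix.single a b 1 + Matrix.single b c 1 with hN
    have hN3 : N ^ 3 = 0 := by
      rw [hN, pow_succ, sq]
      simp [Matrix.add_mul, Matrix.mul_add, hab, hab.symm, hac, hac.symm, hbc, hbc.symm]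
    haveI : CharP (Matrix (Fin n) (Fin n) F) r :=
      charP_of_injective_algebraMap (FaithfulSMul.algebraMap_injective F _) r
    have hxr : (1 + N) ^ r = 1 := by
      rw [add_pow_char_of_commute r (Commute.one_left N), one_pow,
        pow_eq_zero_of_le (show 3 ≤ r by have := hrpr.two_le; omega) hN3, add_zero]
    have hone : ∀ c : F, c ^ r = 1 → c = 1 := fun c hc =>
      frobenius_inj F r (by rw [frobenius_def, frobenius_def, hc, one_pow])
    have hdet : (1 + N).det = 1 := hone _ (by rw [← Matrix.det_pow, hxr, Matrix.det_one])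
    refine ⟨⟨1 + N, hdet⟩, hxr, fun z hz => ?_, fun g hg μ hμ => ?_⟩
    · have h1 := congrFun (congrFun hz a) b
      simp [hN, hab, Matrix.single, hbc, Ne.symm hab] at h1
    · refine not_similitude_jordan hg (a := a) (b := b) (c := c) ?_ ?_ ?_ ?_ (hroot1 hg hxr hone hμ)
      · funext i
        simp [hN, Matrix.mulVec_single_one, Matrix.one_apply, Matrix.single_apply, Pi.single_apply]
        grind
      · funext i
        simp [hN, Matrix.mulVec_single_one, Matrix.one_apply, Matrix.single_apply, Pi.single_apply]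
        grind
      · funext i
        simp [hN, Matrix.mulVec_single_one, Matrix.one_apply, Matrix.single_apply, Pi.single_apply]
        grind
      · intro k hkb hkc
        funext i
        simp [hN, Matrix.mulVec_single_one, Matrix.one_apply, Matrix.single_apply, Pi.single_apply,
          hkb.symm, hkc.symm]
  have hrF : (r : F) ≠ 0 := fun h =>
    hrp ((Nat.prime_dvd_prime_iff_eq hppr hrpr).1 ((CharP.cast_eq_zero_iff F p r).1 h)).symm
  have hrq : ¬ r ∣ Fintype.card F := fun h => by
    obtain ⟨k, -, hk⟩ := FiniteField.card F p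
    rw [hk] at h
    exact hrp ((Nat.prime_dvd_prime_iff_eq hrpr hppr).1 (hrpr.dvd_of_dvd_pow h))
  by_cases hc1 : orderOf (Fintype.card F : ZMod r) = 1
  · -- diagonal
    have hd1 : r ∣ Fintype.card F - 1 := by
      have := (dvd_pow_sub_one_iff_orderOf_dvd (F := F) (r := r) 1).2 (by rw [hc1])
      rwa [pow_one] at this
    have hd2 : r ∣ Nat.card Fˣ := by
      rwa [Nat.card_eq_fintype_card, Fintype.card_units]
    obtain ⟨u, hu⟩ := exists_prime_orderOf_dvd_card' r hd2
    obtain ⟨d, hdr, hprod, hcard, i, j, hij⟩ := exists_diag hn he hr2 hgap (ζ := (u : F))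
      (by rw [orderOf_units, hu])
    refine ⟨⟨diagonal d, by rw [det_diagonal, hprod]⟩, ?_, fun z hz => ?_, fun g hg μ =>
      not_similitude_diagonal hg hodd hdr hcard hij⟩
    · show diagonal d ^ r = 1
      rw [diagonal_pow, ← diagonal_one]
      exact congrArg diagonal (funext hdr)
    · refine hij ?_
      have h1 : ∀ k, d k = z := fun k => by simpa using congrFun (congrFun hz k) k
      rw [h1, h1]
  · rcases exists_odd_dvd_of_dvd_index hf hrpr hΩ with h | ⟨j, hjodd, hj1, hjn, hj⟩
    · exact absurd h hrq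
    have hdvd := (dvd_pow_sub_one_iff_orderOf_dvd (F := F) (r := r) j).1 hj
    set c := orderOf (Fintype.card F : ZMod r)
    have hcle : 1 * c ≤ n := by
      have := Nat.le_of_dvd (by omega) hdvd
      omega
    obtain ⟨x, hx, hns, hxr, hk, hR⟩ := exists_sl_orbit hrF hc1 one_pos hcle
    have hxm : (x : Matrix (Fin n) (Fin n) F) ^ r = 1 := by
      rw [← Matrix.SpecialLinearGroup.coe_pow, hx, one_smul]
    refine ⟨x, hxm, hns, fun g hg μ hμ => ?_⟩
    have h1 := even_finrank_range hg (hroot1 hg hxm (fun c hc => eq_one_of_pow_eq_one hc1 hc) hμ)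
      (isCompl_ker_range (isSemisimple_of_pow_eq_one hrF hxr) 1)
    rw [hR, one_mul] at h1
    exact Nat.not_odd_iff_even.2 h1 (hjodd.of_dvd_nat hdvd)

end Cfsg.Agent.S5968
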