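import Cfsg.Statements.S5969
import Cfsg.Agent.Eq.Def_GeometricClasses
import Cfsg.Agent.Classical.Semisimple.FieldNormalizer
import Cfsg.Agent.Classical.Semisimple.ConjForm

set_option autoImplicit false
open scoped MatrixGroups
open Cfsg

namespace Cfsg.Agent.S5969

open Module Matrix Polynomial CfsgLib.Classical.Semisimple

/-- `-1` is an `n`-th power exactly when the two-part of `q - 1` exceeds that of `n`. -/
private theorem exists_pow_eq_neg_one_iff {F : Type*} [Field F] [Fintype F] (h2 : (2 : F) ≠ 0) {n : ℕ}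
    (hn : n ≠ 0) :
    (∃ w : F, w ^ n = -1) ↔ padicValNat 2 n < padicValNat 2 (Fintype.card F - 1) := by
  have hN : Fintype.card F - 1 ≠ 0 := by have := Fintype.one_lt_card (α := F); omega
  constructor
  · rintro ⟨w, hw⟩
    have hw0 : w ≠ 0 := by rintro rfl; simp [zero_pow hn] at hw
    by_contra hle
    rw [not_lt] at hle
    have h1 : orderOf w ∣ n * 2 := orderOf_dvd_of_pow_eq_one (by rw [pow_mul, hw, neg_one_sq])
    have h2' : orderOf w ∣ Fintype.card F - 1 :=
      orderOf_dvd_of_pow_eq_one (FiniteField.pow_card_sub_one_eq_one w hw0)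
    obtain ⟨e, he⟩ := h1
    rcases Nat.even_or_odd e with ⟨e', rfl⟩ | hodd
    · have : orderOf w ∣ n := ⟨e', by linarith⟩
      rw [orderOf_dvd_iff_pow_eq_one, hw] at this
      exact h2 (by linear_combination (-1 : F) * this)
    · have h3 : 2 ^ (padicValNat 2 n + 1) ∣ orderOf w * e := by
        rw [← he, pow_succ]; exact Nat.mul_dvd_mul_right pow_padicValNat_dvd 2
      have h4 : 2 ^ (padicValNat 2 n + 1) ∣ orderOf w :=
        (Nat.Coprime.pow_left _ ((Nat.prime_two.coprime_iff_not_dvd).mpr
          (Nat.two_dvd_ne_zero.mpr (Nat.odd_iff.mp hodd)))).dvd_of_dvd_mul_right h3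
      have h5 := (padicValNat_dvd_iff_le hN).mp (h4.trans h2')
      omega
  · intro hlt
    obtain ⟨g, hg⟩ := IsCyclic.exists_generator (α := Fˣ)
    have hg' : orderOf g = Fintype.card F - 1 := by
      rw [orderOf_eq_card_of_forall_mem_zpowers hg, Nat.card_units, Nat.card_eq_fintype_card]
    have hdvd : 2 ^ (padicValNat 2 n + 1) ∣ orderOf g := by
      rw [hg']; exact (padicValNat_dvd_iff_le hN).mpr hlt
    set u := g ^ (orderOf g / 2 ^ (padicValNat 2 n + 1))
    have hu : orderOf u = 2 ^ (padicValNat 2 n + 1) :=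
      orderOf_pow_orderOf_div (by rw [hg']; exact hN) hdvd
    refine ⟨(u : F), ?_⟩
    have h1 : ((u : F) ^ n) ^ 2 = 1 := by
      rw [← pow_mul, ← Units.val_pow_eq_pow_val, Units.val_eq_one, ← orderOf_dvd_iff_pow_eq_one, hu, pow_succ]
      exact Nat.mul_dvd_mul_right pow_padicValNat_dvd 2
    refine (sq_eq_one_iff.mp h1).resolve_left fun h => ?_
    rw [← Units.val_pow_eq_pow_val, Units.val_eq_one, ← orderOf_dvd_iff_pow_eq_one, hu,
      padicValNat_dvd_iff_le hn] at h
    omega

/-- The quadratic polynomial `X ^ 2 - α X - β`. -/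
private theorem quad_irreducible {F : Type*} [Field F] (α β : F) (h : ∀ t : F, t ^ 2 ≠ α * t + β) :
    Irreducible (X ^ 2 - C α * X - C β : F[X]) ∧ (X ^ 2 - C α * X - C β : F[X]).natDegree = 2 := by
  have e : (X ^ 2 - C α * X - C β : F[X]) = C 1 * X ^ 2 + C (-α) * X + C (-β) := by
    simp [sub_eq_add_neg]
  have hd : (X ^ 2 - C α * X - C β : F[X]).natDegree = 2 := by
    rw [e, natDegree_quadratic one_ne_zero]
  refine ⟨(irreducible_iff_roots_eq_zero_of_degree_le_three (by omega) (by omega)).2 ?_, hd⟩
  refine Multiset.eq_zero_of_forall_notMem fun t ht => ?_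
  rw [mem_roots'] at ht
  have := ht.2
  simp only [IsRoot, eval_sub, eval_pow, eval_X, eval_mul, eval_C] at this
  exact h t (by linear_combination this)

/-- Existence of a conjugate in the normaliser from a quadratic map semicommuting with `x`. -/
private theorem conj_of_blocks {F : Type*} [Field F] [Fintype F] {n m : ℕ} [NeZero n]
    {K : Subalgebra F (Matrix (Fin n) (Fin n) F)} (hK : Cfsg.Geo.IsFieldSubalgebra 2 K)
    (x : Matrix.SpecialLinearGroup (Fin n) F) (b : Basis (Fin 2 × Fin m) F (Fin n → F))
    (M J : Fin m → Matrix (Fin 2) (Fin 2) F) {α β : F} (hirr : ∀ t : F, t ^ 2 ≠ α * t + β)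
    (hJ : ∀ i, J i * J i = α • J i + β • 1) (γ δ : F)
    (hMJ : ∀ i, M i * J i = (γ • J i + δ • 1) * M i)
    (hx : Matrix.toLin' (x : Matrix (Fin n) (Fin n) F) = Matrix.toLin b b (blockDiagonal M)) :
    ∃ Q : Matrix.SpecialLinearGroup (Fin n) F, Q⁻¹ * x * Q ∈ (Cfsg.Geo.subalgebraNormalizer K).comap
      (Matrix.SpecialLinearGroup.toGL : Matrix.SpecialLinearGroup (Fin n) F →* GL (Fin n) F) := by
  classical
  obtain ⟨h1, h2⟩ := quad_irreducible α β hirr
  set L := Matrix.toLinAlgEquiv b with hL
  refine exists_conj_mem_normalizer hK x h1 h2 (J := L (blockDiagonal J)) ?_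
    (C γ * X + C δ) ?_
  · rw [← AlgEquiv.coe_algHom, aeval_algHom_apply]
    simp only [map_sub, map_mul, aeval_C, aeval_X, map_pow, Algebra.algebraMap_eq_smul_one,
      smul_mul_assoc, one_mul]
    have h3 : blockDiagonal J ^ 2 =
        α • blockDiagonal J + β • (1 : Matrix (Fin 2 × Fin m) (Fin 2 × Fin m) F) := by
      rw [sq, ← blockDiagonal_mul, ← blockDiagonal_smul, ← blockDiagonal_one, ← blockDiagonal_smul,
        ← blockDiagonal_add]
      exact congrArg blockDiagonal (funext hJ)
    rw [← map_pow, h3]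
    simp
  · rw [show Matrix.toLin' (x : Matrix (Fin n) (Fin n) F) = L (blockDiagonal M) from hx,
      ← AlgEquiv.coe_algHom, aeval_algHom_apply, ← map_mul, ← map_mul]
    refine congrArg _ ?_
    simp only [map_add, map_mul, aeval_C, aeval_X, Algebra.algebraMap_eq_smul_one, smul_mul_assoc, one_mul]
    rw [← blockDiagonal_mul, ← blockDiagonal_smul, ← blockDiagonal_one, ← blockDiagonal_smul,
      ← blockDiagonal_add, ← blockDiagonal_mul]
    exact congrArg blockDiagonal (funext hMJ)


/-- Involutions of PSL_n(q) and extension-field subgroups of degree 2. Here `T = PSL_n(F)` for a field `F` with `q = p^f` elements (`n ≥ 2`, `(n, q) ≠ (2, 2), (2, 3)`), `k` is a prime dividing `n`, `K` is a subalgebra of the `n × n` matrices that is a field of degree `k` over `F` (an extension-field structure F_{q^k} on `F^n`), and `H` is the subgroup of matrices of determinant 1 normalizing `K` — a subgroup of type GL_{n/k}(q^k) (maximal except in some small cases; maximality is not assumed); Ω is the set of cosets of `H` in `T`, so an element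 of `T` of prime order `r` (a matrix `x` of determinant 1 with `x^r` scalar, `x` not scalar) fixes a point of Ω when some conjugate of `x` by a matrix of determinant 1 normalizes `K`. Take `k = 2` and suppose the index of `H` is even. Then every involution of `T` is conjugate in `T` into `H` if and only if `n = 2`, or `q` is odd and `(q − 1)_2 ≤ (n)_2`. -/
theorem result {F : Type*} [Field F] [Fintype F] {p : ℕ} [Fact p.Prime] [CharP F p] {q : ℕ} (hq : Fintype.card F = q)
    (n : ℕ) (hn : 2 ≤ n) (hT : (n, q) ≠ (2, 2) ∧ (n, q) ≠ (2, 3))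
    (k : ℕ) (hk : k.Prime) (hkn : k ∣ n) (K : Subalgebra F (Matrix (Fin n) (Fin n) F)) (hK : Cfsg.Geo.IsFieldSubalgebra k K) (hk2 : k = 2) (hΩ : 2 ∣ ((Cfsg.Geo.subalgebraNormalizer K).comap (Matrix.SpecialLinearGroup.toGL : Matrix.SpecialLinearGroup (Fin n) F →* GL (Fin n) F)).index) :
    (∀ x : Matrix.SpecialLinearGroup (Fin n) F,
      (∃ z : F, ((x ^ 2 : Matrix.SpecialLinearGroup (Fin n) F) : Matrix (Fin n) (Fin n) F) = z • (1 : Matrix (Fin n) (Fin n) F)) →
      (∀ z : F, (x : Matrix (Fin n) (Fin n) F) ≠ z • (1 : Matrix (Fin n) (Fin n) F)) →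
      ∃ P : Matrix.SpecialLinearGroup (Fin n) F, P⁻¹ * x * P ∈ ((Cfsg.Geo.subalgebraNormalizer K).comap (Matrix.SpecialLinearGroup.toGL : Matrix.SpecialLinearGroup (Fin n) F →* GL (Fin n) F))) ↔
    (n = 2 ∨ (Odd q ∧ padicValNat 2 (q - 1) ≤ padicValNat 2 n)) := by
  classical
  subst hq hk2
  have hppr : p.Prime := Fact.out
  haveI : NeZero n := ⟨by omega⟩
  have : Nonempty (Fin n) := ⟨0⟩
  obtain ⟨m, rfl⟩ := hkn
  constructor
  · intro h
    by_contra hcon
    push Not at hcon
    obtain ⟨hn2, hq2⟩ := hcon
    have hn3 : 3 ≤ 2 * m := by omega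
    set a : Fin (2 * m) → F := Pi.single 0 1 with ha
    have ha0 : a ≠ 0 := by simp [a]
    have key : ∀ (x : Matrix.SpecialLinearGroup (Fin (2 * m)) F) (w z : F) (φ : Fin (2 * m) → F),
        φ ≠ 0 → (x : Matrix (Fin (2 * m)) (Fin (2 * m)) F) = w • (1 + vecMulVec a φ) →
        ((x ^ 2 : Matrix.SpecialLinearGroup (Fin (2 * m)) F) : Matrix (Fin (2 * m)) (Fin (2 * m)) F) = z • 1 →
        (∀ c : F, (x : Matrix (Fin (2 * m)) (Fin (2 * m)) F) ≠ c • 1) → False := by
      intro x w z φ hφ hx hz hns
      obtain ⟨P, hP⟩ := h x ⟨z, hz⟩ hns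
      exact not_mem_normalizer_of_rankOne hK le_rfl hn3 ha0 hφ hx P hP
    by_cases h2 : (2 : F) = 0
    · -- a transvection
      set φ : Fin (2 * m) → F := Pi.single ⟨1, by omega⟩ 1
      have hφa : φ ⬝ᵥ a = 0 := by simp [φ, a, Fin.ext_iff]
      have hdet : ((1 : Matrix (Fin (2 * m)) (Fin (2 * m)) F) + vecMulVec a φ).det = 1 := by
        rw [vecMulVec_eq Unit, det_one_add_replicateCol_mul_replicateRow, hφa, add_zero]
      let x0 : Matrix.SpecialLinearGroup (Fin (2 * m)) F := ⟨1 + vecMulVec a φ, hdet⟩
      refine key x0 1 1 φ (by simp [φ]) (one_smul _ _).symm ?_ fun c hc => ?_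
      · rw [Matrix.SpecialLinearGroup.coe_pow, one_smul]
        show (1 + vecMulVec a φ) ^ 2 = 1
        simp only [sq, add_mul, mul_add, one_mul, mul_one, vecMulVec_mul_vecMulVec, hφa, zero_smul,
          vecMulVec_zero, add_zero]
        rw [add_assoc, ← two_smul F, h2, zero_smul, add_zero]
      · have h1 := congrFun (congrFun hc 0) ⟨1, by omega⟩
        simp [x0, a, φ, vecMulVec_apply, Fin.ext_iff] at h1
    · have hodd : Odd (Fintype.card F) := by
        rw [Nat.odd_iff]
        refine (Nat.mod_two_eq_zero_or_one _).resolve_left fun h0 => h2 ?_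
        have : ringChar F = 2 := FiniteField.even_card_iff_char_two.mpr h0
        exact_mod_cast (ringChar.spec F 2).mpr (by rw [this])
      obtain ⟨w, hw⟩ := (exists_pow_eq_neg_one_iff h2 (by omega : 2 * m ≠ 0)).2 (hq2 hodd)
      have hw0 : w ≠ 0 := by rintro rfl; simp [zero_pow (by omega : 2 * m ≠ 0)] at hw
      set φ : Fin (2 * m) → F := Pi.single 0 (-2) with hφ
      have hφa : φ ⬝ᵥ a = -2 := by simp [φ, a]
      have hdet : (w • ((1 : Matrix (Fin (2 * m)) (Fin (2 * m)) F) + vecMulVec a φ)).det = 1 := by
        rw [det_smul, vecMulVec_eq Unit, det_one_add_replicateCol_mul_replicateRow, hφa, Fintype.card_fin, hw]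
        ring
      let x0 : Matrix.SpecialLinearGroup (Fin (2 * m)) F := ⟨w • (1 + vecMulVec a φ), hdet⟩
      refine key x0 w (w ^ 2) φ (by simp [φ, h2]) rfl ?_ fun c hc => ?_
      · rw [Matrix.SpecialLinearGroup.coe_pow]
        show (w • (1 + vecMulVec a φ)) ^ 2 = w ^ 2 • 1
        rw [_root_.smul_pow]
        congr 1
        simp only [sq, add_mul, mul_add, one_mul, mul_one, vecMulVec_mul_vecMulVec, hφa, vecMulVec_smul]
        module
      · have h0 := congrFun (congrFun hc 0) 0
        have h1 := congrFun (congrFun hc ⟨1, by omega⟩) ⟨1, by omega⟩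
        simp [x0, a, φ, vecMulVec_apply, Fin.ext_iff] at h0 h1
        rw [← h1] at h0
        exact mul_ne_zero hw0 h2 (by linear_combination -h0)
  · intro hR x ⟨z, hz⟩ hns
    have hz0 := scalar_ne_zero hz
    set T : Module.End F (Fin (2 * m) → F) := Matrix.toLin' (x : Matrix (Fin (2 * m)) (Fin (2 * m)) F) with hT
    have hTz : T ^ 2 = z • 1 := toLin'_pow_eq_smul hz
    have hTT : ∀ u, T (T u) = z • u := fun u => by simpa [sq] using LinearMap.congr_fun hTz u
    by_cases hsq : ∃ w : F, w ^ 2 = z
    swap
    · push Not at hsq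
      obtain ⟨h1, h2⟩ := quad_irreducible (0 : F) z (fun t => by simpa using hsq t)
      refine exists_conj_mem_normalizer hK x h1 h2 (J := T) ?_ X (by rw [aeval_X])
      simp [hTz, Algebra.algebraMap_eq_smul_one]
    obtain ⟨w, hw⟩ := hsq
    have hw0 : w ≠ 0 := by rintro rfl; exact hz0 (by rw [← hw]; simp)
    by_cases h2 : (2 : F) = 0
    · have : p = 2 := by
        have h3 : ((2 : ℕ) : F) = 0 := by simpa using h2
        exact (Nat.prime_dvd_prime_iff_eq hppr Nat.prime_two).mp ((CharP.cast_eq_zero_iff F p 2).1 h3)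
      subst this
      have hm1 : m = 1 := by
        rcases hR with h | ⟨hodd, -⟩
        · omega
        · exfalso
          obtain ⟨j, -, hj⟩ := FiniteField.card F 2
          rw [hj] at hodd
          exact absurd (Odd.of_dvd_nat hodd (dvd_pow_self 2 j.ne_zero)) (by decide)
      subst hm1
      set N := T - w • (1 : Module.End F (Fin (2 * 1) → F)) with hNdef
      have hN : N ^ 2 = 0 := by
        refine LinearMap.ext fun u => ?_
        simp only [hNdef, sq, Module.End.mul_apply, LinearMap.sub_apply, LinearMap.smul_apply,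
          Module.End.one_apply, map_sub, map_smul, hTT, smul_sub, smul_smul, LinearMap.zero_apply, ← hw]
        rw [show (w * w) • u - w • T u - (w • T u - (w * w) • u) =
          ((2 : F) * (w * w)) • u - ((2 : F) * w) • T u by module, h2]
        simp
      have hex : ∃ v, N v ≠ 0 := by
        by_contra hc
        push Not at hc
        refine hns w (Matrix.toLin'.injective ?_)
        rw [toLin'_smul_one, ← hT]
        refine LinearMap.ext fun u => ?_
        simpa [hNdef, sub_eq_zero] using hc u
      obtain ⟨v, hv⟩ := hex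
      have hli : LinearIndependent F ![N v, v] := by
        rw [LinearIndependent.pair_iff]
        intro s t hst
        have h1 := congrArg N hst
        have hNN : N (N v) = 0 := by simpa [sq] using LinearMap.congr_fun hN v
        rw [map_add, map_smul, map_smul, hNN, smul_zero, zero_add, map_zero] at h1
        have ht : t = 0 := (smul_eq_zero.1 h1).resolve_right hv
        rw [ht, zero_smul, add_zero] at hst
        exact ⟨(smul_eq_zero.1 hst).resolve_right hv, ht⟩
      let b2 := basisOfLinearIndependentOfCardEqFinrank hli (by simp [Module.finrank_fin_fun])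
      obtain ⟨c, hc⟩ : ∃ c : F, ∀ t : F, t ^ 2 + t ≠ c := by
        by_contra hc
        push Not at hc
        have hinj := Finite.injective_iff_surjective.2 (fun c => hc c : Function.Surjective fun t : F => t ^ 2 + t)
        have h10 : (1 : F) = 0 := hinj (show (1 : F) ^ 2 + 1 = 0 ^ 2 + 0 by
          rw [one_pow, one_add_one_eq_two, h2]; simp)
        exact one_ne_zero h10
      refine conj_of_blocks hK x (b2.reindex (Equiv.prodUnique (Fin 2) (Fin 1)).symm)
        (fun _ => !![w, 1; 0, w]) (fun _ => !![0, c / w; w, 1]) (α := 1) (β := c)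
        (fun t ht => hc t ?_) (fun _ => ?_) 1 1 (fun _ => ?_) (eq_toLin_blockDiagonal fun a i => ?_)
      · rw [ht]; linear_combination t * h2
      · ext a b
        fin_cases a <;> fin_cases b <;> simp [Matrix.mul_apply, Fin.sum_univ_two, hw0]
        all_goals (field_simp; ring)
      · ext a b
        fin_cases a <;> fin_cases b <;> simp [Matrix.mul_apply, Fin.sum_univ_two, hw0]
        all_goals (field_simp; grind)
      · have hTN : ∀ u, T u = w • u + N u := fun u => by simp [hNdef]
        have hNN : N (N v) = 0 := by simpa [sq] using LinearMap.congr_fun hN v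
        rw [← hT, hTN]
        fin_cases a <;> simp [b2, hNN, add_comm]
    · obtain ⟨a, b, b0, hab, hTb⟩ := exists_eigen_basis_of_sq h2 hw0 (T := T)
        (fun u => by rw [hw]; exact hTT u)
      obtain ⟨d, hd⟩ : ∃ d : F, ¬ IsSquare d := FiniteField.exists_nonsquare (by
        intro hc
        exact h2 (by exact_mod_cast (ringChar.spec F 2).mpr (by rw [hc])))
      have hd' : ∀ t : F, t ^ 2 ≠ 0 * t + d := fun t ht => hd ⟨t, by linear_combination -ht⟩
      have hTk : ∀ k, T (b0 k) = Sum.elim (fun _ => w) (fun _ => -w) k • b0 k := fun k => by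
        rw [hTb, Matrix.toLin_self, Finset.sum_eq_single k (fun l _ hl => by simp [diagonal_apply_ne _ hl])
          (fun h => absurd (Finset.mem_univ k) h), diagonal_apply_eq]
      by_cases hb : Even b
      · obtain ⟨β, rfl⟩ := hb
        obtain ⟨α, rfl⟩ : ∃ α, a = 2 * α := ⟨m - β, by omega⟩
        let e : Fin (2 * α) ⊕ Fin (β + β) ≃ Fin 2 × Fin m :=
          (Equiv.sumCongr finProdFinEquiv.symm
            ((finCongr (two_mul β).symm).trans finProdFinEquiv.symm)).trans
            ((Equiv.prodSumDistrib _ _ _).symm.trans (Equiv.prodCongr (Equiv.refl _)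
              (finSumFinEquiv.trans (finCongr (by omega : α + β = m)))))
        refine conj_of_blocks hK x (b0.reindex e)
          (fun i => Sum.elim (fun _ => w) (fun _ => -w) (e.symm (0, i)) • 1) (fun _ => !![0, d; 1, 0])
          hd' (fun _ => ?_) 1 0 (fun i => ?_) (eq_toLin_blockDiagonal fun c i => ?_)
        · ext s t
          fin_cases s <;> fin_cases t <;> simp [Matrix.mul_apply, Fin.sum_univ_two]
        · simp
        · rw [← hT, Basis.reindex_apply, hTk]
          obtain ⟨i, rfl⟩ := (finSumFinEquiv.trans (finCongr (by omega : α + β = m))).surjective i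
          rcases i with i | i <;> fin_cases c <;> simp [e, Matrix.one_apply]
      · have hdet : w ^ a * (-w) ^ b = 1 := by
          have h := toLin'_det_one x
          rw [← hT, hTb, LinearMap.det_toLin, det_diagonal, Fintype.prod_sum_type] at h
          simpa using h
        have hn1 : 2 * m = 2 := by
          rcases hR with h | ⟨-, hle⟩
          · exact h
          · exfalso
            rw [(Nat.not_even_iff_odd.1 hb).neg_pow, mul_neg, ← pow_add, hab] at hdet
            exact absurd ((exists_pow_eq_neg_one_iff h2 (by omega : 2 * m ≠ 0)).mp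
              ⟨w, by rw [← neg_neg (w ^ (2 * m)), hdet]⟩) (not_lt.mpr hle)
        obtain ⟨hb1, ha1⟩ : b = 1 ∧ a = 1 := by
          rcases Nat.lt_or_ge b 2 with hlt | hge
          · interval_cases b
            · exact absurd (by decide) hb
            · omega
          · exact absurd (show Even b by rw [show b = 2 by omega]; decide) hb
        subst hb1 ha1
        obtain rfl : m = 1 := by omega
        let e : Fin 1 ⊕ Fin 1 ≃ Fin 2 × Fin 1 :=
          { toFun := Sum.elim (fun i => (0, i)) fun i => (1, i)
            invFun := fun p => ![Sum.inl p.2, Sum.inr p.2] p.1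
            left_inv := fun p => by rcases p with i | i <;> rfl
            right_inv := fun p => by obtain ⟨a, i⟩ := p; fin_cases a <;> rfl }
        refine conj_of_blocks hK x (b0.reindex e) (fun _ => !![w, 0; 0, -w]) (fun _ => !![0, d; 1, 0])
          hd' (fun _ => ?_) (-1) 0 (fun i => ?_) (eq_toLin_blockDiagonal fun c i => ?_)
        · ext s t
          fin_cases s <;> fin_cases t <;> simp [Matrix.mul_apply, Fin.sum_univ_two]
        · ext s t
          fin_cases s <;> fin_cases t <;> simp [Matrix.mul_apply, Fin.sum_univ_two] <;> ring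
        · rw [← hT, Basis.reindex_apply, hTk]
          fin_cases c <;> simp [e]

end Cfsg.Agent.S5969
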