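import Cfsg.Statements.S5972
import Cfsg.Agent.Classical.Semisimple.QuadTwoSub
import Cfsg.Agent.Classical.Semisimple.QuadSingularCount
import Cfsg.Agent.AschPrime.OrthPrime
-- import your own Cfsg.Agent.* helpers here

set_option autoImplicit false
open scoped MatrixGroups
open Cfsg

namespace Cfsg.Agent.S5972

open Module CfsgLib.Classical.Semisimple CfsgLib.Classical.Semisimple.QuadType CfsgLib.Classical.Semisimple.QuadIsometry CfsgLib.Classical.Semisimple.QuadBridge

/-- Elements of prime order of Ω_n(q), n = 2d+1 ≥ 7, q odd, with no fixed totally singular `m`-space. Here `T = Ω_n(q)` is realised as the commutator subgroup of the isometry group of the quadratic form `x₀² + Σ xᵢyᵢ` over the field `F` with `q` elements (it has trivial centre, so its elements of prime order `r` are used directly); let `1 ≤ m ≤ d` and let `r` be a prime dividing the number of totally singular `m`-spaces. For `r ≠ p` let `i` be the multiplicative order of `q` modulo `r`, `c = i` for `i`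 even and `c = 2i` for `i` odd, and write `k = n mod c`, `ℓ = m mod i`, `n' = ⌊n/i⌋`, `m' = ⌊m/i⌋`, `t = (r−1)/i`. Then every element of `T` of order `r` fixes some totally singular `m`-space if and only if either (i) `r = 2` and (`m < (n−1)/2` or `q ≡ 1 (mod 4)`); or (ii) `r ≠ p` is odd, `i ≤ m`, `k > 2ℓ`, and (`i` is odd or `n' − 2m' ≥ t`). -/
theorem result {F : Type*} [Field F] [Fintype F] {p : ℕ} [Fact p.Prime] [CharP F p] {q : ℕ} (hq : Fintype.card F = q) (hqodd : Odd q)
    (d m : ℕ) (hd : 3 ≤ d) (hm : 1 ≤ m) (hmd : m ≤ d)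
    (r : ℕ) [Fact r.Prime]
    (hrΩ : r ∣ Nat.card {W : Submodule F (Unit ⊕ (Fin d ⊕ Fin d) → F) // Module.finrank F ↥W = m ∧ (∀ w ∈ W, Cfsg.quadFormOdd d F w = 0)})
    (i c : ℕ) (hi : i = orderOf (q : ZMod r)) (hc : c = if Even i then i else 2 * i) :
    (∀ x : GL (Unit ⊕ (Fin d ⊕ Fin d)) F, x ∈ Cfsg.Geo.omegaGL (Cfsg.quadFormOdd d F) → orderOf x = r →
      ∃ W : Submodule F (Unit ⊕ (Fin d ⊕ Fin d) → F), Module.finrank F ↥W = m ∧ (∀ w ∈ W, Cfsg.quadFormOdd d F w = 0) ∧
        W.map (Matrix.toLin' (x : Matrix (Unit ⊕ (Fin d ⊕ Fin d)) (Unit ⊕ (Fin d ⊕ Fin d)) F)) ≤ W) ↔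
    ((r = 2 ∧ (m < d ∨ q % 4 = 1)) ∨
     (r ≠ p ∧ 2 < r ∧ i ≤ m ∧ 2 * (m % i) < (2 * d + 1) % c ∧ (Odd i ∨ (r - 1) / i + 2 * (m / i) ≤ (2 * d + 1) / i))) := by
  classical
  subst hq
  have hr : r.Prime := Fact.out
  have h2 : (2 : F) ≠ 0 := CfsgLib.AschPrime.two_ne_zero_of_odd_card hqodd
  have hQ := CfsgLib.OrthGeo.isNondegenerateQuadraticForm_quadFormOdd (F := F) d h2
  have hcard : Fintype.card (Unit ⊕ (Fin d ⊕ Fin d)) = 2 * d + 1 := by simp; omega
  have hfr : Module.finrank F (Unit ⊕ (Fin d ⊕ Fin d) → F) = 2 * d + 1 := by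
    rw [Module.finrank_fintype_fun_eq_card, hcard]
  have hP : ∀ W : Submodule F (Unit ⊕ (Fin d ⊕ Fin d) → F), (Module.finrank F ↥W = m ∧
      ∀ w ∈ W, Cfsg.quadFormOdd d F w = 0) ↔ (Singular (qf hQ) W ∧ Module.finrank F ↥W = m) :=
    fun W => and_comm
  have hrp : r ≠ p := by
    rintro rfl
    simp only [hP] at hrΩ
    exact QuadSingularCount.not_dvd_card (nondeg_top hQ) (by rw [hfr]; omega) hrΩ
  rcases eq_or_ne r 2 with rfl | hr2
  · have hq4 : Fintype.card F % 4 = 1 ↔ IsSquare (-1 : F) := by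
      rw [FiniteField.isSquare_neg_one_iff]; rw [Nat.odd_iff] at hqodd; omega
    simp only [lt_irrefl, false_and, and_false, or_false, true_and, hq4]
    constructor
    · intro hfix
      by_contra hcon
      push Not at hcon
      obtain ⟨hmd', hns⟩ := hcon
      obtain ⟨U, -, hU, hUd, hUp⟩ := QuadIsometry.exists_sub_type 1 (nondeg_top hQ)
        (by rw [finrank_top, hfr]; omega) False (fun h => absurd h one_ne_zero)
      obtain ⟨x, hx, hxx, hneg, hfixed⟩ := QuadTwo.exists_involution hQ h2 hU hUd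
        (by rw [pow_one]; exact iff_of_false hUp.1 hns)
      obtain ⟨u, hu, hu0⟩ := Submodule.exists_mem_ne_zero_of_ne_bot (show U ≠ ⊥ from fun h => by
        rw [h, finrank_bot] at hUd; omega)
      have hx1 : x ≠ 1 := fun h => by
        have h1 := hneg u hu
        rw [h, Units.val_one, Matrix.one_mulVec, eq_neg_iff_add_eq_zero, ← two_smul F u] at h1
        exact hu0 ((smul_eq_zero.1 h1).resolve_left h2)
      obtain ⟨W, hWd, hWs, hWf⟩ := hfix x hx (orderOf_eq_prime (by rw [sq]; exact hxx) hx1)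
      obtain ⟨P, M, a, hPm, hMm, hPn, hMn, ho, -, hsum, hMd, -⟩ := QuadTwo.involution_type hQ h2 hx hxx
      have hUM : U ≤ M := fun z hz => (hMm z).2 (hneg z hz)
      have hUP : orth (qf hQ) U ≤ P := fun z hz => (hPm z).2 (hfixed z hz)
      have h1 := Submodule.finrank_mono hUM
      have h3 := Submodule.finrank_mono hUP
      have h4 := Submodule.finrank_add_eq_of_isCompl (QuadType.isCompl_orth hU)
      rw [hfr] at h4
      rw [hcard] at hsum
      have hMU : M = U := (Submodule.eq_of_le_of_finrank_eq hUM (by omega)).symm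
      obtain ⟨j, k, hjk, ⟨hj1, -⟩, ⟨hk1, hk2⟩⟩ := QuadTwo.singular_split_bound hQ h2 hPn hMn hPm hMm hxx hWf hWs
      rw [hMU] at hk1 hk2
      have hk : 2 * k ≠ 2 := fun h => hUp.1 (hk2 (by omega))
      omega
    · intro hcond x hx hxo
      obtain ⟨P, M, a, hPm, hMm, hPn, hMn, ho, -, hsum, hMd, hMp⟩ := QuadTwo.involution_type hQ h2 hx
        (by rw [← sq, ← hxo, pow_orderOf_eq_one])
      rw [hcard] at hsum
      obtain ⟨W, hWd, hWs, hWf⟩ := QuadTwo.exists_singular_of_split hQ hPn hMn ho hPm hMm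
        (j := min m ((Module.finrank F P - 1) / 2)) (k := m - min m ((Module.finrank F P - 1) / 2))
        ⟨by omega, fun h => absurd h (by omega)⟩
        ⟨by omega, fun h => hMp.2 (by
          rcases Nat.eq_zero_or_pos a with ha | ha
          · rw [ha, pow_zero]; exact IsSquare.one
          rcases hcond with hlt | hsq
          · omega
          · exact hsq.pow _)⟩
      exact ⟨W, by omega, hWs, hWf⟩
  have hrF : (r : F) ≠ 0 := cast_ne_zero_of_ne hr hrp
  simp only [← and_assoc, hP] at hrΩ ⊢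
  obtain ⟨L, -, hLs, hLd⟩ := (QuadType.exists_singular_iff _ (nondeg_top hQ) rfl m).2
    ⟨by rw [finrank_top, hfr]; omega, fun h => absurd h (by rw [finrank_top, hfr]; omega)⟩
  have hi' : ordq F r = i := hi.symm
  have hipos : 0 < i := by rw [← hi']; exact orderOf_card_pos hrF
  have hidvd : i ∣ r - 1 := by
    rw [hi]
    refine orderOf_dvd_of_pow_eq_one (ZMod.pow_card_sub_one_eq_one fun h0 => ?_)
    have h1 : orderOf (Fintype.card F : ZMod r) = 0 := by rw [h0, orderOf_eq_zero_iff']; intro n hn; simp [zero_pow hn.ne']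
    omega
  rw [forall_order_iff hQ (by omega) hr2 hrF ⟨L, hLs, hLd⟩,
    singular_iff (nondeg_top hQ) hr2 hrF (t := (r - 1) / i) (by rw [hi']; exact Nat.div_mul_cancel hidvd)
      (by rw [hfr]; omega) (fun h => absurd h (by rw [hfr]; omega)) hrΩ, hfr]
  have hc' : pieceDim F r = c := by rw [hc, pieceDim, hi']
  have hce : 2 ∣ c := by rw [← hc']; exact (even_pieceDim F r).two_dvd
  have hkodd : (2 * d + 1) % c % 2 = 1 := by rw [Nat.mod_mod_of_dvd _ hce]; omega
  have hA : maxPieces F r (2 * d + 1) (Plus (qf hQ) ⊤) = (2 * d + 1) / c := by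
    unfold maxPieces
    rw [hc', if_neg (fun h => by omega)]
  have h2r : 2 < r := lt_of_le_of_ne hr.two_le (Ne.symm hr2)
  have hk0 : 0 < (2 * d + 1) % c := Nat.pos_of_ne_zero fun h => by omega
  have hne : 2 * (m % i) ≠ (2 * d + 1) % c := by omega
  simp only [hi', hc', hA, hr2, ne_eq, hrp, not_false_iff, h2r, hk0, hk0.ne', hne, false_and, true_and, false_or,
    false_implies, and_true]
  rcases Nat.even_or_odd i with hev | hod
  · obtain rfl : c = i := by rw [hc, if_pos hev]
    simp only [Nat.not_odd_iff_even.2 hev, false_or]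
    constructor
    · intro h
      obtain ⟨h1, h3, h4⟩ := h
      exact ⟨⟨h1, lt_of_le_of_ne h3 hne⟩, h4⟩
    · intro h
      obtain ⟨⟨h1, h3⟩, h4⟩ := h
      exact ⟨h1, h3.le, h4⟩
  · simp only [hod, true_or, and_true]
    constructor
    · rintro ⟨h1, h3⟩; exact ⟨h1, lt_of_le_of_ne h3 hne⟩
    · rintro ⟨h1, h3⟩; exact ⟨h1, h3.le⟩

end Cfsg.Agent.S5972

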