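import Cfsg.Statements.S5973
import Cfsg.Agent.Classical.Semisimple.QuadTwoSub
import Cfsg.Agent.Classical.Semisimple.QuadSingularCount
import Cfsg.Agent.AschPrime.OrthPrime
-- import your own Cfsg.Agent.* helpers here

set_option autoImplicit false
open scoped MatrixGroups
open Cfsg

namespace Cfsg.Agent.S5973

open Module CfsgLib.Classical.Semisimple CfsgLib.Classical.Semisimple.QuadType CfsgLib.Classical.Semisimple.QuadIsometry CfsgLib.Classical.Semisimple.QuadBridge

/-- Elements of prime order of PΩ⁺_n(q), n = 2d ≥ 8, with no fixed totally singular `m`-space, `m < n/2`. Here `T = PΩ⁺_n(q)` is realised through `Ω⁺_n(q)`, the commutator subgroup of the isometry group of the quadratic form `Σ xᵢyᵢ` over the field `F` with `q` elements; an element of `T` of prime order `r` is an element `x` of `Ω⁺_n(q)` with `x^r` scalar and `x` not scalar. Let `1 ≤ m < d` and let `r` be a prime dividing the number of totally singular `m`-spaces. For `r ≠ p` let `i` be the multiplicative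 order of `q` modulo `r`, `c = i` for `i` even and `c = 2i` for `i` odd, and write `k = n mod c`, `ℓ = m mod i`, `n' = ⌊n/i⌋`, `m' = ⌊m/i⌋`, `t = (r−1)/i`. Then every element of `T` of order `r` fixes some totally singular `m`-space if and only if one of: (i) `r = 2 ≠ p` and either `q ≡ 1 (mod 4)`, or `q ≡ 3 (mod 4)`, `m ≤ n/2 − 2` and (`m` even or `n ≡ 2 (mod 4)`); (ii) `r ≠ p` odd, `i` odd, `i ≤ m` and `k ≥ 2ℓ`; (iii) `r ≠ p` odd, `i` even, `i ≤ m`, `n' − 2m' ≥ t`, and one of: `i ≥ 2ℓ`, `k = 0`, `n/i` odd and `n' − 2m' > t`; or `k ≥ 2ℓ` and `n'` even; or `k > 2ℓ` and `n'` odd. -/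
theorem result {F : Type*} [Field F] [Fintype F] {p : ℕ} [Fact p.Prime] [CharP F p] {q : ℕ} (hq : Fintype.card F = q)
    (d m : ℕ) (hd : 4 ≤ d) (hm : 1 ≤ m) (hmd : m < d)
    (r : ℕ) [Fact r.Prime]
    (hrΩ : r ∣ Nat.card {W : Submodule F (Fin d ⊕ Fin d → F) // Module.finrank F ↥W = m ∧ (∀ w ∈ W, Cfsg.quadFormPlus d F w = 0)})
    (i c : ℕ) (hi : i = orderOf (q : ZMod r)) (hc : c = if Even i then i else 2 * i) :
    (∀ x : GL (Fin d ⊕ Fin d) F, x ∈ Cfsg.Geo.omegaGL (Cfsg.quadFormPlus d F) →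
      (∃ z : F, ((x ^ r : GL (Fin d ⊕ Fin d) F) : Matrix (Fin d ⊕ Fin d) (Fin d ⊕ Fin d) F) = z • (1 : Matrix (Fin d ⊕ Fin d) (Fin d ⊕ Fin d) F)) →
      (∀ z : F, (x : Matrix (Fin d ⊕ Fin d) (Fin d ⊕ Fin d) F) ≠ z • (1 : Matrix (Fin d ⊕ Fin d) (Fin d ⊕ Fin d) F)) →
      ∃ W : Submodule F (Fin d ⊕ Fin d → F), Module.finrank F ↥W = m ∧ (∀ w ∈ W, Cfsg.quadFormPlus d F w = 0) ∧
        W.map (Matrix.toLin' (x : Matrix (Fin d ⊕ Fin d) (Fin d ⊕ Fin d) F)) ≤ W) ↔
    ((r = 2 ∧ p ≠ 2 ∧ (q % 4 = 1 ∨ (q % 4 = 3 ∧ m + 2 ≤ d ∧ (Even m ∨ (2 * d) % 4 = 2)))) ∨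
     (r ≠ p ∧ 2 < r ∧ Odd i ∧ i ≤ m ∧ 2 * (m % i) ≤ (2 * d) % c) ∨
     (r ≠ p ∧ 2 < r ∧ Even i ∧ i ≤ m ∧ (r - 1) / i + 2 * (m / i) ≤ (2 * d) / i ∧
       ((2 * (m % i) ≤ i ∧ (2 * d) % c = 0 ∧ Odd ((2 * d) / i) ∧ (r - 1) / i + 2 * (m / i) < (2 * d) / i) ∨
        (2 * (m % i) ≤ (2 * d) % c ∧ Even ((2 * d) / i)) ∨
        (2 * (m % i) < (2 * d) % c ∧ Odd ((2 * d) / i))))) := by
  classical
  subst hq
  have hr : r.Prime := Fact.out
  have hQ := CfsgLib.Classical.Orth.isNondegQF_quadFormPlus (F := F) d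
  have hcard : Fintype.card (Fin d ⊕ Fin d) = 2 * d := by simp; omega
  have hfr : Module.finrank F (Fin d ⊕ Fin d → F) = 2 * d := by
    rw [Module.finrank_fintype_fun_eq_card, hcard]
  have hV : Plus (qf hQ) ⊤ := plus_quadFormPlus d
  have hP : ∀ W : Submodule F (Fin d ⊕ Fin d → F), (Module.finrank F ↥W = m ∧
      ∀ w ∈ W, Cfsg.quadFormPlus d F w = 0) ↔ (Singular (qf hQ) W ∧ Module.finrank F ↥W = m) :=
    fun W => and_comm
  have hrp : r ≠ p := by
    rintro rfl
    simp only [hP] at hrΩ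
    exact QuadSingularCount.not_dvd_card (nondeg_top hQ) (by rw [hfr]; omega) hrΩ
  rcases eq_or_ne r 2 with rfl | hr2
  · have h2 : (2 : F) ≠ 0 := by exact_mod_cast (cast_ne_zero_of_ne (F := F) hr hrp)
    have hodd : Fintype.card F % 2 = 1 := FiniteField.odd_card_of_char_ne_two (by
      rw [ringChar.eq F p]; exact fun h => hrp h.symm)
    have hq1 : Fintype.card F % 4 = 1 ↔ IsSquare (-1 : F) := by
      rw [FiniteField.isSquare_neg_one_iff]; omega
    have hq3 : Fintype.card F % 4 = 3 ↔ ¬ IsSquare (-1 : F) := by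
      rw [FiniteField.isSquare_neg_one_iff]; omega
    have hd4 : 2 * d % 4 = 2 ↔ ¬ Even d := by rw [Nat.even_iff]; omega
    simp only [lt_irrefl, false_and, and_false, or_false, true_and, hq1, hq3, hd4, ne_eq, Ne.symm hrp, not_false_iff]
    constructor
    · intro hfix
      by_contra hcon
      push Not at hcon
      obtain ⟨hns, hcon⟩ := hcon
      replace hcon := hcon hns
      by_cases hxneg : Even d ∧ ¬ Even m
      · obtain ⟨x, hx, hxx⟩ := (QuadTwo.sq_neg_mem_iff hQ h2 hcard).2
          ⟨iff_of_true hV (hxneg.1.isSquare_pow _), hxneg.1.isSquare_pow _⟩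
        have hx2 : ((x ^ 2 : GL (Fin d ⊕ Fin d) F) : Matrix (Fin d ⊕ Fin d) (Fin d ⊕ Fin d) F) = (-1 : F) • (1 : Matrix (Fin d ⊕ Fin d) (Fin d ⊕ Fin d) F) := by
          refine Matrix.toLin'.injective (LinearMap.ext fun v => ?_)
          rw [sq, Units.val_mul, Matrix.toLin'_mul, LinearMap.comp_apply, Matrix.toLin'_apply, Matrix.toLin'_apply,
            hxx, Matrix.toLin'_apply, Matrix.smul_mulVec, Matrix.one_mulVec, neg_one_smul]
        obtain ⟨W, hWd, -, hWf⟩ := hfix x hx ⟨-1, hx2⟩ fun z hz => hns ⟨z, by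
          obtain ⟨v, hv⟩ := exists_ne_zero hQ (by omega)
          have h1 := hxx v
          rw [hz, Matrix.smul_mulVec, Matrix.one_mulVec, Matrix.smul_mulVec, Matrix.one_mulVec, smul_smul,
            ← neg_one_smul F v] at h1
          exact (smul_left_injective F (show v ≠ 0 from fun h => hv (by rw [h, CfsgLib.OrthGeo.q_zero hQ])) h1).symm⟩
        exact hxneg.2 (hWd ▸ QuadTwo.even_of_sq_neg hns (fun v => hxx v) hWf)
      have hmd' : d < m + 2 := by
        by_contra h
        obtain ⟨h1, h3⟩ := hcon (by omega)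
        exact hxneg ⟨h3, h1⟩
      obtain ⟨U, -, hU, hUd, hUp⟩ := QuadIsometry.exists_sub_type 1 (nondeg_top hQ)
        (by rw [finrank_top, hfr]; omega) False (fun h => absurd h one_ne_zero)
      obtain ⟨x, hx, hxx, hneg, hfixed⟩ := QuadTwo.exists_involution hQ h2 hU hUd
        (by rw [pow_one]; exact iff_of_false hUp.1 hns)
      obtain ⟨u, hu, hu0⟩ := Submodule.exists_mem_ne_zero_of_ne_bot (show U ≠ ⊥ from fun h => by
        rw [h, finrank_bot] at hUd; omega)
      have h4 := Submodule.finrank_add_eq_of_isCompl (QuadType.isCompl_orth hU)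
      rw [hfr] at h4
      obtain ⟨w, hw, hw0⟩ := Submodule.exists_mem_ne_zero_of_ne_bot (show orth (qf hQ) U ≠ ⊥ from fun h => by
        rw [h, finrank_bot] at h4; omega)
      obtain ⟨W, hWd, hWs, hWf⟩ := hfix x hx ⟨1, by rw [sq, hxx, Units.val_one, one_smul]⟩ fun z hz => by
        have e1 := hneg u hu
        have e2 := hfixed w hw
        rw [hz, Matrix.smul_mulVec, Matrix.one_mulVec] at e1 e2
        rw [← neg_one_smul F u] at e1
        have e2' : z • w = (1 : F) • w := by rw [one_smul]; exact e2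
        exact h2 (by linear_combination (smul_left_injective F hu0 e1) - (smul_left_injective F hw0 e2'))
      obtain ⟨P, M, a, hPm, hMm, hPn, hMn, ho, hsup, hsum, hMd, -⟩ := QuadTwo.involution_type hQ h2 hx hxx
      have hUM : U ≤ M := fun z hz => (hMm z).2 (hneg z hz)
      have hUP : orth (qf hQ) U ≤ P := fun z hz => (hPm z).2 (hfixed z hz)
      have h1 := Submodule.finrank_mono hUM
      have h3 := Submodule.finrank_mono hUP
      rw [hcard] at hsum
      have hMU : M = U := (Submodule.eq_of_le_of_finrank_eq hUM (by omega)).symm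
      have hT := plus_sup _ hPn hMn ho (by rw [Nat.even_iff]; omega) (hMd ▸ even_two_mul a) rfl
      rw [hsup, hMU] at hT
      obtain ⟨j, k, hjk, ⟨hj1, hj2⟩, ⟨hk1, hk2⟩⟩ := QuadTwo.singular_split_bound hQ h2 hPn hMn hPm hMm hxx hWf hWs
      rw [hMU] at hk1 hk2
      have hk : 2 * k ≠ 2 := fun h => hUp.1 (hk2 (by omega))
      have hj : 2 * j ≠ Module.finrank F P := fun h => hUp.1 ((hT.1 hV).1 (hj2 h))
      omega
    · intro hcond x hx hz hns
      rcases QuadTwo.sq_cases hQ (by omega) hx hz with hxx | hxx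
      · obtain ⟨P, M, a, hPm, hMm, hPn, hMn, ho, hsup, hsum, hMd, hMp⟩ := QuadTwo.involution_type hQ h2 hx hxx
        rw [hcard] at hsum
        have hev : Even (Module.finrank F P) := by rw [Nat.even_iff]; omega
        have hT := plus_sup _ hPn hMn ho hev (hMd ▸ even_two_mul a) rfl
        rw [hsup] at hT
        replace hT := hT.1 hV
        have ha : 1 ≤ a ∧ a < d := by
          refine ⟨Nat.pos_of_ne_zero fun ha => hns 1 ?_, lt_of_le_of_ne (by omega) fun ha => hns (-1) ?_⟩
          · refine Matrix.toLin'.injective (LinearMap.ext fun v => ?_)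
            have hv : v ∈ P := by
              rw [Submodule.finrank_eq_zero.1 (by omega : Module.finrank F M = 0), sup_bot_eq] at hsup
              rw [hsup]; trivial
            rw [Matrix.toLin'_apply, (hPm v).1 hv, one_smul, Matrix.toLin'_one]; rfl
          · refine Matrix.toLin'.injective (LinearMap.ext fun v => ?_)
            have hv : v ∈ M := by
              rw [Submodule.finrank_eq_zero.1 (by omega : Module.finrank F P = 0), bot_sup_eq] at hsup
              rw [hsup]; trivial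
            rw [Matrix.toLin'_apply, (hMm v).1 hv, Matrix.toLin'_apply, neg_one_smul, Matrix.neg_mulVec, Matrix.one_mulVec]
        by_cases hpl : Plus (qf hQ) M
        · obtain ⟨W, hWd, hWs, hWf⟩ := QuadTwo.exists_singular_of_split hQ hPn hMn ho hPm hMm
            (j := min m (d - a)) (k := m - min m (d - a))
            ⟨by omega, fun _ => hT.2 hpl⟩ ⟨by omega, fun _ => hpl⟩
          exact ⟨W, by omega, hWs, hWf⟩
        · have hmd2 : m + 2 ≤ d := by
            rcases hcond with hsq | ⟨-, h, -⟩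
            · exact absurd (hMp.2 (hsq.pow _)) hpl
            · exact h
          obtain ⟨W, hWd, hWs, hWf⟩ := QuadTwo.exists_singular_of_split hQ hPn hMn ho hPm hMm
            (j := min m (d - a - 1)) (k := m - min m (d - a - 1))
            ⟨by omega, fun h => absurd h (by omega)⟩ ⟨by omega, fun h => absurd h (by omega)⟩
          exact ⟨W, by omega, hWs, hWf⟩
      · have hxi := CfsgLib.OrthGeo.omegaGL_le hx
        have hf : ∀ v, Cfsg.quadFormPlus d F (Matrix.toLin' (x : Matrix (Fin d ⊕ Fin d) (Fin d ⊕ Fin d) F) v) = Cfsg.quadFormPlus d F v :=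
          fun v => CfsgLib.OrthGeo.mem_isometryGroup.1 hxi v
        by_cases hsq : IsSquare (-1 : F)
        · exact QuadTwo.exists_singular_of_sqrt hQ h2 hsq hf (fun v => hxx v) hcard (by omega)
        have hde : Even d := ((QuadTwo.sq_neg_one_pow d).1 (((QuadTwo.sq_neg_mem_iff hQ h2 hcard).1 ⟨x, hx, hxx⟩).1.1 hV)).resolve_left hsq
        obtain ⟨s, hs⟩ := (hcond.resolve_left hsq).2.2.resolve_right (not_not.2 hde)
        obtain ⟨W, -, hWd, hWs, hWf⟩ := QuadTwo.exists_singular_even hQ h2 hsq hf (fun v => hxx v) s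
          (nondeg_top hQ) le_top (by rw [finrank_top, hfr]; omega)
        exact ⟨W, by omega, hWs, hWf⟩
  have hrF : (r : F) ≠ 0 := cast_ne_zero_of_ne hr hrp
  simp only [← and_assoc, hP] at hrΩ ⊢
  obtain ⟨L, -, hLs, hLd⟩ := (QuadType.exists_singular_iff _ (nondeg_top hQ) rfl m).2
    ⟨by rw [finrank_top, hfr]; omega, fun h => absurd h (by rw [finrank_top, hfr]; omega)⟩
  have hi' : ordq F r = i := hi.symm
  have hidvd : i ∣ r - 1 := by
    rw [hi]
    refine orderOf_dvd_of_pow_eq_one (ZMod.pow_card_sub_one_eq_one fun h0 => ?_)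
    have h1 : 0 < ordq F r := orderOf_card_pos hrF
    rw [ordq, h0, orderOf_zero] at h1
    exact lt_irrefl 0 h1
  rw [forall_scalar_iff hQ (by omega) hr2 hrF ⟨L, hLs, hLd⟩,
    singular_iff (nondeg_top hQ) hr2 hrF (t := (r - 1) / i) (by rw [hi']; exact Nat.div_mul_cancel hidvd)
      (by rw [hfr]; omega) (fun h => absurd h (by rw [hfr]; omega)) hrΩ, hfr]
  have hc' : pieceDim F r = c := by rw [hc, pieceDim, hi']
  have h2r : 2 < r := lt_of_le_of_ne hr.two_le (Ne.symm hr2)
  simp only [maxPieces, PieceSign, hi', hc', hr2, ne_eq, hrp, not_false_iff, h2r, hV, true_iff, true_and, false_and,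
    false_or]
  rcases Nat.even_or_odd i with hev | hod
  · obtain rfl : c = i := by rw [hc, if_pos hev]
    simp only [hev, Nat.not_odd_iff_even.2 hev, true_and, false_and, false_or]
    have hcpos : 0 < c := by rw [← hi']; exact orderOf_card_pos hrF
    have hN1 : 2 * d % c = 0 → 0 < 2 * d / c := fun h =>
      Nat.div_pos (Nat.le_of_dvd (by omega) (Nat.dvd_of_mod_eq_zero h)) hcpos
    by_cases hk : (2 * d) % c = 0 <;> by_cases hN : Even ((2 * d) / c)
    all_goals simp only [hk, hN, Nat.not_odd_iff_even.2, Nat.odd_iff.symm, ← Nat.not_even_iff_odd, not_true, not_false_iff,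
      if_true, if_false, and_true, true_and, false_and, and_false, or_false, false_or, lt_irrefl, not_lt_zero, implies_true,
      imp_false]
    all_goals omega
  · simp only [hod, Nat.not_even_iff_odd.2 hod, true_or, and_true, true_and, false_and, or_false, not_true, and_false,
      if_false, implies_true]
    omega

end Cfsg.Agent.S5973

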