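import Cfsg.Statements.S5976
import Cfsg.Agent.Eq.Def_GeometricClasses
import Cfsg.Agent.Eq.Def_ClassicalGeometry
import Cfsg.Agent.C3Derange.UnitaryOdd
import Cfsg.Agent.C3Derange.UnitaryCount
-- import your own Cfsg.Agent.* helpers here

set_option autoImplicit false
open scoped MatrixGroups
open Cfsg CfsgLib CfsgLib.Classical.Semisimple
open scoped Matrix MatrixGroups

namespace Cfsg.Agent.S5976

/-- Elements of prime order of PSp_n(q), q odd, and the subgroups of type GU_{n/2}(q). Here `T = PSp_{2d}(F)` for a field `F` with `q` elements, `q` odd, `d ≥ 2`, realised through the matrices preserving the standard alternating form `f`; `K` is a subalgebra of the `2d × 2d` matrices that is a field of degree 2 over `F`, closed under taking adjoints for `f` but not consisting of self-adjoint elements (so `F^{2d}` becomes a `d`-dimensional space over `K ≅ F_{q²}` on which `f` is the trace of a multiple of a non-degenerate hermitian form); `H` is the subgroup of `T` normalizing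 `K` — the symplectic maps that are `K`-linear or `K`-semilinear, a subgroup of type GU_d(q) (maximality is not assumed). Ω is the set of cosets of `H` in `T`, so an element of `T` of prime order `r` (`x ∈ T` with `x^r` scalar, `x` not scalar) fixes a point of Ω exactly when some `T`-conjugate of `x` normalizes `K`. Let `r` be a prime dividing the index of `H`. Then every element of `T` of order `r` fixes a point of Ω if and only if `r = 2`. -/
theorem result {F : Type*} [Field F] [Fintype F] {p : ℕ} [Fact p.Prime] [CharP F p] {q : ℕ} (hq : Fintype.card F = q)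
    (hodd : Odd q) (d : ℕ) (hd : 2 ≤ d)
    (K : Subalgebra F (Matrix (Fin d ⊕ Fin d) (Fin d ⊕ Fin d) F)) (hK : Cfsg.Geo.IsFieldSubalgebra 2 K)
    (hKf : Cfsg.Geo.IsAdjointClosedFor (Cfsg.sympForm d F) K) (hKns : ¬ Cfsg.Geo.IsSelfAdjointFor (Cfsg.sympForm d F) K)
    (r : ℕ) [Fact r.Prime]
    (hΩ : r ∣ (Cfsg.Geo.subalgebraNormalizer K).relIndex (Cfsg.spGL d F)) :
    (∀ x ∈ Cfsg.spGL d F, (∃ z : F, ((x ^ r : GL (Fin d ⊕ Fin d) F) : Matrix (Fin d ⊕ Fin d) (Fin d ⊕ Fin d) F) = z • (1 : Matrix (Fin d ⊕ Fin d) (Fin d ⊕ Fin d) F)) →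
      (∀ z : F, (x : Matrix (Fin d ⊕ Fin d) (Fin d ⊕ Fin d) F) ≠ z • (1 : Matrix (Fin d ⊕ Fin d) (Fin d ⊕ Fin d) F)) →
      ∃ g ∈ Cfsg.spGL d F, g⁻¹ * x * g ∈ Cfsg.Geo.subalgebraNormalizer K) ↔ r = 2 := by
  classical
  have hrp : r.Prime := Fact.out
  subst hq
  have hd0 : 0 < d := by omega
  obtain ⟨J, δ, hS⟩ := CfsgLib.C3Derange.exists_uStr hd0 hodd hK hKf hKns
  constructor
  swap
  · rintro rfl x hx ⟨z, hz⟩ -
    exact hS.involution_fixes hK hd0 hx hz
  intro H
  by_contra hr2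
  have hrodd : Odd r := hrp.odd_of_ne_two hr2
  -- a commuting conjugate of every element of order `r`
  have key : ∀ x ∈ Cfsg.spGL d F, x ^ r = 1 → x ≠ 1 → ∃ f : Module.End F (Fin d ⊕ Fin d → F),
      f ^ r = 1 ∧ (∀ u v, SympModel.formB d F (f u) (f v) = SympModel.formB d F u v) ∧
      f * Matrix.toLin' J = Matrix.toLin' J * f ∧
      Module.finrank F (AltIsometry.moved f) =
        Module.finrank F (AltIsometry.moved (Matrix.toLin' (x : Matrix (Fin d ⊕ Fin d) (Fin d ⊕ Fin d) F))) := by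
    intro x hxs hxr hx1
    have hns : ∀ z : F, (x : Matrix (Fin d ⊕ Fin d) (Fin d ⊕ Fin d) F) ≠ z • 1 := by
      intro z hz
      refine hx1 (Units.ext ?_)
      have h := SympFormStd.mem_spGL.1 hxs (Classical.Symp.stdE ⟨0, hd0⟩) (Classical.Symp.stdF ⟨0, hd0⟩)
      rw [hz, Matrix.smul_mulVec, Matrix.smul_mulVec, Matrix.one_mulVec, Matrix.one_mulVec,
        Classical.Symp.form_smul_left, Classical.Symp.form_smul_right, Classical.Symp.form_stdE_stdF, if_pos rfl] at h
      have hzr : z ^ r = 1 := by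
        have h1 := congrArg (fun M : GL (Fin d ⊕ Fin d) F =>
          (M : Matrix (Fin d ⊕ Fin d) (Fin d ⊕ Fin d) F) (Sum.inl ⟨0, hd0⟩) (Sum.inl ⟨0, hd0⟩)) hxr
        simpa [hz, smul_pow] using h1
      obtain ⟨m, rfl⟩ := hrodd
      rw [pow_succ, pow_mul, pow_two, show z * z = 1 by linear_combination h, one_pow, one_mul] at hzr
      rw [hz, hzr, one_smul, Units.val_one]
    obtain ⟨g, hg, hgN⟩ := H x hxs ⟨1, by rw [hxr, Units.val_one, one_smul]⟩ hns
    have hgr : (g⁻¹ * x * g) ^ r = 1 := by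
      rw [show g⁻¹ * x * g = g⁻¹ * x * (g⁻¹)⁻¹ by rw [inv_inv], conj_pow, hxr, mul_one, mul_inv_cancel]
    refine ⟨Matrix.toLin' (Units.val (g⁻¹ * x * g)), ?_,
      SympFormStd.mem_spGL.1 (mul_mem (mul_mem (inv_mem hg) hxs) hg), ?_,
      CfsgLib.C3Derange.finrank_moved_conj g x⟩
    · rw [CfsgLib.Classical.Semisimple.toLin'_pow, ← Units.val_pow_eq_pow_val, hgr, Units.val_one,
        Matrix.toLin'_one]
      rfl
    · rw [Module.End.mul_eq_comp, ← Matrix.toLin'_mul, hS.commute_of_mem hd0 hK hgN hrodd hgr, Matrix.toLin'_mul]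
      rfl
  have hJsq : ∀ v, Matrix.toLin' J (Matrix.toLin' J v) = δ • v := hS.sq
  have hone : Module.finrank F (AltIsometry.moved (Matrix.toLin'
      ((1 : GL (Fin d ⊕ Fin d) F) : Matrix (Fin d ⊕ Fin d) (Fin d ⊕ Fin d) F))) = 0 := by
    rw [AltIsometry.moved, Units.val_one, Matrix.toLin'_one, ← Module.End.one_eq_id, one_smul, sub_self,
      LinearMap.range_zero, finrank_bot]
  by_cases hr0 : (r : F) = 0
  · have hrp' : p = r := (Nat.prime_dvd_prime_iff_eq (Fact.out : p.Prime) hrp).1 ((CharP.cast_eq_zero_iff F p r).1 hr0)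
    subst hrp'
    obtain ⟨x, hx, hxr, hs⟩ := CfsgLib.C3Derange.exists_transvection_order (p := p) (F := F) hd0
    obtain ⟨f, -, -, hcomm, hdim⟩ := key x hx hxr fun h => by subst h; omega
    have hev := CfsgLib.C3Derange.even_finrank_invariant hS.nonsq hJsq (U := AltIsometry.moved f) (by
      rintro _ ⟨a, rfl⟩
      refine ⟨Matrix.toLin' J a, ?_⟩
      have hc := fun v => LinearMap.congr_fun hcomm v
      simp only [Module.End.mul_apply] at hc
      simp only [Matrix.toLin'_apply] at hc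
      simp [hc, Matrix.mulVec_sub])
    rw [hdim, hs] at hev
    exact Nat.not_even_one hev
  set e := orderOf (Fintype.card F : ZMod r) with he
  have hepos : 0 < e := orderOf_card_pos hr0
  obtain ⟨i, hi, hidvd⟩ := CfsgLib.C3Derange.exists_degree hr0 hΩ
  have fail : ∀ h, 2 * h = (if Even e then e else 2 * e) → 0 < h → h ≤ d →
      (Odd e ∧ 2 * h = 2 * e ∨ 4 ∣ e ∧ 2 * h = e) → False := by
    intro h hh hh0 hhd hcase
    obtain ⟨y, hy, -, hfix⟩ := SympModel.exists_fpf (h := h) hr2 hr0 hh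
    obtain ⟨x, hx, hxr, hs⟩ := CfsgLib.C3Derange.exists_small_moved hhd y hy hfix
    obtain ⟨f, hfr, hiso, hcomm, hdim⟩ := key x hx hxr fun h1 => by subst h1; omega
    rw [hs] at hdim
    refine CfsgLib.C3Derange.no_commute (r := r) ⟨fun u => Classical.Symp.form_self u,
      fun u h => Classical.Symp.eq_zero_of_form_eq_zero h, hiso, hfr, hr2, hr0⟩ hS.two hodd hS.nonsq hJsq
      hS.adj hcomm ?_
    rw [hdim]
    exact hcase
  rcases Nat.even_or_odd e with hev | ho
  swap
  · have hdvd : e ∣ i + 1 := (Nat.coprime_two_right.2 ho).dvd_of_dvd_mul_left hidvd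
    exact fail e (by rw [if_neg (Nat.not_even_iff_odd.2 ho)]) hepos ((Nat.le_of_dvd (by omega) hdvd).trans (by omega))
      (Or.inl ⟨ho, rfl⟩)
  obtain ⟨h, hh⟩ := hev
  rcases Nat.even_or_odd h with hhev | hhodd
  · refine fail h (by rw [if_pos ⟨h, hh⟩]; omega) (by omega) ?_ (Or.inr ⟨?_, by omega⟩)
    · have := Nat.le_of_dvd (by omega) hidvd
      omega
    · obtain ⟨c, hc⟩ := hhev
      exact ⟨c, by omega⟩
  -- the index is prime to `r`
  set q := Fintype.card F with hq
  set G : ℕ → ℕ := fun i => if Even i then q ^ (i + 1) + 1 else q ^ (i + 1) - 1 with hG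
  set G' : ℕ → ℕ := fun i => if Even i then q ^ (i + 1) - 1 else q ^ (i + 1) + 1 with hG'
  have hprod : ∏ j ∈ Finset.range d, (q ^ (2 * (j + 1)) - 1) =
      (∏ j ∈ Finset.range d, G' j) * ∏ j ∈ Finset.range d, G j := by
    rw [← Finset.prod_mul_distrib]
    refine Finset.prod_congr rfl fun j _ => ?_
    have hsq : q ^ (2 * (j + 1)) - 1 = (q ^ (j + 1) + 1) * (q ^ (j + 1) - 1) := by
      rw [← Nat.sq_sub_sq, one_pow, ← pow_mul, mul_comm 2]
    simp only [hG, hG']
    split_ifs
    · rw [hsq, mul_comm]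
    · rw [hsq]
  have hP0 : 0 < ∏ j ∈ Finset.range d, G j := Finset.prod_pos fun j _ => by
    simp only [hG]
    split_ifs
    · exact Nat.succ_pos _
    · exact Nat.sub_pos_of_lt (Nat.one_lt_pow (by omega) Fintype.one_lt_card)
  have hdiv : (Cfsg.Geo.subalgebraNormalizer K).relIndex (Cfsg.spGL d F) ∣
      q ^ (d ^ 2) * ∏ j ∈ Finset.range d, G' j := by
    refine Nat.dvd_of_mul_dvd_mul_right hP0 ?_
    rw [mul_assoc, ← hprod, ← CfsgLib.C3Derange.card_spGL, ← CfsgLib.C3Derange.relIndex_mul_card]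
    exact Nat.mul_dvd_mul_left _ ((dvd_mul_left _ _).trans (hS.card_gu_dvd hd0 hodd hK))
  rcases hrp.dvd_mul.1 (hΩ.trans hdiv) with h1 | h1
  · refine card_ne_zero_mod hr0 ?_
    exact_mod_cast (ZMod.natCast_eq_zero_iff _ r).2 (hrp.dvd_of_dvd_pow h1)
  · obtain ⟨j, -, hjr⟩ := (Prime.dvd_finsetProd_iff hrp.prime _).1 h1
    simp only [hG'] at hjr
    by_cases hj : Even j
    · rw [if_pos hj] at hjr
      obtain ⟨c, hc⟩ := (dvd_pow_sub_one_iff_orderOf_dvd _).1 hjr
      obtain ⟨a, ha⟩ := hj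
      rw [← he, hh, add_mul] at hc
      omega
    · rw [if_neg hj] at hjr
      have hz : ((q : ZMod r)) ^ (j + 1) + 1 = 0 := by
        exact_mod_cast (ZMod.natCast_eq_zero_iff _ r).2 hjr
      have hneg : (q : ZMod r) ^ (j + 1) = -1 := eq_neg_of_add_eq_zero_left hz
      have hd2 : e ∣ 2 * (j + 1) := orderOf_dvd_of_pow_eq_one (by rw [mul_comm, pow_mul, hneg, neg_one_sq])
      have hhj : h ∣ j + 1 := by
        rw [hh, ← two_mul] at hd2
        exact Nat.dvd_of_mul_dvd_mul_left two_pos hd2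
      have hj1 : 2 ∣ j + 1 := by
        obtain ⟨a, ha⟩ := Nat.not_even_iff_odd.1 hj
        exact ⟨a + 1, by omega⟩
      have h3 : e ∣ j + 1 := by
        rw [hh, ← two_mul]
        exact (Nat.coprime_two_left.2 hhodd).mul_dvd_of_dvd_of_dvd hj1 hhj
      have h4 : (q : ZMod r) ^ (j + 1) = 1 := orderOf_dvd_iff_pow_eq_one.1 h3
      rw [hneg] at h4
      exact hr2 ((Nat.prime_dvd_prime_iff_eq hrp Nat.prime_two).1 ((ZMod.natCast_eq_zero_iff 2 r).1 (by
        push_cast
        linear_combination -h4)))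

end Cfsg.Agent.S5976
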