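import Cfsg.Statements.S5979
import Cfsg.Agent.Classical.PrimeDerangement.TensorMain
import Cfsg.Agent.S2575

set_option autoImplicit false
open scoped MatrixGroups
open Cfsg CfsgLib.Classical.PrimeDerangement.Tensor

namespace Cfsg.Agent.S5979

/-- Elements of prime order of PSL_n(q) and the stabilizers of tensor decompositions with factors of different dimensions. Here `T = PSL_n(F)` for a field `F` with `q` elements and `n = a·b` with `2 ≤ a < b`; a tensor decomposition `F^n ≅ F^a ⊗ F^b` is given by a bijection `e` of index sets and a change of basis `P`, and `H` is the subgroup of matrices of determinant 1 in its stabilizer (the conjugate by `P` of the group of Kronecker products `g₁ ⊗ g₂`) — a subgroup of type GL_a(q) ⊗ GL_b(q) (maximality is not assumed); Ω is the set of cosets of `H` in `T`, so an element of `T` of prime order `r` (a matrix `x` of determinant 1 with `x^r` scalar, `x` not scalar) fixes a point of Ω exactly when some conjugate of `x` by a matrix of determinant 1 lies in `H`. Let `r` be a prime dividing the index of `H`. Then every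 element of `T` of order `r` fixes a point of Ω if and only if `r = 2`, `a = 2`, `q` is odd and `(q − 1)_2 ≤ (n)_2` (2-parts). -/
theorem result {F : Type*} [Field F] [Fintype F] {p : ℕ} [Fact p.Prime] [CharP F p] {q : ℕ} (hq : Fintype.card F = q)
    (n a b : ℕ) (hab : n = a * b) (ha : 2 ≤ a) (hlt : a < b) (e : Fin n ≃ Fin a × Fin b) (P : GL (Fin n) F)
    (r : ℕ) [Fact r.Prime]
    (hΩ : r ∣ (Cfsg.Geo.tensorProductSubgroup a b e P).relIndex (Cfsg.Geo.specialLinear (Fin n) F)) :
    (∀ x ∈ Cfsg.Geo.specialLinear (Fin n) F, (∃ z : F, ((x ^ r : GL (Fin n) F) : Matrix (Fin n) (Fin n) F) = z • (1 : Matrix (Fin n) (Fin n) F)) →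
      (∀ z : F, (x : Matrix (Fin n) (Fin n) F) ≠ z • (1 : Matrix (Fin n) (Fin n) F)) →
      ∃ g ∈ Cfsg.Geo.specialLinear (Fin n) F, g⁻¹ * x * g ∈ Cfsg.Geo.tensorProductSubgroup a b e P) ↔
    (r = 2 ∧ a = 2 ∧ Odd q ∧ padicValNat 2 (q - 1) ≤ padicValNat 2 n) := by
  classical
  have hn2 : 2 ≤ n := by have := Nat.mul_le_mul ha (show 1 ≤ b by omega); omega
  have hab' : a ∣ n := hab ▸ dvd_mul_right a b
  have hdiag : ∀ c : F, c ≠ 0 → (c • Matrix.diagonal (fun j : Fin n => if (j : ℕ) < 1 then (-1 : F) else 1)).det =
      -c ^ n := by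
    intro c _
    rw [Matrix.det_smul, Matrix.det_diagonal, Fintype.card_fin,
      Finset.prod_eq_single (⟨0, by omega⟩ : Fin n) (fun j _ hj => if_neg fun h => hj (Fin.ext (by simpa using h)))
        (fun h => absurd (Finset.mem_univ _) h), if_pos (by simp), mul_neg_one]
  constructor
  · intro hall
    by_contra hcon
    have fail : ∀ x ∈ Cfsg.Geo.specialLinear (Fin n) F,
        (∃ z : F, ((x ^ r : GL (Fin n) F) : Matrix (Fin n) (Fin n) F) = z • 1) →
        (∀ z : F, (x : Matrix (Fin n) (Fin n) F) ≠ z • 1) →
        (∀ g : GL (Fin n) F, g⁻¹ * x * g ∉ Cfsg.Geo.tensorProductSubgroup a b e P) → False := by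
      intro x h1 h2 h3 h4
      obtain ⟨g, -, hg⟩ := hall x h1 h2 h3
      exact h4 g hg
    by_cases hr0 : (r : F) = 0
    · have hrp : p = r :=
        (Nat.prime_dvd_prime_iff_eq (Fact.out : p.Prime) (Fact.out : r.Prime)).1 ((CharP.cast_eq_zero_iff F p r).1 hr0)
      subst hrp
      obtain ⟨x, h1, h2, h3, h4⟩ := exists_transvection_derangement (e := e) (P := P) (p := p) hn2 ha (by omega)
      exact fail x h1 h2 h3 h4
    by_cases hq' : r ∣ Nat.card Fˣ
    · obtain ⟨ζ, hζ⟩ := exists_prime_orderOf_dvd_card' r hq'
      have hζr : (ζ : F) ^ r = 1 := by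
        rw [← Units.val_pow_eq_pow_val, ← hζ, pow_orderOf_eq_one, Units.val_one]
      by_cases hr2 : r = 2
      · subst hr2
        have h2 : (2 : F) ≠ 0 := by exact_mod_cast hr0
        have hne : (-1 : F) ≠ 1 := fun h => h2 (by linear_combination -h)
        by_cases ha2 : a = 2
        · have hodd : Odd q := by
            rw [← hq]
            exact Nat.odd_iff.2 (FiniteField.odd_card_of_char_ne_two fun h => h2 (by
              haveI := ringChar.charP F
              exact_mod_cast (CharP.cast_eq_zero_iff F (ringChar F) 2).2 (h ▸ dvd_rfl)))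
          have hlt' : padicValNat 2 n < padicValNat 2 (q - 1) := by
            by_contra h
            exact hcon ⟨rfl, ha2, hodd, by omega⟩
          obtain ⟨c, hc0, hc⟩ := (Cfsg.Agent.S2575.result hq hodd (show 1 ≤ n by omega) 1 (by omega)).2 (Or.inr hlt')
          have hcn : c ≠ -c := fun h => mul_ne_zero h2 hc0 (by linear_combination h)
          rw [← Matrix.diagonal_smul, Matrix.det_diagonal] at hc
          obtain ⟨x, h1, h2', h3, h4⟩ := exists_diag_derangement (e := e) (P := P) (r := 2) _ hc (c ^ 2)
            (fun j => by simp only [Pi.smul_apply, smul_eq_mul]; split_ifs <;> ring) (c₁ := c) (c₂ := c)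
            (by
              rw [Nat.card_eq_fintype_card, show Fintype.card _ = 1 from
                Fintype.card_eq_one_iff.2 ⟨⟨(⟨0, by omega⟩ : Fin n), by simp [Ne.symm hcn]⟩, fun k => Subtype.ext
                  (Fin.ext (by by_contra hk; exact k.2 (by simp [hk])))⟩]
              omega)
            (by
              rw [Nat.card_eq_fintype_card, show Fintype.card _ = 1 from
                Fintype.card_eq_one_iff.2 ⟨⟨(⟨0, by omega⟩ : Fin n), by simp [Ne.symm hcn]⟩, fun k => Subtype.ext
                  (Fin.ext (by by_contra hk; exact k.2 (by simp [hk])))⟩, Nat.dvd_one]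
              omega)
          exact fail x h1 h2' h3 h4
        · have hcard : Nat.card {j : Fin n // (if (j : ℕ) < 2 then (-1 : F) else 1) ≠ 1} = 2 := by
            rw [Nat.card_congr (Equiv.subtypeEquivRight (q := fun j : Fin n => (j : ℕ) < 2) fun j => by
              by_cases h : (j : ℕ) < 2 <;> simp [h, hne]), Nat.card_eq_fintype_card, Fintype.card_subtype,
              Fin.card_filter_val_lt]
            omega
          obtain ⟨x, h1, h2', h3, h4⟩ := exists_diag_derangement (e := e) (P := P) (r := 2)
            (fun j : Fin n => if (j : ℕ) < 2 then (-1 : F) else 1) (by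
              rw [Finset.prod_ite, Finset.prod_const, Finset.prod_const, Fin.card_filter_val_lt, min_eq_right hn2]
              simp) 1 (fun j => by split_ifs <;> ring) (c₁ := 1) (c₂ := 1) (by rw [hcard]; omega)
            (by rw [hcard]; exact fun h => ha2 (by have := Nat.le_of_dvd (by norm_num) h; omega))
          exact fail x h1 h2' h3 h4
      · have hζ1 : (ζ : F) ≠ 1 := fun h => (Fact.out : r.Prime).ne_one (by
          rw [← hζ, show ζ = 1 from Units.ext h, orderOf_one])
        have hζi : ((ζ⁻¹ : Fˣ) : F) ≠ ζ := fun h => hr2 (by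
          have h2 : ζ ^ 2 = 1 := by rw [pow_two]; nth_rw 1 [← Units.ext h]; exact inv_mul_cancel ζ
          have := orderOf_dvd_of_pow_eq_one h2
          rw [hζ] at this
          exact (Nat.prime_dvd_prime_iff_eq (Fact.out : r.Prime) Nat.prime_two).1 this)
        set d : Fin n → F := fun j => if (j : ℕ) = 0 then (ζ : F) else if (j : ℕ) = 1 then ((ζ⁻¹ : Fˣ) : F) else 1
          with hd
        have hdet : ∏ j, d j = 1 := by
          rw [Finset.prod_eq_mul (⟨0, by omega⟩ : Fin n) ⟨1, by omega⟩ (by simp [Fin.ext_iff])
            (fun j _ hj => by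
              simp only [ne_eq, Fin.ext_iff] at hj
              simp [hd, hj.1, hj.2]) (fun h => absurd (Finset.mem_univ _) h) (fun h => absurd (Finset.mem_univ _) h)]
          simp [hd]
        obtain ⟨x, h1, h2', h3, h4⟩ := exists_diag_derangement (e := e) (P := P) (r := r) d hdet 1
          (fun j => by
            simp only [hd]
            split_ifs
            · exact hζr
            · rw [← Units.val_pow_eq_pow_val, inv_pow, ← hζ, pow_orderOf_eq_one, inv_one, Units.val_one]
            · exact one_pow r) (c₁ := 1) (c₂ := (ζ : F))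
          (by
            refine lt_of_le_of_lt ?_ (show 2 < b by omega)
            refine (Nat.card_le_card_of_injective (fun j : {j // d j ≠ 1} => (⟨(j.1 : ℕ), ?_⟩ : Fin 2)) ?_).trans
              (by simp)
            · by_contra h
              exact j.2 (by simp [hd, show ¬(j.1 : ℕ) = 0 by omega, show ¬(j.1 : ℕ) = 1 by omega])
            · exact fun i j h => Subtype.ext (Fin.ext (by simpa using congrArg Fin.val h)))
          (by
            rw [Nat.card_congr (Equiv.subtypeEquivRight (q := fun j : Fin n => j ≠ ⟨0, by omega⟩) fun j => by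
              simp only [hd, ne_eq, Fin.ext_iff]
              split_ifs <;> simp_all [Ne.symm hζ1]), Nat.card_eq_fintype_card, Fintype.card_subtype_compl,
              Fintype.card_fin, Fintype.card_subtype_eq]
            intro h
            have h1 := (Nat.dvd_sub hab' h)
            rw [show n - (n - 1) = 1 by omega, Nat.dvd_one] at h1
            omega)
        exact fail x h1 h2' h3 h4
    · obtain ⟨x, h1, h2, h3, h4⟩ := exists_derangement hab ha hlt e P hr0 hq'
        (hΩ.trans ((Subgroup.relIndex_dvd_card _ _).trans (Subgroup.card_subgroup_dvd_card _)))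
      exact fail x h1 ⟨1, by rw [h2, Units.val_one, one_smul]⟩ h3 h4
  · rintro ⟨rfl, rfl, hodd, hle⟩ x hx ⟨z, hz⟩ -
    have h2 : (2 : F) ≠ 0 := by
      intro h
      haveI := ringChar.charP F
      have hc : ringChar F = 2 := (Nat.prime_dvd_prime_iff_eq (CharP.char_is_prime F (ringChar F)) Nat.prime_two).1
        ((CharP.cast_eq_zero_iff F (ringChar F) 2).1 (by exact_mod_cast h))
      exact (Nat.not_even_iff_odd.2 (hq ▸ hodd)) (Nat.even_iff.2 (FiniteField.even_card_of_char_two hc))
    have hnc : ∀ c : F, c ^ n ≠ -1 := by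
      intro c hc
      have hc0 : c ≠ 0 := fun h => by
        rw [h, zero_pow (by omega)] at hc
        exact one_ne_zero (by linear_combination hc)
      rcases (Cfsg.Agent.S2575.result hq hodd (show 1 ≤ n by omega) 1 (by omega)).1
        ⟨c, hc0, by rw [hdiag c hc0, hc, neg_neg]⟩ with h | h
      · exact absurd h (by decide)
      · omega
    have hxx : (x : Matrix (Fin n) (Fin n) F) * (x : Matrix (Fin n) (Fin n) F) = z • 1 := by
      rw [← pow_two, ← Units.val_pow_eq_pow_val, hz]
    by_cases hs : ∃ c : F, c * c = z
    · obtain ⟨c, rfl⟩ := hs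
      refine conj_of_sq h2 (by omega) hab rfl hnc hx (fun h => ?_) hxx
      haveI : NeZero n := ⟨by omega⟩
      exact (x ^ 2).ne_zero (by rw [hz, h, mul_zero, zero_smul])
    · push Not at hs
      exact conj_of_nonsq hab (by omega) rfl hx hs hxx

end Cfsg.Agent.S5979
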