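import Cfsg.Statements.S5980
import Cfsg.Agent.Classical.PrimeDerangement.SpTensorMain

set_option autoImplicit false
open scoped MatrixGroups
open Cfsg CfsgLib.Classical.PrimeDerangement

namespace Cfsg.Agent.S5980

/-- Elements of prime order of PSp_n(q), q odd, and the stabilizers of tensor decompositions Sp_a(q) ⊗ O_b(q). Here `T = PSp_{2d}(F)` for a field `F` with `q` elements, `q` odd, `d ≥ 2`, realised through the matrices preserving the standard alternating form `f`; `2d = a·b` with `a` even, `b ≥ 3`, and the bijection `e` and change of basis `P` exhibit `f` as a non-zero scalar multiple of the tensor product of a non-degenerate alternating form `f₁` on `F^a` and a non-degenerate symmetric bilinear form `f₂` on `F^b`; `H` is the subgroup of `T` stabilizing this tensor decomposition (the elements of `T` in the conjugate by `P` of the group of Kronecker products) — a subgroup of type Sp_a(q) ⊗ O^ε_b(q) (maximality is not assumed). Ω is the set of cosets of `H`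 in `T`, so an element of `T` of prime order `r` (`x ∈ T` with `x^r` scalar, `x` not scalar) fixes a point of Ω exactly when some `T`-conjugate of `x` lies in `H`. Let `r` be a prime dividing the index of `H`. Then every element of `T` of order `r` fixes a point of Ω if and only if `r = 2` and `a = 2`. -/
theorem result {F : Type*} [Field F] [Fintype F] {p : ℕ} [Fact p.Prime] [CharP F p] {q : ℕ} (hq : Fintype.card F = q)
    (hodd : Odd q) (d : ℕ) (hd : 2 ≤ d) (a b : ℕ) (hab : 2 * d = a * b) (ha : Even a) (ha2 : 2 ≤ a) (hb : 3 ≤ b)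
    (e : (Fin d ⊕ Fin d) ≃ Fin a × Fin b) (P : GL (Fin d ⊕ Fin d) F)
    (f₁ : (Fin a → F) → (Fin a → F) → F) (f₂ : (Fin b → F) → (Fin b → F) → F)
    (hf₁ : Cfsg.Geo.IsSymplecticForm f₁) (hf₂ : Cfsg.Geo.IsSymmetricForm f₂)
    (hS : Cfsg.Geo.IsTensorFormStructure id (Cfsg.sympForm d F) f₁ f₂ e P)
    (r : ℕ) [Fact r.Prime]
    (hΩ : r ∣ (Cfsg.Geo.tensorProductSubgroup a b e P).relIndex (Cfsg.spGL d F)) :
    (∀ x ∈ Cfsg.spGL d F, (∃ z : F, ((x ^ r : GL (Fin d ⊕ Fin d) F) : Matrix (Fin d ⊕ Fin d) (Fin d ⊕ Fin d) F) = z • (1 : Matrix (Fin d ⊕ Fin d) (Fin d ⊕ Fin d) F)) →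
      (∀ z : F, (x : Matrix (Fin d ⊕ Fin d) (Fin d ⊕ Fin d) F) ≠ z • (1 : Matrix (Fin d ⊕ Fin d) (Fin d ⊕ Fin d) F)) →
      ∃ g ∈ Cfsg.spGL d F, g⁻¹ * x * g ∈ Cfsg.Geo.tensorProductSubgroup a b e P) ↔ (r = 2 ∧ a = 2) := by
  classical
  have h2 : (2 : F) ≠ 0 := fun h => by
    haveI := ringChar.charP F
    have hc : ringChar F = 2 := (Nat.prime_dvd_prime_iff_eq (CharP.char_is_prime F (ringChar F)) Nat.prime_two).1
      ((CharP.cast_eq_zero_iff F (ringChar F) 2).1 (by exact_mod_cast h))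
    exact (Nat.not_even_iff_odd.2 (hq ▸ hodd)) (Nat.even_iff.2 (FiniteField.even_card_of_char_two hc))
  constructor
  · intro hall
    have fail : ∀ x ∈ Cfsg.spGL d F,
        (∃ z : F, ((x ^ r : GL (Fin d ⊕ Fin d) F) : Matrix (Fin d ⊕ Fin d) (Fin d ⊕ Fin d) F) = z • 1) →
        (∀ z : F, (x : Matrix (Fin d ⊕ Fin d) (Fin d ⊕ Fin d) F) ≠ z • 1) →
        (∀ g : GL (Fin d ⊕ Fin d) F, g⁻¹ * x * g ∉ Cfsg.Geo.tensorProductSubgroup a b e P) → False := by
      intro x h1 h2 h3 h4
      obtain ⟨g, -, hg⟩ := hall x h1 h2 h3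
      exact h4 g hg
    by_cases hrF : (r : F) = 0
    · have hrp : p = r :=
        (Nat.prime_dvd_prime_iff_eq (Fact.out : p.Prime) (Fact.out : r.Prime)).1 ((CharP.cast_eq_zero_iff F p r).1 hrF)
      subst hrp
      obtain ⟨x, h1, h2', h3, h4⟩ := SpTensor.exists_derangement_p (p := p) (d := d) (by omega) ha2 hb e P
      exact (fail x h1 h2' h3 h4).elim
    by_cases hr2 : r = 2
    · subst hr2
      refine ⟨rfl, ?_⟩
      by_contra hne
      obtain ⟨x, h1, h2', h3, h4⟩ := SpTensor.exists_derangement_two h2 hd (show 3 ≤ a by omega) hb e P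
      exact fail x h1 h2' h3 h4
    · obtain ⟨x, h1, h2', h3, h4⟩ := SpTensor.exists_derangement_odd ha ha2 hb (by omega) e P hr2 hrF
        (hΩ.trans (Subgroup.relIndex_dvd_card _ _))
      exact (fail x h1 h2' h3 h4).elim
  · rintro ⟨rfl, rfl⟩ x hx ⟨z, hz⟩ -
    exact SpTensor.conj_two h2 (by omega) hf₁ hf₂ hS hx hz

end Cfsg.Agent.S5980
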