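import Cfsg.Statements.S5983
import Cfsg.Agent.Eq.Def_GeometricClasses
import Cfsg.Agent.Char2Forms.Arf

set_option autoImplicit false
open scoped MatrixGroups
open Cfsg CfsgLib.Char2Forms CfsgLib.OrthoCharTwo Matrix

namespace Cfsg.Agent.S5983

theorem sympForm_eq {F : Type*} [Field F] (h2 : (2 : F) = 0) {n : ℕ} (u v : Fin n ⊕ Fin n → F) :
    Cfsg.sympForm n F u v = QuadraticMap.polar (Cfsg.quadFormPlus n F) u v := by
  rw [polar_plus]
  simp only [Cfsg.sympForm, Matrix.J, fromBlocks_mulVec, zero_mulVec, add_zero, zero_add,
    neg_mulVec, one_mulVec, dotProduct, Fintype.sum_sum_type, Sum.elim_inl, Sum.elim_inr,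
    Pi.neg_apply, Function.comp_apply, ← Finset.sum_add_distrib]
  exact Finset.sum_congr rfl fun i _ => by linear_combination -(u (.inl i) * v (.inr i)) * h2

/-- Indices of the minus form, as indices of the plus form one dimension up. -/
def upIdx (n : ℕ) : (Fin n ⊕ Fin n) ⊕ Fin 2 ≃ Fin (n + 1) ⊕ Fin (n + 1) where
  toFun
    | .inl (.inl i) => .inl i.castSucc
    | .inl (.inr i) => .inr i.castSucc
    | .inr k => if k = 0 then .inl (Fin.last n) else .inr (Fin.last n)
  invFun
    | .inl i => Fin.lastCases (.inr 0) (fun j => .inl (.inl j)) i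
    | .inr i => Fin.lastCases (.inr 1) (fun j => .inl (.inr j)) i
  left_inv := by
    rintro ((i | i) | k)
    · simp
    · simp
    · fin_cases k <;> simp
  right_inv := by
    rintro (i | i) <;> refine Fin.lastCases ?_ (fun j => ?_) i <;> simp

/-- Elements of prime order of PSp_n(q), q even, and the subgroups of orthogonal type. Here `T = Sp_{2d}(F)` for a field `F` of characteristic 2 with `q` elements (`d ≥ 2`, `(d, q) ≠ (2, 2)`), realised as the invertible matrices preserving the standard alternating form; `Q` is a non-degenerate quadratic form on `F^{2d}` whose polar form is that alternating form, and `H` is the subgroup of `T` preserving `Q` up to a scalar (equivalently preserving `Q`) — a subgroup of type O^±_{2d}(q) (maximality is not assumed); `Q` is of plus type when `F^{2d}` contains a `d`-dimensional subspace on which `Q` vanishes, of minus type otherwise. Ω is the set of cosets of `H` in `T`, so an element of `T` of prime order `r` (`x ∈ T` with `x^r` scalar, `x` not scalar) fixes a point of Ω exactly when some `T`-conjugate of `x` preserves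 `Q`. Let `r` be a prime dividing the index of `H`. Then every element of `T` of order `r` fixes a point of Ω if and only if `r = 2` and either `Q` is of plus type or `d` is odd. -/
theorem result {F : Type*} [Field F] [Fintype F] {p : ℕ} [Fact p.Prime] [CharP F p] {q : ℕ} (hq : Fintype.card F = q)
    (hp : p = 2) (d : ℕ) (hd : 2 ≤ d) (hT : (d, q) ≠ (2, 2)) (Q : (Fin d ⊕ Fin d → F) → F) (hQ : Cfsg.Geo.IsNondegenerateQuadraticForm Q)
    (hQf : ∀ u v, QuadraticMap.polar Q u v = Cfsg.sympForm d F u v)
    (r : ℕ) [Fact r.Prime]
    (hΩ : r ∣ (Cfsg.Geo.quadSimilarityGroup Q).relIndex (Cfsg.spGL d F)) :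
    (∀ x ∈ Cfsg.spGL d F, (∃ z : F, ((x ^ r : GL (Fin d ⊕ Fin d) F) : Matrix (Fin d ⊕ Fin d) (Fin d ⊕ Fin d) F) = z • (1 : Matrix (Fin d ⊕ Fin d) (Fin d ⊕ Fin d) F)) →
      (∀ z : F, (x : Matrix (Fin d ⊕ Fin d) (Fin d ⊕ Fin d) F) ≠ z • (1 : Matrix (Fin d ⊕ Fin d) (Fin d ⊕ Fin d) F)) →
      ∃ g ∈ Cfsg.spGL d F, g⁻¹ * x * g ∈ Cfsg.Geo.quadSimilarityGroup Q) ↔
    (r = 2 ∧ (Cfsg.Geo.IsPlusTypeOn Q ⊤ ∨ Odd d)) := by
  classical
  have hr : r.Prime := Fact.out
  subst hq
  subst hp
  have h2 : (2 : F) = 0 := CharTwo.two_eq_zero
  have hQ2 : Form2 Q :=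
    ⟨h2, hQ.smul, hQ.polar_bilinear, fun u hu => by
      by_contra h
      obtain ⟨-, w, hw⟩ := hQ.nondegenerate u h
      exact hw (hu w)⟩
  have hP := form2_plus h2 (F := F) d
  have hsp : Cfsg.spGL d F = polarGroup Q := by
    ext g
    show (∀ u v, Cfsg.sympForm d F ((g : Matrix (Fin d ⊕ Fin d) (Fin d ⊕ Fin d) F) *ᵥ u)
      ((g : Matrix (Fin d ⊕ Fin d) (Fin d ⊕ Fin d) F) *ᵥ v) = Cfsg.sympForm d F u v) ↔ _
    simp only [mem_polarGroup, hQf]
  have hdim : Fintype.card (Fin d ⊕ Fin d) = 2 * d := by simp; ring
  have hH : ∀ g ∈ polarGroup Q, (g ∈ Cfsg.Geo.quadSimilarityGroup Q ↔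
      g ∈ Cfsg.isometryGroup F Q) := by
    intro g hg
    constructor
    · rintro ⟨c, hc⟩
      obtain ⟨u, v, huv⟩ : ∃ u v, QuadraticMap.polar Q u v ≠ 0 := by
        by_contra h
        push_neg at h
        have := hQ2.nondeg (Pi.single (Sum.inl ⟨0, by omega⟩) 1) (h _)
        simp at this
      have h1 := mem_polarGroup.1 hg u v
      have h3 : QuadraticMap.polar Q ((g : Matrix (Fin d ⊕ Fin d) (Fin d ⊕ Fin d) F) *ᵥ u)
          ((g : Matrix (Fin d ⊕ Fin d) (Fin d ⊕ Fin d) F) *ᵥ v) =
            (c : F) * QuadraticMap.polar Q u v := by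
        simp only [QuadraticMap.polar, ← Matrix.mulVec_add, hc]; ring
      rw [h1] at h3
      have hc1 : (c : F) = 1 := mul_right_cancel₀ huv (h3.symm.trans (one_mul _).symm)
      exact mem_iso.2 fun v => by rw [hc v, hc1, one_mul]
    · intro h
      exact ⟨1, fun v => by rw [mem_iso.1 h v, Units.val_one, one_mul]⟩
  have hzone : ∀ g ∈ polarGroup Q, ∀ z : F,
      (g : Matrix (Fin d ⊕ Fin d) (Fin d ⊕ Fin d) F) = z • 1 → g = 1 := by
    intro g hg z hz
    obtain ⟨u, v, huv⟩ : ∃ u v, QuadraticMap.polar Q u v ≠ 0 := by
      by_contra h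
      push_neg at h
      have := hQ2.nondeg (Pi.single (Sum.inl ⟨0, by omega⟩) 1) (h _)
      simp at this
    have h1 := mem_polarGroup.1 hg u v
    rw [hz, smul_mulVec, smul_mulVec, one_mulVec, one_mulVec, hQ2.bil.smul_left,
      hQ2.bil.smul_right] at h1
    have hz2 : z ^ 2 = 1 := mul_right_cancel₀ huv (by rw [one_mul]; linear_combination h1)
    exact Units.ext (by rw [hz, CfsgLib.Char2Forms.sq_eq_one h2 hz2, one_smul, Units.val_one])
  -- the plus forms are exactly those with positive Gauss sum
  have hplus : Cfsg.Geo.IsPlusTypeOn Q ⊤ ↔ gsum Q = (Fintype.card F : ℤ) ^ d := by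
    constructor
    · rintro ⟨U, -, hU, hUd⟩
      rw [finrank_top, Module.finrank_fintype_fun_eq_card, hdim] at hUd
      exact gsum_of_plus hQ2 hdim hU (by omega)
    · intro hS
      obtain ⟨a, ha⟩ : ∃ a, ∀ v, Cfsg.quadFormPlus d F v = shift Q a v := by
        have hpol : ∀ u v, Cfsg.quadFormPlus d F (u + v) =
            Cfsg.quadFormPlus d F u + Cfsg.quadFormPlus d F v + QuadraticMap.polar Q u v := by
          intro u v
          rw [hP.map_add, hQf, sympForm_eq h2]
        have hsurj : ∀ x : F, ∃ y, y ^ 2 = x := exists_sq_eq h2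
        choose s hs using hsurj
        have hinj : ∀ x y : F, x ^ 2 = y ^ 2 → x = y := fun x y h =>
          (bijective_frobenius F 2).1 h
        let ℓ : (Fin d ⊕ Fin d → F) →ₗ[F] F :=
          { toFun := fun v => s (Cfsg.quadFormPlus d F v - Q v)
            map_add' := fun u v => hinj _ _ (by
              rw [hs, CharTwo.add_sq, hs, hs, hpol, hQ2.map_add]; ring)
            map_smul' := fun c v => hinj _ _ (by
              simp only [RingHom.id_apply, smul_eq_mul]
              rw [hs, mul_pow, hs, hP.smul, hQ2.smul]; ring) }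
        have hflip : Function.Surjective hQ2.polarLin.flip := by
          refine (LinearMap.injective_iff_surjective_of_finrank_eq_finrank
            Subspace.dual_finrank_eq.symm).1 ?_
          rw [injective_iff_map_eq_zero]
          intro z hz
          exact hQ2.hnd z fun w => LinearMap.congr_fun hz w
        obtain ⟨a, ha⟩ := hflip ℓ
        refine ⟨a, fun v => ?_⟩
        have h : QuadraticMap.polar Q v a = s (Cfsg.quadFormPlus d F v - Q v) :=
          LinearMap.congr_fun ha v
        rw [shift, h, hs]; ring
      let U : Submodule F (Fin d ⊕ Fin d → F) :=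
        LinearMap.ker (LinearMap.funLeft F F (Sum.inr : Fin d → Fin d ⊕ Fin d))
      have hU : Cfsg.Geo.IsTotallySingularQuad (Cfsg.quadFormPlus d F) U := fun w hw => by
        rw [quadFormPlus_eq, show w ∘ Sum.inr = 0 from LinearMap.mem_ker.1 hw, dotProduct_zero]
      have hUd : Module.finrank F U = d := by
        have h := LinearMap.finrank_range_add_finrank_ker
          (LinearMap.funLeft F F (Sum.inr : Fin d → Fin d ⊕ Fin d))
        rw [LinearMap.range_eq_top.2 (LinearMap.funLeft_surjective_of_injective F F _
          Sum.inr_injective), finrank_top, Module.finrank_fintype_fun_eq_card,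
          Module.finrank_fintype_fun_eq_card, hdim, Fintype.card_fin] at h
        change Module.finrank F (LinearMap.ker _) = d
        omega
      have hpa : psi (Q a) = 1 := by
        have h := gsum_of_plus hP hdim hU hUd
        rw [show Cfsg.quadFormPlus d F = shift Q a from funext ha, gsum_shift hQ2, hS] at h
        exact mul_right_cancel₀ (pow_ne_zero _ (by exact_mod_cast Fintype.card_ne_zero))
          (h.trans (one_mul _).symm)
      obtain ⟨g, -, hgg, hgv⟩ := exists_to_shift hQ2 hpa
      let e : (Fin d ⊕ Fin d → F) →ₗ[F] (Fin d ⊕ Fin d → F) :=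
        Matrix.mulVecLin (g : Matrix (Fin d ⊕ Fin d) (Fin d ⊕ Fin d) F)
      have he : Function.Injective e := fun u v h => (glPerm g).injective h
      refine ⟨U.map e, le_top, ?_, ?_⟩
      · rintro _ ⟨w, hw, rfl⟩
        rw [show Q (e w) = shift Q a w from hgv w, ← ha]
        exact hU w hw
      · rw [finrank_top, Module.finrank_fintype_fun_eq_card, hdim,
          LinearEquiv.finrank_eq (Submodule.equivMapOfInjective e he U).symm, hUd]
  rw [hsp] at hΩ ⊢
  rw [relIndex_eq hQ2 hH] at hΩ
  have hrsum : (r : ℤ) ∣ (Fintype.card F : ℤ) ^ (2 * d) + gsum Q := by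
    rw [← hdim, ← two_mul_card_good]
    exact Dvd.dvd.mul_left (Int.natCast_dvd_natCast.2 hΩ) 2
  have hiff : ∀ x : GL (Fin d ⊕ Fin d) F, x ∈ polarGroup Q →
      ((∃ g ∈ polarGroup Q, g⁻¹ * x * g ∈ Cfsg.Geo.quadSimilarityGroup Q) ↔
        ∃ a, psi (Q a) = 1 ∧ ∀ v,
          shift Q a ((x : Matrix (Fin d ⊕ Fin d) (Fin d ⊕ Fin d) F) *ᵥ v) = shift Q a v) := by
    intro x hx
    rw [← conj_into_iff hQ2]
    exact exists_congr fun g => and_congr_right fun hg =>
      hH _ (mul_mem (mul_mem (inv_mem hg) hx) hg)
  constructor
  · intro H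
    have key : ∀ x : GL (Fin d ⊕ Fin d) F, x ∈ polarGroup Q → x ^ r = 1 → x ≠ 1 →
        ∃ a, psi (Q a) = 1 ∧ ∀ v,
          shift Q a ((x : Matrix (Fin d ⊕ Fin d) (Fin d ⊕ Fin d) F) *ᵥ v) = shift Q a v := by
      intro x hx hxr hx1
      exact (hiff x hx).1 (H x hx ⟨1, by rw [hxr, Units.val_one, one_smul]⟩
        fun z hz => hx1 (hzone x hx z hz))
    by_contra hcon
    rcases hr.eq_two_or_odd' with hr2 | hodd
    · subst hr2
      have hnp : ¬ Cfsg.Geo.IsPlusTypeOn Q ⊤ := fun h => hcon ⟨rfl, Or.inl h⟩
      have hd2 : Even d := Nat.not_odd_iff_even.1 fun h => hcon ⟨rfl, Or.inr h⟩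
      obtain ⟨k, hk⟩ := hd2
      let τ : Fin k ⊕ Fin k ≃ Fin d := finSumFinEquiv.trans (finCongr hk.symm)
      let W : Matrix (Fin d) (Fin d) F := Matrix.reindex τ τ (Matrix.fromBlocks 0 1 0 0)
      have hMM : (W + W.transpose) * (W + W.transpose) = 1 := by
        have : W + W.transpose = Matrix.reindex τ τ (Matrix.fromBlocks 0 1 1 0) := by
          ext a b
          obtain ⟨a', rfl⟩ := τ.surjective a
          obtain ⟨b', rfl⟩ := τ.surjective b
          rcases a' with a' | a' <;> rcases b' with b' | b' <;>
            simp [W, Matrix.one_apply, eq_comm]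
        rw [this, Matrix.reindex_apply, Matrix.submatrix_mul_equiv]
        simp [Matrix.fromBlocks_multiply, Matrix.submatrix_one_equiv]
      set x := uGL (W + W.transpose) with hx
      have hiso := uGL_mem_iso h2 W
      have hxpol : x ∈ polarGroup Q := mem_polarGroup.2 fun u v => by
        rw [hQf, hQf, sympForm_eq h2, sympForm_eq h2, QuadraticMap.polar, QuadraticMap.polar,
          ← Matrix.mulVec_add, mem_iso.1 hiso, mem_iso.1 hiso, mem_iso.1 hiso]
      have hx2 : x ^ 2 = 1 := by
        rw [pow_two, hx, ← uGL_add, ← two_smul F (W + W.transpose), h2, zero_smul, uGL_zero]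
      have hsolve : ∀ z : Fin d → F, (x : Matrix (Fin d ⊕ Fin d) (Fin d ⊕ Fin d) F) *ᵥ
          Sum.elim 0 ((W + W.transpose) *ᵥ z) = Sum.elim z ((W + W.transpose) *ᵥ z) := by
        intro z
        rw [hx, uGL_mulVec, Sum.elim_comp_inl, Sum.elim_comp_inr, mulVec_mulVec, hMM, one_mulVec,
          zero_add]
      have hx1 : x ≠ 1 := by
        intro h
        have h' := hsolve (Pi.single ⟨0, by omega⟩ 1)
        rw [h, Units.val_one, one_mulVec] at h'
        have := congrFun h' (Sum.inl ⟨0, by omega⟩)
        simp at this
      obtain ⟨a, ha, hax⟩ := key x hxpol hx2 hx1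
      have hQ' := form2_shift hQ2 a
      let U : Submodule F (Fin d ⊕ Fin d → F) :=
        LinearMap.ker (LinearMap.funLeft F F (Sum.inr : Fin d → Fin d ⊕ Fin d))
      have hU : Cfsg.Geo.IsTotallySingularQuad (shift Q a) U := by
        intro w hw
        have hw' : w ∘ Sum.inr = 0 := LinearMap.mem_ker.1 hw
        set My := w ∘ Sum.inl with hMy
        have hw2 : w = Sum.elim My (0 : Fin d → F) := by rw [← hw']; exact (Sum.elim_comp_inl_inr w).symm
        have hsum : Sum.elim My ((W + W.transpose) *ᵥ My) =
            Sum.elim My (0 : Fin d → F) +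
              Sum.elim (0 : Fin d → F) ((W + W.transpose) *ᵥ My) := by
          funext i; rcases i with i | i <;> simp
        have h := hax (Sum.elim 0 ((W + W.transpose) *ᵥ My))
        rw [hsolve, hsum, hQ'.map_add, polar_shift hQ2, hQf, sympForm_eq h2, polar_plus,
          ← hw2] at h
        have hz : (w ∘ Sum.inl) ⬝ᵥ ((W + W.transpose) *ᵥ My) = 0 := by
          rw [add_mulVec, dotProduct_add, mulVec_transpose, dotProduct_comm _ (My ᵥ* W),
            ← dotProduct_mulVec, ← two_mul, h2, zero_mul]
        simp [hw', hz] at h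
        exact h
      have hUd : Module.finrank F U = d := by
        have h := LinearMap.finrank_range_add_finrank_ker
          (LinearMap.funLeft F F (Sum.inr : Fin d → Fin d ⊕ Fin d))
        rw [LinearMap.range_eq_top.2 (LinearMap.funLeft_surjective_of_injective F F _
          Sum.inr_injective), finrank_top, Module.finrank_fintype_fun_eq_card,
          Module.finrank_fintype_fun_eq_card, hdim, Fintype.card_fin] at h
        change Module.finrank F (LinearMap.ker _) = d
        omega
      have h := gsum_of_plus hQ' hdim hU hUd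
      rw [gsum_shift hQ2, ha, one_mul] at h
      exact hnp (hplus.2 h)
    · have hr0 : (Fintype.card F : ZMod r) ≠ 0 := by
        intro h0
        obtain ⟨n, -, hn2⟩ := FiniteField.card F 2
        rw [hn2] at h0
        push_cast at h0
        have h' : ((2 : ℕ) : ZMod r) = 0 := by exact_mod_cast eq_zero_of_pow_eq_zero h0
        rw [ZMod.natCast_eq_zero_iff] at h'
        obtain rfl := (Nat.prime_dvd_prime_iff_eq hr Nat.prime_two).1 h'
        exact absurd hodd (by decide)
      have hz := (ZMod.intCast_zmod_eq_zero_iff_dvd _ r).2 hrsum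
      -- a fixed point free element fixing a form `P` of the opposite sign
      suffices ∃ (P : (Fin d ⊕ Fin d → F) → F) (x : GL (Fin d ⊕ Fin d) F),
          (∀ u v, QuadraticMap.polar P u v = QuadraticMap.polar Q u v) ∧
          (∀ c v, P (c • v) = c ^ 2 * P v) ∧ gsum P ≠ gsum Q ∧
          x ∈ Cfsg.isometryGroup F P ∧ x ^ r = 1 ∧
          ∀ v, (x : Matrix (Fin d ⊕ Fin d) (Fin d ⊕ Fin d) F) *ᵥ v = v → v = 0 by
        obtain ⟨P, x, hPQ, hPs, hne, hxP, hxr, hfix⟩ := this
        have hxpol : x ∈ polarGroup Q := mem_polarGroup.2 fun u v => by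
          rw [← hPQ, ← hPQ, QuadraticMap.polar, QuadraticMap.polar, ← Matrix.mulVec_add,
            mem_iso.1 hxP, mem_iso.1 hxP, mem_iso.1 hxP]
        have hx1 : x ≠ 1 := by
          rintro rfl
          have := hfix (Pi.single (Sum.inl ⟨0, by omega⟩) 1) (by rw [Units.val_one, one_mulVec])
          simp at this
        obtain ⟨a, ha, hax⟩ := key x hxpol hxr hx1
        apply hne
        suffices P = shift Q a by rw [this, gsum_shift hQ2, ha, one_mul]
        -- the difference of the two fixed forms is the square of a fixed linear form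
        have hinj : Function.Injective fun v =>
            (x : Matrix (Fin d ⊕ Fin d) (Fin d ⊕ Fin d) F) *ᵥ v + v := by
          intro u v huv
          have h : (x : Matrix (Fin d ⊕ Fin d) (Fin d ⊕ Fin d) F) *ᵥ (u + v) = u + v := by
            funext i
            have := congrFun huv i
            simp only [Matrix.mulVec_add, Pi.add_apply] at this ⊢
            linear_combination this +
              (((x : Matrix (Fin d ⊕ Fin d) (Fin d ⊕ Fin d) F) *ᵥ v) i - u i) * h2
          funext i
          have := congrFun (hfix _ h) i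
          simp only [Pi.add_apply, Pi.zero_apply] at this
          linear_combination this - v i * h2
        funext w
        obtain ⟨v, rfl⟩ := Finite.surjective_of_injective hinj w
        set w' := (x : Matrix (Fin d ⊕ Fin d) (Fin d ⊕ Fin d) F) *ᵥ v
        have hS2 := form2_shift hQ2 a
        have h1 : shift Q a (w' + v) = shift Q a w' + shift Q a v + QuadraticMap.polar Q w' v := by
          rw [hS2.map_add, polar_shift hQ2]
        have h3 : P (w' + v) = P w' + P v + QuadraticMap.polar Q w' v := by
          rw [← hPQ, QuadraticMap.polar]; ring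
        show P (w' + v) = shift Q a (w' + v)
        rw [h1, h3, hax, show P w' = P v from mem_iso.1 hxP v]
        linear_combination (P v - shift Q a v) * h2
      have hqd : ∀ ε : ℤ, gsum Q = ε * (Fintype.card F : ℤ) ^ d →
          (Fintype.card F : ZMod r) ^ d = -(ε : ZMod r) := by
        intro ε hε
        rw [hε] at hz
        push_cast at hz
        rw [pow_mul', pow_two, ← add_mul] at hz
        exact eq_neg_of_add_eq_zero_left
          ((mul_eq_zero.1 hz).resolve_right (pow_ne_zero _ hr0))
      let U : Submodule F (Fin d ⊕ Fin d → F) :=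
        LinearMap.ker (LinearMap.funLeft F F (Sum.inr : Fin d → Fin d ⊕ Fin d))
      have hU : Cfsg.Geo.IsTotallySingularQuad (Cfsg.quadFormPlus d F) U := fun w hw => by
        rw [quadFormPlus_eq, show w ∘ Sum.inr = 0 from LinearMap.mem_ker.1 hw, dotProduct_zero]
      have hUd : Module.finrank F U = d := by
        have h := LinearMap.finrank_range_add_finrank_ker
          (LinearMap.funLeft F F (Sum.inr : Fin d → Fin d ⊕ Fin d))
        rw [LinearMap.range_eq_top.2 (LinearMap.funLeft_surjective_of_injective F F _
          Sum.inr_injective), finrank_top, Module.finrank_fintype_fun_eq_card,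
          Module.finrank_fintype_fun_eq_card, hdim, Fintype.card_fin] at h
        change Module.finrank F (LinearMap.ker _) = d
        omega
      have hplusum := gsum_of_plus hP hdim hU hUd
      have hqpos : (0 : ℤ) < (Fintype.card F : ℤ) ^ d :=
        pow_pos (by exact_mod_cast Fintype.card_pos) _
      rcases gsum_cases hQ2 hdim with hS | hS
      · -- minus type witness
        have hq1 : (Fintype.card F : ZMod r) ^ d = -1 := by
          have := hqd 1 (by rw [hS, one_mul]); simpa using this
        obtain ⟨n, rfl⟩ : ∃ n, d = n + 1 := ⟨d - 1, by omega⟩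
        obtain ⟨b, hb⟩ := exists_psi_ne_one (F := F)
        have hab : ∀ x y : F, x ^ 2 + 1 * x * y + b * y ^ 2 = 0 → x = 0 ∧ y = 0 := by
          intro x y h
          by_cases hy : y = 0
          · subst hy
            exact ⟨pow_eq_zero_iff two_ne_zero |>.1 (by linear_combination h), rfl⟩
          · exfalso
            have hmem : b ∈ (artinSchreierHom F).range := ⟨x / y, by
              show (x / y) ^ 2 + x / y = b
              field_simp
              linear_combination h - b * y ^ 2 * h2⟩
            rw [psi, if_pos hmem] at hb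
            exact absurd hb (by norm_num)
        obtain ⟨x, hxO, hxr, hfix⟩ := exists_omega_minus h2 hodd hr0 1 b hab hq1
        have hM := form2_minus h2 n 1 b hab
        let P : (Fin (n + 1) ⊕ Fin (n + 1) → F) → F := fun v =>
          Cfsg.quadFormMinus n F 1 b (v ∘ upIdx n)
        refine ⟨P, Cfsg.Geo.glReindex (upIdx n) x, ?_, ?_, ?_, ?_, ?_, ?_⟩
        · intro u v
          rw [hQf, sympForm_eq h2]
          show QuadraticMap.polar (Cfsg.quadFormMinus n F 1 b) (u ∘ upIdx n) (v ∘ upIdx n) = _
          rw [polar_minus h2, polar_plus, polar_plus]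
          simp only [dotProduct, Function.comp_apply, Fin.sum_univ_castSucc]
          simp [upIdx]
          ring
        · intro c v
          exact hM.smul c _
        · intro hSP
          have hPe : gsum P = gsum (Cfsg.quadFormMinus n F 1 b) :=
            Fintype.sum_equiv (Equiv.arrowCongr (upIdx n).symm (Equiv.refl F)) _ _ fun v => rfl
          have hPpol : ∀ u v, QuadraticMap.polar P u v = QuadraticMap.polar Q u v := by
            intro u v
            rw [hQf, sympForm_eq h2]
            show QuadraticMap.polar (Cfsg.quadFormMinus n F 1 b) (u ∘ upIdx n) (v ∘ upIdx n) = _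
            rw [polar_minus h2, polar_plus, polar_plus]
            simp only [dotProduct, Function.comp_apply, Fin.sum_univ_castSucc]
            simp [upIdx]
            ring
          have hP2 : Form2 P := ⟨h2, fun c v => hM.smul c _,
            (funext fun u => funext fun v => hPpol u v : QuadraticMap.polar P = _) ▸ hQ2.bil,
            fun u hu => hQ2.nondeg u fun v => (hPpol u v).symm.trans (hu v)⟩
          -- equal sums would give a totally singular subspace of half dimension
          obtain ⟨a, ha⟩ : ∃ a, ∀ v, P v = shift (Cfsg.quadFormPlus (n + 1) F) a v := by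
            have hpp : ∀ u v, QuadraticMap.polar P u v =
                QuadraticMap.polar (Cfsg.quadFormPlus (n + 1) F) u v := fun u v => by
              rw [hPpol, hQf, sympForm_eq h2]
            have hinj : ∀ x y : F, x ^ 2 = y ^ 2 → x = y := fun x y h =>
              (bijective_frobenius F 2).1 h
            choose s hs using (exists_sq_eq h2 : ∀ x : F, ∃ y, y ^ 2 = x)
            let ℓ : (Fin (n + 1) ⊕ Fin (n + 1) → F) →ₗ[F] F :=
              { toFun := fun v => s (P v - Cfsg.quadFormPlus (n + 1) F v)
                map_add' := fun u v => hinj _ _ (by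
                  rw [hs, CharTwo.add_sq, hs, hs, hP2.map_add, hP.map_add, hpp]; ring)
                map_smul' := fun c v => hinj _ _ (by
                  simp only [RingHom.id_apply, smul_eq_mul]
                  rw [hs, mul_pow, hs, hP2.smul, hP.smul]; ring) }
            have hflip : Function.Surjective hP.polarLin.flip := by
              refine (LinearMap.injective_iff_surjective_of_finrank_eq_finrank
                Subspace.dual_finrank_eq.symm).1 ?_
              rw [injective_iff_map_eq_zero]
              intro z hz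
              exact hP.hnd z fun w => LinearMap.congr_fun hz w
            obtain ⟨a, ha⟩ := hflip ℓ
            refine ⟨a, fun v => ?_⟩
            have h : QuadraticMap.polar (Cfsg.quadFormPlus (n + 1) F) v a =
                s (P v - Cfsg.quadFormPlus (n + 1) F v) := LinearMap.congr_fun ha v
            rw [shift, h, hs]; ring
          have hpa : psi (Cfsg.quadFormPlus (n + 1) F a) = 1 := by
            have h : gsum P = psi (Cfsg.quadFormPlus (n + 1) F a) *
                gsum (Cfsg.quadFormPlus (n + 1) F) := by rw [funext ha, gsum_shift hP]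
            rw [hSP, hS, hplusum] at h
            exact (mul_right_cancel₀ hqpos.ne' ((one_mul _).trans h)).symm
          obtain ⟨g, -, hgg, hgv⟩ := exists_to_shift hP hpa
          let e : (Fin (n + 1) ⊕ Fin (n + 1) → F) →ₗ[F] ((Fin n ⊕ Fin n) ⊕ Fin 2 → F) :=
            (LinearMap.funLeft F F (upIdx n)).comp
              (Matrix.mulVecLin (g : Matrix (Fin (n + 1) ⊕ Fin (n + 1)) (Fin (n + 1) ⊕ Fin (n + 1)) F))
          have he : Function.Injective e :=
            (LinearMap.funLeft_injective_of_surjective F F _ (upIdx n).surjective).comp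
              (glPerm g).injective
          have hTS : Cfsg.Geo.IsTotallySingularQuad (Cfsg.quadFormMinus n F 1 b) (U.map e) := by
            rintro _ ⟨w, hw, rfl⟩
            show P ((g : Matrix (Fin (n + 1) ⊕ Fin (n + 1)) (Fin (n + 1) ⊕ Fin (n + 1)) F) *ᵥ w) = 0
            rw [ha, ← hgv, mulVec_mulVec, ← Units.val_mul, hgg, Units.val_one, one_mulVec]
            exact hU w hw
          have hle := minus_finrank_le h2 n 1 b hab _ hTS
          rw [LinearEquiv.finrank_eq (Submodule.equivMapOfInjective e he U).symm, hUd] at hle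
          omega
        · refine mem_iso.2 fun v => ?_
          show Cfsg.quadFormMinus n F 1 b (_ ∘ upIdx n) = _
          rw [reindex_mulVec_comp, Function.comp_assoc, Equiv.symm_comp_self, Function.comp_id]
          exact mem_iso.1 (omegaGL_le hxO) _
        · rw [← map_pow, hxr, map_one]
        · intro v hv
          rw [reindex_mulVec_comp] at hv
          have hv' := congrArg (fun w => w ∘ upIdx n) hv
          simp only [Function.comp_assoc, Equiv.symm_comp_self, Function.comp_id] at hv'
          have := hfix _ hv'
          funext i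
          obtain ⟨j, rfl⟩ := (upIdx n).surjective i
          exact congrFun this j
      · have hq1 : (Fintype.card F : ZMod r) ^ d = 1 := by
          have := hqd (-1) (by rw [hS, neg_one_mul]); simpa using this
        obtain ⟨g, hg, hgfix⟩ := exists_fpf_gl hr0 (orderOf_dvd_of_pow_eq_one hq1)
        refine ⟨Cfsg.quadFormPlus d F, levi g, fun u v => by rw [hQf, sympForm_eq h2],
          hP.smul, ?_, (levi g).2, ?_, levi_eq_zero_of_fix g hgfix⟩
        · rw [hplusum, hS]; omega
        · have : levi g ^ r = 1 := by rw [← map_pow, hg, map_one]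
          simpa using congrArg Subtype.val this
  · rintro ⟨rfl, hcond⟩ x hx ⟨z, hz⟩ -
    have hx2 := hzone _ (pow_mem hx 2) z hz
    rw [pow_two] at hx2
    exact (hiff x hx).2 (involution_fixes hQ2 hdim (hcond.imp hplus.1 id) hx hx2)

end Cfsg.Agent.S5983
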