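import Cfsg.Statements.S5985
import Cfsg.Agent.Eq.Def_GeometricClasses
import Cfsg.Agent.Char2Forms.Points

set_option autoImplicit false
open scoped MatrixGroups
open Cfsg

namespace Cfsg.Agent.S5985

/-- Elements of prime order of Ω⁺_n(q), q even, with no fixed nonsingular 1-space. Here `T = PΩ⁺_n(F)`, `n = 2d ≥ 8`, realised through `Ω⁺_n(q)`, the commutator subgroup of the isometry group of `Q = Σ xᵢyᵢ` over the field `F` with `q` elements; an element of `T` of prime order `r` is an element `x` of `Ω⁺_n(q)` with `x^r` scalar and `x` not scalar; `q` is even (so the centre is trivial). Let Ω be the set of 1-dimensional subspaces spanned by a vector `v` with `Q(v) ≠ 0`, and let `r` be a prime dividing their number. Then every element of `T` of order `r` fixes some nonsingular 1-space if and only if `r = 2` and `n ≡ 2 (mod 4)` (that is, `d` is odd). -/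
theorem result {F : Type*} [Field F] [Fintype F] {p : ℕ} [Fact p.Prime] [CharP F p] {q : ℕ} (hq : Fintype.card F = q)
    (hp : p = 2) (d : ℕ) (hd : 4 ≤ d) (r : ℕ) [Fact r.Prime]
    (hrΩ : r ∣ Nat.card {W : Submodule F (Fin d ⊕ Fin d → F) // Module.finrank F ↥W = 1 ∧ ∃ v ∈ W, Cfsg.quadFormPlus d F v ≠ 0}) :
    (∀ x : GL (Fin d ⊕ Fin d) F, x ∈ Cfsg.Geo.omegaGL (Cfsg.quadFormPlus d F) →
      (∃ z : F, ((x ^ r : GL (Fin d ⊕ Fin d) F) : Matrix (Fin d ⊕ Fin d) (Fin d ⊕ Fin d) F) = z • (1 : Matrix (Fin d ⊕ Fin d) (Fin d ⊕ Fin d) F)) →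
      (∀ z : F, (x : Matrix (Fin d ⊕ Fin d) (Fin d ⊕ Fin d) F) ≠ z • (1 : Matrix (Fin d ⊕ Fin d) (Fin d ⊕ Fin d) F)) →
      ∃ W : Submodule F (Fin d ⊕ Fin d → F), (Module.finrank F ↥W = 1 ∧ ∃ v ∈ W, Cfsg.quadFormPlus d F v ≠ 0) ∧ W.map (Matrix.toLin' (x : Matrix (Fin d ⊕ Fin d) (Fin d ⊕ Fin d) F)) ≤ W) ↔ (r = 2 ∧ Odd d) := by
  classical
  have hr : r.Prime := Fact.out
  subst hq
  have h2 : (2 : F) = 0 := by exact_mod_cast (CharP.cast_eq_zero_iff F p 2).2 (by rw [hp])
  have hQ := CfsgLib.Char2Forms.form2_plus h2 (F := F) d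
  have hne : ∃ v, Cfsg.quadFormPlus d F v = 1 :=
    ⟨Sum.elim (Pi.single ⟨0, by omega⟩ 1) (Pi.single ⟨0, by omega⟩ 1), by
      rw [CfsgLib.Char2Forms.quadFormPlus_eq, Sum.elim_comp_inl, Sum.elim_comp_inr]; simp⟩
  rw [CfsgLib.Char2Forms.card_points hQ, CfsgLib.Char2Forms.card_one_plus h2 (by omega)] at hrΩ
  constructor
  · intro H
    by_contra hcon
    rcases hr.eq_two_or_odd' with rfl | hodd
    · -- d is even: a unipotent involution without fixed non-singular vector
      have hd2 : Even d := by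
        rcases Nat.even_or_odd d with h | h
        · exact h
        · exact absurd ⟨rfl, h⟩ hcon
      obtain ⟨k, hk⟩ := hd2
      let τ : Fin k ⊕ Fin k ≃ Fin d := finSumFinEquiv.trans (finCongr hk.symm)
      let W : Matrix (Fin d) (Fin d) F := Matrix.reindex τ τ (Matrix.fromBlocks 0 1 0 0)
      have hW : ∀ a, W a a = 0 := by
        intro a
        obtain ⟨a', rfl⟩ := τ.surjective a
        rcases a' with a' | a' <;> simp [W]
      have hMM : (W + W.transpose) * (W + W.transpose) = 1 := by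
        have : W + W.transpose = Matrix.reindex τ τ (Matrix.fromBlocks 0 1 1 0) := by
          ext a b
          obtain ⟨a', rfl⟩ := τ.surjective a
          obtain ⟨b', rfl⟩ := τ.surjective b
          rcases a' with a' | a' <;> rcases b' with b' | b' <;>
            simp [W, Matrix.one_apply, eq_comm]
        rw [this, Matrix.reindex_apply, Matrix.submatrix_mul_equiv]
        simp [Matrix.fromBlocks_multiply, Matrix.submatrix_one_equiv]
      have hmem := CfsgLib.Char2Forms.uGL_mem_omega h2 (by omega) W hW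
      have hsq : CfsgLib.Char2Forms.uGL (W + W.transpose) ^ 2 = 1 := by
        rw [pow_two, ← CfsgLib.Char2Forms.uGL_add, ← two_smul F (W + W.transpose), h2, zero_smul,
          CfsgLib.Char2Forms.uGL_zero]
      set x := CfsgLib.Char2Forms.uGL (W + W.transpose) with hx
      have hfix : ∀ v, Matrix.mulVec (x : Matrix (Fin d ⊕ Fin d) (Fin d ⊕ Fin d) F) v = v →
          Cfsg.quadFormPlus d F v = 0 := by
        intro v hv
        rw [hx, CfsgLib.Char2Forms.uGL_mulVec] at hv
        have h1 : Matrix.mulVec (W + W.transpose) (v ∘ Sum.inr) = 0 := by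
          simpa using congrArg (fun w => w ∘ Sum.inl) hv
        have h3 : v ∘ Sum.inr = 0 := by
          have := congrArg (Matrix.mulVec (W + W.transpose)) h1
          rwa [Matrix.mulVec_mulVec, hMM, Matrix.one_mulVec, Matrix.mulVec_zero] at this
        rw [CfsgLib.Char2Forms.quadFormPlus_eq, h3, dotProduct_zero]
      have hiso := CfsgLib.Char2Forms.omegaGL_le hmem
      have hns : ∀ z : F, (x : Matrix (Fin d ⊕ Fin d) (Fin d ⊕ Fin d) F) ≠ z • 1 := by
        intro z hz
        obtain ⟨v, hv⟩ := hne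
        have := hfix v (by rw [CfsgLib.Char2Forms.pow_eq_one_of_scalar hQ ⟨v, hv⟩ hiso hz]; simp)
        rw [hv] at this
        exact one_ne_zero this
      obtain ⟨U, hU, hs⟩ := H x hmem ⟨1, by rw [hsq]; simp⟩ hns
      obtain ⟨v, hv, hQv⟩ := CfsgLib.Char2Forms.fixed_of_stable hQ hiso hU hs
      exact hQv (hfix v hv)
    · have hr0 : (Fintype.card F : ZMod r) ≠ 0 := by
        intro h0
        obtain ⟨n, hn1, hn2⟩ := FiniteField.card F p
        rw [hn2, hp] at h0
        push_cast at h0
        have h' : ((2 : ℕ) : ZMod r) = 0 := by exact_mod_cast eq_zero_of_pow_eq_zero h0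
        rw [ZMod.natCast_eq_zero_iff] at h'
        rcases (Nat.dvd_prime Nat.prime_two).1 h' with h'' | h''
        · exact hr.one_lt.ne' h''
        · subst h''; exact absurd hodd (by decide)
      have hqd : (Fintype.card F : ZMod r) ^ d = 1 := by
        have := (ZMod.natCast_eq_zero_iff _ r).2 hrΩ
        rw [Nat.cast_mul, Nat.cast_pow, mul_eq_zero,
          Nat.cast_sub (Nat.one_le_pow _ _ Fintype.card_pos), Nat.cast_pow, Nat.cast_one] at this
        exact sub_eq_zero.1 (this.resolve_left (pow_ne_zero _ hr0))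
      obtain ⟨x, hx, hxr, hfix⟩ := CfsgLib.Char2Forms.exists_omega_plus h2 hodd hr0
        (orderOf_dvd_of_pow_eq_one hqd)
      exact CfsgLib.Char2Forms.not_forall_of_fpf hQ hne hx hxr hfix H
  · rintro ⟨rfl, hdodd⟩ x hx ⟨z, hz⟩ -
    have hiso := CfsgLib.Char2Forms.omegaGL_le hx
    have hx2 := CfsgLib.Char2Forms.pow_eq_one_of_scalar hQ hne (pow_mem hiso 2) hz
    rw [pow_two] at hx2
    obtain ⟨v, hv, hQv⟩ := CfsgLib.Char2Forms.exists_fixed_nonsingular hQ (by simp; omega) hdodd
      hiso hx2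
    exact CfsgLib.Char2Forms.stable_of_fixed hQ hv hQv

end Cfsg.Agent.S5985
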