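import Cfsg.Statements.S5986
import Cfsg.Agent.Eq.Def_GeometricClasses
import Cfsg.Agent.Char2Forms.Points

set_option autoImplicit false
open scoped MatrixGroups
open Cfsg

namespace Cfsg.Agent.S5986

/-- Elements of prime order of Ω⁻_n(q), q even, with no fixed nonsingular 1-space. Here `T = PΩ⁻_n(F)`, `n = 2d ≥ 8`, realised through `Ω⁻_n(q)`, the commutator subgroup of the isometry group of `Q = Σ_{i<d−1} xᵢyᵢ + z₁² + a z₁z₂ + b z₂²` with `z₁² + a z₁z₂ + b z₂²` anisotropic, over the field `F` with `q` elements; an element of `T` of prime order `r` is an element `x` of `Ω⁻_n(q)` with `x^r` scalar and `x` not scalar; `q` is even (so the centre is trivial). Let Ω be the set of 1-dimensional subspaces spanned by a vector `v` with `Q(v) ≠ 0`, and let `r` be a prime dividing their number. Then every element of `T` of order `r` fixes some nonsingular 1-space if and only if `r = 2`. -/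
theorem result {F : Type*} [Field F] [Fintype F] {p : ℕ} [Fact p.Prime] [CharP F p] {q : ℕ} (hq : Fintype.card F = q)
    (hp : p = 2) (d : ℕ) (hd : 4 ≤ d) (a b : F) (hab : ∀ x y : F, x ^ 2 + a * x * y + b * y ^ 2 = 0 → x = 0 ∧ y = 0) (r : ℕ) [Fact r.Prime]
    (hrΩ : r ∣ Nat.card {W : Submodule F ((Fin (d - 1) ⊕ Fin (d - 1)) ⊕ Fin 2 → F) // Module.finrank F ↥W = 1 ∧ ∃ v ∈ W, Cfsg.quadFormMinus (d - 1) F a b v ≠ 0}) :
    (∀ x : GL ((Fin (d - 1) ⊕ Fin (d - 1)) ⊕ Fin 2) F, x ∈ Cfsg.Geo.omegaGL (Cfsg.quadFormMinus (d - 1) F a b) →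
      (∃ z : F, ((x ^ r : GL ((Fin (d - 1) ⊕ Fin (d - 1)) ⊕ Fin 2) F) : Matrix ((Fin (d - 1) ⊕ Fin (d - 1)) ⊕ Fin 2) ((Fin (d - 1) ⊕ Fin (d - 1)) ⊕ Fin 2) F) = z • (1 : Matrix ((Fin (d - 1) ⊕ Fin (d - 1)) ⊕ Fin 2) ((Fin (d - 1) ⊕ Fin (d - 1)) ⊕ Fin 2) F)) →
      (∀ z : F, (x : Matrix ((Fin (d - 1) ⊕ Fin (d - 1)) ⊕ Fin 2) ((Fin (d - 1) ⊕ Fin (d - 1)) ⊕ Fin 2) F) ≠ z • (1 : Matrix ((Fin (d - 1) ⊕ Fin (d - 1)) ⊕ Fin 2) ((Fin (d - 1) ⊕ Fin (d - 1)) ⊕ Fin 2) F)) →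
      ∃ W : Submodule F ((Fin (d - 1) ⊕ Fin (d - 1)) ⊕ Fin 2 → F), (Module.finrank F ↥W = 1 ∧ ∃ v ∈ W, Cfsg.quadFormMinus (d - 1) F a b v ≠ 0) ∧ W.map (Matrix.toLin' (x : Matrix ((Fin (d - 1) ⊕ Fin (d - 1)) ⊕ Fin 2) ((Fin (d - 1) ⊕ Fin (d - 1)) ⊕ Fin 2) F)) ≤ W) ↔ r = 2 := by
  classical
  have hr : r.Prime := Fact.out
  subst hq
  have h2 : (2 : F) = 0 := by exact_mod_cast (CharP.cast_eq_zero_iff F p 2).2 (by rw [hp])
  obtain ⟨m, rfl⟩ : ∃ m, d = m + 1 := ⟨d - 1, by omega⟩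
  change ((∀ x : GL ((Fin m ⊕ Fin m) ⊕ Fin 2) F, _) ↔ _)
  change r ∣ Nat.card {W : Submodule F ((Fin m ⊕ Fin m) ⊕ Fin 2 → F) // Module.finrank F ↥W = 1 ∧
    ∃ v ∈ W, Cfsg.quadFormMinus m F a b v ≠ 0} at hrΩ
  have hQ := CfsgLib.Char2Forms.form2_minus h2 m a b hab
  have hne : ∃ v, Cfsg.quadFormMinus m F a b v = 1 :=
    ⟨Sum.elim 0 ![1, 0], by simp [Cfsg.quadFormMinus]⟩
  rw [CfsgLib.Char2Forms.card_points hQ, CfsgLib.Char2Forms.card_one_minus h2 m a b hab] at hrΩ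
  constructor
  · intro H
    by_contra hcon
    have hodd := hr.odd_of_ne_two hcon
    have hr0 : (Fintype.card F : ZMod r) ≠ 0 := by
      intro h0
      obtain ⟨n, hn1, hn2⟩ := FiniteField.card F p
      rw [hn2, hp] at h0
      push_cast at h0
      have h' : ((2 : ℕ) : ZMod r) = 0 := by exact_mod_cast eq_zero_of_pow_eq_zero h0
      rw [ZMod.natCast_eq_zero_iff] at h'
      exact hcon ((Nat.prime_dvd_prime_iff_eq hr Nat.prime_two).1 h')
    have hqd : (Fintype.card F : ZMod r) ^ (m + 1) = -1 := by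
      have := (ZMod.natCast_eq_zero_iff _ r).2 hrΩ
      push_cast at this
      exact eq_neg_of_add_eq_zero_left ((mul_eq_zero.1 this).resolve_left (pow_ne_zero _ hr0))
    obtain ⟨x, hx, hxr, hfix⟩ := CfsgLib.Char2Forms.exists_omega_minus h2 hodd hr0 a b hab hqd
    exact CfsgLib.Char2Forms.not_forall_of_fpf hQ hne hx hxr hfix H
  · rintro rfl x hx ⟨z, hz⟩ -
    have hiso := CfsgLib.Char2Forms.omegaGL_le hx
    have hx2 := CfsgLib.Char2Forms.pow_eq_one_of_scalar hQ hne (pow_mem hiso 2) hz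
    rw [pow_two] at hx2
    obtain ⟨v, hv, hQv⟩ : ∃ v, Matrix.mulVec (x : Matrix ((Fin m ⊕ Fin m) ⊕ Fin 2)
        ((Fin m ⊕ Fin m) ⊕ Fin 2) F) v = v ∧ Cfsg.quadFormMinus m F a b v ≠ 0 := by
      by_contra hno
      push_neg at hno
      have h1 := CfsgLib.Char2Forms.half_le_fixSpace h2 hx2
      have h3 := CfsgLib.Char2Forms.minus_finrank_le h2 m a b hab
        (CfsgLib.Char2Forms.fixSpace x)
        (fun w hw => hno w (CfsgLib.Char2Forms.mem_fixSpace.1 hw))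
      simp at h1
      omega
    exact CfsgLib.Char2Forms.stable_of_fixed hQ hv hQv

end Cfsg.Agent.S5986
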