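import Cfsg.Statements.S5987
import Cfsg.Agent.Classical.Semisimple.QuadTwoSub
import Cfsg.Agent.Classical.Semisimple.QuadSingularCount
import Cfsg.Agent.AschPrime.OrthPrime
-- import your own Cfsg.Agent.* helpers here

set_option autoImplicit false
open scoped MatrixGroups
open Cfsg

namespace Cfsg.Agent.S5987

open Module CfsgLib.Classical.Semisimple CfsgLib.Classical.Semisimple.QuadType CfsgLib.Classical.Semisimple.QuadIsometry CfsgLib.Classical.Semisimple.QuadBridge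

/-- Elements of prime order of PΩ⁻_n(q) with no fixed totally singular `m`-space. Here `T = PΩ⁻_n(F)`, `n = 2d ≥ 8`, realised through `Ω⁻_n(q)`, the commutator subgroup of the isometry group of `Q = Σ_{i<d−1} xᵢyᵢ + z₁² + a z₁z₂ + b z₂²` with `z₁² + a z₁z₂ + b z₂²` anisotropic, over the field `F` with `q` elements; an element of `T` of prime order `r` is an element `x` of `Ω⁻_n(q)` with `x^r` scalar and `x` not scalar. Let `1 ≤ m ≤ d − 1` and let `r` be a prime dividing the number of totally singular `m`-spaces (subspaces of dimension `m` on which `Q` vanishes); for `r ≠ p` let `i` be the multiplicative order of `q` modulo `r`, `c = i` for `i` even and `c = 2i` for `i` odd, and write `k = n mod c`, `ℓ = m mod i`, `n' = ⌊n/i⌋`, `m' = ⌊m/i⌋`, `t = (r−1)/i`. Then every element of `T` of order `r` fixes some totally singular `m`-space if and only if one of: (i) `r = 2 ≠ p` and (`n ≡ 0 (mod 4)`, or `m` is even, or `q ≢ 7 (mod 8)`); (ii)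 `r ≠ p` odd, `i` odd, `i ≤ m` and (`k = 0` or `k > 2ℓ`); (iii) `r ≠ p` odd, `i` even, `i ≤ m`, `n' − 2m' ≥ t`, and one of: (a) `i ≥ 2ℓ`, `k = 0`, `n/i` even and `n' − 2m' > t` (all four); (b) `k ≥ 2ℓ` and `n'` odd; (c) `k > 2ℓ` and `n'` even. -/
theorem result {F : Type*} [Field F] [Fintype F] {p : ℕ} [Fact p.Prime] [CharP F p] {q : ℕ} (hq : Fintype.card F = q)
    (d m : ℕ) (hd : 4 ≤ d) (hm : 1 ≤ m) (hmd : m + 1 ≤ d) (a b : F) (hab : ∀ x y : F, x ^ 2 + a * x * y + b * y ^ 2 = 0 → x = 0 ∧ y = 0)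
    (r : ℕ) [Fact r.Prime]
    (hrΩ : r ∣ Nat.card {W : Submodule F ((Fin (d - 1) ⊕ Fin (d - 1)) ⊕ Fin 2 → F) // Module.finrank F ↥W = m ∧ Cfsg.Geo.IsTotallySingularQuad (Cfsg.quadFormMinus (d - 1) F a b) W})
    (i c : ℕ) (hi : i = orderOf (q : ZMod r)) (hc : c = if Even i then i else 2 * i) :
    (∀ x : GL ((Fin (d - 1) ⊕ Fin (d - 1)) ⊕ Fin 2) F, x ∈ Cfsg.Geo.omegaGL (Cfsg.quadFormMinus (d - 1) F a b) →
      (∃ z : F, ((x ^ r : GL ((Fin (d - 1) ⊕ Fin (d - 1)) ⊕ Fin 2) F) : Matrix ((Fin (d - 1) ⊕ Fin (d - 1)) ⊕ Fin 2) ((Fin (d - 1) ⊕ Fin (d - 1)) ⊕ Fin 2) F) = z • (1 : Matrix ((Fin (d - 1) ⊕ Fin (d - 1)) ⊕ Fin 2) ((Fin (d - 1) ⊕ Fin (d - 1)) ⊕ Fin 2) F)) →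
      (∀ z : F, (x : Matrix ((Fin (d - 1) ⊕ Fin (d - 1)) ⊕ Fin 2) ((Fin (d - 1) ⊕ Fin (d - 1)) ⊕ Fin 2) F) ≠ z • (1 : Matrix ((Fin (d - 1) ⊕ Fin (d - 1)) ⊕ Fin 2) ((Fin (d - 1) ⊕ Fin (d - 1)) ⊕ Fin 2) F)) →
      ∃ W : Submodule F ((Fin (d - 1) ⊕ Fin (d - 1)) ⊕ Fin 2 → F), (Module.finrank F ↥W = m ∧ Cfsg.Geo.IsTotallySingularQuad (Cfsg.quadFormMinus (d - 1) F a b) W) ∧ W.map (Matrix.toLin' (x : Matrix ((Fin (d - 1) ⊕ Fin (d - 1)) ⊕ Fin 2) ((Fin (d - 1) ⊕ Fin (d - 1)) ⊕ Fin 2) F)) ≤ W) ↔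
    ((r = 2 ∧ p ≠ 2 ∧ (Even d ∨ Even m ∨ q % 8 ≠ 7)) ∨
     (r ≠ p ∧ 2 < r ∧ Odd i ∧ i ≤ m ∧ ((2 * d) % c = 0 ∨ 2 * (m % i) < (2 * d) % c)) ∨
     (r ≠ p ∧ 2 < r ∧ Even i ∧ i ≤ m ∧ (r - 1) / i + 2 * (m / i) ≤ (2 * d) / i ∧
       ((2 * (m % i) ≤ i ∧ (2 * d) % c = 0 ∧ Even ((2 * d) / i) ∧ (r - 1) / i + 2 * (m / i) < (2 * d) / i) ∨
        (2 * (m % i) ≤ (2 * d) % c ∧ Odd ((2 * d) / i)) ∨
        (2 * (m % i) < (2 * d) % c ∧ Even ((2 * d) / i))))) := by
  classical
  subst hq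
  have hr : r.Prime := Fact.out
  have hQ := CfsgLib.Classical.Orth.isNondegQF_quadFormMinus (F := F) (d - 1) a b hab
  have hcard : Fintype.card ((Fin (d - 1) ⊕ Fin (d - 1)) ⊕ Fin 2) = 2 * d := by simp; omega
  have hfr : Module.finrank F ((Fin (d - 1) ⊕ Fin (d - 1)) ⊕ Fin 2 → F) = 2 * d := by
    rw [Module.finrank_fintype_fun_eq_card, hcard]
  have hV : ¬ Plus (qf hQ) ⊤ := not_plus_quadFormMinus (d - 1) a b hab
  have hP : ∀ W : Submodule F ((Fin (d - 1) ⊕ Fin (d - 1)) ⊕ Fin 2 → F), (Module.finrank F ↥W = m ∧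
      Cfsg.Geo.IsTotallySingularQuad (Cfsg.quadFormMinus (d - 1) F a b) W) ↔ (Singular (qf hQ) W ∧ Module.finrank F ↥W = m) :=
    fun W => and_comm
  have hrp : r ≠ p := by
    rintro rfl
    simp only [hP] at hrΩ
    exact QuadSingularCount.not_dvd_card (nondeg_top hQ) (by rw [hfr]; omega) hrΩ
  rcases eq_or_ne r 2 with rfl | hr2
  · have h2 : (2 : F) ≠ 0 := by exact_mod_cast (cast_ne_zero_of_ne (F := F) hr hrp)
    have hodd : Fintype.card F % 2 = 1 := FiniteField.odd_card_of_char_ne_two (by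
      rw [ringChar.eq F p]; exact fun h => hrp h.symm)
    have hq7 : Fintype.card F % 8 = 7 ↔ ¬ IsSquare (-1 : F) ∧ IsSquare (2 : F) := by
      rw [FiniteField.isSquare_neg_one_iff, FiniteField.isSquare_two_iff]; omega
    simp only [lt_irrefl, false_and, and_false, or_false, true_and, ne_eq, Ne.symm hrp, not_false_iff]
    constructor
    · intro hfix
      by_contra hcon
      push Not at hcon
      obtain ⟨hde, hme, hq8⟩ := hcon
      obtain ⟨hns, hsq2⟩ := hq7.1 hq8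
      obtain ⟨x, hx, hxx⟩ := (QuadTwo.sq_neg_mem_iff hQ h2 hcard).2
        ⟨iff_of_false hV (fun h => hns (((QuadTwo.sq_neg_one_pow d).1 h).resolve_right hde)), hsq2.pow _⟩
      have hx2 : ((x ^ 2 : GL ((Fin (d - 1) ⊕ Fin (d - 1)) ⊕ Fin 2) F) : Matrix ((Fin (d - 1) ⊕ Fin (d - 1)) ⊕ Fin 2) ((Fin (d - 1) ⊕ Fin (d - 1)) ⊕ Fin 2) F) =
          (-1 : F) • (1 : Matrix ((Fin (d - 1) ⊕ Fin (d - 1)) ⊕ Fin 2) ((Fin (d - 1) ⊕ Fin (d - 1)) ⊕ Fin 2) F) := by
        refine Matrix.toLin'.injective (LinearMap.ext fun v => ?_)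
        rw [sq, Units.val_mul, Matrix.toLin'_mul, LinearMap.comp_apply, Matrix.toLin'_apply, Matrix.toLin'_apply,
          hxx, Matrix.toLin'_apply, Matrix.smul_mulVec, Matrix.one_mulVec, neg_one_smul]
      obtain ⟨W, ⟨hWd, -⟩, hWf⟩ := hfix x hx ⟨-1, hx2⟩ fun z hz => hns ⟨z, by
        obtain ⟨v, hv⟩ := exists_ne_zero hQ (by omega)
        have h1 := hxx v
        rw [hz, Matrix.smul_mulVec, Matrix.one_mulVec, Matrix.smul_mulVec, Matrix.one_mulVec, smul_smul,
          ← neg_one_smul F v] at h1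
        exact (smul_left_injective F (show v ≠ 0 from fun h => hv (by rw [h, CfsgLib.OrthGeo.q_zero hQ])) h1).symm⟩
      exact hme (hWd ▸ QuadTwo.even_of_sq_neg hns (fun v => hxx v) hWf)
    · intro hcond x hx hz hns
      rcases QuadTwo.sq_cases hQ (by omega) hx hz with hxx | hxx
      · obtain ⟨P, M, a', hPm, hMm, hPn, hMn, ho, hsup, hsum, hMd, hMp⟩ := QuadTwo.involution_type hQ h2 hx hxx
        rw [hcard] at hsum
        have hev : Even (Module.finrank F P) := by rw [Nat.even_iff]; omega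
        have hT := plus_sup _ hPn hMn ho hev (hMd ▸ even_two_mul a') rfl
        rw [hsup, iff_false_left hV] at hT
        have ha : 1 ≤ a' ∧ a' < d := by
          refine ⟨Nat.pos_of_ne_zero fun ha => hns 1 ?_, lt_of_le_of_ne (by omega) fun ha => hns (-1) ?_⟩
          · refine Matrix.toLin'.injective (LinearMap.ext fun v => ?_)
            have hv : v ∈ P := by
              rw [Submodule.finrank_eq_zero.1 (by omega : Module.finrank F M = 0), sup_bot_eq] at hsup
              rw [hsup]; trivial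
            rw [Matrix.toLin'_apply, (hPm v).1 hv, one_smul, Matrix.toLin'_one]; rfl
          · refine Matrix.toLin'.injective (LinearMap.ext fun v => ?_)
            have hv : v ∈ M := by
              rw [Submodule.finrank_eq_zero.1 (by omega : Module.finrank F P = 0), bot_sup_eq] at hsup
              rw [hsup]; trivial
            rw [Matrix.toLin'_apply, (hMm v).1 hv, Matrix.toLin'_apply, neg_one_smul, Matrix.neg_mulVec, Matrix.one_mulVec]
        by_cases hpl : Plus (qf hQ) M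
        · obtain ⟨W, hWd, hWs, hWf⟩ := QuadTwo.exists_singular_of_split hQ hPn hMn ho hPm hMm
            (j := m - min m a') (k := min m a')
            ⟨by omega, fun h => absurd h (by omega)⟩ ⟨by omega, fun _ => hpl⟩
          exact ⟨W, ⟨by omega, hWs⟩, hWf⟩
        · have hPp : Plus (qf hQ) P := by tauto
          obtain ⟨W, hWd, hWs, hWf⟩ := QuadTwo.exists_singular_of_split hQ hPn hMn ho hPm hMm
            (j := min m (d - a')) (k := m - min m (d - a'))
            ⟨by omega, fun _ => hPp⟩ ⟨by omega, fun h => absurd h (by omega)⟩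
          exact ⟨W, ⟨by omega, hWs⟩, hWf⟩
      · have hxi := CfsgLib.OrthGeo.omegaGL_le hx
        have hf : ∀ v, Cfsg.quadFormMinus (d - 1) F a b (Matrix.toLin' (x : Matrix ((Fin (d - 1) ⊕ Fin (d - 1)) ⊕ Fin 2) ((Fin (d - 1) ⊕ Fin (d - 1)) ⊕ Fin 2) F) v) = Cfsg.quadFormMinus (d - 1) F a b v :=
          fun v => CfsgLib.OrthGeo.mem_isometryGroup.1 hxi v
        obtain ⟨h1, h3⟩ := (QuadTwo.sq_neg_mem_iff hQ h2 hcard).1 ⟨x, hx, hxx⟩
        have h4 : ¬ IsSquare (-1 : F) ∧ ¬ Even d := not_or.1 fun h => hV (h1.2 ((QuadTwo.sq_neg_one_pow d).2 h))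
        have h5 : IsSquare (2 : F) := ((QuadTwo.sq_two_pow d).1 h3).resolve_right h4.2
        obtain ⟨s, hs⟩ := ((hcond.resolve_left h4.2).resolve_right (not_not.2 (hq7.2 ⟨h4.1, h5⟩)))
        obtain ⟨W, -, hWd, hWs, hWf⟩ := QuadTwo.exists_singular_even hQ h2 h4.1 hf (fun v => hxx v) s
          (nondeg_top hQ) le_top (by rw [finrank_top, hfr]; omega)
        exact ⟨W, ⟨by omega, hWs⟩, hWf⟩
  have hrF : (r : F) ≠ 0 := cast_ne_zero_of_ne hr hrp
  simp only [hP] at hrΩ ⊢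
  obtain ⟨L, -, hLs, hLd⟩ := (QuadType.exists_singular_iff _ (nondeg_top hQ) rfl m).2
    ⟨by rw [finrank_top, hfr]; omega, fun h => absurd h (by rw [finrank_top, hfr]; omega)⟩
  have hi' : ordq F r = i := hi.symm
  have hidvd : i ∣ r - 1 := by
    rw [hi]
    refine orderOf_dvd_of_pow_eq_one (ZMod.pow_card_sub_one_eq_one fun h0 => ?_)
    have h1 : 0 < ordq F r := orderOf_card_pos hrF
    rw [ordq, h0, orderOf_zero] at h1
    exact lt_irrefl 0 h1
  rw [forall_scalar_iff hQ (by omega) hr2 hrF ⟨L, hLs, hLd⟩,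
    singular_iff (nondeg_top hQ) hr2 hrF (t := (r - 1) / i) (by rw [hi']; exact Nat.div_mul_cancel hidvd)
      (by rw [hfr]; omega) (fun h => absurd h (by rw [hfr]; omega)) hrΩ, hfr]
  have hc' : pieceDim F r = c := by rw [hc, pieceDim, hi']
  have h2r : 2 < r := lt_of_le_of_ne hr.two_le (Ne.symm hr2)
  simp only [maxPieces, PieceSign, hi', hc', hr2, ne_eq, hrp, not_false_iff, h2r, hV, false_iff, true_and, false_and,
    false_or]
  rcases Nat.even_or_odd i with hev | hod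
  · obtain rfl : c = i := by rw [hc, if_pos hev]
    simp only [hev, Nat.not_odd_iff_even.2 hev, true_and, false_and, false_or]
    have hcpos : 0 < c := by rw [← hi']; exact orderOf_card_pos hrF
    have hN1 : 2 * d % c = 0 → 0 < 2 * d / c := fun h =>
      Nat.div_pos (Nat.le_of_dvd (by omega) (Nat.dvd_of_mod_eq_zero h)) hcpos
    by_cases hk : (2 * d) % c = 0 <;> by_cases hN : Even ((2 * d) / c)
    all_goals simp only [hk, hN, Nat.not_odd_iff_even.2, Nat.odd_iff.symm, ← Nat.not_even_iff_odd, not_true, not_false_iff,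
      if_true, if_false, and_true, true_and, false_and, and_false, or_false, false_or, lt_irrefl, not_lt_zero, implies_true,
      imp_false]
    all_goals omega
  · simp only [hod, Nat.not_even_iff_odd.2 hod, true_or, and_true, true_and, false_and, or_false, not_true, and_false,
      false_or, not_false_iff, imp_false]
    have hci : c = 2 * i := by rw [hc, if_neg (Nat.not_even_iff_odd.2 hod)]
    have hipos : 0 < i := by rw [← hi']; exact orderOf_card_pos hrF
    have := Nat.mod_lt m hipos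
    omega

end Cfsg.Agent.S5987

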