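import Cfsg.Statements.S5990
import Cfsg.Agent.Classical.Semisimple.QuadTwoMain
import Cfsg.Agent.Classical.Semisimple.QuadCriteriaMismatch
import Cfsg.Agent.Classical.Semisimple.QuadUnipotentMain
import Cfsg.Agent.Classical.Semisimple.QuadCharTwoMain
-- import your own Cfsg.Agent.* helpers here

set_option autoImplicit false
open scoped MatrixGroups
open Cfsg

namespace Cfsg.Agent.S5990

open Module CfsgLib.Classical.Semisimple CfsgLib.Classical.Semisimple.QuadType CfsgLib.Classical.Semisimple.QuadIsometry CfsgLib.Classical.Semisimple.QuadBridge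

/-- Elements of prime order of PΩ⁻_n(q) with no fixed elliptic `m`-space. Here `T = PΩ⁻_n(F)`, `n = 2d ≥ 8`, realised through `Ω⁻_n(q)`, the commutator subgroup of the isometry group of `Q = Σ_{i<d−1} xᵢyᵢ + z₁² + a z₁z₂ + b z₂²` with `z₁² + a z₁z₂ + b z₂²` anisotropic, over the field `F` with `q` elements; an element of `T` of prime order `r` is an element `x` of `Ω⁻_n(q)` with `x^r` scalar and `x` not scalar; a nondegenerate `m`-space (even `m`) is a subspace on which the polar form of `Q` is nondegenerate; it is hyperbolic if it contains an `m/2`-dimensional subspace on which `Q` vanishes, elliptic otherwise. Let `m` be even with `2 ≤ m ≤ n − 2` (no restriction `m < n/2`: fixing an elliptic `m`-space is the same as fixing its hyperbolic orthogonal complement) and let `r` be a prime dividing the number of elliptic `m`-spaces, with `r = 2` or `r ≠ p`; for `r ≠ p` let `i` be the multiplicative order of `q` modulo `r`, `c = i` for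 `i` even and `c = 2i` for `i` odd, and write `k = n mod c`, `ℓ = m mod i`, `ℓ' = m mod c`, `n' = ⌊n/i⌋`, `m' = ⌊m/i⌋`, `t = (r−1)/i`. Then every element of `T` of order `r` fixes some elliptic `m`-space if and only if one of: (i) `r = p = 2` and (`n ≡ 0 (mod 4)` or `m ≡ 2 (mod 4)`); (ii) `r = 2 ≠ p` and (`n ≡ 0 (mod 4)`, or `q ≢ 7 (mod 8)`, or `m ≡ 2 (mod 4)`); (iii) `r ≠ p` odd, `i` odd, and `k = 0` or (`c ≤ m` and `k ≥ ℓ' > 0`); (iv) `r ≠ p` odd, `i` even, and either `k = 0` and (`n/i` even, or `ℓ' = 0` and `m/i` odd), or `k > 0`, `i ≤ m` and (`k > ℓ' > 0`, or `ℓ' = 0` and `m/i` odd, or `k = ℓ'` and `(n + m − 2k)/i` even). (Odd `r = p` is not covered by this statement.) -/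
theorem result {F : Type*} [Field F] [Fintype F] {p : ℕ} [Fact p.Prime] [CharP F p] {q : ℕ} (hq : Fintype.card F = q)
    (d m : ℕ) (hd : 4 ≤ d) (hm : 2 ≤ m) (hme : Even m) (hmn : m + 2 ≤ 2 * d) (a b : F) (hab : ∀ x y : F, x ^ 2 + a * x * y + b * y ^ 2 = 0 → x = 0 ∧ y = 0)
    (r : ℕ) [Fact r.Prime] (hr : r = 2 ∨ r ≠ p)
    (hrΩ : r ∣ Nat.card {W : Submodule F ((Fin (d - 1) ⊕ Fin (d - 1)) ⊕ Fin 2 → F) // Module.finrank F ↥W = m ∧ Cfsg.Geo.IsNondegenerateOn (QuadraticMap.polar (Cfsg.quadFormMinus (d - 1) F a b)) W ∧ ¬ Cfsg.Geo.IsPlusTypeOn (Cfsg.quadFormMinus (d - 1) F a b) W})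
    (i c : ℕ) (hi : i = orderOf (q : ZMod r)) (hc : c = if Even i then i else 2 * i) :
    (∀ x : GL ((Fin (d - 1) ⊕ Fin (d - 1)) ⊕ Fin 2) F, x ∈ Cfsg.Geo.omegaGL (Cfsg.quadFormMinus (d - 1) F a b) →
      (∃ z : F, ((x ^ r : GL ((Fin (d - 1) ⊕ Fin (d - 1)) ⊕ Fin 2) F) : Matrix ((Fin (d - 1) ⊕ Fin (d - 1)) ⊕ Fin 2) ((Fin (d - 1) ⊕ Fin (d - 1)) ⊕ Fin 2) F) = z • (1 : Matrix ((Fin (d - 1) ⊕ Fin (d - 1)) ⊕ Fin 2) ((Fin (d - 1) ⊕ Fin (d - 1)) ⊕ Fin 2) F)) →
      (∀ z : F, (x : Matrix ((Fin (d - 1) ⊕ Fin (d - 1)) ⊕ Fin 2) ((Fin (d - 1) ⊕ Fin (d - 1)) ⊕ Fin 2) F) ≠ z • (1 : Matrix ((Fin (d - 1) ⊕ Fin (d - 1)) ⊕ Fin 2) ((Fin (d - 1) ⊕ Fin (d - 1)) ⊕ Fin 2) F)) →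
      ∃ W : Submodule F ((Fin (d - 1) ⊕ Fin (d - 1)) ⊕ Fin 2 → F), (Module.finrank F ↥W = m ∧ Cfsg.Geo.IsNondegenerateOn (QuadraticMap.polar (Cfsg.quadFormMinus (d - 1) F a b)) W ∧ ¬ Cfsg.Geo.IsPlusTypeOn (Cfsg.quadFormMinus (d - 1) F a b) W) ∧ W.map (Matrix.toLin' (x : Matrix ((Fin (d - 1) ⊕ Fin (d - 1)) ⊕ Fin 2) ((Fin (d - 1) ⊕ Fin (d - 1)) ⊕ Fin 2) F)) ≤ W) ↔
    ((r = 2 ∧ p = 2 ∧ (Even d ∨ m % 4 = 2)) ∨
     (r = 2 ∧ p ≠ 2 ∧ (Even d ∨ q % 8 ≠ 7 ∨ m % 4 = 2)) ∨
     (r ≠ p ∧ 2 < r ∧ Odd i ∧ ((2 * d) % c = 0 ∨ (c ≤ m ∧ 0 < m % c ∧ m % c ≤ (2 * d) % c))) ∨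
     (r ≠ p ∧ 2 < r ∧ Even i ∧
       (((2 * d) % c = 0 ∧ (Even ((2 * d) / i) ∨ (m % c = 0 ∧ Odd (m / i)))) ∨
        (0 < (2 * d) % c ∧ i ≤ m ∧ ((0 < m % c ∧ m % c < (2 * d) % c) ∨ (m % c = 0 ∧ Odd (m / i)) ∨
                                    (m % c = (2 * d) % c ∧ Even ((2 * d + m - 2 * ((2 * d) % c)) / i))))))) := by
  classical
  subst hq
  have hr' : r.Prime := Fact.out
  have hQ := CfsgLib.Classical.Orth.isNondegQF_quadFormMinus (F := F) (d - 1) a b hab
  have hcard : Fintype.card ((Fin (d - 1) ⊕ Fin (d - 1)) ⊕ Fin 2) = 2 * d := by simp; omega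
  have hfr : Module.finrank F ((Fin (d - 1) ⊕ Fin (d - 1)) ⊕ Fin 2 → F) = 2 * d := by
    rw [Module.finrank_fintype_fun_eq_card, hcard]
  have hV : ¬ Plus (qf hQ) ⊤ := not_plus_quadFormMinus (d - 1) a b hab
  have hP : ∀ W : Submodule F ((Fin (d - 1) ⊕ Fin (d - 1)) ⊕ Fin 2 → F), (Module.finrank F ↥W = m ∧
      Cfsg.Geo.IsNondegenerateOn (QuadraticMap.polar (Cfsg.quadFormMinus (d - 1) F a b)) W ∧ ¬ Cfsg.Geo.IsPlusTypeOn (Cfsg.quadFormMinus (d - 1) F a b) W) ↔ (Module.finrank F ↥W = m ∧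
      Cfsg.Geo.IsNondegenerateOn (QuadraticMap.polar (Cfsg.quadFormMinus (d - 1) F a b)) W ∧ (Cfsg.Geo.IsPlusTypeOn (Cfsg.quadFormMinus (d - 1) F a b) W ↔ False)) :=
    fun W => by simp only [iff_false]
  simp only [hP] at hrΩ ⊢
  obtain ⟨h, hh⟩ := hme
  rcases eq_or_ne r 2 with rfl | hr2
  · obtain rfl : m = 2 * h := by omega
    by_cases hp2 : p = 2
    · subst hp2
      have hb : Plus (qf hQ) ⊤ ↔ False := iff_of_false hV id
      have h0 := QuadCharTwo.two_type_iff hQ (by exact_mod_cast CharP.cast_eq_zero F 2) hcard hd (h := h) (by omega) (by omega)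
      simp only [hb] at h0
      rw [h0]
      have h1 := FiniteField.even_card_of_char_two (F := F) (ringChar.eq F 2)
      simp only [lt_irrefl, false_and, and_false, or_false, false_or, true_and, ne_eq, not_true, not_false_iff, Nat.even_iff, Nat.odd_iff]
      omega
    ·
      have h1 := FiniteField.odd_card_of_char_ne_two (F := F) (by rw [ringChar.eq F p]; exact hp2)
      have hq1 : Fintype.card F % 8 = 1 ↔ IsSquare (-1 : F) ∧ IsSquare (2 : F) := by
        rw [FiniteField.isSquare_neg_one_iff, FiniteField.isSquare_two_iff]; omega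
      have hq7 : Fintype.card F % 8 = 7 ↔ ¬ IsSquare (-1 : F) ∧ IsSquare (2 : F) := by
        rw [FiniteField.isSquare_neg_one_iff, FiniteField.isSquare_two_iff]; omega
      have hq4 : Fintype.card F % 4 = 1 ↔ IsSquare (-1 : F) := by
        rw [FiniteField.isSquare_neg_one_iff]; omega
      have hq3 : Fintype.card F % 4 = 3 ↔ ¬ IsSquare (-1 : F) := by
        rw [FiniteField.isSquare_neg_one_iff]; omega
      rw [QuadTwo.two_nondeg_iff hQ (QuadUnipotent.two_ne_zero_of_ne hp2) hcard (by omega) (by omega)]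
      have hm4 : 2 * h % 4 = 0 ↔ Even h := by rw [Nat.even_iff]; omega
      have hm2 : 2 * h % 4 = 2 ↔ ¬ Even h := by rw [Nat.even_iff]; omega
      have hd2 : 2 * d % 4 = 2 ↔ ¬ Even d := by rw [Nat.even_iff]; omega
      simp only [lt_irrefl, false_and, and_false, or_false, false_or, true_and, ne_eq, hp2, not_false_iff, hq1, hq3, hq4, hq7, hm4, hm2, hd2,
        hV, true_iff, false_iff, QuadTwo.sq_neg_one_pow, QuadTwo.sq_two_pow, ← Nat.not_even_iff_odd]
      tauto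
  have hrp : r ≠ p := hr.resolve_left hr2
  have hrF : (r : F) ≠ 0 := cast_ne_zero_of_ne hr' hrp
  obtain ⟨R, hR, hRd, hRp, hclass⟩ := exists_class hQ (⟨h, hh⟩ : Even m) (by omega) False (fun h => absurd h (by omega))
  simp only [hclass] at hrΩ ⊢
  have hev : Even (Module.finrank F ((Fin (d - 1) ⊕ Fin (d - 1)) ⊕ Fin 2 → F)) := by rw [hfr]; exact even_two_mul d
  have hmis := pieceDim_le_of_mismatch (nondeg_top hQ) hr2 hrF hR hRd hrΩ
  rw [forall_scalar_iff hQ (by omega) hr2 hrF ⟨R, AreIso.refl R⟩,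
    nondeg_iff (nondeg_top hQ) hr2 hrF hR hRd (by rw [hfr]; omega) (Or.inl hev) hrΩ, hfr]
  rw [hfr] at hmis
  have hi' : ordq F r = i := hi.symm
  have hc' : pieceDim F r = c := by rw [hc, pieceDim, hi']
  have h2r : 2 < r := lt_of_le_of_ne hr'.two_le (Ne.symm hr2)
  have hR' : ¬ Plus (qf hQ) R := hRp.1
  simp only [PieceSign, hi', hc', hV, true_iff, false_iff] at hmis
  simp only [PieceSign, hi', hc', hr2, ne_eq, hrp, not_false_iff, h2r, hV, hR', hev, true_iff, false_iff, true_and, false_and,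
    and_false, false_or, hfr ▸ hev]
  rcases Nat.even_or_odd i with hiev | hod
  · obtain rfl : c = i := by rw [hc, if_pos hiev]
    have hcpos : 0 < c := by rw [← hi']; exact orderOf_card_pos hrF
    have hdm := Nat.mod_add_div m c
    have hdn := Nat.mod_add_div (2 * d) c
    have hsum : m % c = 2 * d % c → (2 * d + m - 2 * (2 * d % c)) / c = 2 * d / c + m / c := fun hlk => by
      rw [show 2 * d + m - 2 * (2 * d % c) = c * (2 * d / c + m / c) by rw [mul_add]; omega]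
      exact Nat.mul_div_cancel_left _ hcpos
    have hle : m % c = 0 → c ≤ m := fun h0 => Nat.le_of_dvd (by omega) (Nat.dvd_of_mod_eq_zero h0)
    simp only [hiev, Nat.not_odd_iff_even.2 hiev, false_or] at hmis
    simp only [hiev, Nat.not_odd_iff_even.2 hiev, true_and, false_and, false_or]
    by_cases hlk : m % c = 2 * d % c
    · rw [hsum hlk]
      simp only [Nat.even_iff, Nat.odd_iff] at hmis ⊢
      omega
    · simp only [hlk, Ne.symm hlk, false_and, and_false, or_false, false_or, Nat.even_iff, Nat.odd_iff] at hmis ⊢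
      omega
  · simp only [hod, Nat.not_even_iff_odd.2 hod, true_or, not_true, not_false_iff, forall_const] at hmis
    simp only [hod, Nat.not_even_iff_odd.2 hod, true_or, not_true, not_false_iff, false_or, true_and, false_and,
      and_false, or_false, and_true, iff_true, true_iff, iff_false, false_iff, not_not]
    omega

end Cfsg.Agent.S5990

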