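import Cfsg.Statements.S5991
import Cfsg.Agent.Classical.Semisimple.QuadTwoMain
import Cfsg.Agent.Classical.Semisimple.QuadCriteriaMismatch
import Cfsg.Agent.Classical.Semisimple.QuadUnipotentMain
-- import your own Cfsg.Agent.* helpers here

set_option autoImplicit false
open scoped MatrixGroups
open Cfsg

namespace Cfsg.Agent.S5991

open Module CfsgLib.Classical.Semisimple CfsgLib.Classical.Semisimple.QuadType CfsgLib.Classical.Semisimple.QuadIsometry CfsgLib.Classical.Semisimple.QuadBridge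

/-- Elements of prime order of PΩ⁻_n(q), q odd, with no fixed nondegenerate `m`-space of odd dimension. Here `T = PΩ⁻_n(F)`, `n = 2d ≥ 8`, realised through `Ω⁻_n(q)`, the commutator subgroup of the isometry group of `Q = Σ_{i<d−1} xᵢyᵢ + z₁² + a z₁z₂ + b z₂²` with `z₁² + a z₁z₂ + b z₂²` anisotropic, over the field `F` with `q` elements; an element of `T` of prime order `r` is an element `x` of `Ω⁻_n(q)` with `x^r` scalar and `x` not scalar; `q` and `m` are odd, `1 ≤ m < n/2`. The nondegenerate `m`-spaces fall into two isometry classes, each an orbit of `T`, with equivalent actions; fix one such space `W₀` and let Ω be the set of nondegenerate `m`-spaces isometric to `W₀`. Let `r` be a prime dividing the size of Ω; for `r ≠ p` let `i` be the multiplicative order of `q` modulo `r`, `c = i` for `i` even and `c = 2i` for `i` odd, and write `k = n mod c`, `ℓ = m mod i`, `ℓ' = m mod c`, `n'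 = ⌊n/i⌋`, `m' = ⌊m/i⌋`, `t = (r−1)/i`. Then every element of `T` of order `r` fixes a member of Ω if and only if one of: (i) `r = 2` and (`n ≡ 0 (mod 4)` or `q ≢ 7 (mod 8)`); (ii) `r ≠ p` odd, `i` odd, and `k = 0` or (`c ≤ m` and `k > ℓ' > 0`); (iii) `r ≠ p` odd, `i` even, and either `k = 0` and `n/i` even, or `k > 0`, `i ≤ m` and `k > ℓ' > 0`. (For `r = p` there is always an element of order `p` fixing no member of Ω.) -/
theorem result {F : Type*} [Field F] [Fintype F] {p : ℕ} [Fact p.Prime] [CharP F p] {q : ℕ} (hq : Fintype.card F = q)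
    (hodd : Odd q) (d m : ℕ) (hd : 4 ≤ d) (hm : Odd m) (hmd : m < d) (a b : F) (hab : ∀ x y : F, x ^ 2 + a * x * y + b * y ^ 2 = 0 → x = 0 ∧ y = 0)
    (W₀ : Submodule F ((Fin (d - 1) ⊕ Fin (d - 1)) ⊕ Fin 2 → F)) (hW₀ : Module.finrank F ↥W₀ = m ∧ Cfsg.Geo.IsNondegenerateOn (QuadraticMap.polar (Cfsg.quadFormMinus (d - 1) F a b)) W₀)
    (r : ℕ) [Fact r.Prime]
    (hrΩ : r ∣ Nat.card {W : Submodule F ((Fin (d - 1) ⊕ Fin (d - 1)) ⊕ Fin 2 → F) // Module.finrank F ↥W = m ∧ Cfsg.Geo.IsNondegenerateOn (QuadraticMap.polar (Cfsg.quadFormMinus (d - 1) F a b)) W ∧ Cfsg.Geo.AreIsometricFor (Cfsg.quadFormMinus (d - 1) F a b) W W₀})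
    (i c : ℕ) (hi : i = orderOf (q : ZMod r)) (hc : c = if Even i then i else 2 * i) :
    (∀ x : GL ((Fin (d - 1) ⊕ Fin (d - 1)) ⊕ Fin 2) F, x ∈ Cfsg.Geo.omegaGL (Cfsg.quadFormMinus (d - 1) F a b) →
      (∃ z : F, ((x ^ r : GL ((Fin (d - 1) ⊕ Fin (d - 1)) ⊕ Fin 2) F) : Matrix ((Fin (d - 1) ⊕ Fin (d - 1)) ⊕ Fin 2) ((Fin (d - 1) ⊕ Fin (d - 1)) ⊕ Fin 2) F) = z • (1 : Matrix ((Fin (d - 1) ⊕ Fin (d - 1)) ⊕ Fin 2) ((Fin (d - 1) ⊕ Fin (d - 1)) ⊕ Fin 2) F)) →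
      (∀ z : F, (x : Matrix ((Fin (d - 1) ⊕ Fin (d - 1)) ⊕ Fin 2) ((Fin (d - 1) ⊕ Fin (d - 1)) ⊕ Fin 2) F) ≠ z • (1 : Matrix ((Fin (d - 1) ⊕ Fin (d - 1)) ⊕ Fin 2) ((Fin (d - 1) ⊕ Fin (d - 1)) ⊕ Fin 2) F)) →
      ∃ W : Submodule F ((Fin (d - 1) ⊕ Fin (d - 1)) ⊕ Fin 2 → F), (Module.finrank F ↥W = m ∧ Cfsg.Geo.IsNondegenerateOn (QuadraticMap.polar (Cfsg.quadFormMinus (d - 1) F a b)) W ∧ Cfsg.Geo.AreIsometricFor (Cfsg.quadFormMinus (d - 1) F a b) W W₀) ∧ W.map (Matrix.toLin' (x : Matrix ((Fin (d - 1) ⊕ Fin (d - 1)) ⊕ Fin 2) ((Fin (d - 1) ⊕ Fin (d - 1)) ⊕ Fin 2) F)) ≤ W) ↔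
    ((r = 2 ∧ (Even d ∨ q % 8 ≠ 7)) ∨
     (r ≠ p ∧ 2 < r ∧ Odd i ∧ ((2 * d) % c = 0 ∨ (c ≤ m ∧ 0 < m % c ∧ m % c < (2 * d) % c))) ∨
     (r ≠ p ∧ 2 < r ∧ Even i ∧ (((2 * d) % c = 0 ∧ Even ((2 * d) / i)) ∨ (0 < (2 * d) % c ∧ i ≤ m ∧ 0 < m % c ∧ m % c < (2 * d) % c)))) := by
  classical
  subst hq
  have hr : r.Prime := Fact.out
  have hQ := CfsgLib.Classical.Orth.isNondegQF_quadFormMinus (F := F) (d - 1) a b hab
  have hcard : Fintype.card ((Fin (d - 1) ⊕ Fin (d - 1)) ⊕ Fin 2) = 2 * d := by simp; omega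
  have hfr : Module.finrank F ((Fin (d - 1) ⊕ Fin (d - 1)) ⊕ Fin 2 → F) = 2 * d := by
    rw [Module.finrank_fintype_fun_eq_card, hcard]
  have hV : ¬ Plus (qf hQ) ⊤ := not_plus_quadFormMinus (d - 1) a b hab
  have hR : NondegIn (qf hQ) W₀ := (nondegenerateOn_iff hQ W₀).1 hW₀.2
  have hP : ∀ W : Submodule F ((Fin (d - 1) ⊕ Fin (d - 1)) ⊕ Fin 2 → F), (Module.finrank F ↥W = m ∧
      Cfsg.Geo.IsNondegenerateOn (QuadraticMap.polar (Cfsg.quadFormMinus (d - 1) F a b)) W ∧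
      Cfsg.Geo.AreIsometricFor (Cfsg.quadFormMinus (d - 1) F a b) W W₀) ↔ AreIso (qf hQ) W₀ (qf hQ) W := fun W =>
    ⟨fun h => AreIso.symm h.2.2, fun h => ⟨h.finrank_eq.symm.trans hW₀.1, (nondegenerateOn_iff hQ W).2 (h.nondeg hR), h.symm⟩⟩
  simp only [hP] at hrΩ ⊢
  have hp2 : p ≠ 2 := fun h => by
    subst h
    have h1 := FiniteField.even_card_of_char_two (F := F) (ringChar.eq F 2)
    obtain ⟨k, hk⟩ := hodd
    omega
  have h2 : (2 : F) ≠ 0 := QuadUnipotent.two_ne_zero_of_ne hp2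
  obtain ⟨h, hh⟩ := hm
  rcases eq_or_ne r 2 with rfl | hr2
  · have h1 := FiniteField.odd_card_of_char_ne_two (F := F) (by rw [ringChar.eq F p]; exact hp2)
    have hq1 : Fintype.card F % 8 = 7 ↔ ¬ IsSquare (-1 : F) ∧ IsSquare (2 : F) := by
      rw [FiniteField.isSquare_neg_one_iff, FiniteField.isSquare_two_iff]; omega
    rw [QuadTwo.two_odd_iff hQ h2 hcard hR (h := h) (by rw [hW₀.1]; omega) (by omega)]
    simp only [lt_irrefl, false_and, and_false, or_false, true_and, ne_eq, hq1, hV, false_iff,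
      QuadTwo.sq_neg_one_pow, QuadTwo.sq_two_pow, ← Nat.not_even_iff_odd]
    tauto
  by_cases hrp : r = p
  · subst hrp
    refine iff_of_false (fun hfix => ?_) (by rintro (⟨h, -⟩ | ⟨h, -⟩ | ⟨h, -⟩) <;> [exact hr2 h; exact h rfl; exact h rfl])
    obtain ⟨x, hx, hz, hns, hder⟩ := QuadUnipotent.exists_odd_derangement hQ hp2 hcard hd hR
      (by rw [hW₀.1]; exact ⟨h, hh⟩) (by rw [hW₀.1]; omega)
    obtain ⟨W, hW, hWx⟩ := hfix x hx hz hns
    exact hder W hW hWx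
  have hrF : (r : F) ≠ 0 := cast_ne_zero_of_ne hr hrp
  have hev : Even (Module.finrank F ((Fin (d - 1) ⊕ Fin (d - 1)) ⊕ Fin 2 → F)) := by rw [hfr]; exact even_two_mul d
  have hmis := pieceDim_le_of_mismatch (nondeg_top hQ) hr2 hrF hR hW₀.1 hrΩ
  rw [forall_scalar_iff hQ (by omega) hr2 hrF ⟨W₀, AreIso.refl W₀⟩,
    nondeg_iff (nondeg_top hQ) hr2 hrF hR hW₀.1 (by rw [hfr]; omega) (Or.inl hev) hrΩ, hfr]
  rw [hfr] at hmis
  have hi' : ordq F r = i := hi.symm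
  have hc' : pieceDim F r = c := by rw [hc, pieceDim, hi']
  have h2r : 2 < r := lt_of_le_of_ne hr.two_le (Ne.symm hr2)
  have hcev : Even c := hc' ▸ even_pieceDim F r
  have hdvd2 : 2 ∣ c := even_iff_two_dvd.1 hcev
  have hm1 : m % c % 2 = 1 := by rw [Nat.mod_mod_of_dvd _ hdvd2]; omega
  have hk1 : 2 * d % c % 2 = 0 := by rw [Nat.mod_mod_of_dvd _ hdvd2]; omega
  simp only [PieceSign, hi', hc', hV, false_iff] at hmis
  simp only [PieceSign, hi', hc', hr2, ne_eq, hrp, not_false_iff, h2r, hV, false_iff, true_and, false_and,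
    false_or]
  rcases Nat.even_or_odd i with hev | hod
  · obtain rfl : c = i := by rw [hc, if_pos hev]
    simp only [hev, Nat.not_odd_iff_even.2 hev, false_or, not_not] at hmis
    simp only [hev, Nat.not_odd_iff_even.2 hev, true_and, false_and, false_or, not_not]
    constructor
    · rintro ⟨hcm, ⟨h0, hmm | ⟨hl, -⟩⟩ | ⟨hk, ⟨hl, hlk⟩ | ⟨hl, -⟩ | ⟨hl, -⟩⟩⟩
      · exact Or.inl ⟨h0, hmm⟩
      · omega
      · exact Or.inr ⟨hk, hcm, hl, hlk⟩
      · omega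
      · omega
    · rintro (⟨h0, hmm⟩ | ⟨hk, hcm, hl, hlk⟩)
      · exact ⟨hmis h0 hmm, Or.inl ⟨h0, Or.inl hmm⟩⟩
      · exact ⟨hcm, Or.inr ⟨hk, Or.inl ⟨hl, hlk⟩⟩⟩
  · simp only [hod, true_or, not_true, not_false_iff, forall_const, not_not] at hmis
    simp only [hod, Nat.not_even_iff_odd.2 hod, true_or, not_true, not_not, true_or, not_false_iff, true_and, false_and,
      or_false, and_true]
    constructor
    · rintro ⟨hcm, h0 | ⟨hk, ⟨hl, hlk⟩ | ⟨hl, -⟩ | ⟨hl, -⟩⟩⟩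
      · exact Or.inl h0
      · exact Or.inr ⟨hcm, hl, hlk⟩
      · omega
      · omega
    · rintro (h0 | ⟨hcm, hl, hlk⟩)
      · exact ⟨hmis h0, Or.inl h0⟩
      · exact ⟨hcm, Or.inr ⟨by omega, Or.inl ⟨hl, hlk⟩⟩⟩

end Cfsg.Agent.S5991

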