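import Cfsg.Statements.S5992
import Cfsg.Agent.Classical.Semisimple.QuadBridge
import Cfsg.Agent.Classical.Semisimple.QuadInvolution
import Cfsg.Agent.AschPrime.OrthPrime
-- import your own Cfsg.Agent.* helpers here

set_option autoImplicit false
open scoped MatrixGroups
open Cfsg

namespace Cfsg.Agent.S5992

open Module CfsgLib.Classical.Semisimple CfsgLib.Classical.Semisimple.QuadType CfsgLib.Classical.Semisimple.QuadIsometry CfsgLib.Classical.Semisimple.QuadBridge

/-- Elements of prime order r ≠ p of Ω_n(q), nq odd, with no fixed hyperbolic `m`-space. Here `T = Ω_n(F)`, `n = 2d+1 ≥ 7`, `q` odd, realised as the commutator subgroup of the isometry group of `Q = x₀² + Σ xᵢyᵢ` over the field `F` with `q` elements (trivial centre, so its elements of prime order `r` are used directly); a nondegenerate `m`-space (even `m`) is a subspace on which the polar form of `Q` is nondegenerate; it is hyperbolic if it contains an `m/2`-dimensional subspace on which `Q` vanishes,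 elliptic otherwise. Let `m` be even with `2 ≤ m ≤ n − 1` (no restriction `m < n/2`) and let `r ≠ p` be a prime dividing the number of hyperbolic `m`-spaces; for `r ≠ p` let `i` be the multiplicative order of `q` modulo `r`, `c = i` for `i` even and `c = 2i` for `i` odd, and write `k = n mod c`, `ℓ' = m mod c`. Then every element of `T` of order `r` fixes some hyperbolic `m`-space if and only if `r = 2`, or `r` is odd and one of: (i) `i` odd, `c ≤ m` and either `k > ℓ' > 0` or `ℓ' = 0`; (ii) `i` even, `i ≤ m`, `k > ℓ'`, and `m/i` even whenever `ℓ' = 0`. (`r = p` is not covered by this statement.) -/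
theorem result {F : Type*} [Field F] [Fintype F] {p : ℕ} [Fact p.Prime] [CharP F p] {q : ℕ} (hq : Fintype.card F = q) (hqodd : Odd q)
    (d m : ℕ) (hd : 3 ≤ d) (hm : 2 ≤ m) (hme : Even m) (hmn : m ≤ 2 * d)
    (r : ℕ) [Fact r.Prime] (hrp : r ≠ p)
    (hrΩ : r ∣ Nat.card {W : Submodule F (Unit ⊕ (Fin d ⊕ Fin d) → F) // Module.finrank F ↥W = m ∧ Cfsg.Geo.IsNondegenerateOn (QuadraticMap.polar (Cfsg.quadFormOdd d F)) W ∧ Cfsg.Geo.IsPlusTypeOn (Cfsg.quadFormOdd d F) W})
    (i c : ℕ) (hi : i = orderOf (q : ZMod r)) (hc : c = if Even i then i else 2 * i) :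
    (∀ x : GL (Unit ⊕ (Fin d ⊕ Fin d)) F, x ∈ Cfsg.Geo.omegaGL (Cfsg.quadFormOdd d F) → orderOf x = r →
      ∃ W : Submodule F (Unit ⊕ (Fin d ⊕ Fin d) → F), (Module.finrank F ↥W = m ∧ Cfsg.Geo.IsNondegenerateOn (QuadraticMap.polar (Cfsg.quadFormOdd d F)) W ∧ Cfsg.Geo.IsPlusTypeOn (Cfsg.quadFormOdd d F) W) ∧ W.map (Matrix.toLin' (x : Matrix (Unit ⊕ (Fin d ⊕ Fin d)) (Unit ⊕ (Fin d ⊕ Fin d)) F)) ≤ W) ↔
    (r = 2 ∨
     (2 < r ∧ Odd i ∧ c ≤ m ∧ (m % c = 0 ∨ (0 < m % c ∧ m % c < (2 * d + 1) % c))) ∨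
     (2 < r ∧ Even i ∧ i ≤ m ∧ m % c < (2 * d + 1) % c ∧ (0 < m % c ∨ Even (m / i)))) := by
  classical
  subst hq
  have hr : r.Prime := Fact.out
  have h2 : (2 : F) ≠ 0 := CfsgLib.AschPrime.two_ne_zero_of_odd_card hqodd
  have hQ := CfsgLib.OrthGeo.isNondegenerateQuadraticForm_quadFormOdd (F := F) d h2
  have hcard : Fintype.card (Unit ⊕ (Fin d ⊕ Fin d)) = 2 * d + 1 := by simp; omega
  have hfr : Module.finrank F (Unit ⊕ (Fin d ⊕ Fin d) → F) = 2 * d + 1 := by
    rw [Module.finrank_fintype_fun_eq_card, hcard]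
  rcases eq_or_ne r 2 with rfl | hr2
  · refine iff_of_true (fun x hx hxo => ?_) (Or.inl rfl)
    obtain ⟨h, rfl⟩ := hme
    have hxi := CfsgLib.OrthGeo.omegaGL_le hx
    have hxx : x ^ 2 = 1 := by rw [← hxo, pow_orderOf_eq_one]
    obtain ⟨W, hWf, hW, hWd, hWp⟩ := QuadInvolution.exists_fixed_sub (nondeg_top hQ) h2
      (by rw [hfr]; exact odd_two_mul_add_one d) (f := Matrix.toLin' (x : Matrix _ _ F))
      (fun v => by rw [qf_apply, qf_apply, Matrix.toLin'_apply]; exact CfsgLib.OrthGeo.mem_isometryGroup.1 hxi v)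
      (by rw [← sq, CfsgLib.Classical.Semisimple.toLin'_pow, ← Units.val_pow_eq_pow_val, hxx, Units.val_one, Matrix.toLin'_one]; rfl)
      (h := h) (by omega) (by rw [hfr]; omega) True
    exact ⟨W, ⟨by omega, (nondegenerateOn_iff hQ W).2 hW, hWp.2 trivial⟩, hWf⟩
  have hrF : (r : F) ≠ 0 := cast_ne_zero_of_ne hr hrp
  obtain ⟨R, hR, hRd, hRp, hclass⟩ := exists_class hQ hme (by omega) True (fun _ => trivial)
  simp only [iff_true] at hclass
  have hP : ∀ W : Submodule F (Unit ⊕ (Fin d ⊕ Fin d) → F), (Module.finrank F ↥W = m ∧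
      Cfsg.Geo.IsNondegenerateOn (QuadraticMap.polar (Cfsg.quadFormOdd d F)) W ∧
      Cfsg.Geo.IsPlusTypeOn (Cfsg.quadFormOdd d F) W) ↔ AreIso (qf hQ) R (qf hQ) W := hclass
  simp only [hP] at hrΩ ⊢
  rw [forall_order_iff hQ (by omega) hr2 hrF ⟨R, AreIso.refl R⟩,
    nondeg_iff (nondeg_top hQ) hr2 hrF hR hRd (by omega) (Or.inr hme) hrΩ, hfr]
  have hR' : Plus (qf hQ) R := hRp.2 trivial
  have hnev : ¬ Even (2 * d + 1) := Nat.not_even_iff_odd.2 (odd_two_mul_add_one d)
  have hce : Even (pieceDim F r) := even_pieceDim F r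
  have hk : 0 < (2 * d + 1) % pieceDim F r := Nat.pos_of_ne_zero fun h => hnev
    (even_iff_two_dvd.2 (hce.two_dvd.trans (Nat.dvd_of_mod_eq_zero h)))
  have h2r : 2 < r := lt_of_le_of_ne hr.two_le (Ne.symm hr2)
  have hi' : ordq F r = i := hi.symm
  have hc' : pieceDim F r = c := by rw [hc, pieceDim, hi']
  have hkc : (2 * d + 1) % c ≠ 0 := by rw [← hc']; omega
  have hk0 := Nat.pos_of_ne_zero hkc
  simp only [PieceSign, hi', hc', hR', hnev, hr2, h2r, hkc, hk0, true_and, false_and, and_false, false_or, or_false,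
    true_iff]
  rcases Nat.even_or_odd i with hev | hod
  · obtain rfl : c = i := by rw [hc, if_pos hev]
    simp only [hev, Nat.not_odd_iff_even.2 hev, false_and, true_and, false_or]
    rcases Nat.eq_zero_or_pos (m % c) with h0 | h0
    · simp [h0, hk0]
    · simp [h0, h0.ne']
  · simp only [hod, Nat.not_even_iff_odd.2 hod, false_and, true_and, or_false, true_or, and_true]
    tauto

end Cfsg.Agent.S5992

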