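import Cfsg.Statements.S5994
import Cfsg.Agent.Eq.Def_Classical
import Cfsg.Agent.Eq.Def_ClassicalGeometry
import Cfsg.Agent.Eq.Def_GeometricClasses
import Cfsg.Agent.Classical.Orth.Forms
import Cfsg.Agent.OrthGeo.QuadOdd
import Cfsg.Agent.Jordan.UnipotentElusiveMain


set_option autoImplicit false
open scoped MatrixGroups
open Cfsg

namespace Cfsg.Agent.S5994
open CfsgLib.Jordan CfsgLib.Jordan.UnipotentElusive

/-- A necessary condition for every element of order p of PΩ⁻_n(q), q odd, to fix an elliptic `m`-space. Here `T = PΩ⁻_n(F)`, `n = 2d ≥ 8`, realised through `Ω⁻_n(q)`, the commutator subgroup of the isometry group of `Q = Σ_{i<d−1} xᵢyᵢ + z₁² + a z₁z₂ + b z₂²` with `z₁² + a z₁z₂ + b z₂²` anisotropic, over the field `F` with `q` elements; an element of `T` of prime order `r` is an element `x` of `Ω⁻_n(q)` with `x^r` scalar and `x` not scalar; `q` is odd; a nondegenerate `m`-space (even `m`) is a subspace on which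 the polar form of `Q` is nondegenerate; it is hyperbolic if it contains an `m/2`-dimensional subspace on which `Q` vanishes, elliptic otherwise. Let `m` be even with `2 ≤ m ≤ n − 2` and suppose `p` divides the number of elliptic `m`-spaces. If every element of `T` of order `p` fixes some elliptic `m`-space, then `n ≡ m (mod 4)` and every partition of `n` into parts of size at most `p` in which every even part has even multiplicity contains (as a sub-multiset) a partition of `m` in which every even part has even multiplicity. -/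
theorem result {F : Type*} [Field F] [Fintype F] {p : ℕ} [Fact p.Prime] [CharP F p] {q : ℕ} (hq : Fintype.card F = q) (hqodd : Odd q)
    (d m : ℕ) (hd : 4 ≤ d) (hm : 2 ≤ m) (hme : Even m) (hmn : m + 2 ≤ 2 * d) (a b : F) (hab : ∀ x y : F, x ^ 2 + a * x * y + b * y ^ 2 = 0 → x = 0 ∧ y = 0)
    (hpΩ : p ∣ Nat.card {W : Submodule F ((Fin (d - 1) ⊕ Fin (d - 1)) ⊕ Fin 2 → F) // Module.finrank F ↥W = m ∧ Cfsg.Geo.IsNondegenerateOn (QuadraticMap.polar (Cfsg.quadFormMinus (d - 1) F a b)) W ∧ ¬ Cfsg.Geo.IsPlusTypeOn (Cfsg.quadFormMinus (d - 1) F a b) W}) :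
    (∀ x : GL ((Fin (d - 1) ⊕ Fin (d - 1)) ⊕ Fin 2) F, x ∈ Cfsg.Geo.omegaGL (Cfsg.quadFormMinus (d - 1) F a b) →
      (∃ z : F, ((x ^ p : GL ((Fin (d - 1) ⊕ Fin (d - 1)) ⊕ Fin 2) F) : Matrix ((Fin (d - 1) ⊕ Fin (d - 1)) ⊕ Fin 2) ((Fin (d - 1) ⊕ Fin (d - 1)) ⊕ Fin 2) F) = z • (1 : Matrix ((Fin (d - 1) ⊕ Fin (d - 1)) ⊕ Fin 2) ((Fin (d - 1) ⊕ Fin (d - 1)) ⊕ Fin 2) F)) →
      (∀ z : F, (x : Matrix ((Fin (d - 1) ⊕ Fin (d - 1)) ⊕ Fin 2) ((Fin (d - 1) ⊕ Fin (d - 1)) ⊕ Fin 2) F) ≠ z • (1 : Matrix ((Fin (d - 1) ⊕ Fin (d - 1)) ⊕ Fin 2) ((Fin (d - 1) ⊕ Fin (d - 1)) ⊕ Fin 2) F)) →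
      ∃ W : Submodule F ((Fin (d - 1) ⊕ Fin (d - 1)) ⊕ Fin 2 → F), (Module.finrank F ↥W = m ∧ Cfsg.Geo.IsNondegenerateOn (QuadraticMap.polar (Cfsg.quadFormMinus (d - 1) F a b)) W ∧ ¬ Cfsg.Geo.IsPlusTypeOn (Cfsg.quadFormMinus (d - 1) F a b) W) ∧ W.map (Matrix.toLin' (x : Matrix ((Fin (d - 1) ⊕ Fin (d - 1)) ⊕ Fin 2) ((Fin (d - 1) ⊕ Fin (d - 1)) ⊕ Fin 2) F)) ≤ W) →
    ((2 * d) % 4 = m % 4 ∧ (∀ μ : Multiset ℕ, (∀ e ∈ μ, 0 < e ∧ e ≤ p) → (∀ e : ℕ, Even e → Even (μ.count e)) → μ.sum = 2 * d →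
        ∃ ν : Multiset ℕ, ν ≤ μ ∧ ν.sum = m ∧ ∀ e : ℕ, Even e → Even (ν.count e))) := by
  classical
  intro hfix
  have hp2 : p ≠ 2 := by
    rintro rfl
    have h0 := FiniteField.even_card_of_char_two (F := F) (ringChar.eq F 2)
    rw [hq, Nat.odd_iff.1 hqodd] at h0
    exact one_ne_zero h0
  have hpo : Odd p := (Fact.out : p.Prime).odd_of_ne_two hp2
  have h2 : (2 : F) ≠ 0 := fun h => hp2 (((Nat.prime_two).eq_one_or_self_of_dvd p
    ((CharP.cast_eq_zero_iff F p 2).1 (by simpa using h))).resolve_left (Fact.out : p.Prime).ne_one)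
  have hQ := CfsgLib.Classical.Orth.isNondegQF_quadFormMinus (F := F) (d - 1) a b hab
  have hcard : Fintype.card ((Fin (d - 1) ⊕ Fin (d - 1)) ⊕ Fin 2) = 2 * d := by simp; omega
  have main : ∀ μ : Multiset ℕ, (∀ e ∈ μ, 0 < e ∧ e ≤ p) → (∀ e : ℕ, Even e → Even (μ.count e)) →
      (∃ e ∈ μ, Odd e) → (∃ e ∈ μ, 1 < e) → μ.sum = 2 * d →
      ∃ ν : Multiset ℕ, ν ≤ μ ∧ ν.sum = m ∧ (∀ e : ℕ, Even e → Even (ν.count e)) ∧ ¬ ∀ e ∈ ν, Even e := by
    intro μ hle hev hodd hbig hsum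
    obtain ⟨u, hu, hμ⟩ := UnipotentFixed.exists_of_odd_part h2 _ (CfsgLib.OrthGeo.b_symm hQ) (ker_bform hQ)
      (fun e he => (hle e he).1) hev hodd (hsum.trans hcard.symm)
    obtain ⟨x, hx, -, hxz, hxne, hxu⟩ := exists_element hQ hp2 (by omega) (fun e he => (hle e he).2) hbig hu hμ
    obtain ⟨W, ⟨hWm, hWn, hWp⟩, hW⟩ := hfix x hx hxz hxne
    obtain ⟨ν, hν, hs, he, hplus⟩ := fixed_type hQ h2 hxu hu hμ hWn hW
    exact ⟨ν, hν, hs.trans hWm, he, fun h => hWp (hplus h)⟩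
  refine ⟨?_, fun μ hle hev hsum => ?_⟩
  · -- the congruence
    obtain ⟨α, β, hα, hβ, hαp, hβp, hαβ, hmod⟩ : ∃ α β : ℕ, Odd α ∧ Odd β ∧ α ≤ p ∧ β ≤ p ∧ α + β ≤ 4 ∧
        (α + β) % 4 = (2 * d) % 4 := by
      have h3 : 3 ≤ p := by obtain ⟨k, hk⟩ := hpo; have := (Fact.out : p.Prime).two_le; omega
      rcases Nat.even_or_odd d with ⟨k, hk⟩ | ⟨k, hk⟩
      · exact ⟨3, 1, by decide, by decide, h3, by omega, le_rfl, by omega⟩
      · exact ⟨1, 1, by decide, by decide, by omega, by omega, by omega, by omega⟩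
    obtain ⟨j, hj⟩ : ∃ j, 2 * d = α + β + 4 * j := ⟨(2 * d - (α + β)) / 4, by omega⟩
    obtain ⟨ν, hν, hs, he, hne⟩ := main (α ::ₘ β ::ₘ Multiset.replicate (2 * j) 2)
      (fun e h => by
        rcases Multiset.mem_cons.1 h with rfl | h
        · exact ⟨hα.pos, hαp⟩
        rcases Multiset.mem_cons.1 h with rfl | h
        · exact ⟨hβ.pos, hβp⟩
        rw [Multiset.eq_of_mem_replicate h]
        exact ⟨two_pos, (Fact.out : p.Prime).two_le⟩)
      (fun e h => by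
        rw [even_count_cons_cons hα hβ h, Multiset.count_replicate]
        split_ifs
        · exact even_two_mul j
        · exact ⟨0, rfl⟩)
      ⟨α, Multiset.mem_cons_self _ _, hα⟩
      ⟨2, Multiset.mem_cons_of_mem (Multiset.mem_cons_of_mem (Multiset.mem_replicate.2 ⟨by omega, rfl⟩)), one_lt_two⟩
      (by simp; omega)
    have hR : ∀ e ∈ Multiset.replicate (2 * j) 2, Even e := fun e h => by
      rw [Multiset.eq_of_mem_replicate h]; exact even_two
    rcases pair_split hα hβ hR hν (hs ▸ hme) with h | ⟨T, hT, rfl⟩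
    · exact absurd (fun e h' => hR e (Multiset.mem_of_le h h')) hne
    have h2T := he 2 even_two
    rw [even_count_cons_cons hα hβ even_two] at h2T
    have hT2 : T = Multiset.replicate (Multiset.card T) 2 :=
      Multiset.eq_replicate_card.2 fun e h => Multiset.eq_of_mem_replicate (Multiset.mem_of_le hT h)
    rw [hT2, Multiset.count_replicate_self] at h2T
    rw [hT2, Multiset.sum_cons, Multiset.sum_cons, Multiset.sum_replicate, smul_eq_mul] at hs
    obtain ⟨i, hi⟩ := h2T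
    omega
  by_cases hbig : ∃ e ∈ μ, 1 < e
  swap
  · exact of_all_ones (fun e he => (hle e he).1) hbig (by omega)
  by_cases hodd : ∃ e ∈ μ, Odd e
  · obtain ⟨ν, h1, h3, h4, -⟩ := main μ hle hev hodd hbig hsum
    exact ⟨ν, h1, h3, h4⟩
  push Not at hodd
  simp only [Nat.not_odd_iff_even] at hodd
  obtain ⟨α, β, e, R, rfl, hee, hα, hβ, hsum', hα1, hle'⟩ := exists_perturbed hpo hle hev hodd
    (by rintro rfl; simp at hbig)
  have hR : ∀ x ∈ R, Even x := fun x hx => hodd x (Multiset.mem_cons_of_mem (Multiset.mem_cons_of_mem hx))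
  obtain ⟨ν, hν, hs, he, -⟩ := main (α ::ₘ β ::ₘ R) hle' (fun x hx => by
      have := hev x hx
      rw [even_count_cons_cons hα hβ hx]
      rcases eq_or_ne x e with rfl | hxe
      · rw [Multiset.count_cons_self, Multiset.count_cons_self] at this
        obtain ⟨c, hc⟩ := this
        exact ⟨c - 1, by omega⟩
      · rwa [Multiset.count_cons_of_ne hxe, Multiset.count_cons_of_ne hxe] at this)
    ⟨α, Multiset.mem_cons_self _ _, hα⟩ ⟨α, Multiset.mem_cons_self _ _, hα1⟩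
    (by simp only [Multiset.sum_cons] at hsum ⊢; omega)
  rcases pair_split hα hβ hR hν (hs ▸ hme) with h | ⟨T, hT, rfl⟩
  · exact ⟨ν, h.trans ((Multiset.le_cons_self _ _).trans (Multiset.le_cons_self _ _)), hs, he⟩
  refine ⟨e ::ₘ e ::ₘ T, Multiset.cons_le_cons _ (Multiset.cons_le_cons _ hT),
    by simp only [Multiset.sum_cons] at hs ⊢; omega, fun x hx => ?_⟩
  have := he x hx
  rw [even_count_cons_cons hα hβ hx] at this
  rcases eq_or_ne x e with rfl | hxe
  · rw [Multiset.count_cons_self, Multiset.count_cons_self]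
    obtain ⟨c, hc⟩ := this
    exact ⟨c + 1, by omega⟩
  · rwa [Multiset.count_cons_of_ne hxe, Multiset.count_cons_of_ne hxe]

end Cfsg.Agent.S5994
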