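import Cfsg.Statements.S5995
import Cfsg.Agent.Eq.Def_Classical
import Cfsg.Agent.Eq.Def_ClassicalGeometry
import Cfsg.Agent.Eq.Def_GeometricClasses
import Cfsg.Agent.Classical.Orth.Forms
import Cfsg.Agent.OrthGeo.QuadOdd
import Cfsg.Agent.Jordan.UnipotentElusiveMain


set_option autoImplicit false
open scoped MatrixGroups
open Cfsg

namespace Cfsg.Agent.S5995
open CfsgLib.Jordan CfsgLib.Jordan.UnipotentElusive

/-- A necessary condition for every element of order p of Ω_n(q), nq odd, to fix a hyperbolic `m`-space. Here `T = Ω_n(F)`, `n = 2d+1 ≥ 7`, `q` odd, realised as the commutator subgroup of the isometry group of `Q = x₀² + Σ xᵢyᵢ` over the field `F` with `q` elements (trivial centre, so its elements of prime order `r` are used directly); a nondegenerate `m`-space (even `m`) is a subspace on which the polar form of `Q` is nondegenerate; it is hyperbolic if it contains an `m/2`-dimensional subspace on which `Q` vanishes, elliptic otherwise. Let `m` be even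 with `2 ≤ m ≤ n − 1` and suppose `p` divides the number of hyperbolic `m`-spaces. If every element of `T` of order `p` fixes some hyperbolic `m`-space, then `m ≡ 0 (mod 4)` and every partition of `n` into parts of size at most `p` in which every even part has even multiplicity contains (as a sub-multiset) a partition of `m` in which every even part has even multiplicity. -/
theorem result {F : Type*} [Field F] [Fintype F] {p : ℕ} [Fact p.Prime] [CharP F p] {q : ℕ} (hq : Fintype.card F = q) (hqodd : Odd q)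
    (d m : ℕ) (hd : 3 ≤ d) (hm : 2 ≤ m) (hme : Even m) (hmn : m ≤ 2 * d)
    (hpΩ : p ∣ Nat.card {W : Submodule F (Unit ⊕ (Fin d ⊕ Fin d) → F) // Module.finrank F ↥W = m ∧ Cfsg.Geo.IsNondegenerateOn (QuadraticMap.polar (Cfsg.quadFormOdd d F)) W ∧ Cfsg.Geo.IsPlusTypeOn (Cfsg.quadFormOdd d F) W}) :
    (∀ x : GL (Unit ⊕ (Fin d ⊕ Fin d)) F, x ∈ Cfsg.Geo.omegaGL (Cfsg.quadFormOdd d F) → orderOf x = p →
      ∃ W : Submodule F (Unit ⊕ (Fin d ⊕ Fin d) → F), (Module.finrank F ↥W = m ∧ Cfsg.Geo.IsNondegenerateOn (QuadraticMap.polar (Cfsg.quadFormOdd d F)) W ∧ Cfsg.Geo.IsPlusTypeOn (Cfsg.quadFormOdd d F) W) ∧ W.map (Matrix.toLin' (x : Matrix (Unit ⊕ (Fin d ⊕ Fin d)) (Unit ⊕ (Fin d ⊕ Fin d)) F)) ≤ W) →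
    (m % 4 = 0 ∧ (∀ μ : Multiset ℕ, (∀ e ∈ μ, 0 < e ∧ e ≤ p) → (∀ e : ℕ, Even e → Even (μ.count e)) → μ.sum = 2 * d + 1 →
        ∃ ν : Multiset ℕ, ν ≤ μ ∧ ν.sum = m ∧ ∀ e : ℕ, Even e → Even (ν.count e))) := by
  classical
  intro hfix
  have hp2 : p ≠ 2 := by
    rintro rfl
    have h0 := FiniteField.even_card_of_char_two (F := F) (ringChar.eq F 2)
    rw [hq, Nat.odd_iff.1 hqodd] at h0
    exact one_ne_zero h0
  have h2 : (2 : F) ≠ 0 := fun h => hp2 (((Nat.prime_two).eq_one_or_self_of_dvd p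
    ((CharP.cast_eq_zero_iff F p 2).1 (by simpa using h))).resolve_left (Fact.out : p.Prime).ne_one)
  have hQ := CfsgLib.OrthGeo.isNondegenerateQuadraticForm_quadFormOdd (F := F) d h2
  have hcard : Fintype.card (Unit ⊕ (Fin d ⊕ Fin d)) = 2 * d + 1 := by simp; omega
  have main : ∀ μ : Multiset ℕ, (∀ e ∈ μ, 0 < e ∧ e ≤ p) → (∀ e : ℕ, Even e → Even (μ.count e)) →
      (∃ e ∈ μ, 1 < e) → μ.sum = 2 * d + 1 →
      ∃ ν : Multiset ℕ, ν ≤ μ ∧ ν.sum = m ∧ ∀ e : ℕ, Even e → Even (ν.count e) := by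
    intro μ hle hev hbig hsum
    have hodd : ∃ e ∈ μ, Odd e := by
      by_contra h
      push Not at h
      have : Even μ.sum := Multiset.sum_induction _ _ (fun _ _ h h' => h.add h') ⟨0, rfl⟩
        fun e he => Nat.not_odd_iff_even.1 (h e he)
      rw [hsum, Nat.even_iff] at this
      omega
    obtain ⟨u, hu, hμ⟩ := UnipotentFixed.exists_of_odd_part h2 _ (CfsgLib.OrthGeo.b_symm hQ) (ker_bform hQ)
      (fun e he => (hle e he).1) hev hodd (hsum.trans hcard.symm)
    obtain ⟨x, hx, hxo, -, -, hxu⟩ := exists_element hQ hp2 (by omega) (fun e he => (hle e he).2) hbig hu hμ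
    obtain ⟨W, ⟨hWm, hWn, -⟩, hW⟩ := hfix x hx hxo
    obtain ⟨ν, hν, hs, he, -⟩ := fixed_type hQ h2 hxu hu hμ hWn hW
    exact ⟨ν, hν, hs.trans hWm, he⟩
  refine ⟨?_, fun μ hle hev hsum => ?_⟩
  · obtain ⟨α, j, hαo, hα3, hαn, hj⟩ : ∃ α j : ℕ, Odd α ∧ α ≤ 3 ∧ α + 4 * j = 2 * d + 1 ∧ 1 ≤ j := by
      rcases Nat.even_or_odd d with ⟨k, hk⟩ | ⟨k, hk⟩
      · exact ⟨1, k, by decide, by omega, by omega, by omega⟩
      · exact ⟨3, k, by decide, le_rfl, by omega, by omega⟩
    have h3 : 3 ≤ p := by have := (Fact.out : p.Prime).two_le; omega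
    obtain ⟨ν, hν, hs, he⟩ := main (Multiset.replicate (2 * j) 2 + {α}) (fun e h => by
        rcases Multiset.mem_add.1 h with h | h
        · rw [Multiset.eq_of_mem_replicate h]; omega
        · rw [Multiset.mem_singleton.1 h]; exact ⟨hαo.pos, by omega⟩)
      (fun e h => by
        rw [Multiset.count_add, Multiset.count_replicate, Multiset.count_singleton,
          if_neg (fun h' : e = α => Nat.not_even_iff_odd.2 hαo (h' ▸ h)), add_zero]
        split_ifs
        · exact even_two_mul j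
        · exact ⟨0, rfl⟩)
      ⟨2, Multiset.mem_add.2 (Or.inl (Multiset.mem_replicate.2 ⟨by omega, rfl⟩)), one_lt_two⟩
      (by simp; omega)
    obtain ⟨i, T, hT, hsT, -⟩ := twos_split (fun e h => by
      rw [Multiset.mem_singleton.1 h]; obtain ⟨k, hk⟩ := hαo; omega) hν (he 2 even_two)
    rcases Multiset.le_singleton.1 hT with rfl | rfl
    · simp at hsT; omega
    · rw [Multiset.sum_singleton] at hsT
      obtain ⟨k, hk⟩ := hαo
      obtain ⟨l, hl⟩ := hme
      omega
  by_cases hbig : ∃ e ∈ μ, 1 < e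
  · exact main μ hle hev hbig hsum
  · exact of_all_ones (fun e he => (hle e he).1) hbig (by omega)

end Cfsg.Agent.S5995
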