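import Cfsg.Statements.S5996
import Cfsg.Agent.Eq.Def_Classical
import Cfsg.Agent.Eq.Def_ClassicalGeometry
import Cfsg.Agent.Eq.Def_GeometricClasses
import Cfsg.Agent.Classical.Orth.Forms
import Cfsg.Agent.OrthGeo.QuadOdd
import Cfsg.Agent.Jordan.UnipotentElusiveMain
import Cfsg.Agent.S2620
import Cfsg.Agent.S2621


set_option autoImplicit false
open scoped MatrixGroups
open Cfsg

namespace Cfsg.Agent.S5996
open CfsgLib.Jordan CfsgLib.Jordan.UnipotentElusive

/-- A necessary condition for every element of order p of PΩ⁺_n(q), q odd, to fix a hyperbolic `m`-space. Here `T = PΩ⁺_n(F)`, `n = 2d ≥ 8`, realised through `Ω⁺_n(q)`, the commutator subgroup of the isometry group of `Q = Σ xᵢyᵢ` over the field `F` with `q` elements; an element of `T` of prime order `r` is an element `x` of `Ω⁺_n(q)` with `x^r` scalar and `x` not scalar; `q` is odd; a nondegenerate `m`-space (even `m`) is a subspace on which the polar form of `Q` is nondegenerate; it is hyperbolic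 if it contains an `m/2`-dimensional subspace on which `Q` vanishes, elliptic otherwise. Let `m` be even with `2 ≤ m < n/2` and suppose `p` divides the number of hyperbolic `m`-spaces. If every element of `T` of order `p` fixes some hyperbolic `m`-space, then every partition of `n` into parts of size at most `p` in which every even part has even multiplicity contains (as a sub-multiset) a partition of `m` in which every even part has even multiplicity. -/
theorem result {F : Type*} [Field F] [Fintype F] {p : ℕ} [Fact p.Prime] [CharP F p] {q : ℕ} (hq : Fintype.card F = q) (hqodd : Odd q)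
    (d m : ℕ) (hd : 4 ≤ d) (hm : 2 ≤ m) (hme : Even m) (hmd : m < d)
    (hpΩ : p ∣ Nat.card {W : Submodule F (Fin d ⊕ Fin d → F) // Module.finrank F ↥W = m ∧ Cfsg.Geo.IsNondegenerateOn (QuadraticMap.polar (Cfsg.quadFormPlus d F)) W ∧ Cfsg.Geo.IsPlusTypeOn (Cfsg.quadFormPlus d F) W}) :
    (∀ x : GL (Fin d ⊕ Fin d) F, x ∈ Cfsg.Geo.omegaGL (Cfsg.quadFormPlus d F) →
      (∃ z : F, ((x ^ p : GL (Fin d ⊕ Fin d) F) : Matrix (Fin d ⊕ Fin d) (Fin d ⊕ Fin d) F) = z • (1 : Matrix (Fin d ⊕ Fin d) (Fin d ⊕ Fin d) F)) →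
      (∀ z : F, (x : Matrix (Fin d ⊕ Fin d) (Fin d ⊕ Fin d) F) ≠ z • (1 : Matrix (Fin d ⊕ Fin d) (Fin d ⊕ Fin d) F)) →
      ∃ W : Submodule F (Fin d ⊕ Fin d → F), (Module.finrank F ↥W = m ∧ Cfsg.Geo.IsNondegenerateOn (QuadraticMap.polar (Cfsg.quadFormPlus d F)) W ∧ Cfsg.Geo.IsPlusTypeOn (Cfsg.quadFormPlus d F) W) ∧ W.map (Matrix.toLin' (x : Matrix (Fin d ⊕ Fin d) (Fin d ⊕ Fin d) F)) ≤ W) →
    (∀ μ : Multiset ℕ, (∀ e ∈ μ, 0 < e ∧ e ≤ p) → (∀ e : ℕ, Even e → Even (μ.count e)) → μ.sum = 2 * d →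
        ∃ ν : Multiset ℕ, ν ≤ μ ∧ ν.sum = m ∧ ∀ e : ℕ, Even e → Even (ν.count e)) := by
  classical
  intro hfix
  have hp2 : p ≠ 2 := by
    rintro rfl
    have h0 := FiniteField.even_card_of_char_two (F := F) (ringChar.eq F 2)
    rw [hq, Nat.odd_iff.1 hqodd] at h0
    exact one_ne_zero h0
  have h2 : (2 : F) ≠ 0 := fun h => hp2 (((Nat.prime_two).eq_one_or_self_of_dvd p
    ((CharP.cast_eq_zero_iff F p 2).1 (by simpa using h))).resolve_left (Fact.out : p.Prime).ne_one)
  have hQ := CfsgLib.Classical.Orth.isNondegQF_quadFormPlus (F := F) d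
  have hcard : Fintype.card (Fin d ⊕ Fin d) = 2 * d := by simp; omega
  intro μ hle hev hsum
  by_cases hbig : ∃ e ∈ μ, 1 < e
  swap
  · exact of_all_ones (fun e he => (hle e he).1) hbig (by omega)
  obtain ⟨u, hu, hμ⟩ : ∃ u : Module.End F (Fin d ⊕ Fin d → F),
      (∀ x y, CfsgLib.OrthGeo.bform hQ (u x) (u y) = CfsgLib.OrthGeo.bform hQ x y) ∧
        CfsgLib.Jordan.Pieces.HasChain (u - 1) μ := by
    by_cases hodd : ∃ e ∈ μ, Odd e
    · exact UnipotentFixed.exists_of_odd_part h2 _ (CfsgLib.OrthGeo.b_symm hQ) (ker_bform hQ)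
        (fun e he => (hle e he).1) hev hodd (hsum.trans hcard.symm)
    push Not at hodd
    refine UnipotentFixed.exists_of_even_parts h2 _ (CfsgLib.OrthGeo.b_symm hQ) (ker_bform hQ)
      (fun e he => (hle e he).1) hev (fun e he => Nat.not_odd_iff_even.1 (hodd e he)) (hsum.trans hcard.symm)
      hcard ?_
    have h := Cfsg.Agent.S2620.result (F := F) hq hqodd (m := d) (by omega) (Pi.basisFun F (Fin d ⊕ Fin d))
    rw [← Cfsg.Agent.S2621.neg_one_pow_isSquare hq hqodd] at h
    by_cases h1 : IsSquare ((-1 : F) ^ d)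
    · exact h1.mul (h.2 h1)
    · exact Cfsg.Agent.S2621.nonsquare_mul _ _ h1 (fun h' => h1 (h.1 h'))
  obtain ⟨x, hx, -, hxz, hxne, hxu⟩ := exists_element hQ hp2 (by omega) (fun e he => (hle e he).2) hbig hu hμ
  obtain ⟨W, ⟨hWm, hWn, -⟩, hW⟩ := hfix x hx hxz hxne
  obtain ⟨ν, hν, hs, he, -⟩ := fixed_type hQ h2 hxu hu hμ hWn hW
  exact ⟨ν, hν, hs.trans hWm, he⟩

end Cfsg.Agent.S5996
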