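import Cfsg.Statements.S5998
import Cfsg.Agent.Classical.PrimeDerangement.Three
import Cfsg.Agent.Classical.PrimeDerangement.Orders

set_option autoImplicit false
open scoped MatrixGroups
open Cfsg

namespace Cfsg.Agent.S5998

open CfsgLib.Classical.PrimeDerangement

theorem arith : ∀ x : ZMod 81, (x.val % 9 = 4 ∨ x.val % 9 = 7) → (x ^ 3 - 1) * (x ^ 3 - x) * x ^ 2 ≠ 0 := by
  decide +kernel

theorem not_dvd_81 {p : ℕ} (hp : 7 ≤ p) (h : p % 9 = 4 ∨ p % 9 = 7) :
    ¬ 81 ∣ (p ^ 3 - 1) * (p ^ 3 - p) * p ^ 2 := by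
  intro hd
  refine arith (p : ZMod 81) (by rwa [ZMod.val_natCast, Nat.mod_mod_of_dvd p (by norm_num : 9 ∣ 81)]) ?_
  have h1 := (ZMod.natCast_eq_zero_iff _ 81).2 hd
  rwa [Nat.cast_mul, Nat.cast_mul, Nat.cast_sub (Nat.one_le_pow _ _ (by omega)),
    Nat.cast_sub (Nat.le_self_pow (by norm_num) p), Nat.cast_pow, Nat.cast_pow, Nat.cast_one] at h1

/-- Elements of prime order of PSL_3(p), p ≡ 1 (mod 3), and the normalizer of an extraspecial subgroup of order 27. Here `T = PSL_3(F)` for the field `F` with `p` elements, `p` a prime with `p ≡ 1 (mod 3)`; `R` is a non-abelian subgroup of GL_3(F) of order 27 and exponent 3 (an extraspecial group 3^{1+2}, acting absolutely irreducibly), and `H` is the subgroup of matrices of determinant 1 normalizing `R` — a subgroup of type 3^{1+2}.Sp₂(3) (maximality is not assumed). Ω is the set of cosets of `H` in `T`, so an element of `T` of prime order `r` (a matrix `x` of determinant 1 with `x^r` scalar, `x` not scalar) fixes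 a point of Ω exactly when some conjugate of `x` by a matrix of determinant 1 normalizes `R`. Let `r` be a prime dividing the index of `H`. Then every element of `T` of order `r` fixes a point of Ω if and only if `r = 2`, or `r = 3` and `p ≡ 1 (mod 9)`. -/
theorem result {F : Type*} [Field F] [Fintype F] {p : ℕ} [Fact p.Prime] [CharP F p] (hF : Fintype.card F = p) (hp3 : p % 3 = 1)
    (R : Subgroup (GL (Fin 3) F)) (hR : Nat.card R = 27) (hRe : Monoid.exponent R = 3) (hRna : ¬ IsMulCommutative R)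
    (r : ℕ) [Fact r.Prime]
    (hΩ : r ∣ (Cfsg.Geo.subgroupNormalizer R).relIndex (Cfsg.Geo.specialLinear (Fin 3) F)) :
    (∀ x ∈ Cfsg.Geo.specialLinear (Fin 3) F, (∃ z : F, ((x ^ r : GL (Fin 3) F) : Matrix (Fin 3) (Fin 3) F) = z • (1 : Matrix (Fin 3) (Fin 3) F)) →
      (∀ z : F, (x : Matrix (Fin 3) (Fin 3) F) ≠ z • (1 : Matrix (Fin 3) (Fin 3) F)) →
      ∃ g ∈ Cfsg.Geo.specialLinear (Fin 3) F, g⁻¹ * x * g ∈ Cfsg.Geo.subgroupNormalizer R) ↔ (r = 2 ∨ (r = 3 ∧ p % 9 = 1)) := by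
  have hp := (Fact.out : p.Prime)
  have hp7 : 7 ≤ p := by
    by_contra h
    have : p < 7 := by omega
    interval_cases p <;> first | omega | exact absurd hp (by decide)
  have hne : ∀ k : ℕ, 0 < k → k < p → (k : F) ≠ 0 := fun k hk hk' h =>
    absurd (Nat.le_of_dvd hk ((CharP.cast_eq_zero_iff F p k).1 h)) (by omega)
  have hcu : Nat.card Fˣ = p - 1 := by rw [Nat.card_units, Nat.card_eq_fintype_card, hF]
  obtain ⟨ω, hω, h9⟩ : ∃ ω : Fˣ, IsPrimitiveRoot ω 3 ∧ (p % 9 = 1 → ∃ ν : Fˣ, ν ^ 3 = ω) := by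
    by_cases hn : p % 9 = 1
    · obtain ⟨ν, hν⟩ := exists_primitive_of_dvd (F := F) (d := 9) (by rw [hcu]; omega)
      exact ⟨ν ^ 3, hν.pow (by norm_num) (by norm_num), fun _ => ⟨ν, rfl⟩⟩
    · obtain ⟨ω, hω⟩ := exists_primitive_of_dvd (F := F) (d := 3) (by rw [hcu]; omega)
      exact ⟨ω, hω, fun h => absurd h hn⟩
  have h := Three.main (linearAmbient F 3) hω (Subgroup.mem_top _) (by exact_mod_cast hne 3 (by norm_num) (by omega))
    (by exact_mod_cast hne 2 (by norm_num) (by omega)) (Subgroup.mem_top _) (p % 9 = 1)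
    (fun hn => (h9 hn).imp fun ν hν => ⟨Subgroup.mem_top _, hν⟩)
    (fun hn => by
      show ¬ 81 ∣ Nat.card ↥((⊤ : Subgroup (GL (Fin 3) F)) ⊓ _)
      rw [top_inf_eq, natCard_specialLinear_three, hF]
      exact not_dvd_81 hp7 (by omega))
    (R := R) le_top hR hRe hRna r
  simp only [linearAmbient, top_inf_eq] at h
  exact h hΩ

end Cfsg.Agent.S5998
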