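import Cfsg.Statements.S5999
import Cfsg.Agent.Classical.PrimeDerangement.Three
import Cfsg.Agent.Classical.PrimeDerangement.Orders

set_option autoImplicit false
open scoped MatrixGroups
open Cfsg

namespace Cfsg.Agent.S5999

open CfsgLib.Classical.PrimeDerangement

theorem arith : ∀ x : ZMod 81, (x.val % 9 = 2 ∨ x.val % 9 = 5) → x ^ 3 * (x ^ 2 - 1) * (x ^ 3 + 1) ≠ 0 := by
  decide +kernel

theorem not_dvd_81 {p : ℕ} (hp : 5 ≤ p) (h : p % 9 = 2 ∨ p % 9 = 5) :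
    ¬ 81 ∣ p ^ 3 * (p ^ 2 - 1) * (p ^ 3 + 1) := by
  intro hd
  refine arith (p : ZMod 81) (by rwa [ZMod.val_natCast, Nat.mod_mod_of_dvd p (by norm_num : 9 ∣ 81)]) ?_
  have h1 := (ZMod.natCast_eq_zero_iff _ 81).2 hd
  rwa [Nat.cast_mul, Nat.cast_mul, Nat.cast_sub (Nat.one_le_pow _ _ (by omega)), Nat.cast_add,
    Nat.cast_pow, Nat.cast_pow, Nat.cast_one] at h1

/-- Elements of prime order of PSU_3(p), p ≡ 2 (mod 3), and the normalizer of an extraspecial subgroup of order 27. Here `T = PSU_3(p)` for a prime `p ≥ 5` with `p ≡ 2 (mod 3)`, realised through `SU_3(p)`, the matrices of determinant 1 over the field `F` with `p²` elements preserving the hermitian form `Σ uᵢvᵢ^p`; `R` is a non-abelian subgroup of order 27 and exponent 3 of the full unitary group of that form (an extraspecial group 3^{1+2}, acting absolutely irreducibly), and `H` is the subgroup of `SU_3(p)` normalizing `R` — a subgroup of type 3^{1+2}.Sp₂(3)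 (maximality is not assumed). Ω is the set of cosets of `H`, so an element of `T` of prime order `r` (`x ∈ SU_3(p)` with `x^r` scalar, `x` not scalar) fixes a point of Ω exactly when some `SU_3(p)`-conjugate of `x` normalizes `R`. Let `r` be a prime dividing the index of `H`. Then every element of `T` of order `r` fixes a point of Ω if and only if `r = 2`, or `r = 3` and `p ≡ 8 (mod 9)`. -/
theorem result {F : Type*} [Field F] [Fintype F] {p : ℕ} [Fact p.Prime] [CharP F p] (hF : Fintype.card F = p ^ 2) (hp : 5 ≤ p) (hp3 : p % 3 = 2)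
    (R : Subgroup (GL (Fin 3) F)) (hRU : R ≤ Cfsg.GU 3 F p) (hR : Nat.card R = 27) (hRe : Monoid.exponent R = 3) (hRna : ¬ IsMulCommutative R)
    (r : ℕ) [Fact r.Prime]
    (hΩ : r ∣ (Cfsg.Geo.subgroupNormalizer R).relIndex (Cfsg.GU 3 F p ⊓ Cfsg.Geo.specialLinear (Fin 3) F)) :
    (∀ x ∈ Cfsg.GU 3 F p ⊓ Cfsg.Geo.specialLinear (Fin 3) F, (∃ z : F, ((x ^ r : GL (Fin 3) F) : Matrix (Fin 3) (Fin 3) F) = z • (1 : Matrix (Fin 3) (Fin 3) F)) →
      (∀ z : F, (x : Matrix (Fin 3) (Fin 3) F) ≠ z • (1 : Matrix (Fin 3) (Fin 3) F)) →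
      ∃ g ∈ Cfsg.GU 3 F p ⊓ Cfsg.Geo.specialLinear (Fin 3) F, g⁻¹ * x * g ∈ Cfsg.Geo.subgroupNormalizer R) ↔ (r = 2 ∨ (r = 3 ∧ p % 9 = 8)) := by
  have hp' := (Fact.out : p.Prime)
  have hne : ∀ k : ℕ, 0 < k → k < p → (k : F) ≠ 0 := fun k hk hk' h =>
    absurd (Nat.le_of_dvd hk ((CharP.cast_eq_zero_iff F p k).1 h)) (by omega)
  have hcu : p + 1 ∣ Nat.card Fˣ := by
    rw [Nat.card_units, Nat.card_eq_fintype_card, hF]
    exact ⟨p - 1, by rw [show p ^ 2 - 1 = p ^ 2 - 1 ^ 2 by rw [one_pow], Nat.sq_sub_sq]⟩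
  have hmem : ∀ {d : ℕ} {x : Fˣ}, d ∣ p + 1 → IsPrimitiveRoot x d →
      x ∈ (powMonoidHom (p + 1) : Fˣ →* Fˣ).ker := fun hd hx =>
    MonoidHom.mem_ker.2 ((hx.pow_eq_one_iff_dvd _).2 hd)
  obtain ⟨ω, hω, hωn, h9⟩ : ∃ ω : Fˣ, IsPrimitiveRoot ω 3 ∧ ω ∈ (powMonoidHom (p + 1) : Fˣ →* Fˣ).ker ∧
      (p % 9 = 8 → ∃ ν : Fˣ, ν ∈ (powMonoidHom (p + 1) : Fˣ →* Fˣ).ker ∧ ν ^ 3 = ω) := by
    by_cases hn : p % 9 = 8
    · have h9' : 9 ∣ p + 1 := by omega
      obtain ⟨ν, hν⟩ := exists_primitive_of_dvd (F := F) (h9'.trans hcu)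
      have h3' : IsPrimitiveRoot (ν ^ 3) 3 := hν.pow (by norm_num) (by norm_num)
      exact ⟨ν ^ 3, h3', hmem (by omega) h3', fun _ => ⟨ν, hmem h9' hν, rfl⟩⟩
    · have h3' : 3 ∣ p + 1 := by omega
      obtain ⟨ω, hω⟩ := exists_primitive_of_dvd (F := F) (h3'.trans hcu)
      exact ⟨ω, hω, hmem h3' hω, fun h => absurd h hn⟩
  have hodd : Even (p + 1) := (hp'.odd_of_ne_two (by omega)).add_one
  exact Three.main (unitaryAmbient hF 3) hω hωn (by exact_mod_cast hne 3 (by norm_num) (by omega))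
    (by exact_mod_cast hne 2 (by norm_num) (by omega)) (MonoidHom.mem_ker.2 hodd.neg_one_pow) (p % 9 = 8)
    h9
    (fun hn => by
      show ¬ 81 ∣ Nat.card ↥(GU 3 F p ⊓ _)
      rw [natCard_GU_inf_specialLinear_three hF]
      exact not_dvd_81 hp (by omega))
    (R := R) hRU hR hRe hRna r hΩ

end Cfsg.Agent.S5999
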