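import Cfsg.Statements.S6000
import Cfsg.Agent.Classical.PrimeDerangement.Sympl.Criterion

set_option autoImplicit false
open scoped MatrixGroups
open Cfsg

namespace Cfsg.Agent.S6000

open CfsgLib.Classical.PrimeDerangement CfsgLib.Classical.PrimeDerangement.Sympl

/-- Elements of prime order of PSL_4(p), p ≡ 1 (mod 4), and the normalizer of a 2-group of symplectic type of order 2⁶. Here `T = PSL_4(F)` for the field `F` with `p` elements, `p` a prime with `p ≡ 1 (mod 4)`; `R` is an absolutely irreducible subgroup of GL_4(F) of order 2⁶ that is a 2-group of symplectic type of exponent 4 with centre of order 4 (the central product of the scalars of order 4 with an extraspecial group 2^{1+4}), and `H` is the subgroup of matrices of determinant 1 normalizing `R` — a subgroup of type 2⁴.Sp₄(2) (maximality is not assumed). Ω is the set of cosets of `H` in `T`, so an element of `T` of prime order `r` (a matrix `x` of determinant 1 with `x^r` scalar, `x` not scalar) fixes a point of Ω exactly when some conjugate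 of `x` by a matrix of determinant 1 normalizes `R`. Let `r` be a prime dividing the index of `H`. Then every element of `T` of order `r` fixes a point of Ω if and only if `r = 2`, or `r = 3` and `p ≡ 2 (mod 3)`, or `r = 5` and `p ≡ ±2 (mod 5)` (`p` has multiplicative order 4 modulo 5). -/
theorem result {F : Type*} [Field F] [Fintype F] {p : ℕ} [Fact p.Prime] [CharP F p] (hF : Fintype.card F = p) (hp4 : p % 4 = 1)
    (R : Subgroup (GL (Fin 4) F)) (hR : Cfsg.Geo.IsLinearSymplecticTypeData 2 R) (hR6 : Nat.card R = 2 ^ 6)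
    (r : ℕ) [Fact r.Prime]
    (hΩ : r ∣ (Cfsg.Geo.subgroupNormalizer R).relIndex (Cfsg.Geo.specialLinear (Fin 4) F)) :
    (∀ x ∈ Cfsg.Geo.specialLinear (Fin 4) F, (∃ z : F, ((x ^ r : GL (Fin 4) F) : Matrix (Fin 4) (Fin 4) F) = z • (1 : Matrix (Fin 4) (Fin 4) F)) →
      (∀ z : F, (x : Matrix (Fin 4) (Fin 4) F) ≠ z • (1 : Matrix (Fin 4) (Fin 4) F)) →
      ∃ g ∈ Cfsg.Geo.specialLinear (Fin 4) F, g⁻¹ * x * g ∈ Cfsg.Geo.subgroupNormalizer R) ↔ (r = 2 ∨ (r = 3 ∧ p % 3 = 2) ∨ (r = 5 ∧ orderOf (p : ZMod 5) = 4)) := by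
  haveI : Nonempty (Fin 4) := ⟨0⟩
  obtain ⟨p', e, hne, -, hc⟩ := hR.field
  have hZ : Nat.card (Subgroup.center R) = 4 := by
    rcases hc with ⟨ho, -⟩ | ⟨-, -, hZ, -⟩ | ⟨-, -, hι, -⟩
    · exact absurd ho (by decide)
    · exact hZ
    · simp at hι
  haveI : Finite R := inferInstance
  have hp2 : p ≠ 2 := by omega
  have h := criterion (linearSys hF hp2) (R := R) le_top (data_of hR.symplecticType hR.absIrred) (by rw [hR6]; norm_num)
    hZ (show 4 ∣ p - 1 by omega) r
  simp only [Sys.H, linearSys, linearAmbient, top_inf_eq] at h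
  refine (h hΩ).trans ?_
  have hiff : (¬ 3 ∣ p - 1 ∧ p ≠ 3) ↔ p % 3 = 2 := by
    constructor
    · intro hh
      have : p % 3 ≠ 0 := fun h0 => hh.2 ((Nat.prime_dvd_prime_iff_eq Nat.prime_three Fact.out).1 (Nat.dvd_of_mod_eq_zero h0)).symm
      omega
    · omega
  rw [hiff]

end Cfsg.Agent.S6000
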